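import Mathlib
import Cfsg.Agent.Lib.H5Basic

/-! Conjugacy of abelian Hall subgroups (helper4). -/

namespace Cfsg.Agent.Lib.AbHall

universe u

theorem card_eq_mul_card_map {C : Type*} [Group C] [Finite C] (N L : Subgroup C) [hN : N.Normal] (hNL : N ≤ L) :
    Nat.card L = Nat.card N * Nat.card (L.map (QuotientGroup.mk' N)) := by
  have hker : (QuotientGroup.mk' N).ker = N := QuotientGroup.ker_mk' N
  have hs : Function.Surjective (QuotientGroup.mk' N) := QuotientGroup.mk'_surjective N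
  have h1 : (L.map (QuotientGroup.mk' N)).index = L.index := by
    have h2 := Subgroup.index_map L (QuotientGroup.mk' N)
    rw [hker, sup_eq_left.mpr hNL, MonoidHom.range_eq_top.mpr hs, Subgroup.index_top, mul_one] at h2
    exact h2
  have h3 := Subgroup.card_mul_index (L.map (QuotientGroup.mk' N))
  have h4 := Subgroup.card_mul_index L
  have h5 := Subgroup.card_mul_index N
  have h6 : Nat.card (C ⧸ N) = N.index := rfl
  rw [h6, h1] at h3
  have hpos : 0 < L.index := Nat.pos_of_ne_zero Subgroup.index_ne_zero_of_finite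
  apply Nat.eq_of_mul_eq_mul_right hpos
  rw [h4, mul_assoc, h3, h5]

theorem ab_hall_conj : ∀ (n : ℕ) (G : Type u) [Group G] [Finite G], Nat.card G = n →
    ∀ H K : Subgroup G, (∀ a ∈ H, ∀ b ∈ H, a * b = b * a) → (∀ a ∈ K, ∀ b ∈ K, a * b = b * a) →
      Nat.card H = Nat.card K → Nat.Coprime (Nat.card H) H.index →
      ∃ g : G, ∀ x ∈ H, g * x * g⁻¹ ∈ K := by
  classical
  intro n
  induction n using Nat.strong_induction_on with
  | _ n IH =>
  intro G _ _ hn H K hHc hKc hcard hcop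
  by_cases h1 : Nat.card H = 1
  · refine ⟨1, fun x hx => ?_⟩
    have : H = ⊥ := (Subgroup.eq_bot_iff_card H).mpr h1
    rw [this] at hx
    rw [Subgroup.mem_bot.mp hx]
    simp
  obtain ⟨p, hp, hpd⟩ := Nat.exists_prime_and_dvd h1
  haveI : Fact p.Prime := ⟨hp⟩
  obtain ⟨P₀⟩ : Nonempty (Sylow p H) := inferInstance
  obtain ⟨Q₀⟩ : Nonempty (Sylow p K) := inferInstance
  let P : Subgroup G := (P₀ : Subgroup H).map H.subtype
  let Q : Subgroup G := (Q₀ : Subgroup K).map K.subtype
  have hPH : P ≤ H := by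
    rintro _ ⟨a, _, rfl⟩
    exact a.2
  have hQK : Q ≤ K := by
    rintro _ ⟨a, _, rfl⟩
    exact a.2
  have hPp : IsPGroup p P := P₀.isPGroup'.map H.subtype
  have hQp : IsPGroup p Q := Q₀.isPGroup'.map K.subtype
  have hPc : Nat.card P = p ^ (Nat.card H).factorization p := by
    rw [show P = (P₀ : Subgroup H).map H.subtype from rfl,
      Subgroup.card_map_of_injective H.subtype_injective]
    exact P₀.card_eq_multiplicity
  have hQc : Nat.card Q = p ^ (Nat.card H).factorization p := by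
    rw [show Q = (Q₀ : Subgroup K).map K.subtype from rfl,
      Subgroup.card_map_of_injective K.subtype_injective, hcard]
    exact Q₀.card_eq_multiplicity
  have hnd : ¬ p ∣ H.index := by
    intro h
    exact hp.one_lt.ne' (Nat.dvd_one.mp (hcop ▸ Nat.dvd_gcd hpd h))
  have hGcard : Nat.card G = Nat.card H * H.index := (Subgroup.card_mul_index H).symm
  have hindexeq : K.index = H.index := by
    have h2 := Subgroup.card_mul_index K
    rw [← hcard, hGcard] at h2
    exact Nat.eq_of_mul_eq_mul_left Nat.card_pos h2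
  -- `P`, `Q` are Sylow
  have hPidx : ¬ p ∣ P.index := by
    have h2 : (P.relIndex H) * H.index = P.index := Subgroup.relIndex_mul_index hPH
    rw [← h2]
    intro h3
    rcases hp.dvd_mul.mp h3 with h4 | h4
    · have h5 : P.relIndex H = (P₀ : Subgroup H).index := by
        rw [Subgroup.relIndex, show P.subgroupOf H = (P₀ : Subgroup H) from
          Subgroup.comap_map_eq_self_of_injective H.subtype_injective _]
      rw [h5] at h4
      exact P₀.not_dvd_index h4
    · exact hnd h4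
  have hQidx : ¬ p ∣ Q.index := by
    have h2 : (Q.relIndex K) * K.index = Q.index := Subgroup.relIndex_mul_index hQK
    rw [← h2, hindexeq]
    intro h3
    rcases hp.dvd_mul.mp h3 with h4 | h4
    · have h5 : Q.relIndex K = (Q₀ : Subgroup K).index := by
        rw [Subgroup.relIndex, show Q.subgroupOf K = (Q₀ : Subgroup K) from
          Subgroup.comap_map_eq_self_of_injective K.subtype_injective _]
      rw [h5] at h4
      exact Q₀.not_dvd_index h4
    · exact hnd h4
  let SP : Sylow p G := hPp.toSylow hPidx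
  let SQ : Sylow p G := hQp.toSylow hQidx
  obtain ⟨g, hg⟩ := MulAction.exists_smul_eq G SQ SP
  -- conjugate `K`
  let K' : Subgroup G := K.map (MulAut.conj g).toMonoidHom
  have hK'mem : ∀ x, x ∈ K' → g⁻¹ * x * g ∈ K := by
    rintro _ ⟨k, hk, rfl⟩
    simpa [MulAut.conj_apply, mul_assoc] using hk
  have hK'mem' : ∀ x, g⁻¹ * x * g ∈ K → x ∈ K' := by
    intro x hx
    refine ⟨_, hx, ?_⟩
    simp [MulAut.conj_apply, mul_assoc]
  have hPK' : P ≤ K' := by
    intro x hx
    apply hK'mem'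
    have h2 : x ∈ ((g • SQ : Sylow p G) : Subgroup G) := by
      rw [hg]
      exact hx
    exact hQK (Cfsg.Agent.Lib.H5Basic.mem_of_mem_smul_sylow SQ g x h2)
  have hK'c : ∀ a ∈ K', ∀ b ∈ K', a * b = b * a := by
    rintro _ ⟨a, ha, rfl⟩ _ ⟨b, hb, rfl⟩
    simp only [MulEquiv.coe_toMonoidHom, ← map_mul, hKc a ha b hb]
  have hK'card : Nat.card K' = Nat.card H := by
    rw [show K' = K.map (MulAut.conj g).toMonoidHom from rfl,
      Subgroup.card_map_of_injective (MulAut.conj g).injective, hcard]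
  let C : Subgroup G := Subgroup.centralizer (P : Set G)
  have hHC : H ≤ C := by
    intro x hx
    rw [Subgroup.mem_centralizer_iff]
    intro y hy
    exact hHc y (hPH hy) x hx
  have hK'C : K' ≤ C := by
    intro x hx
    rw [Subgroup.mem_centralizer_iff]
    intro y hy
    exact hK'c y (hPK' hy) x hx
  have hPC : P ≤ C := hPH.trans hHC
  let P' : Subgroup C := P.subgroupOf C
  haveI hP'n : P'.Normal := Subgroup.normal_subgroupOf_of_le_normalizer
    (Subgroup.centralizer_le_normalizer (P : Set G))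
  let H₁ : Subgroup C := H.subgroupOf C
  let K₁ : Subgroup C := K'.subgroupOf C
  have hP'H₁ : P' ≤ H₁ := fun x hx => hPH hx
  have hP'K₁ : P' ≤ K₁ := fun x hx => hPK' hx
  have hH₁c : Nat.card H₁ = Nat.card H := Nat.card_congr (Subgroup.subgroupOfEquivOfLe hHC).toEquiv
  have hK₁c : Nat.card K₁ = Nat.card H := by
    rw [← hK'card]
    exact Nat.card_congr (Subgroup.subgroupOfEquivOfLe hK'C).toEquiv
  let π : C →* C ⧸ P' := QuotientGroup.mk' P'
  let Hb : Subgroup (C ⧸ P') := H₁.map π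
  let Kb : Subgroup (C ⧸ P') := K₁.map π
  have hHbc := card_eq_mul_card_map P' H₁ hP'H₁
  have hKbc := card_eq_mul_card_map P' K₁ hP'K₁
  have hP'c : Nat.card P' = Nat.card P := Nat.card_congr (Subgroup.subgroupOfEquivOfLe hPC).toEquiv
  have hP1 : 1 < Nat.card P := by
    rw [hPc]
    exact Nat.one_lt_pow ((hp.factorization_pos_of_dvd Nat.card_pos.ne' hpd).ne') hp.one_lt
  have hcards : Nat.card Hb = Nat.card Kb := by
    have h2 : Nat.card P' * Nat.card Hb = Nat.card P' * Nat.card Kb := by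
      rw [← show Nat.card H₁ = _ from hHbc, ← show Nat.card K₁ = _ from hKbc, hH₁c, hK₁c]
    exact Nat.eq_of_mul_eq_mul_left Nat.card_pos h2
  have hlt : Nat.card (C ⧸ P') < n := by
    have h2 := Subgroup.card_mul_index P'
    have h3 : Nat.card C ≤ Nat.card G := Subgroup.card_le_card_group C
    have h4 : Nat.card (C ⧸ P') = P'.index := rfl
    rw [h4, ← hn]
    rw [hP'c] at h2
    have h5 : 0 < P'.index := Nat.pos_of_ne_zero Subgroup.index_ne_zero_of_finite
    nlinarith
  have hHbcomm : ∀ a ∈ Hb, ∀ b ∈ Hb, a * b = b * a := by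
    rintro _ ⟨a, ha, rfl⟩ _ ⟨b, hb, rfl⟩
    rw [← map_mul, ← map_mul]
    congr 1
    exact Subtype.ext (hHc _ ha _ hb)
  have hKbcomm : ∀ a ∈ Kb, ∀ b ∈ Kb, a * b = b * a := by
    rintro _ ⟨a, ha, rfl⟩ _ ⟨b, hb, rfl⟩
    rw [← map_mul, ← map_mul]
    congr 1
    exact Subtype.ext (hK'c _ ha _ hb)
  have hidxb : Hb.index = H₁.index := by
    have h2 := Subgroup.index_map H₁ π
    have hker : π.ker = P' := QuotientGroup.ker_mk' P'
    rw [hker, sup_eq_left.mpr hP'H₁,
      MonoidHom.range_eq_top.mpr (QuotientGroup.mk'_surjective P'), Subgroup.index_top, mul_one] at h2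
    exact h2
  have hcopb : Nat.Coprime (Nat.card Hb) Hb.index := by
    rw [hidxb]
    have h2 : Nat.card Hb ∣ Nat.card H := by
      rw [← hH₁c, hHbc]
      exact Dvd.intro_left _ rfl
    have h3 : H₁.index ∣ H.index := ⟨C.index, (Subgroup.relIndex_mul_index hHC).symm⟩
    exact Nat.Coprime.coprime_dvd_left h2 (Nat.Coprime.coprime_dvd_right h3 hcop)
  obtain ⟨cb, hcb⟩ := IH _ hlt (C ⧸ P') rfl Hb Kb hHbcomm hKbcomm hcards hcopb
  obtain ⟨c, rfl⟩ := QuotientGroup.mk'_surjective P' cb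
  refine ⟨g⁻¹ * c, fun x hx => ?_⟩
  have hxC : x ∈ C := hHC hx
  have h2 := hcb (π ⟨x, hxC⟩) ⟨⟨x, hxC⟩, hx, rfl⟩
  obtain ⟨k, hk, hke⟩ := h2
  have h3 : k⁻¹ * (c * ⟨x, hxC⟩ * c⁻¹) ∈ P' := by
    apply QuotientGroup.eq.mp
    rw [show ((k : C) : C ⧸ P') = π k from rfl, hke]
    rfl
  have h4 : (c * ⟨x, hxC⟩ * c⁻¹ : C) ∈ K₁ := by
    have h5 : (c * ⟨x, hxC⟩ * c⁻¹ : C) = k * (k⁻¹ * (c * ⟨x, hxC⟩ * c⁻¹)) := by group
    rw [h5]
    exact K₁.mul_mem hk (hP'K₁ h3)
  have h6 : (c : G) * x * (c : G)⁻¹ ∈ K' := h4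
  have h7 := hK'mem _ h6
  have h8 : g⁻¹ * c * x * (g⁻¹ * c)⁻¹ = g⁻¹ * ((c : G) * x * (c : G)⁻¹) * g := by group
  rw [h8]
  exact h7

end Cfsg.Agent.Lib.AbHall
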