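import Mathlib
import Cfsg.Agent.Lib.DicksonLite
import Cfsg.Agent.Lib.SLn
import Cfsg.Agent.Lib.UniqueSub
import Cfsg.Agent.Lib.PSL2Inv

/-! A subgroup of `SL₂(q)` with more than one Sylow `p`-subgroup contains `SL₂(p)`. -/

set_option autoImplicit false
set_option linter.all false

open scoped MatrixGroups Matrix

namespace Cfsg.Agent.Lib.DicksonSL2

open Cfsg.Agent.Lib.DicksonLite

variable {F : Type*} [Field F]

/-- Conjugation of `SL₂` by an invertible matrix. -/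
def cj (A : GL (Fin 2) F) : SL(2, F) ≃* SL(2, F) where
  toFun g := ⟨(A⁻¹ : GL (Fin 2) F).1 * g.1 * A.1, by
    rw [Matrix.det_mul, Matrix.det_mul, g.2, mul_one, ← Matrix.det_mul, Units.inv_mul, Matrix.det_one]⟩
  invFun g := ⟨A.1 * g.1 * (A⁻¹ : GL (Fin 2) F).1, by
    rw [Matrix.det_mul, Matrix.det_mul, g.2, mul_one, ← Matrix.det_mul, Units.mul_inv, Matrix.det_one]⟩
  left_inv g := by
    apply Subtype.ext
    show A.1 * ((A⁻¹ : GL (Fin 2) F).1 * g.1 * A.1) * (A⁻¹ : GL (Fin 2) F).1 = g.1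
    have h1 : A.1 * (A⁻¹ : GL (Fin 2) F).1 = 1 := Units.mul_inv A
    calc _ = (A.1 * (A⁻¹ : GL (Fin 2) F).1) * g.1 * (A.1 * (A⁻¹ : GL (Fin 2) F).1) := by
          simp only [mul_assoc]
      _ = g.1 := by rw [h1]; simp
  right_inv g := by
    apply Subtype.ext
    show (A⁻¹ : GL (Fin 2) F).1 * (A.1 * g.1 * (A⁻¹ : GL (Fin 2) F).1) * A.1 = g.1
    have h1 : (A⁻¹ : GL (Fin 2) F).1 * A.1 = 1 := Units.inv_mul A
    calc _ = ((A⁻¹ : GL (Fin 2) F).1 * A.1) * g.1 * ((A⁻¹ : GL (Fin 2) F).1 * A.1) := by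
          simp only [mul_assoc]
      _ = g.1 := by rw [h1]; simp
  map_mul' a b := by
    apply Subtype.ext
    show (A⁻¹ : GL (Fin 2) F).1 * (a.1 * b.1) * A.1 =
      ((A⁻¹ : GL (Fin 2) F).1 * a.1 * A.1) * ((A⁻¹ : GL (Fin 2) F).1 * b.1 * A.1)
    have h1 : A.1 * (A⁻¹ : GL (Fin 2) F).1 = 1 := Units.mul_inv A
    calc _ = (A⁻¹ : GL (Fin 2) F).1 * a.1 * 1 * b.1 * A.1 := by simp only [mul_one, mul_assoc]
      _ = _ := by rw [← h1]; simp only [mul_assoc]

theorem cj_val (A : GL (Fin 2) F) (g : SL(2, F)) :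
    (cj A g).1 = (A⁻¹ : GL (Fin 2) F).1 * g.1 * A.1 := rfl

theorem mul_cj (A : GL (Fin 2) F) (g : SL(2, F)) : A.1 * (cj A g).1 = g.1 * A.1 := by
  rw [cj_val]
  have h1 : A.1 * (A⁻¹ : GL (Fin 2) F).1 = 1 := Units.mul_inv A
  calc _ = (A.1 * (A⁻¹ : GL (Fin 2) F).1) * g.1 * A.1 := by simp only [mul_assoc]
    _ = _ := by rw [h1, one_mul]

theorem cj_eq_of (A : GL (Fin 2) F) {g h : SL(2, F)} (e : g.1 * A.1 = A.1 * h.1) : cj A g = h := by
  apply Subtype.ext
  rw [cj_val, mul_assoc, e, ← mul_assoc]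
  have h1 : (A⁻¹ : GL (Fin 2) F).1 * A.1 = 1 := Units.inv_mul A
  rw [h1, one_mul]

theorem mv (g : Matrix (Fin 2) (Fin 2) F) (v : Fin 2 → F) :
    g *ᵥ v = ![g 0 0 * v 0 + g 0 1 * v 1, g 1 0 * v 0 + g 1 1 * v 1] := by
  ext i
  fin_cases i <;> simp [Matrix.mulVec, dotProduct, Fin.sum_univ_two]

/-- The pair of transvections. -/
def HasPair (H : Subgroup SL(2, F)) : Prop :=
  ∃ h₁ ∈ H, ∃ h₂ ∈ H, ∃ f₁ f₂ : Fin 2 → F,
      (h₁ : Matrix (Fin 2) (Fin 2) F).mulVec f₁ = f₁ ∧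
      (h₁ : Matrix (Fin 2) (Fin 2) F).mulVec f₂ = f₂ + f₁ ∧
      (h₂ : Matrix (Fin 2) (Fin 2) F).mulVec f₁ = f₁ + f₂ ∧
      (h₂ : Matrix (Fin 2) (Fin 2) F).mulVec f₂ = f₂ ∧
      f₁ 0 * f₂ 1 - f₁ 1 * f₂ 0 ≠ 0

theorem hasPair_of_map (A : GL (Fin 2) F) (H : Subgroup SL(2, F))
    (h : HasPair (H.map (cj A).toMonoidHom)) : HasPair H := by
  obtain ⟨_, ⟨g₁, hg₁, rfl⟩, _, ⟨g₂, hg₂, rfl⟩, f₁, f₂, e1, e2, e3, e4, e5⟩ := h
  have key : ∀ (g : SL(2, F)) (f f' : Fin 2 → F), (cj A g).1 *ᵥ f = f' → g.1 *ᵥ (A.1 *ᵥ f) = A.1 *ᵥ f' := by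
    intro g f f' hf
    rw [Matrix.mulVec_mulVec, ← mul_cj, ← Matrix.mulVec_mulVec, hf]
  refine ⟨g₁, hg₁, g₂, hg₂, A.1 *ᵥ f₁, A.1 *ᵥ f₂, key _ _ _ e1, ?_, ?_, key _ _ _ e4, ?_⟩
  · rw [key _ _ _ e2, Matrix.mulVec_add]
  · rw [key _ _ _ e3, Matrix.mulVec_add]
  · have hdet : A.1 0 0 * A.1 1 1 - A.1 0 1 * A.1 1 0 ≠ 0 := by
      rw [← Matrix.det_fin_two]
      exact (Matrix.isUnit_iff_isUnit_det _).1 A.isUnit |>.ne_zero
    rw [mv, mv]
    simp only [Matrix.cons_val_zero, Matrix.cons_val_one, Matrix.cons_val_fin_one]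
    intro h0
    have : (A.1 0 0 * A.1 1 1 - A.1 0 1 * A.1 1 0) * (f₁ 0 * f₂ 1 - f₁ 1 * f₂ 0) = 0 := by
      linear_combination h0
    rcases mul_eq_zero.1 this with h | h
    · exact hdet h
    · exact e5 h

/-- The matrix with given columns. -/
noncomputable def ofCols (v w : Fin 2 → F) (h : v 0 * w 1 - v 1 * w 0 ≠ 0) : GL (Fin 2) F :=
  Matrix.GeneralLinearGroup.mkOfDetNeZero !![v 0, w 0; v 1, w 1] (by
    rw [Matrix.det_fin_two_of]
    intro h0
    apply h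
    linear_combination h0)

theorem ofCols_val (v w : Fin 2 → F) (h) : (ofCols v w h).1 = !![v 0, w 0; v 1, w 1] := rfl

theorem hasPair_of_t [Finite F] {p : ℕ} [hpp : Fact p.Prime] [CharP F p] (hp : p ≠ 2)
    (H : Subgroup SL(2, F)) {a b : F} (ha : a ≠ 0) (hb : b ≠ 0)
    (h1 : t₁ a ∈ H) (h2 : t₂ b ∈ H) : HasPair H := by
  apply hasPair_of_map (ofCols ![b⁻¹, 0] ![0, 1] (by simp [hb])) H
  have e1 : cj (ofCols ![b⁻¹, 0] ![0, 1] (by simp [hb])) (t₁ a) = t₁ (a * b) := by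
    apply cj_eq_of
    rw [ofCols_val]
    ext i j
    fin_cases i <;> fin_cases j <;> simp [t₁, Matrix.mul_apply, Fin.sum_univ_two, hb]
    field_simp
  have e2 : cj (ofCols ![b⁻¹, 0] ![0, 1] (by simp [hb])) (t₂ b) = t₂ 1 := by
    apply cj_eq_of
    rw [ofCols_val]
    ext i j
    fin_cases i <;> fin_cases j <;> simp [t₂, Matrix.mul_apply, Fin.sum_univ_two, hb]
  exact dickson_pair hp _ (mul_ne_zero ha hb) ⟨_, h1, e1⟩ ⟨_, h2, e2⟩

theorem pow_eq_one_of_fix {p : ℕ} [hpp : Fact p.Prime] [CharP F p] (g : SL(2, F)) {v : Fin 2 → F}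
    (hv : v ≠ 0) (hg : g.1 *ᵥ v = v) : g ^ p = 1 := by
  have hd : g.1 0 0 * g.1 1 1 - g.1 0 1 * g.1 1 0 = 1 := by
    have := g.2
    rwa [Matrix.det_fin_two] at this
  rw [mv] at hg
  have h0 : g.1 0 0 * v 0 + g.1 0 1 * v 1 = v 0 := congrFun hg 0
  have h1 : g.1 1 0 * v 0 + g.1 1 1 * v 1 = v 1 := congrFun hg 1
  have ht : g.1 0 0 + g.1 1 1 = 2 := by
    by_contra hne
    have hne' : g.1 0 0 + g.1 1 1 - 2 ≠ 0 := sub_ne_zero.2 hne
    apply hv
    ext i
    fin_cases i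
    · show v 0 = 0
      have : (g.1 0 0 + g.1 1 1 - 2) * v 0 = 0 := by
        linear_combination (-(g.1 1 1 - 1)) * h0 + g.1 0 1 * h1 + v 0 * hd
      exact (mul_eq_zero.1 this).resolve_left hne'
    · show v 1 = 0
      have : (g.1 0 0 + g.1 1 1 - 2) * v 1 = 0 := by
        linear_combination (g.1 1 0) * h0 + (-(g.1 0 0 - 1)) * h1 + v 1 * hd
      exact (mul_eq_zero.1 this).resolve_left hne'
  have hN : (g.1 - 1) ^ 2 = 0 := by
    have e1 : g.1 1 1 = 2 - g.1 0 0 := by linear_combination ht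
    have e2 : g.1 0 1 * g.1 1 0 = g.1 0 0 * g.1 1 1 - 1 := by linear_combination -hd
    rw [pow_two]
    ext i j
    fin_cases i <;> fin_cases j <;>
      simp [Matrix.mul_apply, Fin.sum_univ_two, Matrix.one_apply] <;> rw [e1] at * <;>
      first
        | linear_combination e2
        | ring
        | skip
  have hp2 : 2 ≤ p := hpp.out.two_le
  have h3 : (g.1 - 1) ^ p = 0 := pow_eq_zero_of_le hp2 hN
  rw [sub_pow_char_of_commute p (Commute.one_right g.1), one_pow, sub_eq_zero] at h3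
  apply Subtype.ext
  simpa using h3

theorem exists_fixed [Finite F] {p : ℕ} [hpp : Fact p.Prime] [CharP F p] (P : Subgroup SL(2, F))
    (hP : IsPGroup p P) : ∃ v : Fin 2 → F, v ≠ 0 ∧ ∀ g ∈ P, g.1 *ᵥ v = v := by
  classical
  haveI := Fintype.ofFinite F
  letI : MulAction P (Fin 2 → F) :=
    { smul := fun g v => g.1.1 *ᵥ v
      one_smul := fun v => by
        show (1 : Matrix (Fin 2) (Fin 2) F) *ᵥ v = v
        exact Matrix.one_mulVec v
      mul_smul := fun a b v => by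
        show (a.1.1 * b.1.1) *ᵥ v = a.1.1 *ᵥ (b.1.1 *ᵥ v)
        exact (Matrix.mulVec_mulVec _ _ _).symm }
  have hc : p ∣ Nat.card (Fin 2 → F) := by
    rw [Nat.card_eq_fintype_card, Fintype.card_fun, Fintype.card_fin]
    apply dvd_pow _ (by norm_num)
    exact (CharP.cast_eq_zero_iff F p _).1 (Nat.cast_card_eq_zero F)
  have h0 : (0 : Fin 2 → F) ∈ MulAction.fixedPoints P (Fin 2 → F) := by
    intro g
    show g.1.1 *ᵥ (0 : Fin 2 → F) = 0
    exact Matrix.mulVec_zero _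
  obtain ⟨b, hb, hb2⟩ := hP.exists_fixed_point_of_prime_dvd_card_of_fixed_point _ hc h0
  exact ⟨b, hb2.symm, fun g hg => hb ⟨g, hg⟩⟩

theorem hasPair_of_sylow [Finite F] {p : ℕ} [hpp : Fact p.Prime] [CharP F p] (hp : p ≠ 2)
    (H : Subgroup SL(2, F)) (hH : 1 < Nat.card (Sylow p H)) : HasPair H := by
  classical
  haveI : Finite SL(2, F) := by
    exact Finite.of_injective (fun g => (g : Matrix (Fin 2) (Fin 2) F)) Subtype.val_injective
  haveI : Finite (Sylow p H) := inferInstance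
  obtain ⟨P, P', hne⟩ := (Finite.one_lt_card_iff_nontrivial.1 hH).exists_pair_ne
  have hmaps : ∀ Q : Sylow p H, IsPGroup p ((Q : Subgroup H).map H.subtype) := fun Q =>
    Q.isPGroup'.map _
  obtain ⟨v, hv, hfv⟩ := exists_fixed _ (hmaps P)
  obtain ⟨v', hv', hfv'⟩ := exists_fixed _ (hmaps P')
  have hfix : ∀ (Q : Sylow p H) {w : Fin 2 → F}, (∀ g ∈ (Q : Subgroup H).map H.subtype, g.1 *ᵥ w = w) →
      ∀ g ∈ (Q : Subgroup H), g.1.1 *ᵥ w = w := by
    intro Q w hw g hg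
    exact hw g.1 ⟨g, hg, rfl⟩
  have hsub : ∀ (w : Fin 2 → F), w ≠ 0 → ∀ Q Q' : Sylow p H, (∀ g ∈ (Q : Subgroup H), g.1.1 *ᵥ w = w) →
      (∀ g ∈ (Q' : Subgroup H), g.1.1 *ᵥ w = w) → Q = Q' := by
    intro w hw Q Q' h1 h2
    let U : Subgroup H :=
      { carrier := {g | g.1.1 *ᵥ w = w}
        one_mem' := by
          show (1 : Matrix (Fin 2) (Fin 2) F) *ᵥ w = w
          exact Matrix.one_mulVec w
        mul_mem' := by
          intro a b ha hb
          show (a.1.1 * b.1.1) *ᵥ w = w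
          rw [← Matrix.mulVec_mulVec, show b.1.1 *ᵥ w = w from hb, show a.1.1 *ᵥ w = w from ha]
        inv_mem' := by
          intro a ha
          have h3 : a.1.1 *ᵥ w = w := ha
          show (a⁻¹).1.1 *ᵥ w = w
          have h4 : (a⁻¹).1.1 * a.1.1 = 1 := by
            have : a⁻¹ * a = 1 := inv_mul_cancel a
            exact congrArg (fun x : H => x.1.1) this
          calc (a⁻¹).1.1 *ᵥ w = (a⁻¹).1.1 *ᵥ (a.1.1 *ᵥ w) := by rw [h3]
            _ = w := by rw [Matrix.mulVec_mulVec, h4, Matrix.one_mulVec] }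
    have hU : IsPGroup p U := by
      intro g
      refine ⟨1, ?_⟩
      rw [pow_one]
      apply Subtype.ext
      apply Subtype.ext
      have := pow_eq_one_of_fix (p := p) g.1.1 hw g.2
      simpa using this
    have h3 : (U : Subgroup H) = Q := Q.is_maximal' hU (fun g hg => h1 g hg)
    have h4 : (U : Subgroup H) = Q' := Q'.is_maximal' hU (fun g hg => h2 g hg)
    apply Sylow.ext
    rw [← h3, h4]
  have hdet : v 0 * v' 1 - v 1 * v' 0 ≠ 0 := by
    intro hd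
    apply hne
    apply hsub v hv P P' (hfix P hfv)
    intro g hg
    have h5 := hfix P' hfv' g hg
    -- `v` is a multiple of `v'`
    have hc : ∃ c : F, v = c • v' := by
      by_cases h0 : v' 0 = 0
      · have h1 : v' 1 ≠ 0 := by
          intro h1
          apply hv'
          ext i
          fin_cases i
          · exact h0
          · exact h1
        refine ⟨v 1 / v' 1, ?_⟩
        have h2 : v 0 = 0 := by
          rw [h0, mul_zero, sub_zero] at hd
          exact (mul_eq_zero.1 hd).resolve_right h1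
        ext i
        fin_cases i
        · simp [h0, h2]
        · simp [h1]
      · refine ⟨v 0 / v' 0, ?_⟩
        ext i
        fin_cases i
        · simp [h0]
        · simp
          field_simp
          linear_combination -hd
    obtain ⟨c, hc⟩ := hc
    rw [hc, Matrix.mulVec_smul, h5]
  have hbot : ∀ Q Q' : Sylow p H, Q ≠ Q' → (Q : Subgroup H) ≠ ⊥ := by
    intro Q Q' hQQ h
    apply hQQ
    apply Sylow.ext
    rw [h]
    symm
    apply Subgroup.eq_bot_of_card_eq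
    rw [← Nat.card_congr (Q.equiv Q').toEquiv, h]
    exact Subgroup.card_bot
  obtain ⟨⟨x, hxP⟩, hx1⟩ := (Subgroup.ne_bot_iff_exists_ne_one).1 (hbot P P' hne)
  obtain ⟨⟨y, hyP⟩, hy1⟩ := (Subgroup.ne_bot_iff_exists_ne_one).1 (hbot P' P hne.symm)
  have hx1' : (x : SL(2, F)) ≠ 1 := fun h => hx1 (Subtype.ext (Subtype.ext h))
  have hy1' : (y : SL(2, F)) ≠ 1 := fun h => hy1 (Subtype.ext (Subtype.ext h))
  apply hasPair_of_map (ofCols v v' hdet) H
  let c := cj (ofCols v v' hdet)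
  have hmv0 : (ofCols v v' hdet).1 *ᵥ ![1, 0] = v := by
    rw [ofCols_val, mv]
    ext i
    fin_cases i <;> simp
  have hmv1 : (ofCols v v' hdet).1 *ᵥ ![0, 1] = v' := by
    rw [ofCols_val, mv]
    ext i
    fin_cases i <;> simp
  have key : ∀ (g : SL(2, F)) {e w : Fin 2 → F}, (ofCols v v' hdet).1 *ᵥ e = w → g.1 *ᵥ w = w →
      (c g).1 *ᵥ e = e := by
    intro g e w h1 h2
    have h3 : (ofCols v v' hdet).1 *ᵥ ((c g).1 *ᵥ e) = (ofCols v v' hdet).1 *ᵥ e := by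
      rw [Matrix.mulVec_mulVec, mul_cj, ← Matrix.mulVec_mulVec, h1, h2]
    have h4 := congrArg (fun z => ((ofCols v v' hdet)⁻¹ : GL (Fin 2) F).1 *ᵥ z) h3
    simp only [Matrix.mulVec_mulVec] at h4
    have h5 : ((ofCols v v' hdet)⁻¹ : GL (Fin 2) F).1 * (ofCols v v' hdet).1 = 1 := Units.inv_mul _
    rw [← mul_assoc, h5] at h4
    simpa using h4
  have hxf := key x hmv0 (hfix P hfv x hxP)
  have hyf := key y hmv1 (hfix P' hfv' y hyP)
  obtain ⟨a, ha, hxa⟩ : ∃ a : F, a ≠ 0 ∧ c x = t₁ a := by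
    have hd := det_eq (c x)
    rw [mv] at hxf
    have h0 : (c x).1 0 0 = 1 := by simpa using congrFun hxf 0
    have h1 : (c x).1 1 0 = 0 := by simpa using congrFun hxf 1
    have h2 : (c x) 1 1 = 1 := by
      have h0' : (c x) 0 0 = 1 := h0
      have h1' : (c x) 1 0 = 0 := h1
      rw [h0', h1'] at hd
      linear_combination hd
    have e : c x = t₁ ((c x) 0 1) := by
      apply sl_ext
      · exact h0
      · rfl
      · exact h1
      · exact h2
    refine ⟨(c x) 0 1, ?_, e⟩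
    intro h3
    rw [h3, t₁_zero] at e
    apply hx1'
    exact c.injective (e.trans (map_one c).symm)
  obtain ⟨b, hb, hyb⟩ : ∃ b : F, b ≠ 0 ∧ c y = t₂ b := by
    have hd := det_eq (c y)
    rw [mv] at hyf
    have h0 : (c y).1 0 1 = 0 := by simpa using congrFun hyf 0
    have h1 : (c y).1 1 1 = 1 := by simpa using congrFun hyf 1
    have h2 : (c y) 0 0 = 1 := by
      have h0' : (c y) 0 1 = 0 := h0
      have h1' : (c y) 1 1 = 1 := h1
      rw [h0', h1'] at hd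
      linear_combination hd
    have e : c y = t₂ ((c y) 1 0) := by
      apply sl_ext
      · exact h2
      · exact h0
      · rfl
      · exact h1
    refine ⟨(c y) 1 0, ?_, e⟩
    intro h3
    rw [h3, t₂_zero] at e
    apply hy1'
    exact c.injective (e.trans (map_one c).symm)
  have hxH : (x : SL(2, F)) ∈ H := x.2
  exact hasPair_of_t hp _ ha hb ⟨x, x.2, hxa⟩ ⟨y, y.2, hyb⟩

theorem exists_hom [Finite F] {p : ℕ} [hpp : Fact p.Prime] [CharP F p] (H : Subgroup SL(2, F))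
    (h : HasPair H) : ∃ ψ : SL(2, ZMod p) →* SL(2, F), Function.Injective ψ ∧ ∀ g, ψ g ∈ H := by
  classical
  obtain ⟨h₁, hh₁, h₂, hh₂, f₁, f₂, e1, e2, e3, e4, e5⟩ := h
  let ι : ZMod p →+* F := ZMod.castHom (dvd_refl p) F
  let m : SL(2, ZMod p) →* SL(2, F) := Matrix.SpecialLinearGroup.map ι
  have hm : ∀ (g : SL(2, ZMod p)) (i j : Fin 2), m g i j = ι (g i j) := fun _ _ _ => rfl
  have hminj : Function.Injective m := by
    intro a b hab
    apply Subtype.ext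
    ext i j
    apply ι.injective
    rw [← hm, ← hm, hab]
  let B := ofCols f₁ f₂ e5
  let ψ : SL(2, ZMod p) →* SL(2, F) := (cj B).symm.toMonoidHom.comp m
  have hψ : ∀ g, cj B (ψ g) = m g := fun g => (cj B).apply_symm_apply _
  have hinj : Function.Injective ψ := (cj B).symm.injective.comp hminj
  rw [mv] at e1 e2 e3 e4
  have hc1 : ∀ i, (![h₁ 0 0 * f₁ 0 + h₁ 0 1 * f₁ 1, h₁ 1 0 * f₁ 0 + h₁ 1 1 * f₁ 1] : Fin 2 → F) i = f₁ i :=
    fun i => congrFun e1 i
  have hc2 : ∀ i, (![h₁ 0 0 * f₂ 0 + h₁ 0 1 * f₂ 1, h₁ 1 0 * f₂ 0 + h₁ 1 1 * f₂ 1] : Fin 2 → F) i = (f₂ + f₁) i :=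
    fun i => congrFun e2 i
  have hc3 : ∀ i, (![h₂ 0 0 * f₁ 0 + h₂ 0 1 * f₁ 1, h₂ 1 0 * f₁ 0 + h₂ 1 1 * f₁ 1] : Fin 2 → F) i = (f₁ + f₂) i :=
    fun i => congrFun e3 i
  have hc4 : ∀ i, (![h₂ 0 0 * f₂ 0 + h₂ 0 1 * f₂ 1, h₂ 1 0 * f₂ 0 + h₂ 1 1 * f₂ 1] : Fin 2 → F) i = f₂ i :=
    fun i => congrFun e4 i
  have a1 := hc1 0
  have a2 := hc1 1
  have a3 := hc2 0
  have a4 := hc2 1
  have a5 := hc3 0
  have a6 := hc3 1
  have a7 := hc4 0
  have a8 := hc4 1
  simp only [Matrix.cons_val_zero, Matrix.cons_val_one, Matrix.cons_val_fin_one, Pi.add_apply] at a1 a2 a3 a4 a5 a6 a7 a8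
  have hψ1 : ψ (t₁ 1) = h₁ := by
    apply (cj B).injective
    rw [hψ]
    have : m (t₁ 1) = t₁ 1 := by
      apply sl_ext <;> simp [hm]
    rw [this]
    symm
    apply cj_eq_of
    show h₁.1 * (ofCols f₁ f₂ e5).1 = (ofCols f₁ f₂ e5).1 * (t₁ (1 : F)).1
    rw [ofCols_val]
    ext i j
    fin_cases i <;> fin_cases j <;> simp [t₁, Matrix.mul_apply, Fin.sum_univ_two]
    · exact a1
    · linear_combination a3
    · exact a2
    · linear_combination a4
  have hψ2 : ψ (t₂ 1) = h₂ := by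
    apply (cj B).injective
    rw [hψ]
    have : m (t₂ 1) = t₂ 1 := by
      apply sl_ext <;> simp [hm]
    rw [this]
    symm
    apply cj_eq_of
    show h₂.1 * (ofCols f₁ f₂ e5).1 = (ofCols f₁ f₂ e5).1 * (t₂ (1 : F)).1
    rw [ofCols_val]
    ext i j
    fin_cases i <;> fin_cases j <;> simp [t₂, Matrix.mul_apply, Fin.sum_univ_two]
    · linear_combination a5
    · exact a7
    · linear_combination a6
    · exact a8
  have ht1 : ∀ c : ZMod p, ψ (t₁ c) ∈ H := by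
    intro c
    have : t₁ c = t₁ (1 : ZMod p) ^ c.val := by
      rw [t₁_pow, ZMod.natCast_zmod_val, mul_one]
    rw [this, map_pow, hψ1]
    exact H.pow_mem hh₁ _
  have ht2 : ∀ c : ZMod p, ψ (t₂ c) ∈ H := by
    intro c
    have : t₂ c = t₂ (1 : ZMod p) ^ c.val := by
      have hh : ∀ n : ℕ, t₂ (1 : ZMod p) ^ n = t₂ (n : ZMod p) := by
        intro n
        induction n with
        | zero => simp [t₂_zero]
        | succ n ih => rw [pow_succ, ih, t₂_add]; simp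
      rw [hh, ZMod.natCast_zmod_val]
    rw [this, map_pow, hψ2]
    exact H.pow_mem hh₂ _
  refine ⟨ψ, hinj, fun g => ?_⟩
  refine Cfsg.Agent.Lib.SLn.transvection_induction (fun A => ψ A ∈ H) ?_ ?_ ?_ g
  · intro i j hij c
    fin_cases i <;> fin_cases j
    · exact absurd rfl hij
    · have : Matrix.SpecialLinearGroup.transvection hij c = t₁ c := by
        apply sl_ext <;> simp [Matrix.SpecialLinearGroup.transvection, Matrix.transvection]
      rw [this]
      exact ht1 c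
    · have : Matrix.SpecialLinearGroup.transvection hij c = t₂ c := by
        apply sl_ext <;> simp [Matrix.SpecialLinearGroup.transvection, Matrix.transvection]
      rw [this]
      exact ht2 c
    · exact absurd rfl hij
  · intro A B hA hB
    show ψ (A * B) ∈ H
    rw [map_mul]
    exact H.mul_mem hA hB
  · show ψ 1 ∈ H
    rw [map_one]
    exact H.one_mem

theorem main [Finite F] {p : ℕ} [hpp : Fact p.Prime] [CharP F p] (hp : p ≠ 2)
    (H : Subgroup SL(2, F)) (hH : 1 < Nat.card (Sylow p H)) :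
    ∃ ψ : SL(2, ZMod p) →* SL(2, F), Function.Injective ψ ∧ ∀ g, ψ g ∈ H :=
  exists_hom H (hasPair_of_sylow hp H hH)

end Cfsg.Agent.Lib.DicksonSL2
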