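import Mathlib
import Cfsg.Agent.Lib.DicksonSL2

/-! If `H ≤ SL₂(q)`, `q` odd, has more than one Sylow `p`-subgroup, then its Sylow `2`-subgroups are
generalised quaternion. -/

set_option autoImplicit false
set_option linter.all false

open scoped MatrixGroups Matrix

namespace Cfsg.Agent.Lib.DicksonQuat

open Cfsg.Agent.Lib.DicksonLite Cfsg.Agent.Lib.MkSL

/-- A group in which two elements generate a non-commutative `2`-subgroup has no cyclic Sylow
`2`-subgroup. -/
theorem not_cyclic {H : Type*} [Group H] [Finite H] (I J : H) (h4 : I ^ 4 = 1) (j4 : J ^ 4 = 1)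
    (hrel : I * J * I = J) (hne : I * J ≠ J * I) (S : Sylow 2 H) : ¬ IsCyclic S := by
  intro hc
  haveI : Fact (Nat.Prime 2) := ⟨Nat.prime_two⟩
  have hp : ∀ x : H, x ^ 4 = 1 → IsPGroup 2 (Subgroup.zpowers x) := by
    intro x hx g
    refine ⟨2, ?_⟩
    obtain ⟨g, n, rfl⟩ := g
    apply Subtype.ext
    show (x ^ n) ^ 2 ^ 2 = 1
    rw [show (2 : ℕ) ^ 2 = 4 by norm_num, ← zpow_natCast, ← zpow_mul, mul_comm, zpow_mul, zpow_natCast]
    have hx' : x ^ (((4 : ℕ) : ℤ)) = 1 := by rw [zpow_natCast]; exact hx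
    first
      | rw [hx', one_zpow]
      | (rw [hx, one_zpow])
  have e1 : J * I * J⁻¹ = I⁻¹ := by
    have h1 : J * I = I⁻¹ * J := by
      rw [eq_inv_mul_iff_mul_eq, ← mul_assoc]
      exact hrel.symm ▸ rfl
    rw [h1, mul_inv_cancel_right]
  have e2 : J⁻¹ * I * J = I⁻¹ := by
    have h1 : I * J = J * I⁻¹ := by
      rw [eq_mul_inv_iff_mul_eq]
      exact hrel
    rw [mul_assoc, h1, inv_mul_cancel_left]
  have hJ : J ∈ Subgroup.normalizer (Subgroup.zpowers I : Set H) := by
    rw [Subgroup.mem_normalizer_iff]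
    intro h
    constructor
    · rintro ⟨n, rfl⟩
      show J * I ^ n * J⁻¹ ∈ _
      rw [← conj_zpow, e1]
      exact Subgroup.zpow_mem _ (Subgroup.inv_mem _ (Subgroup.mem_zpowers I)) n
    · intro h5
      obtain ⟨n, hn⟩ := h5
      have h6 : h = J⁻¹ * (J * h * J⁻¹) * J := by group
      rw [h6, ← hn]
      have h7 : J⁻¹ * I ^ n * J = (J⁻¹ * I * J) ^ n := by
        have := conj_zpow (a := J⁻¹) (b := I) (i := n)
        rw [inv_inv] at this
        exact this.symm
      show J⁻¹ * I ^ n * J ∈ _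
      rw [h7, e2]
      exact Subgroup.zpow_mem _ (Subgroup.inv_mem _ (Subgroup.mem_zpowers I)) n
  have hQ : IsPGroup 2 (Subgroup.zpowers J ⊔ Subgroup.zpowers I : Subgroup H) :=
    (hp J j4).to_sup_of_normal_right' (hp I h4) ((Subgroup.zpowers_le).2 hJ)
  obtain ⟨S', hS'⟩ := hQ.exists_le_sylow
  have hJS : J ∈ (S' : Subgroup H) := hS' (Subgroup.mem_sup_left (Subgroup.mem_zpowers J))
  have hIS : I ∈ (S' : Subgroup H) := hS' (Subgroup.mem_sup_right (Subgroup.mem_zpowers I))
  haveI hc' : IsCyclic (S' : Subgroup H) :=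
    isCyclic_of_surjective (S.equiv S').toMonoidHom (S.equiv S').surjective
  have hcomm : ∀ a b : (S' : Subgroup H), a * b = b * a := by
    intro a b
    letI := IsCyclic.commGroup (α := (S' : Subgroup H))
    exact mul_comm a b
  have := hcomm ⟨I, hIS⟩ ⟨J, hJS⟩
  exact hne (congrArg Subtype.val this)

variable {F : Type*} [Field F]

theorem main [Finite F] {p : ℕ} [hpp : Fact p.Prime] [CharP F p] (hp : p ≠ 2)
    (H : Subgroup SL(2, F)) (hH : 1 < Nat.card (Sylow p H)) (S : Sylow 2 H) :
    ∃ k : ℕ, 1 ≤ k ∧ Nonempty ((S : Subgroup H) ≃* QuaternionGroup (2 ^ k)) := by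
  classical
  haveI : Fact (Nat.Prime 2) := ⟨Nat.prime_two⟩
  haveI : Finite SL(2, F) := by
    exact Finite.of_injective (fun g => (g : Matrix (Fin 2) (Fin 2) F)) Subtype.val_injective
  have h2F : (2 : F) ≠ 0 := by
    intro h
    have h3 : ((2 : ℕ) : F) = 0 := by exact_mod_cast h
    have h4 := (CharP.cast_eq_zero_iff F p 2).1 h3
    exact hp ((Nat.prime_dvd_prime_iff_eq hpp.out Nat.prime_two).1 h4)
  have h2Z : (2 : ZMod p) ≠ 0 := by
    intro h
    have h3 : ((2 : ℕ) : ZMod p) = 0 := by exact_mod_cast h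
    have h4 := (ZMod.natCast_eq_zero_iff 2 p).1 h3
    exact hp ((Nat.prime_dvd_prime_iff_eq hpp.out Nat.prime_two).1 h4)
  have hU : Cfsg.Agent.Lib.UniqueSub.UniqueP 2 (S : Subgroup H) := by
    have hx : ∀ x : (S : Subgroup H), orderOf x = 2 → (x : H).1 = Cfsg.Agent.Lib.PSL2Inv.mO := by
      intro x hx
      have h1 : x ^ 2 = 1 := by
        have := pow_orderOf_eq_one x
        rwa [hx] at this
      have h2 : x ≠ 1 := by
        rintro rfl
        rw [orderOf_one] at hx
        omega
      have h3 : (x : H).1 * (x : H).1 = 1 := by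
        have := congrArg (fun z : (S : Subgroup H) => (z : H).1) h1
        simpa [pow_two] using this
      refine (Cfsg.Agent.Lib.PSL2Inv.sq_eq_one h2F h3).resolve_left ?_
      intro h4
      exact h2 (Subtype.ext (Subtype.ext h4))
    intro x y h1 h2
    have : y = x := Subtype.ext (Subtype.ext ((hx y h2).trans (hx x h1).symm))
    rw [this]
    exact Subgroup.mem_zpowers x
  rcases Cfsg.Agent.Lib.UniqueSub.cyclic_or_quaternion S.isPGroup' hU with hc | ⟨_, k, hk, he⟩
  · exfalso
    obtain ⟨ψ, hinj, hmem⟩ := Cfsg.Agent.Lib.DicksonSL2.main hp H hH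
    obtain ⟨a, b, hab⟩ := ZMod.sq_add_sq p (-1 : ZMod p)
    let i : SL(2, ZMod p) := mkSL 0 1 (-1) 0 (by ring)
    let j : SL(2, ZMod p) := mkSL a b b (-a) (by linear_combination -hab)
    have hii : i * i = mkSL (-1) 0 0 (-1) (by ring) := by
      rw [mkSL_mul]
      apply mkSL_eq <;> ring
    have hjj : j * j = mkSL (-1) 0 0 (-1) (by ring) := by
      rw [mkSL_mul]
      apply mkSL_eq
      · linear_combination hab
      · ring
      · ring
      · linear_combination hab
    have hmm : (mkSL (-1) 0 0 (-1) (by ring) : SL(2, ZMod p)) ^ 2 = 1 := by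
      rw [pow_two, mkSL_mul, ← mkSL_one]
      apply mkSL_eq <;> ring
    have hi4 : i ^ 4 = 1 := by
      rw [show i ^ 4 = (i * i) ^ 2 by rw [← pow_two]; exact pow_mul i 2 2, hii, hmm]
    have hj4 : j ^ 4 = 1 := by
      rw [show j ^ 4 = (j * j) ^ 2 by rw [← pow_two]; exact pow_mul j 2 2, hjj, hmm]
    have hrel : i * j * i = j := by
      show mkSL 0 1 (-1) 0 _ * mkSL a b b (-a) _ * mkSL 0 1 (-1) 0 _ = mkSL a b b (-a) _
      rw [mkSL_mul, mkSL_mul]
      apply mkSL_eq <;> ring
    have hne : i * j ≠ j * i := by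
      intro h
      have h1 : (0 * a + 1 * b : ZMod p) = a * 0 + b * (-1) := by
        have := congrArg (fun g : SL(2, ZMod p) => g 0 0) h
        simp only [i, j, mkSL_mul] at this
        exact this
      have h2 : (0 * b + 1 * (-a) : ZMod p) = a * 1 + b * 0 := by
        have := congrArg (fun g : SL(2, ZMod p) => g 0 1) h
        simp only [i, j, mkSL_mul] at this
        exact this
      have h3 : b = 0 := by
        have : 2 * b = 0 := by linear_combination h1
        exact (mul_eq_zero.1 this).resolve_left h2Z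
      have h4 : a = 0 := by
        have : 2 * a = 0 := by linear_combination -h2
        exact (mul_eq_zero.1 this).resolve_left h2Z
      rw [h3, h4] at hab
      have : (1 : ZMod p) = 0 := by linear_combination hab
      exact one_ne_zero this
    refine Cfsg.Agent.Lib.DicksonQuat.not_cyclic (H := H) ⟨ψ i, hmem i⟩ ⟨ψ j, hmem j⟩ ?_ ?_ ?_ ?_ S hc
    · apply Subtype.ext
      simp [← map_pow, hi4]
    · apply Subtype.ext
      simp [← map_pow, hj4]
    · apply Subtype.ext
      simp [← map_mul, hrel]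
    · intro h
      apply hne
      apply hinj
      have := congrArg Subtype.val h
      simpa [← map_mul] using this
  · exact ⟨k, hk, he⟩

end Cfsg.Agent.Lib.DicksonQuat
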