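import Mathlib

/-! Two quadratically acting linear automorphisms: the dichotomy between `p`-groups and a
homomorphism into `SL₂`. -/

set_option autoImplicit false
set_option linter.all false

open scoped MatrixGroups Matrix

namespace Cfsg.Agent.Lib.QuadCore

variable {K W : Type*} [Field K] [AddCommGroup W] [Module K W]

/-- The two standard matrices. -/
def Ma (θ : K) : SL(2, K) := ⟨!![1, θ; 0, 1], by simp [Matrix.det_fin_two]⟩
def Mb : SL(2, K) := ⟨!![1, 0; 1, 1], by simp [Matrix.det_fin_two]⟩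

theorem Ma_mv (θ : K) (v : Fin 2 → K) : (Ma θ).1 *ᵥ v = ![v 0 + θ * v 1, v 1] := by
  ext i
  fin_cases i <;> simp [Ma, Matrix.mulVec, dotProduct, Fin.sum_univ_two]

theorem Mb_mv (v : Fin 2 → K) : (Mb : SL(2, K)).1 *ᵥ v = ![v 0, v 0 + v 1] := by
  ext i
  fin_cases i <;> simp [Mb, Matrix.mulVec, dotProduct, Fin.sum_univ_two]

/-- The homomorphism to `SL₂(K)` given an appropriate vector. -/
theorem quad_hom (a b : W ≃ₗ[K] W) (hb : ∀ w, b (b w - w) = b w - w)
    (w : W) (θ : K) (hw : w ≠ 0) (hθ : θ ≠ 0) (haw : a w = w) (hT : a (b w) - b w = θ • w) :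
    ∃ φ : ↥(Subgroup.closure ({a, b} : Set (W ≃ₗ[K] W))) →* SL(2, K),
      (∀ h, φ ⟨a, h⟩ = Ma θ) ∧ (∀ h, φ ⟨b, h⟩ = Mb) := by
  classical
  set u := b w - w with hu
  have hbu : b u = u := hb w
  have hau : a u = u + θ • w := by
    have h1 : a u = a (b w) - w := by rw [hu, map_sub, haw]
    rw [h1, hu]
    have h2 := hT
    rw [sub_eq_iff_eq_add] at h2
    rw [h2]
    abel
  have hbw : b w = w + u := by rw [hu]; abel
  let ι : (Fin 2 → K) → W := fun v => v 0 • w + v 1 • u
  have haι : ∀ v, a (ι v) = ι ((Ma θ).1 *ᵥ v) := by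
    intro v
    simp only [ι, map_add, map_smul, haw, hau, Ma_mv]
    simp only [Matrix.cons_val_zero, Matrix.cons_val_one, smul_add, add_smul, mul_smul]
    rw [smul_comm (v 1) θ w]
    abel
  have hbι : ∀ v, b (ι v) = ι ((Mb : SL(2, K)).1 *ᵥ v) := by
    intro v
    simp only [ι, map_add, map_smul, hbu, hbw, Mb_mv]
    simp only [Matrix.cons_val_zero, Matrix.cons_val_one, smul_add, add_smul]
    abel
  have hιinj : ∀ v v' : Fin 2 → K, ι v = ι v' → v = v' := by
    intro v v' h
    have h1 : a (ι v) - ι v = a (ι v') - ι v' := by rw [h]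
    have h2 : ∀ x : Fin 2 → K, a (ι x) - ι x = (x 1 * θ) • w := by
      intro x
      simp only [ι, map_add, map_smul, haw, hau, smul_add, mul_smul]
      abel
    rw [h2, h2] at h1
    have h3 : v 1 * θ = v' 1 * θ := smul_left_injective K hw h1
    have h4 : v 1 = v' 1 := mul_right_cancel₀ hθ h3
    have h5 : v 0 • w = v' 0 • w := by
      have h6 : v 0 • w + v 1 • u = v' 0 • w + v' 1 • u := h
      rw [h4] at h6
      exact add_right_cancel h6
    have h7 : v 0 = v' 0 := smul_left_injective K hw h5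
    funext i
    fin_cases i
    · exact h7
    · exact h4
  have hmat : ∀ g ∈ Subgroup.closure ({a, b} : Set (W ≃ₗ[K] W)), ∃ M : SL(2, K), ∀ v, g (ι v) = ι (M.1 *ᵥ v) := by
    intro g hg
    induction hg using Subgroup.closure_induction with
    | mem x hx =>
      rcases hx with rfl | hx
      · exact ⟨Ma θ, haι⟩
      · rw [Set.mem_singleton_iff] at hx
        subst hx
        exact ⟨Mb, hbι⟩
    | one => exact ⟨1, fun v => by simp⟩
    | mul x y _ _ hx hy =>
      obtain ⟨M, hM⟩ := hx
      obtain ⟨N, hN⟩ := hy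
      refine ⟨M * N, fun v => ?_⟩
      rw [LinearEquiv.mul_apply, hN, hM, Matrix.SpecialLinearGroup.coe_mul, Matrix.mulVec_mulVec]
    | inv x _ hx =>
      obtain ⟨M, hM⟩ := hx
      refine ⟨M⁻¹, fun v => ?_⟩
      have h1 := hM ((M⁻¹).1 *ᵥ v)
      have h2 : M.1 *ᵥ ((M⁻¹).1 *ᵥ v) = v := by
        rw [Matrix.mulVec_mulVec, ← Matrix.SpecialLinearGroup.coe_mul, mul_inv_cancel]
        simp
      rw [h2] at h1
      rw [← h1]
      simp
  choose m hm using hmat
  have hext : ∀ M N : SL(2, K), (∀ v, ι (M.1 *ᵥ v) = ι (N.1 *ᵥ v)) → M = N := by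
    intro M N h
    apply Subtype.ext
    apply Matrix.toLin'.injective
    apply LinearMap.ext
    intro v
    exact hιinj _ _ (h v)
  refine ⟨MonoidHom.mk' (fun g => m g.1 g.2) ?_, ?_, ?_⟩
  · rintro ⟨x, hx⟩ ⟨y, hy⟩
    apply hext
    intro v
    have h1 := hm (x * y) (Subgroup.mul_mem _ hx hy) v
    show ι ((m (x * y) _).1 *ᵥ v) = _
    rw [← h1, LinearEquiv.mul_apply, hm y hy, hm x hx, Matrix.SpecialLinearGroup.coe_mul, Matrix.mulVec_mulVec]
  · intro h
    apply hext
    intro v
    show ι ((m a h).1 *ᵥ v) = _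
    rw [← hm a h, haι]
  · intro h
    apply hext
    intro v
    show ι ((m b h).1 *ᵥ v) = _
    rw [← hm b h, hbι]

/-- The ring-theoretic form of `a`. -/
abbrev E : (W ≃ₗ[K] W) →* Module.End K W := LinearEquiv.automorphismGroup.toLinearMapMonoidHom

theorem E_apply (g : W ≃ₗ[K] W) (v : W) : E g v = g v := rfl

/-- Trace condition for `p`-elements of `SL₂`. -/
theorem trace_of_pow {p : ℕ} [Fact p.Prime] [CharP K p] (M : SL(2, K)) (m : ℕ) (hM : M ^ p ^ m = 1) :
    M.1.trace = 2 := by
  have h1 : (M.1 - 1) ^ p ^ m = 0 := by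
    rw [sub_pow_char_pow_of_commute p m (Commute.one_right _), one_pow]
    have h2 : (M.1) ^ p ^ m = 1 := by
      have := congrArg Subtype.val hM
      simpa using this
    rw [h2, sub_self]
  have h3 : IsNilpotent (M.1 - 1) := ⟨_, h1⟩
  have h4 := Matrix.isNilpotent_trace_of_isNilpotent h3
  have h5 : (M.1 - 1).trace = 0 := h4.eq_zero
  rw [Matrix.trace_sub, Matrix.trace_one, sub_eq_zero] at h5
  simpa using h5

theorem trace_ab (θ : K) : ((Ma θ * Mb : SL(2, K))).1.trace = 2 + θ := by
  rw [Matrix.SpecialLinearGroup.coe_mul]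
  simp [Ma, Mb, Matrix.trace_fin_two, Matrix.mul_fin_two]
  ring

section nil

variable {p : ℕ} [Fact p.Prime] [CharP K p] [Finite W] [Nontrivial W]

/-- The flag of common fixed points. -/
def Fl (α β : Module.End K W) : ℕ → Submodule K W
  | 0 => ⊥
  | (i + 1) => (Fl α β i).comap α ⊓ (Fl α β i).comap β

theorem Fl_mono (α β : Module.End K W) : ∀ i, Fl α β i ≤ Fl α β (i + 1)
  | 0 => bot_le
  | (i + 1) => by
    have := Fl_mono α β i
    exact inf_le_inf (Submodule.comap_mono this) (Submodule.comap_mono this)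

instance instCharEnd : CharP (Module.End K W) p :=
  charP_of_injective_algebraMap (FaithfulSMul.algebraMap_injective K (Module.End K W)) p

/-- If `T = αβ + βα` is nilpotent, the group generated is a `p`-group. -/
theorem isP_of_nilp (a b : W ≃ₗ[K] W) (ha : ∀ w, a (a w - w) = a w - w) (hb : ∀ w, b (b w - w) = b w - w)
    (hnil : IsNilpotent ((E a - 1) * (E b - 1) + (E b - 1) * (E a - 1))) :
    IsPGroup p (Subgroup.closure ({a, b} : Set (W ≃ₗ[K] W))) := by
  classical
  set α : Module.End K W := E a - 1 with hα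
  set β : Module.End K W := E b - 1 with hβ
  set T := α * β + β * α with hT
  have hαv : ∀ v, α v = a v - v := fun v => rfl
  have hβv : ∀ v, β v = b v - v := fun v => rfl
  have hαα : ∀ v, α (α v) = 0 := by
    intro v
    rw [hαv, hαv, ha]
    abel
  have hββ : ∀ v, β (β v) = 0 := by
    intro v
    rw [hβv, hβv, hb]
    abel
  have hTv : ∀ v, T v = α (β v) + β (α v) := fun v => rfl
  have hαT : ∀ v, α (T v) = T (α v) := by
    intro v
    rw [hTv, hTv, map_add, hαα, hαα]
    simp
  haveI : Module.Finite K W := Module.Finite.of_finite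
  haveI : IsNoetherian K W := inferInstance
  let fm : ℕ →o Submodule K W := ⟨Fl α β, monotone_nat_of_le_succ (Fl_mono α β)⟩
  obtain ⟨N, hN⟩ := monotone_stabilizes_iff_noetherian.2 (inferInstance : IsNoetherian K W) fm
  have hstab : Fl α β (N + 1) = Fl α β N := (hN (N + 1) (by omega)).symm
  set Fs := Fl α β N with hFs
  have hP1 : ∀ v, α v ∈ Fs → β v ∈ Fs → v ∈ Fs := by
    intro v h1 h2
    rw [← hstab]
    exact ⟨h1, h2⟩
  have hP2 : ∀ v ∈ Fs, α v ∈ Fs ∧ β v ∈ Fs := by
    intro v hv
    rw [← hstab] at hv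
    exact hv
  have hP3 : ∀ v ∈ Fs, T v ∈ Fs := by
    intro v hv
    rw [hTv]
    have h1 := hP2 v hv
    exact Fs.add_mem (hP2 _ h1.2).1 (hP2 _ h1.1).2
  obtain ⟨n, hn⟩ := hnil
  have htop : Fs = ⊤ := by
    rw [eq_top_iff]
    intro v _
    by_contra hv
    have hex : ∃ j, (T ^ j) v ∈ Fs := ⟨n, by rw [hn]; simp⟩
    have hj := Nat.find_spec hex
    have hmin := fun m => Nat.find_min hex (m := m)
    set j := Nat.find hex with hjd
    have hj0 : j ≠ 0 := by
      intro h0
      rw [h0] at hj
      exact hv (by simpa using hj)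
    obtain ⟨i, hi⟩ := Nat.exists_eq_succ_of_ne_zero hj0
    have h1 : (T ^ i) v ∉ Fs := hmin i (by omega)
    have h2 : T ((T ^ i) v) ∈ Fs := by
      have : (T ^ j) v = T ((T ^ i) v) := by
        rw [hi, pow_succ']
        rfl
      rwa [this] at hj
    obtain ⟨v₂, hv₂, hαv₂, hTv₂⟩ : ∃ v₂, v₂ ∉ Fs ∧ α v₂ ∈ Fs ∧ T v₂ ∈ Fs := by
      by_cases h3 : α ((T ^ i) v) ∈ Fs
      · exact ⟨_, h1, h3, h2⟩
      · refine ⟨_, h3, ?_, ?_⟩
        · rw [hαα]
          exact Fs.zero_mem
        · rw [← hαT]
          exact (hP2 _ h2).1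
    have h4 : α (β v₂) ∈ Fs := by
      have h5 : α (β v₂) = T v₂ - β (α v₂) := by
        rw [hTv]
        abel
      rw [h5]
      exact Fs.sub_mem hTv₂ (hP2 _ hαv₂).2
    have h6 : β v₂ ∉ Fs := fun h => hv₂ (hP1 _ hαv₂ h)
    apply h6
    apply hP1 _ h4
    rw [hββ]
    exact Fs.zero_mem
  have hpr : ∀ g ∈ Subgroup.closure ({a, b} : Set (W ≃ₗ[K] W)), ∀ i v, v ∈ Fl α β (i + 1) →
      g v - v ∈ Fl α β i ∧ g⁻¹ v - v ∈ Fl α β i := by
    intro g hg
    induction hg using Subgroup.closure_induction with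
    | mem x hx =>
      intro i v hv
      rcases hx with rfl | hx
      · have h1 : x v - v ∈ Fl α β i := hv.1
        refine ⟨h1, ?_⟩
        have e : x⁻¹ v = v - α v := by
          apply x.injective
          show x (x.symm v) = _
          rw [x.apply_symm_apply, map_sub, hαv, ha]
          abel
        rw [e]
        have : v - α v - v = -(α v) := by abel
        rw [this]
        exact Submodule.neg_mem _ h1
      · rw [Set.mem_singleton_iff] at hx
        subst hx
        have h1 : x v - v ∈ Fl α β i := hv.2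
        refine ⟨h1, ?_⟩
        have e : x⁻¹ v = v - β v := by
          apply x.injective
          show x (x.symm v) = _
          rw [x.apply_symm_apply, map_sub, hβv, hb]
          abel
        rw [e]
        have : v - β v - v = -(β v) := by abel
        rw [this]
        exact Submodule.neg_mem _ h1
    | one => intro i v hv; simp
    | mul x y _ _ hx hy =>
      intro i v hv
      obtain ⟨h1, h2⟩ := hy i v hv
      obtain ⟨h3, h4⟩ := hx i v hv
      constructor
      · have e : (x * y) v - v = (x (y v) - y v) + (y v - v) := by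
          rw [LinearEquiv.mul_apply]
          abel
        rw [e]
        have hyv : y v ∈ Fl α β (i + 1) := by
          have : y v = (y v - v) + v := by abel
          rw [this]
          exact Submodule.add_mem _ (Fl_mono α β i h1) hv
        exact Submodule.add_mem _ (hx i _ hyv).1 h1
      · have e : (x * y)⁻¹ v - v = (y⁻¹ (x⁻¹ v) - x⁻¹ v) + (x⁻¹ v - v) := by
          rw [mul_inv_rev, LinearEquiv.mul_apply]
          abel
        rw [e]
        have hxv : x⁻¹ v ∈ Fl α β (i + 1) := by
          have : x⁻¹ v = (x⁻¹ v - v) + v := by abel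
          rw [this]
          exact Submodule.add_mem _ (Fl_mono α β i h4) hv
        exact Submodule.add_mem _ (hy i _ hxv).2 h4
    | inv x _ hx =>
      intro i v hv
      obtain ⟨h1, h2⟩ := hx i v hv
      exact ⟨h2, by rw [inv_inv]; exact h1⟩
  rw [IsPGroup]
  rintro ⟨g, hg⟩
  obtain ⟨m, hm⟩ : ∃ m, N ≤ p ^ m := ⟨N, (Nat.lt_pow_self (Fact.out : p.Prime).one_lt).le⟩
  refine ⟨m, ?_⟩
  apply Subtype.ext
  have hg1 : (E g - 1) ^ N = 0 := by
    have hk : ∀ k v, k ≤ N → ((E g - 1) ^ k) v ∈ Fl α β (N - k) := by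
      intro k v
      induction k with
      | zero =>
        intro _
        simp only [Nat.sub_zero, pow_zero]
        rw [← hFs, htop]
        exact Submodule.mem_top
      | succ k ih =>
        intro hk
        have h1 := ih (by omega)
        have e : N - k = (N - (k + 1)) + 1 := by omega
        rw [e] at h1
        have h2 := (hpr g hg _ _ h1).1
        rw [pow_succ']
        exact h2
    ext v
    have := hk N v le_rfl
    simpa [Fl] using this
  have hg2 : (E g - 1) ^ p ^ m = 0 := by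
    obtain ⟨l, hl⟩ := Nat.exists_eq_add_of_le hm
    rw [hl, pow_add, hg1, zero_mul]
  have hg3 : E (g ^ p ^ m) = 1 := by
    rw [map_pow]
    rw [sub_pow_char_pow_of_commute p m (Commute.one_right _), one_pow, sub_eq_zero] at hg2
    exact hg2
  have hg4 : g ^ p ^ m = 1 := by
    ext v
    have := congrArg (fun f : Module.End K W => f v) hg3
    simpa [E_apply] using this
  simpa using hg4

end nil

section eig

open Polynomial

variable [Fintype K] {p : ℕ} [Fact p.Prime] [CharP K p] [Finite W] [Nontrivial W]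

theorem prod_X_sub_C_univ : ∏ θ : K, (X - C θ) = (X ^ Fintype.card K - X : K[X]) := by
  classical
  have h1 : (X ^ Fintype.card K - X : K[X]).Monic :=
    monic_X_pow_sub (by
      rw [degree_X]
      exact_mod_cast Fintype.one_lt_card)
  have h2 := prod_multiset_X_sub_C_of_monic_of_roots_card_eq h1 (by
    rw [FiniteField.roots_X_pow_card_sub_X, FiniteField.X_pow_card_sub_X_natDegree_eq K Fintype.one_lt_card]
    rfl)
  rw [FiniteField.roots_X_pow_card_sub_X] at h2
  exact h2

theorem exists_eig_of_pow (T : Module.End K W) (r : ℕ) (h : (T ^ Fintype.card K - T) ^ r = 0)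
    (hne : T ^ r ≠ 0) : ∃ θ : K, θ ≠ 0 ∧ ∃ x : W, x ≠ 0 ∧ T x = θ • x := by
  classical
  by_contra hno
  push Not at hno
  have hinj : ∀ θ : K, θ ≠ 0 → Function.Injective (T - algebraMap K (Module.End K W) θ) := by
    intro θ hθ
    rw [injective_iff_map_eq_zero]
    intro x hx
    by_contra hx0
    apply hno θ hθ x hx0
    have : T x - θ • x = 0 := hx
    exact sub_eq_zero.1 this
  have hind : ∀ s : Finset K, (0 : K) ∉ s → Function.Injective (aeval T (∏ θ ∈ s, (X - C θ))) := by
    intro s
    induction s using Finset.induction_on with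
    | empty =>
      intro _
      simp only [Finset.prod_empty, map_one]
      exact Function.injective_id
    | insert a s ha ih =>
      intro h0
      rw [Finset.prod_insert ha, map_mul]
      have h1 : (0 : K) ∉ s := fun h2 => h0 (Finset.mem_insert_of_mem h2)
      have h2 : a ≠ 0 := fun h3 => h0 (h3 ▸ Finset.mem_insert_self a s)
      have h3 : aeval T (X - C a) = T - algebraMap K (Module.End K W) a := by
        simp [aeval_C]
      rw [h3]
      exact (hinj a h2).comp (ih h1)
  set P : K[X] := ∏ θ ∈ Finset.univ.erase (0 : K), (X - C θ) with hP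
  have hXP : X * P = (X ^ Fintype.card K - X : K[X]) := by
    rw [← prod_X_sub_C_univ, ← Finset.mul_prod_erase Finset.univ _ (Finset.mem_univ (0 : K))]
    simp [hP]
  have hPinj : Function.Injective (aeval T P) := hind _ (by simp)
  obtain ⟨v, hv⟩ : ∃ v, (T ^ r) v ≠ 0 := by
    by_contra hall
    push Not at hall
    exact hne (LinearMap.ext hall)
  have h1 : (aeval T P) ^ r * T ^ r = 0 := by
    have h2 : aeval T ((X * P) ^ r) = 0 := by
      rw [hXP, map_pow, map_sub, map_pow, aeval_X]
      exact h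
    rw [mul_comm X P, mul_pow, map_mul, map_pow, map_pow, aeval_X] at h2
    exact h2
  have h3 : ((aeval T P) ^ r) ((T ^ r) v) = 0 := by
    have := congrArg (fun f : Module.End K W => f v) h1
    simpa using this
  have hpinj : ∀ k : ℕ, Function.Injective ((aeval T P) ^ k) := by
    intro k
    induction k with
    | zero => exact Function.injective_id
    | succ k ih =>
      rw [pow_succ]
      exact ih.comp hPinj
  have h4 := hpinj r (h3.trans (map_zero _).symm)
  exact hv h4

theorem exists_vec (a b : W ≃ₗ[K] W) (ha : ∀ w, a (a w - w) = a w - w) (hb : ∀ w, b (b w - w) = b w - w)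
    (hnp : ¬ IsPGroup p (Subgroup.closure ({a, b} : Set (W ≃ₗ[K] W))))
    (hk : ∃ e k : ℕ, orderOf (a * b) = p ^ e * k ∧ k ∣ Fintype.card K - 1) :
    ∃ (w : W) (θ : K), w ≠ 0 ∧ θ ≠ 0 ∧ a w = w ∧ a (b w) - b w = θ • w := by
  classical
  obtain ⟨e, k, hord, hkq⟩ := hk
  set α : Module.End K W := E a - 1 with hα
  set β : Module.End K W := E b - 1 with hβ
  set T := α * β + β * α with hT
  have hnil : ¬ IsNilpotent T := fun h => hnp (isP_of_nilp a b ha hb h)
  have hαv : ∀ v, α v = a v - v := fun v => rfl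
  have hβv : ∀ v, β v = b v - v := fun v => rfl
  have hαα : α * α = 0 := by
    ext v
    show α (α v) = 0
    rw [hαv, hαv, ha]
    abel
  have hββ : β * β = 0 := by
    ext v
    show β (β v) = 0
    rw [hβv, hβv, hb]
    abel
  have hEa : E a = 1 + α := by rw [hα]; abel
  have hEb : E b = 1 + β := by rw [hβ]; abel
  have hEai : E a⁻¹ = 1 - α := by
    have h1 : E a⁻¹ * E a = 1 := by rw [← map_mul, inv_mul_cancel, map_one]
    have h2 : (1 - α) * E a = 1 := by
      rw [hEa]
      noncomm_ring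
      rw [hαα]
      simp
    calc E a⁻¹ = E a⁻¹ * (E a * (1 - α)) := by
          have h3 : E a * (1 - α) = 1 := by
            rw [hEa]
            noncomm_ring
            rw [hαα]
            simp
          rw [h3, mul_one]
      _ = (E a⁻¹ * E a) * (1 - α) := by rw [mul_assoc]
      _ = 1 - α := by rw [h1, one_mul]
  have hEbi : E b⁻¹ = 1 - β := by
    have h1 : E b⁻¹ * E b = 1 := by rw [← map_mul, inv_mul_cancel, map_one]
    calc E b⁻¹ = E b⁻¹ * (E b * (1 - β)) := by
          have h3 : E b * (1 - β) = 1 := by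
            rw [hEb]
            noncomm_ring
            rw [hββ]
            simp
          rw [h3, mul_one]
      _ = (E b⁻¹ * E b) * (1 - β) := by rw [mul_assoc]
      _ = 1 - β := by rw [h1, one_mul]
  set c := E (a * b) with hc
  set c' := E (a * b)⁻¹ with hc'
  have hT_eq : T = c + c' - (1 + 1) := by
    rw [hc, hc', map_mul, mul_inv_rev, map_mul, hEa, hEb, hEai, hEbi, hT]
    noncomm_ring
  have hcc' : Commute c c' := by
    show c * c' = c' * c
    rw [hc, hc', ← map_mul, ← map_mul, mul_inv_cancel, inv_mul_cancel]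
  have h11 : ∀ n : ℕ, ((1 : Module.End K W) + 1) ^ p ^ n = 1 + 1 := by
    intro n
    rw [add_pow_char_pow_of_commute p n (Commute.one_left _), one_pow]
  have hform : ∀ n : ℕ, T ^ p ^ n = c ^ p ^ n + c' ^ p ^ n - (1 + 1) := by
    intro n
    have hcomm : Commute (c + c') ((1 : Module.End K W) + 1) := by
      apply Commute.add_right <;> exact Commute.one_right _
    rw [hT_eq, sub_pow_char_pow_of_commute p n hcomm, add_pow_char_pow_of_commute p n hcc', h11]
  set r := p ^ e with hr
  obtain ⟨f, hpf, hq⟩ := FiniteField.card K p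
  set q := Fintype.card K with hqd
  have hq1 : 1 ≤ q := Fintype.card_pos
  have hck : (c ^ r) ^ k = 1 := by
    rw [← pow_mul, hc, ← map_pow, ← hord, pow_orderOf_eq_one, map_one]
  have hck' : (c' ^ r) ^ k = 1 := by
    rw [← pow_mul, hc', ← map_pow, ← hord, inv_pow, pow_orderOf_eq_one, inv_one, map_one]
  obtain ⟨l, hl⟩ := hkq
  have hqe : q = k * l + 1 := by omega
  have hd : (c ^ r) ^ q = c ^ r := by
    rw [hqe, pow_succ, pow_mul, hck, one_pow, one_mul]
  have hd' : (c' ^ r) ^ q = c' ^ r := by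
    rw [hqe, pow_succ, pow_mul, hck', one_pow, one_mul]
  have hcomm2 : Commute (c ^ r) (c' ^ r) := hcc'.pow_pow _ _
  have hD : (T ^ r) ^ q = T ^ r := by
    have hcomm3 : Commute (c ^ r + c' ^ r) ((1 : Module.End K W) + 1) := by
      apply Commute.add_right <;> exact Commute.one_right _
    rw [hform e, hq, sub_pow_char_pow_of_commute p (f : ℕ) hcomm3, add_pow_char_pow_of_commute p (f : ℕ) hcomm2,
      h11, ← hq, hd, hd']
  have hpow0 : (T ^ q - T) ^ r = 0 := by
    have hcomm4 : Commute (T ^ q) T := (Commute.refl T).pow_left q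
    rw [hr, sub_pow_char_pow_of_commute p e hcomm4, ← pow_mul, mul_comm, pow_mul, ← hr, hD, sub_self]
  have hne : T ^ r ≠ 0 := fun h0 => hnil ⟨r, h0⟩
  obtain ⟨θ, hθ, x, hx, hTx⟩ := exists_eig_of_pow T r hpow0 hne
  have hαT : ∀ v, α (T v) = T (α v) := by
    intro v
    have h1 : α * T = T * α := by
      rw [hT]
      have e1 : α * (α * β + β * α) = (α * α) * β + α * β * α := by noncomm_ring
      have e2 : (α * β + β * α) * α = α * β * α + β * (α * α) := by noncomm_ring
      rw [e1, e2, hαα]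
      simp
    exact congrArg (fun f : Module.End K W => f v) h1
  have hmain : ∃ w : W, w ≠ 0 ∧ α w = 0 ∧ T w = θ • w := by
    by_cases h0 : α x = 0
    · exact ⟨x, hx, h0, hTx⟩
    · refine ⟨α x, h0, ?_, ?_⟩
      · have := congrArg (fun f : Module.End K W => f x) hαα
        simpa using this
      · rw [← hαT, hTx, map_smul]
  obtain ⟨w, hw, hαw, hTw⟩ := hmain
  have haw : a w = w := by
    rw [hαv] at hαw
    exact sub_eq_zero.1 hαw
  refine ⟨w, θ, hw, hθ, haw, ?_⟩
  have h5 : T w = α (β w) + β (α w) := rfl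
  rw [hαw, map_zero, add_zero, hαv, hβv, map_sub, haw] at h5
  rw [← hTw, h5]
  abel

/-- The main statement, in `K`-linear form. -/
theorem exists_phi (a b : W ≃ₗ[K] W) (ha : ∀ w, a (a w - w) = a w - w) (hb : ∀ w, b (b w - w) = b w - w)
    (hnp : ¬ IsPGroup p (Subgroup.closure ({a, b} : Set (W ≃ₗ[K] W))))
    (hk : ∃ e k : ℕ, orderOf (a * b) = p ^ e * k ∧ k ∣ Fintype.card K - 1) :
    ∃ (θ : K) (φ : ↥(Subgroup.closure ({a, b} : Set (W ≃ₗ[K] W))) →* SL(2, K)), θ ≠ 0 ∧
      (∀ h, φ ⟨a, h⟩ = Ma θ) ∧ (∀ h, φ ⟨b, h⟩ = Mb) := by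
  obtain ⟨w, θ, hw, hθ, haw, hT⟩ := exists_vec (p := p) a b ha hb hnp hk
  obtain ⟨φ, h1, h2⟩ := quad_hom a b hb w θ hw hθ haw hT
  exact ⟨θ, φ, hθ, h1, h2⟩

theorem not_pgroup_of (p : ℕ) [Fact p.Prime] [CharP K p] (θ : K) (hθ : θ ≠ 0) (S : Subgroup SL(2, K)) (h1 : Ma θ ∈ S) (h2 : Mb ∈ S) :
    ¬ IsPGroup p S := by
  intro hS
  obtain ⟨m, hm⟩ := hS ⟨_, S.mul_mem h1 h2⟩
  have h3 : (Ma θ * Mb) ^ p ^ m = 1 := by
    have := congrArg Subtype.val hm
    simpa using this
  have h4 := trace_of_pow (Ma θ * Mb) m h3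
  rw [trace_ab] at h4
  exact hθ (by simpa using h4)

end eig

end Cfsg.Agent.Lib.QuadCore
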