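import Mathlib
import Cfsg.Prelude
import Cfsg.Agent.Lib.QuadCore
import Cfsg.Agent.Lib.DicksonQuat
import Cfsg.Agent.Lib.DicksonSL2
import Cfsg.Agent.Lib.BaerSuzuki
import Cfsg.Agent.Lib.Quaternion
import Cfsg.Agent.Lib.PConstr
import Cfsg.Agent.Lib.H6Hall
import Cfsg.Agent.Lib.SLNormal
import Cfsg.Agent.Lib.SLn

/-! Faithful actions on elementary abelian `p`-groups with quadratically acting elements. -/

set_option autoImplicit false
set_option linter.all false

open scoped MatrixGroups Matrix TensorProduct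

namespace Cfsg.Agent.Lib.QuadRep

open Cfsg Cfsg.Agent.Lib.QuadCore

section rep

variable {p : ℕ} [hpF : Fact p.Prime] {A : Type*} [AddCommGroup A] [Module (ZMod p) A] [Finite A]
  {Γ : Type*} [Group Γ] [Finite Γ]

/-- A quadratically acting automorphism. -/
def IsQuad (f : A ≃ₗ[ZMod p] A) : Prop := ∀ w, f (f w - w) = f w - w

section bc

variable {K : Type} [Field K] [Algebra (ZMod p) K]

/-- Base change to `K`, as a homomorphism of groups. -/
noncomputable def bc : (A ≃ₗ[ZMod p] A) →* ((K ⊗[ZMod p] A) ≃ₗ[K] (K ⊗[ZMod p] A)) :=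
  MonoidHom.mk' (fun f => LinearEquiv.baseChange (ZMod p) K A A f) (by
    intro f g
    apply LinearEquiv.ext
    intro w
    induction w using TensorProduct.induction_on with
    | zero => simp
    | tmul c x => rfl
    | add x y hx hy =>
      rw [map_add, hx, hy, map_add])

theorem bc_tmul (f : A ≃ₗ[ZMod p] A) (c : K) (x : A) : bc f (c ⊗ₜ[ZMod p] x) = c ⊗ₜ[ZMod p] f x := rfl

theorem bc_quad {f : A ≃ₗ[ZMod p] A} (hf : IsQuad f) (w : K ⊗[ZMod p] A) :
    bc f (bc f w - w) = bc f w - w := by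
  induction w using TensorProduct.induction_on with
  | zero => simp
  | tmul c x =>
    rw [bc_tmul, ← TensorProduct.tmul_sub, bc_tmul, hf]
  | add x y hx hy =>
    have e : bc f (x + y) - (x + y) = (bc f x - x) + (bc f y - y) := by
      rw [map_add]
      abel
    rw [e, map_add, hx, hy]

theorem mk_inj : Function.Injective (fun x : A => (1 : K) ⊗ₜ[ZMod p] x) := by
  have h := Module.FaithfullyFlat.tensorProduct_mk_injective (A := ZMod p) (B := K) A
  exact h

theorem bc_inj : Function.Injective (bc (K := K) (A := A) (p := p)) := by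
  intro f g h
  apply LinearEquiv.ext
  intro x
  apply mk_inj (K := K) (p := p)
  have := congrArg (fun e => e ((1 : K) ⊗ₜ[ZMod p] x)) h
  exact this

end bc

/-- The homomorphism into `SL₂`. -/
theorem exists_phi_rep (ρ : Γ →* (A ≃ₗ[ZMod p] A)) (hρ : Function.Injective ρ) (x y : Γ)
    (hgen : Subgroup.closure ({x, y} : Set Γ) = ⊤) (hx : IsQuad (ρ x)) (hy : IsQuad (ρ y))
    (hnp : ¬ IsPGroup p Γ) :
    ∃ (K : Type) (_ : Field K) (_ : Finite K) (_ : CharP K p) (θ : K) (φ : Γ →* SL(2, K)),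
      θ ≠ 0 ∧ φ x = Ma θ ∧ φ y = Mb := by
  classical
  have hpp : p.Prime := Fact.out
  -- the field
  have hord : orderOf (x * y) ≠ 0 := (orderOf_pos _).ne'
  obtain ⟨e, k, hkd, hek⟩ := Nat.exists_eq_pow_mul_and_not_dvd hord p hpp.ne_one
  have hk0 : k ≠ 0 := by
    rintro rfl
    rw [mul_zero] at hek
    exact hord hek
  have hco : p.Coprime k := (Nat.Prime.coprime_iff_not_dvd hpp).2 hkd
  set n := Nat.totient k with hn
  have hn0 : n ≠ 0 := (Nat.totient_pos.2 (Nat.pos_of_ne_zero hk0)).ne'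
  let K := GaloisField p n
  haveI : Finite K := inferInstance
  letI : Fintype K := Fintype.ofFinite K
  have hqc : Fintype.card K = p ^ n := by
    rw [← Nat.card_eq_fintype_card]
    exact GaloisField.card p n hn0
  have hkq : k ∣ Fintype.card K - 1 := by
    rw [hqc]
    have h1 := Nat.ModEq.pow_totient hco
    exact (Nat.modEq_iff_dvd' (Nat.one_le_pow _ _ hpp.pos)).1 h1.symm
  haveI : CharP K p := inferInstance
  let W := K ⊗[ZMod p] A
  have hAnt : Nontrivial A := by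
    by_contra hA
    rw [not_nontrivial_iff_subsingleton] at hA
    apply hnp
    have : Subsingleton Γ := by
      constructor
      intro a b
      apply hρ
      apply LinearEquiv.ext
      intro w
      exact Subsingleton.elim _ _
    exact IsPGroup.of_card (n := 0) (by simp)
  haveI : Nontrivial W := by
    obtain ⟨u, v, huv⟩ := hAnt
    exact ⟨⟨_, _, fun h => huv (mk_inj (K := K) (p := p) h)⟩⟩
  haveI : Module.Finite (ZMod p) A := Module.Finite.of_finite
  haveI : Module.Finite K W := inferInstance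
  haveI : Finite W := Module.finite_of_finite K
  let ρ₁ : Γ →* (W ≃ₗ[K] W) := (bc (K := K) (A := A) (p := p)).comp ρ
  have hρ₁ : Function.Injective ρ₁ := (bc_inj (K := K)).comp hρ
  set a₁ := ρ₁ x with ha₁
  set b₁ := ρ₁ y with hb₁
  have hcl : Subgroup.closure ({a₁, b₁} : Set (W ≃ₗ[K] W)) = ρ₁.range := by
    rw [MonoidHom.range_eq_map, ← hgen, MonoidHom.map_closure, Set.image_pair]
  have hnp₁ : ¬ IsPGroup p (Subgroup.closure ({a₁, b₁} : Set (W ≃ₗ[K] W))) := by
    rw [hcl]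
    intro h
    apply hnp
    intro g
    obtain ⟨m, hm⟩ := h ⟨ρ₁ g, g, rfl⟩
    refine ⟨m, hρ₁ ?_⟩
    rw [map_pow, map_one]
    have := congrArg Subtype.val hm
    simpa using this
  have hk₁ : ∃ e k : ℕ, orderOf (a₁ * b₁) = p ^ e * k ∧ k ∣ Fintype.card K - 1 := by
    refine ⟨e, k, ?_, hkq⟩
    rw [ha₁, hb₁, ← map_mul, orderOf_injective ρ₁ hρ₁, hek]
  obtain ⟨θ, φ₀, hθ, h1, h2⟩ := exists_phi (p := p) a₁ b₁ (bc_quad hx) (bc_quad hy) hnp₁ hk₁
  have hmem : ∀ g : Γ, ρ₁ g ∈ Subgroup.closure ({a₁, b₁} : Set (W ≃ₗ[K] W)) := by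
    intro g
    rw [hcl]
    exact ⟨g, rfl⟩
  let φ : Γ →* SL(2, K) := φ₀.comp (ρ₁.codRestrict _ hmem)
  exact ⟨K, inferInstance, inferInstance, inferInstance, θ, φ, hθ, h1 _, h2 _⟩

end rep

section sl2

variable {K : Type} [Field K] [Finite K] {p : ℕ} [hpF : Fact p.Prime] [CharP K p]

theorem pow_eq_one_of_sq (M : SL(2, K)) (h : (M.1 - 1) * (M.1 - 1) = 0) : M ^ p = 1 := by
  apply Subtype.ext
  have h1 : M.1 = (M.1 - 1) + 1 := by abel
  have h2 : (M.1 - 1) ^ p = 0 := by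
    have hp2 : 2 ≤ p := (Fact.out : p.Prime).two_le
    obtain ⟨l, hl⟩ := Nat.exists_eq_add_of_le hp2
    rw [hl, pow_add, pow_two, h, zero_mul]
  have h3 : (M.1) ^ p = 1 := by
    conv_lhs => rw [h1]
    rw [add_pow_char_of_commute p (Commute.one_right _), h2, zero_add, one_pow]
  simpa using h3

theorem Ma_pow (θ : K) : (Ma θ) ^ p = 1 := by
  apply pow_eq_one_of_sq
  ext i j
  fin_cases i <;> fin_cases j <;> simp [Ma, Matrix.mul_apply, Fin.sum_univ_two]

theorem Mb_pow : (Mb : SL(2, K)) ^ p = 1 := by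
  apply pow_eq_one_of_sq
  ext i j
  fin_cases i <;> fin_cases j <;> simp [Mb, Matrix.mul_apply, Fin.sum_univ_two]

theorem one_lt_sylow (S : Subgroup SL(2, K)) (θ : K) (hθ : θ ≠ 0) (h1 : Ma θ ∈ S) (h2 : Mb ∈ S) :
    1 < Nat.card (Sylow p S) := by
  classical
  haveI : Finite SL(2, K) :=
    Finite.of_injective (fun g => (g : Matrix (Fin 2) (Fin 2) K)) Subtype.val_injective
  have hx : IsPGroup p (Subgroup.zpowers (⟨Ma θ, h1⟩ : S)) := by
    apply IsPGroup.of_card (n := 1)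
    rw [Nat.card_zpowers, pow_one]
    apply orderOf_eq_prime
    · apply Subtype.ext
      exact Ma_pow θ
    · intro h
      have := congrArg (fun g : S => ((g.1).1 : Matrix (Fin 2) (Fin 2) K) 0 1) h
      simp [Ma] at this
      exact hθ this
  have hy : IsPGroup p (Subgroup.zpowers (⟨Mb, h2⟩ : S)) := by
    apply IsPGroup.of_card (n := 1)
    rw [Nat.card_zpowers, pow_one]
    apply orderOf_eq_prime
    · apply Subtype.ext
      exact Mb_pow
    · intro h
      have := congrArg (fun g : S => ((g.1).1 : Matrix (Fin 2) (Fin 2) K) 1 0) h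
      simp [Mb] at this
  obtain ⟨P₁, hP₁⟩ := hx.exists_le_sylow
  obtain ⟨P₂, hP₂⟩ := hy.exists_le_sylow
  have hne : P₁ ≠ P₂ := by
    rintro rfl
    have h3 : (⟨Ma θ, h1⟩ : S) * ⟨Mb, h2⟩ ∈ (P₁ : Subgroup S) :=
      Subgroup.mul_mem _ (hP₁ (Subgroup.mem_zpowers _)) (hP₂ (Subgroup.mem_zpowers _))
    obtain ⟨m, hm⟩ := P₁.isPGroup' ⟨_, h3⟩
    have h4 : (Ma θ * Mb) ^ p ^ m = 1 := by
      have := congrArg (fun g : (P₁ : Subgroup S) => (g.1).1) hm
      simpa using this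
    have h5 := trace_of_pow (Ma θ * Mb) m h4
    rw [trace_ab] at h5
    exact hθ (by simpa using h5)
  haveI : Nontrivial (Sylow p S) := ⟨⟨P₁, P₂, hne⟩⟩
  exact Finite.one_lt_card

/-- The key consequence of Dickson's analysis: non-commutative Sylow `2`-subgroups. -/
theorem sylow2_not_comm {Γ : Type*} [Group Γ] [Finite Γ] (hp : p ≠ 2) (φ : Γ →* SL(2, K)) (x y : Γ)
    (θ : K) (hθ : θ ≠ 0) (hx : φ x = Ma θ) (hy : φ y = Mb) (T : Sylow 2 Γ) :
    ¬ IsMulCommutative (T : Subgroup Γ) := by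
  classical
  intro hT
  haveI : Fact (Nat.Prime 2) := ⟨Nat.prime_two⟩
  haveI : Finite SL(2, K) :=
    Finite.of_injective (fun g => (g : Matrix (Fin 2) (Fin 2) K)) Subtype.val_injective
  have hsurj : Function.Surjective φ.rangeRestrict := MonoidHom.rangeRestrict_surjective φ
  let T' : Sylow 2 φ.range := T.mapSurjective hsurj
  have h1 : 1 < Nat.card (Sylow p φ.range) :=
    one_lt_sylow φ.range θ hθ ⟨x, hx⟩ ⟨y, hy⟩
  obtain ⟨k, hk, ⟨e⟩⟩ := Cfsg.Agent.Lib.DicksonQuat.main hp φ.range h1 T'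
  have h2k : 2 ≤ 2 ^ k := by
    calc 2 = 2 ^ 1 := rfl
      _ ≤ 2 ^ k := Nat.pow_le_pow_right (by norm_num) hk
  haveI : NeZero (2 ^ k) := ⟨by positivity⟩
  apply Cfsg.Agent.Lib.Quaternion.q_noncomm (2 ^ k) h2k
  intro g k'
  obtain ⟨g', rfl⟩ := e.surjective g
  obtain ⟨k'', rfl⟩ := e.surjective k'
  rw [← map_mul, ← map_mul]
  congr 1
  rcases g' with ⟨s₁, hs₁⟩
  rcases k'' with ⟨s₂, hs₂⟩
  have hs₁' : s₁ ∈ (T : Subgroup Γ).map φ.rangeRestrict := hs₁
  have hs₂' : s₂ ∈ (T : Subgroup Γ).map φ.rangeRestrict := hs₂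
  obtain ⟨a, ha, rfl⟩ := hs₁'
  obtain ⟨b, hb, rfl⟩ := hs₂'
  apply Subtype.ext
  show φ.rangeRestrict a * φ.rangeRestrict b = φ.rangeRestrict b * φ.rangeRestrict a
  rw [← map_mul, ← map_mul]
  congr 1
  have hc := hT.is_comm.comm (⟨a, ha⟩ : (T : Subgroup Γ)) ⟨b, hb⟩
  exact congrArg Subtype.val hc

/-- `SL₂(p)` is not `p`-soluble for `p ≥ 5`. -/
theorem not_psolv (hp5 : 5 ≤ p) : ¬ IsPSolvable p (SL(2, ZMod p)) := by
  classical
  intro hs
  have hpp : p.Prime := Fact.out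
  haveI : NeZero p := ⟨hpp.ne_zero⟩
  let X := Matrix.ProjectiveSpecialLinearGroup (Fin 2) (ZMod p)
  let π : SL(2, ZMod p) →* X := QuotientGroup.mk' _
  have hπ : Function.Surjective π := QuotientGroup.mk'_surjective _
  have hπ1 : ∀ x, π x = 1 ↔ x ∈ Subgroup.center (SL(2, ZMod p)) := fun x => QuotientGroup.eq_one_iff x
  have hsX : IsPSolvable p X := Cfsg.Agent.Lib.PConstr.isPSolvable_of_surjective π hπ hs
  have h20 : ((2 : ℕ) : ZMod p) ≠ 0 := by
    rw [Ne, ZMod.natCast_eq_zero_iff]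
    intro h
    have := Nat.le_of_dvd (by norm_num) h
    omega
  have h30 : ((3 : ℕ) : ZMod p) ≠ 0 := by
    rw [Ne, ZMod.natCast_eq_zero_iff]
    intro h
    have := Nat.le_of_dvd (by norm_num) h
    omega
  have h20' : (2 : ZMod p) ≠ 0 := by exact_mod_cast h20
  have h30' : (3 : ZMod p) ≠ 0 := by exact_mod_cast h30
  have hperf : commutator (SL(2, ZMod p)) = ⊤ := by
    apply Cfsg.Agent.Lib.SLNormal.perfect_SL2
    refine ⟨2, h20', ?_⟩
    intro h
    apply h30'
    have : (2 : ZMod p) ^ 2 - 1 = 3 := by norm_num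
    rw [← this, h, sub_self]
  haveI hsimp : IsSimpleGroup X := Cfsg.Agent.Lib.SLn.isSimpleGroup_PSL_of_perfect hperf
  -- the chain
  obtain ⟨n, H, h0, hl, hmono, hnorm, hc⟩ := hsX
  have hstep : ∃ i : Fin n, H i.castSucc = ⊥ ∧ H i.succ = ⊤ := by
    by_contra hno
    push Not at hno
    have hall : ∀ i : Fin (n + 1), H i = ⊥ := by
      intro i
      induction i using Fin.induction with
      | zero => exact h0
      | succ i ih =>
        rcases (hnorm i.succ).eq_bot_or_eq_top with h | h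
        · exact h
        · exact absurd h (hno i ih)
    have h1 := hall (Fin.last n)
    rw [hl] at h1
    exact top_ne_bot h1
  obtain ⟨i, hi1, hi2⟩ := hstep
  have hcard := hc i
  rw [hi1, hi2, Subgroup.relIndex_top_right, Subgroup.index_bot] at hcard
  rcases hcard with ⟨m, hm⟩ | hco
  · -- `X` is a `p`-group
    have hXp : IsPGroup p X := IsPGroup.of_card hm
    let g : SL(2, ZMod p) := Ma 2 * Mb
    obtain ⟨m', hm'⟩ := hXp (π g)
    rw [← map_pow, hπ1, Matrix.SpecialLinearGroup.mem_center_iff] at hm'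
    obtain ⟨s, hs2, hse⟩ := hm'
    simp only [Fintype.card_fin] at hs2
    have hM : (g.1) ^ p ^ m' = Matrix.scalar (Fin 2) s := by
      simpa using hse.symm
    have hs1 : s ^ p ^ m' = s := by
      have h1 : (s - 1) * (s + 1) = 0 := by ring_nf; rw [hs2]; ring
      rcases mul_eq_zero.1 h1 with h2 | h2
      · have : s = 1 := sub_eq_zero.1 h2
        rw [this, one_pow]
      · have : s = -1 := eq_neg_of_add_eq_zero_left h2
        rw [this]
        have hodd : Odd (p ^ m') := Odd.pow (hpp.odd_of_ne_two (by omega))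
        exact hodd.neg_one_pow
    have h3 : (g.1 - Matrix.scalar (Fin 2) s) ^ p ^ m' = 0 := by
      have hcomm : Commute g.1 (Matrix.scalar (Fin 2) s) :=
        (Matrix.scalar_commute s (fun _ => mul_comm s _) _).symm
      rw [sub_pow_char_pow_of_commute p m' hcomm, hM, ← map_pow, hs1, sub_self]
    have h4 : IsNilpotent (g.1 - Matrix.scalar (Fin 2) s) := ⟨_, h3⟩
    have h5 := (Matrix.isNilpotent_trace_of_isNilpotent h4).eq_zero
    rw [Matrix.trace_sub, trace_ab] at h5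
    simp only [Matrix.trace_fin_two, Matrix.scalar_apply, Matrix.diagonal_apply_eq] at h5
    have h6 : (2 : ZMod p) * (2 - s) = 0 := by linear_combination h5
    have h7 : s = 2 := by
      rcases mul_eq_zero.1 h6 with h | h
      · exact absurd h h20'
      · exact (sub_eq_zero.1 h).symm
    rw [h7] at hs2
    apply h30'
    linear_combination hs2
  · have hco' : (Nat.card X).Coprime p := hco
    have ht : π (Ma 1) ≠ 1 := by
      rw [Ne, hπ1, Matrix.SpecialLinearGroup.mem_center_iff]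
      rintro ⟨s, -, hse⟩
      have := congrFun (congrFun hse 0) 1
      simp [Ma] at this
    have ho : orderOf (π (Ma 1)) = p := by
      apply orderOf_eq_prime _ ht
      rw [← map_pow, Ma_pow, map_one]
    have hd : p ∣ Nat.card X := by
      rw [← ho]
      exact orderOf_dvd_natCard _
    have := Nat.Coprime.eq_one_of_dvd (Nat.coprime_comm.1 hco') hd
    exact hpp.one_lt.ne' this

end sl2

section main

variable {p : ℕ} [hpF : Fact p.Prime] {A : Type*} [AddCommGroup A] [Module (ZMod p) A] [Finite A]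
  {Γ : Type*} [Group Γ] [Finite Γ]

theorem isQuad_conj (f h : A ≃ₗ[ZMod p] A) (hf : IsQuad f) : IsQuad (h * f * h⁻¹) := by
  intro w
  have e1 : (h * f * h⁻¹) w = h (f (h⁻¹ w)) := rfl
  have e2 : (h * f * h⁻¹) (h (f (h⁻¹ w)) - w) = h (f (f (h⁻¹ w) - h⁻¹ w)) := by
    show h (f (h⁻¹ (h (f (h⁻¹ w)) - w))) = _
    congr 2
    rw [map_sub]
    congr 1
    show h.symm (h _) = _
    rw [h.symm_apply_apply]
  rw [e1, e2, hf]
  rw [map_sub]
  congr 1
  show h (h.symm w) = w
  rw [h.apply_symm_apply]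

theorem pow_of_quad (ρ : Γ →* (A ≃ₗ[ZMod p] A)) (hρ : Function.Injective ρ) (x : Γ) (hx : IsQuad (ρ x)) :
    x ^ p = 1 := by
  apply hρ
  rw [map_pow, map_one]
  apply LinearEquiv.ext
  intro w
  have h1 : ∀ n : ℕ, ((ρ x) ^ n) w = w + n • (ρ x w - w) := by
    intro n
    induction n with
    | zero => simp
    | succ n ih =>
      rw [pow_succ', LinearEquiv.mul_apply, ih, map_add, map_nsmul, hx]
      rw [succ_nsmul]
      abel
  rw [h1]
  have h2 : p • (ρ x w - w) = 0 := by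
    rw [← Nat.cast_smul_eq_nsmul (ZMod p), ZMod.natCast_self, zero_smul]
  rw [h2, add_zero]
  rfl

theorem exists_pair (x : Γ) (hxp : x ^ p = 1) (hxO : x ∉ pCore p Γ) :
    ∃ g : Γ, ¬ IsPGroup p (Subgroup.closure ({x, g * x * g⁻¹} : Set Γ)) := by
  classical
  by_contra hno
  push Not at hno
  have hX : IsPGroup p (Subgroup.zpowers x) := by
    rw [IsPGroup.iff_card, Nat.card_zpowers]
    have hx1 : x ≠ 1 := by
      rintro rfl
      exact hxO (one_mem _)
    rw [orderOf_eq_prime hxp hx1]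
    exact ⟨1, (pow_one p).symm⟩
  apply hxO
  apply Cfsg.Agent.Lib.BaerSuzuki.le_pCore_of_conj (Subgroup.zpowers x) hX _ (Subgroup.mem_zpowers x)
  intro g
  apply (hno g).to_le
  refine sup_le ?_ ?_
  · rw [Subgroup.zpowers_le]
    exact Subgroup.subset_closure (by simp)
  · rw [MonoidHom.map_zpowers, Subgroup.zpowers_le]
    exact Subgroup.subset_closure (by simp [MulAut.conj_apply])

theorem closure_pair_top (x y : Γ) :
    Subgroup.closure ({(⟨x, Subgroup.subset_closure (by simp)⟩ : Subgroup.closure ({x, y} : Set Γ)),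
      ⟨y, Subgroup.subset_closure (by simp)⟩} : Set (Subgroup.closure ({x, y} : Set Γ))) = ⊤ := by
  set C := Subgroup.closure ({x, y} : Set Γ) with hC
  set D := Subgroup.closure ({(⟨x, Subgroup.subset_closure (by simp)⟩ : C),
      ⟨y, Subgroup.subset_closure (by simp)⟩} : Set C) with hD
  have h1 : C ≤ D.map C.subtype := by
    refine (Subgroup.closure_le (D.map C.subtype)).2 ?_
    rintro z (rfl | hz)
    · exact ⟨⟨z, Subgroup.subset_closure (by simp)⟩, Subgroup.subset_closure (by simp), rfl⟩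
    · rw [Set.mem_singleton_iff] at hz
      subst hz
      exact ⟨⟨z, Subgroup.subset_closure (by simp)⟩, Subgroup.subset_closure (by simp), rfl⟩
  rw [eq_top_iff]
  rintro ⟨g, hg⟩ -
  obtain ⟨g', hg', e⟩ := h1 hg
  have : g' = ⟨g, hg⟩ := Subtype.ext e
  rw [← this]
  exact hg'

/-- A non-`p`-subgroup generated by two conjugate quadratic elements gives a map to `SL₂`. -/
theorem exists_phi_pair (ρ : Γ →* (A ≃ₗ[ZMod p] A)) (hρ : Function.Injective ρ) (x : Γ)
    (hx : IsQuad (ρ x)) (g : Γ) (hg : ¬ IsPGroup p (Subgroup.closure ({x, g * x * g⁻¹} : Set Γ))) :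
    ∃ (C : Subgroup Γ) (K : Type) (_ : Field K) (_ : Finite K) (_ : CharP K p) (θ : K)
      (φ : C →* SL(2, K)) (x₀ y₀ : C), θ ≠ 0 ∧ φ x₀ = Ma θ ∧ φ y₀ = Mb := by
  set C := Subgroup.closure ({x, g * x * g⁻¹} : Set Γ) with hC
  let ρ₀ : C →* (A ≃ₗ[ZMod p] A) := ρ.comp C.subtype
  have hρ₀ : Function.Injective ρ₀ := hρ.comp (Subgroup.subtype_injective C)
  have hq2 : IsQuad (ρ (g * x * g⁻¹)) := by
    rw [map_mul, map_mul, map_inv]
    exact isQuad_conj _ _ hx
  obtain ⟨K, i1, i2, i3, θ, φ, hθ, h1, h2⟩ := exists_phi_rep ρ₀ hρ₀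
    (⟨x, Subgroup.subset_closure (by simp)⟩ : C) ⟨g * x * g⁻¹, Subgroup.subset_closure (by simp)⟩
    (closure_pair_top x _) hx hq2 hg
  exact ⟨C, K, i1, i2, i3, θ, φ, _, _, hθ, h1, h2⟩

/-- Abelian Sylow `2`-subgroups force quadratic elements into `O_p`. -/
theorem mem_pCore_of_comm (hp : p ≠ 2) (ρ : Γ →* (A ≃ₗ[ZMod p] A)) (hρ : Function.Injective ρ) (x : Γ)
    (hx : IsQuad (ρ x)) (hab : ∀ T : Sylow 2 Γ, IsMulCommutative (T : Subgroup Γ)) : x ∈ pCore p Γ := by
  classical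
  by_contra hO
  haveI : Fact (Nat.Prime 2) := ⟨Nat.prime_two⟩
  obtain ⟨g, hg⟩ := exists_pair x (pow_of_quad ρ hρ x hx) hO
  obtain ⟨C, K, i1, i2, i3, θ, φ, x₀, y₀, hθ, h1, h2⟩ := exists_phi_pair ρ hρ x hx g hg
  obtain ⟨T₀⟩ : Nonempty (Sylow 2 C) := inferInstance
  apply sylow2_not_comm hp φ x₀ y₀ θ hθ h1 h2 T₀
  have hT₁ : IsPGroup 2 ((T₀ : Subgroup C).map C.subtype) := T₀.isPGroup'.map _
  obtain ⟨T, hT⟩ := hT₁.exists_le_sylow
  have hc := hab T
  refine ⟨⟨?_⟩⟩
  rintro ⟨a, ha⟩ ⟨b, hb⟩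
  apply Subtype.ext
  apply Subtype.ext
  have ha' : a.1 ∈ (T : Subgroup Γ) := hT ⟨a, ha, rfl⟩
  have hb' : b.1 ∈ (T : Subgroup Γ) := hT ⟨b, hb, rfl⟩
  have := hc.is_comm.comm (⟨a.1, ha'⟩ : (T : Subgroup Γ)) ⟨b.1, hb'⟩
  show a.1 * b.1 = b.1 * a.1
  exact congrArg Subtype.val this

/-- A section isomorphic to `SL₂(p)`. -/
theorem exists_section (hp : p ≠ 2) (ρ : Γ →* (A ≃ₗ[ZMod p] A)) (hρ : Function.Injective ρ) (x : Γ)
    (hx : IsQuad (ρ x)) (hO : x ∉ pCore p Γ) :
    ∃ (K₂ : Subgroup Γ) (τ : K₂ →* SL(2, ZMod p)), Function.Surjective τ := by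
  classical
  obtain ⟨g, hg⟩ := exists_pair x (pow_of_quad ρ hρ x hx) hO
  obtain ⟨C, K, i1, i2, i3, θ, φ, x₀, y₀, hθ, h1, h2⟩ := exists_phi_pair ρ hρ x hx g hg
  have hsyl : 1 < Nat.card (Sylow p φ.range) := one_lt_sylow φ.range θ hθ ⟨x₀, h1⟩ ⟨y₀, h2⟩
  obtain ⟨ψ, hψ, hψm⟩ := Cfsg.Agent.Lib.DicksonSL2.main hp φ.range hsyl
  set K₁ : Subgroup C := ψ.range.comap φ with hK₁
  let τ₁ : K₁ →* SL(2, ZMod p) :=
    ((MonoidHom.ofInjective hψ).symm.toMonoidHom).comp
      ((φ.comp K₁.subtype).codRestrict ψ.range (fun g => g.2))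
  have hτ₁ : Function.Surjective τ₁ := by
    intro s
    obtain ⟨c, hc⟩ := hψm s
    refine ⟨⟨c, ⟨s, hc.symm⟩⟩, ?_⟩
    show (MonoidHom.ofInjective hψ).symm _ = s
    apply (MonoidHom.ofInjective hψ).injective
    rw [MulEquiv.apply_symm_apply]
    apply Subtype.ext
    exact hc
  let e : K₁ ≃* K₁.map C.subtype := K₁.equivMapOfInjective C.subtype (Subgroup.subtype_injective C)
  refine ⟨K₁.map C.subtype, τ₁.comp e.symm.toMonoidHom, ?_⟩
  exact hτ₁.comp e.symm.surjective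

theorem p_lt_five (hp : p ≠ 2) (ρ : Γ →* (A ≃ₗ[ZMod p] A)) (hρ : Function.Injective ρ) (x : Γ)
    (hx : IsQuad (ρ x)) (hO : x ∉ pCore p Γ) (hs : IsPSolvable p Γ) : p = 3 := by
  have hpp : p.Prime := Fact.out
  obtain ⟨K₂, τ, hτ⟩ := exists_section hp ρ hρ x hx hO
  have h1 := Cfsg.Agent.Lib.H6Hall.isPSolvable_subgroup p hs K₂
  have h2 := Cfsg.Agent.Lib.PConstr.isPSolvable_of_surjective τ hτ h1
  by_contra h3
  have h4 : 5 ≤ p := by
    have h5 := hpp.two_le
    by_contra h6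
    interval_cases p
    · exact hp rfl
    · exact h3 rfl
    · exact absurd hpp (by norm_num)
  exact not_psolv h4 h2

theorem mem_pCore_of_sep (hp5 : 5 ≤ p) (ρ : Γ →* (A ≃ₗ[ZMod p] A)) (hρ : Function.Injective ρ) (x : Γ)
    (hx : IsQuad (ρ x)) (hs : IsPSolvable p Γ) : x ∈ pCore p Γ := by
  by_contra hO
  have := p_lt_five (by omega) ρ hρ x hx hO hs
  omega

end main

end Cfsg.Agent.Lib.QuadRep
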