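import Mathlib
import Cfsg.Prelude
import Cfsg.Agent.Lib.QuadRep
import Cfsg.Agent.Lib.QdStable
import Cfsg.Agent.Lib.UpperP
import Cfsg.Agent.Lib.FrattiniExt
import Cfsg.Agent.Lib.H6PGroup

/-! Translating quadratic actions on elementary abelian subgroups into linear actions. -/

set_option autoImplicit false
set_option linter.all false

open scoped MatrixGroups

namespace Cfsg.Agent.Lib.QuadAct

open Cfsg Cfsg.Agent.Lib.QuadCore Cfsg.Agent.Lib.QuadRep

section conv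

variable {p : ℕ} [hpF : Fact p.Prime] {B : Type*} [CommGroup B] [Finite B] {Γ : Type*} [Group Γ] [Finite Γ]

/-- The module structure. -/
@[reducible] def modOf (hB : ∀ b : B, b ^ p = 1) : Module (ZMod p) (Additive B) :=
  AddCommGroup.zmodModule (n := p) (fun x => by
    show Additive.ofMul ((Additive.toMul x) ^ p) = 0
    rw [hB]
    rfl)

/-- The linear action. -/
noncomputable def rhoOf [Module (ZMod p) (Additive B)] (κ : Γ →* MulAut B) :
    Γ →* (Additive B ≃ₗ[ZMod p] Additive B) :=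
  MonoidHom.mk' (fun g =>
    { ((MonoidHom.toAdditive (κ g).toMonoidHom : Additive B →+ Additive B).toZModLinearMap p) with
      invFun := fun w => Additive.ofMul ((κ g).symm (Additive.toMul w))
      left_inv := fun w => by
        show Additive.ofMul ((κ g).symm (κ g (Additive.toMul w))) = w
        rw [MulEquiv.symm_apply_apply]
        rfl
      right_inv := fun w => by
        show Additive.ofMul (κ g ((κ g).symm (Additive.toMul w))) = w
        rw [MulEquiv.apply_symm_apply]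
        rfl }) (by
    intro g h
    apply LinearEquiv.ext
    intro w
    show Additive.ofMul (κ (g * h) (Additive.toMul w)) = Additive.ofMul (κ g (κ h (Additive.toMul w)))
    rw [map_mul]
    rfl)

theorem rhoOf_apply [Module (ZMod p) (Additive B)] (κ : Γ →* MulAut B) (g : Γ) (w : Additive B) :
    rhoOf (p := p) κ g w = Additive.ofMul (κ g (Additive.toMul w)) := rfl

theorem rhoOf_inj [Module (ZMod p) (Additive B)] (κ : Γ →* MulAut B) (hκ : Function.Injective κ) :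
    Function.Injective (rhoOf (p := p) κ) := by
  intro g h e
  apply hκ
  apply MulEquiv.ext
  intro b
  have := congrArg (fun f => f (Additive.ofMul b)) e
  exact this

theorem rhoOf_quad [Module (ZMod p) (Additive B)] (κ : Γ →* MulAut B) (x : Γ)
    (hx : ∀ b, κ x (κ x b * b⁻¹) = κ x b * b⁻¹) : IsQuad (rhoOf (p := p) κ x) := by
  intro w
  have e : rhoOf (p := p) κ x w - w = Additive.ofMul (κ x (Additive.toMul w) * (Additive.toMul w)⁻¹) := by
    rw [sub_eq_add_neg]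
    rfl
  rw [e]
  exact congrArg Additive.ofMul (hx (Additive.toMul w))

/-- Abelian Sylow `2`-subgroups. -/
theorem mem_pCore_comm (hp : p ≠ 2) (hB : ∀ b : B, b ^ p = 1) (κ : Γ →* MulAut B) (hκ : Function.Injective κ)
    (x : Γ) (hx : ∀ b, κ x (κ x b * b⁻¹) = κ x b * b⁻¹)
    (hab : ∀ T : Sylow 2 Γ, IsMulCommutative (T : Subgroup Γ)) : x ∈ pCore p Γ := by
  letI := modOf hB
  exact mem_pCore_of_comm hp (rhoOf κ) (rhoOf_inj κ hκ) x (rhoOf_quad κ x hx) hab

/-- `p`-solubility. -/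
theorem mem_pCore_sep (hp5 : 5 ≤ p) (hB : ∀ b : B, b ^ p = 1) (κ : Γ →* MulAut B) (hκ : Function.Injective κ)
    (x : Γ) (hx : ∀ b, κ x (κ x b * b⁻¹) = κ x b * b⁻¹) (hs : IsPSolvable p Γ) : x ∈ pCore p Γ := by
  letI := modOf hB
  exact mem_pCore_of_sep hp5 (rhoOf κ) (rhoOf_inj κ hκ) x (rhoOf_quad κ x hx) hs

theorem p_eq_three (hp : p ≠ 2) (hB : ∀ b : B, b ^ p = 1) (κ : Γ →* MulAut B) (hκ : Function.Injective κ)
    (x : Γ) (hx : ∀ b, κ x (κ x b * b⁻¹) = κ x b * b⁻¹) (hO : x ∉ pCore p Γ) (hs : IsPSolvable p Γ) : p = 3 := by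
  letI := modOf hB
  exact p_lt_five hp (rhoOf κ) (rhoOf_inj κ hκ) x (rhoOf_quad κ x hx) hO hs

theorem exists_section' (hp : p ≠ 2) (hB : ∀ b : B, b ^ p = 1) (κ : Γ →* MulAut B) (hκ : Function.Injective κ)
    (x : Γ) (hx : ∀ b, κ x (κ x b * b⁻¹) = κ x b * b⁻¹) (hO : x ∉ pCore p Γ) :
    ∃ (K₂ : Subgroup Γ) (τ : K₂ →* SL(2, ZMod p)), Function.Surjective τ := by
  letI := modOf hB
  exact exists_section hp (rhoOf κ) (rhoOf_inj κ hκ) x (rhoOf_quad κ x hx) hO

/-- Two generators. -/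
theorem not_comm_two (hp : p ≠ 2) (hB : ∀ b : B, b ^ p = 1) (κ : Γ →* MulAut B) (hκ : Function.Injective κ)
    (x y : Γ) (hgen : Subgroup.closure ({x, y} : Set Γ) = ⊤)
    (hx : ∀ b, κ x (κ x b * b⁻¹) = κ x b * b⁻¹) (hy : ∀ b, κ y (κ y b * b⁻¹) = κ y b * b⁻¹)
    (hnp : ¬ IsPGroup p Γ) (T : Sylow 2 Γ) : ¬ IsMulCommutative (T : Subgroup Γ) := by
  letI := modOf hB
  obtain ⟨K, i1, i2, i3, θ, φ, hθ, h1, h2⟩ := exists_phi_rep (rhoOf κ) (rhoOf_inj κ hκ) x y hgen
    (rhoOf_quad κ x hx) (rhoOf_quad κ y hy) hnp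
  exact sylow2_not_comm hp φ x y θ hθ h1 h2 T

end conv

section subg

variable {G : Type*} [Group G] [Finite G] {p : ℕ} [hpF : Fact p.Prime]

/-- The commutative group structure on a commutative subgroup. -/
@[reducible] def commOf {V : Subgroup G} (hV : IsMulCommutative V) : CommGroup V :=
  { (inferInstance : Group V) with mul_comm := hV.is_comm.comm }

theorem section_of_hom {X : Type*} [Group X] (K : Subgroup G) (τ : K →* X) (hτ : Function.Surjective τ) :
    ∃ (L : Subgroup G) (hL : (L.subgroupOf K).Normal), Nonempty ((K ⧸ L.subgroupOf K) ≃* X) := by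
  have h1 : (τ.ker.map K.subtype).subgroupOf K = τ.ker :=
    Subgroup.comap_map_eq_self_of_injective (Subgroup.subtype_injective K) _
  have hn : ((τ.ker.map K.subtype).subgroupOf K).Normal := by
    rw [h1]
    exact MonoidHom.normal_ker τ
  refine ⟨τ.ker.map K.subtype, hn, ⟨?_⟩⟩
  exact (QuotientGroup.quotientMulEquivOfEq h1).trans (QuotientGroup.quotientKerEquivOfSurjective τ hτ)

/-- All Sylow subgroups are commutative as soon as one is. -/
theorem comm_of_sylow {q : ℕ} [Fact q.Prime] {X : Type*} [Group X] [Finite X] (T : Sylow q X)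
    (hT : IsMulCommutative (T : Subgroup X)) (T' : Sylow q X) : IsMulCommutative (T' : Subgroup X) := by
  obtain ⟨g, rfl⟩ := MulAction.exists_smul_eq X T T'
  have hmem : ∀ z ∈ ((g • T : Sylow q X) : Subgroup X), g⁻¹ * z * g ∈ (T : Subgroup X) := by
    intro z hz
    rw [Sylow.coe_subgroup_smul, Subgroup.mem_pointwise_smul_iff_inv_smul_mem] at hz
    simpa [MulAut.conj_apply] using hz
  refine ⟨⟨?_⟩⟩
  rintro ⟨a, ha⟩ ⟨b, hb⟩
  apply Subtype.ext
  have h1 := hT.is_comm.comm (⟨_, hmem a ha⟩ : (T : Subgroup X)) ⟨_, hmem b hb⟩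
  have h2 : (g⁻¹ * a * g) * (g⁻¹ * b * g) = (g⁻¹ * b * g) * (g⁻¹ * a * g) := congrArg Subtype.val h1
  have h3 : g⁻¹ * (a * b) * g = g⁻¹ * (b * a) * g := by
    calc g⁻¹ * (a * b) * g = (g⁻¹ * a * g) * (g⁻¹ * b * g) := by group
      _ = (g⁻¹ * b * g) * (g⁻¹ * a * g) := h2
      _ = g⁻¹ * (b * a) * g := by group
  show a * b = b * a
  have h4 := mul_right_cancel h3
  exact mul_left_cancel h4

variable (V H : Subgroup G)

/-- The action of `H` on `V` by conjugation. -/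
def kap (hHV : H ≤ Subgroup.normalizer (V : Set G)) : H →* MulAut V :=
  V.normalizerMonoidHom.comp (Subgroup.inclusion hHV)

theorem kap_apply (hHV : H ≤ Subgroup.normalizer (V : Set G)) (h : H) (v : V) :
    ((kap V H hHV h v : V) : G) = h.1 * v.1 * h.1⁻¹ := rfl

theorem kap_inj (hHV : H ≤ Subgroup.normalizer (V : Set G)) (hf : H ⊓ Subgroup.centralizer (V : Set G) = ⊥) :
    Function.Injective (kap V H hHV) := by
  rw [injective_iff_map_eq_one]
  intro h hh
  apply Subtype.ext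
  have h1 : h.1 ∈ H ⊓ Subgroup.centralizer (V : Set G) := by
    refine Subgroup.mem_inf.2 ⟨h.2, Subgroup.mem_centralizer_iff.2 ?_⟩
    intro v hv
    have h2 := congrArg (fun f : MulAut V => ((f ⟨v, hv⟩ : V) : G)) hh
    have h3 : h.1 * v * h.1⁻¹ = v := h2
    calc v * h.1 = (h.1 * v * h.1⁻¹) * h.1 := by rw [h3]
      _ = h.1 * v := by group
  rw [hf] at h1
  exact Subgroup.mem_bot.1 h1

theorem kap_quad (hHV : H ≤ Subgroup.normalizer (V : Set G)) (a : H)
    (hq : ⁅⁅V, Subgroup.zpowers (a : G)⁆, Subgroup.zpowers (a : G)⁆ = ⊥) (b : V) :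
    kap V H hHV a (kap V H hHV a b * b⁻¹) = kap V H hHV a b * b⁻¹ := by
  apply Subtype.ext
  show a.1 * (a.1 * b.1 * a.1⁻¹ * b.1⁻¹) * a.1⁻¹ = a.1 * b.1 * a.1⁻¹ * b.1⁻¹
  exact Cfsg.Agent.Lib.QdStable.quad_of_comm hq b.2

theorem main_593 (hp : p ≠ 2) (hV : IsElementaryAbelian p V)
    (hHV : H ≤ Subgroup.normalizer (V : Set G)) (hf : H ⊓ Subgroup.centralizer (V : Set G) = ⊥) (a b : G)
    (hab : H = Subgroup.closure {a, b}) (ha : ⁅⁅V, Subgroup.zpowers a⁆, Subgroup.zpowers a⁆ = ⊥)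
    (hb : ⁅⁅V, Subgroup.zpowers b⁆, Subgroup.zpowers b⁆ = ⊥) (hnp : ¬ IsPGroup p H) (T : Sylow 2 H) :
    ¬ IsMulCommutative (T : Subgroup H) := by
  subst hab
  letI := commOf hV.1
  exact not_comm_two hp (B := V) (fun v => Subtype.ext (hV.2 v.1 v.2)) (kap V _ hHV) (kap_inj V _ hHV hf)
    ⟨a, Subgroup.subset_closure (by simp)⟩ ⟨b, Subgroup.subset_closure (by simp)⟩
    (closure_pair_top a b) (kap_quad V _ hHV _ ha) (kap_quad V _ hHV _ hb) hnp T

theorem main_595 (hp : p ≠ 2) (hV : IsElementaryAbelian p V)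
    (hHV : H ≤ Subgroup.normalizer (V : Set G)) (hf : H ⊓ Subgroup.centralizer (V : Set G) = ⊥) (a : G)
    (haH : a ∈ H) (hq : ⁅⁅V, Subgroup.zpowers a⁆, Subgroup.zpowers a⁆ = ⊥)
    (hna : a ∉ (pCore p H).map H.subtype) (T : Sylow 2 H) : ¬ IsMulCommutative (T : Subgroup H) := by
  intro hT
  letI := commOf hV.1
  haveI : Fact (Nat.Prime 2) := ⟨Nat.prime_two⟩
  apply hna
  have h1 := mem_pCore_comm hp (B := V) (fun v => Subtype.ext (hV.2 v.1 v.2)) (kap V _ hHV) (kap_inj V _ hHV hf)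
    ⟨a, haH⟩ (kap_quad V _ hHV ⟨a, haH⟩ hq) (fun T' => comm_of_sylow T hT T')
  exact ⟨_, h1, rfl⟩

theorem main_596 (hp : p ≠ 2) (hV : IsElementaryAbelian p V)
    (hHV : H ≤ Subgroup.normalizer (V : Set G)) (hf : H ⊓ Subgroup.centralizer (V : Set G) = ⊥)
    (hsep : IsPSolvable p H) (a : G)
    (haH : a ∈ H) (hq : ⁅⁅V, Subgroup.zpowers a⁆, Subgroup.zpowers a⁆ = ⊥)
    (hna : a ∉ (pCore p H).map H.subtype) :
    p = 3 ∧ ∃ (K L : Subgroup G) (hL : (L.subgroupOf K).Normal), K ≤ H ∧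
      Nonempty ((K ⧸ L.subgroupOf K) ≃* Matrix.SpecialLinearGroup (Fin 2) (ZMod 3)) := by
  letI := commOf hV.1
  have hO : (⟨a, haH⟩ : H) ∉ pCore p H := fun h => hna ⟨_, h, rfl⟩
  have hB : ∀ v : V, v ^ p = 1 := fun v => Subtype.ext (hV.2 v.1 v.2)
  have h3 := p_eq_three hp (B := V) hB (kap V _ hHV) (kap_inj V _ hHV hf)
    ⟨a, haH⟩ (kap_quad V _ hHV ⟨a, haH⟩ hq) hO hsep
  subst h3
  refine ⟨rfl, ?_⟩
  obtain ⟨K₂, τ, hτ⟩ := exists_section' hp (B := V) hB (kap V _ hHV) (kap_inj V _ hHV hf)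
    ⟨a, haH⟩ (kap_quad V _ hHV ⟨a, haH⟩ hq) hO
  let e : K₂ ≃* K₂.map H.subtype := K₂.equivMapOfInjective H.subtype (Subgroup.subtype_injective H)
  obtain ⟨L, hL, hiso⟩ := section_of_hom (K₂.map H.subtype) (τ.comp e.symm.toMonoidHom) (hτ.comp e.symm.surjective)
  exact ⟨K₂.map H.subtype, L, hL, Subgroup.map_subtype_le K₂, hiso⟩

end subg

end Cfsg.Agent.Lib.QuadAct
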