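import Mathlib
import Cfsg.Prelude
import Cfsg.Agent.Lib.QuadAct
import Cfsg.Agent.Lib.H6Hall
import Cfsg.Agent.Lib.FitCore

/-! `p`-stability in the action sense for `p`-separable groups and groups with abelian Sylow `2`-subgroups. -/

set_option autoImplicit false
set_option linter.all false

namespace Cfsg.Agent.Lib.ActStable

open Cfsg Cfsg.Agent.Lib.QuadAct
open scoped commutatorElement

section stable

variable {X : Type*} [Group X] [Finite X] {p : ℕ} [hpF : Fact p.Prime]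

/-- The action of `X / C_X(V)` on `V`. -/
def quotAct (V : Subgroup X) [hV : V.Normal] : X ⧸ Subgroup.centralizer (V : Set X) →* MulAut V :=
  QuotientGroup.lift _ (MulAut.conjNormal (H := V)) (by
    intro g hg
    apply MulEquiv.ext
    intro v
    apply Subtype.ext
    have h1 := Subgroup.mem_centralizer_iff.1 hg v.1 v.2
    show g * v.1 * g⁻¹ = v.1
    rw [← h1]
    group)

theorem quotAct_mk (V : Subgroup X) [hV : V.Normal] (g : X) (v : V) :
    ((quotAct V (QuotientGroup.mk g) v : V) : X) = g * v.1 * g⁻¹ := rfl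

theorem quotAct_inj (V : Subgroup X) [hV : V.Normal] : Function.Injective (quotAct V) := by
  rw [injective_iff_map_eq_one]
  intro x hx
  induction x using QuotientGroup.induction_on with
  | H g =>
    rw [QuotientGroup.eq_one_iff]
    rw [Subgroup.mem_centralizer_iff]
    intro v hv
    have h2 := congrArg (fun f : MulAut V => ((f ⟨v, hv⟩ : V) : X)) hx
    have h3 : g * v * g⁻¹ = v := h2
    calc v * g = (g * v * g⁻¹) * g := by rw [h3]
      _ = g * v := by group

theorem quotAct_quad (V : Subgroup X) [hV : V.Normal] (hc : IsMulCommutative V) (a : X)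
    (hq : ⁅⁅V, Subgroup.zpowers a⁆, Subgroup.zpowers a⁆ = ⊥) (b : V) :
    letI := commOf hc
    quotAct V (QuotientGroup.mk a) (quotAct V (QuotientGroup.mk a) b * b⁻¹) = quotAct V (QuotientGroup.mk a) b * b⁻¹ := by
  letI := commOf hc
  apply Subtype.ext
  show a * (a * b.1 * a⁻¹ * b.1⁻¹) * a⁻¹ = a * b.1 * a⁻¹ * b.1⁻¹
  exact Cfsg.Agent.Lib.QdStable.quad_of_comm hq b.2

/-- Abelian Sylow subgroups pass to quotients. -/
theorem comm_of_surj {Y : Type*} [Group Y] [Finite Y] (f : X →* Y) (hf : Function.Surjective f)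
    {q : ℕ} [Fact q.Prime] (hab : ∀ T : Sylow q X, IsMulCommutative (T : Subgroup X)) (T : Sylow q Y) :
    IsMulCommutative (T : Subgroup Y) := by
  obtain ⟨T0, rfl⟩ := Sylow.mapSurjective_surjective hf q T
  have hc := hab T0
  refine ⟨⟨?_⟩⟩
  rintro ⟨a, ha⟩ ⟨b, hb⟩
  apply Subtype.ext
  obtain ⟨a0, ha0, rfl⟩ := ha
  obtain ⟨b0, hb0, rfl⟩ := hb
  have h := hc.is_comm.comm (⟨a0, ha0⟩ : (T0 : Subgroup X)) ⟨b0, hb0⟩
  have h2 : a0 * b0 = b0 * a0 := congrArg Subtype.val h
  show f a0 * f b0 = f b0 * f a0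
  rw [← map_mul, h2, map_mul]

/-- Abelian Sylow subgroups pass to subgroups. -/
theorem comm_of_subgroup (B : Subgroup X) {q : ℕ} [Fact q.Prime]
    (hab : ∀ T : Sylow q X, IsMulCommutative (T : Subgroup X)) (T : Sylow q B) :
    IsMulCommutative (T : Subgroup B) := by
  have hp : IsPGroup q ((T : Subgroup B).map B.subtype) := T.2.map B.subtype
  obtain ⟨T0, hT0⟩ := hp.exists_le_sylow
  have hc := hab T0
  refine ⟨⟨?_⟩⟩
  rintro ⟨a, ha⟩ ⟨b, hb⟩
  apply Subtype.ext
  apply Subtype.ext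
  have ha0 := hT0 ⟨a, ha, rfl⟩
  have hb0 := hT0 ⟨b, hb, rfl⟩
  have h := hc.is_comm.comm (⟨a.1, ha0⟩ : (T0 : Subgroup X)) ⟨b.1, hb0⟩
  exact (congrArg Subtype.val h :)

theorem stable_of_comm (hp : p ≠ 2) (hab : ∀ T : Sylow 2 X, IsMulCommutative (T : Subgroup X))
    (V : Subgroup X) [hV : V.Normal] (hE : IsElementaryAbelian p V) : IsPStableOn p V := by
  intro a hq
  letI := commOf hE.1
  haveI : Fact (Nat.Prime 2) := ⟨Nat.prime_two⟩
  have hB : ∀ v : V, v ^ p = 1 := fun v => Subtype.ext (hE.2 v.1 v.2)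
  exact mem_pCore_comm hp hB (quotAct V) (quotAct_inj V) (QuotientGroup.mk a)
    (quotAct_quad V hE.1 a hq) (comm_of_surj (QuotientGroup.mk' _) (QuotientGroup.mk'_surjective _) hab)

theorem stable_of_sep (hp : 5 ≤ p) (hs : IsPSolvable p X)
    (V : Subgroup X) [hV : V.Normal] (hE : IsElementaryAbelian p V) : IsPStableOn p V := by
  intro a hq
  letI := commOf hE.1
  have hB : ∀ v : V, v ^ p = 1 := fun v => Subtype.ext (hE.2 v.1 v.2)
  exact mem_pCore_sep hp hB (quotAct V) (quotAct_inj V) (QuotientGroup.mk a)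
    (quotAct_quad V hE.1 a hq) (Cfsg.Agent.Lib.UpperP.isPSolvable_quotient hs _)

end stable

section parts

variable {G : Type*} [Group G] {p : ℕ} 

/-- The generators of `Ω₁(Z(J))`-type subgroups: commuting elements of exponent `p`. -/
theorem omega_facts {P : Type*} [Group P] (J : Subgroup P) :
    ∀ x ∈ omegaOne p (J ⊓ Subgroup.centralizer (J : Set P)),
      x ∈ J ⊓ Subgroup.centralizer (J : Set P) ∧ x ^ p = 1 := by
  intro x hx
  induction hx using Subgroup.closure_induction with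
  | mem y hy => exact hy
  | one => exact ⟨Subgroup.one_mem _, one_pow _⟩
  | mul y z _ _ hy hz =>
    refine ⟨Subgroup.mul_mem _ hy.1 hz.1, ?_⟩
    have hcomm : Commute y z := by
      have := Subgroup.mem_centralizer_iff.1 (Subgroup.mem_inf.1 hz.1).2 y (Subgroup.mem_inf.1 hy.1).1
      exact this
    rw [hcomm.mul_pow, hy.2, hz.2, one_mul]
  | inv y _ hy =>
    refine ⟨Subgroup.inv_mem _ hy.1, ?_⟩
    rw [inv_pow, hy.2, inv_one]

theorem elem_of_le {S H : Subgroup G} (V : Subgroup H)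
    (hV : V.map H.subtype ≤ (omegaCenterThompson p S).map S.subtype) : IsElementaryAbelian p V := by
  have key : ∀ v : V, ∃ s : S, s.1 = v.1.1 ∧ s ∈ thompsonSubgroup p S ⊓ Subgroup.centralizer (thompsonSubgroup p S : Set S) ∧ s ^ p = 1 := by
    intro v
    obtain ⟨s, hs, hsv⟩ := hV ⟨v.1, v.2, rfl⟩
    have := omega_facts (p := p) _ s hs
    exact ⟨s, hsv, this.1, this.2⟩
  constructor
  · refine ⟨⟨?_⟩⟩
    intro v w
    obtain ⟨s, hs1, hs2, hs3⟩ := key v
    obtain ⟨t, ht1, ht2, ht3⟩ := key w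
    have h : t * s = s * t := Subgroup.mem_centralizer_iff.1 (Subgroup.mem_inf.1 ht2).2 s (Subgroup.mem_inf.1 hs2).1 |>.symm
    apply Subtype.ext
    apply Subtype.ext
    show v.1.1 * w.1.1 = w.1.1 * v.1.1
    rw [← hs1, ← ht1]
    exact (congrArg Subtype.val h).symm
  · intro v hv
    obtain ⟨s, hs1, hs2, hs3⟩ := key ⟨v, hv⟩
    apply Subtype.ext
    show v.1 ^ p = 1
    have : s.1 = v.1 := hs1
    rw [← this]
    have h := congrArg Subtype.val hs3
    simpa using h

variable [Finite G] [hpF : Fact p.Prime]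

/-- `Q/Φ(Q)` is elementary abelian. -/
theorem quot_elem (Q : Subgroup G) (hQ : IsPGroup p Q) (N : Subgroup G) [hN : N.Normal]
    (hNe : N = (frattini Q).map Q.subtype) :
    IsElementaryAbelian p (Q.map (QuotientGroup.mk' N)) := by
  have h1 : ∀ x y : Q, ⁅x.1, y.1⁆ ∈ N := by
    intro x y
    rw [hNe]
    refine ⟨⁅x, y⁆, ?_, rfl⟩
    apply Cfsg.Agent.Lib.FrattiniExt.commutator_le_frattini_of_nilpotent hQ.isNilpotent
    exact Subgroup.commutator_mem_commutator (Subgroup.mem_top x) (Subgroup.mem_top y)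
  have h2 : ∀ x : Q, x.1 ^ p ∈ N := by
    intro x
    rw [hNe]
    exact ⟨x ^ p, Cfsg.Agent.Lib.H6PGroup.pow_mem_frattini hQ x, rfl⟩
  constructor
  · refine ⟨⟨?_⟩⟩
    rintro ⟨_, x, hx, rfl⟩ ⟨_, y, hy, rfl⟩
    apply Subtype.ext
    show (QuotientGroup.mk' N x) * (QuotientGroup.mk' N y) = (QuotientGroup.mk' N y) * (QuotientGroup.mk' N x)
    rw [← map_mul, ← map_mul]
    apply (QuotientGroup.eq).2
    have := h1 ⟨y, hy⟩ ⟨x, hx⟩
    have e : (x * y)⁻¹ * (y * x) = y⁻¹ * (x⁻¹ * y * x * y⁻¹) * y := by group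
    have e2 : ⁅y⁻¹, x⁻¹⁆ ∈ N := h1 ⟨y⁻¹, Subgroup.inv_mem _ hy⟩ ⟨x⁻¹, Subgroup.inv_mem _ hx⟩
    have e3 : (x * y)⁻¹ * (y * x) = ⁅y⁻¹, x⁻¹⁆ := by
      simp only [commutatorElement_def]
      group
    rw [e3]
    exact e2
  · rintro _ ⟨x, hx, rfl⟩
    show (QuotientGroup.mk' N x) ^ p = 1
    rw [← map_pow]
    exact (QuotientGroup.eq_one_iff _).2 (h2 ⟨x, hx⟩)

/-- Reduction of the section statement to the quotient. -/
theorem section_of (Q : Subgroup G) [hQn : Q.Normal] (hQ : IsPGroup p Q) (N : Subgroup G) [hN : N.Normal]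
    (hNe : N = (frattini Q).map Q.subtype)
    (hst : ∀ (V : Subgroup (G ⧸ N)) [V.Normal], IsElementaryAbelian p V → IsPStableOn p V) :
    IsPStableOnSection p Q N := by
  intro a ha
  haveI hXn : (Q.map (QuotientGroup.mk' N)).Normal := hQn.map _ (QuotientGroup.mk'_surjective N)
  have hE := quot_elem Q hQ N hNe
  have hq : ⁅⁅Q.map (QuotientGroup.mk' N), Subgroup.zpowers (QuotientGroup.mk' N a)⁆,
      Subgroup.zpowers (QuotientGroup.mk' N a)⁆ = ⊥ := by
    have h1 := Subgroup.map_mono (f := QuotientGroup.mk' N) ha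
    have h2 : N.map (QuotientGroup.mk' N) = ⊥ := by
      rw [Subgroup.map_eq_bot_iff, QuotientGroup.ker_mk']
    rw [h2, le_bot_iff, Subgroup.map_commutator, Subgroup.map_commutator, MonoidHom.map_zpowers] at h1
    exact h1
  have hmem := hst (Q.map (QuotientGroup.mk' N)) hE (QuotientGroup.mk' N a) hq
  let C := Subgroup.centralizer ((Q.map (QuotientGroup.mk' N) : Subgroup (G ⧸ N)) : Set (G ⧸ N))
  haveI : C.Normal := Subgroup.normal_centralizer
  let π : G →* (G ⧸ N) ⧸ C := (QuotientGroup.mk' C).comp (QuotientGroup.mk' N)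
  have hker : sectionKernel Q N = π.ker := by
    ext g
    show (QuotientGroup.mk' N g) ∈ C ↔ _
    rw [MonoidHom.mem_ker]
    show _ ↔ (QuotientGroup.mk (QuotientGroup.mk' N g) : (G ⧸ N) ⧸ C) = 1
    rw [QuotientGroup.eq_one_iff]
  have hsurj : Function.Surjective π :=
    (QuotientGroup.mk'_surjective C).comp (QuotientGroup.mk'_surjective N)
  haveI hPn : (pCore p ((G ⧸ N) ⧸ C)).Normal := Cfsg.Agent.Lib.FitCore.pCore_normal p
  refine ⟨(pCore p ((G ⧸ N) ⧸ C)).comap π, hPn.comap π, ?_, ?_, hmem⟩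
  · rw [hker]
    exact MonoidHom.ker_le_comap _ _
  · rw [hker]
    have hp := Cfsg.Agent.Lib.FitCore.pCore_isPGroup (G := (G ⧸ N) ⧸ C) p
    obtain ⟨k, hk⟩ := IsPGroup.iff_card.1 hp
    refine ⟨k, ?_⟩
    rw [← hk, ← MonoidHom.comap_bot, Subgroup.relIndex_comap, Subgroup.map_comap_eq_self_of_surjective hsurj,
      Subgroup.relIndex_bot_left]

end parts

section main

universe u
variable {G : Type u} [Group G] [Finite G] {p : ℕ} [hpF : Fact p.Prime]

theorem main_comm (hp : p ≠ 2) (hab : ∀ T : Sylow 2 G, IsMulCommutative (T : Subgroup G)) :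
    IsActionPStable p G := by
  haveI : Fact (Nat.Prime 2) := ⟨Nat.prime_two⟩
  refine ⟨fun V _ hE => stable_of_comm hp hab V hE, ?_, ?_⟩
  · apply section_of (pCore p G) (Cfsg.Agent.Lib.FitCore.pCore_isPGroup p) _ rfl
    intro V _ hE
    exact stable_of_comm hp (comm_of_surj (QuotientGroup.mk' _) (QuotientGroup.mk'_surjective _) hab) V hE
  · intro S V _ hV
    exact stable_of_comm hp (comm_of_subgroup _ hab) V (elem_of_le V hV)

theorem main_sep (hp : 5 ≤ p) (hs : IsPSolvable p G) : IsActionPStable p G := by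
  refine ⟨fun V _ hE => stable_of_sep hp hs V hE, ?_, ?_⟩
  · apply section_of (pCore p G) (Cfsg.Agent.Lib.FitCore.pCore_isPGroup p) _ rfl
    intro V _ hE
    exact stable_of_sep hp (Cfsg.Agent.Lib.UpperP.isPSolvable_quotient hs _) V hE
  · intro S V _ hV
    exact stable_of_sep hp (Cfsg.Agent.Lib.H6Hall.isPSolvable_subgroup p hs _) V (elem_of_le V hV)

end main

end Cfsg.Agent.Lib.ActStable
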