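import Mathlib
import Cfsg.Prelude.Def_LieExceptional

/-! Basic theory of groups with a (B,N)-pair: Bruhat decomposition, exchange, parabolic subgroups. -/

set_option autoImplicit false

namespace Cfsg.Agent.Lib.BNPair

variable {G : Type*} [Group G] (P : Cfsg.BNPair G)

/-- The double coset `B n B`. -/
abbrev C (n : G) : Set G := DoubleCoset.doubleCoset n (P.B : Set G) P.B

variable {P}

lemma mem_C {n g : G} : g ∈ C P n ↔ ∃ x ∈ P.B, ∃ y ∈ P.B, g = x * n * y :=
  DoubleCoset.mem_doubleCoset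

lemma self_mem_C (n : G) : n ∈ C P n := mem_C.2 ⟨1, one_mem _, 1, one_mem _, by simp⟩

lemma mul_mem_C_left {n g b : G} (hb : b ∈ P.B) (hg : g ∈ C P n) : b * g ∈ C P n := by
  obtain ⟨x, hx, y, hy, rfl⟩ := mem_C.1 hg
  exact mem_C.2 ⟨b * x, mul_mem hb hx, y, hy, by group⟩

lemma mul_mem_C_right {n g b : G} (hb : b ∈ P.B) (hg : g ∈ C P n) : g * b ∈ C P n := by
  obtain ⟨x, hx, y, hy, rfl⟩ := mem_C.1 hg
  exact mem_C.2 ⟨x, hx, y * b, mul_mem hy hb, by group⟩

lemma mem_C_symm {n g : G} (hg : g ∈ C P n) : n ∈ C P g := by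
  obtain ⟨x, hx, y, hy, rfl⟩ := mem_C.1 hg
  exact mem_C.2 ⟨x⁻¹, inv_mem hx, y⁻¹, inv_mem hy, by group⟩

lemma mem_C_inv {n g : G} (hg : g ∈ C P n) : g⁻¹ ∈ C P n⁻¹ := by
  obtain ⟨x, hx, y, hy, rfl⟩ := mem_C.1 hg
  exact mem_C.2 ⟨y⁻¹, inv_mem hy, x⁻¹, inv_mem hx, by group⟩

variable (P) in
/-- Equivalence modulo `B`: `n⁻¹ n' ∈ B`. -/
def E (n n' : G) : Prop := n⁻¹ * n' ∈ P.B

lemma E.refl (n : G) : E P n n := by simp [E, one_mem]

lemma E.symm {n n' : G} (h : E P n n') : E P n' n := by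
  have := inv_mem (show n⁻¹ * n' ∈ P.B from h)
  simpa [E] using this

lemma E.trans {n n' n'' : G} (h : E P n n') (h' : E P n' n'') : E P n n'' := by
  have := mul_mem (show n⁻¹ * n' ∈ P.B from h) (show n'⁻¹ * n'' ∈ P.B from h')
  have e : n⁻¹ * n' * (n'⁻¹ * n'') = n⁻¹ * n'' := by group
  rwa [e] at this

lemma E.mul_left (x : G) {n n' : G} (h : E P n n') : E P (x * n) (x * n') := by
  have e : (x * n)⁻¹ * (x * n') = n⁻¹ * n' := by group
  unfold E
  rw [e]
  exact h

lemma conj_T {n t : G} (hn : n ∈ P.N) (ht : t ∈ P.B) (ht' : t ∈ P.N) : n * t * n⁻¹ ∈ P.B :=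
  P.conj_mem n hn t ⟨ht, ht'⟩

lemma conj_T' {n t : G} (hn : n ∈ P.N) (ht : t ∈ P.B) (ht' : t ∈ P.N) : n⁻¹ * t * n ∈ P.B := by
  have := conj_T (inv_mem hn) ht ht'
  rwa [inv_inv] at this

lemma E.mul_right {n n' x : G} (hn : n ∈ P.N) (hn' : n' ∈ P.N) (hx : x ∈ P.N) (h : E P n n') :
    E P (n * x) (n' * x) := by
  have e : (n * x)⁻¹ * (n' * x) = x⁻¹ * (n⁻¹ * n') * x := by group
  unfold E
  rw [e]
  exact conj_T' hx h (mul_mem (inv_mem hn) hn')

lemma C_eq_of_E {n n' : G} (h : E P n n') : C P n = C P n' := by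
  ext g
  constructor
  · intro hg
    obtain ⟨x, hx, y, hy, rfl⟩ := mem_C.1 hg
    refine mem_C.2 ⟨x, hx, (n'⁻¹ * n) * y, mul_mem ?_ hy, by group⟩
    exact h.symm
  · intro hg
    obtain ⟨x, hx, y, hy, rfl⟩ := mem_C.1 hg
    refine mem_C.2 ⟨x, hx, (n⁻¹ * n') * y, mul_mem h hy, by group⟩

/-! ### facts on the distinguished generators -/

lemma s_mem_N {s : G} (hs : s ∈ P.S) : s ∈ P.N := P.subset hs

lemma ss_mem_T {s : G} (hs : s ∈ P.S) : s * s ∈ P.B := P.sq_mem s hs

lemma exists_not_mem {s : G} (hs : s ∈ P.S) : ∃ b ∈ P.B, s * b * s ∉ P.B := by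
  by_contra hcon
  push Not at hcon
  apply P.conj_ne s hs
  ext x
  constructor
  · rintro ⟨b, hb, rfl⟩
    exact hcon b hb
  · intro hx
    refine ⟨s⁻¹ * x * s⁻¹, ?_, by group⟩
    have e : s⁻¹ * x * s⁻¹ = (s * s)⁻¹ * (s * x * s) * (s * s)⁻¹ := by group
    rw [SetLike.mem_coe, e]
    exact mul_mem (mul_mem (inv_mem (ss_mem_T hs)) (hcon x hx)) (inv_mem (ss_mem_T hs))

lemma s_not_mem_B {s : G} (hs : s ∈ P.S) : s ∉ P.B := by
  intro h
  obtain ⟨b, hb, hn⟩ := exists_not_mem hs
  exact hn (mul_mem (mul_mem h hb) h)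

lemma E_inv_s {s : G} (hs : s ∈ P.S) : E P s⁻¹ s := by
  have : s⁻¹⁻¹ * s = s * s := by simp
  unfold E
  rw [this]
  exact ss_mem_T hs

lemma E_s_s {s n : G} (hs : s ∈ P.S) (hn : n ∈ P.N) : E P (s * (s * n)) n := by
  have e : (s * (s * n))⁻¹ * n = n⁻¹ * (s * s)⁻¹ * n := by group
  unfold E
  rw [e]
  exact conj_T' hn (inv_mem (ss_mem_T hs)) (inv_mem (mul_mem (s_mem_N hs) (s_mem_N hs)))

/-- The left multiplication rule on double cosets. -/
lemma mul_mem_union' {s n g : G} (hs : s ∈ P.S) (hn : n ∈ P.N) (hg : g ∈ C P n) :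
    s * g ∈ C P (s * n) ∪ C P n := by
  obtain ⟨x, hx, y, hy, rfl⟩ := mem_C.1 hg
  have h1 := P.mul_mem_union s hs n hn x hx
  have e : s * (x * n * y) = s * x * n * y := by group
  rw [e]
  rcases h1 with h1 | h1
  · exact Or.inl (mul_mem_C_right hy h1)
  · exact Or.inr (mul_mem_C_right hy h1)

/-- The right multiplication rule on double cosets. -/
lemma mul_mem_union_right {s n g : G} (hs : s ∈ P.S) (hn : n ∈ P.N) (hg : g ∈ C P n) :
    g * s ∈ C P (n * s) ∪ C P n := by
  have h1 := mul_mem_union' hs (inv_mem hn) (mul_mem_C_left (inv_mem (ss_mem_T hs)) (mem_C_inv hg))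
  have e : s * ((s * s)⁻¹ * g⁻¹) = (g * s)⁻¹ := by group
  rw [e] at h1
  have e2 : E P (n * s⁻¹) (n * s) := (E_inv_s hs).mul_left n
  rcases h1 with h1 | h1
  · left
    have h2 := mem_C_inv h1
    rw [inv_inv, mul_inv_rev, inv_inv] at h2
    rwa [C_eq_of_E e2] at h2
  · right
    have h2 := mem_C_inv h1
    rwa [inv_inv, inv_inv] at h2

/-! ### closures -/

/-- The double coset union description of the parabolic subgroup, with a free `J`. -/
theorem mem_parabolic_iff {J : Set G} (hJ : J ⊆ P.S) (g : G) :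
    g ∈ P.parabolic J ↔ ∃ n ∈ Subgroup.closure J, g ∈ C P n := by
  constructor
  · intro hg
    have h1 : P.parabolic J = Subgroup.closure ((P.B : Set G) ∪ J) := by
      unfold Cfsg.BNPair.parabolic
      rw [Subgroup.closure_union, Subgroup.closure_eq]
    rw [h1] at hg
    induction hg using Subgroup.closure_induction_left with
    | one => exact ⟨1, one_mem _, self_mem_C 1⟩
    | mul_left x hx y _ ih =>
      obtain ⟨n, hn, hy⟩ := ih
      rcases hx with hx | hx
      · exact ⟨n, hn, mul_mem_C_left hx hy⟩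
      · have hnN : n ∈ P.N := by
          have : Subgroup.closure J ≤ P.N := by
            rw [Subgroup.closure_le]
            exact hJ.trans P.subset
          exact this hn
        rcases mul_mem_union' (hJ hx) hnN hy with h | h
        · exact ⟨x * n, mul_mem (Subgroup.subset_closure hx) hn, h⟩
        · exact ⟨n, hn, h⟩
    | inv_mul_cancel x hx y _ ih =>
      obtain ⟨n, hn, hy⟩ := ih
      rcases hx with hx | hx
      · exact ⟨n, hn, mul_mem_C_left (inv_mem hx) hy⟩
      · have hnN : n ∈ P.N := by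
          have : Subgroup.closure J ≤ P.N := by
            rw [Subgroup.closure_le]
            exact hJ.trans P.subset
          exact this hn
        have hy2 := mul_mem_C_left (inv_mem (ss_mem_T (hJ hx))) hy
        have e : x⁻¹ * y = x * ((x * x)⁻¹ * y) := by group
        rw [e]
        rcases mul_mem_union' (hJ hx) hnN hy2 with h | h
        · exact ⟨x * n, mul_mem (Subgroup.subset_closure hx) hn, h⟩
        · exact ⟨n, hn, h⟩
  · rintro ⟨n, hn, hg⟩
    obtain ⟨x, hx, y, hy, rfl⟩ := mem_C.1 hg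
    have hb : P.B ≤ P.parabolic J := le_sup_left
    have hc : Subgroup.closure J ≤ P.parabolic J := le_sup_right
    exact mul_mem (mul_mem (hb hx) (hc hn)) (hb hy)

theorem parabolic_S_eq_top : P.parabolic P.S = ⊤ := by
  rw [eq_top_iff, ← P.sup_eq_top]
  refine sup_le le_sup_left ?_
  rw [← P.closure_sup]
  refine sup_le le_sup_right ?_
  exact inf_le_left.trans le_sup_left

/-- Bruhat decomposition, existence. -/
theorem exists_mem_C (g : G) : ∃ n ∈ P.N, g ∈ C P n := by
  have hg : g ∈ P.parabolic P.S := by rw [parabolic_S_eq_top]; trivial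
  obtain ⟨n, hn, h⟩ := (mem_parabolic_iff subset_rfl g).1 hg
  refine ⟨n, ?_, h⟩
  have : Subgroup.closure P.S ≤ P.N := by
    rw [Subgroup.closure_le]
    exact P.subset
  exact this hn

/-! ### words and length -/

lemma prod_mem_N {l : List G} (hl : ∀ x ∈ l, x ∈ P.S) : l.prod ∈ P.N :=
  Subgroup.list_prod_mem _ (fun x hx => s_mem_N (hl x hx))

lemma E.left_T {a y t : G} (ha : a ∈ P.N) (ht : t ∈ P.B) (ht' : t ∈ P.N) (h : E P a y) :
    E P a (t * y) := by
  have e : a⁻¹ * (t * y) = (a⁻¹ * t * a) * (a⁻¹ * y) := by group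
  unfold E
  rw [e]
  exact mul_mem (conj_T' ha ht ht') h

/-- Words over `K` for the elements of `closure (K ∪ T)`. -/
lemma exists_word_aux {K : Set G} (hK : K ⊆ P.S) {n : G}
    (hn : n ∈ Subgroup.closure (K ∪ ((P.B ⊓ P.N : Subgroup G) : Set G))) :
    n ∈ P.N ∧ ∃ l : List G, (∀ x ∈ l, x ∈ K) ∧ E P l.prod n := by
  induction hn using Subgroup.closure_induction_left with
  | one => exact ⟨one_mem _, [], by simp, by simp [E, one_mem]⟩
  | mul_left x hx y _ ih =>
    obtain ⟨hy, l, hl, hE⟩ := ih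
    have hlN : l.prod ∈ P.N := prod_mem_N (fun u hu => hK (hl u hu))
    rcases hx with hx | hx
    · refine ⟨mul_mem (s_mem_N (hK hx)) hy, x :: l, ?_, ?_⟩
      · intro u hu
        rcases List.mem_cons.1 hu with rfl | hu
        · exact hx
        · exact hl u hu
      · rw [List.prod_cons]
        exact hE.mul_left x
    · exact ⟨mul_mem hx.2 hy, l, hl, hE.left_T hlN hx.1 hx.2⟩
  | inv_mul_cancel x hx y _ ih =>
    obtain ⟨hy, l, hl, hE⟩ := ih
    have hlN : l.prod ∈ P.N := prod_mem_N (fun u hu => hK (hl u hu))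
    rcases hx with hx | hx
    · have hxN := s_mem_N (hK hx)
      refine ⟨mul_mem (inv_mem hxN) hy, x :: l, ?_, ?_⟩
      · intro u hu
        rcases List.mem_cons.1 hu with rfl | hu
        · exact hx
        · exact hl u hu
      · rw [List.prod_cons]
        have e : x⁻¹ * y = x * ((x * x)⁻¹ * y) := by group
        rw [e]
        exact (hE.left_T hlN (inv_mem (ss_mem_T (hK hx))) (inv_mem (mul_mem hxN hxN))).mul_left x
    · exact ⟨mul_mem (inv_mem hx.2) hy, l, hl, hE.left_T hlN (inv_mem hx.1) (inv_mem hx.2)⟩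

lemma exists_word_of_closure {K : Set G} (hK : K ⊆ P.S) {n : G} (hn : n ∈ Subgroup.closure K) :
    ∃ l : List G, (∀ x ∈ l, x ∈ K) ∧ E P l.prod n :=
  (exists_word_aux hK (Subgroup.closure_mono Set.subset_union_left hn)).2

lemma exists_word {n : G} (hn : n ∈ P.N) : ∃ l : List G, (∀ x ∈ l, x ∈ P.S) ∧ E P l.prod n := by
  rw [← P.closure_sup, ← Subgroup.closure_eq (P.B ⊓ P.N : Subgroup G), ← Subgroup.closure_union] at hn
  exact (exists_word_aux subset_rfl hn).2

variable (P) in
/-- The length of an element of `N`. -/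
noncomputable def len (n : G) : ℕ :=
  sInf {k | ∃ l : List G, (∀ x ∈ l, x ∈ P.S) ∧ l.length = k ∧ E P l.prod n}

lemma len_le {l : List G} {n : G} (hl : ∀ x ∈ l, x ∈ P.S) (h : E P l.prod n) :
    len P n ≤ l.length := Nat.sInf_le ⟨l, hl, rfl, h⟩

lemma exists_word_len {n : G} (hn : n ∈ P.N) :
    ∃ l : List G, (∀ x ∈ l, x ∈ P.S) ∧ l.length = len P n ∧ E P l.prod n := by
  obtain ⟨l, hl, h⟩ := exists_word hn
  have : {k | ∃ l : List G, (∀ x ∈ l, x ∈ P.S) ∧ l.length = k ∧ E P l.prod n}.Nonempty :=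
    ⟨_, l, hl, rfl, h⟩
  exact Nat.sInf_mem this

lemma len_congr {n n' : G} (h : E P n n') : len P n = len P n' := by
  unfold len
  congr 1
  ext k
  constructor
  · rintro ⟨l, hl, hk, h1⟩
    exact ⟨l, hl, hk, h1.trans h⟩
  · rintro ⟨l, hl, hk, h1⟩
    exact ⟨l, hl, hk, h1.trans h.symm⟩

lemma len_eq_zero {n : G} (hn : n ∈ P.N) : len P n = 0 ↔ n ∈ P.B := by
  constructor
  · intro h
    obtain ⟨l, -, hk, h1⟩ := exists_word_len hn
    rw [h] at hk
    rw [List.length_eq_zero_iff] at hk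
    subst hk
    simpa [E] using h1
  · intro h
    have : len P n ≤ ([] : List G).length := len_le (by simp) (by simpa [E] using h)
    simpa using this

lemma len_mul_le {s n : G} (hs : s ∈ P.S) (hn : n ∈ P.N) : len P (s * n) ≤ len P n + 1 := by
  obtain ⟨l, hl, hk, h1⟩ := exists_word_len hn
  have : len P (s * n) ≤ (s :: l).length := by
    apply len_le
    · intro u hu
      rcases List.mem_cons.1 hu with rfl | hu
      · exact hs
      · exact hl u hu
    · rw [List.prod_cons]
      exact h1.mul_left s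
  simpa [hk] using this

lemma len_s_s {s n : G} (hs : s ∈ P.S) (hn : n ∈ P.N) : len P (s * (s * n)) = len P n :=
  len_congr (E_s_s hs hn)

lemma len_le_succ {s n : G} (hs : s ∈ P.S) (hn : n ∈ P.N) : len P n ≤ len P (s * n) + 1 := by
  have h := len_mul_le hs (mul_mem (s_mem_N hs) hn)
  rwa [len_s_s hs hn] at h

/-- If `len n` is positive, some generator decreases it. -/
lemma exists_descent {n : G} {k : ℕ} (hn : n ∈ P.N) (hk : len P n = k + 1) :
    ∃ s ∈ P.S, len P (s * n) ≤ k := by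
  obtain ⟨l, hl, hk2, h1⟩ := exists_word_len hn
  rw [hk] at hk2
  obtain ⟨s, l₁, rfl⟩ : ∃ s l₁, l = s :: l₁ := by
    cases l with
    | nil => simp at hk2
    | cons a b => exact ⟨a, b, rfl⟩
  have hs : s ∈ P.S := hl s (by simp)
  refine ⟨s, hs, ?_⟩
  have hl1 : ∀ x ∈ l₁, x ∈ P.S := fun x hx => hl x (List.mem_cons_of_mem _ hx)
  have hl1N := prod_mem_N hl1
  rw [List.prod_cons] at h1
  have h2 : E P l₁.prod (s * n) :=
    (E_s_s hs hl1N).symm.trans (h1.mul_left s)
  have := len_le hl1 h2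
  simp only [List.length_cons] at hk2
  omega

/-- Uniqueness in the Bruhat decomposition. -/
theorem E_of_mem_C_aux (k : ℕ) : ∀ n n' : G, n ∈ P.N → n' ∈ P.N →
    (len P n ≤ k ∨ len P n' ≤ k) → n' ∈ C P n → E P n n' := by
  induction k with
  | zero =>
    have main : ∀ n n' : G, n ∈ P.N → len P n ≤ 0 → n' ∈ C P n → E P n n' := by
      intro n n' hn h0 hmem
      have hnB : n ∈ P.B := (len_eq_zero hn).1 (by omega)
      obtain ⟨x, hx, y, hy, rfl⟩ := mem_C.1 hmem
      exact mul_mem (inv_mem hnB) (mul_mem (mul_mem hx hnB) hy)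
    intro n n' hn hn' h hmem
    rcases h with h | h
    · exact main n n' hn h hmem
    · exact (main n' n hn' h (mem_C_symm hmem)).symm
  | succ k ih =>
    have main : ∀ n n' : G, n ∈ P.N → n' ∈ P.N → len P n ≤ len P n' → len P n ≤ k + 1 →
        n' ∈ C P n → E P n n' := by
      intro n n' hn hn' hle hk hmem
      by_cases hk2 : len P n ≤ k
      · exact ih n n' hn hn' (Or.inl hk2) hmem
      have hk3 : len P n = k + 1 := by omega
      obtain ⟨s, hs, hd⟩ := exists_descent hn hk3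
      have hsN := s_mem_N hs
      have hv : s * n ∈ P.N := mul_mem hsN hn
      rcases mul_mem_union' hs hn' (mem_C_symm hmem) with h | h
      · have h1 : E P (s * n) (s * n') :=
          ih _ _ hv (mul_mem hsN hn') (Or.inl hd) (mem_C_symm h)
        have h2 := h1.mul_left s
        exact (E_s_s hs hn).symm.trans (h2.trans (E_s_s hs hn'))
      · exfalso
        have h1 : E P (s * n) n' := ih _ _ hv hn' (Or.inl hd) (mem_C_symm h)
        have h2 := len_congr h1
        omega
    intro n n' hn hn' h hmem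
    by_cases hle : len P n ≤ len P n'
    · exact main n n' hn hn' hle (by omega) hmem
    · exact (main n' n hn' hn (by omega) (by omega) (mem_C_symm hmem)).symm

theorem E_of_mem_C {n n' : G} (hn : n ∈ P.N) (hn' : n' ∈ P.N) (h : n' ∈ C P n) : E P n n' :=
  E_of_mem_C_aux (len P n) n n' hn hn' (Or.inl le_rfl) h

/-- Bruhat decomposition, uniqueness. -/
theorem C_eq_iff {n n' : G} (hn : n ∈ P.N) (hn' : n' ∈ P.N) :
    C P n = C P n' ↔ n⁻¹ * n' ∈ P.B := by
  constructor
  · intro h
    exact E_of_mem_C hn hn' (by rw [h]; exact self_mem_C n')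
  · intro h
    exact C_eq_of_E h

lemma E_of_not_disjoint {n n' g : G} (hn : n ∈ P.N) (hn' : n' ∈ P.N) (h : g ∈ C P n)
    (h' : g ∈ C P n') : E P n n' := by
  obtain ⟨x, hx, y, hy, rfl⟩ := mem_C.1 h
  obtain ⟨u, hu, v, hv, e⟩ := mem_C.1 h'
  apply E_of_mem_C hn hn'
  refine mem_C.2 ⟨u⁻¹ * x, mul_mem (inv_mem hu) hx, y * v⁻¹, mul_mem hy (inv_mem hv), ?_⟩
  have : n' = u⁻¹ * (x * n * y) * v⁻¹ := by rw [e]; group
  rw [this]
  group

/-! ### the sets `Ps` -/

variable (P) in
/-- `s B n ⊆ B s n B`. -/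
def Ps (s n : G) : Prop := ∀ b ∈ P.B, s * b * n ∈ C P (s * n)

lemma Ps_congr {s n n' : G} (h : E P n n') (hP : Ps P s n) : Ps P s n' := by
  intro b hb
  have h1 := mul_mem_C_right h (hP b hb)
  have e : s * b * n * (n⁻¹ * n') = s * b * n' := by group
  rw [e] at h1
  rwa [C_eq_of_E (h.mul_left s)] at h1

lemma exists_of_not_Ps {s n : G} (hs : s ∈ P.S) (hn : n ∈ P.N) (h : ¬ Ps P s n) :
    ∃ b ∈ P.B, s * b * n ∈ C P n := by
  unfold Ps at h
  push Not at h
  obtain ⟨b, hb, h1⟩ := h
  refine ⟨b, hb, ?_⟩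
  exact (P.mul_mem_union s hs n hn b hb).resolve_left h1

lemma not_Ps_s_mul {s n : G} (hs : s ∈ P.S) (hn : n ∈ P.N) (h : Ps P s n) :
    ¬ Ps P s (s * n) := by
  intro h2
  obtain ⟨b, hb, hnb⟩ := exists_not_mem hs
  have hsN := s_mem_N hs
  have h3 : s * b * s ∈ C P s := by
    rcases P.mul_mem_union s hs s hsN b hb with h4 | h4
    · exfalso
      obtain ⟨x, hx, y, hy, e⟩ := mem_C.1 h4
      apply hnb
      rw [e]
      exact mul_mem (mul_mem hx (ss_mem_T hs)) hy
    · exact h4
  obtain ⟨x, hx, y, hy, e⟩ := mem_C.1 h3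
  have h5 := h2 b hb
  have e2 : s * b * (s * n) = x * (s * y * n) := by
    calc s * b * (s * n) = (s * b * s) * n := by group
      _ = x * (s * y * n) := by rw [e]; group
  rw [e2] at h5
  have h6 := mul_mem_C_left hx (h y hy)
  rw [C_eq_of_E (E_s_s hs hn)] at h5
  have h7 := E_of_not_disjoint hn (mul_mem hsN hn) h5 h6
  -- so `s ∈ B`
  apply s_not_mem_B hs
  have e3 : s = n * (n⁻¹ * (s * n)) * n⁻¹ := by group
  rw [e3]
  exact conj_T hn h7 (mul_mem (inv_mem hn) (mul_mem hsN hn))

lemma E_of_Ps_of_not {s w s' : G} (hs : s ∈ P.S) (hw : w ∈ P.N) (hs' : s' ∈ P.S)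
    (h : Ps P s w) (h2 : ¬ Ps P s (w * s')) : E P (w * s') (s * w) := by
  have hsN := s_mem_N hs
  have hs'N := s_mem_N hs'
  unfold Ps at h2
  push Not at h2
  obtain ⟨b, hb, h3⟩ := h2
  have h4 := (P.mul_mem_union s hs (w * s') (mul_mem hw hs'N) b hb).resolve_left h3
  have h5 := mul_mem_union_right hs' (mul_mem hsN hw) (h b hb)
  have e : s * b * w * s' = s * b * (w * s') := by group
  rw [e] at h5
  have e2 : s * w * s' = s * (w * s') := by group
  rw [e2] at h5
  have h6 := h5.resolve_left h3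
  exact E_of_not_disjoint (mul_mem hw hs'N) (mul_mem hsN hw) h4 h6

/-- The exchange condition. -/
theorem exchange {s : G} (hs : s ∈ P.S) (l : List G) (hl : ∀ x ∈ l, x ∈ P.S)
    (h : ¬ Ps P s l.prod) :
    ∃ l' : List G, l'.Sublist l ∧ l'.length + 1 = l.length ∧ E P l'.prod (s * l.prod) := by
  induction l using List.reverseRecOn with
  | nil =>
    exfalso
    apply h
    intro b hb
    rw [List.prod_nil, mul_one, mul_one]
    exact mem_C.2 ⟨1, one_mem _, b, hb, by group⟩
  | append_singleton l₀ s' ih =>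
    have hl0 : ∀ x ∈ l₀, x ∈ P.S := fun x hx => hl x (by simp [hx])
    have hs' : s' ∈ P.S := hl s' (by simp)
    have hs'N := s_mem_N hs'
    have hsN := s_mem_N hs
    have hl0N := prod_mem_N hl0
    rw [List.prod_append, List.prod_singleton] at h ⊢
    by_cases h1 : Ps P s l₀.prod
    · refine ⟨l₀, List.sublist_append_left _ _, by simp, ?_⟩
      have h2 := E_of_Ps_of_not hs hl0N hs' h1 h
      have h3 := h2.mul_left s
      exact ((E_s_s hs hl0N).symm).trans h3.symm
    · obtain ⟨l', h3, h4, h5⟩ := ih hl0 h1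
      refine ⟨l' ++ [s'], ?_, by simp [← h4], ?_⟩
      · exact List.Sublist.append_right h3 _
      · rw [List.prod_append, List.prod_singleton, ← mul_assoc]
        have hl'N : l'.prod ∈ P.N := prod_mem_N (fun x hx => hl0 x (h3.subset hx))
        exact h5.mul_right hl'N (mul_mem hsN hl0N) hs'N

lemma len_lt_of_not_Ps {s n : G} (hs : s ∈ P.S) (hn : n ∈ P.N) (h : ¬ Ps P s n) :
    len P (s * n) < len P n := by
  obtain ⟨l, hl, hk, h1⟩ := exists_word_len hn
  have h2 : ¬ Ps P s l.prod := fun h3 => h (Ps_congr h1 h3)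
  obtain ⟨l', h3, h4, h5⟩ := exchange hs l hl h2
  have h6 : E P l'.prod (s * n) := h5.trans (h1.mul_left s)
  have h7 := len_le (fun x hx => hl x (h3.subset hx)) h6
  omega

lemma len_gt_of_Ps {s n : G} (hs : s ∈ P.S) (hn : n ∈ P.N) (h : Ps P s n) :
    len P n < len P (s * n) := by
  have h1 := not_Ps_s_mul hs hn h
  have h2 := len_lt_of_not_Ps hs (mul_mem (s_mem_N hs) hn) h1
  rwa [len_s_s hs hn] at h2

lemma exists_reduced_sublist (l : List G) (hl : ∀ x ∈ l, x ∈ P.S) :
    ∃ l' : List G, l'.Sublist l ∧ E P l'.prod l.prod ∧ l'.length = len P l.prod := by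
  induction l with
  | nil =>
    refine ⟨[], List.Sublist.refl _, E.refl _, ?_⟩
    have := (len_eq_zero (P := P) (n := 1) (one_mem _)).2 (one_mem _)
    simpa using this.symm
  | cons s l₁ ih =>
    have hs : s ∈ P.S := hl s (by simp)
    have hl1 : ∀ x ∈ l₁, x ∈ P.S := fun x hx => hl x (List.mem_cons_of_mem _ hx)
    have hn1 := prod_mem_N hl1
    obtain ⟨l₂, h2, h3, h4⟩ := ih hl1
    rw [List.prod_cons]
    by_cases hPs : Ps P s l₁.prod
    · refine ⟨s :: l₂, List.Sublist.cons_cons _ h2, ?_, ?_⟩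
      · rw [List.prod_cons]
        exact h3.mul_left s
      · have := len_gt_of_Ps hs hn1 hPs
        have := len_mul_le hs hn1
        simp only [List.length_cons]
        omega
    · have h5 : ¬ Ps P s l₂.prod := fun h6 => hPs (Ps_congr h3 h6)
      have hl2 : ∀ x ∈ l₂, x ∈ P.S := fun x hx => hl1 x (h2.subset hx)
      obtain ⟨l₃, h6, h7, h8⟩ := exchange hs l₂ hl2 h5
      refine ⟨l₃, (h6.trans h2).trans (List.sublist_cons_self _ _), ?_, ?_⟩
      · exact h8.trans (h3.mul_left s)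
      · have := len_lt_of_not_Ps hs hn1 hPs
        have := len_le_succ hs hn1
        omega

/-- Conjugation lemma: `n B n⁻¹ ⊆ M`, with `B ≤ M`, forces `n ∈ M`. -/
theorem mem_of_conj_le {M : Subgroup G} (hM : P.B ≤ M) {n : G} (hn : n ∈ P.N)
    (h : ∀ b ∈ P.B, n * b * n⁻¹ ∈ M) : n ∈ M := by
  induction hk : len P n using Nat.strong_induction_on generalizing n with
  | _ k ih =>
    rcases k with _ | k
    · exact hM ((len_eq_zero hn).1 hk)
    · obtain ⟨s, hs, hd⟩ := exists_descent hn hk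
      have hsN := s_mem_N hs
      have hnot : ¬ Ps P s n := by
        intro hPs
        have := len_gt_of_Ps hs hn hPs
        omega
      obtain ⟨b, hb, h1⟩ := exists_of_not_Ps hs hn hnot
      obtain ⟨x, hx, y, hy, e⟩ := mem_C.1 h1
      have hsM : s ∈ M := by
        have e2 : s = x * (n * y * n⁻¹) * b⁻¹ := by
          calc s = (s * b * n) * n⁻¹ * b⁻¹ := by group
            _ = x * (n * y * n⁻¹) * b⁻¹ := by rw [e]; group
        rw [e2]
        exact mul_mem (mul_mem (hM hx) (h y hy)) (hM (inv_mem hb))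
      have hv : s * n ∈ M := by
        refine ih (len P (s * n)) (by omega) (mul_mem hsN hn) ?_ rfl
        intro c hc
        have e3 : s * n * c * (s * n)⁻¹ = s * (n * c * n⁻¹) * s⁻¹ := by group
        rw [e3]
        exact mul_mem (mul_mem hsM (h c hc)) (inv_mem hsM)
      have : n = s⁻¹ * (s * n) := by group
      rw [this]
      exact mul_mem (inv_mem hsM) hv

/-- Letters of a reduced word for an element of `M ≥ B` lie in `M`. -/
theorem mem_of_reduced {M : Subgroup G} (hM : P.B ≤ M) (l : List G) (hl : ∀ x ∈ l, x ∈ P.S)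
    (hred : l.length = len P l.prod) (hmem : l.prod ∈ M) : ∀ x ∈ l, x ∈ M := by
  induction l with
  | nil => simp
  | cons s l₁ ih =>
    have hs : s ∈ P.S := hl s (by simp)
    have hl1 : ∀ x ∈ l₁, x ∈ P.S := fun x hx => hl x (List.mem_cons_of_mem _ hx)
    have hn1 := prod_mem_N hl1
    have hsN := s_mem_N hs
    rw [List.prod_cons] at hred hmem
    simp only [List.length_cons] at hred
    have hn : s * l₁.prod ∈ P.N := mul_mem hsN hn1
    have h1 := len_le hl1 (E.refl l₁.prod)
    have h2 := len_mul_le hs hn1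
    have h3 : len P (s * (s * l₁.prod)) = len P l₁.prod := len_s_s hs hn1
    have hnot : ¬ Ps P s (s * l₁.prod) := by
      intro hPs
      have := len_gt_of_Ps hs hn hPs
      omega
    obtain ⟨b, hb, h4⟩ := exists_of_not_Ps hs hn hnot
    obtain ⟨x, hx, y, hy, e⟩ := mem_C.1 h4
    have hsM : s ∈ M := by
      have e2 : s = x * (s * l₁.prod) * y * (s * l₁.prod)⁻¹ * b⁻¹ := by
        calc s = (s * b * (s * l₁.prod)) * (s * l₁.prod)⁻¹ * b⁻¹ := by group
          _ = x * (s * l₁.prod) * y * (s * l₁.prod)⁻¹ * b⁻¹ := by rw [e]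
      rw [e2]
      exact mul_mem (mul_mem (mul_mem (mul_mem (hM hx) hmem) (hM hy)) (inv_mem hmem))
        (hM (inv_mem hb))
    have hl1M : l₁.prod ∈ M := by
      have : l₁.prod = s⁻¹ * (s * l₁.prod) := by group
      rw [this]
      exact mul_mem (inv_mem hsM) hmem
    have hall := ih hl1 (by omega) hl1M
    intro u hu
    rcases List.mem_cons.1 hu with rfl | hu
    · exact hsM
    · exact hall u hu

lemma len_s {s : G} (hs : s ∈ P.S) : len P s = 1 := by
  have h1 : len P s ≤ [s].length := len_le (by simpa using hs) (by simpa using E.refl s)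
  have h2 : len P s ≠ 0 := fun h => s_not_mem_B hs ((len_eq_zero (s_mem_N hs)).1 h)
  simp only [List.length_singleton] at h1
  omega

/-- A generator in a standard parabolic subgroup belongs to the index set. -/
theorem mem_of_mem_parabolic {K : Set G} (hK : K ⊆ P.S) {s : G} (hs : s ∈ P.S)
    (h : s ∈ P.parabolic K) : s ∈ K := by
  obtain ⟨n, hn, h1⟩ := (mem_parabolic_iff hK s).1 h
  obtain ⟨l, hl, h2⟩ := exists_word_of_closure hK hn
  have hlS : ∀ x ∈ l, x ∈ P.S := fun x hx => hK (hl x hx)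
  obtain ⟨l', h3, h4, h5⟩ := exists_reduced_sublist l hlS
  have hnN : n ∈ P.N := by
    have : Subgroup.closure K ≤ P.N := by
      rw [Subgroup.closure_le]
      exact hK.trans P.subset
    exact this hn
  have h6 : E P n s := E_of_mem_C hnN (s_mem_N hs) h1
  have h7 : E P l'.prod s := (h4.trans h2).trans h6
  have h8 : l'.length = 1 := by
    rw [h5, len_congr (h2.trans h6), len_s hs]
  obtain ⟨u, rfl⟩ := List.length_eq_one_iff.1 h8
  simp only [List.prod_singleton] at h7
  have hu : u ∈ K := hl u (h3.subset (by simp))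
  have := P.inj u (hK hu) s hs h7
  rwa [← this]

/-- Every subgroup containing `B` is standard parabolic. -/
theorem eq_parabolic {M : Subgroup G} (hM : P.B ≤ M) :
    M = P.parabolic {s | s ∈ P.S ∧ s ∈ M} := by
  apply le_antisymm
  · intro g hg
    obtain ⟨n, hn, h1⟩ := exists_mem_C (P := P) g
    have hnM : n ∈ M := by
      obtain ⟨x, hx, y, hy, rfl⟩ := mem_C.1 h1
      have e : n = x⁻¹ * (x * n * y) * y⁻¹ := by group
      rw [e]
      exact mul_mem (mul_mem (hM (inv_mem hx)) hg) (hM (inv_mem hy))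
    obtain ⟨l, hl, hk, h2⟩ := exists_word_len hn
    have hlM : l.prod ∈ M := by
      have e : l.prod = n * (n⁻¹ * l.prod) := by group
      rw [e]
      exact mul_mem hnM (hM h2.symm)
    have hred : l.length = len P l.prod := by rw [hk, len_congr h2]
    have hall := mem_of_reduced hM l hl hred hlM
    have hlc : l.prod ∈ Subgroup.closure {s | s ∈ P.S ∧ s ∈ M} := by
      apply Subgroup.list_prod_mem
      intro x hx
      exact Subgroup.subset_closure ⟨hl x hx, hall x hx⟩
    have hb : P.B ≤ P.parabolic {s | s ∈ P.S ∧ s ∈ M} := le_sup_left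
    have hc : Subgroup.closure {s | s ∈ P.S ∧ s ∈ M} ≤ P.parabolic {s | s ∈ P.S ∧ s ∈ M} :=
      le_sup_right
    obtain ⟨x, hx, y, hy, rfl⟩ := mem_C.1 h1
    refine mul_mem (mul_mem (hb hx) ?_) (hb hy)
    have e : n = l.prod * (l.prod⁻¹ * n) := by group
    rw [e]
    exact mul_mem (hc hlc) (hb h2)
  · refine sup_le hM ?_
    rw [Subgroup.closure_le]
    exact fun s hs => hs.2

theorem parabolic_inf {J K : Set G} (hJ : J ⊆ P.S) (hK : K ⊆ P.S) :
    P.parabolic J ⊓ P.parabolic K = P.parabolic (J ∩ K) := by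
  apply le_antisymm
  · rintro g ⟨hgJ, hgK⟩
    obtain ⟨n, hn, h1⟩ := (mem_parabolic_iff hJ g).1 hgJ
    obtain ⟨l, hl, h2⟩ := exists_word_of_closure hJ hn
    have hlS : ∀ x ∈ l, x ∈ P.S := fun x hx => hJ (hl x hx)
    obtain ⟨l', h3, h4, h5⟩ := exists_reduced_sublist l hlS
    have hbK : P.B ≤ P.parabolic K := le_sup_left
    have hnK : n ∈ P.parabolic K := by
      obtain ⟨x, hx, y, hy, rfl⟩ := mem_C.1 h1
      have e : n = x⁻¹ * (x * n * y) * y⁻¹ := by group
      rw [e]
      exact mul_mem (mul_mem (hbK (inv_mem hx)) hgK) (hbK (inv_mem hy))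
    have hE : E P l'.prod n := h4.trans h2
    have hl'K : l'.prod ∈ P.parabolic K := by
      have e : l'.prod = n * (n⁻¹ * l'.prod) := by group
      rw [e]
      exact mul_mem hnK (hbK hE.symm)
    have hl'S : ∀ x ∈ l', x ∈ P.S := fun x hx => hlS x (h3.subset hx)
    have hred : l'.length = len P l'.prod := by rw [h5, len_congr h4]
    have hall := mem_of_reduced hbK l' hl'S hred hl'K
    have hl'c : l'.prod ∈ Subgroup.closure (J ∩ K) := by
      apply Subgroup.list_prod_mem
      intro x hx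
      exact Subgroup.subset_closure
        ⟨hl x (h3.subset hx), mem_of_mem_parabolic hK (hl'S x hx) (hall x hx)⟩
    have hb : P.B ≤ P.parabolic (J ∩ K) := le_sup_left
    have hc : Subgroup.closure (J ∩ K) ≤ P.parabolic (J ∩ K) := le_sup_right
    obtain ⟨x, hx, y, hy, rfl⟩ := mem_C.1 h1
    refine mul_mem (mul_mem (hb hx) ?_) (hb hy)
    have e : n = l'.prod * (l'.prod⁻¹ * n) := by group
    rw [e]
    exact mul_mem (hc hl'c) (hb hE)
  · apply le_inf
    · exact sup_le_sup_left (Subgroup.closure_mono Set.inter_subset_left) _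
    · exact sup_le_sup_left (Subgroup.closure_mono Set.inter_subset_right) _

theorem parabolic_inj {J K : Set G} (hJ : J ⊆ P.S) (hK : K ⊆ P.S)
    (h : P.parabolic J = P.parabolic K) : J = K := by
  apply Set.Subset.antisymm
  · intro s hs
    apply mem_of_mem_parabolic hK (hJ hs)
    rw [← h]
    exact (le_sup_right : Subgroup.closure J ≤ P.parabolic J) (Subgroup.subset_closure hs)
  · intro s hs
    apply mem_of_mem_parabolic hJ (hK hs)
    rw [h]
    exact (le_sup_right : Subgroup.closure K ≤ P.parabolic K) (Subgroup.subset_closure hs)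

end Cfsg.Agent.Lib.BNPair
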