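import Mathlib
import Cfsg.Prelude.Def_MonsterType
import Cfsg.Agent.Lib.H6PGroup
import Cfsg.Agent.Lib.CoprimeAct

/-! Extraspecial 2-subgroups in elementwise form; the basic lemma on large extraspecial subgroups. -/

namespace Cfsg.Agent.Lib.LargeExtra

variable {G : Type*} [Group G]

/-- the commutator written out -/
def B (p q : G) : G := p * q * p⁻¹ * q⁻¹

/-- Elementwise form of an extraspecial 2-subgroup with central involution `z`. -/
structure ES (Q : Subgroup G) (z : G) : Prop where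
  mem : z ∈ Q
  ne_one : z ≠ 1
  sq : z * z = 1
  comm : ∀ a ∈ Q, ∀ b ∈ Q, B a b = 1 ∨ B a b = z
  cen : ∀ a ∈ Q, (∀ b ∈ Q, a * b = b * a) → a = 1 ∨ a = z
  zcen : ∀ a ∈ Q, a * z = z * a
  pow2 : ∀ a ∈ Q, a * a = 1 ∨ a * a = z

theorem B_eq_one_iff {p q : G} : B p q = 1 ↔ p * q = q * p := by
  unfold B
  constructor
  · intro h
    have h1 := mul_inv_eq_one.mp h
    have h2 := mul_inv_eq_iff_eq_mul.mp h1
    exact h2
  · intro h
    rw [h]
    group

theorem inv_z {Q : Subgroup G} {z : G} (h : ES Q z) : z⁻¹ = z := by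
  rw [inv_eq_iff_mul_eq_one]
  exact h.sq

theorem B_comm_mem {Q : Subgroup G} {z : G} (h : ES Q z) {p q r : G} (hp : p ∈ Q) (hq : q ∈ Q) (hr : r ∈ Q) :
    B p q * r = r * B p q := by
  rcases h.comm p hp q hq with h1 | h1
  · rw [h1]; group
  · rw [h1]; exact (h.zcen r hr).symm

theorem B_mem {Q : Subgroup G} {z : G} (h : ES Q z) {p q : G} (hp : p ∈ Q) (hq : q ∈ Q) : B p q ∈ Q := by
  rcases h.comm p hp q hq with h1 | h1
  · rw [h1]; exact Q.one_mem
  · rw [h1]; exact h.mem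

theorem B_mul_left {Q : Subgroup G} {z : G} (h : ES Q z) {p p₂ q : G} (hp : p ∈ Q) (hp₂ : p₂ ∈ Q) (hq : q ∈ Q) :
    B (p * p₂) q = B p q * B p₂ q := by
  have h1 : B (p * p₂) q = p * (B p₂ q * (q * p⁻¹ * q⁻¹)) := by
    unfold B; group
  rw [h1]
  have h2 := B_comm_mem h hp₂ hq hp
  calc p * (B p₂ q * (q * p⁻¹ * q⁻¹)) = (p * B p₂ q) * (q * p⁻¹ * q⁻¹) := by group
    _ = (B p₂ q * p) * (q * p⁻¹ * q⁻¹) := by rw [h2]
    _ = B p₂ q * B p q := by unfold B; group
    _ = B p q * B p₂ q := B_comm_mem h hp₂ hq (B_mem h hp hq)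

theorem B_one_left (q : G) : B 1 q = 1 := by unfold B; group

theorem B_one_right (q : G) : B q 1 = 1 := by unfold B; group

theorem B_inv_left {Q : Subgroup G} {z : G} (h : ES Q z) {p q : G} (hp : p ∈ Q) (hq : q ∈ Q) :
    B p⁻¹ q = (B p q)⁻¹ := by
  have h1 := B_mul_left h hp (Q.inv_mem hp) hq
  rw [mul_inv_cancel, B_one_left] at h1
  exact (eq_inv_of_mul_eq_one_right h1.symm)

theorem B_swap (p q : G) : B q p = (B p q)⁻¹ := by
  unfold B; group

theorem B_mul_right {Q : Subgroup G} {z : G} (h : ES Q z) {p q q₂ : G} (hp : p ∈ Q) (hq : q ∈ Q) (hq₂ : q₂ ∈ Q) :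
    B p (q * q₂) = B p q * B p q₂ := by
  have h0 : B p (q * q₂) = (B (q * q₂) p)⁻¹ := B_swap _ _
  rw [h0, B_mul_left h hq hq₂ hp, mul_inv_rev, ← B_swap, ← B_swap]
  exact B_comm_mem h hp hq₂ (B_mem h hp hq)

theorem B_inv_right {Q : Subgroup G} {z : G} (h : ES Q z) {p q : G} (hp : p ∈ Q) (hq : q ∈ Q) :
    B p q⁻¹ = (B p q)⁻¹ := by
  have h0 : B p q⁻¹ = (B q⁻¹ p)⁻¹ := B_swap _ _
  rw [h0, B_inv_left h hq hp, inv_inv, B_swap p q]

theorem B_conj (x p q : G) : x * B p q * x⁻¹ = B (x * p * x⁻¹) (x * q * x⁻¹) := by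
  unfold B; group

/-- The conjugate of an extraspecial subgroup, elementwise form. -/
theorem ES.conj {Q : Subgroup G} {z : G} (h : ES Q z) (g : G) :
    ES (Q.map (MulAut.conj g).toMonoidHom) (g * z * g⁻¹) := by
  have hmem : ∀ x, x ∈ Q.map (MulAut.conj g).toMonoidHom ↔ g⁻¹ * x * g ∈ Q := by
    intro x
    constructor
    · rintro ⟨a, ha, rfl⟩
      have : g⁻¹ * ((MulAut.conj g).toMonoidHom a) * g = a := by
        simp [MulAut.conj_apply]
        group
      rw [this]
      exact ha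
    · intro hx
      refine ⟨_, hx, ?_⟩
      simp [MulAut.conj_apply]
      group
  have hback : ∀ x, g * (g⁻¹ * x * g) * g⁻¹ = x := by intro x; group
  refine ⟨(hmem _).mpr (by simpa [mul_assoc] using h.mem), ?_, ?_, ?_, ?_, ?_, ?_⟩
  · intro h1
    apply h.ne_one
    have : z = g⁻¹ * (g * z * g⁻¹) * g := by group
    rw [this, h1]
    group
  · calc g * z * g⁻¹ * (g * z * g⁻¹) = g * (z * z) * g⁻¹ := by group
      _ = 1 := by rw [h.sq]; group
  · intro a ha b hb
    have h1 := h.comm _ ((hmem a).mp ha) _ ((hmem b).mp hb)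
    have h2 := B_conj g (g⁻¹ * a * g) (g⁻¹ * b * g)
    rw [hback, hback] at h2
    rcases h1 with h1 | h1
    · left
      rw [← h2, h1]
      group
    · right
      rw [← h2, h1]
  · intro a ha hc
    have h1 := h.cen _ ((hmem a).mp ha) (by
      intro b hb
      have hb' : g * b * g⁻¹ ∈ Q.map (MulAut.conj g).toMonoidHom := ⟨b, hb, rfl⟩
      have h2 := hc _ hb'
      calc g⁻¹ * a * g * b = g⁻¹ * (a * (g * b * g⁻¹)) * g := by group
        _ = g⁻¹ * ((g * b * g⁻¹) * a) * g := by rw [h2]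
        _ = _ := by group)
    rcases h1 with h1 | h1
    · left
      rw [← hback a, h1]
      group
    · right
      rw [← hback a, h1]
  · intro a ha
    have h1 := h.zcen _ ((hmem a).mp ha)
    calc a * (g * z * g⁻¹) = g * ((g⁻¹ * a * g) * z) * g⁻¹ := by group
      _ = g * (z * (g⁻¹ * a * g)) * g⁻¹ := by rw [h1]
      _ = _ := by group
  · intro a ha
    have h1 := h.pow2 _ ((hmem a).mp ha)
    rcases h1 with h1 | h1
    · left
      calc a * a = g * ((g⁻¹ * a * g) * (g⁻¹ * a * g)) * g⁻¹ := by group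
        _ = 1 := by rw [h1]; group
    · right
      calc a * a = g * ((g⁻¹ * a * g) * (g⁻¹ * a * g)) * g⁻¹ := by group
        _ = _ := by rw [h1]

/-- Extract the elementwise form from the definition. -/
theorem exists_ES {Q : Subgroup G} [Finite Q] (hQ : Cfsg.IsExtraspecial 2 Q) :
    ∃ z : G, ES Q z ∧ ∀ x, x ∈ (Subgroup.center Q).map Q.subtype ↔ x = 1 ∨ x = z := by
  obtain ⟨⟨h2, hfr, hcomm⟩, hcard⟩ := hQ
  haveI : Fact (Nat.Prime 2) := ⟨Nat.prime_two⟩
  obtain ⟨a, ha⟩ : ∃ a : Subgroup.center Q, a ≠ 1 := by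
    haveI : Nontrivial (Subgroup.center Q) := by
      apply (Finite.one_lt_card_iff_nontrivial).mp
      rw [hcard]
      norm_num
    exact exists_ne 1
  have hcen : ∀ w : Q, w ∈ Subgroup.center Q → w = 1 ∨ w = a.1 := by
    intro w hw
    obtain ⟨v, -, hv⟩ := (Nat.card_eq_two_iff' (1 : Subgroup.center Q)).mp hcard
    by_cases hw1 : w = 1
    · exact Or.inl hw1
    · right
      have h3 := hv ⟨w, hw⟩ (fun h => hw1 (congrArg Subtype.val h))
      have h4 := hv a ha
      have h5 : (⟨w, hw⟩ : Subgroup.center Q) = a := by rw [h3, h4]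
      exact congrArg Subtype.val h5
  have ha1 : a.1 ≠ 1 := fun h => ha (Subtype.ext h)
  have hcoe : ∀ {u v : Q}, (u : G) = v → u = v := fun h => Subtype.ext h
  refine ⟨(a.1 : G), ⟨a.1.2, ?_, ?_, ?_, ?_, ?_, ?_⟩, ?_⟩
  · intro h
    exact ha1 (Subtype.ext h)
  · have h3 : a.1 * a.1 ∈ Subgroup.center Q := Subgroup.mul_mem _ a.2 a.2
    rcases hcen _ h3 with h4 | h4
    · exact congrArg Subtype.val h4
    · exact absurd (mul_eq_left.mp h4) ha1
  · intro x hx y hy
    have h3 : (⟨x, hx⟩ : Q) * ⟨y, hy⟩ * (⟨x, hx⟩ : Q)⁻¹ * (⟨y, hy⟩ : Q)⁻¹ ∈ Subgroup.center Q := by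
      rw [← hcomm]
      have := Subgroup.commutator_mem_commutator (Subgroup.mem_top (⟨x, hx⟩ : Q)) (Subgroup.mem_top (⟨y, hy⟩ : Q))
      rwa [commutatorElement_def] at this
    rcases hcen _ h3 with h4 | h4
    · left
      exact congrArg Subtype.val h4
    · right
      exact congrArg Subtype.val h4
  · intro x hx hc
    have h3 : (⟨x, hx⟩ : Q) ∈ Subgroup.center Q := by
      rw [Subgroup.mem_center_iff]
      intro y
      apply Subtype.ext
      exact (hc y.1 y.2).symm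
    rcases hcen _ h3 with h4 | h4
    · left
      exact congrArg Subtype.val h4
    · right
      exact congrArg Subtype.val h4
  · intro x hx
    have := (Subgroup.mem_center_iff.mp a.2) ⟨x, hx⟩
    exact congrArg Subtype.val this
  · intro x hx
    have h3 : (⟨x, hx⟩ : Q) ^ 2 ∈ Subgroup.center Q := by
      rw [← hfr]
      exact Cfsg.Agent.Lib.H6PGroup.pow_mem_frattini h2 _
    rw [pow_two] at h3
    rcases hcen _ h3 with h4 | h4
    · left
      exact congrArg Subtype.val h4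
    · right
      exact congrArg Subtype.val h4
  · intro x
    constructor
    · rintro ⟨w, hw, rfl⟩
      rcases hcen w hw with h4 | h4
      · left
        rw [h4]
        rfl
      · right
        rw [h4]
        rfl
    · rintro (rfl | rfl)
      · exact Subgroup.one_mem _
      · exact ⟨a.1, a.2, rfl⟩

/-- The key lemma: a conjugate of the central involution in `Q` forces the symmetric relation. -/
theorem core {Q Q' : Subgroup G} {z z' g : G} (hQ : ES Q z) (hQ' : ES Q' z')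
    (hmem : ∀ x, x ∈ Q' ↔ g⁻¹ * x * g ∈ Q) (hg : g * z * g⁻¹ = z') (hz'Q : z' ∈ Q) (hne : z' ≠ z)
    (N1 : ∀ x, x * z = z * x → ∀ a ∈ Q, x * a * x⁻¹ ∈ Q)
    (N2 : ∀ x, x * z' = z' * x → ∀ a ∈ Q', x * a * x⁻¹ ∈ Q')
    (CQ' : ∀ x, (∀ a ∈ Q', a * x = x * a) → x = 1 ∨ x = z')
    {r r' : G} (hr : r ∈ Q) (hr' : r' ∈ Q) (hrz : r * z' = z' * r) (hr'z : r' * z' = z' * r')
    (hrr : B r r' = z) : z ∈ Q' := by
  by_contra hzQ'
  have hzz' : z * z' = z' * z := (hQ.zcen z' hz'Q).symm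
  have hz'1 : z' ≠ 1 := hQ'.ne_one
  have hz1 : z ≠ 1 := hQ.ne_one
  have hzinv : z⁻¹ = z := inv_z hQ
  have hz'inv : z'⁻¹ = z' := inv_z hQ'
  have hz'Q' : z' ∈ Q' := hQ'.mem
  -- the swap element
  obtain ⟨y, hyQ, hy⟩ : ∃ y ∈ Q, B y z' = z := by
    by_contra hcon
    push Not at hcon
    have hc : ∀ b ∈ Q, z' * b = b * z' := by
      intro b hb
      rcases hQ.comm b hb z' hz'Q with h1 | h1
      · exact (B_eq_one_iff.mp h1).symm
      · exact absurd h1 (hcon b hb)
    rcases hQ.cen z' hz'Q hc with h | h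
    · exact hz'1 h
    · exact hne h
  have hyconj : y * z' * y⁻¹ = z * z' := by
    unfold B at hy
    exact mul_inv_eq_iff_eq_mul.mp hy
  have hcy : Commute y z := hQ.zcen y hyQ
  have hyinv : y⁻¹ * z' * y = z * z' := by
    have h1 : y⁻¹ * (z * z') * y = z' := by rw [← hyconj]; group
    have h2 : y⁻¹ * (z * z') * y = z * (y⁻¹ * z' * y) := by
      have h3 : y⁻¹ * z = z * y⁻¹ := hcy.inv_left.eq
      calc y⁻¹ * (z * z') * y = (y⁻¹ * z) * z' * y := by group
        _ = (z * y⁻¹) * z' * y := by rw [h3]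
        _ = _ := by group
    rw [h2] at h1
    have h4 := eq_inv_mul_of_mul_eq h1
    rw [h4, hzinv]
  -- no element of Q' moves z to z z'
  have hd : ∀ k ∈ Q', k * z * k⁻¹ = z * z' → False := by
    intro k hk hkz
    set u := g⁻¹ * y⁻¹ * k with hu
    have hgz' : g⁻¹ * z' * g = z := by rw [← hg]; group
    have huz : u * z = z * u := by
      have h1 : u * z * u⁻¹ = z := by
        calc u * z * u⁻¹ = g⁻¹ * (y⁻¹ * (k * z * k⁻¹) * y) * g := by rw [hu]; group
          _ = g⁻¹ * (y⁻¹ * (z * z') * y) * g := by rw [hkz]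
          _ = g⁻¹ * z' * g := by
              have h1 : y⁻¹ * (z * z') * y = z' := by rw [← hyconj]; group
              rw [h1]
          _ = z := hgz'
      have h2 := mul_inv_eq_iff_eq_mul.mp h1
      exact h2
    have h1 := N1 u huz z' hz'Q
    have hkz' : k * z' = z' * k := hQ'.zcen k hk
    have h2 : u * z' * u⁻¹ = g⁻¹ * (y⁻¹ * z' * y) * g := by
      have h3 : k * z' * k⁻¹ = z' := by rw [hkz']; group
      calc u * z' * u⁻¹ = g⁻¹ * (y⁻¹ * (k * z' * k⁻¹) * y) * g := by rw [hu]; group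
        _ = _ := by rw [h3]
    rw [h2] at h1
    have h3 := (hmem _).mpr h1
    rw [hyinv] at h3
    apply hzQ'
    have h4 : z = (z * z') * z'⁻¹ := by group
    rw [h4]
    exact Q'.mul_mem h3 (Q'.inv_mem hz'Q')
  have hd' : ∀ k ∈ Q', (B k z = 1 ∨ B k z = z') → k * z = z * k := by
    intro k hk h
    rcases h with h | h
    · exact B_eq_one_iff.mp h
    · exfalso
      apply hd k hk
      have h1 : k * z * k⁻¹ * z⁻¹ = z' := h
      have h2 := mul_inv_eq_iff_eq_mul.mp h1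
      rw [h2, hzz']
  have hzN : ∀ a ∈ Q', z * a * z⁻¹ ∈ Q' := N2 z hzz'
  -- elements of Q split over the stabilizer of z'
  have hsplit : ∀ q ∈ Q, q * z' = z' * q ∨ (y⁻¹ * q) * z' = z' * (y⁻¹ * q) := by
    intro q hq
    rcases hQ.comm q hq z' hz'Q with h1 | h1
    · exact Or.inl (B_eq_one_iff.mp h1)
    · right
      apply B_eq_one_iff.mp
      rw [B_mul_left hQ (Q.inv_mem hyQ) hq hz'Q, B_inv_left hQ hyQ hz'Q, hy, h1, hzinv, hQ.sq]
  -- Q ∩ Q'
  have hinter : ∀ x ∈ Q, x ∈ Q' → x = 1 ∨ x = z' := by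
    intro x hxQ hxQ'
    have hxz' : x * z' = z' * x := hQ'.zcen x hxQ'
    have h0 : ∀ q ∈ Q, q * z' = z' * q → B x q = 1 := by
      intro q hq hqz
      rcases hQ.comm x hxQ q hq with h1 | h1
      · exact h1
      · exfalso
        apply hzQ'
        rw [← h1]
        have : B x q = x * (q * x⁻¹ * q⁻¹) := by unfold B; group
        rw [this]
        exact Q'.mul_mem hxQ' (N2 q hqz _ (Q'.inv_mem hxQ'))
    by_cases hxy : B x y = 1
    · have hc : ∀ b ∈ Q, x * b = b * x := by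
        intro q hq
        apply B_eq_one_iff.mp
        rcases hsplit q hq with h1 | h1
        · exact h0 q hq h1
        · have h2 := h0 _ (Q.mul_mem (Q.inv_mem hyQ) hq) h1
          have h3 : q = y * (y⁻¹ * q) := by group
          rw [h3, B_mul_right hQ hxQ hyQ (Q.mul_mem (Q.inv_mem hyQ) hq), hxy, h2, one_mul]
      rcases hQ.cen x hxQ hc with h1 | h1
      · exact Or.inl h1
      · exfalso
        exact hzQ' (h1 ▸ hxQ')
    · have hxyz : B x y = z := (hQ.comm x hxQ y hyQ).resolve_left hxy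
      have hc : ∀ b ∈ Q, (x * z') * b = b * (x * z') := by
        intro q hq
        apply B_eq_one_iff.mp
        have hxz'Q : x * z' ∈ Q := Q.mul_mem hxQ hz'Q
        have hzq0 : ∀ q₀ ∈ Q, q₀ * z' = z' * q₀ → B (x * z') q₀ = 1 := by
          intro q₀ hq₀ hq₀z
          rw [B_mul_left hQ hxQ hz'Q hq₀, h0 q₀ hq₀ hq₀z, one_mul]
          exact B_eq_one_iff.mpr hq₀z.symm
        have hzy : B (x * z') y = 1 := by
          rw [B_mul_left hQ hxQ hz'Q hyQ, hxyz, B_swap y z', hy, hzinv, hQ.sq]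
        rcases hsplit q hq with h1 | h1
        · exact hzq0 q hq h1
        · have h2 := hzq0 _ (Q.mul_mem (Q.inv_mem hyQ) hq) h1
          have h3 : q = y * (y⁻¹ * q) := by group
          rw [h3, B_mul_right hQ hxz'Q hyQ (Q.mul_mem (Q.inv_mem hyQ) hq), hzy, h2, one_mul]
      rcases hQ.cen _ (Q.mul_mem hxQ hz'Q) hc with h1 | h1
      · right
        have h2 := eq_inv_of_mul_eq_one_left h1
        rw [h2, hz'inv]
      · exfalso
        apply hzQ'
        rw [← h1]
        exact Q'.mul_mem hxQ' hz'Q'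
  -- W centralizes C modulo z'
  have hc' : ∀ r₀ ∈ Q, r₀ * z' = z' * r₀ → ∀ c ∈ Q', c * z = z * c → B r₀ c = 1 ∨ B r₀ c = z' := by
    intro r₀ hr₀ hr₀z c hc hcz
    apply hinter
    · have : B r₀ c = r₀ * (c * r₀⁻¹ * c⁻¹) := by unfold B; group
      rw [this]
      exact Q.mul_mem hr₀ (N1 c hcz _ (Q.inv_mem hr₀))
    · have : B r₀ c = (r₀ * c * r₀⁻¹) * c⁻¹ := rfl
      rw [this]
      exact Q'.mul_mem (N2 r₀ hr₀z c hc) (Q'.inv_mem hc)
  -- the set {1, z'} is central in Q' and closed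
  have hzcomm : z * z' = z' * z := hzz'
  -- E ≤ C
  have hEC : ∀ e ∈ Q', (∀ c ∈ Q', c * z = z * c → e * c = c * e) → e * z = z * e := by
    intro e he hc
    apply hd' e he
    have hb : B e z ∈ Q' := by
      have : B e z = e * (z * e⁻¹ * z⁻¹) := by unfold B; group
      rw [this]
      exact Q'.mul_mem he (hzN _ (Q'.inv_mem he))
    apply hQ'.cen _ hb
    intro u hu
    apply B_eq_one_iff.mp
    set ubar := z * u * z⁻¹ with hubar
    have hubarQ : ubar ∈ Q' := hzN u hu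
    set a := u * ubar⁻¹ with ha
    have haQ : a ∈ Q' := Q'.mul_mem hu (Q'.inv_mem hubarQ)
    have hzsq : z * z = 1 := hQ.sq
    have hzu : z * ubar * z⁻¹ = u := by
      rw [hubar, hzinv]
      calc z * (z * u * z) * z = (z * z) * u * (z * z) := by group
        _ = u := by rw [hzsq]; group
    have haz : a * z = z * a := by
      apply hd' a haQ
      have h1 : z * a * z⁻¹ = a⁻¹ := by
        rw [ha]
        calc z * (u * ubar⁻¹) * z⁻¹ = (z * u * z⁻¹) * (z * ubar * z⁻¹)⁻¹ := by group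
          _ = ubar * u⁻¹ := by rw [hzu]
          _ = _ := by group
      have h2 : B a z = a * a := by
        have : B a z = a * (z * a⁻¹ * z⁻¹) := by unfold B; group
        rw [this]
        have h3 : z * a⁻¹ * z⁻¹ = (z * a * z⁻¹)⁻¹ := by group
        rw [h3, h1, inv_inv]
      rw [h2]
      exact hQ'.pow2 a haQ
    have hea := B_eq_one_iff.mpr (hc a haQ haz)
    rw [ha, B_mul_right hQ' he hu (Q'.inv_mem hubarQ), B_inv_right hQ' he hubarQ] at hea
    -- B (B e z) u
    have hebar : z * e * z⁻¹ ∈ Q' := hzN e he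
    have h1 : B e z = e * (z * e * z⁻¹)⁻¹ := by unfold B; group
    rw [h1, B_mul_left hQ' he (Q'.inv_mem hebar) hu, B_inv_left hQ' hebar hu]
    have h2 : B (z * e * z⁻¹) u = B e ubar := by
      have h3 := B_conj z e ubar
      rw [hzu] at h3
      rw [← h3]
      rcases hQ'.comm e he ubar hubarQ with h4 | h4
      · rw [h4]; group
      · rw [h4, hzz']; group
    rw [h2]
    exact hea
  -- the commutators with W lie in C
  have hψ : ∀ r₀ ∈ Q, r₀ * z' = z' * r₀ → ∀ k ∈ Q', (r₀ * k * r₀⁻¹ * k⁻¹) * z = z * (r₀ * k * r₀⁻¹ * k⁻¹) := by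
    intro r₀ hr₀ hr₀z k hk
    have hrk : r₀ * k * r₀⁻¹ ∈ Q' := N2 r₀ hr₀z k hk
    apply hEC _ (Q'.mul_mem hrk (Q'.inv_mem hk))
    intro c hc hcz
    apply B_eq_one_iff.mp
    rw [B_mul_left hQ' hrk (Q'.inv_mem hk) hc, B_inv_left hQ' hk hc]
    have h1 : B (r₀ * k * r₀⁻¹) c = B k c := by
      have h2 : r₀ * c * r₀⁻¹ = B r₀ c * c := by unfold B; group
      have hζ : B r₀ c ∈ Q' := by
        rcases hc' r₀ hr₀ hr₀z c hc hcz with h3 | h3
        · rw [h3]; exact Q'.one_mem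
        · rw [h3]; exact hz'Q'
      have h4 : B (r₀ * k * r₀⁻¹) (B r₀ c) = 1 := by
        apply B_eq_one_iff.mpr
        rcases hc' r₀ hr₀ hr₀z c hc hcz with h3 | h3
        · rw [h3]; group
        · rw [h3]; exact hQ'.zcen _ hrk
      have h5 := B_conj r₀ k c
      rw [h2, B_mul_right hQ' hrk hζ hc, h4, one_mul] at h5
      rw [← h5]
      rcases hQ'.comm k hk c hc with h3 | h3
      · rw [h3]; group
      · rw [h3, hr₀z]; group
    rw [h1]
    group
  -- z acts trivially modulo z'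
  have hv : ∀ v ∈ Q', v * z = z * v := by
    intro v hv
    apply hd' v hv
    have hr'r : (r' * r) * z' = z' * (r' * r) := by
      calc (r' * r) * z' = r' * (r * z') := by group
        _ = r' * (z' * r) := by rw [hrz]
        _ = (r' * z') * r := by group
        _ = (z' * r') * r := by rw [hr'z]
        _ = _ := by group
    have hinvr : (r' * r)⁻¹ * z' = z' * (r' * r)⁻¹ := by
      have : Commute (r' * r) z' := hr'r
      exact this.inv_left.eq
    set k := (r' * r)⁻¹ * v * (r' * r) with hk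
    have hkQ : k ∈ Q' := by
      have := N2 _ hinvr v hv
      simpa [hk] using this
    set ψ := r * k * r⁻¹ * k⁻¹ with hψdef
    set ψ' := r' * k * r'⁻¹ * k⁻¹ with hψ'def
    have hrk : r * k * r⁻¹ ∈ Q' := N2 r hrz k hkQ
    have hr'k : r' * k * r'⁻¹ ∈ Q' := N2 r' hr'z k hkQ
    have hψQ : ψ ∈ Q' := Q'.mul_mem hrk (Q'.inv_mem hkQ)
    have hψ'Q : ψ' ∈ Q' := Q'.mul_mem hr'k (Q'.inv_mem hkQ)
    have hψz : ψ * z = z * ψ := hψ r hr hrz k hkQ
    have hψ'z : ψ' * z = z * ψ' := hψ r' hr' hr'z k hkQ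
    have h1 := hc' r' hr' hr'z ψ hψQ hψz
    have h2 := hc' r hr hrz ψ' hψ'Q hψ'z
    have h3 := hQ'.comm ψ' hψ'Q ψ hψQ
    have hv1 : v = B r' ψ * (ψ * ψ') * k := by
      have e1 : r' * r * k * r⁻¹ * r'⁻¹ = v := by rw [hk]; group
      rw [← e1, hψdef, hψ'def]
      unfold B
      group
    have hrr' : r * r' = z * (r' * r) := by
      have : B r r' = r * r' * r⁻¹ * r'⁻¹ := rfl
      rw [this] at hrr
      calc r * r' = (r * r' * r⁻¹ * r'⁻¹) * (r' * r) := by group
        _ = _ := by rw [hrr]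
    have hv2 : z * v * z⁻¹ = B r ψ' * (ψ' * ψ) * k := by
      have e1 : z * v * z⁻¹ = (z * (r' * r)) * k * (z * (r' * r))⁻¹ := by rw [hk]; group
      rw [e1, ← hrr', hψdef, hψ'def]
      unfold B
      group
    have hvinv : v⁻¹ = (B r' ψ * (ψ * ψ') * k)⁻¹ := by rw [← hv1]
    have key : B z v = B r ψ' * B ψ' ψ * (B r' ψ)⁻¹ := by
      have e2 : B z v = (z * v * z⁻¹) * v⁻¹ := rfl
      rw [e2, hv2, hvinv]
      have e3 : B r ψ' * (ψ' * ψ) * k * (B r' ψ * (ψ * ψ') * k)⁻¹ =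
          B r ψ' * B ψ' ψ * (ψ * ψ') * (ψ * ψ')⁻¹ * (B r' ψ)⁻¹ := by
        unfold B
        group
      rw [e3]
      group
    have hres : B z v = 1 ∨ B z v = z' := by
      rw [key]
      rcases h1 with h1 | h1 <;> rcases h2 with h2 | h2 <;> rcases h3 with h3 | h3 <;> rw [h1, h2, h3] <;>
        simp [hQ'.sq, hz'inv]
    rw [B_swap z v]
    rcases hres with h | h
    · left; rw [h]; group
    · right; rw [h, hz'inv]
  rcases CQ' z hv with h | h
  · exact hz1 h
  · exact hne h.symm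

/-- A non-central element is moved by some element of `Q`. -/
theorem exists_swap {Q : Subgroup G} {z a : G} (hQ : ES Q z) (ha : a ∈ Q) (ha1 : a ≠ 1) (haz : a ≠ z) :
    ∃ y ∈ Q, B y a = z := by
  by_contra hcon
  push Not at hcon
  have hc : ∀ b ∈ Q, a * b = b * a := by
    intro b hb
    rcases hQ.comm b hb a ha with h1 | h1
    · exact (B_eq_one_iff.mp h1).symm
    · exact absurd h1 (hcon b hb)
  rcases hQ.cen a ha hc with h | h
  · exact ha1 h
  · exact haz h

theorem swap_conj {Q : Subgroup G} {z a y : G} (hQ : ES Q z) (hy : y ∈ Q) (h : B y a = z) :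
    y * a * y⁻¹ = z * a := by
  unfold B at h
  exact mul_inv_eq_iff_eq_mul.mp h

theorem swap_conj_inv {Q : Subgroup G} {z a y : G} (hQ : ES Q z) (hy : y ∈ Q) (h : B y a = z) :
    y⁻¹ * a * y = z * a := by
  have hyconj := swap_conj hQ hy h
  have hcy : Commute y z := hQ.zcen y hy
  have h1 : y⁻¹ * (z * a) * y = a := by rw [← hyconj]; group
  have h2 : y⁻¹ * (z * a) * y = z * (y⁻¹ * a * y) := by
    have h3 : y⁻¹ * z = z * y⁻¹ := hcy.inv_left.eq
    calc y⁻¹ * (z * a) * y = (y⁻¹ * z) * a * y := by group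
      _ = (z * y⁻¹) * a * y := by rw [h3]
      _ = _ := by group
  rw [h2] at h1
  have h4 := eq_inv_mul_of_mul_eq h1
  rw [h4, inv_z hQ]

/-- Products of two elementwise commuting subgroups. -/
theorem mem_sup_of_comm {A C : Subgroup G} (hAC : ∀ a ∈ A, ∀ c ∈ C, a * c = c * a) {x : G} (hx : x ∈ A ⊔ C) :
    ∃ a ∈ A, ∃ c ∈ C, x = a * c := by
  let H : Subgroup G :=
    { carrier := {x | ∃ a ∈ A, ∃ c ∈ C, x = a * c}
      mul_mem' := by
        rintro _ _ ⟨a, ha, c, hc, rfl⟩ ⟨a', ha', c', hc', rfl⟩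
        refine ⟨a * a', A.mul_mem ha ha', c * c', C.mul_mem hc hc', ?_⟩
        calc a * c * (a' * c') = a * (c * a') * c' := by group
          _ = a * (a' * c) * c' := by rw [hAC a' ha' c hc]
          _ = _ := by group
      one_mem' := ⟨1, A.one_mem, 1, C.one_mem, by simp⟩
      inv_mem' := by
        rintro _ ⟨a, ha, c, hc, rfl⟩
        refine ⟨a⁻¹, A.inv_mem ha, c⁻¹, C.inv_mem hc, ?_⟩
        rw [mul_inv_rev]
        exact ((Commute.inv_inv (hAC a ha c hc : Commute a c)).eq).symm }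
  have hle : A ⊔ C ≤ H := sup_le (fun a ha => ⟨a, ha, 1, C.one_mem, by simp⟩)
    (fun c hc => ⟨1, A.one_mem, c, hc, by simp⟩)
  exact hle hx

end Cfsg.Agent.Lib.LargeExtra
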