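import Mathlib
import Cfsg.Prelude
import Cfsg.Agent.Lib.FitCore
import Cfsg.Agent.Lib.CoprimeGen
import Cfsg.Agent.Lib.LargeExtra

/-! Best offenders in a faithful group with self-centralizing `p'`-core: the product
`|A| |C_V(A)|` never exceeds `|V|`, and best offenders split as products of order `p` ones. -/

set_option autoImplicit false
set_option linter.all false

namespace Cfsg.Agent.Lib.BestOff

open Subgroup
open Cfsg.Agent.Lib.CoprimeGen (conjHom conjHom_apply exists_fixed_abstract gen_all)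
open scoped commutatorElement

section Abstract

variable {W Γ : Type*} [CommGroup W] [Finite W] [Group Γ] [Finite Γ] {p : ℕ} [Fact p.Prime]

/-- averaging: a `p'`-group normalized by a `p`-group, the fixed points of the latter being fixed by the former. -/
theorem avg_abstract (ρ : Γ →* MulAut W) (hWp : ∀ w : W, w ^ p = 1) (T A : Subgroup Γ)
    (hT : ¬ p ∣ Nat.card T) (hA : IsPGroup p A) (hAT : ∀ a ∈ A, ∀ t ∈ T, a * t * a⁻¹ ∈ T)
    (hfix : ∀ w : W, (∀ a ∈ A, ρ a w = w) → ∀ t ∈ T, ρ t w = w) :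
    ∀ t ∈ T, ∀ w : W, ρ t w = w := by
  classical
  haveI : Fintype T := Fintype.ofFinite _
  let π : W →* W := ∏ t : T, (ρ t.1).toMonoidHom
  have hπ : ∀ w, π w = ∏ t : T, ρ t.1 w := by
    intro w
    show (∏ t : T, (ρ t.1).toMonoidHom) w = _
    rw [MonoidHom.finset_prod_apply]
    rfl
  have h1 : ∀ t₀ ∈ T, ∀ w, ρ t₀ (π w) = π w := by
    intro t₀ ht₀ w
    rw [hπ, map_prod]
    refine Fintype.prod_equiv (Equiv.mulLeft (⟨t₀, ht₀⟩ : T)) _ _ ?_
    intro t
    show ρ t₀ (ρ t.1 w) = ρ (t₀ * t.1) w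
    rw [map_mul]
    rfl
  have h2 : ∀ a ∈ A, ∀ w, ρ a (π w) = π (ρ a w) := by
    intro a ha w
    rw [hπ, hπ, map_prod]
    let e : T ≃ T :=
      { toFun := fun t => ⟨a * t.1 * a⁻¹, hAT a ha t.1 t.2⟩
        invFun := fun t => ⟨a⁻¹ * t.1 * a, by
          have := hAT a⁻¹ (A.inv_mem ha) t.1 t.2
          simpa using this⟩
        left_inv := fun t => Subtype.ext (by
          show a⁻¹ * (a * t.1 * a⁻¹) * a = t.1
          group)
        right_inv := fun t => Subtype.ext (by
          show a * (a⁻¹ * t.1 * a) * a⁻¹ = t.1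
          group) }
    refine Fintype.prod_equiv e _ _ ?_
    intro t
    show ρ a (ρ t.1 w) = ρ (a * t.1 * a⁻¹) (ρ a w)
    rw [map_mul, map_mul, map_inv]
    show ρ a (ρ t.1 w) = ρ a (ρ t.1 ((ρ a)⁻¹ (ρ a w)))
    simp
  have h3 : ∀ z : W, (∀ t ∈ T, ρ t z = z) → π z = z ^ Nat.card T := by
    intro z hz
    rw [hπ, Nat.card_eq_fintype_card]
    rw [Finset.prod_congr rfl (fun t _ => hz t.1 t.2)]
    simp
  have h4 : ∀ z : W, z ^ Nat.card T = 1 → z = 1 := by
    intro z hz
    have hp : p.Prime := Fact.out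
    have hc : Nat.Coprime (Nat.card T) p := (Nat.Prime.coprime_iff_not_dvd hp).2 hT |>.symm
    have hd1 : orderOf z ∣ Nat.card T := orderOf_dvd_of_pow_eq_one hz
    have hd2 : orderOf z ∣ p := orderOf_dvd_of_pow_eq_one (hWp z)
    exact orderOf_eq_one_iff.1 (Nat.Coprime.eq_one_of_dvd (hc.coprime_dvd_left hd1 |>.coprime_dvd_right hd2 |> fun h => h) (dvd_refl _) |> fun h => h)
  have hinj : Function.Injective π := by
    rw [injective_iff_map_eq_one]
    intro w hw
    by_contra hw1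
    -- the kernel is nontrivial
    let R : Subgroup W := π.ker
    have hR : ∀ r, r ∈ R ↔ π r = 1 := fun r => MonoidHom.mem_ker
    let S : Set W := {r | r ∈ R ∧ r ≠ 1}
    have hS : ∀ a ∈ A, ∀ s ∈ S, ρ a s ∈ S := by
      rintro a ha s ⟨hs1, hs2⟩
      refine ⟨?_, ?_⟩
      · rw [hR, ← h2 a ha, (hR s).1 hs1, map_one]
      · intro e
        apply hs2
        have := (map_eq_one_iff (ρ a) (MulEquiv.injective _)).1 e
        exact this
    have hcard : Nat.card S + 1 = Nat.card R := by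
      classical
      haveI : Fintype W := Fintype.ofFinite _
      have e1 : Nat.card R = Nat.card {r : W // r ∈ R} := rfl
      rw [e1]
      have e2 : Nat.card S = Nat.card {r : {r : W // r ∈ R} // r ≠ 1} := by
        apply Nat.card_congr
        exact { toFun := fun s => ⟨⟨s.1, s.2.1⟩, fun h => s.2.2 (congrArg Subtype.val h)⟩
                invFun := fun s => ⟨s.1.1, s.1.2, fun h => s.2 (Subtype.ext h)⟩
                left_inv := fun s => rfl
                right_inv := fun s => rfl }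
      rw [e2]
      haveI : Fintype {r : W // r ∈ R} := Fintype.ofFinite _
      haveI : Fintype {r : {r : W // r ∈ R} // r ≠ 1} := Fintype.ofFinite _
      simp only [Nat.card_eq_fintype_card]
      have e3 := Fintype.card_subtype_compl (fun r : {r : W // r ∈ R} => r = 1)
      have e4 : Fintype.card {r : {r : W // r ∈ R} // r = 1} = 1 := Fintype.card_subtype_eq _
      have e5 : 1 ≤ Fintype.card {r : W // r ∈ R} := Fintype.card_pos
      have e6 : Fintype.card {r : {r : W // r ∈ R} // r ≠ 1} =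
          Fintype.card {r : W // r ∈ R} - 1 := by
        rw [← e4]
        convert e3 using 1
      omega
    have hRp : IsPGroup p R := by
      intro r
      exact ⟨1, Subtype.ext (by simpa using hWp r.1)⟩
    obtain ⟨k, hk⟩ := IsPGroup.iff_card.1 hRp
    have hk0 : k ≠ 0 := by
      intro e
      rw [e, pow_zero] at hk
      have : (⟨w, (hR w).2 hw⟩ : R) = 1 := by
        haveI : Subsingleton R := (Nat.card_eq_one_iff_unique.1 hk).1
        exact Subsingleton.elim _ _
      exact hw1 (congrArg Subtype.val this)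
    have hc : ¬ p ∣ Nat.card S := by
      intro hd
      have hd2 : p ∣ Nat.card R := by
        rw [hk]
        exact dvd_pow_self p hk0
      rw [← hcard] at hd2
      have := (Nat.dvd_add_right hd).1 hd2
      exact (Nat.Prime.one_lt Fact.out).ne' (Nat.dvd_one.1 this)
    obtain ⟨s, ⟨hs1, hs2⟩, hsfix⟩ := exists_fixed_abstract ρ hA S hS hc
    have hz := hfix s hsfix
    have h5 := h3 s hz
    rw [(hR s).1 hs1] at h5
    exact hs2 (h4 s h5.symm)
  have hsurj : Function.Surjective π := Finite.injective_iff_surjective.1 hinj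
  intro t ht w
  obtain ⟨w', rfl⟩ := hsurj w
  exact h1 t ht w'

end Abstract

variable {G : Type*} [Group G] [Finite G] {p : ℕ} [Fact p.Prime]

/-- `|B| |C_V(B)|` -/
noncomputable def dl (V B : Subgroup G) : ℕ :=
  Nat.card B * Nat.card ↥(V ⊓ centralizer (B : Set G))

theorem dl_bot (V : Subgroup G) : dl V ⊥ = Nat.card V := by
  unfold dl
  have h : V ⊓ centralizer (((⊥ : Subgroup G) : Subgroup G) : Set G) = V := by
    rw [inf_eq_left, Subgroup.coe_bot, Subgroup.centralizer_eq_top_iff_subset.2]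
    · exact le_top
    · simp
  rw [h]
  simp

theorem dl_pos (V B : Subgroup G) : 0 < dl V B :=
  Nat.mul_pos Nat.card_pos Nat.card_pos

/-- the general order inequality for two subgroups. -/
theorem card_mul_card_le (H K : Subgroup G) :
    Nat.card H * Nat.card K ≤ Nat.card ↥(H ⊓ K) * Nat.card ↥(H ⊔ K) := by
  have h1 := Subgroup.relIndex_mul_relIndex (⊥ : Subgroup G) (H ⊓ K) K bot_le inf_le_right
  have h2 := Subgroup.relIndex_mul_relIndex (⊥ : Subgroup G) H (H ⊔ K) bot_le le_sup_left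
  rw [Subgroup.relIndex_bot_left, Subgroup.relIndex_bot_left, Subgroup.inf_relIndex_right] at h1
  rw [Subgroup.relIndex_bot_left, Subgroup.relIndex_bot_left] at h2
  have h3 : H.relIndex K ≤ H.relIndex (H ⊔ K) :=
    Subgroup.relIndex_le_of_le_right le_sup_right Subgroup.index_ne_zero_of_finite
  calc Nat.card H * Nat.card K = Nat.card H * (Nat.card ↥(H ⊓ K) * H.relIndex K) := by rw [h1]
    _ ≤ Nat.card H * (Nat.card ↥(H ⊓ K) * H.relIndex (H ⊔ K)) := by gcongr
    _ = Nat.card ↥(H ⊓ K) * (Nat.card H * H.relIndex (H ⊔ K)) := by ring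
    _ = _ := by rw [h2]

theorem mem_cent_sup {M₁ M₂ : Subgroup G} {x : G} (h1 : x ∈ centralizer (M₁ : Set G))
    (h2 : x ∈ centralizer (M₂ : Set G)) : x ∈ centralizer ((M₁ ⊔ M₂ : Subgroup G) : Set G) := by
  have h : M₁ ⊔ M₂ ≤ centralizer ({x} : Set G) := by
    apply sup_le
    · intro m hm
      rw [mem_centralizer_singleton_iff]
      exact (mem_centralizer_iff.1 h1 m hm)
    · intro m hm
      rw [mem_centralizer_singleton_iff]
      exact (mem_centralizer_iff.1 h2 m hm)
  rw [mem_centralizer_iff]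
  intro m hm
  have := h hm
  rw [mem_centralizer_singleton_iff] at this
  exact this

theorem cent_anti {M₁ M₂ : Subgroup G} (h : M₁ ≤ M₂) {x : G} (hx : x ∈ centralizer (M₂ : Set G)) :
    x ∈ centralizer (M₁ : Set G) :=
  mem_centralizer_iff.2 fun m hm => mem_centralizer_iff.1 hx m (h hm)

/-- supermodularity -/
theorem dl_super (V M₁ M₂ : Subgroup G) : dl V M₁ * dl V M₂ ≤ dl V (M₁ ⊓ M₂) * dl V (M₁ ⊔ M₂) := by
  unfold dl
  set C₁ := V ⊓ centralizer (M₁ : Set G)
  set C₂ := V ⊓ centralizer (M₂ : Set G)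
  have h1 := card_mul_card_le M₁ M₂
  have h2 := card_mul_card_le C₁ C₂
  have h3 : Nat.card ↥(C₁ ⊔ C₂) ≤ Nat.card ↥(V ⊓ centralizer ((M₁ ⊓ M₂ : Subgroup G) : Set G)) := by
    apply Subgroup.card_le_of_le
    apply sup_le
    · exact inf_le_inf_left _ (fun x hx => cent_anti inf_le_left hx)
    · exact inf_le_inf_left _ (fun x hx => cent_anti inf_le_right hx)
  have h4 : Nat.card ↥(C₁ ⊓ C₂) ≤ Nat.card ↥(V ⊓ centralizer ((M₁ ⊔ M₂ : Subgroup G) : Set G)) := by
    apply Subgroup.card_le_of_le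
    rintro x ⟨⟨hx1, hx2⟩, ⟨hx3, hx4⟩⟩
    exact ⟨hx1, mem_cent_sup hx2 hx4⟩
  calc Nat.card M₁ * Nat.card C₁ * (Nat.card M₂ * Nat.card C₂)
      = (Nat.card M₁ * Nat.card M₂) * (Nat.card C₁ * Nat.card C₂) := by ring
    _ ≤ (Nat.card ↥(M₁ ⊓ M₂) * Nat.card ↥(M₁ ⊔ M₂)) * (Nat.card ↥(C₁ ⊓ C₂) * Nat.card ↥(C₁ ⊔ C₂)) :=
        Nat.mul_le_mul h1 (by rw [mul_comm (Nat.card ↥(C₁ ⊓ C₂))]; rw [mul_comm (Nat.card ↥(C₁ ⊔ C₂))]; exact h2)
    _ ≤ (Nat.card ↥(M₁ ⊓ M₂) * Nat.card ↥(M₁ ⊔ M₂)) *
        (Nat.card ↥(V ⊓ centralizer ((M₁ ⊔ M₂ : Subgroup G) : Set G)) *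
          Nat.card ↥(V ⊓ centralizer ((M₁ ⊓ M₂ : Subgroup G) : Set G))) := by
        gcongr
    _ = _ := by ring

/-- The hypotheses in elementwise form. -/
structure Setup (p : ℕ) (V H K : Subgroup G) : Prop where
  hVc : ∀ u ∈ V, ∀ v ∈ V, u * v = v * u
  hVp : ∀ v ∈ V, v ^ p = 1
  hHV : ∀ h ∈ H, ∀ v ∈ V, h * v * h⁻¹ ∈ V
  hf : H ⊓ centralizer (V : Set G) = ⊥
  hKH : K ≤ H
  hKn : ∀ h ∈ H, ∀ y ∈ K, h * y * h⁻¹ ∈ K
  hKp : ¬ p ∣ Nat.card K
  hcen : ∀ h ∈ H, (∀ y ∈ K, h * y = y * h) → h ∈ K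

/-- Elementary abelian subgroups of `H`. -/
structure El (p : ℕ) (H A : Subgroup G) : Prop where
  le : A ≤ H
  comm : ∀ a ∈ A, ∀ b ∈ A, a * b = b * a
  exp : ∀ a ∈ A, a ^ p = 1

theorem El.mono {H A B : Subgroup G} (h : El p H A) (hB : B ≤ A) : El p H B :=
  ⟨hB.trans h.le, fun a ha b hb => h.comm a (hB ha) b (hB hb), fun a ha => h.exp a (hB ha)⟩

theorem El.isPGroup {H A : Subgroup G} (h : El p H A) : IsPGroup p A := by
  intro g
  exact ⟨1, by rw [pow_one]; exact Subtype.ext (h.exp g g.2)⟩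

section S

variable {V H K : Subgroup G} (hS : Setup p V H K)
include hS

theorem Setup.isPGroup_of_le {R : Subgroup G} (hR : R ≤ V) : IsPGroup p R := by
  intro g
  exact ⟨1, by rw [pow_one]; exact Subtype.ext (hS.hVp g.1 (hR g.2))⟩

theorem Setup.eq_one_of_mem {a : G} (ha : a ∈ H) (hc : a ∈ centralizer (V : Set G)) : a = 1 := by
  have : a ∈ H ⊓ centralizer (V : Set G) := ⟨ha, hc⟩
  rw [hS.hf] at this
  simpa using this

/-- Elements of `K` of order dividing `p` are trivial. -/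
theorem Setup.eq_one_of_K {y : G} (hy : y ∈ K) (hyp : y ^ p = 1) : y = 1 := by
  have hp : p.Prime := Fact.out
  have hd1 : orderOf y ∣ Nat.card K := Subgroup.orderOf_dvd_natCard K hy
  have hd2 : orderOf y ∣ p := orderOf_dvd_of_pow_eq_one hyp
  rcases (Nat.dvd_prime hp).1 hd2 with h | h
  · exact orderOf_eq_one_iff.1 h
  · rw [h] at hd1
    exact absurd hd1 hS.hKp

/-- two subgroups of `V`, one strictly smaller: the order differs by at least `p`. -/
theorem Setup.card_lt {R₁ R₂ : Subgroup G} (h2 : R₂ ≤ V) (hle : R₁ ≤ R₂) (hne : ¬ R₂ ≤ R₁) :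
    p * Nat.card R₁ ≤ Nat.card R₂ := by
  have hp : p.Prime := Fact.out
  have h := Subgroup.relIndex_mul_relIndex (⊥ : Subgroup G) R₁ R₂ bot_le hle
  rw [Subgroup.relIndex_bot_left, Subgroup.relIndex_bot_left] at h
  have h1 : R₁.relIndex R₂ ≠ 1 := fun e => hne (Subgroup.relIndex_eq_one.1 e)
  obtain ⟨k, hk⟩ := IsPGroup.iff_card.1 (hS.isPGroup_of_le (R := R₂) h2)
  have h3 : R₁.relIndex R₂ ∣ p ^ k := by
    rw [← hk, ← h]
    exact Dvd.intro_left _ rfl
  obtain ⟨j, -, hj⟩ := (Nat.dvd_prime_pow hp).1 h3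
  have hj0 : j ≠ 0 := by
    intro e
    rw [e, pow_zero] at hj
    exact h1 hj
  have h4 : p ≤ R₁.relIndex R₂ := by
    rw [hj]
    calc p = p ^ 1 := (pow_one p).symm
      _ ≤ p ^ j := Nat.pow_le_pow_right hp.pos (Nat.one_le_iff_ne_zero.2 hj0)
  calc p * Nat.card R₁ ≤ R₁.relIndex R₂ * Nat.card R₁ := Nat.mul_le_mul_right _ h4
    _ = Nat.card R₂ := by rw [mul_comm]; exact h

/-- If conjugation by `x ∈ K` does not enlarge the fixed points, then `x` centralizes `A`. -/
theorem Setup.key {A : Subgroup G} (hA : El p H A) {x : G} (hx : x ∈ K)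
    (hfix : V ⊓ centralizer ((A.map (MulAut.conj x).toMonoidHom : Subgroup G) : Set G) ≤
      V ⊓ centralizer (A : Set G)) : x ∈ centralizer (A : Set G) := by
  classical
  set D := A.map (MulAut.conj x).toMonoidHom with hD
  have hDmem : ∀ a ∈ A, x * a * x⁻¹ ∈ D := fun a ha => ⟨a, ha, rfl⟩
  have hxH := hS.hKH hx
  have hDH : D ≤ H := by
    rintro _ ⟨a, ha, rfl⟩
    exact H.mul_mem (H.mul_mem hxH (hA.le ha)) (H.inv_mem hxH)
  -- the two fixed point subgroups coincide
  have heq : V ⊓ centralizer (D : Set G) = V ⊓ centralizer (A : Set G) := by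
    apply Subgroup.eq_of_le_of_card_ge hfix
    have hle : (V ⊓ centralizer (A : Set G)).map (MulAut.conj x).toMonoidHom ≤
        V ⊓ centralizer (D : Set G) := by
      rintro _ ⟨v, ⟨hv1, hv2⟩, rfl⟩
      refine ⟨hS.hHV x hxH v hv1, mem_centralizer_iff.2 ?_⟩
      rintro _ ⟨a, ha, rfl⟩
      have := mem_centralizer_iff.1 hv2 a ha
      show x * a * x⁻¹ * (x * v * x⁻¹) = x * v * x⁻¹ * (x * a * x⁻¹)
      calc x * a * x⁻¹ * (x * v * x⁻¹) = x * (a * v) * x⁻¹ := by group
        _ = x * (v * a) * x⁻¹ := by rw [this]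
        _ = _ := by group
    have h1 := Subgroup.card_le_of_le hle
    rwa [Subgroup.card_map_of_injective (MulEquiv.injective _)] at h1
  -- the group `T`
  let T : Subgroup G := K ⊓ (A ⊔ D)
  have hTp : ¬ p ∣ Nat.card T := fun h => hS.hKp (h.trans (Subgroup.card_dvd_of_le inf_le_left))
  letI cg : CommGroup V := { (inferInstance : Group V) with mul_comm := fun a b => Subtype.ext (hS.hVc a.1 a.2 b.1 b.2) }
  have hρ : ∀ a ∈ H, ∀ v ∈ V, a * v * a⁻¹ ∈ V := hS.hHV
  let ρ : H →* MulAut V := Cfsg.Agent.Lib.CoprimeGen.conjHom H V hρ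
  have hTle : T ≤ H := inf_le_left.trans hS.hKH
  have hmain := avg_abstract (W := V) (Γ := H) (p := p) ρ
    (fun w => Subtype.ext (hS.hVp w.1 w.2)) (T.subgroupOf H) (A.subgroupOf H)
    (by
      intro hd
      apply hTp
      have : Nat.card (T.subgroupOf H) = Nat.card T :=
        Nat.card_congr (Subgroup.subgroupOfEquivOfLe hTle).toEquiv
      rwa [this] at hd)
    (by
      have h1 : IsPGroup p A := hA.isPGroup
      have h2 : Nat.card (A.subgroupOf H) = Nat.card A :=
        Nat.card_congr (Subgroup.subgroupOfEquivOfLe hA.le).toEquiv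
      obtain ⟨k, hk⟩ := IsPGroup.iff_card.1 h1
      exact IsPGroup.of_card (n := k) (by rw [h2, hk]))
    (by
      intro a ha t ht
      rw [Subgroup.mem_subgroupOf] at ha ht ⊢
      refine ⟨hS.hKn a.1 a.2 t.1 ht.1, ?_⟩
      have hat : a.1 ∈ A ⊔ D := Subgroup.mem_sup_left ha
      exact (A ⊔ D).mul_mem ((A ⊔ D).mul_mem hat ht.2) ((A ⊔ D).inv_mem hat))
    (by
      intro w hw t ht
      rw [Subgroup.mem_subgroupOf] at ht
      have hwA : w.1 ∈ V ⊓ centralizer (A : Set G) := by
        refine ⟨w.2, mem_centralizer_iff.2 ?_⟩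
        intro a ha
        have h1 := congrArg Subtype.val (hw ⟨a, hA.le ha⟩ (by rwa [Subgroup.mem_subgroupOf]))
        have h2 : a * w.1 * a⁻¹ = w.1 := h1
        calc a * w.1 = (a * w.1 * a⁻¹) * a := by group
          _ = w.1 * a := by rw [h2]
      have hwD : w.1 ∈ V ⊓ centralizer (D : Set G) := heq ▸ hwA
      have hwc := mem_cent_sup hwA.2 hwD.2
      apply Subtype.ext
      show t.1 * w.1 * t.1⁻¹ = w.1
      have := mem_centralizer_iff.1 hwc t.1 ht.2
      rw [this]
      group)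
  -- hence `T` is trivial
  have hT1 : ∀ t ∈ T, t = 1 := by
    intro t ht
    apply hS.eq_one_of_mem (hTle ht)
    rw [mem_centralizer_iff]
    intro v hv
    have h1 := congrArg Subtype.val (hmain ⟨t, hTle ht⟩ (by rwa [Subgroup.mem_subgroupOf]) ⟨v, hv⟩)
    have h2 : t * v * t⁻¹ = v := h1
    calc v * t = (t * v * t⁻¹) * t := by rw [h2]
      _ = t * v := by group
  rw [mem_centralizer_iff]
  intro a ha
  have h1 : a⁻¹ * (x * a * x⁻¹) ∈ T := by
    refine ⟨?_, (A ⊔ D).mul_mem (Subgroup.mem_sup_left (A.inv_mem ha)) (Subgroup.mem_sup_right (hDmem a ha))⟩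
    have h2 := hS.hKn a⁻¹ (H.inv_mem (hA.le ha)) x hx
    have h3 := K.mul_mem h2 (K.inv_mem hx)
    have e : a⁻¹ * x * a⁻¹⁻¹ * x⁻¹ = a⁻¹ * (x * a * x⁻¹) := by group
    rwa [e] at h3
  have h2 := hT1 _ h1
  have h3 : x * a * x⁻¹ = a := by
    have h4 : a⁻¹ * (x * a * x⁻¹) = 1 := h2
    calc x * a * x⁻¹ = a * (a⁻¹ * (x * a * x⁻¹)) := by group
      _ = a := by rw [h4, mul_one]
  calc a * x = (x * a * x⁻¹) * x := by rw [h3]
    _ = x * a := by group

/-- The core inequality. -/
theorem Setup.core {A B : Subgroup G} (hA : El p H A) (hBA : B ≤ A) (hB : B.relIndex A = p) {x : G}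
    (hxK : x ∈ K) (hxB : x ∈ centralizer (B : Set G)) (hxA : x ∉ centralizer (A : Set G)) :
    dl V A ≤ dl V B := by
  have hnot : ¬ (V ⊓ centralizer ((A.map (MulAut.conj x).toMonoidHom : Subgroup G) : Set G) ≤
      V ⊓ centralizer (A : Set G)) := fun h => hxA (hS.key hA hxK h)
  rw [SetLike.not_le_iff_exists] at hnot
  obtain ⟨v, ⟨hv1, hv2⟩, hv3⟩ := hnot
  have hBD : B ≤ A.map (MulAut.conj x).toMonoidHom := by
    intro b hb
    refine ⟨b, hBA hb, ?_⟩
    have := mem_centralizer_iff.1 hxB b hb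
    show x * b * x⁻¹ = b
    rw [← this]
    group
  have hle : V ⊓ centralizer (A : Set G) ≤ V ⊓ centralizer (B : Set G) :=
    inf_le_inf_left _ (fun y hy => cent_anti hBA hy)
  have hne : ¬ V ⊓ centralizer (B : Set G) ≤ V ⊓ centralizer (A : Set G) := by
    intro h
    exact hv3 (h ⟨hv1, cent_anti hBD hv2⟩)
  have h1 := hS.card_lt (R₁ := V ⊓ centralizer (A : Set G)) (R₂ := V ⊓ centralizer (B : Set G)) inf_le_left hle hne
  have h2 := Subgroup.relIndex_mul_relIndex (⊥ : Subgroup G) B A bot_le hBA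
  rw [Subgroup.relIndex_bot_left, Subgroup.relIndex_bot_left, hB] at h2
  unfold dl
  rw [← h2, mul_assoc]
  exact Nat.mul_le_mul_left _ h1

/-- Hyperplanes avoiding a given element. -/
theorem Setup.exists_hyper {A : Subgroup G} (hA : El p H A) (hc : p ^ 2 ≤ Nat.card A) {d : G} (hd : d ∈ A)
    (hd1 : d ≠ 1) : ∃ B : Subgroup G, B ≤ A ∧ B.relIndex A = p ∧ d ∉ B ∧
      ∃ x ∈ K, x ∈ centralizer (B : Set G) ∧ x ∉ centralizer (A : Set G) := by
  by_contra hcon
  push Not at hcon
  have hgen := gen_all (p := p) A K hA.comm hA.exp hc (fun a ha x hx => hS.hKn a (hA.le ha) x hx) hS.hKp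
  have hle : (⨆ B : {B : Subgroup G // B ≤ A ∧ B.relIndex A = p}, K ⊓ centralizer ((B : Subgroup G) : Set G)) ≤
      centralizer ({d} : Set G) := by
    refine iSup_le fun B => ?_
    rintro y ⟨hy1, hy2⟩
    rw [mem_centralizer_singleton_iff]
    by_cases hdB : d ∈ (B : Subgroup G)
    · exact (mem_centralizer_iff.1 hy2 d hdB).symm
    · have := hcon B.1 B.2.1 B.2.2 hdB y hy1 hy2
      exact (mem_centralizer_iff.1 this d hd).symm
  have hcent : ∀ y ∈ K, d * y = y * d := by
    intro y hy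
    have := hle (hgen hy)
    rw [mem_centralizer_singleton_iff] at this
    exact this.symm
  have hdK := hS.hcen d (hA.le hd) hcent
  exact hd1 (hS.eq_one_of_K hdK (hA.exp d hd))

/-- The main bound. -/
theorem Setup.dl_le {A : Subgroup G} (hA : El p H A) : dl V A ≤ Nat.card V := by
  have hp : p.Prime := Fact.out
  induction hn : Nat.card A using Nat.strong_induction_on generalizing A with
  | _ n ih =>
    obtain ⟨k, hk⟩ := IsPGroup.iff_card.1 hA.isPGroup
    by_cases hbot : A = ⊥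
    · rw [hbot, dl_bot]
    obtain ⟨d, hd, hd1⟩ := (Subgroup.bot_or_exists_ne_one A).resolve_left hbot
    by_cases hk2 : p ^ 2 ≤ Nat.card A
    · obtain ⟨B, hBA, hB, -, x, hxK, hxB, hxA⟩ := hS.exists_hyper hA hk2 hd hd1
      have h1 := hS.core hA hBA hB hxK hxB hxA
      have h2 := Subgroup.relIndex_mul_relIndex (⊥ : Subgroup G) B A bot_le hBA
      rw [Subgroup.relIndex_bot_left, Subgroup.relIndex_bot_left, hB] at h2
      have h3 : Nat.card B < n := by
        rw [← hn, ← h2]
        exact lt_mul_of_one_lt_right Nat.card_pos hp.one_lt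
      exact h1.trans (ih _ h3 (hA.mono hBA) rfl)
    · have hk1 : k = 1 := by
        have : k < 2 := by
          by_contra hge
          apply hk2
          rw [hk]
          exact Nat.pow_le_pow_right hp.pos (by omega)
        have h0 : k ≠ 0 := by
          intro e
          rw [e, pow_zero] at hk
          apply hbot
          exact (Subgroup.card_eq_one).1 hk
        omega
      rw [hk1, pow_one] at hk
      have hnot : ¬ V ≤ V ⊓ centralizer (A : Set G) := by
        intro hle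
        apply hd1
        apply hS.eq_one_of_mem (hA.le hd)
        rw [mem_centralizer_iff]
        intro v hv
        exact (mem_centralizer_iff.1 (hle hv).2 d hd).symm
      have h1 := hS.card_lt (R₁ := V ⊓ centralizer (A : Set G)) (R₂ := V) le_rfl inf_le_left hnot
      unfold dl
      rw [hk]
      exact h1

theorem Setup.comm_ne_bot {B : Subgroup G} (hB : B ≤ H) (hne : B ≠ ⊥) : ⁅V, B⁆ ≠ ⊥ := by
  intro h
  apply hne
  rw [Subgroup.commutator_eq_bot_iff_le_centralizer] at h
  rw [eq_bot_iff]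
  intro b hb
  have h1 : b ∈ centralizer (V : Set G) := by
    rw [mem_centralizer_iff]
    intro v hv
    exact (mem_centralizer_iff.1 (h hv) b hb).symm
  exact (hS.eq_one_of_mem (hB hb) h1 : b = 1) ▸ Subgroup.one_mem _

theorem Setup.bestOff_of {A : Subgroup G} (hA : El p H A) (h : dl V A = Nat.card V) :
    Cfsg.IsBestOffenderOn p V A := by
  refine ⟨fun B hB => ?_, ?_, ?_⟩
  · have h1 := hS.dl_le (hA.mono hB)
    show dl V B ≤ dl V A
    omega
  · rw [Subgroup.commutator_le]
    intro a ha b hb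
    rw [commutatorElement_def, hA.comm a ha b hb]
    have : b * a * a⁻¹ * b⁻¹ = 1 := by group
    rw [this]
    exact Subgroup.one_mem _
  · intro a ha
    rw [hA.exp a ha]
    exact Subgroup.one_mem _

theorem Setup.hyper_good {A B : Subgroup G} (hA : El p H A) (h : dl V A = Nat.card V) (hBA : B ≤ A)
    (hB : B.relIndex A = p) {x : G} (hxK : x ∈ K) (hxB : x ∈ centralizer (B : Set G))
    (hxA : x ∉ centralizer (A : Set G)) : dl V B = Nat.card V := by
  have h1 := hS.core hA hBA hB hxK hxB hxA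
  have h2 := hS.dl_le (hA.mono hBA)
  omega

theorem Setup.inf_good {A M₁ M₂ : Subgroup G} (hA : El p H A) (h1 : M₁ ≤ A) (h2 : M₂ ≤ A)
    (h1d : dl V M₁ = Nat.card V) (h2d : dl V M₂ = Nat.card V) : dl V (M₁ ⊓ M₂) = Nat.card V := by
  have h3 := dl_super V M₁ M₂
  have h4 := hS.dl_le (hA.mono (inf_le_left.trans h1 : M₁ ⊓ M₂ ≤ A))
  have h5 := hS.dl_le (hA.mono (sup_le h1 h2 : M₁ ⊔ M₂ ≤ A))
  rw [h1d, h2d] at h3
  by_contra hne
  have h6 : dl V (M₁ ⊓ M₂) < Nat.card V := lt_of_le_of_ne h4 hne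
  have h7 : dl V (M₁ ⊓ M₂) * dl V (M₁ ⊔ M₂) < Nat.card V * Nat.card V :=
    calc dl V (M₁ ⊓ M₂) * dl V (M₁ ⊔ M₂) ≤ dl V (M₁ ⊓ M₂) * Nat.card V := Nat.mul_le_mul_left _ h5
      _ < Nat.card V * Nat.card V := Nat.mul_lt_mul_of_pos_right h6 Nat.card_pos
  omega

theorem Setup.le_sup_zpowers {A B : Subgroup G} (hBA : B ≤ A) (hB : B.relIndex A = p) {d : G}
    (hd : d ∈ A) (hdB : d ∉ B) : A ≤ B ⊔ Subgroup.zpowers d := by
  have hp : p.Prime := Fact.out
  set S := B ⊔ Subgroup.zpowers d with hS'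
  have hBS : B ≤ S := le_sup_left
  have hSA : S ≤ A := sup_le hBA ((Subgroup.zpowers_le).2 hd)
  have h1 := Subgroup.relIndex_mul_relIndex B S A hBS hSA
  rw [hB] at h1
  have h2 : B.relIndex S ≠ 1 := by
    intro e
    exact hdB (Subgroup.relIndex_eq_one.1 e (Subgroup.mem_sup_right (Subgroup.mem_zpowers d)))
  have h3 : B.relIndex S ∣ p := ⟨_, h1.symm⟩
  rcases (Nat.dvd_prime hp).1 h3 with h4 | h4
  · exact absurd h4 h2
  · rw [h4] at h1
    have h5 : S.relIndex A = 1 := by
      have : p * S.relIndex A = p * 1 := by rw [h1, mul_one]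
      exact Nat.eq_of_mul_eq_mul_left hp.pos this
    exact Subgroup.relIndex_eq_one.1 h5

/-- Decomposition into subgroups of order `p`. -/
theorem Setup.decomp {A : Subgroup G} (hA : El p H A) (h : dl V A = Nat.card V) :
    ∃ s : Set (Subgroup G), (∀ M ∈ s, M ≤ A ∧ dl V M = Nat.card V ∧ Nat.card M = p) ∧
      sSupIndep s ∧ sSup s = A := by
  classical
  have hp : p.Prime := Fact.out
  induction hn : Nat.card A using Nat.strong_induction_on generalizing A with
  | _ n ih =>
    obtain ⟨k, hk⟩ := IsPGroup.iff_card.1 hA.isPGroup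
    by_cases hbot : A = ⊥
    · refine ⟨∅, by simp, sSupIndep_empty, ?_⟩
      rw [hbot, sSup_empty]
    obtain ⟨d, hd, hd1⟩ := (Subgroup.bot_or_exists_ne_one A).resolve_left hbot
    by_cases hk2 : p ^ 2 ≤ Nat.card A
    · obtain ⟨B₀, hBA, hB, -, x, hxK, hxB, hxA⟩ := hS.exists_hyper hA hk2 hd hd1
      have hB₀d := hS.hyper_good hA h hBA hB hxK hxB hxA
      have h2 := Subgroup.relIndex_mul_relIndex (⊥ : Subgroup G) B₀ A bot_le hBA
      rw [Subgroup.relIndex_bot_left, Subgroup.relIndex_bot_left, hB] at h2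
      have h3 : Nat.card B₀ < n := by
        rw [← hn, ← h2]
        exact lt_mul_of_one_lt_right Nat.card_pos hp.one_lt
      obtain ⟨s₀, hs₀, hsi, hss⟩ := ih _ h3 (hA.mono hBA) hB₀d rfl
      -- a complement
      let 𝓡 : Set (Subgroup G) := {R | R ≤ A ∧ dl V R = Nat.card V ∧ R ⊔ B₀ = A}
      have h𝓡 : 𝓡.Nonempty := ⟨A, le_rfl, h, sup_eq_left.2 hBA⟩
      obtain ⟨R, ⟨hRA, hRd, hRs⟩, hRmin⟩ := Set.exists_min_image 𝓡 (fun R => Nat.card R) (Set.toFinite _) h𝓡
      have hRB : R ⊓ B₀ = ⊥ := by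
        by_contra hne
        obtain ⟨d₁, hd₁, hd₁1⟩ := (Subgroup.bot_or_exists_ne_one (R ⊓ B₀)).resolve_left hne
        obtain ⟨B', hB'A, hB', hd₁B', y, hyK, hyB, hyA⟩ := hS.exists_hyper hA hk2 (hRA hd₁.1) hd₁1
        have hB'd := hS.hyper_good hA h hB'A hB' hyK hyB hyA
        have hR'd := hS.inf_good hA hRA hB'A hRd hB'd
        have hR's : (R ⊓ B') ⊔ B₀ = A := by
          apply le_antisymm (sup_le (inf_le_left.trans hRA) hBA)
          rw [← hRs]
          refine sup_le ?_ le_sup_right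
          intro r hr
          have hrA := hRA hr
          have h5 := hS.le_sup_zpowers hB'A hB' (hRA hd₁.1) hd₁B' hrA
          obtain ⟨b, hb, z, hz, rfl⟩ := Cfsg.Agent.Lib.LargeExtra.mem_sup_of_comm (A := B') (C := Subgroup.zpowers d₁)
            (fun a ha c hc => hA.comm a (hB'A ha) c ((Subgroup.zpowers_le.2 (hRA hd₁.1)) hc)) h5
          have hzR : z ∈ R := (Subgroup.zpowers_le.2 hd₁.1) hz
          have hzB : z ∈ B₀ := (Subgroup.zpowers_le.2 hd₁.2) hz
          have hbR : b ∈ R := by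
            have := R.mul_mem hr (R.inv_mem hzR)
            simpa using this
          exact Subgroup.mul_mem_sup (⟨hbR, hb⟩ : b ∈ R ⊓ B') hzB
        have hmin := hRmin (R ⊓ B') ⟨inf_le_left.trans hRA, hR'd, hR's⟩
        have hle : R ≤ R ⊓ B' := (Subgroup.eq_of_le_of_card_ge (inf_le_left : R ⊓ B' ≤ R) hmin).ge
        exact hd₁B' (hle hd₁.1).2
      have hRcard : Nat.card R = p := by
        have h5 := card_mul_card_le R B₀
        rw [hRB, hRs, Subgroup.card_bot, one_mul, ← h2, mul_comm (Nat.card R)] at h5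
        have h6 : Nat.card R ≤ p := Nat.le_of_mul_le_mul_left h5 Nat.card_pos
        obtain ⟨j, hj⟩ := IsPGroup.iff_card.1 (hA.mono hRA).isPGroup
        have hj0 : j ≠ 0 := by
          intro e
          rw [e, pow_zero] at hj
          have h7 : R = ⊥ := (Subgroup.card_eq_one).1 hj
          rw [h7, bot_sup_eq] at hRs
          rw [hRs, Subgroup.relIndex_self] at hB
          exact hp.one_lt.ne hB
        have hj1 : j = 1 := by
          by_contra hj2
          have h8 : 2 ≤ j := by omega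
          have h9 : p ^ 2 ≤ p ^ j := Nat.pow_le_pow_right hp.pos h8
          have h10 : p < p ^ 2 := by
            rw [pow_two]
            exact lt_mul_of_one_lt_left hp.pos hp.one_lt
          rw [← hj] at h9
          omega
        rw [hj, hj1, pow_one]
      have hs₀le : ∀ M ∈ s₀, M ≤ B₀ := fun M hM => (hs₀ M hM).1
      have hsS : ∀ t : Set (Subgroup G), t ⊆ s₀ → sSup t ≤ B₀ := by
        intro t ht
        rw [← hss]
        exact sSup_le_sSup ht
      refine ⟨insert R s₀, ?_, ?_, ?_⟩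
      · rintro M (rfl | hM)
        · exact ⟨hRA, hRd, hRcard⟩
        · exact ⟨(hs₀ M hM).1.trans hBA, (hs₀ M hM).2⟩
      · intro M hM
        rcases hM with rfl | hM
        · rw [disjoint_iff_inf_le]
          refine (inf_le_inf_left _ (hsS _ ?_)).trans hRB.le
          rintro N ⟨hN1 | hN1, hN2⟩
          · exact absurd hN1 hN2
          · exact hN1
        · rw [disjoint_iff_inf_le]
          rintro y ⟨hy1, hy2⟩
          set W := sSup (s₀ \ {M}) with hW
          have hWB : W ≤ B₀ := hsS _ Set.diff_subset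
          have hle : sSup (insert R s₀ \ {M}) ≤ R ⊔ W := by
            apply sSup_le
            rintro N ⟨hN1 | hN1, hN2⟩
            · rw [hN1]; exact le_sup_left
            · exact le_sup_of_le_right (le_sSup ⟨hN1, hN2⟩)
          obtain ⟨r, hr, w, hw, hyrw⟩ := Cfsg.Agent.Lib.LargeExtra.mem_sup_of_comm (A := R) (C := W)
            (fun a ha c hc => hA.comm a (hRA ha) c (hBA (hWB hc))) (hle hy2)
          have hMB := hs₀le M hM
          have hrB : r ∈ B₀ := by
            have e : r = y * w⁻¹ := by rw [hyrw]; group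
            rw [e]
            exact B₀.mul_mem (hMB hy1) (B₀.inv_mem (hWB hw))
          have hr1 : r = 1 := by
            have : r ∈ R ⊓ B₀ := ⟨hr, hrB⟩
            rw [hRB] at this
            simpa using this
          have hyw : y = w := by rw [hyrw, hr1, one_mul]
          have h7 : y ∈ M ⊓ W := ⟨hy1, hyw ▸ hw⟩
          exact (disjoint_iff_inf_le.1 (hsi hM)) h7
      · rw [sSup_insert, hss, hRs]
    · have hk1 : k = 1 := by
        have : k < 2 := by
          by_contra hge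
          apply hk2
          rw [hk]
          exact Nat.pow_le_pow_right hp.pos (by omega)
        have h0 : k ≠ 0 := by
          intro e
          rw [e, pow_zero] at hk
          apply hbot
          exact (Subgroup.card_eq_one).1 hk
        omega
      rw [hk1, pow_one] at hk
      refine ⟨{A}, ?_, sSupIndep_singleton A, sSup_singleton⟩
      rintro M rfl
      exact ⟨le_rfl, h, hk⟩

/-- order `p` subgroups have nothing smaller. -/
theorem Setup.eq_of_card_prime {M C : Subgroup G} (hM : Nat.card M = p) (hC : C ≤ M) (hne : C ≠ ⊥) : C = M := by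
  have hp : p.Prime := Fact.out
  have h1 : Nat.card C ∣ p := hM ▸ Subgroup.card_dvd_of_le hC
  rcases (Nat.dvd_prime hp).1 h1 with h2 | h2
  · exact absurd ((Subgroup.card_eq_one).1 h2) hne
  · exact Subgroup.eq_of_le_of_card_ge hC (by rw [hM, h2])

/-- The commutator with a group of order `p` with fixed points of index `p`. -/
theorem Setup.card_comm {A : Subgroup G} (hA : El p H A) (hcard : Nat.card A = p)
    (hrel : (V ⊓ centralizer (A : Set G)).relIndex V = p) (hne : ⁅V, A⁆ ≠ ⊥) : Nat.card ↥(⁅V, A⁆) = p := by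
  classical
  have hp : p.Prime := Fact.out
  have hAne : A ≠ ⊥ := by
    rintro rfl
    exact hne (Subgroup.commutator_bot_right _)
  obtain ⟨a, ha, ha1⟩ := (Subgroup.bot_or_exists_ne_one A).resolve_left hAne
  have hza : Subgroup.zpowers a = A := by
    apply Setup.eq_of_card_prime hS hcard (Subgroup.zpowers_le.2 ha)
    intro e
    exact ha1 (Subgroup.zpowers_eq_bot.1 e)
  have haH := hA.le ha
  have hmemV : ∀ v ∈ V, ⁅v, a⁆ ∈ V := by
    intro v hv
    rw [commutatorElement_def]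
    have h1 := hS.hHV a haH v⁻¹ (V.inv_mem hv)
    have e : v * a * v⁻¹ * a⁻¹ = v * (a * v⁻¹ * a⁻¹) := by group
    rw [e]
    exact V.mul_mem hv h1
  let f : V →* V := MonoidHom.mk' (fun v => ⟨⁅v.1, a⁆, hmemV v.1 v.2⟩) (by
    intro u v
    apply Subtype.ext
    show ⁅u.1 * v.1, a⁆ = ⁅u.1, a⁆ * ⁅v.1, a⁆
    rw [commutatorElement_def, commutatorElement_def, commutatorElement_def]
    have h1 : a * u.1⁻¹ * a⁻¹ ∈ V := hS.hHV a haH _ (V.inv_mem u.2)
    have h2 : v.1 * a * v.1⁻¹ * a⁻¹ ∈ V := by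
      have := hmemV v.1 v.2
      rwa [commutatorElement_def] at this
    have h3 := hS.hVc _ h1 _ h2
    calc u.1 * v.1 * a * (u.1 * v.1)⁻¹ * a⁻¹
        = u.1 * (v.1 * a * v.1⁻¹ * a⁻¹) * (a * u.1⁻¹ * a⁻¹) := by group
      _ = u.1 * ((v.1 * a * v.1⁻¹ * a⁻¹) * (a * u.1⁻¹ * a⁻¹)) := by group
      _ = u.1 * ((a * u.1⁻¹ * a⁻¹) * (v.1 * a * v.1⁻¹ * a⁻¹)) := by rw [h3]
      _ = _ := by group)
  have hf : ∀ v : V, ((f v : V) : G) = ⁅v.1, a⁆ := fun v => rfl
  have hker : f.ker = (V ⊓ centralizer (A : Set G)).subgroupOf V := by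
    ext v
    rw [MonoidHom.mem_ker, Subgroup.mem_subgroupOf]
    constructor
    · intro e
      have e1 : ⁅v.1, a⁆ = 1 := congrArg Subtype.val e
      rw [commutatorElement_eq_one_iff_mul_comm] at e1
      refine ⟨v.2, mem_centralizer_iff.2 ?_⟩
      have : A ≤ centralizer ({v.1} : Set G) := by
        rw [← hza, Subgroup.zpowers_le, mem_centralizer_singleton_iff]
        exact e1.symm
      intro b hb
      have h1 := this hb
      rw [mem_centralizer_singleton_iff] at h1
      exact h1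
    · rintro ⟨-, h2⟩
      apply Subtype.ext
      show ⁅v.1, a⁆ = 1
      rw [commutatorElement_eq_one_iff_mul_comm]
      exact (mem_centralizer_iff.1 h2 a ha).symm
  have hI : Nat.card f.range = p := by
    rw [← Subgroup.index_ker, hker]
    exact hrel
  let I : Subgroup G := f.range.map V.subtype
  have hIc : Nat.card I = p := by
    show Nat.card ↥(f.range.map V.subtype) = p
    rw [Subgroup.card_map_of_injective (Subgroup.subtype_injective _), hI]
  have hImem : ∀ v ∈ V, ⁅v, a⁆ ∈ I := fun v hv => ⟨f ⟨v, hv⟩, ⟨⟨v, hv⟩, rfl⟩, rfl⟩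
  have hIconj : ∀ w ∈ I, a * w * a⁻¹ ∈ I := by
    rintro _ ⟨_, ⟨v, rfl⟩, rfl⟩
    have h1 := hImem _ (hS.hHV a haH v.1 v.2)
    have e : ⁅a * v.1 * a⁻¹, a⁆ = a * ⁅v.1, a⁆ * a⁻¹ := by
      rw [commutatorElement_def, commutatorElement_def]
      group
    rw [e] at h1
    exact h1
  have hpow : ∀ k : ℕ, ∀ v ∈ V, ⁅v, a ^ k⁆ ∈ I := by
    intro k
    induction k with
    | zero =>
      intro v hv
      rw [pow_zero, commutatorElement_def]
      have e : v * 1 * v⁻¹ * 1⁻¹ = 1 := by group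
      rw [e]
      exact Subgroup.one_mem _
    | succ k ih =>
      intro v hv
      have e : ⁅v, a ^ (k + 1)⁆ = ⁅v, a⁆ * (a * ⁅v, a ^ k⁆ * a⁻¹) := by
        rw [commutatorElement_def, commutatorElement_def, commutatorElement_def]
        rw [pow_succ']
        group
      rw [e]
      exact I.mul_mem (hImem v hv) (hIconj _ (ih v hv))
  have hle : ⁅V, A⁆ ≤ I := by
    rw [Subgroup.commutator_le]
    intro v hv b hb
    rw [← hza] at hb
    obtain ⟨k, rfl⟩ := (mem_powers_iff_mem_zpowers).2 hb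
    exact hpow k v hv
  have h1 : Nat.card ↥(⁅V, A⁆) ∣ p := hIc ▸ Subgroup.card_dvd_of_le hle
  rcases (Nat.dvd_prime hp).1 h1 with h2 | h2
  · exact absurd ((Subgroup.card_eq_one).1 h2) hne
  · exact h2

/-- A minimal best offender has order `p`. -/
theorem Setup.card_min {A : Subgroup G} (hA : El p H A) (hB : Cfsg.IsBestOffenderOn p V A) (hAV : ⁅V, A⁆ ≠ ⊥)
    (hmin : ∀ B : Subgroup G, B ≤ A → Cfsg.IsBestOffenderOn p V B → ⁅V, B⁆ ≠ ⊥ → B = A) : Nat.card A = p := by
  have hp : p.Prime := Fact.out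
  have hd : dl V A = Nat.card V := by
    apply le_antisymm (hS.dl_le hA)
    have := hB.1 ⊥ bot_le
    rw [← dl_bot]
    exact this
  have hAne : A ≠ ⊥ := by
    rintro rfl
    exact hAV (Subgroup.commutator_bot_right _)
  obtain ⟨d, hdA, hd1⟩ := (Subgroup.bot_or_exists_ne_one A).resolve_left hAne
  obtain ⟨k, hk⟩ := IsPGroup.iff_card.1 hA.isPGroup
  by_cases hk2 : p ^ 2 ≤ Nat.card A
  · exfalso
    obtain ⟨B, hBA, hB', -, x, hxK, hxB, hxA⟩ := hS.exists_hyper hA hk2 hdA hd1
    have hBd := hS.hyper_good hA hd hBA hB' hxK hxB hxA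
    have h2 := Subgroup.relIndex_mul_relIndex (⊥ : Subgroup G) B A bot_le hBA
    rw [Subgroup.relIndex_bot_left, Subgroup.relIndex_bot_left, hB'] at h2
    have hBne : B ≠ ⊥ := by
      rintro rfl
      rw [Subgroup.card_bot, one_mul] at h2
      rw [← h2] at hk2
      have h10 : p < p ^ 2 := by
        rw [pow_two]
        exact lt_mul_of_one_lt_left hp.pos hp.one_lt
      omega
    have h3 := hmin B hBA (hS.bestOff_of (hA.mono hBA) hBd) (hS.comm_ne_bot ((hBA).trans hA.le) hBne)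
    rw [h3, Subgroup.relIndex_self] at hB'
    exact hp.one_lt.ne hB'
  · have hk1 : k = 1 := by
      have : k < 2 := by
        by_contra hge
        apply hk2
        rw [hk]
        exact Nat.pow_le_pow_right hp.pos (by omega)
      have h0 : k ≠ 0 := by
        intro e
        rw [e, pow_zero] at hk
        exact hAne ((Subgroup.card_eq_one).1 hk)
      omega
    rw [hk, hk1, pow_one]

end S

/-- The hypotheses of the statements give a `Setup`. -/
theorem setup_of (V H : Subgroup G) (hV : Cfsg.IsElementaryAbelian p V)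
    (hHV : H ≤ Subgroup.normalizer (V : Set G)) (hf : H ⊓ Subgroup.centralizer (V : Set G) = ⊥)
    (hS1 : Subgroup.centralizer (Cfsg.pPrimeCore p ↥H : Set ↥H) ≤ Cfsg.pPrimeCore p ↥H) :
    Setup p V H ((Cfsg.pPrimeCore p ↥H).map H.subtype) := by
  have hp : p.Prime := Fact.out
  refine ⟨?_, hV.2, ?_, hf, Subgroup.map_subtype_le _, ?_, ?_, ?_⟩
  · intro u hu v hv
    have := hV.1.is_comm.comm ⟨u, hu⟩ ⟨v, hv⟩
    exact congrArg Subtype.val this
  · intro h hh v hv
    exact (mem_normalizer_iff.1 (hHV hh) v).1 hv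
  · rintro h hh _ ⟨k, hk, rfl⟩
    have hn := Cfsg.Agent.Lib.FitCore.pPrimeCore_normal (G := H) p
    exact ⟨_, hn.conj_mem k hk ⟨h, hh⟩, rfl⟩
  · rw [Subgroup.card_map_of_injective (Subgroup.subtype_injective _)]
    exact Cfsg.Agent.Lib.FitCore.not_dvd_card_pPrimeCore p hp
  · intro h hh hc
    refine ⟨⟨h, hh⟩, hS1 ?_, rfl⟩
    rw [mem_centralizer_iff]
    intro y hy
    apply Subtype.ext
    have := hc y.1 ⟨y, hy, rfl⟩
    exact this.symm

theorem el_of (V H A : Subgroup G) (hf : H ⊓ Subgroup.centralizer (V : Set G) = ⊥) (hAH : A ≤ H)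
    (hA : Cfsg.IsBestOffenderOn p V A) : El p H A := by
  have hone : ∀ a ∈ H, a ∈ centralizer (V : Set G) → a = 1 := by
    intro a h1 h2
    have : a ∈ H ⊓ centralizer (V : Set G) := ⟨h1, h2⟩
    rw [hf] at this
    simpa using this
  refine ⟨hAH, ?_, ?_⟩
  · intro a ha b hb
    have h1 := hA.2.1 (Subgroup.commutator_mem_commutator ha hb)
    have h2 : ⁅a, b⁆ ∈ H := by
      rw [commutatorElement_def]
      exact H.mul_mem (H.mul_mem (H.mul_mem (hAH ha) (hAH hb)) (H.inv_mem (hAH ha))) (H.inv_mem (hAH hb))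
    have h3 := hone _ h2 h1
    rwa [commutatorElement_eq_one_iff_mul_comm] at h3
  · intro a ha
    exact hone _ (H.pow_mem (hAH ha) p) (hA.2.2 a ha)

end Cfsg.Agent.Lib.BestOff
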