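import Mathlib
import Cfsg.Prelude

/-! Two noncommuting transvections generating `SL₂(p)`, in abstract linear form. -/

set_option autoImplicit false
set_option linter.all false

namespace Cfsg.Agent.Lib.BestOffPlane

open Matrix

section SL2

variable {p : ℕ} [Fact p.Prime]

/-- upper unitriangular -/
def U (x : ZMod p) : SpecialLinearGroup (Fin 2) (ZMod p) :=
  ⟨!![1, x; 0, 1], by simp [Matrix.det_fin_two]⟩

/-- lower unitriangular -/
def Lw (x : ZMod p) : SpecialLinearGroup (Fin 2) (ZMod p) :=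
  ⟨!![1, 0; x, 1], by simp [Matrix.det_fin_two]⟩

theorem sl_ext' {g h : SpecialLinearGroup (Fin 2) (ZMod p)} (h00 : g.1 0 0 = h.1 0 0) (h01 : g.1 0 1 = h.1 0 1)
    (h10 : g.1 1 0 = h.1 1 0) (h11 : g.1 1 1 = h.1 1 1) : g = h := by
  apply Subtype.ext
  ext i j
  fin_cases i <;> fin_cases j <;> assumption

theorem U_mul (x y : ZMod p) : U x * U y = U (x + y) := by
  apply Subtype.ext
  show !![1, x; 0, 1] * !![1, y; 0, 1] = !![1, x + y; 0, 1]
  simp [Matrix.mul_fin_two, add_comm]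

theorem Lw_mul (x y : ZMod p) : Lw x * Lw y = Lw (x + y) := by
  apply Subtype.ext
  show !![1, 0; x, 1] * !![1, 0; y, 1] = !![1, 0; x + y, 1]
  simp [Matrix.mul_fin_two, add_comm]

theorem UL_coe (x y z : ZMod p) : (U x * Lw y * U z).1 = !![1 + x * y, (1 + x * y) * z + x; y, y * z + 1] := by
  show !![1, x; 0, 1] * !![1, 0; y, 1] * !![1, z; 0, 1] = _
  simp [Matrix.mul_fin_two]

theorem U_zero : U (0 : ZMod p) = 1 := by
  apply Subtype.ext
  ext i j
  fin_cases i <;> fin_cases j <;> simp [U]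

theorem Lw_zero : Lw (0 : ZMod p) = 1 := by
  apply Subtype.ext
  ext i j
  fin_cases i <;> fin_cases j <;> simp [Lw]

theorem U_pow (x : ZMod p) (n : ℕ) : U x ^ n = U ((n : ZMod p) * x) := by
  induction n with
  | zero => simp [U_zero]
  | succ n ih =>
    rw [pow_succ, ih, U_mul]
    congr 1
    push_cast
    ring

theorem Lw_pow (x : ZMod p) (n : ℕ) : Lw x ^ n = Lw ((n : ZMod p) * x) := by
  induction n with
  | zero => simp [Lw_zero]
  | succ n ih =>
    rw [pow_succ, ih, Lw_mul]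
    congr 1
    push_cast
    ring

theorem sl2_gen {μ : ZMod p} (hμ : μ ≠ 0) (M : SpecialLinearGroup (Fin 2) (ZMod p)) :
    M ∈ Subgroup.closure ({U 1, Lw μ} : Set (SpecialLinearGroup (Fin 2) (ZMod p))) := by
  set S := Subgroup.closure ({U 1, Lw μ} : Set (SpecialLinearGroup (Fin 2) (ZMod p))) with hS
  have hU : ∀ x : ZMod p, U x ∈ S := by
    intro x
    have h1 : U (1 : ZMod p) ∈ S := Subgroup.subset_closure (by simp)
    have h2 := S.pow_mem h1 x.val
    rw [U_pow, ZMod.natCast_zmod_val, mul_one] at h2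
    exact h2
  have hL : ∀ x : ZMod p, Lw x ∈ S := by
    intro x
    have h1 : Lw μ ∈ S := Subgroup.subset_closure (by simp)
    have h2 := S.pow_mem h1 (x / μ).val
    rw [Lw_pow, ZMod.natCast_zmod_val, div_mul_cancel₀ _ hμ] at h2
    exact h2
  have hmain : ∀ N : SpecialLinearGroup (Fin 2) (ZMod p), N.1 1 0 ≠ 0 → N ∈ S := by
    intro N hC
    have hdet := N.2
    rw [Matrix.det_fin_two] at hdet
    have hx : ((N.1 0 0 - 1) / N.1 1 0) * N.1 1 0 = N.1 0 0 - 1 := div_mul_cancel₀ _ hC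
    have hy : N.1 1 0 * ((N.1 1 1 - 1) / N.1 1 0) = N.1 1 1 - 1 := mul_div_cancel₀ _ hC
    have : N = U ((N.1 0 0 - 1) / N.1 1 0) * Lw (N.1 1 0) * U ((N.1 1 1 - 1) / N.1 1 0) := by
      apply sl_ext' <;> rw [UL_coe]
      · show N.1 0 0 = 1 + ((N.1 0 0 - 1) / N.1 1 0) * N.1 1 0
        rw [hx]; ring
      · show N.1 0 1 = (1 + ((N.1 0 0 - 1) / N.1 1 0) * N.1 1 0) * ((N.1 1 1 - 1) / N.1 1 0) + (N.1 0 0 - 1) / N.1 1 0
        apply mul_left_cancel₀ hC
        have e : N.1 1 0 * ((1 + ((N.1 0 0 - 1) / N.1 1 0) * N.1 1 0) * ((N.1 1 1 - 1) / N.1 1 0) + (N.1 0 0 - 1) / N.1 1 0)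
            = (1 + ((N.1 0 0 - 1) / N.1 1 0) * N.1 1 0) * (N.1 1 0 * ((N.1 1 1 - 1) / N.1 1 0)) + ((N.1 0 0 - 1) / N.1 1 0) * N.1 1 0 := by ring
        rw [e, hx, hy]
        linear_combination (-1 : ZMod p) * hdet
      · rfl
      · show N.1 1 1 = N.1 1 0 * ((N.1 1 1 - 1) / N.1 1 0) + 1
        rw [hy]; ring
    rw [this]
    exact S.mul_mem (S.mul_mem (hU _) (hL _)) (hU _)
  by_cases hC : M.1 1 0 = 0
  · have hdet := M.2
    rw [Matrix.det_fin_two, hC, mul_zero, sub_zero] at hdet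
    have hA : M.1 0 0 ≠ 0 := by
      intro h
      rw [h, zero_mul] at hdet
      exact zero_ne_one hdet
    have h1 : (Lw 1 * M).1 1 0 ≠ 0 := by
      have e : (Lw 1 * M).1 1 0 = M.1 0 0 + M.1 1 0 := by
        show ((!![1, 0; 1, 1] : Matrix (Fin 2) (Fin 2) (ZMod p)) * M.1) 1 0 = _
        simp [Matrix.mul_apply, Fin.sum_univ_two]
      rw [e, hC, add_zero]
      exact hA
    have h2 := hmain _ h1
    have h3 : M = (Lw 1)⁻¹ * (Lw 1 * M) := by group
    rw [h3]
    exact S.mul_mem (S.inv_mem (hL 1)) h2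
  · exact hmain M hC

end SL2

section Abs

variable {p : ℕ} [Fact p.Prime] {W Γ : Type*} [AddCommGroup W] [Module (ZMod p) W] [Group Γ]

/-- Transvection data. -/
structure Tv (act : Γ →* Module.End (ZMod p) W) (g : Γ) (w : W) : Prop where
  ne : w ≠ 0
  fix : act g w = w
  rk : ∀ v, ∃ c : ZMod p, act g v = v + c • w

theorem act_inv_act (act : Γ →* Module.End (ZMod p) W) (g : Γ) (v : W) : act g⁻¹ (act g v) = v := by
  have : act (g⁻¹ * g) v = v := by simp
  rwa [map_mul] at this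

theorem act_act_inv (act : Γ →* Module.End (ZMod p) W) (g : Γ) (v : W) : act g (act g⁻¹ v) = v := by
  have : act (g * g⁻¹) v = v := by simp
  rwa [map_mul] at this

theorem act_mul (act : Γ →* Module.End (ZMod p) W) (g h : Γ) (v : W) : act (g * h) v = act g (act h v) := by
  rw [map_mul]; rfl

theorem Tv.conj {act : Γ →* Module.End (ZMod p) W} {g : Γ} {w : W} (h : Tv act g w) (x : Γ) :
    Tv act (x * g * x⁻¹) (act x w) := by
  refine ⟨?_, ?_, ?_⟩
  · intro e
    apply h.ne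
    have := act_inv_act act x w
    rw [e, map_zero] at this
    exact this.symm
  · rw [act_mul, act_mul, act_inv_act, h.fix]
  · intro v
    obtain ⟨c, hc⟩ := h.rk (act x⁻¹ v)
    refine ⟨c, ?_⟩
    rw [act_mul, act_mul, hc, map_add, map_smul, act_act_inv]

theorem Tv.scale {act : Γ →* Module.End (ZMod p) W} {g : Γ} {w : W} (h : Tv act g w) {c : ZMod p} (hc : c ≠ 0) :
    Tv act g (c • w) := by
  refine ⟨smul_ne_zero hc h.ne, ?_, ?_⟩
  · rw [map_smul, h.fix]
  · intro v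
    obtain ⟨d, hd⟩ := h.rk v
    refine ⟨d / c, ?_⟩
    rw [hd, smul_smul, div_mul_cancel₀ _ hc]

/-- The abstract context. -/
structure Ctx (act : Γ →* Module.End (ZMod p) W) (K : Subgroup Γ) : Prop where
  faith : ∀ g : Γ, (∀ v, act g v = v) → g = 1
  hK : ∀ y ∈ K, y ^ p = 1 → y = 1
  hKn : K.Normal

/-- Lemma P -/
theorem Ctx.lemP {act : Γ →* Module.End (ZMod p) W} {K : Subgroup Γ} (hC : Ctx act K) {a₀ b₀ : Γ} {w₀ : W}
    (ha : Tv act a₀ w₀) (hb : act b₀ w₀ = w₀) (hbp : b₀ ^ p = 1) (hc : a₀⁻¹ * b₀ ∈ K) : a₀ = b₀ := by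
  have hp : p.Prime := Fact.out
  obtain ⟨c, hcdef⟩ : ∃ c, c = a₀⁻¹ * b₀ := ⟨_, rfl⟩
  rw [← hcdef] at hc
  have hainv : act a₀⁻¹ w₀ = w₀ := by
    conv_lhs => rw [← ha.fix]
    exact act_inv_act act a₀ w₀
  have hcw : act c w₀ = w₀ := by
    rw [hcdef, act_mul, hb, hainv]
  have hc1 : ∀ v, ∃ d : ZMod p, act c v = act b₀ v + d • w₀ := by
    intro v
    obtain ⟨d, hd⟩ := ha.rk (act b₀ v)
    refine ⟨-d, ?_⟩
    have h1 := act_inv_act act a₀ (act b₀ v)
    rw [hd, map_add, map_smul, hainv] at h1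
    rw [hcdef, act_mul, neg_smul]
    rw [eq_add_neg_iff_add_eq]
    exact h1
  have hk : ∀ (k : ℕ) v, ∃ d : ZMod p, act (c ^ k) v = act (b₀ ^ k) v + d • w₀ := by
    intro k
    induction k with
    | zero => intro v; exact ⟨0, by simp⟩
    | succ k ih =>
      intro v
      obtain ⟨d, hd⟩ := ih v
      obtain ⟨d', hd'⟩ := hc1 (act (b₀ ^ k) v)
      refine ⟨d' + d, ?_⟩
      rw [pow_succ', pow_succ', act_mul, act_mul, hd, map_add, map_smul, hcw, hd', add_smul, add_assoc]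
  obtain ⟨e, he⟩ : ∃ e, e = c ^ p := ⟨_, rfl⟩
  have hew : act e w₀ = w₀ := by
    rw [he, map_pow]
    exact Module.End.pow_apply .. |>.trans (Function.IsFixedPt.iterate hcw p)
  have he1 : ∀ v, ∃ d : ZMod p, act e v = v + d • w₀ := by
    intro v
    obtain ⟨d, hd⟩ := hk p v
    rw [hbp, map_one] at hd
    exact ⟨d, by rw [he]; exact hd⟩
  have hen : ∀ (n : ℕ) v (d : ZMod p), act e v = v + d • w₀ → act (e ^ n) v = v + (n : ZMod p) • (d • w₀) := by
    intro n
    induction n with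
    | zero => intro v d _; simp
    | succ n ih =>
      intro v d hd
      rw [pow_succ', act_mul, ih v d hd, map_add, map_smul, map_smul, hew, hd]
      push_cast
      rw [add_smul, one_smul]
      abel
  have hep : e ^ p = 1 := by
    apply hC.faith
    intro v
    obtain ⟨d, hd⟩ := he1 v
    rw [hen p v d hd]
    simp
  have hcK : e ∈ K := he ▸ K.pow_mem hc p
  have he1' : e = 1 := hC.hK e hcK hep
  have hc1' : c = 1 := hC.hK c hc (he ▸ he1')
  rw [hcdef] at hc1'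
  exact (inv_mul_eq_one.1 hc1')

/-- The coordinates on the plane. -/
def T (w₁ w₂ : W) (c : Fin 2 → ZMod p) : W := c 0 • w₁ + c 1 • w₂

theorem T_vec (w₁ w₂ : W) (x y : ZMod p) : T w₁ w₂ ![x, y] = x • w₁ + y • w₂ := rfl

theorem T_add (w₁ w₂ : W) (c d : Fin 2 → ZMod p) : T w₁ w₂ (c + d) = T w₁ w₂ c + T w₁ w₂ d := by
  simp only [T, Pi.add_apply, add_smul]
  abel

theorem mulVec_U (c : Fin 2 → ZMod p) : ((U 1 : SpecialLinearGroup (Fin 2) (ZMod p)).1).mulVec c = ![c 0 + c 1, c 1] := by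
  ext i
  fin_cases i <;> simp [U, Matrix.mulVec, dotProduct, Fin.sum_univ_two]

theorem mulVec_Lw (μ : ZMod p) (c : Fin 2 → ZMod p) :
    ((Lw μ : SpecialLinearGroup (Fin 2) (ZMod p)).1).mulVec c = ![c 0, μ * c 0 + c 1] := by
  ext i
  fin_cases i <;> simp [Lw, Matrix.mulVec, dotProduct, Fin.sum_univ_two]

/-- The elementwise plane relations. -/
structure PlaneRel (act : Γ →* Module.End (ZMod p) W) (a b : Γ) (w₁ w₂ : W) (μ : ZMod p) : Prop where
  hμ : μ ≠ 0
  ta : Tv act a w₁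
  tb : Tv act b w₂
  h2 : act a w₂ = w₂ + w₁
  h4 : act b w₁ = w₁ + μ • w₂

theorem PlaneRel.T_inj {act : Γ →* Module.End (ZMod p) W} {a b : Γ} {w₁ w₂ : W} {μ : ZMod p}
    (h : PlaneRel act a b w₁ w₂ μ) {c d : Fin 2 → ZMod p} (e : T w₁ w₂ c = T w₁ w₂ d) : c = d := by
  have ha : ∀ c : Fin 2 → ZMod p, act a (T w₁ w₂ c) = T w₁ w₂ c + c 1 • w₁ := by
    intro c
    simp only [T, map_add, map_smul, h.ta.fix, h.h2, smul_add]
    abel
  have hb : ∀ c : Fin 2 → ZMod p, act b (T w₁ w₂ c) = T w₁ w₂ c + (c 0 * μ) • w₂ := by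
    intro c
    simp only [T, map_add, map_smul, h.tb.fix, h.h4, smul_add, smul_smul]
    abel
  have h1 := ha c
  rw [e, ha d] at h1
  have h2 : (c 1 - d 1) • w₁ = 0 := by
    rw [sub_smul, sub_eq_zero]
    exact (add_left_cancel h1).symm
  have h3 := hb c
  rw [e, hb d] at h3
  have h4 : ((c 0 - d 0) * μ) • w₂ = 0 := by
    rw [sub_mul, sub_smul, sub_eq_zero]
    exact (add_left_cancel h3).symm
  have h5 : c 1 - d 1 = 0 := (smul_eq_zero.1 h2).resolve_right h.ta.ne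
  have h6 : (c 0 - d 0) * μ = 0 := (smul_eq_zero.1 h4).resolve_right h.tb.ne
  have h7 : c 0 - d 0 = 0 := (mul_eq_zero.1 h6).resolve_right h.hμ
  ext i
  fin_cases i
  · exact sub_eq_zero.1 h7
  · exact sub_eq_zero.1 h5

theorem PlaneRel.T_U {act : Γ →* Module.End (ZMod p) W} {a b : Γ} {w₁ w₂ : W} {μ : ZMod p}
    (h : PlaneRel act a b w₁ w₂ μ) (c : Fin 2 → ZMod p) :
    act a (T w₁ w₂ c) = T w₁ w₂ ((U 1 : SpecialLinearGroup (Fin 2) (ZMod p)).1.mulVec c) := by
  rw [mulVec_U, T_vec]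
  simp only [T, map_add, map_smul, h.ta.fix, h.h2, smul_add, add_smul]
  abel

theorem PlaneRel.T_L {act : Γ →* Module.End (ZMod p) W} {a b : Γ} {w₁ w₂ : W} {μ : ZMod p}
    (h : PlaneRel act a b w₁ w₂ μ) (c : Fin 2 → ZMod p) :
    act b (T w₁ w₂ c) = T w₁ w₂ ((Lw μ : SpecialLinearGroup (Fin 2) (ZMod p)).1.mulVec c) := by
  rw [mulVec_Lw, T_vec]
  simp only [T, map_add, map_smul, h.tb.fix, h.h4, smul_add, add_smul, smul_smul]
  rw [mul_comm (c 0) μ]
  abel

/-- Each element of the group generated by the two transvections has a matrix. -/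
theorem PlaneRel.exists_matrix {act : Γ →* Module.End (ZMod p) W} {a b : Γ} {w₁ w₂ : W} {μ : ZMod p}
    (h : PlaneRel act a b w₁ w₂ μ) {e : Γ} (he : e ∈ Subgroup.closure ({a, b} : Set Γ)) :
    ∃ M : SpecialLinearGroup (Fin 2) (ZMod p), ∀ c, act e (T w₁ w₂ c) = T w₁ w₂ (M.1.mulVec c) := by
  induction he using Subgroup.closure_induction with
  | mem x hx =>
    rcases hx with rfl | hx
    · exact ⟨U 1, h.T_U⟩
    · rw [Set.mem_singleton_iff] at hx
      subst hx
      exact ⟨Lw μ, h.T_L⟩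
  | one => exact ⟨1, fun c => by simp⟩
  | mul x y _ _ hx hy =>
    obtain ⟨M, hM⟩ := hx
    obtain ⟨N, hN⟩ := hy
    refine ⟨M * N, fun c => ?_⟩
    rw [act_mul, hN, hM, Matrix.mulVec_mulVec]
    rfl
  | inv x _ hx =>
    obtain ⟨M, hM⟩ := hx
    refine ⟨M⁻¹, fun c => ?_⟩
    have h1 := hM ((M⁻¹).1.mulVec c)
    have h2 : M.1.mulVec ((M⁻¹).1.mulVec c) = c := by
      rw [Matrix.mulVec_mulVec]
      have : M.1 * (M⁻¹).1 = 1 := congrArg Subtype.val (mul_inv_cancel M)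
      rw [this, Matrix.one_mulVec]
    rw [h2] at h1
    rw [← h1, act_inv_act]

theorem mat_ext {M N : SpecialLinearGroup (Fin 2) (ZMod p)} (h : ∀ c, M.1.mulVec c = N.1.mulVec c) : M = N := by
  apply Subtype.ext
  ext i j
  have := congrFun (h (Pi.single j 1)) i
  simpa [Matrix.mulVec_single_one] using this

/-- The isomorphism with `SL₂(p)`. -/
theorem PlaneRel.exists_iso {act : Γ →* Module.End (ZMod p) W} {a b : Γ} {w₁ w₂ : W} {μ : ZMod p}
    (h : PlaneRel act a b w₁ w₂ μ) (hfaith : ∀ g : Γ, (∀ v, act g v = v) → g = 1) :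
    ∃ r : Subgroup.closure ({a, b} : Set Γ) ≃* SpecialLinearGroup (Fin 2) (ZMod p),
      ∀ (e : Subgroup.closure ({a, b} : Set Γ)) (c : Fin 2 → ZMod p),
        act e.1 (T w₁ w₂ c) = T w₁ w₂ ((r e).1.mulVec c) := by
  classical
  set E := Subgroup.closure ({a, b} : Set Γ) with hE
  have hex : ∀ e : E, ∃ M : SpecialLinearGroup (Fin 2) (ZMod p), ∀ c, act e.1 (T w₁ w₂ c) = T w₁ w₂ (M.1.mulVec c) :=
    fun e => h.exists_matrix e.2
  choose r₀ hr₀ using hex
  have huniq : ∀ (e : E) (M : SpecialLinearGroup (Fin 2) (ZMod p)),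
      (∀ c, act e.1 (T w₁ w₂ c) = T w₁ w₂ (M.1.mulVec c)) → r₀ e = M := by
    intro e M hM
    apply mat_ext
    intro c
    apply h.T_inj
    rw [← hr₀ e c, hM]
  let r : E →* SpecialLinearGroup (Fin 2) (ZMod p) :=
    { toFun := r₀
      map_one' := huniq 1 1 (fun c => by simp)
      map_mul' := fun x y => huniq (x * y) _ (fun c => by
        show act (x.1 * y.1) _ = _
        rw [act_mul, hr₀ y, hr₀ x, Matrix.mulVec_mulVec]
        rfl) }
  have haE : a ∈ E := Subgroup.subset_closure (by simp)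
  have hbE : b ∈ E := Subgroup.subset_closure (by simp)
  -- the complement
  have hdec : ∀ v, ∃ (c : Fin 2 → ZMod p) (z : W), v = T w₁ w₂ c + z ∧ act a z = z ∧ act b z = z := by
    intro v
    obtain ⟨c₁, hc₁⟩ := h.ta.rk v
    obtain ⟨c₂, hc₂⟩ := h.tb.rk v
    refine ⟨![c₂ / μ, c₁], v - c₁ • w₂ - (c₂ / μ) • w₁, ?_, ?_, ?_⟩
    · rw [T_vec]; abel
    · simp only [map_sub, map_smul, hc₁, h.h2, h.ta.fix, smul_add]
      abel
    · simp only [map_sub, map_smul, hc₂, h.h4, h.tb.fix, smul_add, smul_smul, div_mul_cancel₀ _ h.hμ]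
      abel
  have hfixz : ∀ z, act a z = z → act b z = z → ∀ e ∈ E, act e z = z := by
    intro z h1 h2 e he
    induction he using Subgroup.closure_induction with
    | mem x hx =>
      rcases hx with rfl | hx
      · exact h1
      · rw [Set.mem_singleton_iff] at hx
        subst hx
        exact h2
    | one => simp
    | mul x y _ _ hx hy => rw [act_mul, hy, hx]
    | inv x _ hx =>
      conv_lhs => rw [← hx]
      exact act_inv_act act x z
  have hinj : Function.Injective r := by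
    rw [injective_iff_map_eq_one]
    intro e he
    have he' : r₀ e = 1 := he
    apply Subtype.ext
    apply hfaith
    intro v
    obtain ⟨c, z, rfl, hz1, hz2⟩ := hdec v
    rw [map_add, hfixz z hz1 hz2 e.1 e.2, hr₀, he']
    simp
  have hsurj : Function.Surjective r := by
    have hra : r ⟨a, haE⟩ = U 1 := huniq _ _ h.T_U
    have hrb : r ⟨b, hbE⟩ = Lw μ := huniq _ _ h.T_L
    intro M
    have h1 := sl2_gen h.hμ M
    have h2 : Subgroup.closure ({U 1, Lw μ} : Set (SpecialLinearGroup (Fin 2) (ZMod p))) ≤ r.range := by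
      rw [Subgroup.closure_le]
      rintro x (rfl | hx)
      · exact ⟨_, hra⟩
      · rw [Set.mem_singleton_iff] at hx
        subst hx
        exact ⟨_, hrb⟩
    exact h2 h1
  refine ⟨MulEquiv.ofBijective r ⟨hinj, hsurj⟩, fun e c => ?_⟩
  exact hr₀ e c

theorem PlaneRel.dec {act : Γ →* Module.End (ZMod p) W} {a b : Γ} {w₁ w₂ : W} {μ : ZMod p}
    (h : PlaneRel act a b w₁ w₂ μ) (v : W) :
    ∃ (c : Fin 2 → ZMod p) (z : W), v = T w₁ w₂ c + z ∧ act a z = z ∧ act b z = z := by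
  obtain ⟨c₁, hc₁⟩ := h.ta.rk v
  obtain ⟨c₂, hc₂⟩ := h.tb.rk v
  refine ⟨![c₂ / μ, c₁], v - c₁ • w₂ - (c₂ / μ) • w₁, ?_, ?_, ?_⟩
  · rw [T_vec]; abel
  · simp only [map_sub, map_smul, hc₁, h.h2, h.ta.fix, smul_add]
    abel
  · simp only [map_sub, map_smul, hc₂, h.h4, h.tb.fix, smul_add, smul_smul, div_mul_cancel₀ _ h.hμ]
    abel

theorem fixz {act : Γ →* Module.End (ZMod p) W} {a b : Γ} {z : W} (h1 : act a z = z) (h2 : act b z = z) {e : Γ}
    (he : e ∈ Subgroup.closure ({a, b} : Set Γ)) : act e z = z := by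
  induction he using Subgroup.closure_induction with
  | mem x hx =>
    rcases hx with rfl | hx
    · exact h1
    · rw [Set.mem_singleton_iff] at hx
      subst hx
      exact h2
  | one => simp
  | mul x y _ _ hx hy => rw [act_mul, hy, hx]
  | inv x _ hx =>
    conv_lhs => rw [← hx]
    exact act_inv_act act x z

/-- two non-commuting conjugates. -/
theorem Ctx.exists_plane {act : Γ →* Module.End (ZMod p) W} {K : Subgroup Γ} (hC : Ctx act K) {a x : Γ} {w : W}
    (ha : Tv act a w) (hap : a ^ p = 1) (hx : x ∈ K) (hne : x * a * x⁻¹ ≠ a) :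
    ∃ (w₁ w₂ : W) (μ : ZMod p), PlaneRel act a (x * a * x⁻¹) w₁ w₂ μ := by
  have hn := hC.hKn
  have tb := ha.conj x
  have hb1 : act a (act x w) ≠ act x w := by
    intro e
    apply hne
    apply hC.lemP tb e hap
    have e1 : (x * a * x⁻¹)⁻¹ * a = x * (a⁻¹ * x⁻¹ * a⁻¹⁻¹) := by group
    rw [e1]
    exact K.mul_mem hx (hn.conj_mem _ (K.inv_mem hx) _)
  obtain ⟨c, hc⟩ := ha.rk (act x w)
  have hc0 : c ≠ 0 := by
    rintro rfl
    rw [zero_smul, add_zero] at hc
    exact hb1 hc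
  have ta := ha.scale hc0
  have hbp : (x * a * x⁻¹) ^ p = 1 := by
    rw [conj_pow, hap]
    group
  have hb2 : act (x * a * x⁻¹) (c • w) ≠ c • w := by
    intro e
    apply hne
    have := hC.lemP ta e hbp (by
      have e1 : a⁻¹ * (x * a * x⁻¹) = (a⁻¹ * x * a⁻¹⁻¹) * x⁻¹ := by group
      rw [e1]
      exact K.mul_mem (hn.conj_mem _ hx _) (K.inv_mem hx))
    exact this.symm
  obtain ⟨μ, hμ⟩ := tb.rk (c • w)
  have hμ0 : μ ≠ 0 := by
    rintro rfl
    rw [zero_smul, add_zero] at hμ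
    exact hb2 hμ
  exact ⟨c • w, act x w, μ, hμ0, ta, tb, hc, hμ⟩

/-- the quotient by `K` sees only one element -/
theorem comm_mod {K : Subgroup Γ} (hKn : K.Normal) {a b : Γ} (hab : a⁻¹ * b ∈ K) {e : Γ}
    (he : e ∈ Subgroup.closure ({a, b} : Set Γ)) : e * a * e⁻¹ * a⁻¹ ∈ K := by
  haveI := hKn
  let π := QuotientGroup.mk' K
  have hπ : π a = π b := QuotientGroup.eq.2 hab
  have hcomm : Commute (π e) (π a) := by
    induction he using Subgroup.closure_induction with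
    | mem x hx =>
      rcases hx with rfl | hx
      · exact Commute.refl _
      · rw [Set.mem_singleton_iff] at hx
        subst hx
        rw [← hπ]
    | one => simp
    | mul x y _ _ hx hy =>
      rw [map_mul]
      exact hx.mul_left hy
    | inv x _ hx =>
      rw [map_inv]
      exact hx.inv_left
  have h1 : π (e * a * e⁻¹ * a⁻¹) = 1 := by
    simp only [map_mul, map_inv]
    rw [hcomm.eq]
    group
  exact (QuotientGroup.eq_one_iff _).1 h1

theorem Ctx.mod_mem {act : Γ →* Module.End (ZMod p) W} {K : Subgroup Γ} (hC : Ctx act K) {a b : Γ}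
    (hab : a⁻¹ * b ∈ K) {e : Γ} (he : e ∈ Subgroup.closure ({a, b} : Set Γ)) : e * a * e⁻¹ * a⁻¹ ∈ K :=
  comm_mod hC.hKn hab he

/-- `p` is `2` or `3`. -/
theorem Ctx.p23 {act : Γ →* Module.End (ZMod p) W} {K : Subgroup Γ} (hC : Ctx act K) {a b : Γ} {w₁ w₂ : W}
    {μ : ZMod p} (h : PlaneRel act a b w₁ w₂ μ) (hab : a⁻¹ * b ∈ K) (hap : a ^ p = 1) : p = 2 ∨ p = 3 := by
  classical
  have hpp : p.Prime := Fact.out
  by_contra hne
  push Not at hne
  obtain ⟨h2, h3⟩ := hne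
  have t2 : (2 : ZMod p) ≠ 0 := by
    intro e
    have : ((2 : ℕ) : ZMod p) = 0 := by exact_mod_cast e
    have hd := (ZMod.natCast_eq_zero_iff 2 p).1 this
    exact h2 ((Nat.prime_dvd_prime_iff_eq hpp Nat.prime_two).1 hd)
  obtain ⟨r, hr⟩ := h.exists_iso hC.faith
  have haE : a ∈ Subgroup.closure ({a, b} : Set Γ) := Subgroup.subset_closure (by simp)
  let a' : Subgroup.closure ({a, b} : Set Γ) := ⟨a, haE⟩
  have hra : r a' = U 1 := by
    apply mat_ext
    intro c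
    apply h.T_inj
    rw [← hr a' c]
    exact h.T_U c
  let D : SpecialLinearGroup (Fin 2) (ZMod p) := ⟨!![2, 0; 0, 2⁻¹], by simp [Matrix.det_fin_two, t2]⟩
  have hDU : D * U 1 = U 4 * D := by
    apply Subtype.ext
    show (!![2, 0; 0, 2⁻¹] : Matrix (Fin 2) (Fin 2) (ZMod p)) * !![1, 1; 0, 1] = !![1, 4; 0, 1] * !![2, 0; 0, 2⁻¹]
    simp [Matrix.mul_fin_two]
    have : (4 : ZMod p) * 2⁻¹ = 2 := by
      field_simp
      norm_num
    exact this.symm
  have hU4 : (U 1 : SpecialLinearGroup (Fin 2) (ZMod p)) ^ 4 = U 4 := by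
    rw [U_pow]
    congr 1
    norm_num
  have hd : r.symm D * a' = a' ^ 4 * r.symm D := by
    apply r.injective
    rw [map_mul, map_mul, map_pow, hra, MulEquiv.apply_symm_apply, hU4, hDU]
  have hd' := congrArg Subtype.val hd
  have hd2 : (r.symm D).1 * a = a ^ 4 * (r.symm D).1 := hd'
  have hmem := hC.mod_mem hab (r.symm D).2
  have e1 : (r.symm D).1 * a * (r.symm D).1⁻¹ * a⁻¹ = a ^ 3 := by
    rw [hd2]
    group
  rw [e1] at hmem
  have h4 : a ^ 3 = 1 := by
    apply hC.hK _ hmem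
    rw [← pow_mul, mul_comm, pow_mul, hap, one_pow]
  have hcop : Nat.Coprime 3 p := (Nat.coprime_primes Nat.prime_three hpp).2 (Ne.symm h3)
  have h5 : orderOf a = 1 := Nat.eq_one_of_dvd_coprimes hcop (orderOf_dvd_of_pow_eq_one h4) (orderOf_dvd_of_pow_eq_one hap)
  have h6 : a = 1 := orderOf_eq_one_iff.1 h5
  have h7 := h.h2
  rw [h6, map_one] at h7
  exact h.ta.ne (by simpa using h7.symm)

/-- every nonzero vector can be moved to a fixed point of `a` -/
theorem PlaneRel.exists_to_fix {act : Γ →* Module.End (ZMod p) W} {a b : Γ} {w₁ w₂ : W} {μ : ZMod p}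
    (h : PlaneRel act a b w₁ w₂ μ)
    (r : Subgroup.closure ({a, b} : Set Γ) ≃* SpecialLinearGroup (Fin 2) (ZMod p))
    (hr : ∀ (e : Subgroup.closure ({a, b} : Set Γ)) (c : Fin 2 → ZMod p),
        act e.1 (T w₁ w₂ c) = T w₁ w₂ ((r e).1.mulVec c)) (v : W) :
    ∃ g ∈ Subgroup.closure ({a, b} : Set Γ), act a (act g v) = act g v := by
  obtain ⟨c, z, rfl, hz1, hz2⟩ := h.dec v
  have hM : ∃ M : SpecialLinearGroup (Fin 2) (ZMod p), (M.1.mulVec c) 1 = 0 := by
    by_cases h1 : c 1 = 0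
    · exact ⟨1, by simpa using h1⟩
    by_cases h0 : c 0 = 0
    · refine ⟨⟨!![0, 1; -1, 0], by simp [Matrix.det_fin_two]⟩, ?_⟩
      show ((!![0, 1; -1, 0] : Matrix (Fin 2) (Fin 2) (ZMod p)).mulVec c) 1 = 0
      simp [Matrix.mulVec, dotProduct, Fin.sum_univ_two, h0]
    · refine ⟨Lw (-c 1 / c 0), ?_⟩
      rw [mulVec_Lw]
      show -c 1 / c 0 * c 0 + c 1 = 0
      rw [div_mul_cancel₀ _ h0]
      ring
  obtain ⟨M, hM⟩ := hM
  refine ⟨(r.symm M).1, (r.symm M).2, ?_⟩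
  rw [map_add, fixz hz1 hz2 (r.symm M).2, hr, MulEquiv.apply_symm_apply, map_add, hz1]
  congr 1
  have e : T w₁ w₂ (M.1.mulVec c) = (M.1.mulVec c) 0 • w₁ := by
    rw [T, hM, zero_smul, add_zero]
  rw [e, map_smul, h.ta.fix]

/-- every `K`-conjugate of `a` lies in the group generated by two noncommuting ones. -/
theorem Ctx.conj_mem {act : Γ →* Module.End (ZMod p) W} {K : Subgroup Γ} (hC : Ctx act K) {a b : Γ} {w₁ w₂ : W}
    {μ : ZMod p} (h : PlaneRel act a b w₁ w₂ μ) (hab : a⁻¹ * b ∈ K) (hap : a ^ p = 1)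
    (r : Subgroup.closure ({a, b} : Set Γ) ≃* SpecialLinearGroup (Fin 2) (ZMod p))
    (hr : ∀ (e : Subgroup.closure ({a, b} : Set Γ)) (c : Fin 2 → ZMod p),
        act e.1 (T w₁ w₂ c) = T w₁ w₂ ((r e).1.mulVec c)) {w : W} (ha : Tv act a w) {y : Γ} (hy : y ∈ K) :
    y * a * y⁻¹ ∈ Subgroup.closure ({a, b} : Set Γ) := by
  haveI := hC.hKn
  obtain ⟨g, hg, hfix⟩ := h.exists_to_fix r hr (act y w)
  have t3 := ha.conj (g * y)
  rw [act_mul] at t3
  have hb3 : ((g * y) * a * (g * y)⁻¹)⁻¹ * a ∈ K := by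
    have hmod := hC.mod_mem hab hg
    let π := QuotientGroup.mk' K
    have hπy : π y = 1 := (QuotientGroup.eq_one_iff _).2 hy
    have hπg : π (g * a * g⁻¹ * a⁻¹) = 1 := (QuotientGroup.eq_one_iff _).2 hmod
    have h1 : π ((g * y) * a * (g * y)⁻¹) = π a := by
      simp only [map_mul, map_inv, hπy, mul_one] at hπg ⊢
      have := mul_inv_eq_one.1 hπg
      exact this
    exact QuotientGroup.eq.1 h1
  have heq := hC.lemP t3 hfix hap hb3
  have e2 : y * a * y⁻¹ = g⁻¹ * a * g := by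
    calc y * a * y⁻¹ = g⁻¹ * ((g * y) * a * (g * y)⁻¹) * g := by group
      _ = g⁻¹ * a * g := by rw [heq]
  rw [e2]
  have e3 := (Subgroup.closure ({a, b} : Set Γ)).inv_mem hg
  have haE : a ∈ Subgroup.closure ({a, b} : Set Γ) := Subgroup.subset_closure (by simp)
  exact Subgroup.mul_mem _ (Subgroup.mul_mem _ e3 haE) hg

end Abs

end Cfsg.Agent.Lib.BestOffPlane
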