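import Mathlib
import Cfsg.Prelude
import Cfsg.Agent.Lib.BestOff
import Cfsg.Agent.Lib.BestOffPlane
import Cfsg.Agent.Lib.FitCore
import Cfsg.Agent.Lib.LargeExtra

/-! From transvections on an elementary abelian subgroup to `SL₂(p)`. -/

set_option autoImplicit false
set_option linter.all false

namespace Cfsg.Agent.Lib.BestOffBridge

open Subgroup Cfsg.Agent.Lib.BestOff Cfsg.Agent.Lib.BestOffPlane
open scoped commutatorElement

variable {G : Type*} [Group G] [Finite G] {p : ℕ} [Fact p.Prime]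
variable {W : Type*} [AddCommGroup W] [Module (ZMod p) W]

/-- A linear model of `V`. -/
structure Br (V : Subgroup G) (Φ : W → G) : Prop where
  add : ∀ u v, Φ (u + v) = Φ u * Φ v
  inj : Function.Injective Φ
  mem : ∀ u, Φ u ∈ V
  surj : ∀ v ∈ V, ∃ u, Φ u = v

section B

variable {V H : Subgroup G} {Φ : W → G}

theorem Br.zero (hB : Br V Φ) : Φ 0 = 1 := by
  have := hB.add 0 0
  rw [add_zero] at this
  exact mul_eq_left.1 this.symm

theorem Br.neg (hB : Br V Φ) (u : W) : Φ (-u) = (Φ u)⁻¹ := by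
  have := hB.add u (-u)
  rw [add_neg_cancel, hB.zero] at this
  exact (eq_inv_of_mul_eq_one_right this.symm)

theorem Br.sub (hB : Br V Φ) (u v : W) : Φ (u - v) = Φ u * (Φ v)⁻¹ := by
  rw [sub_eq_add_neg, hB.add, hB.neg]

theorem Br.zsmul (hB : Br V Φ) (i : ℤ) (u : W) : Φ (i • u) = (Φ u) ^ i := by
  let m : Multiplicative W →* G :=
    { toFun := fun x => Φ (Multiplicative.toAdd x)
      map_one' := hB.zero
      map_mul' := fun x y => hB.add _ _ }
  have := map_zpow m (Multiplicative.ofAdd u) i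
  exact this

variable (p) in
/-- The conjugation action, linearly. -/
noncomputable def Br.act (hB : Br V Φ) (hHV : ∀ h ∈ H, ∀ v ∈ V, h * v * h⁻¹ ∈ V) :
    H →* Module.End (ZMod p) W := by
  classical
  have hex : ∀ (h : H) (u : W), ∃ u', Φ u' = h.1 * Φ u * h.1⁻¹ :=
    fun h u => hB.surj _ (hHV h.1 h.2 _ (hB.mem u))
  let cj : H → W → W := fun h u => Classical.choose (hex h u)
  have hcj : ∀ h u, Φ (cj h u) = h.1 * Φ u * h.1⁻¹ := fun h u => Classical.choose_spec (hex h u)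
  have hadd : ∀ h u v, cj h (u + v) = cj h u + cj h v := by
    intro h u v
    apply hB.inj
    rw [hB.add, hcj, hcj, hcj, hB.add]
    group
  exact
    { toFun := fun h => AddMonoidHom.toZModLinearMap p (AddMonoidHom.mk' (cj h) (hadd h))
      map_one' := by
        apply LinearMap.ext
        intro u
        apply hB.inj
        show Φ (cj 1 u) = Φ u
        rw [hcj]
        simp
      map_mul' := fun g h => by
        apply LinearMap.ext
        intro u
        apply hB.inj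
        show Φ (cj (g * h) u) = Φ (cj g (cj h u))
        rw [hcj, hcj, hcj]
        show (g.1 * h.1) * Φ u * (g.1 * h.1)⁻¹ = _
        group }

theorem Br.Φ_act (hB : Br V Φ) (hHV : ∀ h ∈ H, ∀ v ∈ V, h * v * h⁻¹ ∈ V) (h : H) (u : W) :
    Φ (hB.act p hHV h u) = h.1 * Φ u * h.1⁻¹ := by
  classical
  have hex : ∀ (h : H) (u : W), ∃ u', Φ u' = h.1 * Φ u * h.1⁻¹ :=
    fun h u => hB.surj _ (hHV h.1 h.2 _ (hB.mem u))
  exact Classical.choose_spec (hex h u)

variable (p) in
/-- The plane as a subgroup of `G`. -/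
def Pl (hB : Br V Φ) (w₁ w₂ : W) : Subgroup G where
  carrier := {g | ∃ c : Fin 2 → ZMod p, g = Φ (T w₁ w₂ c)}
  one_mem' := ⟨0, by simp [T, hB.zero]⟩
  mul_mem' := by
    rintro _ _ ⟨c, rfl⟩ ⟨d, rfl⟩
    exact ⟨c + d, by rw [T_add, hB.add]⟩
  inv_mem' := by
    rintro _ ⟨c, rfl⟩
    refine ⟨-c, ?_⟩
    rw [← hB.neg]
    congr 1
    simp only [T, Pi.neg_apply, neg_smul]
    abel

variable (p) in
theorem Pl_mem (hB : Br V Φ) {w₁ w₂ : W} {g : G} :
    g ∈ Pl p hB w₁ w₂ ↔ ∃ c : Fin 2 → ZMod p, g = Φ (T w₁ w₂ c) := Iff.rfl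

variable (p) in
theorem Pl_le (hB : Br V Φ) (w₁ w₂ : W) : Pl p hB w₁ w₂ ≤ V := by
  rintro _ ⟨c, rfl⟩
  exact hB.mem _

variable (hB : Br V Φ) (hHV : ∀ h ∈ H, ∀ v ∈ V, h * v * h⁻¹ ∈ V)
include hB

theorem card_Pl {a b : H} {w₁ w₂ : W} {μ : ZMod p} (h : PlaneRel (hB.act p hHV) a b w₁ w₂ μ) :
    Nat.card (Pl p hB w₁ w₂) = p ^ 2 := by
  let f : (Fin 2 → ZMod p) → Pl p hB w₁ w₂ := fun c => ⟨Φ (T w₁ w₂ c), c, rfl⟩
  have hf : Function.Bijective f := by
    constructor
    · intro c d e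
      have := congrArg Subtype.val e
      exact h.T_inj (hB.inj this)
    · rintro ⟨_, c, rfl⟩
      exact ⟨c, rfl⟩
  rw [← Nat.card_eq_of_bijective f hf]
  simp [Nat.card_pi]

theorem comm_eq {a b : H} {w₁ w₂ : W} {μ : ZMod p} (h : PlaneRel (hB.act p hHV) a b w₁ w₂ μ) :
    ⁅V, (Subgroup.closure ({a, b} : Set H)).map H.subtype⁆ = Pl p hB w₁ w₂ := by
  apply le_antisymm
  · rw [Subgroup.commutator_le]
    rintro v hv _ ⟨e, he, rfl⟩
    obtain ⟨u, rfl⟩ := hB.surj v hv
    obtain ⟨c, z, rfl, hz1, hz2⟩ := h.dec u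
    obtain ⟨M, hM⟩ := h.exists_matrix he
    have hact : hB.act p hHV e (T w₁ w₂ c + z) = T w₁ w₂ (M.1.mulVec c) + z := by
      rw [map_add, fixz hz1 hz2 he, hM]
    refine ⟨c - M.1.mulVec c, ?_⟩
    have e1 : ⁅Φ (T w₁ w₂ c + z), (H.subtype e)⁆ =
        Φ ((T w₁ w₂ c + z) - hB.act p hHV e (T w₁ w₂ c + z)) := by
      rw [hB.sub, hB.Φ_act (p := p) hHV, commutatorElement_def]
      show _ * e.1 * _ * e.1⁻¹ = _
      group
    rw [e1, hact]
    congr 1
    simp only [T, Pi.sub_apply, sub_smul]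
    abel
  · have hgen : ∀ g ∈ Subgroup.closure ({a, b} : Set H), ∀ u, Φ (hB.act p hHV g u - u) ∈
        ⁅V, (Subgroup.closure ({a, b} : Set H)).map H.subtype⁆ := by
      intro g hg u
      have h1 := Subgroup.commutator_mem_commutator (hB.mem u)
        (Subgroup.mem_map_of_mem H.subtype hg)
      have h2 := Subgroup.inv_mem _ h1
      have e1 : (⁅Φ u, H.subtype g⁆)⁻¹ = Φ (hB.act p hHV g u - u) := by
        rw [hB.sub, hB.Φ_act (p := p) hHV, commutatorElement_def]
        show (Φ u * g.1 * (Φ u)⁻¹ * g.1⁻¹)⁻¹ = _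
        group
      rwa [e1] at h2
    rintro _ ⟨c, rfl⟩
    have ha := hgen a (Subgroup.subset_closure (by simp)) (c 0 • w₂)
    have hb := hgen b (Subgroup.subset_closure (by simp)) ((c 1 / μ) • w₁)
    have e1 : (hB.act p hHV a) (c 0 • w₂) - c 0 • w₂ = c 0 • w₁ := by
      rw [map_smul, h.h2, smul_add]
      abel
    have e2 : (hB.act p hHV b) ((c 1 / μ) • w₁) - (c 1 / μ) • w₁ = c 1 • w₂ := by
      rw [map_smul, h.h4, smul_add, smul_smul, div_mul_cancel₀ _ h.hμ]
      abel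
    rw [e1] at ha
    rw [e2] at hb
    rw [T, hB.add]
    exact Subgroup.mul_mem _ ha hb

/-- an element of the group generated by `a, b` centralizing the plane is trivial -/
theorem eq_one_of_cent {a b : H} {w₁ w₂ : W} {μ : ZMod p} (h : PlaneRel (hB.act p hHV) a b w₁ w₂ μ)
    (r : Subgroup.closure ({a, b} : Set H) ≃* Matrix.SpecialLinearGroup (Fin 2) (ZMod p))
    (hr : ∀ (e : Subgroup.closure ({a, b} : Set H)) (c : Fin 2 → ZMod p),
        hB.act p hHV e.1 (T w₁ w₂ c) = T w₁ w₂ ((r e).1.mulVec c))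
    (e : Subgroup.closure ({a, b} : Set H)) (he : ((e.1 : H) : G) ∈ centralizer (Pl p hB w₁ w₂ : Set G)) : e = 1 := by
  apply r.injective
  rw [map_one]
  apply mat_ext
  intro c
  apply h.T_inj
  rw [← hr]
  apply hB.inj
  rw [hB.Φ_act (p := p) hHV]
  have h1 := mem_centralizer_iff.1 he (Φ (T w₁ w₂ c)) ⟨c, rfl⟩
  have h2 : (((e.1 : H) : G)) * Φ (T w₁ w₂ c) * ((e.1 : H) : G)⁻¹ = Φ (T w₁ w₂ c) := by
    rw [← h1]
    group
  rw [h2]
  simp

end B

/-- faithfulness etc. -/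
theorem ctx_of {V H : Subgroup G} {Φ : W → G} (hB : Br V Φ)
    (hS : Setup p V H ((Cfsg.pPrimeCore p ↥H).map H.subtype)) :
    Ctx (hB.act p hS.hHV) (Cfsg.pPrimeCore p ↥H) := by
  refine ⟨?_, ?_, Cfsg.Agent.Lib.FitCore.pPrimeCore_normal p⟩
  · intro g hg
    apply Subtype.ext
    apply hS.eq_one_of_mem g.2
    rw [mem_centralizer_iff]
    intro v hv
    obtain ⟨u, rfl⟩ := hB.surj v hv
    have h1 := hB.Φ_act (p := p) hS.hHV g u
    rw [hg u] at h1
    calc Φ u * g.1 = (g.1 * Φ u * g.1⁻¹) * g.1 := by rw [← h1]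
      _ = g.1 * Φ u := by group
  · intro y hy hyp
    apply Subtype.ext
    apply hS.eq_one_of_K (y := y.1) ⟨y, hy, rfl⟩
    have := congrArg Subtype.val hyp
    simpa using this

/-- Transvection data for a generator of a group of order `p` with fixed points of index `p`. -/
theorem tv_of {V H K A : Subgroup G} {Φ : W → G} (hB : Br V Φ) (hS : Setup p V H K) {a : G} (haH : a ∈ H)
    (hza : Subgroup.zpowers a = A) (hap : a ^ p = 1) (hrel : (V ⊓ centralizer (A : Set G)).relIndex V = p) :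
    ∃ w : W, Tv (hB.act p hS.hHV) (⟨a, haH⟩ : H) w := by
  have hp : p.Prime := Fact.out
  let a' : H := ⟨a, haH⟩
  have hfixiff : ∀ u, hB.act p hS.hHV a' u = u ↔ Φ u ∈ centralizer (A : Set G) := by
    intro u
    constructor
    · intro e
      have h1 := hB.Φ_act (p := p) hS.hHV a' u
      rw [e] at h1
      have h2 : Φ u * a = a * Φ u := by
        calc Φ u * a = (a * Φ u * a⁻¹) * a := by
              have : a * Φ u * a⁻¹ = Φ u := h1.symm
              rw [this]
          _ = a * Φ u := by group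
      have h3 : A ≤ centralizer ({Φ u} : Set G) := by
        rw [← hza, Subgroup.zpowers_le, mem_centralizer_singleton_iff]
        exact h2.symm
      rw [mem_centralizer_iff]
      intro b hb
      have := h3 hb
      rw [mem_centralizer_singleton_iff] at this
      exact this
    · intro e
      apply hB.inj
      rw [hB.Φ_act (p := p) hS.hHV]
      have h1 := mem_centralizer_iff.1 e a (hza ▸ Subgroup.mem_zpowers a)
      show a * Φ u * a⁻¹ = Φ u
      rw [h1]
      group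
  obtain ⟨v₀, hv₀, hv₀n⟩ : ∃ v₀ ∈ V, v₀ ∉ V ⊓ centralizer (A : Set G) := by
    by_contra hcon
    push Not at hcon
    have : (V ⊓ centralizer (A : Set G)).relIndex V = 1 := Subgroup.relIndex_eq_one.2 hcon
    rw [hrel] at this
    exact hp.one_lt.ne' this
  obtain ⟨u₀, rfl⟩ := hB.surj v₀ hv₀
  let w₀ : W := hB.act p hS.hHV a' u₀ - u₀
  have hw₀ : w₀ ≠ 0 := by
    intro e
    apply hv₀n
    refine ⟨hv₀, (hfixiff u₀).1 ?_⟩
    exact sub_eq_zero.1 e
  have hrk : ∀ u, ∃ c : ZMod p, hB.act p hS.hHV a' u = u + c • w₀ := by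
    intro u
    have h1 := hS.le_sup_zpowers (A := V) (B := V ⊓ centralizer (A : Set G)) inf_le_left hrel hv₀ hv₀n (hB.mem u)
    obtain ⟨h', hh', z, hz, e⟩ := Cfsg.Agent.Lib.LargeExtra.mem_sup_of_comm
      (A := V ⊓ centralizer (A : Set G)) (C := Subgroup.zpowers (Φ u₀))
      (fun x hx y hy => hS.hVc x hx.1 y ((Subgroup.zpowers_le.2 hv₀) hy)) h1
    obtain ⟨i, rfl⟩ := hz
    obtain ⟨uh, rfl⟩ := hB.surj h' hh'.1
    refine ⟨(i : ZMod p), ?_⟩
    have hu : u = uh + i • u₀ := by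
      apply hB.inj
      rw [hB.add, hB.zsmul, e]
    have hfix : hB.act p hS.hHV a' uh = uh := (hfixiff uh).2 hh'.2
    rw [hu, map_add, hfix, map_zsmul, Int.cast_smul_eq_zsmul]
    have : hB.act p hS.hHV a' u₀ = u₀ + w₀ := by
      show _ = u₀ + (hB.act p hS.hHV a' u₀ - u₀)
      abel
    rw [this, smul_add]
    abel
  have hfix : hB.act p hS.hHV a' w₀ = w₀ := by
    obtain ⟨c, hc⟩ := hrk w₀
    have hc' : hB.act p hS.hHV a' w₀ = (1 + c) • w₀ := by
      rw [hc, add_smul, one_smul]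
    have hn : ∀ n : ℕ, hB.act p hS.hHV (a' ^ n) w₀ = (1 + c) ^ n • w₀ := by
      intro n
      induction n with
      | zero => simp
      | succ n ih =>
        rw [pow_succ, map_mul]
        show hB.act p hS.hHV (a' ^ n) (hB.act p hS.hHV a' w₀) = _
        rw [hc', map_smul, ih, smul_smul, pow_succ, mul_comm]
    have h1 := hn p
    have h2 : a' ^ p = 1 := Subtype.ext hap
    rw [h2, map_one, ZMod.pow_card] at h1
    rw [hc']
    exact h1.symm
  exact ⟨w₀, hw₀, hfix, hrk⟩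

end Cfsg.Agent.Lib.BestOffBridge
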