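import Mathlib
import Cfsg.Prelude
import Cfsg.Agent.Lib.BestOffPlane

/-! Two transvections in a group with a self-centralizing `p'`-core either commute on the plane of one
of them or lie in the same `SL₂(p)`. -/

set_option autoImplicit false
set_option linter.all false

namespace Cfsg.Agent.Lib.BestOffPlane

open Matrix

set_option maxRecDepth 100000 in
theorem span2 [i : Fact (Nat.Prime 2)] (μ : ZMod 2) (hμ : μ ≠ 0) :
    ∀ c : Fin 2 → ZMod 2, c ≠ 0 → ∀ e : Fin 2 → ZMod 2, ∃ n₁ n₂ : ZMod 2,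
      e = n₁ • (((Lw μ * U (-1)).1).mulVec c - c) + n₂ • (((Lw μ * U (-1)) * (Lw μ * U (-1))).1.mulVec c - c) := by
  obtain ⟨h⟩ := i
  have e : h = Nat.prime_two := rfl
  subst e
  revert μ
  decide

set_option maxRecDepth 100000 in
theorem span3 [i : Fact (Nat.Prime 3)] :
    ∀ c : Fin 2 → ZMod 3, c ≠ 0 → ∀ e : Fin 2 → ZMod 3, ∃ n₁ n₂ : ZMod 3,
      e = n₁ • (((Lw 2 * U (-1)).1).mulVec c - c) + n₂ • (((Lw 2 * U (-1)) * (Lw 2 * U (-1))).1.mulVec c - c) := by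
  obtain ⟨h⟩ := i
  have e : h = Nat.prime_three := rfl
  subst e
  decide

theorem mu3a [i : Fact (Nat.Prime 3)] : ((Lw 1 * U (-1)) * (Lw 1 * U (-1))) ^ 3 = (1 : SpecialLinearGroup (Fin 2) (ZMod 3)) := by
  obtain ⟨h⟩ := i
  have e : h = Nat.prime_three := rfl
  subst e
  decide

theorem mu3b [i : Fact (Nat.Prime 3)] : ((Lw 1 * U (-1)) * (Lw 1 * U (-1))) ≠ (1 : SpecialLinearGroup (Fin 2) (ZMod 3)) := by
  obtain ⟨h⟩ := i
  have e : h = Nat.prime_three := rfl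
  subst e
  decide

theorem zmod3_cases : ∀ μ : ZMod 3, μ ≠ 0 → μ ≠ 2 → μ = 1 := by decide

variable {p : ℕ} [Fact p.Prime] {W Γ : Type*} [AddCommGroup W] [Module (ZMod p) W] [Group Γ]

theorem U_inv : (U 1 : SpecialLinearGroup (Fin 2) (ZMod p))⁻¹ = U (-1) := by
  apply inv_eq_of_mul_eq_one_right
  rw [U_mul]
  simp [U_zero]

theorem T_zero (w₁ w₂ : W) : T w₁ w₂ (0 : Fin 2 → ZMod p) = 0 := by
  simp [T]

theorem T_sub (w₁ w₂ : W) (c d : Fin 2 → ZMod p) : T w₁ w₂ (c - d) = T w₁ w₂ c - T w₁ w₂ d := by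
  simp only [T, Pi.sub_apply, sub_smul]
  abel

theorem T_smul (w₁ w₂ : W) (n : ZMod p) (c : Fin 2 → ZMod p) : T w₁ w₂ (n • c) = n • T w₁ w₂ c := by
  simp only [T, Pi.smul_apply, smul_eq_mul, mul_smul, smul_add]

section

variable {act : Γ →* Module.End (ZMod p) W} {a b : Γ} {w₁ w₂ : W} {μ : ZMod p}

theorem PlaneRel.fix_zero (h : PlaneRel act a b w₁ w₂ μ) {c : Fin 2 → ZMod p} (h1 : act a (T w₁ w₂ c) = T w₁ w₂ c)
    (h2 : act b (T w₁ w₂ c) = T w₁ w₂ c) : c = 0 := by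
  have ha : act a (T w₁ w₂ c) = T w₁ w₂ c + c 1 • w₁ := by
    simp only [T, map_add, map_smul, h.ta.fix, h.h2, smul_add]
    abel
  have hb : act b (T w₁ w₂ c) = T w₁ w₂ c + (c 0 * μ) • w₂ := by
    simp only [T, map_add, map_smul, h.tb.fix, h.h4, smul_add, smul_smul]
    abel
  rw [h1] at ha
  rw [h2] at hb
  have h3 : c 1 • w₁ = 0 := by simpa using ha.symm
  have h4 : (c 0 * μ) • w₂ = 0 := by simpa using hb.symm
  have h5 : c 1 = 0 := (smul_eq_zero.1 h3).resolve_right h.ta.ne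
  have h6 : c 0 * μ = 0 := (smul_eq_zero.1 h4).resolve_right h.tb.ne
  have h7 : c 0 = 0 := (mul_eq_zero.1 h6).resolve_right h.hμ
  ext i
  fin_cases i
  · exact h7
  · exact h5

/-- a vector count -/
theorem PlaneRel.card_fix [Finite W] (h : PlaneRel act a b w₁ w₂ μ) :
    Nat.card W = p ^ 2 * Nat.card {v : W // act a v = v ∧ act b v = v} := by
  let f : (Fin 2 → ZMod p) × {v : W // act a v = v ∧ act b v = v} → W := fun x => T w₁ w₂ x.1 + x.2.1
  have hf : Function.Bijective f := by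
    constructor
    · rintro ⟨c, z⟩ ⟨d, z'⟩ e
      have e' : T w₁ w₂ c + z.1 = T w₁ w₂ d + z'.1 := e
      have h1 : T w₁ w₂ (c - d) = z'.1 - z.1 := by
        rw [T_sub]
        rw [sub_eq_sub_iff_add_eq_add, e', add_comm]
      have h2 : c - d = 0 := by
        apply h.fix_zero
        · rw [h1, map_sub, z.2.1, z'.2.1]
        · rw [h1, map_sub, z.2.2, z'.2.2]
      have h3 : c = d := sub_eq_zero.1 h2
      subst h3
      have h4 : z.1 = z'.1 := add_left_cancel e'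
      exact Prod.ext rfl (Subtype.ext h4)
    · intro v
      obtain ⟨c, z, rfl, h1, h2⟩ := h.dec v
      exact ⟨(c, ⟨z, h1, h2⟩), rfl⟩
  rw [← Nat.card_eq_of_bijective f hf, Nat.card_prod]
  congr 1
  simp [Nat.card_pi]

theorem PlaneRel.r_a (h : PlaneRel act a b w₁ w₂ μ)
    (r : Subgroup.closure ({a, b} : Set Γ) ≃* SpecialLinearGroup (Fin 2) (ZMod p))
    (hr : ∀ (e : Subgroup.closure ({a, b} : Set Γ)) (c : Fin 2 → ZMod p),
        act e.1 (T w₁ w₂ c) = T w₁ w₂ ((r e).1.mulVec c)) (ha : a ∈ Subgroup.closure ({a, b} : Set Γ)) :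
    r ⟨a, ha⟩ = U 1 := by
  apply mat_ext
  intro c
  apply h.T_inj
  rw [← hr ⟨a, ha⟩ c]
  exact h.T_U c

theorem PlaneRel.r_b (h : PlaneRel act a b w₁ w₂ μ)
    (r : Subgroup.closure ({a, b} : Set Γ) ≃* SpecialLinearGroup (Fin 2) (ZMod p))
    (hr : ∀ (e : Subgroup.closure ({a, b} : Set Γ)) (c : Fin 2 → ZMod p),
        act e.1 (T w₁ w₂ c) = T w₁ w₂ ((r e).1.mulVec c)) (hb : b ∈ Subgroup.closure ({a, b} : Set Γ)) :
    r ⟨b, hb⟩ = Lw μ := by
  apply mat_ext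
  intro c
  apply h.T_inj
  rw [← hr ⟨b, hb⟩ c]
  exact h.T_L c

end

variable {act : Γ →* Module.End (ZMod p) W} {K : Subgroup Γ} {a b : Γ} {w₁ w₂ : W} {μ : ZMod p}

/-- The span property of the matrix of `b a⁻¹`. -/
theorem Ctx.span (hC : Ctx act K) (h : PlaneRel act a b w₁ w₂ μ) (hab : a⁻¹ * b ∈ K) (hap : a ^ p = 1)
    (r : Subgroup.closure ({a, b} : Set Γ) ≃* SpecialLinearGroup (Fin 2) (ZMod p))
    (hr : ∀ (e : Subgroup.closure ({a, b} : Set Γ)) (c : Fin 2 → ZMod p),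
        act e.1 (T w₁ w₂ c) = T w₁ w₂ ((r e).1.mulVec c)) :
    ∀ c : Fin 2 → ZMod p, c ≠ 0 → ∀ e : Fin 2 → ZMod p, ∃ n₁ n₂ : ZMod p,
      e = n₁ • (((Lw μ * U (-1)).1).mulVec c - c) + n₂ • (((Lw μ * U (-1)) * (Lw μ * U (-1))).1.mulVec c - c) := by
  have hn := hC.hKn
  have ha : a ∈ Subgroup.closure ({a, b} : Set Γ) := Subgroup.subset_closure (by simp)
  have hb : b ∈ Subgroup.closure ({a, b} : Set Γ) := Subgroup.subset_closure (by simp)
  have hra := h.r_a r hr ha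
  have hrb := h.r_b r hr hb
  have htK : b * a⁻¹ ∈ K := by
    have := hn.conj_mem _ hab a
    have e : a * (a⁻¹ * b) * a⁻¹ = b * a⁻¹ := by group
    rwa [e] at this
  let tE : Subgroup.closure ({a, b} : Set Γ) := ⟨b, hb⟩ * ⟨a, ha⟩⁻¹
  have hrt : r tE = Lw μ * U (-1) := by
    show r (⟨b, hb⟩ * (⟨a, ha⟩ : Subgroup.closure ({a, b} : Set Γ))⁻¹) = _
    rw [map_mul, map_inv, hra, hrb, U_inv]
  rcases hC.p23 h hab hap with rfl | rfl
  · exact span2 μ h.hμ
  · have hμ2 : μ = 2 := by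
      by_contra hne
      have hμ1 : μ = 1 := by
        exact zmod3_cases μ h.hμ hne
      subst hμ1
      have h1 : (tE * tE) ^ 3 = 1 := by
        apply r.injective
        rw [map_pow, map_mul, hrt, map_one]
        exact mu3a
      have h2 : (tE.1 * tE.1) ^ 3 = 1 := by
        have := congrArg Subtype.val h1
        simpa using this
      have h3 : tE.1 * tE.1 = 1 := hC.hK _ (K.mul_mem htK htK) h2
      have h4 : tE * tE = 1 := Subtype.ext h3
      have h5 := congrArg r h4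
      rw [map_mul, hrt, map_one] at h5
      exact mu3b h5
    subst hμ2
    exact span3

/-- The dichotomy. -/
theorem Ctx.dich [Finite W] (hC : Ctx act K) (h : PlaneRel act a b w₁ w₂ μ) (hab : a⁻¹ * b ∈ K) (hap : a ^ p = 1)
    (r : Subgroup.closure ({a, b} : Set Γ) ≃* SpecialLinearGroup (Fin 2) (ZMod p))
    (hr : ∀ (e : Subgroup.closure ({a, b} : Set Γ)) (c : Fin 2 → ZMod p),
        act e.1 (T w₁ w₂ c) = T w₁ w₂ ((r e).1.mulVec c))
    {d d' : Γ} {w₁' w₂' : W} {μ' : ZMod p} (h' : PlaneRel act d d' w₁' w₂' μ') (hab' : d⁻¹ * d' ∈ K) (hdp : d ^ p = 1)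
    (r' : Subgroup.closure ({d, d'} : Set Γ) ≃* SpecialLinearGroup (Fin 2) (ZMod p))
    (hr' : ∀ (e : Subgroup.closure ({d, d'} : Set Γ)) (c : Fin 2 → ZMod p),
        act e.1 (T w₁' w₂' c) = T w₁' w₂' ((r' e).1.mulVec c))
    (hmove : ∃ c : Fin 2 → ZMod p, act d (T w₁ w₂ c) ≠ T w₁ w₂ c) :
    d ∈ Subgroup.closure ({a, b} : Set Γ) := by
  classical
  have hp : p.Prime := Fact.out
  have hn := hC.hKn
  have hM := hC.span h hab hap r hr
  have ha : a ∈ Subgroup.closure ({a, b} : Set Γ) := Subgroup.subset_closure (by simp)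
  have hb : b ∈ Subgroup.closure ({a, b} : Set Γ) := Subgroup.subset_closure (by simp)
  have hra := h.r_a r hr ha
  have hrb := h.r_b r hr hb
  have htK : b * a⁻¹ ∈ K := by
    have := hn.conj_mem _ hab a
    have e : a * (a⁻¹ * b) * a⁻¹ = b * a⁻¹ := by group
    rwa [e] at this
  let tE : Subgroup.closure ({a, b} : Set Γ) := ⟨b, hb⟩ * ⟨a, ha⟩⁻¹
  have hrt : r tE = Lw μ * U (-1) := by
    show r (⟨b, hb⟩ * (⟨a, ha⟩ : Subgroup.closure ({a, b} : Set Γ))⁻¹) = _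
    rw [map_mul, map_inv, hra, hrb, U_inv]
  have htE : tE.1 ∈ K := htK
  have htE2 : (tE * tE).1 ∈ K := K.mul_mem htK htK
  have hrt2 : r (tE * tE) = (Lw μ * U (-1)) * (Lw μ * U (-1)) := by rw [map_mul, hrt]
  -- `d` fixes the `K`-conjugates of vectors fixed by `E_d`
  have key1 : ∀ t : Γ, t ∈ K → ∀ v, act d v = v → act d' v = v → act d (act t v) = act t v := by
    intro t ht v h1 h2
    have h3 := hC.conj_mem h' hab' hdp r' hr' h'.ta (K.inv_mem ht)
    have h4 := fixz h1 h2 h3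
    have e : d * t = t * (t⁻¹ * d * t⁻¹⁻¹) := by group
    calc act d (act t v) = act (d * t) v := (act_mul act d t v).symm
      _ = act (t * (t⁻¹ * d * t⁻¹⁻¹)) v := by rw [← e]
      _ = act t (act (t⁻¹ * d * t⁻¹⁻¹) v) := act_mul act _ _ v
      _ = act t v := by rw [h4]
  -- fixed points
  have hact_E : ∀ (t : Subgroup.closure ({a, b} : Set Γ)) (c : Fin 2 → ZMod p) (z : W), act a z = z → act b z = z →
      act t.1 (T w₁ w₂ c + z) = T w₁ w₂ ((r t).1.mulVec c) + z := by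
    intro t c z h1 h2
    rw [map_add, hr, fixz h1 h2 t.2]
  have hfix_sub : ∀ v, act d v = v → act d' v = v → act a v = v ∧ act b v = v := by
    intro v h1 h2
    obtain ⟨c, z, rfl, hz1, hz2⟩ := h.dec v
    by_cases hc : c = 0
    · subst hc
      rw [T_zero (p := p), zero_add]
      exact ⟨hz1, hz2⟩
    · exfalso
      have h3 : ∀ t : Subgroup.closure ({a, b} : Set Γ), t.1 ∈ K →
          act d (T w₁ w₂ ((r t).1.mulVec c - c)) = T w₁ w₂ ((r t).1.mulVec c - c) := by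
        intro t ht
        have h4 := key1 t.1 ht _ h1 h2
        rw [hact_E t c z hz1 hz2] at h4
        have h5 : T w₁ w₂ ((r t).1.mulVec c - c) = (T w₁ w₂ ((r t).1.mulVec c) + z) - (T w₁ w₂ c + z) := by
          rw [T_sub]
          abel
        rw [h5, map_sub, h4, h1]
      have h4 : ∀ e : Fin 2 → ZMod p, act d (T w₁ w₂ e) = T w₁ w₂ e := by
        intro e
        obtain ⟨n₁, n₂, rfl⟩ := hM c hc e
        have h5 := h3 tE htE
        have h6 := h3 (tE * tE) htE2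
        rw [hrt] at h5
        rw [hrt2] at h6
        rw [T_add, T_smul, T_smul, map_add, map_smul, map_smul, h5, h6]
      obtain ⟨e, he⟩ := hmove
      exact he (h4 e)
  -- equality of the fixed points by counting
  have hfixC : ∀ z, act a z = z → act b z = z → act d z = z ∧ act d' z = z := by
    have hc1 := h.card_fix
    have hc2 := h'.card_fix
    have hc3 : Nat.card {v : W // act a v = v ∧ act b v = v} = Nat.card {v : W // act d v = v ∧ act d' v = v} := by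
      have hpos : 0 < p ^ 2 := pow_pos hp.pos 2
      exact Nat.eq_of_mul_eq_mul_left hpos (hc1.symm.trans hc2)
    let ι : {v : W // act d v = v ∧ act d' v = v} → {v : W // act a v = v ∧ act b v = v} :=
      fun v => ⟨v.1, hfix_sub v.1 v.2.1 v.2.2⟩
    have hι : Function.Injective ι := by
      intro x y e
      exact Subtype.ext (congrArg (fun z : {v : W // act a v = v ∧ act b v = v} => z.1) e)
    have hbij := hι.bijective_of_nat_card_le hc3.le
    intro z h1 h2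
    obtain ⟨y, hy⟩ := hbij.2 ⟨z, h1, h2⟩
    have : y.1 = z := congrArg (fun z : {v : W // act a v = v ∧ act b v = v} => z.1) hy
    rw [← this]
    exact y.2
  -- the plane of `d`
  let Pd : W → Prop := fun y => ∃ c' : Fin 2 → ZMod p, y = T w₁' w₂' c'
  have hPd_add : ∀ x y, Pd x → Pd y → Pd (x + y) := by
    rintro _ _ ⟨c, rfl⟩ ⟨c', rfl⟩
    exact ⟨c + c', (T_add _ _ _ _).symm⟩
  have hPd_sub : ∀ x y, Pd x → Pd y → Pd (x - y) := by
    rintro _ _ ⟨c, rfl⟩ ⟨c', rfl⟩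
    exact ⟨c - c', (T_sub _ _ _ _).symm⟩
  have hPd_smul : ∀ (n : ZMod p) x, Pd x → Pd (n • x) := by
    rintro n _ ⟨c, rfl⟩
    exact ⟨n • c, (T_smul _ _ _ _).symm⟩
  have hPd1 : Pd w₁' := ⟨![1, 0], by simp [T]⟩
  have hpd : ∀ t : Γ, t ∈ K → Pd (act t w₁') := by
    intro t ht
    have hg := hC.conj_mem h' hab' hdp r' hr' h'.ta ht
    obtain ⟨c', z', he, hz1, hz2⟩ := h'.dec (act t w₂')
    obtain ⟨N, hN⟩ := h'.exists_matrix hg
    have h1 : act (t * d * t⁻¹) (act t w₂') = act t w₂' + act t w₁' := by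
      rw [act_mul, act_mul, act_inv_act, h'.h2, map_add]
    have h2 : act t w₁' = act (t * d * t⁻¹) (act t w₂') - act t w₂' := by
      rw [h1]
      abel
    rw [h2, he, map_add, fixz hz1 hz2 hg, hN]
    refine ⟨N.1.mulVec c' - c', ?_⟩
    rw [T_sub]
    abel
  obtain ⟨c, z₀, hw, hz1, hz2⟩ := h.dec w₁'
  have hc0 : c ≠ 0 := by
    rintro rfl
    rw [T_zero (p := p), zero_add] at hw
    have h1 := (hfixC z₀ hz1 hz2).2
    rw [← hw, h'.h4] at h1
    have h2 : μ' • w₂' = 0 := by simpa using h1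
    exact (smul_ne_zero h'.hμ h'.tb.ne) h2
  have hdiff : ∀ t : Subgroup.closure ({a, b} : Set Γ), t.1 ∈ K → Pd (T w₁ w₂ ((r t).1.mulVec c - c)) := by
    intro t ht
    have h1 := hpd t.1 ht
    rw [hw, hact_E t c z₀ hz1 hz2] at h1
    have h2 : T w₁ w₂ ((r t).1.mulVec c - c) = (T w₁ w₂ ((r t).1.mulVec c) + z₀) - (T w₁ w₂ c + z₀) := by
      rw [T_sub]
      abel
    rw [h2]
    exact hPd_sub _ _ h1 (hw ▸ hPd1)
  have hPall : ∀ e : Fin 2 → ZMod p, Pd (T w₁ w₂ e) := by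
    intro e
    obtain ⟨n₁, n₂, rfl⟩ := hM c hc0 e
    have h5 := hdiff tE htE
    have h6 := hdiff (tE * tE) htE2
    rw [hrt] at h5
    rw [hrt2] at h6
    rw [T_add, T_smul, T_smul]
    exact hPd_add _ _ (hPd_smul _ _ h5) (hPd_smul _ _ h6)
  have hz0 : z₀ = 0 := by
    have h1 : Pd z₀ := by
      have e : z₀ = w₁' - T w₁ w₂ c := by rw [hw]; abel
      rw [e]
      exact hPd_sub _ _ hPd1 (hPall c)
    obtain ⟨c'', hc''⟩ := h1
    have h2 := hfixC z₀ hz1 hz2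
    rw [hc''] at h2
    have h3 := h'.fix_zero h2.1 h2.2
    rw [hc'', h3, T_zero (p := p)]
  rw [hz0, add_zero] at hw
  -- the matrix of `d`
  obtain ⟨κ₁, hκ₁⟩ := h'.ta.rk w₁
  obtain ⟨κ₂, hκ₂⟩ := h'.ta.rk w₂
  have hactd : ∀ e : Fin 2 → ZMod p, act d (T w₁ w₂ e) = T w₁ w₂ e + (e 0 * κ₁ + e 1 * κ₂) • w₁' := by
    intro e
    simp only [T, map_add, map_smul, hκ₁, hκ₂, smul_add, add_smul, smul_smul]
    abel
  have hκ : c 0 * κ₁ + c 1 * κ₂ = 0 := by
    have h1 := hactd c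
    rw [← hw, h'.ta.fix] at h1
    have h2 : (c 0 * κ₁ + c 1 * κ₂) • w₁' = 0 := by simpa using h1.symm
    exact (smul_eq_zero.1 h2).resolve_right h'.ta.ne
  let N : SpecialLinearGroup (Fin 2) (ZMod p) :=
    ⟨!![1 + κ₁ * c 0, κ₂ * c 0; κ₁ * c 1, 1 + κ₂ * c 1], by
      rw [Matrix.det_fin_two_of]
      linear_combination hκ⟩
  have hN : ∀ e : Fin 2 → ZMod p, T w₁ w₂ (N.1.mulVec e) = T w₁ w₂ e + (e 0 * κ₁ + e 1 * κ₂) • w₁' := by
    intro e
    have e0 : (N.1.mulVec e) 0 = e 0 + (e 0 * κ₁ + e 1 * κ₂) * c 0 := by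
      show (!![1 + κ₁ * c 0, κ₂ * c 0; κ₁ * c 1, 1 + κ₂ * c 1] : Matrix (Fin 2) (Fin 2) (ZMod p)).mulVec e 0 = _
      simp [Matrix.mulVec, dotProduct, Fin.sum_univ_two]
      ring
    have e1 : (N.1.mulVec e) 1 = e 1 + (e 0 * κ₁ + e 1 * κ₂) * c 1 := by
      show (!![1 + κ₁ * c 0, κ₂ * c 0; κ₁ * c 1, 1 + κ₂ * c 1] : Matrix (Fin 2) (Fin 2) (ZMod p)).mulVec e 1 = _
      simp [Matrix.mulVec, dotProduct, Fin.sum_univ_two]
      ring
    rw [hw]
    simp only [T, e0, e1, add_smul, mul_smul, smul_add]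
    abel
  let e' := r.symm N
  have hact' : ∀ v, act e'.1 v = act d v := by
    intro v
    obtain ⟨e, z, rfl, hz1', hz2'⟩ := h.dec v
    rw [map_add, map_add, fixz hz1' hz2' e'.2, (hfixC z hz1' hz2').1, hr, MulEquiv.apply_symm_apply, hN, hactd]
  have heq : e'.1⁻¹ * d = 1 := by
    apply hC.faith
    intro v
    rw [act_mul, ← hact', act_inv_act]
  have hde : e'.1 = d := (inv_mul_eq_one.1 heq)
  rw [← hde]
  exact e'.2

end Cfsg.Agent.Lib.BestOffPlane
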