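import Mathlib
import Cfsg.Prelude
import Cfsg.Agent.Lib.BestOffBridge

/-! Minimal best offenders: the group generated by two conjugates is `SL₂(p)`. -/

set_option autoImplicit false
set_option linter.all false

namespace Cfsg.Agent.Lib.BestOffMain

open Subgroup Cfsg.Agent.Lib.BestOff Cfsg.Agent.Lib.BestOffPlane Cfsg.Agent.Lib.BestOffBridge
open scoped commutatorElement

universe u

variable {G : Type u} [Group G] [Finite G] {p : ℕ} [Fact p.Prime]

/-- A linear model of an elementary abelian subgroup. -/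
theorem exists_model (V : Subgroup G) (hV : Cfsg.IsElementaryAbelian p V) :
    ∃ (W : Type u) (_ : AddCommGroup W) (_ : Module (ZMod p) W) (Φ : W → G), Br V Φ := by
  have hc : ∀ a b : V, a * b = b * a := fun a b => hV.1.is_comm.comm a b
  letI cg : CommGroup V := { (inferInstance : Group V) with mul_comm := hc }
  letI mod : Module (ZMod p) (Additive V) := AddCommGroup.zmodModule (by
    intro x
    apply Additive.toMul.injective
    apply Subtype.ext
    exact hV.2 _ (Additive.toMul x).2)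
  refine ⟨Additive V, inferInstance, mod, fun u => (Additive.toMul u : V).1, ⟨?_, ?_, ?_, ?_⟩⟩
  · intro u v
    rfl
  · intro u v e
    exact Additive.toMul.injective (Subtype.ext e)
  · intro u
    exact (Additive.toMul u : V).2
  · intro v hv
    exact ⟨Additive.ofMul ⟨v, hv⟩, rfl⟩

/-- Numerical data of a minimal best offender. -/
theorem min_data {V H A : Subgroup G} (hS : Setup p V H ((Cfsg.pPrimeCore p ↥H).map H.subtype))
    (hf : H ⊓ Subgroup.centralizer (V : Set G) = ⊥) (hAH : A ≤ H) (hA : Cfsg.IsBestOffenderOn p V A) (hAV : ⁅V, A⁆ ≠ ⊥)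
    (hmin : ∀ B : Subgroup G, B ≤ A → Cfsg.IsBestOffenderOn p V B → ⁅V, B⁆ ≠ ⊥ → B = A) :
    El p H A ∧ Nat.card A = p ∧ (V ⊓ centralizer (A : Set G)).relIndex V = p := by
  have hEl := el_of (p := p) V H A hf hAH hA
  have hd : dl V A = Nat.card V := by
    apply le_antisymm (hS.dl_le hEl)
    have := hA.1 ⊥ bot_le
    rw [← dl_bot]
    exact this
  have hc := hS.card_min hEl hA hAV hmin
  refine ⟨hEl, hc, ?_⟩
  have hp : p.Prime := Fact.out
  have h1 := Subgroup.relIndex_mul_relIndex (⊥ : Subgroup G) (V ⊓ Subgroup.centralizer (A : Set G)) V bot_le inf_le_left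
  rw [Subgroup.relIndex_bot_left, Subgroup.relIndex_bot_left] at h1
  unfold dl at hd
  rw [hc] at hd
  rw [← hd, mul_comm p] at h1
  exact Nat.eq_of_mul_eq_mul_left Nat.card_pos h1

variable {W : Type*} [AddCommGroup W] [Module (ZMod p) W]

/-- Everything about the pair `a, x a x⁻¹`. -/
theorem exists_plane_data {V H A : Subgroup G} {Φ : W → G} (hB : Br V Φ)
    (hS : Setup p V H ((Cfsg.pPrimeCore p ↥H).map H.subtype)) (hA : El p H A) (hc : Nat.card A = p)
    (hrel : (V ⊓ centralizer (A : Set G)).relIndex V = p) {a : G} (ha : a ∈ A) (ha1 : a ≠ 1)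
    {x : H} (hx : x ∈ Cfsg.pPrimeCore p ↥H) (hxA : x.1 ∉ centralizer (A : Set G)) :
    ∃ (haH : a ∈ H) (w₁ w₂ : W) (μ : ZMod p),
      Subgroup.zpowers a = A ∧
      PlaneRel (hB.act p hS.hHV) (⟨a, haH⟩ : H) (x * ⟨a, haH⟩ * x⁻¹) w₁ w₂ μ ∧
      (⟨a, haH⟩ : H)⁻¹ * (x * ⟨a, haH⟩ * x⁻¹) ∈ Cfsg.pPrimeCore p ↥H ∧
      (∃ w, Tv (hB.act p hS.hHV) (⟨a, haH⟩ : H) w) ∧
      A ⊔ A.map (MulAut.conj x.1).toMonoidHom =
        (Subgroup.closure ({(⟨a, haH⟩ : H), x * ⟨a, haH⟩ * x⁻¹} : Set H)).map H.subtype := by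
  have haH := hA.le ha
  have hza : Subgroup.zpowers a = A :=
    Setup.eq_of_card_prime hS hc (Subgroup.zpowers_le.2 ha) (fun e => ha1 (Subgroup.zpowers_eq_bot.1 e))
  have hap := hA.exp a ha
  have hctx := ctx_of hB hS
  obtain ⟨w, ht⟩ := tv_of hB hS haH hza hap hrel
  have hap' : (⟨a, haH⟩ : H) ^ p = 1 := Subtype.ext hap
  have hne : x * (⟨a, haH⟩ : H) * x⁻¹ ≠ ⟨a, haH⟩ := by
    intro e
    apply hxA
    have e1 : x.1 * a * x.1⁻¹ = a := congrArg Subtype.val e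
    have e2 : A ≤ centralizer ({x.1} : Set G) := by
      rw [← hza, Subgroup.zpowers_le, mem_centralizer_singleton_iff]
      calc a * x.1 = (x.1 * a * x.1⁻¹) * x.1 := by rw [e1]
        _ = x.1 * a := by group
    rw [mem_centralizer_iff]
    intro b hb
    have := e2 hb
    rw [mem_centralizer_singleton_iff] at this
    exact this
  obtain ⟨w₁, w₂, μ, h⟩ := hctx.exists_plane ht hap' hx hne
  have hab : (⟨a, haH⟩ : H)⁻¹ * (x * ⟨a, haH⟩ * x⁻¹) ∈ Cfsg.pPrimeCore p ↥H := by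
    have hn := hctx.hKn
    have e1 : (⟨a, haH⟩ : H)⁻¹ * (x * ⟨a, haH⟩ * x⁻¹) = ((⟨a, haH⟩ : H)⁻¹ * x * (⟨a, haH⟩ : H)⁻¹⁻¹) * x⁻¹ := by group
    rw [e1]
    exact Subgroup.mul_mem _ (hn.conj_mem _ hx _) (Subgroup.inv_mem _ hx)
  refine ⟨haH, w₁, w₂, μ, hza, h, hab, ⟨w, ht⟩, ?_⟩
  apply le_antisymm
  · apply sup_le
    · rw [← hza, Subgroup.zpowers_le]
      exact ⟨⟨a, haH⟩, Subgroup.subset_closure (by simp), rfl⟩
    · rw [← hza, MonoidHom.map_zpowers, Subgroup.zpowers_le]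
      exact ⟨x * ⟨a, haH⟩ * x⁻¹, Subgroup.subset_closure (by simp), rfl⟩
  · rw [MonoidHom.map_closure, Subgroup.closure_le]
    rintro _ ⟨y, hy, rfl⟩
    rcases hy with rfl | hy
    · exact Subgroup.mem_sup_left ha
    · rw [Set.mem_singleton_iff] at hy
      subst hy
      exact Subgroup.mem_sup_right ⟨a, ha, rfl⟩

/-- Statement S0613 in the linear model. -/
theorem s0613 {V H A : Subgroup G} {Φ : W → G} (hB : Br V Φ)
    (hS : Setup p V H ((Cfsg.pPrimeCore p ↥H).map H.subtype)) (hA : El p H A) (hc : Nat.card A = p)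
    (hrel : (V ⊓ centralizer (A : Set G)).relIndex V = p) {x : G}
    (hx : x ∈ ((Cfsg.pPrimeCore p ↥H).map H.subtype)) (hxA : x ∉ Subgroup.centralizer (A : Set G)) :
    (p = 2 ∨ p = 3) ∧ Nat.card ↥(⁅V, A ⊔ A.map (MulAut.conj x).toMonoidHom⁆) = p ^ 2 ∧
      (A ⊔ A.map (MulAut.conj x).toMonoidHom) ⊓
        Subgroup.centralizer ((⁅V, A ⊔ A.map (MulAut.conj x).toMonoidHom⁆ : Subgroup G) : Set G) = ⊥ ∧
      Nonempty (↥(A ⊔ A.map (MulAut.conj x).toMonoidHom) ≃* Matrix.SpecialLinearGroup (Fin 2) (ZMod p)) := by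
  have hp : p.Prime := Fact.out
  obtain ⟨x', hx', rfl⟩ := hx
  have hAne : A ≠ ⊥ := by
    rintro rfl
    rw [Subgroup.card_bot] at hc
    exact hp.one_lt.ne hc
  obtain ⟨a, ha, ha1⟩ := (Subgroup.bot_or_exists_ne_one A).resolve_left hAne
  obtain ⟨haH, w₁, w₂, μ, hza, h, hab, -, hL⟩ := exists_plane_data hB hS hA hc hrel ha ha1 hx' hxA
  have hctx := ctx_of hB hS
  have hap' : (⟨a, haH⟩ : H) ^ p = 1 := Subtype.ext (hA.exp a ha)
  obtain ⟨r, hr⟩ := h.exists_iso hctx.faith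
  show (p = 2 ∨ p = 3) ∧ Nat.card ↥(⁅V, A ⊔ A.map (MulAut.conj x'.1).toMonoidHom⁆) = p ^ 2 ∧
      (A ⊔ A.map (MulAut.conj x'.1).toMonoidHom) ⊓
        Subgroup.centralizer ((⁅V, A ⊔ A.map (MulAut.conj x'.1).toMonoidHom⁆ : Subgroup G) : Set G) = ⊥ ∧
      Nonempty (↥(A ⊔ A.map (MulAut.conj x'.1).toMonoidHom) ≃* Matrix.SpecialLinearGroup (Fin 2) (ZMod p))
  refine ⟨hctx.p23 h hab hap', ?_, ?_, ?_⟩
  · rw [hL, comm_eq hB hS.hHV h, card_Pl hB hS.hHV h]
  · rw [hL, comm_eq hB hS.hHV h, eq_bot_iff]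
    rintro y ⟨⟨e, he, rfl⟩, hyc⟩
    have := eq_one_of_cent hB hS.hHV h r hr ⟨e, he⟩ hyc
    have h1 : e = 1 := congrArg Subtype.val this
    rw [h1]
    exact Subgroup.one_mem _
  · exact ⟨(MulEquiv.subgroupCongr hL).trans
      ((Subgroup.equivMapOfInjective _ _ (Subgroup.subtype_injective H)).symm.trans r)⟩

end Cfsg.Agent.Lib.BestOffMain
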