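import Mathlib
import Cfsg.Prelude
import Cfsg.Agent.Lib.BestOffMain

/-! The subgroup `[K, A]` for a minimal best offender `A`. -/

set_option autoImplicit false
set_option linter.all false

namespace Cfsg.Agent.Lib.BestOffE

open Subgroup Cfsg.Agent.Lib.BestOff Cfsg.Agent.Lib.BestOffPlane Cfsg.Agent.Lib.BestOffBridge
  Cfsg.Agent.Lib.BestOffMain
open scoped commutatorElement

universe u

variable {G : Type u} [Group G] [Finite G] {p : ℕ} [Fact p.Prime]
variable {W : Type*} [AddCommGroup W] [Module (ZMod p) W]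

theorem card_sl2_2 : Nat.card (Matrix.SpecialLinearGroup (Fin 2) (ZMod 2)) = 6 := by
  rw [Nat.card_eq_fintype_card]
  decide

theorem card_sl2_3 : Nat.card (Matrix.SpecialLinearGroup (Fin 2) (ZMod 3)) = 24 := by
  rw [Nat.card_eq_fintype_card]
  decide

theorem noncomm3 [i : Fact (Nat.Prime 3)] (μ : ZMod 3) (hμ : μ ≠ 0) :
    (Lw μ * U (-1)) * (U 1 * (Lw μ * U (-1)) * U (-1)) ≠ (U 1 * (Lw μ * U (-1)) * U (-1)) * (Lw μ * U (-1)) := by
  obtain ⟨h⟩ := i
  have e : h = Nat.prime_three := rfl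
  subst e
  revert μ
  decide

/-- An element of the core not centralizing `A`. -/
theorem exists_x {V H A : Subgroup G} (hS : Setup p V H ((Cfsg.pPrimeCore p ↥H).map H.subtype)) (hA : El p H A)
    {a : G} (ha : a ∈ A) (ha1 : a ≠ 1) :
    ∃ x : H, x ∈ Cfsg.pPrimeCore p ↥H ∧ x.1 ∉ centralizer (A : Set G) := by
  by_contra hcon
  push Not at hcon
  have h1 : ∀ y ∈ (Cfsg.pPrimeCore p ↥H).map H.subtype, a * y = y * a := by
    rintro _ ⟨y, hy, rfl⟩
    have := mem_centralizer_iff.1 (hcon y hy) a ha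
    exact this
  have h2 := hS.hcen a (hA.le ha) h1
  exact ha1 (hS.eq_one_of_K h2 (hA.exp a ha))

/-- The commutator with the core lies in the `SL₂(p)`. -/
theorem comm_le {V H A : Subgroup G} {Φ : W → G} (hB : Br V Φ)
    (hS : Setup p V H ((Cfsg.pPrimeCore p ↥H).map H.subtype)) {a : H} {b : H} {w w₁ w₂ : W} {μ : ZMod p}
    (hza : Subgroup.zpowers a.1 = A)
    (h : PlaneRel (hB.act p hS.hHV) a b w₁ w₂ μ) (hab : a⁻¹ * b ∈ Cfsg.pPrimeCore p ↥H) (hap : a ^ p = 1)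
    (ht : Tv (hB.act p hS.hHV) a w) :
    ⁅(Cfsg.pPrimeCore p ↥H).map H.subtype, A⁆ ≤ (Subgroup.closure ({a, b} : Set H)).map H.subtype := by
  have hctx := ctx_of hB hS
  obtain ⟨r, hr⟩ := h.exists_iso hctx.faith
  have haL : a.1 ∈ (Subgroup.closure ({a, b} : Set H)).map H.subtype :=
    ⟨a, Subgroup.subset_closure (by simp), rfl⟩
  have hAL : A ≤ (Subgroup.closure ({a, b} : Set H)).map H.subtype := by
    rw [← hza, Subgroup.zpowers_le]
    exact haL
  rw [Subgroup.commutator_le]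
  rintro _ ⟨y, hy, rfl⟩ α hα
  have h1 := hctx.conj_mem h hab hap r hr ht hy
  have h2 : y.1 * a.1 * y.1⁻¹ ∈ (Subgroup.closure ({a, b} : Set H)).map H.subtype := ⟨_, h1, rfl⟩
  have hconj : ∀ α ∈ A, y.1 * α * y.1⁻¹ ∈ (Subgroup.closure ({a, b} : Set H)).map H.subtype := by
    intro α hα
    rw [← hza] at hα
    obtain ⟨i, rfl⟩ := hα
    have e : y.1 * a.1 ^ i * y.1⁻¹ = (y.1 * a.1 * y.1⁻¹) ^ i := by
      rw [conj_zpow]
    show y.1 * a.1 ^ i * y.1⁻¹ ∈ _
    rw [e]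
    exact Subgroup.zpow_mem _ h2 i
  rw [commutatorElement_def]
  exact Subgroup.mul_mem _ (hconj α hα) (Subgroup.inv_mem _ (hAL hα))

/-- The commutator with the core lies in the core. -/
theorem comm_le_core {H A : Subgroup G} (hAH : A ≤ H) (K : Subgroup H) (hK : K.Normal) :
    ⁅K.map H.subtype, A⁆ ≤ K.map H.subtype := by
  rw [Subgroup.commutator_le]
  rintro _ ⟨y, hy, rfl⟩ α hα
  have h1 : (⟨α, hAH hα⟩ : H) * y⁻¹ * (⟨α, hAH hα⟩ : H)⁻¹ ∈ K := hK.conj_mem _ (K.inv_mem hy) _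
  refine ⟨y * ((⟨α, hAH hα⟩ : H) * y⁻¹ * (⟨α, hAH hα⟩ : H)⁻¹), K.mul_mem hy h1, ?_⟩
  show y.1 * (α * y.1⁻¹ * α⁻¹) = y.1 * α * y.1⁻¹ * α⁻¹
  group

/-- Statement S0614 in the linear model. -/
theorem s0614 {V H A : Subgroup G} {Φ : W → G} (hB : Br V Φ)
    (hS : Setup p V H ((Cfsg.pPrimeCore p ↥H).map H.subtype)) (hA : El p H A) (hc : Nat.card A = p)
    (hrel : (V ⊓ centralizer (A : Set G)).relIndex V = p) :
    (p = 2 ∧ IsPGroup 3 ↥(⁅((Cfsg.pPrimeCore p ↥H).map H.subtype), A⁆)) ∨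
    (p = 3 ∧ IsPGroup 2 ↥(⁅((Cfsg.pPrimeCore p ↥H).map H.subtype), A⁆) ∧
      ¬ IsMulCommutative ↥(⁅((Cfsg.pPrimeCore p ↥H).map H.subtype), A⁆)) := by
  have hp : p.Prime := Fact.out
  have hAne : A ≠ ⊥ := by
    rintro rfl
    rw [Subgroup.card_bot] at hc
    exact hp.one_lt.ne hc
  obtain ⟨a, ha, ha1⟩ := (Subgroup.bot_or_exists_ne_one A).resolve_left hAne
  obtain ⟨x, hx, hxA⟩ := exists_x hS hA ha ha1
  obtain ⟨haH, w₁, w₂, μ, hza, h, hab, ⟨w, ht⟩, hL⟩ := exists_plane_data hB hS hA hc hrel ha ha1 hx hxA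
  have hctx := ctx_of hB hS
  have hap' : (⟨a, haH⟩ : H) ^ p = 1 := Subtype.ext (hA.exp a ha)
  obtain ⟨r, hr⟩ := h.exists_iso hctx.faith
  have hle := comm_le hB hS (a := ⟨a, haH⟩) hza h hab hap' ht
  set N := ⁅((Cfsg.pPrimeCore p ↥H).map H.subtype), A⁆ with hN
  have hNK : N ≤ (Cfsg.pPrimeCore p ↥H).map H.subtype :=
    comm_le_core hA.le _ (Cfsg.Agent.Lib.FitCore.pPrimeCore_normal p)
  have hnp : ¬ p ∣ Nat.card N := fun hd => hS.hKp (hd.trans (Subgroup.card_dvd_of_le hNK))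
  have hcardL : Nat.card ↥((Subgroup.closure ({(⟨a, haH⟩ : H), x * ⟨a, haH⟩ * x⁻¹} : Set H)).map H.subtype) =
      Nat.card (Matrix.SpecialLinearGroup (Fin 2) (ZMod p)) :=
    Nat.card_congr ((Subgroup.equivMapOfInjective _ _ (Subgroup.subtype_injective H)).symm.trans r).toEquiv
  have hdvd : Nat.card N ∣ Nat.card (Matrix.SpecialLinearGroup (Fin 2) (ZMod p)) := by
    rw [← hcardL]
    exact Subgroup.card_dvd_of_le hle
  rcases hctx.p23 h hab hap' with rfl | rfl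
  · left
    refine ⟨rfl, ?_⟩
    rw [card_sl2_2] at hdvd
    have h3 : Nat.card N ∣ 3 := by
      have hcop : Nat.Coprime (Nat.card N) 2 := ((Nat.Prime.coprime_iff_not_dvd hp).2 hnp).symm
      exact hcop.dvd_of_dvd_mul_left (by simpa using hdvd)
    haveI : Fact (Nat.Prime 3) := ⟨Nat.prime_three⟩
    obtain ⟨k, -, hk⟩ := (Nat.dvd_prime_pow Nat.prime_three).1 (by simpa using h3 : Nat.card N ∣ 3 ^ 1)
    exact IsPGroup.of_card hk
  · right
    refine ⟨rfl, ?_, ?_⟩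
    · rw [card_sl2_3] at hdvd
      have h3 : Nat.card N ∣ 8 := by
        have hcop : Nat.Coprime (Nat.card N) 3 := ((Nat.Prime.coprime_iff_not_dvd hp).2 hnp).symm
        exact hcop.dvd_of_dvd_mul_left (by simpa using hdvd)
      haveI : Fact (Nat.Prime 2) := ⟨Nat.prime_two⟩
      obtain ⟨k, -, hk⟩ := (Nat.dvd_prime_pow Nat.prime_two).1 (by simpa using h3 : Nat.card N ∣ 2 ^ 3)
      exact IsPGroup.of_card hk
    · intro hcomm
      let a' : H := ⟨a, haH⟩
      let b' : H := x * a' * x⁻¹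
      have hs₁ : b'.1 * a⁻¹ ∈ N := by
        have := Subgroup.commutator_mem_commutator (Subgroup.mem_map_of_mem H.subtype hx) ha
        rw [commutatorElement_def] at this
        exact this
      have hs₂ : a * (b'.1 * a⁻¹) * a⁻¹ ∈ N := by
        have hn := Cfsg.Agent.Lib.FitCore.pPrimeCore_normal (G := H) 3
        have h1 : a' * x * a'⁻¹ ∈ Cfsg.pPrimeCore 3 ↥H := hn.conj_mem x hx a'
        have := Subgroup.commutator_mem_commutator (Subgroup.mem_map_of_mem H.subtype h1) ha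
        rw [commutatorElement_def] at this
        have e : H.subtype (a' * x * a'⁻¹) * a * (H.subtype (a' * x * a'⁻¹))⁻¹ * a⁻¹ = a * (b'.1 * a⁻¹) * a⁻¹ := by
          show (a * x.1 * a⁻¹) * a * (a * x.1 * a⁻¹)⁻¹ * a⁻¹ = a * (x.1 * a * x.1⁻¹ * a⁻¹) * a⁻¹
          group
        rwa [e] at this
      have hcm := hcomm.is_comm.comm ⟨_, hs₁⟩ ⟨_, hs₂⟩
      have hcm' := congrArg Subtype.val hcm
      have hcm2 : (b'.1 * a⁻¹) * (a * (b'.1 * a⁻¹) * a⁻¹) = (a * (b'.1 * a⁻¹) * a⁻¹) * (b'.1 * a⁻¹) := hcm'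
      let A' : Subgroup.closure ({a', b'} : Set H) := ⟨a', Subgroup.subset_closure (by simp)⟩
      let B' : Subgroup.closure ({a', b'} : Set H) := ⟨b', Subgroup.subset_closure (by simp)⟩
      have hra : r A' = U 1 := by
        apply mat_ext
        intro c
        apply h.T_inj
        rw [← hr A' c]
        exact h.T_U c
      have hrb : r B' = Lw μ := by
        apply mat_ext
        intro c
        apply h.T_inj
        rw [← hr B' c]
        exact h.T_L c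
      have hinv : (U 1 : Matrix.SpecialLinearGroup (Fin 2) (ZMod 3))⁻¹ = U (-1) := by
        apply inv_eq_of_mul_eq_one_right
        rw [U_mul]
        simp [U_zero]
      have hE : (B' * A'⁻¹) * (A' * (B' * A'⁻¹) * A'⁻¹) = (A' * (B' * A'⁻¹) * A'⁻¹) * (B' * A'⁻¹) := by
        apply Subtype.ext
        apply Subtype.ext
        exact hcm2
      have hR := congrArg r hE
      simp only [map_mul, map_inv, hra, hrb, hinv] at hR
      exact noncomm3 μ h.hμ hR

end Cfsg.Agent.Lib.BestOffE
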