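import Mathlib
import Cfsg.Prelude
import Cfsg.Agent.Lib.BestOffE
import Cfsg.Agent.Lib.BestOffDich

/-! Direct factors `SL₂(p)` attached to minimal best offenders. -/

set_option autoImplicit false
set_option linter.all false

namespace Cfsg.Agent.Lib.BestOffSplit

open Subgroup Cfsg.Agent.Lib.BestOff Cfsg.Agent.Lib.BestOffPlane Cfsg.Agent.Lib.BestOffBridge
  Cfsg.Agent.Lib.BestOffMain Cfsg.Agent.Lib.BestOffE
open scoped commutatorElement

universe u

variable {G : Type u} [Group G] [Finite G] {p : ℕ} [Fact p.Prime]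
variable {W : Type*} [AddCommGroup W] [Module (ZMod p) W]

theorem rel_of {V B : Subgroup G} (hc : Nat.card B = p) (hd : dl V B = Nat.card V) :
    (V ⊓ centralizer (B : Set G)).relIndex V = p := by
  have h1 := Subgroup.relIndex_mul_relIndex (⊥ : Subgroup G) (V ⊓ Subgroup.centralizer (B : Set G)) V bot_le inf_le_left
  rw [Subgroup.relIndex_bot_left, Subgroup.relIndex_bot_left] at h1
  unfold dl at hd
  rw [hc] at hd
  rw [← hd, mul_comm p] at h1
  exact Nat.eq_of_mul_eq_mul_left Nat.card_pos h1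

variable {V H : Subgroup G} {Φ : W → G}

/-- A plane for any transvection. -/
theorem exists_plane_of_tv (hB : Br V Φ) (hS : Setup p V H ((Cfsg.pPrimeCore p ↥H).map H.subtype)) {d : H} {w : W}
    (htv : Tv (hB.act p hS.hHV) d w) (hdp : d ^ p = 1) (hd1 : d ≠ 1) :
    ∃ (d' : H) (w₁' w₂' : W) (μ' : ZMod p), PlaneRel (hB.act p hS.hHV) d d' w₁' w₂' μ' ∧
      d⁻¹ * d' ∈ Cfsg.pPrimeCore p ↥H := by
  have hctx := ctx_of hB hS
  have hn := hctx.hKn
  obtain ⟨x, hx, hne⟩ : ∃ x ∈ Cfsg.pPrimeCore p ↥H, x * d * x⁻¹ ≠ d := by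
    by_contra hcon
    push Not at hcon
    apply hd1
    have h1 : ∀ y ∈ (Cfsg.pPrimeCore p ↥H).map H.subtype, d.1 * y = y * d.1 := by
      rintro _ ⟨y, hy, rfl⟩
      have e := congrArg Subtype.val (hcon y hy)
      have e2 : y.1 * d.1 * y.1⁻¹ = d.1 := e
      show d.1 * y.1 = y.1 * d.1
      calc d.1 * y.1 = (y.1 * d.1 * y.1⁻¹) * y.1 := by rw [e2]
        _ = y.1 * d.1 := by group
    obtain ⟨y, hy, hye⟩ := hS.hcen d.1 d.2 h1
    have hyd : y = d := Subtype.ext hye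
    rw [hyd] at hy
    exact hctx.hK d hy hdp
  obtain ⟨w₁, w₂, μ, h⟩ := hctx.exists_plane htv hdp hx hne
  refine ⟨x * d * x⁻¹, w₁, w₂, μ, h, ?_⟩
  have e1 : d⁻¹ * (x * d * x⁻¹) = (d⁻¹ * x * d⁻¹⁻¹) * x⁻¹ := by group
  rw [e1]
  exact Subgroup.mul_mem _ (hn.conj_mem _ hx _) (Subgroup.inv_mem _ hx)

/-- The dichotomy in the group. -/
theorem dich_G (hB : Br V Φ) (hS : Setup p V H ((Cfsg.pPrimeCore p ↥H).map H.subtype)) {a b : H} {w₁ w₂ : W}
    {μ : ZMod p} (h : PlaneRel (hB.act p hS.hHV) a b w₁ w₂ μ) (hab : a⁻¹ * b ∈ Cfsg.pPrimeCore p ↥H) (hap : a ^ p = 1)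
    (r : Subgroup.closure ({a, b} : Set H) ≃* Matrix.SpecialLinearGroup (Fin 2) (ZMod p))
    (hr : ∀ (e : Subgroup.closure ({a, b} : Set H)) (c : Fin 2 → ZMod p),
        hB.act p hS.hHV e.1 (T w₁ w₂ c) = T w₁ w₂ ((r e).1.mulVec c))
    {d : H} {w : W} (htv : Tv (hB.act p hS.hHV) d w) (hdp : d ^ p = 1)
    (hmove : ∃ c : Fin 2 → ZMod p, hB.act p hS.hHV d (T w₁ w₂ c) ≠ T w₁ w₂ c) :
    d ∈ Subgroup.closure ({a, b} : Set H) := by
  haveI : Finite W := Finite.of_injective Φ hB.inj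
  have hctx := ctx_of hB hS
  have hd1 : d ≠ 1 := by
    rintro rfl
    obtain ⟨c, hc⟩ := hmove
    exact hc (by simp)
  obtain ⟨d', w₁', w₂', μ', h', hab'⟩ := exists_plane_of_tv hB hS htv hdp hd1
  obtain ⟨r', hr'⟩ := h'.exists_iso hctx.faith
  exact hctx.dich h hab hap r hr h' hab' hdp r' hr' hmove

/-- the fixed vectors of the two transvections -/
theorem cent_iff (hB : Br V Φ) (hS : Setup p V H ((Cfsg.pPrimeCore p ↥H).map H.subtype)) (a b : H) (u : W) :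
    Φ u ∈ centralizer (((Subgroup.closure ({a, b} : Set H)).map H.subtype : Subgroup G) : Set G) ↔
      hB.act p hS.hHV a u = u ∧ hB.act p hS.hHV b u = u := by
  constructor
  · intro hc
    have key : ∀ g ∈ Subgroup.closure ({a, b} : Set H), hB.act p hS.hHV g u = u := by
      intro g hg
      apply hB.inj
      rw [hB.Φ_act (p := p) hS.hHV]
      have := mem_centralizer_iff.1 hc g.1 ⟨g, hg, rfl⟩
      rw [this]
      group
    exact ⟨key a (Subgroup.subset_closure (by simp)), key b (Subgroup.subset_closure (by simp))⟩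
  · rintro ⟨h1, h2⟩
    rw [mem_centralizer_iff]
    rintro _ ⟨g, hg, rfl⟩
    have h3 := fixz h1 h2 hg
    have h4 := hB.Φ_act (p := p) hS.hHV g u
    rw [h3] at h4
    show g.1 * Φ u = Φ u * g.1
    calc g.1 * Φ u = (g.1 * Φ u * g.1⁻¹) * g.1 := by group
      _ = Φ u * g.1 := by rw [← h4]

/-- Statement S0616 in the linear model. -/
theorem s0616 {A : Subgroup G} (hB : Br V Φ) (hS : Setup p V H ((Cfsg.pPrimeCore p ↥H).map H.subtype))
    (hf : H ⊓ Subgroup.centralizer (V : Set G) = ⊥)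
    (hgen : H = ⨆ A : {A : Subgroup G // A ≤ H ∧ Cfsg.IsBestOffenderOn p V A}, (A : Subgroup G))
    (hA : El p H A) (hc : Nat.card A = p) (hrel : (V ⊓ centralizer (A : Set G)).relIndex V = p) :
    (p = 2 ∨ p = 3) ∧
    Nonempty (↥(⁅((Cfsg.pPrimeCore p ↥H).map H.subtype), A⁆ ⊔ A) ≃* Matrix.SpecialLinearGroup (Fin 2) (ZMod p)) ∧
    Nat.card ↥(⁅V, ⁅((Cfsg.pPrimeCore p ↥H).map H.subtype), A⁆ ⊔ A⁆) = p ^ 2 ∧
    ⁅V, ⁅((Cfsg.pPrimeCore p ↥H).map H.subtype), A⁆ ⊔ A⁆ ⊓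
      (V ⊓ Subgroup.centralizer ((⁅((Cfsg.pPrimeCore p ↥H).map H.subtype), A⁆ ⊔ A : Subgroup G) : Set G)) = ⊥ ∧
    ⁅V, ⁅((Cfsg.pPrimeCore p ↥H).map H.subtype), A⁆ ⊔ A⁆ ⊔
      (V ⊓ Subgroup.centralizer ((⁅((Cfsg.pPrimeCore p ↥H).map H.subtype), A⁆ ⊔ A : Subgroup G) : Set G)) = V ∧
    ⁅⁅((Cfsg.pPrimeCore p ↥H).map H.subtype), A⁆ ⊔ A,
      H ⊓ Subgroup.centralizer ((⁅V, ⁅((Cfsg.pPrimeCore p ↥H).map H.subtype), A⁆ ⊔ A⁆ : Subgroup G) : Set G)⁆ = ⊥ ∧
    (⁅((Cfsg.pPrimeCore p ↥H).map H.subtype), A⁆ ⊔ A) ⊓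
      (H ⊓ Subgroup.centralizer ((⁅V, ⁅((Cfsg.pPrimeCore p ↥H).map H.subtype), A⁆ ⊔ A⁆ : Subgroup G) : Set G)) = ⊥ ∧
    (⁅((Cfsg.pPrimeCore p ↥H).map H.subtype), A⁆ ⊔ A) ⊔
      (H ⊓ Subgroup.centralizer ((⁅V, ⁅((Cfsg.pPrimeCore p ↥H).map H.subtype), A⁆ ⊔ A⁆ : Subgroup G) : Set G)) = H ∧
    ⁅V, H ⊓ Subgroup.centralizer ((⁅V, ⁅((Cfsg.pPrimeCore p ↥H).map H.subtype), A⁆ ⊔ A⁆ : Subgroup G) : Set G)⁆ ≤
      V ⊓ Subgroup.centralizer ((⁅((Cfsg.pPrimeCore p ↥H).map H.subtype), A⁆ ⊔ A : Subgroup G) : Set G) := by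
  classical
  have hp : p.Prime := Fact.out
  have hAne : A ≠ ⊥ := by
    rintro rfl
    rw [Subgroup.card_bot] at hc
    exact hp.one_lt.ne hc
  obtain ⟨a, ha, ha1⟩ := (Subgroup.bot_or_exists_ne_one A).resolve_left hAne
  obtain ⟨x, hx, hxA⟩ := exists_x hS hA ha ha1
  obtain ⟨haH, w₁, w₂, μ, hza, h, hab, ⟨w, ht⟩, -⟩ := exists_plane_data hB hS hA hc hrel ha ha1 hx hxA
  have hctx := ctx_of hB hS
  have hap' : (⟨a, haH⟩ : H) ^ p = 1 := Subtype.ext (hA.exp a ha)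
  obtain ⟨a', ha'⟩ : ∃ a' : H, a' = ⟨a, haH⟩ := ⟨_, rfl⟩
  rw [← ha'] at h hab ht hap'
  have ha'v : a'.1 = a := by rw [ha']
  obtain ⟨b', hb'⟩ : ∃ b' : H, b' = x * a' * x⁻¹ := ⟨_, rfl⟩
  rw [← hb'] at h hab
  obtain ⟨r, hr⟩ := h.exists_iso hctx.faith
  have haE : a' ∈ Subgroup.closure ({a', b'} : Set H) := Subgroup.subset_closure (by simp)
  have hbE : b' ∈ Subgroup.closure ({a', b'} : Set H) := Subgroup.subset_closure (by simp)
  obtain ⟨L, hL⟩ : ∃ L : Subgroup G, L = (Subgroup.closure ({a', b'} : Set H)).map H.subtype := ⟨_, rfl⟩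
  have hLH : L ≤ H := by
    rw [hL]
    exact Subgroup.map_subtype_le _
  have hAL : A ≤ L := by
    rw [← hza, Subgroup.zpowers_le, hL]
    exact ⟨a', haE, ha'v⟩
  have hEeq : ⁅((Cfsg.pPrimeCore p ↥H).map H.subtype), A⁆ ⊔ A = L := by
    apply le_antisymm
    · apply sup_le _ hAL
      rw [hL]
      have := comm_le hB hS (a := a') (b := b') (A := A) (w := w) (by rw [ha'v]; exact hza) h hab hap' ht
      exact this
    · rw [hL, MonoidHom.map_closure, Subgroup.closure_le]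
      rintro _ ⟨y, hy, rfl⟩
      rcases hy with hy | hy
      · rw [hy]
        exact Subgroup.mem_sup_right (by show a'.1 ∈ A; rw [ha'v]; exact ha)
      · rw [Set.mem_singleton_iff] at hy
        rw [hy]
        have h1 := Subgroup.commutator_mem_commutator (Subgroup.mem_map_of_mem H.subtype hx) ha
        have h2 := Subgroup.mul_mem_sup h1 ha
        have e : ⁅H.subtype x, a⁆ * a = H.subtype b' := by
          rw [commutatorElement_def, hb']
          show x.1 * a * x.1⁻¹ * a⁻¹ * a = x.1 * a'.1 * x.1⁻¹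
          rw [ha'v]
          group
        rwa [e] at h2
  rw [hEeq]
  have hPl : ⁅V, L⁆ = Pl p hB w₁ w₂ := by
    rw [hL]
    exact comm_eq hB hS.hHV h
  rw [hPl]
  have hcentL : ∀ u, Φ u ∈ centralizer (L : Set G) ↔
      hB.act p hS.hHV a' u = u ∧ hB.act p hS.hHV b' u = u := by
    intro u
    rw [hL]
    exact cent_iff hB hS a' b' u
  -- elements of `M` fix the plane
  have hfixM : ∀ y : H, y.1 ∈ centralizer (Pl p hB w₁ w₂ : Set G) → ∀ c : Fin 2 → ZMod p,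
      hB.act p hS.hHV y (T w₁ w₂ c) = T w₁ w₂ c := by
    intro y hy c
    apply hB.inj
    rw [hB.Φ_act (p := p) hS.hHV]
    have := mem_centralizer_iff.1 hy (Φ (T w₁ w₂ c)) ⟨c, rfl⟩
    rw [← this]
    group
  -- conjugates by `M`
  have hconjfix : ∀ (y' g : H) (wg : W), y'.1 ∈ centralizer (Pl p hB w₁ w₂ : Set G) →
      Tv (hB.act p hS.hHV) g wg → g ^ p = 1 → g ∈ Subgroup.closure ({a', b'} : Set H) →
      (∃ c : Fin 2 → ZMod p, hB.act p hS.hHV g (T w₁ w₂ c) ≠ T w₁ w₂ c) → y' * g = g * y' := by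
    intro y' g wg hy htg hgp hgE hmoves
    have hfy := hfixM y' hy
    have hfyi : ∀ c : Fin 2 → ZMod p, hB.act p hS.hHV y'⁻¹ (T w₁ w₂ c) = T w₁ w₂ c := by
      intro c
      conv_lhs => rw [← hfy c]
      exact act_inv_act _ y' _
    have hsame : ∀ c : Fin 2 → ZMod p, hB.act p hS.hHV (y' * g * y'⁻¹) (T w₁ w₂ c) = hB.act p hS.hHV g (T w₁ w₂ c) := by
      intro c
      rw [act_mul, act_mul, hfyi, hr ⟨g, hgE⟩, hfy]
    have hg1 : (y' * g * y'⁻¹) ^ p = 1 := by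
      rw [conj_pow, hgp]
      group
    have hmem : y' * g * y'⁻¹ ∈ Subgroup.closure ({a', b'} : Set H) := by
      apply dich_G hB hS h hab hap' r hr (htg.conj y') hg1
      obtain ⟨c, hc⟩ := hmoves
      exact ⟨c, by rw [hsame]; exact hc⟩
    have hreq : r ⟨y' * g * y'⁻¹, hmem⟩ = r ⟨g, hgE⟩ := by
      apply mat_ext
      intro c
      apply h.T_inj
      rw [← hr ⟨y' * g * y'⁻¹, hmem⟩ c, ← hr ⟨g, hgE⟩ c]
      exact hsame c
    have heq := congrArg Subtype.val (r.injective hreq)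
    have heq' : y' * g * y'⁻¹ = g := heq
    calc y' * g = (y' * g * y'⁻¹) * y' := by group
      _ = g * y' := by rw [heq']
  have hbp' : b' ^ p = 1 := by
    rw [hb', conj_pow, hap']
    group
  have hcomm : ∀ y' : H, y'.1 ∈ centralizer (Pl p hB w₁ w₂ : Set G) → ∀ e ∈ Subgroup.closure ({a', b'} : Set H),
      y' * e = e * y' := by
    intro y' hy e he
    have hle : Subgroup.closure ({a', b'} : Set H) ≤ centralizer ({y'} : Set H) := by
      rw [Subgroup.closure_le]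
      rintro g hg
      show g ∈ centralizer ({y'} : Set H)
      rw [mem_centralizer_singleton_iff]
      rcases hg with rfl | hg
      · refine (hconjfix y' _ _ hy h.ta hap' haE ⟨![0, 1], ?_⟩).symm
        rw [T_vec]
        simp only [zero_smul, one_smul, zero_add, h.h2]
        intro e
        exact h.ta.ne (by simpa using e)
      · rw [Set.mem_singleton_iff] at hg
        subst hg
        refine (hconjfix y' _ _ hy h.tb hbp' hbE ⟨![1, 0], ?_⟩).symm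
        rw [T_vec]
        simp only [zero_smul, one_smul, add_zero, h.h4]
        intro e
        exact (smul_ne_zero h.hμ h.tb.ne) (by simpa using e)
    have := hle he
    rw [mem_centralizer_singleton_iff] at this
    exact this.symm
  refine ⟨hctx.p23 h hab hap', ?_, card_Pl hB hS.hHV h, ?_, ?_, ?_, ?_, ?_, ?_⟩
  · subst hL
    exact ⟨(Subgroup.equivMapOfInjective _ _ (Subgroup.subtype_injective H)).symm.trans r⟩
  · rw [eq_bot_iff]
    rintro g ⟨⟨c, rfl⟩, -, hg⟩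
    obtain ⟨h1, h2⟩ := (hcentL _).1 hg
    have := h.fix_zero h1 h2
    rw [this, T_zero (p := p), hB.zero]
    exact Subgroup.one_mem _
  · apply le_antisymm (sup_le (Pl_le p hB w₁ w₂) inf_le_left)
    intro v hv
    obtain ⟨u, rfl⟩ := hB.surj v hv
    obtain ⟨c, z, rfl, hz1, hz2⟩ := h.dec u
    rw [hB.add]
    exact Subgroup.mul_mem_sup ⟨c, rfl⟩ ⟨hB.mem z, (hcentL z).2 ⟨hz1, hz2⟩⟩
  · rw [eq_bot_iff, Subgroup.commutator_le]
    rw [hL]
    rintro _ ⟨e, he, rfl⟩ y ⟨hyH, hyC⟩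
    rw [Subgroup.mem_bot, commutatorElement_eq_one_iff_mul_comm]
    have := hcomm ⟨y, hyH⟩ hyC e he
    exact (congrArg Subtype.val this).symm
  · rw [eq_bot_iff, hL]
    rintro _ ⟨⟨e, he, rfl⟩, -, hyC⟩
    have := eq_one_of_cent hB hS.hHV h r hr ⟨e, he⟩ hyC
    have h1 : e = 1 := congrArg Subtype.val this
    rw [h1]
    exact Subgroup.one_mem _
  · apply le_antisymm (sup_le hLH inf_le_left)
    refine hgen.le.trans (iSup_le ?_)
    rintro ⟨A', hA'H, hA'⟩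
    show A' ≤ _
    have hEl' := el_of (p := p) V H A' hf hA'H hA'
    have hd : dl V A' = Nat.card V := by
      apply le_antisymm (hS.dl_le hEl')
      have := hA'.1 ⊥ bot_le
      rw [← dl_bot]
      exact this
    obtain ⟨s, hs, -, hss⟩ := hS.decomp hEl' hd
    rw [← hss]
    apply sSup_le
    intro M₀ hM₀
    obtain ⟨h1, h2, h3⟩ := hs M₀ hM₀
    have hM₀ne : M₀ ≠ ⊥ := by
      rintro rfl
      rw [Subgroup.card_bot] at h3
      exact hp.one_lt.ne h3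
    obtain ⟨d, hdM, hd1⟩ := (Subgroup.bot_or_exists_ne_one M₀).resolve_left hM₀ne
    have hz : Subgroup.zpowers d = M₀ :=
      Setup.eq_of_card_prime hS h3 (Subgroup.zpowers_le.2 hdM) (fun e => hd1 (Subgroup.zpowers_eq_bot.1 e))
    have hdH := hA'H (h1 hdM)
    have hdp := hEl'.exp d (h1 hdM)
    obtain ⟨wd, htd⟩ := tv_of hB hS hdH hz hdp (rel_of h3 h2)
    rw [← hz]
    by_cases hm : ∃ c : Fin 2 → ZMod p, hB.act p hS.hHV ⟨d, hdH⟩ (T w₁ w₂ c) ≠ T w₁ w₂ c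
    · have := dich_G hB hS h hab hap' r hr htd (Subtype.ext hdp) hm
      apply le_sup_of_le_left
      rw [Subgroup.zpowers_le, hL]
      exact ⟨_, this, rfl⟩
    · push Not at hm
      apply le_sup_of_le_right
      rw [Subgroup.zpowers_le]
      refine ⟨hdH, mem_centralizer_iff.2 ?_⟩
      rintro _ ⟨c, rfl⟩
      have h4 := hB.Φ_act (p := p) hS.hHV ⟨d, hdH⟩ (T w₁ w₂ c)
      rw [hm c] at h4
      have h5 : d * Φ (T w₁ w₂ c) * d⁻¹ = Φ (T w₁ w₂ c) := h4.symm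
      calc Φ (T w₁ w₂ c) * d = (d * Φ (T w₁ w₂ c) * d⁻¹) * d := by rw [h5]
        _ = d * Φ (T w₁ w₂ c) := by group
  · rw [Subgroup.commutator_le]
    rintro v hv y ⟨hyH, hyC⟩
    obtain ⟨u, rfl⟩ := hB.surj v hv
    obtain ⟨c, z, rfl, hz1, hz2⟩ := h.dec u
    let y' : H := ⟨y, hyH⟩
    have e1 : ⁅Φ (T w₁ w₂ c + z), y⁆ = Φ (z - hB.act p hS.hHV y' z) := by
      have e2 : z - hB.act p hS.hHV y' z =
          (T w₁ w₂ c + z) - hB.act p hS.hHV y' (T w₁ w₂ c + z) := by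
        rw [map_add, hfixM y' hyC c]
        abel
      rw [e2, hB.sub, hB.Φ_act (p := p) hS.hHV, commutatorElement_def]
      show _ * y * _ * y⁻¹ = _ * (y * _ * y⁻¹)⁻¹
      group
    rw [e1]
    refine ⟨hB.mem _, (hcentL _).2 ?_⟩
    have hcy := hcomm y' hyC
    constructor
    · rw [map_sub, hz1, ← act_mul, ← hcy a' haE, act_mul, hz1]
    · rw [map_sub, hz2, ← act_mul, ← hcy b' hbE, act_mul, hz2]

end Cfsg.Agent.Lib.BestOffSplit
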