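import Mathlib
import Cfsg.Prelude
import Cfsg.Agent.Lib.BestOffSplit

/-! The structure theorem for failure of factorization. -/

set_option autoImplicit false
set_option linter.all false

namespace Cfsg.Agent.Lib.BestOffStruct

open Subgroup Cfsg.Agent.Lib.BestOff Cfsg.Agent.Lib.BestOffPlane Cfsg.Agent.Lib.BestOffBridge
  Cfsg.Agent.Lib.BestOffMain Cfsg.Agent.Lib.BestOffE Cfsg.Agent.Lib.BestOffSplit
open scoped commutatorElement

universe u

variable {G : Type u} [Group G] [Finite G] {p : ℕ} [Fact p.Prime]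
variable {W : Type*} [AddCommGroup W] [Module (ZMod p) W]
variable {V H : Subgroup G} {Φ : W → G}

/-- The dichotomy for two minimal best offenders. -/
theorem dich_min {A B : Subgroup G} (hB : Br V Φ) (hS : Setup p V H ((Cfsg.pPrimeCore p ↥H).map H.subtype))
    (hA : El p H A) (hc : Nat.card A = p) (hrel : (V ⊓ centralizer (A : Set G)).relIndex V = p)
    (hBe : El p H B) (hcB : Nat.card B = p) (hrelB : (V ⊓ centralizer (B : Set G)).relIndex V = p) :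
    B ≤ ⁅((Cfsg.pPrimeCore p ↥H).map H.subtype), A⁆ ⊔ A ∨
      B ≤ H ⊓ Subgroup.centralizer ((⁅V, ⁅((Cfsg.pPrimeCore p ↥H).map H.subtype), A⁆ ⊔ A⁆ : Subgroup G) : Set G) := by
  classical
  have hp : p.Prime := Fact.out
  have hAne : A ≠ ⊥ := by
    rintro rfl
    rw [Subgroup.card_bot] at hc
    exact hp.one_lt.ne hc
  obtain ⟨a, ha, ha1⟩ := (Subgroup.bot_or_exists_ne_one A).resolve_left hAne
  obtain ⟨x, hx, hxA⟩ := exists_x hS hA ha ha1
  obtain ⟨haH, w₁, w₂, μ, hza, h, hab, ⟨w, ht⟩, -⟩ := exists_plane_data hB hS hA hc hrel ha ha1 hx hxA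
  have hctx := ctx_of hB hS
  have hap' : (⟨a, haH⟩ : H) ^ p = 1 := Subtype.ext (hA.exp a ha)
  obtain ⟨a', ha'⟩ : ∃ a' : H, a' = ⟨a, haH⟩ := ⟨_, rfl⟩
  rw [← ha'] at h hab ht hap'
  have ha'v : a'.1 = a := by rw [ha']
  obtain ⟨b', hb'⟩ : ∃ b' : H, b' = x * a' * x⁻¹ := ⟨_, rfl⟩
  rw [← hb'] at h hab
  obtain ⟨r, hr⟩ := h.exists_iso hctx.faith
  have haE : a' ∈ Subgroup.closure ({a', b'} : Set H) := Subgroup.subset_closure (by simp)
  have hbE : b' ∈ Subgroup.closure ({a', b'} : Set H) := Subgroup.subset_closure (by simp)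
  obtain ⟨L, hL⟩ : ∃ L : Subgroup G, L = (Subgroup.closure ({a', b'} : Set H)).map H.subtype := ⟨_, rfl⟩
  have hAL : A ≤ L := by
    rw [← hza, Subgroup.zpowers_le, hL]
    exact ⟨a', haE, ha'v⟩
  have hEeq : ⁅((Cfsg.pPrimeCore p ↥H).map H.subtype), A⁆ ⊔ A = L := by
    apply le_antisymm
    · apply sup_le _ hAL
      rw [hL]
      have := comm_le hB hS (a := a') (b := b') (A := A) (w := w) (by rw [ha'v]; exact hza) h hab hap' ht
      exact this
    · rw [hL, MonoidHom.map_closure, Subgroup.closure_le]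
      rintro _ ⟨y, hy, rfl⟩
      rcases hy with hy | hy
      · rw [hy]
        exact Subgroup.mem_sup_right (by show a'.1 ∈ A; rw [ha'v]; exact ha)
      · rw [Set.mem_singleton_iff] at hy
        rw [hy]
        have h1 := Subgroup.commutator_mem_commutator (Subgroup.mem_map_of_mem H.subtype hx) ha
        have h2 := Subgroup.mul_mem_sup h1 ha
        have e : ⁅H.subtype x, a⁆ * a = H.subtype b' := by
          rw [commutatorElement_def, hb']
          show x.1 * a * x.1⁻¹ * a⁻¹ * a = x.1 * a'.1 * x.1⁻¹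
          rw [ha'v]
          group
        rwa [e] at h2
  rw [hEeq]
  have hPl : ⁅V, L⁆ = Pl p hB w₁ w₂ := by
    rw [hL]
    exact comm_eq hB hS.hHV h
  rw [hPl]
  have hBne : B ≠ ⊥ := by
    rintro rfl
    rw [Subgroup.card_bot] at hcB
    exact hp.one_lt.ne hcB
  obtain ⟨d, hdB, hd1⟩ := (Subgroup.bot_or_exists_ne_one B).resolve_left hBne
  have hz : Subgroup.zpowers d = B :=
    Setup.eq_of_card_prime hS hcB (Subgroup.zpowers_le.2 hdB) (fun e => hd1 (Subgroup.zpowers_eq_bot.1 e))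
  have hdH := hBe.le hdB
  have hdp := hBe.exp d hdB
  obtain ⟨wd, htd⟩ := tv_of hB hS hdH hz hdp hrelB
  rw [← hz]
  by_cases hm : ∃ c : Fin 2 → ZMod p, hB.act p hS.hHV ⟨d, hdH⟩ (T w₁ w₂ c) ≠ T w₁ w₂ c
  · left
    have := dich_G hB hS h hab hap' r hr htd (Subtype.ext hdp) hm
    rw [Subgroup.zpowers_le, hL]
    exact ⟨_, this, rfl⟩
  · right
    push Not at hm
    rw [Subgroup.zpowers_le]
    refine ⟨hdH, mem_centralizer_iff.2 ?_⟩
    rintro _ ⟨c, rfl⟩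
    have h4 := hB.Φ_act (p := p) hS.hHV ⟨d, hdH⟩ (T w₁ w₂ c)
    rw [hm c] at h4
    have h5 : d * Φ (T w₁ w₂ c) * d⁻¹ = Φ (T w₁ w₂ c) := h4.symm
    calc Φ (T w₁ w₂ c) * d = (d * Φ (T w₁ w₂ c) * d⁻¹) * d := by rw [h5]
      _ = d * Φ (T w₁ w₂ c) := by group

/-- The package of properties of a factor. -/
structure Fac (p : ℕ) (V H E : Subgroup G) : Prop where
  iso : Nonempty (↥E ≃* Matrix.SpecialLinearGroup (Fin 2) (ZMod p))
  card : Nat.card ↥(⁅V, E⁆) = p ^ 2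
  inf : ⁅V, E⁆ ⊓ (V ⊓ centralizer (E : Set G)) = ⊥
  sup : ⁅V, E⁆ ⊔ (V ⊓ centralizer (E : Set G)) = V
  cm : ⁅E, H ⊓ centralizer ((⁅V, E⁆ : Subgroup G) : Set G)⁆ = ⊥
  inf2 : E ⊓ (H ⊓ centralizer ((⁅V, E⁆ : Subgroup G) : Set G)) = ⊥
  sup2 : E ⊔ (H ⊓ centralizer ((⁅V, E⁆ : Subgroup G) : Set G)) = H
  le : ⁅V, H ⊓ centralizer ((⁅V, E⁆ : Subgroup G) : Set G)⁆ ≤ V ⊓ centralizer (E : Set G)

section F

variable {E : Subgroup G} (hF : Fac p V H E)
include hF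

theorem Fac.comm {e m : G} (he : e ∈ E) (hm : m ∈ H ⊓ centralizer ((⁅V, E⁆ : Subgroup G) : Set G)) : e * m = m * e := by
  have h1 := Subgroup.commutator_mem_commutator he hm
  rw [hF.cm, Subgroup.mem_bot, commutatorElement_eq_one_iff_mul_comm] at h1
  exact h1

theorem Fac.le_H : E ≤ H := le_sup_left.trans hF.sup2.le

theorem Fac.conj_mem {h e : G} (hh : h ∈ H) (he : e ∈ E) : h * e * h⁻¹ ∈ E := by
  have h1 : h ∈ E ⊔ (H ⊓ centralizer ((⁅V, E⁆ : Subgroup G) : Set G)) := by rw [hF.sup2]; exact hh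
  obtain ⟨e₀, he₀, m, hm, rfl⟩ := Cfsg.Agent.Lib.LargeExtra.mem_sup_of_comm
    (A := E) (C := H ⊓ centralizer ((⁅V, E⁆ : Subgroup G) : Set G)) (fun a ha c hc => hF.comm ha hc) h1
  have h2 : m * e * m⁻¹ = e := by
    rw [← hF.comm he hm]
    group
  have h3 : e₀ * m * e * (e₀ * m)⁻¹ = e₀ * (m * e * m⁻¹) * e₀⁻¹ := by group
  rw [h3, h2]
  exact E.mul_mem (E.mul_mem he₀ he) (E.inv_mem he₀)

theorem Fac.le_normalizer (hh : H ≤ normalizer (E : Set G)) (h : G) (hm : h ∈ H) : h ∈ normalizer (E : Set G) := hh hm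

theorem Fac.normalizes : H ≤ normalizer (E : Set G) := by
  intro h hh
  rw [mem_normalizer_iff]
  intro n
  constructor
  · intro hn
    exact hF.conj_mem hh hn
  · intro hn
    have := hF.conj_mem (H.inv_mem hh) hn
    have e : h⁻¹ * (h * n * h⁻¹) * h⁻¹⁻¹ = n := by group
    rwa [e] at this

/-- `[V, E]` is stable under `H` -/
theorem Fac.comm_stable (hHV : ∀ h ∈ H, ∀ v ∈ V, h * v * h⁻¹ ∈ V) {h y : G} (hh : h ∈ H) (hy : y ∈ ⁅V, E⁆) :
    h * y * h⁻¹ ∈ ⁅V, E⁆ := by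
  have hle : ⁅V, E⁆ ≤ (⁅V, E⁆).comap (MulAut.conj h).toMonoidHom := by
    rw [Subgroup.commutator_le]
    intro v hv e he
    show (MulAut.conj h).toMonoidHom ⁅v, e⁆ ∈ ⁅V, E⁆
    rw [map_commutatorElement]
    exact Subgroup.commutator_mem_commutator (hHV h hh v hv) (hF.conj_mem hh he)
  exact hle hy

theorem Fac.M_normal (hHV : ∀ h ∈ H, ∀ v ∈ V, h * v * h⁻¹ ∈ V) {h m : G} (hh : h ∈ H)
    (hm : m ∈ H ⊓ centralizer ((⁅V, E⁆ : Subgroup G) : Set G)) :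
    h * m * h⁻¹ ∈ H ⊓ centralizer ((⁅V, E⁆ : Subgroup G) : Set G) := by
  refine ⟨H.mul_mem (H.mul_mem hh hm.1) (H.inv_mem hh), mem_centralizer_iff.2 ?_⟩
  intro y hy
  have h1 := hF.comm_stable hHV (H.inv_mem hh) hy
  have e : h⁻¹ * y * h⁻¹⁻¹ = h⁻¹ * y * h := by group
  rw [e] at h1
  have h2 := mem_centralizer_iff.1 hm.2 _ h1
  calc y * (h * m * h⁻¹) = h * ((h⁻¹ * y * h) * m) * h⁻¹ := by group
    _ = h * (m * (h⁻¹ * y * h)) * h⁻¹ := by rw [h2]
    _ = _ := by group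

end F

/-- The structure theorem, from the properties of the factors. -/
theorem structure_main (hHV : ∀ h ∈ H, ∀ v ∈ V, h * v * h⁻¹ ∈ V) (hVc : ∀ u ∈ V, ∀ v ∈ V, u * v = v * u)
    {ι : Type*} [Finite ι] (e : ι → Subgroup G) (hfac : ∀ i, Fac p V H (e i))
    (hne : ∀ i j, i ≠ j → e j ≤ H ⊓ centralizer ((⁅V, e i⁆ : Subgroup G) : Set G))
    (hgen : (⨆ i, e i) = H) :
    (∀ i, H ≤ normalizer (e i : Set G)) ∧ iSupIndep e ∧
      iSupIndep (fun o : Option ι => o.elim (V ⊓ centralizer (H : Set G)) (fun i => ⁅V, e i⁆)) ∧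
      (V ⊓ centralizer (H : Set G)) ⊔ (⨆ i, ⁅V, e i⁆) = V := by
  classical
  haveI : Fintype ι := Fintype.ofFinite _
  have hP : ∀ i j, i ≠ j → ⁅V, e j⁆ ≤ V ⊓ centralizer (e i : Set G) := by
    intro i j hij
    have h1 : ⁅V, e j⁆ ≤ ⁅V, H ⊓ centralizer ((⁅V, e i⁆ : Subgroup G) : Set G)⁆ :=
      Subgroup.commutator_mono le_rfl (hne i j hij)
    exact h1.trans (hfac i).le
  have hCH : ∀ i, V ⊓ centralizer (H : Set G) ≤ V ⊓ centralizer (e i : Set G) := by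
    intro i
    exact inf_le_inf_left _ (fun x hx => cent_anti (hfac i).le_H hx)
  have hPle : ∀ i, ⁅V, e i⁆ ≤ V := by
    intro i
    exact le_sup_left.trans (hfac i).sup.le
  -- decomposition of the elements of `⨆ P` inside the fixed points
  have hfin : ∀ (F : Finset ι) (y : G), y ∈ F.sup (fun i => ⁅V, e i⁆) → y ∈ centralizer (H : Set G) → y = 1 := by
    intro F
    induction F using Finset.induction_on with
    | empty =>
      intro y hy _
      simpa using hy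
    | insert i F hi ih =>
      intro y hy hyH
      rw [Finset.sup_insert] at hy
      have hleC : F.sup (fun i => ⁅V, e i⁆) ≤ V ⊓ centralizer (e i : Set G) := by
        apply Finset.sup_le
        intro j hj
        exact hP i j (fun h => hi (h ▸ hj))
      obtain ⟨p₁, hp₁, r, hr, rfl⟩ := Cfsg.Agent.Lib.LargeExtra.mem_sup_of_comm
        (A := ⁅V, e i⁆) (C := F.sup (fun i => ⁅V, e i⁆))
        (fun a ha c hc => hVc a (hPle i ha) c (hleC hc).1) hy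
      have hyi : p₁ * r ∈ V ⊓ centralizer (e i : Set G) := by
        refine ⟨V.mul_mem (hPle i hp₁) (hleC hr).1, cent_anti (hfac i).le_H hyH⟩
      have hp1C : p₁ ∈ V ⊓ centralizer (e i : Set G) := by
        have := (V ⊓ centralizer (e i : Set G)).mul_mem hyi ((V ⊓ centralizer (e i : Set G)).inv_mem (hleC hr))
        simpa using this
      have hp1 : p₁ = 1 := by
        have : p₁ ∈ ⁅V, e i⁆ ⊓ (V ⊓ centralizer (e i : Set G)) := ⟨hp₁, hp1C⟩
        rw [(hfac i).inf] at this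
        simpa using this
      subst hp1
      rw [one_mul] at hyH ⊢
      exact ih r hr hyH
  have hsupeq : (⨆ i, ⁅V, e i⁆) = (Finset.univ : Finset ι).sup (fun i => ⁅V, e i⁆) :=
    (Finset.sup_univ_eq_iSup _).symm
  have hspan : ∀ (F : Finset ι) (v : G), v ∈ V → ∃ r ∈ F.sup (fun i => ⁅V, e i⁆), ∃ z ∈ V,
      (∀ i ∈ F, z ∈ centralizer (e i : Set G)) ∧ v = r * z := by
    intro F
    induction F using Finset.induction_on with
    | empty =>
      intro v hv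
      exact ⟨1, Subgroup.one_mem _, v, hv, by simp, by simp⟩
    | insert i F hi ih =>
      intro v hv
      obtain ⟨r, hr, z, hz, hzF, rfl⟩ := ih v hv
      have h1 : z ∈ ⁅V, e i⁆ ⊔ (V ⊓ centralizer (e i : Set G)) := by rw [(hfac i).sup]; exact hz
      obtain ⟨p₁, hp₁, c₁, hc₁, rfl⟩ := Cfsg.Agent.Lib.LargeExtra.mem_sup_of_comm
        (A := ⁅V, e i⁆) (C := V ⊓ centralizer (e i : Set G))
        (fun a ha c hc => hVc a (hPle i ha) c hc.1) h1
      refine ⟨r * p₁, ?_, c₁, hc₁.1, ?_, by group⟩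
      · have hrV : r ∈ V := (Finset.sup_le (fun j _ => hPle j) : F.sup (fun i => ⁅V, e i⁆) ≤ V) hr
        rw [Finset.sup_insert, hVc r hrV p₁ (hPle i hp₁)]
        exact Subgroup.mul_mem_sup hp₁ hr
      · intro j hj
        rw [Finset.mem_insert] at hj
        rcases hj with rfl | hj
        · exact hc₁.2
        · have hne' : j ≠ i := fun h => hi (h ▸ hj)
          have h2 := (hP j i hne') hp₁
          have h3 := hzF j hj
          have h4 := Subgroup.mul_mem _ (Subgroup.inv_mem _ h2.2) h3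
          simpa using h4
  refine ⟨fun i => (hfac i).normalizes, ?_, ?_, ?_⟩
  · intro i
    rw [disjoint_iff_inf_le]
    have h1 : (⨆ (j : ι) (_ : j ≠ i), e j) ≤ H ⊓ centralizer ((⁅V, e i⁆ : Subgroup G) : Set G) := by
      exact iSup₂_le fun j hj => hne i j (Ne.symm hj)
    exact (inf_le_inf_left _ h1).trans (hfac i).inf2.le
  · intro o
    rw [disjoint_iff_inf_le]
    cases o with
    | none =>
      show (V ⊓ centralizer (H : Set G)) ⊓ _ ≤ ⊥
      have h1 : (⨆ (j : Option ι) (_ : j ≠ none), Option.elim j (V ⊓ centralizer (H : Set G)) (fun i => ⁅V, e i⁆)) ≤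
          (Finset.univ : Finset ι).sup (fun i => ⁅V, e i⁆) := by
        apply iSup₂_le
        intro j hj
        cases j with
        | none => exact absurd rfl hj
        | some i => exact Finset.le_sup (f := fun i => ⁅V, e i⁆) (Finset.mem_univ i)
      rintro y ⟨hy1, hy2⟩
      exact (hfin _ y (h1 hy2) hy1.2 : y = 1) ▸ Subgroup.one_mem _
    | some i =>
      show ⁅V, e i⁆ ⊓ _ ≤ ⊥
      have h1 : (⨆ (j : Option ι) (_ : j ≠ some i), Option.elim j (V ⊓ centralizer (H : Set G)) (fun i => ⁅V, e i⁆)) ≤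
          V ⊓ centralizer (e i : Set G) := by
        apply iSup₂_le
        intro j hj
        cases j with
        | none => exact hCH i
        | some j =>
          exact hP i j (fun h => hj (by rw [h]))
      exact (inf_le_inf_left _ h1).trans (hfac i).inf.le
  · apply le_antisymm
    · exact sup_le inf_le_left (iSup_le hPle)
    · intro v hv
      obtain ⟨r, hr, z, hz, hzF, rfl⟩ := hspan Finset.univ v hv
      have hzH : z ∈ centralizer (H : Set G) := by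
        have : H ≤ centralizer ({z} : Set G) := by
          rw [← hgen]
          refine iSup_le fun i => ?_
          intro g hg
          rw [mem_centralizer_singleton_iff]
          exact mem_centralizer_iff.1 (hzF i (Finset.mem_univ i)) g hg
        rw [mem_centralizer_iff]
        intro g hg
        have h1 := this hg
        rw [mem_centralizer_singleton_iff] at h1
        exact h1
      have hrV : r ∈ V := (Finset.sup_le (fun j _ => hPle j) : (Finset.univ : Finset ι).sup (fun i => ⁅V, e i⁆) ≤ V) hr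
      rw [hVc r hrV z hz]
      refine Subgroup.mul_mem_sup ⟨hz, hzH⟩ ?_
      rw [hsupeq]
      exact hr

/-- `⁅K, A⁆ ⊔ A` for a minimal best offender satisfies everything. -/
theorem fac_of_min (hB : Br V Φ) (hS : Setup p V H ((Cfsg.pPrimeCore p ↥H).map H.subtype))
    (hf : H ⊓ Subgroup.centralizer (V : Set G) = ⊥)
    (hS3 : H = ⨆ A : {A : Subgroup G // A ≤ H ∧ Cfsg.IsBestOffenderOn p V A}, (A : Subgroup G))
    {A : Subgroup G} (hAH : A ≤ H) (hA : Cfsg.IsBestOffenderOn p V A) (hAV : ⁅V, A⁆ ≠ ⊥)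
    (hmin : ∀ B : Subgroup G, B ≤ A → Cfsg.IsBestOffenderOn p V B → ⁅V, B⁆ ≠ ⊥ → B = A) :
    (p = 2 ∨ p = 3) ∧ Fac p V H (⁅((Cfsg.pPrimeCore p ↥H).map H.subtype), A⁆ ⊔ A) := by
  obtain ⟨hEl, hc, hrel⟩ := min_data hS hf hAH hA hAV hmin
  obtain ⟨h1, h2, h3, h4, h5, h6, h7, h8, h9⟩ := s0616 hB hS hf hS3 hEl hc hrel
  exact ⟨h1, h2, h3, h4, h5, h6, h7, h8, h9⟩

/-- A subgroup of order `p` among the good ones is a minimal best offender. -/
theorem min_of_card (hS : Setup p V H ((Cfsg.pPrimeCore p ↥H).map H.subtype)) {M : Subgroup G}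
    (hEl : El p H M) (hd : dl V M = Nat.card V) (hc : Nat.card M = p) :
    M ≤ H ∧ Cfsg.IsBestOffenderOn p V M ∧ ⁅V, M⁆ ≠ ⊥ ∧
      (∀ B : Subgroup G, B ≤ M → Cfsg.IsBestOffenderOn p V B → ⁅V, B⁆ ≠ ⊥ → B = M) := by
  have hp : p.Prime := Fact.out
  have hne : M ≠ ⊥ := by
    rintro rfl
    rw [Subgroup.card_bot] at hc
    exact hp.one_lt.ne hc
  refine ⟨hEl.le, hS.bestOff_of hEl hd, hS.comm_ne_bot hEl.le hne, ?_⟩
  intro C hC _ hCV
  apply hS.eq_of_card_prime hc hC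
  rintro rfl
  exact hCV (Subgroup.commutator_bot_right _)

/-- Statement S0617 in the linear model. -/
theorem s0617 (hB : Br V Φ) (hS : Setup p V H ((Cfsg.pPrimeCore p ↥H).map H.subtype))
    (hf : H ⊓ Subgroup.centralizer (V : Set G) = ⊥)
    (hS3 : H = ⨆ A : {A : Subgroup G // A ≤ H ∧ Cfsg.IsBestOffenderOn p V A}, (A : Subgroup G))
    (hH1 : H ≠ ⊥) :
    (p = 2 ∨ p = 3) ∧ (∀ E : {E : Subgroup G // ∃ A : Subgroup G, A ≤ H ∧ Cfsg.IsBestOffenderOn p V A ∧ ⁅V, A⁆ ≠ ⊥ ∧ (∀ B : Subgroup G, B ≤ A → Cfsg.IsBestOffenderOn p V B → ⁅V, B⁆ ≠ ⊥ → B = A) ∧ E = ⁅((Cfsg.pPrimeCore p ↥H).map H.subtype), A⁆ ⊔ A}, H ≤ Subgroup.normalizer ((E : Subgroup G) : Set G) ∧ Nonempty (↥(E : Subgroup G) ≃* Matrix.SpecialLinearGroup (Fin 2) (ZMod p)) ∧ Nat.card ↥(⁅V, (E : Subgroup G)⁆) = p ^ 2) ∧ iSupIndep (fun E : {E : Subgroup G // ∃ A : Subgroup G, A ≤ H ∧ Cfsg.IsBestOffenderOn p V A ∧ ⁅V, A⁆ ≠ ⊥ ∧ (∀ B : Subgroup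 G, B ≤ A → Cfsg.IsBestOffenderOn p V B → ⁅V, B⁆ ≠ ⊥ → B = A) ∧ E = ⁅((Cfsg.pPrimeCore p ↥H).map H.subtype), A⁆ ⊔ A} => (E : Subgroup G)) ∧ (⨆ E : {E : Subgroup G // ∃ A : Subgroup G, A ≤ H ∧ Cfsg.IsBestOffenderOn p V A ∧ ⁅V, A⁆ ≠ ⊥ ∧ (∀ B : Subgroup G, B ≤ A → Cfsg.IsBestOffenderOn p V B → ⁅V, B⁆ ≠ ⊥ → B = A) ∧ E = ⁅((Cfsg.pPrimeCore p ↥H).map H.subtype), A⁆ ⊔ A}, (E : Subgroup G)) = H ∧ iSupIndep (fun o : Option {E : Subgroup G // ∃ A : Subgroup G, A ≤ H ∧ Cfsg.IsBestOffenderOn p V A ∧ ⁅V, A⁆ ≠ ⊥ ∧ (∀ B : Subgroup G, B ≤ A → Cfsg.IsBestOffenderOn p V B → ⁅V, B⁆ ≠ ⊥ → B = A) ∧ E = ⁅((Cfsg.pPrimeCore p ↥H).map H.subtype), A⁆ ⊔ A} => o.elim (V ⊓ Subgroup.centralizer (H : Set G)) (fun E => ⁅V, (E : Subgroup G)⁆)) ∧ (V ⊓ Subgroup.centralizer (H : Set G)) ⊔ (⨆ E : {E : Subgroup G // ∃ A : Subgroup G, A ≤ H ∧ Cfsg.IsBestOffenderOn p V A ∧ ⁅V, A⁆ ≠ ⊥ ∧ (∀ B : Subgroup G, B ≤ A → Cfsg.IsBestOffenderOn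 p V B → ⁅V, B⁆ ≠ ⊥ → B = A) ∧ E = ⁅((Cfsg.pPrimeCore p ↥H).map H.subtype), A⁆ ⊔ A}, ⁅V, (E : Subgroup G)⁆) = V := by
  classical
  have hp : p.Prime := Fact.out
  have hdA : ∀ A' : Subgroup G, A' ≤ H → Cfsg.IsBestOffenderOn p V A' → dl V A' = Nat.card V := by
    intro A' h1 h2
    apply le_antisymm (hS.dl_le (el_of (p := p) V H A' hf h1 h2))
    have := h2.1 ⊥ bot_le
    rw [← dl_bot]
    exact this
  -- the index type
  let 𝓔 : Type u := {E : Subgroup G // ∃ A : Subgroup G, A ≤ H ∧ Cfsg.IsBestOffenderOn p V A ∧ ⁅V, A⁆ ≠ ⊥ ∧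
    (∀ B : Subgroup G, B ≤ A → Cfsg.IsBestOffenderOn p V B → ⁅V, B⁆ ≠ ⊥ → B = A) ∧
    E = ⁅((Cfsg.pPrimeCore p ↥H).map H.subtype), A⁆ ⊔ A}
  have hfac : ∀ E : 𝓔, Fac p V H E.1 := by
    rintro ⟨_, A, h1, h2, h3, h4, rfl⟩
    exact (fac_of_min hB hS hf hS3 h1 h2 h3 h4).2
  have hdec : ∀ A' : Subgroup G, A' ≤ H → Cfsg.IsBestOffenderOn p V A' → ∃ s : Set (Subgroup G),
      (∀ M ∈ s, M ≤ A' ∧ dl V M = Nat.card V ∧ Nat.card M = p) ∧ sSup s = A' := by
    intro A' h1 h2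
    obtain ⟨s, h3, -, h4⟩ := hS.decomp (el_of (p := p) V H A' hf h1 h2) (hdA A' h1 h2)
    exact ⟨s, h3, h4⟩
  -- the index of a subgroup of order `p`
  have hsome : ∀ (A' M₀ : Subgroup G), A' ≤ H → Cfsg.IsBestOffenderOn p V A' → M₀ ≤ A' → dl V M₀ = Nat.card V →
      Nat.card M₀ = p → ∃ E : 𝓔, M₀ ≤ E.1 := by
    intro A' M₀ h1 h2 h3 h4 h5
    have hEl := (el_of (p := p) V H A' hf h1 h2).mono h3
    obtain ⟨h6, h7, h8, h9⟩ := min_of_card hS hEl h4 h5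
    exact ⟨⟨_, M₀, h6, h7, h8, h9, rfl⟩, le_sup_right⟩
  have hgen : (⨆ E : 𝓔, E.1) = H := by
    apply le_antisymm
    · exact iSup_le fun E => (hfac E).le_H
    · refine hS3.le.trans (iSup_le ?_)
      rintro ⟨A', h1, h2⟩
      show A' ≤ _
      obtain ⟨s, hs, hss⟩ := hdec A' h1 h2
      rw [← hss]
      apply sSup_le
      intro M₀ hM₀
      obtain ⟨h3, h4, h5⟩ := hs M₀ hM₀
      obtain ⟨E, hE⟩ := hsome A' M₀ h1 h2 h3 h4 h5
      exact hE.trans (le_iSup (fun E : 𝓔 => E.1) E)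
  -- `p`
  have hp23 : p = 2 ∨ p = 3 := by
    by_contra hcon
    have hall : ∀ E : 𝓔, False := by
      rintro ⟨_, A, h1, h2, h3, h4, rfl⟩
      exact hcon (fac_of_min hB hS hf hS3 h1 h2 h3 h4).1
    apply hH1
    rw [← hgen]
    rw [eq_bot_iff]
    exact iSup_le fun E => (hall E).elim
  -- two different factors
  have hne : ∀ E₁ E₂ : 𝓔, E₁ ≠ E₂ → E₂.1 ≤ H ⊓ centralizer ((⁅V, E₁.1⁆ : Subgroup G) : Set G) := by
    rintro ⟨_, A₁, h1, h2, h3, h4, rfl⟩ ⟨_, A₂, h5, h6, h7, h8, rfl⟩ hne12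
    have hF₁ := (fac_of_min hB hS hf hS3 h1 h2 h3 h4).2
    have hF₂ := (fac_of_min hB hS hf hS3 h5 h6 h7 h8).2
    obtain ⟨hE₁, hc₁, hr₁⟩ := min_data hS hf h1 h2 h3 h4
    obtain ⟨hE₂, hc₂, hr₂⟩ := min_data hS hf h5 h6 h7 h8
    rcases dich_min hB hS hE₁ hc₁ hr₁ hE₂ hc₂ hr₂ with hl | hr
    · exfalso
      apply hne12
      apply Subtype.ext
      have hle : ⁅((Cfsg.pPrimeCore p ↥H).map H.subtype), A₂⁆ ⊔ A₂ ≤ ⁅((Cfsg.pPrimeCore p ↥H).map H.subtype), A₁⁆ ⊔ A₁ := by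
        refine sup_le ?_ hl
        rw [Subgroup.commutator_le]
        intro y hy a ha
        rw [commutatorElement_def]
        exact Subgroup.mul_mem _ (hF₁.conj_mem (hS.hKH hy) (hl ha)) (Subgroup.inv_mem _ (hl ha))
      obtain ⟨i₁⟩ := hF₁.iso
      obtain ⟨i₂⟩ := hF₂.iso
      have hcard : Nat.card ↥(⁅((Cfsg.pPrimeCore p ↥H).map H.subtype), A₁⁆ ⊔ A₁) ≤
          Nat.card ↥(⁅((Cfsg.pPrimeCore p ↥H).map H.subtype), A₂⁆ ⊔ A₂) := by
        rw [Nat.card_congr i₁.toEquiv, Nat.card_congr i₂.toEquiv]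
      exact (Subgroup.eq_of_le_of_card_ge hle hcard).symm
    · refine sup_le ?_ hr
      rw [Subgroup.commutator_le]
      intro y hy a ha
      rw [commutatorElement_def]
      exact Subgroup.mul_mem _ (hF₁.M_normal hS.hHV (hS.hKH hy) (hr ha)) (Subgroup.inv_mem _ (hr ha))
  haveI : Finite 𝓔 := inferInstance
  obtain ⟨h1, h2, h3, h4⟩ := structure_main (p := p) hS.hHV hS.hVc (fun E : 𝓔 => E.1) hfac hne hgen
  exact ⟨hp23, fun E => ⟨h1 E, (hfac E).iso, (hfac E).card⟩, h2, hgen, h3, h4⟩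

end Cfsg.Agent.Lib.BestOffStruct
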