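import Mathlib

/-! The bialternant identity for complete homogeneous polynomials. -/

set_option autoImplicit false
set_option linter.style.haveILetI false
set_option linter.unusedSectionVars false

namespace Cfsg.Agent.Lib.Bialt

open Matrix

variable {n : ℕ}

/-- The coefficient ring. -/
abbrev RR (n : ℕ) := MvPolynomial (Fin n) ℤ

/-- The geometric series of a variable. -/
noncomputable def GG (j : Fin n) : PowerSeries (RR n) := PowerSeries.mk fun k => (MvPolynomial.X j) ^ k

/-- The linear factor. -/
noncomputable def LL (j : Fin n) : PowerSeries (RR n) :=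
  1 - PowerSeries.C (MvPolynomial.X j) * PowerSeries.X

theorem coeff_LL_mul (j : Fin n) (f : PowerSeries (RR n)) (k : ℕ) :
    PowerSeries.coeff (k + 1) (LL j * f) =
      PowerSeries.coeff (k + 1) f - MvPolynomial.X j * PowerSeries.coeff k f := by
  rw [LL, sub_mul, one_mul, map_sub, mul_assoc, PowerSeries.coeff_C_mul, mul_comm PowerSeries.X,
    PowerSeries.coeff_succ_mul_X]

theorem coeff_zero_LL_mul (j : Fin n) (f : PowerSeries (RR n)) :
    PowerSeries.coeff 0 (LL j * f) = PowerSeries.coeff 0 f := by
  rw [LL, sub_mul, one_mul, map_sub, mul_assoc, PowerSeries.coeff_C_mul, mul_comm PowerSeries.X]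
  simp

theorem LL_GG (j : Fin n) : LL j * GG j = 1 := by
  ext k
  cases k with
  | zero =>
    rw [coeff_zero_LL_mul]
    simp [GG]
  | succ k =>
    rw [coeff_LL_mul]
    simp [GG, pow_succ', PowerSeries.coeff_one]

/-- The generating function of the complete homogeneous polynomials. -/
noncomputable def HH (n : ℕ) : PowerSeries (RR n) := ∏ j, GG j

/-- The complete homogeneous polynomials. -/
noncomputable def hh (n m : ℕ) : RR n := PowerSeries.coeff m (HH n)

/-- The product of the linear factors other than the `j`-th. -/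
noncomputable def PP (j : Fin n) : PowerSeries (RR n) := ∏ l ∈ Finset.univ.erase j, LL l

theorem PP_HH (j : Fin n) : PP j * HH n = GG j := by
  have h1 : HH n = GG j * ∏ l ∈ Finset.univ.erase j, GG l :=
    (Finset.mul_prod_erase _ _ (Finset.mem_univ j)).symm
  have h2 : (∏ l ∈ Finset.univ.erase j, LL l) * ∏ l ∈ Finset.univ.erase j, GG l = 1 := by
    rw [← Finset.prod_mul_distrib]
    exact Finset.prod_eq_one fun l _ => LL_GG l
  rw [PP, h1, mul_left_comm, h2, mul_one]

theorem hh_eq (m : ℕ) : hh n m = ∑ l ∈ Finset.finsuppAntidiag Finset.univ m, MvPolynomial.monomial l (1 : ℤ) := by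
  classical
  rw [hh, HH, PowerSeries.coeff_prod]
  apply Finset.sum_congr rfl
  intro l _
  simp only [GG, PowerSeries.coeff_mk]
  rw [MvPolynomial.monomial_eq, Finsupp.prod_fintype]
  · simp
  · intro i
    simp

theorem hh_zero : hh n 0 = 1 := by
  rw [hh_eq]
  simp

theorem coeff_prod_LL (s : Finset (Fin n)) :
    ∀ q : ℕ, s.card < q → PowerSeries.coeff q (∏ l ∈ s, LL l) = 0 := by
  classical
  induction s using Finset.induction_on with
  | empty =>
    intro q hq
    simp only [Finset.prod_empty]
    rw [PowerSeries.coeff_one, if_neg]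
    simp at hq
    omega
  | insert a s ha ih =>
    intro q hq
    rw [Finset.card_insert_of_notMem ha] at hq
    obtain ⟨q, rfl⟩ : ∃ q', q = q' + 1 := ⟨q - 1, by omega⟩
    rw [Finset.prod_insert ha, coeff_LL_mul, ih _ (by omega), ih _ (by omega)]
    simp

theorem coeff_PP_zero (j : Fin n) (q : ℕ) (hq : n ≤ q) : PowerSeries.coeff q (PP j) = 0 := by
  classical
  apply coeff_prod_LL
  have h1 := Finset.card_erase_lt_of_mem (Finset.mem_univ j)
  simp only [Finset.card_univ, Fintype.card_fin] at h1
  omega

/-- The complete homogeneous matrix. -/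
noncomputable def Hm (lam : Fin n → ℕ) : Matrix (Fin n) (Fin n) (RR n) :=
  Matrix.of fun i k => if (k : ℕ) ≤ lam i then hh n (lam i - k) else 0

/-- The elementary matrix. -/
noncomputable def Mm (n : ℕ) : Matrix (Fin n) (Fin n) (RR n) :=
  Matrix.of fun k j => PowerSeries.coeff (k : ℕ) (PP j)

/-- The alternant matrix. -/
noncomputable def Am (lam : Fin n → ℕ) : Matrix (Fin n) (Fin n) (RR n) :=
  Matrix.of fun i j => (MvPolynomial.X j) ^ (lam i)

theorem Am_eq (lam : Fin n → ℕ) : Am lam = Hm lam * Mm n := by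
  ext1 i j
  rw [Matrix.mul_apply]
  simp only [Am, Hm, Mm, Matrix.of_apply]
  set m := lam i with hm
  let g : ℕ → RR n := fun q => (if q ≤ m then hh n (m - q) else 0) * PowerSeries.coeff q (PP j)
  have h1 : (MvPolynomial.X j : RR n) ^ m = PowerSeries.coeff m (GG j) := by
    simp [GG]
  rw [h1, ← PP_HH, PowerSeries.coeff_mul, Finset.Nat.sum_antidiagonal_eq_sum_range_succ_mk]
  have h2 : ∑ k : Fin n, (if (k : ℕ) ≤ m then hh n (m - k) else 0) * PowerSeries.coeff (k : ℕ) (PP j) =
      ∑ q ∈ Finset.range n, g q := by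
    rw [Fin.sum_univ_eq_sum_range g n]
  have h3 : ∑ q ∈ Finset.range (m + 1), PowerSeries.coeff q (PP j) * PowerSeries.coeff (m - q) (HH n) =
      ∑ q ∈ Finset.range (m + 1), g q := by
    apply Finset.sum_congr rfl
    intro q hq
    have hq' : q ≤ m := Nat.lt_succ_iff.1 (Finset.mem_range.1 hq)
    simp only [g, if_pos hq', hh]
    ring
  have h4 : ∑ q ∈ Finset.range (m + 1), g q = ∑ q ∈ Finset.range (max (m + 1) n), g q := by
    apply Finset.sum_subset
    · intro q hq
      simp only [Finset.mem_range] at hq ⊢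
      exact lt_of_lt_of_le hq (le_max_left _ _)
    · intro q _ hq
      simp only [Finset.mem_range, not_lt] at hq
      simp only [g, if_neg (show ¬ q ≤ m by omega), zero_mul]
  have h5 : ∑ q ∈ Finset.range n, g q = ∑ q ∈ Finset.range (max (m + 1) n), g q := by
    apply Finset.sum_subset
    · intro q hq
      simp only [Finset.mem_range] at hq ⊢
      exact lt_of_lt_of_le hq (le_max_right _ _)
    · intro q _ hq
      simp only [Finset.mem_range, not_lt] at hq
      simp only [g, coeff_PP_zero j q hq, mul_zero]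
  rw [h3, h4, h2, h5]

/-- The exponent vector `i ↦ i`. -/
def del (n : ℕ) : Fin n → ℕ := fun i => (i : ℕ)

theorem det_Hm_del : (Hm (del n)).det = 1 := by
  have h1 : (Hm (del n)).BlockTriangular OrderDual.toDual := by
    intro i k hik
    have hik' : i < k := hik
    have hnc : ¬ ((k : ℕ) ≤ del n i) := not_le.2 hik'
    exact if_neg hnc
  rw [Matrix.det_of_isLowerTriangular _ h1]
  apply Finset.prod_eq_one
  intro i _
  simp [Hm, del, hh_zero]

theorem bialt (lam : Fin n → ℕ) : (Am lam).det = (Hm lam).det * (Am (del n)).det := by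
  have h1 := Am_eq (del n)
  have h2 : (Am (del n)).det = (Mm n).det := by
    rw [h1, Matrix.det_mul, det_Hm_del, one_mul]
  rw [h2, Am_eq, Matrix.det_mul]

/-- Exponent vectors as finitely supported functions. -/
noncomputable def toF (b : Fin n → ℕ) : Fin n →₀ ℕ := Finsupp.equivFunOnFinite.symm b

theorem toF_apply (b : Fin n → ℕ) (i : Fin n) : toF b i = b i := rfl

theorem det_Am (lam : Fin n → ℕ) :
    (Am lam).det = ∑ w : Equiv.Perm (Fin n), ((Equiv.Perm.sign w : ℤ) : RR n) * MvPolynomial.monomial (toF fun i => lam (w i)) (1 : ℤ) := by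
  rw [Matrix.det_apply']
  apply Finset.sum_congr rfl
  intro w _
  congr 1
  rw [MvPolynomial.monomial_eq, Finsupp.prod_fintype]
  · simp [Am, toF_apply]
  · intro i
    simp

theorem coeff_det_Am (lam b : Fin n → ℕ) :
    MvPolynomial.coeff (toF b) (Am lam).det =
      ∑ w : Equiv.Perm (Fin n), if (fun i => lam (w i)) = b then ((Equiv.Perm.sign w : ℤ)) else 0 := by
  classical
  rw [det_Am, MvPolynomial.coeff_sum]
  apply Finset.sum_congr rfl
  intro w _
  have e : ((Equiv.Perm.sign w : ℤ) : RR n) = MvPolynomial.C ((Equiv.Perm.sign w : ℤ)) := by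
    simp
  rw [e, MvPolynomial.coeff_C_mul, MvPolynomial.coeff_monomial]
  by_cases h : (fun i => lam (w i)) = b
  · rw [if_pos (by rw [h]), if_pos h, mul_one]
  · rw [if_neg, if_neg h, mul_zero]
    intro h'
    apply h
    funext i
    exact DFunLike.congr_fun h' i

theorem det_Hm (lam : Fin n → ℕ) :
    (Hm lam).det = ∑ κ : Equiv.Perm (Fin n), ((Equiv.Perm.sign κ : ℤ) : RR n) *
      (if ∀ i, (κ i : ℕ) ≤ lam i then ∏ i, hh n (lam i - κ i) else 0) := by
  classical
  rw [← Matrix.det_transpose, Matrix.det_apply']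
  apply Finset.sum_congr rfl
  intro κ _
  congr 1
  by_cases h : ∀ i, (κ i : ℕ) ≤ lam i
  · rw [if_pos h]
    apply Finset.prod_congr rfl
    intro i _
    simp only [Matrix.transpose_apply, Hm, Matrix.of_apply]
    rw [if_pos (h i)]
  · rw [if_neg h]
    push Not at h
    obtain ⟨i, hi⟩ := h
    apply Finset.prod_eq_zero (Finset.mem_univ i)
    simp only [Matrix.transpose_apply, Hm, Matrix.of_apply]
    rw [if_neg (not_le.2 hi)]

/-- Contingency data: families of exponent vectors with prescribed degrees and prescribed sum. -/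
noncomputable def tabF (a b : Fin n → ℕ) : Finset (Fin n → (Fin n →₀ ℕ)) := by
  classical
  exact (Fintype.piFinset fun i => Finset.finsuppAntidiag Finset.univ (a i)).filter fun p => ∑ i, p i = toF b

theorem coeff_prod_hh (a b : Fin n → ℕ) :
    MvPolynomial.coeff (toF b) (∏ i, hh n (a i)) = ((tabF a b).card : ℤ) := by
  classical
  simp only [hh_eq]
  rw [Finset.prod_univ_sum, MvPolynomial.coeff_sum]
  have h1 : ∀ x : Fin n → (Fin n →₀ ℕ), MvPolynomial.coeff (toF b) (∏ i, (MvPolynomial.monomial (x i) (1 : ℤ) : RR n)) =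
      if ∑ i, x i = toF b then 1 else 0 := by
    intro x
    rw [← MvPolynomial.monomial_sum_one, MvPolynomial.coeff_monomial]
  simp only [h1]
  rw [Finset.sum_boole]
  simp only [tabF]

theorem coeff_Sch (lam b : Fin n → ℕ) :
    MvPolynomial.coeff (toF b) (Hm lam).det =
      ∑ κ : Equiv.Perm (Fin n), (Equiv.Perm.sign κ : ℤ) *
        (if ∀ i, (κ i : ℕ) ≤ lam i then ((tabF (fun i => lam i - κ i) b).card : ℤ) else 0) := by
  classical
  rw [det_Hm, MvPolynomial.coeff_sum]
  apply Finset.sum_congr rfl
  intro κ _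
  have e : ((Equiv.Perm.sign κ : ℤ) : RR n) = MvPolynomial.C ((Equiv.Perm.sign κ : ℤ)) := by
    simp
  rw [e, MvPolynomial.coeff_C_mul]
  congr 1
  split_ifs with h
  · exact coeff_prod_hh _ _
  · simp

theorem toF_del_le {κ : Equiv.Perm (Fin n)} {lam' : Fin n → ℕ} :
    toF (fun i => del n (κ i)) ≤ toF lam' ↔ ∀ i, (κ i : ℕ) ≤ lam' i := Iff.rfl

theorem key_identity (lam lam' : Fin n → ℕ) :
    ∑ κ' : Equiv.Perm (Fin n), (Equiv.Perm.sign κ' : ℤ) *
      (if ∀ i, (κ' i : ℕ) ≤ lam' i then
        ∑ κ : Equiv.Perm (Fin n), (Equiv.Perm.sign κ : ℤ) *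
          (if ∀ i, (κ i : ℕ) ≤ lam i then ((tabF (fun i => lam i - κ i) (fun i => lam' i - κ' i)).card : ℤ) else 0)
        else 0) =
      ∑ w : Equiv.Perm (Fin n), if (fun i => lam (w i)) = lam' then ((Equiv.Perm.sign w : ℤ)) else 0 := by
  classical
  rw [← coeff_det_Am, bialt, det_Am (del n), Finset.mul_sum, MvPolynomial.coeff_sum]
  apply Finset.sum_congr rfl
  intro κ' _
  have e : ((Equiv.Perm.sign κ' : ℤ) : RR n) = MvPolynomial.C ((Equiv.Perm.sign κ' : ℤ)) := by
    simp
  rw [e, mul_left_comm, MvPolynomial.coeff_C_mul, MvPolynomial.coeff_mul_monomial']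
  congr 1
  by_cases h : ∀ i, (κ' i : ℕ) ≤ lam' i
  · rw [if_pos h, if_pos (toF_del_le.2 h), mul_one]
    have e2 : toF lam' - toF (fun i => del n (κ' i)) = toF (fun i => lam' i - κ' i) := by
      ext i
      rfl
    rw [e2, coeff_Sch]
  · rw [if_neg h, if_neg (fun h' => h (toF_del_le.1 h'))]

theorem sum_sign_eq (lam lam' : Fin n → ℕ) (h : StrictMono lam) (h' : StrictMono lam') :
    (∑ w : Equiv.Perm (Fin n), if (fun i => lam (w i)) = lam' then ((Equiv.Perm.sign w : ℤ)) else 0) =
      if lam = lam' then 1 else 0 := by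
  classical
  rw [Finset.sum_eq_single 1]
  · simp only [Equiv.Perm.coe_one, id_eq, Equiv.Perm.sign_one, Units.val_one]
  · intro w _ hw
    rw [if_neg]
    intro he
    apply hw
    have hw' : StrictMono w := by
      intro i j hij
      have h1 : lam (w i) < lam (w j) := by
        have := h' hij
        rwa [← congrFun he i, ← congrFun he j] at this
      exact h.lt_iff_lt.1 h1
    have : (w : Fin n → Fin n) = id := by
      funext i
      exact congrFun (Subsingleton.elim (hw'.orderIsoOfSurjective w w.surjective) (OrderIso.refl _) |> fun e => congrArg (fun f : Fin n ≃o Fin n => (f : Fin n → Fin n)) e) i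
    exact Equiv.ext (congrFun this)
  · simp

section lead

theorem lex_max {lam : Fin n → ℕ} (h : StrictMono lam) {w : Equiv.Perm (Fin n)} (hw : w ≠ Fin.revPerm) :
    ∃ i : Fin n, (∀ j, j < i → lam (w j) = lam (Fin.rev j)) ∧ lam (w i) < lam (Fin.rev i) := by
  classical
  obtain ⟨i₀, hi₀⟩ : ∃ i, w i ≠ Fin.revPerm i := by
    by_contra hcon
    push Not at hcon
    exact hw (Equiv.ext hcon)
  let S : Finset (Fin n) := Finset.univ.filter fun i => w i ≠ Fin.rev i
  have hS : S.Nonempty := ⟨i₀, Finset.mem_filter.2 ⟨Finset.mem_univ _, hi₀⟩⟩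
  let i := S.min' hS
  have hi : w i ≠ Fin.rev i := (Finset.mem_filter.1 (S.min'_mem hS)).2
  have hlt : ∀ j, j < i → w j = Fin.rev j := by
    intro j hj
    by_contra hne
    exact absurd (S.min'_le j (Finset.mem_filter.2 ⟨Finset.mem_univ _, hne⟩)) (not_le.2 hj)
  refine ⟨i, fun j hj => by rw [hlt j hj], h ?_⟩
  rcases lt_or_gt_of_ne hi with h1 | h1
  · exact h1
  · exfalso
    -- `w i` is the image of an earlier index
    have h2 : Fin.rev (w i) < i := by
      have := Fin.rev_lt_rev.2 h1
      rwa [Fin.rev_rev] at this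
    have h3 := hlt _ h2
    rw [Fin.rev_rev] at h3
    have h4 := w.injective h3
    exact h2.ne h4

theorem coeff_Am_top {lam : Fin n → ℕ} (h : StrictMono lam) :
    MvPolynomial.coeff (toF fun i => lam (Fin.rev i)) (Am lam).det = (Equiv.Perm.sign (Fin.revPerm (n := n)) : ℤ) := by
  classical
  rw [coeff_det_Am, Finset.sum_eq_single Fin.revPerm]
  · rw [if_pos]
    rfl
  · intro w _ hw
    rw [if_neg]
    intro he
    apply hw
    apply Equiv.ext
    intro i
    exact h.injective (congrFun he i)
  · simp

theorem sign_ne : (Equiv.Perm.sign (Fin.revPerm (n := n)) : ℤ) ≠ 0 := by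
  rcases Int.units_eq_one_or (Equiv.Perm.sign (Fin.revPerm (n := n))) with h | h <;> simp [h]

theorem degree_Am {lam : Fin n → ℕ} (h : StrictMono lam) :
    MonomialOrder.lex.degree (Am lam).det = toF fun i => lam (Fin.rev i) := by
  classical
  set m : MonomialOrder (Fin n) := MonomialOrder.lex with hm
  have hne : MvPolynomial.coeff (toF fun i => lam (Fin.rev i)) (Am lam).det ≠ 0 := by
    rw [coeff_Am_top h]
    exact sign_ne
  apply m.toSyn.injective
  apply le_antisymm
  · rw [m.degree_le_iff]
    intro c hc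
    rw [MvPolynomial.mem_support_iff] at hc
    have h1 : c = toF (c : Fin n → ℕ) := by
      ext i
      rfl
    rw [h1, coeff_det_Am] at hc
    obtain ⟨w, -, hw⟩ := Finset.exists_ne_zero_of_sum_ne_zero hc
    have hw' : (fun i => lam (w i)) = (c : Fin n → ℕ) := by
      by_contra hcon
      rw [if_neg hcon] at hw
      exact hw rfl
    by_cases hwr : w = Fin.revPerm
    · subst hwr
      apply le_of_eq
      congr 1
      ext i
      exact (congrFun hw' i).symm
    · obtain ⟨i, hi1, hi2⟩ := lex_max h hwr
      apply le_of_lt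
      rw [hm, MonomialOrder.lex_lt_iff, Finsupp.Lex.lt_iff]
      refine ⟨i, ?_, ?_⟩
      · intro j hj
        change c j = lam (Fin.rev j)
        rw [← congrFun hw' j]
        exact hi1 j hj
      · change c i < lam (Fin.rev i)
        rw [← congrFun hw' i]
        exact hi2
  · exact m.le_degree (MvPolynomial.mem_support_iff.2 hne)

theorem coeff_Sch_top {lam nu : Fin n → ℕ} (h : StrictMono lam) (hnu : ∀ i, lam i = nu i + i) :
    MvPolynomial.coeff (toF fun i => nu (Fin.rev i)) (Hm lam).det = 1 := by
  classical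
  set m : MonomialOrder (Fin n) := MonomialOrder.lex with hm
  have hdel : StrictMono (del n) := fun i j hij => hij
  have hA := bialt lam
  have hne : (Am lam).det ≠ 0 := by
    intro h0
    have := coeff_Am_top h
    rw [h0, MvPolynomial.coeff_zero] at this
    exact sign_ne (n := n) this.symm
  have hne2 : (Am (del n)).det ≠ 0 := by
    intro h0
    have := coeff_Am_top hdel
    rw [h0, MvPolynomial.coeff_zero] at this
    exact sign_ne (n := n) this.symm
  have hne1 : (Hm lam).det ≠ 0 := by
    intro h0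
    rw [h0, zero_mul] at hA
    exact hne hA
  have hd := m.degree_mul hne1 hne2
  rw [← hA, hm, degree_Am h, degree_Am hdel] at hd
  have hd' : MonomialOrder.lex.degree (Hm lam).det = toF fun i => nu (Fin.rev i) := by
    apply add_right_cancel (b := toF fun i => del n (Fin.rev i))
    rw [← hd]
    ext i
    simp only [Finsupp.coe_add, Pi.add_apply, toF_apply, del]
    exact hnu _
  have hl := MonomialOrder.lex.leadingCoeff_mul (f := (Hm lam).det) (g := (Am (del n)).det)
  rw [← hA] at hl
  simp only [MonomialOrder.leadingCoeff] at hl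
  rw [degree_Am h, degree_Am hdel, hd', coeff_Am_top h, coeff_Am_top hdel] at hl
  exact (mul_right_cancel₀ sign_ne (by rw [one_mul]; exact hl.symm))

end lead

end Cfsg.Agent.Lib.Bialt
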