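import Cfsg.Agent.Lib.BlockFrob

/-!
# Nilpotent blocks on centralizers; blocks with abelian defect
-/

set_option autoImplicit false
set_option linter.all false

namespace Cfsg.Agent.Lib.BlockAb

open Cfsg Cfsg.Agent.Lib.BlockLocal Cfsg.Agent.Lib.BlockOsima Cfsg.Agent.Lib.BlockBr
  Cfsg.Agent.Lib.BlockApps Cfsg.Agent.Lib.CharIrr Cfsg.Agent.Lib.BlockPair Cfsg.Agent.Lib.BlockSub
  Cfsg.Agent.Lib.BlockMax Cfsg.Agent.Lib.BlockTrace Cfsg.Agent.Lib.BlockConjP Cfsg.Agent.Lib.BlockFull
  Cfsg.Agent.Lib.BlockFus Cfsg.Agent.Lib.BlockFus2 Cfsg.Agent.Lib.BlockSat Cfsg.Agent.Lib.BlockTrans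
  Cfsg.Agent.Lib.BlockRecep Cfsg.Agent.Lib.BlockFrob
open scoped ComplexConjugate

universe u

section Nil

variable {G : Type u} [Group G] [Fintype G] {p : ℕ} {M : Ideal AlgInt} [hprime : M.IsPrime]
  {B : Set (IrrCharacter G)} {P : Subgroup G} {e : Set (IrrCharacter (Subgroup.centralizer (P : Set G)))}

/-- A nilpotent block restricts to nilpotent blocks on the centralizers of its pairs. -/
theorem nilp_cent (hM : IsPModular p M) (hnil : IsNilpotentBlock p M B) {Q : Subgroup G}
    {f : Set (IrrCharacter (Subgroup.centralizer (Q : Set G)))} (hQf : IsBrauerPairOf p M B Q f) :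
    IsNilpotentBlock p M f := by
  classical
  haveI : Fact p.Prime := ⟨hM.1⟩
  letI : Fintype (Subgroup.centralizer (Q : Set G)) := Fintype.ofFinite _
  refine ⟨hQf.1.2, ?_⟩
  intro A e₁ hA x hxN hxS hxR
  let Y : Subgroup G := Subgroup.centralizer (Q : Set G)
  letI : Fintype (Subgroup.centralizer (A : Set Y)) := Fintype.ofFinite _
  let A' : Subgroup G := A.map Y.subtype
  let R : Subgroup G := Q ⊔ A'
  letI : Fintype (Subgroup.centralizer (R : Set G)) := Fintype.ofFinite _
  have hA'Y : A' ≤ Y := by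
    rintro _ ⟨a, -, rfl⟩
    exact a.2
  have hh : ∀ y : Y, y ∈ Subgroup.centralizer (A : Set Y) ↔ (y : G) ∈ Subgroup.centralizer (R : Set G) := by
    intro y
    constructor
    · intro hy
      rw [Subgroup.mem_centralizer_iff] at hy ⊢
      have h1 : R ≤ Subgroup.centralizer ({(y : G)} : Set G) := by
        refine sup_le ?_ ?_
        · intro q hq
          rw [Subgroup.mem_centralizer_singleton_iff]
          exact (Subgroup.mem_centralizer_iff.1 y.2 q hq)
        · rintro _ ⟨a, ha, rfl⟩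
          rw [Subgroup.mem_centralizer_singleton_iff]
          exact (congrArg Subtype.val (hy a ha))
      intro r hr
      exact (Subgroup.mem_centralizer_singleton_iff.1 (h1 hr))
    · intro hy
      rw [Subgroup.mem_centralizer_iff] at hy ⊢
      intro a ha
      apply Subtype.ext
      exact hy a (Subgroup.mem_sup_right ⟨a, ha, rfl⟩)
  have hC : Subgroup.centralizer (R : Set G) ≤ Y := centralizer_anti le_sup_left
  let τ := tauG Y A R hh hC
  let e' : Set (IrrCharacter (Subgroup.centralizer (R : Set G))) := trB τ.symm e₁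
  have he'mem : ∀ ξ ∈ e', ∃ χ ∈ e₁, ∀ a, (χ : Subgroup.centralizer (A : Set Y) → ℂ) a = (ξ : Subgroup.centralizer (R : Set G) → ℂ) (τ a) := by
    rintro ξ ⟨χ, hχ, h⟩
    refine ⟨χ, hχ, fun a => ?_⟩
    rw [h]
    simp
  have hRp : IsPGroup p R := by
    refine IsPGroup.to_sup_of_normal_left' hQf.1.1 (hA.1.1.map _) ?_
    exact hA'Y.trans (centralizer_le_normalizer' Q)
  obtain ⟨T, hT⟩ := exists_isStab Q hQf.1.2
  have hRT : R ≤ T := sup_le hT.self_le (hA'Y.trans hT.cent_le)
  have hs : IsNormalSubpair p M Q f R e' := by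
    refine ⟨hQf.1, ⟨hRp, trB_block _ hA.1.2⟩, le_sup_left, hRT.trans hT.le_norm, fun y hy => hT.stab (hRT hy), ?_⟩
    intro ξ hξ
    obtain ⟨χ, hχ, h⟩ := he'mem ξ hξ
    have h1 := hA.2.2 χ hχ
    rwa [omega_trB Y A R hh hC (β := subgroupBlockCoeff (Subgroup.centralizer (Q : Set G)) f)
      (fun y => (subgroupBlockCoeff_mem _ f y).symm) χ ξ h] at h1
  have hpair : IsBrauerPairOf p M B R e' := (pairOf_normal_iff hM hs hQf.2.1).2 hQf
  have hxQ : ∀ q ∈ Q, (x : G) * q * (x : G)⁻¹ = q := by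
    intro q hq
    have := Subgroup.mem_centralizer_iff.1 x.2 q hq
    rw [← this]
    group
  have hmapR : R.map (MulAut.conj (x : G)).toMonoidHom = R := by
    have h1 : Q.map (MulAut.conj (x : G)).toMonoidHom = Q := by
      ext a
      constructor
      · rintro ⟨q, hq, rfl⟩
        show (x : G) * q * (x : G)⁻¹ ∈ Q
        rw [hxQ q hq]
        exact hq
      · intro ha
        exact ⟨a, ha, hxQ a ha⟩
    have h2 : A'.map (MulAut.conj (x : G)).toMonoidHom = A' := by
      ext a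
      constructor
      · rintro ⟨_, ⟨b, hb, rfl⟩, rfl⟩
        exact ⟨x * b * x⁻¹, (Subgroup.mem_normalizer_iff.1 hxN b).1 hb, rfl⟩
      · rintro ⟨b, hb, rfl⟩
        refine ⟨_, ⟨x⁻¹ * b * x, ?_, rfl⟩, ?_⟩
        · have := (Subgroup.mem_normalizer_iff.1 (Subgroup.inv_mem _ hxN) b).1 hb
          simpa using this
        · show (x : G) * ((x⁻¹ * b * x : Y) : G) * (x : G)⁻¹ = (b : G)
          simp only [Subgroup.coe_mul, Subgroup.coe_inv]
          group
    show (Q ⊔ A').map _ = Q ⊔ A'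
    rw [Subgroup.map_sup, h1, h2]
  have hxNR : (x : G) ∈ Subgroup.normalizer (R : Set G) := by
    rw [Subgroup.mem_normalizer_iff]
    intro a
    have := mem_map_conj_iff R (x : G) a
    rw [hmapR] at this
    exact this
  have hxSR : StabilizesBlock (Subgroup.centralizer (R : Set G)) e' (x : G) := by
    refine ⟨cent_le_norm_cent R hxNR, ?_⟩
    intro ξ hξ
    obtain ⟨χ, hχ, h⟩ := he'mem ξ hξ
    obtain ⟨χ', hχ', hc⟩ := hxS.2 χ hχ
    refine ⟨irrComp τ.symm χ', ⟨χ', hχ', fun a => rfl⟩, ?_⟩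
    intro k k' hk
    rw [irrComp_apply]
    have e1 := h (τ.symm k)
    rw [MulEquiv.apply_symm_apply] at e1
    rw [← e1]
    apply hc
    apply Subtype.ext
    show ((k' : G)) = _
    rw [hk]
    rfl
  have hreg : IsPRegular p (x : G) := by
    show ¬ p ∣ orderOf (x : G)
    rw [Subgroup.orderOf_coe]
    exact hxR
  exact (hh x).2 (hnil.2 R e' hpair _ hxNR hxSR hreg)

variable {F : FusionSystem P}

/-- In a nilpotent block, `C_P(Q)` is a defect group of `f`. -/
theorem nilp_cent_defect (hM : IsPModular p M) (hmax : IsMaximalBrauerPair p M B P e) (hnil : IsNilpotentBlock p M B)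
    {Q : Subgroup G} {f : Set (IrrCharacter (Subgroup.centralizer (Q : Set G)))} (hf : IsPBlock M f)
    (hle : SubpairLE p M Q f P e) :
    IsDefectGroup p M f ((P ⊓ Subgroup.centralizer (Q : Set G)).subgroupOf (Subgroup.centralizer (Q : Set G))) := by
  classical
  have hF := blockFus_isBlock hM hmax
  have hin := (nilp_iff_inner hM hF).1 hnil
  have hQP : Q ≤ P := SubpairLE.le hle
  refine (fullyCentralized_iff hM hF hQP hf hle).1 ⟨hQP, ?_⟩
  rintro Q' ⟨φ, hφ, rfl⟩
  rw [hin] at hφ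
  obtain ⟨-, h, hh, hact⟩ := hφ
  have hrange := range_of_conj hact
  rw [hrange]
  have hmap : FusionSystem.centralizerIn P (Q.map (MulAut.conj h).toMonoidHom) ≤
      (FusionSystem.centralizerIn P Q).map (MulAut.conj h).toMonoidHom := by
    rintro a ⟨ha, hc⟩
    rw [mem_map_conj_inv]
    refine ⟨P.mul_mem (P.mul_mem (P.inv_mem hh) ha) hh, ?_⟩
    show h⁻¹ * a * h ∈ Subgroup.centralizer (Q : Set G)
    rw [Subgroup.mem_centralizer_iff]
    intro q hq
    have h1 := Subgroup.mem_centralizer_iff.1 hc (h * q * h⁻¹) ⟨q, hq, rfl⟩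
    calc q * (h⁻¹ * a * h) = h⁻¹ * ((h * q * h⁻¹) * a) * h := by group
      _ = h⁻¹ * (a * (h * q * h⁻¹)) * h := by rw [h1]
      _ = h⁻¹ * a * h * q := by group
  have := Subgroup.card_le_of_le hmap
  rwa [Cfsg.Agent.Lib.BlockFrob.card_map_conj] at this

end Nil

section Ab

variable {G : Type u} [Group G] [Fintype G] {p : ℕ} {M : Ideal AlgInt} [hprime : M.IsPrime]
  {B : Set (IrrCharacter G)} {P : Subgroup G} {e : Set (IrrCharacter (Subgroup.centralizer (P : Set G)))}

theorem ab_le_cent (hab : ∀ x ∈ P, ∀ y ∈ P, x * y = y * x) {Q : Subgroup G} (hQP : Q ≤ P) :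
    P ≤ Subgroup.centralizer (Q : Set G) := fun x hx =>
  Subgroup.mem_centralizer_iff.2 (fun q hq => hab q (hQP hq) x hx)

/-- For abelian `P`, the subgroup `P` is a defect group of `f`. -/
theorem ab_defect (hM : IsPModular p M) (hmax : IsMaximalBrauerPair p M B P e) (hab : ∀ x ∈ P, ∀ y ∈ P, x * y = y * x)
    {Q : Subgroup G} {f : Set (IrrCharacter (Subgroup.centralizer (Q : Set G)))} (hf : IsPBlock M f)
    (hle : SubpairLE p M Q f P e) :
    IsDefectGroup p M f (P.subgroupOf (Subgroup.centralizer (Q : Set G))) := by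
  classical
  have hF := blockFus_isBlock hM hmax
  have hQP : Q ≤ P := SubpairLE.le hle
  have hPQ := ab_le_cent hab hQP
  have h1 := (fullyCentralized_iff hM hF hQP hf hle).1 ⟨hQP, fun Q' _ => by
    have e1 : FusionSystem.centralizerIn P Q = P := inf_eq_left.2 hPQ
    rw [e1]
    exact Subgroup.card_le_of_le inf_le_left⟩
  rwa [inf_eq_left.2 hPQ] at h1

/-- Equality of a pair read off in a subgroup. -/
theorem pair_eq_of_trB (hM : IsPModular p M) {Y P₀ R : Subgroup G} {e₀ : Set (IrrCharacter (Subgroup.centralizer (P₀ : Set G)))}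
    {eR : Set (IrrCharacter (Subgroup.centralizer (R : Set G)))} (hP : P₀ ≤ Y) (hCP : Subgroup.centralizer (P₀ : Set G) ≤ Y)
    (hRY : R ≤ Y) (hCR : Subgroup.centralizer (R : Set G) ≤ Y)
    (hPe : IsBrauerPair p M (P₀.subgroupOf Y) (trB (tauG Y _ P₀ (cent_subgroupOf_iff hP) hCP) e₀))
    (hReq : R = P₀)
    (hle : SubpairLE p M (R.subgroupOf Y) (trB (tauG Y _ R (cent_subgroupOf_iff hRY) hCR) eR)
      (P₀.subgroupOf Y) (trB (tauG Y _ P₀ (cent_subgroupOf_iff hP) hCP) e₀)) :
    (⟨R, eR⟩ : BrauerPairIdx G) = ⟨P₀, e₀⟩ := by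
  classical
  letI : Fintype Y := Fintype.ofFinite _
  letI : Fintype (Subgroup.centralizer (P₀ : Set G)) := Fintype.ofFinite _
  letI : Fintype (Subgroup.centralizer ((P₀.subgroupOf Y : Subgroup Y) : Set Y)) := Fintype.ofFinite _
  subst hReq
  have h1 := subpair_unique hM hPe _ _ _ hle Relation.ReflTransGen.refl
  have h2 := trB_inj _ h1
  rw [h2]

/-- **Factorization of the stabilizer, abelian case.** -/
theorem ab_factor (hM : IsPModular p M) (hmax : IsMaximalBrauerPair p M B P e) (hab : ∀ x ∈ P, ∀ y ∈ P, x * y = y * x)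
    {Q : Subgroup G} {f : Set (IrrCharacter (Subgroup.centralizer (Q : Set G)))} (hf : IsPBlock M f)
    (hle : SubpairLE p M Q f P e) {x : G} (hxN : x ∈ Subgroup.normalizer (Q : Set G))
    (hxS : StabilizesBlock (Subgroup.centralizer (Q : Set G)) f x) :
    ∃ y, y ∈ Subgroup.normalizer (P : Set G) ∧ StabilizesBlock (Subgroup.centralizer (P : Set G)) e y ∧
      ∃ c ∈ Subgroup.centralizer (Q : Set G), x = y * c := by
  classical
  haveI : Fact p.Prime := ⟨hM.1⟩
  letI : Fintype (Subgroup.centralizer (Q : Set G)) := Fintype.ofFinite _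
  have hPe := hmax.1.1
  have hQP : Q ≤ P := SubpairLE.le hle
  have hPQ := ab_le_cent hab hQP
  have hPN : P ≤ Subgroup.normalizer (Q : Set G) := hPQ.trans (centralizer_le_normalizer' Q)
  obtain ⟨g, hg1, hg2⟩ := exists_intermediate hM hPe hle hQP le_rfl hPN
  have e1 : g = e := subpair_unique hM hPe P g e hg1 Relation.ReflTransGen.refl
  subst e1
  let Y : Subgroup G := Subgroup.centralizer (Q : Set G)
  have hEc : ∀ t : Y, blockCoeff f t = subgroupBlockCoeff Y f (t : G) := fun t => (subgroupBlockCoeff_mem Y f t).symm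
  have hp₁ := pair_in_mid hg2 hPQ le_rfl hf hEc
  have hD := ab_defect hM hmax hab hf hle
  have hmaxY := maximal_of_defect hM hp₁ hD
  have hidx := conj_of_stab hf hxN hxS
  have hn₀ := isNormalSubpair_conj hg2 x
  have hn₂ : NormalSubpairRel p M ⟨Q, f⟩ ⟨P.map (MulAut.conj x).toMonoidHom, conjBlock P x g⟩ := by
    rw [← hidx]
    exact hn₀
  have hn₂' : IsNormalSubpair p M Q f (P.map (MulAut.conj x).toMonoidHom) (conjBlock P x g) := hn₂
  have hPxY : P.map (MulAut.conj x).toMonoidHom ≤ Y := by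
    rintro _ ⟨a, ha, rfl⟩
    rw [Subgroup.mem_centralizer_iff]
    intro q hq
    have hq' : x⁻¹ * q * x ∈ Q := by
      have := (Subgroup.mem_normalizer_iff.1 (Subgroup.inv_mem _ hxN) q).1 hq
      simpa using this
    have h1 := hab _ (hQP hq') a ha
    show q * (x * a * x⁻¹) = (x * a * x⁻¹) * q
    calc q * (x * a * x⁻¹) = x * ((x⁻¹ * q * x) * a) * x⁻¹ := by group
      _ = x * (a * (x⁻¹ * q * x)) * x⁻¹ := by rw [h1]
      _ = (x * a * x⁻¹) * q := by group
  have hp₂ := pair_in_mid hn₂' hPxY le_rfl hf hEc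
  obtain ⟨c, hc⟩ := exists_conj_le_maximal hM hmaxY hp₂
  have hcY : (c : G) ∈ Y := c.2
  let R : Subgroup G := (P.map (MulAut.conj x).toMonoidHom).map (MulAut.conj (c : G)).toMonoidHom
  have hQR : Q ≤ R := by
    intro q hq
    have h1 : x⁻¹ * q * x ∈ Q := by
      have := (Subgroup.mem_normalizer_iff.1 (Subgroup.inv_mem _ hxN) q).1 hq
      simpa using this
    refine ⟨x * (x⁻¹ * q * x) * x⁻¹, ⟨_, hQP h1, rfl⟩, ?_⟩
    show (c : G) * (x * (x⁻¹ * q * x) * x⁻¹) * (c : G)⁻¹ = q
    have h2 := Subgroup.mem_centralizer_iff.1 hcY q hq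
    have e2 : x * (x⁻¹ * q * x) * x⁻¹ = q := by group
    rw [e2, ← h2]
    group
  have hC2 : Subgroup.centralizer (R : Set G) ≤ Y := centralizer_anti hQR
  have hQPx : Q ≤ P.map (MulAut.conj x).toMonoidHom := hn₂'.2.2.1
  have hRY : R ≤ Y := by
    rintro _ ⟨a, ha, rfl⟩
    exact Y.mul_mem (Y.mul_mem hcY (hPxY ha)) (Y.inv_mem hcY)
  have heq := conj_trB_eq hPxY (centralizer_anti hQPx) c hRY hC2 (conjBlock P x g)
  have hle₁ := subpairLE_of_idx_eq hc heq.symm rfl
  have hRP : R ≤ P := by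
    intro a ha
    have h1 : (⟨a, hRY ha⟩ : Y) ∈ (R.subgroupOf Y : Subgroup Y) := Subgroup.mem_subgroupOf.2 ha
    have h2 := SubpairLE.le hle₁ h1
    exact Subgroup.mem_subgroupOf.1 h2
  have hReq : R = P := Subgroup.eq_of_le_of_card_ge hRP (by
    show Nat.card P ≤ Nat.card ((P.map (MulAut.conj x).toMonoidHom).map (MulAut.conj (c : G)).toMonoidHom : Subgroup G)
    rw [card_map_conj, card_map_conj])
  have hidx₂ := pair_eq_of_trB hM hPQ (centralizer_anti hQP) hRY hC2 hp₁.1 hReq hle₁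
  have hidx₃ := (conj_conj P g x (c : G)).symm.trans hidx₂
  have hyle : SubpairLE p M (P.map (MulAut.conj ((c : G) * x)).toMonoidHom) (conjBlock P ((c : G) * x) g) P g :=
    subpairLE_of_idx_eq Relation.ReflTransGen.refl hidx₃.symm rfl
  have hmapeq : P.map (MulAut.conj ((c : G) * x)).toMonoidHom = P := congrArg Sigma.fst hidx₃
  have hyN : (c : G) * x ∈ Subgroup.normalizer (P : Set G) := by
    rw [Subgroup.mem_normalizer_iff]
    intro a
    have := mem_map_conj_iff P ((c : G) * x) a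
    rw [hmapeq] at this
    exact this
  refine ⟨(c : G) * x, hyN, stab_of_conj_le hM hPe Relation.ReflTransGen.refl hyN hyle, x⁻¹ * (c : G)⁻¹ * x, ?_, by group⟩
  have := (Subgroup.mem_normalizer_iff.1 (cent_le_norm_cent Q (Subgroup.inv_mem _ hxN)) _).1 (Subgroup.inv_mem _ hcY)
  simpa using this

/-- The stabilizer of `e` normalizing `Q` stabilizes `f`. -/
theorem stab_of_stab (hM : IsPModular p M) (hPe : IsBrauerPair p M P e) {Q : Subgroup G}
    {f : Set (IrrCharacter (Subgroup.centralizer (Q : Set G)))} (hle : SubpairLE p M Q f P e) {y : G}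
    (hyN : y ∈ Subgroup.normalizer (P : Set G)) (hyS : StabilizesBlock (Subgroup.centralizer (P : Set G)) e y)
    (hyQ : y ∈ Subgroup.normalizer (Q : Set G)) : StabilizesBlock (Subgroup.centralizer (Q : Set G)) f y := by
  classical
  letI : Fintype (Subgroup.centralizer (P : Set G)) := Fintype.ofFinite _
  have h1 := subpairLE_of_idx_eq (subpairLE_conj hle y) rfl (conj_of_stab hPe.2 hyN hyS)
  exact stab_of_conj_le hM hPe hle hyQ h1

/-- **The index formula.** -/
theorem ab_index (hM : IsPModular p M) (hmax : IsMaximalBrauerPair p M B P e) (hab : ∀ x ∈ P, ∀ y ∈ P, x * y = y * x)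
    {Q : Subgroup G} {f : Set (IrrCharacter (Subgroup.centralizer (Q : Set G)))} (hf : IsPBlock M f)
    (hle : SubpairLE p M Q f P e)
    (TQ : Subgroup G) (hTQ : ∀ y : G, y ∈ TQ ↔ y ∈ Subgroup.normalizer (Q : Set G) ∧ StabilizesBlock (Subgroup.centralizer (Q : Set G)) f y)
    (TP : Subgroup G) (hTP : ∀ y : G, y ∈ TP ↔ y ∈ Subgroup.normalizer (P : Set G) ∧ StabilizesBlock (Subgroup.centralizer (P : Set G)) e y) :
    ((Subgroup.centralizer (Q : Set G)).subgroupOf TQ).index =
      ((TP ⊓ Subgroup.centralizer (Q : Set G)).subgroupOf (TP ⊓ Subgroup.normalizer (Q : Set G))).index := by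
  classical
  have hPe := hmax.1.1
  let A : Subgroup G := TP ⊓ Subgroup.normalizer (Q : Set G)
  have hAT : A ≤ TQ := by
    rintro y ⟨hy1, hy2⟩
    obtain ⟨h1, h2⟩ := (hTP y).1 hy1
    exact (hTQ y).2 ⟨hy2, stab_of_stab hM hPe hle h1 h2 hy2⟩
  haveI hK : ((Subgroup.centralizer (Q : Set G)).subgroupOf TQ).Normal := by
    constructor
    intro q hq t
    rw [Subgroup.mem_subgroupOf] at hq ⊢
    exact (Subgroup.mem_normalizer_iff.1 (cent_le_norm_cent Q ((hTQ t).1 t.2).1) q).1 hq
  let φ : A →* TQ ⧸ ((Subgroup.centralizer (Q : Set G)).subgroupOf TQ) :=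
    (QuotientGroup.mk' _).comp (Subgroup.inclusion hAT)
  have hsurj : Function.Surjective φ := by
    intro q
    induction q using QuotientGroup.induction_on with
    | H t =>
      obtain ⟨h1, h2⟩ := (hTQ t).1 t.2
      obtain ⟨y, hy1, hy2, c, hc, hxy⟩ := ab_factor hM hmax hab hf hle h1 h2
      have hcN := centralizer_le_normalizer' Q hc
      have hyA : y ∈ A := by
        refine ⟨(hTP y).2 ⟨hy1, hy2⟩, ?_⟩
        have : y = (t : G) * c⁻¹ := by
          rw [hxy]
          group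
        rw [this]
        exact Subgroup.mul_mem _ h1 (Subgroup.inv_mem _ hcN)
      refine ⟨⟨y, hyA⟩, ?_⟩
      show (((⟨y, hAT hyA⟩ : TQ) : TQ ⧸ ((Subgroup.centralizer (Q : Set G)).subgroupOf TQ))) = _
      rw [QuotientGroup.eq]
      rw [Subgroup.mem_subgroupOf]
      have : ((⟨y, hAT hyA⟩ : TQ)⁻¹ * t : TQ).1 = c := by
        show y⁻¹ * (t : G) = c
        rw [hxy]
        group
      rw [this]
      exact hc
  have hker : φ.ker = (TP ⊓ Subgroup.centralizer (Q : Set G)).subgroupOf A := by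
    ext a
    rw [MonoidHom.mem_ker, Subgroup.mem_subgroupOf]
    constructor
    · intro h
      have h1 := (QuotientGroup.eq_one_iff _).1 h
      exact ⟨a.2.1, Subgroup.mem_subgroupOf.1 h1⟩
    · rintro ⟨-, h⟩
      exact (QuotientGroup.eq_one_iff _).2 (Subgroup.mem_subgroupOf.2 h)
  have h2 : ((TP ⊓ Subgroup.centralizer (Q : Set G)).subgroupOf A).index = Nat.card φ.range := by
    rw [← hker, Subgroup.index_ker]
  rw [h2, MonoidHom.range_eq_top.2 hsurj, Subgroup.card_top]
  rfl

/-- Nilpotency for abelian defect. -/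
theorem ab_nilp_iff (hM : IsPModular p M) (hmax : IsMaximalBrauerPair p M B P e) (hab : ∀ x ∈ P, ∀ y ∈ P, x * y = y * x) :
    IsNilpotentBlock p M B ↔ ∀ x : G, x ∈ Subgroup.normalizer (P : Set G) →
      StabilizesBlock (Subgroup.centralizer (P : Set G)) e x → x ∈ Subgroup.centralizer (P : Set G) := by
  classical
  haveI : Fact p.Prime := ⟨hM.1⟩
  have hPe := hmax.1.1
  constructor
  · intro hnil x hxN hxS
    letI : Fintype (Subgroup.centralizer (P : Set G)) := Fintype.ofFinite _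
    obtain ⟨T, hT⟩ := exists_isStab P hPe.2
    letI : Fintype T := Fintype.ofFinite _
    obtain ⟨l, hl, c, hc, rfl⟩ := stab_eq_mulCent hM hnil hmax.1 hT (maximal_stab_defect hM hmax hT) ((hT x).2 ⟨hxN, hxS⟩)
    exact Subgroup.mul_mem _ (ab_le_cent hab le_rfl hl) hc
  · intro hI
    refine ⟨hmax.1.2.1, ?_⟩
    intro Q f hQf x hxN hxS hxR
    obtain ⟨z, hz⟩ := exists_conj_le_maximal hM hmax hQf
    have hf' := isPBlock_conjBlock Q z hQf.1.2
    have hle' := subpairLE_of_idx_eq hz (conj_idx_stab hQf.1.2 hxN hxS z).symm rfl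
    have hw := conj_mem_normalizer hxN z
    have hs := stab_of_conj_le hM hPe hz hw hle'
    obtain ⟨y, hy1, hy2, c, hc, hwy⟩ := ab_factor hM hmax hab hf' hz hw hs
    apply cent_of_conj_cent (z := z)
    rw [hwy]
    exact Subgroup.mul_mem _ (centralizer_anti (SubpairLE.le hz) (hI y hy1 hy2)) hc

end Ab

end Cfsg.Agent.Lib.BlockAb
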