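import Cfsg.Agent.Lib.BlockSub

/-!
# Maximal Brauer pairs: stabilizers, relative traces, defect groups
-/

set_option autoImplicit false
set_option linter.all false

namespace Cfsg.Agent.Lib.BlockMax

open Cfsg Cfsg.Agent.Lib.BlockLocal Cfsg.Agent.Lib.BlockOsima Cfsg.Agent.Lib.BlockBr
  Cfsg.Agent.Lib.BlockApps Cfsg.Agent.Lib.CharIrr Cfsg.Agent.Lib.BlockPair Cfsg.Agent.Lib.BlockSub
open scoped ComplexConjugate

universe u

section Basic

variable {X : Type u} [Group X] [Fintype X] {M : Ideal AlgInt} [hprime : M.IsPrime]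

/-- A character is in a set once its central character at the idempotent is one modulo `𝔪`. -/
theorem mem_of_cong_one {A : Set (IrrCharacter X)} {ψ : IrrCharacter X}
    (h : Cong M (om (ψ : X → ℂ) (blockCoeff A)) 1) : ψ ∈ A := by
  rw [om_blockCoeff] at h
  by_contra hn
  rw [if_neg hn] at h
  have := Cong.symm h
  exact one_not_memLocalIdeal (M := M) (cong_zero_iff.mp this)

/-- A character is in a set once its central character at the idempotent is outside `𝔪`. -/
theorem mem_of_not_mem_ideal {A : Set (IrrCharacter X)} {ψ : IrrCharacter X}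
    (h : ¬ MemLocalIdeal M (om (ψ : X → ℂ) (blockCoeff A))) : ψ ∈ A := by
  rw [om_blockCoeff] at h
  by_contra hn
  rw [if_neg hn] at h
  exact h memLocalIdeal_zero

/-- Same block from congruent central characters on local class functions. -/
theorem sameBlock_of_om {χ ψ : IrrCharacter X}
    (h : ∀ z, IsLC M z → Cong M (om (χ : X → ℂ) z) (om (ψ : X → ℂ) z)) :
    SameBlock M (χ : X → ℂ) (ψ : X → ℂ) := by
  classical
  intro g
  have hz : IsLC M (fun x => if IsConj x g then (1 : ℂ) else 0) := by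
    refine ⟨Cfsg.Agent.Lib.CharInt.indicator_isClassFunction g, fun x => ?_⟩
    dsimp only
    split_ifs
    · exact memLocalRing_one
    · exact memLocalRing_zero
  have h1 := h _ hz
  rw [om_indicator χ.2, om_indicator ψ.2] at h1
  exact h1

theorem blockCoeff_isLC' {f : Set (IrrCharacter X)} (hf : IsPBlock M f) : IsLC M (blockCoeff f) :=
  blockCoeff_isLC hf

end Basic

section Pair

variable {G : Type u} [Group G] [Fintype G] {p : ℕ} {M : Ideal AlgInt} [hprime : M.IsPrime]

theorem range_cent (Q : Subgroup G) (x : G) :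
    x ∈ (Subgroup.centralizer (Q : Set G)).subtype.range ↔ ∀ u ∈ Q, u * x = x * u := by
  rw [Subgroup.range_subtype]
  exact Subgroup.mem_centralizer_iff

/-- The character of `G` attached to a member of a Brauer pair. -/
theorem pair_char (hM : IsPModular p M) {P : Subgroup G}
    {e : Set (IrrCharacter (Subgroup.centralizer (P : Set G)))} (hPe : IsBrauerPair p M P e)
    [Fintype (Subgroup.centralizer (P : Set G))] {ξ₀ : IrrCharacter (Subgroup.centralizer (P : Set G))}
    (hξ₀ : ξ₀ ∈ e) : ∃ ψ : IrrCharacter G,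
      (∀ z, IsLC M z → Cong M (omI (Subgroup.centralizer (P : Set G)).subtype (ξ₀ : _ → ℂ) z) (om (ψ : G → ℂ) z)) ∧
      ∀ B, IsPBlock M B → (IsBrauerPairOf p M B P e ↔ ψ ∈ B) := by
  classical
  obtain ⟨ψ, hψ⟩ := exists_irr_centralizer hM P hPe.1 _ Subtype.val_injective (range_cent P) ξ₀.2
  refine ⟨ψ, hψ, fun B hB => ⟨?_, ?_⟩⟩
  · rintro ⟨-, -, h⟩
    have h1 := h ξ₀ hξ₀
    rw [brauerOmega_eq] at h1
    exact mem_of_cong_one (Cong.trans (Cong.symm (hψ _ (blockCoeff_isLC hB))) h1)
  · intro hψB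
    refine ⟨hPe, hB, fun ξ hξ => ?_⟩
    rw [brauerOmega_eq]
    have hLC := comp_isLC (M := M) (Subgroup.centralizer (P : Set G)).subtype (blockCoeff_isLC hB)
    have hs : SameBlock M (ξ₀ : Subgroup.centralizer (P : Set G) → ℂ) (ξ : Subgroup.centralizer (P : Set G) → ℂ) :=
      Cfsg.Agent.Lib.BlockOsima.sameBlock_of_mem_block (M := M) hPe.2 hξ₀ hξ
    have h1 := om_sameBlock (M := M) ξ₀.2 ξ.2 hLC.1 hLC.2 hs
    have h2 : Cong M (omI (Subgroup.centralizer (P : Set G)).subtype (ξ₀ : _ → ℂ) (blockCoeff B)) 1 := by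
      refine Cong.trans (hψ _ (blockCoeff_isLC hB)) ?_
      rw [om_blockCoeff, if_pos hψB]
      exact Cong.refl _
    exact Cong.trans (Cong.symm h1) h2

/-- The unique block of a Brauer pair. -/
theorem existsUnique_block (hM : IsPModular p M) {P : Subgroup G}
    {e : Set (IrrCharacter (Subgroup.centralizer (P : Set G)))} (hPe : IsBrauerPair p M P e) :
    ∃! B : Set (IrrCharacter G), IsBrauerPairOf p M B P e := by
  classical
  letI : Fintype (Subgroup.centralizer (P : Set G)) := Fintype.ofFinite _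
  obtain ⟨ξ₀, rfl⟩ := id hPe.2
  have hξ₀ := mem_block_self (M := M) ξ₀
  obtain ⟨ψ, -, h⟩ := pair_char hM hPe hξ₀
  refine ⟨blockOf M (ψ : G → ℂ), (h _ ⟨ψ, rfl⟩).2 (mem_block_self (M := M) ψ), ?_⟩
  intro B hB
  have hB' : IsPBlock M B := hB.2.1
  exact block_eq_of_mem hB' ⟨ψ, rfl⟩ ((h _ hB').1 hB) (mem_block_self (M := M) ψ)

/-- A normal inclusion preserves the block. -/
theorem pairOf_normal_iff (hM : IsPModular p M) {Q P : Subgroup G}
    {f : Set (IrrCharacter (Subgroup.centralizer (Q : Set G)))}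
    {e : Set (IrrCharacter (Subgroup.centralizer (P : Set G)))}
    (hs : IsNormalSubpair p M Q f P e) {B : Set (IrrCharacter G)} (hB : IsPBlock M B) :
    IsBrauerPairOf p M B P e ↔ IsBrauerPairOf p M B Q f := by
  classical
  letI : Fintype (Subgroup.centralizer (P : Set G)) := Fintype.ofFinite _
  letI : Fintype (Subgroup.centralizer (Q : Set G)) := Fintype.ofFinite _
  have hLC : IsLC M (blockCoeff B) := blockCoeff_isLC hB
  have key := normal_step_iff hM hs (b := blockCoeff B ∘ (Subgroup.centralizer (Q : Set G)).subtype)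
    (comp_isLC _ hLC)
    (by
      intro x
      have h1 := conv_trunc_centralizer hM Q hs.1.1 (Subgroup.centralizer (Q : Set G)).subtype
        Subtype.val_injective (range_cent Q) hLC hLC x
      rw [conv_blockCoeff B] at h1
      exact Cong.symm h1)
    (by
      intro a _ x y hxy
      simp only [Function.comp_apply, Subgroup.coe_subtype]
      rw [hxy]
      exact hLC.1 _ _)
  constructor
  · rintro ⟨-, -, h⟩
    refine ⟨hs.1, hB, fun θ hθ => ?_⟩
    rw [brauerOmega_eq]
    refine key.1 (fun ξ hξ => ?_) θ hθ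
    have := h ξ hξ
    rw [brauerOmega_eq] at this
    exact this
  · rintro ⟨-, -, h⟩
    refine ⟨hs.2.1, hB, fun ξ hξ => ?_⟩
    rw [brauerOmega_eq]
    refine key.2 (fun θ hθ => ?_) ξ hξ
    have := h θ hθ
    rw [brauerOmega_eq] at this
    exact this

/-- Inclusion of Brauer pairs preserves the block. -/
theorem pairOf_le_iff (hM : IsPModular p M) {B : Set (IrrCharacter G)} (hB : IsPBlock M B) :
    ∀ a b : BrauerPairIdx G, Relation.ReflTransGen (NormalSubpairRel p M) a b →
      (IsBrauerPairOf p M B a.1 a.2 ↔ IsBrauerPairOf p M B b.1 b.2) := by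
  intro a b hab
  induction hab with
  | refl => exact Iff.rfl
  | tail _ hstep ih =>
    exact ih.trans (pairOf_normal_iff hM hstep hB).symm

end Pair

section Cover

variable {X H : Type u} [Group X] [Fintype X] [Group H] [Fintype H] {p : ℕ} {M : Ideal AlgInt}
  [hprime : M.IsPrime]

/-- The characters of `X` over a set of characters of `H`. -/
def overSet (ι : H →* X) (e : Set (IrrCharacter H)) : Set (IrrCharacter X) :=
  {χ | ∃ ξ ∈ e, classInner (fun h => (χ : X → ℂ) (ι h)) (ξ : H → ℂ) ≠ 0}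

theorem exists_under (ι : H →* X) (hι : Function.Injective ι) (χ : IrrCharacter X) :
    ∃ ξ : IrrCharacter H, classInner (fun h => (χ : X → ℂ) (ι h)) (ξ : H → ℂ) ≠ 0 := by
  have h1 : IsCharacter H (fun h => (χ : X → ℂ) (ι h)) :=
    Cfsg.Agent.Lib.CharOps.isCharacter_comp ι (Cfsg.Agent.Lib.CharOps.IsIrrCharacter.isCharacter' χ.2)
  have h2 : (fun h => (χ : X → ℂ) (ι h)) 1 ≠ 0 := by
    simp only [map_one]
    exact irr_one_ne_zero χ.2
  obtain ⟨ξ, hξ, hne⟩ := Cfsg.Agent.Lib.CharAb.exists_constituent h1 h2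
  exact ⟨⟨ξ, hξ⟩, hne⟩

theorem range_normal_of_centralizer (Q₀ : Subgroup X) [hn : Q₀.Normal] (ι : H →* X)
    (hr : ∀ x, x ∈ ι.range ↔ ∀ u ∈ Q₀, u * x = x * u) : ι.range.Normal := by
  constructor
  intro x hx g
  rw [hr] at hx ⊢
  intro u hu
  have hu' : g⁻¹ * u * g ∈ Q₀ := by
    have := hn.conj_mem u hu g⁻¹
    simpa using this
  have := hx _ hu'
  have e1 : u * (g * x * g⁻¹) = g * ((g⁻¹ * u * g) * x) * g⁻¹ := by group
  have e2 : g * x * g⁻¹ * u = g * (x * (g⁻¹ * u * g)) * g⁻¹ := by group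
  rw [e1, e2, this]

open Classical in
/-- The value of the central character at the extension of a block idempotent by zero. -/
theorem om_cover (ι : H →* X) (hι : Function.Injective ι) (hn : ι.range.Normal)
    {e : Set (IrrCharacter H)} {y : X → ℂ} (hyc : IsClassFunction X y)
    (hy0 : ∀ x, x ∉ ι.range → y x = 0) (hy1 : ∀ c, y (ι c) = blockCoeff e c) (χ : IrrCharacter X) :
    om (χ : X → ℂ) y = if χ ∈ overSet ι e then 1 else 0 := by
  classical
  have hval : ∀ ξ : IrrCharacter H, classInner (fun h => (χ : X → ℂ) (ι h)) (ξ : H → ℂ) ≠ 0 →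
      om (χ : X → ℂ) y = if ξ ∈ e then 1 else 0 := by
    intro ξ hc
    rw [om_eq_of_constituent ι hι hn hc hyc hy0]
    have : y ∘ ι = blockCoeff e := funext hy1
    rw [this, om_blockCoeff]
  obtain ⟨ξ, hξ⟩ := exists_under ι hι χ
  by_cases hm : χ ∈ overSet ι e
  · obtain ⟨ξ', hξ', hc⟩ := hm
    rw [if_pos ⟨ξ', hξ', hc⟩, hval ξ' hc, if_pos hξ']
  · rw [if_neg hm, hval ξ hξ, if_neg]
    intro hin
    exact hm ⟨ξ, hin, hξ⟩

/-- **Fong-type lemma**: a stable block of the centralizer of a normal `p`-subgroup is a block of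
the whole group, with the same idempotent. -/
theorem cover_block (hM : IsPModular p M) (Q₀ : Subgroup X) [hn : Q₀.Normal] (hQ₀ : IsPGroup p Q₀)
    (ι : H →* X) (hι : Function.Injective ι) (hr : ∀ x, x ∈ ι.range ↔ ∀ u ∈ Q₀, u * x = x * u)
    {e : Set (IrrCharacter H)} (he : IsPBlock M e) {y : X → ℂ} (hyc : IsClassFunction X y)
    (hy0 : ∀ x, x ∉ ι.range → y x = 0) (hy1 : ∀ c, y (ι c) = blockCoeff e c) :
    IsPBlock M (overSet ι e) ∧ blockCoeff (overSet ι e) = y := by
  classical
  have hnr := range_normal_of_centralizer Q₀ ι hr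
  have hom := om_cover ι hι hnr hyc hy0 hy1
  have hyloc : ∀ x, MemLocalRing M (y x) := by
    intro x
    by_cases hx : x ∈ ι.range
    · obtain ⟨c, rfl⟩ := hx
      rw [hy1]
      exact (blockCoeff_isLC he).2 c
    · rw [hy0 x hx]
      exact memLocalRing_zero
  refine ⟨?_, ?_⟩
  · obtain ⟨ξ₀, rfl⟩ := id he
    have hξ₀ := mem_block_self (M := M) ξ₀
    obtain ⟨χ₀, hχ₀⟩ := exists_irr_over ι hι ξ₀
    refine ⟨χ₀, ?_⟩
    ext χ
    constructor
    · rintro ⟨ξ₁, hξ₁, hc⟩
      have hs : SameBlock M (χ₀ : X → ℂ) (χ : X → ℂ) := by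
        refine sameBlock_of_om fun z hz => ?_
        have h1 := om_congr_omI hM Q₀ hQ₀ ι hι hr hχ₀ hz
        have h2 := om_congr_omI hM Q₀ hQ₀ ι hι hr hc hz
        have hLC := comp_isLC (M := M) ι hz
        have h3 := om_sameBlock (M := M) ξ₀.2 ξ₁.2 hLC.1 hLC.2 hξ₁
        exact Cong.trans h1 (Cong.trans h3 (Cong.symm h2))
      exact hs
    · intro hs
      have h1 := om_sameBlock (M := M) χ₀.2 χ.2 hyc hyloc hs
      have hχ₀m : χ₀ ∈ overSet ι (blockOf M (ξ₀ : H → ℂ)) := ⟨ξ₀, hξ₀, hχ₀⟩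
      rw [hom χ₀, if_pos hχ₀m, hom χ] at h1
      by_contra hn'
      rw [if_neg hn'] at h1
      have h2 : MemLocalIdeal M (1 : ℂ) := by simpa using h1
      exact one_not_memLocalIdeal (M := M) h2
  · apply class_eq_of_om (blockCoeff_isClass _) hyc
    intro χ
    rw [om_blockCoeff, hom χ]

end Cover

section Stab

variable {G : Type u} [Group G] [Fintype G] {p : ℕ} {M : Ideal AlgInt} [hprime : M.IsPrime]

theorem cent_le_norm_cent (Q : Subgroup G) : Subgroup.normalizer (Q : Set G) ≤
    Subgroup.normalizer ((Subgroup.centralizer (Q : Set G) : Subgroup G) : Set G) :=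
  normalizes_centralizer le_rfl

/-- Elements of a subgroup act trivially on its characters. -/
theorem isConjCharOf_self (K : Subgroup G) {c : G} (hc : c ∈ K) (χ : IrrCharacter K) :
    IsConjCharOf K c (χ : K → ℂ) (χ : K → ℂ) := by
  intro k k' hk
  have h := Cfsg.Agent.Lib.CharOps.IsCharacter.isClassFunction' (Cfsg.Agent.Lib.CharOps.IsIrrCharacter.isCharacter' χ.2) k ⟨c, hc⟩
  rw [← h]
  have e : k' = ⟨c, hc⟩ * k * (⟨c, hc⟩ : K)⁻¹ := by
    apply Subtype.ext
    rw [hk]
    rfl
  rw [e]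

theorem stabilizesBlock_self (K : Subgroup G) {c : G} (hc : c ∈ K) (f : Set (IrrCharacter K)) :
    StabilizesBlock K f c :=
  ⟨Subgroup.le_normalizer hc, fun χ hχ => ⟨χ, hχ, isConjCharOf_self K hc χ⟩⟩

/-- The stabilizer of a block of `K` in `G`. -/
noncomputable def stabSub (K : Subgroup G) [Fintype K] (f : Set (IrrCharacter K)) (hf : IsPBlock M f) : Subgroup G where
  carrier := {y | StabilizesBlock K f y}
  one_mem' := stabilizesBlock_self K K.one_mem f
  mul_mem' := by
    rintro a b ⟨haN, ha⟩ ⟨hbN, hb⟩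
    refine ⟨Subgroup.mul_mem _ haN hbN, fun χ hχ => ?_⟩
    obtain ⟨χ₁, hχ₁, h₁⟩ := hb χ hχ
    obtain ⟨χ₂, hχ₂, h₂⟩ := ha χ₁ hχ₁
    refine ⟨χ₂, hχ₂, fun k k' hk => ?_⟩
    let k₁ : K := ⟨b * k * b⁻¹, (Subgroup.mem_normalizer_iff.1 hbN k).1 k.2⟩
    rw [h₂ k₁ k' (by rw [hk]; simp only [k₁]; group), h₁ k k₁ rfl]
  inv_mem' := by
    intro a ha
    have haN := ha.1
    refine (stabilizes_iff K (Subgroup.inv_mem _ haN) hf).2 ?_
    have h := (stabilizes_iff K haN hf).1 ha
    have e : (conjEquiv K a⁻¹ (Subgroup.inv_mem _ haN)).symm = conjEquiv K a haN := by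
      ext k
      simp
    rw [e]
    have hid : ∀ χ : IrrCharacter K, irrComp (conjEquiv K a haN) (irrComp (conjEquiv K a haN).symm χ) = χ := by
      intro χ
      apply Subtype.ext
      funext k
      simp [irrComp_apply]
    conv_lhs => rw [← h]
    rw [Set.image_image]
    simp [hid]

theorem mem_stabSub (K : Subgroup G) [Fintype K] {f : Set (IrrCharacter K)} (hf : IsPBlock M f) (y : G) :
    y ∈ stabSub K f hf ↔ StabilizesBlock K f y := Iff.rfl

end Stab

section StabGroup

variable {G : Type u} [Group G] [Fintype G] {p : ℕ} {M : Ideal AlgInt} [hprime : M.IsPrime]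

/-- `T` is the stabilizer of `f` in `N_G(Q)`. -/
def IsStab (Q : Subgroup G) (f : Set (IrrCharacter (Subgroup.centralizer (Q : Set G)))) (T : Subgroup G) : Prop :=
  ∀ y : G, y ∈ T ↔ y ∈ Subgroup.normalizer (Q : Set G) ∧ StabilizesBlock (Subgroup.centralizer (Q : Set G)) f y

namespace IsStab

variable {Q : Subgroup G} {f : Set (IrrCharacter (Subgroup.centralizer (Q : Set G)))} {T : Subgroup G}

theorem cent_le (hT : IsStab Q f T) : Subgroup.centralizer (Q : Set G) ≤ T := fun c hc =>
  (hT c).2 ⟨centralizer_le_normalizer' Q hc, stabilizesBlock_self _ hc f⟩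

theorem le_norm (hT : IsStab Q f T) : T ≤ Subgroup.normalizer (Q : Set G) := fun _ h => ((hT _).1 h).1

theorem stab (hT : IsStab Q f T) {y : G} (hy : y ∈ T) : StabilizesBlock (Subgroup.centralizer (Q : Set G)) f y :=
  ((hT y).1 hy).2

theorem self_le (hT : IsStab Q f T) : Q ≤ T := by
  intro q hq
  refine (hT q).2 ⟨Subgroup.le_normalizer hq, cent_le_norm_cent Q (Subgroup.le_normalizer hq), fun χ hχ => ⟨χ, hχ, ?_⟩⟩
  intro k k' hk
  have hc := Subgroup.mem_centralizer_iff.1 k.2 q hq
  have : k' = k := by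
    apply Subtype.ext
    rw [hk, hc]
    group
  rw [this]

theorem normal (hT : IsStab Q f T) : (Q.subgroupOf T).Normal := by
  constructor
  intro q hq t
  rw [Subgroup.mem_subgroupOf] at hq ⊢
  exact (Subgroup.mem_normalizer_iff.1 (hT.le_norm t.2) q).1 hq

theorem range_iff (hT : IsStab Q f T) (x : T) :
    x ∈ (Subgroup.inclusion hT.cent_le).range ↔ ∀ u ∈ Q.subgroupOf T, u * x = x * u := by
  constructor
  · rintro ⟨c, rfl⟩ u hu
    apply Subtype.ext
    exact Subgroup.mem_centralizer_iff.1 c.2 u (Subgroup.mem_subgroupOf.1 hu)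
  · intro hx
    refine ⟨⟨x, ?_⟩, rfl⟩
    rw [Subgroup.mem_centralizer_iff]
    intro u hu
    exact congrArg Subtype.val (hx ⟨u, hT.self_le hu⟩ (Subgroup.mem_subgroupOf.2 hu))

end IsStab

/-- The stabilizer exists. -/
theorem exists_isStab (Q : Subgroup G) {f : Set (IrrCharacter (Subgroup.centralizer (Q : Set G)))}
    [Fintype (Subgroup.centralizer (Q : Set G))] (hf : IsPBlock M f) : ∃ T, IsStab Q f T :=
  ⟨stabSub _ f hf ⊓ Subgroup.normalizer (Q : Set G), fun y => by
    rw [Subgroup.mem_inf, mem_stabSub, and_comm]⟩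

/-- `subgroupBlockCoeff` at an element of the centralizer. -/
theorem subgroupBlockCoeff_mem (K : Subgroup G) (f : Set (IrrCharacter K)) (c : K) :
    subgroupBlockCoeff K f (c : G) = blockCoeff f c := by
  classical
  unfold subgroupBlockCoeff
  simp only [dif_pos c.2]

theorem subgroupBlockCoeff_not_mem (K : Subgroup G) (f : Set (IrrCharacter K)) {g : G} (hg : g ∉ K) :
    subgroupBlockCoeff K f g = 0 := by
  classical
  unfold subgroupBlockCoeff
  simp only [dif_neg hg]

theorem subgroupBlockCoeff_local (K : Subgroup G) [Fintype K] {f : Set (IrrCharacter K)} (hf : IsPBlock M f) (g : G) :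
    MemLocalRing M (subgroupBlockCoeff K f g) := by
  by_cases hg : g ∈ K
  · rw [subgroupBlockCoeff_mem K f ⟨g, hg⟩]
    exact (blockCoeff_isLC hf).2 _
  · rw [subgroupBlockCoeff_not_mem K f hg]
    exact memLocalRing_zero

/-- The idempotent of a block is invariant under its stabilizer. -/
theorem subgroupBlockCoeff_stable (K : Subgroup G) [Fintype K] {f : Set (IrrCharacter K)} (hf : IsPBlock M f)
    {a : G} (ha : StabilizesBlock K f a) (g : G) :
    subgroupBlockCoeff K f (a * g * a⁻¹) = subgroupBlockCoeff K f g := by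
  by_cases hg : g ∈ K
  · have h' : a * g * a⁻¹ ∈ K := (Subgroup.mem_normalizer_iff.1 ha.1 g).1 hg
    rw [subgroupBlockCoeff_mem K f ⟨g, hg⟩, subgroupBlockCoeff_mem K f ⟨_, h'⟩]
    exact blockCoeff_of_stable K hf ha _ _ rfl
  · have h' : a * g * a⁻¹ ∉ K := fun h => hg ((Subgroup.mem_normalizer_iff.1 ha.1 g).2 h)
    rw [subgroupBlockCoeff_not_mem K f hg, subgroupBlockCoeff_not_mem K f h']

/-- **Block of the stabilizer**. -/
theorem stab_block (hM : IsPModular p M) {Q : Subgroup G} (hQ : IsPGroup p Q)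
    {f : Set (IrrCharacter (Subgroup.centralizer (Q : Set G)))} (hf : IsPBlock M f)
    {T : Subgroup G} (hT : IsStab Q f T) [Fintype T] [Fintype (Subgroup.centralizer (Q : Set G))] :
    IsPBlock M (overSet (Subgroup.inclusion hT.cent_le) f) ∧
      ∀ t : T, blockCoeff (overSet (Subgroup.inclusion hT.cent_le) f) t =
        subgroupBlockCoeff (Subgroup.centralizer (Q : Set G)) f (t : G) := by
  haveI := hT.normal
  have hQ₀ : IsPGroup p (Q.subgroupOf T) := hQ.comap_of_injective T.subtype Subtype.val_injective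
  have h := cover_block (y := fun t : T => subgroupBlockCoeff (Subgroup.centralizer (Q : Set G)) f (t : G)) hM
    (Q.subgroupOf T) hQ₀
    (Subgroup.inclusion hT.cent_le) (Subgroup.inclusion_injective _) hT.range_iff hf
    (by
      intro g h
      have := subgroupBlockCoeff_stable _ hf (hT.stab h.2) (g : G)
      exact this)
    (by
      intro x hx
      apply subgroupBlockCoeff_not_mem
      intro hmem
      exact hx ⟨⟨x, hmem⟩, rfl⟩)
    (by
      intro c
      exact subgroupBlockCoeff_mem _ f c)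
  refine ⟨h.1, fun t => ?_⟩
  rw [h.2]

end StabGroup

section Defect

variable {X H : Type u} [Group X] [Fintype X] [Group H] [Fintype H] {p : ℕ} {M : Ideal AlgInt}
  [hprime : M.IsPrime]

/-- Every block has a Brauer pair on a defect group (abstract form). -/
theorem exists_irr_of_defect (hM : IsPModular p M) {b : Set (IrrCharacter X)} (hb : IsPBlock M b)
    {D : Subgroup X} (hD : IsDefectGroup p M b D) (ι : H →* X) (hι : Function.Injective ι)
    (hr : ∀ x, x ∈ ι.range ↔ ∀ u ∈ D, u * x = x * u) :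
    ∃ ξ' : IrrCharacter H, Cong M (om (ξ' : H → ℂ) (blockCoeff b ∘ ι)) 1 := by
  classical
  haveI : Fact p.Prime := ⟨hM.1⟩
  obtain ⟨g₀, hg₀, Dₛ, rfl⟩ := hD
  have hDp : IsPGroup p ((Dₛ : Subgroup (Subgroup.centralizer ({g₀} : Set X))).map (Subgroup.centralizer ({g₀} : Set X)).subtype) :=
    Dₛ.isPGroup'.map _
  have haLC : IsLC M (blockCoeff b) := blockCoeff_isLC hb
  let w : H → ℂ := blockCoeff b ∘ ι
  have hwLC : IsLC M w := comp_isLC ι haLC
  have hid : ∀ r, Cong M (conv w w r) (w r) := by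
    intro r
    have h1 := conv_trunc_centralizer hM _ hDp ι hι hr haLC haLC r
    rw [conv_blockCoeff b] at h1
    exact Cong.symm h1
  obtain ⟨A', -, hcong, hA1, -⟩ := idem_congr hwLC hid
  have hg₀C : g₀ ∈ ι.range := by
    rw [hr]
    rintro _ ⟨d, -, rfl⟩
    have := d.2
    rw [Subgroup.mem_centralizer_singleton_iff] at this
    exact this
  obtain ⟨y₀, hy₀⟩ := hg₀C
  have hwy₀ : ¬ MemLocalIdeal M (w y₀) := by
    have : w y₀ = blockCoeff b g₀ := by
      simp only [w, Function.comp_apply, hy₀]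
    rw [this]
    exact hg₀.2.1
  obtain ⟨ξ', hξ'⟩ : ∃ ξ', ξ' ∈ A' := by
    by_contra hemp
    push_neg at hemp
    apply hwy₀
    have h1 := hcong y₀
    have h2 : blockCoeff A' y₀ = 0 := by
      rw [blockCoeff_eq]
      simp [hemp]
    rw [h2] at h1
    exact cong_zero_iff.mp h1
  exact ⟨ξ', (hA1 ξ').1 hξ'⟩

end Defect

section StabDefect

variable {G : Type u} [Group G] [Fintype G] {p : ℕ} {M : Ideal AlgInt} [hprime : M.IsPrime]

/-- A defect group of the stabilizer block carries a Brauer pair above the given pair. -/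
theorem exists_pair_above (hM : IsPModular p M) {Q : Subgroup G}
    {f : Set (IrrCharacter (Subgroup.centralizer (Q : Set G)))} (hQf : IsBrauerPair p M Q f)
    {T : Subgroup G} (hT : IsStab Q f T) [Fintype T] [Fintype (Subgroup.centralizer (Q : Set G))]
    {D : Subgroup T} (hD : IsDefectGroup p M (overSet (Subgroup.inclusion hT.cent_le) f) D) :
    ∃ g, IsNormalSubpair p M Q f (D.map T.subtype) g := by
  classical
  haveI := hT.normal
  obtain ⟨hQ, hf⟩ := hQf
  have hFb := (stab_block hM hQ hf hT).1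
  have hQ₀ : IsPGroup p (Q.subgroupOf T) := hQ.comap_of_injective T.subtype Subtype.val_injective
  have hQD := normal_le_defect hM hFb hD (Q.subgroupOf T) hQ₀
  have hDp : IsPGroup p D := by
    obtain ⟨g₀, -, Dₛ, rfl⟩ := hD
    exact Dₛ.isPGroup'.map _
  let D' : Subgroup G := D.map T.subtype
  have hD'p : IsPGroup p D' := hDp.map _
  have hQD' : Q ≤ D' := fun q hq => ⟨⟨q, hT.self_le hq⟩, hQD (Subgroup.mem_subgroupOf.2 hq), rfl⟩
  have hD'T : D' ≤ T := by
    rintro _ ⟨d, -, rfl⟩
    exact d.2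
  have hC' : Subgroup.centralizer (D' : Set G) ≤ T := fun x hx =>
    hT.cent_le (centralizer_anti hQD' hx)
  letI : Fintype (Subgroup.centralizer (D' : Set G)) := Fintype.ofFinite _
  let ι' : Subgroup.centralizer (D' : Set G) →* T := Subgroup.inclusion hC'
  have hι' : Function.Injective ι' := Subgroup.inclusion_injective hC'
  have hr' : ∀ x : T, x ∈ ι'.range ↔ ∀ u ∈ D, u * x = x * u := by
    intro x
    constructor
    · rintro ⟨c, rfl⟩ u hu
      apply Subtype.ext
      exact Subgroup.mem_centralizer_iff.1 c.2 (u : G) ⟨u, hu, rfl⟩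
    · intro hx
      refine ⟨⟨x, ?_⟩, rfl⟩
      rw [Subgroup.mem_centralizer_iff]
      rintro _ ⟨u, hu, rfl⟩
      exact congrArg Subtype.val (hx u hu)
  obtain ⟨ξ', hξ'⟩ := exists_irr_of_defect hM hFb hD ι' hι' hr'
  refine ⟨blockOf M (ξ' : _ → ℂ), ⟨hQ, hf⟩, ⟨hD'p, ⟨ξ', rfl⟩⟩, hQD', fun x hx => hT.le_norm (hD'T hx),
    fun x hx => hT.stab (hD'T hx), ?_⟩
  have hz : (blockCoeff (overSet (Subgroup.inclusion hT.cent_le) f)) ∘ ι' =
      subgroupBlockCoeff (Subgroup.centralizer (Q : Set G)) f ∘ (Subgroup.centralizer (D' : Set G)).subtype := by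
    funext c
    exact (stab_block hM hQ hf hT).2 _
  rw [hz] at hξ'
  have hLC : IsLC M (subgroupBlockCoeff (Subgroup.centralizer (Q : Set G)) f ∘ (Subgroup.centralizer (D' : Set G)).subtype) := by
    rw [← hz]
    exact comp_isLC ι' (blockCoeff_isLC hFb)
  intro ξ hξ
  rw [brauerOmega_eq]
  have h1 := om_sameBlock (M := M) ξ'.2 ξ.2 hLC.1 hLC.2 hξ
  exact Cong.trans (Cong.symm h1) hξ'

end StabDefect

end Cfsg.Agent.Lib.BlockMax
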