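import Cfsg.Agent.Lib.BlockMax

/-!
# Relative traces of class functions and defect groups of maximal Brauer pairs
-/

set_option autoImplicit false
set_option linter.all false

namespace Cfsg.Agent.Lib.BlockTrace

open Cfsg Cfsg.Agent.Lib.BlockLocal Cfsg.Agent.Lib.BlockOsima Cfsg.Agent.Lib.BlockBr
  Cfsg.Agent.Lib.BlockApps Cfsg.Agent.Lib.CharIrr Cfsg.Agent.Lib.BlockPair Cfsg.Agent.Lib.BlockSub
  Cfsg.Agent.Lib.BlockMax
open scoped ComplexConjugate

universe u

section Trace

variable {G : Type u} [Group G] [Fintype G] {p : ℕ} {M : Ideal AlgInt} [hprime : M.IsPrime]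

/-- One term of the relative trace. -/
noncomputable def trm (T : Subgroup G) (Z : G → ℂ) (g : G) (q : G ⧸ T) : ℂ :=
  Z ((Quotient.out q)⁻¹ * g * Quotient.out q)

/-- The relative trace `∑_{x ∈ G/T} Z (x⁻¹ g x)`. -/
noncomputable def relTrace (T : Subgroup G) (Z : G → ℂ) (g : G) : ℂ :=
  letI : Fintype (G ⧸ T) := Fintype.ofFinite _
  ∑ q : G ⧸ T, trm T Z g q

/-- `Z` is invariant under `T`. -/
def TInv (T : Subgroup G) (Z : G → ℂ) : Prop := ∀ t ∈ T, ∀ g, Z (t * g * t⁻¹) = Z g

variable {T : Subgroup G} {Z : G → ℂ}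

theorem trm_mk (hZ : TInv T Z) (g x : G) : trm T Z g (x : G ⧸ T) = Z (x⁻¹ * g * x) := by
  unfold trm
  set q : G ⧸ T := (x : G ⧸ T) with hq
  have h1 : ((Quotient.out q : G) : G ⧸ T) = (x : G ⧸ T) := QuotientGroup.out_eq' q
  have h2 : (Quotient.out q)⁻¹ * x ∈ T := QuotientGroup.eq.1 h1
  have h3 := hZ _ (T.inv_mem h2) ((Quotient.out q)⁻¹ * g * Quotient.out q)
  rw [← h3]
  congr 1
  group

theorem trm_out (g : G) (q : G ⧸ T) : trm T Z g q = Z ((Quotient.out q)⁻¹ * g * Quotient.out q) := rfl

theorem smul_eq_mk (h : G) (q : G ⧸ T) : h • q = ((h * Quotient.out q : G) : G ⧸ T) := by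
  conv_lhs => rw [← QuotientGroup.out_eq' q]
  rfl

theorem trm_smul (hZ : TInv T Z) (h g : G) (q : G ⧸ T) :
    trm T Z g (h • q) = trm T Z (h⁻¹ * g * h) q := by
  rw [smul_eq_mk, trm_mk hZ, trm_out]
  congr 1
  group

theorem relTrace_isClass (hZ : TInv T Z) : IsClassFunction G (relTrace T Z) := by
  intro g h
  letI : Fintype (G ⧸ T) := Fintype.ofFinite _
  have e : ∀ q : G ⧸ T, trm T Z (h * g * h⁻¹) q = trm T Z g (h⁻¹ • q) := by
    intro q
    rw [trm_smul hZ]
    simp
  show (∑ q : G ⧸ T, trm T Z (h * g * h⁻¹) q) = ∑ q : G ⧸ T, trm T Z g q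
  rw [← Equiv.sum_comp (MulAction.toPerm h⁻¹) (fun q => trm T Z g q)]
  exact Finset.sum_congr rfl fun q _ => e q

theorem relTrace_local (hl : ∀ g, MemLocalRing M (Z g)) (g : G) : MemLocalRing M (relTrace T Z g) := by
  unfold relTrace
  exact MemLocalRing_sum _ _ fun q _ => hl _

theorem fixed_iff_mem (R : Subgroup G) (q : G ⧸ T) :
    (∀ r : R, (r : G) • q = q) ↔ ∀ r ∈ R, (Quotient.out q)⁻¹ * r * Quotient.out q ∈ T := by
  constructor
  · intro h r hr
    have h1 := h ⟨r⁻¹, R.inv_mem hr⟩
    rw [smul_eq_mk] at h1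
    conv_rhs at h1 => rw [← QuotientGroup.out_eq' q]
    have h2 := QuotientGroup.eq.1 h1
    have e : ((r⁻¹ * Quotient.out q)⁻¹ * Quotient.out q) = (Quotient.out q)⁻¹ * r * Quotient.out q := by group
    rw [e] at h2
    exact h2
  · intro h r
    rw [smul_eq_mk]
    conv_rhs => rw [← QuotientGroup.out_eq' q]
    apply QuotientGroup.eq.2
    have h2 := h (r : G)⁻¹ (R.inv_mem r.2)
    have e : (((r : G) * Quotient.out q)⁻¹ * Quotient.out q) = (Quotient.out q)⁻¹ * (r : G)⁻¹ * Quotient.out q := by group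
    rw [e]
    exact h2

open Classical in
/-- Reduction to the fixed points of a `p`-group centralizing the element. -/
theorem relTrace_cong_fixed (hM : IsPModular p M) (hZ : TInv T Z) (hl : ∀ g, MemLocalRing M (Z g))
    {R : Subgroup G} (hR : IsPGroup p R) {g : G} (hg : ∀ r ∈ R, r * g = g * r) :
    letI : Fintype (G ⧸ T) := Fintype.ofFinite _
    Cong M (relTrace T Z g) (∑ q : G ⧸ T, if (∀ r : R, (r : G) • q = q) then trm T Z g q else 0) := by
  letI : Fintype (G ⧸ T) := Fintype.ofFinite _
  letI : MulAction R (G ⧸ T) := MulAction.compHom (G ⧸ T) R.subtype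
  have hsm : ∀ (r : R) (q : G ⧸ T), r • q = (r : G) • q := fun _ _ => rfl
  have key := sum_mem_of_action hM hR
    (fun q : G ⧸ T => if (∀ r : R, (r : G) • q = q) then 0 else trm T Z g q) ?_ ?_ ?_
  · unfold Cong relTrace
    rw [← Finset.sum_sub_distrib]
    convert key using 2 with q
    split_ifs <;> simp
  · intro a x
    have hfix : (∀ r : R, (r : G) • (a • x) = a • x) ↔ ∀ r : R, (r : G) • x = x := by
      constructor
      · intro h r
        have h1 := h (a * r * a⁻¹)
        simp only [hsm, Subgroup.coe_mul, Subgroup.coe_inv, mul_smul, inv_smul_smul] at h1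
        exact smul_left_cancel _ h1
      · intro h r
        simp only [hsm]
        rw [h a]
        exact h r
    simp only [hfix]
    split_ifs
    · rfl
    · rw [hsm, trm_smul hZ]
      have : (a : G)⁻¹ * g * a = g := by rw [mul_assoc, ← hg _ a.2, inv_mul_cancel_left]
      rw [this]
  · intro q
    split_ifs
    · exact memLocalRing_zero
    · exact hl _
  · intro q hq
    rw [if_pos]
    exact hq

/-- A nonzero trace value gives a conjugate landing in `T`. -/
theorem trace_conj_le (hM : IsPModular p M) (hZ : TInv T Z) (hl : ∀ g, MemLocalRing M (Z g)) {g : G}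
    (hg : ¬ MemLocalIdeal M (relTrace T Z g)) {R : Subgroup G} (hR : IsPGroup p R)
    (hRg : ∀ r ∈ R, r * g = g * r) :
    ∃ x : G, Z (x⁻¹ * g * x) ≠ 0 ∧ ∀ r ∈ R, x⁻¹ * r * x ∈ T := by
  classical
  letI : Fintype (G ⧸ T) := Fintype.ofFinite _
  by_contra hcon
  push_neg at hcon
  apply hg
  have h1 := relTrace_cong_fixed hM hZ hl hR hRg
  have h2 : (∑ q : G ⧸ T, if (∀ r : R, (r : G) • q = q) then trm T Z g q else 0) = 0 := by
    refine Finset.sum_eq_zero fun q _ => ?_
    split_ifs with hq
    · rw [trm_out]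
      by_contra hne
      obtain ⟨r, hr, hr'⟩ := hcon _ hne
      exact hr' ((fixed_iff_mem R q).1 hq r hr)
    · rfl
  rw [h2] at h1
  exact cong_zero_iff.mp h1

end Trace

section Cut

variable {G : Type u} [Group G] [Fintype G] {p : ℕ} {M : Ideal AlgInt} [hprime : M.IsPrime]

open Classical in
/-- Cut a function down to where it is nonzero modulo `𝔪`. -/
noncomputable def cut (M : Ideal AlgInt) (β : G → ℂ) : G → ℂ := fun g => if MemLocalIdeal M (β g) then 0 else β g

theorem cut_cong (β : G → ℂ) (g : G) : Cong M (cut M β g) (β g) := by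
  classical
  unfold cut
  split_ifs with h
  · apply Cong.symm
    unfold Cong
    simpa using h
  · exact Cong.refl _

theorem cut_ne_zero {β : G → ℂ} {g : G} (h : cut M β g ≠ 0) : ¬ MemLocalIdeal M (β g) := by
  classical
  intro hm
  apply h
  unfold cut
  rw [if_pos hm]

theorem cut_local {β : G → ℂ} (h : ∀ g, MemLocalRing M (β g)) (g : G) : MemLocalRing M (cut M β g) := by
  classical
  unfold cut
  split_ifs
  · exact memLocalRing_zero
  · exact h g

theorem cut_inv {T : Subgroup G} {β : G → ℂ} (h : TInv T β) : TInv T (cut M β) := by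
  classical
  intro t ht g
  unfold cut
  rw [h t ht g]

/-- The defect hypothesis: `p`-subgroups of `T` centralizing a support element lie in `P`. -/
def DefHyp (p : ℕ) (M : Ideal AlgInt) (P T : Subgroup G) (β : G → ℂ) : Prop :=
  ∀ y, ¬ MemLocalIdeal M (β y) → ∀ R : Subgroup G, R ≤ T → IsPGroup p R → (∀ r ∈ R, r * y = y * r) → R ≤ P

theorem om_congr' {H : Type u} [Group H] [Fintype H] {ξ : H → ℂ} (hξ : IsIrrCharacter H ξ) {z z' : H → ℂ}
    (hz : IsClassFunction H z) (hz' : IsClassFunction H z') (h : ∀ x, Cong M (z x) (z' x)) :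
    Cong M (om ξ z) (om ξ z') :=
  omI_congr (MonoidHom.id H) hξ hz hz' h

theorem om_sum' {H : Type u} [Group H] [Fintype H] (ξ : H → ℂ) {J : Type*} (s : Finset J) (z : J → H → ℂ) :
    om ξ (fun x => ∑ j ∈ s, z j x) = ∑ j ∈ s, om ξ (z j) := by
  unfold om
  rw [Finset.mul_sum]
  simp only [Finset.sum_mul, Finset.mul_sum]
  rw [Finset.sum_comm]

/-- Conjugation between centralizers. -/
def centEquiv (A B : Subgroup G) (y : G) (h : ∀ a, a ∈ A ↔ y * a * y⁻¹ ∈ B) :
    Subgroup.centralizer (A : Set G) ≃* Subgroup.centralizer (B : Set G) where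
  toFun c := ⟨y * c * y⁻¹, by
    rw [Subgroup.mem_centralizer_iff]
    intro b hb
    have ha : y⁻¹ * b * y ∈ A := by
      rw [h]
      have : y * (y⁻¹ * b * y) * y⁻¹ = b := by group
      rw [this]
      exact hb
    have hc := Subgroup.mem_centralizer_iff.1 c.2 _ ha
    have e1 : b * (y * (c : G) * y⁻¹) = y * ((y⁻¹ * b * y) * c) * y⁻¹ := by group
    have e2 : y * (c : G) * y⁻¹ * b = y * ((c : G) * (y⁻¹ * b * y)) * y⁻¹ := by group
    rw [e1, e2, hc]⟩
  invFun c := ⟨y⁻¹ * c * y, by
    rw [Subgroup.mem_centralizer_iff]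
    intro a ha
    have hb := (h a).1 ha
    have hc := Subgroup.mem_centralizer_iff.1 c.2 _ hb
    have e1 : a * (y⁻¹ * (c : G) * y) = y⁻¹ * ((y * a * y⁻¹) * c) * y := by group
    have e2 : y⁻¹ * (c : G) * y * a = y⁻¹ * ((c : G) * (y * a * y⁻¹)) * y := by group
    rw [e1, e2, hc]⟩
  left_inv c := by
    apply Subtype.ext
    simp only
    group
  right_inv c := by
    apply Subtype.ext
    simp only
    group
  map_mul' a b := by
    apply Subtype.ext
    simp only [Subgroup.coe_mul]
    group

@[simp] theorem centEquiv_apply (A B : Subgroup G) (y : G) (h) (c : Subgroup.centralizer (A : Set G)) :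
    ((centEquiv A B y h c : Subgroup.centralizer (B : Set G)) : G) = y * c * y⁻¹ := rfl

@[simp] theorem centEquiv_symm_apply (A B : Subgroup G) (y : G) (h) (c : Subgroup.centralizer (B : Set G)) :
    (((centEquiv A B y h).symm c : Subgroup.centralizer (A : Set G)) : G) = y⁻¹ * c * y := rfl

theorem mem_map_conj_iff (A : Subgroup G) (y a : G) :
    a ∈ A ↔ y * a * y⁻¹ ∈ A.map (MulAut.conj y).toMonoidHom := by
  constructor
  · intro h
    exact ⟨a, h, rfl⟩
  · rintro ⟨b, hb, hab⟩
    have : b = a := by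
      have h2 : y * b * y⁻¹ = y * a * y⁻¹ := hab
      simpa using h2
    rw [← this]
    exact hb

/-- In the situation of a stable block, the conjugate of a member by an element of the normalizer
is in the block iff the element stabilizes. -/
theorem conj_mem_iff {Q : Subgroup G} [Fintype (Subgroup.centralizer (Q : Set G))]
    {e : Set (IrrCharacter (Subgroup.centralizer (Q : Set G)))} (he : IsPBlock M e)
    {T : Subgroup G} (hT : IsStab Q e T) {ξ : IrrCharacter (Subgroup.centralizer (Q : Set G))} (hξ : ξ ∈ e)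
    {x : G} (hx : x ∈ Subgroup.normalizer (Q : Set G)) (hx' : x ∈ Subgroup.normalizer ((Subgroup.centralizer (Q : Set G) : Subgroup G) : Set G)) :
    irrComp (conjEquiv _ x hx') ξ ∈ e ↔ x ∈ T := by
  have hxi' := Subgroup.inv_mem _ hx'
  have hE : (conjEquiv _ x⁻¹ hxi').symm = conjEquiv _ x hx' := by
    ext k
    simp
  constructor
  · intro h
    have h1 : irrComp (conjEquiv _ x hx') '' e = e :=
      block_eq_of_mem (isPBlock_image _ he) he (χ := irrComp (conjEquiv _ x hx') ξ) ⟨ξ, hξ, rfl⟩ h
    have h2 : StabilizesBlock (Subgroup.centralizer (Q : Set G)) e x⁻¹ := by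
      rw [stabilizes_iff _ hxi' he, hE]
      exact h1
    have h3 : x⁻¹ ∈ T := (hT _).2 ⟨Subgroup.inv_mem _ hx, h2⟩
    simpa using T.inv_mem h3
  · intro h
    have h1 := hT.stab (T.inv_mem h)
    rw [stabilizes_iff _ hxi' he, hE] at h1
    rw [← h1]
    exact ⟨ξ, hξ, rfl⟩

/-- The value of a central character at a conjugated cut function. -/
theorem om_conj_cut (hM : IsPModular p M) {Q R : Subgroup G}
    [Fintype (Subgroup.centralizer (Q : Set G))] [Fintype (Subgroup.centralizer (R : Set G))]
    {e : Set (IrrCharacter (Subgroup.centralizer (Q : Set G)))} (he : IsPBlock M e)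
    {T : Subgroup G} (hT : IsStab Q e T) (y : G) (h : ∀ a, a ∈ R ↔ y * a * y⁻¹ ∈ Q)
    (ξ : IrrCharacter (Subgroup.centralizer (R : Set G))) :
    Cong M (om (ξ : Subgroup.centralizer (R : Set G) → ℂ) (fun c : Subgroup.centralizer (R : Set G) =>
        cut M (subgroupBlockCoeff (Subgroup.centralizer (Q : Set G)) e) (y * c * y⁻¹)))
      (om (irrComp (centEquiv R Q y h).symm ξ : Subgroup.centralizer (Q : Set G) → ℂ) (blockCoeff e)) := by
  have hZ : TInv T (cut M (subgroupBlockCoeff (Subgroup.centralizer (Q : Set G)) e)) :=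
    cut_inv fun t ht g => subgroupBlockCoeff_stable _ he (hT.stab ht) g
  set σ := centEquiv R Q y h with hσ
  set ξ' := irrComp σ.symm ξ with hξ'
  have hcl : IsClassFunction (Subgroup.centralizer (Q : Set G))
      (fun c => cut M (subgroupBlockCoeff (Subgroup.centralizer (Q : Set G)) e) ((c : G))) := by
    intro g d
    exact hZ d (hT.cent_le d.2) g
  have h1 : om (ξ : Subgroup.centralizer (R : Set G) → ℂ) (fun c : Subgroup.centralizer (R : Set G) =>
      cut M (subgroupBlockCoeff (Subgroup.centralizer (Q : Set G)) e) (y * c * y⁻¹)) =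
      om (ξ' : Subgroup.centralizer (Q : Set G) → ℂ) (fun c => cut M (subgroupBlockCoeff (Subgroup.centralizer (Q : Set G)) e) ((c : G))) := by
    have := om_comp σ (ξ' : Subgroup.centralizer (Q : Set G) → ℂ) (fun c => cut M (subgroupBlockCoeff (Subgroup.centralizer (Q : Set G)) e) ((c : G)))
    rw [← this]
    congr 1
    funext c
    simp [hξ', irrComp_apply]
  rw [h1]
  refine om_congr' (ξ := (ξ' : Subgroup.centralizer (Q : Set G) → ℂ)) ξ'.2 hcl (blockCoeff_isClass e) fun c => ?_
  have := cut_cong (M := M) (subgroupBlockCoeff (Subgroup.centralizer (Q : Set G)) e) (c : G)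
  rwa [subgroupBlockCoeff_mem] at this

set_option maxHeartbeats 1000000 in
/-- The Brauer-map value of the trace on the pair itself. -/
theorem trace_omega (hM : IsPModular p M) {P : Subgroup G}
    {e : Set (IrrCharacter (Subgroup.centralizer (P : Set G)))} (hPe : IsBrauerPair p M P e)
    {T : Subgroup G} (hT : IsStab P e T)
    (hD : DefHyp p M P T (subgroupBlockCoeff (Subgroup.centralizer (P : Set G)) e))
    [Fintype (Subgroup.centralizer (P : Set G))] {ξ : IrrCharacter (Subgroup.centralizer (P : Set G))} (hξ : ξ ∈ e) :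
    Cong M (omI (Subgroup.centralizer (P : Set G)).subtype (ξ : Subgroup.centralizer (P : Set G) → ℂ)
      (relTrace T (cut M (subgroupBlockCoeff (Subgroup.centralizer (P : Set G)) e)))) 1 := by
  classical
  letI : Fintype (G ⧸ T) := Fintype.ofFinite _
  obtain ⟨hPp, he⟩ := hPe
  set β := subgroupBlockCoeff (Subgroup.centralizer (P : Set G)) e with hβ
  have hβinv : TInv T β := fun t ht g => subgroupBlockCoeff_stable _ he (hT.stab ht) g
  have hβl : ∀ g, MemLocalRing M (β g) := subgroupBlockCoeff_local _ he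
  set Z := cut M β with hZdef
  have hZ : TInv T Z := cut_inv hβinv
  have hZl : ∀ g, MemLocalRing M (Z g) := cut_local hβl
  let N := Subgroup.normalizer (P : Set G)
  let V : G ⧸ T → Subgroup.centralizer (P : Set G) → ℂ := fun q c =>
    if Quotient.out q ∈ N then Z ((Quotient.out q)⁻¹ * c * Quotient.out q) else 0
  let v : Subgroup.centralizer (P : Set G) → ℂ := fun c => ∑ q : G ⧸ T, V q c
  have h1 : ∀ c : Subgroup.centralizer (P : Set G), Cong M (relTrace T Z c) (v c) := by
    intro c
    have h0 := relTrace_cong_fixed hM hZ hZl hPp (g := c) (fun r hr => Subgroup.mem_centralizer_iff.1 c.2 r hr)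
    refine Cong.trans h0 ?_
    have hterm : ∀ q : G ⧸ T, (if (∀ r : P, (r : G) • q = q) then trm T Z c q else 0) = V q c := by
      intro q
      set x := Quotient.out q with hx
      by_cases hxN : x ∈ N
      · have hfix : ∀ r : P, (r : G) • q = q := by
          rw [fixed_iff_mem]
          intro r hr
          apply hT.self_le
          have := (Subgroup.mem_normalizer_iff.1 (Subgroup.inv_mem _ hxN) r).1 hr
          simpa using this
        simp only [V, if_pos hfix, ← hx, if_pos hxN, trm_out]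
      · simp only [V, ← hx, if_neg hxN]
        split_ifs with hfix
        · by_contra hne
          have hne' : Z (x⁻¹ * c * x) ≠ 0 := hne
          have hy := cut_ne_zero hne'
          have hfix' := (fixed_iff_mem P q).1 hfix
          have hle := hD _ hy (P.map (MulAut.conj x⁻¹).toMonoidHom)
            (by
              rintro _ ⟨r, hr, rfl⟩
              have := hfix' r hr
              simpa using this)
            (isPGroup_map_conj hPp _)
            (by
              rintro _ ⟨r, hr, rfl⟩
              have hc := Subgroup.mem_centralizer_iff.1 c.2 r hr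
              simp only [MulEquiv.toMonoidHom_eq_coe, MonoidHom.coe_coe, MulAut.conj_apply, inv_inv]
              have e1 : x⁻¹ * r * x * (x⁻¹ * c * x) = x⁻¹ * (r * c) * x := by group
              have e2 : x⁻¹ * c * x * (x⁻¹ * r * x) = x⁻¹ * (c * r) * x := by group
              rw [e1, e2, hc])
          apply hxN
          apply mem_normalizer_of_le_map
          intro r hr
          refine ⟨x⁻¹ * r * x, hle ⟨r, hr, ?_⟩, ?_⟩
          · simp
          · simp only [MulEquiv.toMonoidHom_eq_coe, MonoidHom.coe_coe, MulAut.conj_apply]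
            group
        · rfl
    rw [Finset.sum_congr rfl fun q _ => hterm q]
    exact Cong.refl _
  have hVclass : ∀ q, IsClassFunction (Subgroup.centralizer (P : Set G)) (V q) := by
    intro q c d
    simp only [V]
    split_ifs with hxN
    · set x := Quotient.out q
      have hd : x⁻¹ * d * x ∈ Subgroup.centralizer (P : Set G) := by
        have h := (Subgroup.mem_normalizer_iff.1 (Subgroup.inv_mem _ (cent_le_norm_cent P hxN)) d).1 d.2
        simpa using h
      have := hZ _ (hT.cent_le hd) (x⁻¹ * c * x)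
      rw [← this]
      congr 1
      simp only [Subgroup.coe_mul, Subgroup.coe_inv]
      group
    · rfl
  have hvclass : IsClassFunction (Subgroup.centralizer (P : Set G)) v := by
    intro c d
    exact Finset.sum_congr rfl fun q _ => hVclass q c d
  have huclass : IsClassFunction (Subgroup.centralizer (P : Set G)) (relTrace T Z ∘ (Subgroup.centralizer (P : Set G)).subtype) :=
    comp_isClass _ (relTrace_isClass hZ)
  have h2 : Cong M (omI (Subgroup.centralizer (P : Set G)).subtype (ξ : Subgroup.centralizer (P : Set G) → ℂ) (relTrace T Z)) (om (ξ : Subgroup.centralizer (P : Set G) → ℂ) v) :=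
    om_congr' ξ.2 huclass hvclass h1
  have h3 : om (ξ : Subgroup.centralizer (P : Set G) → ℂ) v = ∑ q : G ⧸ T, om (ξ : Subgroup.centralizer (P : Set G) → ℂ) (V q) := om_sum' _ _ _
  let q₀ : G ⧸ T := ((1 : G) : G ⧸ T)
  have h7 : ∀ q : G ⧸ T, Quotient.out q ∈ T ↔ q = q₀ := by
    intro q
    have e0 : ((Quotient.out q : G) : G ⧸ T) = q := QuotientGroup.out_eq' q
    constructor
    · intro h
      rw [← e0]
      apply QuotientGroup.eq.2
      simpa using h
    · intro h
      have : ((Quotient.out q : G) : G ⧸ T) = ((1 : G) : G ⧸ T) := by rw [e0]; exact h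
      have h2 := QuotientGroup.eq.1 this
      simpa using h2
  have h4 : ∀ q : G ⧸ T, Cong M (om (ξ : Subgroup.centralizer (P : Set G) → ℂ) (V q)) (if q = q₀ then 1 else 0) := by
    intro q
    by_cases hxN : Quotient.out q ∈ N
    · have hVq : V q = fun c : Subgroup.centralizer (P : Set G) => Z ((Quotient.out q)⁻¹ * c * Quotient.out q) := by
        funext c
        simp only [V, if_pos hxN]
      have hx' := cent_le_norm_cent P hxN
      have hP' : ∀ a, a ∈ P ↔ (Quotient.out q)⁻¹ * a * (Quotient.out q)⁻¹⁻¹ ∈ P := by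
        intro a
        have := Subgroup.mem_normalizer_iff.1 (Subgroup.inv_mem _ hxN) a
        exact this
      have h5 := om_conj_cut (R := P) hM he hT (Quotient.out q)⁻¹ hP' ξ
      rw [hVq]
      have e1 : (fun c : Subgroup.centralizer (P : Set G) => Z ((Quotient.out q)⁻¹ * c * Quotient.out q)) =
          fun c : Subgroup.centralizer (P : Set G) =>
            cut M (subgroupBlockCoeff (Subgroup.centralizer (P : Set G)) e) ((Quotient.out q)⁻¹ * c * (Quotient.out q)⁻¹⁻¹) := by
        funext c
        simp only [inv_inv, hZdef, hβ]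
      rw [e1]
      refine Cong.trans h5 ?_
      rw [om_blockCoeff]
      have e2 : irrComp (centEquiv P P (Quotient.out q)⁻¹ hP').symm ξ = irrComp (conjEquiv _ (Quotient.out q) hx') ξ := by
        apply Subtype.ext
        funext c
        simp only [irrComp_apply]
        have e3 : (centEquiv P P (Quotient.out q)⁻¹ hP').symm c = conjEquiv _ (Quotient.out q) hx' c := by
          apply Subtype.ext
          simp
        rw [e3]
      rw [e2]
      have h6 := conj_mem_iff he hT hξ hxN hx'
      by_cases hq : q = q₀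
      · rw [if_pos hq, if_pos (h6.2 ((h7 q).2 hq))]
        exact Cong.refl _
      · rw [if_neg hq, if_neg (fun h => hq ((h7 q).1 (h6.1 h)))]
        exact Cong.refl _
    · have hVq : V q = fun _ => 0 := by
        funext c
        simp only [V, if_neg hxN]
      have hq : q ≠ q₀ := by
        intro hq
        apply hxN
        exact hT.le_norm ((h7 q).2 hq)
      rw [if_neg hq, hVq]
      have : om (ξ : Subgroup.centralizer (P : Set G) → ℂ) (fun _ => (0 : ℂ)) = 0 := by
        unfold om
        simp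
      rw [this]
      exact Cong.refl _
  refine Cong.trans h2 ?_
  rw [h3]
  have h8 := Cong.sum (M := M) Finset.univ (fun q : G ⧸ T => om (ξ : Subgroup.centralizer (P : Set G) → ℂ) (V q)) _ (fun q _ => h4 q)
  refine Cong.trans h8 ?_
  rw [Finset.sum_ite_eq' Finset.univ q₀]
  simp only [Finset.mem_univ, if_true]
  exact Cong.refl _

end Cut

section Defect

variable {G : Type u} [Group G] [Fintype G] {p : ℕ} {M : Ideal AlgInt} [hprime : M.IsPrime]

theorem trace_isLC {T : Subgroup G} {β : G → ℂ} (hβinv : TInv T β) (hβl : ∀ g, MemLocalRing M (β g)) :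
    IsLC M (relTrace T (cut M β)) :=
  ⟨relTrace_isClass (cut_inv hβinv), relTrace_local (cut_local hβl)⟩

/-- The trace acts as one on the block of a pair. -/
theorem trace_char (hM : IsPModular p M) {B : Set (IrrCharacter G)} {P : Subgroup G}
    {e : Set (IrrCharacter (Subgroup.centralizer (P : Set G)))} (hBP : IsBrauerPairOf p M B P e)
    {T : Subgroup G} (hT : IsStab P e T)
    (hD : DefHyp p M P T (subgroupBlockCoeff (Subgroup.centralizer (P : Set G)) e))
    {ψ : IrrCharacter G} (hψ : ψ ∈ B) :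
    Cong M (om (ψ : G → ℂ) (relTrace T (cut M (subgroupBlockCoeff (Subgroup.centralizer (P : Set G)) e)))) 1 := by
  classical
  letI : Fintype (Subgroup.centralizer (P : Set G)) := Fintype.ofFinite _
  obtain ⟨hPe, hB, -⟩ := id hBP
  obtain ⟨ξ₀, rfl⟩ := id hPe.2
  have hξ₀ := mem_block_self (M := M) ξ₀
  obtain ⟨ψ₀, h1, h2⟩ := pair_char hM hPe hξ₀
  have hψ₀ : ψ₀ ∈ B := (h2 B hB).1 hBP
  have hLC := trace_isLC (M := M) (T := T) (β := subgroupBlockCoeff (Subgroup.centralizer (P : Set G)) (blockOf M (ξ₀ : Subgroup.centralizer (P : Set G) → ℂ)))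
    (fun t ht g => subgroupBlockCoeff_stable _ hPe.2 (hT.stab ht) g) (subgroupBlockCoeff_local _ hPe.2)
  have h3 := trace_omega hM hPe hT hD hξ₀
  have h4 := Cong.trans (Cong.symm (h1 _ hLC)) h3
  have h5 := om_sameBlock (M := M) ψ₀.2 ψ.2 hLC.1 hLC.2 (sameBlock_of_mem_block hB hψ₀ hψ)
  exact Cong.trans (Cong.symm h5) h4

/-- A character with nonzero central character on a class function gets a nonzero class. -/
theorem exists_class_of_om {X : Type u} [Group X] [Fintype X] {χ : IrrCharacter X} {z : X → ℂ} (hz : IsLC M z)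
    (h : ¬ MemLocalIdeal M (om (χ : X → ℂ) z)) :
    ∃ g, ¬ MemLocalIdeal M (z g) ∧ ¬ MemLocalIdeal M (centralChar (χ : X → ℂ) g) := by
  classical
  letI : Fintype (ConjClasses X) := Fintype.ofFinite _
  rw [om_eq_sum_class χ.2 hz.1] at h
  by_contra hcon
  push_neg at hcon
  apply h
  refine MemLocalIdeal_sum _ _ fun c _ => ?_
  by_cases hzc : MemLocalIdeal M (z (Quotient.out c))
  · exact MemLocalIdeal_mul_right hzc (centralChar_local χ.2 _)
  · exact MemLocalIdeal_mul_left (hz.2 _) (hcon _ hzc)

/-- **Defect groups are conjugate into the subgroup of the pair**, under the defect hypothesis. -/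
theorem defect_conj_le (hM : IsPModular p M) {B : Set (IrrCharacter G)} {P : Subgroup G}
    {e : Set (IrrCharacter (Subgroup.centralizer (P : Set G)))} (hBP : IsBrauerPairOf p M B P e)
    {T : Subgroup G} (hT : IsStab P e T)
    (hD : DefHyp p M P T (subgroupBlockCoeff (Subgroup.centralizer (P : Set G)) e))
    {DB : Subgroup G} (hDB : IsDefectGroup p M B DB) :
    ∃ x : G, DB.map (MulAut.conj x).toMonoidHom ≤ P := by
  classical
  haveI : Fact p.Prime := ⟨hM.1⟩
  obtain ⟨hPe, hB, -⟩ := id hBP
  obtain ⟨ψ, rfl⟩ := id hB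
  have hψ := mem_block_self (M := M) ψ
  set β := subgroupBlockCoeff (Subgroup.centralizer (P : Set G)) e with hβ
  have hβinv : TInv T β := fun t ht g => subgroupBlockCoeff_stable _ hPe.2 (hT.stab ht) g
  have hβl : ∀ g, MemLocalRing M (β g) := subgroupBlockCoeff_local _ hPe.2
  have hLC := trace_isLC (M := M) hβinv hβl
  have h1 := trace_char hM hBP hT hD hψ
  have h2 : ¬ MemLocalIdeal M (om (ψ : G → ℂ) (relTrace T (cut M β))) := fun h =>
    not_mem_of_cong_one h1 h
  obtain ⟨g, hg1, hg2⟩ := exists_class_of_om hLC h2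
  obtain ⟨g₁, hg₁, D₁, rfl⟩ := hDB
  obtain ⟨x, S, hS⟩ := Cfsg.Agent.Lib.CharBlockMinMax.defect_le_sylow hM ⟨ψ, rfl⟩ hg₁ D₁ hψ hg2
  obtain ⟨x', hx'1, hx'2⟩ := trace_conj_le hM (cut_inv hβinv) (cut_local hβl) hg1
    (Cfsg.Agent.Lib.CharBlockMinMax.isPGroup_sylow_map S)
    (fun r hr => by
      exact Cfsg.Agent.Lib.CharBlockMinMax.sylow_map_centralizes S _ hr)
  have hy := cut_ne_zero hx'1
  have hle := hD _ hy ((((S : Subgroup (Subgroup.centralizer ({g} : Set G))).map (Subgroup.centralizer ({g} : Set G)).subtype)).map (MulAut.conj x'⁻¹).toMonoidHom)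
    (by
      rintro _ ⟨r, hr, rfl⟩
      have := hx'2 r hr
      simpa using this)
    (isPGroup_map_conj (Cfsg.Agent.Lib.CharBlockMinMax.isPGroup_sylow_map S) _)
    (by
      rintro _ ⟨r, hr, rfl⟩
      have hc := Cfsg.Agent.Lib.CharBlockMinMax.sylow_map_centralizes S _ hr
      simp only [MulEquiv.toMonoidHom_eq_coe, MonoidHom.coe_coe, MulAut.conj_apply, inv_inv]
      have e1 : x'⁻¹ * r * x' * (x'⁻¹ * g * x') = x'⁻¹ * (r * g) * x' := by group
      have e2 : x'⁻¹ * g * x' * (x'⁻¹ * r * x') = x'⁻¹ * (g * r) * x' := by group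
      rw [e1, e2, hc])
  refine ⟨x'⁻¹ * x, ?_⟩
  rintro _ ⟨d, hd, rfl⟩
  apply hle
  refine ⟨_, hS ⟨d, hd, rfl⟩, ?_⟩
  simp only [MulEquiv.toMonoidHom_eq_coe, MonoidHom.coe_coe, MulAut.conj_apply]
  group

/-- **Brauer pairs sit in defect groups** up to conjugacy. -/
theorem pair_conj_le_defect (hM : IsPModular p M) {B : Set (IrrCharacter G)} {Q : Subgroup G}
    {f : Set (IrrCharacter (Subgroup.centralizer (Q : Set G)))} (hBQ : IsBrauerPairOf p M B Q f)
    {DB : Subgroup G} (hDB : IsDefectGroup p M B DB) :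
    ∃ x : G, Q.map (MulAut.conj x).toMonoidHom ≤ DB := by
  classical
  letI : Fintype (Subgroup.centralizer (Q : Set G)) := Fintype.ofFinite _
  obtain ⟨hQf, hB, h⟩ := hBQ
  obtain ⟨ξ₀, rfl⟩ := id hQf.2
  have hξ₀ := mem_block_self (M := M) ξ₀
  have h1 := h ξ₀ hξ₀
  rw [brauerOmega_eq] at h1
  have hLC := comp_isLC (M := M) (Subgroup.centralizer (Q : Set G)).subtype (blockCoeff_isLC hB)
  obtain ⟨c, hc, -⟩ := exists_class_of_om (χ := ξ₀) hLC (fun hm => not_mem_of_cong_one h1 hm)
  refine (Cfsg.Agent.Lib.CharBlockMinMax.conj_le_defect_iff hM hB hDB hQf.1).1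
    ⟨c, (blockCoeff_isLC hB).2 _, hc, c, IsConj.refl _, c.2⟩

end Defect

section DefectEquiv

variable {X Y : Type u} [Group X] [Fintype X] [Group Y] [Fintype Y] {p : ℕ} {M : Ideal AlgInt} [hprime : M.IsPrime]

/-- Transport of a set of characters. -/
theorem isDefectClass_equiv (σ : X ≃* Y) {f : Set (IrrCharacter X)} {g : X} (h : IsDefectClass M f g) :
    IsDefectClass M (irrComp σ.symm '' f) (σ g) := by
  have e1 : blockCoeff (irrComp σ.symm '' f) (σ g) = blockCoeff f g := by
    rw [blockCoeff_comp]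
    simp
  refine ⟨by rw [e1]; exact h.1, by rw [e1]; exact h.2.1, ?_⟩
  rintro _ ⟨χ, hχ, rfl⟩
  have := h.2.2 χ hχ
  have e2 : centralChar (irrComp σ.symm χ : Y → ℂ) (σ g) = centralChar (χ : X → ℂ) g := by
    have := centralChar_comp σ (irrComp σ.symm χ : Y → ℂ) g
    rw [← this]
    congr 1
    funext a
    simp [irrComp_apply]
  rw [e2]
  exact this

/-- Transport of defect groups along an isomorphism. -/
theorem isDefectGroup_equiv (σ : X ≃* Y) {f : Set (IrrCharacter X)} {D : Subgroup X} (h : IsDefectGroup p M f D)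
    (hp : p.Prime) :
    IsDefectGroup p M (irrComp σ.symm '' f) (D.map σ.toMonoidHom) := by
  classical
  haveI : Fact p.Prime := ⟨hp⟩
  obtain ⟨g, hg, S, rfl⟩ := h
  refine ⟨σ g, isDefectClass_equiv σ hg, ?_⟩
  -- the centralizers correspond
  have hcent : ∀ x : X, x ∈ Subgroup.centralizer ({g} : Set X) ↔ σ x ∈ Subgroup.centralizer ({σ g} : Set Y) := by
    intro x
    rw [Subgroup.mem_centralizer_singleton_iff, Subgroup.mem_centralizer_singleton_iff]
    rw [← map_mul, ← map_mul]
    exact σ.injective.eq_iff.symm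
  let τ : Subgroup.centralizer ({g} : Set X) →* Subgroup.centralizer ({σ g} : Set Y) :=
    { toFun := fun x => ⟨σ x, (hcent x).1 x.2⟩
      map_one' := by
        apply Subtype.ext
        simp
      map_mul' := by
        intro a b
        apply Subtype.ext
        simp }
  have hτinj : Function.Injective τ := by
    intro a b hab
    apply Subtype.ext
    apply σ.injective
    exact congrArg Subtype.val hab
  have hτsurj : Function.Surjective τ := by
    intro y
    refine ⟨⟨σ.symm y, (hcent _).2 (by simpa using y.2)⟩, ?_⟩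
    apply Subtype.ext
    simp [τ]
  let S' : Subgroup (Subgroup.centralizer ({σ g} : Set Y)) := (S : Subgroup (Subgroup.centralizer ({g} : Set X))).map τ
  have hcard : Nat.card S' = p ^ (Nat.card (Subgroup.centralizer ({σ g} : Set Y))).factorization p := by
    have e1 : Nat.card S' = Nat.card (S : Subgroup (Subgroup.centralizer ({g} : Set X))) :=
      Subgroup.card_map_of_injective hτinj
    have e2 : Nat.card (Subgroup.centralizer ({σ g} : Set Y)) = Nat.card (Subgroup.centralizer ({g} : Set X)) :=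
      (Nat.card_congr (Equiv.ofBijective τ ⟨hτinj, hτsurj⟩)).symm
    rw [e1, e2]
    exact S.card_eq_multiplicity
  refine ⟨Sylow.ofCard S' hcard, ?_⟩
  rw [Sylow.coe_ofCard]
  ext y
  simp only [Subgroup.mem_map]
  constructor
  · rintro ⟨_, ⟨a, ha, rfl⟩, rfl⟩
    exact ⟨τ a, ⟨a, ha, rfl⟩, rfl⟩
  · rintro ⟨_, ⟨a, ha, rfl⟩, rfl⟩
    exact ⟨a, ⟨a, ha, rfl⟩, rfl⟩

end DefectEquiv

section Conj

variable {G : Type u} [Group G] [Fintype G] {p : ℕ} {M : Ideal AlgInt} [hprime : M.IsPrime]

/-- Inner automorphisms fix blocks. -/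
theorem irrComp_inner_image (x : G) (B : Set (IrrCharacter G)) :
    irrComp (MulAut.conj x).symm '' B = B := by
  have h : ∀ χ : IrrCharacter G, irrComp (MulAut.conj x).symm χ = χ := by
    intro χ
    apply Subtype.ext
    funext a
    rw [irrComp_apply]
    have hc := Cfsg.Agent.Lib.CharOps.IsCharacter.isClassFunction' (Cfsg.Agent.Lib.CharOps.IsIrrCharacter.isCharacter' χ.2) a x⁻¹
    have e : (MulAut.conj x).symm a = x⁻¹ * a * x⁻¹⁻¹ := by
      simp [MulAut.conj_symm_apply]
    rw [e, hc]
  simp [h]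

/-- Conjugates of defect groups are defect groups. -/
theorem isDefectGroup_conj (hM : IsPModular p M) {B : Set (IrrCharacter G)} {D : Subgroup G}
    (h : IsDefectGroup p M B D) (x : G) :
    IsDefectGroup p M B (D.map (MulAut.conj x).toMonoidHom) := by
  have := isDefectGroup_equiv (MulAut.conj x) h hM.1
  rw [irrComp_inner_image] at this
  exact this

/-- The defect hypothesis from a defect group equal to `P`. -/
theorem defHyp_of_defect (hM : IsPModular p M) {P : Subgroup G}
    {e : Set (IrrCharacter (Subgroup.centralizer (P : Set G)))} (hPe : IsBrauerPair p M P e)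
    {T : Subgroup G} (hT : IsStab P e T) [Fintype T] [Fintype (Subgroup.centralizer (P : Set G))]
    {D : Subgroup T} (hD : IsDefectGroup p M (overSet (Subgroup.inclusion hT.cent_le) e) D)
    (hDP : D.map T.subtype = P) :
    DefHyp p M P T (subgroupBlockCoeff (Subgroup.centralizer (P : Set G)) e) := by
  classical
  obtain ⟨hP, he⟩ := hPe
  obtain ⟨hF, hF2⟩ := stab_block hM hP he hT
  intro y hy R hRT hRp hRy
  have hyC : y ∈ Subgroup.centralizer (P : Set G) := by
    by_contra hn
    exact hy (by rw [subgroupBlockCoeff_not_mem _ _ hn]; exact memLocalIdeal_zero)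
  have hyT : y ∈ T := hT.cent_le hyC
  have hR₁ : IsPGroup p (R.subgroupOf T) := hRp.comap_of_injective T.subtype Subtype.val_injective
  obtain ⟨t, ht⟩ := (Cfsg.Agent.Lib.CharBlockMinMax.conj_le_defect_iff hM hF hD hR₁).1
    ⟨⟨y, hyT⟩, (blockCoeff_isLC hF).2 _, by rw [hF2]; exact hy, ⟨y, hyT⟩, IsConj.refl _, by
      rw [Subgroup.mem_centralizer_iff]
      intro r hr
      apply Subtype.ext
      exact hRy r (Subgroup.mem_subgroupOf.1 hr)⟩
  intro r hr
  have h1 : (⟨r, hRT hr⟩ : T) ∈ R.subgroupOf T := Subgroup.mem_subgroupOf.2 hr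
  have h2 := ht ⟨_, h1, rfl⟩
  have h3 : ((t : G) * r * (t : G)⁻¹) ∈ P := by
    rw [← hDP]
    exact ⟨_, h2, rfl⟩
  have h4 := (Subgroup.mem_normalizer_iff.1 (Subgroup.inv_mem _ (hT.le_norm t.2)) _).1 h3
  have e : (t : G)⁻¹ * ((t : G) * r * (t : G)⁻¹) * (t : G)⁻¹⁻¹ = r := by group
  rw [e] at h4
  exact h4

/-- The defect group of the stabilizer block of a maximal pair. -/
theorem maximal_defHyp (hM : IsPModular p M) {B : Set (IrrCharacter G)} {P : Subgroup G}
    {e : Set (IrrCharacter (Subgroup.centralizer (P : Set G)))} (hmax : IsMaximalBrauerPair p M B P e)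
    {T : Subgroup G} (hT : IsStab P e T) :
    DefHyp p M P T (subgroupBlockCoeff (Subgroup.centralizer (P : Set G)) e) := by
  classical
  haveI : Fact p.Prime := ⟨hM.1⟩
  letI : Fintype T := Fintype.ofFinite _
  letI : Fintype (Subgroup.centralizer (P : Set G)) := Fintype.ofFinite _
  obtain ⟨hBP, hm⟩ := hmax
  have hPe := hBP.1
  obtain ⟨hF, -⟩ := stab_block hM hPe.1 hPe.2 hT
  obtain ⟨g₀, hg₀⟩ := Cfsg.Agent.Lib.CharBlockConv.exists_defect_class hM hF
  let Dₛ : Sylow p (Subgroup.centralizer ({g₀} : Set T)) := default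
  let D : Subgroup T := (Dₛ : Subgroup (Subgroup.centralizer ({g₀} : Set T))).map (Subgroup.centralizer ({g₀} : Set T)).subtype
  have hD : IsDefectGroup p M (overSet (Subgroup.inclusion hT.cent_le) e) D := ⟨g₀, hg₀, Dₛ, rfl⟩
  obtain ⟨g, hg⟩ := exists_pair_above hM hPe hT hD
  have h1 : IsBrauerPairOf p M B (D.map T.subtype) g := (pairOf_normal_iff hM hg hBP.2.1).2 hBP
  have h2 := hm _ g h1 (Relation.ReflTransGen.single hg)
  exact defHyp_of_defect hM hPe hT hD h2

/-- **A maximal Brauer pair sits on a defect group.** -/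
theorem maximal_isDefect (hM : IsPModular p M) {B : Set (IrrCharacter G)} {P : Subgroup G}
    {e : Set (IrrCharacter (Subgroup.centralizer (P : Set G)))} (hmax : IsMaximalBrauerPair p M B P e) :
    IsDefectGroup p M B P := by
  classical
  haveI : Fact p.Prime := ⟨hM.1⟩
  letI : Fintype (Subgroup.centralizer (P : Set G)) := Fintype.ofFinite _
  have hBP := hmax.1
  obtain ⟨hPe, hB, -⟩ := id hBP
  obtain ⟨T, hT⟩ := exists_isStab P hPe.2
  have hD := maximal_defHyp hM hmax hT
  obtain ⟨g₀, hg₀⟩ := Cfsg.Agent.Lib.CharBlockConv.exists_defect_class hM hB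
  let Dₛ : Sylow p (Subgroup.centralizer ({g₀} : Set G)) := default
  let DB : Subgroup G := (Dₛ : Subgroup (Subgroup.centralizer ({g₀} : Set G))).map (Subgroup.centralizer ({g₀} : Set G)).subtype
  have hDB : IsDefectGroup p M B DB := ⟨g₀, hg₀, Dₛ, rfl⟩
  obtain ⟨x, hx⟩ := defect_conj_le hM hBP hT hD hDB
  obtain ⟨y, hy⟩ := pair_conj_le_defect hM hBP hDB
  -- equal orders
  have hc1 : Nat.card (DB.map (MulAut.conj x).toMonoidHom) = Nat.card DB :=
    Subgroup.card_map_of_injective (MulAut.conj x).injective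
  have hc2 : Nat.card (P.map (MulAut.conj y).toMonoidHom) = Nat.card P :=
    Subgroup.card_map_of_injective (MulAut.conj y).injective
  have h1 : Nat.card DB ≤ Nat.card P := by
    rw [← hc1]
    exact Subgroup.card_le_of_le hx
  have h2 : Nat.card P ≤ Nat.card DB := by
    rw [← hc2]
    exact Subgroup.card_le_of_le hy
  have h3 : DB.map (MulAut.conj x).toMonoidHom = P :=
    Subgroup.eq_of_le_of_card_ge hx (by rw [hc1]; exact h2)
  rw [← h3]
  exact isDefectGroup_conj hM hDB x

end Conj

end Cfsg.Agent.Lib.BlockTrace
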