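import Mathlib
import Cfsg.Prelude.Def_Blocks
import Cfsg.Agent.Lib.CharBlockThird
import Cfsg.Agent.Lib.CharBlockFirst
import Cfsg.Agent.Lib.CharBlockSylow
import Cfsg.Agent.Lib.BlockTrace
import Cfsg.Agent.Lib.BlockMax

/-!
# The Brauer homomorphism and the First Main Theorem
-/

set_option autoImplicit false
set_option linter.all false

namespace Cfsg.Agent.Lib.BlockCorr

open scoped ComplexConjugate
open Cfsg Cfsg.Agent.Lib.CharBlockLocal Cfsg.Agent.Lib.CharBlockConv Cfsg.Agent.Lib.CharBlockRot
  Cfsg.Agent.Lib.CharBlockOrth Cfsg.Agent.Lib.CharOps Cfsg.Agent.Lib.CharIrr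
  Cfsg.Agent.Lib.CharBlockDefect Cfsg.Agent.Lib.CharBlockMinMax Cfsg.Agent.Lib.CharBlockBrauer
  Cfsg.Agent.Lib.CharBlockInd Cfsg.Agent.Lib.CharBlockFirst Cfsg.Agent.Lib.CharBlockSecond
  Cfsg.Agent.Lib.CharBlockHeight Cfsg.Agent.Lib.CharBlockDom Cfsg.Agent.Lib.CharBlockThird

universe u

section Idem

variable {G : Type u} [Group G] [Fintype G] {p : ℕ} {M : Ideal AlgInt}

theorem conv_sub_left (f g h : G → ℂ) : conv (f - g) h = conv f h - conv g h := by
  funext x
  simp only [conv_apply, Pi.sub_apply, sub_mul, Finset.sum_sub_distrib]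

theorem conv_sub_right (f g h : G → ℂ) : conv f (g - h) = conv f g - conv f h := by
  funext x
  simp only [conv_apply, Pi.sub_apply, mul_sub, Finset.sum_sub_distrib]

/-- The element `t (1 - e)` is idempotent modulo the ideal. -/
theorem idem_diff (hM : IsPModular p M) {t e : G → ℂ} (ht : IsRClass M t) (he : IsRClass M e)
    (hidt : ∀ g, MemLocalIdeal M (conv t t g - t g)) (hide : ∀ g, MemLocalIdeal M (conv e e g - e g)) (g : G) :
    MemLocalIdeal M (conv (t - conv e t) (t - conv e t) g - (t - conv e t) g) := by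
  have c1 : conv t e = conv e t := (conv_comm_of_class he.1)
  have e1 : conv (t - conv e t) (t - conv e t) = conv t t - conv e (conv t t) - conv e (conv t t) +
      conv (conv e e) (conv t t) := by
    rw [conv_sub_left, conv_sub_right, conv_sub_right]
    have e2 : conv t (conv e t) = conv e (conv t t) := by
      rw [← conv_assoc, c1, conv_assoc]
    have e3 : conv (conv e t) t = conv e (conv t t) := conv_assoc _ _ _
    have e4 : conv (conv e t) (conv e t) = conv (conv e e) (conv t t) := by
      rw [conv_assoc, ← conv_assoc t e t, c1, conv_assoc e t t, ← conv_assoc]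
    rw [e2, e3, e4]
    abel
  rw [e1]
  simp only [Pi.add_apply, Pi.sub_apply]
  -- congruences
  have h1 : MemLocalIdeal M (conv e (conv t t) g - conv e t g) := by
    have := conv_ideal_right hM he.2 (b := conv t t - t) (fun x => hidt x) g
    rwa [conv_sub_right] at this
  have h2 : MemLocalIdeal M (conv (conv e e) (conv t t) g - conv e (conv t t) g) := by
    have := conv_ideal_left hM (a := conv e e - e) (b := conv t t) (fun x => hide x) (ht.conv hM ht).2 g
    rwa [conv_sub_left] at this
  have e5 : conv t t g - conv e (conv t t) g - conv e (conv t t) g + conv (conv e e) (conv t t) g - (t g - conv e t g) =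
      (conv t t g - t g) - (conv e (conv t t) g - conv e t g) + (conv (conv e e) (conv t t) g - conv e (conv t t) g) := by
    ring
  rw [e5]
  exact MemLocalIdeal.add hM (MemLocalIdeal.sub hM (hidt g) h1) h2

/-- Two class functions idempotent modulo the ideal with the same central characters modulo the ideal are congruent. -/
theorem eq_mod_of_omega (hM : IsPModular p M) {t e : G → ℂ} (ht : IsRClass M t) (he : IsRClass M e)
    (hidt : ∀ g, MemLocalIdeal M (conv t t g - t g)) (hide : ∀ g, MemLocalIdeal M (conv e e g - e g))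
    (hom : ∀ ξ : IrrCharacter G, MemLocalIdeal M (omega (ξ : G → ℂ) t - omega (ξ : G → ℂ) e)) (g : G) :
    MemLocalIdeal M (t g - e g) := by
  haveI : M.IsPrime := hM.2.1.isPrime
  have c1 : conv t e = conv e t := (conv_comm_of_class he.1)
  have hX : IsRClass M (conv e t) := he.conv hM ht
  have hsub : ∀ {a b : G → ℂ}, IsRClass M a → IsRClass M b → IsRClass M (a - b) := by
    intro a b ha hb
    have h1 := ha.add hM (hb.neg hM)
    rwa [← sub_eq_add_neg] at h1
  have h1 : ∀ x, MemLocalIdeal M ((t - conv e t) x) := by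
    refine ideal_of_idem_mod hM (hsub ht hX) (idem_diff hM ht he hidt hide) fun ξ => ?_
    rw [omega_sub, omega_conv ξ.2 he.1]
    have h2 := omega_congr hM ξ.2 (he.conv hM he).1 he.1 hide
    rw [omega_conv ξ.2 he.1] at h2
    have h3 := hom ξ
    have hRt : MemLocalRing M (omega (ξ : G → ℂ) t) := memLocalRing_omega hM ξ.2 ht
    have hRe : MemLocalRing M (omega (ξ : G → ℂ) e) := memLocalRing_omega hM ξ.2 he
    have h4 : omega (ξ : G → ℂ) t - omega (ξ : G → ℂ) e * omega (ξ : G → ℂ) t =
      (omega (ξ : G → ℂ) t - omega (ξ : G → ℂ) e) - omega (ξ : G → ℂ) e * (omega (ξ : G → ℂ) t - omega (ξ : G → ℂ) e) -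
        (omega (ξ : G → ℂ) e * omega (ξ : G → ℂ) e - omega (ξ : G → ℂ) e) := by ring
    rw [h4]
    exact MemLocalIdeal.sub hM (MemLocalIdeal.sub hM h3 (MemLocalIdeal.mul_left hM hRe h3)) h2
  have h2 : ∀ x, MemLocalIdeal M ((e - conv e t) x) := by
    refine ideal_of_idem_mod hM (hsub he hX) ?_ fun ξ => ?_
    · intro x
      have := idem_diff hM he ht hide hidt x
      rwa [c1] at this
    · rw [omega_sub, omega_conv ξ.2 he.1]
      have h2 := omega_congr hM ξ.2 (he.conv hM he).1 he.1 hide
      rw [omega_conv ξ.2 he.1] at h2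
      have h3 := hom ξ
      have hRe : MemLocalRing M (omega (ξ : G → ℂ) e) := memLocalRing_omega hM ξ.2 he
      have h4 : omega (ξ : G → ℂ) e - omega (ξ : G → ℂ) e * omega (ξ : G → ℂ) t =
        - (omega (ξ : G → ℂ) e * (omega (ξ : G → ℂ) t - omega (ξ : G → ℂ) e)) -
          (omega (ξ : G → ℂ) e * omega (ξ : G → ℂ) e - omega (ξ : G → ℂ) e) := by ring
      rw [h4]
      exact MemLocalIdeal.sub hM (MemLocalIdeal.neg (MemLocalIdeal.mul_left hM hRe h3)) h2
  have h3 := MemLocalIdeal.sub hM (h1 g) (h2 g)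
  simp only [Pi.sub_apply] at h3
  convert h3 using 1
  ring

/-- Two blocks whose idempotents are congruent coincide. -/
theorem block_eq_of_coeff (hM : IsPModular p M) {b b' : Set (IrrCharacter G)} (hb : IsPBlock M b) (hb' : IsPBlock M b')
    (h : ∀ g, MemLocalIdeal M (blockCoeff b g - blockCoeff b' g)) : b = b' := by
  classical
  haveI : M.IsPrime := hM.2.1.isPrime
  obtain ⟨ξ, hξ⟩ := block_nonempty hM hb
  have h1 := omega_congr hM ξ.2 (blockCoeff_isClass b) (blockCoeff_isClass b') h
  rw [omega_blockCoeff, omega_blockCoeff, if_pos hξ] at h1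
  have hξ' : ξ ∈ b' := by
    by_contra hn
    rw [if_neg hn, sub_zero] at h1
    exact not_memLocalIdeal_one hM h1
  rw [blockOf_eq_of_mem hM hb hξ, ← blockOf_eq_of_mem hM hb' hξ']

end Idem

section Brauer

variable {G : Type u} [Group G] [Fintype G] {p : ℕ} {M : Ideal AlgInt}

/-- **The Brauer map on a block idempotent.** If `b` is the only block of `H` inducing `B`, the truncation of the idempotent
of `B` is congruent to the idempotent of `b`. -/
theorem trunc_eq_coeff (hM : IsPModular p M) {P H : Subgroup G} [Fintype H] (hP : IsPGroup p P) (hPH : P ≤ H)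
    (hCH : Subgroup.centralizer (P : Set G) ≤ H) (hHN : H ≤ Subgroup.normalizer (P : Set G))
    {b : Set (IrrCharacter H)} {B : Set (IrrCharacter G)} (hind : IsInducedBlock M H b B)
    (huniq : ∀ b' : Set (IrrCharacter H), IsInducedBlock M H b' B → b' = b) (x : H) :
    MemLocalIdeal M (trunc P H (blockCoeff B) x - blockCoeff b x) := by
  classical
  haveI : M.IsPrime := hM.2.1.isPrime
  have hb := hind.1
  have hB := hind.2.1
  have hR := isRClass_blockCoeff hM hB
  have hT := trunc_isRClass (P := P) hM hHN hR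
  refine eq_mod_of_omega hM hT (isRClass_blockCoeff hM hb) ?_ ?_ ?_ x
  · intro h
    have h1 := trunc_conv hM hP hCH hR hR h
    rw [conv_blockCoeff_self] at h1
    have := MemLocalIdeal.neg h1
    simpa using this
  · intro h
    rw [conv_blockCoeff_self, sub_self]
    exact MemLocalIdeal.zero hM
  · intro ξ
    rw [omega_blockCoeff]
    have h4 := omega_res_sub_trunc hM hP hPH hHN ξ.2 hR
    have hblock : IsPBlock M (blockOf M (ξ : H → ℂ)) := ⟨ξ, rfl⟩
    obtain ⟨B'', hind''⟩ := inducedBlockDefined hM hP hPH hCH hHN hblock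
    obtain ⟨χ, hχ⟩ := block_nonempty hM hind''.2.1
    have hc := omega_res_congr hM (IsCharacter.isClassFunction' (IsIrrCharacter.isCharacter' χ.2))
      (hind''.2.2 ξ (mem_blockOf_self hM ξ) χ hχ) hR
    rw [omega_blockCoeff] at hc
    by_cases hξ : ξ ∈ b
    · have e : blockOf M (ξ : H → ℂ) = b := (blockOf_eq_of_mem hM hb hξ).symm
      have hBB : B'' = B := by
        rw [e] at hind''
        exact Cfsg.Agent.Lib.CharBlockSylow.induced_block_unique hM hind'' hind
      rw [hBB] at hχ
      rw [if_pos hχ] at hc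
      rw [if_pos hξ]
      have h5 := MemLocalIdeal.sub hM hc h4
      convert h5 using 1
      ring
    · have hne : χ ∉ B := by
        intro hχB
        have e1 : B'' = B := by
          rw [blockOf_eq_of_mem hM hind''.2.1 hχ, ← blockOf_eq_of_mem hM hB hχB]
        rw [e1] at hind''
        have e2 := huniq _ hind''
        apply hξ
        rw [← e2]
        exact mem_blockOf_self hM ξ
      rw [if_neg hne] at hc
      rw [if_neg hξ]
      have h5 := MemLocalIdeal.sub hM hc h4
      convert h5 using 1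
      ring

/-- The congruence of idempotents for the First Main correspondent. -/
theorem coeff_of_correspondent (hM : IsPModular p M) {P : Subgroup G} (hP : IsPGroup p P)
    [Fintype (Subgroup.normalizer (P : Set G))]
    {b : Set (IrrCharacter (Subgroup.normalizer (P : Set G)))} {B : Set (IrrCharacter G)}
    (hbP : IsDefectGroup p M b (P.subgroupOf (Subgroup.normalizer (P : Set G))))
    (hind : IsInducedBlock M (Subgroup.normalizer (P : Set G)) b B) (x : Subgroup.normalizer (P : Set G))
    (hx : (x : G) ∈ Subgroup.centralizer (P : Set G)) :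
    MemLocalIdeal M (blockCoeff B (x : G) - blockCoeff b x) := by
  haveI : Fact p.Prime := ⟨hM.1⟩
  have h := trunc_eq_coeff hM hP Subgroup.le_normalizer (centralizer_le_normalizer' P) le_rfl hind
    (fun b' hb' => firstMain_unique hM P hP hind.2.1 hbP hind hb' |>.symm) x
  rwa [trunc_of_mem _ hx] at h

/-- The idempotent of a block of the normalizer is supported on the centralizer. -/
theorem coeff_normalizer_off (hM : IsPModular p M) {P : Subgroup G} (hP : IsPGroup p P)
    [Fintype (Subgroup.normalizer (P : Set G))]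
    {b : Set (IrrCharacter (Subgroup.normalizer (P : Set G)))} (hb : IsPBlock M b) (x : Subgroup.normalizer (P : Set G))
    (hx : (x : G) ∉ Subgroup.centralizer (P : Set G)) : blockCoeff b x = 0 := by
  haveI : Fact p.Prime := ⟨hM.1⟩
  haveI hn : (P.subgroupOf (Subgroup.normalizer (P : Set G))).Normal := Subgroup.normal_subgroupOf_of_le_normalizer le_rfl
  have hp : IsPGroup p (P.subgroupOf (Subgroup.normalizer (P : Set G))) := fun y => by
    obtain ⟨k, hk⟩ := hP ⟨y.1.1, y.2⟩
    exact ⟨k, Subtype.ext (Subtype.ext (by simpa using congrArg Subtype.val hk))⟩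
  refine blockCoeff_eq_zero_of_not_centralizes hM _ hp hb x fun h => hx ?_
  rw [Subgroup.mem_centralizer_iff] at h ⊢
  intro q hq
  have hq' : q ∈ Subgroup.normalizer (P : Set G) := Subgroup.le_normalizer hq
  have := h ⟨q, hq'⟩ (by
    rw [SetLike.mem_coe, Subgroup.mem_subgroupOf]
    exact hq)
  exact congrArg Subtype.val this

/-- Blocks of the normalizer are determined by their idempotents on the centralizer. -/
theorem block_normalizer_eq (hM : IsPModular p M) {P : Subgroup G} (hP : IsPGroup p P)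
    [Fintype (Subgroup.normalizer (P : Set G))]
    {b b' : Set (IrrCharacter (Subgroup.normalizer (P : Set G)))} (hb : IsPBlock M b) (hb' : IsPBlock M b')
    (h : ∀ x : Subgroup.normalizer (P : Set G), (x : G) ∈ Subgroup.centralizer (P : Set G) →
      MemLocalIdeal M (blockCoeff b x - blockCoeff b' x)) : b = b' := by
  refine block_eq_of_coeff hM hb hb' fun x => ?_
  by_cases hx : (x : G) ∈ Subgroup.centralizer (P : Set G)
  · exact h x hx
  · rw [coeff_normalizer_off hM hP hb x hx, coeff_normalizer_off hM hP hb' x hx, sub_self]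
    exact MemLocalIdeal.zero hM

/-- First Main, from a block of `G` to the local block. -/
theorem local_of_block (hM : IsPModular p M) {P : Subgroup G} (hP : IsPGroup p P) {B : Set (IrrCharacter G)}
    (hB : IsPBlock M B) (hD : IsDefectGroup p M B P) :
    ∃ b : Set (IrrCharacter (Subgroup.normalizer (P : Set G))), IsPBlock M b ∧
      IsDefectGroup p M b (P.subgroupOf (Subgroup.normalizer (P : Set G))) ∧
      IsInducedBlock M (Subgroup.normalizer (P : Set G)) b B ∧
      ∀ x : Subgroup.normalizer (P : Set G), (x : G) ∈ Subgroup.centralizer (P : Set G) →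
        MemLocalIdeal M (blockCoeff B (x : G) - blockCoeff b x) := by
  classical
  haveI : Fact p.Prime := ⟨hM.1⟩
  letI : Fintype (Subgroup.normalizer (P : Set G)) := Fintype.ofFinite _
  obtain ⟨b, ⟨hb, hbD, hi⟩, -⟩ := (firstMain hM P hP).2 B hB hD
  exact ⟨b, hb, hbD, hi, fun x hx => coeff_of_correspondent hM hP hbD hi x hx⟩

/-- First Main, from a local block to a block of `G`. -/
theorem block_of_local (hM : IsPModular p M) {P : Subgroup G} (hP : IsPGroup p P)
    {b : Set (IrrCharacter (Subgroup.normalizer (P : Set G)))} (hb : IsPBlock M b)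
    (hbD : IsDefectGroup p M b (P.subgroupOf (Subgroup.normalizer (P : Set G)))) :
    ∃ B : Set (IrrCharacter G), IsPBlock M B ∧ IsDefectGroup p M B P ∧
      ∀ x : Subgroup.normalizer (P : Set G), (x : G) ∈ Subgroup.centralizer (P : Set G) →
        MemLocalIdeal M (blockCoeff B (x : G) - blockCoeff b x) := by
  classical
  haveI : Fact p.Prime := ⟨hM.1⟩
  letI : Fintype (Subgroup.normalizer (P : Set G)) := Fintype.ofFinite _
  obtain ⟨B, hB, hBD, hi⟩ := (firstMain hM P hP).1 b hb hbD
  exact ⟨B, hB, hBD, fun x hx => coeff_of_correspondent hM hP hbD hi x hx⟩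

/-- Blocks of `G` with defect group `P` are determined by their idempotents on the centralizer of `P`. -/
theorem block_eq_of_cent (hM : IsPModular p M) {P : Subgroup G} (hP : IsPGroup p P) {B₁ B₂ : Set (IrrCharacter G)}
    (hB₁ : IsPBlock M B₁) (hB₂ : IsPBlock M B₂) (hD₁ : IsDefectGroup p M B₁ P) (hD₂ : IsDefectGroup p M B₂ P)
    (h : ∀ x ∈ Subgroup.centralizer (P : Set G), MemLocalIdeal M (blockCoeff B₁ x - blockCoeff B₂ x)) : B₁ = B₂ := by
  classical
  letI : Fintype (Subgroup.normalizer (P : Set G)) := Fintype.ofFinite _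
  obtain ⟨b₁, hb₁, -, hi₁, hc₁⟩ := local_of_block hM hP hB₁ hD₁
  obtain ⟨b₂, hb₂, -, hi₂, hc₂⟩ := local_of_block hM hP hB₂ hD₂
  have e : b₁ = b₂ := by
    refine block_normalizer_eq hM hP hb₁ hb₂ fun x hx => ?_
    have h1 := MemLocalIdeal.add hM (MemLocalIdeal.sub hM (h x hx) (hc₁ x hx)) (hc₂ x hx)
    convert h1 using 1
    ring
  rw [e] at hi₁
  exact Cfsg.Agent.Lib.CharBlockSylow.induced_block_unique hM hi₁ hi₂

end Brauer

section Over

variable {G : Type u} [Group G] [Fintype G] {p : ℕ} {M : Ideal AlgInt}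

theorem mem_norm_subgroupOf {P H : Subgroup G} (hPH : P ≤ H) (y : H) :
    y ∈ Subgroup.normalizer ((P.subgroupOf H : Subgroup H) : Set H) ↔ (y : G) ∈ Subgroup.normalizer (P : Set G) := by
  rw [Subgroup.mem_normalizer_iff, Subgroup.mem_normalizer_iff]
  constructor
  · intro h g
    constructor
    · intro hg
      have := (h ⟨g, hPH hg⟩).1 (by
        rw [Subgroup.mem_subgroupOf]
        exact hg)
      rw [Subgroup.mem_subgroupOf] at this
      simpa using this
    · intro hg
      have hgH : g ∈ H := by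
        have h1 : (y : G) * g * (y : G)⁻¹ ∈ H := hPH hg
        have h2 := H.mul_mem (H.mul_mem (H.inv_mem y.2) h1) y.2
        have e : (y : G)⁻¹ * ((y : G) * g * (y : G)⁻¹) * y = g := by group
        rwa [e] at h2
      have := (h ⟨g, hgH⟩).2 (by
        rw [Subgroup.mem_subgroupOf]
        simpa using hg)
      rw [Subgroup.mem_subgroupOf] at this
      exact this
  · intro h g
    rw [Subgroup.mem_subgroupOf, Subgroup.mem_subgroupOf]
    simpa using h (g : G)

/-- Normalizers inside and outside `H`. -/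
noncomputable def normEquiv {P H : Subgroup G} (hPH : P ≤ H) (hH : Subgroup.normalizer (P : Set G) ≤ H) :
    Subgroup.normalizer ((P.subgroupOf H : Subgroup H) : Set H) ≃* Subgroup.normalizer (P : Set G) where
  toFun a := ⟨((a : H) : G), (mem_norm_subgroupOf hPH _).1 a.2⟩
  invFun n := ⟨⟨n, hH n.2⟩, (mem_norm_subgroupOf hPH _).2 n.2⟩
  left_inv _ := rfl
  right_inv _ := rfl
  map_mul' _ _ := rfl

@[simp] theorem normEquiv_apply {P H : Subgroup G} (hPH : P ≤ H) (hH : Subgroup.normalizer (P : Set G) ≤ H) (a) :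
    ((normEquiv hPH hH a : Subgroup.normalizer (P : Set G)) : G) = ((a : H) : G) := rfl

theorem map_subgroupOf_equiv {P H : Subgroup G} (hPH : P ≤ H) (hH : Subgroup.normalizer (P : Set G) ≤ H) :
    ((P.subgroupOf H).subgroupOf (Subgroup.normalizer ((P.subgroupOf H : Subgroup H) : Set H))).map
      (normEquiv hPH hH).toMonoidHom = P.subgroupOf (Subgroup.normalizer (P : Set G)) := by
  ext n
  constructor
  · rintro ⟨a, ha, rfl⟩
    rw [Subgroup.mem_subgroupOf]
    have : ((a : H) : P.subgroupOf H |>.carrier |> fun _ => H) ∈ P.subgroupOf H := ha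
    exact (Subgroup.mem_subgroupOf.1 ha)
  · intro hn
    refine ⟨(normEquiv hPH hH).symm n, SetLike.mem_coe.2 ?_, (normEquiv hPH hH).apply_symm_apply n⟩
    rw [Subgroup.mem_subgroupOf, Subgroup.mem_subgroupOf]
    exact Subgroup.mem_subgroupOf.1 hn

theorem map_subgroupOf_equiv_symm {P H : Subgroup G} (hPH : P ≤ H) (hH : Subgroup.normalizer (P : Set G) ≤ H) :
    (P.subgroupOf (Subgroup.normalizer (P : Set G))).map (normEquiv hPH hH).symm.toMonoidHom =
      (P.subgroupOf H).subgroupOf (Subgroup.normalizer ((P.subgroupOf H : Subgroup H) : Set H)) := by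
  ext n
  constructor
  · rintro ⟨a, ha, rfl⟩
    rw [Subgroup.mem_subgroupOf, Subgroup.mem_subgroupOf]
    exact Subgroup.mem_subgroupOf.1 ha
  · intro hn
    refine ⟨normEquiv hPH hH n, SetLike.mem_coe.2 ?_, (normEquiv hPH hH).symm_apply_apply n⟩
    rw [Subgroup.mem_subgroupOf]
    exact Subgroup.mem_subgroupOf.1 (Subgroup.mem_subgroupOf.1 hn)

theorem cent_subgroupOf_mem {P H : Subgroup G} {x : H} (hx : (x : G) ∈ Subgroup.centralizer (P : Set G)) :
    x ∈ Subgroup.centralizer ((P.subgroupOf H : Subgroup H) : Set H) := by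
  rw [Subgroup.mem_centralizer_iff] at hx ⊢
  intro q hq
  exact Subtype.ext (hx _ (Subgroup.mem_subgroupOf.1 hq))

theorem isPGroup_subgroupOf' {P H : Subgroup G} (hP : IsPGroup p P) : IsPGroup p (P.subgroupOf H) := fun y => by
  obtain ⟨k, hk⟩ := hP ⟨y.1.1, y.2⟩
  exact ⟨k, Subtype.ext (Subtype.ext (by simpa using congrArg Subtype.val hk))⟩

/-- From a block of `H` to a local block. -/
theorem local_of_over (hM : IsPModular p M) {P H : Subgroup G} (hP : IsPGroup p P) (hPH : P ≤ H)
    (hH : Subgroup.normalizer (P : Set G) ≤ H) {c : Set (IrrCharacter H)} (hc : IsPBlock M c)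
    (hcD : IsDefectGroup p M c (P.subgroupOf H)) :
    ∃ b : Set (IrrCharacter (Subgroup.normalizer (P : Set G))), IsPBlock M b ∧
      IsDefectGroup p M b (P.subgroupOf (Subgroup.normalizer (P : Set G))) ∧
      ∀ x : Subgroup.normalizer (P : Set G), (x : G) ∈ Subgroup.centralizer (P : Set G) →
        MemLocalIdeal M (subgroupBlockCoeff H c (x : G) - blockCoeff b x) := by
  classical
  haveI : M.IsPrime := hM.2.1.isPrime
  letI : Fintype H := Fintype.ofFinite _
  obtain ⟨b₁, hb₁, hb₁D, -, hcong⟩ := local_of_block hM (isPGroup_subgroupOf' hP) hc hcD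
  let σ := normEquiv hPH hH
  refine ⟨Cfsg.Agent.Lib.BlockPair.irrComp σ.symm '' b₁, Cfsg.Agent.Lib.BlockSub.isPBlock_image _ hb₁, ?_, fun x hx => ?_⟩
  · have h1 := Cfsg.Agent.Lib.BlockTrace.isDefectGroup_equiv σ hb₁D hM.1
    rwa [map_subgroupOf_equiv hPH hH] at h1
  · rw [Cfsg.Agent.Lib.BlockPair.blockCoeff_comp]
    have h1 := hcong (σ.symm x) (cent_subgroupOf_mem (P := P) (H := H) hx)
    have e : ((σ.symm x : _) : H) = ⟨x, hH x.2⟩ := rfl
    rw [e] at h1
    rw [show (x : G) = ((⟨x, hH x.2⟩ : H) : G) from rfl, Cfsg.Agent.Lib.BlockMax.subgroupBlockCoeff_mem]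
    exact h1

/-- From a local block to a block of `H`. -/
theorem over_of_local (hM : IsPModular p M) {P H : Subgroup G} (hP : IsPGroup p P) (hPH : P ≤ H)
    (hH : Subgroup.normalizer (P : Set G) ≤ H) {b : Set (IrrCharacter (Subgroup.normalizer (P : Set G)))}
    (hb : IsPBlock M b) (hbD : IsDefectGroup p M b (P.subgroupOf (Subgroup.normalizer (P : Set G)))) :
    ∃ c : Set (IrrCharacter H), IsPBlock M c ∧ IsDefectGroup p M c (P.subgroupOf H) ∧
      ∀ x : Subgroup.normalizer (P : Set G), (x : G) ∈ Subgroup.centralizer (P : Set G) →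
        MemLocalIdeal M (subgroupBlockCoeff H c (x : G) - blockCoeff b x) := by
  classical
  haveI : M.IsPrime := hM.2.1.isPrime
  letI : Fintype H := Fintype.ofFinite _
  let σ := normEquiv hPH hH
  have hb₁ : IsPBlock M (Cfsg.Agent.Lib.BlockPair.irrComp σ.symm.symm '' b) := Cfsg.Agent.Lib.BlockSub.isPBlock_image _ hb
  have hb₁D := Cfsg.Agent.Lib.BlockTrace.isDefectGroup_equiv σ.symm hbD hM.1
  rw [map_subgroupOf_equiv_symm hPH hH] at hb₁D
  obtain ⟨c, hc, hcD, hcong⟩ := block_of_local hM (isPGroup_subgroupOf' hP) hb₁ hb₁D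
  refine ⟨c, hc, hcD, fun x hx => ?_⟩
  have h1 := hcong (σ.symm x) (cent_subgroupOf_mem (P := P) (H := H) hx)
  rw [Cfsg.Agent.Lib.BlockPair.blockCoeff_comp] at h1
  have e : ((σ.symm x : _) : H) = ⟨x, hH x.2⟩ := rfl
  rw [e] at h1
  rw [show (x : G) = ((⟨x, hH x.2⟩ : H) : G) from rfl, Cfsg.Agent.Lib.BlockMax.subgroupBlockCoeff_mem]
  have e2 : σ.symm.symm (σ.symm x) = x := σ.apply_symm_apply x
  rwa [e2] at h1

end Over

end Cfsg.Agent.Lib.BlockCorr
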