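import Cfsg.Agent.Lib.BlockAb
import Cfsg.Agent.Lib.BlockCorr

/-!
# Induced blocks and inclusions of pairs
-/

set_option autoImplicit false
set_option linter.all false

namespace Cfsg.Agent.Lib.BlockAbInd

open Cfsg Cfsg.Agent.Lib.BlockLocal Cfsg.Agent.Lib.BlockOsima Cfsg.Agent.Lib.BlockBr Cfsg.Agent.Lib.BlockOrth
  Cfsg.Agent.Lib.BlockApps Cfsg.Agent.Lib.CharIrr Cfsg.Agent.Lib.BlockPair Cfsg.Agent.Lib.BlockSub
  Cfsg.Agent.Lib.BlockMax Cfsg.Agent.Lib.BlockTrace Cfsg.Agent.Lib.BlockConjP Cfsg.Agent.Lib.BlockFull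
  Cfsg.Agent.Lib.BlockFus Cfsg.Agent.Lib.BlockFus2 Cfsg.Agent.Lib.BlockSat Cfsg.Agent.Lib.BlockTrans
  Cfsg.Agent.Lib.BlockRecep Cfsg.Agent.Lib.BlockFrob Cfsg.Agent.Lib.BlockAb
open scoped ComplexConjugate

universe u

section Tr

variable {G : Type u} [Group G] [Fintype G] {p : ℕ} {M : Ideal AlgInt} [hprime : M.IsPrime]

/-- Stabilizers across `tauG`. -/
theorem stab_trB (Y : Subgroup G) (A : Subgroup Y) (R : Subgroup G)
    (h : ∀ y : Y, y ∈ Subgroup.centralizer (A : Set Y) ↔ (y : G) ∈ Subgroup.centralizer (R : Set G))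
    (hC : Subgroup.centralizer (R : Set G) ≤ Y) (e : Set (IrrCharacter (Subgroup.centralizer (R : Set G)))) (x : Y) :
    StabilizesBlock (Subgroup.centralizer (A : Set Y)) (trB (tauG Y A R h hC) e) x ↔
      StabilizesBlock (Subgroup.centralizer (R : Set G)) e (x : G) := by
  classical
  letI : Fintype Y := Fintype.ofFinite _
  letI : Fintype (Subgroup.centralizer (A : Set Y)) := Fintype.ofFinite _
  letI : Fintype (Subgroup.centralizer (R : Set G)) := Fintype.ofFinite _
  let τ := tauG Y A R h hC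
  have hmemY : ∀ g : G, x.1 * g * x.1⁻¹ ∈ Subgroup.centralizer (R : Set G) → g ∈ Y := by
    intro g hg
    have h1 := Y.mul_mem (Y.mul_mem (Y.inv_mem x.2) (hC hg)) x.2
    have e : x.1⁻¹ * (x.1 * g * x.1⁻¹) * x.1 = g := by group
    rwa [e] at h1
  constructor
  · rintro ⟨h1, h2⟩
    refine ⟨?_, fun χ hχ => ?_⟩
    · rw [Subgroup.mem_normalizer_iff]
      intro g
      have h1' := Subgroup.mem_normalizer_iff.1 h1
      constructor
      · intro hg
        have hgY := hC hg
        have := (h1' ⟨g, hgY⟩).1 ((h _).2 hg)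
        exact (h _).1 this
      · intro hg
        have hgY := hmemY g hg
        have := (h1' ⟨g, hgY⟩).2 ((h _).2 hg)
        exact (h ⟨g, hgY⟩).1 this
    · obtain ⟨χ₁', ⟨ξ', hξ', hχ'⟩, hc⟩ := h2 (irrComp τ χ) ⟨χ, hχ, fun _ => rfl⟩
      refine ⟨ξ', hξ', fun k k' hk => ?_⟩
      have h3 := hc (τ.symm k) (τ.symm k') (by
        apply Subtype.ext
        exact hk)
      have h4 := hχ' (τ.symm k')
      have e5 : τ (τ.symm k') = k' := τ.apply_symm_apply k'
      have e6 : τ (τ.symm k) = k := τ.apply_symm_apply k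
      have e7 : (χ₁' : _ → ℂ) (τ.symm k') = (ξ' : _ → ℂ) k' := by
        rw [h4]
        exact congrArg _ e5
      have e8 : (irrComp τ χ : _ → ℂ) (τ.symm k) = (χ : _ → ℂ) k := by
        rw [irrComp_apply, e6]
      rw [← e7, ← e8]
      exact h3
  · rintro ⟨h1, h2⟩
    refine ⟨?_, ?_⟩
    · rw [Subgroup.mem_normalizer_iff]
      intro g
      have h1' := Subgroup.mem_normalizer_iff.1 h1
      rw [h, h]
      exact h1' (g : G)
    · rintro χ ⟨ξ, hξ, hχ⟩
      obtain ⟨ξ', hξ', hc⟩ := h2 ξ hξ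
      refine ⟨irrComp τ ξ', ⟨ξ', hξ', fun _ => rfl⟩, fun k k' hk => ?_⟩
      rw [hχ k]
      exact hc (τ k) (τ k') (by
        have := congrArg Subtype.val hk
        exact this)

/-- The identification of `K` and `K.subgroupOf Y`. -/
theorem inducedIn_eq (Y K : Subgroup G) (hKY : K ≤ Y) (ξ : K → ℂ) (y : Y) :
    inducedCentralCharIn Y K ξ (y : G) =
      inducedCentralChar (K.subgroupOf Y) (fun a => ξ (Subgroup.subgroupOfEquivOfLe hKY a)) y := by
  classical
  unfold inducedCentralCharIn inducedCentralChar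
  symm
  refine finsum_mem_eq_of_bijOn (Subgroup.subgroupOfEquivOfLe hKY) ?_ ?_
  · refine ⟨?_, fun a _ b _ hab => (Subgroup.subgroupOfEquivOfLe hKY).injective hab, ?_⟩
    · rintro a ha
      rw [Set.mem_setOf_eq, isConj_iff] at ha
      obtain ⟨c, hc⟩ := ha
      refine ⟨c⁻¹, ?_⟩
      have := congrArg Subtype.val hc
      simp only [Subgroup.coe_mul, Subgroup.coe_inv] at this ⊢
      show (c : G)⁻¹ * (a : G) * ((c : G)⁻¹)⁻¹ = y
      rw [← this]
      group
    · rintro k ⟨x, hx⟩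
      refine ⟨(Subgroup.subgroupOfEquivOfLe hKY).symm k, ?_, (Subgroup.subgroupOfEquivOfLe hKY).apply_symm_apply k⟩
      rw [Set.mem_setOf_eq, isConj_iff]
      refine ⟨x⁻¹, ?_⟩
      apply Subtype.ext
      simp only [Subgroup.coe_mul, Subgroup.coe_inv]
      show (x : G)⁻¹ * y * ((x : G)⁻¹)⁻¹ = k
      rw [← hx]
      group
  · intro a _
    simp

/-- Induced blocks in an intermediate group. -/
theorem inducedIn_iff (Y K : Subgroup G) (hKY : K ≤ Y) {e : Set (IrrCharacter K)} {f : Set (IrrCharacter Y)} :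
    IsInducedBlockIn M Y K e f ↔
      IsInducedBlock M (K.subgroupOf Y) (trB (Subgroup.subgroupOfEquivOfLe hKY) e) f := by
  classical
  letI : Fintype Y := Fintype.ofFinite _
  letI : Fintype K := Fintype.ofFinite _
  letI : Fintype (K.subgroupOf Y) := Fintype.ofFinite _
  constructor
  · rintro ⟨h1, h2, h3⟩
    refine ⟨trB_block _ h1, h2, ?_⟩
    rintro ξ' ⟨ξ, hξ, hξ'⟩ χ hχ y
    have e1 : (ξ' : K.subgroupOf Y → ℂ) = fun a => (ξ : K → ℂ) (Subgroup.subgroupOfEquivOfLe hKY a) := funext hξ'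
    rw [e1, ← inducedIn_eq]
    exact h3 ξ hξ χ hχ y
  · rintro ⟨h1, h2, h3⟩
    have h1' : IsPBlock M e := by
      have := isPBlock_image (M := M) (Subgroup.subgroupOfEquivOfLe hKY).symm h1
      rw [trB_eq_image] at this
      rw [← Set.image_comp] at this
      have e2 : irrComp (Subgroup.subgroupOfEquivOfLe hKY).symm ∘ irrComp (Subgroup.subgroupOfEquivOfLe hKY) = id := by
        funext χ
        apply Subtype.ext
        funext a
        simp [irrComp_apply]
      rwa [e2, Set.image_id] at this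
    refine ⟨h1', h2, fun ξ hξ χ hχ y => ?_⟩
    rw [inducedIn_eq Y K hKY]
    exact h3 (irrComp (Subgroup.subgroupOfEquivOfLe hKY) ξ) ⟨ξ, hξ, fun _ => rfl⟩ χ hχ y

/-- The Brauer image of an induced block in an intermediate centralizer. -/
theorem brauer_of_inducedIn (hM : IsPModular p M) {Q P : Subgroup G}
    (hCC : Subgroup.centralizer (P : Set G) ≤ Subgroup.centralizer (Q : Set G))
    {c : Set (IrrCharacter (Subgroup.centralizer (P : Set G)))} {f : Set (IrrCharacter (Subgroup.centralizer (Q : Set G)))}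
    (hind : IsInducedBlockIn M (Subgroup.centralizer (Q : Set G)) (Subgroup.centralizer (P : Set G)) c f)
    {ξ : IrrCharacter (Subgroup.centralizer (P : Set G))} (hξ : ξ ∈ c) :
    MemLocalIdeal M (brauerOmega P (subgroupBlockCoeff (Subgroup.centralizer (Q : Set G)) f)
      (ξ : Subgroup.centralizer (P : Set G) → ℂ) - 1) := by
  classical
  letI : Fintype (Subgroup.centralizer (Q : Set G)) := Fintype.ofFinite _
  letI : Fintype (Subgroup.centralizer (P : Set G)) := Fintype.ofFinite _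
  letI : Fintype ((Subgroup.centralizer (P : Set G)).subgroupOf (Subgroup.centralizer (Q : Set G))) := Fintype.ofFinite _
  have hind' := (inducedIn_iff _ _ hCC).1 hind
  have hf := hind'.2.1
  obtain ⟨χ, hχ⟩ := Cfsg.Agent.Lib.CharBlockDefect.block_nonempty hM hf
  let ρ := Subgroup.subgroupOfEquivOfLe hCC
  have h1 := Cfsg.Agent.Lib.CharBlockBrauer.omega_res_congr hM
    (Cfsg.Agent.Lib.CharOps.IsCharacter.isClassFunction' (Cfsg.Agent.Lib.CharOps.IsIrrCharacter.isCharacter' χ.2))
    (hind'.2.2 (irrComp ρ ξ) ⟨ξ, hξ, fun _ => rfl⟩ χ hχ) (Cfsg.Agent.Lib.CharBlockConv.isRClass_blockCoeff hM hf)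
  rw [Cfsg.Agent.Lib.CharBlockConv.omega_blockCoeff, if_pos hχ] at h1
  convert h1 using 2
  unfold brauerOmega Cfsg.Agent.Lib.CharBlockConv.omega
  rw [finsum_eq_sum_of_fintype, ← Equiv.sum_comp ρ.toEquiv, Finset.sum_div]
  refine Finset.sum_congr rfl fun a _ => ?_
  have e1 : ((ρ a : Subgroup.centralizer (P : Set G)) : G) = (((a : Subgroup.centralizer (Q : Set G))) : G) := rfl
  have e2 : (irrComp ρ ξ : ((Subgroup.centralizer (P : Set G)).subgroupOf (Subgroup.centralizer (Q : Set G))) → ℂ) 1 = (ξ : Subgroup.centralizer (P : Set G) → ℂ) 1 := by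
    rw [irrComp_apply, map_one]
  simp only [MulEquiv.toEquiv_eq_coe, EquivLike.coe_coe]
  rw [e2, irrComp_apply, e1, subgroupBlockCoeff_mem]
  rfl

/-- An induced block in the centralizer of `Q ≤ P`, for `P` commutative, lies below the pair on `P`. -/
theorem normal_of_inducedIn (hM : IsPModular p M) {Q P : Subgroup G} (hab : ∀ x ∈ P, ∀ y ∈ P, x * y = y * x)
    (hQP : Q ≤ P) {c : Set (IrrCharacter (Subgroup.centralizer (P : Set G)))}
    {f : Set (IrrCharacter (Subgroup.centralizer (Q : Set G)))} (hPc : IsBrauerPair p M P c)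
    (hind : IsInducedBlockIn M (Subgroup.centralizer (Q : Set G)) (Subgroup.centralizer (P : Set G)) c f) :
    IsNormalSubpair p M Q f P c := by
  have hPQ := ab_le_cent hab hQP
  refine ⟨⟨hPc.1.to_le hQP, hind.2.1⟩, hPc, hQP, hPQ.trans (Cfsg.Agent.Lib.CharBlockFirst.centralizer_le_normalizer' Q),
    fun x hx => stabilizesBlock_self _ (hPQ hx) f, fun ξ hξ => ?_⟩
  exact brauer_of_inducedIn hM (centralizer_anti hQP) hind hξ

/-- A block of the centralizer of `P` inducing `B` gives a Brauer pair of `B`. -/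
theorem pair_of_induced (hM : IsPModular p M) {B : Set (IrrCharacter G)} {P : Subgroup G} (hP : IsPGroup p P)
    {c : Set (IrrCharacter (Subgroup.centralizer (P : Set G)))}
    (hc : IsInducedBlock M (Subgroup.centralizer (P : Set G)) c B) : IsBrauerPairOf p M B P c := by
  classical
  letI : Fintype (Subgroup.centralizer (P : Set G)) := Fintype.ofFinite _
  refine ⟨⟨hP, hc.1⟩, hc.2.1, fun ξ hξ => ?_⟩
  obtain ⟨χ, hχ⟩ := Cfsg.Agent.Lib.CharBlockDefect.block_nonempty hM hc.2.1
  have h1 := Cfsg.Agent.Lib.CharBlockBrauer.omega_res_congr hM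
    (Cfsg.Agent.Lib.CharOps.IsCharacter.isClassFunction' (Cfsg.Agent.Lib.CharOps.IsIrrCharacter.isCharacter' χ.2))
    (hc.2.2 ξ hξ χ hχ) (Cfsg.Agent.Lib.CharBlockConv.isRClass_blockCoeff hM hc.2.1)
  rw [Cfsg.Agent.Lib.CharBlockConv.omega_blockCoeff, if_pos hχ] at h1
  convert h1 using 2
  unfold brauerOmega Cfsg.Agent.Lib.CharBlockConv.omega
  rw [finsum_eq_sum_of_fintype, Finset.sum_div]
  rfl

/-- Nilpotency of an induced block in the centralizer of a subgroup of a commutative defect group. -/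
theorem nilp_iff_of_inducedIn (hM : IsPModular p M) {B : Set (IrrCharacter G)} {P Q : Subgroup G}
    {c : Set (IrrCharacter (Subgroup.centralizer (P : Set G)))} (hmax : IsMaximalBrauerPair p M B P c)
    (hab : ∀ x ∈ P, ∀ y ∈ P, x * y = y * x) (hQP : Q ≤ P)
    {f : Set (IrrCharacter (Subgroup.centralizer (Q : Set G)))}
    (hind : IsInducedBlockIn M (Subgroup.centralizer (Q : Set G)) (Subgroup.centralizer (P : Set G)) c f) :
    IsNilpotentBlock p M f ↔ ∀ x ∈ Subgroup.centralizer (Q : Set G), x ∈ Subgroup.normalizer (P : Set G) →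
      StabilizesBlock (Subgroup.centralizer (P : Set G)) c x → x ∈ Subgroup.centralizer (P : Set G) := by
  classical
  haveI : Fact p.Prime := ⟨hM.1⟩
  have hstep := normal_of_inducedIn hM hab hQP hmax.1.1 hind
  have hf := hind.2.1
  let Y : Subgroup G := Subgroup.centralizer (Q : Set G)
  have hPY : P ≤ Y := ab_le_cent hab hQP
  have hp₁ := pair_in_mid hstep hPY le_rfl hf (fun t => (subgroupBlockCoeff_mem Y f t).symm)
  have hD := ab_defect hM hmax hab hf (Relation.ReflTransGen.single hstep)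
  have hmaxY := maximal_of_defect hM hp₁ hD
  have hab' : ∀ x ∈ P.subgroupOf Y, ∀ y ∈ P.subgroupOf Y, x * y = y * x := by
    intro x hx y hy
    apply Subtype.ext
    exact hab _ (Subgroup.mem_subgroupOf.1 hx) _ (Subgroup.mem_subgroupOf.1 hy)
  rw [ab_nilp_iff hM hmaxY hab']
  constructor
  · intro h x hxQ hxN hxS
    have h1 := h ⟨x, hxQ⟩ ((Cfsg.Agent.Lib.BlockCorr.mem_norm_subgroupOf hPY _).2 hxN)
      ((stab_trB Y _ P _ _ c _).2 hxS)
    exact (cent_subgroupOf_iff hPY _).1 h1
  · intro h x hxN hxS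
    have h1 := h x x.2 ((Cfsg.Agent.Lib.BlockCorr.mem_norm_subgroupOf hPY _).1 hxN)
      ((stab_trB Y _ P _ _ c _).1 hxS)
    exact (cent_subgroupOf_iff hPY _).2 h1

/-- The block induced in an intermediate centralizer exists. -/
theorem exists_inducedIn (hM : IsPModular p M) {Q P : Subgroup G} (hP : IsPGroup p P) (hab : ∀ x ∈ P, ∀ y ∈ P, x * y = y * x)
    (hQP : Q ≤ P) {c : Set (IrrCharacter (Subgroup.centralizer (P : Set G)))} (hc : IsPBlock M c) :
    ∃ f : Set (IrrCharacter (Subgroup.centralizer (Q : Set G))),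
      IsInducedBlockIn M (Subgroup.centralizer (Q : Set G)) (Subgroup.centralizer (P : Set G)) c f := by
  classical
  letI : Fintype (Subgroup.centralizer (Q : Set G)) := Fintype.ofFinite _
  letI : Fintype (Subgroup.centralizer (P : Set G)) := Fintype.ofFinite _
  let Y : Subgroup G := Subgroup.centralizer (Q : Set G)
  let K : Subgroup G := Subgroup.centralizer (P : Set G)
  letI : Fintype (K.subgroupOf Y) := Fintype.ofFinite _
  have hKY : K ≤ Y := centralizer_anti hQP
  have hPY : P ≤ Y := ab_le_cent hab hQP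
  have hPK : P ≤ K := ab_le_cent hab le_rfl
  have hp : IsPGroup p (P.subgroupOf Y) := hP.comap_of_injective _ Subtype.val_injective
  obtain ⟨f, hf⟩ := Cfsg.Agent.Lib.CharBlockBrauer.inducedBlockDefined hM (P := P.subgroupOf Y) (H := K.subgroupOf Y) hp
    (fun x hx => Subgroup.mem_subgroupOf.2 (hPK (Subgroup.mem_subgroupOf.1 hx)))
    (fun x hx => Subgroup.mem_subgroupOf.2 ((cent_subgroupOf_iff hPY x).1 hx))
    (fun x hx => by
      have hx' : x ∈ Subgroup.centralizer ((P.subgroupOf Y : Subgroup Y) : Set Y) :=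
        (cent_subgroupOf_iff hPY x).2 (Subgroup.mem_subgroupOf.1 hx)
      exact Cfsg.Agent.Lib.CharBlockFirst.centralizer_le_normalizer' _ hx')
    (trB_block (Subgroup.subgroupOfEquivOfLe hKY) hc)
  exact ⟨f, (inducedIn_iff Y K hKY).2 hf⟩

end Tr

end Cfsg.Agent.Lib.BlockAbInd
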