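import Cfsg.Agent.Lib.BlockNilN

/-!
# Pairs on centric subgroups that are normal
-/

set_option autoImplicit false
set_option linter.all false

namespace Cfsg.Agent.Lib.BlockCentric

open Cfsg Cfsg.Agent.Lib.BlockLocal Cfsg.Agent.Lib.BlockOsima Cfsg.Agent.Lib.BlockBr Cfsg.Agent.Lib.BlockOrth
  Cfsg.Agent.Lib.BlockApps Cfsg.Agent.Lib.CharIrr Cfsg.Agent.Lib.BlockPair Cfsg.Agent.Lib.BlockSub
  Cfsg.Agent.Lib.BlockMax Cfsg.Agent.Lib.BlockTrace Cfsg.Agent.Lib.BlockConjP Cfsg.Agent.Lib.BlockFull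
  Cfsg.Agent.Lib.BlockFus Cfsg.Agent.Lib.BlockFus2 Cfsg.Agent.Lib.BlockSat Cfsg.Agent.Lib.BlockTrans
  Cfsg.Agent.Lib.BlockRecep Cfsg.Agent.Lib.BlockFrob Cfsg.Agent.Lib.BlockAb Cfsg.Agent.Lib.BlockCover
  Cfsg.Agent.Lib.BlockNilN
open scoped ComplexConjugate

universe u

section Central

variable {X : Type u} [Group X] [Fintype X] {p : ℕ} {M : Ideal AlgInt} [hprime : M.IsPrime]

/-- A block with a central defect group is nilpotent. -/
theorem nil_of_central (hM : IsPModular p M) {f : Set (IrrCharacter X)} (hf : IsPBlock M f) {D : Subgroup X}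
    (hD : IsDefectGroup p M f D) (hcen : ∀ z ∈ D, ∀ x : X, z * x = x * z) : IsNilpotentBlock p M f := by
  refine ⟨hf, ?_⟩
  intro A e₁ hA x _ _ _
  obtain ⟨v, hv⟩ := pair_conj_le_defect hM hA hD
  rw [Subgroup.mem_centralizer_iff]
  intro a ha
  have h1 : v * a * v⁻¹ ∈ D := hv ⟨a, ha, rfl⟩
  have h2 : v * a * v⁻¹ = a := by
    have h3 := hcen _ h1 v
    have h4 : v * a * v⁻¹ * v = v * a := by group
    rw [h4] at h3
    exact (mul_left_cancel h3).symm
  rw [h2] at h1
  exact hcen a h1 x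

end Central

section Main

variable {G : Type u} [Group G] [Fintype G] {p : ℕ} {M : Ideal AlgInt} [hprime : M.IsPrime]
  {B : Set (IrrCharacter G)} {P : Subgroup G} {e : Set (IrrCharacter (Subgroup.centralizer (P : Set G)))}
  {F : FusionSystem P}

/-- When `G` stabilizes `(Q, f)`, the block of the pair is the one with idempotent that of `f`. -/
theorem block_of_normal_pair (hM : IsPModular p M) {Q : Subgroup G} {f : Set (IrrCharacter (Subgroup.centralizer (Q : Set G)))}
    (hQf : IsBrauerPairOf p M B Q f)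
    (hG : ∀ x : G, x ∈ Subgroup.normalizer (Q : Set G) ∧ StabilizesBlock (Subgroup.centralizer (Q : Set G)) f x) (g : G) :
    blockCoeff B g = subgroupBlockCoeff (Subgroup.centralizer (Q : Set G)) f g := by
  classical
  letI : Fintype (Subgroup.centralizer (Q : Set G)) := Fintype.ofFinite _
  have hf := hQf.1.2
  haveI hQn : Q.Normal := Subgroup.normalizer_eq_top_iff.1 (by
    rw [Subgroup.eq_top_iff']
    exact fun x => (hG x).1)
  have h := cover_block (y := subgroupBlockCoeff (Subgroup.centralizer (Q : Set G)) f) hM Q hQf.1.1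
    (Subgroup.centralizer (Q : Set G)).subtype Subtype.val_injective (range_cent Q) hf
    (fun g' h' => subgroupBlockCoeff_stable _ hf (hG h').2 g')
    (fun x hx => subgroupBlockCoeff_not_mem _ _ (fun hm => hx ⟨⟨x, hm⟩, rfl⟩))
    (fun c => subgroupBlockCoeff_mem _ f c)
  have hpair : IsBrauerPairOf p M (overSet (Subgroup.centralizer (Q : Set G)).subtype f) Q f := by
    refine ⟨hQf.1, h.1, fun ξ hξ => ?_⟩
    rw [brauerOmega_eq]
    unfold omI
    rw [h.2]
    have e1 : subgroupBlockCoeff (Subgroup.centralizer (Q : Set G)) f ∘ (Subgroup.centralizer (Q : Set G)).subtype = blockCoeff f := by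
      funext c
      exact subgroupBlockCoeff_mem _ f c
    rw [e1, om_blockCoeff_self hξ, sub_self]
    exact memLocalIdeal_zero
  obtain ⟨B₀, -, huniq⟩ := existsUnique_block hM hQf.1
  have e2 : B = overSet (Subgroup.centralizer (Q : Set G)).subtype f := (huniq B hQf).trans (huniq _ hpair).symm
  rw [e2, h.2]

/-- **The normal centric case.** -/
theorem normal_centric (hM : IsPModular p M) (hF : IsBlockFusionSystemOn p M B P e F) {Q : Subgroup G}
    {f : Set (IrrCharacter (Subgroup.centralizer (Q : Set G)))} (hQP : Q ≤ P) (hf : IsPBlock M f)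
    (hle : SubpairLE p M Q f P e) (hcen : F.IsCentric Q)
    (hG : ∀ x : G, x ∈ Subgroup.normalizer (Q : Set G) ∧ StabilizesBlock (Subgroup.centralizer (Q : Set G)) f x) :
    (∀ g : G, MemLocalIdeal M (blockCoeff B g - subgroupBlockCoeff (Subgroup.centralizer (Q : Set G)) f g)) ∧
      ∃ F' : Set (IrrCharacter ↥(Q ⊔ Subgroup.centralizer (Q : Set G))), IsPBlock M F' ∧
        (∀ t : ↥(Q ⊔ Subgroup.centralizer (Q : Set G)), blockCoeff F' t = subgroupBlockCoeff (Subgroup.centralizer (Q : Set G)) f (t : G)) ∧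
        IsNilpotentBlock p M F' := by
  classical
  haveI : Fact p.Prime := ⟨hM.1⟩
  have hmax := hF.1
  have hPe := hmax.1.1
  have hB := hmax.1.2.1
  have hQp : IsPGroup p Q := hPe.1.to_le hQP
  have hQf : IsBrauerPairOf p M B Q f := (pairOf_le_iff hM hB ⟨Q, f⟩ ⟨P, e⟩ hle).2 hmax.1
  refine ⟨fun g => ?_, ?_⟩
  · rw [block_of_normal_pair hM hQf hG g, sub_self]
    exact memLocalIdeal_zero
  let K : Subgroup G := Subgroup.centralizer (Q : Set G)
  let Y : Subgroup G := Q ⊔ K
  letI : Fintype K := Fintype.ofFinite _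
  letI : Fintype Y := Fintype.ofFinite _
  have hCY : K ≤ Y := le_sup_right
  have hQY : Q ≤ Y := le_sup_left
  obtain ⟨hE, hEc⟩ := mid_block hM hQp hf hCY hQY (fun y _ => (hG y).1) (fun y _ => (hG y).2)
  refine ⟨_, hE, hEc, ?_⟩
  let N₁ : Subgroup Y := K.subgroupOf Y
  haveI hN₁ : N₁.Normal := by
    constructor
    intro n hn t
    rw [Subgroup.mem_subgroupOf] at hn ⊢
    exact (Subgroup.mem_normalizer_iff.1 (cent_le_norm_cent Q (hG t).1) n).1 hn
  letI : Fintype N₁ := Fintype.ofFinite _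
  haveI hKn : K.Normal := Subgroup.normalizer_eq_top_iff.1 (by
    rw [Subgroup.eq_top_iff']
    exact fun x => cent_le_norm_cent Q (hG x).1)
  have hidx : ∃ k : ℕ, N₁.index = p ^ k := by
    have h1 : N₁.index = K.relIndex Y := rfl
    have h2 : K.relIndex Y = K.relIndex Q := Subgroup.relIndex_sup_right Q K
    have h3 : K.relIndex Q ∣ Nat.card Q := Subgroup.relIndex_dvd_card K Q
    obtain ⟨n, hn⟩ := IsPGroup.iff_card.1 hQp
    rw [hn] at h3
    obtain ⟨j, -, hj⟩ := (Nat.dvd_prime_pow hM.1).1 h3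
    exact ⟨j, by rw [h1, h2, hj]⟩
  let ρ : N₁ ≃* K := Subgroup.subgroupOfEquivOfLe hCY
  have hρ : ∀ a : N₁, ((ρ a : K) : G) = ((a : Y) : G) := fun a => rfl
  let c : Set (IrrCharacter N₁) := irrComp ρ '' f
  have hc : IsPBlock M c := isPBlock_image ρ hf
  have hcoef : ∀ g : Y, blockCoeff (overSet (Subgroup.inclusion hCY) f) g = subgroupBlockCoeff N₁ c g := by
    intro g
    rw [hEc]
    by_cases hg : g ∈ N₁
    · have hg' : (g : G) ∈ K := Subgroup.mem_subgroupOf.1 hg
      rw [subgroupBlockCoeff_mem N₁ c ⟨g, hg⟩, blockCoeff_comp ρ f ⟨g, hg⟩,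
        subgroupBlockCoeff_mem K f ⟨(g : G), hg'⟩]
      rfl
    · have hg' : (g : G) ∉ K := fun h => hg (Subgroup.mem_subgroupOf.2 h)
      rw [subgroupBlockCoeff_not_mem N₁ c hg, subgroupBlockCoeff_not_mem K f hg']
  have hdef := (centric_iff hM hF hQP hf hle).1 hcen
  have hD₁ := isDefectGroup_equiv ρ.symm hdef hM.1
  have hc' : irrComp ρ.symm.symm '' f = c := rfl
  rw [hc'] at hD₁
  have hnilc : IsNilpotentBlock p M c := by
    refine nil_of_central hM hc hD₁ ?_
    rintro _ ⟨z, hz, rfl⟩ x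
    apply Subtype.ext
    apply Subtype.ext
    have hz' : (z : G) ∈ Q := (Subgroup.mem_subgroupOf.1 hz).1
    have hx' : ((x : Y) : G) ∈ K := Subgroup.mem_subgroupOf.1 x.2
    exact (Subgroup.mem_centralizer_iff.1 hx' _ hz')
  exact nil_up hM hidx hc hE hcoef hnilc

end Main

end Cfsg.Agent.Lib.BlockCentric
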