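import Cfsg.Agent.Lib.BlockTrace

/-!
# Conjugation of Brauer pairs and conjugacy of maximal Brauer pairs
-/

set_option autoImplicit false
set_option linter.all false

namespace Cfsg.Agent.Lib.BlockConjP

open Cfsg Cfsg.Agent.Lib.BlockLocal Cfsg.Agent.Lib.BlockOsima Cfsg.Agent.Lib.BlockBr
  Cfsg.Agent.Lib.BlockApps Cfsg.Agent.Lib.CharIrr Cfsg.Agent.Lib.BlockPair Cfsg.Agent.Lib.BlockSub
  Cfsg.Agent.Lib.BlockMax Cfsg.Agent.Lib.BlockTrace
open scoped ComplexConjugate

universe u

section Transport

variable {G : Type u} [Group G] [Fintype G] {p : ℕ} {M : Ideal AlgInt} [hprime : M.IsPrime]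

/-- The centralizer equivalence attached to a conjugate subgroup. -/
abbrev conjCent (Q : Subgroup G) (x : G) :
    Subgroup.centralizer (Q : Set G) ≃* Subgroup.centralizer ((Q.map (MulAut.conj x).toMonoidHom : Subgroup G) : Set G) :=
  centEquiv Q (Q.map (MulAut.conj x).toMonoidHom) x (mem_map_conj_iff Q x)

/-- Conjugate blocks are images. -/
theorem conjBlock_eq (Q : Subgroup G) (x : G) (f : Set (IrrCharacter (Subgroup.centralizer (Q : Set G))))
    [Fintype (Subgroup.centralizer (Q : Set G))]
    [Fintype (Subgroup.centralizer ((Q.map (MulAut.conj x).toMonoidHom : Subgroup G) : Set G))] :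
    conjBlock Q x f = irrComp (conjCent Q x).symm '' f := by
  ext ξ'
  constructor
  · rintro ⟨ξ, hξ, h⟩
    refine ⟨ξ, hξ, ?_⟩
    apply Subtype.ext
    funext c'
    rw [irrComp_apply]
    symm
    apply h
    rw [centEquiv_symm_apply]
    group
  · rintro ⟨ξ, hξ, rfl⟩
    refine ⟨ξ, hξ, fun c c' hc => ?_⟩
    rw [irrComp_apply]
    have : (conjCent Q x).symm c' = c := by
      apply Subtype.ext
      rw [centEquiv_symm_apply, hc]
      group
    rw [this]

theorem isPBlock_conjBlock (Q : Subgroup G) (x : G) {f : Set (IrrCharacter (Subgroup.centralizer (Q : Set G)))}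
    (hf : IsPBlock M f) : IsPBlock M (conjBlock Q x f) := by
  classical
  letI : Fintype (Subgroup.centralizer (Q : Set G)) := Fintype.ofFinite _
  letI : Fintype (Subgroup.centralizer ((Q.map (MulAut.conj x).toMonoidHom : Subgroup G) : Set G)) := Fintype.ofFinite _
  rw [conjBlock_eq]
  exact isPBlock_image _ hf

theorem isBrauerPair_conj {Q : Subgroup G} (x : G) {f : Set (IrrCharacter (Subgroup.centralizer (Q : Set G)))}
    (h : IsBrauerPair p M Q f) : IsBrauerPair p M (Q.map (MulAut.conj x).toMonoidHom) (conjBlock Q x f) :=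
  ⟨isPGroup_map_conj h.1 x, isPBlock_conjBlock Q x h.2⟩

/-- Block idempotents of conjugate blocks, pointwise. -/
theorem subgroupBlockCoeff_conj (Q : Subgroup G) (x : G) (f : Set (IrrCharacter (Subgroup.centralizer (Q : Set G)))) (g : G) :
    subgroupBlockCoeff _ (conjBlock Q x f) (x * g * x⁻¹) = subgroupBlockCoeff _ f g := by
  classical
  letI : Fintype (Subgroup.centralizer (Q : Set G)) := Fintype.ofFinite _
  letI : Fintype (Subgroup.centralizer ((Q.map (MulAut.conj x).toMonoidHom : Subgroup G) : Set G)) := Fintype.ofFinite _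
  by_cases hg : g ∈ Subgroup.centralizer (Q : Set G)
  · have hg' := ((conjCent Q x) ⟨g, hg⟩).2
    rw [subgroupBlockCoeff_mem _ f ⟨g, hg⟩]
    rw [show x * g * x⁻¹ = (((conjCent Q x) ⟨g, hg⟩ : Subgroup.centralizer _) : G) from rfl]
    rw [subgroupBlockCoeff_mem, conjBlock_eq, blockCoeff_comp, MulEquiv.symm_apply_apply]
  · rw [subgroupBlockCoeff_not_mem _ f hg, subgroupBlockCoeff_not_mem]
    intro h
    apply hg
    have := ((conjCent Q x).symm ⟨_, h⟩).2
    rw [centEquiv_symm_apply] at this
    simpa [mul_assoc] using this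

/-- Transport of `brauerOmega`. -/
theorem brauerOmega_transport {A B : Subgroup G} [Fintype (Subgroup.centralizer (A : Set G))]
    [Fintype (Subgroup.centralizer (B : Set G))] (y : G) (h : ∀ a, a ∈ A ↔ y * a * y⁻¹ ∈ B)
    {β β' : G → ℂ} (hβ : ∀ g, β' (y * g * y⁻¹) = β g)
    (ξ : IrrCharacter (Subgroup.centralizer (A : Set G))) :
    brauerOmega B β' (irrComp (centEquiv A B y h).symm ξ : Subgroup.centralizer (B : Set G) → ℂ) =
      brauerOmega A β (ξ : Subgroup.centralizer (A : Set G) → ℂ) := by
  classical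
  rw [brauerOmega_eq, brauerOmega_eq]
  have := om_comp (centEquiv A B y h) (irrComp (centEquiv A B y h).symm ξ : Subgroup.centralizer (B : Set G) → ℂ)
    (β' ∘ (Subgroup.centralizer (B : Set G)).subtype)
  unfold omI
  rw [← this]
  congr 1
  · funext c
    simp [irrComp_apply]
  · funext c
    simp only [Function.comp_apply, Subgroup.coe_subtype, centEquiv_apply, hβ]

/-- Transport of Brauer pairs of a block. -/
theorem isBrauerPairOf_conj {B : Set (IrrCharacter G)} {Q : Subgroup G}
    {f : Set (IrrCharacter (Subgroup.centralizer (Q : Set G)))} (h : IsBrauerPairOf p M B Q f) (x : G) :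
    IsBrauerPairOf p M B (Q.map (MulAut.conj x).toMonoidHom) (conjBlock Q x f) := by
  classical
  letI : Fintype (Subgroup.centralizer (Q : Set G)) := Fintype.ofFinite _
  letI : Fintype (Subgroup.centralizer ((Q.map (MulAut.conj x).toMonoidHom : Subgroup G) : Set G)) := Fintype.ofFinite _
  refine ⟨isBrauerPair_conj x h.1, h.2.1, ?_⟩
  intro ξ' hξ'
  rw [conjBlock_eq] at hξ'
  obtain ⟨ξ, hξ, rfl⟩ := hξ'
  rw [brauerOmega_transport x (mem_map_conj_iff Q x) (β := blockCoeff B) (fun g => ?_) ξ]
  · exact h.2.2 ξ hξ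
  · exact blockCoeff_isClass B g x

/-- Transport of normal inclusions. -/
theorem isNormalSubpair_conj {Q P : Subgroup G} {f : Set (IrrCharacter (Subgroup.centralizer (Q : Set G)))}
    {e : Set (IrrCharacter (Subgroup.centralizer (P : Set G)))} (h : IsNormalSubpair p M Q f P e) (x : G) :
    IsNormalSubpair p M (Q.map (MulAut.conj x).toMonoidHom) (conjBlock Q x f)
      (P.map (MulAut.conj x).toMonoidHom) (conjBlock P x e) := by
  classical
  letI : Fintype (Subgroup.centralizer (Q : Set G)) := Fintype.ofFinite _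
  letI : Fintype (Subgroup.centralizer ((Q.map (MulAut.conj x).toMonoidHom : Subgroup G) : Set G)) := Fintype.ofFinite _
  letI : Fintype (Subgroup.centralizer (P : Set G)) := Fintype.ofFinite _
  letI : Fintype (Subgroup.centralizer ((P.map (MulAut.conj x).toMonoidHom : Subgroup G) : Set G)) := Fintype.ofFinite _
  obtain ⟨h1, h2, h3, h4, h5, h6⟩ := h
  have hN : P.map (MulAut.conj x).toMonoidHom ≤ Subgroup.normalizer ((Q.map (MulAut.conj x).toMonoidHom : Subgroup G) : Set G) := by
    rintro _ ⟨a, ha, rfl⟩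
    rw [Subgroup.mem_normalizer_iff]
    intro z
    change z ∈ Q.map (MulAut.conj x).toMonoidHom ↔ (x * a * x⁻¹) * z * (x * a * x⁻¹)⁻¹ ∈ Q.map (MulAut.conj x).toMonoidHom
    have hz : ∀ z, z ∈ Q.map (MulAut.conj x).toMonoidHom ↔ x⁻¹ * z * x ∈ Q := by
      intro z
      rw [mem_map_conj_iff Q x (x⁻¹ * z * x)]
      have : x * (x⁻¹ * z * x) * x⁻¹ = z := by group
      rw [this]
    rw [hz, hz]
    rw [show (x⁻¹ * z * x ∈ Q) ↔ _ from (Subgroup.mem_normalizer_iff.1 (h4 ha) (x⁻¹ * z * x))]
    have : x⁻¹ * (x * a * x⁻¹ * z * (x * a * x⁻¹)⁻¹) * x = a * (x⁻¹ * z * x) * a⁻¹ := by group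
    rw [this]
  refine ⟨isBrauerPair_conj x h1, isBrauerPair_conj x h2, Subgroup.map_mono h3, hN, ?_, ?_⟩
  · rintro _ ⟨a, ha, rfl⟩
    refine ⟨normalizes_centralizer hN ⟨a, ha, rfl⟩, ?_⟩
    intro ξ' hξ'
    rw [conjBlock_eq] at hξ'
    obtain ⟨ξ, hξ, rfl⟩ := hξ'
    obtain ⟨ξ₂, hξ₂, hc⟩ := (h5 a ha).2 ξ hξ
    refine ⟨irrComp (conjCent Q x).symm ξ₂, by rw [conjBlock_eq]; exact ⟨ξ₂, hξ₂, rfl⟩, ?_⟩
    intro k k' hk
    rw [irrComp_apply, irrComp_apply]
    apply hc
    rw [centEquiv_symm_apply, centEquiv_symm_apply, hk]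
    simp only [MulEquiv.toMonoidHom_eq_coe, MonoidHom.coe_coe, MulAut.conj_apply]
    group
  · intro ξ' hξ'
    rw [conjBlock_eq] at hξ'
    obtain ⟨ξ, hξ, rfl⟩ := hξ'
    rw [brauerOmega_transport x (mem_map_conj_iff P x) (β := subgroupBlockCoeff _ f) (subgroupBlockCoeff_conj Q x f) ξ]
    exact h6 ξ hξ

/-- Transport of inclusions. -/
theorem subpairLE_conj {Q P : Subgroup G} {f : Set (IrrCharacter (Subgroup.centralizer (Q : Set G)))}
    {e : Set (IrrCharacter (Subgroup.centralizer (P : Set G)))} (h : SubpairLE p M Q f P e) (x : G) :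
    SubpairLE p M (Q.map (MulAut.conj x).toMonoidHom) (conjBlock Q x f)
      (P.map (MulAut.conj x).toMonoidHom) (conjBlock P x e) := by
  let φ : BrauerPairIdx G → BrauerPairIdx G := fun a => ⟨a.1.map (MulAut.conj x).toMonoidHom, conjBlock a.1 x a.2⟩
  have := Relation.ReflTransGen.lift (r := NormalSubpairRel p M) (p := NormalSubpairRel p M) φ (fun a b hab => isNormalSubpair_conj hab x) _ _ h
  exact this

/-- Every Brauer pair of a block lies under a maximal one. -/
theorem exists_maximal_above (hM : IsPModular p M) {B : Set (IrrCharacter G)} :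
    ∀ (Q : Subgroup G) (f : Set (IrrCharacter (Subgroup.centralizer (Q : Set G)))), IsBrauerPairOf p M B Q f →
      ∃ (R : Subgroup G) (g : Set (IrrCharacter (Subgroup.centralizer (R : Set G)))),
        IsMaximalBrauerPair p M B R g ∧ SubpairLE p M Q f R g := by
  intro Q
  induction Q using WellFoundedGT.induction with
  | ind Q ih =>
    intro f hf
    by_cases hm : IsMaximalBrauerPair p M B Q f
    · exact ⟨Q, f, hm, Relation.ReflTransGen.refl⟩
    · have : ∃ (R : Subgroup G) (g : Set (IrrCharacter (Subgroup.centralizer (R : Set G)))),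
          IsBrauerPairOf p M B R g ∧ SubpairLE p M Q f R g ∧ R ≠ Q := by
        by_contra hcon
        push_neg at hcon
        exact hm ⟨hf, fun R g h1 h2 => hcon R g h1 h2⟩
      obtain ⟨R, g, h1, h2, h3⟩ := this
      have hlt : Q < R := lt_of_le_of_ne (SubpairLE.le h2) (Ne.symm h3)
      obtain ⟨R', g', h4, h5⟩ := ih R hlt g h1
      exact ⟨R', g', h4, Relation.ReflTransGen.trans h2 h5⟩

/-- Under the defect hypothesis, a pair with the same order whose truncated trace is one is conjugate
to the given pair. -/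
theorem trace_pair (hM : IsPModular p M) {P : Subgroup G}
    {e : Set (IrrCharacter (Subgroup.centralizer (P : Set G)))} (hPe : IsBrauerPair p M P e)
    {T : Subgroup G} (hT : IsStab P e T)
    (hD : DefHyp p M P T (subgroupBlockCoeff (Subgroup.centralizer (P : Set G)) e))
    {R : Subgroup G} (hR : IsPGroup p R) (hcard : Nat.card P ≤ Nat.card R)
    [Fintype (Subgroup.centralizer (P : Set G))] [Fintype (Subgroup.centralizer (R : Set G))]
    (ξ₁ : IrrCharacter (Subgroup.centralizer (R : Set G)))
    (h : Cong M (omI (Subgroup.centralizer (R : Set G)).subtype (ξ₁ : Subgroup.centralizer (R : Set G) → ℂ)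
      (relTrace T (cut M (subgroupBlockCoeff (Subgroup.centralizer (P : Set G)) e)))) 1) :
    ∃ y : G, R.map (MulAut.conj y).toMonoidHom = P ∧ ∃ ξ' ∈ e,
      ∀ (c : Subgroup.centralizer (R : Set G)) (c' : Subgroup.centralizer (P : Set G)),
        (c' : G) = y * c * y⁻¹ → (ξ' : Subgroup.centralizer (P : Set G) → ℂ) c' = (ξ₁ : Subgroup.centralizer (R : Set G) → ℂ) c := by
  classical
  letI : Fintype (G ⧸ T) := Fintype.ofFinite _
  obtain ⟨hPp, he⟩ := hPe
  set β := subgroupBlockCoeff (Subgroup.centralizer (P : Set G)) e with hβ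
  have hβinv : TInv T β := fun t ht g => subgroupBlockCoeff_stable _ he (hT.stab ht) g
  have hβl : ∀ g, MemLocalRing M (β g) := subgroupBlockCoeff_local _ he
  set Z := cut M β with hZdef
  have hZ : TInv T Z := cut_inv hβinv
  have hZl : ∀ g, MemLocalRing M (Z g) := cut_local hβl
  let Hq : G ⧸ T → Prop := fun q => R.map (MulAut.conj (Quotient.out q)⁻¹).toMonoidHom = P
  let V : G ⧸ T → Subgroup.centralizer (R : Set G) → ℂ := fun q c =>
    if Hq q then Z ((Quotient.out q)⁻¹ * c * Quotient.out q) else 0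
  let v : Subgroup.centralizer (R : Set G) → ℂ := fun c => ∑ q : G ⧸ T, V q c
  have h1 : ∀ c : Subgroup.centralizer (R : Set G), Cong M (relTrace T Z c) (v c) := by
    intro c
    have h0 := relTrace_cong_fixed hM hZ hZl hR (g := c) (fun r hr => Subgroup.mem_centralizer_iff.1 c.2 r hr)
    refine Cong.trans h0 ?_
    have hterm : ∀ q : G ⧸ T, (if (∀ r : R, (r : G) • q = q) then trm T Z c q else 0) = V q c := by
      intro q
      by_cases hq : Hq q
      · have hfix : ∀ r : R, (r : G) • q = q := by
          rw [fixed_iff_mem]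
          intro r hr
          apply hT.self_le
          have : (Quotient.out q)⁻¹ * r * (Quotient.out q)⁻¹⁻¹ ∈ P := by
            rw [← show R.map (MulAut.conj (Quotient.out q)⁻¹).toMonoidHom = P from hq]
            exact (mem_map_conj_iff R _ r).1 hr
          simpa using this
        simp only [V, if_pos hfix, if_pos hq, trm_out]
      · simp only [V, if_neg hq]
        split_ifs with hfix
        · by_contra hne
          have hne' : Z ((Quotient.out q)⁻¹ * c * Quotient.out q) ≠ 0 := hne
          have hy := cut_ne_zero hne'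
          have hfix' := (fixed_iff_mem R q).1 hfix
          have hle := hD _ hy (R.map (MulAut.conj (Quotient.out q)⁻¹).toMonoidHom)
            (by
              rintro _ ⟨r, hr, rfl⟩
              have := hfix' r hr
              simpa using this)
            (isPGroup_map_conj hR _)
            (by
              rintro _ ⟨r, hr, rfl⟩
              have hc := Subgroup.mem_centralizer_iff.1 c.2 r hr
              simp only [MulEquiv.toMonoidHom_eq_coe, MonoidHom.coe_coe, MulAut.conj_apply, inv_inv]
              have e1 : (Quotient.out q)⁻¹ * r * (Quotient.out q) * ((Quotient.out q)⁻¹ * c * (Quotient.out q)) = (Quotient.out q)⁻¹ * (r * c) * (Quotient.out q) := by group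
              have e2 : (Quotient.out q)⁻¹ * c * (Quotient.out q) * ((Quotient.out q)⁻¹ * r * (Quotient.out q)) = (Quotient.out q)⁻¹ * (c * r) * (Quotient.out q) := by group
              rw [e1, e2, hc])
          apply hq
          refine Subgroup.eq_of_le_of_card_ge hle ?_
          rw [Subgroup.card_map_of_injective (MulAut.conj (Quotient.out q)⁻¹).injective]
          exact hcard
        · rfl
    rw [Finset.sum_congr rfl fun q _ => hterm q]
    exact Cong.refl _
  have hconjP : ∀ q, Hq q → ∀ a, a ∈ R ↔ (Quotient.out q)⁻¹ * a * (Quotient.out q)⁻¹⁻¹ ∈ P := by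
    intro q hq a
    rw [← show R.map (MulAut.conj (Quotient.out q)⁻¹).toMonoidHom = P from hq]
    exact mem_map_conj_iff R _ a
  have hVclass : ∀ q, IsClassFunction (Subgroup.centralizer (R : Set G)) (V q) := by
    intro q c d
    simp only [V]
    split_ifs with hq
    · have hd : (Quotient.out q)⁻¹ * d * Quotient.out q ∈ Subgroup.centralizer (P : Set G) := by
        have := (centEquiv R P _ (hconjP q hq) d).2
        simpa using this
      have := hZ _ (hT.cent_le hd) ((Quotient.out q)⁻¹ * c * Quotient.out q)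
      rw [← this]
      congr 1
      simp only [Subgroup.coe_mul, Subgroup.coe_inv]
      group
    · rfl
  have hvclass : IsClassFunction (Subgroup.centralizer (R : Set G)) v := by
    intro c d
    exact Finset.sum_congr rfl fun q _ => hVclass q c d
  have huclass : IsClassFunction (Subgroup.centralizer (R : Set G)) (relTrace T Z ∘ (Subgroup.centralizer (R : Set G)).subtype) :=
    comp_isClass _ (relTrace_isClass hZ)
  have h2 : Cong M (omI (Subgroup.centralizer (R : Set G)).subtype (ξ₁ : Subgroup.centralizer (R : Set G) → ℂ) (relTrace T Z))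
      (om (ξ₁ : Subgroup.centralizer (R : Set G) → ℂ) v) :=
    om_congr' ξ₁.2 huclass hvclass h1
  have h3 : om (ξ₁ : Subgroup.centralizer (R : Set G) → ℂ) v = ∑ q : G ⧸ T, om (ξ₁ : Subgroup.centralizer (R : Set G) → ℂ) (V q) := om_sum' _ _ _
  have h4 : ∃ q : G ⧸ T, ¬ MemLocalIdeal M (om (ξ₁ : Subgroup.centralizer (R : Set G) → ℂ) (V q)) := by
    by_contra hcon
    push_neg at hcon
    have h5 : MemLocalIdeal M (om (ξ₁ : Subgroup.centralizer (R : Set G) → ℂ) v) := by
      rw [h3]
      exact MemLocalIdeal_sum _ _ fun q _ => hcon q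
    have h6 := Cong.trans (Cong.symm h2) h
    exact not_mem_of_cong_one h6 h5
  obtain ⟨q, hq⟩ := h4
  have hHq : Hq q := by
    by_contra hn
    apply hq
    have hVq : V q = fun _ => 0 := by
      funext c
      simp only [V, if_neg hn]
    rw [hVq]
    have : om (ξ₁ : Subgroup.centralizer (R : Set G) → ℂ) (fun _ => (0 : ℂ)) = 0 := by
      unfold om
      simp
    rw [this]
    exact memLocalIdeal_zero
  refine ⟨(Quotient.out q)⁻¹, hHq, ?_⟩
  have hVq : V q = fun c : Subgroup.centralizer (R : Set G) =>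
      cut M (subgroupBlockCoeff (Subgroup.centralizer (P : Set G)) e) ((Quotient.out q)⁻¹ * c * (Quotient.out q)⁻¹⁻¹) := by
    funext c
    simp only [V, if_pos hHq, inv_inv, hZdef, hβ]
  rw [hVq] at hq
  have h5 := om_conj_cut (R := R) hM he hT (Quotient.out q)⁻¹ (hconjP q hHq) ξ₁
  refine ⟨irrComp (centEquiv R P (Quotient.out q)⁻¹ (hconjP q hHq)).symm ξ₁, ?_, ?_⟩
  · apply mem_of_not_mem_ideal (M := M)
    intro hm
    apply hq
    exact mem_of_cong_of_mem h5 hm
  · intro c c' hc
    rw [irrComp_apply]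
    have : (centEquiv R P (Quotient.out q)⁻¹ (hconjP q hHq)).symm c' = c := by
      apply Subtype.ext
      rw [centEquiv_symm_apply, hc]
      group
    rw [this]

/-- A block meeting a conjugate block at a member is the conjugate block. -/
theorem eq_conjBlock {R : Subgroup G} {y : G} {g : Set (IrrCharacter (Subgroup.centralizer (R : Set G)))}
    (hg : IsPBlock M g) {e : Set (IrrCharacter (Subgroup.centralizer ((R.map (MulAut.conj y).toMonoidHom : Subgroup G) : Set G)))}
    (he : IsPBlock M e) {ξ₁ : IrrCharacter (Subgroup.centralizer (R : Set G))} (hξ₁ : ξ₁ ∈ g)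
    {ξ' : IrrCharacter (Subgroup.centralizer ((R.map (MulAut.conj y).toMonoidHom : Subgroup G) : Set G))} (hξ' : ξ' ∈ e)
    (h : ∀ (c : Subgroup.centralizer (R : Set G)) (c' : Subgroup.centralizer ((R.map (MulAut.conj y).toMonoidHom : Subgroup G) : Set G)),
        (c' : G) = y * c * y⁻¹ → (ξ' : _ → ℂ) c' = (ξ₁ : _ → ℂ) c) :
    e = conjBlock R y g := by
  classical
  letI : Fintype (Subgroup.centralizer (R : Set G)) := Fintype.ofFinite _
  letI : Fintype (Subgroup.centralizer ((R.map (MulAut.conj y).toMonoidHom : Subgroup G) : Set G)) := Fintype.ofFinite _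
  exact block_eq_of_mem he (isPBlock_conjBlock R y hg) hξ' ⟨ξ₁, hξ₁, h⟩

/-- **All Brauer pairs of a block are conjugate into a maximal pair.** -/
theorem exists_conj_le_maximal (hM : IsPModular p M) {B : Set (IrrCharacter G)} {P Q : Subgroup G}
    {e : Set (IrrCharacter (Subgroup.centralizer (P : Set G)))}
    {f : Set (IrrCharacter (Subgroup.centralizer (Q : Set G)))}
    (hmax : IsMaximalBrauerPair p M B P e) (hQf : IsBrauerPairOf p M B Q f) :
    ∃ x : G, SubpairLE p M (Q.map (MulAut.conj x).toMonoidHom) (conjBlock Q x f) P e := by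
  classical
  haveI : Fact p.Prime := ⟨hM.1⟩
  letI : Fintype (Subgroup.centralizer (P : Set G)) := Fintype.ofFinite _
  obtain ⟨R, g, hRmax, hQR⟩ := exists_maximal_above hM Q f hQf
  letI : Fintype (Subgroup.centralizer (R : Set G)) := Fintype.ofFinite _
  have hBP := hmax.1
  have hBR := hRmax.1
  obtain ⟨hPe, hB, -⟩ := id hBP
  have hDP := maximal_isDefect hM hmax
  have hDR := maximal_isDefect hM hRmax
  have hcard : Nat.card P ≤ Nat.card R := by
    rw [Cfsg.Agent.Lib.CharBlockMinMax.card_defectGroup hM hB hDP, Cfsg.Agent.Lib.CharBlockMinMax.card_defectGroup hM hB hDR]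
  obtain ⟨T, hT⟩ := exists_isStab P hPe.2
  have hD := maximal_defHyp hM hmax hT
  obtain ⟨ξ₀, rfl⟩ := id hBR.1.2
  have hξ₀ := mem_block_self (M := M) ξ₀
  obtain ⟨ψ, hψ1, hψ2⟩ := pair_char hM hBR.1 hξ₀
  have hψB : ψ ∈ B := (hψ2 B hB).1 hBR
  have hLC := trace_isLC (M := M) (T := T) (β := subgroupBlockCoeff (Subgroup.centralizer (P : Set G)) e)
    (fun t ht g => subgroupBlockCoeff_stable _ hPe.2 (hT.stab ht) g) (subgroupBlockCoeff_local _ hPe.2)
  have h1 := trace_char hM hBP hT hD hψB
  have h2 := Cong.trans (hψ1 _ hLC) h1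
  obtain ⟨y, hy, ξ', hξ', hrel⟩ := trace_pair hM hPe hT hD hBR.1.1 hcard ξ₀ h2
  subst hy
  have heq := eq_conjBlock hBR.1.2 hPe.2 hξ₀ hξ' hrel
  refine ⟨y, ?_⟩
  have := subpairLE_conj hQR y
  rw [← heq] at this
  exact this

end Transport

end Cfsg.Agent.Lib.BlockConjP
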