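import Cfsg.Agent.Lib.BlockAb

/-!
# Blocks over normal subgroups containing all `p`-regular elements
-/

set_option autoImplicit false
set_option linter.all false

namespace Cfsg.Agent.Lib.BlockCover

open Cfsg Cfsg.Agent.Lib.BlockLocal Cfsg.Agent.Lib.BlockOsima Cfsg.Agent.Lib.BlockBr Cfsg.Agent.Lib.BlockOrth
  Cfsg.Agent.Lib.BlockApps Cfsg.Agent.Lib.CharIrr Cfsg.Agent.Lib.BlockPair Cfsg.Agent.Lib.BlockSub
  Cfsg.Agent.Lib.BlockMax Cfsg.Agent.Lib.BlockTrace Cfsg.Agent.Lib.BlockConjP Cfsg.Agent.Lib.BlockFull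
  Cfsg.Agent.Lib.BlockFus Cfsg.Agent.Lib.BlockFus2 Cfsg.Agent.Lib.BlockSat Cfsg.Agent.Lib.BlockTrans
  Cfsg.Agent.Lib.BlockRecep Cfsg.Agent.Lib.BlockFrob Cfsg.Agent.Lib.BlockAb
open scoped ComplexConjugate

universe u

section Cover

variable {X H : Type u} [Group X] [Fintype X] [Group H] [Fintype H] {p : ℕ} {M : Ideal AlgInt}
  [hprime : M.IsPrime]

/-- Block coefficients vanish off a subgroup containing all `p`-regular elements. -/
theorem blockCoeff_off (hM : IsPModular p M) (ι : H →* X) (hreg : ∀ x : X, ¬ p ∣ orderOf x → x ∈ ι.range)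
    {A : Set (IrrCharacter X)} (hA : IsPBlock M A) {x : X} (hx : x ∉ ι.range) : blockCoeff A x = 0 :=
  blockCoeff_eq_zero_of_dvd hM (blockCoeff_isLC hA).2 (by_contra fun h => hx (hreg x h))

/-- **Unique covering.** -/
theorem cover_sameBlock (hM : IsPModular p M) (ι : H →* X) (hι : Function.Injective ι) (hn : ι.range.Normal)
    (hreg : ∀ x : X, ¬ p ∣ orderOf x → x ∈ ι.range) {χ χ' : IrrCharacter X} {ξ ξ' : IrrCharacter H}
    (hc : classInner (fun h => (χ : X → ℂ) (ι h)) (ξ : H → ℂ) ≠ 0)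
    (hc' : classInner (fun h => (χ' : X → ℂ) (ι h)) (ξ' : H → ℂ) ≠ 0)
    (hs : SameBlock M (ξ : H → ℂ) (ξ' : H → ℂ)) : SameBlock M (χ : X → ℂ) (χ' : X → ℂ) := by
  classical
  have hA : IsPBlock M (blockOf M (χ : X → ℂ)) := ⟨χ, rfl⟩
  have hLC := blockCoeff_isLC hA
  have h0 : ∀ x, x ∉ ι.range → blockCoeff (blockOf M (χ : X → ℂ)) x = 0 := fun x hx => blockCoeff_off hM ι hreg hA hx
  have h1 := om_eq_of_constituent ι hι hn hc hLC.1 h0
  have h2 := om_eq_of_constituent ι hι hn hc' hLC.1 h0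
  have hLC' := comp_isLC (M := M) ι hLC
  have h3 := om_sameBlock (M := M) ξ.2 ξ'.2 hLC'.1 hLC'.2 hs
  rw [← h1, ← h2, om_blockCoeff_self (mem_block_self (M := M) χ)] at h3
  by_contra hne
  have hnot : χ' ∉ blockOf M (χ : X → ℂ) := hne
  rw [om_blockCoeff_not hnot, sub_zero] at h3
  exact one_not_memLocalIdeal (M := M) h3

/-- **The covering block of a stable block.** -/
theorem over_block (hM : IsPModular p M) (ι : H →* X) (hι : Function.Injective ι) (hnr : ι.range.Normal)
    (hreg : ∀ x : X, ¬ p ∣ orderOf x → x ∈ ι.range)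
    {e : Set (IrrCharacter H)} (he : IsPBlock M e) {y : X → ℂ} (hyc : IsClassFunction X y)
    (hy0 : ∀ x, x ∉ ι.range → y x = 0) (hy1 : ∀ c, y (ι c) = blockCoeff e c) :
    IsPBlock M (overSet ι e) ∧ blockCoeff (overSet ι e) = y := by
  classical
  have hom := om_cover ι hι hnr hyc hy0 hy1
  have hyloc : ∀ x, MemLocalRing M (y x) := by
    intro x
    by_cases hx : x ∈ ι.range
    · obtain ⟨c, rfl⟩ := hx
      rw [hy1]
      exact (blockCoeff_isLC he).2 c
    · rw [hy0 x hx]
      exact memLocalRing_zero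
  refine ⟨?_, ?_⟩
  · obtain ⟨ξ₀, rfl⟩ := id he
    have hξ₀ := mem_block_self (M := M) ξ₀
    obtain ⟨χ₀, hχ₀⟩ := exists_irr_over ι hι ξ₀
    refine ⟨χ₀, ?_⟩
    ext χ
    constructor
    · rintro ⟨ξ₁, hξ₁, hc⟩
      exact cover_sameBlock hM ι hι hnr hreg hχ₀ hc hξ₁
    · intro hs
      have h1 := om_sameBlock (M := M) χ₀.2 χ.2 hyc hyloc hs
      have hχ₀m : χ₀ ∈ overSet ι (blockOf M (ξ₀ : H → ℂ)) := ⟨ξ₀, hξ₀, hχ₀⟩
      rw [hom χ₀, if_pos hχ₀m, hom χ] at h1
      by_contra hn'
      rw [if_neg hn'] at h1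
      have h2 : MemLocalIdeal M (1 : ℂ) := by simpa using h1
      exact one_not_memLocalIdeal (M := M) h2
  · apply class_eq_of_om (blockCoeff_isClass _) hyc
    intro χ
    rw [om_blockCoeff, hom χ]

/-- **Central characters over a normal subgroup**: the `X`-class of `ι g₁` splits into `t` classes of `H`. -/
theorem central_cong (hM : IsPModular p M) (ι : H →* X) (hι : Function.Injective ι) (hn : ι.range.Normal)
    {σ : X → (H ≃* H)} (hσ : ∀ a c, ι (σ a c) = a * ι c * a⁻¹)
    {f : Set (IrrCharacter H)} (hf : IsPBlock M f) (hst : ∀ a, ∀ ξ ∈ f, irrComp (σ a) ξ ∈ f)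
    {χ : IrrCharacter X} {ξ : IrrCharacter H}
    (hc : classInner (fun h => (χ : X → ℂ) (ι h)) (ξ : H → ℂ) ≠ 0) (hξ : ξ ∈ f) (g₁ : H) :
    MemLocalIdeal M (centralChar (χ : X → ℂ) (ι g₁) -
      ((Subgroup.centralizer ({ι g₁} : Set X) ⊔ ι.range).index : ℂ) * centralChar (ξ : H → ℂ) g₁) := by
  classical
  set W := Subgroup.centralizer ({ι g₁} : Set X) ⊔ ι.range with hW
  letI : Fintype (X ⧸ W) := Fintype.ofFinite _
  let Z : X → ℂ := fun x => if InL ι g₁ x then 1 else 0
  let z : X → ℂ := fun x => if IsConj x (ι g₁) then 1 else 0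
  have hZinv : TInv W Z := by
    intro w hw x
    simp only [Z]
    have : InL ι g₁ (w * x * w⁻¹) ↔ InL ι g₁ x := by
      constructor
      · intro h
        have := inL_conj ι hn hι hσ (W.inv_mem hw) h
        have e : w⁻¹ * (w * x * w⁻¹) * w⁻¹⁻¹ = x := by group
        rwa [e] at this
      · exact inL_conj ι hn hι hσ hw
    simp only [this]
  have hZinL : ∀ c : H, InL ι g₁ (ι c) ↔ IsConj c g₁ := by
    intro c
    constructor
    · rintro ⟨h, hh⟩
      have : c = h * g₁ * h⁻¹ := hι hh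
      rw [this]
      exact (isConj_iff.2 ⟨h, rfl⟩).symm
    · intro hcj
      obtain ⟨h, rfl⟩ := isConj_iff.1 hcj.symm
      exact ⟨h, rfl⟩
  have hzW : z = relTrace W Z := by
    funext x
    by_cases hx : IsConj x (ι g₁)
    · simp only [z, if_pos hx]
      obtain ⟨a, ha⟩ := isConj_iff.1 hx.symm
      have hterm : ∀ q : X ⧸ W, trm W Z x q = if q = (a : X ⧸ W) then 1 else 0 := by
        intro q
        rw [trm_out]
        by_cases hq : q = (a : X ⧸ W)
        · rw [if_pos hq]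
          subst hq
          have h2 : a⁻¹ * Quotient.out (a : X ⧸ W) ∈ W := by
            apply QuotientGroup.eq.1
            rw [QuotientGroup.out_eq']
          simp only [Z]
          rw [if_pos]
          obtain ⟨c, hc, k, hk, hck⟩ := Subgroup.mem_sup_of_normal_right.1 h2
          obtain ⟨k₀, rfl⟩ := hk
          rw [Subgroup.mem_centralizer_singleton_iff] at hc
          refine ⟨k₀⁻¹, ?_⟩
          have e : Quotient.out (a : X ⧸ W) = a * (c * ι k₀) := by
            rw [hck]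
            group
          rw [e, ← ha]
          simp only [map_mul, map_inv, inv_inv]
          have e2 : (a * (c * ι k₀))⁻¹ * (a * ι g₁ * a⁻¹) * (a * (c * ι k₀)) = (ι k₀)⁻¹ * (c⁻¹ * ι g₁ * c) * ι k₀ := by group
          rw [e2]
          have e3 : c⁻¹ * ι g₁ * c = ι g₁ := by
            rw [mul_assoc, ← hc]
            group
          rw [e3]
        · rw [if_neg hq]
          simp only [Z]
          rw [if_neg]
          intro hin
          apply hq
          have e1 : ((Quotient.out q : X) : X ⧸ W) = q := QuotientGroup.out_eq' q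
          rw [← e1]
          apply Eq.symm
          apply QuotientGroup.eq.2
          apply mem_sup_of_inL
          rw [← ha] at hin
          have e2 : (a⁻¹ * Quotient.out q)⁻¹ * ι g₁ * (a⁻¹ * Quotient.out q) = (Quotient.out q)⁻¹ * (a * ι g₁ * a⁻¹) * Quotient.out q := by group
          rw [e2]
          exact hin
      show (1 : ℂ) = ∑ q : X ⧸ W, trm W Z x q
      rw [Finset.sum_congr rfl fun q _ => hterm q, Finset.sum_ite_eq' Finset.univ (a : X ⧸ W)]
      simp
    · simp only [z, if_neg hx]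
      symm
      refine Finset.sum_eq_zero fun q _ => ?_
      rw [trm_out]
      simp only [Z]
      rw [if_neg]
      rintro ⟨h, hh⟩
      apply hx
      have : x = (Quotient.out q * ι h) * ι g₁ * (Quotient.out q * ι h)⁻¹ := by
        simp only [map_mul, map_inv] at hh
        have h3 : x = Quotient.out q * ((Quotient.out q)⁻¹ * x * Quotient.out q) * (Quotient.out q)⁻¹ := by group
        rw [h3, hh]
        group
      rw [this]
      exact (isConj_iff.2 ⟨_, rfl⟩).symm
  have hzc : IsClassFunction X z := Cfsg.Agent.Lib.CharInt.indicator_isClassFunction (ι g₁)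
  have hzsupp : ∀ x, x ∉ ι.range → z x = 0 := by
    intro x hx
    simp only [z]
    rw [if_neg]
    intro hcj
    apply hx
    obtain ⟨a, ha⟩ := isConj_iff.1 hcj.symm
    rw [← ha]
    exact hn.conj_mem _ ⟨g₁, rfl⟩ a
  have h1 : centralChar (χ : X → ℂ) (ι g₁) = om (χ : X → ℂ) z := (om_indicator χ.2 (ι g₁)).symm
  rw [h1, om_eq_of_constituent ι hι hn hc hzc hzsupp]
  have h2 : z ∘ ι = fun c : H => ∑ q : X ⧸ W, Z ((Quotient.out q)⁻¹ * ι c * Quotient.out q) := by
    funext c
    simp only [Function.comp_apply]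
    rw [hzW]
    rfl
  rw [h2, om_sum']
  have hZι : ∀ q : X ⧸ W, Cong M (om (ξ : H → ℂ) (fun c => Z ((Quotient.out q)⁻¹ * ι c * Quotient.out q))) (centralChar (ξ : H → ℂ) g₁) := by
    intro q
    set x := Quotient.out q with hx
    have hσinv : ∀ c, σ x (σ x⁻¹ c) = c := by
      intro c
      apply hι
      rw [hσ, hσ]
      group
    have hterm : (fun c => Z (x⁻¹ * ι c * x)) = fun c => (fun d : H => if IsConj d g₁ then (1 : ℂ) else 0) (σ x⁻¹ c) := by
      funext c
      simp only [Z]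
      have e1 : x⁻¹ * ι c * x = ι (σ x⁻¹ c) := by
        rw [hσ]
        group
      rw [e1]
      simp only [hZinL]
    rw [hterm]
    have h3 := om_comp (σ x⁻¹) (irrComp (σ x) ξ : H → ℂ) (fun d : H => if IsConj d g₁ then (1 : ℂ) else 0)
    have h4 : (fun a => (irrComp (σ x) ξ : H → ℂ) (σ x⁻¹ a)) = (ξ : H → ℂ) := by
      funext a
      rw [irrComp_apply, hσinv]
    rw [h4] at h3
    rw [h3, om_indicator (irrComp (σ x) ξ).2 g₁]
    exact sameBlock_of_mem_block hf (hst x ξ hξ) hξ g₁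
  have h3 := Cong.sum (M := M) Finset.univ _ _ (fun q _ => hZι q)
  have h4 : ∑ q : X ⧸ W, centralChar (ξ : H → ℂ) g₁ = (W.index : ℂ) * centralChar (ξ : H → ℂ) g₁ := by
    rw [Finset.sum_const, Finset.card_univ, nsmul_eq_mul, ← Nat.card_eq_fintype_card]
    rfl
  rw [← h4]
  exact h3

end Cover

section Norm

variable {G : Type u} [Group G] [Fintype G] {p : ℕ} {M : Ideal AlgInt} [hprime : M.IsPrime]

/-- A `p`-regular element lies in a normal subgroup of `p`-power index. -/
theorem reg_mem (hp : p.Prime) {N : Subgroup G} [N.Normal] (hN : ∃ k : ℕ, N.index = p ^ k) {x : G} (hx : ¬ p ∣ orderOf x) :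
    x ∈ N := by
  obtain ⟨k, hk⟩ := hN
  have h1 : orderOf (x : G ⧸ N) ∣ orderOf x := orderOf_map_dvd (QuotientGroup.mk' N) x
  have h2 : orderOf (x : G ⧸ N) ∣ p ^ k := by
    rw [← hk]
    exact orderOf_dvd_natCard _
  obtain ⟨j, hj, hj'⟩ := (Nat.dvd_prime_pow hp).1 h2
  have hj0 : j = 0 := by
    by_contra hne
    apply hx
    refine dvd_trans ?_ h1
    rw [hj']
    exact dvd_pow_self p hne
  rw [hj0, pow_zero, orderOf_eq_one_iff] at hj'
  exact (QuotientGroup.eq_one_iff x).1 hj'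

/-- Intersecting the Sylow subgroup of a centralizer with a normal subgroup. -/
theorem sylow_inf_normal [Fact p.Prime] {N : Subgroup G} [hN : N.Normal] {g₀ : G} (hg : g₀ ∈ N)
    (S : Sylow p (Subgroup.centralizer ({g₀} : Set G))) :
    ∃ S' : Sylow p (Subgroup.centralizer ({(⟨g₀, hg⟩ : N)} : Set N)),
      (((S : Subgroup (Subgroup.centralizer ({g₀} : Set G))).map (Subgroup.centralizer ({g₀} : Set G)).subtype) ⊓ N).subgroupOf N =
        (S' : Subgroup (Subgroup.centralizer ({(⟨g₀, hg⟩ : N)} : Set N))).map (Subgroup.centralizer ({(⟨g₀, hg⟩ : N)} : Set N)).subtype := by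
  classical
  let C := Subgroup.centralizer ({g₀} : Set G)
  let P : Subgroup G := (S : Subgroup C).map C.subtype
  let A := Subgroup.centralizer ({(⟨g₀, hg⟩ : N)} : Set N)
  let D : Subgroup N := (P ⊓ N).subgroupOf N
  have hPp : IsPGroup p P := S.isPGroup'.map _
  have hDp : IsPGroup p D := (hPp.to_le inf_le_left).comap_of_injective _ Subtype.val_injective
  have hPC : P ≤ C := by
    rintro _ ⟨d, -, rfl⟩
    exact d.2
  have hDA : D ≤ A := by
    intro d hd
    have h1 : (d : G) ∈ Subgroup.centralizer ({g₀} : Set G) := hPC (Subgroup.mem_subgroupOf.1 hd).1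
    show d ∈ Subgroup.centralizer ({(⟨g₀, hg⟩ : N)} : Set N)
    rw [Subgroup.mem_centralizer_singleton_iff]
    apply Subtype.ext
    rw [Subgroup.mem_centralizer_singleton_iff] at h1
    exact h1
  have hD₁ : IsPGroup p (D.subgroupOf A) := hDp.comap_of_injective _ Subtype.val_injective
  obtain ⟨R, hR⟩ := hD₁.exists_le_sylow
  let R₁ : Subgroup N := (R : Subgroup A).map A.subtype
  let R₂ : Subgroup G := R₁.map N.subtype
  have hR₂p : IsPGroup p R₂ := (R.isPGroup'.map _).map _
  have hR₂C : R₂ ≤ C := by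
    rintro _ ⟨_, ⟨r, -, rfl⟩, rfl⟩
    have h1 : (r : N) ∈ Subgroup.centralizer ({(⟨g₀, hg⟩ : N)} : Set N) := r.2
    rw [Subgroup.mem_centralizer_singleton_iff] at h1
    show _ ∈ Subgroup.centralizer ({g₀} : Set G)
    rw [Subgroup.mem_centralizer_singleton_iff]
    exact congrArg Subtype.val h1
  have hR₂N : R₂ ≤ N := by
    rintro _ ⟨r, -, rfl⟩
    exact r.2
  have hR₃ : IsPGroup p (R₂.subgroupOf C) := hR₂p.comap_of_injective _ Subtype.val_injective
  obtain ⟨S₂, hS₂⟩ := hR₃.exists_le_sylow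
  obtain ⟨a, ha⟩ := MulAction.exists_smul_eq C S₂ S
  -- conjugation by `a` moves `R₂` into `P ⊓ N`
  have hmap : R₂.map (MulAut.conj (a : G)).toMonoidHom ≤ P ⊓ N := by
    rintro _ ⟨r, hr, rfl⟩
    refine ⟨?_, hN.conj_mem _ (hR₂N hr) _⟩
    have h1 : (⟨r, hR₂C hr⟩ : C) ∈ (S₂ : Subgroup C) := hS₂ (Subgroup.mem_subgroupOf.2 hr)
    have h2 : a * (⟨r, hR₂C hr⟩ : C) * a⁻¹ ∈ (S : Subgroup C) := by
      rw [← ha]
      rw [Sylow.coe_subgroup_smul, Subgroup.mem_pointwise_smul_iff_inv_smul_mem]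
      simp only [MulAut.smul_def, MulAut.conj_inv_apply]
      have e : a⁻¹ * (a * ⟨r, hR₂C hr⟩ * a⁻¹) * a = ⟨r, hR₂C hr⟩ := by group
      rw [e]
      exact h1
    exact ⟨_, h2, rfl⟩
  have hcard : Nat.card R₁ ≤ Nat.card D := by
    have h1 : Nat.card R₂ = Nat.card R₁ := Subgroup.card_map_of_injective Subtype.val_injective
    have h2 := Subgroup.card_le_of_le hmap
    rw [Cfsg.Agent.Lib.BlockFrob.card_map_conj, h1] at h2
    have h3 : Nat.card D = Nat.card (P ⊓ N : Subgroup G) := card_subgroupOf inf_le_right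
    rw [h3]
    exact h2
  have hle : D ≤ R₁ := by
    intro d hd
    exact ⟨⟨d, hDA hd⟩, hR (Subgroup.mem_subgroupOf.2 hd), rfl⟩
  exact ⟨R, Subgroup.eq_of_le_of_card_ge hle hcard⟩

/-- **Blocks over a normal subgroup of `p`-power index.** -/
theorem pIndex_block (hM : IsPModular p M) (N : Subgroup G) [hNn : N.Normal] [Fintype N] (hN : ∃ k : ℕ, N.index = p ^ k)
    {c : Set (IrrCharacter N)} (hc : IsPBlock M c) (hst : ∀ x : G, StabilizesBlock N c x) :
    IsPBlock M (overSet N.subtype c) ∧ blockCoeff (overSet N.subtype c) = subgroupBlockCoeff N c := by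
  classical
  have hreg : ∀ x : G, ¬ p ∣ orderOf x → x ∈ N.subtype.range := by
    intro x hx
    rw [Subgroup.range_subtype]
    exact reg_mem hM.1 hN hx
  have hr : N.subtype.range.Normal := by
    rw [Subgroup.range_subtype]
    exact hNn
  exact over_block hM N.subtype Subtype.val_injective hr hreg hc
    (fun g h => subgroupBlockCoeff_stable N hc (hst h) g)
    (fun x hx => subgroupBlockCoeff_not_mem _ _ (by rwa [Subgroup.range_subtype] at hx))
    (fun y => subgroupBlockCoeff_mem _ _ y)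

/-- The action of `G` on the characters of a normal subgroup preserves stable blocks. -/
theorem stable_irrComp {N : Subgroup G} [hNn : N.Normal] [Fintype N] {c : Set (IrrCharacter N)} (hc : IsPBlock M c)
    (hst : ∀ x : G, StabilizesBlock N c x) (a : G) (hy : a ∈ Subgroup.normalizer (N : Set G)) {ξ : IrrCharacter N}
    (hξ : ξ ∈ c) : irrComp (conjEquiv N a hy) ξ ∈ c := by
  have h1 := (stabilizes_iff N (Subgroup.inv_mem _ hy) hc).1 (hst a⁻¹)
  rw [← h1]
  refine ⟨ξ, hξ, ?_⟩
  congr 1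
  ext k
  simp

/-- **Defect groups over a normal subgroup of `p`-power index.** -/
theorem pIndex_defect (hM : IsPModular p M) (N : Subgroup G) [hNn : N.Normal] [Fintype N] (hN : ∃ k : ℕ, N.index = p ^ k)
    {c : Set (IrrCharacter N)} (hc : IsPBlock M c) (hst : ∀ x : G, StabilizesBlock N c x)
    {B : Set (IrrCharacter G)} (hBc : ∀ g : G, blockCoeff B g = subgroupBlockCoeff N c g)
    {P : Subgroup G} (hP : IsDefectGroup p M B P) :
    N ⊔ P = ⊤ ∧ IsDefectGroup p M c ((P ⊓ N).subgroupOf N) := by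
  classical
  haveI : Fact p.Prime := ⟨hM.1⟩
  obtain ⟨hB, hB2⟩ := pIndex_block hM N hN hc hst
  have hBeq : B = overSet N.subtype c := blockCoeff_inj (fun x => by rw [hBc, hB2])
  subst hBeq
  obtain ⟨g₀, hg₀, S, rfl⟩ := hP
  have hg₀N : g₀ ∈ N := by
    by_contra hn
    apply hg₀.2.1
    rw [hBc, subgroupBlockCoeff_not_mem _ _ hn]
    exact memLocalIdeal_zero
  let g₁ : N := ⟨g₀, hg₀N⟩
  have hr : N.subtype.range.Normal := by
    rw [Subgroup.range_subtype]
    exact hNn
  have hnorm : ∀ a : G, a ∈ Subgroup.normalizer (N : Set G) := fun a => by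
    rw [Subgroup.normalizer_eq_top]
    trivial
  let σ : G → (N ≃* N) := fun a => conjEquiv N a (hnorm a)
  have hσ : ∀ a c, N.subtype (σ a c) = a * N.subtype c * a⁻¹ := fun a c => rfl
  have hst' : ∀ a, ∀ ξ ∈ c, irrComp (σ a) ξ ∈ c := fun a ξ hξ => stable_irrComp hc hst a (hnorm a) hξ
  have hinj : Function.Injective N.subtype := Subtype.val_injective
  refine ⟨?_, ?_⟩
  · obtain ⟨ξ₀, hc0⟩ := id hc
    have hξ₀ : ξ₀ ∈ c := by
      rw [hc0]
      exact mem_block_self (M := M) ξ₀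
    obtain ⟨χ₀, hχ₀⟩ := exists_irr_over N.subtype hinj ξ₀
    have hχ₀m : χ₀ ∈ overSet N.subtype c := ⟨ξ₀, hξ₀, hχ₀⟩
    have hchar := hg₀.2.2 χ₀ hχ₀m
    have h1 := index_not_dvd hM N.subtype hinj hr hσ hc hst' hχ₀ hξ₀ (g₁ := g₁) hchar
    rw [Subgroup.range_subtype] at h1
    have h2 := sylow_sup_index S h1
    obtain ⟨k, hk⟩ := hN
    have hdvd : (((S : Subgroup (Subgroup.centralizer ({g₀} : Set G))).map (Subgroup.centralizer ({g₀} : Set G)).subtype) ⊔ N).index ∣ N.index :=
      Subgroup.index_dvd_of_le le_sup_right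
    rw [hk] at hdvd
    obtain ⟨j, hj, hj'⟩ := (Nat.dvd_prime_pow hM.1).1 hdvd
    have hj0 : j = 0 := by
      by_contra hne
      exact h2 (hj' ▸ dvd_pow_self p hne)
    rw [hj0, pow_zero] at hj'
    rw [sup_comm]
    exact Subgroup.index_eq_one.1 hj'
  · obtain ⟨S', hS'⟩ := sylow_inf_normal hg₀N S
    refine ⟨g₁, ⟨(blockCoeff_isLC hc).2 _, ?_, ?_⟩, S', hS'⟩
    · have := hg₀.2.1
      rw [hBc, subgroupBlockCoeff_mem N c g₁] at this
      exact this
    · intro ξ hξ hmem
      obtain ⟨χ, hχ⟩ := exists_irr_over N.subtype hinj ξ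
      have hm : χ ∈ overSet N.subtype c := ⟨ξ, hξ, hχ⟩
      have hu := hg₀.2.2 χ hm
      have hcong := central_cong hM N.subtype hinj hr hσ hc hst' hχ hξ g₁
      apply hu
      refine mem_of_cong_of_mem hcong ?_
      exact MemLocalIdeal_mul_left (memLocalRing_natCast _) hmem

end Norm

end Cfsg.Agent.Lib.BlockCover
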