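import Cfsg.Agent.Lib.BlockFong
import Cfsg.Agent.Lib.CharBlockInd

/-!
# The Fong–Reynolds correspondence for blocks of a normal subgroup
-/

set_option autoImplicit false
set_option linter.all false

namespace Cfsg.Agent.Lib.BlockFR

open Cfsg Cfsg.Agent.Lib.BlockLocal Cfsg.Agent.Lib.BlockOsima Cfsg.Agent.Lib.BlockBr
  Cfsg.Agent.Lib.BlockApps Cfsg.Agent.Lib.CharIrr Cfsg.Agent.Lib.BlockPair Cfsg.Agent.Lib.BlockSub
  Cfsg.Agent.Lib.BlockMax Cfsg.Agent.Lib.BlockTrace
open scoped ComplexConjugate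

universe u

section Core

variable {G : Type u} [Group G] [Fintype G] {p : ℕ} {M : Ideal AlgInt}
variable {N T : Subgroup G} [hN : N.Normal] [Fintype N] [Fintype T]

/-- Conjugation on a normal subgroup. -/
noncomputable def cN (N : Subgroup G) [hN : N.Normal] (x : G) : N ≃* N :=
  conjEquiv N x (by rw [Subgroup.normalizer_eq_top_iff.2 hN]; exact Subgroup.mem_top x)

@[simp] theorem cN_apply (x : G) (n : N) : ((cN N x n : N) : G) = x * n * x⁻¹ := rfl

/-- The main computation. -/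
theorem core_sum (hNT : N ≤ T) (ψ : IrrCharacter T) (a : N → ℂ)
    (hL1 : ∀ u : T, ∑ n : N, a n * (ψ : T → ℂ) (Subgroup.inclusion hNT n * u) = (ψ : T → ℂ) u)
    (hstab : ∀ x ∈ T, ∀ n : N, a (cN N x n) = a n)
    (horth : ∀ x, x ∉ T → ∀ u : T, ∑ n : N, a (cN N x n) * (ψ : T → ℂ) (Subgroup.inclusion hNT n * u) = 0)
    (t : T) : ∑ n : N, a n * indFun T (ψ : T → ℂ) ((n : G) * t) = (ψ : T → ℂ) t := by
  classical
  have hcard : (Nat.card T : ℂ) ≠ 0 := by exact_mod_cast Nat.card_pos.ne'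
  simp only [Cfsg.Agent.Lib.CharOps.indFun_apply]
  have h1 : ∀ x : G, ∑ n : N, a n * extendByZero T (ψ : T → ℂ) (x⁻¹ * ((n : G) * t) * x) =
      if x ∈ T then (ψ : T → ℂ) t else 0 := by
    intro x
    have h2 : ∑ n : N, a n * extendByZero T (ψ : T → ℂ) (x⁻¹ * ((n : G) * t) * x) =
        ∑ n : N, a (cN N x n) * extendByZero T (ψ : T → ℂ) ((n : G) * (x⁻¹ * t * x)) := by
      refine (Fintype.sum_equiv (cN N x).toEquiv _ _ fun n => ?_).symm
      have e : x⁻¹ * (((cN N x).toEquiv n : N) * (t : G)) * x = (n : G) * (x⁻¹ * t * x) := by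
        show x⁻¹ * ((x * n * x⁻¹) * (t : G)) * x = _
        group
      rw [e]
      rfl
    rw [h2]
    by_cases hx : x ∈ T
    · rw [if_pos hx]
      have hu : x⁻¹ * t * x ∈ T := T.mul_mem (T.mul_mem (T.inv_mem hx) t.2) hx
      have h3 : ∀ n : N, extendByZero T (ψ : T → ℂ) ((n : G) * (x⁻¹ * t * x)) =
          (ψ : T → ℂ) (Subgroup.inclusion hNT n * ⟨_, hu⟩) := by
        intro n
        rw [show (n : G) * (x⁻¹ * t * x) = ((Subgroup.inclusion hNT n * ⟨_, hu⟩ : T) : G) from rfl,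
          Cfsg.Agent.Lib.CharOps.extendByZero_coe]
      simp only [h3, hstab x hx]
      rw [hL1]
      have hcl := Cfsg.Agent.Lib.CharOps.IsCharacter.isClassFunction'
        (Cfsg.Agent.Lib.CharOps.IsIrrCharacter.isCharacter' ψ.2)
      have := hcl t ⟨x, hx⟩⁻¹
      rw [← this]
      exact congrArg _ (Subtype.ext (by simp))
    · rw [if_neg hx]
      by_cases hu : x⁻¹ * t * x ∈ T
      · have h3 : ∀ n : N, extendByZero T (ψ : T → ℂ) ((n : G) * (x⁻¹ * t * x)) =
            (ψ : T → ℂ) (Subgroup.inclusion hNT n * ⟨_, hu⟩) := by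
          intro n
          rw [show (n : G) * (x⁻¹ * t * x) = ((Subgroup.inclusion hNT n * ⟨_, hu⟩ : T) : G) from rfl,
            Cfsg.Agent.Lib.CharOps.extendByZero_coe]
        simp only [h3]
        exact horth x hx _
      · refine Finset.sum_eq_zero fun n _ => ?_
        rw [Cfsg.Agent.Lib.CharOps.extendByZero_of_not_mem, mul_zero]
        intro hmem
        apply hu
        have := T.mul_mem (T.inv_mem (hNT n.2)) hmem
        simpa using this
  have h4 : ∑ n : N, a n * ((Nat.card T : ℂ)⁻¹ * ∑ x : G, extendByZero T (ψ : T → ℂ) (x⁻¹ * ((n : G) * t) * x)) =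
      (Nat.card T : ℂ)⁻¹ * ∑ x : G, ∑ n : N, a n * extendByZero T (ψ : T → ℂ) (x⁻¹ * ((n : G) * t) * x) := by
    simp only [Finset.mul_sum]
    rw [Finset.sum_comm]
    refine Finset.sum_congr rfl fun x _ => Finset.sum_congr rfl fun g _ => ?_
    ring
  rw [h4]
  simp only [h1]
  rw [Finset.sum_ite, Finset.sum_const_zero, add_zero, Finset.sum_const, nsmul_eq_mul]
  have hc : ((Finset.univ.filter (fun x : G => x ∈ T)).card : ℂ) = Nat.card T := by
    rw [Nat.card_eq_fintype_card, Fintype.card_subtype]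
  rw [hc]
  field_simp

end Core

section FR

variable {G : Type u} [Group G] [Fintype G] {p : ℕ} {M : Ideal AlgInt} [hprime : M.IsPrime]
variable {N T : Subgroup G} [hN : N.Normal] [Fintype N] [Fintype T]

/-- `T` is the stabilizer of `b`. -/
def IsStabN (N : Subgroup G) [hN : N.Normal] (b : Set (IrrCharacter N)) (T : Subgroup G) : Prop :=
  ∀ g : G, g ∈ T ↔ ∀ θ ∈ b, ∀ θ' : IrrCharacter N,
    (∀ n : N, (θ' : N → ℂ) n = (θ : N → ℂ) ⟨g * n * g⁻¹, hN.conj_mem n n.2 g⟩) → θ' ∈ b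

theorem coeff_stab {b : Set (IrrCharacter N)} (hb : IsPBlock M b) (hT : IsStabN N b T) {x : G} (hx : x ∈ T) (n : N) :
    blockCoeff b (cN N x n) = blockCoeff b n := by
  rw [← blockCoeff_comp (cN N x) b n]
  congr 2
  obtain ⟨θ₀, rfl⟩ := id hb
  have hθ₀ := mem_block_self (M := M) θ₀
  have h1 : irrComp (cN N x) θ₀ ∈ blockOf M (θ₀ : N → ℂ) :=
    (hT x).1 hx θ₀ hθ₀ _ (fun n => rfl)
  exact (block_eq_of_mem hb (isPBlock_image (cN N x) hb) h1 ⟨θ₀, hθ₀, rfl⟩).symm

theorem conv_disjoint {X : Type u} [Group X] [Fintype X] {A A' : Set (IrrCharacter X)} (h : Disjoint A A') :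
    Cfsg.Agent.Lib.CharBlockConv.conv (blockCoeff A) (blockCoeff A') = 0 := by
  classical
  have hc := blockCoeff_isClass A
  have hc' := blockCoeff_isClass A'
  apply Cfsg.Agent.Lib.CharBlockConv.eq_of_omega_eq (Cfsg.Agent.Lib.CharBlockConv.conv_isClass hc hc') (fun g a => rfl)
  intro χ
  rw [Cfsg.Agent.Lib.CharBlockConv.omega_conv χ.2 hc, Cfsg.Agent.Lib.CharBlockConv.omega_zero,
    Cfsg.Agent.Lib.CharBlockConv.omega_blockCoeff, Cfsg.Agent.Lib.CharBlockConv.omega_blockCoeff]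
  by_cases h1 : χ ∈ A
  · have h2 : χ ∉ A' := fun h2 => Set.disjoint_left.1 h h1 h2
    rw [if_neg h2, mul_zero]
  · rw [if_neg h1, zero_mul]

theorem coeff_orth {b : Set (IrrCharacter N)} (hb : IsPBlock M b) (hT : IsStabN N b T) {x : G} (hx : x ∉ T) :
    Cfsg.Agent.Lib.CharBlockConv.conv (blockCoeff b) (blockCoeff (irrComp (cN N x) '' b)) = 0 := by
  apply conv_disjoint
  rw [Set.disjoint_left]
  intro ξ hξ hξ'
  apply hx
  rw [hT]
  intro θ hθ θ' hθ'
  have hb' := isPBlock_image (M := M) (cN N x) hb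
  have e : b = irrComp (cN N x) '' b := block_eq_of_mem hb hb' hξ hξ'
  rw [e]
  refine ⟨θ, hθ, ?_⟩
  apply Subtype.ext
  funext n
  rw [hθ' n]
  rfl

/-- The extension of the idempotent of `b` to `T`. -/
noncomputable def eT (T : Subgroup G) (N : Subgroup G) (b : Set (IrrCharacter N)) : T → ℂ :=
  fun t => subgroupBlockCoeff N b (t : G)

theorem eT_isClass {b : Set (IrrCharacter N)} (hb : IsPBlock M b) (hT : IsStabN N b T) : IsClassFunction T (eT T N b) := by
  intro g t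
  unfold eT
  by_cases hg : (g : G) ∈ N
  · have h' : ((t * g * t⁻¹ : T) : G) ∈ N := by
      have := hN.conj_mem _ hg (t : G)
      simpa using this
    rw [subgroupBlockCoeff_mem N b ⟨g, hg⟩, subgroupBlockCoeff_mem N b ⟨_, h'⟩]
    have := coeff_stab hb hT t.2 ⟨g, hg⟩
    convert this using 2
    apply Subtype.ext
    simp
  · have h' : ((t * g * t⁻¹ : T) : G) ∉ N := by
      intro h
      apply hg
      have := hN.conj_mem _ h (t : G)⁻¹
      simpa [mul_assoc] using this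
    rw [subgroupBlockCoeff_not_mem N b hg, subgroupBlockCoeff_not_mem N b h']

theorem range_inclusion_normal (hNT : N ≤ T) : (Subgroup.inclusion hNT).range.Normal := by
  rw [Subgroup.inclusion_range]
  constructor
  intro n hn t
  rw [Subgroup.mem_subgroupOf] at hn ⊢
  have := hN.conj_mem _ hn (t : G)
  simpa using this

open Classical in
theorem om_eT (hNT : N ≤ T) {b : Set (IrrCharacter N)} (hb : IsPBlock M b) (hT : IsStabN N b T) (ψ : IrrCharacter T) :
    om (ψ : T → ℂ) (eT T N b) = if ψ ∈ overSet (Subgroup.inclusion hNT) b then 1 else 0 := by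
  classical
  apply om_cover (Subgroup.inclusion hNT) (Subgroup.inclusion_injective _) (range_inclusion_normal hNT)
    (eT_isClass hb hT)
  · intro x hx
    unfold eT
    apply subgroupBlockCoeff_not_mem
    intro h
    exact hx ⟨⟨x, h⟩, rfl⟩
  · intro c
    unfold eT
    exact subgroupBlockCoeff_mem N b c

/-- Sums against `eT` as sums over `N`. -/
theorem sum_eT (hNT : N ≤ T) (b : Set (IrrCharacter N)) (F : T → ℂ) :
    ∑ s : T, eT T N b s * F s = ∑ n : N, blockCoeff b n * F (Subgroup.inclusion hNT n) := by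
  classical
  symm
  apply Fintype.sum_of_injective (Subgroup.inclusion hNT) (Subgroup.inclusion_injective _)
  · intro s hs
    have : (s : G) ∉ N := fun h => hs ⟨⟨s, h⟩, rfl⟩
    unfold eT
    rw [subgroupBlockCoeff_not_mem N b this, zero_mul]
  · intro n
    unfold eT
    rw [show ((Subgroup.inclusion hNT n : T) : G) = (n : G) from rfl, subgroupBlockCoeff_mem N b n]

theorem l1 (hNT : N ≤ T) {b : Set (IrrCharacter N)} (hb : IsPBlock M b) (hT : IsStabN N b T) {ψ : IrrCharacter T}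
    (hψ : ψ ∈ overSet (Subgroup.inclusion hNT) b) (u : T) :
    ∑ n : N, blockCoeff b n * (ψ : T → ℂ) (Subgroup.inclusion hNT n * u) = (ψ : T → ℂ) u := by
  classical
  have h1 := sum_eT hNT b (fun s => (ψ : T → ℂ) (s * u))
  rw [← h1]
  have h2 := Cfsg.Agent.Lib.CharCentral.sum_mul_irr ψ.2 (eT_isClass hb hT) u
  have h3 := om_eT hNT hb hT ψ
  rw [if_pos hψ] at h3
  unfold om at h3
  have h0 := irr_one_ne_zero ψ.2
  have h4 : ∑ g, eT T N b g * (ψ : T → ℂ) g = (ψ : T → ℂ) 1 := by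
    field_simp at h3
    exact h3
  rw [h4] at h2
  have := mul_right_cancel₀ h0 (h2.trans (mul_comm _ _))
  exact this

theorem l2 (hNT : N ≤ T) {b : Set (IrrCharacter N)} (hb : IsPBlock M b) (hT : IsStabN N b T) {ψ : IrrCharacter T}
    (hψ : ψ ∈ overSet (Subgroup.inclusion hNT) b) {x : G} (hx : x ∉ T) (u : T) :
    ∑ n : N, blockCoeff b (cN N x n) * (ψ : T → ℂ) (Subgroup.inclusion hNT n * u) = 0 := by
  classical
  have h0 := Cfsg.Agent.Lib.CharBlockConv.sum_conv_mul (blockCoeff b) (blockCoeff (irrComp (cN N x) '' b))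
    (fun l : N => (ψ : T → ℂ) (Subgroup.inclusion hNT l * u))
  rw [coeff_orth hb hT hx] at h0
  simp only [Pi.zero_apply, zero_mul, Finset.sum_const_zero] at h0
  have h1 : ∀ n : N, blockCoeff b (cN N x n) * (ψ : T → ℂ) (Subgroup.inclusion hNT n * u) =
      ∑ y : N, blockCoeff b y * blockCoeff (irrComp (cN N x) '' b) n *
        (ψ : T → ℂ) (Subgroup.inclusion hNT (y * n) * u) := by
    intro n
    have e := l1 hNT hb hT hψ (Subgroup.inclusion hNT n * u)
    conv_lhs => rw [← e]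
    rw [← blockCoeff_comp (cN N x) b n, Finset.mul_sum]
    refine Finset.sum_congr rfl fun y _ => ?_
    rw [map_mul, mul_assoc (Subgroup.inclusion hNT y)]
    ring
  simp only [h1]
  rw [Finset.sum_comm]
  exact h0.symm

/-- The key identity. -/
theorem key_sum (hNT : N ≤ T) {b : Set (IrrCharacter N)} (hb : IsPBlock M b) (hT : IsStabN N b T) {ψ : IrrCharacter T}
    (hψ : ψ ∈ overSet (Subgroup.inclusion hNT) b) (t : T) :
    ∑ n : N, blockCoeff b n * indFun T (ψ : T → ℂ) ((n : G) * t) = (ψ : T → ℂ) t :=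
  core_sum hNT ψ (blockCoeff b) (l1 hNT hb hT hψ) (fun _ hx n => coeff_stab hb hT hx n)
    (fun _ hx u => l2 hNT hb hT hψ hx u) t

/-- The omega formula: central characters of `T` are recovered from those of `G`. -/
theorem omega_trace (hNT : N ≤ T) {b : Set (IrrCharacter N)} (hb : IsPBlock M b) (hT : IsStabN N b T) {ψ : IrrCharacter T}
    (hψ : ψ ∈ overSet (Subgroup.inclusion hNT) b) (w : T → ℂ) :
    Cfsg.Agent.Lib.CharBlockConv.omega (indFun T (ψ : T → ℂ))
        (indFun T (Cfsg.Agent.Lib.CharBlockConv.conv (eT T N b) w)) =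
      Cfsg.Agent.Lib.CharBlockConv.omega (ψ : T → ℂ) w := by
  classical
  have hcl := Cfsg.Agent.Lib.CharOps.indFun_isClassFunction T (ψ : T → ℂ)
  unfold Cfsg.Agent.Lib.CharBlockConv.omega
  have h1 : ∑ g, indFun T (Cfsg.Agent.Lib.CharBlockConv.conv (eT T N b) w) g * indFun T (ψ : T → ℂ) g =
      (T.index : ℂ) * ∑ h : T, indFun T (ψ : T → ℂ) h * Cfsg.Agent.Lib.CharBlockConv.conv (eT T N b) w h := by
    rw [← Cfsg.Agent.Lib.CharBlockInd.sum_mul_indFun T _ hcl]
    exact Finset.sum_congr rfl fun g _ => mul_comm _ _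
  have h2 : ∑ h : T, indFun T (ψ : T → ℂ) h * Cfsg.Agent.Lib.CharBlockConv.conv (eT T N b) w h =
      ∑ z : T, w z * (ψ : T → ℂ) z := by
    have h3 := Cfsg.Agent.Lib.CharBlockConv.sum_conv_mul (eT T N b) w (fun h : T => indFun T (ψ : T → ℂ) h)
    simp only [mul_comm (indFun T (ψ : T → ℂ) _)]
    rw [h3, Finset.sum_comm]
    refine Finset.sum_congr rfl fun z _ => ?_
    have h4 := key_sum hNT hb hT hψ z
    have h5 := sum_eT hNT b (fun s => indFun T (ψ : T → ℂ) ((s * z : T) : G))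
    have h6 : ∑ s : T, eT T N b s * w z * indFun T (ψ : T → ℂ) ((s * z : T) : G) =
        w z * ∑ s : T, eT T N b s * indFun T (ψ : T → ℂ) ((s * z : T) : G) := by
      rw [Finset.mul_sum]
      refine Finset.sum_congr rfl fun y _ => ?_
      ring
    rw [h6, h5]
    congr 1
  rw [h1, h2, Cfsg.Agent.Lib.CharBlockInd.indFun_one_eq]
  have hidx : (T.index : ℂ) ≠ 0 := by
    exact_mod_cast Subgroup.index_ne_zero_of_finite
  rw [mul_div_mul_left _ _ hidx]

/-- The value of the inner product of an induced character over `b`. -/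
theorem inner_res_ind (hNT : N ≤ T) {b : Set (IrrCharacter N)} (hb : IsPBlock M b) (hT : IsStabN N b T) {ψ ψ' : IrrCharacter T}
    (hψ : ψ ∈ overSet (Subgroup.inclusion hNT) b) (hψ' : ψ' ∈ overSet (Subgroup.inclusion hNT) b) :
    classInner (fun t : T => indFun T (ψ : T → ℂ) t) (ψ' : T → ℂ) = classInner (ψ : T → ℂ) (ψ' : T → ℂ) := by
  classical
  unfold classInner
  congr 1
  have hconj : ∀ v : T, conj ((ψ' : T → ℂ) v) = (ψ' : T → ℂ) v⁻¹ := fun v =>
    (Cfsg.Agent.Lib.CharOps.character_inv_of_isCharacter (Cfsg.Agent.Lib.CharOps.IsIrrCharacter.isCharacter' ψ'.2) v).symm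
  simp only [hconj]
  have h1 : ∀ v : T, indFun T (ψ : T → ℂ) v * (ψ' : T → ℂ) v⁻¹ =
      ∑ n : N, blockCoeff b n * (indFun T (ψ : T → ℂ) v * (ψ' : T → ℂ) (Subgroup.inclusion hNT n * v⁻¹)) := by
    intro v
    have := l1 hNT hb hT hψ' v⁻¹
    conv_lhs => rw [← this]
    rw [Finset.mul_sum]
    refine Finset.sum_congr rfl fun y _ => ?_
    ring
  simp only [h1]
  rw [Finset.sum_comm]
  have h2 : ∀ n : N, ∑ v : T, blockCoeff b n * (indFun T (ψ : T → ℂ) v * (ψ' : T → ℂ) (Subgroup.inclusion hNT n * v⁻¹)) =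
      ∑ s : T, blockCoeff b n * indFun T (ψ : T → ℂ) ((n : G) * s) * (ψ' : T → ℂ) s⁻¹ := by
    intro n
    refine (Fintype.sum_equiv (Equiv.mulLeft (Subgroup.inclusion hNT n)) _ _ fun s => ?_).symm
    simp only [Equiv.coe_mulLeft, mul_inv_rev, mul_inv_cancel_left]
    rw [mul_assoc]
    congr 2
    rw [← mul_assoc]
    exact (Cfsg.Agent.Lib.CharOps.IsCharacter.isClassFunction' (Cfsg.Agent.Lib.CharOps.IsIrrCharacter.isCharacter' ψ'.2) _ _).symm
  simp only [h2]
  rw [Finset.sum_comm]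
  refine Finset.sum_congr rfl fun s _ => ?_
  rw [← Finset.sum_mul, key_sum hNT hb hT hψ s]

/-- Characters over `b` induce irreducibly. -/
theorem isIrr_ind (hNT : N ≤ T) {b : Set (IrrCharacter N)} (hb : IsPBlock M b) (hT : IsStabN N b T) {ψ : IrrCharacter T}
    (hψ : ψ ∈ overSet (Subgroup.inclusion hNT) b) : IsIrrCharacter G (indFun T (ψ : T → ℂ)) := by
  classical
  apply Cfsg.Agent.Lib.CharOps.isIrr_of_norm_one
    (Cfsg.Agent.Lib.CharOps.isCharacter_indFun T (Cfsg.Agent.Lib.CharOps.IsIrrCharacter.isCharacter' ψ.2))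
  rw [Cfsg.Agent.Lib.CharOps.frobenius_reciprocity T _ (Cfsg.Agent.Lib.CharOps.indFun_isClassFunction T _),
    ← classInner_conj, inner_res_ind hNT hb hT hψ hψ, classInner_irr ψ.2 ψ.2, if_pos rfl]
  simp

/-- Every character over `b` is induced. -/
theorem exists_ind (hNT : N ≤ T) {b : Set (IrrCharacter N)} (hb : IsPBlock M b) (hT : IsStabN N b T) (χ : IrrCharacter G)
    {θ : IrrCharacter N} (hθ : θ ∈ b) (hχ : classInner (fun n : N => (χ : G → ℂ) n) (θ : N → ℂ) ≠ 0) :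
    ∃ ψ : IrrCharacter T, classInner (fun n : N => (ψ : T → ℂ) (Subgroup.inclusion hNT n)) (θ : N → ℂ) ≠ 0 ∧
      (χ : G → ℂ) = indFun T (ψ : T → ℂ) := by
  classical
  have hχc := Cfsg.Agent.Lib.CharOps.IsCharacter.isClassFunction' (Cfsg.Agent.Lib.CharOps.IsIrrCharacter.isCharacter' χ.2)
  have hres : IsClassFunction T (fun t : T => (χ : G → ℂ) t) := by
    intro g h
    have := hχc g h
    simpa using this
  have hexp := classFunction_expand hres
  have h1 : classInner (fun n : N => (χ : G → ℂ) n) (θ : N → ℂ) =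
      ∑ ψ : IrrCharacter T, classInner (fun t : T => (χ : G → ℂ) t) (ψ : T → ℂ) *
        classInner (fun n : N => (ψ : T → ℂ) (Subgroup.inclusion hNT n)) (θ : N → ℂ) := by
    have h2 : (fun n : N => (χ : G → ℂ) n) = ∑ ψ : IrrCharacter T, classInner (fun t : T => (χ : G → ℂ) t) (ψ : T → ℂ) •
        (fun n : N => (ψ : T → ℂ) (Subgroup.inclusion hNT n)) := by
      funext n
      have h3 := congrFun hexp (Subgroup.inclusion hNT n)
      simp only [Finset.sum_apply, Pi.smul_apply, smul_eq_mul] at h3 ⊢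
      exact h3
    rw [h2, classInner_sum_left]
    refine Finset.sum_congr rfl fun ψ _ => ?_
    rw [classInner_smul_left]
  rw [h1] at hχ
  obtain ⟨ψ, -, hψ⟩ := Finset.exists_ne_zero_of_sum_ne_zero hχ
  have hc1 := left_ne_zero_of_mul hψ
  have hc2 := right_ne_zero_of_mul hψ
  refine ⟨ψ, hc2, ?_⟩
  have hover : ψ ∈ overSet (Subgroup.inclusion hNT) b := ⟨θ, hθ, hc2⟩
  have hirr := isIrr_ind hNT hb hT hover
  have h3 : classInner (indFun T (ψ : T → ℂ)) (χ : G → ℂ) ≠ 0 := by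
    rw [Cfsg.Agent.Lib.CharOps.frobenius_reciprocity T _ hχc, ← classInner_conj]
    intro h
    apply hc1
    have := congrArg conj h
    simpa using this
  rw [classInner_irr hirr χ.2] at h3
  by_contra hne
  rw [if_neg (fun h => hne h.symm)] at h3
  exact h3 rfl

end FR

section Blocks

variable {G : Type u} [Group G] [Fintype G] {p : ℕ} {M : Ideal AlgInt} [hprime : M.IsPrime]
variable {N T : Subgroup G} [hN : N.Normal] [Fintype N] [Fintype T]

open Cfsg.Agent.Lib.CharBlockConv Cfsg.Agent.Lib.CharBlockLocal Cfsg.Agent.Lib.CharBlockBrauer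
  Cfsg.Agent.Lib.CharBlockInd

theorem isRClass_eT {b : Set (IrrCharacter N)} (hb : IsPBlock M b) (hT : IsStabN N b T) : IsRClass M (eT T N b) :=
  ⟨eT_isClass hb hT, fun t => subgroupBlockCoeff_local N hb (t : G)⟩

/-- Induction preserves class functions with local values. -/
theorem isRClass_ind (hM : IsPModular p M) {w : T → ℂ} (hw : IsRClass M w) : IsRClass M (indFun T w) := by
  classical
  refine ⟨Cfsg.Agent.Lib.CharOps.indFun_isClassFunction T w, fun g => ?_⟩
  have hZ : TInv T (extendByZero T w) := by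
    intro t ht g
    by_cases hg : g ∈ T
    · have h' : t * g * t⁻¹ ∈ T := T.mul_mem (T.mul_mem ht hg) (T.inv_mem ht)
      rw [Cfsg.Agent.Lib.CharOps.extendByZero_of_mem T w h', Cfsg.Agent.Lib.CharOps.extendByZero_of_mem T w hg]
      have := hw.1 ⟨g, hg⟩ ⟨t, ht⟩
      exact this
    · have h' : t * g * t⁻¹ ∉ T := by
        intro h
        apply hg
        have := T.mul_mem (T.mul_mem (T.inv_mem ht) h) ht
        simpa [mul_assoc] using this
      rw [Cfsg.Agent.Lib.CharOps.extendByZero_of_not_mem T w h', Cfsg.Agent.Lib.CharOps.extendByZero_of_not_mem T w hg]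
  have h1 := Cfsg.Agent.Lib.BlockFong.sum_eq_card_mul_relTrace hZ g
  have hcard : (Nat.card T : ℂ) ≠ 0 := by exact_mod_cast Nat.card_pos.ne'
  rw [Cfsg.Agent.Lib.CharOps.indFun_apply, h1, inv_mul_cancel_left₀ hcard]
  apply relTrace_local
  intro x
  by_cases hx : x ∈ T
  · rw [Cfsg.Agent.Lib.CharOps.extendByZero_of_mem T w hx]
    exact hw.2 _
  · rw [Cfsg.Agent.Lib.CharOps.extendByZero_of_not_mem T w hx]
    exact MemLocalRing.zero hM

theorem sameBlock_ind_of (hM : IsPModular p M) {ψ₁ ψ₂ : IrrCharacter T}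
    (h : SameBlock M (ψ₁ : T → ℂ) (ψ₂ : T → ℂ)) :
    SameBlock M (indFun T (ψ₁ : T → ℂ)) (indFun T (ψ₂ : T → ℂ)) := by
  classical
  apply sameBlock_of_omega (Cfsg.Agent.Lib.CharOps.indFun_isClassFunction T _)
    (Cfsg.Agent.Lib.CharOps.indFun_isClassFunction T _)
  intro g
  rw [omega_indFun T (indC_isClass g), omega_indFun T (indC_isClass g)]
  exact sameBlock_omega hM ψ₁.2 ψ₂.2 h (res_isRClass T (isRClass_indC hM g))

theorem sameBlock_of_ind (hM : IsPModular p M) (hNT : N ≤ T) {b : Set (IrrCharacter N)} (hb : IsPBlock M b)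
    (hT : IsStabN N b T) {ψ₁ ψ₂ : IrrCharacter T}
    (h₁ : ψ₁ ∈ overSet (Subgroup.inclusion hNT) b) (h₂ : ψ₂ ∈ overSet (Subgroup.inclusion hNT) b)
    (h : SameBlock M (indFun T (ψ₁ : T → ℂ)) (indFun T (ψ₂ : T → ℂ))) :
    SameBlock M (ψ₁ : T → ℂ) (ψ₂ : T → ℂ) := by
  classical
  have hcl₁ := Cfsg.Agent.Lib.CharOps.IsCharacter.isClassFunction' (Cfsg.Agent.Lib.CharOps.IsIrrCharacter.isCharacter' ψ₁.2)
  have hcl₂ := Cfsg.Agent.Lib.CharOps.IsCharacter.isClassFunction' (Cfsg.Agent.Lib.CharOps.IsIrrCharacter.isCharacter' ψ₂.2)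
  apply sameBlock_of_omega hcl₁ hcl₂
  intro t
  rw [← omega_trace hNT hb hT h₁, ← omega_trace hNT hb hT h₂]
  exact sameBlock_omega hM (isIrr_ind hNT hb hT h₁) (isIrr_ind hNT hb hT h₂) h
    (isRClass_ind hM ((isRClass_eT hb hT).conv hM (isRClass_indC hM t)))

theorem over_of_sameBlock (hM : IsPModular p M) (hNT : N ≤ T) {b : Set (IrrCharacter N)} (hb : IsPBlock M b)
    (hT : IsStabN N b T) {ψ₁ ψ₂ : IrrCharacter T}
    (h₁ : ψ₁ ∈ overSet (Subgroup.inclusion hNT) b)
    (h : SameBlock M (ψ₁ : T → ℂ) (ψ₂ : T → ℂ)) : ψ₂ ∈ overSet (Subgroup.inclusion hNT) b := by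
  classical
  by_contra hne
  have h1 := sameBlock_omega hM ψ₁.2 ψ₂.2 h (isRClass_eT hb hT)
  have e1 := om_eT hNT hb hT ψ₁
  have e2 := om_eT hNT hb hT ψ₂
  rw [if_pos h₁] at e1
  rw [if_neg hne] at e2
  have hconv : ∀ ψ : IrrCharacter T, omega (ψ : T → ℂ) (eT T N b) = om (ψ : T → ℂ) (eT T N b) := by
    intro ψ
    unfold omega om
    rw [div_eq_inv_mul]
  rw [hconv, hconv, e1, e2, sub_zero] at h1
  exact not_memLocalIdeal_one hM h1

/-- Constituents persist on induction. -/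
theorem constituent_of_ind (hNT : N ≤ T) {b : Set (IrrCharacter N)} (hb : IsPBlock M b) (hT : IsStabN N b T)
    {ψ : IrrCharacter T} (hψ : ψ ∈ overSet (Subgroup.inclusion hNT) b) {θ : IrrCharacter N}
    (hθ : classInner (fun n : N => (ψ : T → ℂ) (Subgroup.inclusion hNT n)) (θ : N → ℂ) ≠ 0) :
    classInner (fun n : N => indFun T (ψ : T → ℂ) n) (θ : N → ℂ) ≠ 0 := by
  classical
  have hchar := Cfsg.Agent.Lib.CharOps.isCharacter_indFun T (Cfsg.Agent.Lib.CharOps.IsIrrCharacter.isCharacter' ψ.2)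
  have hχc := Cfsg.Agent.Lib.CharOps.IsCharacter.isClassFunction' hchar
  have hres : IsClassFunction T (fun t : T => indFun T (ψ : T → ℂ) t) := by
    intro g h
    have := hχc g h
    simpa using this
  have hexp := classFunction_expand hres
  have h1 : classInner (fun n : N => indFun T (ψ : T → ℂ) n) (θ : N → ℂ) =
      ∑ ψ' : IrrCharacter T, classInner (fun t : T => indFun T (ψ : T → ℂ) t) (ψ' : T → ℂ) *
        classInner (fun n : N => (ψ' : T → ℂ) (Subgroup.inclusion hNT n)) (θ : N → ℂ) := by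
    have h2 : (fun n : N => indFun T (ψ : T → ℂ) n) = ∑ ψ' : IrrCharacter T, classInner (fun t : T => indFun T (ψ : T → ℂ) t) (ψ' : T → ℂ) •
        (fun n : N => (ψ' : T → ℂ) (Subgroup.inclusion hNT n)) := by
      funext n
      have h3 := congrFun hexp (Subgroup.inclusion hNT n)
      simp only [Finset.sum_apply, Pi.smul_apply, smul_eq_mul] at h3 ⊢
      exact h3
    rw [h2, classInner_sum_left]
    refine Finset.sum_congr rfl fun ψ _ => ?_
    rw [classInner_smul_left]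
  have hcT : IsCharacter T (fun t : T => indFun T (ψ : T → ℂ) t) :=
    Cfsg.Agent.Lib.CharOps.isCharacter_comp T.subtype hchar
  have hnat1 : ∀ ψ' : IrrCharacter T, ∃ c : ℕ, classInner (fun t : T => indFun T (ψ : T → ℂ) t) (ψ' : T → ℂ) = c :=
    fun ψ' => Cfsg.Agent.Lib.CharOps.exists_nat_classInner hcT (Cfsg.Agent.Lib.CharOps.IsIrrCharacter.isCharacter' ψ'.2)
  have hnat2 : ∀ ψ' : IrrCharacter T, ∃ c : ℕ,
      classInner (fun n : N => (ψ' : T → ℂ) (Subgroup.inclusion hNT n)) (θ : N → ℂ) = c :=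
    fun ψ' => Cfsg.Agent.Lib.CharOps.exists_nat_classInner
      (Cfsg.Agent.Lib.CharOps.isCharacter_comp (Subgroup.inclusion hNT) (Cfsg.Agent.Lib.CharOps.IsIrrCharacter.isCharacter' ψ'.2)) (Cfsg.Agent.Lib.CharOps.IsIrrCharacter.isCharacter' θ.2)
  choose c hc using hnat1
  choose d hd using hnat2
  rw [h1]
  simp only [hc, hd]
  have h2 : ∑ x : IrrCharacter T, ((c x : ℕ) : ℂ) * ((d x : ℕ) : ℂ) = ((∑ x : IrrCharacter T, c x * d x : ℕ) : ℂ) := by
    push_cast
    rfl
  rw [h2]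
  have hc1 : c ψ ≠ 0 := by
    intro h0
    have h3 := hc ψ
    rw [inner_res_ind hNT hb hT hψ hψ, classInner_irr ψ.2 ψ.2, if_pos rfl, h0] at h3
    simp at h3
  have hd1 : d ψ ≠ 0 := by
    intro h0
    apply hθ
    rw [hd ψ, h0]
    simp
  have hpos : 0 < ∑ x : IrrCharacter T, c x * d x :=
    Finset.sum_pos' (fun _ _ => Nat.zero_le _) ⟨ψ, Finset.mem_univ _, Nat.mul_pos (Nat.pos_of_ne_zero hc1) (Nat.pos_of_ne_zero hd1)⟩
  exact_mod_cast hpos.ne'

/-- An irreducible character in the block of a character over `b` lies over `b`. -/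
theorem over_of_sameBlock_G (hM : IsPModular p M) (hNT : N ≤ T) {b : Set (IrrCharacter N)} (hb : IsPBlock M b)
    (hT : IsStabN N b T) {ψ₀ : IrrCharacter T} (h₀ : ψ₀ ∈ overSet (Subgroup.inclusion hNT) b) {χ : IrrCharacter G}
    (h : SameBlock M (indFun T (ψ₀ : T → ℂ)) (χ : G → ℂ)) :
    ∃ θ ∈ b, classInner (fun n : N => (χ : G → ℂ) n) (θ : N → ℂ) ≠ 0 := by
  classical
  by_contra hcon
  push_neg at hcon
  have hχc := Cfsg.Agent.Lib.CharOps.IsCharacter.isClassFunction' (Cfsg.Agent.Lib.CharOps.IsIrrCharacter.isCharacter' χ.2)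
  have hresN : IsClassFunction N (fun n : N => (χ : G → ℂ) n) := by
    intro g h
    have := hχc g h
    simpa using this
  have hy := isRClass_ind hM ((isRClass_eT hb hT).conv hM (isRClass_delta hM))
  have h1 := sameBlock_omega hM (isIrr_ind hNT hb hT h₀) χ.2 h hy
  rw [omega_trace hNT hb hT h₀, omega_delta ψ₀.2] at h1
  have h2 : omega (χ : G → ℂ) (indFun T (Cfsg.Agent.Lib.CharBlockConv.conv (eT T N b) delta)) = 0 := by
    unfold omega
    have h3 : ∑ g, indFun T (Cfsg.Agent.Lib.CharBlockConv.conv (eT T N b) delta) g * (χ : G → ℂ) g =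
        (T.index : ℂ) * ∑ h : T, (χ : G → ℂ) h * eT T N b h := by
      rw [conv_delta, ← sum_mul_indFun T _ hχc]
      exact Finset.sum_congr rfl fun g _ => mul_comm _ _
    have h4 : ∑ h : T, (χ : G → ℂ) h * eT T N b h = 0 := by
      have h5 := sum_eT hNT b (fun s : T => (χ : G → ℂ) s)
      simp only [mul_comm ((χ : G → ℂ) _)]
      rw [h5]
      exact sum_blockCoeff_mul_eq b hresN hcon
    rw [h3, h4]
    simp
  rw [h2, sub_zero] at h1
  exact not_memLocalIdeal_one hM h1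

end Blocks

section Main

variable {G : Type u} [Group G] [Fintype G] {p : ℕ} {M : Ideal AlgInt} [hprime : M.IsPrime]
variable {N T : Subgroup G} [hN : N.Normal] [Fintype N] [Fintype T]

open Cfsg.Agent.Lib.CharBlockConv Cfsg.Agent.Lib.CharBlockLocal Cfsg.Agent.Lib.CharBlockBrauer
  Cfsg.Agent.Lib.CharBlockInd

/-- Characters in a block of `T` covering `b` lie over `b`. -/
theorem over_of_cover (hM : IsPModular p M) (hNT : N ≤ T) {b : Set (IrrCharacter N)} (hb : IsPBlock M b)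
    (hT : IsStabN N b T) {B' : Set (IrrCharacter T)} (hB' : IsPBlock M B') {ψ₀ : IrrCharacter T} (h₀ : ψ₀ ∈ B')
    (h₀' : ψ₀ ∈ overSet (Subgroup.inclusion hNT) b) {ψ : IrrCharacter T} (hψ : ψ ∈ B') :
    ψ ∈ overSet (Subgroup.inclusion hNT) b := by
  apply over_of_sameBlock hM hNT hb hT h₀'
  rw [blockOf_eq_of_mem hB' h₀] at hψ
  exact hψ

theorem inducedBlock_of_mem (hM : IsPModular p M) (hNT : N ≤ T) {b : Set (IrrCharacter N)} (hb : IsPBlock M b)
    (hT : IsStabN N b T) {B' : Set (IrrCharacter T)} (hB' : IsPBlock M B') {B : Set (IrrCharacter G)}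
    (hB : IsPBlock M B) {ψ : IrrCharacter T} (hψ : ψ ∈ B') {χ : IrrCharacter G} (hχ : χ ∈ B)
    (h : (χ : G → ℂ) = indFun T (ψ : T → ℂ)) : IsInducedBlock M T B' B := by
  refine isInducedBlock_of hM hB' hB hψ hχ fun g => ?_
  rw [inducedCentralChar_eq_centralChar, ← h, sub_self]
  exact MemLocalIdeal.zero hM

/-- The induced block is the block of the induced character. -/
theorem sameBlock_of_inducedBlock (hM : IsPModular p M) {B' : Set (IrrCharacter T)} {B : Set (IrrCharacter G)}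
    (hind : IsInducedBlock M T B' B) {ψ : IrrCharacter T} (hψ : ψ ∈ B') {χ : IrrCharacter G} (hχ : χ ∈ B) :
    SameBlock M (indFun T (ψ : T → ℂ)) (χ : G → ℂ) := by
  intro g
  have := hind.2.2 ψ hψ χ hχ g
  rwa [inducedCentralChar_eq_centralChar] at this

/-- The block induced from a covering block consists of the induced characters. -/
theorem mem_induced_iff (hM : IsPModular p M) (hNT : N ≤ T) {b : Set (IrrCharacter N)} (hb : IsPBlock M b)
    (hT : IsStabN N b T) {B' : Set (IrrCharacter T)} (hB' : IsPBlock M B') {ψ₀ : IrrCharacter T} (h₀ : ψ₀ ∈ B')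
    (h₀' : ψ₀ ∈ overSet (Subgroup.inclusion hNT) b) {B : Set (IrrCharacter G)} (hind : IsInducedBlock M T B' B)
    (χ : IrrCharacter G) : χ ∈ B ↔ ∃ ψ ∈ B', (χ : G → ℂ) = indFun T (ψ : T → ℂ) := by
  classical
  obtain ⟨χ₀, hχ₀⟩ := Cfsg.Agent.Lib.CharBlockDefect.block_nonempty hM hind.2.1
  have h1 := sameBlock_of_inducedBlock hM hind h₀ hχ₀
  constructor
  · intro hχ
    have h2 := sameBlock_of_inducedBlock hM hind h₀ hχ
    obtain ⟨θ, hθ, hne⟩ := over_of_sameBlock_G hM hNT hb hT h₀' h2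
    obtain ⟨ψ, hψ1, hψ2⟩ := exists_ind hNT hb hT χ hθ hne
    refine ⟨ψ, ?_, hψ2⟩
    have hov : ψ ∈ overSet (Subgroup.inclusion hNT) b := ⟨θ, hθ, hψ1⟩
    have h3 : SameBlock M (ψ₀ : T → ℂ) (ψ : T → ℂ) := by
      apply sameBlock_of_ind hM hNT hb hT h₀' hov
      rw [← hψ2]
      exact h2
    rw [blockOf_eq_of_mem hB' h₀]
    exact h3
  · rintro ⟨ψ, hψ, hχψ⟩
    rw [blockOf_eq_of_mem hind.2.1 hχ₀]
    have h3 : SameBlock M (ψ₀ : T → ℂ) (ψ : T → ℂ) := by
      rw [blockOf_eq_of_mem hB' h₀] at hψ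
      exact hψ
    have h4 := sameBlock_ind_of hM h3
    rw [← hχψ] at h4
    exact SameBlock.trans hM (SameBlock.symm h1) h4

/-- The Fong–Reynolds correspondence. -/
theorem fr_main (hM : IsPModular p M) (hNT : N ≤ T) {b : Set (IrrCharacter N)} (hb : IsPBlock M b)
    (hT : IsStabN N b T) :
    (∀ B' : Set (IrrCharacter T), IsPBlock M B' →
      (∃ ψ ∈ B', ∃ θ ∈ b, classInner (fun n : N => (ψ : T → ℂ) ⟨(n : G), hNT n.2⟩) (θ : N → ℂ) ≠ 0) →
      ∃ B : Set (IrrCharacter G), IsInducedBlock M T B' B ∧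
        (∃ χ ∈ B, ∃ θ ∈ b, classInner (fun n : N => (χ : G → ℂ) n) (θ : N → ℂ) ≠ 0) ∧
        (∀ ψ ∈ B', IsIrrCharacter G (indFun T (ψ : T → ℂ))) ∧
        ∀ χ : IrrCharacter G, χ ∈ B ↔ ∃ ψ ∈ B', (χ : G → ℂ) = indFun T (ψ : T → ℂ)) ∧
    (∀ B'₁ B'₂ : Set (IrrCharacter T), IsPBlock M B'₁ → IsPBlock M B'₂ →
      (∃ ψ ∈ B'₁, ∃ θ ∈ b, classInner (fun n : N => (ψ : T → ℂ) ⟨(n : G), hNT n.2⟩) (θ : N → ℂ) ≠ 0) →
      (∃ ψ ∈ B'₂, ∃ θ ∈ b, classInner (fun n : N => (ψ : T → ℂ) ⟨(n : G), hNT n.2⟩) (θ : N → ℂ) ≠ 0) →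
      ∀ B : Set (IrrCharacter G), IsInducedBlock M T B'₁ B → IsInducedBlock M T B'₂ B → B'₁ = B'₂) ∧
    (∀ B : Set (IrrCharacter G), IsPBlock M B →
      (∃ χ ∈ B, ∃ θ ∈ b, classInner (fun n : N => (χ : G → ℂ) n) (θ : N → ℂ) ≠ 0) →
      ∃ B' : Set (IrrCharacter T), IsPBlock M B' ∧
        (∃ ψ ∈ B', ∃ θ ∈ b, classInner (fun n : N => (ψ : T → ℂ) ⟨(n : G), hNT n.2⟩) (θ : N → ℂ) ≠ 0) ∧
        IsInducedBlock M T B' B) := by
  classical
  refine ⟨?_, ?_, ?_⟩
  · rintro B' hB' ⟨ψ₀, h₀, θ₀, hθ₀, hne⟩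
    have h₀' : ψ₀ ∈ overSet (Subgroup.inclusion hNT) b := ⟨θ₀, hθ₀, hne⟩
    have hirr := isIrr_ind hNT hb hT h₀'
    let χ₀ : IrrCharacter G := ⟨_, hirr⟩
    have hB : IsPBlock M (blockOf M (χ₀ : G → ℂ)) := ⟨χ₀, rfl⟩
    have hχ₀ : χ₀ ∈ blockOf M (χ₀ : G → ℂ) := mem_block_self χ₀
    have hind := inducedBlock_of_mem hM hNT hb hT hB' hB h₀ hχ₀ rfl
    refine ⟨blockOf M (χ₀ : G → ℂ), hind, ⟨χ₀, hχ₀, θ₀, hθ₀, ?_⟩, ?_, ?_⟩
    · exact constituent_of_ind hNT hb hT h₀' hne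
    · intro ψ hψ
      exact isIrr_ind hNT hb hT (over_of_cover hM hNT hb hT hB' h₀ h₀' hψ)
    · exact mem_induced_iff hM hNT hb hT hB' h₀ h₀' hind
  · rintro B₁ B₂ hB₁ hB₂ ⟨ψ₁, h₁, θ₁, hθ₁, hne₁⟩ ⟨ψ₂, h₂, θ₂, hθ₂, hne₂⟩ B hind₁ hind₂
    obtain ⟨χ, hχ⟩ := Cfsg.Agent.Lib.CharBlockDefect.block_nonempty hM hind₁.2.1
    have e1 := sameBlock_of_inducedBlock hM hind₁ h₁ hχ
    have e2 := sameBlock_of_inducedBlock hM hind₂ h₂ hχ
    have h3 : SameBlock M (ψ₁ : T → ℂ) (ψ₂ : T → ℂ) :=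
      sameBlock_of_ind hM hNT hb hT ⟨θ₁, hθ₁, hne₁⟩ ⟨θ₂, hθ₂, hne₂⟩ (SameBlock.trans hM e1 (SameBlock.symm e2))
    rw [blockOf_eq_of_mem hB₁ h₁, blockOf_eq_of_mem hB₂ h₂]
    exact (blockOf_eq_iff hM).2 h3
  · rintro B hB ⟨χ, hχ, θ, hθ, hne⟩
    obtain ⟨ψ, hψ1, hψ2⟩ := exists_ind hNT hb hT χ hθ hne
    refine ⟨blockOf M (ψ : T → ℂ), ⟨ψ, rfl⟩, ⟨ψ, mem_block_self ψ, θ, hθ, hψ1⟩, ?_⟩
    exact inducedBlock_of_mem hM hNT hb hT ⟨ψ, rfl⟩ hB (mem_block_self ψ) hχ hψ2

end Main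

section Defect

variable {G : Type u} [Group G] [Fintype G] {p : ℕ} {M : Ideal AlgInt} [hprime : M.IsPrime]
variable {N T : Subgroup G} [hN : N.Normal] [Fintype N] [Fintype T]

open Cfsg.Agent.Lib.CharBlockConv Cfsg.Agent.Lib.CharBlockLocal Cfsg.Agent.Lib.CharBlockBrauer
  Cfsg.Agent.Lib.CharBlockInd

theorem conv_eT_coeff (hM : IsPModular p M) (hNT : N ≤ T) {b : Set (IrrCharacter N)} (hb : IsPBlock M b)
    (hT : IsStabN N b T) {B' : Set (IrrCharacter T)} (hB' : IsPBlock M B') {ψ₀ : IrrCharacter T} (h₀ : ψ₀ ∈ B')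
    (h₀' : ψ₀ ∈ overSet (Subgroup.inclusion hNT) b) :
    Cfsg.Agent.Lib.CharBlockConv.conv (eT T N b) (blockCoeff B') = blockCoeff B' := by
  classical
  have hc := eT_isClass hb hT
  have hc' := Cfsg.Agent.Lib.BlockOsima.blockCoeff_isClass B'
  apply eq_of_omega_eq (Cfsg.Agent.Lib.CharBlockConv.conv_isClass hc hc') hc'
  intro ψ
  rw [omega_conv ψ.2 hc, omega_blockCoeff]
  by_cases h : ψ ∈ B'
  · have h1 := om_eT hNT hb hT ψ
    rw [if_pos (over_of_cover hM hNT hb hT hB' h₀ h₀' h)] at h1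
    rw [if_pos h, mul_one]
    unfold omega
    unfold om at h1
    rw [div_eq_inv_mul]
    exact h1
  · rw [if_neg h, mul_zero]

/-- The idempotent of the induced block is the relative trace of the idempotent. -/
theorem coeff_ind (hM : IsPModular p M) (hNT : N ≤ T) {b : Set (IrrCharacter N)} (hb : IsPBlock M b)
    (hT : IsStabN N b T) {B' : Set (IrrCharacter T)} (hB' : IsPBlock M B') {ψ₀ : IrrCharacter T} (h₀ : ψ₀ ∈ B')
    (h₀' : ψ₀ ∈ overSet (Subgroup.inclusion hNT) b) {B : Set (IrrCharacter G)} (hind : IsInducedBlock M T B' B) :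
    blockCoeff B = indFun T (blockCoeff B') := by
  classical
  have hiff := mem_induced_iff hM hNT hb hT hB' h₀ h₀' hind
  apply eq_of_omega_eq (Cfsg.Agent.Lib.BlockOsima.blockCoeff_isClass B) (Cfsg.Agent.Lib.CharOps.indFun_isClassFunction T _)
  intro χ
  rw [omega_blockCoeff]
  by_cases hχ : χ ∈ B
  · rw [if_pos hχ]
    obtain ⟨ψ, hψ, e⟩ := (hiff χ).1 hχ
    rw [e]
    conv_rhs => rw [← conv_eT_coeff hM hNT hb hT hB' h₀ h₀']
    rw [omega_trace hNT hb hT (over_of_cover hM hNT hb hT hB' h₀ h₀' hψ), omega_blockCoeff, if_pos hψ]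
  · rw [if_neg hχ]
    have hχc := Cfsg.Agent.Lib.CharOps.IsCharacter.isClassFunction' (Cfsg.Agent.Lib.CharOps.IsIrrCharacter.isCharacter' χ.2)
    have hres : IsClassFunction T (fun t : T => (χ : G → ℂ) t) := by
      intro g h
      have := hχc g h
      simpa using this
    have h0 : ∀ ψ ∈ B', classInner (fun t : T => (χ : G → ℂ) t) (ψ : T → ℂ) = 0 := by
      intro ψ hψ
      by_contra hne
      apply hχ
      have hov := over_of_cover hM hNT hb hT hB' h₀ h₀' hψ
      have h3 : classInner (indFun T (ψ : T → ℂ)) (χ : G → ℂ) ≠ 0 := by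
        rw [Cfsg.Agent.Lib.CharOps.frobenius_reciprocity T _ hχc, ← classInner_conj]
        intro h
        apply hne
        have := congrArg conj h
        simpa using this
      rw [classInner_irr (isIrr_ind hNT hb hT hov) χ.2] at h3
      refine (hiff χ).2 ⟨ψ, hψ, ?_⟩
      by_contra hne2
      rw [if_neg (fun h => hne2 h.symm)] at h3
      exact h3 rfl
    have h4 := sum_blockCoeff_mul_eq B' hres h0
    symm
    unfold omega
    have h5 : ∑ g, indFun T (blockCoeff B') g * (χ : G → ℂ) g =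
        (T.index : ℂ) * ∑ h : T, (χ : G → ℂ) h * blockCoeff B' h := by
      rw [← sum_mul_indFun T _ hχc]
      exact Finset.sum_congr rfl fun g _ => mul_comm _ _
    rw [h5]
    simp only [mul_comm ((χ : G → ℂ) _)]
    rw [h4]
    simp

/-- A defect group of the induced block is no larger. -/
theorem card_defect_le (hM : IsPModular p M) {B' : Set (IrrCharacter T)} (hB' : IsPBlock M B') {B : Set (IrrCharacter G)}
    (hcoef : blockCoeff B = indFun T (blockCoeff B')) {D : Subgroup T} (hD : IsDefectGroup p M B' D)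
    {E : Subgroup G} (hE : IsDefectGroup p M B E) : Nat.card E ≤ Nat.card D := by
  classical
  haveI : Fact p.Prime := ⟨hM.1⟩
  obtain ⟨g₀, hg₀, S, rfl⟩ := hE
  obtain ⟨g', hg', D', rfl⟩ := hD
  set R : Subgroup G := (S : Subgroup (Subgroup.centralizer ({g₀} : Set G))).map (Subgroup.centralizer ({g₀} : Set G)).subtype with hR
  have hRp : IsPGroup p R := Cfsg.Agent.Lib.CharBlockMinMax.isPGroup_sylow_map S
  have hRc : ∀ r ∈ R, r * g₀ = g₀ * r := Cfsg.Agent.Lib.CharBlockMinMax.sylow_map_centralizes S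
  set Z : G → ℂ := extendByZero T (blockCoeff B') with hZdef
  have hZ : TInv T Z := by
    intro t ht g
    by_cases hg : g ∈ T
    · have h' : t * g * t⁻¹ ∈ T := T.mul_mem (T.mul_mem ht hg) (T.inv_mem ht)
      rw [hZdef, Cfsg.Agent.Lib.CharOps.extendByZero_of_mem T _ h', Cfsg.Agent.Lib.CharOps.extendByZero_of_mem T _ hg]
      have := Cfsg.Agent.Lib.BlockOsima.blockCoeff_isClass B' ⟨g, hg⟩ ⟨t, ht⟩
      exact this
    · have h' : t * g * t⁻¹ ∉ T := by
        intro h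
        apply hg
        have := T.mul_mem (T.mul_mem (T.inv_mem ht) h) ht
        simpa [mul_assoc] using this
      rw [hZdef, Cfsg.Agent.Lib.CharOps.extendByZero_of_not_mem T _ h', Cfsg.Agent.Lib.CharOps.extendByZero_of_not_mem T _ hg]
  have hZl : ∀ g, MemLocalRing M (Z g) := by
    intro x
    by_cases hx : x ∈ T
    · rw [hZdef, Cfsg.Agent.Lib.CharOps.extendByZero_of_mem T _ hx]
      exact (Cfsg.Agent.Lib.CharBlockConv.isRClass_blockCoeff hM hB').2 _
    · rw [hZdef, Cfsg.Agent.Lib.CharOps.extendByZero_of_not_mem T _ hx]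
      exact MemLocalRing.zero hM
  have hcard : (Nat.card T : ℂ) ≠ 0 := by exact_mod_cast Nat.card_pos.ne'
  have hval : blockCoeff B g₀ = relTrace T Z g₀ := by
    rw [hcoef, Cfsg.Agent.Lib.CharOps.indFun_apply, Cfsg.Agent.Lib.BlockFong.sum_eq_card_mul_relTrace hZ g₀,
      inv_mul_cancel_left₀ hcard]
  letI : Fintype (G ⧸ T) := Fintype.ofFinite _
  have hcong := relTrace_cong_fixed hM hZ hZl hRp hRc
  have hnot : ¬ MemLocalIdeal M (relTrace T Z g₀) := by
    rw [← hval]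
    exact hg₀.2.1
  have hex : ∃ q : G ⧸ T, (∀ r : R, (r : G) • q = q) ∧ ¬ MemLocalIdeal M (trm T Z g₀ q) := by
    by_contra hcon
    push_neg at hcon
    apply hnot
    have hsum : MemLocalIdeal M (∑ q : G ⧸ T, if (∀ r : R, (r : G) • q = q) then trm T Z g₀ q else 0) := by
      apply MemLocalIdeal.sum hM
      intro q _
      split_ifs with hq
      · exact hcon q hq
      · exact MemLocalIdeal.zero hM
    have := MemLocalIdeal.add hM hcong hsum
    simpa using this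
  obtain ⟨q, hq, hqn⟩ := hex
  set x := Quotient.out q with hx
  have hfix := (fixed_iff_mem R q).1 hq
  have hterm : trm T Z g₀ q = Z (x⁻¹ * g₀ * x) := rfl
  rw [hterm] at hqn
  have hmem : x⁻¹ * g₀ * x ∈ T := by
    by_contra hne
    apply hqn
    rw [hZdef, Cfsg.Agent.Lib.CharOps.extendByZero_of_not_mem T _ hne]
    exact MemLocalIdeal.zero hM
  rw [hZdef, Cfsg.Agent.Lib.CharOps.extendByZero_of_mem T _ hmem] at hqn
  let R' : Subgroup G := R.map (MulAut.conj x⁻¹).toMonoidHom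
  have hR'T : R' ≤ T := by
    rintro _ ⟨r, hr, rfl⟩
    simpa using hfix r hr
  have hR'p : IsPGroup p R' := isPGroup_map_conj hRp _
  have hR''p : IsPGroup p (R'.subgroupOf T) := hR'p.comap_of_injective T.subtype Subtype.val_injective
  have hcomm : ∀ y ∈ R'.subgroupOf T, y * (⟨_, hmem⟩ : T) = (⟨_, hmem⟩ : T) * y := by
    intro y hy
    apply Subtype.ext
    obtain ⟨r, hr, e⟩ := Subgroup.mem_subgroupOf.1 hy
    have e' : (y : G) = x⁻¹ * r * x := by
      rw [← e]
      simp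
    show (y : G) * (x⁻¹ * g₀ * x) = (x⁻¹ * g₀ * x) * y
    rw [e']
    have := hRc r hr
    calc x⁻¹ * r * x * (x⁻¹ * g₀ * x) = x⁻¹ * (r * g₀) * x := by group
      _ = x⁻¹ * (g₀ * r) * x := by rw [this]
      _ = _ := by group
  obtain ⟨y, hy⟩ := Cfsg.Agent.Lib.CharBlockMinMax.sylow_le_defect hM hB' hg' D' hqn hR''p hcomm
  have h1 := Subgroup.card_le_of_le hy
  rw [Cfsg.Agent.Lib.CharBlockInd.card_map_conj] at h1
  have h2 : Nat.card (R'.subgroupOf T) = Nat.card R' :=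
    Nat.card_congr (Subgroup.subgroupOfEquivOfLe hR'T).toEquiv
  have h3 : Nat.card R' = Nat.card R := Cfsg.Agent.Lib.CharBlockInd.card_map_conj R x⁻¹
  rw [h2, h3] at h1
  exact h1

/-- The transfer of defect groups. -/
theorem defect_of_induced (hM : IsPModular p M) (hNT : N ≤ T) {b : Set (IrrCharacter N)} (hb : IsPBlock M b)
    (hT : IsStabN N b T) {B' : Set (IrrCharacter T)} (hB' : IsPBlock M B') {ψ₀ : IrrCharacter T} (h₀ : ψ₀ ∈ B')
    (h₀' : ψ₀ ∈ overSet (Subgroup.inclusion hNT) b) {B : Set (IrrCharacter G)} (hind : IsInducedBlock M T B' B)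
    {D : Subgroup T} (hD : IsDefectGroup p M B' D) : IsDefectGroup p M B (D.map T.subtype) := by
  obtain ⟨E, hE, hle⟩ := exists_defect_le_of_induced hM hind hD
  have h1 := card_defect_le hM hB' (coeff_ind hM hNT hb hT hB' h₀ h₀' hind) hD hE
  have h2 : Nat.card (D.map T.subtype) = Nat.card D :=
    Nat.card_congr (Subgroup.equivMapOfInjective D T.subtype Subtype.val_injective).symm.toEquiv
  have h3 : D.map T.subtype = E := Subgroup.eq_of_le_of_card_ge hle (by rw [h2]; exact h1)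
  rw [h3]
  exact hE

/-- Heights are preserved. -/
theorem height_of_induced (hM : IsPModular p M) (hNT : N ≤ T) {b : Set (IrrCharacter N)} (hb : IsPBlock M b)
    (hT : IsStabN N b T) {B' : Set (IrrCharacter T)} (hB' : IsPBlock M B') {ψ₀ : IrrCharacter T} (h₀ : ψ₀ ∈ B')
    (h₀' : ψ₀ ∈ overSet (Subgroup.inclusion hNT) b) {B : Set (IrrCharacter G)} (hind : IsInducedBlock M T B' B)
    {ψ : IrrCharacter T} (hψ : ψ ∈ B') :
    ∃ χ ∈ B, (χ : G → ℂ) = indFun T (ψ : T → ℂ) ∧ blockHeight p B (χ : G → ℂ) = blockHeight p B' (ψ : T → ℂ) := by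
  classical
  have hiff := mem_induced_iff hM hNT hb hT hB' h₀ h₀' hind
  have hidx0 : T.index ≠ 0 := Subgroup.index_ne_zero_of_finite
  have hdeg : ∀ ψ' ∈ B', ∀ χ' : G → ℂ, χ' = indFun T (ψ' : T → ℂ) →
      (charDegree χ').factorization p = T.index.factorization p + (charDegree (ψ' : T → ℂ)).factorization p := by
    intro ψ' hψ' χ' e
    have hov := over_of_cover hM hNT hb hT hB' h₀ h₀' hψ'
    have hirr := isIrr_ind hNT hb hT hov
    rw [← e] at hirr
    have h1 := Cfsg.Agent.Lib.CharBlockDefect.charDegree_cast (Cfsg.Agent.Lib.CharOps.IsIrrCharacter.isCharacter' hirr)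
    have h2 := Cfsg.Agent.Lib.CharBlockDefect.charDegree_cast (Cfsg.Agent.Lib.CharOps.IsIrrCharacter.isCharacter' ψ'.2)
    have h3 : χ' 1 = (T.index : ℂ) * (ψ' : T → ℂ) 1 := by
      rw [e, indFun_one_eq]
    have h4 : charDegree χ' = T.index * charDegree (ψ' : T → ℂ) := by
      have : ((charDegree χ' : ℕ) : ℂ) = ((T.index * charDegree (ψ' : T → ℂ) : ℕ) : ℂ) := by
        push_cast
        rw [h1, h2, h3]
      exact_mod_cast this
    rw [h4, Nat.factorization_mul hidx0 (Cfsg.Agent.Lib.CharBlockDefect.charDegree_ne_zero ψ'.2)]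
    rfl
  have hov := over_of_cover hM hNT hb hT hB' h₀ h₀' hψ
  let χ : IrrCharacter G := ⟨_, isIrr_ind hNT hb hT hov⟩
  have hχ : χ ∈ B := (hiff χ).2 ⟨ψ, hψ, rfl⟩
  refine ⟨χ, hχ, rfl, ?_⟩
  unfold blockHeight
  set S : Set ℕ := (fun ψ' : IrrCharacter T => (charDegree (ψ' : T → ℂ)).factorization p) '' B' with hS
  set S' : Set ℕ := (fun χ' : IrrCharacter G => (charDegree (χ' : G → ℂ)).factorization p) '' B with hS'
  have hSne : S.Nonempty := ⟨_, ψ, hψ, rfl⟩
  have hS'ne : S'.Nonempty := ⟨_, χ, hχ, rfl⟩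
  have hinf : sInf S' = T.index.factorization p + sInf S := by
    apply le_antisymm
    · obtain ⟨ψ', hψ', e⟩ := Nat.sInf_mem hSne
      have hov' := over_of_cover hM hNT hb hT hB' h₀ h₀' hψ'
      let χ' : IrrCharacter G := ⟨_, isIrr_ind hNT hb hT hov'⟩
      have hχ' : χ' ∈ B := (hiff χ').2 ⟨ψ', hψ', rfl⟩
      have hmem : (charDegree (χ' : G → ℂ)).factorization p ∈ S' := ⟨χ', hχ', rfl⟩
      have := Nat.sInf_le hmem
      rw [hdeg ψ' hψ' _ rfl] at this
      rw [← e]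
      exact this
    · obtain ⟨χ', hχ', e⟩ := Nat.sInf_mem hS'ne
      obtain ⟨ψ', hψ', e'⟩ := (hiff χ').1 hχ'
      have h1 := hdeg ψ' hψ' _ e'
      have h2 : sInf S ≤ (charDegree (ψ' : T → ℂ)).factorization p := Nat.sInf_le ⟨ψ', hψ', rfl⟩
      rw [← e]
      show _ ≤ (charDegree (χ' : G → ℂ)).factorization p
      rw [h1]
      omega
  rw [hinf, hdeg ψ hψ _ rfl]
  omega

end Defect

end Cfsg.Agent.Lib.BlockFR
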