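import Cfsg.Agent.Lib.BlockFus

/-!
# Fong–Reynolds type statements for Brauer pairs on normal subgroups
-/

set_option autoImplicit false
set_option linter.all false

namespace Cfsg.Agent.Lib.BlockFong

open Cfsg Cfsg.Agent.Lib.BlockLocal Cfsg.Agent.Lib.BlockOsima Cfsg.Agent.Lib.BlockBr
  Cfsg.Agent.Lib.BlockApps Cfsg.Agent.Lib.CharIrr Cfsg.Agent.Lib.BlockPair Cfsg.Agent.Lib.BlockSub
  Cfsg.Agent.Lib.BlockMax Cfsg.Agent.Lib.BlockTrace Cfsg.Agent.Lib.BlockConjP Cfsg.Agent.Lib.BlockFull
open scoped ComplexConjugate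

universe u

section Sum

variable {G : Type u} [Group G] [Fintype G]

/-- The sum over the group versus the relative trace. -/
theorem sum_eq_card_mul_relTrace {T : Subgroup G} {Z : G → ℂ} (hZ : TInv T Z) (g : G) :
    ∑ x : G, Z (x⁻¹ * g * x) = (Nat.card T : ℂ) * relTrace T Z g := by
  classical
  letI : Fintype (G ⧸ T) := Fintype.ofFinite _
  letI : Fintype T := Fintype.ofFinite _
  let φ : (G ⧸ T) × T → G := fun a => Quotient.out a.1 * a.2
  have hφ : Function.Bijective φ := by
    constructor
    · rintro ⟨q, t⟩ ⟨q', t'⟩ h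
      have h' : Quotient.out q * (t : G) = Quotient.out q' * t' := h
      have e1 : ((Quotient.out q : G) : G ⧸ T) = ((Quotient.out q' : G) : G ⧸ T) := by
        apply QuotientGroup.eq.2
        have : (Quotient.out q)⁻¹ * Quotient.out q' = (t : G) * (t' : G)⁻¹ := by
          rw [inv_mul_eq_iff_eq_mul, ← mul_assoc, h', mul_inv_cancel_right]
        rw [this]
        exact T.mul_mem t.2 (T.inv_mem t'.2)
      rw [QuotientGroup.out_eq', QuotientGroup.out_eq'] at e1
      subst e1
      have : t = t' := Subtype.ext (mul_left_cancel h')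
      rw [this]
    · intro x
      have h1 : ((Quotient.out ((x : G) : G ⧸ T) : G) : G ⧸ T) = (x : G ⧸ T) := QuotientGroup.out_eq' _
      have h2 := QuotientGroup.eq.1 h1
      refine ⟨⟨(x : G ⧸ T), ⟨_, h2⟩⟩, ?_⟩
      simp [φ]
  rw [← Function.Bijective.sum_comp hφ, Fintype.sum_prod_type]
  have h3 : ∀ (q : G ⧸ T) (t : T), Z ((φ (q, t))⁻¹ * g * φ (q, t)) = trm T Z g q := by
    intro q t
    have h4 := hZ _ (T.inv_mem t.2) ((Quotient.out q)⁻¹ * g * Quotient.out q)
    rw [trm_out, ← h4]
    congr 1
    simp only [φ]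
    group
  simp only [h3, Finset.sum_const, Finset.card_univ, nsmul_eq_mul, Nat.card_eq_fintype_card]
  unfold relTrace
  rw [Finset.mul_sum]

end Sum

section Normal

variable {G : Type u} [Group G] [Fintype G] {p : ℕ} {M : Ideal AlgInt} [hprime : M.IsPrime]

/-- The central character of a trace of a block idempotent. -/
theorem om_trace_value {P : Subgroup G} [hPn : P.Normal]
    [Fintype (Subgroup.centralizer (P : Set G))]
    {e : Set (IrrCharacter (Subgroup.centralizer (P : Set G)))}
    (hstab : ∀ x : G, x ∈ Subgroup.normalizer ((Subgroup.centralizer (P : Set G) : Subgroup G) : Set G))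
    {T : Subgroup G} (hZ : TInv T (subgroupBlockCoeff (Subgroup.centralizer (P : Set G)) e))
    (ξ : IrrCharacter (Subgroup.centralizer (P : Set G))) :
    letI : Fintype (G ⧸ T) := Fintype.ofFinite _
    om (ξ : Subgroup.centralizer (P : Set G) → ℂ) (relTrace T (subgroupBlockCoeff (Subgroup.centralizer (P : Set G)) e) ∘ (Subgroup.centralizer (P : Set G)).subtype) =
      ∑ q : G ⧸ T, om (irrComp (conjEquiv _ (Quotient.out q) (hstab _)) ξ : Subgroup.centralizer (P : Set G) → ℂ) (blockCoeff e) := by
  letI : Fintype (G ⧸ T) := Fintype.ofFinite _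
  have h1 : relTrace T (subgroupBlockCoeff (Subgroup.centralizer (P : Set G)) e) ∘ (Subgroup.centralizer (P : Set G)).subtype =
      fun c : Subgroup.centralizer (P : Set G) => ∑ q : G ⧸ T, subgroupBlockCoeff (Subgroup.centralizer (P : Set G)) e ((Quotient.out q)⁻¹ * (c : G) * Quotient.out q) := by
    funext c
    rfl
  rw [h1, om_sum']
  refine Finset.sum_congr rfl fun q _ => ?_
  set σ := conjEquiv _ (Quotient.out q) (hstab (Quotient.out q)) with hσ
  have h2 := om_comp σ.symm (irrComp σ ξ : Subgroup.centralizer (P : Set G) → ℂ) (blockCoeff e)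
  rw [← h2]
  congr 1
  · funext c
    simp [irrComp_apply]
  · funext c
    have : (Quotient.out q)⁻¹ * (c : G) * Quotient.out q = ((σ.symm c : Subgroup.centralizer (P : Set G)) : G) := by
      rw [hσ, conjEquiv_symm_apply]
    rw [this, subgroupBlockCoeff_mem]

/-- The second half of the Fong–Reynolds statement. -/
theorem blockCoeff_eq_trace (hM : IsPModular p M) {P : Subgroup G} [hPn : P.Normal] (hP : IsPGroup p P)
    {B : Set (IrrCharacter G)} {e : Set (IrrCharacter (Subgroup.centralizer (P : Set G)))}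
    (hBe : IsBrauerPairOf p M B P e) {T : Subgroup G}
    (hT : IsStab P e T) :
    blockCoeff B = relTrace T (subgroupBlockCoeff (Subgroup.centralizer (P : Set G)) e) := by
  classical
  letI : Fintype (Subgroup.centralizer (P : Set G)) := Fintype.ofFinite _
  letI : Fintype (G ⧸ T) := Fintype.ofFinite _
  obtain ⟨hPe, hB, hpair⟩ := id hBe
  have he := hPe.2
  have hN : ∀ x : G, x ∈ Subgroup.normalizer (P : Set G) := by
    intro x
    rw [Subgroup.mem_normalizer_iff]
    intro a
    constructor
    · intro ha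
      exact hPn.conj_mem a ha x
    · intro ha
      have := hPn.conj_mem _ ha x⁻¹
      simpa [mul_assoc] using this
  have hstab : ∀ x : G, x ∈ Subgroup.normalizer ((Subgroup.centralizer (P : Set G) : Subgroup G) : Set G) :=
    fun x => cent_le_norm_cent P (hN x)
  set β := subgroupBlockCoeff (Subgroup.centralizer (P : Set G)) e with hβ
  have hβinv : TInv T β := fun t ht g => subgroupBlockCoeff_stable _ he (hT.stab ht) g
  have hβl : ∀ g, MemLocalRing M (β g) := subgroupBlockCoeff_local _ he
  have huc : IsClassFunction G (relTrace T β) := relTrace_isClass hβinv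
  have hul : ∀ g, MemLocalRing M (relTrace T β g) := relTrace_local hβl
  let ι := (Subgroup.centralizer (P : Set G)).subtype
  have hι : Function.Injective ι := Subtype.val_injective
  have hCn : ι.range.Normal := by
    rw [Subgroup.range_subtype]
    constructor
    intro c hc g
    exact (Subgroup.mem_normalizer_iff.1 (hstab g) c).1 hc
  have hsupp : ∀ x, x ∉ ι.range → relTrace T β x = 0 := by
    intro x hx
    refine Finset.sum_eq_zero fun q _ => ?_
    rw [trm_out]
    apply subgroupBlockCoeff_not_mem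
    intro hm
    apply hx
    rw [Subgroup.range_subtype]
    have := (Subgroup.mem_normalizer_iff.1 (hstab (Quotient.out q)) _).1 hm
    simpa [mul_assoc] using this
  have hval : ∀ (ψ : IrrCharacter G) (ξ : IrrCharacter (Subgroup.centralizer (P : Set G))),
      classInner (fun h => (ψ : G → ℂ) (ι h)) (ξ : Subgroup.centralizer (P : Set G) → ℂ) ≠ 0 →
      om (ψ : G → ℂ) (relTrace T β) = ∑ q : G ⧸ T, if irrComp (conjEquiv _ (Quotient.out q) (hstab _)) ξ ∈ e then 1 else 0 := by
    intro ψ ξ hc
    rw [om_eq_of_constituent ι hι hCn hc huc hsupp]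
    have := om_trace_value hstab hβinv ξ
    refine Eq.trans this ?_
    refine Finset.sum_congr rfl fun q _ => ?_
    rw [om_blockCoeff]
  -- the case where a conjugate of `ξ` lies in `e`
  have hcase1 : ∀ (ψ : IrrCharacter G) (ξ : IrrCharacter (Subgroup.centralizer (P : Set G))),
      classInner (fun h => (ψ : G → ℂ) (ι h)) (ξ : Subgroup.centralizer (P : Set G) → ℂ) ≠ 0 →
      ∀ x₀ : G, irrComp (conjEquiv _ x₀ (hstab _)) ξ ∈ e → om (ψ : G → ℂ) (relTrace T β) = 1 ∧ ψ ∈ B := by
    intro ψ ξ hc x₀ hx₀
    have hiff : ∀ x : G, irrComp (conjEquiv _ x (hstab _)) ξ ∈ e ↔ (x : G ⧸ T) = (x₀ : G ⧸ T) := by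
      intro x
      have e1 : irrComp (conjEquiv _ x (hstab x)) ξ =
          irrComp (conjEquiv _ (x₀⁻¹ * x) (hstab _)) (irrComp (conjEquiv _ x₀ (hstab _)) ξ) := by
        apply Subtype.ext
        funext c
        simp only [irrComp_apply]
        have e2 : conjEquiv _ x (hstab x) c = conjEquiv _ x₀ (hstab x₀) (conjEquiv _ (x₀⁻¹ * x) (hstab _) c) := by
          apply Subtype.ext
          simp only [conjEquiv_apply]
          group
        rw [e2]
      rw [e1, conj_mem_iff he hT hx₀ (hN _) (hstab _)]
      constructor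
      · intro h
        apply Eq.symm
        exact QuotientGroup.eq.2 h
      · intro h
        exact QuotientGroup.eq.1 h.symm
    constructor
    · rw [hval ψ ξ hc]
      have hterm : ∀ q : G ⧸ T, (if irrComp (conjEquiv _ (Quotient.out q) (hstab _)) ξ ∈ e then (1 : ℂ) else 0) =
          if q = (x₀ : G ⧸ T) then 1 else 0 := by
        intro q
        have := hiff (Quotient.out q)
        rw [QuotientGroup.out_eq'] at this
        simp only [this]
      rw [Finset.sum_congr rfl fun q _ => hterm q, Finset.sum_ite_eq' Finset.univ (x₀ : G ⧸ T)]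
      simp
    · apply mem_of_cong_one (M := M)
      refine Cong.trans (om_congr_omI hM P hP ι hι (range_cent P) hc (blockCoeff_isLC hB)) ?_
      have h1 := hpair _ hx₀
      rw [brauerOmega_eq] at h1
      refine Cong.trans ?_ h1
      have h2 := om_comp (conjEquiv _ x₀ (hstab x₀)) (ξ : Subgroup.centralizer (P : Set G) → ℂ)
        (blockCoeff B ∘ (Subgroup.centralizer (P : Set G)).subtype)
      have h3 : (fun a : Subgroup.centralizer (P : Set G) => (blockCoeff B ∘ (Subgroup.centralizer (P : Set G)).subtype) (conjEquiv _ x₀ (hstab x₀) a)) =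
          blockCoeff B ∘ (Subgroup.centralizer (P : Set G)).subtype := by
        funext a
        exact blockCoeff_isClass B _ _
      rw [h3] at h2
      unfold omI
      rw [← h2]
      exact Cong.refl _
  apply class_eq_of_om (blockCoeff_isClass B) huc
  intro ψ
  rw [om_blockCoeff]
  obtain ⟨ξ, hξ⟩ := exists_under ι hι ψ
  by_cases hex : ∃ x₀ : G, irrComp (conjEquiv _ x₀ (hstab _)) ξ ∈ e
  · obtain ⟨x₀, hx₀⟩ := hex
    obtain ⟨h1, h2⟩ := hcase1 ψ ξ hξ x₀ hx₀
    rw [h1, if_pos h2]
  · push_neg at hex
    have h0 : om (ψ : G → ℂ) (relTrace T β) = 0 := by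
      rw [hval ψ ξ hξ]
      exact Finset.sum_eq_zero fun q _ => if_neg (hex _)
    rw [h0, if_neg]
    intro hψ
    obtain ⟨ξ₁, rfl⟩ := id he
    have hξ₁ := mem_block_self (M := M) ξ₁
    obtain ⟨ψ₀, hψ₀⟩ := exists_irr_over ι hι ξ₁
    have e1 : irrComp (conjEquiv _ (1 : G) (hstab 1)) ξ₁ = ξ₁ := by
      apply Subtype.ext
      funext c
      simp only [irrComp_apply]
      have e3 : conjEquiv _ (1 : G) (hstab 1) c = c := by
        apply Subtype.ext
        simp
      rw [e3]
    obtain ⟨h1, h2⟩ := hcase1 ψ₀ ξ₁ hψ₀ 1 (by rw [e1]; exact hξ₁)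
    have h3 := om_sameBlock (M := M) ψ₀.2 ψ.2 huc hul (sameBlock_of_mem_block hB h2 hψ)
    rw [h1, h0, sub_zero] at h3
    exact one_not_memLocalIdeal (M := M) h3

end Normal

end Cfsg.Agent.Lib.BlockFong
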