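import Cfsg.Agent.Lib.BlockRecep

/-!
# Nilpotent blocks and inner fusion
-/

set_option autoImplicit false
set_option linter.all false

namespace Cfsg.Agent.Lib.BlockFrob

open Cfsg Cfsg.Agent.Lib.BlockLocal Cfsg.Agent.Lib.BlockOsima Cfsg.Agent.Lib.BlockBr
  Cfsg.Agent.Lib.BlockApps Cfsg.Agent.Lib.CharIrr Cfsg.Agent.Lib.BlockPair Cfsg.Agent.Lib.BlockSub
  Cfsg.Agent.Lib.BlockMax Cfsg.Agent.Lib.BlockTrace Cfsg.Agent.Lib.BlockConjP Cfsg.Agent.Lib.BlockFull
  Cfsg.Agent.Lib.BlockFus Cfsg.Agent.Lib.BlockFus2 Cfsg.Agent.Lib.BlockSat Cfsg.Agent.Lib.BlockTrans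
  Cfsg.Agent.Lib.BlockRecep
open scoped ComplexConjugate

universe u

section Nil

variable {G : Type u} [Group G] [Fintype G] {p : ℕ} {M : Ideal AlgInt} [hprime : M.IsPrime]
  {B : Set (IrrCharacter G)} {P : Subgroup G} {e : Set (IrrCharacter (Subgroup.centralizer (P : Set G)))}

/-- In a nilpotent block the stabilizer is a defect group times the centralizer. -/
theorem stab_eq_mulCent (hM : IsPModular p M) (hnil : IsNilpotentBlock p M B) {Q : Subgroup G}
    {f : Set (IrrCharacter (Subgroup.centralizer (Q : Set G)))} (hQf : IsBrauerPairOf p M B Q f)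
    {T : Subgroup G} (hT : IsStab Q f T) [Fintype T] [Fintype (Subgroup.centralizer (Q : Set G))]
    {L : Subgroup G} (hD : IsDefectGroup p M (overSet (Subgroup.inclusion hT.cent_le) f) (L.subgroupOf T))
    {t : G} (ht : t ∈ T) :
    ∃ l ∈ L, ∃ c ∈ Subgroup.centralizer (Q : Set G), t = l * c := by
  classical
  haveI : Fact p.Prime := ⟨hM.1⟩
  haveI := hT.normal
  let ι := Subgroup.inclusion hT.cent_le
  haveI hn : ι.range.Normal := range_normal_of_centralizer (Q.subgroupOf T) ι hT.range_iff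
  have hidx := defect_sup_index hM hQf.1 hT hD
  have hpg : IsPGroup p (T ⧸ ι.range) := by
    intro x
    induction x using QuotientGroup.induction_on with
    | H t₀ =>
      obtain ⟨a, m, hm, hn'⟩ := Nat.exists_eq_pow_mul_and_not_dvd (orderOf_pos t₀).ne' p hM.1.ne_one
      refine ⟨a, ?_⟩
      have hne : p ^ a ≠ 0 := pow_ne_zero _ hM.1.ne_zero
      have hord : orderOf (t₀ ^ (p ^ a)) = m := by
        rw [orderOf_pow_of_dvd hne (by rw [hn']; exact dvd_mul_right _ _), hn']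
        exact Nat.mul_div_cancel_left _ (Nat.pos_of_ne_zero hne)
      have hreg : IsPRegular p ((t₀ ^ (p ^ a) : T) : G) := by
        show ¬ p ∣ orderOf ((t₀ ^ (p ^ a) : T) : G)
        rw [Subgroup.orderOf_coe, hord]
        exact hm
      have hc : ((t₀ ^ (p ^ a) : T) : G) ∈ Subgroup.centralizer (Q : Set G) :=
        hnil.2 Q f hQf _ (hT.le_norm (t₀ ^ (p ^ a)).2) (hT.stab (t₀ ^ (p ^ a)).2) hreg
      rw [← QuotientGroup.mk_pow]
      exact (QuotientGroup.eq_one_iff _).2 ⟨⟨_, hc⟩, rfl⟩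
  obtain ⟨k, hk⟩ := IsPGroup.iff_card.1 hpg
  have hdvd : ((L.subgroupOf T) ⊔ ι.range).index ∣ ι.range.index := Subgroup.index_dvd_of_le le_sup_right
  have hk2 : ι.range.index = p ^ k := hk
  rw [hk2] at hdvd
  obtain ⟨j, hj, hj'⟩ := (Nat.dvd_prime_pow hM.1).1 hdvd
  have hj0 : j = 0 := by
    by_contra h
    exact hidx (hj' ▸ dvd_pow_self p h)
  have hone : ((L.subgroupOf T) ⊔ ι.range).index = 1 := by rw [hj', hj0, pow_zero]
  have htop := Subgroup.index_eq_one.1 hone
  have hmem : (⟨t, ht⟩ : T) ∈ (((L.subgroupOf T) ⊔ ι.range : Subgroup T) : Set T) := by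
    rw [htop]
    trivial
  rw [Subgroup.mul_normal] at hmem
  obtain ⟨a, ha, b, ⟨c, rfl⟩, hab⟩ := Set.mem_mul.1 hmem
  refine ⟨a, Subgroup.mem_subgroupOf.1 ha, c, c.2, ?_⟩
  exact (congrArg Subtype.val hab).symm

/-- The stabilizer block of a maximal pair has the pair's subgroup as a defect group. -/
theorem maximal_stab_defect (hM : IsPModular p M) (hmax : IsMaximalBrauerPair p M B P e)
    {T : Subgroup G} (hT : IsStab P e T) [Fintype T] [Fintype (Subgroup.centralizer (P : Set G))] :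
    IsDefectGroup p M (overSet (Subgroup.inclusion hT.cent_le) e) (P.subgroupOf T) := by
  classical
  haveI : Fact p.Prime := ⟨hM.1⟩
  obtain ⟨hBP, hm⟩ := hmax
  have hPe := hBP.1
  obtain ⟨hF, -⟩ := stab_block hM hPe.1 hPe.2 hT
  obtain ⟨g₀, hg₀⟩ := Cfsg.Agent.Lib.CharBlockConv.exists_defect_class hM hF
  let Dₛ : Sylow p (Subgroup.centralizer ({g₀} : Set T)) := default
  let D : Subgroup T := (Dₛ : Subgroup (Subgroup.centralizer ({g₀} : Set T))).map (Subgroup.centralizer ({g₀} : Set T)).subtype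
  have hD : IsDefectGroup p M (overSet (Subgroup.inclusion hT.cent_le) e) D := ⟨g₀, hg₀, Dₛ, rfl⟩
  obtain ⟨g, hg⟩ := exists_pair_above hM hPe hT hD
  have h1 : IsBrauerPairOf p M B (D.map T.subtype) g := (pairOf_normal_iff hM hg hBP.2.1).2 hBP
  have h2 := hm _ g h1 (Relation.ReflTransGen.single hg)
  have h3 : P.subgroupOf T = D := by
    rw [← h2]
    exact Subgroup.comap_map_eq_self_of_injective Subtype.val_injective D
  rw [h3]
  exact hD

/-- The card of a conjugate. -/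
theorem card_map_conj (A : Subgroup G) (y : G) : Nat.card (A.map (MulAut.conj y).toMonoidHom) = Nat.card A :=
  Subgroup.card_map_of_injective (MulAut.conj y).injective

/-- The induction step: an element moving `(A, fA)` onto a suitably normalized pair acts as an element of `P`. -/
theorem acts_of_target (hM : IsPModular p M) (hmax : IsMaximalBrauerPair p M B P e) (hnil : IsNilpotentBlock p M B)
    {Q₂ : Subgroup G} {f₂ : Set (IrrCharacter (Subgroup.centralizer (Q₂ : Set G)))} (hle₂ : SubpairLE p M Q₂ f₂ P e)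
    {T₂ : Subgroup G} (hT₂ : IsStab Q₂ f₂ T₂) [Fintype T₂] [Fintype (Subgroup.centralizer (Q₂ : Set G))]
    (hD₂ : IsDefectGroup p M (overSet (Subgroup.inclusion hT₂.cent_le) f₂) ((P ⊓ Subgroup.normalizer (Q₂ : Set G)).subgroupOf T₂))
    {A : Subgroup G} {fA : Set (IrrCharacter (Subgroup.centralizer (A : Set G)))} {y : G} (hleA : SubpairLE p M A fA P e)
    (hidx : (⟨A.map (MulAut.conj y).toMonoidHom, conjBlock A y fA⟩ : BrauerPairIdx G) = ⟨Q₂, f₂⟩)
    (ih : ∀ (A' : Subgroup G), Nat.card A < Nat.card A' →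
      ∀ (fA' : Set (IrrCharacter (Subgroup.centralizer (A' : Set G)))) (y' : G),
        SubpairLE p M A' fA' P e → SubpairLE p M (A'.map (MulAut.conj y').toMonoidHom) (conjBlock A' y' fA') P e →
          ∃ h ∈ P, ∀ a ∈ A', y' * a * y'⁻¹ = h * a * h⁻¹) :
    ∃ h ∈ P, ∀ a ∈ A, y * a * y⁻¹ = h * a * h⁻¹ := by
  classical
  haveI : Fact p.Prime := ⟨hM.1⟩
  have hPe := hmax.1.1
  cases hidx
  have hAP : A ≤ P := SubpairLE.le hleA
  by_cases hA : A = P
  · subst hA
    have e1 : fA = e := subpair_unique hM hPe _ _ _ hleA Relation.ReflTransGen.refl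
    subst e1
    have hle0 : A.map (MulAut.conj y).toMonoidHom ≤ A := SubpairLE.le hle₂
    have hmapeq : A.map (MulAut.conj y).toMonoidHom = A :=
      Subgroup.eq_of_le_of_card_ge hle0 (by rw [card_map_conj])
    have hyN : y ∈ Subgroup.normalizer (A : Set G) := by
      rw [Subgroup.mem_normalizer_iff]
      intro a
      have := mem_map_conj_iff A y a
      rw [hmapeq] at this
      exact this
    have hs := stab_of_conj_le hM hPe hleA hyN hle₂
    letI : Fintype (Subgroup.centralizer (A : Set G)) := Fintype.ofFinite _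
    obtain ⟨T, hT⟩ := exists_isStab A hPe.2
    letI : Fintype T := Fintype.ofFinite _
    obtain ⟨l, hl, c, hc, rfl⟩ := stab_eq_mulCent hM hnil hmax.1 hT (maximal_stab_defect hM hmax hT) ((hT y).2 ⟨hyN, hs⟩)
    refine ⟨l, hl, fun a ha => ?_⟩
    have h1 := Subgroup.mem_centralizer_iff.1 hc a ha
    calc l * c * a * (l * c)⁻¹ = l * (c * a) * c⁻¹ * l⁻¹ := by group
      _ = l * (a * c) * c⁻¹ * l⁻¹ := by rw [h1]
      _ = l * a * l⁻¹ := by group
  · have hlt : A < P := lt_of_le_of_ne hAP hA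
    have hAL : A ≤ P ⊓ Subgroup.normalizer (A : Set G) := le_inf hAP Subgroup.le_normalizer
    obtain ⟨gA, hgA1, hgA2⟩ := exists_intermediate hM hPe hleA hAL inf_le_left inf_le_right
    have hn := isNormalSubpair_conj hgA2 y
    have hf₂ := hn.1.2
    have hQ₂f₂ : IsBrauerPairOf p M B _ _ := (pairOf_le_iff hM hmax.1.2.1 ⟨_, _⟩ ⟨_, _⟩ hle₂).2 hmax.1
    have hNY : (P ⊓ Subgroup.normalizer (A : Set G)).map (MulAut.conj y).toMonoidHom ≤
        mulCent (P ⊓ Subgroup.normalizer ((A.map (MulAut.conj y).toMonoidHom : Subgroup G) : Set G)) _ inf_le_right := by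
      intro w hw
      have hwT : w ∈ T₂ := (hT₂ w).2 ⟨hn.2.2.2.1 hw, hn.2.2.2.2.1 w hw⟩
      obtain ⟨l, hl, c, hc, hw'⟩ := stab_eq_mulCent hM hnil hQ₂f₂ hT₂ hD₂ hwT
      refine ⟨l, hl, ?_⟩
      rw [hw']
      simpa using hc
    obtain ⟨c, hc, hle₃⟩ := exists_conj_in_mulCent hM hmax hle₂ hf₂ hT₂ hD₂ hn hNY
    have h4 : SubpairLE p M ((P ⊓ Subgroup.normalizer (A : Set G)).map (MulAut.conj (c * y)).toMonoidHom)
        (conjBlock _ (c * y) gA) P e := subpairLE_of_idx_eq hle₃ (conj_conj _ gA y c) rfl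
    obtain ⟨x, hxP, hxA, hxN⟩ := Cfsg.Agent.Lib.FusionAlperin.exists_mem_normalizer_of_lt' hPe.1 hlt
    have hcard : Nat.card A < Nat.card (P ⊓ Subgroup.normalizer (A : Set G) : Subgroup G) := by
      by_contra hcon
      have := Subgroup.eq_of_le_of_card_ge hAL (not_lt.1 hcon)
      apply hxA
      rw [this]
      exact ⟨hxP, hxN⟩
    obtain ⟨h, hh, hact⟩ := ih _ hcard gA (c * y) hgA1 h4
    refine ⟨h, hh, fun a ha => ?_⟩
    rw [← hact a (hAL ha)]
    have h5 := Subgroup.mem_centralizer_iff.1 hc (y * a * y⁻¹) ⟨a, ha, rfl⟩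
    calc y * a * y⁻¹ = (y * a * y⁻¹) * c * c⁻¹ := by group
      _ = c * (y * a * y⁻¹) * c⁻¹ := by rw [h5]
      _ = c * y * a * (c * y)⁻¹ := by group

/-- **Frobenius for nilpotent blocks**: every fusion map is a conjugation by an element of `P`. -/
theorem nilp_acts (hM : IsPModular p M) (hmax : IsMaximalBrauerPair p M B P e) (hnil : IsNilpotentBlock p M B)
    (n : ℕ) : ∀ (A : Subgroup G), Nat.card G - Nat.card A = n →
      ∀ (fA : Set (IrrCharacter (Subgroup.centralizer (A : Set G)))) (y : G),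
        SubpairLE p M A fA P e → SubpairLE p M (A.map (MulAut.conj y).toMonoidHom) (conjBlock A y fA) P e →
          ∃ h ∈ P, ∀ a ∈ A, y * a * y⁻¹ = h * a * h⁻¹ := by
  classical
  haveI : Fact p.Prime := ⟨hM.1⟩
  have hPe := hmax.1.1
  induction n using Nat.strong_induction_on with
  | _ n ih =>
    intro A hn fA y hle1 hle2
    have hQf := SubpairLE.isBrauerPair hle1 hPe
    letI : Fintype (Subgroup.centralizer (A : Set G)) := Fintype.ofFinite _
    obtain ⟨T, hT⟩ := exists_isStab A hQf.2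
    obtain ⟨x, hx1, hx2⟩ := exists_conj_norm_defect hM hmax hle1 hQf hT
    letI : Fintype (Subgroup.centralizer ((A.map (MulAut.conj x).toMonoidHom : Subgroup G) : Set G)) := Fintype.ofFinite _
    have hf' := isPBlock_conjBlock A x hQf.2
    obtain ⟨T', hT'⟩ := exists_isStab (A.map (MulAut.conj x).toMonoidHom) hf'
    letI : Fintype T' := Fintype.ofFinite _
    obtain ⟨F', hF'1, hF'2, hF'3⟩ := hx2 T' hT'
    have hQ' : IsPGroup p (A.map (MulAut.conj x).toMonoidHom : Subgroup G) := isPGroup_map_conj hQf.1 x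
    obtain ⟨hE1, hE2⟩ := stab_block hM hQ' hf' hT'
    have e1 : F' = overSet (Subgroup.inclusion hT'.cent_le) (conjBlock A x fA) :=
      blockCoeff_inj (fun t => by rw [hF'2, hE2])
    rw [e1] at hF'3
    have hcardle : ∀ A' : Subgroup G, Nat.card A' ≤ Nat.card G := fun A' => Subgroup.card_le_card_group A'
    have hApos : 0 < Nat.card A := Nat.card_pos
    have IH : ∀ (A' : Subgroup G), Nat.card A < Nat.card A' →
        ∀ (fA' : Set (IrrCharacter (Subgroup.centralizer (A' : Set G)))) (y' : G),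
        SubpairLE p M A' fA' P e → SubpairLE p M (A'.map (MulAut.conj y').toMonoidHom) (conjBlock A' y' fA') P e →
          ∃ h ∈ P, ∀ a ∈ A', y' * a * y'⁻¹ = h * a * h⁻¹ := by
      intro A' hA' f' y' h1 h2
      have h3 := hcardle A'
      exact ih (Nat.card G - Nat.card A') (by omega) A' rfl f' y' h1 h2
    obtain ⟨h₁, hh₁, ha₁⟩ := acts_of_target hM hmax hnil hx1 hT' hF'3 hle1 rfl IH
    have hidx : (⟨(A.map (MulAut.conj y).toMonoidHom).map (MulAut.conj (x * y⁻¹)).toMonoidHom,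
        conjBlock _ (x * y⁻¹) (conjBlock A y fA)⟩ : BrauerPairIdx G) = ⟨A.map (MulAut.conj x).toMonoidHom, conjBlock A x fA⟩ := by
      have := conj_conj A fA y (x * y⁻¹)
      rw [inv_mul_cancel_right] at this
      exact this
    obtain ⟨h₂, hh₂, ha₂⟩ := acts_of_target hM hmax hnil hx1 hT' hF'3 hle2 hidx
      (fun A' hA' => IH A' (by rwa [card_map_conj] at hA'))
    refine ⟨h₂⁻¹ * h₁, P.mul_mem (P.inv_mem hh₂) hh₁, fun a ha => ?_⟩
    have e2 := ha₁ a ha
    have e3 := ha₂ (y * a * y⁻¹) ⟨a, ha, rfl⟩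
    have e4 : x * y⁻¹ * (y * a * y⁻¹) * (x * y⁻¹)⁻¹ = x * a * x⁻¹ := by group
    rw [e4, e2] at e3
    calc y * a * y⁻¹ = h₂⁻¹ * (h₂ * (y * a * y⁻¹) * h₂⁻¹) * h₂ := by group
      _ = h₂⁻¹ * (h₁ * a * h₁⁻¹) * h₂ := by rw [e3]
      _ = h₂⁻¹ * h₁ * a * (h₂⁻¹ * h₁)⁻¹ := by group

/-- An element acting as a normalizing element normalizes. -/
theorem norm_of_acts {Q : Subgroup G} {k w : G} (hw : w ∈ Subgroup.normalizer (Q : Set G))
    (hact : ∀ u ∈ Q, k * u * k⁻¹ = w * u * w⁻¹) : k ∈ Subgroup.normalizer (Q : Set G) := by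
  rw [Subgroup.mem_normalizer_iff]
  intro a
  constructor
  · intro ha
    rw [hact a ha]
    exact (Subgroup.mem_normalizer_iff.1 hw a).1 ha
  · intro ha
    have h2 : w⁻¹ * (k * a * k⁻¹) * w ∈ Q := by
      have := (Subgroup.mem_normalizer_iff.1 (Subgroup.inv_mem _ hw) _).1 ha
      simpa using this
    have h3 := hact _ h2
    have e4 : w * (w⁻¹ * (k * a * k⁻¹) * w) * w⁻¹ = k * a * k⁻¹ := by group
    rw [e4] at h3
    have h4 : w⁻¹ * (k * a * k⁻¹) * w = a := by
      apply mul_left_cancel (a := k)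
      apply mul_right_cancel (b := k⁻¹)
      exact h3
    rw [h4] at h2
    exact h2

/-- A `p`-regular element acting on `Q` as a `p`-element centralizes `Q`. -/
theorem cent_of_acts {Q : Subgroup G} {h w : G} (hp : p.Prime) (hw : w ∈ Subgroup.normalizer (Q : Set G))
    (hact : ∀ u ∈ Q, h * u * h⁻¹ = w * u * w⁻¹) (hreg : IsPRegular p w) {k : ℕ} (hk : h ^ (p ^ k) = 1) :
    w ∈ Subgroup.centralizer (Q : Set G) := by
  have hh := norm_of_acts hw hact
  let c := conjOn Q (Subgroup.normalizer (Q : Set G)) le_rfl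
  have hcw : c ⟨w, hw⟩ = c ⟨h, hh⟩ := by
    ext u
    simp only [c, conjOn_apply]
    exact (hact u u.2).symm
  have h1 : orderOf (c ⟨w, hw⟩) ∣ orderOf w := by
    have := orderOf_map_dvd c (⟨w, hw⟩ : Subgroup.normalizer (Q : Set G))
    rwa [Subgroup.orderOf_mk] at this
  have h2 : orderOf (c ⟨w, hw⟩) ∣ p ^ k := by
    rw [hcw]
    refine (orderOf_map_dvd c (⟨h, hh⟩ : Subgroup.normalizer (Q : Set G))).trans ?_
    rw [Subgroup.orderOf_mk]
    exact orderOf_dvd_of_pow_eq_one hk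
  obtain ⟨j, hj, hj'⟩ := (Nat.dvd_prime_pow hp).1 h2
  have hj0 : j = 0 := by
    by_contra hne
    apply hreg
    refine dvd_trans ?_ h1
    rw [hj']
    exact dvd_pow_self p hne
  rw [hj0, pow_zero, orderOf_eq_one_iff] at hj'
  rw [Subgroup.mem_centralizer_iff]
  intro u hu
  have h3 := congrArg (fun α : MulAut Q => ((α ⟨u, hu⟩ : Q) : G)) hj'
  simp only [c, conjOn_apply, MulAut.one_apply] at h3
  have : w * u * w⁻¹ * w = u * w := by rw [h3]
  simpa using this.symm

/-- Reduction of nilpotency checks to pairs below a maximal pair. -/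
theorem cent_of_conj_cent {Q : Subgroup G} {x z : G}
    (h : z * x * z⁻¹ ∈ Subgroup.centralizer ((Q.map (MulAut.conj z).toMonoidHom : Subgroup G) : Set G)) :
    x ∈ Subgroup.centralizer (Q : Set G) := by
  rw [Subgroup.mem_centralizer_iff] at h ⊢
  intro u hu
  have h1 := h (z * u * z⁻¹) ⟨u, hu, rfl⟩
  have h2 : z * (u * x) * z⁻¹ = z * (x * u) * z⁻¹ := by
    calc z * (u * x) * z⁻¹ = z * u * z⁻¹ * (z * x * z⁻¹) := by group
      _ = z * x * z⁻¹ * (z * u * z⁻¹) := h1
      _ = z * (x * u) * z⁻¹ := by group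
  exact mul_left_cancel (mul_right_cancel h2)

/-- Conjugating a pair along a stabilizing element. -/
theorem conj_idx_stab {Q : Subgroup G} {f : Set (IrrCharacter (Subgroup.centralizer (Q : Set G)))} (hf : IsPBlock M f)
    {x : G} (hxN : x ∈ Subgroup.normalizer (Q : Set G))
    (hxS : StabilizesBlock (Subgroup.centralizer (Q : Set G)) f x) (z : G) :
    (⟨(Q.map (MulAut.conj z).toMonoidHom).map (MulAut.conj (z * x * z⁻¹)).toMonoidHom,
        conjBlock _ (z * x * z⁻¹) (conjBlock Q z f)⟩ : BrauerPairIdx G) =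
      ⟨Q.map (MulAut.conj z).toMonoidHom, conjBlock Q z f⟩ := by
  classical
  letI : Fintype (Subgroup.centralizer (Q : Set G)) := Fintype.ofFinite _
  have h1 := conj_conj Q f z (z * x * z⁻¹)
  have h2 := conj_conj Q f x z
  have e : z * x * z⁻¹ * z = z * x := by group
  rw [e] at h1
  rw [h1, ← h2]
  have h3 := conj_of_stab hf hxN hxS
  let φ : BrauerPairIdx G → BrauerPairIdx G := fun a => ⟨a.1.map (MulAut.conj z).toMonoidHom, conjBlock a.1 z a.2⟩
  exact congrArg φ h3

theorem conj_mem_normalizer {Q : Subgroup G} {x : G} (hxN : x ∈ Subgroup.normalizer (Q : Set G)) (z : G) :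
    z * x * z⁻¹ ∈ Subgroup.normalizer ((Q.map (MulAut.conj z).toMonoidHom : Subgroup G) : Set G) := by
  rw [Subgroup.mem_normalizer_iff]
  intro a
  rw [mem_map_conj_inv Q z a, mem_map_conj_inv Q z _]
  have e3 : z⁻¹ * (z * x * z⁻¹ * a * (z * x * z⁻¹)⁻¹) * z = x * (z⁻¹ * a * z) * x⁻¹ := by group
  rw [e3]
  exact Subgroup.mem_normalizer_iff.1 hxN _

variable {F : FusionSystem P}

/-- **Nilpotent blocks are those with inner fusion.** -/
theorem nilp_iff_inner (hM : IsPModular p M) (hF : IsBlockFusionSystemOn p M B P e F) :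
    IsNilpotentBlock p M B ↔ ∀ Q : Subgroup G, F.Hom Q = (innerFusionSystem P).Hom Q := by
  classical
  haveI : Fact p.Prime := ⟨hM.1⟩
  have hmax := hF.1
  have hPe := hmax.1.1
  constructor
  · intro hnil Q
    ext φ
    constructor
    · intro hφ
      obtain ⟨hQ, g, hg, -, f, h1, h2⟩ := (hF.2 Q φ).1 hφ
      obtain ⟨k, hk, hact⟩ := nilp_acts hM hmax hnil _ Q rfl f g h1 h2
      exact ⟨hQ, k, hk, fun x => by rw [hg]; exact hact x x.2⟩
    · rintro ⟨hQ, k, hk, hact⟩
      have h1 := F.conj_mem hQ hk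
      have h2 : φ = conjHom Q k := by
        ext x
        rw [hact]
        rfl
      rw [h2]
      exact h1
  · intro hin
    refine ⟨hmax.1.2.1, ?_⟩
    intro Q f hQf x hxN hxS hxR
    obtain ⟨z, hz⟩ := exists_conj_le_maximal hM hmax hQf
    have hQ'P := SubpairLE.le hz
    have hle' := subpairLE_of_idx_eq hz (conj_idx_stab hQf.1.2 hxN hxS z).symm rfl
    have hmem : conjHom (Q.map (MulAut.conj z).toMonoidHom) (z * x * z⁻¹) ∈ F.Hom _ :=
      (hF.2 _ _).2 ⟨hQ'P, _, fun u => rfl, SubpairLE.le hle', _, hz, hle'⟩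
    rw [hin] at hmem
    obtain ⟨-, h, hh, hact⟩ := hmem
    have hw := conj_mem_normalizer hxN z
    obtain ⟨k, hk⟩ := hPe.1 ⟨h, hh⟩
    have hk' : h ^ (p ^ k) = 1 := by
      have := congrArg (Subtype.val) hk
      simpa using this
    apply cent_of_conj_cent (z := z)
    refine cent_of_acts hM.1 hw (h := h) (fun u hu => ?_) ?_ hk'
    · exact (hact ⟨u, hu⟩).symm
    · show ¬ p ∣ orderOf (z * x * z⁻¹)
      have : orderOf (z * x * z⁻¹) = orderOf x := MulEquiv.orderOf_eq (MulAut.conj z) x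
      rw [this]
      exact hxR

end Nil

end Cfsg.Agent.Lib.BlockFrob
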