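import Cfsg.Agent.Lib.BlockConjP

/-!
# Local defect groups of subpairs of a maximal Brauer pair
-/

set_option autoImplicit false
set_option linter.all false

namespace Cfsg.Agent.Lib.BlockFull

open Cfsg Cfsg.Agent.Lib.BlockLocal Cfsg.Agent.Lib.BlockOsima Cfsg.Agent.Lib.BlockBr
  Cfsg.Agent.Lib.BlockApps Cfsg.Agent.Lib.CharIrr Cfsg.Agent.Lib.BlockPair Cfsg.Agent.Lib.BlockSub
  Cfsg.Agent.Lib.BlockMax Cfsg.Agent.Lib.BlockTrace Cfsg.Agent.Lib.BlockConjP
open scoped ComplexConjugate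

universe u

section Local

variable {G : Type u} [Group G] [Fintype G] {p : ℕ} {M : Ideal AlgInt} [hprime : M.IsPrime]

/-- The intermediate pair and its normal inclusion. -/
theorem exists_intermediate (hM : IsPModular p M) {P Q R : Subgroup G}
    {e : Set (IrrCharacter (Subgroup.centralizer (P : Set G)))}
    {f : Set (IrrCharacter (Subgroup.centralizer (Q : Set G)))}
    (hPe : IsBrauerPair p M P e) (hle : SubpairLE p M Q f P e) (hQR : Q ≤ R) (hRP : R ≤ P)
    (hRN : R ≤ Subgroup.normalizer (Q : Set G)) :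
    ∃ g, SubpairLE p M R g P e ∧ IsNormalSubpair p M Q f R g := by
  obtain ⟨g, hg, hgle⟩ := exists_subpair_below hM hPe R hRP
  obtain ⟨f', hf', -⟩ := existsUnique_normalSubpair hM R Q g hg hQR hRN
  have e1 : f' = f := subpair_unique hM hPe Q f' f
    (Relation.ReflTransGen.head (show NormalSubpairRel p M ⟨Q, f'⟩ ⟨R, g⟩ from hf') hgle) hle
  subst e1
  exact ⟨g, hgle, hf'⟩

/-- A normal inclusion produces a support element. -/
theorem exists_support_of_normal {Q R : Subgroup G}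
    {f : Set (IrrCharacter (Subgroup.centralizer (Q : Set G)))}
    {g : Set (IrrCharacter (Subgroup.centralizer (R : Set G)))}
    (h : IsNormalSubpair p M Q f R g) :
    ∃ c ∈ Subgroup.centralizer (R : Set G), ¬ MemLocalIdeal M (subgroupBlockCoeff (Subgroup.centralizer (Q : Set G)) f c) := by
  classical
  letI : Fintype (Subgroup.centralizer (R : Set G)) := Fintype.ofFinite _
  letI : Fintype (Subgroup.centralizer (Q : Set G)) := Fintype.ofFinite _
  obtain ⟨h1, h2, h3, h4, h5, h6⟩ := h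
  obtain ⟨ξ₀, rfl⟩ := id h2.2
  have hξ₀ := mem_block_self (M := M) ξ₀
  have hom := h6 ξ₀ hξ₀
  rw [brauerOmega_eq] at hom
  by_contra hcon
  push_neg at hcon
  refine not_mem_of_cong_one hom (om_mem_of_values ξ₀.2 ?_ ?_)
  · intro a d
    simp only [Function.comp_apply, Subgroup.coe_subtype]
    exact subgroupBlockCoeff_stable _ h1.2 (stabilizesBlock_self _ (centralizer_anti h3 d.2) f) _
  · intro a
    exact hcon _ a.2

/-- Part one of the statement on centralizers: `C_P(Q)` lies in a defect group of `f`. -/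
theorem cent_le_defect (hM : IsPModular p M) {P Q : Subgroup G}
    {e : Set (IrrCharacter (Subgroup.centralizer (P : Set G)))}
    {f : Set (IrrCharacter (Subgroup.centralizer (Q : Set G)))}
    (hPe : IsBrauerPair p M P e) (hle : SubpairLE p M Q f P e) (hf : IsPBlock M f) :
    ∃ D : Subgroup (Subgroup.centralizer (Q : Set G)), IsDefectGroup p M f D ∧
      (P ⊓ Subgroup.centralizer (Q : Set G)).subgroupOf (Subgroup.centralizer (Q : Set G)) ≤ D := by
  classical
  haveI : Fact p.Prime := ⟨hM.1⟩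
  letI : Fintype (Subgroup.centralizer (Q : Set G)) := Fintype.ofFinite _
  have hQP : Q ≤ P := SubpairLE.le hle
  let S := P ⊓ Subgroup.centralizer (Q : Set G)
  let R := Q ⊔ S
  have hSR : S ≤ R := le_sup_right
  have hRP : R ≤ P := sup_le hQP inf_le_left
  have hRN : R ≤ Subgroup.normalizer (Q : Set G) :=
    sup_le Subgroup.le_normalizer (inf_le_right.trans (centralizer_le_normalizer' Q))
  obtain ⟨g, hgle, hn⟩ := exists_intermediate hM hPe hle le_sup_left hRP hRN
  obtain ⟨c, hcR, hc⟩ := exists_support_of_normal hn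
  have hcQ := centralizer_anti (show Q ≤ R from le_sup_left) hcR
  rw [subgroupBlockCoeff_mem _ f ⟨c, hcQ⟩] at hc
  obtain ⟨g₀, hg₀⟩ := Cfsg.Agent.Lib.CharBlockConv.exists_defect_class hM hf
  let Dₛ : Sylow p (Subgroup.centralizer ({g₀} : Set (Subgroup.centralizer (Q : Set G)))) := default
  let D₀ : Subgroup (Subgroup.centralizer (Q : Set G)) := (Dₛ : Subgroup (Subgroup.centralizer ({g₀} : Set (Subgroup.centralizer (Q : Set G))))).map (Subgroup.centralizer ({g₀} : Set (Subgroup.centralizer (Q : Set G)))).subtype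
  have hD₀ : IsDefectGroup p M f D₀ := ⟨g₀, hg₀, Dₛ, rfl⟩
  have hSp : IsPGroup p (S.subgroupOf (Subgroup.centralizer (Q : Set G))) :=
    (hPe.1.to_le (inf_le_left : S ≤ P)).comap_of_injective _ Subtype.val_injective
  obtain ⟨x, hx⟩ := (Cfsg.Agent.Lib.CharBlockMinMax.conj_le_defect_iff hM hf hD₀ hSp).1
    ⟨⟨c, hcQ⟩, (blockCoeff_isLC hf).2 _, hc, ⟨c, hcQ⟩, IsConj.refl _, by
      rw [Subgroup.mem_centralizer_iff]
      intro r hr
      apply Subtype.ext
      exact Subgroup.mem_centralizer_iff.1 hcR r (hSR (Subgroup.mem_subgroupOf.1 hr))⟩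
  refine ⟨D₀.map (MulAut.conj x⁻¹).toMonoidHom, isDefectGroup_conj hM hD₀ x⁻¹, ?_⟩
  intro r hr
  refine ⟨x * r * x⁻¹, hx ⟨r, hr, rfl⟩, ?_⟩
  simp only [MulEquiv.toMonoidHom_eq_coe, MonoidHom.coe_coe, MulAut.conj_apply]
  group

/-- The normal inclusion attached to a defect group of a block of the centralizer. -/
theorem exists_pair_on_cent_defect (hM : IsPModular p M) {Q : Subgroup G}
    {f : Set (IrrCharacter (Subgroup.centralizer (Q : Set G)))} (hQf : IsBrauerPair p M Q f)
    {D : Subgroup (Subgroup.centralizer (Q : Set G))} (hD : IsDefectGroup p M f D) :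
    ∃ h, IsNormalSubpair p M Q f (Q ⊔ D.map (Subgroup.centralizer (Q : Set G)).subtype) h := by
  classical
  haveI : Fact p.Prime := ⟨hM.1⟩
  letI : Fintype (Subgroup.centralizer (Q : Set G)) := Fintype.ofFinite _
  obtain ⟨hQ, hf⟩ := id hQf
  obtain ⟨T, hT⟩ := exists_isStab Q hf
  let D' : Subgroup G := D.map (Subgroup.centralizer (Q : Set G)).subtype
  have hD'C : D' ≤ Subgroup.centralizer (Q : Set G) := by
    rintro _ ⟨d, -, rfl⟩
    exact d.2
  have hDp : IsPGroup p D := by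
    obtain ⟨g₀, -, Dₛ, rfl⟩ := hD
    exact Dₛ.isPGroup'.map _
  have hD'p : IsPGroup p D' := hDp.map _
  let R : Subgroup G := Q ⊔ D'
  have hRp : IsPGroup p R := by
    have := IsPGroup.to_sup_of_normal_right' hD'p hQ (hD'C.trans (centralizer_le_normalizer' Q))
    rwa [sup_comm] at this
  have hQR : Q ≤ R := le_sup_left
  have hDR : D' ≤ R := le_sup_right
  have hRT : R ≤ T := sup_le hT.self_le (hD'C.trans hT.cent_le)
  have hle : Subgroup.centralizer (R : Set G) ≤ Subgroup.centralizer (Q : Set G) := centralizer_anti hQR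
  letI : Fintype (Subgroup.centralizer (R : Set G)) := Fintype.ofFinite _
  let ι' : Subgroup.centralizer (R : Set G) →* Subgroup.centralizer (Q : Set G) := Subgroup.inclusion hle
  have hι' : Function.Injective ι' := Subgroup.inclusion_injective hle
  have hr' : ∀ x : Subgroup.centralizer (Q : Set G), x ∈ ι'.range ↔ ∀ u ∈ D, u * x = x * u := by
    intro x
    constructor
    · rintro ⟨c, rfl⟩ u hu
      apply Subtype.ext
      exact Subgroup.mem_centralizer_iff.1 c.2 (u : G) (hDR ⟨u, hu, rfl⟩)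
    · intro hx
      refine ⟨⟨x, ?_⟩, rfl⟩
      rw [Subgroup.mem_centralizer_iff]
      have hsub : R ≤ Subgroup.centralizer ({(x : G)} : Set G) := by
        refine sup_le ?_ ?_
        · intro q hq
          rw [Subgroup.mem_centralizer_singleton_iff]
          exact Subgroup.mem_centralizer_iff.1 x.2 q hq
        · rintro _ ⟨u, hu, rfl⟩
          rw [Subgroup.mem_centralizer_singleton_iff]
          exact congrArg Subtype.val (hx u hu)
      intro r hr
      have := hsub hr
      rw [Subgroup.mem_centralizer_singleton_iff] at this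
      exact this
  obtain ⟨ξ', hξ'⟩ := exists_irr_of_defect hM hf hD ι' hι' hr'
  refine ⟨blockOf M (ξ' : _ → ℂ), hQf, ⟨hRp, ⟨ξ', rfl⟩⟩, hQR, hRT.trans hT.le_norm, fun x hx => hT.stab (hRT hx), ?_⟩
  intro ξ hξ
  rw [brauerOmega_subgroup R _ hle]
  have hLC := comp_isLC (M := M) ι' (blockCoeff_isLC hf)
  have h1 := om_sameBlock (M := M) ξ'.2 ξ.2 hLC.1 hLC.2 hξ
  exact Cong.trans (Cong.symm h1) hξ'

/-- **Fully centralized conjugates.** -/
theorem exists_conj_cent_defect (hM : IsPModular p M) {B : Set (IrrCharacter G)} {P Q : Subgroup G}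
    {e : Set (IrrCharacter (Subgroup.centralizer (P : Set G)))}
    {f : Set (IrrCharacter (Subgroup.centralizer (Q : Set G)))}
    (hmax : IsMaximalBrauerPair p M B P e) (hle : SubpairLE p M Q f P e) (hQf : IsBrauerPair p M Q f) :
    ∃ x : G, SubpairLE p M (Q.map (MulAut.conj x).toMonoidHom) (conjBlock Q x f) P e ∧
      IsDefectGroup p M (conjBlock Q x f) ((P ⊓ Subgroup.centralizer ((Q.map (MulAut.conj x).toMonoidHom) : Set G)).subgroupOf (Subgroup.centralizer ((Q.map (MulAut.conj x).toMonoidHom) : Set G))) := by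
  classical
  haveI : Fact p.Prime := ⟨hM.1⟩
  letI : Fintype (Subgroup.centralizer (Q : Set G)) := Fintype.ofFinite _
  have hBP := hmax.1
  have hPe := hBP.1
  have hB := hBP.2.1
  have hf := hQf.2
  obtain ⟨g₀, hg₀⟩ := Cfsg.Agent.Lib.CharBlockConv.exists_defect_class hM hf
  let Dₛ : Sylow p (Subgroup.centralizer ({g₀} : Set (Subgroup.centralizer (Q : Set G)))) := default
  let D : Subgroup (Subgroup.centralizer (Q : Set G)) := (Dₛ : Subgroup (Subgroup.centralizer ({g₀} : Set (Subgroup.centralizer (Q : Set G))))).map (Subgroup.centralizer ({g₀} : Set (Subgroup.centralizer (Q : Set G)))).subtype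
  have hD : IsDefectGroup p M f D := ⟨g₀, hg₀, Dₛ, rfl⟩
  obtain ⟨R, hR, h, hn⟩ : ∃ R : Subgroup G, R = Q ⊔ D.map (Subgroup.centralizer (Q : Set G)).subtype ∧
      ∃ h, IsNormalSubpair p M Q f R h := ⟨_, rfl, exists_pair_on_cent_defect hM hQf hD⟩
  have hQB : IsBrauerPairOf p M B Q f := (pairOf_le_iff hM hB ⟨Q, f⟩ ⟨P, e⟩ hle).2 hBP
  have hRB : IsBrauerPairOf p M B R h := (pairOf_normal_iff hM hn hB).2 hQB
  obtain ⟨x, hx⟩ := exists_conj_le_maximal hM hmax hRB
  have hnx := isNormalSubpair_conj hn x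
  have hQx : SubpairLE p M (Q.map (MulAut.conj x).toMonoidHom) (conjBlock Q x f) P e :=
    Relation.ReflTransGen.head (show NormalSubpairRel p M ⟨Q.map (MulAut.conj x).toMonoidHom, conjBlock Q x f⟩ ⟨R.map (MulAut.conj x).toMonoidHom, conjBlock R x h⟩ from hnx) hx
  refine ⟨x, hQx, ?_⟩
  letI : Fintype (Subgroup.centralizer ((Q.map (MulAut.conj x).toMonoidHom : Subgroup G) : Set G)) := Fintype.ofFinite _
  have hfx : IsPBlock M (conjBlock Q x f) := isPBlock_conjBlock Q x hf
  obtain ⟨D₂, hD₂, hS⟩ := cent_le_defect hM hPe hQx hfx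
  have hD₁ : IsDefectGroup p M (conjBlock Q x f) (D.map (conjCent Q x).toMonoidHom) := by
    rw [conjBlock_eq]
    exact isDefectGroup_equiv (conjCent Q x) hD hM.1
  set S := (P ⊓ Subgroup.centralizer ((Q.map (MulAut.conj x).toMonoidHom : Subgroup G) : Set G)).subgroupOf (Subgroup.centralizer ((Q.map (MulAut.conj x).toMonoidHom : Subgroup G) : Set G)) with hSdef
  have hD₁S : D.map (conjCent Q x).toMonoidHom ≤ S := by
    rintro _ ⟨d, hd, rfl⟩
    rw [hSdef, Subgroup.mem_subgroupOf]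
    refine ⟨?_, ((conjCent Q x) d).2⟩
    have h1 : (d : G) ∈ R := by
      rw [hR]
      exact (le_sup_right : _ ≤ Q ⊔ D.map (Subgroup.centralizer (Q : Set G)).subtype) ⟨d, hd, rfl⟩
    have h2 : x * (d : G) * x⁻¹ ∈ R.map (MulAut.conj x).toMonoidHom := (mem_map_conj_iff R x d).1 h1
    exact SubpairLE.le hx h2
  have hcard : Nat.card D₂ = Nat.card (D.map (conjCent Q x).toMonoidHom) := by
    rw [Cfsg.Agent.Lib.CharBlockMinMax.card_defectGroup hM hfx hD₂, Cfsg.Agent.Lib.CharBlockMinMax.card_defectGroup hM hfx hD₁]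
  have hEq : D.map (conjCent Q x).toMonoidHom = D₂ :=
    Subgroup.eq_of_le_of_card_ge (hD₁S.trans hS) (by rw [hcard])
  have hEq2 : S = D.map (conjCent Q x).toMonoidHom := by
    apply le_antisymm
    · rw [hEq]; exact hS
    · exact hD₁S
  rw [hEq2]
  exact hD₁

end Local

section Stab

variable {G : Type u} [Group G] [Fintype G] {p : ℕ} {M : Ideal AlgInt} [hprime : M.IsPrime]

/-- A block is determined by its idempotent. -/
theorem blockCoeff_inj {X : Type u} [Group X] [Fintype X] {A A' : Set (IrrCharacter X)}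
    (h : ∀ x, blockCoeff A x = blockCoeff A' x) : A = A' := by
  classical
  have h' : blockCoeff A = blockCoeff A' := funext h
  ext χ
  have h1 := om_blockCoeff A χ
  have h2 := om_blockCoeff A' χ
  rw [h'] at h1
  rw [h1] at h2
  by_cases hA : χ ∈ A <;> by_cases hA' : χ ∈ A' <;> simp_all

/-- Conjugation between subgroups. -/
def subEquiv (A B : Subgroup G) (y : G) (h : ∀ a, a ∈ A ↔ y * a * y⁻¹ ∈ B) : A ≃* B where
  toFun c := ⟨y * c * y⁻¹, (h c).1 c.2⟩
  invFun c := ⟨y⁻¹ * c * y, by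
    rw [h]
    have : y * (y⁻¹ * (c : G) * y) * y⁻¹ = c := by group
    rw [this]
    exact c.2⟩
  left_inv c := by
    apply Subtype.ext
    simp only
    group
  right_inv c := by
    apply Subtype.ext
    simp only
    group
  map_mul' a b := by
    apply Subtype.ext
    simp only [Subgroup.coe_mul]
    group

@[simp] theorem subEquiv_apply (A B : Subgroup G) (y : G) (h) (c : A) :
    ((subEquiv A B y h c : B) : G) = y * c * y⁻¹ := rfl

@[simp] theorem subEquiv_symm_apply (A B : Subgroup G) (y : G) (h) (c : B) :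
    (((subEquiv A B y h).symm c : A) : G) = y⁻¹ * c * y := rfl

/-- Transport of stabilizers. -/
theorem isStab_conj {Q : Subgroup G} {f : Set (IrrCharacter (Subgroup.centralizer (Q : Set G)))} {T T' : Subgroup G}
    (hT : IsStab Q f T) (x : G) (hT' : IsStab (Q.map (MulAut.conj x).toMonoidHom) (conjBlock Q x f) T') (y : G) :
    y ∈ T ↔ x * y * x⁻¹ ∈ T' := by
  classical
  letI : Fintype (Subgroup.centralizer (Q : Set G)) := Fintype.ofFinite _
  letI : Fintype (Subgroup.centralizer ((Q.map (MulAut.conj x).toMonoidHom : Subgroup G) : Set G)) := Fintype.ofFinite _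
  rw [hT, hT']
  have hz : ∀ z, z ∈ Q.map (MulAut.conj x).toMonoidHom ↔ x⁻¹ * z * x ∈ Q := by
    intro z
    rw [mem_map_conj_iff Q x (x⁻¹ * z * x)]
    have : x * (x⁻¹ * z * x) * x⁻¹ = z := by group
    rw [this]
  have hN : y ∈ Subgroup.normalizer (Q : Set G) ↔
      x * y * x⁻¹ ∈ Subgroup.normalizer ((Q.map (MulAut.conj x).toMonoidHom : Subgroup G) : Set G) := by
    simp only [Subgroup.mem_normalizer_iff, SetLike.mem_coe]
    constructor
    · intro h z
      rw [hz, hz, h]
      have : x⁻¹ * (x * y * x⁻¹ * z * (x * y * x⁻¹)⁻¹) * x = y * (x⁻¹ * z * x) * y⁻¹ := by group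
      rw [this]
    · intro h q
      have h1 := h (x * q * x⁻¹)
      rw [hz, hz] at h1
      have e1 : x⁻¹ * (x * q * x⁻¹) * x = q := by group
      have e2 : x⁻¹ * (x * y * x⁻¹ * (x * q * x⁻¹) * (x * y * x⁻¹)⁻¹) * x = y * q * y⁻¹ := by group
      rw [e1, e2] at h1
      exact h1
  have hC : ∀ (k : Subgroup.centralizer (Q : Set G)) , ((conjCent Q x k : Subgroup.centralizer _) : G) = x * k * x⁻¹ := fun _ => rfl
  constructor
  · rintro ⟨h1, h2, h3⟩
    have hyN := hN.1 h1
    refine ⟨hyN, cent_le_norm_cent _ hyN, ?_⟩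
    intro ξ' hξ'
    rw [conjBlock_eq] at hξ'
    obtain ⟨ξ, hξ, rfl⟩ := hξ'
    obtain ⟨ξ₂, hξ₂, hc⟩ := h3 ξ hξ
    refine ⟨irrComp (conjCent Q x).symm ξ₂, by rw [conjBlock_eq]; exact ⟨ξ₂, hξ₂, rfl⟩, ?_⟩
    intro k k' hk
    rw [irrComp_apply, irrComp_apply]
    apply hc
    rw [centEquiv_symm_apply, centEquiv_symm_apply, hk]
    group
  · rintro ⟨h1, h2, h3⟩
    have hyN := hN.2 h1
    refine ⟨hyN, cent_le_norm_cent _ hyN, ?_⟩
    intro ξ hξ
    have hm : irrComp (conjCent Q x).symm ξ ∈ conjBlock Q x f := by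
      rw [conjBlock_eq]
      exact ⟨ξ, hξ, rfl⟩
    obtain ⟨ξ₂', hξ₂', hc⟩ := h3 _ hm
    rw [conjBlock_eq] at hξ₂'
    obtain ⟨ξ₂, hξ₂, rfl⟩ := hξ₂'
    refine ⟨ξ₂, hξ₂, ?_⟩
    intro k k' hk
    have := hc (conjCent Q x k) (conjCent Q x k') (by
      rw [hC, hC, hk]
      group)
    rw [irrComp_apply, irrComp_apply, MulEquiv.symm_apply_apply, MulEquiv.symm_apply_apply] at this
    exact this

/-- Part one for normalizers: `N_P(Q)` lies in a defect group of the stabilizer block. -/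
theorem norm_le_defect (hM : IsPModular p M) {P Q : Subgroup G}
    {e : Set (IrrCharacter (Subgroup.centralizer (P : Set G)))}
    {f : Set (IrrCharacter (Subgroup.centralizer (Q : Set G)))}
    (hPe : IsBrauerPair p M P e) (hle : SubpairLE p M Q f P e) (hf : IsPBlock M f)
    {T : Subgroup G} (hT : IsStab Q f T) [Fintype T] [Fintype (Subgroup.centralizer (Q : Set G))] :
    ∃ D : Subgroup T, IsDefectGroup p M (overSet (Subgroup.inclusion hT.cent_le) f) D ∧
      (P ⊓ Subgroup.normalizer (Q : Set G)).subgroupOf T ≤ D := by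
  classical
  haveI : Fact p.Prime := ⟨hM.1⟩
  have hQP : Q ≤ P := SubpairLE.le hle
  have hQp : IsPGroup p Q := hPe.1.to_le hQP
  obtain ⟨hF, hF2⟩ := stab_block hM hQp hf hT
  let R := P ⊓ Subgroup.normalizer (Q : Set G)
  have hQR : Q ≤ R := le_inf hQP Subgroup.le_normalizer
  obtain ⟨g, hgle, hn⟩ := exists_intermediate hM hPe hle hQR inf_le_left inf_le_right
  obtain ⟨c, hcR, hc⟩ := exists_support_of_normal hn
  have hcQ := centralizer_anti hQR hcR
  have hRT : R ≤ T := fun r hr => (hT r).2 ⟨hr.2, hn.2.2.2.2.1 r hr⟩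
  have hcT : c ∈ T := hT.cent_le hcQ
  obtain ⟨g₀, hg₀⟩ := Cfsg.Agent.Lib.CharBlockConv.exists_defect_class hM hF
  let Dₛ : Sylow p (Subgroup.centralizer ({g₀} : Set T)) := default
  let D₀ : Subgroup T := (Dₛ : Subgroup (Subgroup.centralizer ({g₀} : Set T))).map (Subgroup.centralizer ({g₀} : Set T)).subtype
  have hD₀ : IsDefectGroup p M (overSet (Subgroup.inclusion hT.cent_le) f) D₀ := ⟨g₀, hg₀, Dₛ, rfl⟩
  have hRp : IsPGroup p (R.subgroupOf T) :=
    (hPe.1.to_le (inf_le_left : R ≤ P)).comap_of_injective _ Subtype.val_injective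
  obtain ⟨x, hx⟩ := (Cfsg.Agent.Lib.CharBlockMinMax.conj_le_defect_iff hM hF hD₀ hRp).1
    ⟨⟨c, hcT⟩, (blockCoeff_isLC hF).2 _, by rw [hF2]; exact hc, ⟨c, hcT⟩, IsConj.refl _, by
      rw [Subgroup.mem_centralizer_iff]
      intro r hr
      apply Subtype.ext
      exact Subgroup.mem_centralizer_iff.1 hcR r (Subgroup.mem_subgroupOf.1 hr)⟩
  refine ⟨D₀.map (MulAut.conj x⁻¹).toMonoidHom, isDefectGroup_conj hM hD₀ x⁻¹, ?_⟩
  intro r hr
  refine ⟨x * r * x⁻¹, hx ⟨r, hr, rfl⟩, ?_⟩
  simp only [MulEquiv.toMonoidHom_eq_coe, MonoidHom.coe_coe, MulAut.conj_apply]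
  group

/-- **Fully normalized conjugates.** -/
theorem exists_conj_norm_defect (hM : IsPModular p M) {B : Set (IrrCharacter G)} {P Q : Subgroup G}
    {e : Set (IrrCharacter (Subgroup.centralizer (P : Set G)))}
    {f : Set (IrrCharacter (Subgroup.centralizer (Q : Set G)))}
    (hmax : IsMaximalBrauerPair p M B P e) (hle : SubpairLE p M Q f P e) (hQf : IsBrauerPair p M Q f)
    {T : Subgroup G} (hT : IsStab Q f T) :
    ∃ x : G, SubpairLE p M (Q.map (MulAut.conj x).toMonoidHom) (conjBlock Q x f) P e ∧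
      ∀ T' : Subgroup G, IsStab (Q.map (MulAut.conj x).toMonoidHom) (conjBlock Q x f) T' →
        ∃ F' : Set (IrrCharacter T'), IsPBlock M F' ∧
          (∀ t : T', blockCoeff F' t = subgroupBlockCoeff (Subgroup.centralizer ((Q.map (MulAut.conj x).toMonoidHom) : Set G)) (conjBlock Q x f) (t : G)) ∧
          IsDefectGroup p M F' ((P ⊓ Subgroup.normalizer ((Q.map (MulAut.conj x).toMonoidHom) : Set G)).subgroupOf T') := by
  classical
  haveI : Fact p.Prime := ⟨hM.1⟩
  letI : Fintype (Subgroup.centralizer (Q : Set G)) := Fintype.ofFinite _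
  letI : Fintype T := Fintype.ofFinite _
  have hBP := hmax.1
  have hPe := hBP.1
  have hB := hBP.2.1
  have hf := hQf.2
  obtain ⟨hF, hF2⟩ := stab_block hM hQf.1 hf hT
  obtain ⟨g₀, hg₀⟩ := Cfsg.Agent.Lib.CharBlockConv.exists_defect_class hM hF
  let Dₛ : Sylow p (Subgroup.centralizer ({g₀} : Set T)) := default
  let D₀ : Subgroup T := (Dₛ : Subgroup (Subgroup.centralizer ({g₀} : Set T))).map (Subgroup.centralizer ({g₀} : Set T)).subtype
  have hD₀ : IsDefectGroup p M (overSet (Subgroup.inclusion hT.cent_le) f) D₀ := ⟨g₀, hg₀, Dₛ, rfl⟩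
  obtain ⟨R, hR, h, hn⟩ : ∃ R : Subgroup G, R = D₀.map T.subtype ∧ ∃ h, IsNormalSubpair p M Q f R h :=
    ⟨_, rfl, exists_pair_above hM hQf hT hD₀⟩
  have hQB : IsBrauerPairOf p M B Q f := (pairOf_le_iff hM hB ⟨Q, f⟩ ⟨P, e⟩ hle).2 hBP
  have hRB : IsBrauerPairOf p M B R h := (pairOf_normal_iff hM hn hB).2 hQB
  obtain ⟨x, hx⟩ := exists_conj_le_maximal hM hmax hRB
  have hnx := isNormalSubpair_conj hn x
  have hQx : SubpairLE p M (Q.map (MulAut.conj x).toMonoidHom) (conjBlock Q x f) P e :=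
    Relation.ReflTransGen.head (show NormalSubpairRel p M ⟨Q.map (MulAut.conj x).toMonoidHom, conjBlock Q x f⟩ ⟨R.map (MulAut.conj x).toMonoidHom, conjBlock R x h⟩ from hnx) hx
  refine ⟨x, hQx, ?_⟩
  intro T' hT'
  letI : Fintype T' := Fintype.ofFinite _
  letI : Fintype (Subgroup.centralizer ((Q.map (MulAut.conj x).toMonoidHom : Subgroup G) : Set G)) := Fintype.ofFinite _
  have hfx : IsPBlock M (conjBlock Q x f) := isPBlock_conjBlock Q x hf
  obtain ⟨hF', hF'2⟩ := stab_block hM (isPGroup_map_conj hQf.1 x) hfx hT'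
  refine ⟨overSet (Subgroup.inclusion hT'.cent_le) (conjBlock Q x f), hF', hF'2, ?_⟩
  obtain ⟨D₂, hD₂, hS⟩ := norm_le_defect hM hPe hQx hfx hT'
  let τ : T ≃* T' := subEquiv T T' x (isStab_conj hT x hT')
  have hFimg : irrComp τ.symm '' overSet (Subgroup.inclusion hT.cent_le) f = overSet (Subgroup.inclusion hT'.cent_le) (conjBlock Q x f) := by
    apply blockCoeff_inj
    intro a
    rw [blockCoeff_comp, hF2, hF'2]
    have h1 := subgroupBlockCoeff_conj Q x f ((τ.symm a : T) : G)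
    rw [← h1]
    congr 1
    rw [subEquiv_symm_apply]
    group
  have hD₁ : IsDefectGroup p M (overSet (Subgroup.inclusion hT'.cent_le) (conjBlock Q x f)) (D₀.map τ.toMonoidHom) := by
    rw [← hFimg]
    exact isDefectGroup_equiv τ hD₀ hM.1
  set S := (P ⊓ Subgroup.normalizer ((Q.map (MulAut.conj x).toMonoidHom : Subgroup G) : Set G)).subgroupOf T' with hSdef
  have hD₁S : D₀.map τ.toMonoidHom ≤ S := by
    rintro _ ⟨d, hd, rfl⟩
    rw [hSdef, Subgroup.mem_subgroupOf]
    have h1 : (d : G) ∈ R := by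
      rw [hR]
      exact ⟨d, hd, rfl⟩
    have h2 : x * (d : G) * x⁻¹ ∈ R.map (MulAut.conj x).toMonoidHom := (mem_map_conj_iff R x d).1 h1
    exact ⟨SubpairLE.le hx h2, hnx.2.2.2.1 h2⟩
  have hcard : Nat.card D₂ = Nat.card (D₀.map τ.toMonoidHom) := by
    rw [Cfsg.Agent.Lib.CharBlockMinMax.card_defectGroup hM hF' hD₂, Cfsg.Agent.Lib.CharBlockMinMax.card_defectGroup hM hF' hD₁]
  have hEq : D₀.map τ.toMonoidHom = D₂ :=
    Subgroup.eq_of_le_of_card_ge (hD₁S.trans hS) (by rw [hcard])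
  have hEq2 : S = D₀.map τ.toMonoidHom := by
    apply le_antisymm
    · rw [hEq]; exact hS
    · exact hD₁S
  rw [hEq2]
  exact hD₁

end Stab

end Cfsg.Agent.Lib.BlockFull
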