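import Cfsg.Agent.Lib.BlockFull
import Cfsg.Prelude.Def_BlockFusion

/-!
# The fusion system of a block
-/

set_option autoImplicit false
set_option linter.all false

namespace Cfsg.Agent.Lib.BlockFus

open Cfsg Cfsg.Agent.Lib.BlockLocal Cfsg.Agent.Lib.BlockOsima Cfsg.Agent.Lib.BlockBr
  Cfsg.Agent.Lib.BlockApps Cfsg.Agent.Lib.CharIrr Cfsg.Agent.Lib.BlockPair Cfsg.Agent.Lib.BlockSub
  Cfsg.Agent.Lib.BlockMax Cfsg.Agent.Lib.BlockTrace Cfsg.Agent.Lib.BlockConjP Cfsg.Agent.Lib.BlockFull
open scoped ComplexConjugate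

universe u

section Basic

variable {G : Type u} [Group G] [Fintype G] {p : ℕ} {M : Ideal AlgInt} [hprime : M.IsPrime]
variable {B : Set (IrrCharacter G)} {P : Subgroup G} {e : Set (IrrCharacter (Subgroup.centralizer (P : Set G)))}
  {F : FusionSystem P}

theorem card_subgroupOf {H K : Subgroup G} (h : H ≤ K) : Nat.card (H.subgroupOf K) = Nat.card H :=
  Nat.card_congr (Subgroup.subgroupOfEquivOfLe h).toEquiv

/-- The range of a conjugation map. -/
theorem range_of_conj {Q : Subgroup G} {φ : Q →* G} {g : G} (h : ∀ u : Q, φ u = g * (u : G) * g⁻¹) :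
    φ.range = Q.map (MulAut.conj g).toMonoidHom := by
  ext y
  constructor
  · rintro ⟨u, rfl⟩
    exact ⟨u, u.2, (h u).symm⟩
  · rintro ⟨u, hu, rfl⟩
    exact ⟨⟨u, hu⟩, h ⟨u, hu⟩⟩

/-- Members of the fusion system give conjugate subgroups. -/
theorem conj_of_isConj (hM : IsPModular p M) (hF : IsBlockFusionSystemOn p M B P e F) {Q Q' : Subgroup G}
    (h : F.IsConj Q Q') {f : Set (IrrCharacter (Subgroup.centralizer (Q : Set G)))} (hle : SubpairLE p M Q f P e) :
    ∃ g : G, Q' = Q.map (MulAut.conj g).toMonoidHom ∧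
      SubpairLE p M (Q.map (MulAut.conj g).toMonoidHom) (conjBlock Q g f) P e := by
  obtain ⟨φ, hφ, rfl⟩ := h
  obtain ⟨hQ, g, hg, hmap, f', hf', hf''⟩ := (hF.2 Q φ).1 hφ
  have := subpair_unique hM hF.1.1.1 Q f f' hle hf'
  subst this
  exact ⟨g, range_of_conj hg, hf''⟩

/-- Conjugate subgroups below the pair are conjugate in the fusion system. -/
theorem isConj_of_conj (hF : IsBlockFusionSystemOn p M B P e F) {Q : Subgroup G} {g : G}
    {f : Set (IrrCharacter (Subgroup.centralizer (Q : Set G)))} (hle : SubpairLE p M Q f P e)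
    (hle' : SubpairLE p M (Q.map (MulAut.conj g).toMonoidHom) (conjBlock Q g f) P e) :
    F.IsConj Q (Q.map (MulAut.conj g).toMonoidHom) := by
  refine ⟨conjHom Q g, (hF.2 Q _).2 ⟨SubpairLE.le hle, g, fun u => rfl, SubpairLE.le hle', f, hle, hle'⟩, ?_⟩
  exact range_of_conj fun u => rfl

/-- Defect groups of conjugate blocks have the same order. -/
theorem card_defect_conj (hM : IsPModular p M) {Q : Subgroup G} (g : G)
    {f : Set (IrrCharacter (Subgroup.centralizer (Q : Set G)))} (hf : IsPBlock M f)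
    {D₁ : Subgroup (Subgroup.centralizer (Q : Set G))} (hD₁ : IsDefectGroup p M f D₁)
    {D₂ : Subgroup (Subgroup.centralizer ((Q.map (MulAut.conj g).toMonoidHom : Subgroup G) : Set G))}
    (hD₂ : IsDefectGroup p M (conjBlock Q g f) D₂) : Nat.card D₁ = Nat.card D₂ := by
  classical
  letI : Fintype (Subgroup.centralizer (Q : Set G)) := Fintype.ofFinite _
  letI : Fintype (Subgroup.centralizer ((Q.map (MulAut.conj g).toMonoidHom : Subgroup G) : Set G)) := Fintype.ofFinite _
  have hfx : IsPBlock M (conjBlock Q g f) := isPBlock_conjBlock Q g hf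
  have h1 : IsDefectGroup p M (conjBlock Q g f) (D₁.map (conjCent Q g).toMonoidHom) := by
    rw [conjBlock_eq]
    exact isDefectGroup_equiv (conjCent Q g) hD₁ hM.1
  have h2 : Nat.card (D₁.map (conjCent Q g).toMonoidHom) = Nat.card D₁ :=
    Subgroup.card_map_of_injective (conjCent Q g).injective
  rw [← h2, Cfsg.Agent.Lib.CharBlockMinMax.card_defectGroup hM hfx h1, Cfsg.Agent.Lib.CharBlockMinMax.card_defectGroup hM hfx hD₂]

/-- Equal order forces a defect group. -/
theorem defect_of_le_of_card (hM : IsPModular p M) {X : Type u} [Group X] [Fintype X] {f : Set (IrrCharacter X)}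
    {D S : Subgroup X} (hD : IsDefectGroup p M f D) (hS : S ≤ D) (hc : Nat.card D ≤ Nat.card S) :
    IsDefectGroup p M f S := by
  have : S = D := Subgroup.eq_of_le_of_card_ge hS hc
  rw [this]
  exact hD

/-- **Fully centralized subgroups.** -/
theorem fullyCentralized_iff (hM : IsPModular p M) (hF : IsBlockFusionSystemOn p M B P e F) {Q : Subgroup G}
    {f : Set (IrrCharacter (Subgroup.centralizer (Q : Set G)))} (hQP : Q ≤ P) (hf : IsPBlock M f)
    (hle : SubpairLE p M Q f P e) :
    F.IsFullyCentralized Q ↔ IsDefectGroup p M f ((P ⊓ Subgroup.centralizer (Q : Set G)).subgroupOf (Subgroup.centralizer (Q : Set G))) := by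
  classical
  have hmax := hF.1
  have hPe := hmax.1.1
  have hQf : IsBrauerPair p M Q f := ⟨hPe.1.to_le hQP, hf⟩
  constructor
  · rintro ⟨-, h⟩
    obtain ⟨D₁, hD₁, hS₁⟩ := cent_le_defect hM hPe hle hf
    obtain ⟨x, hx1, hx2⟩ := exists_conj_cent_defect hM hmax hle hQf
    have hconj := isConj_of_conj hF hle hx1
    have h1 := h _ hconj
    refine defect_of_le_of_card hM hD₁ hS₁ ?_
    rw [card_defect_conj hM x hf hD₁ hx2, card_subgroupOf inf_le_right, card_subgroupOf inf_le_right]
    exact h1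
  · intro hD
    refine ⟨hQP, fun Q' hc => ?_⟩
    obtain ⟨g, rfl, hg⟩ := conj_of_isConj hM hF hc hle
    have hfx : IsPBlock M (conjBlock Q g f) := isPBlock_conjBlock Q g hf
    obtain ⟨D₂, hD₂, hS₂⟩ := cent_le_defect hM hPe hg hfx
    have h1 := card_defect_conj hM g hf hD hD₂
    have h2 := Subgroup.card_le_of_le hS₂
    rw [← h1, card_subgroupOf inf_le_right, card_subgroupOf inf_le_right] at h2
    exact h2

/-- **Centric subgroups.** -/
theorem centric_iff (hM : IsPModular p M) (hF : IsBlockFusionSystemOn p M B P e F) {Q : Subgroup G}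
    {f : Set (IrrCharacter (Subgroup.centralizer (Q : Set G)))} (hQP : Q ≤ P) (hf : IsPBlock M f)
    (hle : SubpairLE p M Q f P e) :
    F.IsCentric Q ↔ IsDefectGroup p M f ((Q ⊓ Subgroup.centralizer (Q : Set G)).subgroupOf (Subgroup.centralizer (Q : Set G))) := by
  classical
  have hmax := hF.1
  have hPe := hmax.1.1
  have hQf : IsBrauerPair p M Q f := ⟨hPe.1.to_le hQP, hf⟩
  have hcardZ : ∀ g : G, Nat.card (Q.map (MulAut.conj g).toMonoidHom ⊓ Subgroup.centralizer ((Q.map (MulAut.conj g).toMonoidHom : Subgroup G) : Set G) : Subgroup G) =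
      Nat.card (Q ⊓ Subgroup.centralizer (Q : Set G) : Subgroup G) := by
    intro g
    have e1 : Q.map (MulAut.conj g).toMonoidHom ⊓ Subgroup.centralizer ((Q.map (MulAut.conj g).toMonoidHom : Subgroup G) : Set G) =
        (Q ⊓ Subgroup.centralizer (Q : Set G) : Subgroup G).map (MulAut.conj g).toMonoidHom := by
      ext y
      constructor
      · rintro ⟨⟨a, ha, rfl⟩, hy⟩
        refine ⟨a, ⟨ha, ?_⟩, rfl⟩
        have := ((conjCent Q g).symm ⟨_, hy⟩).2
        rw [centEquiv_symm_apply] at this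
        simpa [mul_assoc] using this
      · rintro ⟨a, ⟨ha, hc⟩, rfl⟩
        exact ⟨⟨a, ha, rfl⟩, ((conjCent Q g) ⟨a, hc⟩).2⟩
    rw [e1]
    exact Subgroup.card_map_of_injective (MulAut.conj g).injective
  constructor
  · rintro ⟨-, h⟩
    obtain ⟨D₁, hD₁, hS₁⟩ := cent_le_defect hM hPe hle hf
    obtain ⟨x, hx1, hx2⟩ := exists_conj_cent_defect hM hmax hle hQf
    have hconj := isConj_of_conj hF hle hx1
    have h1 := h _ hconj
    have hZS : (Q ⊓ Subgroup.centralizer (Q : Set G)).subgroupOf (Subgroup.centralizer (Q : Set G)) ≤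
        (P ⊓ Subgroup.centralizer (Q : Set G)).subgroupOf (Subgroup.centralizer (Q : Set G)) := by
      intro c hc
      rw [Subgroup.mem_subgroupOf] at hc ⊢
      exact ⟨hQP hc.1, hc.2⟩
    refine defect_of_le_of_card hM hD₁ (hZS.trans hS₁) ?_
    rw [card_defect_conj hM x hf hD₁ hx2, card_subgroupOf inf_le_right, card_subgroupOf inf_le_right, ← hcardZ x]
    refine Subgroup.card_le_of_le ?_
    intro y hy
    exact ⟨h1 hy, hy.2⟩
  · intro hD
    refine ⟨hQP, fun Q' hc => ?_⟩
    obtain ⟨g, rfl, hg⟩ := conj_of_isConj hM hF hc hle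
    have hfx : IsPBlock M (conjBlock Q g f) := isPBlock_conjBlock Q g hf
    obtain ⟨D₂, hD₂, hS₂⟩ := cent_le_defect hM hPe hg hfx
    have h1 := card_defect_conj hM g hf hD hD₂
    have h2 := Subgroup.card_le_of_le hS₂
    rw [← h1, card_subgroupOf inf_le_right, card_subgroupOf inf_le_right, ← hcardZ g] at h2
    have hQ'P := SubpairLE.le hg
    have hle2 : (Q.map (MulAut.conj g).toMonoidHom ⊓ Subgroup.centralizer ((Q.map (MulAut.conj g).toMonoidHom : Subgroup G) : Set G) : Subgroup G) ≤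
        FusionSystem.centralizerIn P (Q.map (MulAut.conj g).toMonoidHom) := by
      intro y hy
      exact ⟨hQ'P hy.1, hy.2⟩
    have h3 := Subgroup.eq_of_le_of_card_ge hle2 h2
    intro y hy
    have : y ∈ (Q.map (MulAut.conj g).toMonoidHom ⊓ Subgroup.centralizer ((Q.map (MulAut.conj g).toMonoidHom : Subgroup G) : Set G) : Subgroup G) := by
      rw [h3]; exact hy
    exact this.1

/-- **Fully normalized subgroups.** -/
theorem fullyNormalized_iff (hM : IsPModular p M) (hF : IsBlockFusionSystemOn p M B P e F) {Q : Subgroup G}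
    {f : Set (IrrCharacter (Subgroup.centralizer (Q : Set G)))} (hQP : Q ≤ P) (hf : IsPBlock M f)
    (hle : SubpairLE p M Q f P e) {T : Subgroup G} (hT : IsStab Q f T) :
    F.IsFullyNormalized Q ↔ ∃ F' : Set (IrrCharacter T), IsPBlock M F' ∧
      (∀ t : T, blockCoeff F' t = subgroupBlockCoeff (Subgroup.centralizer (Q : Set G)) f (t : G)) ∧
      IsDefectGroup p M F' ((P ⊓ Subgroup.normalizer (Q : Set G)).subgroupOf T) := by
  classical
  haveI : Fact p.Prime := ⟨hM.1⟩
  letI : Fintype T := Fintype.ofFinite _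
  letI : Fintype (Subgroup.centralizer (Q : Set G)) := Fintype.ofFinite _
  have hmax := hF.1
  have hPe := hmax.1.1
  have hQp := hPe.1.to_le hQP
  have hQf : IsBrauerPair p M Q f := ⟨hQp, hf⟩
  have hRT : P ⊓ Subgroup.normalizer (Q : Set G) ≤ T := by
    obtain ⟨g, -, hn⟩ := exists_intermediate hM hPe hle (le_inf hQP Subgroup.le_normalizer) inf_le_left inf_le_right
    exact fun r hr => (hT r).2 ⟨hr.2, hn.2.2.2.2.1 r hr⟩
  obtain ⟨hF₁, hF₂⟩ := stab_block hM hQp hf hT
  constructor
  · rintro ⟨-, h⟩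
    refine ⟨_, hF₁, hF₂, ?_⟩
    obtain ⟨D₁, hD₁, hS₁⟩ := norm_le_defect hM hPe hle hf hT
    obtain ⟨x, hx1, hx2⟩ := exists_conj_norm_defect hM hmax hle hQf hT
    have hconj := isConj_of_conj hF hle hx1
    have h1 := h _ hconj
    obtain ⟨T', hT'⟩ := exists_isStab (Q.map (MulAut.conj x).toMonoidHom) (isPBlock_conjBlock Q x hf)
    obtain ⟨F', hF'1, hF'2, hF'3⟩ := hx2 T' hT'
    refine defect_of_le_of_card hM hD₁ hS₁ ?_
    rw [card_subgroupOf hRT]
    refine le_trans ?_ h1
    -- compare defect groups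
    letI : Fintype T' := Fintype.ofFinite _
    let τ : T ≃* T' := subEquiv T T' x (isStab_conj hT x hT')
    have hFimg : irrComp τ.symm '' overSet (Subgroup.inclusion hT.cent_le) f = F' := by
      apply blockCoeff_inj
      intro a
      rw [blockCoeff_comp, hF₂, hF'2]
      have h1 := subgroupBlockCoeff_conj Q x f ((τ.symm a : T) : G)
      rw [← h1]
      congr 1
      rw [subEquiv_symm_apply]
      group
    have hD₃ : IsDefectGroup p M F' (D₁.map τ.toMonoidHom) := by
      rw [← hFimg]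
      exact isDefectGroup_equiv τ hD₁ hM.1
    have e1 : Nat.card (D₁.map τ.toMonoidHom) = Nat.card D₁ :=
      Subgroup.card_map_of_injective τ.injective
    rw [← e1, Cfsg.Agent.Lib.CharBlockMinMax.card_defectGroup hM hF'1 hD₃, ← Cfsg.Agent.Lib.CharBlockMinMax.card_defectGroup hM hF'1 hF'3]
    have hRT' : P ⊓ Subgroup.normalizer ((Q.map (MulAut.conj x).toMonoidHom : Subgroup G) : Set G) ≤ T' := by
      obtain ⟨g, -, hn⟩ := exists_intermediate hM hPe hx1 (le_inf (SubpairLE.le hx1) Subgroup.le_normalizer) inf_le_left inf_le_right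
      exact fun r hr => (hT' r).2 ⟨hr.2, hn.2.2.2.2.1 r hr⟩
    rw [card_subgroupOf hRT']
    rfl
  · rintro ⟨F', hF'1, hF'2, hF'3⟩
    refine ⟨hQP, fun Q' hc => ?_⟩
    obtain ⟨g, rfl, hg⟩ := conj_of_isConj hM hF hc hle
    have hfx : IsPBlock M (conjBlock Q g f) := isPBlock_conjBlock Q g hf
    obtain ⟨T', hT'⟩ := exists_isStab (Q.map (MulAut.conj g).toMonoidHom) hfx
    letI : Fintype T' := Fintype.ofFinite _
    letI : Fintype (Subgroup.centralizer ((Q.map (MulAut.conj g).toMonoidHom : Subgroup G) : Set G)) := Fintype.ofFinite _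
    obtain ⟨D₂, hD₂, hS₂⟩ := norm_le_defect hM hPe hg hfx hT'
    obtain ⟨hF₃, hF₄⟩ := stab_block hM (isPGroup_map_conj hQp g) hfx hT'
    let τ : T ≃* T' := subEquiv T T' g (isStab_conj hT g hT')
    have hFimg : irrComp τ.symm '' F' = overSet (Subgroup.inclusion hT'.cent_le) (conjBlock Q g f) := by
      apply blockCoeff_inj
      intro a
      rw [blockCoeff_comp, hF'2, hF₄]
      have h1 := subgroupBlockCoeff_conj Q g f ((τ.symm a : T) : G)
      rw [← h1]
      congr 1
      rw [subEquiv_symm_apply]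
      group
    have hD₃ : IsDefectGroup p M (overSet (Subgroup.inclusion hT'.cent_le) (conjBlock Q g f)) (((P ⊓ Subgroup.normalizer (Q : Set G)).subgroupOf T).map τ.toMonoidHom) := by
      rw [← hFimg]
      exact isDefectGroup_equiv τ hF'3 hM.1
    have e1 : Nat.card (((P ⊓ Subgroup.normalizer (Q : Set G)).subgroupOf T).map τ.toMonoidHom) = Nat.card ((P ⊓ Subgroup.normalizer (Q : Set G)).subgroupOf T) :=
      Subgroup.card_map_of_injective τ.injective
    have hRT' : P ⊓ Subgroup.normalizer ((Q.map (MulAut.conj g).toMonoidHom : Subgroup G) : Set G) ≤ T' := by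
      obtain ⟨g', -, hn⟩ := exists_intermediate hM hPe hg (le_inf (SubpairLE.le hg) Subgroup.le_normalizer) inf_le_left inf_le_right
      exact fun r hr => (hT' r).2 ⟨hr.2, hn.2.2.2.2.1 r hr⟩
    have h2 := Subgroup.card_le_of_le hS₂
    rw [card_subgroupOf hRT', Cfsg.Agent.Lib.CharBlockMinMax.card_defectGroup hM hF₃ hD₂,
      ← Cfsg.Agent.Lib.CharBlockMinMax.card_defectGroup hM hF₃ hD₃, e1, card_subgroupOf hRT] at h2
    exact h2

/-- **The principal block.** -/
theorem principal_maximal (hM : IsPModular p M) (S : Sylow p G) :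
    IsMaximalBrauerPair p M (principalBlock M G) (S : Subgroup G) (principalBlock M (Subgroup.centralizer ((S : Subgroup G) : Set G))) := by
  classical
  haveI : Fact p.Prime := ⟨hM.1⟩
  letI : Fintype (Subgroup.centralizer ((S : Subgroup G) : Set G)) := Fintype.ofFinite _
  refine ⟨(isBrauerPairOf_principal_iff hM _ S.isPGroup' _ principal_isBlock).2 rfl, ?_⟩
  intro R g hR hle
  exact S.is_maximal' hR.1.1 (SubpairLE.le hle)

theorem principal_hom (hM : IsPModular p M) (S : Sylow p G) {F : FusionSystem (S : Subgroup G)}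
    (hF : IsBlockFusionSystemOn p M (principalBlock M G) (S : Subgroup G) (principalBlock M (Subgroup.centralizer ((S : Subgroup G) : Set G))) F)
    (Q : Subgroup G) : F.Hom Q = (groupFusionSystem (S : Subgroup G)).Hom Q := by
  classical
  haveI : Fact p.Prime := ⟨hM.1⟩
  have hmax := hF.1
  have hPe := hmax.1.1
  have hB : IsPBlock M (principalBlock M G) := principal_isBlock
  ext φ
  constructor
  · intro h
    obtain ⟨hQ, g, hg, hmap, -⟩ := (hF.2 Q φ).1 h
    refine ⟨hQ, fun x => ?_, g, hg⟩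
    rw [hg]
    exact hmap ⟨x, x.2, rfl⟩
  · rintro ⟨hQ, hv, g, hg⟩
    have hmap : Q.map (MulAut.conj g).toMonoidHom ≤ (S : Subgroup G) := by
      rintro _ ⟨u, hu, rfl⟩
      have := hv ⟨u, hu⟩
      rwa [hg] at this
    refine (hF.2 Q φ).2 ⟨hQ, g, hg, hmap, ?_⟩
    obtain ⟨f, hf, hle⟩ := exists_subpair_below hM hPe Q hQ
    refine ⟨f, hle, ?_⟩
    have hpair : IsBrauerPairOf p M (principalBlock M G) Q f := (pairOf_le_iff hM hB ⟨Q, f⟩ ⟨_, _⟩ hle).2 hmax.1
    have hpair' := isBrauerPairOf_conj hpair g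
    obtain ⟨f'', hf'', hle''⟩ := exists_subpair_below hM hPe (Q.map (MulAut.conj g).toMonoidHom) hmap
    have hpair'' : IsBrauerPairOf p M (principalBlock M G) _ f'' := (pairOf_le_iff hM hB ⟨_, f''⟩ ⟨_, _⟩ hle'').2 hmax.1
    letI : Fintype (Subgroup.centralizer ((Q.map (MulAut.conj g).toMonoidHom : Subgroup G) : Set G)) := Fintype.ofFinite _
    have e1 := (isBrauerPairOf_principal_iff hM _ hpair'.1.1 _ hpair'.1.2).1 hpair'
    have e2 := (isBrauerPairOf_principal_iff hM _ hpair''.1.1 _ hpair''.1.2).1 hpair''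
    rw [e1, ← e2]
    exact hle''

end Basic

end Cfsg.Agent.Lib.BlockFus
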