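import Cfsg.Agent.Lib.BlockFong

/-!
# Construction of the fusion system of a block
-/

set_option autoImplicit false
set_option linter.all false

namespace Cfsg.Agent.Lib.BlockFus2

open Cfsg Cfsg.Agent.Lib.BlockLocal Cfsg.Agent.Lib.BlockOsima Cfsg.Agent.Lib.BlockBr
  Cfsg.Agent.Lib.BlockApps Cfsg.Agent.Lib.CharIrr Cfsg.Agent.Lib.BlockPair Cfsg.Agent.Lib.BlockSub
  Cfsg.Agent.Lib.BlockMax Cfsg.Agent.Lib.BlockTrace Cfsg.Agent.Lib.BlockConjP Cfsg.Agent.Lib.BlockFull
  Cfsg.Agent.Lib.BlockFus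
open scoped ComplexConjugate

universe u

section Algebra

variable {G : Type u} [Group G] [Fintype G] {p : ℕ} {M : Ideal AlgInt} [hprime : M.IsPrime]

/-- A criterion for an index to be a conjugate pair. -/
theorem idx_eq_conj {Q Q' : Subgroup G} (f : Set (IrrCharacter (Subgroup.centralizer (Q : Set G))))
    (f' : Set (IrrCharacter (Subgroup.centralizer (Q' : Set G)))) (y : G)
    (h : ∀ a, a ∈ Q ↔ y * a * y⁻¹ ∈ Q')
    (hf : ∀ ξ' : IrrCharacter (Subgroup.centralizer (Q' : Set G)), ξ' ∈ f' ↔ ∃ ξ ∈ f,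
      ∀ (c : Subgroup.centralizer (Q : Set G)) (c' : Subgroup.centralizer (Q' : Set G)),
        (c' : G) = y * c * y⁻¹ → (ξ' : Subgroup.centralizer (Q' : Set G) → ℂ) c' = (ξ : Subgroup.centralizer (Q : Set G) → ℂ) c) :
    (⟨Q', f'⟩ : BrauerPairIdx G) = ⟨Q.map (MulAut.conj y).toMonoidHom, conjBlock Q y f⟩ := by
  have e : Q' = Q.map (MulAut.conj y).toMonoidHom := by
    ext a
    constructor
    · intro ha
      refine ⟨y⁻¹ * a * y, ?_, ?_⟩
      · apply (h _).2
        have : y * (y⁻¹ * a * y) * y⁻¹ = a := by group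
        rw [this]
        exact ha
      · simp only [MulEquiv.toMonoidHom_eq_coe, MonoidHom.coe_coe, MulAut.conj_apply]
        group
    · rintro ⟨b, hb, rfl⟩
      exact (h b).1 hb
  subst e
  have : f' = conjBlock Q y f := Set.ext hf
  rw [this]

/-- Composition of conjugations of pairs. -/
theorem conj_conj (Q : Subgroup G) (f : Set (IrrCharacter (Subgroup.centralizer (Q : Set G)))) (g k : G) :
    (⟨(Q.map (MulAut.conj g).toMonoidHom).map (MulAut.conj k).toMonoidHom, conjBlock _ k (conjBlock Q g f)⟩ : BrauerPairIdx G) =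
      ⟨Q.map (MulAut.conj (k * g)).toMonoidHom, conjBlock Q (k * g) f⟩ := by
  classical
  letI : Fintype (Subgroup.centralizer (Q : Set G)) := Fintype.ofFinite _
  letI : Fintype (Subgroup.centralizer ((Q.map (MulAut.conj g).toMonoidHom : Subgroup G) : Set G)) := Fintype.ofFinite _
  refine idx_eq_conj f _ (k * g) ?_ ?_
  · intro a
    rw [mem_map_conj_iff Q g a, mem_map_conj_iff (Q.map (MulAut.conj g).toMonoidHom) k (g * a * g⁻¹)]
    have : (k * g) * a * (k * g)⁻¹ = k * (g * a * g⁻¹) * k⁻¹ := by group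
    rw [this]
  · intro ξ''
    constructor
    · rintro ⟨ξ', ⟨ξ, hξ, h2⟩, h1⟩
      refine ⟨ξ, hξ, fun c c' hc => ?_⟩
      rw [h1 (conjCent Q g c) c' (by rw [hc, centEquiv_apply]; group), h2 c (conjCent Q g c) rfl]
    · rintro ⟨ξ, hξ, h⟩
      refine ⟨irrComp (conjCent Q g).symm ξ, by rw [conjBlock_eq]; exact ⟨ξ, hξ, rfl⟩, fun c₁ c' hc => ?_⟩
      rw [irrComp_apply]
      apply h
      rw [hc, centEquiv_symm_apply]
      group

/-- Conjugation by the identity. -/
theorem conj_one (Q : Subgroup G) (f : Set (IrrCharacter (Subgroup.centralizer (Q : Set G)))) :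
    (⟨Q.map (MulAut.conj (1 : G)).toMonoidHom, conjBlock Q 1 f⟩ : BrauerPairIdx G) = ⟨Q, f⟩ := by
  refine (idx_eq_conj f f 1 (fun a => by simp) ?_).symm
  intro ξ'
  constructor
  · intro h
    exact ⟨ξ', h, fun c c' hc => by
      have : c' = c := Subtype.ext (by simpa using hc)
      rw [this]⟩
  · rintro ⟨ξ, hξ, h⟩
    have : ξ' = ξ := by
      apply Subtype.ext
      funext c
      exact h c c (by simp)
    rw [this]
    exact hξ

/-- Conjugation by a stabilizing element fixes the pair. -/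
theorem conj_of_stab {Q : Subgroup G} [Fintype (Subgroup.centralizer (Q : Set G))]
    {f : Set (IrrCharacter (Subgroup.centralizer (Q : Set G)))} (hf : IsPBlock M f) {y : G}
    (hy : y ∈ Subgroup.normalizer (Q : Set G)) (hs : StabilizesBlock (Subgroup.centralizer (Q : Set G)) f y) :
    (⟨Q.map (MulAut.conj y).toMonoidHom, conjBlock Q y f⟩ : BrauerPairIdx G) = ⟨Q, f⟩ := by
  classical
  refine (idx_eq_conj f f y (fun a => Subgroup.mem_normalizer_iff.1 hy a) ?_).symm
  intro ξ'
  have himg := (stabilizes_iff _ hs.1 hf).1 hs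
  constructor
  · intro h
    rw [← himg] at h
    obtain ⟨ξ, hξ, rfl⟩ := h
    refine ⟨ξ, hξ, fun c c' hc => ?_⟩
    rw [irrComp_apply]
    have : (conjEquiv _ y hs.1).symm c' = c := by
      apply Subtype.ext
      rw [conjEquiv_symm_apply, hc]
      group
    rw [this]
  · rintro ⟨ξ, hξ, h⟩
    rw [← himg]
    refine ⟨ξ, hξ, ?_⟩
    apply Subtype.ext
    funext c'
    rw [irrComp_apply]
    symm
    apply h
    rw [conjEquiv_symm_apply]
    group

/-- Conjugation by an element of `Q` fixes a pair on `Q`. -/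
theorem conj_self {Q : Subgroup G} (f : Set (IrrCharacter (Subgroup.centralizer (Q : Set G)))) {y : G} (hy : y ∈ Q) :
    (⟨Q.map (MulAut.conj y).toMonoidHom, conjBlock Q y f⟩ : BrauerPairIdx G) = ⟨Q, f⟩ := by
  refine (idx_eq_conj f f y (fun a => Subgroup.mem_normalizer_iff.1 (Subgroup.le_normalizer hy) a) ?_).symm
  intro ξ'
  have hcomm : ∀ c : Subgroup.centralizer (Q : Set G), y * (c : G) * y⁻¹ = c := by
    intro c
    rw [Subgroup.mem_centralizer_iff.1 c.2 y hy]
    group
  constructor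
  · intro h
    exact ⟨ξ', h, fun c c' hc => by
      have : c' = c := Subtype.ext (by rw [hc, hcomm])
      rw [this]⟩
  · rintro ⟨ξ, hξ, h⟩
    have : ξ' = ξ := by
      apply Subtype.ext
      funext c
      exact h c c (hcomm c).symm
    rw [this]
    exact hξ

/-- Subpair inclusion, in terms of the index type. -/
theorem subpairLE_of_idx_eq {a b c d : BrauerPairIdx G} (h : Relation.ReflTransGen (NormalSubpairRel p M) a b)
    (e1 : a = c) (e2 : b = d) : Relation.ReflTransGen (NormalSubpairRel p M) c d := by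
  subst e1
  subst e2
  exact h

/-- The source of an inclusion into a Brauer pair is a Brauer pair. -/
theorem SubpairLE.isBrauerPair {Q P : Subgroup G} {f : Set (IrrCharacter (Subgroup.centralizer (Q : Set G)))}
    {e : Set (IrrCharacter (Subgroup.centralizer (P : Set G)))} (h : SubpairLE p M Q f P e)
    (hPe : IsBrauerPair p M P e) : IsBrauerPair p M Q f := by
  have : ∀ a b : BrauerPairIdx G, Relation.ReflTransGen (NormalSubpairRel p M) a b → IsBrauerPair p M b.1 b.2 →
      IsBrauerPair p M a.1 a.2 := by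
    intro a b hab
    induction hab using Relation.ReflTransGen.head_induction_on with
    | refl => exact id
    | head hstep _ _ => exact fun _ => hstep.1
  exact this _ _ h hPe

end Algebra

section Construction

variable {G : Type u} [Group G] [Fintype G] {p : ℕ} {M : Ideal AlgInt} [hprime : M.IsPrime]
variable {B : Set (IrrCharacter G)} {P : Subgroup G} {e : Set (IrrCharacter (Subgroup.centralizer (P : Set G)))}

/-- The maps of the block fusion system. -/
def blockHom (p : ℕ) (M : Ideal AlgInt) (P : Subgroup G) (e : Set (IrrCharacter (Subgroup.centralizer (P : Set G))))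
    (Q : Subgroup G) : Set (Q →* G) :=
  {φ | Q ≤ P ∧ ∃ g : G, (∀ u : Q, φ u = g * (u : G) * g⁻¹) ∧
        Q.map (MulAut.conj g).toMonoidHom ≤ P ∧
        ∃ f : Set (IrrCharacter (Subgroup.centralizer (Q : Set G))),
          SubpairLE p M Q f P e ∧
            SubpairLE p M (Q.map (MulAut.conj g).toMonoidHom) (conjBlock Q g f) P e}

theorem blockHom_inv (hPe : IsBrauerPair p M P e) {Q : Subgroup G} {g : G} (hmap : Q.map (MulAut.conj g).toMonoidHom ≤ P)
    (hQ : Q ≤ P) {f : Set (IrrCharacter (Subgroup.centralizer (Q : Set G)))} (hf : SubpairLE p M Q f P e)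
    (hf' : SubpairLE p M (Q.map (MulAut.conj g).toMonoidHom) (conjBlock Q g f) P e) (Q' : Subgroup G)
    (hQ' : Q' = Q.map (MulAut.conj g).toMonoidHom) : conjHom Q' g⁻¹ ∈ blockHom p M P e Q' := by
  subst hQ'
  have e1 : (Q.map (MulAut.conj g).toMonoidHom).map (MulAut.conj g⁻¹).toMonoidHom = Q := by
    ext a
    constructor
    · rintro ⟨_, ⟨b, hb, rfl⟩, rfl⟩
      have e0 : (MulAut.conj g⁻¹).toMonoidHom ((MulAut.conj g).toMonoidHom b) = b := by
        simp only [MulEquiv.toMonoidHom_eq_coe, MonoidHom.coe_coe, MulAut.conj_apply]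
        group
      rw [e0]
      exact hb
    · intro ha
      refine ⟨g * a * g⁻¹, ⟨a, ha, rfl⟩, ?_⟩
      simp only [MulEquiv.toMonoidHom_eq_coe, MonoidHom.coe_coe, MulAut.conj_apply]
      group
  refine ⟨hmap, g⁻¹, fun u => rfl, by rw [e1]; exact hQ, conjBlock Q g f, hf', ?_⟩
  have e2 := conj_conj Q f g g⁻¹
  rw [inv_mul_cancel, conj_one] at e2
  exact subpairLE_of_idx_eq hf e2.symm rfl

/-- **The fusion system of a block.** -/
def blockFus (hM : IsPModular p M) (hmax : IsMaximalBrauerPair p M B P e) : FusionSystem P where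
  Hom Q := blockHom p M P e Q
  le_of_mem := by
    rintro Q φ ⟨hQ, g, hg, hmap, -⟩
    refine ⟨hQ, fun x => ?_⟩
    rw [hg]
    exact hmap ⟨x, x.2, rfl⟩
  injective_of_mem := by
    rintro Q φ ⟨-, g, hg, -⟩ a b hab
    have h : g * (a : G) * g⁻¹ = g * (b : G) * g⁻¹ := ((hg a).symm.trans hab).trans (hg b)
    exact Subtype.ext (mul_left_cancel (mul_right_cancel h))
  conj_mem := by
    intro Q g hQ hg
    have hPe := hmax.1.1
    obtain ⟨f, hf, hle⟩ := exists_subpair_below hM hPe Q hQ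
    refine ⟨hQ, g, fun u => rfl, ?_, f, hle, ?_⟩
    · rintro _ ⟨u, hu, rfl⟩
      exact P.mul_mem (P.mul_mem hg (hQ hu)) (P.inv_mem hg)
    · have := subpairLE_conj hle g
      exact subpairLE_of_idx_eq this rfl (conj_self e hg)
  comp_mem := by
    rintro Q Q' φ ψ ⟨hQ, g, hg, hmap, f, hf, hf'⟩ ⟨hQ', k, hk, hmap', f₂, hf₂, hf₂'⟩ h
    have hPe := hmax.1.1
    have hval : ∀ u : Q, (ψ.comp (φ.codRestrict Q' h)) u = (k * g) * (u : G) * (k * g)⁻¹ := by
      intro u
      show ψ ⟨φ u, h u⟩ = _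
      rw [hk]
      show k * φ u * k⁻¹ = _
      rw [hg]
      group
    have hsub : Q.map (MulAut.conj g).toMonoidHom ≤ Q' := by
      rintro _ ⟨u, hu, rfl⟩
      have := h ⟨u, hu⟩
      rwa [hg] at this
    refine ⟨hQ, k * g, hval, ?_, f, hf, ?_⟩
    · rintro _ ⟨u, hu, rfl⟩
      have h1 := (ψ.comp (φ.codRestrict Q' h)) ⟨u, hu⟩
      have hin : (ψ ⟨φ ⟨u, hu⟩, h ⟨u, hu⟩⟩) ∈ Q'.map (MulAut.conj k).toMonoidHom := by
        rw [hk]
        exact ⟨_, h ⟨u, hu⟩, rfl⟩
      have h2 := hmap' hin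
      have h3 := hval ⟨u, hu⟩
      have h4 : (ψ.comp (φ.codRestrict Q' h)) ⟨u, hu⟩ = ψ ⟨φ ⟨u, hu⟩, h ⟨u, hu⟩⟩ := rfl
      rw [h4] at h3
      rw [h3] at h2
      exact h2
    · have hQ'e := SubpairLE.isBrauerPair hf₂ hPe
      obtain ⟨f₃, -, hf₃⟩ := exists_subpair_below hM hQ'e (Q.map (MulAut.conj g).toMonoidHom) hsub
      have e3 : f₃ = conjBlock Q g f :=
        subpair_unique hM hPe _ f₃ _ (Relation.ReflTransGen.trans hf₃ hf₂) hf'
      subst e3
      have h5 := subpairLE_conj hf₃ k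
      have h6 : SubpairLE p M _ _ P e := Relation.ReflTransGen.trans h5 hf₂'
      exact subpairLE_of_idx_eq h6 (conj_conj Q f g k) rfl
  inv_mem := by
    rintro Q φ ⟨hQ, g, hg, hmap, f, hf, hf'⟩
    refine ⟨conjHom φ.range g⁻¹, blockHom_inv hmax.1.1 hmap hQ hf hf' _ (range_of_conj hg), fun x => ?_⟩
    show g⁻¹ * φ x * g⁻¹⁻¹ = x
    rw [hg]
    group

theorem blockFus_isBlock (hM : IsPModular p M) (hmax : IsMaximalBrauerPair p M B P e) :
    IsBlockFusionSystemOn p M B P e (blockFus hM hmax) :=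
  ⟨hmax, fun _ _ => Iff.rfl⟩

end Construction

end Cfsg.Agent.Lib.BlockFus2
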