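import Mathlib
import Cfsg.Prelude.Def_Blocks
import Cfsg.Agent.Lib.CharBlockThird

/-!
# The regular part of a height zero character
-/

set_option autoImplicit false
set_option linter.all false

namespace Cfsg.Agent.Lib.BlockHt

open scoped ComplexConjugate
open Cfsg Cfsg.Agent.Lib.CharBlockLocal Cfsg.Agent.Lib.CharBlockConv Cfsg.Agent.Lib.CharBlockRot
  Cfsg.Agent.Lib.CharBlockOrth Cfsg.Agent.Lib.CharOps Cfsg.Agent.Lib.CharIrr
  Cfsg.Agent.Lib.CharBlockDefect Cfsg.Agent.Lib.CharBlockMinMax Cfsg.Agent.Lib.CharBlockBrauer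
  Cfsg.Agent.Lib.CharBlockInd Cfsg.Agent.Lib.CharBlockFirst Cfsg.Agent.Lib.CharBlockSecond
  Cfsg.Agent.Lib.CharBlockHeight Cfsg.Agent.Lib.CharBlockDom Cfsg.Agent.Lib.CharBlockThird

universe u

section Reg

variable {G : Type u} [Group G] [Fintype G] {p : ℕ} {M : Ideal AlgInt}

/-- The function `g ↦ φ(g⁻¹)` on regular elements, zero elsewhere. -/
noncomputable def cReg (p : ℕ) (φ : G → ℂ) (g : G) : ℂ := regPart p φ g⁻¹

theorem cReg_isClass {φ : G → ℂ} (hφ : IsClassFunction G φ) : IsClassFunction G (cReg p φ) := by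
  intro g h
  unfold cReg
  have e : (h * g * h⁻¹)⁻¹ = h * g⁻¹ * h⁻¹ := by group
  rw [e]
  exact regPart_isClass hφ _ _

theorem cReg_isRClass (hM : IsPModular p M) {φ : G → ℂ} (hφ : IsClassFunction G φ)
    (hl : ∀ g, MemLocalRing M (φ g)) : IsRClass M (cReg p φ) := by
  classical
  refine ⟨cReg_isClass hφ, fun g => ?_⟩
  unfold cReg
  rw [regPart_apply]
  split_ifs
  · exact MemLocalRing.zero hM
  · exact hl _

/-- The coefficient formula. -/
theorem classInner_regPart (φ : G → ℂ) {θ : G → ℂ} (hθ : IsIrrCharacter G θ) :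
    classInner (regPart p φ) θ * (Nat.card G : ℂ) = θ 1 * omega θ (cReg p φ) := by
  have h1 : θ 1 ≠ 0 := degree_ne_zero hθ
  have hc : (Nat.card G : ℂ) ≠ 0 := by exact_mod_cast Nat.card_pos.ne'
  unfold classInner omega
  rw [mul_div_cancel₀ _ h1, mul_comm, ← mul_assoc, mul_inv_cancel₀ hc, one_mul]
  rw [← Equiv.sum_comp (Equiv.inv G)]
  refine Finset.sum_congr rfl fun g _ => ?_
  simp only [Equiv.inv_apply, cReg, inv_inv]
  rw [conj_apply_eq_inv hθ]
  rw [inv_inv]

/-- **The regular part of a height zero character.** -/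
theorem height_zero_omega (hM : IsPModular p M) {B : Set (IrrCharacter G)} (hB : IsPBlock M B)
    {χ : IrrCharacter G} (hχ : χ ∈ B) (h0 : blockHeight p B (χ : G → ℂ) = 0) :
    ¬ MemLocalIdeal M (omega (χ : G → ℂ) (cReg p (χ : G → ℂ))) := by
  classical
  haveI : Fact p.Prime := ⟨hM.1⟩
  haveI : M.IsPrime := hM.2.1.isPrime
  intro hI
  have hχc := IsCharacter.isClassFunction' (IsIrrCharacter.isCharacter' χ.2)
  have hR : IsRClass M (cReg p (χ : G → ℂ)) :=
    cReg_isRClass hM hχc (memLocalRing_character hM χ)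
  obtain ⟨P⟩ : Nonempty (Sylow p G) := inferInstance
  -- the sum over the Sylow subgroup
  have hsum1 : ∑ u : (P : Subgroup G), regPart p (χ : G → ℂ) (u : G) = (χ : G → ℂ) 1 := by
    rw [Finset.sum_eq_single (1 : (P : Subgroup G))]
    · rw [regPart_apply, if_neg]
      · simp
      · simp [hM.1.ne_one]
    · intro u _ hu
      rw [regPart_apply, if_pos]
      obtain ⟨k, hk⟩ := P.isPGroup' u
      have hk' : (u : G) ^ p ^ k = 1 := by simpa using congrArg Subtype.val hk
      have hu' : (u : G) ≠ 1 := fun h => hu (Subtype.ext h)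
      obtain ⟨j, -, hj⟩ := (Nat.dvd_prime_pow hM.1).1 (orderOf_dvd_of_pow_eq_one hk')
      rw [hj]
      refine dvd_pow_self p ?_
      rintro rfl
      rw [pow_zero, orderOf_eq_one_iff] at hj
      exact hu' hj
    · intro h
      exact absurd (Finset.mem_univ _) h
  -- natural numbers attached to the restrictions
  have hnat : ∀ θ : IrrCharacter G, ∃ n : ℕ, ∑ u : (P : Subgroup G), (θ : G → ℂ) (u : G) =
      (Nat.card (P : Subgroup G) : ℂ) * n := by
    intro θ
    obtain ⟨n, hn⟩ := exists_nat_classInner (isCharacter_restrict (P : Subgroup G) (IsIrrCharacter.isCharacter' θ.2))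
      (IsIrrCharacter.isCharacter' (Cfsg.Agent.Lib.CharIso.isIrr_one (G := (P : Subgroup G))))
    refine ⟨n, ?_⟩
    have hc : (Nat.card (P : Subgroup G) : ℂ) ≠ 0 := by exact_mod_cast Nat.card_pos.ne'
    rw [← hn]
    unfold classInner
    rw [← mul_assoc, mul_inv_cancel₀ hc, one_mul]
    simp
  choose n hn using hnat
  -- expansion
  have hexp := classFunction_expand (regPart_isClass (p := p) hχc)
  have hsum2 : (χ : G → ℂ) 1 = ∑ θ : IrrCharacter G, classInner (regPart p (χ : G → ℂ)) (θ : G → ℂ) *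
      ((Nat.card (P : Subgroup G) : ℂ) * n θ) := by
    rw [← hsum1]
    conv_lhs => rw [hexp]
    simp only [Finset.sum_apply, Pi.smul_apply, smul_eq_mul]
    rw [Finset.sum_comm]
    refine Finset.sum_congr rfl fun θ _ => ?_
    rw [← Finset.mul_sum, hn]
  -- notation
  set v := minVal p B with hv
  have hval : (charDegree (χ : G → ℂ)).factorization p = v := by
    have h1 : (charDegree (χ : G → ℂ)).factorization p - minVal p B = 0 := h0
    have h2 := minVal_le (p := p) hχ
    omega
  have hdegχ : ∃ f : ℕ, charDegree (χ : G → ℂ) = p ^ v * f ∧ ¬ p ∣ f := by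
    refine ⟨charDegree (χ : G → ℂ) / p ^ v, ?_, ?_⟩
    · exact (Nat.mul_div_cancel' (pow_minVal_dvd hM.1 hχ)).symm
    · rw [← hval]
      exact Nat.not_dvd_ordCompl hM.1 (charDegree_ne_zero χ.2)
  obtain ⟨f, hf, hfp⟩ := hdegχ
  have hdeg : ∀ θ ∈ B, ∃ f : ℕ, charDegree (θ : G → ℂ) = p ^ v * f := fun θ hθ =>
    pow_minVal_dvd hM.1 hθ
  have hcardP : Nat.card (P : Subgroup G) = p ^ (Nat.card G).factorization p := P.card_eq_multiplicity
  set g' : ℕ := Nat.card G / p ^ (Nat.card G).factorization p with hg'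
  have hg'p : ¬ p ∣ g' := Nat.not_dvd_ordCompl hM.1 Nat.card_pos.ne'
  have hcardG : Nat.card G = p ^ (Nat.card G).factorization p * g' :=
    (Nat.ordProj_mul_ordCompl_eq_self _ p).symm
  have hpv : ((p : ℂ) ^ v) ≠ 0 := pow_ne_zero _ (by exact_mod_cast hM.1.ne_zero)
  have hg'0 : (g' : ℂ) ≠ 0 := by
    intro h
    have : g' = 0 := by exact_mod_cast h
    rw [this] at hg'p
    exact hg'p (dvd_zero _)
  have hginv : MemLocalRing M ((g' : ℂ)⁻¹) := natCast_inv_memLocalRing hM hg'p
  have hP0 : (Nat.card (P : Subgroup G) : ℂ) ≠ 0 := by exact_mod_cast Nat.card_pos.ne'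
  have hterm : ∀ θ : IrrCharacter G, ∃ t : ℂ, MemLocalIdeal M t ∧
      classInner (regPart p (χ : G → ℂ)) (θ : G → ℂ) * ((Nat.card (P : Subgroup G) : ℂ) * n θ) = (p : ℂ) ^ v * t := by
    intro θ
    by_cases hθ : θ ∈ B
    · obtain ⟨fθ, hfθ⟩ := hdeg θ hθ
      have hsame : SameBlock M (χ : G → ℂ) (θ : G → ℂ) := by
        have h1 := blockOf_eq_of_mem hM hB hχ
        have h2 : θ ∈ blockOf M (χ : G → ℂ) := by rw [← h1]; exact hθ
        exact h2
      have h1 := sameBlock_omega hM χ.2 θ.2 hsame hR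
      have h2 : MemLocalIdeal M (omega (θ : G → ℂ) (cReg p (χ : G → ℂ))) := by
        have h3 := MemLocalIdeal.sub hM hI h1
        simpa using h3
      refine ⟨(fθ : ℂ) * ((g' : ℂ)⁻¹ * omega (θ : G → ℂ) (cReg p (χ : G → ℂ))) * (n θ : ℂ), ?_, ?_⟩
      · have h4 := MemLocalIdeal.mul_left hM hginv h2
        have h5 := MemLocalIdeal.mul_left hM (MemLocalRing.natCast hM fθ) h4
        exact MemLocalIdeal.mul_right hM (MemLocalRing.natCast hM (n θ)) h5
      · have h1' := classInner_regPart (p := p) (χ : G → ℂ) θ.2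
        have hc : (Nat.card G : ℂ) ≠ 0 := by exact_mod_cast Nat.card_pos.ne'
        have h3 : classInner (regPart p (χ : G → ℂ)) (θ : G → ℂ) =
            (θ : G → ℂ) 1 * omega (θ : G → ℂ) (cReg p (χ : G → ℂ)) / (Nat.card G : ℂ) := by
          rw [eq_div_iff hc, h1']
        rw [h3, ← charDegree_cast (IsIrrCharacter.isCharacter' θ.2), hfθ, hcardP]
        have e1 : (Nat.card G : ℂ) = (p : ℂ) ^ (Nat.card G).factorization p * (g' : ℂ) := by
          conv_lhs => rw [hcardG]
          push_cast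
          ring
        rw [e1]
        have hpa : (p : ℂ) ^ (Nat.card G).factorization p ≠ 0 := pow_ne_zero _ (by exact_mod_cast hM.1.ne_zero)
        push_cast
        field_simp
    · refine ⟨0, MemLocalIdeal.zero hM, ?_⟩
      have hns : ¬ SameBlock M (χ : G → ℂ) (θ : G → ℂ) := by
        intro h
        apply hθ
        have h1 := blockOf_eq_of_mem hM hB hχ
        rw [h1]
        exact h
      rw [sum_regular_eq_zero hM hns]
      simp
  choose t ht1 ht2 using hterm
  have hmain : (f : ℂ) = ∑ θ : IrrCharacter G, t θ := by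
    have h1 : (χ : G → ℂ) 1 = (p : ℂ) ^ v * f := by
      rw [← charDegree_cast (IsIrrCharacter.isCharacter' χ.2), hf]
      push_cast
      ring
    rw [h1] at hsum2
    simp only [ht2] at hsum2
    rw [← Finset.mul_sum] at hsum2
    exact mul_left_cancel₀ hpv hsum2
  have hfI : MemLocalIdeal M (f : ℂ) := by
    rw [hmain]
    exact MemLocalIdeal.sum hM _ fun θ _ => ht1 θ
  exact hfp ((natCast_memLocalIdeal_iff hM f).1 hfI)

/-- Induced block and regular part. -/
theorem omega_res_cReg (hM : IsPModular p M) (H : Subgroup G) [Fintype H] {b : Set (IrrCharacter H)}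
    {B₀ : Set (IrrCharacter G)} (hind : IsInducedBlock M H b B₀) (χ : IrrCharacter G) {ψ : IrrCharacter H} (hψ : ψ ∈ b)
    {θ : IrrCharacter G} (hθ : θ ∈ B₀) :
    MemLocalIdeal M (omega (ψ : H → ℂ) (res H (cReg p (χ : G → ℂ))) - omega (θ : G → ℂ) (cReg p (χ : G → ℂ))) := by
  have hχc := IsCharacter.isClassFunction' (IsIrrCharacter.isCharacter' χ.2)
  have hR : IsRClass M (cReg p (χ : G → ℂ)) :=
    cReg_isRClass hM hχc (memLocalRing_character hM χ)
  exact omega_res_congr hM (IsCharacter.isClassFunction' (IsIrrCharacter.isCharacter' θ.2))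
    (hind.2.2 ψ hψ θ hθ) hR

/-- The value of the regular part of a character of a subgroup. -/
theorem classInner_eta (H : Subgroup G) [Fintype H] (χ : G → ℂ) {ψ : H → ℂ} (hψ : IsIrrCharacter H ψ) :
    classInner (fun h : H => if p ∣ orderOf h then (0 : ℂ) else ((p ^ (Nat.card H).factorization p : ℕ) : ℂ) * χ h) ψ / ψ 1 =
      (((Nat.card H / p ^ (Nat.card H).factorization p : ℕ) : ℂ))⁻¹ * omega ψ (res H (cReg p χ)) := by
  classical
  have hres : res H (cReg p χ) = cReg p (fun h : H => χ h) := by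
    funext h
    simp only [res_apply, cReg, regPart_apply]
    rw [orderOf_inv, orderOf_inv, Subgroup.orderOf_coe]
    simp
  have h1 := classInner_regPart (p := p) (fun h : H => χ h) hψ
  rw [hres]
  have h10 : ψ 1 ≠ 0 := degree_ne_zero hψ
  have hc : (Nat.card H : ℂ) ≠ 0 := by exact_mod_cast Nat.card_pos.ne'
  have hf : (fun h : H => if p ∣ orderOf h then (0 : ℂ) else ((p ^ (Nat.card H).factorization p : ℕ) : ℂ) * χ h) =
      fun h => ((p ^ (Nat.card H).factorization p : ℕ) : ℂ) * regPart p (fun h : H => χ h) h := by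
    funext h
    rw [regPart_apply]
    split_ifs <;> simp
  have h2 : classInner (fun h : H => ((p ^ (Nat.card H).factorization p : ℕ) : ℂ) * regPart p (fun h : H => χ h) h) ψ =
      ((p ^ (Nat.card H).factorization p : ℕ) : ℂ) * classInner (regPart p (fun h : H => χ h)) ψ := by
    unfold classInner
    rw [mul_left_comm, Finset.mul_sum (a := ((p ^ (Nat.card H).factorization p : ℕ) : ℂ))]
    congr 1
    refine Finset.sum_congr rfl fun h _ => ?_
    ring
  rw [hf, h2]
  have h3 : classInner (regPart p (fun h : H => χ h)) ψ =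
      ψ 1 * omega ψ (cReg p (fun h : H => χ h)) / (Nat.card H : ℂ) := by
    rw [eq_div_iff hc, h1]
  rw [h3]
  have hp0 : (p : ℂ) ≠ 0 ∨ (p : ℂ) = 0 := (em _).symm.elim (fun h => Or.inr (not_not.1 h)) Or.inl
  have hcard : (Nat.card H : ℂ) = ((p ^ (Nat.card H).factorization p : ℕ) : ℂ) *
      ((Nat.card H / p ^ (Nat.card H).factorization p : ℕ) : ℂ) := by
    rw [← Nat.cast_mul, Nat.ordProj_mul_ordCompl_eq_self]
  have hne1 : (((p ^ (Nat.card H).factorization p : ℕ) : ℂ)) ≠ 0 := by
    intro h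
    rw [hcard, h, zero_mul] at hc
    exact hc rfl
  have hne2 : (((Nat.card H / p ^ (Nat.card H).factorization p : ℕ) : ℂ)) ≠ 0 := by
    intro h
    rw [hcard, h, mul_zero] at hc
    exact hc rfl
  rw [hcard]
  field_simp

/-- The first half of the statement about `η`. -/
theorem eta_not_mem (hM : IsPModular p M) (H : Subgroup G) [Fintype H] {b : Set (IrrCharacter H)}
    {B₀ : Set (IrrCharacter G)} (hind : IsInducedBlock M H b B₀) (χ : IrrCharacter G) {ψ : IrrCharacter H} (hψ : ψ ∈ b)
    (hχ : χ ∉ B₀) : MemLocalIdeal M (omega (ψ : H → ℂ) (res H (cReg p (χ : G → ℂ)))) := by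
  classical
  haveI : M.IsPrime := hM.2.1.isPrime
  obtain ⟨θ, hθ⟩ := block_nonempty hM hind.2.1
  have h1 := omega_res_cReg (p := p) hM H hind χ hψ hθ
  have hns : ¬ SameBlock M (χ : G → ℂ) (θ : G → ℂ) := by
    intro h
    apply hχ
    rw [blockOf_eq_of_mem hM hind.2.1 hθ]
    exact SameBlock.symm h
  have h2 : omega (θ : G → ℂ) (cReg p (χ : G → ℂ)) = 0 := by
    have h3 := classInner_regPart (p := p) (χ : G → ℂ) θ.2
    rw [sum_regular_eq_zero hM hns, zero_mul] at h3
    have h4 : (θ : G → ℂ) 1 ≠ 0 := degree_ne_zero θ.2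
    exact (mul_eq_zero.1 h3.symm).resolve_left h4
  rwa [h2, sub_zero] at h1

/-- The second half of the statement about `η`. -/
theorem eta_not_ideal (hM : IsPModular p M) (H : Subgroup G) [Fintype H] {b : Set (IrrCharacter H)}
    {B₀ : Set (IrrCharacter G)} (hind : IsInducedBlock M H b B₀) {χ : IrrCharacter G} {ψ : IrrCharacter H} (hψ : ψ ∈ b)
    (hχ : χ ∈ B₀) (h0 : blockHeight p B₀ (χ : G → ℂ) = 0) :
    ¬ MemLocalIdeal M (omega (ψ : H → ℂ) (res H (cReg p (χ : G → ℂ)))) := by
  classical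
  haveI : M.IsPrime := hM.2.1.isPrime
  intro hI
  have h1 := omega_res_cReg (p := p) hM H hind χ hψ hχ
  apply height_zero_omega hM hind.2.1 hχ h0
  have h2 := MemLocalIdeal.sub hM hI h1
  simpa using h2

/-- A function whose block part vanishes is orthogonal to the members of the block. -/
theorem classInner_eq_zero_of_blockPart {b : Set (IrrCharacter G)} {φ : G → ℂ} (h : ∀ u, blockPart b φ u = 0)
    {ψ : IrrCharacter G} (hψ : ψ ∈ b) : classInner φ (ψ : G → ℂ) = 0 := by
  classical
  have h3 : (∑ θ : IrrCharacter G, (if θ ∈ b then classInner φ (θ : G → ℂ) else 0) • (θ : G → ℂ)) = 0 := by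
    funext u
    have h4 := h u
    rw [blockPart_eq] at h4
    simp only [Finset.sum_apply, Pi.smul_apply, smul_eq_mul, Pi.zero_apply]
    refine Eq.trans (Finset.sum_congr rfl fun θ _ => ?_) h4
    split_ifs <;> simp
  have h5 := Cfsg.Agent.Lib.CharDecomp.classInner_sum_irr (fun θ : IrrCharacter G => if θ ∈ b then classInner φ (θ : G → ℂ) else 0) ψ
  rw [h3, classInner_zero_left, if_pos hψ] at h5
  exact h5.symm

/-- A height zero character has a nonvanishing section component at every block inducing its block. -/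
theorem section_component (hM : IsPModular p M) {B : Set (IrrCharacter G)} {χ : IrrCharacter G} (hχ : χ ∈ B)
    (h0 : blockHeight p B (χ : G → ℂ) = 0) {x : G} (hx : ∃ k : ℕ, orderOf x = p ^ k)
    [Fintype (Subgroup.centralizer ({x} : Set G))] {b : Set (IrrCharacter (Subgroup.centralizer ({x} : Set G)))}
    (hb : IsInducedBlock M (Subgroup.centralizer ({x} : Set G)) b B) :
    ∃ y : Subgroup.centralizer ({x} : Set G), ¬ p ∣ orderOf y ∧
      blockPart b (fun c : Subgroup.centralizer ({x} : Set G) => (χ : G → ℂ) (x * (c : G))) y ≠ 0 := by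
  classical
  haveI : M.IsPrime := hM.2.1.isPrime
  by_contra hcon
  push Not at hcon
  set C := Subgroup.centralizer ({x} : Set G) with hC
  set ϑ : C → ℂ := fun c : C => (χ : G → ℂ) (x * (c : G)) with hϑ
  obtain ⟨ψ, hψ⟩ := block_nonempty hM hb.1
  have hA := blockClosed_of_isPBlock hM hb.1
  have hχc := IsCharacter.isClassFunction' (IsIrrCharacter.isCharacter' χ.2)
  have hϑc : IsClassFunction C ϑ := by
    intro g h
    simp only [hϑ]
    have hc : Commute (h : G) x := Subgroup.mem_centralizer_singleton_iff.1 h.2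
    have e : x * ((h * g * h⁻¹ : C) : G) = (h : G) * (x * g) * (h : G)⁻¹ := by
      simp only [Subgroup.coe_mul, Subgroup.coe_inv]
      calc x * ((h : G) * g * (h : G)⁻¹) = (x * h) * g * (h : G)⁻¹ := by group
        _ = (h * x) * g * (h : G)⁻¹ := by rw [hc.eq]
        _ = _ := by group
    rw [e, hχc]
  have h1 : classInner (regPart p ϑ) (ψ : C → ℂ) = 0 := by
    refine classInner_eq_zero_of_blockPart (fun u => ?_) hψ
    rw [blockPart_regPart hM hA hϑc, regPart_apply]
    split_ifs with h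
    · rfl
    · exact hcon u h
  have h2 : omega (ψ : C → ℂ) (cReg p ϑ) = 0 := by
    have h3 := classInner_regPart (p := p) ϑ ψ.2
    rw [h1, zero_mul] at h3
    have h4 : (ψ : C → ℂ) 1 ≠ 0 := degree_ne_zero ψ.2
    exact (mul_eq_zero.1 h3.symm).resolve_left h4
  apply eta_not_ideal hM C hb hψ hχ h0
  have h3 : MemLocalIdeal M (omega (ψ : C → ℂ) (res C (cReg p (χ : G → ℂ)) - cReg p ϑ)) := by
    refine omega_mem_of_ideal_values hM ψ.2 ?_ ?_
    · intro g h
      simp only [Pi.sub_apply]
      rw [res_isClass C (cReg_isClass hχc), cReg_isClass hϑc]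
    · intro c
      simp only [Pi.sub_apply, res_apply, cReg, regPart_apply]
      rw [orderOf_inv, orderOf_inv, Subgroup.orderOf_coe]
      split_ifs with h
      · simpa using MemLocalIdeal.zero hM
      · obtain ⟨k, hk⟩ := hx
        have hk' : x ^ p ^ k = 1 := by rw [← hk]; exact pow_orderOf_eq_one x
        have hc : Commute x ((c⁻¹ : C) : G) :=
          (Subgroup.mem_centralizer_singleton_iff.1 (c⁻¹ : C).2).symm
        have h4 := character_mul_congr hM (IsIrrCharacter.isCharacter' χ.2) hk' hc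
        have h5 := MemLocalIdeal.neg h4
        simp only [hϑ]
        convert h5 using 1
        simp
  rw [omega_sub, h2, sub_zero] at h3
  exact h3

end Reg

end Cfsg.Agent.Lib.BlockHt
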