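import Mathlib
import Cfsg.Prelude.Def_Blocks
import Cfsg.Agent.Lib.BlockOsima
import Cfsg.Agent.Lib.BlockApps
import Cfsg.Agent.Lib.CharOps
import Cfsg.Agent.Lib.CharDecomp
import Cfsg.Agent.Lib.CharAb
import Cfsg.Agent.Lib.CharBlockOrth

/-!
# Induced central characters applied to block idempotents
-/

set_option autoImplicit false
set_option linter.all false

namespace Cfsg.Agent.Lib.BlockInd

open Cfsg Cfsg.Agent.Lib.BlockLocal Cfsg.Agent.Lib.BlockOsima
open scoped ComplexConjugate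

universe u

variable {G : Type u} [Group G] {M : Ideal AlgInt}

/-- The truncated central character of `ξ` on a function on `G`. -/
noncomputable def omH (H : Subgroup G) [Fintype H] (ξ : H → ℂ) (f : G → ℂ) : ℂ :=
  (ξ 1)⁻¹ * ∑ h : H, f h * ξ h

open scoped Classical in
theorem inducedCentralChar_eq [Fintype G] (H : Subgroup G) [Fintype H] (ξ : H → ℂ) (g : G) :
    inducedCentralChar H ξ g = ∑ h : H, if IsConj g (h : G) then ξ h / ξ 1 else 0 := by
  classical
  unfold inducedCentralChar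
  rw [finsum_mem_eq_finite_toFinset_sum _ (Set.toFinite _)]
  rw [Finset.sum_ite, Finset.sum_const_zero, add_zero]
  refine Finset.sum_congr ?_ fun _ _ => rfl
  ext h; simp

/-- Sum of a class function over a subgroup, grouped by classes of `G`. -/
theorem omH_eq_sum_class [Fintype G] [Fintype (ConjClasses G)] (H : Subgroup G) [Fintype H] (ξ : H → ℂ) {f : G → ℂ}
    (hf : IsClassFunction G f) :
    omH H ξ f = ∑ c : ConjClasses G, f (Quotient.out c) * inducedCentralChar H ξ (Quotient.out c) := by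
  classical
  simp only [inducedCentralChar_eq, Finset.mul_sum]
  rw [Finset.sum_comm, omH, Finset.mul_sum]
  refine Finset.sum_congr rfl fun h _ => ?_
  rw [Finset.sum_eq_single (ConjClasses.mk (h : G))]
  · have hc : IsConj (Quotient.out (ConjClasses.mk (h : G))) (h : G) := by
      have := Quotient.mk_out (s := IsConj.setoid G) (h : G)
      exact this
    rw [if_pos hc]
    obtain ⟨u, hu⟩ := isConj_iff.mp hc
    have hf' : f (Quotient.out (ConjClasses.mk (h : G))) = f h := by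
      conv_rhs => rw [← hu]
      exact (hf _ _).symm
    rw [hf']; ring
  · intro c _ hne
    rw [if_neg, mul_zero]
    intro hc
    apply hne
    have hq : ConjClasses.mk (Quotient.out c) = c := Quotient.out_eq c
    rw [← hq]
    exact (ConjClasses.mk_eq_mk_iff_isConj).mpr hc
  · intro h'; exact absurd (Finset.mem_univ _) h'

variable [hp : M.IsPrime]

/-- The truncated central character is congruent to the induced block's central character. -/
theorem omH_congr [Fintype G] (H : Subgroup G) [Fintype H] {ξ : H → ℂ} {χ : G → ℂ}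
    (hχ : IsIrrCharacter G χ)
    (hcong : ∀ g : G, MemLocalIdeal M (inducedCentralChar H ξ g - centralChar χ g))
    {f : G → ℂ} (hf : IsClassFunction G f) (hl : ∀ g, MemLocalRing M (f g)) :
    MemLocalIdeal M (omH H ξ f - om χ f) := by
  classical
  letI : Fintype (ConjClasses G) := Fintype.ofFinite _
  rw [omH_eq_sum_class H ξ hf, om_eq_sum_class hχ hf, ← Finset.sum_sub_distrib]
  refine MemLocalIdeal_sum _ _ fun c _ => ?_
  rw [← mul_sub]
  exact MemLocalIdeal_mul_left (hl _) (hcong _)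

/-- Valuation comparison from a local quotient. -/
theorem factorization_of_unit {p : ℕ} (hM : IsPModular p M) {n N : ℕ} (hN : N ≠ 0) {z : ℂ}
    (hnz : (n : ℂ) = z * N) (hz : MemLocalRing M z) (hu : ¬ MemLocalIdeal M z) :
    n ≠ 0 ∧ n.factorization p = N.factorization p := by
  have hpp := hM.1
  have hn : n ≠ 0 := by
    rintro rfl
    apply hu
    have hN' : (N : ℂ) ≠ 0 := by exact_mod_cast hN
    have : z = 0 := by
      have h0 : z * (N : ℂ) = 0 := by simpa using hnz.symm
      exact (mul_eq_zero.mp h0).resolve_right hN'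
    rw [this]; exact memLocalIdeal_zero
  refine ⟨hn, ?_⟩
  set a := n.factorization p
  set b := N.factorization p
  obtain ⟨n', hn1, hn2⟩ : ∃ n', ¬ p ∣ n' ∧ n = p ^ a * n' :=
    ⟨n / p ^ a, Nat.not_dvd_ordCompl hpp hn, (Nat.ordProj_mul_ordCompl_eq_self n p).symm⟩
  obtain ⟨N', hN1, hN2⟩ : ∃ n', ¬ p ∣ n' ∧ N = p ^ b * n' :=
    ⟨N / p ^ b, Nat.not_dvd_ordCompl hpp hN, (Nat.ordProj_mul_ordCompl_eq_self N p).symm⟩
  have hp0 : ((p : ℕ) : ℂ) ≠ 0 := by exact_mod_cast hpp.ne_zero
  have hloc_p : MemLocalIdeal M ((p : ℕ) : ℂ) := memLocalIdeal_natCast_of_dvd hM (dvd_refl p)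
  by_contra hne
  rcases lt_or_gt_of_ne hne with hlt | hlt
  · -- a < b : n' = z * p^(b-a) * N' ∈ 𝔪
    apply (not_memLocalIdeal_natCast hM hn1)
    have h1 : (n' : ℂ) = (z * (N' : ℂ) * ((p : ℕ) : ℂ) ^ (b - a - 1)) * ((p : ℕ) : ℂ) := by
      have hpa : ((p : ℕ) : ℂ) ^ a ≠ 0 := pow_ne_zero _ hp0
      apply mul_left_cancel₀ hpa
      have h2 : (n : ℂ) = ((p : ℕ) : ℂ) ^ a * n' := by rw [hn2]; push_cast; ring
      have h3 : (N : ℂ) = ((p : ℕ) : ℂ) ^ b * N' := by rw [hN2]; push_cast; ring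
      rw [← h2, hnz, h3]
      have hb : b = a + (b - a - 1) + 1 := by omega
      conv_lhs => rw [hb, pow_succ, pow_add]
      ring
    rw [h1]
    refine MemLocalIdeal_mul_left ?_ hloc_p
    refine MemLocalRing_mul (MemLocalRing_mul hz (memLocalRing_natCast _)) ?_
    exact_mod_cast memLocalRing_natCast (p ^ (b - a - 1))
  · -- b < a : z N' = p^(a-b) n' ∈ 𝔪
    have h1 : z * (N' : ℂ) = ((n' : ℂ) * ((p : ℕ) : ℂ) ^ (a - b - 1)) * ((p : ℕ) : ℂ) := by
      have hpa : ((p : ℕ) : ℂ) ^ b ≠ 0 := pow_ne_zero _ hp0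
      apply mul_left_cancel₀ hpa
      have h2 : (n : ℂ) = ((p : ℕ) : ℂ) ^ a * n' := by rw [hn2]; push_cast; ring
      have h3 : (N : ℂ) = ((p : ℕ) : ℂ) ^ b * N' := by rw [hN2]; push_cast; ring
      have h4 := hnz
      rw [h2, h3] at h4
      have ha : a = b + (a - b - 1) + 1 := by omega
      rw [ha, pow_succ, pow_add] at h4
      linear_combination -h4
    have h2 : MemLocalIdeal M (z * (N' : ℂ)) := by
      rw [h1]
      refine MemLocalIdeal_mul_left ?_ hloc_p
      refine MemLocalRing_mul (memLocalRing_natCast _) ?_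
      exact_mod_cast memLocalRing_natCast (p ^ (a - b - 1))
    rcases MemLocalIdeal_mul_iff hz (memLocalRing_natCast _) h2 with h3 | h3
    · exact hu h3
    · exact not_memLocalIdeal_natCast hM hN1 h3

theorem factorization_of_mem {p : ℕ} (hM : IsPModular p M) {n N : ℕ} (hN : N ≠ 0) {z : ℂ}
    (hnz : (n : ℂ) = z * N) (hz : MemLocalIdeal M z) :
    n = 0 ∨ N.factorization p < n.factorization p := by
  have hpp := hM.1
  by_cases hn : n = 0
  · exact Or.inl hn
  refine Or.inr ?_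
  set a := n.factorization p with ha
  set b := N.factorization p with hb
  by_contra hle
  push_neg at hle
  obtain ⟨n', hn1, hn2⟩ : ∃ n', ¬ p ∣ n' ∧ n = p ^ a * n' :=
    ⟨n / p ^ a, Nat.not_dvd_ordCompl hpp hn, (Nat.ordProj_mul_ordCompl_eq_self n p).symm⟩
  obtain ⟨N', hN1, hN2⟩ : ∃ n', ¬ p ∣ n' ∧ N = p ^ b * n' :=
    ⟨N / p ^ b, Nat.not_dvd_ordCompl hpp hN, (Nat.ordProj_mul_ordCompl_eq_self N p).symm⟩
  have hp0 : ((p : ℕ) : ℂ) ≠ 0 := by exact_mod_cast hpp.ne_zero
  apply (not_memLocalIdeal_natCast hM hn1)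
  have h1 : (n' : ℂ) = z * ((N' : ℂ) * ((p : ℕ) : ℂ) ^ (b - a)) := by
    have hpa : ((p : ℕ) : ℂ) ^ a ≠ 0 := pow_ne_zero _ hp0
    apply mul_left_cancel₀ hpa
    have h2 : (n : ℂ) = ((p : ℕ) : ℂ) ^ a * n' := by rw [hn2]; push_cast; ring
    have h3 : (N : ℂ) = ((p : ℕ) : ℂ) ^ b * N' := by rw [hN2]; push_cast; ring
    rw [← h2, hnz, h3]
    have hb' : b = a + (b - a) := by omega
    conv_lhs => rw [hb', pow_add]
    ring
  rw [h1]
  refine MemLocalIdeal_mul_right hz ?_
  refine MemLocalRing_mul (memLocalRing_natCast _) ?_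
  exact_mod_cast memLocalRing_natCast (p ^ (b - a))

/-- The block part at 1 of an induced character in terms of the truncated central character. -/
theorem blockPart_ind_one [Fintype G] (H : Subgroup G) [Fintype H] {ξ : H → ℂ}
    (hξ : (ξ 1) ≠ 0) (B : Set (IrrCharacter G)) :
    blockPart B (indFun H ξ) 1 = omH H ξ (blockCoeff B) * ((H.index : ℂ) * ξ 1) := by
  classical
  rw [Cfsg.Agent.Lib.CharBlockOrth.blockPart_eq]
  have hG : (Nat.card G : ℂ) ≠ 0 := by exact_mod_cast Nat.card_pos.ne'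
  have hH : (Nat.card H : ℂ) ≠ 0 := by exact_mod_cast Nat.card_pos.ne'
  have hidx : (Nat.card G : ℂ) = (H.index : ℂ) * Nat.card H := by
    rw [mul_comm]; exact_mod_cast (Subgroup.card_mul_index H).symm
  simp only [omH, blockCoeff_eq]
  have h1 : ∀ χ : IrrCharacter G, classInner (indFun H ξ) (χ : G → ℂ) =
      (Nat.card H : ℂ)⁻¹ * ∑ h : H, ξ h * conj ((χ : G → ℂ) h) := by
    intro χ
    rw [Cfsg.Agent.Lib.CharOps.frobenius_reciprocity H ξ (isClass_irr χ.2)]
    rfl
  simp only [h1]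
  have h2 : ∀ h : H, (Nat.card G : ℂ)⁻¹ * (∑ χ : IrrCharacter G, if χ ∈ B then (χ : G → ℂ) 1 * conj ((χ : G → ℂ) h) else 0) * ξ h
      = ∑ χ : IrrCharacter G, if χ ∈ B then (Nat.card G : ℂ)⁻¹ * ξ h * ((χ : G → ℂ) 1 * conj ((χ : G → ℂ) h)) else 0 := by
    intro h
    rw [mul_comm, ← mul_assoc, Finset.mul_sum]
    refine Finset.sum_congr rfl fun χ _ => ?_
    split_ifs
    · ring
    · ring
  simp only [h2]
  rw [Finset.sum_comm]
  have h3 : ∀ X : ℂ, (ξ 1)⁻¹ * X * ((H.index : ℂ) * ξ 1) = (H.index : ℂ) * X := by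
    intro X; field_simp
  rw [h3, Finset.mul_sum]
  refine Finset.sum_congr rfl fun χ _ => ?_
  split_ifs
  · rw [Finset.mul_sum, Finset.sum_mul, Finset.mul_sum]
    refine Finset.sum_congr rfl fun h _ => ?_
    rw [hidx]
    have hi : (H.index : ℂ) ≠ 0 := by
      intro h0
      rw [h0, zero_mul] at hidx
      exact hG hidx
    field_simp
  · simp

open scoped Classical in
/-- The truncation of a block idempotent to `H` under the central character of a member of a
block inducing `B₀`: it is `1` modulo `𝔪` on `B₀` and `0` modulo `𝔪` on other blocks. -/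
theorem omH_blockCoeff_congr [Fintype G] (H : Subgroup G) [Fintype H] {b : Set (IrrCharacter H)}
    {B₀ : Set (IrrCharacter G)} (hind : IsInducedBlock M H b B₀) {ξ : IrrCharacter H} (hξ : ξ ∈ b)
    {χ₀ : IrrCharacter G} (hχ₀ : χ₀ ∈ B₀) {B : Set (IrrCharacter G)} (hB : IsPBlock M B) :
    MemLocalIdeal M (omH H (ξ : H → ℂ) (blockCoeff B) - if χ₀ ∈ B then 1 else 0) := by
  have h := omH_congr (M := M) H (ξ := (ξ : H → ℂ)) χ₀.2 (hind.2.2 ξ hξ χ₀ hχ₀)
    (blockCoeff_isClass B) (blockCoeff_local B (block_closed hB))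
  rwa [om_blockCoeff] at h

/-- The degree of an induced irreducible character as a natural number. -/
theorem charDegree_ind [Fintype G] (H : Subgroup G) [Fintype H] (ξ : IrrCharacter H) :
    charDegree (indFun H (ξ : H → ℂ)) = H.index * Cfsg.Agent.Lib.CharAb.deg ξ := by
  unfold charDegree
  rw [Cfsg.Agent.Lib.CharOps.indFun_one, Cfsg.Agent.Lib.CharAb.apply_one_eq_deg ξ]
  have : ((H.index : ℂ) * (Cfsg.Agent.Lib.CharAb.deg ξ : ℂ)) = ((H.index * Cfsg.Agent.Lib.CharAb.deg ξ : ℕ) : ℂ) := by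
    push_cast; ring
  rw [this, Complex.natCast_re, Nat.floor_natCast]

/-- The block part at 1 of a character is a natural number. -/
theorem blockPart_one_nat [Fintype G] {φ : G → ℂ} (hφ : IsCharacter G φ) (B : Set (IrrCharacter G)) :
    ∃ n : ℕ, blockPart B φ 1 = (n : ℂ) := by
  classical
  rw [Cfsg.Agent.Lib.CharBlockOrth.blockPart_eq]
  have h : ∀ χ : IrrCharacter G, ∃ m : ℕ, (if χ ∈ B then classInner φ (χ : G → ℂ) * (χ : G → ℂ) 1 else 0) = (m : ℂ) := by
    intro χ
    split_ifs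
    · obtain ⟨m, hm⟩ := Cfsg.Agent.Lib.CharDecomp.exists_nat_classInner hφ χ
      refine ⟨m * Cfsg.Agent.Lib.CharAb.deg χ, ?_⟩
      rw [hm, Cfsg.Agent.Lib.CharAb.apply_one_eq_deg χ]
      push_cast; ring
    · exact ⟨0, by simp⟩
  choose m hm using h
  refine ⟨∑ χ, m χ, ?_⟩
  push_cast
  exact Finset.sum_congr rfl fun χ _ => hm χ

end Cfsg.Agent.Lib.BlockInd
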