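import Cfsg.Agent.Lib.BlockCover

/-!
# Nilpotency across a normal subgroup of `p`-power index
-/

set_option autoImplicit false
set_option linter.all false

namespace Cfsg.Agent.Lib.BlockNilN

open Cfsg Cfsg.Agent.Lib.BlockLocal Cfsg.Agent.Lib.BlockOsima Cfsg.Agent.Lib.BlockBr Cfsg.Agent.Lib.BlockOrth
  Cfsg.Agent.Lib.BlockApps Cfsg.Agent.Lib.CharIrr Cfsg.Agent.Lib.BlockPair Cfsg.Agent.Lib.BlockSub
  Cfsg.Agent.Lib.BlockMax Cfsg.Agent.Lib.BlockTrace Cfsg.Agent.Lib.BlockConjP Cfsg.Agent.Lib.BlockFull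
  Cfsg.Agent.Lib.BlockFus Cfsg.Agent.Lib.BlockFus2 Cfsg.Agent.Lib.BlockSat Cfsg.Agent.Lib.BlockTrans
  Cfsg.Agent.Lib.BlockRecep Cfsg.Agent.Lib.BlockFrob Cfsg.Agent.Lib.BlockAb Cfsg.Agent.Lib.BlockCover
open scoped ComplexConjugate

universe u

section Orbit

variable {X H : Type u} [Group X] [Fintype X] [Group H] [Fintype H] {p : ℕ} {M : Ideal AlgInt}
  [hprime : M.IsPrime]

/-- **The orbit lemma.** -/
theorem orbit_lemma (hM : IsPModular p M) (ι : H →* X) (hι : Function.Injective ι) (hnr : ι.range.Normal)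
    {σ : X → (H ≃* H)} (hσ : ∀ a c, ι (σ a c) = a * ι c * a⁻¹)
    {χ χ₁ : IrrCharacter X} {ξ ξ₁ : IrrCharacter H}
    (hc : classInner (fun h => (χ : X → ℂ) (ι h)) (ξ : H → ℂ) ≠ 0)
    (hc₁ : classInner (fun h => (χ₁ : X → ℂ) (ι h)) (ξ₁ : H → ℂ) ≠ 0)
    (hs : SameBlock M (χ : X → ℂ) (χ₁ : X → ℂ)) :
    ∃ u : X, irrComp (σ u) ξ₁ ∈ blockOf M (ξ : H → ℂ) := by
  classical
  let f₀ : Set (IrrCharacter H) := blockOf M (ξ : H → ℂ)
  have hf₀ : IsPBlock M f₀ := ⟨ξ, rfl⟩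
  let A : Set (IrrCharacter H) := {ξ' | ∃ u : X, irrComp (σ u) ξ' ∈ f₀}
  have hcomp : ∀ (u v : X) (c : H), σ v (σ u c) = σ (v * u) c := by
    intro u v c
    apply hι
    rw [hσ, hσ, hσ]
    group
  have hone : ∀ c : H, σ 1 c = c := by
    intro c
    apply hι
    rw [hσ]
    group
  have hAstep : ∀ (v : X) (ξ' : IrrCharacter H), ξ' ∈ A → irrComp (σ v) ξ' ∈ A := by
    rintro v ξ' ⟨u, hu⟩
    refine ⟨v⁻¹ * u, ?_⟩
    have e : irrComp (σ (v⁻¹ * u)) (irrComp (σ v) ξ') = irrComp (σ u) ξ' := by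
      apply Subtype.ext
      funext c
      rw [irrComp_apply, irrComp_apply, irrComp_apply, hcomp]
      simp
    rw [e]
    exact hu
  have hAst : ∀ v : X, irrComp (σ v) '' A = A := by
    intro v
    ext ξ'
    constructor
    · rintro ⟨a, ha, rfl⟩
      exact hAstep v a ha
    · intro ha
      refine ⟨irrComp (σ v⁻¹) ξ', hAstep v⁻¹ ξ' ha, ?_⟩
      apply Subtype.ext
      funext c
      rw [irrComp_apply, irrComp_apply, hcomp]
      simp [hone]
  have hAclosed : ∀ χ' ∈ A, ∀ ψ, ψ ∉ A → ¬ SameBlock M (χ' : H → ℂ) (ψ : H → ℂ) := by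
    rintro ξ' ⟨u, hu⟩ ψ hψ hsame
    apply hψ
    refine ⟨u, ?_⟩
    have h1 : irrComp (σ u) ψ ∈ blockOf M ((irrComp (σ u) ξ' : IrrCharacter H) : H → ℂ) := by
      rw [← image_blockOf]
      exact ⟨ψ, hsame, rfl⟩
    by_contra hcon
    exact block_closed hf₀ _ hu _ hcon h1
  let y : X → ℂ := Function.extend ι (blockCoeff A) 0
  have hy1 : ∀ c, y (ι c) = blockCoeff A c := fun c => hι.extend_apply _ _ c
  have hy0 : ∀ x, x ∉ ι.range → y x = 0 := by
    intro x hx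
    apply Function.extend_apply'
    rintro ⟨c, rfl⟩
    exact hx ⟨c, rfl⟩
  have hyc : IsClassFunction X y := by
    intro g h
    by_cases hg : g ∈ ι.range
    · obtain ⟨c, rfl⟩ := hg
      have e : h * ι c * h⁻¹ = ι (σ h c) := (hσ h c).symm
      have h5 := blockCoeff_comp (σ h) A c
      rw [hAst h] at h5
      rw [e, hy1, hy1]
      exact h5.symm
    · have : h * g * h⁻¹ ∉ ι.range := by
        intro hin
        apply hg
        have h6 := hnr.conj_mem _ hin h⁻¹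
        have e6 : h⁻¹ * (h * g * h⁻¹) * h⁻¹⁻¹ = g := by group
        rwa [e6] at h6
      rw [hy0 _ this, hy0 _ hg]
  have hyloc : ∀ x, MemLocalRing M (y x) := by
    intro x
    by_cases hx : x ∈ ι.range
    · obtain ⟨c, rfl⟩ := hx
      rw [hy1]
      exact blockCoeff_local A hAclosed c
    · rw [hy0 x hx]
      exact memLocalRing_zero
  have hyι : y ∘ ι = blockCoeff A := funext hy1
  have h1 := om_eq_of_constituent ι hι hnr hc hyc hy0
  have h2 := om_eq_of_constituent ι hι hnr hc₁ hyc hy0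
  rw [hyι, om_blockCoeff] at h1 h2
  have hξA : ξ ∈ A := by
    refine ⟨1, ?_⟩
    have : irrComp (σ 1) ξ = ξ := by
      apply Subtype.ext
      funext c
      rw [irrComp_apply, hone]
    rw [this]
    exact mem_block_self (M := M) ξ
  rw [if_pos hξA] at h1
  have h3 := om_sameBlock (M := M) χ.2 χ₁.2 hyc hyloc hs
  rw [h1, h2] at h3
  by_cases hξ₁ : ξ₁ ∈ A
  · exact hξ₁
  · rw [if_neg hξ₁, sub_zero] at h3
    exact absurd h3 (one_not_memLocalIdeal (M := M))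

end Orbit

section Stab

variable {G : Type u} [Group G] [Fintype G] {p : ℕ} {M : Ideal AlgInt} [hprime : M.IsPrime]

/-- One conjugate in the block suffices for stability. -/
theorem stab_of_one (K : Subgroup G) [Fintype K] {y : G} (hy : y ∈ Subgroup.normalizer (K : Set G))
    {f : Set (IrrCharacter K)} (hf : IsPBlock M f) {χ : IrrCharacter K} (hχ : χ ∈ f)
    (h : irrComp (conjEquiv K y hy).symm χ ∈ f) : StabilizesBlock K f y := by
  rw [stabilizes_iff K hy hf]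
  exact block_eq_of_mem (isPBlock_image _ hf) hf ⟨χ, hχ, rfl⟩ h

/-- A variant of the action argument. -/
theorem cent_of_acts' {Q : Subgroup G} {w y : G} (hp : p.Prime) (hw : w ∈ Subgroup.normalizer (Q : Set G))
    (hy : y ∈ Subgroup.normalizer (Q : Set G)) (hact : ∀ u ∈ Q, y * u * y⁻¹ = w * u * w⁻¹)
    (hreg : ¬ p ∣ orderOf w) (a : ℕ) (h : y ^ (p ^ a) ∈ Subgroup.centralizer (Q : Set G)) :
    w ∈ Subgroup.centralizer (Q : Set G) := by
  let c := conjOn Q (Subgroup.normalizer (Q : Set G)) le_rfl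
  have hcw : c ⟨w, hw⟩ = c ⟨y, hy⟩ := by
    ext u
    simp only [c, conjOn_apply]
    exact (hact u u.2).symm
  have h1 : orderOf (c ⟨w, hw⟩) ∣ orderOf w := by
    have := orderOf_map_dvd c (⟨w, hw⟩ : Subgroup.normalizer (Q : Set G))
    rwa [Subgroup.orderOf_mk] at this
  have h2 : orderOf (c ⟨w, hw⟩) ∣ p ^ a := by
    apply orderOf_dvd_of_pow_eq_one
    rw [hcw, ← map_pow]
    ext u
    simp only [c, conjOn_apply, MulAut.one_apply, SubgroupClass.coe_pow]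
    have h3 := Subgroup.mem_centralizer_iff.1 h u u.2
    rw [← h3]
    group
  obtain ⟨j, hj, hj'⟩ := (Nat.dvd_prime_pow hp).1 h2
  have hj0 : j = 0 := by
    by_contra hne
    apply hreg
    refine dvd_trans ?_ h1
    rw [hj']
    exact dvd_pow_self p hne
  rw [hj0, pow_zero, orderOf_eq_one_iff] at hj'
  rw [Subgroup.mem_centralizer_iff]
  intro u hu
  have h3 := congrArg (fun α : MulAut Q => ((α ⟨u, hu⟩ : Q) : G)) hj'
  simp only [c, conjOn_apply, MulAut.one_apply] at h3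
  have : w * u * w⁻¹ * w = u * w := by rw [h3]
  simpa using this.symm

/-- A `p`-regular element centralizing `Q ∩ N`, for `N` normal with `[x, Q] ≤ N`, centralizes `Q`. -/
theorem cent_of_cent_inf {Q N : Subgroup G} [hN : N.Normal] {x : G} (hp : p.Prime) (hQ : IsPGroup p Q)
    (hxQ : x ∈ Subgroup.normalizer (Q : Set G)) (hxN : x ∈ N)
    (hx : x ∈ Subgroup.centralizer ((Q ⊓ N : Subgroup G) : Set G)) (hreg : ¬ p ∣ orderOf x) :
    x ∈ Subgroup.centralizer (Q : Set G) := by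
  rw [Subgroup.mem_centralizer_iff]
  intro q hq
  let z : G := x * q * x⁻¹ * q⁻¹
  have hzQ : z ∈ Q := Q.mul_mem ((Subgroup.mem_normalizer_iff.1 hxQ q).1 hq) (Q.inv_mem hq)
  have hzN : z ∈ N := by
    have h1 : q * x⁻¹ * q⁻¹ ∈ N := hN.conj_mem _ (N.inv_mem hxN) q
    have e : z = x * (q * x⁻¹ * q⁻¹) := by
      simp only [z]
      group
    rw [e]
    exact N.mul_mem hxN h1
  have hzc : x * z = z * x := (Subgroup.mem_centralizer_iff.1 hx z ⟨hzQ, hzN⟩).symm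
  have hpow : ∀ n : ℕ, x ^ n * q * x⁻¹ ^ n = z ^ n * q := by
    intro n
    induction n with
    | zero => simp
    | succ n ih =>
      have e1 : x * (z ^ n) = z ^ n * x := ((Commute.pow_right (show Commute x z from hzc) n)).eq
      have e2 : x * q * x⁻¹ = z * q := by
        simp only [z]
        group
      calc x ^ (n + 1) * q * x⁻¹ ^ (n + 1) = x * (x ^ n * q * x⁻¹ ^ n) * x⁻¹ := by
            rw [pow_succ', pow_succ]
            group
        _ = x * (z ^ n * q) * x⁻¹ := by rw [ih]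
        _ = (x * z ^ n) * q * x⁻¹ := by group
        _ = z ^ n * (x * q * x⁻¹) := by rw [e1]; group
        _ = z ^ n * (z * q) := by rw [e2]
        _ = z ^ (n + 1) * q := by rw [pow_succ]; group
  have hm := hpow (orderOf x)
  rw [inv_pow, pow_orderOf_eq_one, inv_one, one_mul, mul_one] at hm
  have hz1 : z ^ orderOf x = 1 := by
    have : q = z ^ orderOf x * q := hm
    exact (mul_eq_right).1 this.symm
  obtain ⟨k, hk⟩ := hQ ⟨z, hzQ⟩
  have hk' : z ^ (p ^ k) = 1 := by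
    have := congrArg Subtype.val hk
    simpa using this
  have h1 := orderOf_dvd_of_pow_eq_one hz1
  have h2 := orderOf_dvd_of_pow_eq_one hk'
  obtain ⟨j, hj, hj'⟩ := (Nat.dvd_prime_pow hp).1 h2
  have hj0 : j = 0 := by
    by_contra hne
    apply hreg
    refine dvd_trans ?_ h1
    rw [hj']
    exact dvd_pow_self p hne
  rw [hj0, pow_zero, orderOf_eq_one_iff] at hj'
  have e3 : x * q * x⁻¹ = q := by
    have : z = x * q * x⁻¹ * q⁻¹ := rfl
    rw [hj'] at this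
    exact (mul_inv_eq_one.1 this.symm)
  calc q * x = x * q * x⁻¹ * x := by rw [e3]
    _ = x * q := by group

end Stab

section NormalSub

variable {G : Type u} [Group G] [Fintype G] {p : ℕ} {M : Ideal AlgInt} [hprime : M.IsPrime]

/-- `N ∩ C(Q₀)` as a subgroup of `G`. -/
abbrev cK (N Q₀ : Subgroup G) : Subgroup G := N ⊓ Subgroup.centralizer (Q₀ : Set G)

/-- The inclusion into the centralizer. -/
abbrev jK (N Q₀ : Subgroup G) : cK N Q₀ →* Subgroup.centralizer (Q₀ : Set G) :=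
  Subgroup.inclusion inf_le_right

theorem jK_inj (N Q₀ : Subgroup G) : Function.Injective (jK N Q₀) := Subgroup.inclusion_injective _

theorem mem_jK_range {N Q₀ : Subgroup G} (x : Subgroup.centralizer (Q₀ : Set G)) :
    x ∈ (jK N Q₀).range ↔ (x : G) ∈ N := by
  constructor
  · rintro ⟨k, rfl⟩
    exact k.2.1
  · intro hx
    exact ⟨⟨x, hx, x.2⟩, rfl⟩

theorem jK_normal (N Q₀ : Subgroup G) [hN : N.Normal] : (jK N Q₀).range.Normal := by
  constructor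
  intro x hx g
  rw [mem_jK_range] at hx ⊢
  exact hN.conj_mem _ hx _

theorem norm_N (N : Subgroup G) [hN : N.Normal] (a : G) : a ∈ Subgroup.normalizer (N : Set G) := by
  rw [Subgroup.normalizer_eq_top]
  trivial

theorem norm_K (N : Subgroup G) [hN : N.Normal] {Q₀ : Subgroup G} {a : G} (ha : a ∈ Subgroup.normalizer (Q₀ : Set G)) :
    a ∈ Subgroup.normalizer (cK N Q₀ : Set G) := by
  rw [Subgroup.mem_normalizer_iff]
  intro k
  exact and_congr (Subgroup.mem_normalizer_iff.1 (norm_N N a) k)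
    (Subgroup.mem_normalizer_iff.1 (cent_le_norm_cent Q₀ ha) k)

/-- The identification of `C_N(Q')` with `N ∩ C_G(Q₀)`. -/
def tauK (N Q₀ : Subgroup G) (Q' : Subgroup N) (hQ : ∀ n : N, n ∈ Q' ↔ (n : G) ∈ Q₀) (hQ₀ : Q₀ ≤ N) :
    Subgroup.centralizer (Q' : Set N) ≃* cK N Q₀ where
  toFun h := ⟨h.1.1, h.1.2, by
    show ((h.1 : N) : G) ∈ Subgroup.centralizer (Q₀ : Set G)
    rw [Subgroup.mem_centralizer_iff]
    intro q hq
    exact congrArg Subtype.val (Subgroup.mem_centralizer_iff.1 h.2 ⟨q, hQ₀ hq⟩ ((hQ _).2 hq))⟩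
  invFun k := ⟨⟨k.1, k.2.1⟩, by
    rw [Subgroup.mem_centralizer_iff]
    intro u hu
    apply Subtype.ext
    exact Subgroup.mem_centralizer_iff.1 k.2.2 u ((hQ u).1 hu)⟩
  left_inv h := rfl
  right_inv k := rfl
  map_mul' a b := rfl

@[simp] theorem tauK_apply (N Q₀ : Subgroup G) (Q' : Subgroup N) (hQ) (hQ₀) (h : Subgroup.centralizer (Q' : Set N)) :
    ((tauK N Q₀ Q' hQ hQ₀ h : cK N Q₀) : G) = ((h : N) : G) := rfl

variable {N : Subgroup G} [hNn : N.Normal] [Fintype N] {c : Set (IrrCharacter N)} {B : Set (IrrCharacter G)}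

/-- `brauerOmega` in `N` against `N ∩ C(Q₀)`. -/
theorem omega_tau (hBc : ∀ g : G, blockCoeff B g = subgroupBlockCoeff N c g) {Q₀ : Subgroup G} {Q' : Subgroup N}
    (hQ : ∀ n : N, n ∈ Q' ↔ (n : G) ∈ Q₀) (hQ₀ : Q₀ ≤ N)
    [Fintype (Subgroup.centralizer (Q' : Set N))] [Fintype (cK N Q₀)]
    (ξ' : IrrCharacter (Subgroup.centralizer (Q' : Set N))) (ξ : IrrCharacter (cK N Q₀))
    (h : ∀ a, (ξ' : _ → ℂ) a = (ξ : _ → ℂ) (tauK N Q₀ Q' hQ hQ₀ a)) :
    brauerOmega Q' (blockCoeff c) (ξ' : _ → ℂ) = om (ξ : _ → ℂ) (blockCoeff B ∘ (cK N Q₀).subtype) := by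
  classical
  rw [brauerOmega_eq]
  have h1 := om_comp (tauK N Q₀ Q' hQ hQ₀) (ξ : _ → ℂ) (blockCoeff B ∘ (cK N Q₀).subtype)
  unfold omI
  rw [← h1]
  congr 1
  · funext a
    exact h a
  · funext a
    simp only [Function.comp_apply, Subgroup.coe_subtype, tauK_apply]
    rw [hBc, subgroupBlockCoeff_mem N c]

/-- `brauerOmega` in `G` against `N ∩ C(Q₀)`. -/
theorem omega_j (hBc : ∀ g : G, blockCoeff B g = subgroupBlockCoeff N c g) {Q₀ : Subgroup G}
    [Fintype (Subgroup.centralizer (Q₀ : Set G))] [Fintype (cK N Q₀)]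
    (χ : IrrCharacter (Subgroup.centralizer (Q₀ : Set G))) (ξ : IrrCharacter (cK N Q₀))
    (hc : classInner (fun h => (χ : _ → ℂ) (jK N Q₀ h)) (ξ : _ → ℂ) ≠ 0) :
    brauerOmega Q₀ (blockCoeff B) (χ : _ → ℂ) = om (ξ : _ → ℂ) (blockCoeff B ∘ (cK N Q₀).subtype) := by
  classical
  rw [brauerOmega_eq]
  unfold omI
  rw [om_eq_of_constituent (jK N Q₀) (jK_inj N Q₀) (jK_normal N Q₀) hc]
  · rfl
  · intro g a
    exact blockCoeff_isClass B _ _
  · intro x hx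
    rw [mem_jK_range] at hx
    simp only [Function.comp_apply, Subgroup.coe_subtype]
    rw [hBc, subgroupBlockCoeff_not_mem _ _ hx]

theorem reg_range (hM : IsPModular p M) (hN : ∃ k : ℕ, N.index = p ^ k) {Q₀ : Subgroup G} (x : Subgroup.centralizer (Q₀ : Set G))
    (hx : ¬ p ∣ orderOf x) : x ∈ (jK N Q₀).range := by
  rw [mem_jK_range]
  apply reg_mem hM.1 hN
  rwa [Subgroup.orderOf_coe]

/-- **Nilpotency goes down.** -/
theorem nil_down (hM : IsPModular p M) (hN : ∃ k : ℕ, N.index = p ^ k) (hc : IsPBlock M c)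
    (hB : IsPBlock M B) (hBc : ∀ g : G, blockCoeff B g = subgroupBlockCoeff N c g)
    (hnil : IsNilpotentBlock p M B) : IsNilpotentBlock p M c := by
  classical
  refine ⟨hc, ?_⟩
  intro Q' f hQf x hxN hxS hxR
  let Q₀ : Subgroup G := Q'.map N.subtype
  have hQ : ∀ n : N, n ∈ Q' ↔ (n : G) ∈ Q₀ := by
    intro n
    constructor
    · intro hn
      exact ⟨n, hn, rfl⟩
    · rintro ⟨m, hm, hmn⟩
      have : m = n := Subtype.ext hmn
      rwa [← this]
  have hQ₀ : Q₀ ≤ N := by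
    rintro _ ⟨n, -, rfl⟩
    exact n.2
  letI : Fintype (Subgroup.centralizer (Q₀ : Set G)) := Fintype.ofFinite _
  letI : Fintype (cK N Q₀) := Fintype.ofFinite _
  letI : Fintype (Subgroup.centralizer (Q' : Set N)) := Fintype.ofFinite _
  let τ := tauK N Q₀ Q' hQ hQ₀
  have hfb : IsPBlock M f := hQf.1.2
  obtain ⟨ξ₀, hf0⟩ := id hfb
  have hξ₀ : ξ₀ ∈ f := by
    rw [hf0]
    exact mem_block_self (M := M) ξ₀
  let ξ₀' : IrrCharacter (cK N Q₀) := irrComp τ.symm ξ₀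
  have hrel : ∀ a, (ξ₀ : Subgroup.centralizer (Q' : Set N) → ℂ) a = (ξ₀' : cK N Q₀ → ℂ) (τ a) := by
    intro a
    simp [ξ₀']
  obtain ⟨χ, hχ⟩ := exists_irr_over (jK N Q₀) (jK_inj N Q₀) ξ₀'
  let z : Subgroup.centralizer (Q₀ : Set G) → ℂ := blockCoeff B ∘ (Subgroup.centralizer (Q₀ : Set G)).subtype
  have hzLC : IsLC M z := comp_isLC _ (blockCoeff_isLC hB)
  have hQ₀p : IsPGroup p Q₀ := hQf.1.1.map _
  have hbase : MemLocalIdeal M (brauerOmega Q₀ (blockCoeff B) (χ : _ → ℂ) - 1) := by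
    rw [omega_j hBc χ ξ₀' hχ, ← omega_tau hBc hQ hQ₀ ξ₀ ξ₀' hrel]
    exact hQf.2.2 ξ₀ hξ₀
  have hpair : IsBrauerPairOf p M B Q₀ (blockOf M (χ : _ → ℂ)) := by
    refine ⟨⟨hQ₀p, χ, rfl⟩, hB, fun χ' hχ' => ?_⟩
    have h1 := om_sameBlock (M := M) χ.2 χ'.2 hzLC.1 hzLC.2 hχ'
    rw [brauerOmega_eq] at hbase ⊢
    exact Cong.trans (Cong.symm h1) hbase
  have hxN₀ : (x : G) ∈ Subgroup.normalizer (Q₀ : Set G) := by
    rw [Subgroup.mem_normalizer_iff]
    intro a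
    constructor
    · rintro ⟨m, hm, rfl⟩
      exact ⟨x * m * x⁻¹, (Subgroup.mem_normalizer_iff.1 hxN m).1 hm, rfl⟩
    · intro ha
      have haN : a ∈ N := by
        have h1 := hQ₀ ha
        have h2 := hNn.conj_mem _ h1 (x : G)⁻¹
        have e : (x : G)⁻¹ * ((x : G) * a * (x : G)⁻¹) * (x : G)⁻¹⁻¹ = a := by group
        rwa [e] at h2
      refine ⟨⟨a, haN⟩, ?_, rfl⟩
      apply (Subgroup.mem_normalizer_iff.1 hxN _).2
      exact (hQ _).2 ha
  have hxX := cent_le_norm_cent Q₀ hxN₀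
  have hxK := norm_K N hxN₀
  have hstab : StabilizesBlock (Subgroup.centralizer (Q₀ : Set G)) (blockOf M (χ : _ → ℂ)) (x : G) := by
    refine stab_of_one _ hxX ⟨χ, rfl⟩ (mem_block_self (M := M) χ) ?_
    obtain ⟨ξ₁, hξ₁, hconj⟩ := hxS.2 ξ₀ hξ₀
    let ξ₁' : IrrCharacter (cK N Q₀) := irrComp τ.symm ξ₁
    have hval : ∀ k : cK N Q₀, (ξ₁' : cK N Q₀ → ℂ) k = (ξ₀' : cK N Q₀ → ℂ) ((conjEquiv _ (x : G) hxK).symm k) := by
      intro k
      simp only [ξ₁', ξ₀', irrComp_apply]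
      apply hconj
      apply Subtype.ext
      show (k : G) = (x : G) * ((conjEquiv _ (x : G) hxK).symm k : cK N Q₀) * (x : G)⁻¹
      rw [conjEquiv_symm_apply]
      group
    have hc₂ : classInner (fun h => (irrComp (conjEquiv _ (x : G) hxX).symm χ : _ → ℂ) (jK N Q₀ h)) (ξ₁' : cK N Q₀ → ℂ) ≠ 0 := by
      have h1 := Cfsg.Agent.Lib.CharCliff.classInner_comp_mulEquiv (conjEquiv _ (x : G) hxK).symm
        (fun h => (χ : _ → ℂ) (jK N Q₀ h)) (ξ₀' : cK N Q₀ → ℂ)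
      have e1 : (fun h => (irrComp (conjEquiv _ (x : G) hxX).symm χ : _ → ℂ) (jK N Q₀ h)) =
          fun h => (χ : _ → ℂ) (jK N Q₀ ((conjEquiv _ (x : G) hxK).symm h)) := by
        funext h
        rw [irrComp_apply]
        rfl
      have e2 : (ξ₁' : cK N Q₀ → ℂ) = fun h => (ξ₀' : cK N Q₀ → ℂ) ((conjEquiv _ (x : G) hxK).symm h) := funext hval
      rw [e1, e2, h1]
      exact hχ
    have hs0 : SameBlock M (ξ₀' : cK N Q₀ → ℂ) (ξ₁' : cK N Q₀ → ℂ) := by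
      have hb := isPBlock_image τ.symm hfb
      exact sameBlock_of_mem_block hb ⟨ξ₀, hξ₀, rfl⟩ ⟨ξ₁, hξ₁, rfl⟩
    exact cover_sameBlock hM (jK N Q₀) (jK_inj N Q₀) (jK_normal N Q₀)
      (fun y hy => reg_range hM hN y hy) hχ hc₂ hs0
  have hreg : IsPRegular p (x : G) := by
    show ¬ p ∣ orderOf (x : G)
    rw [Subgroup.orderOf_coe]
    exact hxR
  have hfin := hnil.2 Q₀ _ hpair _ hxN₀ hstab hreg
  rw [Subgroup.mem_centralizer_iff]
  intro u hu
  apply Subtype.ext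
  exact Subgroup.mem_centralizer_iff.1 hfin u ⟨u, hu, rfl⟩

/-- **Nilpotency goes up.** -/
theorem nil_up (hM : IsPModular p M) (hN : ∃ k : ℕ, N.index = p ^ k) (hc : IsPBlock M c)
    (hB : IsPBlock M B) (hBc : ∀ g : G, blockCoeff B g = subgroupBlockCoeff N c g)
    (hnil : IsNilpotentBlock p M c) : IsNilpotentBlock p M B := by
  classical
  haveI : Fact p.Prime := ⟨hM.1⟩
  refine ⟨hB, ?_⟩
  intro Q e hQe x hxN hxS hxR
  have hxR' : ¬ p ∣ orderOf x := hxR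
  have hxNN : x ∈ N := reg_mem hM.1 hN hxR'
  let Q₀ : Subgroup G := Q ⊓ N
  obtain ⟨f₁, hf₁, hle⟩ := exists_subpair_below hM hQe.1 Q₀ inf_le_left
  have hp₁ : IsBrauerPairOf p M B Q₀ f₁ := (pairOf_le_iff hM hB ⟨Q₀, f₁⟩ ⟨Q, e⟩ hle).2 hQe
  have hxQ₀ : x ∈ Subgroup.normalizer (Q₀ : Set G) := by
    rw [Subgroup.mem_normalizer_iff]
    intro a
    exact and_congr (Subgroup.mem_normalizer_iff.1 hxN a) (Subgroup.mem_normalizer_iff.1 (norm_N N x) a)
  have hxf₁ := stab_of_stab hM hQe.1 hle hxN hxS hxQ₀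
  let Q' : Subgroup N := Q₀.subgroupOf N
  have hQ : ∀ n : N, n ∈ Q' ↔ (n : G) ∈ Q₀ := fun n => Subgroup.mem_subgroupOf
  have hQ₀ : Q₀ ≤ N := inf_le_right
  letI : Fintype (Subgroup.centralizer (Q₀ : Set G)) := Fintype.ofFinite _
  letI : Fintype (cK N Q₀) := Fintype.ofFinite _
  letI : Fintype (Subgroup.centralizer (Q' : Set N)) := Fintype.ofFinite _
  let τ := tauK N Q₀ Q' hQ hQ₀
  obtain ⟨χ, hf₁χ⟩ := id hf₁.2
  have hχ : χ ∈ f₁ := by
    rw [hf₁χ]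
    exact mem_block_self (M := M) χ
  obtain ⟨ξ, hξ⟩ := exists_under (jK N Q₀) (jK_inj N Q₀) χ
  have hxX := cent_le_norm_cent Q₀ hxQ₀
  have hxK := norm_K N hxQ₀
  have hχ₁ : irrComp (conjEquiv _ x hxX).symm χ ∈ f₁ := by
    have h1 := (stabilizes_iff _ hxX hf₁.2).1 hxf₁
    rw [← h1]
    exact ⟨χ, hχ, rfl⟩
  let ξ₁ : IrrCharacter (cK N Q₀) := irrComp (conjEquiv _ x hxK).symm ξ
  have hc₁ : classInner (fun h => (irrComp (conjEquiv _ x hxX).symm χ : _ → ℂ) (jK N Q₀ h)) (ξ₁ : cK N Q₀ → ℂ) ≠ 0 := by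
    have h1 := Cfsg.Agent.Lib.CharCliff.classInner_comp_mulEquiv (conjEquiv _ x hxK).symm
      (fun h => (χ : _ → ℂ) (jK N Q₀ h)) (ξ : cK N Q₀ → ℂ)
    have e1 : (fun h => (irrComp (conjEquiv _ x hxX).symm χ : _ → ℂ) (jK N Q₀ h)) =
        fun h => (χ : _ → ℂ) (jK N Q₀ ((conjEquiv _ x hxK).symm h)) := by
      funext h
      rw [irrComp_apply]
      rfl
    have e2 : (ξ₁ : cK N Q₀ → ℂ) = fun h => (ξ : cK N Q₀ → ℂ) ((conjEquiv _ x hxK).symm h) := rfl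
    rw [e1, e2, h1]
    exact hξ
  have hs := sameBlock_of_mem_block hf₁.2 hχ hχ₁
  let σ : Subgroup.centralizer (Q₀ : Set G) → (cK N Q₀ ≃* cK N Q₀) :=
    fun a => conjEquiv _ (a : G) (norm_K N (centralizer_le_normalizer' Q₀ a.2))
  have hσ : ∀ a c, jK N Q₀ (σ a c) = a * jK N Q₀ c * a⁻¹ := fun a c => Subtype.ext rfl
  obtain ⟨u, hu⟩ := orbit_lemma hM (jK N Q₀) (jK_inj N Q₀) (jK_normal N Q₀) hσ hξ hc₁ hs
  let y : G := (u : G)⁻¹ * x
  have huN : (u : G) ∈ Subgroup.normalizer (Q₀ : Set G) := centralizer_le_normalizer' Q₀ u.2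
  have hyQ₀ : y ∈ Subgroup.normalizer (Q₀ : Set G) := Subgroup.mul_mem _ (Subgroup.inv_mem _ huN) hxQ₀
  have hyK := norm_K N hyQ₀
  have hf₀ : IsPBlock M (blockOf M (ξ : cK N Q₀ → ℂ)) := ⟨ξ, rfl⟩
  have hyS : StabilizesBlock (cK N Q₀) (blockOf M (ξ : cK N Q₀ → ℂ)) y := by
    refine stab_of_one _ hyK hf₀ (mem_block_self (M := M) ξ) ?_
    have e : irrComp (conjEquiv _ y hyK).symm ξ = irrComp (σ u) ξ₁ := by
      apply Subtype.ext
      funext k
      show (ξ : cK N Q₀ → ℂ) _ = (ξ : cK N Q₀ → ℂ) _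
      have e2 : (conjEquiv _ y hyK).symm k = (conjEquiv _ x hxK).symm (σ u k) := by
        apply Subtype.ext
        show y⁻¹ * (k : G) * y = (x : G)⁻¹ * ((u : G) * k * (u : G)⁻¹) * x
        simp only [y]
        group
      rw [e2]
    rw [e]
    exact hu
  obtain ⟨a, m, hm, hn'⟩ := Nat.exists_eq_pow_mul_and_not_dvd (orderOf_pos y).ne' p hM.1.ne_one
  have hne : p ^ a ≠ 0 := pow_ne_zero _ hM.1.ne_zero
  have hord : orderOf (y ^ (p ^ a)) = m := by
    rw [orderOf_pow_of_dvd hne (by rw [hn']; exact dvd_mul_right _ _), hn']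
    exact Nat.mul_div_cancel_left _ (Nat.pos_of_ne_zero hne)
  have hreg₁ : ¬ p ∣ orderOf (y ^ (p ^ a)) := by
    rw [hord]
    exact hm
  have hy₁N : y ^ (p ^ a) ∈ N := reg_mem hM.1 hN hreg₁
  have hy₁Q : y ^ (p ^ a) ∈ Subgroup.normalizer (Q₀ : Set G) := Subgroup.pow_mem _ hyQ₀ _
  have hy₁S : StabilizesBlock (cK N Q₀) (blockOf M (ξ : cK N Q₀ → ℂ)) (y ^ (p ^ a)) :=
    (mem_stabSub _ hf₀ _).1 (Subgroup.pow_mem _ ((mem_stabSub _ hf₀ y).2 hyS) _)
  let x₁ : N := ⟨y ^ (p ^ a), hy₁N⟩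
  have hQ'p : IsPGroup p Q' := (hQe.1.1.to_le inf_le_left).comap_of_injective N.subtype Subtype.val_injective
  have hpairc : IsBrauerPairOf p M c Q' (trB τ (blockOf M (ξ : cK N Q₀ → ℂ))) := by
    refine ⟨⟨hQ'p, trB_block τ hf₀⟩, hc, ?_⟩
    rintro ξ' ⟨ξ₂, hξ₂, h⟩
    rw [omega_tau hBc hQ hQ₀ ξ' ξ₂ h]
    have hz : IsLC M (blockCoeff B ∘ (cK N Q₀).subtype) := comp_isLC _ (blockCoeff_isLC hB)
    have h1 := om_sameBlock (M := M) ξ.2 ξ₂.2 hz.1 hz.2 hξ₂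
    have h2 := hp₁.2.2 χ hχ
    rw [omega_j hBc χ ξ hξ] at h2
    exact Cong.trans (Cong.symm h1) h2
  have hx₁N : x₁ ∈ Subgroup.normalizer (Q' : Set N) := by
    rw [Subgroup.mem_normalizer_iff]
    intro n
    rw [hQ, hQ]
    exact Subgroup.mem_normalizer_iff.1 hy₁Q n
  have hx₁C := cent_le_norm_cent Q' hx₁N
  have hx₁S : StabilizesBlock (Subgroup.centralizer (Q' : Set N)) (trB τ (blockOf M (ξ : cK N Q₀ → ℂ))) x₁ := by
    refine ⟨hx₁C, ?_⟩
    rintro ξ' ⟨ξ₂, hξ₂, h⟩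
    obtain ⟨ξ₃, hξ₃, hconj⟩ := hy₁S.2 ξ₂ hξ₂
    refine ⟨irrComp τ ξ₃, ⟨ξ₃, hξ₃, fun a => rfl⟩, ?_⟩
    intro k k' hk
    rw [irrComp_apply, h]
    apply hconj
    exact congrArg Subtype.val hk
  have hreg₂ : IsPRegular p x₁ := by
    show ¬ p ∣ orderOf x₁
    rw [Subgroup.orderOf_mk]
    exact hreg₁
  have hfin := hnil.2 Q' _ hpairc x₁ hx₁N hx₁S hreg₂
  have hy₁C : y ^ (p ^ a) ∈ Subgroup.centralizer (Q₀ : Set G) := by
    rw [Subgroup.mem_centralizer_iff]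
    intro q hq
    have := Subgroup.mem_centralizer_iff.1 hfin ⟨q, hQ₀ hq⟩ ((hQ _).2 hq)
    exact congrArg Subtype.val this
  have hact : ∀ v ∈ Q₀, y * v * y⁻¹ = x * v * x⁻¹ := by
    intro v hv
    have h2 : x * v * x⁻¹ ∈ Q₀ := (Subgroup.mem_normalizer_iff.1 hxQ₀ v).1 hv
    have h3 := Subgroup.mem_centralizer_iff.1 u.2 _ h2
    calc y * v * y⁻¹ = (u : G)⁻¹ * ((x * v * x⁻¹) * u) := by
          simp only [y]
          group
      _ = (u : G)⁻¹ * ((u : G) * (x * v * x⁻¹)) := by rw [h3]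
      _ = x * v * x⁻¹ := by group
  have hxC₀ := cent_of_acts' hM.1 hxQ₀ hyQ₀ hact hxR' a hy₁C
  exact cent_of_cent_inf hM.1 hQe.1.1 hxN hxNN hxC₀ hxR'

end NormalSub

end Cfsg.Agent.Lib.BlockNilN
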