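import Cfsg.Agent.Lib.BlockAbInd

/-!
# Blocks of `P C_G(P)`
-/

set_option autoImplicit false
set_option linter.all false

namespace Cfsg.Agent.Lib.BlockPC

open Cfsg Cfsg.Agent.Lib.BlockLocal Cfsg.Agent.Lib.BlockOsima Cfsg.Agent.Lib.BlockBr Cfsg.Agent.Lib.BlockOrth
  Cfsg.Agent.Lib.BlockApps Cfsg.Agent.Lib.CharIrr Cfsg.Agent.Lib.BlockPair Cfsg.Agent.Lib.BlockSub
  Cfsg.Agent.Lib.BlockMax Cfsg.Agent.Lib.BlockTrace Cfsg.Agent.Lib.BlockConjP Cfsg.Agent.Lib.BlockFull
  Cfsg.Agent.Lib.BlockFus Cfsg.Agent.Lib.BlockFus2 Cfsg.Agent.Lib.BlockSat Cfsg.Agent.Lib.BlockTrans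
  Cfsg.Agent.Lib.BlockRecep Cfsg.Agent.Lib.BlockFrob Cfsg.Agent.Lib.BlockAb
open scoped ComplexConjugate

universe u

section PC

variable {G : Type u} [Group G] [Fintype G] {p : ℕ} {M : Ideal AlgInt} [hprime : M.IsPrime]

/-- Elements of `P ⊔ C(P)`. -/
theorem mem_sup_cent {P : Subgroup G} {y : G} (hy : y ∈ P ⊔ Subgroup.centralizer (P : Set G)) :
    ∃ u ∈ P, ∃ z ∈ Subgroup.centralizer (P : Set G), y = u * z := by
  rw [Subgroup.sup_eq_closure] at hy
  induction hy using Subgroup.closure_induction with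
  | mem x hx =>
    rcases hx with hx | hx
    · exact ⟨x, hx, 1, one_mem _, by simp⟩
    · exact ⟨1, one_mem _, x, hx, by simp⟩
  | one => exact ⟨1, one_mem _, 1, one_mem _, by simp⟩
  | mul a b _ _ ha hb =>
    obtain ⟨u, hu, z, hz, rfl⟩ := ha
    obtain ⟨u', hu', z', hz', rfl⟩ := hb
    refine ⟨u * u', mul_mem hu hu', z * z', mul_mem hz hz', ?_⟩
    have : z * u' = u' * z := (Subgroup.mem_centralizer_iff.1 hz u' hu').symm
    rw [mul_assoc, ← mul_assoc z, this]
    group
  | inv a _ ha =>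
    obtain ⟨u, hu, z, hz, rfl⟩ := ha
    refine ⟨u⁻¹, inv_mem hu, z⁻¹, inv_mem hz, ?_⟩
    have : z * u = u * z := (Subgroup.mem_centralizer_iff.1 hz u hu).symm
    rw [mul_inv_rev]
    apply inv_injective
    simp only [mul_inv_rev, inv_inv]
    exact this.symm

/-- The normalizer of `P` normalizes `P ⊔ C(P)`. -/
theorem norm_le_norm_sup (P : Subgroup G) :
    Subgroup.normalizer (P : Set G) ≤
      Subgroup.normalizer ((P ⊔ Subgroup.centralizer (P : Set G) : Subgroup G) : Set G) := by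
  intro y hy
  have hy1 : ∀ w, w ∈ Subgroup.normalizer (P : Set G) →
      P ⊔ Subgroup.centralizer (P : Set G) ≤
        (P ⊔ Subgroup.centralizer (P : Set G)).comap (MulAut.conj w).toMonoidHom := by
    intro w hw
    apply sup_le
    · intro a ha
      apply Subgroup.mem_sup_left
      exact (Subgroup.mem_normalizer_iff.1 hw a).1 ha
    · intro a ha
      apply Subgroup.mem_sup_right
      have := cent_le_norm_cent P hw
      exact (Subgroup.mem_normalizer_iff.1 this a).1 ha
  rw [Subgroup.mem_normalizer_iff]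
  intro h
  constructor
  · intro hh
    exact hy1 y hy hh
  · intro hh
    have := hy1 y⁻¹ (inv_mem hy) hh
    simpa [MulAut.conj_apply, mul_assoc] using this

/-- The centralizer block stability is inherited by `P ⊔ C(P)`. -/
theorem stab_of_sup (P : Subgroup G) [Fintype (Subgroup.centralizer (P : Set G))]
    {c : Set (IrrCharacter (Subgroup.centralizer (P : Set G)))} (hc : IsPBlock M c) {y : G}
    (hy : y ∈ P ⊔ Subgroup.centralizer (P : Set G)) :
    StabilizesBlock (Subgroup.centralizer (P : Set G)) c y := by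
  classical
  have h : P ⊔ Subgroup.centralizer (P : Set G) ≤ stabSub _ c hc := by
    apply sup_le
    · intro u hu
      rw [mem_stabSub]
      refine ⟨cent_le_norm_cent P (Subgroup.le_normalizer hu), fun χ hχ => ⟨χ, hχ, fun k k' hk => ?_⟩⟩
      congr 1
      rw [show k' = k from ?_]
      apply Subtype.ext
      rw [hk]
      have : u * (k : G) = k * u := Subgroup.mem_centralizer_iff.1 k.2 u hu
      rw [this]
      group
    · intro z hz
      rw [mem_stabSub]
      exact stabilizesBlock_self _ hz c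
  exact h hy

/-- Stabilizers in terms of idempotent coefficients. -/
theorem stabilizes_of_coeff (K : Subgroup G) [Fintype K] {y : G} (hy : y ∈ Subgroup.normalizer (K : Set G))
    {f : Set (IrrCharacter K)} (hf : IsPBlock M f)
    (h : ∀ k : K, blockCoeff f (conjEquiv K y hy k) = blockCoeff f k) : StabilizesBlock K f y := by
  rw [stabilizes_iff K hy hf]
  apply blockCoeff_inj
  intro x
  rw [blockCoeff_comp]
  have := h ((conjEquiv K y hy).symm x)
  simpa using this.symm

/-- Extracting `StabilizesBlock` from the form of the stabilizer condition used in statements. -/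
theorem stabilizes_iff_forall (K : Subgroup G) [Fintype K] {y : G} (hy : y ∈ Subgroup.normalizer (K : Set G))
    {f : Set (IrrCharacter K)} :
    StabilizesBlock K f y ↔ ∀ θ ∈ f, ∀ θ' : IrrCharacter K,
      (∀ h h' : K, (h' : G) = y * h * y⁻¹ → (θ' : K → ℂ) h' = (θ : K → ℂ) h) → θ' ∈ f := by
  constructor
  · rintro ⟨-, h⟩ θ hθ θ' hθ'
    obtain ⟨χ', hχ', hc⟩ := h θ hθ
    have e1 := (isConjCharOf_iff K hy θ χ').1 hc
    have e2 := (isConjCharOf_iff K hy θ θ').1 hθ'
    rw [e2, ← e1]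
    exact hχ'
  · intro h
    refine ⟨hy, fun θ hθ => ?_⟩
    refine ⟨irrComp (conjEquiv K y hy).symm θ, ?_, ?_⟩
    · apply h θ hθ
      exact (isConjCharOf_iff K hy θ _).2 rfl
    · exact (isConjCharOf_iff K hy θ _).2 rfl

/-- A pair attached to a block over a stable block of the centralizer. -/
theorem pair_of_induced_mid (hM : IsPModular p M) {P Y : Subgroup G} (hP : IsPGroup p P) [Fintype Y]
    [Fintype (Subgroup.centralizer (P : Set G))]
    (hCY : Subgroup.centralizer (P : Set G) ≤ Y) (hPY : P ≤ Y) (hYN : Y ≤ Subgroup.normalizer (P : Set G))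
    {c : Set (IrrCharacter (Subgroup.centralizer (P : Set G)))} (hc : IsPBlock M c)
    {B : Set (IrrCharacter G)}
    (hind : IsInducedBlock M Y (overSet (Subgroup.inclusion hCY) c) B) : IsBrauerPairOf p M B P c := by
  classical
  refine ⟨⟨hP, hc⟩, hind.2.1, fun ξ hξ => ?_⟩
  obtain ⟨χ, hχ⟩ := Cfsg.Agent.Lib.CharBlockDefect.block_nonempty hM hind.2.1
  obtain ⟨θ, hθ⟩ := exists_irr_over (Subgroup.inclusion hCY) (Subgroup.inclusion_injective _) ξ
  have hθb : θ ∈ overSet (Subgroup.inclusion hCY) c := ⟨ξ, hξ, hθ⟩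
  have hR := Cfsg.Agent.Lib.CharBlockConv.isRClass_blockCoeff hM hind.2.1
  have h1 := Cfsg.Agent.Lib.CharBlockBrauer.omega_res_congr hM
    (Cfsg.Agent.Lib.CharOps.IsCharacter.isClassFunction' (Cfsg.Agent.Lib.CharOps.IsIrrCharacter.isCharacter' χ.2))
    (hind.2.2 θ hθb χ hχ) hR
  rw [Cfsg.Agent.Lib.CharBlockConv.omega_blockCoeff, if_pos hχ] at h1
  have h2 := Cfsg.Agent.Lib.CharBlockBrauer.omega_res_sub_trunc hM hP hPY hYN θ.2 hR
  have hRt := Cfsg.Agent.Lib.CharBlockBrauer.trunc_isRClass hM (P := P) hYN hR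
  haveI hn : (P.subgroupOf Y).Normal := by
    constructor
    intro q hq t
    rw [Subgroup.mem_subgroupOf] at hq ⊢
    exact (Subgroup.mem_normalizer_iff.1 (hYN t.2) q).1 hq
  have hrange : ∀ x : Y, x ∈ (Subgroup.inclusion hCY).range ↔ ∀ u ∈ P.subgroupOf Y, u * x = x * u := by
    intro x
    constructor
    · rintro ⟨c, rfl⟩ u hu
      apply Subtype.ext
      exact Subgroup.mem_centralizer_iff.1 c.2 u (Subgroup.mem_subgroupOf.1 hu)
    · intro hx
      refine ⟨⟨x, ?_⟩, rfl⟩
      rw [Subgroup.mem_centralizer_iff]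
      intro u hu
      exact congrArg Subtype.val (hx ⟨u, hPY hu⟩ (Subgroup.mem_subgroupOf.2 hu))
  have hnr := range_normal_of_centralizer (P.subgroupOf Y) (Subgroup.inclusion hCY) hrange
  have h3 := om_eq_of_constituent (Subgroup.inclusion hCY) (Subgroup.inclusion_injective _) hnr hθ hRt.1
    (fun x hx => by
      apply Cfsg.Agent.Lib.CharBlockBrauer.trunc_of_not_mem
      intro hc
      exact hx ⟨⟨x, hc⟩, rfl⟩)
  have e : brauerOmega P (blockCoeff B) (ξ : Subgroup.centralizer (P : Set G) → ℂ) =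
      Cfsg.Agent.Lib.CharBlockConv.omega (θ : Y → ℂ) (Cfsg.Agent.Lib.CharBlockBrauer.trunc P Y (blockCoeff B)) := by
    have e1 : Cfsg.Agent.Lib.CharBlockConv.omega (θ : Y → ℂ) (Cfsg.Agent.Lib.CharBlockBrauer.trunc P Y (blockCoeff B)) =
        om (θ : Y → ℂ) (Cfsg.Agent.Lib.CharBlockBrauer.trunc P Y (blockCoeff B)) := by
      unfold Cfsg.Agent.Lib.CharBlockConv.omega om
      rw [div_eq_inv_mul]
    rw [e1, h3, brauerOmega_eq]
    unfold omI
    congr 1
    funext x
    exact (Cfsg.Agent.Lib.CharBlockBrauer.trunc_of_mem (blockCoeff B) (h := Subgroup.inclusion hCY x) x.2).symm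
  rw [e]
  have h4 := Cfsg.Agent.Lib.CharBlockLocal.MemLocalIdeal.sub hM h1 h2
  have e5 : ∀ a b c : ℂ, a - 1 - (a - c) = c - 1 := fun a b c => by ring
  rwa [e5 _ 0] at h4

/-- The main equivalence for the blocks of `P ⊔ C(P)`. -/
theorem defect_iff_index (hM : IsPModular p M) (P : Subgroup G) (hP : IsPGroup p P) (H : Subgroup G) [Fintype H]
    (hH : H = P ⊔ Subgroup.centralizer (P : Set G)) (b : Set (IrrCharacter H)) (hb : IsPBlock M b)
    (hbP : IsDefectGroup p M b (P.subgroupOf H)) (B : Set (IrrCharacter G)) (hind : IsInducedBlock M H b B)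
    (T : Subgroup G)
    (hT : ∀ g : G, g ∈ T ↔ (g ∈ Subgroup.normalizer (P : Set G) ∧ ∀ θ ∈ b, ∀ θ' : IrrCharacter H,
      (∀ h h' : H, (h' : G) = g * h * g⁻¹ → (θ' : H → ℂ) h' = (θ : H → ℂ) h) → θ' ∈ b)) :
    IsDefectGroup p M B P ↔ ¬ p ∣ H.relIndex T := by
  classical
  haveI : Fact p.Prime := ⟨hM.1⟩
  letI : Fintype (Subgroup.centralizer (P : Set G)) := Fintype.ofFinite _
  letI : Fintype T := Fintype.ofFinite _
  have hPH : P ≤ H := hH ▸ le_sup_left
  have hCH : Subgroup.centralizer (P : Set G) ≤ H := hH ▸ le_sup_right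
  have hHN : H ≤ Subgroup.normalizer (P : Set G) := by
    rw [hH]
    exact sup_le Subgroup.le_normalizer (centralizer_le_normalizer' P)
  have hNH : ∀ y, y ∈ Subgroup.normalizer (P : Set G) → y ∈ Subgroup.normalizer (H : Set G) := by
    intro y hy
    have := norm_le_norm_sup P hy
    rwa [← hH] at this
  obtain ⟨θ₀, hθ₀⟩ := Cfsg.Agent.Lib.CharBlockDefect.block_nonempty hM hb
  obtain ⟨ξ₀, hξ₀⟩ := exists_under (Subgroup.inclusion hCH) (Subgroup.inclusion_injective _) θ₀
  set c : Set (IrrCharacter (Subgroup.centralizer (P : Set G))) := blockOf M (ξ₀ : Subgroup.centralizer (P : Set G) → ℂ) with hcdef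
  have hc : IsPBlock M c := ⟨ξ₀, rfl⟩
  have hYs : ∀ y ∈ H, StabilizesBlock (Subgroup.centralizer (P : Set G)) c y := fun y hy =>
    stab_of_sup P hc (hH ▸ hy)
  obtain ⟨hbo, hcoef⟩ := mid_block hM hP hc hCH hPH hHN hYs
  have hbeq : b = overSet (Subgroup.inclusion hCH) c :=
    block_eq_of_mem hb hbo hθ₀ ⟨ξ₀, mem_block_self _, hξ₀⟩
  have hcoef' : ∀ t : H, blockCoeff b t = subgroupBlockCoeff (Subgroup.centralizer (P : Set G)) c (t : G) := by
    rw [hbeq]; exact hcoef
  have hpair : IsBrauerPairOf p M B P c :=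
    pair_of_induced_mid hM hP hCH hPH hHN hc (hbeq ▸ hind)
  -- the stabilizer
  have hTS : IsStab P c T := by
    intro y
    rw [hT]
    refine and_congr_right fun hyN => ?_
    rw [← stabilizes_iff_forall H (hNH y hyN)]
    have hyC := cent_le_norm_cent P hyN
    constructor
    · intro h
      apply stabilizes_of_coeff _ hyC hc
      intro k
      have h1 := subgroupBlockCoeff_stable H hb h (k : G)
      rw [subgroupBlockCoeff_mem H b ⟨k, hCH k.2⟩,
        subgroupBlockCoeff_mem H b ⟨y * k * y⁻¹, hCH (conjEquiv _ y hyC k).2⟩, hcoef', hcoef'] at h1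
      rw [subgroupBlockCoeff_mem _ c ⟨k, k.2⟩, show ((⟨y * k * y⁻¹, hCH (conjEquiv _ y hyC k).2⟩ : H) : G) =
        ((conjEquiv _ y hyC k : Subgroup.centralizer (P : Set G)) : G) from rfl,
        subgroupBlockCoeff_mem _ c (conjEquiv _ y hyC k)] at h1
      exact h1
    · intro h
      apply stabilizes_of_coeff _ (hNH y hyN) hb
      intro k
      rw [hcoef', hcoef']
      exact subgroupBlockCoeff_stable _ hc h (k : G)
  have hidx : H.relIndex T = ((P.subgroupOf T) ⊔ (Subgroup.inclusion hTS.cent_le).range).index := by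
    rw [Subgroup.relIndex, hH, Subgroup.subgroupOf_sup hTS.self_le hTS.cent_le, Subgroup.inclusion_range]
  rw [hidx]
  constructor
  · intro hD
    have hmax := maximal_of_defect hM hpair hD
    exact defect_sup_index hM hpair.1 hTS (maximal_stab_defect hM hmax hTS)
  · intro hI
    rw [← hidx] at hI
    obtain ⟨R, g, hmax, hle⟩ := exists_maximal_above hM P c hpair
    have hPR : P ≤ R := SubpairLE.le hle
    have hR : IsPGroup p R := hmax.1.1.1
    have hRP : R = P := by
      by_contra hne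
      have hlt : P < R := lt_of_le_of_ne hPR (Ne.symm hne)
      obtain ⟨x₀, hx₀R, hx₀P, hx₀N⟩ := Cfsg.Agent.Lib.FusionAlperin.exists_mem_normalizer_of_lt' hR hlt
      set P' : Subgroup G := R ⊓ Subgroup.normalizer (P : Set G) with hP'
      have hP'R : P' ≤ R := inf_le_left
      have hPP' : P ≤ P' := le_inf hPR Subgroup.le_normalizer
      obtain ⟨g', -, hn⟩ := exists_intermediate hM hmax.1.1 hle hPP' hP'R inf_le_right
      obtain ⟨x, hxC, hxa⟩ := exists_support_of_normal hn
      have hxCP : x ∈ Subgroup.centralizer (P : Set G) := centralizer_anti hPP' hxC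
      have hP'T : P' ≤ T := fun y hy => (hTS y).2 ⟨hy.2, hn.2.2.2.2.1 y hy⟩
      apply hx₀P
      -- `x₀` lies in `H`
      have hx₀T : x₀ ∈ T := hP'T ⟨hx₀R, hx₀N⟩
      haveI hHT : (H.subgroupOf T).Normal := by
        constructor
        intro a ha t
        rw [Subgroup.mem_subgroupOf] at ha ⊢
        exact (Subgroup.mem_normalizer_iff.1 (hNH _ ((hTS _).1 t.2).1) a).1 ha
      have hx₀H : x₀ ∈ H := by
        have h1 : orderOf ((⟨x₀, hx₀T⟩ : T) : T ⧸ H.subgroupOf T) ∣ orderOf (⟨x₀, hx₀T⟩ : T) :=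
          orderOf_map_dvd (QuotientGroup.mk' (H.subgroupOf T)) _
        have h2 : orderOf ((⟨x₀, hx₀T⟩ : T) : T ⧸ H.subgroupOf T) ∣ H.relIndex T := orderOf_dvd_natCard _
        have h3 : IsPGroup p (Subgroup.zpowers x₀) := hR.to_le (Subgroup.zpowers_le.2 hx₀R)
        obtain ⟨k, hk⟩ := (IsPGroup.iff_card.1 h3)
        rw [Nat.card_zpowers] at hk
        have h4 : orderOf (⟨x₀, hx₀T⟩ : T) = orderOf x₀ := Subgroup.orderOf_mk x₀ hx₀T
        rw [h4, hk] at h1
        obtain ⟨j, -, hj'⟩ := (Nat.dvd_prime_pow hM.1).1 h1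
        have hj0 : j = 0 := by
          by_contra hne
          apply hI
          refine dvd_trans ?_ h2
          rw [hj']
          exact dvd_pow_self p hne
        rw [hj0, pow_zero, orderOf_eq_one_iff] at hj'
        exact Subgroup.mem_subgroupOf.1 ((QuotientGroup.eq_one_iff _).1 hj')
      obtain ⟨u, hu, z, hz, hx₀eq⟩ := mem_sup_cent (hH ▸ hx₀H)
      -- `z` lies in `P'`
      have hzP' : z ∈ P' := by
        have : z = u⁻¹ * x₀ := by rw [hx₀eq]; group
        rw [this]
        exact mul_mem (inv_mem (hPP' hu)) ⟨hx₀R, hx₀N⟩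
      have hzH : z ∈ H := hCH hz
      have hxH : x ∈ H := hCH hxCP
      have hxb : ¬ MemLocalIdeal M (blockCoeff b (⟨x, hxH⟩ : H)) := by
        rw [hcoef']
        exact hxa
      obtain ⟨g₀, hg₀, D, hD⟩ := hbP
      have hzp : IsPGroup p (Subgroup.zpowers (⟨z, hzH⟩ : H)) := by
        have h3 : IsPGroup p (P'.subgroupOf H) :=
          Cfsg.Agent.Lib.BlockCorr.isPGroup_subgroupOf' (hR.to_le hP'R)
        exact h3.to_le (Subgroup.zpowers_le.2 (Subgroup.mem_subgroupOf.2 hzP'))
      have hcomm : ∀ y ∈ Subgroup.zpowers (⟨z, hzH⟩ : H), y * (⟨x, hxH⟩ : H) = (⟨x, hxH⟩ : H) * y := by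
        intro y hy
        have hcz : (⟨z, hzH⟩ : H) * (⟨x, hxH⟩ : H) = (⟨x, hxH⟩ : H) * (⟨z, hzH⟩ : H) := by
          apply Subtype.ext
          exact Subgroup.mem_centralizer_iff.1 hxC z hzP'
        obtain ⟨k, rfl⟩ := Subgroup.mem_zpowers_iff.1 hy
        exact (Commute.zpow_left hcz k)
      obtain ⟨t, ht⟩ := Cfsg.Agent.Lib.CharBlockMinMax.sylow_le_defect hM hb hg₀ D hxb hzp hcomm
      rw [← hD] at ht
      have hzP : z ∈ P := by
        have h5 := ht (Subgroup.mem_zpowers (⟨z, hzH⟩ : H))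
        obtain ⟨w, hw, hwe⟩ := h5
        have hw' : (w : G) ∈ P := Subgroup.mem_subgroupOf.1 hw
        have h6 : (⟨z, hzH⟩ : H) = t * w * t⁻¹ := hwe.symm
        have h7 : z = (t : G) * w * (t : G)⁻¹ := congrArg Subtype.val h6
        rw [h7]
        exact (Subgroup.mem_normalizer_iff.1 (hHN t.2) w).1 hw'
      rw [hx₀eq]
      exact mul_mem hu hzP
    subst hRP
    exact maximal_isDefect hM hmax

end PC

section Cyc

variable {G : Type u} [Group G] {p : ℕ}

/-- Conjugation by `t` is a power map on a cyclic subgroup. -/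
theorem cyc_power {P : Subgroup G} (hcyc : IsCyclic P) {t : G} (ht : t ∈ Subgroup.normalizer (P : Set G)) :
    ∃ k : ℤ, ∀ y ∈ P, t * y * t⁻¹ = y ^ k := by
  obtain ⟨x₀, hx₀⟩ := hcyc
  have hm : t * (x₀ : G) * t⁻¹ ∈ P := (Subgroup.mem_normalizer_iff.1 ht _).1 x₀.2
  obtain ⟨k, hk⟩ := Subgroup.mem_zpowers_iff.1 (hx₀ ⟨_, hm⟩)
  have hk' : (x₀ : G) ^ k = t * (x₀ : G) * t⁻¹ := by
    simpa using congrArg Subtype.val hk
  refine ⟨k, fun y hy => ?_⟩
  obtain ⟨s, hs⟩ := Subgroup.mem_zpowers_iff.1 (hx₀ ⟨y, hy⟩)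
  have hs' : (x₀ : G) ^ s = y := by simpa using congrArg Subtype.val hs
  rw [← hs', ← conj_zpow, ← hk', ← zpow_mul, ← zpow_mul, mul_comm]

/-- A `p'`-acting element fixing an element of order `p` of a cyclic `p`-subgroup centralizes it. -/
theorem cyc_fix [Finite G] [hp : Fact p.Prime] {P T : Subgroup G} (hP : IsPGroup p P) (hcyc : IsCyclic P)
    (hTN : T ≤ Subgroup.normalizer (P : Set G)) (hm : ¬ p ∣ (Subgroup.centralizer (P : Set G)).relIndex T)
    [hn : ((Subgroup.centralizer (P : Set G)).subgroupOf T).Normal] {t : G} (ht : t ∈ T) {w : G} (hw : w ∈ P)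
    (hwo : orderOf w = p) (hfix : t * w * t⁻¹ = w) : t ∈ Subgroup.centralizer (P : Set G) := by
  obtain ⟨k, hk⟩ := cyc_power hcyc (hTN ht)
  have h1 : w ^ (k - 1) = 1 := by
    rw [zpow_sub_one, ← hk w hw, hfix]
    simp
  have hd : (p : ℤ) ∣ k - 1 := by
    rw [← hwo]
    exact orderOf_dvd_iff_zpow_eq_one.2 h1
  obtain ⟨a, ha⟩ := IsPGroup.iff_card.1 hP
  have hd2 := dvd_sub_pow_of_dvd_sub (R := ℤ) (p := p) (a := k) (b := 1) (by simpa using hd) a
  have hconj : ∀ n : ℕ, ∀ y ∈ P, t ^ n * y * (t ^ n)⁻¹ = y ^ (k ^ n) := by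
    intro n
    induction n with
    | zero => intro y _; simp
    | succ n ih =>
      intro y hy
      have e : t ^ (n + 1) * y * (t ^ (n + 1))⁻¹ = t ^ n * (t * y * t⁻¹) * (t ^ n)⁻¹ := by
        rw [pow_succ]; group
      rw [e, hk y hy, ih _ (zpow_mem hy k), ← zpow_mul, pow_succ]
      congr 1
      ring
  have hpa : t ^ (p ^ a) ∈ Subgroup.centralizer (P : Set G) := by
    rw [Subgroup.mem_centralizer_iff]
    intro y hy
    have e1 := hconj (p ^ a) y hy
    have e2 : y ^ (k ^ (p ^ a)) = y := by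
      have hord : ((orderOf y : ℕ) : ℤ) ∣ k ^ (p ^ a) - 1 := by
        have h3 : orderOf y ∣ p ^ a := by
          rw [← ha]
          have := Subgroup.orderOf_dvd_natCard P hy
          exact this
        have h4 : ((orderOf y : ℕ) : ℤ) ∣ ((p ^ a : ℕ) : ℤ) := by exact_mod_cast h3
        refine h4.trans ?_
        refine Dvd.dvd.trans ?_ (by simpa using hd2)
        push_cast
        exact pow_dvd_pow _ (Nat.le_succ a)
      have := orderOf_dvd_iff_zpow_eq_one.1 hord
      rw [zpow_sub_one, mul_inv_eq_one] at this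
      exact this
    rw [e2] at e1
    rw [mul_inv_eq_iff_eq_mul] at e1
    exact e1.symm
  have hidx : t ^ ((Subgroup.centralizer (P : Set G)).relIndex T) ∈ Subgroup.centralizer (P : Set G) := by
    have := Subgroup.pow_index_mem ((Subgroup.centralizer (P : Set G)).subgroupOf T) (⟨t, ht⟩ : T)
    exact Subgroup.mem_subgroupOf.1 this
  have hcop : Nat.Coprime ((Subgroup.centralizer (P : Set G)).relIndex T) (p ^ a) :=
    Nat.Coprime.pow_right a ((Nat.Prime.coprime_iff_not_dvd hp.out).2 hm).symm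
  have hgcd := Nat.gcd_eq_gcd_ab ((Subgroup.centralizer (P : Set G)).relIndex T) (p ^ a)
  rw [hcop.gcd_eq_one] at hgcd
  have e : t = (t ^ ((Subgroup.centralizer (P : Set G)).relIndex T)) ^ (Nat.gcdA ((Subgroup.centralizer (P : Set G)).relIndex T) (p ^ a)) *
      (t ^ (p ^ a)) ^ (Nat.gcdB ((Subgroup.centralizer (P : Set G)).relIndex T) (p ^ a)) := by
    rw [← zpow_natCast, ← zpow_natCast, ← zpow_mul, ← zpow_mul, ← zpow_add, ← hgcd]
    simp
  rw [e]
  exact mul_mem (zpow_mem hidx _) (zpow_mem hpa _)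

/-- The action on a cyclic `p`-subgroup with `p'`-quotient. -/
theorem cyc_quotient [Finite G] [hp : Fact p.Prime] {P T : Subgroup G} (hP : IsPGroup p P) (hcyc : IsCyclic P)
    (hP1 : P ≠ ⊥) (hTN : T ≤ Subgroup.normalizer (P : Set G))
    (hm : ¬ p ∣ (Subgroup.centralizer (P : Set G)).relIndex T)
    [hn : ((Subgroup.centralizer (P : Set G)).subgroupOf T).Normal] :
    IsCyclic (T ⧸ (Subgroup.centralizer (P : Set G)).subgroupOf T) ∧
      (Subgroup.centralizer (P : Set G)).relIndex T ∣ p - 1 ∧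
      ∀ g ∈ T, ∀ x ∈ P, x ≠ 1 → g * x * g⁻¹ = x → g ∈ Subgroup.centralizer (P : Set G) := by
  classical
  constructor
  swap
  constructor
  swap
  · intro g hg x hx hx1 hfix
    obtain ⟨j, hj⟩ := (IsPGroup.iff_orderOf.1 hP) ⟨x, hx⟩
    have hj' : orderOf x = p ^ j := by
      rw [← hj]; exact (Subgroup.orderOf_mk x hx).symm
    have hj0 : j ≠ 0 := by
      rintro rfl
      rw [pow_zero, orderOf_eq_one_iff] at hj'
      exact hx1 hj'
    obtain ⟨i, rfl⟩ := Nat.exists_eq_succ_of_ne_zero hj0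
    have ho : orderOf (x ^ (p ^ i)) = p := by
      rw [orderOf_pow_of_dvd (pow_pos hp.out.pos i).ne' (by rw [hj']; exact pow_dvd_pow p (Nat.le_succ i)), hj', pow_succ]
      rw [Nat.mul_div_cancel_left _ (pow_pos hp.out.pos i)]
    refine cyc_fix hP hcyc hTN hm hg (pow_mem hx _) ho ?_
    rw [← conj_pow, hfix]
  all_goals
    obtain ⟨w, hw⟩ : ∃ w : P, orderOf w = p := by
      have hne : Nontrivial P := (Subgroup.nontrivial_iff_ne_bot P).2 hP1
      obtain ⟨a, ha⟩ := IsPGroup.iff_card.1 hP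
      have : p ∣ Nat.card P := by
        rw [ha]
        apply dvd_pow_self
        rintro rfl
        rw [pow_zero] at ha
        exact (Finite.one_lt_card (α := P)).ne' ha
      exact exists_prime_orderOf_dvd_card' p this
    have hw' : orderOf (w : G) = p := by
      rw [← hw]; exact (Subgroup.orderOf_coe w)
    set Ω : Subgroup G := Subgroup.zpowers (w : G) with hΩ
    have hcard : Nat.card Ω = p := by rw [hΩ, Nat.card_zpowers, hw']
    have hfw : ∀ t ∈ T, ∀ y ∈ Ω, t * y * t⁻¹ ∈ Ω := by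
      intro t ht y hy
      obtain ⟨k, hk⟩ := cyc_power hcyc (hTN ht)
      rw [hk y (Subgroup.zpowers_le.2 w.2 hy)]
      exact zpow_mem hy k
    have hTΩ : T ≤ Subgroup.normalizer (Ω : Set G) := by
      intro t ht
      rw [Subgroup.mem_normalizer_iff]
      intro y
      refine ⟨hfw t ht y, fun hy => ?_⟩
      have := hfw t⁻¹ (inv_mem ht) _ hy
      simpa [mul_assoc] using this
    haveI hcycΩ : IsCyclic Ω := inferInstance
    let φ : T →* MulAut Ω := (Subgroup.normalizerMonoidHom Ω).comp (Subgroup.inclusion hTΩ)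
    have hker : ∀ t : T, φ t = 1 ↔ t ∈ (Subgroup.centralizer (P : Set G)).subgroupOf T := by
      intro t
      have e1 : φ t = 1 ↔ (t : G) ∈ Subgroup.centralizer (Ω : Set G) := by
        have := Subgroup.normalizerMonoidHom_ker Ω
        have h2 := Subgroup.ext_iff.1 this (Subgroup.inclusion hTΩ t)
        rw [MonoidHom.mem_ker, Subgroup.mem_subgroupOf] at h2
        exact h2
      rw [e1, Subgroup.mem_subgroupOf]
      constructor
      · intro h
        refine cyc_fix hP hcyc hTN hm t.2 w.2 hw' ?_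
        have := Subgroup.mem_centralizer_iff.1 h (w : G) (Subgroup.mem_zpowers _)
        rw [← this]
        group
      · intro h
        exact Subgroup.centralizer_le (Subgroup.zpowers_le.2 w.2) h
    let ψ : (T ⧸ (Subgroup.centralizer (P : Set G)).subgroupOf T) →* MulAut Ω :=
      QuotientGroup.lift _ φ (fun t ht => (hker t).2 ht)
    have hψ : Function.Injective ψ := by
      rw [injective_iff_map_eq_one]
      intro a
      induction a using QuotientGroup.induction_on with
      | H t =>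
        intro h
        exact (QuotientGroup.eq_one_iff t).2 ((hker t).1 h)
    first
    | exact (by
        have h := Subgroup.card_dvd_of_injective ψ hψ
        rw [IsCyclic.card_mulAut, hcard, Nat.totient_prime hp.out] at h
        exact h : (Subgroup.centralizer (P : Set G)).relIndex T ∣ p - 1)
    | exact (by
        haveI : IsCyclic (ZMod (Nat.card Ω))ˣ := by rw [hcard]; infer_instance
        haveI : IsCyclic (MulAut Ω) := isCyclic_of_injective (IsCyclic.mulAutMulEquiv Ω).toMonoidHom (IsCyclic.mulAutMulEquiv Ω).injective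
        exact isCyclic_of_injective ψ hψ)

end Cyc

end Cfsg.Agent.Lib.BlockPC
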