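import Cfsg.Agent.Lib.BlockTrans

/-!
# Receptivity of subgroups carrying a defect group of the stabilizer block
-/

set_option autoImplicit false
set_option linter.all false

namespace Cfsg.Agent.Lib.BlockRecep

open Cfsg Cfsg.Agent.Lib.BlockLocal Cfsg.Agent.Lib.BlockOsima Cfsg.Agent.Lib.BlockBr
  Cfsg.Agent.Lib.BlockApps Cfsg.Agent.Lib.CharIrr Cfsg.Agent.Lib.BlockPair Cfsg.Agent.Lib.BlockSub
  Cfsg.Agent.Lib.BlockMax Cfsg.Agent.Lib.BlockTrace Cfsg.Agent.Lib.BlockConjP Cfsg.Agent.Lib.BlockFull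
  Cfsg.Agent.Lib.BlockFus Cfsg.Agent.Lib.BlockFus2 Cfsg.Agent.Lib.BlockSat Cfsg.Agent.Lib.BlockTrans
open scoped ComplexConjugate

universe u

section Mid

variable {G : Type u} [Group G] [Fintype G] {p : ℕ} {M : Ideal AlgInt} [hprime : M.IsPrime]

/-- A stable block of the centralizer gives a block of an intermediate group. -/
theorem mid_block (hM : IsPModular p M) {Q Y : Subgroup G} (hQ : IsPGroup p Q)
    {f : Set (IrrCharacter (Subgroup.centralizer (Q : Set G)))} (hf : IsPBlock M f)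
    [Fintype Y] [Fintype (Subgroup.centralizer (Q : Set G))]
    (hCY : Subgroup.centralizer (Q : Set G) ≤ Y) (hQY : Q ≤ Y) (hYN : Y ≤ Subgroup.normalizer (Q : Set G))
    (hYs : ∀ y ∈ Y, StabilizesBlock (Subgroup.centralizer (Q : Set G)) f y) :
    IsPBlock M (overSet (Subgroup.inclusion hCY) f) ∧
      ∀ t : Y, blockCoeff (overSet (Subgroup.inclusion hCY) f) t =
        subgroupBlockCoeff (Subgroup.centralizer (Q : Set G)) f (t : G) := by
  haveI hn : (Q.subgroupOf Y).Normal := by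
    constructor
    intro q hq t
    rw [Subgroup.mem_subgroupOf] at hq ⊢
    exact (Subgroup.mem_normalizer_iff.1 (hYN t.2) q).1 hq
  have hQ₀ : IsPGroup p (Q.subgroupOf Y) := hQ.comap_of_injective Y.subtype Subtype.val_injective
  have h := cover_block (y := fun t : Y => subgroupBlockCoeff (Subgroup.centralizer (Q : Set G)) f (t : G)) hM
    (Q.subgroupOf Y) hQ₀
    (Subgroup.inclusion hCY) (Subgroup.inclusion_injective _)
    (by
      intro x
      constructor
      · rintro ⟨c, rfl⟩ u hu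
        apply Subtype.ext
        exact Subgroup.mem_centralizer_iff.1 c.2 u (Subgroup.mem_subgroupOf.1 hu)
      · intro hx
        refine ⟨⟨x, ?_⟩, rfl⟩
        rw [Subgroup.mem_centralizer_iff]
        intro u hu
        exact congrArg Subtype.val (hx ⟨u, hQY hu⟩ (Subgroup.mem_subgroupOf.2 hu)))
    hf
    (by
      intro g h
      have := subgroupBlockCoeff_stable _ hf (hYs h.1 h.2) (g : G)
      exact this)
    (by
      intro x hx
      apply subgroupBlockCoeff_not_mem
      intro hmem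
      exact hx ⟨⟨x, hmem⟩, rfl⟩)
    (by
      intro c
      exact subgroupBlockCoeff_mem _ f c)
  refine ⟨h.1, fun t => ?_⟩
  rw [h.2]

/-- A normal extension of `(Q, f)` inside `Y` is a pair of the block of `Y`. -/
theorem pair_in_mid {Q Y R : Subgroup G} {f : Set (IrrCharacter (Subgroup.centralizer (Q : Set G)))}
    {g : Set (IrrCharacter (Subgroup.centralizer (R : Set G)))} (hs : IsNormalSubpair p M Q f R g)
    (hRY : R ≤ Y) (hCY : Subgroup.centralizer (Q : Set G) ≤ Y) {E : Set (IrrCharacter Y)} (hE : IsPBlock M E)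
    (hEc : ∀ t : Y, blockCoeff E t = subgroupBlockCoeff (Subgroup.centralizer (Q : Set G)) f (t : G)) :
    IsBrauerPairOf p M E (R.subgroupOf Y)
      (trB (tauG Y _ R (cent_subgroupOf_iff hRY) ((centralizer_anti hs.2.2.1).trans hCY)) g) := by
  classical
  letI : Fintype Y := Fintype.ofFinite _
  letI : Fintype (Subgroup.centralizer (R : Set G)) := Fintype.ofFinite _
  letI : Fintype (Subgroup.centralizer ((R.subgroupOf Y : Subgroup Y) : Set Y)) := Fintype.ofFinite _
  obtain ⟨h3, h4, h5, h6, h7, h8⟩ := hs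
  refine ⟨⟨h4.1.comap_of_injective _ Subtype.val_injective, trB_block _ h4.2⟩, hE, ?_⟩
  rintro χ ⟨ξ, hξ, hχ⟩
  rw [omega_trB Y _ R (cent_subgroupOf_iff hRY) ((centralizer_anti h5).trans hCY) hEc χ ξ hχ]
  exact h8 ξ hξ

/-- A pair of a block on a defect group is maximal. -/
theorem maximal_of_defect (hM : IsPModular p M) {E : Set (IrrCharacter G)} {R : Subgroup G}
    {h : Set (IrrCharacter (Subgroup.centralizer (R : Set G)))} (hp : IsBrauerPairOf p M E R h)
    (hD : IsDefectGroup p M E R) : IsMaximalBrauerPair p M E R h := by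
  refine ⟨hp, fun R' g' hp' hle => ?_⟩
  obtain ⟨x, hx⟩ := pair_conj_le_defect hM hp' hD
  have hRR' : R ≤ R' := SubpairLE.le hle
  have hc : Nat.card R' ≤ Nat.card R := by
    have h1 : Nat.card (R'.map (MulAut.conj x).toMonoidHom) = Nat.card R' :=
      Subgroup.card_map_of_injective (MulAut.conj x).injective
    rw [← h1]
    exact Subgroup.card_le_of_le hx
  exact (Subgroup.eq_of_le_of_card_ge hRR' hc).symm

end Mid

section Main

variable {G : Type u} [Group G] [Fintype G] {p : ℕ} {M : Ideal AlgInt} [hprime : M.IsPrime]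

/-- The transport of a conjugate block. -/
theorem conj_trB_eq {N Y : Subgroup G} (hNY : N ≤ Y) (hC : Subgroup.centralizer (N : Set G) ≤ Y) (y : Y)
    (hN2Y : N.map (MulAut.conj (y : G)).toMonoidHom ≤ Y)
    (hC2 : Subgroup.centralizer ((N.map (MulAut.conj (y : G)).toMonoidHom : Subgroup G) : Set G) ≤ Y)
    (g : Set (IrrCharacter (Subgroup.centralizer (N : Set G)))) :
    (⟨(N.map (MulAut.conj (y : G)).toMonoidHom).subgroupOf Y,
        trB (tauG Y _ (N.map (MulAut.conj (y : G)).toMonoidHom) (cent_subgroupOf_iff hN2Y) hC2) (conjBlock N y g)⟩ : BrauerPairIdx Y) =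
      ⟨(N.subgroupOf Y).map (MulAut.conj y).toMonoidHom,
        conjBlock (N.subgroupOf Y) y (trB (tauG Y _ N (cent_subgroupOf_iff hNY) hC) g)⟩ := by
  classical
  letI : Fintype Y := Fintype.ofFinite _
  letI : Fintype (Subgroup.centralizer (N : Set G)) := Fintype.ofFinite _
  letI : Fintype (Subgroup.centralizer ((N.map (MulAut.conj (y : G)).toMonoidHom : Subgroup G) : Set G)) := Fintype.ofFinite _
  letI : Fintype (Subgroup.centralizer ((N.subgroupOf Y : Subgroup Y) : Set Y)) := Fintype.ofFinite _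
  letI : Fintype (Subgroup.centralizer (((N.map (MulAut.conj (y : G)).toMonoidHom).subgroupOf Y : Subgroup Y) : Set Y)) := Fintype.ofFinite _
  refine idx_eq_conj _ _ y ?_ ?_
  · intro a
    rw [Subgroup.mem_subgroupOf, Subgroup.mem_subgroupOf]
    exact mem_map_conj_iff N y a
  · intro ξ'
    constructor
    · rintro ⟨ξ₂, ⟨ξ₃, hξ₃, h3⟩, h2⟩
      refine ⟨irrComp (tauG Y _ N (cent_subgroupOf_iff hNY) hC) ξ₃, ⟨ξ₃, hξ₃, fun a => rfl⟩, ?_⟩
      intro c c' hc
      rw [irrComp_apply, h2]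
      apply h3
      rw [tauG_apply, tauG_apply, hc]
      rfl
    · rintro ⟨ξ, ⟨ξ₃, hξ₃, h3⟩, h2⟩
      refine ⟨irrComp (tauG Y _ _ (cent_subgroupOf_iff hN2Y) hC2).symm ξ', ⟨ξ₃, hξ₃, ?_⟩, ?_⟩
      · intro c c' hc
        have e3 := h3 ((tauG Y _ N (cent_subgroupOf_iff hNY) hC).symm c)
        rw [MulEquiv.apply_symm_apply] at e3
        rw [irrComp_apply, ← e3]
        apply h2
        apply Subtype.ext
        show ((c' : G)) = _
        rw [hc]
        rfl
      · intro a
        rw [irrComp_apply]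
        rfl

/-- **Moving a normal extension under the maximal pair.** -/
theorem exists_conj_in_mulCent (hM : IsPModular p M) {B : Set (IrrCharacter G)} {P Q : Subgroup G}
    {e : Set (IrrCharacter (Subgroup.centralizer (P : Set G)))}
    {f : Set (IrrCharacter (Subgroup.centralizer (Q : Set G)))}
    (hmax : IsMaximalBrauerPair p M B P e) (hle : SubpairLE p M Q f P e) (hf : IsPBlock M f)
    {T : Subgroup G} (hT : IsStab Q f T) [Fintype T] [Fintype (Subgroup.centralizer (Q : Set G))]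
    (hD : IsDefectGroup p M (overSet (Subgroup.inclusion hT.cent_le) f)
      ((P ⊓ Subgroup.normalizer (Q : Set G)).subgroupOf T))
    {N : Subgroup G} {g : Set (IrrCharacter (Subgroup.centralizer (N : Set G)))}
    (hN : IsNormalSubpair p M Q f N g)
    (hNY : N ≤ mulCent (P ⊓ Subgroup.normalizer (Q : Set G)) Q inf_le_right) :
    ∃ c ∈ Subgroup.centralizer (Q : Set G),
      SubpairLE p M (N.map (MulAut.conj c).toMonoidHom) (conjBlock N c g) P e := by
  classical
  haveI : Fact p.Prime := ⟨hM.1⟩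
  have hPe := hmax.1.1
  have hQP : Q ≤ P := SubpairLE.le hle
  have hQp : IsPGroup p Q := hPe.1.to_le hQP
  let L : Subgroup G := P ⊓ Subgroup.normalizer (Q : Set G)
  have hLN : L ≤ Subgroup.normalizer (Q : Set G) := inf_le_right
  let Y : Subgroup G := mulCent L Q hLN
  letI : Fintype Y := Fintype.ofFinite _
  have hCY : Subgroup.centralizer (Q : Set G) ≤ Y := cent_le_mulCent hLN
  have hLY : L ≤ Y := le_mulCent hLN
  have hQL : Q ≤ L := le_inf hQP Subgroup.le_normalizer
  have hQY : Q ≤ Y := hQL.trans hLY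
  obtain ⟨gL, hgL1, hgL2⟩ := exists_intermediate hM hPe hle hQL inf_le_left inf_le_right
  have hLT : L ≤ T := fun l hl => (hT l).2 ⟨hLN hl, hgL2.2.2.2.2.1 l hl⟩
  have hYT : Y ≤ T := by
    rintro y ⟨l, hl, hy⟩
    have : y = l * (l⁻¹ * y) := by group
    rw [this]
    exact T.mul_mem (hLT hl) (hT.cent_le hy)
  have hYN : Y ≤ Subgroup.normalizer (Q : Set G) := hYT.trans hT.le_norm
  obtain ⟨hE, hEc⟩ := mid_block hM hQp hf hCY hQY hYN (fun y hy => hT.stab (hYT hy))
  obtain ⟨hF, hFc⟩ := stab_block hM hQp hf hT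
  have hL₁ := pair_in_mid hgL2 hLY hCY hE hEc
  -- a defect group of `E`
  obtain ⟨g₀, hg₀⟩ := Cfsg.Agent.Lib.CharBlockConv.exists_defect_class hM hE
  let Dₛ : Sylow p (Subgroup.centralizer ({g₀} : Set Y)) := default
  let DY : Subgroup Y := (Dₛ : Subgroup (Subgroup.centralizer ({g₀} : Set Y))).map (Subgroup.centralizer ({g₀} : Set Y)).subtype
  have hDY : IsDefectGroup p M (overSet (Subgroup.inclusion hCY) f) DY := ⟨g₀, hg₀, Dₛ, rfl⟩
  have hDYp : IsPGroup p DY := Dₛ.isPGroup'.map _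
  obtain ⟨u, hu⟩ := pair_conj_le_defect hM hL₁ hDY
  have hcard : Nat.card DY ≤ Nat.card (L.subgroupOf Y) := by
    obtain ⟨c₀, -, hc₀, c, hcc, hcD⟩ := (Cfsg.Agent.Lib.CharBlockMinMax.conj_le_defect_iff hM hE hDY hDYp).2
      ⟨1, by
        rintro _ ⟨a, ha, rfl⟩
        simpa using ha⟩
    have hc1 : ¬ MemLocalIdeal M (blockCoeff (overSet (Subgroup.inclusion hCY) f) c) := by
      rwa [← classFun_eq_of_isConj (blockCoeff_isClass _) hcc]
    let D' : Subgroup T := DY.map (Subgroup.inclusion hYT)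
    have hD'p : IsPGroup p D' := hDYp.map _
    have hc2 : (Subgroup.inclusion hYT c) ∈ Subgroup.centralizer (D' : Set T) := by
      rw [Subgroup.mem_centralizer_iff]
      rintro _ ⟨a, ha, rfl⟩
      apply Subtype.ext
      have h7 := Subgroup.mem_centralizer_iff.1 hcD a ha
      show ((a * c : Y) : G) = ((c * a : Y) : G)
      rw [h7]
    have hc3 : ¬ MemLocalIdeal M (blockCoeff (overSet (Subgroup.inclusion hT.cent_le) f) (Subgroup.inclusion hYT c)) := by
      rw [hFc]
      rw [hEc] at hc1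
      exact hc1
    obtain ⟨x, hx⟩ := (Cfsg.Agent.Lib.CharBlockMinMax.conj_le_defect_iff hM hF hD hD'p).1
      ⟨_, (blockCoeff_isLC hF).2 _, hc3, _, IsConj.refl _, hc2⟩
    have h1 : Nat.card D' = Nat.card DY := Subgroup.card_map_of_injective (Subgroup.inclusion_injective _)
    have h2 : Nat.card (D'.map (MulAut.conj x).toMonoidHom) = Nat.card D' :=
      Subgroup.card_map_of_injective (MulAut.conj x).injective
    have h3 := Subgroup.card_le_of_le hx
    have h4 : Nat.card ((L.subgroupOf T : Subgroup T)) = Nat.card L :=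
      card_subgroupOf hLT
    have h5 : Nat.card ((L.subgroupOf Y : Subgroup Y)) = Nat.card L :=
      card_subgroupOf hLY
    rw [h5, ← h1, ← h2, ← h4]
    exact h3
  have hDL : IsDefectGroup p M (overSet (Subgroup.inclusion hCY) f) (L.subgroupOf Y) := by
    have h1 : IsDefectGroup p M (overSet (Subgroup.inclusion hCY) f) ((L.subgroupOf Y).map (MulAut.conj u).toMonoidHom) := by
      refine defect_of_le_of_card hM hDY hu ?_
      have : Nat.card ((L.subgroupOf Y).map (MulAut.conj u).toMonoidHom) = Nat.card (L.subgroupOf Y) :=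
        Subgroup.card_map_of_injective (MulAut.conj u).injective
      rw [this]
      exact hcard
    have h2 := isDefectGroup_conj hM h1 u⁻¹
    have h3 : ((L.subgroupOf Y).map (MulAut.conj u).toMonoidHom).map (MulAut.conj u⁻¹).toMonoidHom = L.subgroupOf Y := by
      ext a
      simp only [Subgroup.mem_map]
      constructor
      · rintro ⟨_, ⟨b, hb, rfl⟩, rfl⟩
        have e8 : (MulAut.conj u⁻¹).toMonoidHom ((MulAut.conj u).toMonoidHom b) = b := by
          simp only [MulEquiv.toMonoidHom_eq_coe, MonoidHom.coe_coe, MulAut.conj_apply]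
          group
        rw [e8]
        exact hb
      · intro ha
        refine ⟨_, ⟨a, ha, rfl⟩, ?_⟩
        simp only [MulEquiv.toMonoidHom_eq_coe, MonoidHom.coe_coe, MulAut.conj_apply]
        group
    rwa [h3] at h2
  have hmaxY := maximal_of_defect hM hL₁ hDL
  have hN₁ := pair_in_mid hN hNY hCY hE hEc
  obtain ⟨y, hy⟩ := exists_conj_le_maximal hM hmaxY hN₁
  have hyN : (y : G) ∈ Subgroup.normalizer (Q : Set G) := hYN y.2
  let N₂ : Subgroup G := N.map (MulAut.conj (y : G)).toMonoidHom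
  have hN₂L : N₂ ≤ L := by
    rintro _ ⟨a, ha, rfl⟩
    have h0 := SubpairLE.le hy
    have h1 : (y * (⟨a, hNY ha⟩ : Y) * y⁻¹) ∈ (L.subgroupOf Y : Subgroup Y) := by
      apply h0
      exact ⟨⟨a, hNY ha⟩, Subgroup.mem_subgroupOf.2 ha, rfl⟩
    exact Subgroup.mem_subgroupOf.1 h1
  have hN₂Y : N₂ ≤ Y := hN₂L.trans hLY
  have hQN : Q ≤ N := hN.2.2.1
  have hQN₂ : Q ≤ N₂ := by
    intro q hq
    refine ⟨(y : G)⁻¹ * q * y, hQN ?_, by simp [MulAut.conj_apply]; group⟩
    have := (Subgroup.mem_normalizer_iff.1 (Subgroup.inv_mem _ hyN) q).1 hq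
    simpa using this
  have hC2 : Subgroup.centralizer (N₂ : Set G) ≤ Y := (centralizer_anti hQN₂).trans hCY
  obtain ⟨g₃, hg₃, hg₃le⟩ := exists_subpair_below hM hgL2.2.1 N₂ hN₂L
  have hchain := trans_chain (Y := Y) (Q₀ := Q) hCY (a := ⟨N₂, g₃⟩) hQN₂ hN₂Y (b := ⟨L, gL⟩) hg₃le hQL hLY
  have heq := conj_trB_eq hNY ((centralizer_anti hQN).trans hCY) y hN₂Y hC2 g
  have hchain2 : SubpairLE p M (N₂.subgroupOf Y)
      (trB (tauG Y _ N₂ (cent_subgroupOf_iff hN₂Y) hC2) (conjBlock N y g))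
      (L.subgroupOf Y) (trB (tauG Y _ L (cent_subgroupOf_iff hLY) ((centralizer_anti hQL).trans hCY)) gL) :=
    subpairLE_of_idx_eq hy heq.symm rfl
  have huniq := subpair_unique hM hL₁.1 (N₂.subgroupOf Y) _ _ hchain hchain2
  have hg₃eq : g₃ = conjBlock N y g := trB_inj _ huniq
  subst hg₃eq
  have hle₃ : SubpairLE p M N₂ (conjBlock N y g) P e := hg₃le.trans hgL1
  obtain ⟨l, hl, hc⟩ := y.2
  refine ⟨l⁻¹ * y, hc, ?_⟩
  have hconj := subpairLE_conj hle₃ l⁻¹
  exact subpairLE_of_idx_eq hconj (conj_conj N g y l⁻¹) (conj_self e (P.inv_mem hl.1))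

end Main

section Recep

variable {G : Type u} [Group G] [Fintype G] {p : ℕ} {M : Ideal AlgInt} [hprime : M.IsPrime]
  {B : Set (IrrCharacter G)} {P : Subgroup G} {e : Set (IrrCharacter (Subgroup.centralizer (P : Set G)))}
  {F : FusionSystem P}

theorem mem_map_conj_inv (A : Subgroup G) (y a : G) :
    a ∈ A.map (MulAut.conj y).toMonoidHom ↔ y⁻¹ * a * y ∈ A := by
  have := mem_map_conj_iff A y (y⁻¹ * a * y)
  have e : y * (y⁻¹ * a * y) * y⁻¹ = a := by group
  rw [e] at this
  exact this.symm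

/-- **The extension axiom.** -/
theorem receptive (hM : IsPModular p M) (hF : IsBlockFusionSystemOn p M B P e F) {Q : Subgroup G}
    {f : Set (IrrCharacter (Subgroup.centralizer (Q : Set G)))} (hf : IsPBlock M f)
    (hle : SubpairLE p M Q f P e) {T : Subgroup G} (hT : IsStab Q f T) [Fintype T]
    [Fintype (Subgroup.centralizer (Q : Set G))]
    (hD : IsDefectGroup p M (overSet (Subgroup.inclusion hT.cent_le) f) ((P ⊓ Subgroup.normalizer (Q : Set G)).subgroupOf T)) :
    F.IsReceptive Q := by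
  classical
  have hmax := hF.1
  have hPe := hmax.1.1
  refine ⟨SubpairLE.le hle, ?_⟩
  intro R φ hφ hr
  obtain ⟨hRP, g, hg, hmapP, fR, hR1, hR2⟩ := (hF.2 R φ).1 hφ
  have hQeq : Q = R.map (MulAut.conj g).toMonoidHom := by
    rw [← hr]
    ext a
    constructor
    · rintro ⟨x, rfl⟩
      exact ⟨x, x.2, (hg x).symm⟩
    · rintro ⟨x, hx, rfl⟩
      exact ⟨⟨x, hx⟩, hg ⟨x, hx⟩⟩
  subst hQeq
  have e1 : conjBlock R g fR = f := subpair_unique hM hPe _ _ _ hR2 hle
  subst e1
  let N : Subgroup G := FusionSystem.extender P R φ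
  have hNP : N ≤ P := (Subgroup.closure_le _).2 (fun h hh => hh.1)
  have hNn : N ≤ Subgroup.normalizer (R : Set G) := (Subgroup.closure_le _).2 (fun h hh => hh.2.1)
  have hRN : R ≤ N := by
    intro r hr'
    refine Subgroup.subset_closure ⟨hRP hr', Subgroup.le_normalizer hr', φ ⟨r, hr'⟩, ?_, ?_⟩
    · exact (F.le_of_mem hφ).2 _
    · intro x hx
      rw [hg, hg, hg]
      simp only []
      group
  let Q' : Subgroup G := R.map (MulAut.conj g).toMonoidHom
  have hLN : (P ⊓ Subgroup.normalizer (Q' : Set G)) ≤ Subgroup.normalizer (Q' : Set G) := inf_le_right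
  have hNconj : N.map (MulAut.conj g).toMonoidHom ≤ mulCent (P ⊓ Subgroup.normalizer (Q' : Set G)) Q' hLN := by
    have h0 : N ≤ (mulCent (P ⊓ Subgroup.normalizer (Q' : Set G)) Q' hLN).comap (MulAut.conj g).toMonoidHom := by
      refine (Subgroup.closure_le _).2 ?_
      rintro h ⟨hhP, hhN, k, hkP, hk⟩
      show g * h * g⁻¹ ∈ mulCent (P ⊓ Subgroup.normalizer (Q' : Set G)) Q' hLN
      -- `k` acts as `g h g⁻¹`
      have hact : ∀ u ∈ Q', k * u * k⁻¹ = (g * h * g⁻¹) * u * (g * h * g⁻¹)⁻¹ := by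
        rintro _ ⟨x, hx, rfl⟩
        have hx' : h * x * h⁻¹ ∈ R := (Subgroup.mem_normalizer_iff.1 hhN x).1 hx
        have h1 := hk ⟨x, hx⟩ hx'
        rw [hg, hg] at h1
        simp only [] at h1
        simp only [MulEquiv.toMonoidHom_eq_coe, MonoidHom.coe_coe, MulAut.conj_apply]
        have e2 : g * h * g⁻¹ * (g * x * g⁻¹) * (g * h * g⁻¹)⁻¹ = g * (h * x * h⁻¹) * g⁻¹ := by group
        rw [e2, h1]
      have hw : g * h * g⁻¹ ∈ Subgroup.normalizer (Q' : Set G) := by
        rw [Subgroup.mem_normalizer_iff]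
        intro a
        rw [mem_map_conj_inv R g a, mem_map_conj_inv R g _]
        have e3 : g⁻¹ * (g * h * g⁻¹ * a * (g * h * g⁻¹)⁻¹) * g = h * (g⁻¹ * a * g) * h⁻¹ := by group
        rw [e3]
        exact Subgroup.mem_normalizer_iff.1 hhN _
      have hkN : k ∈ Subgroup.normalizer (Q' : Set G) := by
        rw [Subgroup.mem_normalizer_iff]
        intro a
        constructor
        · intro ha
          rw [hact a ha]
          exact (Subgroup.mem_normalizer_iff.1 hw a).1 ha
        · intro ha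
          have h2 : (g * h * g⁻¹)⁻¹ * (k * a * k⁻¹) * (g * h * g⁻¹) ∈ Q' := by
            have := (Subgroup.mem_normalizer_iff.1 (Subgroup.inv_mem _ hw) _).1 ha
            simpa using this
          have h3 := hact _ h2
          have e4 : (g * h * g⁻¹) * ((g * h * g⁻¹)⁻¹ * (k * a * k⁻¹) * (g * h * g⁻¹)) * (g * h * g⁻¹)⁻¹ = k * a * k⁻¹ := by group
          rw [e4] at h3
          have h4 : (g * h * g⁻¹)⁻¹ * (k * a * k⁻¹) * (g * h * g⁻¹) = a := by
            apply mul_left_cancel (a := k)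
            apply mul_right_cancel (b := k⁻¹)
            exact h3
          rw [h4] at h2
          exact h2
      refine ⟨k, ⟨hkP, hkN⟩, ?_⟩
      rw [Subgroup.mem_centralizer_iff]
      intro u hu
      have h5 := hact u hu
      have : k⁻¹ * (g * h * g⁻¹) * u = u * (k⁻¹ * (g * h * g⁻¹)) := by
        have h6 : (g * h * g⁻¹) * u = k * u * k⁻¹ * (g * h * g⁻¹) := by
          rw [h5]
          group
        calc k⁻¹ * (g * h * g⁻¹) * u = k⁻¹ * ((g * h * g⁻¹) * u) := by group
          _ = k⁻¹ * (k * u * k⁻¹ * (g * h * g⁻¹)) := by rw [h6]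
          _ = u * (k⁻¹ * (g * h * g⁻¹)) := by group
      exact this.symm
    rintro _ ⟨h, hh, rfl⟩
    exact h0 hh
  obtain ⟨gN, hgN1, hgN2⟩ := exists_intermediate hM hPe hR1 hRN hNP hNn
  have hN' := isNormalSubpair_conj hgN2 g
  obtain ⟨c, hc, hcle⟩ := exists_conj_in_mulCent hM hmax hle hf hT hD hN' hNconj
  have h2 : SubpairLE p M (N.map (MulAut.conj (c * g)).toMonoidHom) (conjBlock N (c * g) gN) P e :=
    subpairLE_of_idx_eq hcle (conj_conj N gN g c) rfl
  refine ⟨conjHom N (c * g), (hF.2 N _).2 ⟨hNP, c * g, fun u => rfl, SubpairLE.le h2, gN, hgN1, h2⟩, ?_⟩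
  intro x hxR hxN
  rw [hg]
  show (c * g) * x * (c * g)⁻¹ = _
  have h3 : g * x * g⁻¹ ∈ Q' := ⟨x, hxR, rfl⟩
  have h4 := Subgroup.mem_centralizer_iff.1 hc _ h3
  have e5 : (c * g) * x * (c * g)⁻¹ = c * (g * x * g⁻¹) * c⁻¹ := by group
  rw [e5, ← h4]
  group

/-- **Saturation of block fusion systems.** -/
theorem isSaturated (hM : IsPModular p M) (hF : IsBlockFusionSystemOn p M B P e F) : F.IsSaturated p := by
  classical
  have hmax := hF.1
  have hPe := hmax.1.1
  intro Q hQP
  letI : Fintype (Subgroup.centralizer (Q : Set G)) := Fintype.ofFinite _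
  obtain ⟨f, hQf, hle⟩ := exists_subpair_below hM hPe Q hQP
  obtain ⟨T, hT⟩ := exists_isStab Q hQf.2
  obtain ⟨x, hx1, hx2⟩ := exists_conj_norm_defect hM hmax hle hQf hT
  refine ⟨_, isConj_of_conj hF hle hx1, ?_⟩
  letI : Fintype (Subgroup.centralizer ((Q.map (MulAut.conj x).toMonoidHom : Subgroup G) : Set G)) := Fintype.ofFinite _
  have hf' := isPBlock_conjBlock Q x hQf.2
  obtain ⟨T', hT'⟩ := exists_isStab (Q.map (MulAut.conj x).toMonoidHom) hf'
  letI : Fintype T' := Fintype.ofFinite _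
  obtain ⟨F', hF'1, hF'2, hF'3⟩ := hx2 T' hT'
  have hQ' : IsPGroup p (Q.map (MulAut.conj x).toMonoidHom : Subgroup G) := isPGroup_map_conj hQf.1 x
  obtain ⟨hE1, hE2⟩ := stab_block hM hQ' hf' hT'
  have e1 : F' = overSet (Subgroup.inclusion hT'.cent_le) (conjBlock Q x f) :=
    blockCoeff_inj (fun t => by rw [hF'2, hE2])
  rw [e1] at hF'3
  exact ⟨fullyAutomized hM hF hf' hx1 hT' hF'3, receptive hM hF hf' hx1 hT' hF'3⟩

end Recep

end Cfsg.Agent.Lib.BlockRecep
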