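import Cfsg.Agent.Lib.BlockFus2

/-!
# Saturation of block fusion systems: the Sylow axiom
-/

set_option autoImplicit false
set_option linter.all false

namespace Cfsg.Agent.Lib.BlockSat

open Cfsg Cfsg.Agent.Lib.BlockLocal Cfsg.Agent.Lib.BlockOsima Cfsg.Agent.Lib.BlockBr
  Cfsg.Agent.Lib.BlockApps Cfsg.Agent.Lib.CharIrr Cfsg.Agent.Lib.BlockPair Cfsg.Agent.Lib.BlockSub
  Cfsg.Agent.Lib.BlockMax Cfsg.Agent.Lib.BlockTrace Cfsg.Agent.Lib.BlockConjP Cfsg.Agent.Lib.BlockFull
  Cfsg.Agent.Lib.BlockFus Cfsg.Agent.Lib.BlockFus2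
open scoped ComplexConjugate

universe u

section Index

variable {X H : Type u} [Group X] [Fintype X] [Group H] [Fintype H] {p : ℕ} {M : Ideal AlgInt}
  [hprime : M.IsPrime]

/-- The class of `g₁` in `H`, viewed inside `X`. -/
def InL (ι : H →* X) (g₁ : H) (x : X) : Prop := ∃ h : H, x = ι (h * g₁ * h⁻¹)

theorem inL_conj (ι : H →* X) (hn : ι.range.Normal) (hι : Function.Injective ι) {σ : X → (H ≃* H)}
    (hσ : ∀ a c, ι (σ a c) = a * ι c * a⁻¹) {g₁ : H} {w x : X}
    (hw : w ∈ Subgroup.centralizer ({ι g₁} : Set X) ⊔ ι.range) (hx : InL ι g₁ x) : InL ι g₁ (w * x * w⁻¹) := by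
  classical
  obtain ⟨a, ha, b, hb, rfl⟩ := Subgroup.mem_sup_of_normal_right.1 hw
  obtain ⟨k, rfl⟩ := hb
  obtain ⟨h, rfl⟩ := hx
  have hg : σ a g₁ = g₁ := by
    apply hι
    rw [hσ]
    rw [Subgroup.mem_centralizer_singleton_iff] at ha
    rw [ha]
    group
  refine ⟨σ a (k * h), ?_⟩
  conv_rhs => rw [← hg]
  rw [← map_mul, ← map_inv, ← map_mul, hσ, map_mul ι, map_mul ι, map_mul ι, map_mul ι]
  simp only [map_mul, map_inv]
  group

theorem mem_sup_of_inL (ι : H →* X) {g₁ : H} {b : X}
    (h : InL ι g₁ (b⁻¹ * ι g₁ * b)) : b ∈ Subgroup.centralizer ({ι g₁} : Set X) ⊔ ι.range := by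
  obtain ⟨k, hk⟩ := h
  have hc : b * ι k ∈ Subgroup.centralizer ({ι g₁} : Set X) := by
    rw [Subgroup.mem_centralizer_singleton_iff]
    have h1 : ι g₁ * b = b * ι (k * g₁ * k⁻¹) := by
      rw [← hk]
      group
    simp only [map_mul, map_inv] at h1
    rw [mul_assoc b, ← mul_assoc (ι g₁) b, h1]
    group
  have : b = (b * ι k) * (ι k)⁻¹ := by group
  rw [this]
  exact Subgroup.mul_mem _ (Subgroup.mem_sup_left hc) (Subgroup.mem_sup_right (Subgroup.inv_mem _ ⟨k, rfl⟩))

/-- **Index lemma**: the `X`-class of a block element splits into a number of `H`-classes prime to `p`. -/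
theorem index_not_dvd (hM : IsPModular p M) (ι : H →* X) (hι : Function.Injective ι) (hn : ι.range.Normal)
    {σ : X → (H ≃* H)} (hσ : ∀ a c, ι (σ a c) = a * ι c * a⁻¹)
    {f : Set (IrrCharacter H)} (hf : IsPBlock M f) (hst : ∀ a, ∀ ξ ∈ f, irrComp (σ a) ξ ∈ f)
    {χ : IrrCharacter X} {ξ : IrrCharacter H}
    (hc : classInner (fun h => (χ : X → ℂ) (ι h)) (ξ : H → ℂ) ≠ 0) (hξ : ξ ∈ f) {g₁ : H}
    (hg : ¬ MemLocalIdeal M (centralChar (χ : X → ℂ) (ι g₁))) :
    ¬ p ∣ (Subgroup.centralizer ({ι g₁} : Set X) ⊔ ι.range).index := by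
  classical
  intro hdvd
  apply hg
  set W := Subgroup.centralizer ({ι g₁} : Set X) ⊔ ι.range with hW
  letI : Fintype (X ⧸ W) := Fintype.ofFinite _
  let Z : X → ℂ := fun x => if InL ι g₁ x then 1 else 0
  let z : X → ℂ := fun x => if IsConj x (ι g₁) then 1 else 0
  have hZinv : TInv W Z := by
    intro w hw x
    simp only [Z]
    have : InL ι g₁ (w * x * w⁻¹) ↔ InL ι g₁ x := by
      constructor
      · intro h
        have := inL_conj ι hn hι hσ (W.inv_mem hw) h
        have e : w⁻¹ * (w * x * w⁻¹) * w⁻¹⁻¹ = x := by group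
        rwa [e] at this
      · exact inL_conj ι hn hι hσ hw
    simp only [this]
  have hZinL : ∀ c : H, InL ι g₁ (ι c) ↔ IsConj c g₁ := by
    intro c
    constructor
    · rintro ⟨h, hh⟩
      have : c = h * g₁ * h⁻¹ := hι hh
      rw [this]
      exact (isConj_iff.2 ⟨h, rfl⟩).symm
    · intro hcj
      obtain ⟨h, rfl⟩ := isConj_iff.1 hcj.symm
      exact ⟨h, rfl⟩
  have hzW : z = relTrace W Z := by
    funext x
    by_cases hx : IsConj x (ι g₁)
    · simp only [z, if_pos hx]
      obtain ⟨a, ha⟩ := isConj_iff.1 hx.symm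
      have hterm : ∀ q : X ⧸ W, trm W Z x q = if q = (a : X ⧸ W) then 1 else 0 := by
        intro q
        rw [trm_out]
        by_cases hq : q = (a : X ⧸ W)
        · rw [if_pos hq]
          subst hq
          have h2 : a⁻¹ * Quotient.out (a : X ⧸ W) ∈ W := by
            apply QuotientGroup.eq.1
            rw [QuotientGroup.out_eq']
          simp only [Z]
          rw [if_pos]
          obtain ⟨c, hc, k, hk, hck⟩ := Subgroup.mem_sup_of_normal_right.1 h2
          obtain ⟨k₀, rfl⟩ := hk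
          rw [Subgroup.mem_centralizer_singleton_iff] at hc
          refine ⟨k₀⁻¹, ?_⟩
          have e : Quotient.out (a : X ⧸ W) = a * (c * ι k₀) := by
            rw [hck]
            group
          rw [e, ← ha]
          simp only [map_mul, map_inv, inv_inv]
          have e2 : (a * (c * ι k₀))⁻¹ * (a * ι g₁ * a⁻¹) * (a * (c * ι k₀)) = (ι k₀)⁻¹ * (c⁻¹ * ι g₁ * c) * ι k₀ := by group
          rw [e2]
          have e3 : c⁻¹ * ι g₁ * c = ι g₁ := by
            rw [mul_assoc, ← hc]
            group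
          rw [e3]
        · rw [if_neg hq]
          simp only [Z]
          rw [if_neg]
          intro hin
          apply hq
          have e1 : ((Quotient.out q : X) : X ⧸ W) = q := QuotientGroup.out_eq' q
          rw [← e1]
          apply Eq.symm
          apply QuotientGroup.eq.2
          apply mem_sup_of_inL
          rw [← ha] at hin
          have e2 : (a⁻¹ * Quotient.out q)⁻¹ * ι g₁ * (a⁻¹ * Quotient.out q) = (Quotient.out q)⁻¹ * (a * ι g₁ * a⁻¹) * Quotient.out q := by group
          rw [e2]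
          exact hin
      show (1 : ℂ) = ∑ q : X ⧸ W, trm W Z x q
      rw [Finset.sum_congr rfl fun q _ => hterm q, Finset.sum_ite_eq' Finset.univ (a : X ⧸ W)]
      simp
    · simp only [z, if_neg hx]
      symm
      refine Finset.sum_eq_zero fun q _ => ?_
      rw [trm_out]
      simp only [Z]
      rw [if_neg]
      rintro ⟨h, hh⟩
      apply hx
      have : x = (Quotient.out q * ι h) * ι g₁ * (Quotient.out q * ι h)⁻¹ := by
        simp only [map_mul, map_inv] at hh
        have h3 : x = Quotient.out q * ((Quotient.out q)⁻¹ * x * Quotient.out q) * (Quotient.out q)⁻¹ := by group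
        rw [h3, hh]
        group
      rw [this]
      exact (isConj_iff.2 ⟨_, rfl⟩).symm
  have hzc : IsClassFunction X z := Cfsg.Agent.Lib.CharInt.indicator_isClassFunction (ι g₁)
  have hzsupp : ∀ x, x ∉ ι.range → z x = 0 := by
    intro x hx
    simp only [z]
    rw [if_neg]
    intro hcj
    apply hx
    obtain ⟨a, ha⟩ := isConj_iff.1 hcj.symm
    rw [← ha]
    exact hn.conj_mem _ ⟨g₁, rfl⟩ a
  have h1 : centralChar (χ : X → ℂ) (ι g₁) = om (χ : X → ℂ) z := (om_indicator χ.2 (ι g₁)).symm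
  rw [h1, om_eq_of_constituent ι hι hn hc hzc hzsupp]
  have h2 : z ∘ ι = fun c : H => ∑ q : X ⧸ W, Z ((Quotient.out q)⁻¹ * ι c * Quotient.out q) := by
    funext c
    simp only [Function.comp_apply]
    rw [hzW]
    rfl
  rw [h2, om_sum']
  have hZι : ∀ q : X ⧸ W, Cong M (om (ξ : H → ℂ) (fun c => Z ((Quotient.out q)⁻¹ * ι c * Quotient.out q))) (centralChar (ξ : H → ℂ) g₁) := by
    intro q
    set x := Quotient.out q with hx
    have hσinv : ∀ c, σ x (σ x⁻¹ c) = c := by
      intro c
      apply hι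
      rw [hσ, hσ]
      group
    have hterm : (fun c => Z (x⁻¹ * ι c * x)) = fun c => (fun d : H => if IsConj d g₁ then (1 : ℂ) else 0) (σ x⁻¹ c) := by
      funext c
      simp only [Z]
      have e1 : x⁻¹ * ι c * x = ι (σ x⁻¹ c) := by
        rw [hσ]
        group
      rw [e1]
      simp only [hZinL]
    rw [hterm]
    have h3 := om_comp (σ x⁻¹) (irrComp (σ x) ξ : H → ℂ) (fun d : H => if IsConj d g₁ then (1 : ℂ) else 0)
    have h4 : (fun a => (irrComp (σ x) ξ : H → ℂ) (σ x⁻¹ a)) = (ξ : H → ℂ) := by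
      funext a
      rw [irrComp_apply, hσinv]
    rw [h4] at h3
    rw [h3, om_indicator (irrComp (σ x) ξ).2 g₁]
    exact sameBlock_of_mem_block hf (hst x ξ hξ) hξ g₁
  have h3 := Cong.sum (M := M) Finset.univ _ _ (fun q _ => hZι q)
  refine mem_of_cong_of_mem h3 ?_
  rw [Finset.sum_const, Finset.card_univ, nsmul_eq_mul]
  refine MemLocalIdeal_mul_right (memLocalIdeal_natCast_of_dvd hM ?_) (centralChar_local ξ.2 _)
  rw [← Nat.card_eq_fintype_card]
  exact hdvd

end Index

section IndexGroup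

variable {X : Type u} [Group X] [Finite X]

/-- Sylow reduction modulo a normal subgroup. -/
theorem sylow_sup_index {p : ℕ} [Fact p.Prime] {K : Subgroup X} [hK : K.Normal] {C : Subgroup X}
    (S : Sylow p C) (h : ¬ p ∣ (C ⊔ K).index) :
    ¬ p ∣ ((S : Subgroup C).map C.subtype ⊔ K).index := by
  set D := (S : Subgroup C).map C.subtype with hD
  have hDC : D ≤ C := by
    rintro _ ⟨d, -, rfl⟩
    exact d.2
  have hle : D ⊔ K ≤ C ⊔ K := sup_le_sup_right hDC K
  rw [← Subgroup.relIndex_mul_index hle]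
  intro hdvd
  rcases (Fact.out : p.Prime).dvd_mul.1 hdvd with h1 | h1
  · -- pass to the quotient
    let π : X →* X ⧸ K := QuotientGroup.mk' K
    have hker : π.ker = K := QuotientGroup.ker_mk' K
    have h2 := Subgroup.relIndex_map_map π D C
    rw [hker] at h2
    rw [← h2] at h1
    -- the map from `C`
    let f : C →* C.map π := (π.comp C.subtype).codRestrict (C.map π) (fun c => ⟨c, c.2, rfl⟩)
    have hf : Function.Surjective f := by
      rintro ⟨_, c, hc, rfl⟩
      exact ⟨⟨c, hc⟩, rfl⟩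
    have h3 : ((S : Subgroup C).map f).index ∣ (S : Subgroup C).index := Subgroup.index_map_dvd _ hf
    have h4 : (D.map π).relIndex (C.map π) = ((S : Subgroup C).map f).index := by
      rw [Subgroup.relIndex]
      congr 1
      ext ⟨y, hy⟩
      simp only [Subgroup.mem_subgroupOf, Subgroup.mem_map]
      constructor
      · rintro ⟨_, ⟨d, hd, rfl⟩, hy'⟩
        exact ⟨d, hd, Subtype.ext hy'⟩
      · rintro ⟨d, hd, hdy⟩
        exact ⟨_, ⟨d, hd, rfl⟩, congrArg Subtype.val hdy⟩
    rw [h4] at h1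
    exact S.not_dvd_index (h1.trans h3)
  · exact h h1

end IndexGroup

section Auto

variable {G : Type u} [Group G] [Fintype G] {p : ℕ} {M : Ideal AlgInt} [hprime : M.IsPrime]
variable {B : Set (IrrCharacter G)} {P : Subgroup G} {e : Set (IrrCharacter (Subgroup.centralizer (P : Set G)))}
  {F : FusionSystem P}

/-- A Sylow subgroup from a relative index. -/
theorem exists_sylow_of {Γ : Type*} [Group Γ] {A D : Subgroup Γ} [Finite A] [Fact p.Prime] (hp : IsPGroup p D)
    (hi : ¬ p ∣ D.relIndex A) : ∃ R : Sylow p A, (R : Subgroup A) = D.subgroupOf A := by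
  have hp' : IsPGroup p (D.subgroupOf A) := hp.comap_of_injective _ Subtype.val_injective
  exact ⟨hp'.toSylow hi, IsPGroup.toSylow_coe hp' hi⟩

/-- A conjugate of a pair below the maximal one on the same subgroup: the element stabilizes. -/
theorem stab_of_conj_le (hM : IsPModular p M) (hPe : IsBrauerPair p M P e) {Q : Subgroup G}
    {f : Set (IrrCharacter (Subgroup.centralizer (Q : Set G)))} (hle : SubpairLE p M Q f P e) {g : G}
    (hg : g ∈ Subgroup.normalizer (Q : Set G))
    (hle' : SubpairLE p M (Q.map (MulAut.conj g).toMonoidHom) (conjBlock Q g f) P e) :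
    StabilizesBlock (Subgroup.centralizer (Q : Set G)) f g := by
  classical
  letI : Fintype (Subgroup.centralizer (Q : Set G)) := Fintype.ofFinite _
  let f₂ : Set (IrrCharacter (Subgroup.centralizer (Q : Set G))) :=
    {ξ' | ∃ ξ ∈ f, ∀ (c : Subgroup.centralizer (Q : Set G)) (c' : Subgroup.centralizer (Q : Set G)),
      (c' : G) = g * c * g⁻¹ → (ξ' : Subgroup.centralizer (Q : Set G) → ℂ) c' = (ξ : Subgroup.centralizer (Q : Set G) → ℂ) c}
  have e1 := idx_eq_conj f f₂ g (fun a => Subgroup.mem_normalizer_iff.1 hg a) (fun _ => Iff.rfl)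
  have h1 : SubpairLE p M Q f₂ P e := subpairLE_of_idx_eq hle' e1.symm rfl
  have e2 : f₂ = f := subpair_unique hM hPe Q _ _ h1 hle
  refine ⟨cent_le_norm_cent Q hg, fun χ hχ => ⟨irrComp (conjEquiv _ g (cent_le_norm_cent Q hg)).symm χ, ?_, ?_⟩⟩
  · rw [← e2]
    exact ⟨χ, hχ, (isConjCharOf_iff _ _ χ _).2 rfl⟩
  · exact (isConjCharOf_iff _ _ χ _).2 rfl

/-- The defect group of the stabilizer block covers a Sylow subgroup modulo the centralizer. -/
theorem defect_sup_index (hM : IsPModular p M) {Q : Subgroup G}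
    {f : Set (IrrCharacter (Subgroup.centralizer (Q : Set G)))} (hQf : IsBrauerPair p M Q f)
    {T : Subgroup G} (hT : IsStab Q f T) [Fintype T] [Fintype (Subgroup.centralizer (Q : Set G))]
    {D : Subgroup T} (hD : IsDefectGroup p M (overSet (Subgroup.inclusion hT.cent_le) f) D) :
    ¬ p ∣ (D ⊔ (Subgroup.inclusion hT.cent_le).range).index := by
  classical
  haveI : Fact p.Prime := ⟨hM.1⟩
  obtain ⟨hQ, hf⟩ := hQf
  haveI := hT.normal
  obtain ⟨hF, hF2⟩ := stab_block hM hQ hf hT
  let ι := Subgroup.inclusion hT.cent_le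
  have hι : Function.Injective ι := Subgroup.inclusion_injective _
  have hn : ι.range.Normal := range_normal_of_centralizer (Q.subgroupOf T) ι hT.range_iff
  obtain ⟨g, hg, S, rfl⟩ := hD
  have hgC : (g : G) ∈ Subgroup.centralizer (Q : Set G) := by
    by_contra hn'
    apply hg.2.1
    rw [hF2, subgroupBlockCoeff_not_mem _ _ hn']
    exact memLocalIdeal_zero
  let g₁ : Subgroup.centralizer (Q : Set G) := ⟨g, hgC⟩
  have hg₁ : ι g₁ = g := rfl
  obtain ⟨ξ₀, rfl⟩ := id hf
  have hξ₀ := mem_block_self (M := M) ξ₀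
  obtain ⟨χ₀, hχ₀⟩ := exists_irr_over ι hι ξ₀
  have hχ₀m : χ₀ ∈ overSet ι (blockOf M (ξ₀ : Subgroup.centralizer (Q : Set G) → ℂ)) := ⟨ξ₀, hξ₀, hχ₀⟩
  have hchar := hg.2.2 χ₀ hχ₀m
  let σ : T → (Subgroup.centralizer (Q : Set G) ≃* Subgroup.centralizer (Q : Set G)) :=
    fun a => conjEquiv _ a (cent_le_norm_cent Q (hT.le_norm a.2))
  have hσ : ∀ a c, ι (σ a c) = a * ι c * a⁻¹ := fun a c => Subtype.ext rfl
  have hst : ∀ a : T, ∀ ξ ∈ blockOf M (ξ₀ : Subgroup.centralizer (Q : Set G) → ℂ), irrComp (σ a) ξ ∈ blockOf M (ξ₀ : Subgroup.centralizer (Q : Set G) → ℂ) :=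
    fun a ξ hξ => (conj_mem_iff hf hT hξ (hT.le_norm a.2) _).2 a.2
  have h1 := index_not_dvd hM ι hι hn hσ hf hst hχ₀ hξ₀ (g₁ := g₁) hchar
  haveI hn' : ι.range.Normal := hn
  exact sylow_sup_index S h1

/-- **The Sylow axiom.** -/
theorem fullyAutomized (hM : IsPModular p M) (hF : IsBlockFusionSystemOn p M B P e F) {Q : Subgroup G}
    {f : Set (IrrCharacter (Subgroup.centralizer (Q : Set G)))} (hf : IsPBlock M f)
    (hle : SubpairLE p M Q f P e) {T : Subgroup G} (hT : IsStab Q f T) [Fintype T]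
    [Fintype (Subgroup.centralizer (Q : Set G))]
    (hD : IsDefectGroup p M (overSet (Subgroup.inclusion hT.cent_le) f) ((P ⊓ Subgroup.normalizer (Q : Set G)).subgroupOf T)) :
    F.IsFullyAutomized p Q := by
  classical
  haveI : Fact p.Prime := ⟨hM.1⟩
  have hPe := hF.1.1.1
  have hQP : Q ≤ P := SubpairLE.le hle
  have hQf : IsBrauerPair p M Q f := ⟨hPe.1.to_le hQP, hf⟩
  let c : T →* MulAut Q := conjOn Q T hT.le_norm
  have hcapp : ∀ (t : T) (u : Q), ((c t u : Q) : G) = t * u * (t : G)⁻¹ := fun t u => rfl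
  have hA : F.autGroup Q = c.range := by
    apply le_antisymm
    · refine (Subgroup.closure_le _).2 ?_
      intro α hα
      obtain ⟨-, g, hg, -, f'', h1, h2⟩ := (hF.2 Q _).1 hα
      have e1 := subpair_unique hM hPe Q f'' f h1 hle
      subst e1
      have hgv : ∀ u : Q, ((α u : Q) : G) = g * u * g⁻¹ := fun u => hg u
      have hgN : g ∈ Subgroup.normalizer (Q : Set G) := by
        rw [Subgroup.mem_normalizer_iff]
        intro a
        constructor
        · intro ha
          have h0 : g * a * g⁻¹ = ((α ⟨a, ha⟩ : Q) : G) := (hgv ⟨a, ha⟩).symm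
          rw [h0]
          exact (α ⟨a, ha⟩).2
        · intro ha
          obtain ⟨u, hu⟩ := α.surjective ⟨_, ha⟩
          have h3 := hgv u
          rw [hu] at h3
          have h4 : g * a * g⁻¹ = g * (u : G) * g⁻¹ := h3
          have h5 : a = u := mul_left_cancel (mul_right_cancel h4)
          rw [h5]
          exact u.2
      have hgT : g ∈ T := (hT g).2 ⟨hgN, stab_of_conj_le hM hPe hle hgN h2⟩
      refine ⟨⟨g, hgT⟩, ?_⟩
      ext u
      rw [hcapp]
      exact (hgv u).symm
    · rintro _ ⟨t, rfl⟩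
      apply Subgroup.subset_closure
      show Q.subtype.comp (c t).toMonoidHom ∈ F.Hom Q
      refine (hF.2 Q _).2 ⟨hQP, t, fun u => hcapp t u, ?_, f, hle, ?_⟩
      · have e1 := conj_of_stab hf (hT.le_norm t.2) (hT.stab t.2)
        rintro _ ⟨u, hu, rfl⟩
        apply hQP
        exact (Subgroup.mem_normalizer_iff.1 (hT.le_norm t.2) u).1 hu
      · exact subpairLE_of_idx_eq hle (conj_of_stab hf (hT.le_norm t.2) (hT.stab t.2)).symm rfl
  let L₀ : Subgroup T := (P ⊓ Subgroup.normalizer (Q : Set G)).subgroupOf T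
  have hB : autInducedBy P Q = L₀.map c := by
    apply le_antisymm
    · refine (Subgroup.closure_le _).2 ?_
      rintro α ⟨g, hgP, hgv⟩
      have hgN : g ∈ Subgroup.normalizer (Q : Set G) := by
        rw [Subgroup.mem_normalizer_iff]
        intro a
        constructor
        · intro ha
          have h0 : g * a * g⁻¹ = ((α ⟨a, ha⟩ : Q) : G) := (hgv ⟨a, ha⟩).symm
          rw [h0]
          exact (α ⟨a, ha⟩).2
        · intro ha
          obtain ⟨u, hu⟩ := α.surjective ⟨_, ha⟩
          have h3 := hgv u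
          rw [hu] at h3
          have h4 : g * a * g⁻¹ = g * (u : G) * g⁻¹ := h3
          have h5 : a = u := mul_left_cancel (mul_right_cancel h4)
          rw [h5]
          exact u.2
      have hgT : g ∈ T := by
        obtain ⟨g', -, hn⟩ := exists_intermediate hM hPe hle (le_inf hQP Subgroup.le_normalizer) inf_le_left inf_le_right
        exact (hT g).2 ⟨hgN, hn.2.2.2.2.1 g ⟨hgP, hgN⟩⟩
      refine ⟨⟨g, hgT⟩, Subgroup.mem_subgroupOf.2 ⟨hgP, hgN⟩, ?_⟩
      ext u
      rw [hcapp]
      exact (hgv u).symm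
    · rintro _ ⟨t, ht, rfl⟩
      apply Subgroup.subset_closure
      exact ⟨t, (Subgroup.mem_subgroupOf.1 ht).1, fun u => hcapp t u⟩
  have hker : c.ker = (Subgroup.inclusion hT.cent_le).range := by
    ext t
    rw [MonoidHom.mem_ker]
    constructor
    · intro h
      refine ⟨⟨t, ?_⟩, rfl⟩
      rw [Subgroup.mem_centralizer_iff]
      intro u hu
      have h1 := hcapp t ⟨u, hu⟩
      rw [h] at h1
      have h2 : u = t * u * (t : G)⁻¹ := h1
      have : (t : G) * u = u * t := by
        conv_rhs => rw [h2]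
        group
      exact this.symm
    · rintro ⟨x, rfl⟩
      ext u
      rw [hcapp]
      have := Subgroup.mem_centralizer_iff.1 x.2 u u.2
      show ((x : G)) * u * (x : G)⁻¹ = u
      rw [← this]
      group
  have hi : ¬ p ∣ (L₀.map c).relIndex c.range := by
    rw [MonoidHom.range_eq_map, Subgroup.relIndex_map_map, top_sup_eq, Subgroup.relIndex_top_right, hker]
    exact defect_sup_index hM hQf hT hD
  have hLp : IsPGroup p L₀ := (hPe.1.to_le (inf_le_left : P ⊓ Subgroup.normalizer (Q : Set G) ≤ P)).comap_of_injective _ Subtype.val_injective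
  refine ⟨hQP, ?_⟩
  rw [hA, hB]
  haveI : Finite c.range := inferInstance
  exact exists_sylow_of (hLp.map c) hi

end Auto

end Cfsg.Agent.Lib.BlockSat
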