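import Cfsg.Agent.Lib.BlockPair
import Cfsg.Agent.Lib.PNilpB

/-!
# Actions on blocks, normal inclusion of Brauer pairs
-/

set_option autoImplicit false
set_option linter.all false

namespace Cfsg.Agent.Lib.BlockSub

open Cfsg Cfsg.Agent.Lib.BlockLocal Cfsg.Agent.Lib.BlockOsima Cfsg.Agent.Lib.BlockBr
  Cfsg.Agent.Lib.BlockApps Cfsg.Agent.Lib.CharIrr Cfsg.Agent.Lib.BlockPair
open scoped ComplexConjugate

universe u

section Block

variable {X Y : Type u} [Group X] [Fintype X] [Group Y] [Fintype Y] {M : Ideal AlgInt}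

theorem image_blockOf (σ : X ≃* Y) (χ : IrrCharacter Y) :
    irrComp σ '' blockOf M (χ : Y → ℂ) = blockOf M (irrComp σ χ : X → ℂ) := by
  ext ψ
  constructor
  · rintro ⟨ψ', hψ', rfl⟩
    exact sameBlock_comp σ hψ'
  · intro hψ
    obtain ⟨ψ', rfl⟩ := (irrComp_bijective σ).2 ψ
    exact ⟨ψ', (sameBlock_comp_iff σ).1 hψ, rfl⟩

theorem isPBlock_image (σ : X ≃* Y) {f : Set (IrrCharacter Y)} (hf : IsPBlock M f) :
    IsPBlock M (irrComp σ '' f) := by
  obtain ⟨χ, rfl⟩ := hf
  exact ⟨irrComp σ χ, image_blockOf σ χ⟩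

/-- The type of blocks. -/
def Blk (M : Ideal AlgInt) (X : Type u) [Group X] : Type u := {B : Set (IrrCharacter X) // IsPBlock M B}

noncomputable instance Blk.instFintype : Fintype (Blk M X) := by
  classical
  haveI : Finite (Blk M X) := Subtype.finite
  exact Fintype.ofFinite _

variable [hprime : M.IsPrime]

theorem mem_blockOf_iff {B : Set (IrrCharacter X)} (hB : IsPBlock M B) {χ : IrrCharacter X} (hχ : χ ∈ B)
    (ψ : IrrCharacter X) : ψ ∈ B ↔ SameBlock M (χ : X → ℂ) (ψ : X → ℂ) := by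
  rw [blockOf_eq_of_mem hB hχ]
  rfl

theorem block_eq_of_mem {B B' : Set (IrrCharacter X)} (hB : IsPBlock M B) (hB' : IsPBlock M B')
    {χ : IrrCharacter X} (h : χ ∈ B) (h' : χ ∈ B') : B = B' := by
  rw [blockOf_eq_of_mem hB h, ← blockOf_eq_of_mem hB' h']

/-- The block idempotents sum to one. -/
theorem sum_blk : ∑ f : Blk M X, blockCoeff f.1 = delta' X := by
  classical
  have hc : IsClassFunction X (∑ f : Blk M X, blockCoeff f.1) := by
    intro g h
    simp only [Finset.sum_apply]
    exact Finset.sum_congr rfl fun f _ => blockCoeff_isClass f.1 g h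
  refine class_eq_of_om hc (delta'_isLC (M := M)).1 fun χ => ?_
  rw [om_delta' χ.2]
  have hom : ∀ (s : Finset (Blk M X)), om (χ : X → ℂ) (∑ f ∈ s, blockCoeff f.1) = ∑ f ∈ s, om (χ : X → ℂ) (blockCoeff f.1) := by
    intro s
    induction s using Finset.induction_on with
    | empty =>
      simp [om]
    | insert a s ha ih =>
      rw [Finset.sum_insert ha, Finset.sum_insert ha, om_add, ih]
  rw [hom]
  simp only [om_blockCoeff]
  let f₀ : Blk M X := ⟨blockOf M (χ : X → ℂ), χ, rfl⟩
  rw [Finset.sum_eq_single f₀]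
  · rw [if_pos (mem_block_self (M := M) χ)]
  · intro f _ hf
    rw [if_neg]
    intro hχ
    apply hf
    apply Subtype.ext
    exact block_eq_of_mem f.2 f₀.2 hχ (mem_block_self (M := M) χ)
  · intro h
    exact absurd (Finset.mem_univ _) h

/-- A `p`-group sum over blocks. -/
theorem blockCoeff_isLC {f : Set (IrrCharacter X)} (hf : IsPBlock M f) : IsLC M (blockCoeff f) :=
  ⟨blockCoeff_isClass f, blockCoeff_local f (block_closed hf)⟩

theorem om_blockCoeff_self {f : Set (IrrCharacter X)} {χ : IrrCharacter X} (h : χ ∈ f) :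
    om (χ : X → ℂ) (blockCoeff f) = 1 := by
  classical
  rw [om_blockCoeff, if_pos h]

theorem om_blockCoeff_not {f : Set (IrrCharacter X)} {χ : IrrCharacter X} (h : χ ∉ f) :
    om (χ : X → ℂ) (blockCoeff f) = 0 := by
  classical
  rw [om_blockCoeff, if_neg h]

/-- Convolution of two distinct block idempotents vanishes. -/
theorem conv_blockCoeff_of_ne {f f' : Set (IrrCharacter X)} (hf : IsPBlock M f) (hf' : IsPBlock M f')
    (hne : f ≠ f') : conv (blockCoeff f) (blockCoeff f') = 0 := by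
  classical
  refine class_eq_of_om (conv_isClass (blockCoeff_isClass f) (blockCoeff_isClass f')) (fun _ _ => rfl) fun χ => ?_
  rw [om_conv χ.2 (blockCoeff_isClass f)]
  have h0 : om (χ : X → ℂ) (0 : X → ℂ) = 0 := by simp [om]
  rw [h0]
  by_cases h : χ ∈ f
  · have h' : χ ∉ f' := fun h' => hne (block_eq_of_mem hf hf' h h')
    rw [om_blockCoeff_not h', mul_zero]
  · rw [om_blockCoeff_not h, zero_mul]

end Block

section Act

variable {X : Type u} [Group X] [Fintype X] {A : Type*} [Group A] {M : Ideal AlgInt}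

/-- The action on characters. -/
noncomputable def actIrr (φ : A →* MulAut X) (a : A) (χ : IrrCharacter X) : IrrCharacter X :=
  irrComp (φ a⁻¹) χ

theorem actIrr_apply (φ : A →* MulAut X) (a : A) (χ : IrrCharacter X) (x : X) :
    (actIrr φ a χ : X → ℂ) x = (χ : X → ℂ) (φ a⁻¹ x) := rfl

theorem actIrr_one (φ : A →* MulAut X) (χ : IrrCharacter X) : actIrr φ 1 χ = χ := by
  apply Subtype.ext
  funext x
  simp [actIrr_apply]

theorem actIrr_mul (φ : A →* MulAut X) (a b : A) (χ : IrrCharacter X) :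
    actIrr φ (a * b) χ = actIrr φ a (actIrr φ b χ) := by
  apply Subtype.ext
  funext x
  simp [actIrr_apply, mul_inv_rev]

/-- The action on blocks. -/
noncomputable def actBlk (φ : A →* MulAut X) (a : A) (f : Blk M X) : Blk M X :=
  ⟨actIrr φ a '' f.1, isPBlock_image (φ a⁻¹) f.2⟩

theorem actBlk_coe (φ : A →* MulAut X) (a : A) (f : Blk M X) :
    (actBlk φ a f).1 = actIrr φ a '' f.1 := rfl

/-- The action on blocks as an instance-free `MulAction`. -/
noncomputable def blkAction (φ : A →* MulAut X) : MulAction A (Blk M X) where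
  smul a f := actBlk φ a f
  one_smul f := by
    apply Subtype.ext
    show actIrr φ 1 '' f.1 = f.1
    ext χ
    constructor
    · rintro ⟨ψ, hψ, rfl⟩
      rwa [actIrr_one]
    · intro h
      exact ⟨χ, h, actIrr_one φ χ⟩
  mul_smul a b f := by
    apply Subtype.ext
    show actIrr φ (a * b) '' f.1 = actIrr φ a '' (actIrr φ b '' f.1)
    ext χ
    constructor
    · rintro ⟨ψ, hψ, rfl⟩
      exact ⟨_, ⟨ψ, hψ, rfl⟩, (actIrr_mul φ a b ψ).symm⟩
    · rintro ⟨_, ⟨ψ, hψ, rfl⟩, rfl⟩
      exact ⟨ψ, hψ, actIrr_mul φ a b ψ⟩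

theorem blockCoeff_act (φ : A →* MulAut X) (a : A) (f : Set (IrrCharacter X)) (x : X) :
    blockCoeff (actIrr φ a '' f) x = blockCoeff f (φ a⁻¹ x) :=
  blockCoeff_comp (φ a⁻¹) f x

end Act


section Unique

variable {K H : Type u} [Group K] [Fintype K] [Group H] [Fintype H] {A : Type*} [Group A] [Finite A]
  {p : ℕ} {M : Ideal AlgInt} [hprime : M.IsPrime]

theorem omI_sum (ι : H →* K) (ξ : H → ℂ) {J : Type*} (s : Finset J) (z : J → K → ℂ) :
    omI ι ξ (∑ j ∈ s, z j) = ∑ j ∈ s, omI ι ξ (z j) := by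
  classical
  induction s using Finset.induction_on with
  | empty =>
    have := omI_smul ι ξ 0 (0 : K → ℂ)
    simpa using this
  | insert a s ha ih =>
    rw [Finset.sum_insert ha, Finset.sum_insert ha, omI_add, ih]

theorem blockCoeff_fixed (φ : A →* MulAut K) {f : Blk M K} (hf : ∀ a, actBlk φ a f = f) (a : A) (x : K) :
    blockCoeff f.1 (φ a x) = blockCoeff f.1 x := by
  have h1 := blockCoeff_act φ a⁻¹ f.1 x
  rw [← actBlk_coe, hf a⁻¹, inv_inv] at h1
  exact h1.symm

theorem omI_act (φ : A →* MulAut K) (ι : H →* K) (hfix : ∀ r a, φ a (ι r) = ι r)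
    (ξ : H → ℂ) (a : A) (f : Blk M K) :
    omI ι ξ (blockCoeff (actBlk φ a f).1) = omI ι ξ (blockCoeff f.1) := by
  rw [omI, omI]
  congr 1
  funext r
  simp only [Function.comp_apply]
  rw [actBlk_coe, blockCoeff_act, hfix]

/-- Multiplicativity on `A`-invariant elements when the image of `ι` is exactly the fixed points. -/
theorem omI_mul_fixed (hM : IsPModular p M) (hA : IsPGroup p A) (φ : A →* MulAut K) (ι : H →* K)
    (hι : Function.Injective ι) (hr : ∀ x, x ∈ ι.range ↔ ∀ a, φ a x = x) {ξ : H → ℂ} (hξ : IsIrrCharacter H ξ)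
    {z w : K → ℂ} (hz : IsLC M z) (hw : IsLC M w) (hzi : ∀ a x, z (φ a x) = z x) (hwi : ∀ a x, w (φ a x) = w x) :
    Cong M (omI ι ξ (conv z w)) (omI ι ξ z * omI ι ξ w) := by
  refine omI_mul hM ι hι hA φ (fun x hx => (hr x).2 hx) ?_ hξ ?_ hz hw hzi hwi
  · intro a x hx
    rw [(hr x).1 hx a]
    exact hx
  · rintro r ⟨a, ha⟩
    exact absurd ((hr _).1 ⟨r, rfl⟩ a) ha

theorem omI_fixed_idem (hM : IsPModular p M) (hA : IsPGroup p A) (φ : A →* MulAut K) (ι : H →* K)
    (hι : Function.Injective ι) (hr : ∀ x, x ∈ ι.range ↔ ∀ a, φ a x = x) {ξ : H → ℂ} (hξ : IsIrrCharacter H ξ)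
    {f : Blk M K} (hf : ∀ a, actBlk φ a f = f) :
    MemLocalIdeal M (omI ι ξ (blockCoeff f.1)) ∨ Cong M (omI ι ξ (blockCoeff f.1)) 1 := by
  have hLC := blockCoeff_isLC f.2
  refine one_sub_coord_of_idem (omI_local ι hξ hLC) ?_
  have h1 := omI_mul_fixed hM hA φ ι hι hr hξ hLC hLC (blockCoeff_fixed φ hf) (blockCoeff_fixed φ hf)
  rw [conv_blockCoeff] at h1
  exact Cong.symm h1

/-- The unique stable block above a character of the fixed points. -/
theorem existsUnique_stable (hM : IsPModular p M) (hA : IsPGroup p A) (φ : A →* MulAut K) (ι : H →* K)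
    (hι : Function.Injective ι) (hr : ∀ x, x ∈ ι.range ↔ ∀ a, φ a x = x) {ξ : H → ℂ} (hξ : IsIrrCharacter H ξ) :
    ∃! f : Blk M K, (∀ a, actBlk φ a f = f) ∧ Cong M (omI ι ξ (blockCoeff f.1)) 1 := by
  classical
  letI : MulAction A (Blk M K) := blkAction φ
  have hsmul : ∀ (a : A) (f : Blk M K), a • f = actBlk φ a f := fun _ _ => rfl
  have hfixr : ∀ r a, φ a (ι r) = ι r := fun r a => (hr _).1 ⟨r, rfl⟩ a
  let F : Blk M K → ℂ := fun f => omI ι ξ (blockCoeff f.1)
  have hF : ∀ a f, F (a • f) = F f := fun a f => omI_act φ ι hfixr ξ a f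
  have hFl : ∀ f, MemLocalRing M (F f) := fun f => omI_local ι hξ (blockCoeff_isLC f.2)
  have hsum : ∑ f, F f = 1 := by
    have h1 := omI_sum ι ξ Finset.univ (fun f : Blk M K => blockCoeff f.1)
    rw [sum_blk, omI_delta ι hι hξ] at h1
    exact h1.symm
  let W : Blk M K → ℂ := fun f => if ∀ a : A, a • f = f then 0 else F f
  have hW : MemLocalIdeal M (∑ f, W f) := by
    refine sum_mem_of_action hM hA W ?_ ?_ ?_
    · intro b f
      have hiff : (∀ a : A, a • (b • f) = b • f) ↔ ∀ a : A, a • f = f := by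
        constructor
        · intro h a
          have h1 : b • f = f := by
            have := h b⁻¹
            rw [smul_smul, inv_mul_cancel, one_smul] at this
            exact this.symm
          rw [h1] at h
          exact h a
        · intro h a
          rw [h b, h a]
      simp only [W, hiff, hF]
    · intro f
      simp only [W]
      split_ifs
      · exact memLocalRing_zero
      · exact hFl f
    · intro f hf
      simp only [W, if_pos hf]
  have hsplit : ∑ f, F f = ∑ f, (if ∀ a : A, a • f = f then F f else 0) + ∑ f, W f := by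
    rw [← Finset.sum_add_distrib]
    refine Finset.sum_congr rfl fun f _ => ?_
    simp only [W]
    split_ifs <;> simp
  have hex : ∃ f : Blk M K, (∀ a : A, a • f = f) ∧ ¬ MemLocalIdeal M (F f) := by
    by_contra hcon
    push_neg at hcon
    apply one_not_memLocalIdeal (M := M)
    rw [← hsum, hsplit]
    refine MemLocalIdeal_add (MemLocalIdeal_sum _ _ fun f _ => ?_) hW
    split_ifs with h
    · exact hcon f h
    · exact memLocalIdeal_zero
  obtain ⟨f, hf, hfF⟩ := hex
  have hf' : ∀ a, actBlk φ a f = f := hf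
  have h1 := (omI_fixed_idem hM hA φ ι hι hr hξ hf').resolve_left hfF
  refine ⟨f, ⟨hf', h1⟩, ?_⟩
  rintro f' ⟨hf'', h2⟩
  by_contra hne
  have hLC := blockCoeff_isLC f.2
  have hLC' := blockCoeff_isLC f'.2
  have h3 := omI_mul_fixed hM hA φ ι hι hr hξ hLC' hLC (blockCoeff_fixed φ hf'') (blockCoeff_fixed φ hf')
  have hne' : f'.1 ≠ f.1 := fun h => hne (Subtype.ext h)
  rw [conv_blockCoeff_of_ne f'.2 f.2 hne'] at h3
  have h4 : omI ι ξ (0 : K → ℂ) = 0 := by
    have := omI_smul ι ξ 0 (0 : K → ℂ)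
    simpa using this
  rw [h4] at h3
  have h5 : Cong M (omI ι ξ (blockCoeff f'.1) * omI ι ξ (blockCoeff f.1)) (1 * 1) :=
    Cong.mul (omI_local ι hξ hLC') memLocalRing_one h2 h1
  rw [one_mul] at h5
  have h6 := Cong.trans h3 h5
  exact one_not_memLocalIdeal (M := M) (by
    have := Cong.symm h6
    exact cong_zero_iff.mp this)

end Unique

section Conj

variable {G : Type u} [Group G]

/-- Conjugation by an element of the normalizer as an automorphism of the subgroup. -/
def conjEquiv (K : Subgroup G) (y : G) (hy : y ∈ Subgroup.normalizer (K : Set G)) : K ≃* K where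
  toFun k := ⟨y * k * y⁻¹, (Subgroup.mem_normalizer_iff.1 hy k).1 k.2⟩
  invFun k := ⟨y⁻¹ * k * y, by
    have h := (Subgroup.mem_normalizer_iff.1 hy (y⁻¹ * k * y)).2
    apply h
    have : y * (y⁻¹ * (k : G) * y) * y⁻¹ = k := by group
    rw [this]
    exact k.2⟩
  left_inv k := by
    apply Subtype.ext
    simp only
    group
  right_inv k := by
    apply Subtype.ext
    simp only
    group
  map_mul' a b := by
    apply Subtype.ext
    simp only [Subgroup.coe_mul]
    group

@[simp] theorem conjEquiv_apply (K : Subgroup G) (y : G) (hy) (k : K) :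
    ((conjEquiv K y hy k : K) : G) = y * k * y⁻¹ := rfl

@[simp] theorem conjEquiv_symm_apply (K : Subgroup G) (y : G) (hy) (k : K) :
    (((conjEquiv K y hy).symm k : K) : G) = y⁻¹ * k * y := rfl

/-- The conjugation action of a subgroup normalizing `K`. -/
def conjOn (K D : Subgroup G) (h : D ≤ Subgroup.normalizer (K : Set G)) : D →* MulAut K where
  toFun d := conjEquiv K d (h d.2)
  map_one' := by
    ext k
    simp [MulAut.one_apply]
  map_mul' a b := by
    ext k
    simp only [MulAut.mul_apply, Subgroup.coe_mul, conjEquiv_apply]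
    group

@[simp] theorem conjOn_apply (K D : Subgroup G) (h : D ≤ Subgroup.normalizer (K : Set G)) (d : D) (k : K) :
    ((conjOn K D h d k : K) : G) = d * k * (d : G)⁻¹ := rfl

end Conj

section Stab

variable {G : Type u} [Group G] [Fintype G] {M : Ideal AlgInt} [hprime : M.IsPrime]

theorem isConjCharOf_iff (K : Subgroup G) [Fintype K] {y : G} (hy : y ∈ Subgroup.normalizer (K : Set G))
    (χ χ' : IrrCharacter K) :
    IsConjCharOf K y (χ : K → ℂ) (χ' : K → ℂ) ↔ χ' = irrComp (conjEquiv K y hy).symm χ := by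
  constructor
  · intro h
    apply Subtype.ext
    funext k
    rw [irrComp_apply]
    apply h
    rw [conjEquiv_symm_apply]
    group
  · rintro rfl k k' hk
    rw [irrComp_apply]
    have e : (conjEquiv K y hy).symm k' = k := by
      apply Subtype.ext
      rw [conjEquiv_symm_apply, hk]
      group
    rw [e]

/-- Stabilizing a block in terms of images. -/
theorem stabilizes_iff (K : Subgroup G) [Fintype K] {y : G} (hy : y ∈ Subgroup.normalizer (K : Set G))
    {f : Set (IrrCharacter K)} (hf : IsPBlock M f) :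
    StabilizesBlock K f y ↔ irrComp (conjEquiv K y hy).symm '' f = f := by
  constructor
  · rintro ⟨-, h⟩
    obtain ⟨χ, rfl⟩ := id hf
    have hχ := mem_block_self (M := M) χ
    obtain ⟨χ', hχ', hc⟩ := h χ hχ
    have e := (isConjCharOf_iff K hy χ χ').1 hc
    refine block_eq_of_mem (isPBlock_image _ hf) hf (χ := χ') ⟨χ, hχ, e.symm⟩ hχ'
  · intro h
    refine ⟨hy, fun χ hχ => ⟨irrComp (conjEquiv K y hy).symm χ, ?_, (isConjCharOf_iff K hy χ _).2 rfl⟩⟩
    rw [← h]
    exact ⟨χ, hχ, rfl⟩

theorem conjOn_inv_eq (K D : Subgroup G) (h : D ≤ Subgroup.normalizer (K : Set G)) (a : D) :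
    (conjOn K D h a⁻¹ : K ≃* K) = (conjEquiv K a (h a.2)).symm := by
  ext k
  rw [conjOn_apply, conjEquiv_symm_apply]
  simp

/-- Stability under all elements of a subgroup in terms of the action. -/
theorem stable_iff_fixed (K D : Subgroup G) [Fintype K] (h : D ≤ Subgroup.normalizer (K : Set G)) (f : Blk M K) :
    (∀ x ∈ D, StabilizesBlock K f.1 x) ↔ ∀ a : D, actBlk (conjOn K D h) a f = f := by
  constructor
  · intro hs a
    apply Subtype.ext
    rw [actBlk_coe]
    have := (stabilizes_iff K (h a.2) f.2).1 (hs a a.2)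
    rw [← conjOn_inv_eq K D h a] at this
    exact this
  · intro hs x hx
    rw [stabilizes_iff K (h hx) f.2]
    have := congrArg Subtype.val (hs ⟨x, hx⟩)
    rw [actBlk_coe] at this
    have e := conjOn_inv_eq K D h ⟨x, hx⟩
    change irrComp (conjOn K D h (⟨x, hx⟩ : D)⁻¹) '' f.1 = f.1 at this
    rw [e] at this
    exact this

variable {p : ℕ}

/-- The Brauer-map image of a block idempotent of a bigger centralizer. -/
theorem brauerOmega_subgroup (P K : Subgroup G) (hle : Subgroup.centralizer (P : Set G) ≤ K)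
    [Fintype (Subgroup.centralizer (P : Set G))] (f : Set (IrrCharacter K))
    (ξ : Subgroup.centralizer (P : Set G) → ℂ) [Fintype K] :
    brauerOmega P (subgroupBlockCoeff K f) ξ = omI (Subgroup.inclusion hle) ξ (blockCoeff f) := by
  rw [brauerOmega_eq, omI, omI, om, om]
  congr 1
  refine Finset.sum_congr rfl fun x _ => ?_
  congr 1
  simp only [Function.comp_apply, Subgroup.coe_subtype, subgroupBlockCoeff]
  rw [dif_pos (hle x.2)]
  rfl

theorem centralizer_anti {Q P : Subgroup G} (h : Q ≤ P) :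
    Subgroup.centralizer (P : Set G) ≤ Subgroup.centralizer (Q : Set G) := by
  intro x hx
  rw [Subgroup.mem_centralizer_iff] at hx ⊢
  exact fun q hq => hx q (h hq)

/-- `P` normalizing `Q` normalizes `C(Q)`. -/
theorem normalizes_centralizer {Q P : Subgroup G} (hPN : P ≤ Subgroup.normalizer (Q : Set G)) :
    P ≤ Subgroup.normalizer ((Subgroup.centralizer (Q : Set G) : Subgroup G) : Set G) := by
  intro x hx
  rw [Subgroup.mem_normalizer_iff]
  intro c
  have hxN := hPN hx
  rw [Subgroup.mem_normalizer_iff] at hxN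
  constructor
  · intro hc
    rw [Subgroup.mem_centralizer_iff] at hc ⊢
    intro q hq
    have h1 : x⁻¹ * q * x ∈ Q := by
      apply (hxN _).2
      have : x * (x⁻¹ * q * x) * x⁻¹ = q := by group
      rw [this]; exact hq
    have := hc _ h1
    calc q * (x * c * x⁻¹) = x * ((x⁻¹ * q * x) * c) * x⁻¹ := by group
      _ = x * (c * (x⁻¹ * q * x)) * x⁻¹ := by rw [this]
      _ = x * c * x⁻¹ * q := by group
  · intro hc
    rw [Subgroup.mem_centralizer_iff] at hc ⊢
    intro q hq
    have h1 : x * q * x⁻¹ ∈ Q := (hxN _).1 hq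
    have := hc _ h1
    have e1 : x * q * x⁻¹ * (x * c * x⁻¹) = x * (q * c) * x⁻¹ := by group
    have e2 : x * c * x⁻¹ * (x * q * x⁻¹) = x * (c * q) * x⁻¹ := by group
    rw [e1, e2] at this
    exact mul_left_cancel (mul_right_cancel this)

/-- The range of the inclusion `C(P) → C(Q)` is the set of fixed points of `P`. -/
theorem range_inclusion_iff {Q P : Subgroup G} (hQP : Q ≤ P) (hPN : P ≤ Subgroup.normalizer (Q : Set G)) (x : Subgroup.centralizer (Q : Set G)) :
    x ∈ (Subgroup.inclusion (centralizer_anti hQP)).range ↔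
      ∀ a : P, conjOn _ P (normalizes_centralizer hPN) a x = x := by
  constructor
  · rintro ⟨c, rfl⟩ a
    apply Subtype.ext
    rw [conjOn_apply]
    have := Subgroup.mem_centralizer_iff.1 c.2 a a.2
    show (a : G) * c * (a : G)⁻¹ = c
    rw [this]
    group
  · intro h
    refine ⟨⟨x, ?_⟩, rfl⟩
    rw [Subgroup.mem_centralizer_iff]
    intro u hu
    have := congrArg Subtype.val (h ⟨u, hu⟩)
    rw [conjOn_apply] at this
    rwa [mul_inv_eq_iff_eq_mul] at this

/-- The unique normal subpair below a Brauer pair. -/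
theorem existsUnique_normalSubpair (hM : IsPModular p M) (P Q : Subgroup G)
    (e : Set (IrrCharacter (Subgroup.centralizer (P : Set G)))) (hPe : IsBrauerPair p M P e) (hQP : Q ≤ P)
    (hPN : P ≤ Subgroup.normalizer (Q : Set G)) :
    ∃! f : Set (IrrCharacter (Subgroup.centralizer (Q : Set G))), IsNormalSubpair p M Q f P e := by
  classical
  letI : Fintype (Subgroup.centralizer (P : Set G)) := Fintype.ofFinite _
  letI : Fintype (Subgroup.centralizer (Q : Set G)) := Fintype.ofFinite _
  haveI : Fact p.Prime := ⟨hM.1⟩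
  obtain ⟨hPp, he⟩ := hPe
  have hQp : IsPGroup p Q := hPp.to_le hQP
  obtain ⟨ξ₀, rfl⟩ := id he
  have hξ₀ := mem_block_self (M := M) ξ₀
  have hle := centralizer_anti hQP
  have hN := normalizes_centralizer hPN
  obtain ⟨f, ⟨hf1, hf2⟩, huniq⟩ := existsUnique_stable hM hPp (conjOn _ P hN) (Subgroup.inclusion hle)
    (Subgroup.inclusion_injective hle) (range_inclusion_iff hQP hPN) ξ₀.2
  have hall : ∀ (f : Blk M (Subgroup.centralizer (Q : Set G))),
      Cong M (omI (Subgroup.inclusion hle) (ξ₀ : Subgroup.centralizer (P : Set G) → ℂ) (blockCoeff f.1)) 1 →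
      ∀ ξ : IrrCharacter (Subgroup.centralizer (P : Set G)), ξ ∈ blockOf M (ξ₀ : Subgroup.centralizer (P : Set G) → ℂ) →
        Cong M (omI (Subgroup.inclusion hle) (ξ : Subgroup.centralizer (P : Set G) → ℂ) (blockCoeff f.1)) 1 := by
    intro f hf ξ hξ
    have hLC := comp_isLC (M := M) (Subgroup.inclusion hle) (blockCoeff_isLC f.2)
    have h1 := om_sameBlock (M := M) ξ₀.2 ξ.2 hLC.1 hLC.2 hξ
    exact Cong.trans (Cong.symm h1) hf
  refine ⟨f.1, ⟨⟨hQp, f.2⟩, ⟨hPp, ⟨ξ₀, rfl⟩⟩, hQP, hPN, ?_, ?_⟩, ?_⟩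
  · exact (stable_iff_fixed _ P hN f).2 hf1
  · intro ξ hξ
    rw [brauerOmega_subgroup P _ hle]
    exact hall f hf2 ξ hξ
  · rintro f' ⟨⟨-, hf'⟩, -, -, -, hs, hom⟩
    have h1 := hom ξ₀ hξ₀
    rw [brauerOmega_subgroup P _ hle] at h1
    have := huniq ⟨f', hf'⟩ ⟨(stable_iff_fixed _ P hN ⟨f', hf'⟩).1 hs, h1⟩
    exact congrArg Subtype.val this

end Stab


section Chain

variable {G : Type u} [Group G] [Fintype G] {p : ℕ} {M : Ideal AlgInt} [hprime : M.IsPrime]

theorem omI_congr {K H : Type u} [Group K] [Fintype K] [Group H] [Fintype H] (ι : H →* K) {ξ : H → ℂ}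
    (hξ : IsIrrCharacter H ξ) {z z' : K → ℂ} (hz : IsClassFunction K z) (hz' : IsClassFunction K z')
    (h : ∀ x, Cong M (z x) (z' x)) : Cong M (omI ι ξ z) (omI ι ξ z') := by
  have hc : IsClassFunction K (z - z') := by
    intro g y
    simp only [Pi.sub_apply]
    rw [hz g y, hz' g y]
  have h1 := omI_mem_of_values (M := M) ι hξ hc h
  have e : z - z' = z + (-1 : ℂ) • z' := by
    funext x; simp [sub_eq_add_neg]
  rw [e, omI_add, omI_smul] at h1
  unfold Cong
  convert h1 using 1
  ring

theorem cong_conv_left {K : Type u} [Group K] [Fintype K] {z z' w : K → ℂ}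
    (h : ∀ x, Cong M (z x) (z' x)) (hw : ∀ x, MemLocalRing M (w x)) (x : K) :
    Cong M (conv z w x) (conv z' w x) := by
  unfold Cong conv
  rw [← Finset.sum_sub_distrib]
  refine MemLocalIdeal_sum _ _ fun a _ => ?_
  rw [← sub_mul]
  exact MemLocalIdeal_mul_right (h a) (hw _)

/-- Transfer of an idempotent along a normal inclusion of Brauer pairs. -/
theorem normal_step_iff (hM : IsPModular p M) {Q P : Subgroup G}
    [Fintype (Subgroup.centralizer (Q : Set G))] [Fintype (Subgroup.centralizer (P : Set G))]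
    {f : Set (IrrCharacter (Subgroup.centralizer (Q : Set G)))}
    {e : Set (IrrCharacter (Subgroup.centralizer (P : Set G)))}
    (hs : IsNormalSubpair p M Q f P e) {b : Subgroup.centralizer (Q : Set G) → ℂ} (hb : IsLC M b)
    (hid : ∀ x, Cong M (conv b b x) (b x))
    (hinv : ∀ a ∈ P, ∀ x y : Subgroup.centralizer (Q : Set G), (y : G) = a * x * a⁻¹ → b y = b x) :
    (∀ ξ ∈ e, Cong M (omI (Subgroup.inclusion (centralizer_anti hs.2.2.1)) (ξ : Subgroup.centralizer (P : Set G) → ℂ) b) 1) ↔
      ∀ θ ∈ f, Cong M (om (θ : Subgroup.centralizer (Q : Set G) → ℂ) b) 1 := by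
  classical
  obtain ⟨⟨hQp, hf⟩, ⟨hPp, he⟩, hQP, hPN, hst, hom⟩ := hs
  have hle := centralizer_anti hQP
  have hN := normalizes_centralizer hPN
  let ι := Subgroup.inclusion hle
  have hι : Function.Injective ι := Subgroup.inclusion_injective hle
  let φ := conjOn (Subgroup.centralizer (Q : Set G)) P hN
  have hr : ∀ x, x ∈ ι.range ↔ ∀ a, φ a x = x := range_inclusion_iff hQP hPN
  let fB : Blk M (Subgroup.centralizer (Q : Set G)) := ⟨f, hf⟩
  have hfix : ∀ a, actBlk φ a fB = fB := (stable_iff_fixed _ P hN fB).1 hst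
  have hbi : ∀ a x, b (φ a x) = b x := fun a x => hinv a a.2 x _ rfl
  have hLCf := blockCoeff_isLC hf
  obtain ⟨A, hcl, hcong, hA1, hA2⟩ := idem_congr hb hid
  have hAc : IsLC M (blockCoeff A) := ⟨blockCoeff_isClass A, blockCoeff_local A hcl⟩
  have hOm : ∀ ξ ∈ e, Cong M (omI ι (ξ : Subgroup.centralizer (P : Set G) → ℂ) (blockCoeff f)) 1 := by
    intro ξ hξ
    have := hom ξ hξ
    rwa [brauerOmega_subgroup P _ hle] at this
  have hirr : ∀ ξ : IrrCharacter (Subgroup.centralizer (P : Set G)), ξ ∈ e →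
      Cong M (omI ι (ξ : Subgroup.centralizer (P : Set G) → ℂ) (conv b (blockCoeff f)))
        (omI ι (ξ : Subgroup.centralizer (P : Set G) → ℂ) b) := by
    intro ξ hξ
    have h1 := omI_mul_fixed hM hPp φ ι hι hr ξ.2 hb hLCf hbi (blockCoeff_fixed φ hfix)
    refine Cong.trans h1 ?_
    have h2 := Cong.mul_left (omI_local ι ξ.2 hb) (hOm ξ hξ)
    rwa [mul_one] at h2
  have hconv : ∀ ξ : IrrCharacter (Subgroup.centralizer (P : Set G)),
      Cong M (omI ι (ξ : Subgroup.centralizer (P : Set G) → ℂ) (conv b (blockCoeff f)))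
        (omI ι (ξ : Subgroup.centralizer (P : Set G) → ℂ) (conv (blockCoeff A) (blockCoeff f))) := by
    intro ξ
    exact omI_congr ι ξ.2 (conv_isClass hb.1 hLCf.1) (conv_isClass hAc.1 hLCf.1)
      (cong_conv_left hcong hLCf.2)
  obtain ⟨ξ₀, hξ₀⟩ : ∃ ξ₀, ξ₀ ∈ e := by
    obtain ⟨ξ, rfl⟩ := id he
    exact ⟨ξ, mem_block_self (M := M) ξ⟩
  obtain ⟨θ₀, hθ₀⟩ : ∃ θ₀, θ₀ ∈ f := by
    obtain ⟨θ, rfl⟩ := id hf
    exact ⟨θ, mem_block_self (M := M) θ⟩
  have hclosed : ∀ θ ∈ f, θ ∈ A → f ⊆ A := by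
    intro θ hθ hθA θ' hθ'
    by_contra hc
    exact hcl θ hθA θ' hc (sameBlock_of_mem_block hf hθ hθ')
  constructor
  · intro hall θ hθ
    -- `f` must meet `A`
    by_contra hnot
    have hθA : θ ∉ A := fun h => hnot ((hA1 θ).1 h)
    have hdisj : ∀ θ' ∈ f, θ' ∉ A := fun θ' hθ' h => hθA (hclosed θ' hθ' h hθ)
    have h0 : conv (blockCoeff A) (blockCoeff f) = 0 := by
      refine class_eq_of_om (conv_isClass hAc.1 hLCf.1) (fun _ _ => rfl) fun χ => ?_
      rw [om_conv χ.2 hAc.1]
      have h00 : om (χ : _ → ℂ) (0 : Subgroup.centralizer (Q : Set G) → ℂ) = 0 := by simp [om]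
      rw [h00]
      by_cases hχ : χ ∈ f
      · rw [om_blockCoeff_not (hdisj χ hχ), zero_mul]
      · rw [om_blockCoeff_not hχ, mul_zero]
    have h1 := hconv ξ₀
    rw [h0] at h1
    have h2 : omI ι (ξ₀ : Subgroup.centralizer (P : Set G) → ℂ) (0 : Subgroup.centralizer (Q : Set G) → ℂ) = 0 := by
      have := omI_smul ι (ξ₀ : Subgroup.centralizer (P : Set G) → ℂ) 0 (0 : Subgroup.centralizer (Q : Set G) → ℂ)
      simpa using this
    rw [h2] at h1
    have h3 := Cong.trans (Cong.symm (hirr ξ₀ hξ₀)) h1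
    exact not_mem_of_cong_one (hall ξ₀ hξ₀) (cong_zero_iff.mp h3)
  · intro hall ξ hξ
    have hθA : θ₀ ∈ A := (hA1 θ₀).2 (hall θ₀ hθ₀)
    have hsub := hclosed θ₀ hθ₀ hθA
    have h0 : conv (blockCoeff A) (blockCoeff f) = blockCoeff f := by
      refine class_eq_of_om (conv_isClass hAc.1 hLCf.1) hLCf.1 fun χ => ?_
      rw [om_conv χ.2 hAc.1]
      by_cases hχ : χ ∈ f
      · rw [om_blockCoeff_self (hsub hχ), one_mul]
      · rw [om_blockCoeff_not hχ, mul_zero]
    have h1 := hconv ξ
    rw [h0] at h1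
    exact Cong.trans (Cong.symm (hirr ξ hξ)) (Cong.trans h1 (hOm ξ hξ))

/-- The truncation of a stable idempotent to the centralizer of a larger group. -/
theorem trunc_idem (hM : IsPModular p M) {Q S : Subgroup G} (hQS : Q ≤ S) (hSp : IsPGroup p S)
    [Fintype (Subgroup.centralizer (Q : Set G))] [Fintype (Subgroup.centralizer (S : Set G))]
    (hSN : S ≤ Subgroup.normalizer (Q : Set G))
    {c : Subgroup.centralizer (Q : Set G) → ℂ} (hc : IsLC M c)
    (hidc : ∀ x, Cong M (conv c c x) (c x))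
    (hinv : ∀ a ∈ S, ∀ x y : Subgroup.centralizer (Q : Set G), (y : G) = a * x * a⁻¹ → c y = c x) (r) :
    Cong M (conv (c ∘ Subgroup.inclusion (centralizer_anti hQS)) (c ∘ Subgroup.inclusion (centralizer_anti hQS)) r)
      ((c ∘ Subgroup.inclusion (centralizer_anti hQS)) r) := by
  have hN := normalizes_centralizer hSN
  have h1 := conv_trunc_of_fixed hM (Subgroup.inclusion (centralizer_anti hQS))
    (Subgroup.inclusion_injective _) hSp (conjOn _ S hN)
    (fun x hx => (range_inclusion_iff hQS hSN x).2 hx)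
    (fun a x hx => by
      rw [(range_inclusion_iff hQS hSN x).1 hx a]
      exact hx) hc.2 hc.2 (fun a x => hinv a a.2 x _ rfl) (fun a x => hinv a a.2 x _ rfl)
    (r := r) (fun a => (range_inclusion_iff hQS hSN _).1 ⟨r, rfl⟩ a)
  exact Cong.symm (Cong.trans (Cong.symm (hidc _)) h1)

/-- Stable block idempotents are invariant. -/
theorem blockCoeff_of_stable (K : Subgroup G) [Fintype K] {f : Set (IrrCharacter K)} (hf : IsPBlock M f)
    {a : G} (ha : StabilizesBlock K f a) (x y : K) (hxy : (y : G) = a * x * a⁻¹) :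
    blockCoeff f y = blockCoeff f x := by
  have h1 := (stabilizes_iff K ha.1 hf).1 ha
  have h2 := blockCoeff_comp (conjEquiv K a ha.1).symm f y
  rw [h1] at h2
  rw [h2]
  congr 1
  apply Subtype.ext
  rw [conjEquiv_symm_apply, hxy]
  group

/-- Key step `K₂`: a normal inclusion restricts along a normal inclusion. -/
theorem normal_restrict (hM : IsPModular p M) {Q S S' : Subgroup G}
    {f₀ : Set (IrrCharacter (Subgroup.centralizer (Q : Set G)))}
    {h : Set (IrrCharacter (Subgroup.centralizer (S : Set G)))}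
    {h' : Set (IrrCharacter (Subgroup.centralizer (S' : Set G)))}
    (hQS : Q ≤ S) (hQ : IsNormalSubpair p M Q f₀ S' h') (hS : IsNormalSubpair p M S h S' h') :
    IsNormalSubpair p M Q f₀ S h := by
  classical
  letI : Fintype (Subgroup.centralizer (Q : Set G)) := Fintype.ofFinite _
  letI : Fintype (Subgroup.centralizer (S : Set G)) := Fintype.ofFinite _
  letI : Fintype (Subgroup.centralizer (S' : Set G)) := Fintype.ofFinite _
  have hS'N := hQ.2.2.2.1
  have hSS' := hS.2.2.1
  have hSN : S ≤ Subgroup.normalizer (Q : Set G) := hSS'.trans hS'N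
  refine ⟨hQ.1, hS.1, hQS, hSN, fun x hx => hQ.2.2.2.2.1 x (hSS' hx), ?_⟩
  intro θ hθ
  rw [brauerOmega_subgroup S _ (centralizer_anti hQS)]
  have hf₀ := hQ.1.2
  have hLC := blockCoeff_isLC hf₀
  let b := blockCoeff f₀ ∘ Subgroup.inclusion (centralizer_anti hQS)
  have hb : IsLC M b := comp_isLC _ hLC
  have hstab : ∀ a ∈ S', ∀ x y : Subgroup.centralizer (Q : Set G), (y : G) = a * x * a⁻¹ → blockCoeff f₀ y = blockCoeff f₀ x :=
    fun a ha x y hxy => blockCoeff_of_stable _ hf₀ (hQ.2.2.2.2.1 a ha) x y hxy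
  have hid : ∀ x, Cong M (conv b b x) (b x) := by
    refine trunc_idem hM hQS hS.1.1 hSN hLC ?_ (fun a ha => hstab a (hSS' ha))
    intro x
    rw [conv_blockCoeff]
    exact Cong.refl _
  have hinv : ∀ a ∈ S', ∀ x y : Subgroup.centralizer (S : Set G), (y : G) = a * x * a⁻¹ → b y = b x := by
    intro a ha x y hxy
    exact hstab a ha _ _ hxy
  refine (normal_step_iff hM hS hb hid hinv).1 ?_ θ hθ
  intro ξ hξ
  have h1 := hQ.2.2.2.2.2 ξ hξ
  rw [brauerOmega_subgroup S' _ (centralizer_anti hQ.2.2.1)] at h1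
  exact h1

/-- A trivial normal step. -/
theorem normal_self {Q : Subgroup G} {f g : Set (IrrCharacter (Subgroup.centralizer (Q : Set G)))}
    (hs : IsNormalSubpair p M Q f Q g) : f = g := by
  classical
  letI : Fintype (Subgroup.centralizer (Q : Set G)) := Fintype.ofFinite _
  obtain ⟨⟨-, hf⟩, ⟨-, hg⟩, -, -, -, hom⟩ := hs
  obtain ⟨ξ, hξ⟩ : ∃ ξ, ξ ∈ g := by
    obtain ⟨ξ, rfl⟩ := id hg
    exact ⟨ξ, mem_block_self (M := M) ξ⟩
  have h1 := hom ξ hξ
  rw [brauerOmega_subgroup Q _ le_rfl] at h1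
  have h2 : omI (Subgroup.inclusion (le_refl (Subgroup.centralizer (Q : Set G)))) (ξ : _ → ℂ) (blockCoeff f) =
      om (ξ : Subgroup.centralizer (Q : Set G) → ℂ) (blockCoeff f) := rfl
  rw [h2] at h1
  have hξf : ξ ∈ f := by
    by_contra hn
    rw [om_blockCoeff_not hn] at h1
    have := Cong.symm h1
    exact one_not_memLocalIdeal (M := M) (cong_zero_iff.mp this)
  exact block_eq_of_mem hf hg hξf hξ

/-- Subgroups grow along chains. -/
theorem SubpairLE.le {Q P : Subgroup G} {f : Set (IrrCharacter (Subgroup.centralizer (Q : Set G)))}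
    {e : Set (IrrCharacter (Subgroup.centralizer (P : Set G)))} (h : SubpairLE p M Q f P e) : Q ≤ P := by
  have key : ∀ a b : BrauerPairIdx G, Relation.ReflTransGen (NormalSubpairRel p M) a b → a.1 ≤ b.1 := by
    intro a b hab
    induction hab with
    | refl => exact le_rfl
    | tail _ hstep ih => exact ih.trans hstep.2.2.1
  exact key _ _ h

/-- Pairs below a normal overgroup along a chain: `f₀` stays normally below. -/
theorem normal_along_chain (hM : IsPModular p M) {Q : Subgroup G}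
    {f₀ : Set (IrrCharacter (Subgroup.centralizer (Q : Set G)))} :
    ∀ (a b : BrauerPairIdx G), Relation.ReflTransGen (NormalSubpairRel p M) a b → Q ≤ a.1 →
      IsNormalSubpair p M Q f₀ b.1 b.2 → IsNormalSubpair p M Q f₀ a.1 a.2 := by
  intro a b hab
  induction hab using Relation.ReflTransGen.head_induction_on with
  | refl => exact fun _ h => h
  | head hstep _ ih =>
    intro hQ h
    have h1 := ih (hQ.trans hstep.2.2.1) h
    exact normal_restrict hM hQ h1 hstep

/-- Lemma K. -/
theorem normal_of_chain (hM : IsPModular p M) {Q Q₁ R : Subgroup G}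
    {f : Set (IrrCharacter (Subgroup.centralizer (Q : Set G)))}
    {f₁ : Set (IrrCharacter (Subgroup.centralizer (Q₁ : Set G)))}
    {g : Set (IrrCharacter (Subgroup.centralizer (R : Set G)))}
    (h1 : IsNormalSubpair p M Q f Q₁ f₁) (h2 : SubpairLE p M Q₁ f₁ R g) (hRg : IsBrauerPair p M R g)
    (hRN : R ≤ Subgroup.normalizer (Q : Set G)) : IsNormalSubpair p M Q f R g := by
  obtain ⟨f₀, hf₀, -⟩ := existsUnique_normalSubpair hM R Q g hRg
    (h1.2.2.1.trans (SubpairLE.le h2)) hRN
  have h3 := normal_along_chain hM _ _ h2 h1.2.2.1 hf₀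
  obtain ⟨f', -, huniq⟩ := existsUnique_normalSubpair hM Q₁ Q f₁ h1.2.1 h1.2.2.1 h1.2.2.2.1
  have e1 := huniq f h1
  have e2 := huniq f₀ h3
  rw [e1, ← e2]
  exact hf₀

/-- Existence of a pair below. -/
theorem exists_subpair_below (hM : IsPModular p M) {P : Subgroup G}
    {e : Set (IrrCharacter (Subgroup.centralizer (P : Set G)))} (hPe : IsBrauerPair p M P e) :
    ∀ Q : Subgroup G, Q ≤ P → ∃ f : Set (IrrCharacter (Subgroup.centralizer (Q : Set G))),
      IsBrauerPair p M Q f ∧ SubpairLE p M Q f P e := by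
  classical
  haveI : Fact p.Prime := ⟨hM.1⟩
  intro Q
  induction Q using WellFoundedGT.induction with
  | ind Q ih =>
    intro hQP
    by_cases hQ : Q = P
    · subst hQ
      exact ⟨e, hPe, Relation.ReflTransGen.refl⟩
    · have hlt : Q < P := lt_of_le_of_ne hQP hQ
      obtain ⟨x, hxP, hxQ, hxN⟩ := Cfsg.Agent.Lib.FusionAlperin.exists_mem_normalizer_of_lt' hPe.1 hlt
      let R : Subgroup G := P ⊓ Subgroup.normalizer (Q : Set G)
      have hQR : Q < R := by
        refine lt_of_le_of_ne (le_inf hQP Subgroup.le_normalizer) ?_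
        intro h
        apply hxQ
        rw [h]
        exact ⟨hxP, hxN⟩
      obtain ⟨g, hg, hgle⟩ := ih R hQR inf_le_left
      obtain ⟨f, hf, -⟩ := existsUnique_normalSubpair hM R Q g hg hQR.le inf_le_right
      exact ⟨f, hf.1, Relation.ReflTransGen.head (show NormalSubpairRel p M ⟨Q, f⟩ ⟨R, g⟩ from hf) hgle⟩

/-- Skip trivial steps at the start of a chain. -/
theorem chain_head {P : Subgroup G} {e : Set (IrrCharacter (Subgroup.centralizer (P : Set G)))} :
    ∀ (a b : BrauerPairIdx G), Relation.ReflTransGen (NormalSubpairRel p M) a b → b = ⟨P, e⟩ → a.1 ≠ P →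
      ∃ (Q₁ : Subgroup G) (f₁ : Set (IrrCharacter (Subgroup.centralizer (Q₁ : Set G)))),
        a.1 < Q₁ ∧ IsNormalSubpair p M a.1 a.2 Q₁ f₁ ∧ SubpairLE p M Q₁ f₁ P e := by
  intro a b hab
  induction hab using Relation.ReflTransGen.head_induction_on with
  | refl =>
    rintro rfl hne
    exact absurd rfl hne
  | @head a c hstep hrest ih =>
    rintro rfl hne
    obtain ⟨Q, f⟩ := a
    obtain ⟨Q', f'⟩ := c
    by_cases hQ : Q = Q'
    · subst hQ
      have hf := normal_self hstep
      subst hf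
      exact ih rfl hne
    · have hstep' : IsNormalSubpair p M Q f Q' f' := hstep
      exact ⟨Q', f', lt_of_le_of_ne hstep'.2.2.1 hQ, hstep', hrest⟩

/-- Uniqueness of the pair below a Brauer pair. -/
theorem subpair_unique (hM : IsPModular p M) {P : Subgroup G}
    {e : Set (IrrCharacter (Subgroup.centralizer (P : Set G)))} (hPe : IsBrauerPair p M P e) :
    ∀ Q : Subgroup G, ∀ f₁ f₂ : Set (IrrCharacter (Subgroup.centralizer (Q : Set G))),
      SubpairLE p M Q f₁ P e → SubpairLE p M Q f₂ P e → f₁ = f₂ := by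
  classical
  haveI : Fact p.Prime := ⟨hM.1⟩
  -- the self case
  have hself : ∀ (a b : BrauerPairIdx G), Relation.ReflTransGen (NormalSubpairRel p M) a b → b = ⟨P, e⟩ → a.1 = P →
      HEq a.2 e := by
    intro a b hab
    induction hab using Relation.ReflTransGen.head_induction_on with
    | refl =>
      rintro rfl -
      exact HEq.rfl
    | @head a c hstep hrest ih =>
      rintro rfl hQ
      obtain ⟨Q, f⟩ := a
      obtain ⟨Q', f'⟩ := c
      have hle1 : Q ≤ Q' := hstep.2.2.1
      have hle2 : Q' ≤ P := SubpairLE.le hrest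
      have hQ' : Q' = Q := by
        simp only at hQ
        exact le_antisymm (by rw [hQ]; exact hle2) hle1
      subst hQ'
      have hf : f = f' := normal_self hstep
      subst hf
      exact ih rfl hQ
  intro Q
  induction Q using WellFoundedGT.induction with
  | ind Q ih =>
    intro f₁ f₂ h₁ h₂
    by_cases hQ : Q = P
    · subst hQ
      have e1 := hself _ _ h₁ rfl rfl
      have e2 := hself _ _ h₂ rfl rfl
      exact eq_of_heq (e1.trans e2.symm)
    · have hQP := SubpairLE.le h₁
      let R : Subgroup G := P ⊓ Subgroup.normalizer (Q : Set G)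
      have hlt : Q < P := lt_of_le_of_ne hQP hQ
      obtain ⟨x, hxP, hxQ, hxN⟩ := Cfsg.Agent.Lib.FusionAlperin.exists_mem_normalizer_of_lt' hPe.1 hlt
      have hQR : Q < R := by
        refine lt_of_le_of_ne (le_inf hQP Subgroup.le_normalizer) ?_
        intro h
        apply hxQ
        rw [h]
        exact ⟨hxP, hxN⟩
      obtain ⟨g, hg, hgle⟩ := exists_subpair_below hM hPe R inf_le_left
      have key : ∀ f : Set (IrrCharacter (Subgroup.centralizer (Q : Set G))), SubpairLE p M Q f P e →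
          IsNormalSubpair p M Q f R g := by
        intro f hf
        obtain ⟨Q₁, f', hlt₁, hst, hrest⟩ := chain_head _ _ hf rfl hQ
        have hQ₁R : Q₁ ≤ R := le_inf (SubpairLE.le hrest) hst.2.2.2.1
        obtain ⟨f'', -, hf''⟩ := exists_subpair_below hM hg Q₁ hQ₁R
        have hf''P : SubpairLE p M Q₁ f'' P e := hf''.trans hgle
        have heq : f' = f'' := ih Q₁ hlt₁ f' f'' hrest hf''P
        subst heq
        exact normal_of_chain hM hst hf'' hg inf_le_right
      obtain ⟨f₀, -, huniq⟩ := existsUnique_normalSubpair hM R Q g hg hQR.le inf_le_right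
      rw [huniq f₁ (key f₁ h₁), huniq f₂ (key f₂ h₂)]

end Chain

end Cfsg.Agent.Lib.BlockSub
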