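import Cfsg.Agent.Lib.BlockSat

/-!
# Translating Brauer pairs between `G` and a subgroup containing a centralizer
-/

set_option autoImplicit false
set_option linter.all false

namespace Cfsg.Agent.Lib.BlockTrans

open Cfsg Cfsg.Agent.Lib.BlockLocal Cfsg.Agent.Lib.BlockOsima Cfsg.Agent.Lib.BlockBr
  Cfsg.Agent.Lib.BlockApps Cfsg.Agent.Lib.CharIrr Cfsg.Agent.Lib.BlockPair Cfsg.Agent.Lib.BlockSub
  Cfsg.Agent.Lib.BlockMax Cfsg.Agent.Lib.BlockTrace Cfsg.Agent.Lib.BlockConjP Cfsg.Agent.Lib.BlockFull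
  Cfsg.Agent.Lib.BlockFus Cfsg.Agent.Lib.BlockFus2 Cfsg.Agent.Lib.BlockSat
open scoped ComplexConjugate

universe u

section Tau

variable {G : Type u} [Group G] [Fintype G] {p : ℕ} {M : Ideal AlgInt} [hprime : M.IsPrime]

/-- The identification of the centralizer of `A` in `Y` with the centralizer of `R` in `G`. -/
def tauG (Y : Subgroup G) (A : Subgroup Y) (R : Subgroup G)
    (h : ∀ y : Y, y ∈ Subgroup.centralizer (A : Set Y) ↔ (y : G) ∈ Subgroup.centralizer (R : Set G))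
    (hC : Subgroup.centralizer (R : Set G) ≤ Y) :
    Subgroup.centralizer (A : Set Y) ≃* Subgroup.centralizer (R : Set G) where
  toFun y := ⟨y.1.1, (h y.1).1 y.2⟩
  invFun c := ⟨⟨c, hC c.2⟩, (h _).2 c.2⟩
  left_inv y := rfl
  right_inv c := rfl
  map_mul' a b := rfl

@[simp] theorem tauG_apply (Y : Subgroup G) (A : Subgroup Y) (R : Subgroup G) (h) (hC)
    (y : Subgroup.centralizer (A : Set Y)) : ((tauG Y A R h hC y : Subgroup.centralizer (R : Set G)) : G) = ((y : Y) : G) := rfl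

/-- Transport of the centralizer hypothesis to `subgroupOf`. -/
theorem cent_subgroupOf_iff {Y R : Subgroup G} (hRY : R ≤ Y) (y : Y) :
    y ∈ Subgroup.centralizer ((R.subgroupOf Y : Subgroup Y) : Set Y) ↔ (y : G) ∈ Subgroup.centralizer (R : Set G) := by
  constructor
  · intro h
    rw [Subgroup.mem_centralizer_iff] at h ⊢
    intro r hr
    have := h ⟨r, hRY hr⟩ (Subgroup.mem_subgroupOf.2 hr)
    exact congrArg Subtype.val this
  · intro h
    rw [Subgroup.mem_centralizer_iff] at h ⊢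
    intro u hu
    apply Subtype.ext
    exact h u (Subgroup.mem_subgroupOf.1 hu)

/-- The transport of a set of characters, free of instance arguments. -/
def trB {X Z : Type u} [Group X] [Group Z] (σ : X ≃* Z) (b : Set (IrrCharacter Z)) : Set (IrrCharacter X) :=
  {χ | ∃ ξ ∈ b, ∀ a, (χ : X → ℂ) a = (ξ : Z → ℂ) (σ a)}

theorem trB_eq_image {X Z : Type u} [Group X] [Group Z] [Fintype X] [Fintype Z] (σ : X ≃* Z) (b : Set (IrrCharacter Z)) :
    trB σ b = irrComp σ '' b := by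
  ext χ
  constructor
  · rintro ⟨ξ, hξ, h⟩
    refine ⟨ξ, hξ, ?_⟩
    apply Subtype.ext
    funext a
    exact (h a).symm
  · rintro ⟨ξ, hξ, rfl⟩
    exact ⟨ξ, hξ, fun a => rfl⟩

theorem trB_inj {X Z : Type u} [Group X] [Group Z] [Fintype X] [Fintype Z] (σ : X ≃* Z) {b b' : Set (IrrCharacter Z)}
    (h : trB σ b = trB σ b') : b = b' := by
  rw [trB_eq_image, trB_eq_image] at h
  exact (irrComp_bijective σ).1.image_injective h

theorem trB_block {X Z : Type u} [Group X] [Group Z] [Fintype X] [Fintype Z] (σ : X ≃* Z) {b : Set (IrrCharacter Z)}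
    (h : IsPBlock M b) : IsPBlock M (trB σ b) := by
  rw [trB_eq_image]
  exact isPBlock_image σ h

/-- Block idempotents across `tauG`. -/
theorem coeff_trB (Y : Subgroup G) (A : Subgroup Y) (R : Subgroup G) (h) (hC)
    (b : Set (IrrCharacter (Subgroup.centralizer (R : Set G)))) (y : Y) :
    subgroupBlockCoeff (Subgroup.centralizer (A : Set Y)) (trB (tauG Y A R h hC) b) y =
      subgroupBlockCoeff (Subgroup.centralizer (R : Set G)) b (y : G) := by
  classical
  letI : Fintype Y := Fintype.ofFinite _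
  letI : Fintype (Subgroup.centralizer (A : Set Y)) := Fintype.ofFinite _
  letI : Fintype (Subgroup.centralizer (R : Set G)) := Fintype.ofFinite _
  by_cases hy : y ∈ Subgroup.centralizer (A : Set Y)
  · rw [subgroupBlockCoeff_mem _ _ ⟨y, hy⟩, subgroupBlockCoeff_mem _ b ⟨_, (h y).1 hy⟩, trB_eq_image, blockCoeff_comp]
    rfl
  · rw [subgroupBlockCoeff_not_mem _ _ hy, subgroupBlockCoeff_not_mem _ _ (fun h' => hy ((h y).2 h'))]

/-- `brauerOmega` across `tauG`. -/
theorem omega_trB (Y : Subgroup G) (A : Subgroup Y) (R : Subgroup G) (h) (hC)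
    {β₁ : Y → ℂ} {β : G → ℂ} (hβ : ∀ y : Y, β₁ y = β y)
    (χ : IrrCharacter (Subgroup.centralizer (A : Set Y))) (ξ : IrrCharacter (Subgroup.centralizer (R : Set G)))
    (hχ : ∀ a, (χ : Subgroup.centralizer (A : Set Y) → ℂ) a = (ξ : Subgroup.centralizer (R : Set G) → ℂ) (tauG Y A R h hC a)) :
    brauerOmega A β₁ (χ : Subgroup.centralizer (A : Set Y) → ℂ) = brauerOmega R β (ξ : Subgroup.centralizer (R : Set G) → ℂ) := by
  classical
  letI : Fintype Y := Fintype.ofFinite _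
  letI : Fintype (Subgroup.centralizer (A : Set Y)) := Fintype.ofFinite _
  letI : Fintype (Subgroup.centralizer (R : Set G)) := Fintype.ofFinite _
  rw [brauerOmega_eq, brauerOmega_eq]
  have h1 := om_comp (tauG Y A R h hC) (ξ : Subgroup.centralizer (R : Set G) → ℂ) (β ∘ (Subgroup.centralizer (R : Set G)).subtype)
  unfold omI
  rw [← h1]
  congr 1
  · funext a
    exact hχ a
  · funext a
    simp only [Function.comp_apply, Subgroup.coe_subtype, tauG_apply]
    exact hβ _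

/-- The subgroup `L C_G(Q)`, for `L` normalizing `Q`. -/
def mulCent (L Q : Subgroup G) (hL : L ≤ Subgroup.normalizer (Q : Set G)) : Subgroup G where
  carrier := {y | ∃ l ∈ L, l⁻¹ * y ∈ Subgroup.centralizer (Q : Set G)}
  one_mem' := ⟨1, L.one_mem, by simp [Subgroup.one_mem]⟩
  mul_mem' := by
    rintro a b ⟨l, hl, h⟩ ⟨l', hl', h'⟩
    refine ⟨l * l', L.mul_mem hl hl', ?_⟩
    have hN := cent_le_norm_cent Q (hL hl')
    have h1 := (Subgroup.mem_normalizer_iff.1 (Subgroup.inv_mem _ hN) _).1 h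
    have e : (l * l')⁻¹ * (a * b) = (l'⁻¹ * (l⁻¹ * a) * l'⁻¹⁻¹) * (l'⁻¹ * b) := by group
    rw [e]
    exact Subgroup.mul_mem _ h1 h'
  inv_mem' := by
    rintro a ⟨l, hl, h⟩
    refine ⟨l⁻¹, L.inv_mem hl, ?_⟩
    have hN := cent_le_norm_cent Q (hL hl)
    have h1 := (Subgroup.mem_normalizer_iff.1 hN _).1 (Subgroup.inv_mem _ h)
    have e : l⁻¹⁻¹ * a⁻¹ = l * (l⁻¹ * a)⁻¹ * l⁻¹ := by group
    rw [e]
    exact h1

theorem mem_mulCent {L Q : Subgroup G} {hL : L ≤ Subgroup.normalizer (Q : Set G)} {y : G} :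
    y ∈ mulCent L Q hL ↔ ∃ l ∈ L, l⁻¹ * y ∈ Subgroup.centralizer (Q : Set G) := Iff.rfl

theorem le_mulCent {L Q : Subgroup G} (hL : L ≤ Subgroup.normalizer (Q : Set G)) : L ≤ mulCent L Q hL :=
  fun l hl => ⟨l, hl, by simp [Subgroup.one_mem]⟩

theorem cent_le_mulCent {L Q : Subgroup G} (hL : L ≤ Subgroup.normalizer (Q : Set G)) :
    Subgroup.centralizer (Q : Set G) ≤ mulCent L Q hL :=
  fun c hc => ⟨1, L.one_mem, by simpa using hc⟩

end Tau

section Normal

variable {G : Type u} [Group G] [Fintype G] {p : ℕ} {M : Ideal AlgInt} [hprime : M.IsPrime]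

/-- Transport of normal inclusions to a subgroup containing the centralizers. -/
theorem trans_normal {Y Q₁ R₁ : Subgroup G} {a : Set (IrrCharacter (Subgroup.centralizer (Q₁ : Set G)))}
    {b : Set (IrrCharacter (Subgroup.centralizer (R₁ : Set G)))} (hs : IsNormalSubpair p M Q₁ a R₁ b)
    (h1 : Subgroup.centralizer (Q₁ : Set G) ≤ Y) (h2 : R₁ ≤ Y) :
    IsNormalSubpair p M (Q₁.subgroupOf Y)
      (trB (tauG Y _ Q₁ (cent_subgroupOf_iff (hs.2.2.1.trans h2)) h1) a)
      (R₁.subgroupOf Y)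
      (trB (tauG Y _ R₁ (cent_subgroupOf_iff h2) ((centralizer_anti hs.2.2.1).trans h1)) b) := by
  classical
  letI : Fintype Y := Fintype.ofFinite _
  letI : Fintype (Subgroup.centralizer (Q₁ : Set G)) := Fintype.ofFinite _
  letI : Fintype (Subgroup.centralizer (R₁ : Set G)) := Fintype.ofFinite _
  letI : Fintype (Subgroup.centralizer ((Q₁.subgroupOf Y : Subgroup Y) : Set Y)) := Fintype.ofFinite _
  letI : Fintype (Subgroup.centralizer ((R₁.subgroupOf Y : Subgroup Y) : Set Y)) := Fintype.ofFinite _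
  obtain ⟨h3, h4, h5, h6, h7, h8⟩ := hs
  have hQY := h5.trans h2
  have hN : R₁.subgroupOf Y ≤ Subgroup.normalizer ((Q₁.subgroupOf Y : Subgroup Y) : Set Y) := by
    intro x hx
    rw [Subgroup.mem_subgroupOf] at hx
    rw [Subgroup.mem_normalizer_iff]
    intro u
    simp only [SetLike.mem_coe, Subgroup.mem_subgroupOf, Subgroup.coe_mul, Subgroup.coe_inv]
    exact Subgroup.mem_normalizer_iff.1 (h6 hx) (u : G)
  refine ⟨⟨h3.1.comap_of_injective _ Subtype.val_injective, trB_block _ h3.2⟩,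
    ⟨h4.1.comap_of_injective _ Subtype.val_injective, trB_block _ h4.2⟩, ?_, hN, ?_, ?_⟩
  · intro u hu
    exact Subgroup.mem_subgroupOf.2 (h5 (Subgroup.mem_subgroupOf.1 hu))
  · intro x hx
    refine ⟨normalizes_centralizer hN hx, ?_⟩
    rintro χ ⟨ξ, hξ, hχ⟩
    obtain ⟨ξ', hξ', hc⟩ := (h7 x (Subgroup.mem_subgroupOf.1 hx)).2 ξ hξ
    refine ⟨irrComp (tauG Y _ Q₁ (cent_subgroupOf_iff hQY) h1) ξ', ⟨ξ', hξ', fun a => rfl⟩, ?_⟩
    intro k k' hk
    rw [irrComp_apply, hχ]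
    apply hc
    rw [tauG_apply, tauG_apply, hk]
    rfl
  · rintro χ ⟨ξ, hξ, hχ⟩
    rw [omega_trB Y _ R₁ (cent_subgroupOf_iff h2) ((centralizer_anti h5).trans h1) (coeff_trB Y _ Q₁ (cent_subgroupOf_iff hQY) h1 a) χ ξ hχ]
    exact h8 ξ hξ

/-- The translated index. -/
def trIdx (Y Q₀ : Subgroup G) (hQ₀ : Subgroup.centralizer (Q₀ : Set G) ≤ Y) (a : BrauerPairIdx G)
    (h1 : Q₀ ≤ a.1) (h2 : a.1 ≤ Y) : BrauerPairIdx Y :=
  ⟨a.1.subgroupOf Y, trB (tauG Y _ a.1 (cent_subgroupOf_iff h2) ((centralizer_anti h1).trans hQ₀)) a.2⟩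

/-- Transport of chains. -/
theorem trans_chain {Y Q₀ : Subgroup G} (hQ₀ : Subgroup.centralizer (Q₀ : Set G) ≤ Y) {a : BrauerPairIdx G}
    (h1 : Q₀ ≤ a.1) (h2 : a.1 ≤ Y) {b : BrauerPairIdx G} (hab : Relation.ReflTransGen (NormalSubpairRel p M) a b) :
    ∀ (hb1 : Q₀ ≤ b.1) (hb2 : b.1 ≤ Y),
      Relation.ReflTransGen (NormalSubpairRel p M) (trIdx Y Q₀ hQ₀ a h1 h2) (trIdx Y Q₀ hQ₀ b hb1 hb2) := by
  induction hab with
  | refl => exact fun _ _ => Relation.ReflTransGen.refl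
  | @tail b c hab hbc ih =>
    intro hc1 hc2
    have hbc' : IsNormalSubpair p M b.1 b.2 c.1 c.2 := hbc
    have hbY : b.1 ≤ Y := hbc'.2.2.1.trans hc2
    have hb1 : Q₀ ≤ b.1 := h1.trans (by
      obtain ⟨Q, f⟩ := a
      obtain ⟨R, g⟩ := b
      exact SubpairLE.le hab)
    refine Relation.ReflTransGen.tail (ih hb1 hbY) ?_
    exact trans_normal hbc' ((centralizer_anti hb1).trans hQ₀) hc2

end Normal

end Cfsg.Agent.Lib.BlockTrans
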