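import Cfsg.Agent.Lib.BlockApps

/-!
# Pairs of blocks for two primes
-/

set_option linter.all false

namespace Cfsg.Agent.Lib.BlockTwo

open scoped ComplexConjugate
open Cfsg Cfsg.Agent.Lib.BlockLocal Cfsg.Agent.Lib.BlockOsima Cfsg.Agent.Lib.BlockOrth
  Cfsg.Agent.Lib.CharIrr Cfsg.Agent.Lib.CharOps Cfsg.Agent.Lib.BlockApps

universe u

variable {G : Type u} [Group G] [Fintype G]

open scoped Classical in
/-- Projection formula. -/
theorem sum_kern_mul (A B : Set (IrrCharacter G)) (a : IrrCharacter G → ℂ) (x : G) :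
    (Nat.card G : ℂ)⁻¹ * ∑ g, kern B x g * (∑ χ : IrrCharacter G, if χ ∈ A then a χ * (χ : G → ℂ) g else 0) =
      ∑ χ : IrrCharacter G, if χ ∈ A ∧ χ ∈ B then a χ * (χ : G → ℂ) x else 0 := by
  have hG : (Nat.card G : ℂ) ≠ 0 := by exact_mod_cast Nat.card_pos.ne'
  simp only [kern_eq, Finset.mul_sum, Finset.sum_mul]
  rw [Finset.sum_comm]
  refine Finset.sum_congr rfl fun χ _ => ?_
  -- push the sum over `ψ`
  by_cases hχ : χ ∈ A
  · have h1 : ∀ ψ : IrrCharacter G, (Nat.card G : ℂ)⁻¹ * ∑ g, (if ψ ∈ B then (ψ : G → ℂ) x * conj ((ψ : G → ℂ) g) else 0) *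
        (a χ * (χ : G → ℂ) g) = if ψ = χ then (if χ ∈ B then a χ * (χ : G → ℂ) x else 0) else 0 := by
      intro ψ
      by_cases hψ : ψ ∈ B
      · have h2 := classInner_irr χ.2 ψ.2
        rw [classInner] at h2
        have h3 : (Nat.card G : ℂ)⁻¹ * ∑ g, (ψ : G → ℂ) x * conj ((ψ : G → ℂ) g) * (a χ * (χ : G → ℂ) g) =
            ((Nat.card G : ℂ)⁻¹ * ∑ g, (χ : G → ℂ) g * conj ((ψ : G → ℂ) g)) * (a χ * (ψ : G → ℂ) x) := by
          rw [mul_assoc, Finset.sum_mul]
          congr 1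
          refine Finset.sum_congr rfl fun g _ => ?_
          ring
        simp only [if_pos hψ]
        rw [h3, h2]
        by_cases hc : ψ = χ
        · subst hc
          simp [hψ]
        · have hne : (χ : G → ℂ) ≠ (ψ : G → ℂ) := fun h => hc (Subtype.ext h.symm)
          simp [hc, hne]
      · simp only [if_neg hψ, zero_mul, Finset.sum_const_zero, mul_zero]
        by_cases hc : ψ = χ
        · subst hc
          simp [hψ]
        · simp [hc]
    simp only [Finset.mul_sum] at h1 ⊢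
    rw [Finset.sum_comm]
    have h4 : ∀ ψ : IrrCharacter G, ∑ g, (Nat.card G : ℂ)⁻¹ * ((if ψ ∈ B then (ψ : G → ℂ) x * conj ((ψ : G → ℂ) g) else 0) *
        (if χ ∈ A then a χ * (χ : G → ℂ) g else 0)) =
        if ψ = χ then (if χ ∈ B then a χ * (χ : G → ℂ) x else 0) else 0 := by
      intro ψ
      simp only [if_pos hχ]
      exact h1 ψ
    simp_rw [h4]
    simp [hχ]
  · simp [hχ]

theorem exists_order_mul {p q : ℕ} (hp : p.Prime) (hq : q.Prime) (hpq : p ≠ q) {g : G}
    (h1 : p ∣ orderOf g) (h2 : q ∣ orderOf g) : ∃ g' : G, orderOf g' = p * q := by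
  have hco : Nat.Coprime p q := (Nat.coprime_primes hp hq).mpr hpq
  have h3 : p * q ∣ orderOf g := hco.mul_dvd_of_dvd_of_dvd h1 h2
  exact ⟨g ^ (orderOf g / (p * q)), orderOf_pow_orderOf_div (orderOf_pos g).ne' h3⟩

variable {M M' : Ideal AlgInt} [hP : M.IsPrime] [hP' : M'.IsPrime]

/-- Orthogonality for two blocks for two primes. -/
theorem sum_inter_eq_zero {p q : ℕ} (hM : IsPModular p M) (hM' : IsPModular q M') (hpq : p ≠ q)
    (hno : ∀ g : G, orderOf g ≠ p * q) {A B : Set (IrrCharacter G)}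
    (hA : ∀ χ ∈ A, ∀ ψ, ψ ∉ A → ¬ SameBlock M (χ : G → ℂ) (ψ : G → ℂ))
    (hB : ∀ χ ∈ B, ∀ ψ, ψ ∉ B → ¬ SameBlock M' (χ : G → ℂ) (ψ : G → ℂ))
    {x y : G} (hx : p ∣ orderOf x) (hy : q ∣ orderOf y) :
    ∑ᶠ χ ∈ A ∩ B, conj ((χ : G → ℂ) x) * (χ : G → ℂ) y = 0 := by
  classical
  rw [finsum_mem_eq_sum_ite]
  have h1 := sum_kern_mul A B (fun χ => conj ((χ : G → ℂ) x)) y
  simp only [Set.mem_inter_iff]
  rw [← h1]
  have h2 : ∀ g, kern B y g * (∑ χ : IrrCharacter G, if χ ∈ A then conj ((χ : G → ℂ) x) * (χ : G → ℂ) g else 0) = 0 := by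
    intro g
    by_cases hg : p ∣ orderOf g
    · by_cases hg' : q ∣ orderOf g
      · obtain ⟨g', hg''⟩ := exists_order_mul hM.1 hM'.1 hpq hg hg'
        exact absurd hg'' (hno g')
      · have h3 := kern_eq_zero_of_closed hM' hB g y hg' hy
        have h4 := kern_conj B g y
        rw [h3, map_zero] at h4
        rw [← h4, zero_mul]
    · have h3 := kern_eq_zero_of_closed hM hA g x hg hx
      rw [kern_eq] at h3
      have h5 : (∑ χ : IrrCharacter G, if χ ∈ A then conj ((χ : G → ℂ) x) * (χ : G → ℂ) g else 0) = 0 := by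
        refine Eq.trans ?_ h3
        refine Finset.sum_congr rfl fun χ _ => ?_
        split_ifs
        · ring
        · rfl
      rw [h5, mul_zero]
  simp_rw [h2]
  simp

/-- S4498. -/
theorem exists_common_nonprincipal {p q : ℕ} (hM : IsPModular p M) (hM' : IsPModular q M') (hpq : p ≠ q)
    (hp : p ∣ Nat.card G) (hq : q ∣ Nat.card G) (hno : ∀ g : G, orderOf g ≠ p * q) :
    ∃ χ : IrrCharacter G, (χ : G → ℂ) ≠ (fun _ => 1) ∧ χ ∈ principalBlock M G ∧ χ ∈ principalBlock M' G := by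
  classical
  haveI := Fact.mk hM.1
  haveI := Fact.mk hM'.1
  obtain ⟨x, hx⟩ := exists_prime_orderOf_dvd_card' p hp
  obtain ⟨y, hy⟩ := exists_prime_orderOf_dvd_card' q hq
  by_contra hcon
  push_neg at hcon
  have h1 := sum_inter_eq_zero (A := principalBlock M G) (B := principalBlock M' G) hM hM' hpq hno
    (block_closed principal_isBlock) (block_closed principal_isBlock) (x := x) (y := y)
    (by rw [hx]) (by rw [hy])
  rw [finsum_mem_eq_sum_ite, Finset.sum_eq_single (one' G)] at h1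
  · simp only [Set.mem_inter_iff, one_mem_principal, and_self, if_true] at h1
    simp [one'] at h1
  · intro χ _ hχ
    rw [if_neg]
    rintro ⟨h2, h3⟩
    by_contra _
    apply hχ
    by_contra hne
    exact (hcon χ (fun h => hne (Subtype.ext h)) h2) h3
  · simp

/-- S4731. -/
theorem exists_inter_sum {p q : ℕ} (hM : IsPModular p M) (hM' : IsPModular q M') (hpq : p ≠ q)
    (hno : ∀ g : G, orderOf g ≠ p * q) {A B : Set (IrrCharacter G)}
    (hA : ∀ χ ∈ A, ∀ ψ, ψ ∉ A → ¬ SameBlock M (χ : G → ℂ) (ψ : G → ℂ))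
    (hB : ∀ χ ∈ B, ∀ ψ, ψ ∉ B → ¬ SameBlock M' (χ : G → ℂ) (ψ : G → ℂ))
    {y : G} (hy : p ∣ orderOf y) :
    ∃ ω : AlgInt, ∑ᶠ χ ∈ A ∩ B, (charDegree (χ : G → ℂ) : ℂ) * (χ : G → ℂ) y =
      (q : ℂ) ^ (Nat.card G).factorization q * (ω : ℂ) := by
  classical
  haveI := Fact.mk hM.1
  haveI := Fact.mk hM'.1
  obtain Q : Sylow q G := default
  letI : Fintype (Q : Subgroup G) := Fintype.ofFinite _
  -- vanishing at `q`-singular elements
  have hy' : p ∣ orderOf y⁻¹ := by rwa [orderOf_inv]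
  set ξ : G → ℂ := fun x => ∑ χ : IrrCharacter G, if χ ∈ A ∧ χ ∈ B then (χ : G → ℂ) y * (χ : G → ℂ) x else 0 with hξ
  have h1 : ∀ x, q ∣ orderOf x → ξ x = 0 := by
    intro x hx
    have h2 := sum_kern_mul A B (fun χ => (χ : G → ℂ) y) x
    rw [hξ]
    simp only
    rw [← h2]
    have h3 : ∀ g, kern B x g * (∑ χ : IrrCharacter G, if χ ∈ A then (χ : G → ℂ) y * (χ : G → ℂ) g else 0) = 0 := by
      intro g
      by_cases hg : q ∣ orderOf g
      · by_cases hg' : p ∣ orderOf g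
        · obtain ⟨g', hg''⟩ := exists_order_mul hM.1 hM'.1 hpq hg' hg
          exact absurd hg'' (hno g')
        · have h4 := kern_eq_zero_of_closed hM hA g y⁻¹ hg' hy'
          rw [kern_eq] at h4
          have h5 : (∑ χ : IrrCharacter G, if χ ∈ A then (χ : G → ℂ) y * (χ : G → ℂ) g else 0) = 0 := by
            refine Eq.trans ?_ h4
            refine Finset.sum_congr rfl fun χ _ => ?_
            split_ifs
            · rw [irr_conj_inv χ.2]; ring
            · rfl
          rw [h5, mul_zero]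
      · have h3 := kern_eq_zero_of_closed hM' hB g x hg hx
        have h4 := kern_conj B g x
        rw [h3, map_zero] at h4
        rw [← h4, zero_mul]
    simp_rw [h3]
    simp
  -- sum over the Sylow subgroup
  have hnat : ∀ χ : IrrCharacter G, ∃ n : ℕ, ∑ u : (Q : Subgroup G), (χ : G → ℂ) u =
      (Nat.card (Q : Subgroup G) : ℂ) * n := fun χ =>
    sum_subgroup_nat (IsIrrCharacter.isCharacter' χ.2) _
  choose n hn using hnat
  have h2 : ∑ u : (Q : Subgroup G), ξ (u : G) = ξ 1 := by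
    rw [Finset.sum_eq_single (1 : (Q : Subgroup G))]
    · rfl
    · intro u _ hu
      apply h1
      have h3 : IsPGroup q (Q : Subgroup G) := Q.isPGroup'
      obtain ⟨k, hk'⟩ := (IsPGroup.iff_orderOf.mp h3) u
      rw [Subgroup.orderOf_coe, hk']
      cases k with
      | zero =>
        rw [pow_zero, orderOf_eq_one_iff] at hk'
        exact absurd hk' hu
      | succ k => exact dvd_pow_self q (Nat.succ_ne_zero k)
    · simp
  have h3 : ∑ u : (Q : Subgroup G), ξ (u : G) = (Nat.card (Q : Subgroup G) : ℂ) *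
      ∑ χ : IrrCharacter G, if χ ∈ A ∧ χ ∈ B then (n χ : ℂ) * (χ : G → ℂ) y else 0 := by
    simp only [hξ, Finset.mul_sum]
    rw [Finset.sum_comm]
    refine Finset.sum_congr rfl fun χ _ => ?_
    split_ifs with h
    · rw [← Finset.mul_sum, hn χ]; ring
    · simp
  have hint : IsIntegral ℤ (∑ χ : IrrCharacter G, if χ ∈ A ∧ χ ∈ B then (n χ : ℂ) * (χ : G → ℂ) y else 0) := by
    refine IsIntegral.sum _ fun χ _ => ?_
    split_ifs with h
    · refine IsIntegral.mul (isIntegral_natCast _) ?_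
      obtain ⟨m, ρ, hρ, hχ⟩ := χ.2
      rw [← hχ]
      exact Cfsg.Agent.Lib.CharCore.isIntegral_character ρ _
    · exact isIntegral_zero
  refine ⟨⟨_, hint⟩, ?_⟩
  rw [finsum_mem_eq_sum_ite]
  have h4 : Nat.card (Q : Subgroup G) = q ^ (Nat.card G).factorization q := Sylow.card_eq_multiplicity Q
  have h5 : ((q : ℂ) ^ (Nat.card G).factorization q) = (Nat.card (Q : Subgroup G) : ℂ) := by
    rw [h4]; push_cast; rfl
  rw [h5]
  show _ = _ * (∑ χ : IrrCharacter G, if χ ∈ A ∧ χ ∈ B then (n χ : ℂ) * (χ : G → ℂ) y else 0)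
  rw [← h3, h2]
  simp only [hξ, Set.mem_inter_iff]
  refine Finset.sum_congr rfl fun χ _ => ?_
  split_ifs
  · rw [← irr_one_eq_charDegree]; ring
  · rfl

end Cfsg.Agent.Lib.BlockTwo
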