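import Cfsg.Agent.Lib.BlockNilN
import Cfsg.Agent.Lib.CharBlockInd
import Cfsg.Agent.Lib.FusionAlperin

/-!
# Regular elements centralizing a normalizer in a `p`-group
-/

set_option autoImplicit false
set_option linter.all false

namespace Cfsg.Agent.Lib.BlockUp

universe u

section Up

variable {G : Type u} [Group G] {p : ℕ}

/-- A `p`-regular element commuting with its commutator with `q`, when that commutator is a
`p`-element, commutes with `q`. -/
theorem comm_of_comm (hp : p.Prime) {x q : G}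
    (hzc : x * (x * q * x⁻¹ * q⁻¹) = (x * q * x⁻¹ * q⁻¹) * x)
    (hk : ∃ k : ℕ, (x * q * x⁻¹ * q⁻¹) ^ (p ^ k) = 1) (hreg : ¬ p ∣ orderOf x) : q * x = x * q := by
  set z : G := x * q * x⁻¹ * q⁻¹ with hz
  have hpow : ∀ n : ℕ, x ^ n * q * x⁻¹ ^ n = z ^ n * q := by
    intro n
    induction n with
    | zero => simp
    | succ n ih =>
      have e1 : x * (z ^ n) = z ^ n * x := ((Commute.pow_right (show Commute x z from hzc) n)).eq
      have e2 : x * q * x⁻¹ = z * q := by
        simp only [hz]
        group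
      calc x ^ (n + 1) * q * x⁻¹ ^ (n + 1) = x * (x ^ n * q * x⁻¹ ^ n) * x⁻¹ := by
            rw [pow_succ', pow_succ]
            group
        _ = x * (z ^ n * q) * x⁻¹ := by rw [ih]
        _ = (x * z ^ n) * q * x⁻¹ := by group
        _ = z ^ n * (x * q * x⁻¹) := by rw [e1]; group
        _ = z ^ n * (z * q) := by rw [e2]
        _ = z ^ (n + 1) * q := by rw [pow_succ]; group
  have hm := hpow (orderOf x)
  rw [inv_pow, pow_orderOf_eq_one, inv_one, one_mul, mul_one] at hm
  have hz1 : z ^ orderOf x = 1 := by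
    have : q = z ^ orderOf x * q := hm
    exact (mul_eq_right).1 this.symm
  obtain ⟨k, hk'⟩ := hk
  have h1 := orderOf_dvd_of_pow_eq_one hz1
  have h2 := orderOf_dvd_of_pow_eq_one hk'
  obtain ⟨j, hj, hj'⟩ := (Nat.dvd_prime_pow hp).1 h2
  have hj0 : j = 0 := by
    by_contra hne
    apply hreg
    refine dvd_trans ?_ h1
    rw [hj']
    exact dvd_pow_self p hne
  rw [hj0, pow_zero, orderOf_eq_one_iff] at hj'
  have e3 : x * q * x⁻¹ = q := by
    have : z = x * q * x⁻¹ * q⁻¹ := rfl
    rw [hj'] at this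
    exact (mul_inv_eq_one.1 this.symm)
  calc q * x = x * q * x⁻¹ * x := by rw [e3]
    _ = x * q := by group

/-- A `p`-regular element normalizing a `p`-subgroup `W`, and centralizing the normalizer in `W`
of a subgroup `Q ≤ W`, centralizes `W`. -/
theorem cent_up [Finite G] (hp : p.Prime) {W Q : Subgroup G} (hW : IsPGroup p W) {n : G}
    (hreg : ¬ p ∣ orderOf n) (hnW : n ∈ Subgroup.normalizer (W : Set G)) (hQW : Q ≤ W)
    (hc : n ∈ Subgroup.centralizer ((W ⊓ Subgroup.normalizer (Q : Set G) : Subgroup G) : Set G)) :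
    n ∈ Subgroup.centralizer (W : Set G) := by
  haveI : Fact p.Prime := ⟨hp⟩
  have key : ∀ R : Subgroup G, W ⊓ Subgroup.normalizer (Q : Set G) ≤ R → R ≤ W →
      n ∈ Subgroup.centralizer (R : Set G) → n ∈ Subgroup.centralizer (W : Set G) := by
    intro R
    induction R using WellFoundedGT.induction with
    | _ R ih =>
      intro h1 h2 h3
      rcases eq_or_lt_of_le h2 with rfl | hlt
      · exact h3
      obtain ⟨g, hgW, hgR, hgN⟩ :=
        Cfsg.Agent.Lib.FusionAlperin.exists_mem_normalizer_of_lt' hW hlt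
      have hQR : Q ≤ R := le_trans (le_inf hQW Subgroup.le_normalizer) h1
      refine ih (W ⊓ Subgroup.normalizer (R : Set G)) ?_ ?_ inf_le_left ?_
      · refine lt_of_le_of_ne (le_inf h2 Subgroup.le_normalizer) ?_
        intro he
        apply hgR
        rw [he]
        exact ⟨hgW, hgN⟩
      · intro y hy
        exact ⟨hy.1, Subgroup.le_normalizer (h1 hy)⟩
      · rw [Subgroup.mem_centralizer_iff]
        rintro x ⟨hxW, hxN⟩
        have hzW : n * x * n⁻¹ * x⁻¹ ∈ W :=
          W.mul_mem ((Subgroup.mem_normalizer_iff.1 hnW x).1 hxW) (W.inv_mem hxW)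
        have hzcent : ∀ r ∈ R, r * (n * x * n⁻¹ * x⁻¹) = (n * x * n⁻¹ * x⁻¹) * r := by
          intro r hr
          have hr' : x⁻¹ * r * x ∈ R := by
            have := (Subgroup.mem_normalizer_iff.1 (Subgroup.inv_mem _ hxN) r).1 hr
            simpa [mul_assoc] using this
          have c1 : n * (x⁻¹ * r * x) = (x⁻¹ * r * x) * n :=
            (Subgroup.mem_centralizer_iff.1 h3 _ hr').symm
          have c2 : n * r = r * n := (Subgroup.mem_centralizer_iff.1 h3 _ hr).symm
          have c3 : n⁻¹ * (x⁻¹ * r * x) = (x⁻¹ * r * x) * n⁻¹ := by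
            exact (show Commute n (x⁻¹ * r * x) from c1).inv_left.eq
          calc r * (n * x * n⁻¹ * x⁻¹) = (r * n) * x * n⁻¹ * x⁻¹ := by group
            _ = (n * r) * x * n⁻¹ * x⁻¹ := by rw [c2]
            _ = n * x * (x⁻¹ * r * x) * n⁻¹ * x⁻¹ := by group
            _ = n * x * ((x⁻¹ * r * x) * n⁻¹) * x⁻¹ := by group
            _ = n * x * (n⁻¹ * (x⁻¹ * r * x)) * x⁻¹ := by rw [c3]
            _ = (n * x * n⁻¹ * x⁻¹) * r := by group
        have hzN : n * x * n⁻¹ * x⁻¹ ∈ Subgroup.normalizer (Q : Set G) := by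
          rw [Subgroup.mem_normalizer_iff]
          intro h
          have hcq : ∀ h ∈ Q, (n * x * n⁻¹ * x⁻¹) * h * (n * x * n⁻¹ * x⁻¹)⁻¹ = h := by
            intro h hh
            rw [← hzcent h (hQR hh)]
            group
          constructor
          · intro hh
            rwa [hcq h hh]
          · intro hh
            have e2 := hcq _ hh
            have e3 := mul_left_cancel (mul_right_cancel e2)
            rwa [e3] at hh
        have hzR : n * x * n⁻¹ * x⁻¹ ∈ R := h1 ⟨hzW, hzN⟩
        have hzc : n * (n * x * n⁻¹ * x⁻¹) = (n * x * n⁻¹ * x⁻¹) * n :=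
          (Subgroup.mem_centralizer_iff.1 h3 _ hzR).symm
        have hk : ∃ k : ℕ, (n * x * n⁻¹ * x⁻¹) ^ (p ^ k) = 1 := by
          obtain ⟨k, hk⟩ := hW ⟨_, hzW⟩
          exact ⟨k, by simpa using congrArg Subtype.val hk⟩
        exact comm_of_comm hp hzc hk hreg
  exact key _ le_rfl inf_le_left hc

end Up

end Cfsg.Agent.Lib.BlockUp
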