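import Mathlib

/-! The Borel–Tits property for `SL_n(F)` in flag form. -/

namespace Cfsg.Agent.Lib.BorelTits

open Matrix

variable {F : Type*} [Field F] {n : ℕ}

local notation "SLn" => Matrix.SpecialLinearGroup (Fin n) F

/-- The action on vectors. -/
abbrev act (g : SLn) (v : Fin n → F) : Fin n → F := (g : Matrix (Fin n) (Fin n) F) *ᵥ v

theorem act_mul (g h : SLn) (v : Fin n → F) : act (g * h) v = act g (act h v) := by
  simp only [act, Matrix.SpecialLinearGroup.coe_mul, Matrix.mulVec_mulVec]

theorem act_one (v : Fin n → F) : act (1 : SLn) v = v := by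
  simp [act]

theorem act_inv_act (g : SLn) (v : Fin n → F) : act g (act g⁻¹ v) = v := by
  rw [← act_mul, mul_inv_cancel, act_one]

theorem act_act_inv (g : SLn) (v : Fin n → F) : act g⁻¹ (act g v) = v := by
  rw [← act_mul, inv_mul_cancel, act_one]

theorem act_sub (g : SLn) (v w : Fin n → F) : act g (v - w) = act g v - act g w := by
  simp [act, Matrix.mulVec_sub]

/-- The ascending chain of iterated fixed spaces. -/
def W (U : Subgroup SLn) : ℕ → Submodule F (Fin n → F)
  | 0 => ⊥
  | (i + 1) =>
    { carrier := {v | ∀ u ∈ U, act u v - v ∈ W U i}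
      add_mem' := by
        intro a b ha hb u hu
        have : act u (a + b) - (a + b) = (act u a - a) + (act u b - b) := by
          simp only [act, Matrix.mulVec_add]
          abel
        rw [this]
        exact (W U i).add_mem (ha u hu) (hb u hu)
      zero_mem' := by
        intro u _
        simp [act]
      smul_mem' := by
        intro c a ha u hu
        have : act u (c • a) - c • a = c • (act u a - a) := by
          simp only [act, Matrix.mulVec_smul, smul_sub]
        rw [this]
        exact (W U i).smul_mem c (ha u hu) }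

theorem mem_W_succ {U : Subgroup SLn} {i : ℕ} {v : Fin n → F} : v ∈ W U (i + 1) ↔ ∀ u ∈ U, act u v - v ∈ W U i := Iff.rfl

theorem W_le_succ {U : Subgroup SLn} (i : ℕ) : W U i ≤ W U (i + 1) := by
  induction i with
  | zero => exact bot_le
  | succ i ih =>
    intro v hv u hu
    exact ih (hv u hu)

theorem W_inv {U : Subgroup SLn} {i : ℕ} {v : Fin n → F} (hv : v ∈ W U i) {u : SLn} (hu : u ∈ U) : act u v ∈ W U i := by
  have h1 : v ∈ W U (i + 1) := W_le_succ i hv
  have h2 := h1 u hu
  have : act u v = (act u v - v) + v := by abel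
  rw [this]
  exact (W U i).add_mem h2 hv

theorem W_norm {U : Subgroup SLn} {g : SLn} (hg : g ∈ Subgroup.normalizer (U : Set SLn)) (i : ℕ) {v : Fin n → F}
    (hv : v ∈ W U i) : act g v ∈ W U i := by
  induction i generalizing v with
  | zero =>
    have : v = 0 := hv
    subst this
    simp [act]
  | succ i ih =>
    intro u hu
    have hu' : g⁻¹ * u * g ∈ U := by
      have hgi : g⁻¹ ∈ Subgroup.normalizer (U : Set SLn) := inv_mem hg
      have := (Subgroup.mem_normalizer_iff.1 hgi u).1 hu
      simpa using this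
    have h1 := hv _ hu'
    have h2 := ih h1
    have e : act g (act (g⁻¹ * u * g) v - v) = act u (act g v) - act g v := by
      rw [act_sub, act_mul, act_mul, act_inv_act]
    rwa [e] at h2

theorem W_map {U : Subgroup SLn} {g : SLn} (hg : g ∈ Subgroup.normalizer (U : Set SLn)) (i : ℕ) :
    (W U i).map (Matrix.mulVecLin (g : Matrix (Fin n) (Fin n) F)) = W U i := by
  apply le_antisymm
  · rintro _ ⟨v, hv, rfl⟩
    exact W_norm hg i hv
  · intro v hv
    refine ⟨act g⁻¹ v, W_norm (inv_mem hg) i hv, ?_⟩
    exact act_inv_act g v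

/-- A `p`-group has a nonzero fixed vector on each proper quotient. -/
theorem W_lt {U : Subgroup SLn} [Fintype F] (p : ℕ) [hp : Fact p.Prime] [CharP F p] (hU : IsPGroup p U) {i : ℕ} (hi : W U i ≠ ⊤) :
    W U i < W U (i + 1) := by
  classical
  refine lt_of_le_of_ne (W_le_succ i) ?_
  intro heq
  set W₀ := W U i with hW₀
  -- the action on the quotient
  have hinv : ∀ u : U, W₀ ≤ W₀.comap (Matrix.mulVecLin ((u : SLn) : Matrix (Fin n) (Fin n) F)) := by
    intro u v hv
    exact W_inv hv u.2
  letI : MulAction U ((Fin n → F) ⧸ W₀) :=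
    { smul := fun u x => Submodule.mapQ W₀ W₀ (Matrix.mulVecLin ((u : SLn) : Matrix (Fin n) (Fin n) F)) (hinv u) x
      one_smul := by
        intro x
        induction x using Submodule.Quotient.induction_on with
        | H v =>
          show Submodule.mapQ W₀ W₀ _ _ (Submodule.Quotient.mk v) = _
          rw [Submodule.mapQ_apply]
          simp
      mul_smul := by
        intro a b x
        induction x using Submodule.Quotient.induction_on with
        | H v =>
          show Submodule.mapQ W₀ W₀ _ _ (Submodule.Quotient.mk v) = Submodule.mapQ W₀ W₀ _ _ (Submodule.mapQ W₀ W₀ _ _ (Submodule.Quotient.mk v))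
          simp only [Submodule.mapQ_apply]
          congr 1
          exact act_mul _ _ _ }
  have hsmul : ∀ (u : U) (v : Fin n → F), u • (Submodule.Quotient.mk v : (Fin n → F) ⧸ W₀) = Submodule.Quotient.mk (act (u : SLn) v) := by
    intro u v
    show Submodule.mapQ W₀ W₀ _ _ (Submodule.Quotient.mk v) = _
    rw [Submodule.mapQ_apply]
    rfl
  haveI : Nontrivial ((Fin n → F) ⧸ W₀) := Submodule.Quotient.nontrivial_iff.2 hi
  have hcard : p ∣ Nat.card ((Fin n → F) ⧸ W₀) := by
    rw [Module.natCard_eq_pow_finrank (K := F)]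
    have h1 : p ∣ Nat.card F := by
      rw [Nat.card_eq_fintype_card]
      exact (CharP.cast_eq_zero_iff F p _).1 (Nat.cast_card_eq_zero F)
    exact dvd_pow h1 (Module.finrank_pos (R := F) (M := (Fin n → F) ⧸ W₀)).ne'
  have hmod := hU.card_modEq_card_fixedPoints ((Fin n → F) ⧸ W₀)
  have hdvd : p ∣ Nat.card (MulAction.fixedPoints U ((Fin n → F) ⧸ W₀)) :=
    (Nat.modEq_zero_iff_dvd.1 (hmod.symm.trans ((Nat.modEq_zero_iff_dvd.2 hcard))))
  -- a nonzero fixed point
  have h0mem : (0 : (Fin n → F) ⧸ W₀) ∈ MulAction.fixedPoints U ((Fin n → F) ⧸ W₀) := by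
    intro u
    have := hsmul u 0
    simpa [act] using this
  obtain ⟨x, hx, hx0⟩ : ∃ x ∈ MulAction.fixedPoints U ((Fin n → F) ⧸ W₀), x ≠ 0 := by
    by_contra hno
    push Not at hno
    have hone : Nat.card (MulAction.fixedPoints U ((Fin n → F) ⧸ W₀)) = 1 := by
      rw [Nat.card_eq_one_iff_unique]
      refine ⟨⟨?_⟩, ⟨⟨0, h0mem⟩⟩⟩
      rintro ⟨a, ha⟩ ⟨b, hb⟩
      apply Subtype.ext
      show a = b
      rw [hno a ha, hno b hb]
    rw [hone] at hdvd
    exact hp.out.one_lt.ne' (Nat.dvd_one.1 hdvd)
  obtain ⟨v, rfl⟩ := Submodule.Quotient.mk_surjective _ x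
  apply hx0
  rw [Submodule.Quotient.mk_eq_zero]
  rw [heq]
  intro u hu
  have h1 := hx ⟨u, hu⟩
  rw [hsmul] at h1
  have := (Submodule.Quotient.eq W₀).1 h1
  exact this

/-- The flag statement. -/
theorem flag {U : Subgroup SLn} [Fintype F] (p : ℕ) [hp : Fact p.Prime] [CharP F p]
    (hU : IsPGroup p U) (hne : U ≠ ⊥) :
    ∃ (k : ℕ) (V : Fin (k + 2) → Submodule F (Fin n → F)), 1 ≤ k ∧ StrictMono V ∧ V 0 = ⊥ ∧ V (Fin.last (k + 1)) = ⊤ ∧
      (∀ g : SLn, g ∈ Subgroup.normalizer (U : Set SLn) → ∀ i, (V i).map (Matrix.mulVecLin (g : Matrix (Fin n) (Fin n) F)) = V i) ∧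
      (∀ u : SLn, u ∈ U → ∀ i : Fin (k + 1), ∀ v ∈ V i.succ, (u : Matrix (Fin n) (Fin n) F).mulVec v - v ∈ V (Fin.castSucc i)) := by
  classical
  have hex : ∃ t, W U t = ⊤ := by
    by_contra hno
    push Not at hno
    have hdim : ∀ i, i ≤ Module.finrank F (W U i) := by
      intro i
      induction i with
      | zero => exact Nat.zero_le _
      | succ i ih =>
        have := Submodule.finrank_lt_finrank_of_lt (W_lt p hU (hno i))
        omega
    have h1 := hdim (n + 1)
    have h2 := Submodule.finrank_le (W U (n + 1))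
    rw [Module.finrank_fin_fun] at h2
    omega
  set t := Nat.find hex with ht
  have htop : W U t = ⊤ := Nat.find_spec hex
  have hlt : ∀ i, i < t → W U i ≠ ⊤ := fun i hi => Nat.find_min hex hi
  have ht2 : 2 ≤ t := by
    by_contra hcon
    have hle : t ≤ 1 := by omega
    have h1 : W U 1 = ⊤ := by
      have : W U t ≤ W U 1 := by
        interval_cases t
        · exact W_le_succ 0
        · exact le_rfl
      rw [htop] at this
      exact top_le_iff.1 this
    apply hne
    rw [eq_bot_iff]
    intro u hu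
    rw [Subgroup.mem_bot]
    apply Matrix.SpecialLinearGroup.ext
    intro i j
    have h2 : (Pi.single j (1 : F) : Fin n → F) ∈ W U 1 := by rw [h1]; trivial
    have h3 := h2 u hu
    have h4 : act u (Pi.single j (1 : F)) - Pi.single j (1 : F) = 0 := h3
    have h5 := congrFun (sub_eq_zero.1 h4) i
    simp only [act, Matrix.mulVec_single_one] at h5
    simpa [Matrix.one_apply, Pi.single_apply, eq_comm] using h5
  obtain ⟨k, hk⟩ : ∃ k, t = k + 1 := ⟨t - 1, by omega⟩
  refine ⟨k, fun i => W U i, by omega, ?_, rfl, ?_, ?_, ?_⟩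
  · rw [Fin.strictMono_iff_lt_succ]
    intro i
    exact W_lt p hU (hlt i (by have := i.2; omega))
  · simp only [Fin.val_last]
    rw [← hk]; exact htop
  · intro g hg i
    exact W_map hg i
  · intro u hu i v hv
    exact hv u hu

end Cfsg.Agent.Lib.BorelTits
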