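import Mathlib
import Cfsg.Agent.Lib.H6Inv2

/-!
Frobenius' divisibility theorem on the number of solutions of `x ^ n = 1`.
-/

set_option autoImplicit false
set_option linter.all false

namespace Cfsg.Agent.Lib.H6Frob

universe u

variable {G : Type u} [Group G]

/-- Splitting an element into coprime parts. -/
theorem card_decomp [Finite G] {k m : ℕ} (h : Nat.Coprime k m) :
    Nat.card {g : G // g ^ (k * m) = 1} =
      Nat.card (Σ v : {v : G // v ^ m = 1}, {u : G // u * v = v * u ∧ u ^ k = 1}) := by
  classical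
  have hb : (1 : ℤ) = k * Nat.gcdA k m + m * Nat.gcdB k m := by
    have := Nat.gcd_eq_gcd_ab k m
    rw [h] at this
    exact_mod_cast this
  set x := Nat.gcdA k m with hx
  set y := Nat.gcdB k m with hy
  symm
  apply Nat.card_congr
  refine Equiv.ofBijective (fun w => ⟨(w.1 : G) * w.2, ?_⟩) ⟨?_, ?_⟩
  · obtain ⟨⟨v, hv⟩, ⟨u, huc, hu⟩⟩ := w
    have hc : Commute v u := huc.symm
    show (v * u) ^ (k * m) = 1
    rw [hc.mul_pow, mul_comm k m, pow_mul v m k, hv, one_pow, one_mul, mul_comm m k, pow_mul u k m, hu, one_pow]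
  · have key : ∀ (v u : G), v ^ m = 1 → u ^ k = 1 → u * v = v * u → (v * u) ^ ((k : ℤ) * x) = v := by
      intro v u hv hu hc
      have hc' : Commute v u := hc.symm
      rw [hc'.mul_zpow]
      have h1 : u ^ ((k : ℤ) * x) = 1 := by
        rw [zpow_mul, zpow_natCast, hu, one_zpow]
      have h2 : v ^ ((k : ℤ) * x) = v := by
        have h3 : (k : ℤ) * x = 1 - m * y := by linarith
        rw [h3, zpow_sub, zpow_one, zpow_mul, zpow_natCast, hv, one_zpow, inv_one, mul_one]
      rw [h1, h2, mul_one]
    rintro ⟨⟨v, hv⟩, ⟨u, huc, hu⟩⟩ ⟨⟨v', hv'⟩, ⟨u', huc', hu'⟩⟩ heq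
    have heq' : v * u = v' * u' := congrArg Subtype.val heq
    have h1 := key v u hv hu huc
    have h2 := key v' u' hv' hu' huc'
    have hvv : v = v' := by rw [← h1, ← h2, heq']
    subst hvv
    have huu : u = u' := mul_left_cancel heq'
    subst huu
    rfl
  · rintro ⟨g, hg⟩
    have hcomm : Commute (g ^ ((k : ℤ) * x)) (g ^ ((m : ℤ) * y)) := (Commute.refl g).zpow_zpow _ _
    refine ⟨⟨⟨g ^ ((k : ℤ) * x), ?_⟩, ⟨g ^ ((m : ℤ) * y), hcomm.symm.eq, ?_⟩⟩, ?_⟩
    · rw [← zpow_natCast, ← zpow_mul]
      have : (k : ℤ) * x * m = ((k * m : ℕ) : ℤ) * x := by push_cast; ring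
      rw [this, zpow_mul, zpow_natCast, hg, one_zpow]
    · rw [← zpow_natCast, ← zpow_mul]
      have : (m : ℤ) * y * k = ((k * m : ℕ) : ℤ) * y := by push_cast; ring
      rw [this, zpow_mul, zpow_natCast, hg, one_zpow]
    · apply Subtype.ext
      show g ^ ((k : ℤ) * x) * g ^ ((m : ℤ) * y) = g
      rw [← zpow_add, ← hb, zpow_one]

/-- The class equation part. -/
theorem core [Finite G] {p a m : ℕ} (hp : p.Prime) (hm : Nat.Coprime p m) (hdvd : p ^ a ∣ Nat.card G)
    (IH : ∀ v : G, v ∉ Subgroup.center G → ∀ n, n ∣ Nat.card (Subgroup.centralizer ({v} : Set G)) →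
      n ∣ Nat.card {u : Subgroup.centralizer ({v} : Set G) // u ^ n = 1}) :
    ∃ X z : ℕ, Nat.card {g : G // g ^ (p ^ a * m) = 1} = X + z * Nat.card {g : G // g ^ (p ^ a) = 1} ∧
      p ^ a ∣ X ∧ ¬ p ∣ z := by
  classical
  set k := p ^ a with hk
  have hkm : Nat.Coprime k m := Nat.Coprime.pow_left a hm
  letI : Fintype {v : G // v ^ m = 1} := Fintype.ofFinite _
  let f : {v : G // v ^ m = 1} → ℕ := fun v => Nat.card {u : G // u * v = v * u ∧ u ^ k = 1}
  have hE : Nat.card {g : G // g ^ (k * m) = 1} = ∑ v, f v := by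
    rw [card_decomp hkm, Nat.card_sigma]
  let c : {v : G // v ^ m = 1} → Prop := fun v => (v : G) ∈ Subgroup.center G
  let A := Nat.card {g : G // g ^ k = 1}
  have hcentral : ∀ v, c v → f v = A := by
    intro v hv
    apply Nat.card_congr
    refine Equiv.subtypeEquivRight (fun u => ?_)
    have : u * v = v * u := (Subgroup.mem_center_iff.mp hv u)
    simp [this]
  let X := ∑ v, if c v then 0 else f v
  let z := (Finset.univ.filter c).card
  refine ⟨X, z, ?_, ?_, ?_⟩
  · rw [hE]
    have h1 : ∀ v, f v = (if c v then 0 else f v) + (if c v then A else 0) := by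
      intro v
      by_cases hv : c v
      · simp [hv, hcentral v hv]
      · simp [hv]
    calc ∑ v, f v = ∑ v, ((if c v then 0 else f v) + (if c v then A else 0)) :=
          Finset.sum_congr rfl (fun v _ => h1 v)
      _ = X + ∑ v, (if c v then A else 0) := Finset.sum_add_distrib
      _ = X + z * A := by
        congr 1
        rw [← Finset.sum_filter, Finset.sum_const, smul_eq_mul]
  · -- divisibility over orbits
    letI act : MulAction G {v : G // v ^ m = 1} :=
      { smul := fun g v => ⟨g * v * g⁻¹, by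
          have := conj_pow (a := g) (b := (v : G)) (i := m)
          rw [this, v.2]
          group⟩
        one_smul := fun v => Subtype.ext (by change (1 : G) * v * (1 : G)⁻¹ = v; group)
        mul_smul := fun a b v => Subtype.ext (by
          change a * b * v * (a * b)⁻¹ = a * (b * v * b⁻¹) * a⁻¹
          group) }
    have hsm : ∀ (g : G) (v : {v : G // v ^ m = 1}), ((g • v : {v : G // v ^ m = 1}) : G) = g * v * g⁻¹ :=
      fun _ _ => rfl
    have hfc : ∀ (g : G) v, f (g • v) = f v := by
      intro g v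
      apply Nat.card_congr
      refine ⟨fun u => ⟨g⁻¹ * u * g, ?_, ?_⟩, fun u => ⟨g * u * g⁻¹, ?_, ?_⟩, ?_, ?_⟩
      · have h1 : (u : G) * (g * v * g⁻¹) = g * v * g⁻¹ * u := u.2.1
        calc g⁻¹ * u * g * v = g⁻¹ * ((u : G) * (g * v * g⁻¹)) * g := by group
          _ = g⁻¹ * (g * v * g⁻¹ * u) * g := by rw [h1]
          _ = v * (g⁻¹ * u * g) := by group
      · have := conj_pow (a := g⁻¹) (b := (u : G)) (i := k)
        rw [inv_inv] at this
        rw [this, u.2.2]
        group
      · change g * u * g⁻¹ * (g * v * g⁻¹) = g * v * g⁻¹ * (g * u * g⁻¹)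
        have h1 := u.2.1
        calc g * u * g⁻¹ * (g * v * g⁻¹) = g * ((u : G) * v) * g⁻¹ := by group
          _ = g * (v * (u : G)) * g⁻¹ := by rw [h1]
          _ = g * v * g⁻¹ * (g * u * g⁻¹) := by group
      · have := conj_pow (a := g) (b := (u : G)) (i := k)
        rw [this, u.2.2]
        group
      · intro u
        apply Subtype.ext
        show g * (g⁻¹ * u * g) * g⁻¹ = u
        group
      · intro u
        apply Subtype.ext
        show g⁻¹ * (g * u * g⁻¹) * g = u
        group
    have hcc : ∀ (g : G) v, c (g • v) ↔ c v := by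
      intro g v
      change g * v * g⁻¹ ∈ Subgroup.center G ↔ (v : G) ∈ Subgroup.center G
      constructor
      · intro h
        have h1 := (Subgroup.center G).normal_in_normalizer
        have h2 : g⁻¹ * (g * v * g⁻¹) * g = g * v * g⁻¹ := by
          have := Subgroup.mem_center_iff.mp h g⁻¹
          calc g⁻¹ * (g * v * g⁻¹) * g = (g * v * g⁻¹) * g⁻¹ * g := by rw [this]
            _ = g * v * g⁻¹ := by group
        have h3 : (v : G) = g * v * g⁻¹ := by
          rw [← h2]
          group
        rw [h3]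
        exact h
      · intro h
        have h2 : g * v * g⁻¹ = (v : G) := by
          have := Subgroup.mem_center_iff.mp h g
          rw [this]
          group
        rw [h2]
        exact h
    let f' : {v : G // v ^ m = 1} → ℤ := fun v => ((if c v then 0 else f v : ℕ) : ℤ)
    have hsum := Cfsg.Agent.Lib.H6Inv2.dvd_sum_of_orbits (Λ := G) f' (fun g v => by
      simp only [f', hfc g v]
      by_cases hv : c v
      · rw [if_pos hv, if_pos ((hcc g v).mpr hv)]
      · rw [if_neg hv, if_neg (fun h => hv ((hcc g v).mp h))]) (k : ℤ) (fun v => by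
      by_cases hv : c v
      · simp [f', hv]
      · simp only [f', if_neg hv]
        have hst : MulAction.stabilizer G v = Subgroup.centralizer ({(v : G)} : Set G) := by
          ext g
          rw [MulAction.mem_stabilizer_iff, Subgroup.mem_centralizer_singleton_iff]
          constructor
          · intro h
            have h1 : g * v * g⁻¹ = v := congrArg Subtype.val h
            calc g * v = g * v * g⁻¹ * g := by group
              _ = v * g := by rw [h1]
          · intro h
            apply Subtype.ext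
            change g * v * g⁻¹ = v
            rw [h]
            group
        have hcard : Nat.card (MulAction.orbit G v) = (Subgroup.centralizer ({(v : G)} : Set G)).index := by
          rw [Nat.card_coe_set_eq, ← MulAction.index_stabilizer, hst]
        rw [hcard]
        set C := Subgroup.centralizer ({(v : G)} : Set G) with hC
        have hD := IH v hv (Nat.gcd k (Nat.card C)) (Nat.gcd_dvd_right _ _)
        have hD2 : Nat.card {u : C // u ^ (Nat.gcd k (Nat.card C)) = 1} = f v := by
          apply Nat.card_congr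
          refine ⟨fun u => ⟨u.1, Subgroup.mem_centralizer_singleton_iff.mp u.1.2, ?_⟩,
            fun u => ⟨⟨u.1, Subgroup.mem_centralizer_singleton_iff.mpr u.2.1⟩, ?_⟩, ?_, ?_⟩
          · have h1 : (u.1 : C) ^ k = 1 :=
              orderOf_dvd_iff_pow_eq_one.mp ((orderOf_dvd_of_pow_eq_one u.2).trans (Nat.gcd_dvd_left _ _))
            exact congrArg Subtype.val h1
          · apply Subtype.ext
            have h1 : (⟨u.1, Subgroup.mem_centralizer_singleton_iff.mpr u.2.1⟩ : C) ^ k = 1 :=
              Subtype.ext u.2.2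
            apply (Subtype.ext_iff.mp (orderOf_dvd_iff_pow_eq_one.mp (Nat.dvd_gcd
              (orderOf_dvd_of_pow_eq_one h1) (orderOf_dvd_natCard _))))
          · intro u
            rfl
          · intro u
            rfl
        rw [hD2] at hD
        have h5 : k ∣ Nat.card G := hdvd
        rw [← C.card_mul_index] at h5
        have h6 : k ∣ Nat.gcd k (Nat.card C) * C.index := by
          rw [← Nat.gcd_mul_right]
          exact Nat.dvd_gcd (Dvd.intro _ rfl) h5
        have h7 : k ∣ C.index * f v := by
          calc k ∣ Nat.gcd k (Nat.card C) * C.index := h6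
            _ = C.index * Nat.gcd k (Nat.card C) := mul_comm _ _
            _ ∣ C.index * f v := Nat.mul_dvd_mul_left _ hD
        exact_mod_cast h7)
    have h8 : ∑ v, f' v = ((∑ v, if c v then 0 else f v : ℕ) : ℤ) := by
      rw [Nat.cast_sum]
    rw [h8] at hsum
    exact_mod_cast hsum
  · intro hpz
    have hcmt : ∀ x y : Subgroup.center G, Commute x y := fun x y =>
      Subtype.ext (Subgroup.mem_center_iff.mp y.2 x)
    let Zk : Subgroup (Subgroup.center G) :=
      { carrier := {x | x ^ m = 1}
        mul_mem' := fun {x y} hx hy => by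
          change (x * y) ^ m = 1
          rw [(hcmt x y).mul_pow, hx, hy, one_mul]
        one_mem' := one_pow m
        inv_mem' := fun {x} hx => by
          change x⁻¹ ^ m = 1
          rw [inv_pow, hx, inv_one] }
    have hcardZ : Nat.card Zk = z := by
      have h1 : z = Fintype.card {v : {v : G // v ^ m = 1} // c v} := by
        rw [Fintype.card_subtype]
      rw [h1, ← Nat.card_eq_fintype_card]
      apply Nat.card_congr
      refine ⟨fun x => ⟨⟨x.1.1, ?_⟩, x.1.2⟩, fun x => ⟨⟨x.1.1, x.2⟩, ?_⟩, ?_, ?_⟩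
      · have h2 : (x.1 : Subgroup.center G) ^ m = 1 := x.2
        exact congrArg Subtype.val h2
      · apply Subtype.ext
        exact x.1.2
      · intro x
        rfl
      · intro x
        rfl
    haveI : Fact p.Prime := ⟨hp⟩
    rw [← hcardZ] at hpz
    obtain ⟨w, hw⟩ := exists_prime_orderOf_dvd_card' p hpz
    have h3 : (w : Subgroup.center G) ^ m = 1 := w.2
    have h4 : w ^ m = 1 := Subtype.ext h3
    have h5 : p ∣ m := by
      rw [← hw]
      exact orderOf_dvd_of_pow_eq_one h4
    exact (Nat.Prime.coprime_iff_not_dvd hp).mp hm h5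

/-- The number of elements of a given order is a multiple of the totient of the order. -/
theorem totient_dvd_card_order [Finite G] (d : ℕ) : Nat.totient d ∣ Nat.card {x : G // orderOf x = d} := by
  classical
  letI : Fintype {x : G // orderOf x = d} := Fintype.ofFinite _
  letI : Fintype (Subgroup G) := Fintype.ofFinite _
  rw [Nat.card_eq_fintype_card]
  let π : {x : G // orderOf x = d} → Subgroup G := fun x => Subgroup.zpowers (x : G)
  rw [← Finset.card_univ]
  rw [Finset.card_eq_sum_card_fiberwise (f := π) (t := Finset.univ.image π)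
    (fun x _ => Finset.mem_coe.mpr (Finset.mem_image_of_mem π (Finset.mem_univ x)))]
  refine Finset.dvd_sum fun C hC => ?_
  obtain ⟨x₀, -, rfl⟩ := Finset.mem_image.mp hC
  letI : Fintype (π x₀) := Fintype.ofFinite _
  have hcard : Fintype.card (π x₀) = d := by
    rw [← Nat.card_eq_fintype_card]
    show Nat.card (Subgroup.zpowers (x₀ : G)) = d
    rw [Nat.card_zpowers]
    exact x₀.2
  have h1 := IsCyclic.card_orderOf_eq_totient (α := π x₀) (d := d) (by rw [hcard])
  rw [← h1]
  apply dvd_of_eq
  rw [← Fintype.card_subtype, ← Fintype.card_subtype]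
  apply Fintype.card_congr
  have hordC : ∀ a : π x₀, orderOf a = d → orderOf (a : G) = d := by
    intro a ha
    rw [Subgroup.orderOf_coe]
    exact ha
  have hzp : ∀ (a : π x₀) (ha : orderOf a = d), π ⟨(a : G), hordC a ha⟩ = π x₀ := by
    intro a ha
    apply Subgroup.eq_of_le_of_card_ge
    · exact Subgroup.zpowers_le.mpr a.2
    · have h3 : Nat.card (Subgroup.zpowers (a : G)) = d := by rw [Nat.card_zpowers, hordC a ha]
      have h4 : Nat.card (π x₀) = d := by rw [Nat.card_eq_fintype_card, hcard]
      show Nat.card (π x₀) ≤ Nat.card (Subgroup.zpowers (a : G))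
      rw [h3, h4]
  have hmem : ∀ x : {x : G // orderOf x = d}, π x = π x₀ → (x : G) ∈ π x₀ := by
    intro x hx
    rw [← hx]
    exact Subgroup.mem_zpowers _
  refine ⟨fun a => ⟨⟨(a.1 : G), hordC a.1 a.2⟩, hzp a.1 a.2⟩,
    fun x => ⟨⟨(x.1 : G), hmem x.1 x.2⟩, ?_⟩, ?_, ?_⟩
  · rw [← Subgroup.orderOf_coe]
    exact x.1.2
  · intro a
    rfl
  · intro x
    rfl

/-- The main theorem, in all universes. -/
theorem frobenius : ∀ (G : Type u) [Group G] [Finite G] (n : ℕ), n ∣ Nat.card G →
    n ∣ Nat.card {g : G // g ^ n = 1} := by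
  intro G
  induction' hcard : Nat.card G using Nat.strong_induction_on with N IHN generalizing G
  intro _ _ n hn
  subst hcard
  have IH : ∀ v : G, v ∉ Subgroup.center G → ∀ n, n ∣ Nat.card (Subgroup.centralizer ({v} : Set G)) →
      n ∣ Nat.card {u : Subgroup.centralizer ({v} : Set G) // u ^ n = 1} := by
    intro v hv n hn
    have hlt : Nat.card (Subgroup.centralizer ({v} : Set G)) < Nat.card G := by
      have hne : Subgroup.centralizer ({v} : Set G) ≠ ⊤ := fun h => hv (Subgroup.mem_center_iff.mpr
        fun g => Subgroup.mem_centralizer_singleton_iff.mp (by rw [h]; trivial))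
      exact lt_of_le_of_ne (Subgroup.card_le_card_group _) (fun h => hne (Subgroup.eq_top_of_card_eq _ h))
    exact IHN _ hlt (Subgroup.centralizer ({v} : Set G)) rfl n hn
  have hG0 : Nat.card G ≠ 0 := Nat.card_pos.ne'
  -- the Sylow case
  have step1 : ∀ p c m : ℕ, p.Prime → ¬ p ∣ m → Nat.card G = p ^ c * m →
      p ^ c ∣ Nat.card {g : G // g ^ (p ^ c) = 1} := by
    intro p c m hp hm hc
    have hcop : Nat.Coprime p m := (Nat.Prime.coprime_iff_not_dvd hp).mpr hm
    obtain ⟨X, z, h1, h2, h3⟩ := core hp hcop (by rw [hc]; exact Dvd.intro _ rfl) IH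
    have h4 : Nat.card {g : G // g ^ (p ^ c * m) = 1} = Nat.card G := by
      rw [← hc]
      apply Nat.card_congr
      refine (Equiv.subtypeUnivEquiv ?_)
      intro g
      exact pow_card_eq_one'
    rw [h4] at h1
    have h5 : p ^ c ∣ z * Nat.card {g : G // g ^ (p ^ c) = 1} := by
      have h6 : p ^ c ∣ Nat.card G := by rw [hc]; exact Dvd.intro _ rfl
      rw [h1] at h6
      exact (Nat.dvd_add_right h2).mp h6
    have hcz : Nat.Coprime (p ^ c) z := Nat.Coprime.pow_left c ((Nat.Prime.coprime_iff_not_dvd hp).mpr h3)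
    exact hcz.dvd_of_dvd_mul_left h5
  -- descending to smaller prime powers
  have step2 : ∀ p c m : ℕ, p.Prime → ¬ p ∣ m → Nat.card G = p ^ c * m → ∀ i, i ≤ c →
      p ^ (c - i) ∣ Nat.card {g : G // g ^ (p ^ (c - i)) = 1} := by
    intro p c m hp hm hc i
    induction i with
    | zero =>
      intro _
      exact step1 p c m hp hm hc
    | succ i ih =>
      intro hi
      have h1 := ih (by omega)
      obtain ⟨a, ha⟩ : ∃ a, c - i = a + 1 := ⟨c - i - 1, by omega⟩
      have ha2 : c - (i + 1) = a := by omega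
      rw [ha] at h1
      rw [ha2]
      classical
      have hsplit : Nat.card {g : G // g ^ (p ^ (a + 1)) = 1} =
          Nat.card {g : G // g ^ (p ^ a) = 1} + Nat.card {g : G // orderOf g = p ^ (a + 1)} := by
        rw [← Nat.card_sum]
        apply Nat.card_congr
        have hA : ∀ g : {g : G // g ^ (p ^ a) = 1}, (g : G) ^ (p ^ (a + 1)) = 1 := by
          intro g
          rw [pow_succ, pow_mul, g.2, one_pow]
        have hB : ∀ g : {g : G // orderOf g = p ^ (a + 1)}, (g : G) ^ (p ^ (a + 1)) = 1 := by
          intro g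
          have h5 := pow_orderOf_eq_one (g : G)
          rwa [g.2] at h5
        have hC : ∀ g : {g : G // g ^ (p ^ (a + 1)) = 1}, ¬ (g : G) ^ (p ^ a) = 1 →
            orderOf (g : G) = p ^ (a + 1) := by
          intro g h
          haveI : Fact p.Prime := ⟨hp⟩
          exact orderOf_eq_prime_pow h g.2
        have hD : ∀ g : {g : G // orderOf g = p ^ (a + 1)}, ¬ (g : G) ^ (p ^ a) = 1 := by
          intro g h
          have h2 := orderOf_dvd_of_pow_eq_one h
          rw [g.2] at h2
          exact absurd (Nat.le_of_dvd (pow_pos hp.pos _) h2)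
            (not_le.mpr (Nat.pow_lt_pow_right hp.one_lt (Nat.lt_succ_self a)))
        refine ⟨fun g => if h : (g : G) ^ (p ^ a) = 1 then Sum.inl ⟨g, h⟩ else Sum.inr ⟨g, hC g h⟩,
          fun w => Sum.elim (fun g => ⟨g.1, hA g⟩) (fun g => ⟨g.1, hB g⟩) w, ?_, ?_⟩
        · intro g
          by_cases h : (g : G) ^ (p ^ a) = 1 <;> simp [h]
        · rintro (g | g)
          · simp [g.2]
          · simp [hD g]
      have h2 : p ^ a ∣ Nat.card {g : G // orderOf g = p ^ (a + 1)} := by
        have := totient_dvd_card_order (G := G) (p ^ (a + 1))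
        rw [Nat.totient_prime_pow_succ hp] at this
        exact (Dvd.intro _ rfl).trans this
      have h3 : p ^ a ∣ Nat.card {g : G // g ^ (p ^ (a + 1)) = 1} :=
        (pow_dvd_pow p (Nat.le_succ a)).trans h1
      rw [hsplit] at h3
      exact (Nat.dvd_add_left h2).mp h3
  -- the general case
  have hn0 : n ≠ 0 := by
    rintro rfl
    exact hG0 (Nat.eq_zero_of_zero_dvd hn)
  rw [Nat.dvd_iff_prime_pow_dvd_dvd]
  intro p k hp hpk
  obtain ⟨a, m, hm, hnm⟩ := Nat.exists_eq_pow_mul_and_not_dvd hn0 p hp.ne_one
  obtain ⟨c, m', hm', hGm⟩ := Nat.exists_eq_pow_mul_and_not_dvd hG0 p hp.ne_one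
  have hpa : p ^ a ∣ Nat.card G := by
    rw [hnm] at hn
    exact (Dvd.intro _ rfl).trans hn
  have hac : a ≤ c := by
    rw [hGm] at hpa
    have hcop : Nat.Coprime (p ^ a) m' := Nat.Coprime.pow_left a ((Nat.Prime.coprime_iff_not_dvd hp).mpr hm')
    exact (Nat.pow_dvd_pow_iff_le_right hp.one_lt).mp (hcop.dvd_of_dvd_mul_right hpa)
  have hka : k ≤ a := by
    rw [hnm] at hpk
    have hcop : Nat.Coprime (p ^ k) m := Nat.Coprime.pow_left k ((Nat.Prime.coprime_iff_not_dvd hp).mpr hm)
    exact (Nat.pow_dvd_pow_iff_le_right hp.one_lt).mp (hcop.dvd_of_dvd_mul_right hpk)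
  have hstep := step2 p c m' hp hm' hGm (c - a) (by omega)
  have hca : c - (c - a) = a := by omega
  rw [hca] at hstep
  obtain ⟨X, z, h1, h2, h3⟩ := core hp ((Nat.Prime.coprime_iff_not_dvd hp).mpr hm) hpa IH
  rw [← hnm] at h1
  refine (pow_dvd_pow p hka).trans ?_
  rw [h1]
  exact dvd_add h2 (Dvd.dvd.mul_left hstep _)

end Cfsg.Agent.Lib.H6Frob
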