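import Mathlib
import Cfsg.Prelude.Def_Blocks
import Cfsg.Agent.Lib.BrauerSection
import Cfsg.Agent.Lib.CharIso
import Cfsg.Agent.Lib.H6Frob
import Cfsg.Agent.Lib.SylowCount

/-!
# A Hall subgroup controlling its fusion and containing elementary subgroups up to conjugacy has a normal complement
-/

set_option autoImplicit false
set_option linter.style.haveILetI false
set_option linter.unusedSectionVars false
set_option linter.unusedVariables false

namespace Cfsg.Agent.Lib.BrauerComplement

open scoped ComplexConjugate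
open Module Cfsg Cfsg.Agent.Lib.CharOps Cfsg.Agent.Lib.CharIrr Cfsg.Agent.Lib.CharGen
  Cfsg.Agent.Lib.BrauerInd Cfsg.Agent.Lib.BrauerElem Cfsg.Agent.Lib.BrauerThm Cfsg.Agent.Lib.BrauerHall
  Cfsg.Agent.Lib.CharBlockLocal Cfsg.Agent.Lib.CharBlockConv Cfsg.Agent.Lib.CharBlockOrth
  Cfsg.Agent.Lib.BrauerSection

universe u

variable {G : Type u} [Group G] [Fintype G]

/-- The hypotheses of the theorem. -/
structure Data (H : Subgroup G) : Prop where
  hall : Nat.Coprime (Nat.card H) H.index
  fus : ∀ x ∈ H, ∀ y ∈ H, IsConj x y → ∃ h ∈ H, h * x * h⁻¹ = y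
  elem : ∀ (E : Subgroup G) (p : ℕ), p.Prime → IsElementary p E → Nat.card E ∣ Nat.card H →
    ∃ g : G, E.map (MulAut.conj g).toMonoidHom ≤ H

variable {H : Subgroup G}

/-- The exponent extracting `π`-parts. -/
noncomputable def alpha (hD : Data H) : ℕ := Nat.chineseRemainder hD.hall 1 0

theorem alpha_one (hD : Data H) : alpha hD ≡ 1 [MOD Nat.card H] := (Nat.chineseRemainder hD.hall 1 0).2.1

theorem alpha_zero (hD : Data H) : alpha hD ≡ 0 [MOD H.index] := (Nat.chineseRemainder hD.hall 1 0).2.2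

theorem card_eq (H : Subgroup G) : Nat.card G = Nat.card H * H.index := (Subgroup.card_mul_index H).symm

theorem pow_alpha_of_dvd (hD : Data H) {x : G} (hx : orderOf x ∣ Nat.card H) : x ^ alpha hD = x := by
  have : alpha hD ≡ 1 [MOD orderOf x] := (alpha_one hD).of_dvd hx
  have h2 := (pow_eq_pow_iff_modEq (x := x)).mpr this
  simpa using h2

theorem pow_alpha_of_dvd' (hD : Data H) {x : G} (hx : orderOf x ∣ H.index) : x ^ alpha hD = 1 := by
  have : alpha hD ≡ 0 [MOD orderOf x] := (alpha_zero hD).of_dvd hx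
  have h2 := (pow_eq_pow_iff_modEq (x := x)).mpr this
  simpa using h2

theorem orderOf_dvd_card_of_mem {x : G} (hx : x ∈ H) : orderOf x ∣ Nat.card H := by
  rw [← Subgroup.orderOf_mk x hx]
  exact orderOf_dvd_natCard _

theorem pow_alpha_of_mem (hD : Data H) {x : G} (hx : x ∈ H) : x ^ alpha hD = x :=
  pow_alpha_of_dvd hD (orderOf_dvd_card_of_mem hx)

theorem orderOf_pow_alpha_dvd (hD : Data H) (g : G) : orderOf (g ^ alpha hD) ∣ Nat.card H := by
  apply orderOf_dvd_of_pow_eq_one
  rw [← pow_mul]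
  apply orderOf_dvd_iff_pow_eq_one.mp
  have h1 : orderOf g ∣ Nat.card H * H.index := by
    rw [← card_eq]
    exact orderOf_dvd_natCard g
  have h2 : H.index ∣ alpha hD := (Nat.modEq_zero_iff_dvd).mp (alpha_zero hD)
  refine h1.trans ?_
  rw [mul_comm]
  exact Nat.mul_dvd_mul_right h2 _

theorem conj_pow_alpha (hD : Data H) (c g : G) : (c * g * c⁻¹) ^ alpha hD = c * g ^ alpha hD * c⁻¹ := conj_pow

/-- Elements of order dividing `|H|` are conjugate into `H`. -/
theorem exists_conj_mem (hD : Data H) {x : G} (hx : orderOf x ∣ Nat.card H) : ∃ w : G, w * x * w⁻¹ ∈ H := by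
  obtain ⟨p, hp1, hp2⟩ := Nat.exists_infinite_primes (orderOf x + 1)
  have hpx : ¬ p ∣ orderOf x := by
    intro h
    have := Nat.le_of_dvd (orderOf_pos x) h
    omega
  have hE : IsElementary p (Subgroup.zpowers x) := by
    refine ⟨⟨x, Subgroup.mem_zpowers x⟩, ?_, ?_, 0, ?_⟩
    · rw [Subgroup.mem_center_iff]
      rintro ⟨y, hy⟩
      obtain ⟨i, rfl⟩ := Subgroup.mem_zpowers_iff.mp hy
      apply Subtype.ext
      exact ((Commute.refl x).zpow_left i).eq
    · rw [Subgroup.orderOf_mk]
      exact ((Nat.Prime.coprime_iff_not_dvd hp2).2 hpx).symm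
    · rw [pow_zero, Subgroup.index_eq_one, eq_top_iff]
      rintro ⟨y, hy⟩ _
      obtain ⟨i, rfl⟩ := Subgroup.mem_zpowers_iff.mp hy
      exact Subgroup.mem_zpowers_iff.mpr ⟨i, Subtype.ext rfl⟩
  obtain ⟨w, hw⟩ := hD.elem _ p hp2 hE (by rwa [Nat.card_zpowers])
  refine ⟨w, hw ⟨x, Subgroup.mem_zpowers x, rfl⟩⟩

theorem exists_mem_conj (hD : Data H) (g : G) : ∃ h ∈ H, IsConj h (g ^ alpha hD) := by
  obtain ⟨w, hw⟩ := exists_conj_mem hD (orderOf_pow_alpha_dvd hD g)
  refine ⟨_, hw, ?_⟩
  exact (isConj_iff.mpr ⟨w, rfl⟩).symm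

/-- The extension of a function on `H` to `G` through `π`-parts. -/
noncomputable def liftF (hD : Data H) (F : H → ℂ) (g : G) : ℂ :=
  F ⟨Classical.choose (exists_mem_conj hD g), (Classical.choose_spec (exists_mem_conj hD g)).1⟩

theorem liftF_eq (hD : Data H) {F : H → ℂ} (hF : IsClassFunction H F) {g : G} (h : H)
    (hh : IsConj (h : G) (g ^ alpha hD)) : liftF hD F g = F h := by
  have h₂ : IsConj (Classical.choose (exists_mem_conj hD g)) (g ^ alpha hD) :=
    (Classical.choose_spec (exists_mem_conj hD g)).2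
  obtain ⟨k, hk, hk2⟩ := hD.fus _ (Classical.choose_spec (exists_mem_conj hD g)).1 _ h.2 (h₂.trans hh.symm)
  have h3 := hF ⟨Classical.choose (exists_mem_conj hD g), (Classical.choose_spec (exists_mem_conj hD g)).1⟩ ⟨k, hk⟩
  unfold liftF
  rw [← h3]
  congr 1
  exact Subtype.ext hk2

theorem liftF_isClass (hD : Data H) {F : H → ℂ} (hF : IsClassFunction H F) : IsClassFunction G (liftF hD F) := by
  intro g c
  obtain ⟨h, hH, hh⟩ := exists_mem_conj hD g
  rw [liftF_eq hD hF (g := g) ⟨h, hH⟩ hh, liftF_eq hD hF ⟨h, hH⟩]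
  rw [conj_pow_alpha]
  exact hh.trans (isConj_iff.mpr ⟨c, rfl⟩)

theorem liftF_of_mem (hD : Data H) {F : H → ℂ} (hF : IsClassFunction H F) (h : H) : liftF hD F h = F h := by
  apply liftF_eq hD hF
  rw [pow_alpha_of_mem hD h.2]

/-- A `q`-subgroup of the centralizer of `h` in `H` embeds in the centralizer of `h` in `H`. -/
theorem card_dvd_inf (hD : Data H) {h : G} (hh : h ∈ H) {q : ℕ} (hq : q.Prime) (hqm : q ∣ Nat.card H)
    (P : Subgroup G) (hPC : ∀ p ∈ P, Commute p h) (hPq : IsPGroup q P) :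
    Nat.card P ∣ Nat.card ↥(Subgroup.centralizer ({h} : Set G) ⊓ H) := by
  classical
  haveI := Fact.mk hq
  have hhzpow : ∀ (p : G), p ∈ P → ∀ i : ℤ, Commute p (h ^ i) := fun p hp i => (hPC p hp).zpow_right i
  let E : Subgroup G :=
    { carrier := {e | ∃ (i : ℤ), ∃ p ∈ P, e = h ^ i * p}
      one_mem' := ⟨0, 1, P.one_mem, by simp⟩
      mul_mem' := by
        rintro _ _ ⟨i, p, hp, rfl⟩ ⟨j, p', hp', rfl⟩
        refine ⟨i + j, p * p', P.mul_mem hp hp', ?_⟩
        rw [zpow_add]
        have := (hhzpow p hp j).eq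
        calc h ^ i * p * (h ^ j * p') = h ^ i * (p * h ^ j) * p' := by group
          _ = h ^ i * (h ^ j * p) * p' := by rw [this]
          _ = _ := by group
      inv_mem' := by
        rintro _ ⟨i, p, hp, rfl⟩
        refine ⟨-i, p⁻¹, P.inv_mem hp, ?_⟩
        have := (hhzpow p⁻¹ (P.inv_mem hp) (-i)).eq
        rw [mul_inv_rev, ← zpow_neg, ← this] }
  have hhE : h ∈ E := ⟨1, 1, P.one_mem, by simp⟩
  have hPE : P ≤ E := fun p hp => ⟨0, p, hp, by simp⟩
  set e₀ := (orderOf h).factorization q with he₀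
  have hordh : orderOf h ≠ 0 := (orderOf_pos h).ne'
  have hq1 : q ^ e₀ * ordCompl[q] (orderOf h) = orderOf h := Nat.ordProj_mul_ordCompl_eq_self _ _
  let x₁ : G := h ^ (q ^ e₀)
  have hx₁ord : orderOf x₁ = ordCompl[q] (orderOf h) := by
    have h1 : orderOf x₁ = orderOf h / q ^ e₀ :=
      orderOf_pow_of_dvd (pow_ne_zero _ hq.ne_zero) ⟨_, hq1.symm⟩
    exact h1
  have hx₁cop : Nat.Coprime (orderOf x₁) q := by
    rw [hx₁ord]
    exact ((Nat.coprime_ordCompl hq hordh)).symm
  have hx₁E : x₁ ∈ E := E.pow_mem hhE _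
  obtain ⟨k₀, hk₀⟩ := IsPGroup.iff_card.mp hPq
  have hexp : ∀ p ∈ P, p ^ (q ^ k₀) = 1 := by
    intro p hp
    have := pow_card_eq_one' (G := P) (x := ⟨p, hp⟩)
    rw [hk₀] at this
    exact congrArg Subtype.val this
  let xh : E := ⟨x₁, hx₁E⟩
  have hcentral : ∀ y : E, y * xh = xh * y := by
    rintro ⟨_, i, p, hp, rfl⟩
    apply Subtype.ext
    show h ^ i * p * x₁ = x₁ * (h ^ i * p)
    have h1 : Commute p x₁ := (hPC p hp).pow_right _
    have h2 : Commute (h ^ i) x₁ := ((Commute.refl h).zpow_left i).pow_right _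
    exact (h2.mul_left h1).eq
  have hcen : xh ∈ Subgroup.center E := by
    rw [Subgroup.mem_center_iff]
    exact hcentral
  have hnorm : (Subgroup.zpowers xh).Normal := by
    constructor
    intro a ha g
    rw [Subgroup.mem_zpowers_iff] at ha
    obtain ⟨i, rfl⟩ := ha
    have h1 : Commute g (xh ^ i) := by
      have h2 : Commute g xh := hcentral g
      exact h2.zpow_right i
    rw [h1.eq]
    simp
  have hpow : ∀ y : E, y ^ (q ^ (e₀ + k₀)) ∈ Subgroup.zpowers xh := by
    rintro ⟨_, i, p, hp, rfl⟩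
    have h1 : ((⟨h ^ i * p, i, p, hp, rfl⟩ : E) ^ (q ^ (e₀ + k₀)) : E) = xh ^ (i * (q ^ k₀ : ℕ)) := by
      apply Subtype.ext
      show (h ^ i * p) ^ (q ^ (e₀ + k₀)) = x₁ ^ (i * (q ^ k₀ : ℕ))
      have hc : Commute (h ^ i) p := (hhzpow p hp i).symm
      rw [hc.mul_pow]
      have h2 : p ^ (q ^ (e₀ + k₀)) = 1 := by
        rw [pow_add, mul_comm, pow_mul, hexp p hp, one_pow]
      rw [h2, mul_one]
      show (h ^ i) ^ (q ^ (e₀ + k₀)) = (h ^ (q ^ e₀)) ^ (i * (q ^ k₀ : ℕ))
      rw [← zpow_natCast, ← zpow_mul, ← zpow_natCast h, ← zpow_mul]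
      congr 1
      push_cast
      ring
    rw [h1]
    exact Subgroup.zpow_mem_zpowers _ _
  have hP : IsPGroup q (E ⧸ Subgroup.zpowers xh) := by
    intro c
    induction c using QuotientGroup.induction_on with
    | H y =>
      refine ⟨e₀ + k₀, ?_⟩
      rw [← QuotientGroup.mk_pow, QuotientGroup.eq_one_iff]
      exact hpow y
  obtain ⟨j, hj⟩ := IsPGroup.iff_card.mp hP
  have hidx : (Subgroup.zpowers xh).index = q ^ j := by rw [Subgroup.index_eq_card, hj]
  have hordxh : orderOf xh = orderOf x₁ := Subgroup.orderOf_mk _ _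
  have hElem : IsElementary q E := ⟨xh, hcen, by rw [hordxh]; exact hx₁cop, j, hidx⟩
  have hEcard : Nat.card E = orderOf x₁ * q ^ j := by
    have := Subgroup.card_mul_index (Subgroup.zpowers xh)
    rw [Nat.card_zpowers, hordxh, hidx] at this
    exact this.symm
  have hEdvd : Nat.card E ∣ Nat.card H := by
    have h1 : Nat.card E ∣ Nat.card H * H.index := by
      rw [← card_eq]
      exact Subgroup.card_subgroup_dvd_card E
    apply Nat.Coprime.dvd_of_dvd_mul_right _ h1
    rw [hEcard]
    apply Nat.Coprime.mul_left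
    · have h2 : orderOf x₁ ∣ Nat.card H := (orderOf_pow_dvd _).trans (orderOf_dvd_card_of_mem hh)
      exact Nat.Coprime.coprime_dvd_left h2 hD.hall
    · exact Nat.Coprime.pow_left _ (Nat.Coprime.coprime_dvd_left hqm hD.hall)
  obtain ⟨w, hw⟩ := hD.elem E q hq hElem hEdvd
  have hwh : w * h * w⁻¹ ∈ H := hw ⟨h, hhE, rfl⟩
  have hwP : ∀ p ∈ P, w * p * w⁻¹ ∈ H := fun p hp => hw ⟨p, hPE hp, rfl⟩
  obtain ⟨k, hk, hk2⟩ := hD.fus _ hwh _ hh (isConj_iff.mpr ⟨w, rfl⟩ |>.symm |>.symm |> fun e => e.symm)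
  let t : G := k * w
  have ht : t * h * t⁻¹ = h := by
    show k * w * h * (k * w)⁻¹ = h
    calc k * w * h * (k * w)⁻¹ = k * (w * h * w⁻¹) * k⁻¹ := by group
      _ = h := hk2
  have hmem : ∀ p : P, t * (p : G) * t⁻¹ ∈ Subgroup.centralizer ({h} : Set G) ⊓ H := by
    intro p
    refine Subgroup.mem_inf.mpr ⟨?_, ?_⟩
    · rw [Subgroup.mem_centralizer_iff]
      intro z hz
      rw [Set.mem_singleton_iff] at hz
      rw [hz]
      have h1 : Commute (p : G) h := hPC p p.2
      calc h * (t * (p : G) * t⁻¹) = (t * h * t⁻¹) * (t * (p : G) * t⁻¹) := by rw [ht]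
        _ = t * (h * p) * t⁻¹ := by group
        _ = t * (p * h) * t⁻¹ := by rw [h1.eq]
        _ = (t * (p : G) * t⁻¹) * (t * h * t⁻¹) := by group
        _ = _ := by rw [ht]
    · have h1 := H.mul_mem (H.mul_mem hk (hwP p p.2)) (H.inv_mem hk)
      have h2 : k * (w * (p : G) * w⁻¹) * k⁻¹ = t * (p : G) * t⁻¹ := by
        show _ = k * w * (p : G) * (k * w)⁻¹
        group
      rwa [h2] at h1
  let f : P →* ↥(Subgroup.centralizer ({h} : Set G) ⊓ H) :=
    { toFun := fun p => ⟨t * (p : G) * t⁻¹, hmem p⟩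
      map_one' := by
        apply Subtype.ext
        simp
      map_mul' := by
        intro a b
        apply Subtype.ext
        show t * ((a * b : P) : G) * t⁻¹ = (t * (a : G) * t⁻¹) * (t * (b : G) * t⁻¹)
        push_cast
        group }
  have hf : Function.Injective f := by
    intro a b hab
    have h1 : t * (a : G) * t⁻¹ = t * (b : G) * t⁻¹ := congrArg Subtype.val hab
    apply Subtype.ext
    simpa using h1
  exact Subgroup.card_dvd_of_injective f hf

/-- The `π'`-part of the order of a centralizer. -/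
theorem exists_quot (hD : Data H) {h : G} (hh : h ∈ H) :
    ∃ t : ℕ, Nat.card (Subgroup.centralizer ({h} : Set G)) = Nat.card ↥(Subgroup.centralizer ({h} : Set G) ⊓ H) * t ∧
      Nat.Coprime t (Nat.card H) := by
  classical
  obtain ⟨t, ht⟩ : Nat.card ↥(Subgroup.centralizer ({h} : Set G) ⊓ H) ∣ Nat.card (Subgroup.centralizer ({h} : Set G)) :=
    Subgroup.card_dvd_of_le inf_le_left
  refine ⟨t, ht, ?_⟩
  by_contra hnc
  obtain ⟨q, hq, hqt, hqm⟩ := Nat.Prime.not_coprime_iff_dvd.mp hnc
  haveI := Fact.mk hq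
  set C := Subgroup.centralizer ({h} : Set G) with hC
  obtain ⟨P⟩ : Nonempty (Sylow q C) := inferInstance
  let P' : Subgroup G := (P : Subgroup C).map C.subtype
  have hcard : Nat.card P' = Nat.card P :=
    Nat.card_congr ((P : Subgroup C).equivMapOfInjective C.subtype C.subtype_injective).symm.toEquiv
  have hP'p : IsPGroup q P' := by
    obtain ⟨n, hn⟩ := IsPGroup.iff_card.mp P.isPGroup'
    exact IsPGroup.iff_card.mpr ⟨n, by rw [hcard]; exact hn⟩
  have hcomm : ∀ p ∈ P', Commute p h := by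
    rintro _ ⟨w, _, rfl⟩
    exact mem_centralizer_iff'.mp w.2
  have h1 := card_dvd_inf hD hh hq hqm P' hcomm hP'p
  rw [hcard, P.card_eq_multiplicity] at h1
  have hL0 : Nat.card ↥(C ⊓ H) ≠ 0 := Nat.card_pos.ne'
  have ht0 : t ≠ 0 := by
    rintro rfl
    rw [mul_zero] at ht
    exact Nat.card_pos.ne' ht
  have h2 : (Nat.card C).factorization q = (Nat.card ↥(C ⊓ H)).factorization q + t.factorization q := by
    rw [ht, Nat.factorization_mul hL0 ht0]
    rfl
  have h3 : 1 ≤ t.factorization q := (hq.dvd_iff_one_le_factorization ht0).mp hqt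
  have h4 : q ^ ((Nat.card ↥(C ⊓ H)).factorization q + 1) ∣ Nat.card ↥(C ⊓ H) :=
    (pow_dvd_pow q (by omega)).trans h1
  exact Nat.pow_succ_factorization_not_dvd hL0 hq h4

/-- The sum of the values of an induced function. -/
theorem sum_indFun (K : Subgroup G) [Fintype K] (f : K → ℂ) :
    (Nat.card K : ℂ) * ∑ x : G, indFun K f x = (Nat.card G : ℂ) * ∑ y : K, f y := by
  classical
  have h0 : (Nat.card K : ℂ) ≠ 0 := by exact_mod_cast Nat.card_pos.ne'
  simp_rw [indFun_apply]
  rw [← Finset.mul_sum, ← mul_assoc, mul_inv_cancel₀ h0, one_mul, Finset.sum_comm]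
  have h1 : ∀ w : G, ∑ x : G, extendByZero K f (w⁻¹ * x * w) = ∑ x : G, extendByZero K f x := by
    intro w
    apply Fintype.sum_equiv ((Equiv.mulRight w).trans (Equiv.mulLeft w⁻¹))
    intro x
    congr 1
    simp [mul_assoc]
  simp_rw [h1]
  rw [Finset.sum_const, Finset.card_univ, nsmul_eq_mul, ← Nat.card_eq_fintype_card]
  congr 1
  have h2 : ∑ x : G, extendByZero K f x = ∑ x ∈ Finset.univ.filter (fun x : G => x ∈ K), extendByZero K f x := by
    symm
    apply Finset.sum_filter_of_ne
    intro x _ hx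
    by_contra hxK
    exact hx (extendByZero_of_not_mem _ _ hxK)
  rw [h2, Finset.sum_subtype (Finset.univ.filter (fun x : G => x ∈ K)) (p := fun x : G => x ∈ K) (by simp)]
  refine Finset.sum_congr rfl fun y _ => ?_
  exact extendByZero_of_mem _ _ y.2

theorem inSection_iff (hD : Data H) {h x : G} (hh : h ∈ H) :
    InSection H.index (Nat.card H) h x ↔ IsConj h (x ^ alpha hD) := by
  constructor
  · rintro ⟨v, hv, u, rfl, huv, hu, hvi⟩
    have hcardG : Nat.card H * H.index = Nat.card G := Subgroup.card_mul_index H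
    have h1 : orderOf u ∣ H.index := by
      have : orderOf u ∣ Nat.card H * H.index := by rw [hcardG]; exact orderOf_dvd_natCard u
      exact hu.dvd_of_dvd_mul_left this
    have h2 : orderOf v ∣ Nat.card H := by
      have : orderOf v ∣ Nat.card H * H.index := by rw [hcardG]; exact orderOf_dvd_natCard v
      exact hvi.dvd_of_dvd_mul_right this
    rw [huv.mul_pow, pow_alpha_of_dvd' hD h1, pow_alpha_of_dvd hD h2, one_mul]
    exact hv.symm
  · intro hc
    refine ⟨x ^ alpha hD, hc.symm, x * (x ^ alpha hD)⁻¹, by group, ?_, ?_, ?_⟩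
    · have c1 : Commute x (x ^ alpha hD) := (Commute.refl x).pow_right _
      have c2 : Commute ((x ^ alpha hD)⁻¹) (x ^ alpha hD) := (Commute.refl _).inv_left
      exact c1.mul_left c2
    · have h1 : (x * (x ^ alpha hD)⁻¹) ^ H.index = 1 := by
        have h2 : x * (x ^ alpha hD)⁻¹ = x ^ (1 - (alpha hD : ℤ)) := by
          rw [zpow_sub, zpow_one, zpow_natCast]
        rw [h2, ← zpow_natCast, ← zpow_mul, ← orderOf_dvd_iff_zpow_eq_one]
        have h3 : ((Nat.card H : ℕ) : ℤ) ∣ 1 - (alpha hD : ℤ) := by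
          have := (Nat.modEq_iff_dvd).mp (alpha_one hD)
          simpa using this
        have h4 : ((orderOf x : ℕ) : ℤ) ∣ ((Nat.card H * H.index : ℕ) : ℤ) := by
          rw [← card_eq]
          exact Int.natCast_dvd_natCast.mpr (orderOf_dvd_natCard x)
        refine h4.trans ?_
        push_cast
        exact mul_dvd_mul_right h3 _
      have h2 : orderOf (x * (x ^ alpha hD)⁻¹) ∣ H.index := orderOf_dvd_of_pow_eq_one h1
      exact Nat.Coprime.coprime_dvd_left h2 hD.hall.symm
    · exact Nat.Coprime.coprime_dvd_left (orderOf_pow_alpha_dvd hD x) hD.hall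

theorem card_filter_eq' {β : Type*} [Fintype β] (p : β → Prop) [DecidablePred p] :
    (Finset.univ.filter p).card = Nat.card {x // p x} := by
  rw [Nat.card_eq_fintype_card, Fintype.card_subtype]

theorem orderOf_rest_dvd (hD : Data H) (x : G) : orderOf (x * (x ^ alpha hD)⁻¹) ∣ H.index := by
  have h1 : (x * (x ^ alpha hD)⁻¹) ^ H.index = 1 := by
    have h2 : x * (x ^ alpha hD)⁻¹ = x ^ (1 - (alpha hD : ℤ)) := by
      rw [zpow_sub, zpow_one, zpow_natCast]
    rw [h2, ← zpow_natCast, ← zpow_mul, ← orderOf_dvd_iff_zpow_eq_one]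
    have h3 : ((Nat.card H : ℕ) : ℤ) ∣ 1 - (alpha hD : ℤ) := by
      have := (Nat.modEq_iff_dvd).mp (alpha_one hD)
      simpa using this
    have h4 : ((orderOf x : ℕ) : ℤ) ∣ ((Nat.card H * H.index : ℕ) : ℤ) := by
      rw [← card_eq]
      exact Int.natCast_dvd_natCast.mpr (orderOf_dvd_natCard x)
    refine h4.trans ?_
    push_cast
    exact mul_dvd_mul_right h3 _
  exact orderOf_dvd_of_pow_eq_one h1

/-- The count of elements whose `π`-part is conjugate to `h`. -/
noncomputable def cntA (hD : Data H) (h : G) : ℕ := Nat.card {g : G // IsConj h (g ^ alpha hD)}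

/-- The centralizer of `h` in `H` as a subgroup of `G`. -/
abbrev cenL (H : Subgroup G) (h : G) : Subgroup G := Subgroup.centralizer ({h} : Set G) ⊓ H

theorem card_mul_cntA (hD : Data H) {h : G} (hh : h ∈ H) :
    Nat.card (Subgroup.centralizer ({h} : Set G)) * cntA hD h =
      Nat.card G * Nat.card {y : Subgroup.centralizer ({h} : Set G) // Nat.Coprime (orderOf ((y : G) * h⁻¹)) (Nat.card H)} := by
  classical
  set C := Subgroup.centralizer ({h} : Set G) with hC
  letI : Fintype C := Fintype.ofFinite _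
  have hordh : Nat.Coprime (orderOf h) H.index := Nat.Coprime.coprime_dvd_left (orderOf_dvd_card_of_mem hh) hD.hall
  have hcard : Nat.card G = H.index * Nat.card H := by rw [card_eq H, mul_comm]
  have h1 : ∀ x : G, indFun C (secA (Nat.card H) h) x = if IsConj h (x ^ alpha hD) then 1 else 0 := by
    intro x
    split_ifs with hx
    · exact indFun_secA_of_mem hcard hD.hall.symm hordh ((inSection_iff hD hh).mpr hx)
    · exact indFun_secA_of_not_mem hordh (fun h' => hx ((inSection_iff hD hh).mp h'))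
  have h2 := sum_indFun C (secA (Nat.card H) h)
  simp_rw [h1] at h2
  rw [Finset.sum_boole] at h2
  have h3 : ∑ y : C, secA (Nat.card H) h y = ((Nat.card {y : C // Nat.Coprime (orderOf ((y : G) * h⁻¹)) (Nat.card H)} : ℕ) : ℂ) := by
    have h5 : ∀ y : C, secA (Nat.card H) h y = if Nat.Coprime (orderOf ((y : G) * h⁻¹)) (Nat.card H) then 1 else 0 := by
      intro y
      unfold secA
      congr
    rw [Finset.sum_congr rfl (fun y _ => h5 y), Finset.sum_boole, card_filter_eq']
  rw [h3] at h2
  have h4 : ((Finset.univ.filter (fun x : G => IsConj h (x ^ alpha hD))).card : ℕ) = cntA hD h := by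
    unfold cntA
    rw [Nat.card_eq_fintype_card, Fintype.card_subtype]
  rw [h4] at h2
  exact_mod_cast h2

theorem le_mul_cntA (hD : Data H) {h : G} (hh : h ∈ H) : Nat.card G ≤ cntA hD h * Nat.card (cenL H h) := by
  classical
  obtain ⟨t, ht, htc⟩ := exists_quot hD hh
  set C := Subgroup.centralizer ({h} : Set G) with hC
  have htdvd : t ∣ Nat.card C := ⟨_, by rw [ht, mul_comm]⟩
  have ht0 : 0 < t := Nat.pos_of_ne_zero (by
    rintro rfl
    rw [mul_zero] at ht
    exact Nat.card_pos.ne' ht)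
  have hfrob := Cfsg.Agent.Lib.H6Frob.frobenius C t htdvd
  have hle1 : t ≤ Nat.card {y : C // y ^ t = 1} := by
    haveI : Nonempty {y : C // y ^ t = 1} := ⟨⟨1, one_pow _⟩⟩
    exact Nat.le_of_dvd Nat.card_pos hfrob
  have hle2 : Nat.card {y : C // y ^ t = 1} ≤
      Nat.card {y : C // Nat.Coprime (orderOf ((y : G) * h⁻¹)) (Nat.card H)} := by
    let hC' : C := ⟨h, mem_centralizer_self' h⟩
    apply Nat.card_le_card_of_injective (fun y : {y : C // y ^ t = 1} =>
      (⟨y.1 * hC', by
        have h1 : (((y.1 * hC' : C) : G) * h⁻¹) = (y.1 : G) := by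
          show (y.1 : G) * h * h⁻¹ = _
          group
        rw [h1, Subgroup.orderOf_coe]
        exact Nat.Coprime.coprime_dvd_left (orderOf_dvd_of_pow_eq_one y.2) htc⟩ :
        {y : C // Nat.Coprime (orderOf ((y : G) * h⁻¹)) (Nat.card H)}))
    intro a b hab
    have h1 : a.1 * hC' = b.1 * hC' := congrArg Subtype.val hab
    exact Subtype.ext (mul_right_cancel h1)
  have hmain := card_mul_cntA hD hh
  rw [ht] at hmain
  have h5 : Nat.card G * t ≤ Nat.card ↥(C ⊓ H) * t * cntA hD h := by
    rw [hmain]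
    exact Nat.mul_le_mul_left _ (hle1.trans hle2)
  have h6 : Nat.card G * t ≤ (cntA hD h * Nat.card ↥(C ⊓ H)) * t := by
    calc Nat.card G * t ≤ _ := h5
      _ = _ := by ring
  exact Nat.le_of_mul_le_mul_right h6 ht0

/-- The order of the centralizer in terms of the class size in `H`. -/
theorem card_class_mul_cenL (k : H) :
    Nat.card {k' : H // IsConj k k'} * Nat.card (cenL H (k : G)) = Nat.card H := by
  letI : Fintype H := Fintype.ofFinite _
  have h1 := Cfsg.Agent.Lib.SylowCount.card_class_mul_centralizer k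
  have h2 : Nat.card (Subgroup.centralizer ({k} : Set H)) = Nat.card (cenL H (k : G)) := by
    apply Nat.card_congr
    refine ⟨fun y => ⟨(y : H), ?_, (y : H).2⟩, fun y => ⟨⟨y, y.2.2⟩, ?_⟩, fun y => rfl, fun y => rfl⟩
    · have := mem_centralizer_iff'.mp y.2
      exact mem_centralizer_iff'.mpr (by
        show ((y : H) : G) * k = k * ((y : H) : G)
        exact congrArg Subtype.val this.eq)
    · apply mem_centralizer_iff'.mpr
      apply Subtype.ext
      exact (mem_centralizer_iff'.mp y.2.1).eq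
  rw [← h2]
  exact h1

open scoped Classical in
/-- The sum over an `H`-class. -/
theorem sum_class (hD : Data H) [Fintype H] (g : G) :
    ∑ k : H, (if IsConj (k : G) (g ^ alpha hD) then Nat.card (cenL H (k : G)) else 0) = Nat.card H := by
  classical
  obtain ⟨h₀, h₀H, hh₀⟩ := exists_mem_conj hD g
  let k₀ : H := ⟨h₀, h₀H⟩
  have hiff : ∀ k : H, IsConj (k : G) (g ^ alpha hD) ↔ IsConj k₀ k := by
    intro k
    constructor
    · intro hk
      obtain ⟨c, hc, hc2⟩ := hD.fus _ h₀H _ k.2 (hh₀.trans hk.symm)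
      exact isConj_iff.mpr ⟨⟨c, hc⟩, Subtype.ext hc2⟩
    · intro hk
      obtain ⟨c, hc⟩ := isConj_iff.mp hk
      have h1 : IsConj (k₀ : G) (k : G) := isConj_iff.mpr ⟨c, by rw [← hc]; rfl⟩
      exact h1.symm.trans hh₀
  have hconst : ∀ k : H, IsConj k₀ k → Nat.card (cenL H (k : G)) = Nat.card (cenL H (k₀ : G)) := by
    intro k hk
    have h1 := card_class_mul_cenL k
    have h2 := card_class_mul_cenL k₀
    have h3 : Nat.card {k' : H // IsConj k k'} = Nat.card {k' : H // IsConj k₀ k'} := by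
      apply Nat.card_congr
      apply Equiv.subtypeEquivRight
      intro k'
      exact ⟨fun h => hk.trans h, fun h => hk.symm.trans h⟩
    rw [h3] at h1
    have hpos : 0 < Nat.card {k' : H // IsConj k₀ k'} := by
      haveI : Nonempty {k' : H // IsConj k₀ k'} := ⟨⟨k₀, IsConj.refl _⟩⟩
      exact Nat.card_pos
    exact Nat.eq_of_mul_eq_mul_left hpos (h1.trans h2.symm)
  have hterm : ∀ k : H, (if IsConj (k : G) (g ^ alpha hD) then Nat.card (cenL H (k : G)) else 0) =
      if IsConj k₀ k then Nat.card (cenL H (k₀ : G)) else 0 := by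
    intro k
    by_cases hk : IsConj k₀ k
    · rw [if_pos ((hiff k).mpr hk), if_pos hk, hconst k hk]
    · rw [if_neg (fun h => hk ((hiff k).mp h)), if_neg hk]
  simp_rw [hterm]
  rw [Finset.sum_ite, Finset.sum_const_zero, add_zero, Finset.sum_const, smul_eq_mul, ← card_class_mul_cenL k₀]
  congr 1
  rw [Nat.card_eq_fintype_card, Fintype.card_subtype]

/-- The exact count. -/
theorem cntA_mul_cenL (hD : Data H) (k : H) : cntA hD (k : G) * Nat.card (cenL H (k : G)) = Nat.card G := by
  classical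
  letI : Fintype H := Fintype.ofFinite _
  have hcount : ∀ k : H, cntA hD (k : G) = ∑ g : G, if IsConj (k : G) (g ^ alpha hD) then 1 else 0 := by
    intro k
    unfold cntA
    rw [Finset.sum_boole, Nat.card_eq_fintype_card, Fintype.card_subtype]
    simp
  have hsum : ∑ k : H, cntA hD (k : G) * Nat.card (cenL H (k : G)) = ∑ k : H, Nat.card G := by
    simp_rw [hcount, Finset.sum_mul]
    rw [Finset.sum_comm]
    have h1 : ∀ g : G, ∑ k : H, ((if IsConj (k : G) (g ^ alpha hD) then 1 else 0) * Nat.card (cenL H (k : G))) = Nat.card H := by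
      intro g
      rw [← sum_class hD g]
      refine Finset.sum_congr rfl fun k _ => ?_
      split_ifs <;> simp
    simp_rw [h1]
    rw [Finset.sum_const, Finset.sum_const, Finset.card_univ, Finset.card_univ, smul_eq_mul, smul_eq_mul,
      ← Nat.card_eq_fintype_card, ← Nat.card_eq_fintype_card, mul_comm]
  have hle : ∀ k ∈ (Finset.univ : Finset H), Nat.card G ≤ cntA hD (k : G) * Nat.card (cenL H (k : G)) :=
    fun k _ => le_mul_cntA hD k.2
  exact ((Finset.sum_eq_sum_iff_of_le hle).mp hsum.symm k (Finset.mem_univ k)).symm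

/-- **The summation formula**. -/
theorem sum_liftF (hD : Data H) [Fintype H] {F : H → ℂ} (hF : IsClassFunction H F) :
    ∑ g : G, liftF hD F g = (H.index : ℂ) * ∑ k : H, F k := by
  classical
  have hH0 : (Nat.card H : ℂ) ≠ 0 := by exact_mod_cast Nat.card_pos.ne'
  apply mul_left_cancel₀ hH0
  have h1 : ∀ g : G, (Nat.card H : ℂ) * liftF hD F g =
      ∑ k : H, (if IsConj (k : G) (g ^ alpha hD) then (Nat.card (cenL H (k : G)) : ℂ) * F k else 0) := by
    intro g
    have h2 := sum_class hD g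
    have h3 : ((Nat.card H : ℕ) : ℂ) = ∑ k : H, (if IsConj (k : G) (g ^ alpha hD) then (Nat.card (cenL H (k : G)) : ℂ) else 0) := by
      rw [← h2]
      push_cast
      rfl
    rw [h3, Finset.sum_mul]
    refine Finset.sum_congr rfl fun k _ => ?_
    split_ifs with hk
    · rw [liftF_eq hD hF k hk]
    · simp
  rw [Finset.mul_sum]
  simp_rw [h1]
  rw [Finset.sum_comm]
  have h4 : ∀ k : H, ∑ g : G, (if IsConj (k : G) (g ^ alpha hD) then (Nat.card (cenL H (k : G)) : ℂ) * F k else 0) =
      (Nat.card G : ℂ) * F k := by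
    intro k
    have h5 : ((cntA hD (k : G) * Nat.card (cenL H (k : G)) : ℕ) : ℂ) = (Nat.card G : ℂ) := by
      rw [cntA_mul_cenL hD k]
    have h6 : cntA hD (k : G) = (Finset.univ.filter (fun g : G => IsConj (k : G) (g ^ alpha hD))).card := by
      unfold cntA
      rw [Nat.card_eq_fintype_card, Fintype.card_subtype]
    rw [Finset.sum_ite, Finset.sum_const_zero, add_zero, Finset.sum_const, nsmul_eq_mul, ← h5, ← h6, ← mul_assoc]
    rw [Nat.cast_mul]
  simp_rw [h4]
  rw [← Finset.mul_sum, ← mul_assoc]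
  congr 1
  have h7 : ((Nat.card G : ℕ) : ℂ) = (Nat.card H : ℂ) * (H.index : ℂ) := by
    rw [card_eq H, Nat.cast_mul]
  exact h7

/-- The extension of a sum of a class function product. -/
theorem liftF_mul_conj (hD : Data H) {χ ψ : H → ℂ} (hχ : IsClassFunction H χ) (hψ : IsClassFunction H ψ) (g : G) :
    liftF hD (fun h => χ h * conj (ψ h)) g = liftF hD χ g * conj (liftF hD ψ g) := by
  obtain ⟨h, hH, hh⟩ := exists_mem_conj hD g
  have hcl : IsClassFunction H (fun h => χ h * conj (ψ h)) := by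
    intro a b
    simp only
    rw [hχ, hψ]
  rw [liftF_eq hD hcl ⟨h, hH⟩ hh, liftF_eq hD hχ ⟨h, hH⟩ hh, liftF_eq hD hψ ⟨h, hH⟩ hh]

/-- The extension map is isometric. -/
theorem classInner_liftF (hD : Data H) [Fintype H] {χ ψ : H → ℂ} (hχ : IsClassFunction H χ) (hψ : IsClassFunction H ψ) :
    classInner (liftF hD χ) (liftF hD ψ) = classInner χ ψ := by
  have hcl : IsClassFunction H (fun h => χ h * conj (ψ h)) := by
    intro a b
    simp only
    rw [hχ, hψ]
  have h1 := sum_liftF hD hcl
  simp_rw [liftF_mul_conj hD hχ hψ] at h1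
  unfold classInner
  rw [h1, card_eq H]
  have hH0 : (Nat.card H : ℂ) ≠ 0 := by exact_mod_cast Nat.card_pos.ne'
  have hi0 : (H.index : ℂ) ≠ 0 := by
    have : H.index ≠ 0 := Subgroup.index_ne_zero_of_finite
    exact_mod_cast this
  push_cast
  field_simp

/-- The extension of a character is a generalized character. -/
theorem isGen_liftF (hD : Data H) {χ : H → ℂ} (hχ : IsCharacter H χ) : IsGeneralizedCharacter G (liftF hD χ) := by
  classical
  have hcl := IsCharacter.isClassFunction' hχ
  apply isGen_of_elementary (liftF_isClass hD hcl)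
  intro E p hp hE
  haveI := Fact.mk hp
  letI : Fintype E := Fintype.ofFinite _
  have hEdvd : Nat.card E ∣ Nat.card H * H.index := by
    rw [← card_eq]
    exact Subgroup.card_subgroup_dvd_card E
  obtain ⟨N₁, hN₁, hc₁, hi₁⟩ := exists_hall_of_elementary hp hE hD.hall hEdvd
  obtain ⟨N₂, hN₂, hc₂, hi₂⟩ := exists_hall_of_elementary hp hE hD.hall.symm (by rwa [mul_comm])
  haveI := hN₁
  haveI := hN₂
  have hcop : Nat.Coprime (Nat.card N₁) (Nat.card N₂) :=
    Nat.Coprime.coprime_dvd_left hc₁ (Nat.Coprime.coprime_dvd_right hc₂ hD.hall)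
  have hdisj : Disjoint N₁ N₂ := Subgroup.disjoint_of_coprime_natCard hcop
  have hcomm := Subgroup.commute_of_normal_of_disjoint N₁ N₂ hN₁ hN₂ hdisj
  have hmem1 : ∀ e : E, orderOf (e : G) ∣ Nat.card H → e ∈ N₁ := by
    intro e he
    rw [Subgroup.orderOf_coe] at he
    apply Cfsg.Agent.Lib.H7Basic.mem_of_pow_mem_of_coprime N₁ e N₁.index _ (Subgroup.pow_index_mem N₁ e)
    exact Nat.Coprime.coprime_dvd_left he (Nat.Coprime.coprime_dvd_right hi₁ hD.hall)
  have hmem2 : ∀ e : E, orderOf (e : G) ∣ H.index → e ∈ N₂ := by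
    intro e he
    rw [Subgroup.orderOf_coe] at he
    apply Cfsg.Agent.Lib.H7Basic.mem_of_pow_mem_of_coprime N₂ e N₂.index _ (Subgroup.pow_index_mem N₂ e)
    exact Nat.Coprime.coprime_dvd_left he (Nat.Coprime.coprime_dvd_right hi₂ hD.hall.symm)
  have hcoe : ∀ (e : E) (k : ℕ), ((e ^ k : E) : G) = (e : G) ^ k := fun e k => rfl
  have hA : ∀ e : E, e ^ alpha hD ∈ N₁ := fun e => hmem1 _ (by
    rw [hcoe]
    exact orderOf_pow_alpha_dvd hD _)
  have hB : ∀ e : E, e * (e ^ alpha hD)⁻¹ ∈ N₂ := fun e => hmem2 _ (by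
    show orderOf ((e : G) * ((e : G) ^ alpha hD)⁻¹) ∣ H.index
    exact orderOf_rest_dvd hD _)
  have hmulα : ∀ e e' : E, (e * e') ^ alpha hD = e ^ alpha hD * e' ^ alpha hD := by
    intro e e'
    set a := e ^ alpha hD with ha
    set a' := e' ^ alpha hD with ha'
    set b := e * a⁻¹ with hb
    set b' := e' * a'⁻¹ with hb'
    have hab : e = b * a := by rw [hb]; group
    have hab' : e' = b' * a' := by rw [hb']; group
    have hba' : Commute a' b := hcomm a' b (hA e') (hB e)
    have h1 : e * e' = (b * b') * (a * a') := by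
      rw [hab, hab']
      simp only [hb, hb']
      have h2 := hba'.eq
      simp only [← ha, ← ha', ← hb, ← hb'] at h2 ⊢
      calc b * a * (b' * a') = b * (a * b') * a' := by group
        _ = b * (b' * a) * a' := by rw [(hcomm a b' (hA e) (hB e')).eq]
        _ = _ := by group
    have hcommu : Commute (b * b') (a * a') :=
      ((hcomm a b (hA e) (hB e)).mul_right (hcomm a b' (hA e) (hB e'))).mul_left
        ((hcomm a' b (hA e') (hB e)).mul_right (hcomm a' b' (hA e') (hB e'))) |> fun c => c.symm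
    rw [h1, hcommu.mul_pow]
    have h3 : (b * b') ^ alpha hD = 1 := by
      apply Subtype.ext
      rw [hcoe]
      apply pow_alpha_of_dvd' hD
      have h4 : b * b' ∈ N₂ := N₂.mul_mem (hB e) (hB e')
      rw [Subgroup.orderOf_coe]
      rw [← Subgroup.orderOf_mk _ h4]
      exact (orderOf_dvd_natCard _).trans hc₂
    have h5 : (a * a') ^ alpha hD = a * a' := by
      apply Subtype.ext
      rw [hcoe]
      apply pow_alpha_of_dvd hD
      have h4 : a * a' ∈ N₁ := N₁.mul_mem (hA e) (hA e')
      rw [Subgroup.orderOf_coe]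
      rw [← Subgroup.orderOf_mk _ h4]
      exact (orderOf_dvd_natCard _).trans hc₁
    rw [h3, h5, one_mul]
  let f : E →* N₁ :=
    { toFun := fun e => ⟨e ^ alpha hD, hA e⟩
      map_one' := by
        apply Subtype.ext
        simp
      map_mul' := by
        intro e e'
        apply Subtype.ext
        exact hmulα e e' }
  have hE₁ : IsElementary p (N₁.map E.subtype) :=
    isElementary_of_equiv (N₁.equivMapOfInjective E.subtype E.subtype_injective) (isElementary_sub hp hE N₁)
  have hE₁card : Nat.card (N₁.map E.subtype) ∣ Nat.card H := by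
    rw [show Nat.card (N₁.map E.subtype) = Nat.card N₁ from
      Nat.card_congr (N₁.equivMapOfInjective E.subtype E.subtype_injective).symm.toEquiv]
    exact hc₁
  obtain ⟨w, hw⟩ := hD.elem _ p hp hE₁ hE₁card
  have hwmem : ∀ a : N₁, w * ((a : E) : G) * w⁻¹ ∈ H := by
    intro a
    exact hw ⟨_, ⟨a, a.2, rfl⟩, rfl⟩
  let j : N₁ →* H :=
    { toFun := fun a => ⟨w * ((a : E) : G) * w⁻¹, hwmem a⟩
      map_one' := by
        apply Subtype.ext
        simp
      map_mul' := by
        intro a b
        apply Subtype.ext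
        show w * (((a * b : N₁) : E) : G) * w⁻¹ = (w * ((a : E) : G) * w⁻¹) * (w * ((b : E) : G) * w⁻¹)
        push_cast
        group }
  have heq : (fun e : E => liftF hD χ (e : G)) = fun e : E => χ (j (f e)) := by
    funext e
    apply liftF_eq hD hcl
    show IsConj (w * (((e ^ alpha hD : E)) : G) * w⁻¹) ((e : G) ^ alpha hD)
    rw [hcoe]
    exact (isConj_iff.mpr ⟨w, rfl⟩).symm
  rw [heq]
  exact isGen_of_char (isCharacter_comp (j.comp f) hχ)

/-- The extension of an irreducible character is irreducible. -/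
theorem isIrr_liftF (hD : Data H) [Fintype H] {χ : H → ℂ} (hχ : IsIrrCharacter H χ) : IsIrrCharacter G (liftF hD χ) := by
  have hχc := IsIrrCharacter.isCharacter' hχ
  have hcl := IsCharacter.isClassFunction' hχc
  have hnorm : classInner (liftF hD χ) (liftF hD χ) = 1 := by
    rw [classInner_liftF hD hcl hcl, classInner_irr hχ hχ, if_pos rfl]
  obtain ⟨ξ, hξ, h1 | h1⟩ := Cfsg.Agent.Lib.CharIso.exists_irr_of_norm_one (isGen_liftF hD hχc) hnorm
  · rw [h1]
    exact hξ
  · exfalso
    have h2 : liftF hD χ ((1 : H) : G) = χ 1 := liftF_of_mem hD hcl 1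
    have h3 := congrFun h1 1
    rw [Pi.neg_apply] at h3
    have h4 : χ 1 = - ξ 1 := by
      rw [← h2]
      exact h3
    obtain ⟨d, hd⟩ := exists_degree hχc
    obtain ⟨d', hd'⟩ := exists_degree (IsIrrCharacter.isCharacter' hξ)
    rw [hd, hd'] at h4
    have h5 : (d : ℤ) = -(d' : ℤ) := by exact_mod_cast h4
    have h6 : d = 0 := by omega
    apply degree_ne_zero hχ
    rw [hd, h6]
    simp

/-- Elements with trivial `π`-part. -/
theorem pow_alpha_eq_one_iff (hD : Data H) [Fintype H] (g : G) :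
    g ^ alpha hD = 1 ↔ ∀ ξ : IrrCharacter H, liftF hD (ξ : H → ℂ) g = (ξ : H → ℂ) 1 := by
  classical
  constructor
  · intro hg ξ
    apply liftF_eq hD (IsCharacter.isClassFunction' (IsIrrCharacter.isCharacter' ξ.2))
    rw [hg]
    exact IsConj.refl _
  · intro hall
    obtain ⟨h, hH, hh⟩ := exists_mem_conj hD g
    have h1 : ∀ ξ : IrrCharacter H, (ξ : H → ℂ) ⟨h, hH⟩ = (ξ : H → ℂ) 1 := by
      intro ξ
      rw [← hall ξ]
      exact (liftF_eq hD (IsCharacter.isClassFunction' (IsIrrCharacter.isCharacter' ξ.2)) ⟨h, hH⟩ hh).symm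
    have h2 := column_orthogonality (⟨h, hH⟩ : H) (1 : H)
    have h3 : ∑ ξ : IrrCharacter H, (ξ : H → ℂ) ⟨h, hH⟩ * conj ((ξ : H → ℂ) 1) =
        ∑ ξ : IrrCharacter H, (ξ : H → ℂ) 1 * conj ((ξ : H → ℂ) 1) :=
      Finset.sum_congr rfl fun ξ _ => by rw [h1 ξ]
    rw [h3] at h2
    have h4 : IsConj (⟨h, hH⟩ : H) 1 := by
      by_contra hnc
      rw [if_neg hnc] at h2
      -- the sum of squares of the degrees vanishes
      have h5 : ((Nat.card H : ℕ) : ℂ) = 0 := by
        rw [← Cfsg.Agent.Lib.CharAb.sum_deg_sq (G := H), ← h2]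
        push_cast
        refine Finset.sum_congr rfl fun ξ _ => ?_
        rw [Cfsg.Agent.Lib.CharAb.apply_one_eq_deg]
        simp [sq]
      have h6 : Nat.card H ≠ 0 := Nat.card_pos.ne'
      exact h6 (by exact_mod_cast h5)
    have h6 : (⟨h, hH⟩ : H) = 1 := isConj_one_right.mp h4.symm
    have h7 : h = 1 := congrArg Subtype.val h6
    rw [h7] at hh
    exact isConj_one_right.mp hh

/-- **A Hall subgroup controlling its fusion and containing all appropriate elementary subgroups up to conjugacy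
has a normal complement.** -/
theorem exists_normal_complement (hD : Data H) : ∃ K : Subgroup G, K.Normal ∧ K ⊔ H = ⊤ ∧ K ⊓ H = ⊥ := by
  classical
  letI : Fintype H := Fintype.ofFinite _
  let K : Subgroup G :=
    { carrier := {g | g ^ alpha hD = 1}
      one_mem' := one_pow _
      inv_mem' := by
        intro g hg
        show g⁻¹ ^ alpha hD = 1
        rw [inv_pow, show g ^ alpha hD = 1 from hg, inv_one]
      mul_mem' := by
        intro g g' hg hg'
        show (g * g') ^ alpha hD = 1
        rw [pow_alpha_eq_one_iff]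
        intro ξ
        have h1 := (pow_alpha_eq_one_iff hD g).mp hg ξ
        have h2 := (pow_alpha_eq_one_iff hD g').mp hg' ξ
        have hirr := isIrr_liftF hD ξ.2
        have hone : liftF hD (ξ : H → ℂ) 1 = (ξ : H → ℂ) 1 :=
          liftF_of_mem hD (IsCharacter.isClassFunction' (IsIrrCharacter.isCharacter' ξ.2)) 1
        obtain ⟨n, ρ, hρ, hc⟩ := hirr
        have hfr : ρ.character 1 = (finrank ℂ (Fin n → ℂ) : ℂ) := Representation.char_one ρ
        rw [← hone]
        rw [← hone] at h1 h2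
        rw [← hc] at h1 h2 ⊢
        rw [hfr] at h1 h2 ⊢
        have h3 := (Cfsg.Agent.Lib.CharCore.character_eq_finrank_iff ρ g).mp h1
        have h4 := (Cfsg.Agent.Lib.CharCore.character_eq_finrank_iff ρ g').mp h2
        apply (Cfsg.Agent.Lib.CharCore.character_eq_finrank_iff ρ (g * g')).mpr
        rw [map_mul, h3, h4]
        rfl }
  have hKn : K.Normal := by
    constructor
    intro g hg c
    show (c * g * c⁻¹) ^ alpha hD = 1
    rw [conj_pow_alpha, show g ^ alpha hD = 1 from hg, mul_one, mul_inv_cancel]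
  -- the order of `K`
  let F : H → ℂ := fun h => if h = 1 then 1 else 0
  have hF : IsClassFunction H F := by
    intro g c
    simp only [F]
    have : c * g * c⁻¹ = 1 ↔ g = 1 := by
      constructor
      · intro h
        have : g = c⁻¹ * (c * g * c⁻¹) * c := by group
        rw [this, h]
        group
      · rintro rfl
        group
    simp only [this]
  have hsum := sum_liftF hD hF
  have hlift : ∀ g : G, liftF hD F g = if g ^ alpha hD = 1 then 1 else 0 := by
    intro g
    obtain ⟨h, hH, hh⟩ := exists_mem_conj hD g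
    rw [liftF_eq hD hF ⟨h, hH⟩ hh]
    simp only [F]
    have : ((⟨h, hH⟩ : H) = 1) ↔ g ^ alpha hD = 1 := by
      constructor
      · intro h1
        have h2 : h = 1 := congrArg Subtype.val h1
        rw [h2] at hh
        exact isConj_one_right.mp hh
      · intro h1
        rw [h1] at hh
        apply Subtype.ext
        exact isConj_one_right.mp hh.symm
    simp only [this]
  simp_rw [hlift] at hsum
  have h1 : ∑ k : H, F k = 1 := by
    rw [Finset.sum_eq_single (1 : H)]
    · simp [F]
    · intro k _ hk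
      simp [F, hk]
    · simp
  rw [h1, mul_one, Finset.sum_boole, card_filter_eq'] at hsum
  have hKcard : Nat.card K = H.index := by
    have h2 : Nat.card {g : G // g ^ alpha hD = 1} = H.index := by exact_mod_cast hsum
    exact h2
  have hcompl : K.IsComplement' H := by
    apply Subgroup.isComplement'_of_coprime
    · rw [hKcard, mul_comm, Subgroup.card_mul_index]
    · rw [hKcard]
      exact hD.hall.symm
  refine ⟨K, hKn, hcompl.sup_eq_top, ?_⟩
  exact disjoint_iff.mp hcompl.disjoint

end Cfsg.Agent.Lib.BrauerComplement
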