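import Mathlib
import Cfsg.Prelude.Def_Blocks
import Cfsg.Agent.Lib.BrauerThm

/-!
# An invariant character of a normal subgroup of `p`-power index and elementary supplements
-/

set_option autoImplicit false
set_option linter.style.haveILetI false
set_option linter.unusedSectionVars false
set_option linter.unusedVariables false

namespace Cfsg.Agent.Lib.BrauerInv

open scoped ComplexConjugate
open Module Cfsg Cfsg.Agent.Lib.CharOps Cfsg.Agent.Lib.CharIrr Cfsg.Agent.Lib.CharGen
  Cfsg.Agent.Lib.BrauerInd Cfsg.Agent.Lib.BrauerElem Cfsg.Agent.Lib.BrauerThm Cfsg.Agent.Lib.CharNormal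
  Cfsg.Agent.Lib.CharCliff

universe u

/-- If the sum of an invariant function is not divisible by `p` and all nontrivial orbits have length divisible by
`p`, then some fixed point has value not divisible by `p`. -/
theorem exists_fixed_of_not_dvd {P X : Type*} [Group P] [MulAction P X] [Fintype X] {p : ℕ}
    (hidx : ∀ x : X, (MulAction.stabilizer P x).index = 1 ∨ p ∣ (MulAction.stabilizer P x).index)
    (u : X → ℕ) (hu : ∀ (g : P) (x : X), u (g • x) = u x) (h : ¬ p ∣ ∑ x, u x) :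
    ∃ x, (∀ g : P, g • x = x) ∧ ¬ p ∣ u x := by
  classical
  by_contra hcon
  push Not at hcon
  apply h
  letI : Fintype (MulAction.orbitRel.Quotient P X) := Fintype.ofFinite _
  rw [← Finset.sum_fiberwise Finset.univ (fun x => (Quotient.mk'' x : MulAction.orbitRel.Quotient P X)) u]
  apply Finset.dvd_sum
  intro q _
  obtain ⟨x₀, rfl⟩ : ∃ x₀ : X, (Quotient.mk'' x₀ : MulAction.orbitRel.Quotient P X) = q := ⟨q.out, Quotient.out_eq' q⟩
  have hmem : ∀ x : X, (Quotient.mk'' x : MulAction.orbitRel.Quotient P X) = Quotient.mk'' x₀ ↔ x ∈ MulAction.orbit P x₀ := by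
    intro x
    rw [Quotient.eq'']
    exact MulAction.orbitRel_apply
  have hval : ∀ x ∈ Finset.univ.filter (fun x => (Quotient.mk'' x : MulAction.orbitRel.Quotient P X) = Quotient.mk'' x₀),
      u x = u x₀ := by
    intro x hx
    have h1 := (hmem x).mp (Finset.mem_filter.mp hx).2
    obtain ⟨g, rfl⟩ := h1
    exact hu g x₀
  rw [Finset.sum_congr rfl hval, Finset.sum_const, smul_eq_mul]
  rcases hidx x₀ with h1 | h1
  · rw [Subgroup.index_eq_one] at h1
    apply dvd_mul_of_dvd_right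
    apply hcon
    intro g
    have : g ∈ MulAction.stabilizer P x₀ := by rw [h1]; exact Subgroup.mem_top g
    exact this
  · apply dvd_mul_of_dvd_left
    rw [MulAction.index_stabilizer] at h1
    have h2 : (MulAction.orbit P x₀).ncard = (Finset.univ.filter (fun x => (Quotient.mk'' x : MulAction.orbitRel.Quotient P X) = Quotient.mk'' x₀)).card := by
      rw [← Set.ncard_coe_finset]
      congr 1
      ext x
      simp only [Finset.coe_filter, Finset.mem_univ, true_and, Set.mem_ofPred_eq]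
      exact (hmem x).symm
    rwa [h2] at h1

section J

variable {G : Type u} [Group G] [Fintype G] (N : Subgroup G) [hN : N.Normal] [Fintype N] (ϑ : N → ℂ)

/-- The weighted mean of a function over `N` with weight `|ϑ|²`. -/
noncomputable def meanJ (f : G → ℂ) : ℂ := (Nat.card N : ℂ)⁻¹ * ∑ n : N, f n * (ϑ n * conj (ϑ n))

theorem meanJ_add (a b : G → ℂ) : meanJ N ϑ (a + b) = meanJ N ϑ a + meanJ N ϑ b := by
  unfold meanJ
  rw [← mul_add, ← Finset.sum_add_distrib]
  congr 1
  refine Finset.sum_congr rfl fun n _ => ?_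
  simp only [Pi.add_apply]
  ring

theorem meanJ_neg (a : G → ℂ) : meanJ N ϑ (-a) = - meanJ N ϑ a := by
  unfold meanJ
  rw [← mul_neg, ← Finset.sum_neg_distrib]
  congr 1
  refine Finset.sum_congr rfl fun n _ => ?_
  simp only [Pi.neg_apply]
  ring

theorem meanJ_zero : meanJ N ϑ (0 : G → ℂ) = 0 := by
  simp [meanJ]

/-- The restriction of the character to the intersection. -/
noncomputable def hatϑ (E : Subgroup G) : (N.subgroupOf E) → ℂ := fun y => ϑ ⟨((y : E) : G), y.2⟩

/-- The computation of the mean on an induced character. -/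
theorem meanJ_indFun (hinv : ∀ (g : G) (n : N), ϑ ⟨g * n * g⁻¹, hN.conj_mem (n : G) n.2 g⟩ = ϑ n)
    (E : Subgroup G) [Fintype E] [Fintype (N.subgroupOf E)] (θ : E → ℂ) :
    meanJ N ϑ (indFun E θ) = ((E ⊔ N).index : ℂ) *
      classInner (fun y : N.subgroupOf E => θ y * hatϑ N ϑ E y) (hatϑ N ϑ E) := by
  classical
  set A : ℂ := ∑ y : N.subgroupOf E, θ y * hatϑ N ϑ E y * conj (hatϑ N ϑ E y) with hA
  have hG0 : (Nat.card G : ℂ) ≠ 0 := by exact_mod_cast Nat.card_pos.ne'
  have hN0 : (Nat.card N : ℂ) ≠ 0 := by exact_mod_cast Nat.card_pos.ne'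
  have hE0 : (Nat.card E : ℂ) ≠ 0 := by exact_mod_cast Nat.card_pos.ne'
  have hN₀0 : (Nat.card (N.subgroupOf E) : ℂ) ≠ 0 := by exact_mod_cast Nat.card_pos.ne'
  -- one conjugate
  have step0 : ∑ n : N, extendByZero E θ (n : G) * (ϑ n * conj (ϑ n)) = A := by
    symm
    apply Finset.sum_of_injOn (fun y : N.subgroupOf E => (⟨((y : E) : G), y.2⟩ : N))
    · intro a _ b _ hab
      have h1 : ((a : E) : G) = (b : E) := congrArg (fun z : N => (z : G)) hab
      exact Subtype.ext (Subtype.ext h1)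
    · intro a _
      simp
    · intro n _ hn
      have hnE : (n : G) ∉ E := by
        intro h
        apply hn
        refine ⟨⟨⟨n, h⟩, ?_⟩, by simp, rfl⟩
        exact n.2
      rw [extendByZero_of_not_mem _ _ hnE, zero_mul]
    · intro y _
      rw [extendByZero_of_mem _ _ ((y : E).2)]
      simp only [hatϑ]
      rw [mul_assoc]
  have step : ∀ x : G, ∑ n : N, extendByZero E θ (x⁻¹ * n * x) * (ϑ n * conj (ϑ n)) = A := by
    intro x
    rw [← step0]
    let e : N ≃ N :=
      { toFun := fun n => ⟨x⁻¹ * n * x, by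
          have := hN.conj_mem (n : G) n.2 x⁻¹
          simpa using this⟩
        invFun := fun n => ⟨x * n * x⁻¹, hN.conj_mem (n : G) n.2 x⟩
        left_inv := by
          intro n
          apply Subtype.ext
          show x * (x⁻¹ * n * x) * x⁻¹ = n
          group
        right_inv := by
          intro n
          apply Subtype.ext
          show x⁻¹ * (x * n * x⁻¹) * x = n
          group }
    apply Fintype.sum_equiv e
    intro n
    have h1 : ϑ (e n) = ϑ n := by
      have := hinv x⁻¹ n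
      have h2 : (⟨x⁻¹ * n * x⁻¹⁻¹, hN.conj_mem (n : G) n.2 x⁻¹⟩ : N) = e n := by
        apply Subtype.ext
        simp [e]
      rwa [h2] at this
    rw [h1]
    rfl
  unfold meanJ
  simp_rw [indFun_apply]
  have h2 : ∑ n : N, (Nat.card E : ℂ)⁻¹ * ∑ x : G, extendByZero E θ (x⁻¹ * n * x) * (ϑ n * conj (ϑ n)) =
      (Nat.card E : ℂ)⁻¹ * ((Nat.card G : ℂ) * A) := by
    rw [← Finset.mul_sum, Finset.sum_comm]
    simp_rw [step]
    rw [Finset.sum_const, Finset.card_univ, nsmul_eq_mul, ← Nat.card_eq_fintype_card]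
  have h3 : ∀ n : N, (Nat.card E : ℂ)⁻¹ * (∑ x : G, extendByZero E θ (x⁻¹ * n * x)) * (ϑ n * conj (ϑ n)) =
      (Nat.card E : ℂ)⁻¹ * ∑ x : G, extendByZero E θ (x⁻¹ * n * x) * (ϑ n * conj (ϑ n)) := by
    intro n
    rw [mul_assoc, Finset.sum_mul]
  simp_rw [h3]
  rw [h2]
  -- numerics
  have h4 : N.relIndex (E ⊔ N) * (E ⊔ N).index = N.index := Subgroup.relIndex_mul_index le_sup_right
  rw [Subgroup.relIndex_sup_right] at h4
  have h5 : Nat.card (N.subgroupOf E) * N.relIndex E = Nat.card E := Subgroup.card_mul_index _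
  have h6 : Nat.card N * N.index = Nat.card G := Subgroup.card_mul_index _
  have h7 : ((Nat.card G : ℕ) : ℂ) = (Nat.card N : ℂ) * ((N.relIndex E : ℂ) * ((E ⊔ N).index : ℂ)) := by
    rw [← h6, ← h4]
    push_cast
    ring
  have h8 : ((Nat.card E : ℕ) : ℂ) = (Nat.card (N.subgroupOf E) : ℂ) * (N.relIndex E : ℂ) := by
    rw [← h5]
    push_cast
    ring
  have hrel0 : (N.relIndex E : ℂ) ≠ 0 := by
    intro h
    rw [h, mul_zero] at h8
    exact hE0 h8
  rw [classInner]
  rw [h7, h8]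
  field_simp
  rfl

end J

section Main

variable {G : Type u} [Group G] [Fintype G]

theorem classInner_conjFun_conjFun (H : Subgroup G) [hN : H.Normal] [Fintype H] (a b : H → ℂ) (x : G) :
    classInner (conjFun H a x) (conjFun H b x) = classInner a b := by
  classical
  unfold classInner
  congr 1
  let e : H ≃ H :=
    { toFun := fun n => ⟨x * n * x⁻¹, hN.conj_mem (n : G) n.2 x⟩
      invFun := fun n => ⟨x⁻¹ * n * x, by
          have := hN.conj_mem (n : G) n.2 x⁻¹
          simpa using this⟩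
      left_inv := by
        intro n
        apply Subtype.ext
        show x⁻¹ * (x * n * x⁻¹) * x = n
        group
      right_inv := by
        intro n
        apply Subtype.ext
        show x * (x⁻¹ * n * x) * x⁻¹ = n
        group }
  apply Fintype.sum_equiv e
  intro n
  rfl

theorem isCharacter_hatϑ (N : Subgroup G) {ϑ : N → ℂ} (hϑ : IsCharacter N ϑ) (E : Subgroup G) :
    IsCharacter (N.subgroupOf E) (hatϑ N ϑ E) := by
  let f : N.subgroupOf E →* N :=
    { toFun := fun y => ⟨((y : E) : G), y.2⟩, map_one' := rfl, map_mul' := fun _ _ => rfl }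
  exact isCharacter_comp f hϑ

/-- Existence of the elementary supplement. -/
theorem exists_supplement {p : ℕ} (hp : p.Prime) (N : Subgroup G) [hN : N.Normal] (hind : ∃ k : ℕ, N.index = p ^ k)
    (ϑ : N → ℂ) (hϑ : IsIrrCharacter N ϑ)
    (hinv : ∀ (g : G) (n : N), ϑ ⟨g * n * g⁻¹, hN.conj_mem (n : G) n.2 g⟩ = ϑ n) :
    ∃ (E : Subgroup G) (θ : E → ℂ) (w : ℕ), IsElementary p E ∧ IsCharacter E θ ∧ E ⊔ N = ⊤ ∧
      (@classInner _ _ (Fintype.ofFinite (N.subgroupOf E)) (fun y : N.subgroupOf E => θ y * hatϑ N ϑ E y) (hatϑ N ϑ E)) = (w : ℂ) ∧ ¬ p ∣ w := by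
  classical
  letI : Fintype N := Fintype.ofFinite _
  obtain ⟨m, hm, hmem⟩ := exists_const_mem_elemSpan (G := G) hp
  obtain ⟨k, hk⟩ := hind
  by_contra hcon
  push Not at hcon
  have hclaim : ∀ f ∈ elemSpan p G, ∃ z : ℤ, meanJ N ϑ f = (p : ℂ) * z := by
    intro f hf
    induction hf using AddSubgroup.closure_induction with
    | mem x hx =>
      obtain ⟨E, θ, hE, hθ, rfl⟩ := hx
      letI : Fintype E := Fintype.ofFinite _
      letI : Fintype (N.subgroupOf E) := Fintype.ofFinite _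
      rw [meanJ_indFun N ϑ hinv E θ]
      have hχ : IsCharacter (N.subgroupOf E) (fun y : N.subgroupOf E => θ y * hatϑ N ϑ E y) :=
        isCharacter_mul (isCharacter_comp (Subgroup.subtype (N.subgroupOf E)) hθ)
          (isCharacter_hatϑ N (IsIrrCharacter.isCharacter' hϑ) E)
      obtain ⟨w, hw⟩ := exists_nat_classInner hχ (isCharacter_hatϑ N (IsIrrCharacter.isCharacter' hϑ) E)
      rw [hw]
      have hdvd : (E ⊔ N).index ∣ p ^ k := by
        rw [← hk]
        exact Subgroup.index_dvd_of_le le_sup_right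
      by_cases htop : E ⊔ N = ⊤
      · have h1 := hcon E θ w hE hθ htop (by
          convert hw using 2)
        obtain ⟨z, rfl⟩ := h1
        refine ⟨(E ⊔ N).index * z, ?_⟩
        push_cast
        ring
      · have hne : (E ⊔ N).index ≠ 1 := fun h => htop (Subgroup.index_eq_one.mp h)
        obtain ⟨j, _, hj⟩ := (Nat.dvd_prime_pow hp).mp hdvd
        have hj0 : j ≠ 0 := by
          rintro rfl
          exact hne (by simpa using hj)
        obtain ⟨z, hz⟩ : p ∣ (E ⊔ N).index := by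
          rw [hj]
          exact dvd_pow_self p hj0
        refine ⟨z * w, ?_⟩
        rw [hz]
        push_cast
        ring
    | zero =>
      exact ⟨0, by rw [meanJ_zero]; simp⟩
    | add a b _ _ ha hb =>
      obtain ⟨z, hz⟩ := ha
      obtain ⟨z', hz'⟩ := hb
      refine ⟨z + z', ?_⟩
      rw [meanJ_add, hz, hz']
      push_cast
      ring
    | neg a _ ha =>
      obtain ⟨z, hz⟩ := ha
      refine ⟨-z, ?_⟩
      rw [meanJ_neg, hz]
      push_cast
      ring
  obtain ⟨z, hz⟩ := hclaim _ hmem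
  have h1 : meanJ N ϑ (fun _ : G => (m : ℂ)) = (m : ℂ) := by
    unfold meanJ
    have h2 := classInner_irr hϑ hϑ
    rw [if_pos rfl] at h2
    rw [classInner] at h2
    rw [← Finset.mul_sum]
    calc _ = (m : ℂ) * ((Nat.card N : ℂ)⁻¹ * ∑ n : N, ϑ n * conj (ϑ n)) := by ring
      _ = _ := by rw [h2, mul_one]
  rw [h1] at hz
  have h3 : (m : ℤ) = (p : ℤ) * z := by exact_mod_cast hz
  exact hm (Int.natCast_dvd_natCast.mp ⟨z, h3⟩)

/-- **The invariant constituent.** -/
theorem exists_invariant_constituent {p : ℕ} (hp : p.Prime) (N : Subgroup G) [hN : N.Normal]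
    (hind : ∃ k : ℕ, N.index = p ^ k)
    (ϑ : N → ℂ) (hϑ : IsIrrCharacter N ϑ)
    (hinv : ∀ (g : G) (n : N), ϑ ⟨g * n * g⁻¹, hN.conj_mem (n : G) n.2 g⟩ = ϑ n) :
    ∃ (E : Subgroup G) (φ : ↥(E ⊓ N) → ℂ), IsElementary p E ∧ E ⊔ N = ⊤ ∧ IsIrrCharacter ↥(E ⊓ N) φ ∧
      (∀ (g : G) (hg : g ∈ E) (x : ↥(E ⊓ N)), φ ⟨g * x * g⁻¹, ⟨(E.mul_mem (E.mul_mem hg x.2.1) (E.inv_mem hg)), hN.conj_mem (x : G) x.2.2 g⟩⟩ = φ x) ∧
      ∃ m : ℕ, ¬ p ∣ m ∧ (Nat.card ↥(E ⊓ N) : ℂ)⁻¹ * ∑ᶠ x : ↥(E ⊓ N), ϑ ⟨(x : G), x.2.2⟩ * conj (φ x) = (m : ℂ) := by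
  classical
  obtain ⟨E, θ, w, hE, hθ, htop, hw, hpw⟩ := exists_supplement hp N hind ϑ hϑ hinv
  obtain ⟨k, hk⟩ := hind
  letI : Fintype E := Fintype.ofFinite _
  set N₀ := N.subgroupOf E with hN₀
  letI : Fintype N₀ := Fintype.ofFinite _
  haveI hN₀n : N₀.Normal := inferInstance
  set ϑh := hatϑ N ϑ E with hϑh
  have hϑc : IsCharacter N₀ ϑh := isCharacter_hatϑ N (IsIrrCharacter.isCharacter' hϑ) E
  have hϑinv : ∀ e : E, conjFun N₀ ϑh e = ϑh := by
    intro e
    funext y
    rw [conjFun_apply]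
    simp only [hϑh, hatϑ]
    exact hinv (e : G) ⟨((y : E) : G), y.2⟩
  have hθcl := IsCharacter.isClassFunction' hθ
  letI act : MulAction E (IrrCharacter N₀) :=
    { smul := fun e φ => ⟨conjFun N₀ (φ : N₀ → ℂ) e⁻¹, isIrr_conjFun N₀ φ.2 e⁻¹⟩
      one_smul := by
        intro φ
        apply Subtype.ext
        show conjFun N₀ (φ : N₀ → ℂ) 1⁻¹ = φ
        rw [inv_one, conjFun_one]
      mul_smul := by
        intro a b φ
        apply Subtype.ext
        show conjFun N₀ (φ : N₀ → ℂ) (a * b)⁻¹ = conjFun N₀ (conjFun N₀ (φ : N₀ → ℂ) b⁻¹) a⁻¹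
        rw [mul_inv_rev, conjFun_mul] }
  have hsmul : ∀ (e : E) (φ : IrrCharacter N₀), ((e • φ : IrrCharacter N₀) : N₀ → ℂ) = conjFun N₀ (φ : N₀ → ℂ) e⁻¹ :=
    fun e φ => rfl
  choose c hc using fun φ : IrrCharacter N₀ => exists_nat_classInner hϑc (IsIrrCharacter.isCharacter' φ.2)
  have hprod : ∀ φ : IrrCharacter N₀, IsCharacter N₀ (fun y : N₀ => θ y * (φ : N₀ → ℂ) y) := fun φ =>
    isCharacter_mul (isCharacter_comp (Subgroup.subtype N₀) hθ) (IsIrrCharacter.isCharacter' φ.2)
  choose d hd using fun φ : IrrCharacter N₀ => exists_nat_classInner (hprod φ) hϑc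
  have hcinv : ∀ (e : E) (φ : IrrCharacter N₀), c (e • φ) = c φ := by
    intro e φ
    have h1 := hc (e • φ)
    rw [hsmul] at h1
    have h2 : classInner ϑh (conjFun N₀ (φ : N₀ → ℂ) e⁻¹) = classInner ϑh (φ : N₀ → ℂ) := by
      conv_lhs => rw [← hϑinv e⁻¹]
      exact classInner_conjFun_conjFun N₀ _ _ _
    rw [h2, hc φ] at h1
    exact_mod_cast h1.symm
  have hdinv : ∀ (e : E) (φ : IrrCharacter N₀), d (e • φ) = d φ := by
    intro e φ
    have h1 := hd (e • φ)
    rw [hsmul] at h1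
    have h2 : (fun y : N₀ => θ y * conjFun N₀ (φ : N₀ → ℂ) e⁻¹ y) = conjFun N₀ (fun y : N₀ => θ y * (φ : N₀ → ℂ) y) e⁻¹ := by
      funext y
      simp only [conjFun_apply]
      congr 1
      have := hθcl (y : E) e⁻¹
      exact this.symm
    rw [h2] at h1
    have h3 : classInner (conjFun N₀ (fun y : N₀ => θ y * (φ : N₀ → ℂ) y) e⁻¹) ϑh =
        classInner (fun y : N₀ => θ y * (φ : N₀ → ℂ) y) ϑh := by
      conv_lhs => rw [← hϑinv e⁻¹]
      exact classInner_conjFun_conjFun N₀ _ _ _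
    rw [h3, hd φ] at h1
    exact_mod_cast h1.symm
  -- the sum
  have hsum : (∑ φ : IrrCharacter N₀, c φ * d φ) = w := by
    have h1 := classFunction_expand (IsCharacter.isClassFunction' hϑc)
    have h2 : (fun y : N₀ => θ y * ϑh y) = ∑ φ : IrrCharacter N₀, (c φ : ℂ) • (fun y : N₀ => θ y * (φ : N₀ → ℂ) y) := by
      funext y
      rw [Finset.sum_apply]
      conv_lhs => rw [h1]
      rw [Finset.sum_apply, Finset.mul_sum]
      refine Finset.sum_congr rfl fun φ _ => ?_
      simp only [Pi.smul_apply, smul_eq_mul, hc φ]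
      ring
    have h3 : classInner (fun y : N₀ => θ y * ϑh y) ϑh = (w : ℂ) := by
      rw [← hw]
    rw [h2, classInner_sum_left] at h3
    have h4 : ∑ φ : IrrCharacter N₀, classInner ((c φ : ℂ) • (fun y : N₀ => θ y * (φ : N₀ → ℂ) y)) ϑh =
        ((∑ φ : IrrCharacter N₀, c φ * d φ : ℕ) : ℂ) := by
      push_cast
      refine Finset.sum_congr rfl fun φ _ => ?_
      rw [classInner_smul_left, hd φ]
    rw [h4] at h3
    exact_mod_cast h3
  have hidx : ∀ φ : IrrCharacter N₀, (MulAction.stabilizer E φ).index = 1 ∨ p ∣ (MulAction.stabilizer E φ).index := by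
    intro φ
    have hle : N₀ ≤ MulAction.stabilizer E φ := by
      intro e he
      rw [MulAction.mem_stabilizer_iff]
      apply Subtype.ext
      rw [hsmul]
      exact conjFun_of_mem N₀ (IsCharacter.isClassFunction' (IsIrrCharacter.isCharacter' φ.2)) ⟨e⁻¹, N₀.inv_mem he⟩
    have h1 : (MulAction.stabilizer E φ).index ∣ N₀.index := Subgroup.index_dvd_of_le hle
    have h2 : N₀.index ∣ p ^ k := by
      rw [← hk]
      exact Subgroup.relIndex_dvd_index_of_normal N E
    obtain ⟨j, _, hj⟩ := (Nat.dvd_prime_pow hp).mp (h1.trans h2)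
    by_cases hj0 : j = 0
    · left
      rw [hj, hj0, pow_zero]
    · right
      rw [hj]
      exact dvd_pow_self p hj0
  obtain ⟨φ, hφfix, hφu⟩ := exists_fixed_of_not_dvd hidx (fun φ => c φ * d φ)
    (fun g x => by simp only [hcinv, hdinv]) (by rw [hsum]; exact hpw)
  have hcφ : ¬ p ∣ c φ := fun h => hφu (dvd_mul_of_dvd_left h _)
  -- transport
  let ι : ↥(E ⊓ N) ≃* N₀ :=
    { toFun := fun x => ⟨⟨x, x.2.1⟩, x.2.2⟩
      invFun := fun y => ⟨((y : E) : G), (y : E).2, y.2⟩
      left_inv := fun x => rfl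
      right_inv := fun y => rfl
      map_mul' := fun _ _ => rfl }
  letI : Fintype ↥(E ⊓ N) := Fintype.ofFinite _
  refine ⟨E, fun x => (φ : N₀ → ℂ) (ι x), hE, htop, isIrr_comp_mulEquiv ι φ.2, ?_, c φ, hcφ, ?_⟩
  · intro g hg x
    have h1 := hφfix (⟨g, hg⟩⁻¹ : E)
    have h2 : conjFun N₀ (φ : N₀ → ℂ) ((⟨g, hg⟩ : E)⁻¹)⁻¹ = φ := by
      rw [← hsmul, h1]
    have h3 := congrFun h2 (ι x)
    rw [conjFun_apply] at h3
    refine Eq.trans ?_ h3
    show (φ : N₀ → ℂ) (ι ⟨g * x * g⁻¹, _⟩) = _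
    refine congrArg (φ : N₀ → ℂ) ?_
    apply Subtype.ext
    apply Subtype.ext
    simp [ι]
  · rw [finsum_eq_sum_of_fintype]
    have h1 := hc φ
    rw [classInner] at h1
    rw [← h1]
    have h2 : Nat.card ↥(E ⊓ N) = Nat.card N₀ := Nat.card_congr ι.toEquiv
    rw [h2]
    congr 1
    apply Fintype.sum_equiv ι.toEquiv
    intro x
    rfl

end Main

end Cfsg.Agent.Lib.BrauerInv
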