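import Mathlib
import Cfsg.Agent.Lib.TypeP
import Cfsg.Agent.Lib.PResidual
import Cfsg.Agent.Lib.PGroupBasic
import Cfsg.Agent.Lib.SylowCount
import Cfsg.Agent.Lib.H2Basic
import Cfsg.Prelude.Def_LieExceptional

/-!
# Nilpotent subgroups and `CN`-groups
-/

set_option autoImplicit false
set_option linter.all false

namespace Cfsg.Agent.Lib.CNBasic

open Cfsg

variable {G : Type*} [Group G] [Finite G]

/-- Elements of coprime orders in a nilpotent subgroup commute. -/
theorem comm_of_nilp {H : Subgroup G} (hH : Group.IsNilpotent H) {a b : G} (ha : a ∈ H) (hb : b ∈ H)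
    (hc : (orderOf a).Coprime (orderOf b)) : a * b = b * a := by
  have h1 := Cfsg.Agent.Lib.TypeP.nilp_comm_coprime (N := H) _ ⟨a, ha⟩ rfl ⟨b, hb⟩ (by
    simpa [Subgroup.orderOf_mk] using hc)
  exact congrArg Subtype.val h1

/-- In a `CN`-group, elements of coprime orders commuting with a non-identity element commute. -/
theorem cn_comm (hCN : IsCNGroup G) {z a b : G} (hz : z ≠ 1) (ha : a ∈ Subgroup.centralizer ({z} : Set G))
    (hb : b ∈ Subgroup.centralizer ({z} : Set G)) (hc : (orderOf a).Coprime (orderOf b)) : a * b = b * a :=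
  comm_of_nilp (hCN z hz) ha hb hc

theorem mem_centralizer_singleton {a z : G} : a ∈ Subgroup.centralizer ({z} : Set G) ↔ a * z = z * a := by
  constructor
  · intro h
    exact (Subgroup.mem_centralizer_iff.1 h z rfl).symm
  · intro h
    refine Subgroup.mem_centralizer_iff.2 ?_
    intro y hy
    rw [Set.mem_singleton_iff] at hy
    subst hy
    exact h.symm

/-- The `p`-part of a nilpotent subgroup. -/
theorem exists_sylow_part {H : Subgroup G} (hH : Group.IsNilpotent H) (p : ℕ) [Fact p.Prime] :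
    ∃ P₀ : Subgroup G, P₀ ≤ H ∧ IsPGroup p P₀ ∧ ¬ p ∣ P₀.relIndex H ∧ H ≤ Subgroup.normalizer (P₀ : Set G) ∧
      (∀ x ∈ H, IsPGroup p (Subgroup.zpowers x) → x ∈ P₀) := by
  classical
  obtain ⟨S⟩ : Nonempty (Sylow p H) := inferInstance
  haveI hSn : (S : Subgroup H).Normal := Sylow.normal_of_normalizerCondition normalizerCondition_of_isNilpotent S
  refine ⟨(S : Subgroup H).map H.subtype, ?_, ?_, ?_, ?_, ?_⟩
  · rintro _ ⟨x, -, rfl⟩
    exact x.2
  · exact S.isPGroup'.map H.subtype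
  · rw [Subgroup.relIndex, show ((S : Subgroup H).map H.subtype).subgroupOf H = (S : Subgroup H) from
      Subgroup.comap_map_eq_self_of_injective H.subtype_injective _]
    exact S.not_dvd_index
  · intro h hh
    rw [Subgroup.mem_normalizer_iff]
    intro x
    constructor
    · rintro ⟨y, hy, rfl⟩
      exact ⟨⟨h, hh⟩ * y * ⟨h, hh⟩⁻¹, hSn.conj_mem y hy ⟨h, hh⟩, rfl⟩
    · rintro ⟨y, hy, e⟩
      refine ⟨⟨h, hh⟩⁻¹ * y * ⟨h, hh⟩⁻¹⁻¹, hSn.conj_mem y hy ⟨h, hh⟩⁻¹, ?_⟩
      have e' : h * x * h⁻¹ = y := e.symm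
      have : x = h⁻¹ * (h * x * h⁻¹) * h := by group
      simp only [Subgroup.subtype_apply, Subgroup.coe_mul, Subgroup.coe_inv, inv_inv]
      rw [← e']
      group
  · intro x hx hxp
    have h1 : IsPGroup p (Subgroup.zpowers (⟨x, hx⟩ : H)) := by
      intro y
      obtain ⟨y, hy⟩ := y
      obtain ⟨i, rfl⟩ := Subgroup.mem_zpowers_iff.1 hy
      obtain ⟨k, hk⟩ := hxp ⟨x ^ i, Subgroup.zpow_mem_zpowers x i⟩
      refine ⟨k, Subtype.ext (Subtype.ext ?_)⟩
      have := congrArg Subtype.val hk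
      simpa using this
    obtain ⟨T, hT⟩ := h1.exists_le_sylow
    haveI := S.unique_of_normal hSn
    have hTS : T = S := Subsingleton.elim T S
    have : (⟨x, hx⟩ : H) ∈ (S : Subgroup H) := by
      rw [← hTS]
      exact hT (Subgroup.mem_zpowers _)
    exact ⟨⟨x, hx⟩, this, rfl⟩

/-- A `p`-element and a `p'`-element of a nilpotent subgroup commute. The center of a `p`-part is central. -/
theorem central_of_center_part {H P₀ : Subgroup G} (hH : Group.IsNilpotent H) {p : ℕ} [Fact p.Prime]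
    (hP₀H : P₀ ≤ H) (hP₀ : IsPGroup p P₀)
    (hall : ∀ x ∈ H, IsPGroup p (Subgroup.zpowers x) → x ∈ P₀) {z : G} (hz : z ∈ P₀)
    (hzc : ∀ y ∈ P₀, y * z = z * y) : ∀ h ∈ H, h * z = z * h := by
  intro h hh
  obtain ⟨a, b, e, hab, hac, ⟨k, hb⟩, hay, hby⟩ := Cfsg.Agent.Lib.PResidual.exists_decomp (p := p) h
  have haH : a ∈ H := (Subgroup.zpowers_le.2 hh) hay
  have hbH : b ∈ H := (Subgroup.zpowers_le.2 hh) hby
  have hbP : b ∈ P₀ := hall b hbH (by
    rw [IsPGroup.iff_card, Nat.card_zpowers]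
    exact ⟨k, hb⟩)
  have h1 : b * z = z * b := hzc b hbP
  have hzo : IsPGroup p (Subgroup.zpowers z) := hP₀.to_le ((Subgroup.zpowers_le).2 hz)
  have h2 : a * z = z * a := by
    apply comm_of_nilp hH haH (hP₀H hz)
    obtain ⟨m, hm⟩ := IsPGroup.iff_card.1 hzo
    rw [Nat.card_zpowers] at hm
    rw [hm]
    exact hac.pow_right m
  rw [e]
  calc a * b * z = a * (b * z) := by group
    _ = a * (z * b) := by rw [h1]
    _ = (a * z) * b := by group
    _ = (z * a) * b := by rw [h2]
    _ = z * (a * b) := by group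

/-- A normal subgroup of a finite `p`-group meeting its center, in the form we need: an element `x` of
`p`-power order normalizing a nontrivial `p`-group `A` has a non-identity fixed point in `A`. -/
theorem exists_fixed_of_pelement {p : ℕ} [Fact p.Prime] {A : Subgroup G} (hA : IsPGroup p A) (hA1 : A ≠ ⊥) {x : G}
    (hxp : IsPGroup p (Subgroup.zpowers x)) (hxN : x ∈ Subgroup.normalizer (A : Set G)) :
    ∃ z ∈ A, z ≠ 1 ∧ x * z = z * x := by
  classical
  let W : Subgroup G := Subgroup.zpowers x ⊔ A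
  have hle : Subgroup.zpowers x ≤ Subgroup.normalizer (A : Set G) := (Subgroup.zpowers_le).2 hxN
  have hW : IsPGroup p W := IsPGroup.to_sup_of_normal_right' hxp hA hle
  have hAW : A ≤ W := le_sup_right
  haveI hn : (A.subgroupOf W).Normal := (Subgroup.normal_subgroupOf_iff_le_normalizer hAW).2 (sup_le hle Subgroup.le_normalizer)
  have hne : A.subgroupOf W ≠ ⊥ := by
    intro h
    apply hA1
    rw [Subgroup.subgroupOf_eq_bot] at h
    exact le_bot_iff.1 (h.mono_right le_rfl |> fun _ => by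
      intro a ha
      have := h.le_bot ⟨ha, hAW ha⟩
      simpa using this)
  obtain ⟨z, hz, hz1, hzc⟩ := Cfsg.Agent.Lib.PGroupBasic.exists_ne_one_mem_center_of_normal hW (A.subgroupOf W) hne
  refine ⟨z, hz, ?_, ?_⟩
  · intro e
    exact hz1 (Subtype.ext e)
  · have hxW : x ∈ W := (le_sup_left : Subgroup.zpowers x ≤ W) (Subgroup.mem_zpowers x)
    have := (Subgroup.mem_center_iff.1 hzc) ⟨x, hxW⟩
    exact congrArg Subtype.val this

/-- A `p`-group normalizing a nontrivial `p`-group fixes a non-identity element of it. -/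
theorem exists_fixed_of_pgroup {p : ℕ} [Fact p.Prime] {A B : Subgroup G} (hA : IsPGroup p A) (hA1 : A ≠ ⊥)
    (hB : IsPGroup p B) (hBN : B ≤ Subgroup.normalizer (A : Set G)) :
    ∃ z ∈ A, z ≠ 1 ∧ ∀ b ∈ B, b * z = z * b := by
  classical
  let W : Subgroup G := B ⊔ A
  have hW : IsPGroup p W := IsPGroup.to_sup_of_normal_right' hB hA hBN
  have hAW : A ≤ W := le_sup_right
  haveI hn : (A.subgroupOf W).Normal := (Subgroup.normal_subgroupOf_iff_le_normalizer hAW).2 (sup_le hBN Subgroup.le_normalizer)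
  have hne : A.subgroupOf W ≠ ⊥ := by
    intro h
    apply hA1
    rw [Subgroup.subgroupOf_eq_bot] at h
    exact le_bot_iff.1 (by
      intro a ha
      have := h.le_bot ⟨ha, hAW ha⟩
      simpa using this)
  obtain ⟨z, hz, hz1, hzc⟩ := Cfsg.Agent.Lib.PGroupBasic.exists_ne_one_mem_center_of_normal hW (A.subgroupOf W) hne
  refine ⟨z, hz, ?_, ?_⟩
  · intro e
    exact hz1 (Subtype.ext e)
  · intro b hb
    have hbW : b ∈ W := (le_sup_left : B ≤ W) hb
    have := (Subgroup.mem_center_iff.1 hzc) ⟨b, hbW⟩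
    exact congrArg Subtype.val this

/-- A subgroup of a nilpotent subgroup is nilpotent. -/
theorem nilp_of_le {A B : Subgroup G} (h : A ≤ B) (hB : Group.IsNilpotent B) : Group.IsNilpotent A := by
  haveI := hB
  exact nilpotent_of_mulEquiv (Subgroup.subgroupOfEquivOfLe h)

/-- A `p`-element normalizing a `p`-subgroup of index prime to `p` lies in it. -/
theorem mem_of_normalizes {p : ℕ} [Fact p.Prime] {Q : Subgroup G} {b : G} (hQ : IsPGroup p Q) (hidx : ¬ p ∣ Q.index)
    (hb : IsPGroup p (Subgroup.zpowers b)) (hN : b ∈ Subgroup.normalizer (Q : Set G)) : b ∈ Q := by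
  let R : Subgroup G := Subgroup.zpowers b ⊔ Q
  have hle : Subgroup.zpowers b ≤ Subgroup.normalizer (Q : Set G) := (Subgroup.zpowers_le).2 hN
  have hR : IsPGroup p R := IsPGroup.to_sup_of_normal_right' hb hQ hle
  have hQR : Q ≤ R := le_sup_right
  have h1 : Q.relIndex R * R.index = Q.index := Subgroup.relIndex_mul_index hQR
  obtain ⟨n, hn⟩ := IsPGroup.iff_card.1 hR
  have h2 : Q.relIndex R ∣ p ^ n := by
    rw [← hn, Subgroup.relIndex]
    exact (Subgroup.index_dvd_card (Q.subgroupOf R))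
  obtain ⟨m, -, hm⟩ := (Nat.dvd_prime_pow Fact.out).1 h2
  have hm0 : m = 0 := by
    by_contra hm0
    apply hidx
    rw [← h1, hm]
    exact Dvd.dvd.mul_right (dvd_pow_self p hm0) _
  rw [hm0, pow_zero] at hm
  have h3 : R ≤ Q := Subgroup.relIndex_eq_one.1 hm
  exact h3 ((le_sup_left : Subgroup.zpowers b ≤ R) (Subgroup.mem_zpowers b))

/-- A `p`-group containing a `p`-subgroup of index prime to `p` coincides with it. -/
theorem le_of_pgroup {p : ℕ} [Fact p.Prime] {Q R : Subgroup G} (hQR : Q ≤ R) (hR : IsPGroup p R) (hidx : ¬ p ∣ Q.index) : R ≤ Q := by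
  have h1 : Q.relIndex R * R.index = Q.index := Subgroup.relIndex_mul_index hQR
  obtain ⟨n, hn⟩ := IsPGroup.iff_card.1 hR
  have h2 : Q.relIndex R ∣ p ^ n := by
    rw [← hn, Subgroup.relIndex]
    exact (Subgroup.index_dvd_card (Q.subgroupOf R))
  obtain ⟨m, -, hm⟩ := (Nat.dvd_prime_pow Fact.out).1 h2
  have hm0 : m = 0 := by
    by_contra hm0
    apply hidx
    rw [← h1, hm]
    exact Dvd.dvd.mul_right (dvd_pow_self p hm0) _
  rw [hm0, pow_zero] at hm
  exact Subgroup.relIndex_eq_one.1 hm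

/-- The center of a nontrivial `p`-group, as a subgroup of the ambient group. -/
theorem center_part_ne_bot {p : ℕ} [Fact p.Prime] {P : Subgroup G} (hP : IsPGroup p P) (h1 : P ≠ ⊥) :
    P ⊓ Subgroup.centralizer (P : Set G) ≠ ⊥ := by
  have hne : (⊤ : Subgroup P) ≠ ⊥ := by
    intro h
    apply h1
    rw [eq_bot_iff]
    intro a ha
    have h2 : (⟨a, ha⟩ : P) ∈ (⊤ : Subgroup P) := trivial
    rw [h] at h2
    have := (Subgroup.mem_bot).1 h2
    simpa using congrArg Subtype.val this
  obtain ⟨z, -, hz1, hzc⟩ := Cfsg.Agent.Lib.PGroupBasic.exists_ne_one_mem_center_of_normal hP ⊤ hne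
  intro hbot
  have hmem : (z : G) ∈ P ⊓ Subgroup.centralizer (P : Set G) := by
    refine ⟨z.2, Subgroup.mem_centralizer_iff.2 ?_⟩
    intro y hy
    have := (Subgroup.mem_center_iff.1 hzc) ⟨y, hy⟩
    exact congrArg Subtype.val this
  rw [hbot, Subgroup.mem_bot] at hmem
  exact hz1 (Subtype.ext hmem)

end Cfsg.Agent.Lib.CNBasic
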