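import Mathlib
import Cfsg.Agent.Lib.CNBasic
import Cfsg.Agent.Lib.SchurZ

/-!
# Quotients of `CN`-groups by solvable normal subgroups
-/

set_option autoImplicit false
set_option linter.all false

namespace Cfsg.Agent.Lib.CNQuot

open Cfsg Cfsg.Agent.Lib.CNBasic

universe u

section elem

variable {G : Type u} [Group G] [Finite G]

theorem nilp_map_of_nilp {H : Type*} [Group H] (f : G →* H) {A : Subgroup G} (hA : Group.IsNilpotent A) :
    Group.IsNilpotent (A.map f) := by
  haveI := hA
  exact nilpotent_of_surjective (f.subgroupMap A) (f.subgroupMap_surjective A)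

theorem isCN_of_equiv {H : Type*} [Group H] (e : G ≃* H) (hCN : IsCNGroup G) : IsCNGroup H := by
  intro h hh
  haveI : Finite H := Finite.of_equiv G e.toEquiv
  have h1 : e.symm h ≠ 1 := by
    intro h2
    apply hh
    have := congrArg e h2
    simpa using this
  have h2 := nilp_map_of_nilp e.toMonoidHom (hCN _ h1)
  refine nilp_of_le ?_ h2
  intro x hx
  refine ⟨e.symm x, ?_, by simp⟩
  apply mem_centralizer_singleton.2
  have h3 := mem_centralizer_singleton.1 hx
  have h4 := congrArg e.symm h3
  simpa using h4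

/-- The elementary abelian case. -/
theorem cn_quot_elem (hCN : IsCNGroup G) (N : Subgroup G) [hNn : N.Normal]
    (hab : ∀ a ∈ N, ∀ b ∈ N, a * b = b * a) (p : ℕ) [hp : Fact p.Prime] (hpN : ∀ x ∈ N, x ^ p = 1)
    (hN1 : N ≠ ⊥) : IsCNGroup (G ⧸ N) := by
  classical
  let π := QuotientGroup.mk' N
  have hπ : ∀ y, π y = 1 ↔ y ∈ N := fun y => QuotientGroup.eq_one_iff y
  have hNp : IsPGroup p N := fun x => ⟨1, Subtype.ext (by simpa using hpN x x.2)⟩
  have hNs : Group.IsSolvable N := isSolvable_of_comm (fun a b => Subtype.ext (hab a a.2 b b.2))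
  have hNorm : ∀ A : Subgroup G, A ≤ Subgroup.normalizer (N : Set G) := fun A w _ => by
    rw [Subgroup.normalizer_eq_top N]
    trivial
  have key : ∀ xb : G ⧸ N, xb ≠ 1 → (orderOf xb).Prime → Group.IsNilpotent (Subgroup.centralizer ({xb} : Set (G ⧸ N))) := by
    intro xb hxb hq
    haveI : Fact (orderOf xb).Prime := ⟨hq⟩
    obtain ⟨x₀, hx₀⟩ := QuotientGroup.mk'_surjective N xb
    obtain ⟨a, x, e, -, hac, ⟨k, hxo⟩, haz, -⟩ := Cfsg.Agent.Lib.PResidual.exists_decomp (p := orderOf xb) x₀
    have hπa : π a = 1 := by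
      obtain ⟨i, rfl⟩ := Subgroup.mem_zpowers_iff.1 haz
      have h1 : (π (x₀ ^ i)) ^ orderOf xb = 1 := by
        rw [map_zpow]
        change ((QuotientGroup.mk' N x₀) ^ i) ^ orderOf xb = 1
        rw [hx₀, ← zpow_natCast, ← zpow_mul, mul_comm, zpow_mul, zpow_natCast, pow_orderOf_eq_one, one_zpow]
      have h2 := orderOf_dvd_of_pow_eq_one h1
      have h3 : orderOf (π (x₀ ^ i)) ∣ orderOf (x₀ ^ i) := orderOf_map_dvd π _
      exact orderOf_eq_one_iff.1 (Nat.eq_one_of_dvd_coprimes hac h3 h2)
    have hπx : π x = xb := by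
      have h1 : π x₀ = xb := hx₀
      rw [e, map_mul, hπa, one_mul] at h1
      exact h1
    have hx1 : x ≠ 1 := by
      rintro rfl
      rw [map_one] at hπx
      exact hxb hπx.symm
    -- commutators with `L`
    have hcomm : ∀ y, π y * xb = xb * π y → ∀ b ∈ Subgroup.zpowers x, y * b * y⁻¹ * b⁻¹ ∈ N := by
      intro y hy b hb
      obtain ⟨i, rfl⟩ := Subgroup.mem_zpowers_iff.1 hb
      rw [← hπ]
      simp only [map_mul, map_inv, map_zpow]
      rw [hπx]
      have h1 : Commute (π y) (xb ^ i) := (show Commute (π y) xb from hy).zpow_right i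
      rw [h1.eq]
      group
    have hC : ∀ z, z ≠ 1 → (∀ y, π y * xb = xb * π y → y * z = z * y) →
        Group.IsNilpotent (Subgroup.centralizer ({xb} : Set (G ⧸ N))) := by
      intro z hz hyz
      refine nilp_of_le ?_ (nilp_map_of_nilp π (hCN z hz))
      intro yb hyb
      obtain ⟨y, rfl⟩ := QuotientGroup.mk'_surjective N yb
      exact ⟨y, mem_centralizer_singleton.2 (hyz y (mem_centralizer_singleton.1 hyb)), rfl⟩
    by_cases hqp : orderOf xb = p
    · -- the case `q = p`
      have hxp : IsPGroup p (Subgroup.zpowers x) := by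
        rw [IsPGroup.iff_card, Nat.card_zpowers, hxo, hqp]
        exact ⟨k, rfl⟩
      let A : Subgroup G := N ⊓ Subgroup.centralizer ({x} : Set G)
      have hAp : IsPGroup p A := hNp.to_le inf_le_left
      have hAne : A ≠ ⊥ := by
        obtain ⟨z, hz, hz1, hxz'⟩ := exists_fixed_of_pelement hNp hN1 hxp (hNorm ⊤ (Subgroup.mem_top x))
        intro h
        have h1 : z ∈ A := ⟨hz, mem_centralizer_singleton.2 hxz'.symm⟩
        rw [h, Subgroup.mem_bot] at h1
        exact hz1 h1
      let L : Subgroup G := (Subgroup.centralizer ({xb} : Set (G ⧸ N))).comap π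
      have hLmem : ∀ y, y ∈ L ↔ π y * xb = xb * π y := fun y => mem_centralizer_singleton
      have hLA : L ≤ Subgroup.normalizer (A : Set G) := by
        intro y hy
        apply Cfsg.Agent.Lib.H2Basic.mem_normalizer_of_conj_le
        rintro b ⟨hbN, hbC⟩
        refine ⟨hNn.conj_mem b hbN y, mem_centralizer_singleton.2 ?_⟩
        have hbx := mem_centralizer_singleton.1 hbC
        have hy' : y⁻¹ ∈ L := L.inv_mem hy
        have h1 := hcomm y⁻¹ ((hLmem _).1 hy') x (Subgroup.mem_zpowers x)
        have h2 : b * (y⁻¹ * x * y⁻¹⁻¹ * x⁻¹) = (y⁻¹ * x * y⁻¹⁻¹ * x⁻¹) * b := hab b hbN _ h1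
        have h3 : b * (y⁻¹ * x * y) = (y⁻¹ * x * y) * b := by
          have e3 : y⁻¹ * x * y = (y⁻¹ * x * y⁻¹⁻¹ * x⁻¹) * x := by group
          rw [e3]
          calc b * ((y⁻¹ * x * y⁻¹⁻¹ * x⁻¹) * x) = (b * (y⁻¹ * x * y⁻¹⁻¹ * x⁻¹)) * x := by group
            _ = ((y⁻¹ * x * y⁻¹⁻¹ * x⁻¹) * b) * x := by rw [h2]
            _ = (y⁻¹ * x * y⁻¹⁻¹ * x⁻¹) * (b * x) := by group
            _ = (y⁻¹ * x * y⁻¹⁻¹ * x⁻¹) * (x * b) := by rw [hbx]
            _ = ((y⁻¹ * x * y⁻¹⁻¹ * x⁻¹) * x) * b := by group
        calc y * b * y⁻¹ * x = y * (b * (y⁻¹ * x * y)) * y⁻¹ := by group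
          _ = y * ((y⁻¹ * x * y) * b) * y⁻¹ := by rw [h3]
          _ = x * (y * b * y⁻¹) := by group
      -- `p'`-elements of `L` centralize `A`
      have hA' : ∀ y ∈ L, (orderOf y).Coprime p → ∀ b ∈ A, y * b = b * y := by
        intro y hy hyo b hb
        have hle : Subgroup.zpowers y ≤ L := (Subgroup.zpowers_le).2 hy
        obtain ⟨n, hn, hnx⟩ := Cfsg.Agent.Lib.SchurZ.exists_fixed N (Subgroup.zpowers y) (hNorm _) x
          (fun c hc => by
            rw [← hπ]
            have h1 := (hLmem c).1 (hle hc)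
            simp only [map_mul, map_inv]
            rw [hπx, ← h1]
            group)
          (by
            obtain ⟨m, hm⟩ := IsPGroup.iff_card.1 hNp
            rw [hm, Nat.card_zpowers]
            exact (hyo.pow_right m).symm)
          (Or.inl hNs)
        have hx'1 : n * x ≠ 1 := by
          intro h
          have h1 := congrArg π h
          rw [map_mul, (hπ n).2 hn, one_mul, map_one, hπx] at h1
          exact hxb h1
        have hy1 : y ∈ Subgroup.centralizer ({n * x} : Set G) := by
          apply mem_centralizer_singleton.2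
          exact (Subgroup.mem_centralizer_iff.1 hnx y (Subgroup.mem_zpowers y))
        have hb1 : b ∈ Subgroup.centralizer ({n * x} : Set G) := by
          apply mem_centralizer_singleton.2
          have h1 : b * n = n * b := hab b hb.1 n hn
          have h2 : b * x = x * b := mem_centralizer_singleton.1 hb.2
          calc b * (n * x) = (b * n) * x := by group
            _ = (n * b) * x := by rw [h1]
            _ = n * (b * x) := by group
            _ = n * (x * b) := by rw [h2]
            _ = n * x * b := by group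
        apply cn_comm hCN hx'1 hy1 hb1
        obtain ⟨m, hm⟩ := IsPGroup.iff_card.1 (hAp.to_le ((Subgroup.zpowers_le).2 hb))
        rw [Nat.card_zpowers] at hm
        rw [hm]
        exact hyo.pow_right m
      -- a Sylow subgroup of `L` and a fixed point
      obtain ⟨S⟩ : Nonempty (Sylow p L) := inferInstance
      have hSmap : ((S : Subgroup L).map L.subtype) ≤ L := by
        rintro _ ⟨s, -, rfl⟩
        exact s.2
      obtain ⟨z₀, hz₀, hz₀1, hz₀c⟩ := exists_fixed_of_pgroup hAp hAne (S.isPGroup'.map L.subtype) (hSmap.trans hLA)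
      -- the centralizer of `A` in `L`
      let M' : Subgroup L := (Subgroup.centralizer (A : Set G)).subgroupOf L
      haveI hM' : M'.Normal := by
        constructor
        intro m hm l
        rw [Subgroup.mem_subgroupOf]
        refine Subgroup.mem_centralizer_iff.2 ?_
        intro b hb
        have hl : (l : G)⁻¹ * b * l ∈ A := by
          have := (Subgroup.mem_normalizer_iff.1 (L.inv_mem l.2 |> hLA) b).1 hb
          simpa using this
        have h1 := Subgroup.mem_centralizer_iff.1 (Subgroup.mem_subgroupOf.1 hm) _ hl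
        simp only [Subgroup.coe_mul, Subgroup.coe_inv]
        calc b * ((l : G) * m * (l : G)⁻¹) = (l : G) * (((l : G)⁻¹ * b * l) * m) * (l : G)⁻¹ := by group
          _ = (l : G) * (m * ((l : G)⁻¹ * b * l)) * (l : G)⁻¹ := by rw [h1]
          _ = (l : G) * m * (l : G)⁻¹ * b := by group
      have hquot : IsPGroup p (L ⧸ M') := by
        intro g
        obtain ⟨l, rfl⟩ := QuotientGroup.mk'_surjective M' g
        obtain ⟨c, d, e', -, hcc, ⟨m, hd⟩, -, -⟩ := Cfsg.Agent.Lib.PResidual.exists_decomp (p := p) l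
        refine ⟨m, ?_⟩
        have hcM : c ∈ M' := by
          rw [Subgroup.mem_subgroupOf]
          refine Subgroup.mem_centralizer_iff.2 ?_
          intro b hb
          have hco : (orderOf (c : G)).Coprime p := by
            rwa [Subgroup.orderOf_coe]
          exact (hA' c c.2 hco b hb).symm
        have h1 : QuotientGroup.mk' M' c = 1 := (QuotientGroup.eq_one_iff c).2 hcM
        rw [e', map_mul, h1, one_mul, ← map_pow, ← hd, pow_orderOf_eq_one, map_one]
      let S' : Sylow p (L ⧸ M') := S.mapSurjective (QuotientGroup.mk'_surjective M')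
      have hS'top : (S' : Subgroup (L ⧸ M')) = ⊤ := (S'.is_maximal' (hquot.to_subgroup ⊤) le_top).symm
      apply hC z₀ hz₀1
      intro y hy
      have hyL : y ∈ L := (hLmem y).2 hy
      have h1 : QuotientGroup.mk' M' (⟨y, hyL⟩ : L) ∈ (S' : Subgroup (L ⧸ M')) := by
        rw [hS'top]
        trivial
      rw [Sylow.coe_mapSurjective] at h1
      obtain ⟨s, hs, es⟩ := h1
      have h2 : s⁻¹ * (⟨y, hyL⟩ : L) ∈ M' := by
        rw [← QuotientGroup.eq_one_iff]
        change QuotientGroup.mk' M' _ = 1
        rw [map_mul, map_inv, es, inv_mul_cancel]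
      have h3 : (s : G)⁻¹ * y ∈ Subgroup.centralizer (A : Set G) := h2
      have h4 := Subgroup.mem_centralizer_iff.1 h3 z₀ hz₀
      have h5 : (s : G) * z₀ = z₀ * s := hz₀c _ ⟨s, hs, rfl⟩
      have e6 : y = (s : G) * ((s : G)⁻¹ * y) := by group
      rw [e6]
      calc (s : G) * ((s : G)⁻¹ * y) * z₀ = (s : G) * (((s : G)⁻¹ * y) * z₀) := by group
        _ = (s : G) * (z₀ * ((s : G)⁻¹ * y)) := by rw [h4]
        _ = ((s : G) * z₀) * ((s : G)⁻¹ * y) := by group
        _ = (z₀ * s) * ((s : G)⁻¹ * y) := by rw [h5]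
        _ = z₀ * ((s : G) * ((s : G)⁻¹ * y)) := by group
    · -- the case `q ≠ p`
      have hcop : Nat.Coprime (Nat.card N) (Nat.card (Subgroup.zpowers x)) := by
        obtain ⟨m, hm⟩ := IsPGroup.iff_card.1 hNp
        rw [hm, Nat.card_zpowers, hxo]
        exact Nat.Coprime.pow _ _ ((Nat.coprime_primes hp.out hq).2 (Ne.symm hqp))
      refine nilp_of_le ?_ (nilp_map_of_nilp π (hCN x hx1))
      intro yb hyb
      obtain ⟨y, rfl⟩ := QuotientGroup.mk'_surjective N yb
      have hy := mem_centralizer_singleton.1 hyb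
      obtain ⟨n, hn, hnx⟩ := Cfsg.Agent.Lib.SchurZ.exists_fixed N (Subgroup.zpowers x) (hNorm _) y (hcomm y hy) hcop (Or.inl hNs)
      refine ⟨n * y, ?_, ?_⟩
      · apply mem_centralizer_singleton.2
        exact (Subgroup.mem_centralizer_iff.1 hnx x (Subgroup.mem_zpowers x)).symm
      · change π (n * y) = π y
        rw [map_mul, (hπ n).2 hn, one_mul]
  intro xb hxb
  have hxo : orderOf xb ≠ 1 := fun h => hxb (orderOf_eq_one_iff.1 h)
  obtain ⟨r, hr, hrd⟩ := Nat.exists_prime_and_dvd hxo
  have hyo : orderOf (xb ^ (orderOf xb / r)) = r := orderOf_pow_orderOf_div (orderOf_pos xb).ne' hrd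
  have hy1 : xb ^ (orderOf xb / r) ≠ 1 := by
    intro h
    rw [h, orderOf_one] at hyo
    exact hr.one_lt.ne hyo
  refine nilp_of_le ?_ (key _ hy1 (by rw [hyo]; exact hr))
  intro c hc
  apply mem_centralizer_singleton.2
  exact (show Commute c xb from mem_centralizer_singleton.1 hc).pow_right _

end elem

/-- A solvable normal subgroup of a `CN`-group has a `CN` quotient. -/
theorem cn_quot : ∀ (n : ℕ) (G : Type u) [Group G] [Finite G] (hCN : IsCNGroup G) (H : Subgroup G) [H.Normal]
    (hH : Group.IsSolvable H), Nat.card H = n → IsCNGroup (G ⧸ H) := by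
  intro n
  induction n using Nat.strong_induction_on with
  | _ n ih =>
    intro G _ _ hCN H hHn hH hc
    by_cases h1 : H = ⊥
    · subst h1
      exact isCN_of_equiv (QuotientGroup.quotientBot (G := G)).symm hCN
    classical
    obtain ⟨Z, hZn, hZH, hZne, hZc⟩ := Cfsg.Agent.Lib.SchurZ.exists_abelian_normal H hH h1
    obtain ⟨x, hx, hx1⟩ := (Subgroup.bot_or_exists_ne_one Z).resolve_left hZne
    have hxo : orderOf x ≠ 1 := fun h => hx1 (orderOf_eq_one_iff.1 h)
    obtain ⟨p, hp, hpd⟩ := Nat.exists_prime_and_dvd hxo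
    haveI : Fact p.Prime := ⟨hp⟩
    have hyo : orderOf (x ^ (orderOf x / p)) = p := orderOf_pow_orderOf_div (orderOf_pos x).ne' hpd
    -- the elements of order dividing `p` of `Z`
    let E : Subgroup G :=
      { carrier := {a | a ∈ Z ∧ a ^ p = 1}
        mul_mem' := by
          rintro a b ⟨ha, ha'⟩ ⟨hb, hb'⟩
          refine ⟨Z.mul_mem ha hb, ?_⟩
          rw [(show Commute a b from hZc a ha b hb).mul_pow, ha', hb', one_mul]
        one_mem' := ⟨Z.one_mem, one_pow _⟩
        inv_mem' := by
          rintro a ⟨ha, ha'⟩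
          exact ⟨Z.inv_mem ha, by rw [inv_pow, ha', inv_one]⟩ }
    haveI hEn : E.Normal := by
      constructor
      rintro a ⟨ha, ha'⟩ g
      refine ⟨hZn.conj_mem a ha g, ?_⟩
      rw [conj_pow, ha']
      group
    have hE1 : E ≠ ⊥ := by
      intro h
      have h2 : x ^ (orderOf x / p) ∈ E := ⟨Z.pow_mem hx _, by
        have h3 := pow_orderOf_eq_one (x ^ (orderOf x / p))
        rwa [hyo] at h3⟩
      rw [h, Subgroup.mem_bot] at h2
      rw [h2, orderOf_one] at hyo
      exact hp.one_lt.ne hyo
    have hEH : E ≤ H := fun a ha => hZH ha.1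
    have hcn1 : IsCNGroup (G ⧸ E) := cn_quot_elem hCN E (fun a ha b hb => hZc a ha.1 b hb.1) p (fun a ha => ha.2) hE1
    let H' : Subgroup (G ⧸ E) := H.map (QuotientGroup.mk' E)
    haveI hH'n : H'.Normal := Subgroup.Normal.map inferInstance _ (QuotientGroup.mk'_surjective E)
    have hH's : Group.IsSolvable H' := by
      haveI := hH
      exact solvable_of_surjective ((QuotientGroup.mk' E).subgroupMap_surjective H)
    have hcard : Nat.card H' < n := by
      rw [← hc]
      have h2 := Cfsg.Agent.Lib.SchurZ.card_map_mul_card_ker (QuotientGroup.mk' E) (A := H) (by rw [QuotientGroup.ker_mk']; exact hEH)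
      rw [QuotientGroup.ker_mk'] at h2
      have h3 : 1 < Nat.card E := (Subgroup.one_lt_card_iff_ne_bot E).2 hE1
      have hpos : 0 < Nat.card H' := Nat.card_pos
      change Nat.card H' * Nat.card E = Nat.card H at h2
      rw [← h2]
      nlinarith
    have h3 := ih _ hcard (G ⧸ E) hcn1 H' hH's rfl
    exact isCN_of_equiv (QuotientGroup.quotientQuotientEquivQuotient E H hEH) h3

end Cfsg.Agent.Lib.CNQuot
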