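import Mathlib
import Cfsg.Agent.Lib.CNBasic
import Cfsg.Agent.Lib.SchurZ
import Cfsg.Agent.Lib.Replacement

/-!
# The sum trick for Frobenius-type groups acting without fixed points; groups with elements of
prime power order
-/

set_option autoImplicit false
set_option linter.all false

namespace Cfsg.Agent.Lib.CPGroup

open Cfsg

universe u

section sum

variable {T A : Type*} [Group T] [Finite T] [CommGroup A] (ρ : T →* MulAut A)

theorem act_mul (s t : T) (e : A) : ρ (s * t) e = ρ s (ρ t e) := by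
  rw [map_mul, MulAut.mul_apply]

/-- The product over a nontrivial subgroup acting without fixed points is trivial. -/
theorem prod_subgroup_eq_one (hfpf : ∀ t : T, t ≠ 1 → ∀ e : A, ρ t e = e → e = 1)
    (C : Subgroup T) [Fintype C] (hC : C ≠ ⊥) (e : A) : ∏ c : C, ρ c e = 1 := by
  obtain ⟨c₀, hc₀, hc₀1⟩ := (Subgroup.bot_or_exists_ne_one C).resolve_left hC
  apply hfpf c₀ hc₀1
  rw [map_prod]
  refine Fintype.prod_equiv (Equiv.mulLeft (⟨c₀, hc₀⟩ : C)) _ _ fun c => ?_
  simp [act_mul]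

/-- The sum trick. -/
theorem frob_sum (hfpf : ∀ t : T, t ≠ 1 → ∀ e : A, ρ t e = e → e = 1)
    (X Y : Subgroup T) [Y.Normal] (hd : Y ⊓ X = ⊥) (htop : Y ⊔ X = ⊤) (hX1 : X ≠ ⊥) (hY1 : Y ≠ ⊥)
    (hC : ∀ y ∈ Y, ∀ a ∈ X, a ≠ 1 → y * a = a * y → y = 1) (e : A) : e ^ Nat.card Y = 1 := by
  classical
  letI := Fintype.ofFinite T
  letI := Fintype.ofFinite X
  letI : Fintype Y := Subtype.fintype (fun t => t ∈ Y)
  have hcard : Nat.card T = Nat.card Y * Nat.card X := by
    have := Cfsg.Agent.Lib.SchurZ.card_sup_of_disjoint Y X hd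
    rw [htop] at this
    rwa [Subgroup.card_top] at this
  -- the bijection
  let φ : Y × {a : X // a ≠ 1} → {t : T // t ∉ Y} := fun p => ⟨p.1 * p.2 * (p.1 : T)⁻¹, by
    intro h
    obtain ⟨y, ⟨a, ha⟩⟩ := p
    have h1 : (y : T)⁻¹ * ((y : T) * a * (y : T)⁻¹) * (y : T)⁻¹⁻¹ ∈ Y := (inferInstance : Y.Normal).conj_mem _ h _
    have h2 : (y : T)⁻¹ * ((y : T) * a * (y : T)⁻¹) * (y : T)⁻¹⁻¹ = a := by group
    rw [h2] at h1
    have h3 : (a : T) ∈ Y ⊓ X := ⟨h1, a.2⟩
    rw [hd, Subgroup.mem_bot] at h3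
    exact ha (Subtype.ext h3)⟩
  have hφinj : Function.Injective φ := by
    rintro ⟨y, ⟨a, ha⟩⟩ ⟨y', ⟨a', ha'⟩⟩ h
    have h0 : (y : T) * a * (y : T)⁻¹ = (y' : T) * a' * (y' : T)⁻¹ := congrArg Subtype.val h
    -- `w = y'⁻¹ y`
    have h1 : ((y' : T)⁻¹ * y) * a * ((y' : T)⁻¹ * y)⁻¹ = a' := by
      calc ((y' : T)⁻¹ * y) * a * ((y' : T)⁻¹ * y)⁻¹ = (y' : T)⁻¹ * ((y : T) * a * (y : T)⁻¹) * y' := by group
        _ = (y' : T)⁻¹ * ((y' : T) * a' * (y' : T)⁻¹) * y' := by rw [h0]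
        _ = a' := by group
    have hw : (y' : T)⁻¹ * y ∈ Y := Y.mul_mem (Y.inv_mem y'.2) y.2
    have h2 : (a' : T) * (a : T)⁻¹ ∈ Y ⊓ X := by
      refine ⟨?_, X.mul_mem a'.2 (X.inv_mem a.2)⟩
      rw [← h1]
      have e3 : ((y' : T)⁻¹ * y) * a * ((y' : T)⁻¹ * y)⁻¹ * (a : T)⁻¹ =
          ((y' : T)⁻¹ * y) * ((a : T) * ((y' : T)⁻¹ * y)⁻¹ * (a : T)⁻¹) := by group
      rw [e3]
      exact Y.mul_mem hw ((inferInstance : Y.Normal).conj_mem _ (Y.inv_mem hw) _)
    rw [hd, Subgroup.mem_bot, mul_inv_eq_one] at h2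
    have haa : a' = a := Subtype.ext h2
    subst haa
    have h3 : ((y' : T)⁻¹ * y) * a' = (a' : T) * ((y' : T)⁻¹ * y) := by
      rw [mul_inv_eq_iff_eq_mul.1 h1]
    have h4 := hC _ hw a' a'.2 (fun e => ha (Subtype.ext e)) h3
    have h5 : y = y' := by
      apply Subtype.ext
      exact (inv_mul_eq_one.1 h4).symm
    subst h5
    rfl
  have hφbij : Function.Bijective φ := by
    rw [Fintype.bijective_iff_injective_and_card]
    refine ⟨hφinj, ?_⟩
    have h1 : Fintype.card {t : T // t ∉ Y} = Fintype.card T - Fintype.card Y := by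
      rw [Fintype.card_subtype_compl]
    have h2 : Fintype.card {a : X // a ≠ 1} = Fintype.card X - 1 := by
      rw [Fintype.card_subtype_compl]
      simp
    rw [Fintype.card_prod, h1, h2, Nat.mul_sub, mul_one]
    simp only [← Nat.card_eq_fintype_card]
    rw [hcard]
  -- the evaluation
  have h1 : ∏ t : T, ρ t e = 1 := by
    have h := prod_subgroup_eq_one ρ hfpf (⊤ : Subgroup T) (by
      intro h
      apply hY1
      rw [eq_bot_iff, ← h]
      exact le_top) e
    rw [← h]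
    exact (Fintype.prod_equiv (Subgroup.topEquiv (G := T)).toEquiv.symm _ _ (fun t => rfl))
  have h2 : ∏ t : T, ρ t e = (∏ y : Y, ρ y e) * ∏ t : {t : T // t ∉ Y}, ρ t e := by
    exact (Fintype.prod_subtype_mul_prod_subtype (fun t => t ∈ Y) (fun t => ρ t e)).symm
  rw [prod_subgroup_eq_one ρ hfpf Y hY1 e, one_mul] at h2
  have h3 : ∏ t : {t : T // t ∉ Y}, ρ t e = ∏ p : Y × {a : X // a ≠ 1}, ρ (φ p) e :=
    (Fintype.prod_bijective φ hφbij _ _ (fun _ => rfl)).symm
  have h4 : ∀ y : Y, ∏ a : {a : X // a ≠ 1}, ρ ((y : T) * a * (y : T)⁻¹) e = e⁻¹ := by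
    intro y
    set f := ρ ((y : T)⁻¹) e with hf
    have e1 : ∀ a : {a : X // a ≠ 1}, ρ ((y : T) * a * (y : T)⁻¹) e = ρ y (ρ a f) := by
      intro a
      rw [act_mul, act_mul]
    simp only [e1]
    rw [← map_prod]
    have e2 : ∏ a : {a : X // a ≠ 1}, ρ ((a : X) : T) f = ∏ a ∈ (Finset.univ : Finset X).erase 1, ρ (a : T) f :=
      (Finset.prod_subtype ((Finset.univ : Finset X).erase 1) (by simp) (fun a : X => ρ (a : T) f)).symm
    rw [e2]
    have e3 := prod_subgroup_eq_one ρ hfpf X hX1 f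
    have e4 : (ρ ((1 : X) : T) f) * ∏ a ∈ (Finset.univ : Finset X).erase 1, ρ (a : T) f = ∏ a : X, ρ (a : T) f :=
      Finset.mul_prod_erase (Finset.univ : Finset X) (fun a : X => ρ (a : T) f) (Finset.mem_univ (1 : X))
    rw [e3] at e4
    have e5 : ρ ((1 : X) : T) f = f := by simp
    rw [e5] at e4
    have e6 : ∏ a ∈ (Finset.univ : Finset X).erase 1, ρ (a : T) f = f⁻¹ := by
      rw [eq_inv_iff_mul_eq_one, mul_comm]
      exact e4
    rw [e6, map_inv, hf, ← act_mul]
    simp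
  rw [h3, Fintype.prod_prod_type] at h2
  have h5 : ∏ y : Y, ∏ a : {a : X // a ≠ 1}, ρ (φ (y, a)) e = (e⁻¹) ^ Nat.card Y := by
    rw [Nat.card_eq_fintype_card, ← Finset.card_univ, ← Finset.prod_const]
    exact Finset.prod_congr rfl fun y _ => h4 y
  rw [h5, h1, inv_pow] at h2
  exact inv_eq_one.1 h2.symm

end sum

section app

variable {G : Type*} [Group G] [Finite G]

theorem card_subgroupOf_of_le {A C : Subgroup G} (h : A ≤ C) :
    Nat.card (A.subgroupOf C) = Nat.card A :=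
  Nat.card_congr (Subgroup.subgroupOfEquivOfLe h).toEquiv

/-- Orders in a product with a subgroup normalizing the other. -/
theorem card_sup_of_normalizes (Y X : Subgroup G) (hXY : X ≤ Subgroup.normalizer (Y : Set G))
    (hd : Y ⊓ X = ⊥) : Nat.card (Y ⊔ X : Subgroup G) = Nat.card Y * Nat.card X := by
  set T := Y ⊔ X with hT
  have hYT : Y ≤ T := le_sup_left
  have hXT : X ≤ T := le_sup_right
  have hTN : T ≤ Subgroup.normalizer (Y : Set G) := sup_le Subgroup.le_normalizer hXY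
  haveI hn : (Y.subgroupOf T).Normal := (Subgroup.normal_subgroupOf_iff_le_normalizer hYT).2 hTN
  have hd' : Y.subgroupOf T ⊓ X.subgroupOf T = ⊥ := by
    rw [eq_bot_iff]
    rintro ⟨t, ht⟩ ⟨h1, h2⟩
    have h3 : t ∈ Y ⊓ X := ⟨h1, h2⟩
    rw [hd, Subgroup.mem_bot] at h3
    exact (Subgroup.mem_bot).2 (Subtype.ext h3)
  have h := Cfsg.Agent.Lib.SchurZ.card_sup_of_disjoint (Y.subgroupOf T) (X.subgroupOf T) hd'
  rw [← Subgroup.subgroupOf_sup hYT hXT, ← hT, Subgroup.subgroupOf_self, Subgroup.card_top,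
    card_subgroupOf_of_le hYT, card_subgroupOf_of_le hXT] at h
  exact h

/-- An abelian normal subgroup acted on without fixed points by a Frobenius-like group has exponent
dividing the order of the Frobenius kernel. -/
theorem frob_action (E : Subgroup G) [hEn : E.Normal] (hab : ∀ a ∈ E, ∀ b ∈ E, a * b = b * a)
    (X Y : Subgroup G) (hXY : X ≤ Subgroup.normalizer (Y : Set G)) (hd : Y ⊓ X = ⊥)
    (hX1 : X ≠ ⊥) (hY1 : Y ≠ ⊥)
    (hfpf : ∀ t ∈ Y ⊔ X, t ≠ 1 → ∀ e ∈ E, t * e = e * t → e = 1)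
    (hC : ∀ y ∈ Y, ∀ a ∈ X, a ≠ 1 → y * a = a * y → y = 1) (e : G) (he : e ∈ E) :
    e ^ Nat.card Y = 1 := by
  set T := Y ⊔ X with hT
  have hYT : Y ≤ T := le_sup_left
  have hXT : X ≤ T := le_sup_right
  have hTN : T ≤ Subgroup.normalizer (Y : Set G) := sup_le Subgroup.le_normalizer hXY
  haveI hn : (Y.subgroupOf T).Normal := (Subgroup.normal_subgroupOf_iff_le_normalizer hYT).2 hTN
  letI : CommGroup E :=
    { (inferInstance : Group E) with
      mul_comm := fun a b => Subtype.ext (hab a a.2 b b.2) }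
  let ρ : T →* MulAut E := (MulAut.conjNormal : G →* MulAut E).comp T.subtype
  have hρ : ∀ (t : T) (a : E), ((ρ t a : E) : G) = t * a * (t : G)⁻¹ := by
    intro t a
    simp [ρ, MulAut.conjNormal_apply]
  have hfpf' : ∀ t : T, t ≠ 1 → ∀ a : E, ρ t a = a → a = 1 := by
    intro t ht a h
    have h1 := congrArg (Subtype.val) h
    rw [hρ] at h1
    apply Subtype.ext
    refine hfpf t t.2 (fun h => ht (Subtype.ext h)) a a.2 ?_
    exact mul_inv_eq_iff_eq_mul.1 h1
  have hd' : Y.subgroupOf T ⊓ X.subgroupOf T = ⊥ := by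
    rw [eq_bot_iff]
    rintro ⟨t, ht⟩ ⟨h1, h2⟩
    have h3 : t ∈ Y ⊓ X := ⟨h1, h2⟩
    rw [hd, Subgroup.mem_bot] at h3
    exact (Subgroup.mem_bot).2 (Subtype.ext h3)
  have htop : Y.subgroupOf T ⊔ X.subgroupOf T = ⊤ := by
    rw [← Subgroup.subgroupOf_sup hYT hXT, ← hT, Subgroup.subgroupOf_self]
  have hne : ∀ {A : Subgroup G}, A ≤ T → A ≠ ⊥ → A.subgroupOf T ≠ ⊥ := by
    intro A hA hA1 h
    apply hA1
    rw [eq_bot_iff]
    intro a ha
    have h1 : (⟨a, hA ha⟩ : T) ∈ A.subgroupOf T := ha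
    rw [h, Subgroup.mem_bot] at h1
    exact (Subgroup.mem_bot).2 (congrArg Subtype.val h1)
  have h := frob_sum ρ hfpf' (X.subgroupOf T) (Y.subgroupOf T) hd' htop (hne hXT hX1) (hne hYT hY1)
    (by
      rintro y hy a ha ha1 hya
      apply Subtype.ext
      refine hC y hy a ha (fun h => ha1 (Subtype.ext h)) ?_
      exact congrArg Subtype.val hya) ⟨e, he⟩
  rw [card_subgroupOf_of_le hYT] at h
  have h2 := congrArg Subtype.val h
  simpa using h2

/-- Prime powers: a product of two coprime nontrivial numbers is no prime power. -/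
theorem not_primePow_mul {a b : ℕ} (hcop : a.Coprime b) (ha : a ≠ 1) (hb : b ≠ 1) :
    ¬ IsPrimePow (a * b) := by
  intro h
  obtain ⟨p, k, hp, hk, hpk⟩ := h
  have hp' : p.Prime := hp.nat_prime
  obtain ⟨r, hr, hra⟩ := Nat.exists_prime_and_dvd ha
  obtain ⟨s, hs, hsb⟩ := Nat.exists_prime_and_dvd hb
  have h1 : r ∣ p ^ k := hpk ▸ hra.trans (Nat.dvd_mul_right a b)
  have h2 : s ∣ p ^ k := hpk ▸ hsb.trans (Nat.dvd_mul_left b a)
  have h3 := (Nat.prime_dvd_prime_iff_eq hr hp').1 (hr.dvd_of_dvd_pow h1)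
  have h4 := (Nat.prime_dvd_prime_iff_eq hs hp').1 (hs.dvd_of_dvd_pow h2)
  subst h3
  subst h4
  exact hr.one_lt.ne' (Nat.eq_one_of_dvd_coprimes hcop hra hsb)

theorem no_mixed (h : ∀ g : G, IsPrimePow (orderOf g) ∨ g = 1) {a b : G} (hab : a * b = b * a)
    (hcop : (orderOf a).Coprime (orderOf b)) : a = 1 ∨ b = 1 := by
  by_contra hcon
  push Not at hcon
  obtain ⟨ha, hb⟩ := hcon
  have ha' : orderOf a ≠ 1 := fun h => ha (orderOf_eq_one_iff.1 h)
  have hb' : orderOf b ≠ 1 := fun h => hb (orderOf_eq_one_iff.1 h)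
  have h1 : orderOf (a * b) = orderOf a * orderOf b :=
    Commute.orderOf_mul_eq_mul_orderOf_of_coprime hab hcop
  rcases h (a * b) with h2 | h2
  · rw [h1] at h2
    exact not_primePow_mul hcop ha' hb' h2
  · rw [h2, orderOf_one] at h1
    exact ha' (Nat.eq_one_of_mul_eq_one_right h1.symm)

theorem cp_quot {H : Type*} [Group H] (f : G →* H) (hf : Function.Surjective f)
    (h : ∀ g : G, IsPrimePow (orderOf g) ∨ g = 1) : ∀ g : H, IsPrimePow (orderOf g) ∨ g = 1 := by
  intro g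
  obtain ⟨x, rfl⟩ := hf g
  rcases h x with h1 | h1
  · obtain ⟨p, k, hp, hk, hpk⟩ := h1
    have h2 : orderOf (f x) ∣ p ^ k := hpk ▸ orderOf_map_dvd f x
    obtain ⟨i, -, hi⟩ := (Nat.dvd_prime_pow hp.nat_prime).1 h2
    by_cases hi0 : i = 0
    · right
      rw [hi0, pow_zero] at hi
      exact orderOf_eq_one_iff.1 hi
    · left
      exact ⟨p, i, hp, Nat.pos_of_ne_zero hi0, hi.symm⟩
  · right
    rw [h1, map_one]

/-- An elementary abelian normal subgroup. -/
theorem exists_elem_normal (hs : Group.IsSolvable G) (hne : Nontrivial G) :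
    ∃ (E : Subgroup G) (q : ℕ), E.Normal ∧ E ≠ ⊥ ∧ q.Prime ∧ (∀ a ∈ E, ∀ b ∈ E, a * b = b * a) ∧
      ∀ a ∈ E, a ^ q = 1 := by
  have htop : Group.IsSolvable (⊤ : Subgroup G) := by
    haveI := hs
    exact solvable_of_solvable_injective (Subgroup.subtype_injective _)
  obtain ⟨Z, hZn, -, hZne, hZc⟩ := Cfsg.Agent.Lib.SchurZ.exists_abelian_normal (⊤ : Subgroup G) htop
    (by
      intro h
      obtain ⟨x, hx⟩ := exists_ne (1 : G)
      have h1 : x ∈ (⊤ : Subgroup G) := Subgroup.mem_top x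
      rw [h, Subgroup.mem_bot] at h1
      exact hx h1)
  obtain ⟨x, hx, hx1⟩ := (Subgroup.bot_or_exists_ne_one Z).resolve_left hZne
  have hxo : orderOf x ≠ 1 := fun h => hx1 (orderOf_eq_one_iff.1 h)
  obtain ⟨p, hp, hpd⟩ := Nat.exists_prime_and_dvd hxo
  have hyo : orderOf (x ^ (orderOf x / p)) = p := orderOf_pow_orderOf_div (orderOf_pos x).ne' hpd
  let E : Subgroup G :=
    { carrier := {a | a ∈ Z ∧ a ^ p = 1}
      mul_mem' := by
        rintro a b ⟨ha, ha'⟩ ⟨hb, hb'⟩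
        refine ⟨Z.mul_mem ha hb, ?_⟩
        rw [(show Commute a b from hZc a ha b hb).mul_pow, ha', hb', one_mul]
      one_mem' := ⟨Z.one_mem, one_pow _⟩
      inv_mem' := by
        rintro a ⟨ha, ha'⟩
        exact ⟨Z.inv_mem ha, by rw [inv_pow, ha', inv_one]⟩ }
  refine ⟨E, p, ?_, ?_, hp, ?_, ?_⟩
  · constructor
    rintro a ⟨ha, ha'⟩ g
    refine ⟨hZn.conj_mem a ha g, ?_⟩
    rw [conj_pow, ha']
    group
  · intro h
    have h2 : x ^ (orderOf x / p) ∈ E := ⟨Z.pow_mem hx _, by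
      have := pow_orderOf_eq_one (x ^ (orderOf x / p))
      rwa [hyo] at this⟩
    rw [h, Subgroup.mem_bot] at h2
    rw [h2, orderOf_one] at hyo
    exact hp.one_lt.ne hyo
  · rintro a ⟨ha, -⟩ b ⟨hb, -⟩
    exact hZc a ha b hb
  · rintro a ⟨-, ha⟩
    exact ha

/-- The main step: no three primes over an elementary abelian normal subgroup. -/
theorem step (hcp : ∀ g : G, IsPrimePow (orderOf g) ∨ g = 1) (hs : Group.IsSolvable G)
    (E : Subgroup G) [hEn : E.Normal] (q : ℕ) (hq : q.Prime)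
    (hE1 : E ≠ ⊥) (hab : ∀ a ∈ E, ∀ b ∈ E, a * b = b * a) (hEq : ∀ a ∈ E, a ^ q = 1)
    (hqK : ¬ q ∣ Nat.card (G ⧸ E)) (h2 : 2 ≤ (Nat.card (G ⧸ E)).primeFactors.card) : False := by
  classical
  haveI : Fact q.Prime := ⟨hq⟩
  let π := QuotientGroup.mk' E
  have hπs : Function.Surjective π := QuotientGroup.mk'_surjective E
  have hK1 : Nontrivial (G ⧸ E) := by
    by_contra hcon
    rw [not_nontrivial_iff_subsingleton] at hcon
    have : Nat.card (G ⧸ E) = 1 := Nat.card_of_subsingleton (1 : G ⧸ E)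
    rw [this] at h2
    simp at h2
  obtain ⟨Fb, p, hFbn, hFb1, hp, hFbab, hFbp⟩ := exists_elem_normal (G := G ⧸ E) (solvable_of_surjective hπs) hK1
  haveI : Fact p.Prime := ⟨hp⟩
  -- prime divisibility
  have hpK : p ∣ Nat.card (G ⧸ E) := by
    obtain ⟨x, hx, hx1⟩ := (Subgroup.bot_or_exists_ne_one Fb).resolve_left hFb1
    have h1 : orderOf x = p := orderOf_eq_prime (hFbp x hx) hx1
    rw [← h1]
    exact orderOf_dvd_natCard x
  obtain ⟨r, hr, hrp⟩ := Finset.exists_mem_ne (lt_of_lt_of_le Nat.one_lt_two h2) p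
  have hrprime : r.Prime := Nat.prime_of_mem_primeFactors hr
  have hrK : r ∣ Nat.card (G ⧸ E) := Nat.dvd_of_mem_primeFactors hr
  have hrq : r ≠ q := fun h => hqK (h ▸ hrK)
  have hpq : p ≠ q := fun h => hqK (h ▸ hpK)
  haveI : Fact r.Prime := ⟨hrprime⟩
  -- the preimage
  let F : Subgroup G := Fb.comap π
  haveI hFn : F.Normal := hFbn.comap π
  have hEF : E ≤ F := by
    intro e he
    change π e ∈ Fb
    have : π e = 1 := (QuotientGroup.eq_one_iff e).2 he
    rw [this]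
    exact Fb.one_mem
  -- order of `F`
  have hEp : IsPGroup q E := fun x => ⟨1, Subtype.ext (by simpa using hEq x x.2)⟩
  have hFbP : IsPGroup p Fb := fun x => ⟨1, Subtype.ext (by simpa using hFbp x x.2)⟩
  have hcardF : Nat.card F = Nat.card Fb * Nat.card E := by
    have hker : π.ker = E := QuotientGroup.ker_mk' E
    have h1 := Cfsg.Agent.Lib.SchurZ.card_map_mul_card_ker π (A := F) (by rw [hker]; exact hEF)
    have h3 : F.map π = Fb := Subgroup.map_comap_eq_self_of_surjective hπs Fb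
    rw [h3, hker] at h1
    exact h1.symm
  obtain ⟨b, hb⟩ := IsPGroup.iff_card.1 hFbP
  obtain ⟨m, hm⟩ := IsPGroup.iff_card.1 hEp
  have hrF : ¬ r ∣ Nat.card F := by
    rw [hcardF, hb, hm]
    intro h
    rcases (Nat.Prime.dvd_mul hrprime).1 h with h | h
    · exact hrp ((Nat.prime_dvd_prime_iff_eq hrprime hp).1 (hrprime.dvd_of_dvd_pow h))
    · exact hrq ((Nat.prime_dvd_prime_iff_eq hrprime hq).1 (hrprime.dvd_of_dvd_pow h))
  have hpF : p ∣ Nat.card F := by
    rw [hcardF]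
    exact Dvd.dvd.mul_right (by
      obtain ⟨x, hx, hx1⟩ := (Subgroup.bot_or_exists_ne_one Fb).resolve_left hFb1
      have h1 : orderOf x = p := orderOf_eq_prime (hFbp x hx) hx1
      rw [← h1]
      exact Subgroup.orderOf_dvd_natCard Fb hx) _
  obtain ⟨Y₀⟩ : Nonempty (Sylow p F) := inferInstance
  let Y : Subgroup G := (Y₀ : Subgroup F).map F.subtype
  have hYP : IsPGroup p Y := Y₀.isPGroup'.map F.subtype
  have hY1 : Y ≠ ⊥ := by
    intro h
    have h1 := Y₀.ne_bot_of_dvd_card hpF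
    apply h1
    rw [eq_bot_iff]
    intro y hy
    have h2 : (y : G) ∈ Y := ⟨y, hy, rfl⟩
    rw [h, Subgroup.mem_bot] at h2
    exact (Subgroup.mem_bot).2 (Subtype.ext h2)
  have hYq : (Nat.card Y).Coprime q := by
    obtain ⟨k, hk⟩ := IsPGroup.iff_card.1 hYP
    rw [hk]
    exact Nat.Coprime.pow_left _ ((Nat.coprime_primes hp hq).2 hpq)
  -- the Frattini argument
  have hfr : Subgroup.normalizer (Y : Set G) ⊔ F = ⊤ := Sylow.normalizer_sup_eq_top Y₀
  set N := Subgroup.normalizer (Y : Set G) with hNdef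
  have hidx : N.index ∣ Nat.card F := by
    have h1 : N.relIndex (F ⊔ N) = N.relIndex F := Cfsg.Agent.Lib.FitCore.relIndex_sup_of_normal N F
    rw [sup_comm, hfr, Subgroup.relIndex_top_right] at h1
    rw [h1]
    exact Subgroup.relIndex_dvd_card N F
  have hrN : r ∣ Nat.card N := by
    have h1 : r ∣ Nat.card G := by
      rw [Subgroup.card_eq_card_quotient_mul_card_subgroup E]
      exact hrK.mul_right _
    rw [← Subgroup.index_mul_card N] at h1
    exact ((Nat.Prime.dvd_mul hrprime).1 h1).resolve_left (fun h => hrF (h.trans hidx))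
  obtain ⟨x, hx⟩ := exists_prime_orderOf_dvd_card' (G := N) r hrN
  have hxo : orderOf (x : G) = r := by rw [Subgroup.orderOf_coe]; exact hx
  let X : Subgroup G := Subgroup.zpowers (x : G)
  have hXc : Nat.card X = r := by rw [Nat.card_zpowers, hxo]
  have hXN : X ≤ Subgroup.normalizer (Y : Set G) := (Subgroup.zpowers_le).2 x.2
  have hX1 : X ≠ ⊥ := by
    intro h
    rw [h, Subgroup.card_bot] at hXc
    exact hrprime.one_lt.ne hXc
  have hcopYX : (Nat.card Y).Coprime (Nat.card X) := by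
    obtain ⟨k, hk⟩ := IsPGroup.iff_card.1 hYP
    rw [hk, hXc]
    exact Nat.Coprime.pow_left _ ((Nat.coprime_primes hp hrprime).2 (Ne.symm hrp))
  have hd : Y ⊓ X = ⊥ := Cfsg.Agent.Lib.SchurZ.inf_eq_bot_of_coprime hcopYX
  have hcardT : Nat.card (Y ⊔ X : Subgroup G) = Nat.card Y * Nat.card X :=
    card_sup_of_normalizes Y X hXN hd
  have hTq : (Nat.card (Y ⊔ X : Subgroup G)).Coprime q := by
    rw [hcardT, hXc]
    exact Nat.Coprime.mul_left hYq ((Nat.coprime_primes hrprime hq).2 hrq)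
  have key : ∀ e ∈ E, e ^ Nat.card Y = 1 := by
    refine frob_action E hab X Y hXN hd hX1 hY1 ?_ ?_
    · intro t ht ht1 e he hte
      have h1 : orderOf t ∣ Nat.card (Y ⊔ X : Subgroup G) := Subgroup.orderOf_dvd_natCard _ ht
      have h3 : orderOf e ∣ q := orderOf_dvd_of_pow_eq_one (hEq e he)
      have hcop : (orderOf t).Coprime (orderOf e) :=
        Nat.Coprime.coprime_dvd_left h1 (Nat.Coprime.coprime_dvd_right h3 hTq)
      exact (no_mixed hcp hte hcop).resolve_left ht1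
    · intro y hy a ha ha1 hya
      have h1 : orderOf y ∣ Nat.card Y := Subgroup.orderOf_dvd_natCard _ hy
      have h2 : orderOf a ∣ Nat.card X := Subgroup.orderOf_dvd_natCard _ ha
      have hcop : (orderOf y).Coprime (orderOf a) :=
        Nat.Coprime.coprime_dvd_left h1 (Nat.Coprime.coprime_dvd_right h2 hcopYX)
      exact (no_mixed hcp hya hcop).resolve_right ha1
  apply hE1
  rw [eq_bot_iff]
  intro e he
  rw [Subgroup.mem_bot, ← orderOf_eq_one_iff]
  exact Nat.eq_one_of_dvd_coprimes hYq (orderOf_dvd_of_pow_eq_one (key e he))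
    (orderOf_dvd_of_pow_eq_one (hEq e he))

theorem main_aux : ∀ (n : ℕ) (G : Type u) [Group G] [Finite G], Group.IsSolvable G →
    (∀ g : G, IsPrimePow (orderOf g) ∨ g = 1) → Nat.card G = n →
    (Nat.card G).primeFactors.card ≤ 2 := by
  intro n
  induction n using Nat.strong_induction_on with
  | _ n ih =>
    intro G _ _ hs hcp hn
    by_cases h1 : Nontrivial G
    swap
    · rw [not_nontrivial_iff_subsingleton] at h1
      rw [Nat.card_of_subsingleton (1 : G)]
      simp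
    obtain ⟨E, q, hEn, hE1, hq, hab, hEq⟩ := exists_elem_normal hs h1
    haveI := hEn
    haveI : Fact q.Prime := ⟨hq⟩
    have hEp : IsPGroup q E := fun x => ⟨1, Subtype.ext (by simpa using hEq x x.2)⟩
    obtain ⟨m, hm⟩ := IsPGroup.iff_card.1 hEp
    have hm0 : m ≠ 0 := by
      rintro rfl
      rw [pow_zero] at hm
      exact hE1 (Subgroup.card_eq_one.1 hm)
    have hcard : Nat.card G = Nat.card (G ⧸ E) * Nat.card E :=
      Subgroup.card_eq_card_quotient_mul_card_subgroup E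
    have hKpos : Nat.card (G ⧸ E) ≠ 0 := Nat.card_pos.ne'
    have hlt : Nat.card (G ⧸ E) < n := by
      rw [← hn, hcard]
      have h2 : 1 < Nat.card E := (Subgroup.one_lt_card_iff_ne_bot E).2 hE1
      exact lt_mul_of_one_lt_right (Nat.pos_of_ne_zero hKpos) h2
    have hIH := ih _ hlt (G ⧸ E) (solvable_of_surjective (QuotientGroup.mk'_surjective E))
      (cp_quot (QuotientGroup.mk' E) (QuotientGroup.mk'_surjective E) hcp) rfl
    have hpf : (Nat.card G).primeFactors = (Nat.card (G ⧸ E)).primeFactors ∪ {q} := by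
      rw [hcard, Nat.primeFactors_mul hKpos Nat.card_pos.ne', hm, Nat.primeFactors_prime_pow hm0 hq]
    by_cases hqK : q ∣ Nat.card (G ⧸ E)
    · have h2 : q ∈ (Nat.card (G ⧸ E)).primeFactors := Nat.mem_primeFactors.2 ⟨hq, hqK, hKpos⟩
      have h3 : (Nat.card G).primeFactors = (Nat.card (G ⧸ E)).primeFactors := by
        rw [hpf]
        simpa using h2
      rw [h3]
      exact hIH
    · by_cases h2 : 2 ≤ (Nat.card (G ⧸ E)).primeFactors.card
      · exact (step hcp hs E q hq hE1 hab hEq hqK h2).elim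
      · rw [hpf]
        have h3 := Finset.card_union_le (Nat.card (G ⧸ E)).primeFactors ({q} : Finset ℕ)
        rw [Finset.card_singleton] at h3
        omega

theorem main_theorem {G : Type u} [Group G] [Finite G] (hs : Group.IsSolvable G)
    (h : ∀ g : G, IsPrimePow (orderOf g) ∨ g = 1) : (Nat.card G).primeFactors.card ≤ 2 :=
  main_aux _ G hs h rfl

end app

end Cfsg.Agent.Lib.CPGroup
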