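import Mathlib
import Cfsg.Prelude.Def_Blocks
import Cfsg.Agent.Lib.CharBlockKer

/-!
# Green's theorem on defect groups
-/

set_option autoImplicit false
set_option linter.style.haveILetI false
set_option linter.unusedSectionVars false

namespace Cfsg.Agent.Lib.CharBlockGreen

open scoped ComplexConjugate
open Cfsg Cfsg.Agent.Lib.CharBlockLocal Cfsg.Agent.Lib.CharBlockConv Cfsg.Agent.Lib.CharBlockRot
  Cfsg.Agent.Lib.CharBlockOrth Cfsg.Agent.Lib.CharOps Cfsg.Agent.Lib.CharIrr
  Cfsg.Agent.Lib.CharBlockDefect Cfsg.Agent.Lib.CharBlockMinMax Cfsg.Agent.Lib.CharBlockBrauer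
  Cfsg.Agent.Lib.CharBlockInd Cfsg.Agent.Lib.CharBlockFirst Cfsg.Agent.Lib.CharBlockSecond
  Cfsg.Agent.Lib.CharBlockHeight Cfsg.Agent.Lib.CharBlockDom Cfsg.Agent.Lib.CharBlockThird
  Cfsg.Agent.Lib.CharBlockKer

universe u v

section Orbit

/-- Summing over orbits. -/
theorem sum_orbit_form {T : Type u} {Ω : Type v} [Group T] [Finite T] [Fintype Ω] [MulAction T Ω] (J : ℂ → Prop) (h0 : J 0)
    (hadd : ∀ a b, J a → J b → J (a + b)) (F Gf : Ω → ℂ) (hinv : ∀ (t : T) w, F (t • w) = F w)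
    (hF : ∀ w, F w = (Nat.card (MulAction.stabilizer T w) : ℂ) * Gf w) (hG : ∀ w, J (Gf w)) :
    ∃ r, J r ∧ ∑ w, F w = (Nat.card T : ℂ) * r := by
  classical
  let Q := MulAction.orbitRel.Quotient T Ω
  letI : Fintype Q := Fintype.ofFinite _
  let q : Ω → Q := Quotient.mk''
  refine ⟨∑ c : Q, Gf (Quotient.out c), Finset.sum_induction _ J hadd h0 fun c _ => hG _, ?_⟩
  rw [← Finset.sum_fiberwise (s := Finset.univ) (g := q) (f := F), Finset.mul_sum]
  refine Finset.sum_congr rfl fun c _ => ?_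
  set w₀ := Quotient.out c with hw₀
  have hmem : ∀ w, q w = c ↔ w ∈ MulAction.orbit T w₀ := by
    intro w
    have h1 : q w₀ = c := Quotient.out_eq c
    rw [← h1]
    exact (Quotient.eq'' (s₁ := MulAction.orbitRel T Ω)).trans (MulAction.orbitRel_apply)
  have hconst : ∀ w ∈ Finset.univ.filter (fun w => q w = c), F w = F w₀ := by
    intro w hw
    have h1 := (hmem w).1 (Finset.mem_filter.1 hw).2
    obtain ⟨t, rfl⟩ := h1
    exact hinv t w₀
  rw [Finset.sum_congr rfl hconst, Finset.sum_const, nsmul_eq_mul, hF w₀]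
  have hc : (Finset.univ.filter (fun w => q w = c)).card = Nat.card (MulAction.orbit T w₀) := by
    rw [← Fintype.card_subtype, ← Nat.card_eq_fintype_card]
    exact Nat.card_congr (Equiv.subtypeEquivRight hmem)
  rw [hc, ← mul_assoc]
  congr 1
  have h2 := Subgroup.card_mul_index (MulAction.stabilizer T w₀)
  rw [MulAction.index_stabilizer] at h2
  rw [← h2, Set.ncard_eq_toFinset_card', Nat.card_eq_fintype_card]
  simp [mul_comm]

end Orbit

section X

variable {X : Type u} [Group X] [Fintype X] {p : ℕ} {M : Ideal AlgInt}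

/-- The intersection `R ∩ x R x⁻¹`. -/
def tt (R : Subgroup X) (x : X) : Subgroup X := R ⊓ R.map (MulAut.conj x).toMonoidHom

theorem mem_tt {R : Subgroup X} {x t : X} : t ∈ tt R x ↔ t ∈ R ∧ x⁻¹ * t * x ∈ R := by
  constructor
  · rintro ⟨h1, r, hr, rfl⟩
    refine ⟨h1, ?_⟩
    simp only [MulEquiv.coe_toMonoidHom, MulAut.conj_apply]
    have : x⁻¹ * (x * r * x⁻¹) * x = r := by group
    rwa [this]
  · rintro ⟨h1, h2⟩
    refine ⟨h1, x⁻¹ * t * x, h2, ?_⟩
    simp only [MulEquiv.coe_toMonoidHom, MulAut.conj_apply]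
    group

/-- The action of `R ∩ x R x⁻¹` on `R`, conjugation in the coset `x R`. -/
def ttAction (R : Subgroup X) (x : X) : MulAction (tt R x) R where
  smul t u := ⟨x⁻¹ * (t : X) * x * u * (t : X)⁻¹, R.mul_mem (R.mul_mem (mem_tt.1 t.2).2 u.2) (R.inv_mem (mem_tt.1 t.2).1)⟩
  one_smul u := Subtype.ext (by
    show x⁻¹ * ((1 : tt R x) : X) * x * u * (((1 : tt R x) : X))⁻¹ = u
    simp)
  mul_smul a b u := Subtype.ext (by
    show x⁻¹ * ((a * b : tt R x) : X) * x * u * (((a * b : tt R x) : X))⁻¹ =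
      x⁻¹ * (a : X) * x * (x⁻¹ * (b : X) * x * u * (b : X)⁻¹) * (a : X)⁻¹
    push_cast
    group)

/-- Divisibility of the coset sums of block idempotents consisting of defect-zero characters. -/
theorem sum_coset_dvd (hM : IsPModular p M) {A : Set (IrrCharacter X)} (hA : BlockClosed M A)
    (hdeg : ∀ χ ∈ A, p ^ (Nat.card X).factorization p ∣ charDegree (χ : X → ℂ)) {R : Subgroup X} (hR : IsPGroup p R) (x : X)
    [Fintype R] :
    ∃ s, MemLocalRing M s ∧ ∑ u : R, blockCoeff A (x * u) = (Nat.card (tt R x) : ℂ) * s := by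
  classical
  haveI : Fact p.Prime := ⟨hM.1⟩
  letI := ttAction R x
  have hE := blockCoeff_isClass A
  have hsm : ∀ (t : tt R x) (u : R), ((t • u : R) : X) = x⁻¹ * (t : X) * x * u * (t : X)⁻¹ := fun _ _ => rfl
  have hval : ∀ u : R, ∃ G, MemLocalRing M G ∧ blockCoeff A (x * u) = (Nat.card (MulAction.stabilizer (tt R x) u) : ℂ) * G := by
    intro u
    by_cases hs : p ∣ orderOf (x * (u : X))
    · exact ⟨0, MemLocalRing.zero hM, by rw [blockCoeff_singular hM hA hs, mul_zero]⟩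
    · let St : Subgroup X := (MulAction.stabilizer (tt R x) u).map ((tt R x).subtype)
      have hSt : Nat.card St = Nat.card (MulAction.stabilizer (tt R x) u) :=
        Subgroup.card_map_of_injective (Subgroup.subtype_injective _)
      have hStp : IsPGroup p St := by
        have h1 : St ≤ R := by
          rintro _ ⟨t, -, rfl⟩
          exact (mem_tt.1 t.2).1
        exact hR.to_le h1
      have hcomm : ∀ y ∈ St, y * (x * (u : X))⁻¹ = (x * (u : X))⁻¹ * y := by
        rintro _ ⟨t, ht, rfl⟩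
        have h1 : t • u = u := ht
        have h2 := congrArg Subtype.val h1
        rw [hsm] at h2
        simp only [Subgroup.subtype_apply]
        have h3 : (t : X) * (x * u) = (x * u) * (t : X) := by
          have h4 : x * (x⁻¹ * (t : X) * x * u * (t : X)⁻¹) * (t : X) = x * u * (t : X) := by rw [h2]
          calc (t : X) * (x * u) = x * (x⁻¹ * (t : X) * x * u * (t : X)⁻¹) * (t : X) := by group
            _ = _ := h4
        have h5 : Commute (t : X) (x * u) := h3
        exact h5.inv_right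
      have hg : ¬ p ∣ orderOf (x * (u : X))⁻¹ := by rwa [orderOf_inv]
      obtain ⟨r, hr, h1⟩ := card_mul_blockCoeff_div hM hA hdeg hg hStp hcomm
      rw [inv_inv] at h1
      -- the `p'`-part of the order
      have hG := Nat.ordProj_mul_ordCompl_eq_self (Nat.card X) p
      have hm' := Nat.not_dvd_ordCompl hM.1 (Nat.card_pos (α := X)).ne'
      set m' := Nat.card X / p ^ (Nat.card X).factorization p with hm'0
      have hm0 : (m' : ℂ) ≠ 0 := by
        intro h0
        apply hm'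
        have : m' = 0 := by exact_mod_cast h0
        rw [this]
        exact dvd_zero _
      have hp0 : ((p : ℂ) ^ (Nat.card X).factorization p) ≠ 0 := pow_ne_zero _ (by exact_mod_cast hM.1.ne_zero)
      refine ⟨r * (m' : ℂ)⁻¹, MemLocalRing.mul hM hr (natCast_inv_memLocalRing hM hm'), ?_⟩
      have h2 : (Nat.card X : ℂ) = (p : ℂ) ^ (Nat.card X).factorization p * (m' : ℂ) := by
        exact_mod_cast hG.symm
      rw [h2, hSt] at h1
      have h3 : (p : ℂ) ^ (Nat.card X).factorization p * ((m' : ℂ) * blockCoeff A (x * u)) =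
          (p : ℂ) ^ (Nat.card X).factorization p * ((Nat.card (MulAction.stabilizer (tt R x) u) : ℂ) * r) := by
        rw [← h1]
        ring
      have h4 := mul_left_cancel₀ hp0 h3
      field_simp
      rw [mul_comm, h4]
  choose G hGR hG using hval
  refine sum_orbit_form (MemLocalRing M) (MemLocalRing.zero hM) (fun a b ha hb => MemLocalRing.add hM ha hb)
    (fun u : R => blockCoeff A (x * u)) G ?_ hG hGR
  intro t u
  show blockCoeff A (x * ((t • u : R) : X)) = blockCoeff A (x * u)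
  rw [hsm]
  have h1 : x * (x⁻¹ * (t : X) * x * u * (t : X)⁻¹) = (t : X) * (x * u) * (t : X)⁻¹ := by group
  rw [h1, hE]

theorem card_tt_inv (R : Subgroup X) (y : X) : Nat.card (tt R y⁻¹) = Nat.card (tt R y) := by
  refine Nat.card_congr ⟨fun t => ⟨y * t * y⁻¹, ?_⟩, fun t => ⟨y⁻¹ * t * y, ?_⟩, fun t => ?_, fun t => ?_⟩
  · obtain ⟨h1, h2⟩ := mem_tt.1 t.2
    refine mem_tt.2 ⟨?_, ?_⟩
    · simpa using h2
    · have : y⁻¹ * (y * (t : X) * y⁻¹) * y = t := by group
      rw [this]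
      exact h1
  · obtain ⟨h1, h2⟩ := mem_tt.1 t.2
    refine mem_tt.2 ⟨h2, ?_⟩
    have : y⁻¹⁻¹ * (y⁻¹ * (t : X) * y) * y⁻¹ = t := by group
    rw [this]
    exact h1
  · apply Subtype.ext
    show y⁻¹ * (y * (t : X) * y⁻¹) * y = t
    group
  · apply Subtype.ext
    show y * (y⁻¹ * (t : X) * y) * y⁻¹ = t
    group

theorem tt_mul_mem (R : Subgroup X) (y : X) {u : X} (hu : u ∈ R) : tt R (y * u) = tt R y := by
  ext t
  rw [mem_tt, mem_tt]
  constructor
  · rintro ⟨h1, h2⟩
    refine ⟨h1, ?_⟩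
    have h3 : y⁻¹ * t * y = u * ((y * u)⁻¹ * t * (y * u)) * u⁻¹ := by group
    rw [h3]
    exact R.mul_mem (R.mul_mem hu h2) (R.inv_mem hu)
  · rintro ⟨h1, h2⟩
    refine ⟨h1, ?_⟩
    have h3 : (y * u)⁻¹ * t * (y * u) = u⁻¹ * (y⁻¹ * t * y) * u := by group
    rw [h3]
    exact R.mul_mem (R.mul_mem (R.inv_mem hu) h2) hu

/-- Invariance of coset sums of class functions. -/
theorem coset_sum_inv {R : Subgroup X} [Fintype R] {f : X → ℂ} (hf : IsClassFunction X f) (a b : R) (y : X) :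
    ∑ u : R, f ((a : X) * y * (b : X)⁻¹ * u) = ∑ u : R, f (y * u) := by
  have h1 : ∑ u : R, f ((a : X) * y * (b : X)⁻¹ * u) = ∑ u : R, f ((a : X) * y * u) := by
    refine Fintype.sum_equiv (Equiv.mulLeft b⁻¹) _ _ fun u => ?_
    simp [mul_assoc]
  rw [h1]
  refine Fintype.sum_equiv (Equiv.mulRight a) _ _ fun u => ?_
  simp only [Equiv.coe_mulRight, Subgroup.coe_mul]
  have h2 := hf (y * u * a) a
  have h3 : (a : X) * (y * u * a) * (a : X)⁻¹ = a * y * u := by group
  rw [h3] at h2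
  rw [h2]
  congr 1
  group

/-- The action of `R × R` on `X`. -/
def rrAction (R : Subgroup X) : MulAction (R × R) X where
  smul w y := (w.1 : X) * y * (w.2 : X)⁻¹
  one_smul y := by
    show (((1 : R × R).1 : R) : X) * y * (((1 : R × R).2 : R) : X)⁻¹ = y
    simp
  mul_smul a b y := by
    show (((a * b).1 : R) : X) * y * (((a * b).2 : R) : X)⁻¹ = (a.1 : X) * ((b.1 : X) * y * (b.2 : X)⁻¹) * (a.2 : X)⁻¹
    simp only [Prod.fst_mul, Prod.snd_mul, Subgroup.coe_mul, mul_inv_rev]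
    group

theorem card_stabilizer_rr (R : Subgroup X) (y : X) :
    letI := rrAction R
    Nat.card (MulAction.stabilizer (R × R) y) = Nat.card (tt R y) := by
  letI := rrAction R
  have hsm : ∀ (w : R × R) (z : X), w • z = (w.1 : X) * z * (w.2 : X)⁻¹ := fun _ _ => rfl
  refine Nat.card_congr ⟨fun w => ⟨(w.1.1 : X), ?_⟩, fun t => ⟨(⟨t, (mem_tt.1 t.2).1⟩, ⟨y⁻¹ * t * y, (mem_tt.1 t.2).2⟩), ?_⟩, fun w => ?_, fun t => ?_⟩
  · have h1 : w.1 • y = y := w.2
    rw [hsm] at h1
    refine mem_tt.2 ⟨w.1.1.2, ?_⟩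
    have h2 : y⁻¹ * (w.1.1 : X) * y = w.1.2 := by
      have h3 : (w.1.1 : X) * y = y * (w.1.2 : X) := by
        rw [mul_inv_eq_iff_eq_mul] at h1
        exact h1
      rw [mul_assoc, h3]
      group
    rw [h2]
    exact w.1.2.2
  · show _ • y = y
    rw [hsm]
    show (t : X) * y * (y⁻¹ * (t : X) * y)⁻¹ = y
    group
  · apply Subtype.ext
    apply Prod.ext
    · rfl
    · apply Subtype.ext
      have h1 : w.1 • y = y := w.2
      rw [hsm] at h1
      have h3 : (w.1.1 : X) * y = y * (w.1.2 : X) := by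
        rw [mul_inv_eq_iff_eq_mul] at h1
        exact h1
      show y⁻¹ * (w.1.1 : X) * y = w.1.2
      rw [mul_assoc, h3]
      group
  · rfl

/-- **Green's theorem for characters of defect zero.** -/
theorem exists_trivial_intersection (hM : IsPModular p M) {A : Set (IrrCharacter X)} (hA : BlockClosed M A)
    (hdeg : ∀ χ ∈ A, p ^ (Nat.card X).factorization p ∣ charDegree (χ : X → ℂ)) (hne : A.Nonempty) {R : Subgroup X}
    (hR : Nat.card R = p ^ (Nat.card X).factorization p) :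
    ∃ w, ¬ MemLocalIdeal M (blockCoeff A w) ∧ tt R w = ⊥ := by
  classical
  haveI : Fact p.Prime := ⟨hM.1⟩
  letI : Fintype R := Fintype.ofFinite _
  have hRp : IsPGroup p R := IsPGroup.of_card hR
  by_contra hcon
  push Not at hcon
  obtain ⟨θ, hθ⟩ := hne
  set a := (Nat.card X).factorization p with ha
  have hEc := blockCoeff_isClass A
  have hθc := IsCharacter.isClassFunction' (IsIrrCharacter.isCharacter' θ.2)
  have hθ1 : (θ : X → ℂ) 1 ≠ 0 := degree_ne_zero θ.2
  have hdvd := charDegree_dvd_card θ.2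
  have hd0 := charDegree_ne_zero θ.2
  have hcast := charDegree_cast (IsIrrCharacter.isCharacter' θ.2)
  have hval : (charDegree (θ : X → ℂ)).factorization p = a := by
    apply le_antisymm
    · exact (Nat.factorization_le_iff_dvd hd0 Nat.card_pos.ne').2 hdvd p
    · exact (Nat.Prime.pow_dvd_iff_le_factorization hM.1 hd0).1 (hdeg θ hθ)
  have hnd : ¬ p ∣ Nat.card X / charDegree (θ : X → ℂ) := by
    have h0 : Nat.card X / charDegree (θ : X → ℂ) ≠ 0 :=
      (Nat.div_pos (Nat.le_of_dvd Nat.card_pos hdvd) (Nat.pos_of_dvd_of_pos hdvd Nat.card_pos)).ne'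
    rw [hM.1.dvd_iff_one_le_factorization h0, Nat.factorization_div hdvd]
    simp only [Finsupp.coe_tsub, Pi.sub_apply]
    omega
  have hblock := (defect_zero_iff hM θ).1 hnd
  have hθB : IsPBlock M (blockOf M (θ : X → ℂ)) := ⟨θ, rfl⟩
  have hA' : BlockClosed M ({θ} : Set (IrrCharacter X)) := by
    have := blockClosed_of_isPBlock hM hθB
    rwa [hblock] at this
  have hE' : ∀ g, blockCoeff ({θ} : Set (IrrCharacter X)) g = (Nat.card X : ℂ)⁻¹ * ((θ : X → ℂ) 1 * (θ : X → ℂ) g⁻¹) := by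
    intro g
    rw [blockCoeff, finsum_mem_singleton, conj_apply_eq_inv θ.2]
  have hdeg' : ∀ χ ∈ ({θ} : Set (IrrCharacter X)), p ^ a ∣ charDegree (χ : X → ℂ) := by
    intro χ hχ
    rw [Set.mem_singleton_iff] at hχ
    rw [hχ]
    exact hdeg θ hθ
  have hvan : ∀ v : X, p ∣ orderOf v → (θ : X → ℂ) v = 0 := by
    intro v hv
    have h1 := blockCoeff_singular hM hA' (y := v⁻¹) (by rwa [orderOf_inv])
    rw [hE', inv_inv] at h1
    have hc0 : ((Nat.card X : ℂ)⁻¹) ≠ 0 := inv_ne_zero (by exact_mod_cast Nat.card_pos.ne')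
    by_contra h4
    exact (mul_ne_zero hc0 (mul_ne_zero hθ1 h4)) h1
  have hX0 : (Nat.card X : ℂ) ≠ 0 := by exact_mod_cast Nat.card_pos.ne'
  obtain ⟨hcR, -⟩ := ratio_unit hM (m := Nat.card X) (n := charDegree (θ : X → ℂ)) Nat.card_pos.ne' hd0 (by omega)
  set c : ℂ := (Nat.card X : ℂ) / (charDegree (θ : X → ℂ) : ℂ) with hc
  -- the sums
  have hK : ∀ y, ∃ κ, MemLocalRing M κ ∧ ∑ u : R, (θ : X → ℂ) (y * u) = (Nat.card (tt R y) : ℂ) * κ := by
    intro y
    obtain ⟨s, hs, h1⟩ := sum_coset_dvd hM hA' hdeg' hRp y⁻¹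
    refine ⟨c * s, MemLocalRing.mul hM hcR hs, ?_⟩
    rw [card_tt_inv] at h1
    have h2 : ∀ u : R, (θ : X → ℂ) (y * u) = c * blockCoeff ({θ} : Set (IrrCharacter X)) (y⁻¹ * (u⁻¹ : R)) := by
      intro u
      rw [hE', hc, hcast]
      have h3 : (y⁻¹ * ((u⁻¹ : R) : X))⁻¹ = u * y := by
        simp
      rw [h3]
      have h4 := hθc (u * y) (y)
      have h5 : y * ((u : X) * y) * y⁻¹ = y * u := by group
      rw [h5] at h4
      rw [h4]
      field_simp
    have h3 : ∑ u : R, (θ : X → ℂ) (y * u) = c * ∑ u : R, blockCoeff ({θ} : Set (IrrCharacter X)) (y⁻¹ * u) := by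
      rw [Finset.mul_sum]
      refine Fintype.sum_equiv (Equiv.inv R) _ _ fun u => ?_
      rw [h2]
      rfl
    rw [h3, h1]
    ring
  choose κ hκR hκ using hK
  obtain ⟨s, hsR, hs⟩ : ∃ s : X → ℂ, (∀ y, MemLocalRing M (s y)) ∧ ∀ y, ∑ u : R, blockCoeff A (y * u) = (Nat.card (tt R y) : ℂ) * s y := by
    choose s hsR hs using fun y => sum_coset_dvd hM hA hdeg hRp y
    exact ⟨s, hsR, hs⟩
  letI := rrAction R
  have hsm : ∀ (w : R × R) (z : X), w • z = (w.1 : X) * z * (w.2 : X)⁻¹ := fun _ _ => rfl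
  let F : X → ℂ := fun y => (∑ u : R, blockCoeff A (y * u)) * ∑ u : R, (θ : X → ℂ) (y * u)
  let Gf : X → ℂ := fun y => (Nat.card (tt R y) : ℂ) * (s y * κ y)
  have hG : ∀ y, MemLocalIdeal M (Gf y) := by
    intro y
    by_cases hT : tt R y = ⊥
    · have h1 : MemLocalIdeal M (∑ u : R, blockCoeff A (y * u)) := by
        refine MemLocalIdeal.sum hM _ fun u _ => ?_
        by_contra hn
        exact hcon _ hn (by rw [tt_mul_mem R y u.2]; exact hT)
      rw [hs] at h1
      have h2 : Nat.card (tt R y) = 1 := by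
        rw [hT]
        simp
      have h3 : MemLocalIdeal M (s y) := by
        rw [h2] at h1
        simpa using h1
      show MemLocalIdeal M ((Nat.card (tt R y) : ℂ) * (s y * κ y))
      rw [h2]
      simp only [Nat.cast_one, one_mul]
      exact MemLocalIdeal.mul_right hM (hκR y) h3
    · have hp : IsPGroup p (tt R y) := hRp.to_le inf_le_left
      obtain ⟨k, hk⟩ := IsPGroup.iff_card.1 hp
      have hk0 : k ≠ 0 := by
        intro h0
        rw [h0, pow_zero] at hk
        exact hT (Subgroup.eq_bot_of_card_eq _ hk)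
      have h1 : p ∣ Nat.card (tt R y) := by
        rw [hk]
        exact dvd_pow_self p hk0
      exact MemLocalIdeal.mul_right hM (MemLocalRing.mul hM (hsR y) (hκR y)) ((natCast_memLocalIdeal_iff hM _).2 h1)
  obtain ⟨r, hrI, hr⟩ := sum_orbit_form (T := R × R) (MemLocalIdeal M) (MemLocalIdeal.zero hM) (fun a b ha hb => MemLocalIdeal.add hM ha hb)
    F Gf (fun w y => by
      show (∑ u : R, blockCoeff A ((w • y) * u)) * ∑ u : R, (θ : X → ℂ) ((w • y) * u) = _
      rw [hsm, coset_sum_inv hEc, coset_sum_inv hθc]) (fun y => by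
      rw [card_stabilizer_rr]
      show (∑ u : R, blockCoeff A (y * u)) * ∑ u : R, (θ : X → ℂ) (y * u) = _
      rw [hs, hκ]
      simp only [Gf]
      ring) hG
  -- the identity
  have hK1 : ∀ (y : X) (u : R), ∑ v : R, (θ : X → ℂ) (y * u * v) = ∑ v : R, (θ : X → ℂ) (y * v) := by
    intro y u
    refine Fintype.sum_equiv (Equiv.mulLeft u) _ _ fun v => ?_
    simp [mul_assoc]
  have hid1 : ∑ z, blockCoeff A z * ∑ v : R, (θ : X → ℂ) (z * v) = (θ : X → ℂ) 1 := by
    have h1 : ∀ v : X, ∑ z, blockCoeff A z * (θ : X → ℂ) (z * v) = (θ : X → ℂ) v := by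
      intro v
      have h2 := Cfsg.Agent.Lib.CharCentral.sum_mul_irr θ.2 hEc v
      have h3 := omega_blockCoeff A θ
      rw [if_pos hθ] at h3
      unfold omega at h3
      have h4 : ∑ g, blockCoeff A g * (θ : X → ℂ) g = (θ : X → ℂ) 1 := by
        field_simp at h3
        exact h3
      rw [h4] at h2
      have h5 : (∑ z, blockCoeff A z * (θ : X → ℂ) (z * v)) * (θ : X → ℂ) 1 = (θ : X → ℂ) v * (θ : X → ℂ) 1 := by
        rw [h2, mul_comm]
      exact mul_right_cancel₀ hθ1 h5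
    simp only [Finset.mul_sum]
    rw [Finset.sum_comm]
    simp only [h1]
    rw [Finset.sum_eq_single (1 : R)]
    · rfl
    · intro v _ hv
      apply hvan
      obtain ⟨k, hk⟩ := IsPGroup.iff_orderOf.1 hRp v
      have hk0 : k ≠ 0 := by
        intro h0
        rw [h0, pow_zero, orderOf_eq_one_iff] at hk
        exact hv hk
      rw [Subgroup.orderOf_coe, hk]
      exact dvd_pow_self p hk0
    · simp
  have hid : ∑ y, F y = (Nat.card R : ℂ) * (θ : X → ℂ) 1 := by
    simp only [F]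
    simp only [Finset.sum_mul]
    rw [Finset.sum_comm]
    have h1 : ∀ u : R, ∑ y, blockCoeff A (y * u) * ∑ v : R, (θ : X → ℂ) (y * v) = (θ : X → ℂ) 1 := by
      intro u
      rw [← hid1]
      refine Fintype.sum_equiv (Equiv.mulRight (u : X)) _ _ fun y => ?_
      simp only [Equiv.coe_mulRight]
      rw [hK1]
    simp only [h1]
    rw [Finset.sum_const, Finset.card_univ, nsmul_eq_mul, Nat.card_eq_fintype_card]
  rw [hid, Nat.card_prod] at hr
  have hR0 : (Nat.card R : ℂ) ≠ 0 := by exact_mod_cast Nat.card_pos.ne'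
  have h3 : (θ : X → ℂ) 1 = (Nat.card R : ℂ) * r := by
    have h4 : (Nat.card R : ℂ) * (θ : X → ℂ) 1 = (Nat.card R : ℂ) * ((Nat.card R : ℂ) * r) := by
      rw [hr]
      push_cast
      ring
    exact mul_left_cancel₀ hR0 h4
  obtain ⟨-, h5⟩ := ratio_unit hM (m := charDegree (θ : X → ℂ)) (n := Nat.card R) hd0 Nat.card_pos.ne' (by
    rw [hR, hval, hM.1.factorization_pow]
    simp)
  apply h5
  rw [hcast, h3]
  have h6 : (Nat.card R : ℂ) * r / (Nat.card R : ℂ) = r := by field_simp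
  rw [h6]
  exact hrI

end X

section N

variable {G : Type u} [Group G] [Fintype G] {p : ℕ} {M : Ideal AlgInt}

/-- Inflation of irreducible characters. -/
noncomputable def infl (D : Subgroup G) [D.Normal] (τ : IrrCharacter (G ⧸ D)) : IrrCharacter G :=
  ⟨(τ : G ⧸ D → ℂ) ∘ QuotientGroup.mk, Cfsg.Agent.Lib.CharInflate.isIrr_inflate D τ.2⟩

theorem infl_apply (D : Subgroup G) [D.Normal] (τ : IrrCharacter (G ⧸ D)) (g : G) : (infl D τ : G → ℂ) g = (τ : G ⧸ D → ℂ) (g : G ⧸ D) := rfl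

theorem infl_injective (D : Subgroup G) [D.Normal] : Function.Injective (infl D) := by
  intro τ τ' h
  apply Subtype.ext
  funext x
  obtain ⟨g, rfl⟩ := QuotientGroup.mk_surjective x
  exact congrFun (congrArg Subtype.val h) g

theorem infl_ker (D : Subgroup G) [D.Normal] (τ : IrrCharacter (G ⧸ D)) {d : G} (hd : d ∈ D) :
    (infl D τ : G → ℂ) d = (infl D τ : G → ℂ) 1 := by
  rw [infl_apply, infl_apply, (QuotientGroup.eq_one_iff d).2 hd, QuotientGroup.mk_one]

theorem infl_degree (D : Subgroup G) [D.Normal] (τ : IrrCharacter (G ⧸ D)) :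
    charDegree (infl D τ : G → ℂ) = charDegree (τ : G ⧸ D → ℂ) := by
  unfold charDegree
  rw [infl_apply, QuotientGroup.mk_one]

/-- The image of a block idempotent modulo a normal `p`-subgroup. -/
theorem sum_coset_blockCoeff (D : Subgroup G) [D.Normal] [Fintype D] (b : Set (IrrCharacter G)) (g : G) :
    blockCoeff {τ : IrrCharacter (G ⧸ D) | infl D τ ∈ b} (g : G ⧸ D) = ∑ d : D, blockCoeff b (g * d) := by
  classical
  letI : Fintype (G ⧸ D) := Fintype.ofFinite _
  have hG := Subgroup.card_mul_index D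
  have hidx : Nat.card (G ⧸ D) = D.index := rfl
  have hD0 : (Nat.card D : ℂ) ≠ 0 := by exact_mod_cast Nat.card_pos.ne'
  have hX0 : (Nat.card (G ⧸ D) : ℂ) ≠ 0 := by exact_mod_cast Nat.card_pos.ne'
  have hGc : (Nat.card G : ℂ) = (Nat.card D : ℂ) * (Nat.card (G ⧸ D) : ℂ) := by
    rw [hidx]
    exact_mod_cast hG.symm
  have hcoset : ∀ (χ : IrrCharacter G), ∑ d : D, conj ((χ : G → ℂ) (g * d)) = if ∀ n ∈ D, (χ : G → ℂ) n = (χ : G → ℂ) 1 then (Nat.card D : ℂ) * (χ : G → ℂ) g⁻¹ else 0 := by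
    intro χ
    have h1 : ∑ d : D, conj ((χ : G → ℂ) (g * d)) = ∑ d : D, (χ : G → ℂ) ((d : G) * g⁻¹) := by
      refine Fintype.sum_equiv (Equiv.inv D) _ _ fun d => ?_
      rw [conj_apply_eq_inv χ.2]
      simp
    rw [h1]
    by_cases hk : ∀ n ∈ D, (χ : G → ℂ) n = (χ : G → ℂ) 1
    · rw [if_pos hk]
      have h2 : ∀ d : D, (χ : G → ℂ) ((d : G) * g⁻¹) = (χ : G → ℂ) g⁻¹ := fun d =>
        Cfsg.Agent.Lib.CharKernel.apply_mul_of_ker D (IsIrrCharacter.isCharacter' χ.2) hk d.2 _
      simp only [h2, Finset.sum_const, Finset.card_univ, nsmul_eq_mul]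
      rw [Nat.card_eq_fintype_card]
    · rw [if_neg hk]
      push Not at hk
      exact Cfsg.Agent.Lib.CharKernel.sum_coset_eq_zero D χ.2 hk g⁻¹
  have h1 : ∀ d : D, blockCoeff b (g * d) = (Nat.card G : ℂ)⁻¹ * ∑ χ : IrrCharacter G, if χ ∈ b then (χ : G → ℂ) 1 * conj ((χ : G → ℂ) (g * d)) else 0 := by
    intro d
    rw [blockCoeff, finsum_mem_eq_sum_ite]
  simp only [h1]
  rw [← Finset.mul_sum, Finset.sum_comm]
  have h2 : ∀ χ : IrrCharacter G, ∑ d : D, (if χ ∈ b then (χ : G → ℂ) 1 * conj ((χ : G → ℂ) (g * d)) else 0) =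
      if χ ∈ b ∧ ∀ n ∈ D, (χ : G → ℂ) n = (χ : G → ℂ) 1 then (Nat.card D : ℂ) * ((χ : G → ℂ) 1 * (χ : G → ℂ) g⁻¹) else 0 := by
    intro χ
    by_cases hχ : χ ∈ b
    · have h5 : ∀ d : D, (if χ ∈ b then (χ : G → ℂ) 1 * conj ((χ : G → ℂ) (g * d)) else 0) = (χ : G → ℂ) 1 * conj ((χ : G → ℂ) (g * d)) := fun d => if_pos hχ
      rw [Finset.sum_congr rfl (fun d _ => h5 d), ← Finset.mul_sum, hcoset]
      by_cases hk : ∀ n ∈ D, (χ : G → ℂ) n = (χ : G → ℂ) 1
      · rw [if_pos hk, if_pos ⟨hχ, hk⟩]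
        ring
      · rw [if_neg hk, if_neg (fun h => hk h.2)]
        simp
    · simp [hχ]
  simp only [h2]
  rw [blockCoeff, finsum_mem_eq_sum_ite]
  have h3 : ∑ τ : IrrCharacter (G ⧸ D), (if τ ∈ {τ : IrrCharacter (G ⧸ D) | infl D τ ∈ b} then (τ : G ⧸ D → ℂ) 1 * conj ((τ : G ⧸ D → ℂ) (g : G ⧸ D)) else 0) =
      ∑ χ : IrrCharacter G, if χ ∈ b ∧ ∀ n ∈ D, (χ : G → ℂ) n = (χ : G → ℂ) 1 then (χ : G → ℂ) 1 * (χ : G → ℂ) g⁻¹ else 0 := by
    refine Finset.sum_of_injOn (infl D) (infl_injective D).injOn (fun _ _ => Finset.mem_coe.2 (Finset.mem_univ _)) ?_ ?_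
    · intro χ _ hχ
      rw [if_neg]
      rintro ⟨h4, h5⟩
      apply hχ
      obtain ⟨τ, hτ, hτeq⟩ := Cfsg.Agent.Lib.CharInflate.exists_quotient_irr D χ.2 h5
      exact ⟨⟨τ, hτ⟩, Finset.mem_coe.2 (Finset.mem_univ _), Subtype.ext (funext hτeq)⟩
    · intro τ _
      by_cases hτ : infl D τ ∈ b
      · rw [if_pos (show τ ∈ {τ : IrrCharacter (G ⧸ D) | infl D τ ∈ b} from hτ), if_pos ⟨hτ, fun n hn => infl_ker D τ hn⟩]
        rw [conj_apply_eq_inv τ.2, infl_apply, infl_apply, QuotientGroup.mk_one, QuotientGroup.mk_inv]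
      · rw [if_neg (show τ ∉ {τ : IrrCharacter (G ⧸ D) | infl D τ ∈ b} from hτ), if_neg (fun h => hτ h.1)]
  rw [h3, hGc, mul_inv]
  have h4 : ∀ χ : IrrCharacter G, (if χ ∈ b ∧ ∀ n ∈ D, (χ : G → ℂ) n = (χ : G → ℂ) 1 then (Nat.card D : ℂ) * ((χ : G → ℂ) 1 * (χ : G → ℂ) g⁻¹) else 0) =
      (Nat.card D : ℂ) * (if χ ∈ b ∧ ∀ n ∈ D, (χ : G → ℂ) n = (χ : G → ℂ) 1 then (χ : G → ℂ) 1 * (χ : G → ℂ) g⁻¹ else 0) := by
    intro χ
    split_ifs
    · rfl
    · simp
  simp only [h4]
  rw [← Finset.mul_sum]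
  field_simp

/-- Green's theorem for a block with a normal defect group. -/
theorem exists_support_intersection (hM : IsPModular p M) {D : Subgroup G} [hn : D.Normal] {b : Set (IrrCharacter G)}
    (hb : IsPBlock M b) (hbD : IsDefectGroup p M b D) (Q : Sylow p G) :
    ∃ x, ¬ MemLocalIdeal M (blockCoeff b x) ∧ (Q : Subgroup G) ⊓ (Q : Subgroup G).map (MulAut.conj x).toMonoidHom = D := by
  classical
  haveI : Fact p.Prime := ⟨hM.1⟩
  haveI : M.IsPrime := hM.2.1.isPrime
  letI : Fintype (G ⧸ D) := Fintype.ofFinite _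
  letI : Fintype D := Fintype.ofFinite _
  have hDp : IsPGroup p D := by
    obtain ⟨g, -, S, hS⟩ := id hbD
    rw [hS]
    exact isPGroup_sylow_map S
  have hDQ : D ≤ Q := hDp.le_sylow_of_normal Q
  let A : Set (IrrCharacter (G ⧸ D)) := {τ | infl D τ ∈ b}
  have hcQ := card_defectGroup hM hb hbD
  have hG := Subgroup.card_mul_index D
  have hidx : Nat.card (G ⧸ D) = D.index := rfl
  have hval : (Nat.card G).factorization p = blockDefect p b + (Nat.card (G ⧸ D)).factorization p := by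
    rw [← hG, Nat.factorization_mul Nat.card_pos.ne' Subgroup.index_ne_zero_of_finite, hcQ, hidx]
    simp [hM.1.factorization_self]
  have hd : blockDefect p b = (Nat.card G).factorization p - minVal p b := rfl
  have hdeg : ∀ τ ∈ A, p ^ (Nat.card (G ⧸ D)).factorization p ∣ charDegree (τ : G ⧸ D → ℂ) := by
    intro τ hτ
    have hmin := minVal_le (p := p) (B := b) (χ := infl D τ) hτ
    have hmc := minVal_le_card (p := p) (B := b) ⟨_, hτ⟩ hM.1
    rw [infl_degree] at hmin
    rw [Nat.Prime.pow_dvd_iff_le_factorization hM.1 (charDegree_ne_zero τ.2)]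
    omega
  have hclosed : BlockClosed M A := by
    intro τ hτ
    have hdvd := charDegree_dvd_card τ.2
    have h0 : Nat.card (G ⧸ D) / charDegree (τ : G ⧸ D → ℂ) ≠ 0 :=
      (Nat.div_pos (Nat.le_of_dvd Nat.card_pos hdvd) (Nat.pos_of_dvd_of_pos hdvd Nat.card_pos)).ne'
    have hnd : ¬ p ∣ Nat.card (G ⧸ D) / charDegree (τ : G ⧸ D → ℂ) := by
      have h1 := (Nat.Prime.pow_dvd_iff_le_factorization hM.1 (charDegree_ne_zero τ.2)).1 (hdeg τ hτ)
      rw [hM.1.dvd_iff_one_le_factorization h0, Nat.factorization_div hdvd]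
      simp only [Finsupp.coe_tsub, Pi.sub_apply]
      omega
    rw [(defect_zero_iff hM τ).1 hnd]
    rintro _ rfl
    exact hτ
  have hne : A.Nonempty := by
    obtain ⟨θ, hθ, hker⟩ := exists_ker_of_defect_normal hM hb hbD
    obtain ⟨τ, hτ, hτeq⟩ := Cfsg.Agent.Lib.CharInflate.exists_quotient_irr D θ.2 hker
    refine ⟨⟨τ, hτ⟩, ?_⟩
    show infl D ⟨τ, hτ⟩ ∈ b
    have : infl D ⟨τ, hτ⟩ = θ := Subtype.ext (funext hτeq)
    rw [this]
    exact hθ
  let R : Sylow p (G ⧸ D) := Q.mapSurjective (QuotientGroup.mk'_surjective D)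
  obtain ⟨w, hw, hw2⟩ := exists_trivial_intersection hM hclosed hdeg hne (Sylow.card_eq_multiplicity R)
  obtain ⟨g, rfl⟩ := QuotientGroup.mk_surjective w
  have h1 := sum_coset_blockCoeff D b g
  have h2 : ∃ d : D, ¬ MemLocalIdeal M (blockCoeff b (g * d)) := by
    by_contra hcon
    push Not at hcon
    apply hw
    show MemLocalIdeal M (blockCoeff {τ : IrrCharacter (G ⧸ D) | infl D τ ∈ b} (g : G ⧸ D))
    rw [h1]
    exact MemLocalIdeal.sum hM _ fun d _ => hcon d
  obtain ⟨d, hd2⟩ := h2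
  refine ⟨g * d, hd2, le_antisymm ?_ ?_⟩
  · rintro y ⟨hy1, z, hz, hzy⟩
    have hz' : (g * (d : G)) * z * (g * (d : G))⁻¹ = y := hzy
    rw [← QuotientGroup.eq_one_iff]
    have h3 : (y : G ⧸ D) ∈ tt (R : Subgroup (G ⧸ D)) (g : G ⧸ D) := by
      refine mem_tt.2 ⟨⟨y, hy1, rfl⟩, ?_⟩
      have h4 : ((g : G ⧸ D))⁻¹ * (y : G ⧸ D) * (g : G ⧸ D) = (z : G ⧸ D) := by
        rw [← hz']
        have h5 : ((d : G) : G ⧸ D) = 1 := (QuotientGroup.eq_one_iff _).2 d.2
        simp only [QuotientGroup.mk_mul, QuotientGroup.mk_inv, mul_inv_rev, h5, one_mul, mul_one, inv_one]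
        group
      rw [h4]
      exact ⟨z, hz, rfl⟩
    rw [hw2] at h3
    exact (Subgroup.mem_bot).1 h3
  · intro y hy
    refine ⟨hDQ hy, (g * d)⁻¹ * y * (g * d), hDQ (by
      have := hn.conj_mem y hy (g * d)⁻¹
      simpa using this), ?_⟩
    simp only [MulEquiv.coe_toMonoidHom, MulAut.conj_apply]
    group

end N

section Main

variable {G : Type u} [Group G] [Fintype G] {p : ℕ} {M : Ideal AlgInt}

/-- Elements of the support of the block idempotent of `N(D)`. -/
theorem support_props (hM : IsPModular p M) (D : Subgroup G) (hD : IsPGroup p D) [Fintype (Subgroup.normalizer (D : Set G))]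
    {b₁ : Set (IrrCharacter (Subgroup.normalizer (D : Set G)))} (hb₁ : IsPBlock M b₁)
    (hb₁D : IsDefectGroup p M b₁ (D.subgroupOf (Subgroup.normalizer (D : Set G))))
    (z : Subgroup.normalizer (D : Set G)) (hz : ¬ MemLocalIdeal M (blockCoeff b₁ z)) :
    (z : G) ∈ Subgroup.centralizer (D : Set G) ∧
      Nat.card D = p ^ (Nat.card (Subgroup.centralizer ({(z : G)} : Set G))).factorization p := by
  classical
  haveI : Fact p.Prime := ⟨hM.1⟩
  haveI : M.IsPrime := hM.2.1.isPrime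
  let N := Subgroup.normalizer (D : Set G)
  haveI hn : (D.subgroupOf N).Normal := Subgroup.normal_in_normalizer
  have hD'p := isPGroup_subgroupOf_normalizer D hD
  obtain ⟨y, hy, S, hS⟩ := hb₁D
  have hz0 : (z : G) ∈ Subgroup.centralizer (D : Set G) := by
    by_contra hnc
    apply hz
    have h1 : z ∉ Subgroup.centralizer ((D.subgroupOf N : Subgroup N) : Set N) := by
      intro h2
      apply hnc
      rw [Subgroup.mem_centralizer_iff] at h2 ⊢
      intro d hd
      have h3 := h2 ⟨d, Subgroup.le_normalizer hd⟩ hd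
      exact congrArg Subtype.val h3
    have h2 := blockCoeff_eq_zero_of_not_centralizes hM (D.subgroupOf N) hD'p hb₁ z h1
    rw [h2]
    exact MemLocalIdeal.zero hM
  have hDz : D ≤ Subgroup.centralizer ({(z : G)} : Set G) := by
    intro d hd
    rw [Subgroup.mem_centralizer_singleton_iff]
    exact (Subgroup.mem_centralizer_iff.1 hz0 d hd)
  have hmax : ∀ U : Subgroup G, IsPGroup p U → D ≤ U → U ≤ Subgroup.normalizer (D : Set G) →
      U ≤ Subgroup.centralizer ({(z : G)} : Set G) → U ≤ D := by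
    intro U hU hDU hUN hUC
    have hU' : IsPGroup p (U.subgroupOf N) := by
      intro a
      obtain ⟨k, hk⟩ := hU ⟨(a : N), a.2⟩
      refine ⟨k, ?_⟩
      apply Subtype.ext
      apply Subtype.ext
      have := congrArg Subtype.val hk
      simpa using this
    obtain ⟨x, hx⟩ := sylow_le_defect hM hb₁ hy S hz hU' (fun u hu => by
      apply Subtype.ext
      have h1 := Subgroup.mem_centralizer_singleton_iff.1 (hUC hu)
      simpa using h1)
    rw [← hS] at hx
    intro u hu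
    have h1 : (⟨u, hUN hu⟩ : N) ∈ U.subgroupOf N := hu
    obtain ⟨d, hd, hdu⟩ := hx h1
    have h2 : d ∈ D.subgroupOf N := hd
    have h3 := hn.conj_mem d h2 x
    have h4 : (x * d * x⁻¹) ∈ D.subgroupOf N := h3
    have h5 : (⟨u, hUN hu⟩ : N) = x * d * x⁻¹ := by
      rw [← hdu]
      rfl
    rw [← h5] at h4
    exact h4
  exact ⟨hz0, card_eq_of_maximal hD hDz hmax⟩

/-- **Green's theorem.** -/
theorem green (hM : IsPModular p M) {B : Set (IrrCharacter G)} (hB : IsPBlock M B) {D : Subgroup G} (hD : IsDefectGroup p M B D)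
    (P : Sylow p G) (hDP : D ≤ P) :
    ∃ x : G, ¬ p ∣ orderOf x ∧ (∃ S : Sylow p (Subgroup.centralizer ({x} : Set G)),
      (S : Subgroup (Subgroup.centralizer ({x} : Set G))).map (Subgroup.centralizer ({x} : Set G)).subtype = D) ∧
      (P : Subgroup G) ⊓ (P : Subgroup G).map (MulAut.conj x).toMonoidHom = D := by
  classical
  haveI : Fact p.Prime := ⟨hM.1⟩
  letI : Fintype (Subgroup.normalizer (D : Set G)) := Fintype.ofFinite _
  let N := Subgroup.normalizer (D : Set G)
  have hDp : IsPGroup p D := by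
    obtain ⟨g, -, S, rfl⟩ := id hD
    exact isPGroup_sylow_map S
  obtain ⟨b, hb, hbD, -⟩ := firstMain_exists hM D hDp hB hD
  haveI hn : (D.subgroupOf N).Normal := Subgroup.normal_in_normalizer
  have hQ₀ : IsPGroup p ((P : Subgroup G).subgroupOf N) := by
    intro a
    obtain ⟨k, hk⟩ := P.isPGroup' ⟨(a : N), a.2⟩
    refine ⟨k, ?_⟩
    apply Subtype.ext
    apply Subtype.ext
    have := congrArg Subtype.val hk
    simpa using this
  obtain ⟨Q, hQ⟩ := hQ₀.exists_le_sylow
  obtain ⟨x, hx, hxQ⟩ := exists_support_intersection hM hb hbD Q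
  obtain ⟨hxC, hcard⟩ := support_props hM D hDp hb hbD x hx
  have hA := blockClosed_of_isPBlock hM hb
  have hreg : ¬ p ∣ orderOf x := regular_of_blockCoeff_ne_zero hM hA (ne_zero_of_not_ideal hM hx)
  refine ⟨x, by rwa [Subgroup.orderOf_coe], ?_, ?_⟩
  · have hDx : D ≤ Subgroup.centralizer ({(x : G)} : Set G) := by
      intro d hd
      rw [Subgroup.mem_centralizer_singleton_iff]
      exact (Subgroup.mem_centralizer_iff.1 hxC d hd)
    have h1 : Nat.card (D.subgroupOf (Subgroup.centralizer ({(x : G)} : Set G))) = p ^ (Nat.card (Subgroup.centralizer ({(x : G)} : Set G))).factorization p := by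
      rw [← hcard]
      exact Nat.card_congr (Subgroup.subgroupOfEquivOfLe hDx).toEquiv
    refine ⟨Sylow.ofCard _ h1, ?_⟩
    rw [Sylow.coe_ofCard]
    exact Subgroup.map_subgroupOf_eq_of_le hDx
  · have hDT : D ≤ (P : Subgroup G) ⊓ (P : Subgroup G).map (MulAut.conj (x : G)).toMonoidHom := by
      intro d hd
      refine ⟨hDP hd, (x : G)⁻¹ * d * x, hDP ?_, ?_⟩
      · have := (Subgroup.mem_normalizer_iff.1 (Subgroup.inv_mem _ x.2) d).1 hd
        simpa using this
      · simp only [MulEquiv.coe_toMonoidHom, MulAut.conj_apply]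
        group
    refine le_antisymm ?_ hDT
    refine le_of_normalizer_le (P.isPGroup'.to_le inf_le_left) hDT le_rfl fun U hU hDU hUN hUW => ?_
    intro u hu
    have h1 : (⟨u, hUN hu⟩ : N) ∈ (Q : Subgroup N) ⊓ (Q : Subgroup N).map (MulAut.conj x).toMonoidHom := by
      obtain ⟨h2, r, hr, hru⟩ := hUW hu
      have hru' : (x : G) * r * (x : G)⁻¹ = u := hru
      have hrN : r ∈ N := by
        have h3 : r = (x : G)⁻¹ * u * x := by
          rw [← hru']
          group
        rw [h3]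
        exact N.mul_mem (N.mul_mem (N.inv_mem x.2) (hUN hu)) x.2
      refine ⟨hQ h2, ⟨r, hrN⟩, hQ hr, ?_⟩
      apply Subtype.ext
      exact hru'
    rw [hxQ] at h1
    exact h1

end Main


end Cfsg.Agent.Lib.CharBlockGreen
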