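import Mathlib
import Cfsg.Prelude.Def_Blocks
import Cfsg.Agent.Lib.CharBlockRank
import Cfsg.Agent.Lib.CharBlockGreen

/-!
# Blocks with central defect group have rank one
-/

set_option autoImplicit false
set_option linter.style.haveILetI false
set_option linter.unusedSectionVars false

namespace Cfsg.Agent.Lib.CharBlockCenDef

open scoped ComplexConjugate
open Module Cfsg Cfsg.Agent.Lib.CharBlockLocal Cfsg.Agent.Lib.CharBlockConv Cfsg.Agent.Lib.CharBlockRot
  Cfsg.Agent.Lib.CharBlockOrth Cfsg.Agent.Lib.CharOps Cfsg.Agent.Lib.CharIrr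
  Cfsg.Agent.Lib.CharBlockDefect Cfsg.Agent.Lib.CharBlockMinMax Cfsg.Agent.Lib.CharBlockBrauer
  Cfsg.Agent.Lib.CharBlockInd Cfsg.Agent.Lib.CharBlockDom Cfsg.Agent.Lib.CharBlockKer
  Cfsg.Agent.Lib.CharBlockRank Cfsg.Agent.Lib.CharBlockGreen

universe u

variable {G : Type u} [Group G] [Fintype G] {p : ℕ} {M : Ideal AlgInt}

/-- A character of the quotient by the normal defect group has defect zero. -/
theorem infl_defect_zero (hM : IsPModular p M) {D : Subgroup G} [D.Normal] {b : Set (IrrCharacter G)} (hb : IsPBlock M b)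
    (hbD : IsDefectGroup p M b D) {τ : IrrCharacter (G ⧸ D)} (hτ : infl D τ ∈ b) : ¬ p ∣ Nat.card (G ⧸ D) / charDegree (τ : G ⧸ D → ℂ) := by
  classical
  haveI : Fact p.Prime := ⟨hM.1⟩
  have hcQ := card_defectGroup hM hb hbD
  have hG := Subgroup.card_mul_index D
  have hidx : Nat.card (G ⧸ D) = D.index := rfl
  have hval : (Nat.card G).factorization p = blockDefect p b + (Nat.card (G ⧸ D)).factorization p := by
    rw [← hG, Nat.factorization_mul Nat.card_pos.ne' Subgroup.index_ne_zero_of_finite, hcQ, hidx]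
    simp [hM.1.factorization_self]
  have hd : blockDefect p b = (Nat.card G).factorization p - minVal p b := rfl
  have hmin := minVal_le (p := p) (B := b) (χ := infl D τ) hτ
  have hmc := minVal_le_card (p := p) (B := b) ⟨_, hτ⟩ hM.1
  rw [infl_degree] at hmin
  have hdvd := charDegree_dvd_card τ.2
  have h0 : Nat.card (G ⧸ D) / charDegree (τ : G ⧸ D → ℂ) ≠ 0 :=
    (Nat.div_pos (Nat.le_of_dvd Nat.card_pos hdvd) (Nat.pos_of_dvd_of_pos hdvd Nat.card_pos)).ne'
  rw [hM.1.dvd_iff_one_le_factorization h0, Nat.factorization_div hdvd]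
  simp only [Finsupp.coe_tsub, Pi.sub_apply]
  omega

theorem blockClosed_singleton_infl (hM : IsPModular p M) {D : Subgroup G} [D.Normal] {b : Set (IrrCharacter G)} (hb : IsPBlock M b)
    (hbD : IsDefectGroup p M b D) {τ : IrrCharacter (G ⧸ D)} (hτ : infl D τ ∈ b) : BlockClosed M ({τ} : Set (IrrCharacter (G ⧸ D))) := by
  letI : Fintype (G ⧸ D) := Fintype.ofFinite _
  intro ξ hξ
  have hξτ : ξ = τ := hξ
  have hnd := infl_defect_zero hM hb hbD hτ
  rw [hξτ, (Cfsg.Agent.Lib.CharBlockMinMax.defect_zero_iff hM τ).1 hnd]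

/-- Regular elements modulo a central `p`-subgroup. -/
theorem sum_regular_central (hM : IsPModular p M) {D : Subgroup G} [D.Normal] [Fintype (G ⧸ D)] (hDp : IsPGroup p D)
    (hZ : D ≤ Subgroup.center G) (h : G ⧸ D → ℂ) [DecidablePred fun g : G => p ∣ orderOf g] [DecidablePred fun x : G ⧸ D => p ∣ orderOf x] :
    ∑ g : G, (if p ∣ orderOf g then 0 else h (g : G ⧸ D)) = ∑ x : G ⧸ D, (if p ∣ orderOf x then 0 else h x) := by
  classical
  haveI : Fact p.Prime := ⟨hM.1⟩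
  have h1 : ∀ (α : Type _) [Fintype α] (P : α → Prop) [DecidablePred P] (F : α → ℂ), ∑ a, (if P a then 0 else F a) = ∑ a ∈ Finset.univ.filter (fun a => ¬ P a), F a := by
    intro α _ P _ F
    rw [Finset.sum_filter]
    refine Finset.sum_congr rfl fun a _ => ?_
    by_cases ha : P a
    · rw [if_pos ha, if_neg (not_not.2 ha)]
    · rw [if_neg ha, if_pos ha]
  rw [h1, h1]
  refine Finset.sum_nbij (fun g => (g : G ⧸ D)) ?_ ?_ ?_ ?_
  · intro g hg
    have hg' : ¬ p ∣ orderOf g := (Finset.mem_filter.1 hg).2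
    refine Finset.mem_filter.2 ⟨Finset.mem_univ _, fun hd => hg' (hd.trans ?_)⟩
    exact orderOf_map_dvd (QuotientGroup.mk' D) g
  · intro g₁ hg₁ g₂ hg₂ heq
    have h₁ : ¬ p ∣ orderOf g₁ := (Finset.mem_filter.1 (Finset.mem_coe.1 hg₁)).2
    have h₂ : ¬ p ∣ orderOf g₂ := (Finset.mem_filter.1 (Finset.mem_coe.1 hg₂)).2
    have hd : g₁⁻¹ * g₂ ∈ D := QuotientGroup.eq.1 heq
    by_contra hne
    have hd1 : g₁⁻¹ * g₂ ≠ 1 := by
      intro h2
      apply hne
      rw [inv_mul_eq_one] at h2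
      exact h2
    have hcomm : Commute g₁ (g₁⁻¹ * g₂) := (Subgroup.mem_center_iff.1 (hZ hd)) g₁
    obtain ⟨k, hk⟩ := (IsPGroup.iff_orderOf.1 hDp) ⟨_, hd⟩
    have h3 := dvd_orderOf_mul hM.1 hcomm h₁ hd1 ⟨k, by rw [← hk, Subgroup.orderOf_mk]⟩
    rw [mul_inv_cancel_left] at h3
    exact h₂ h3
  · intro x hx
    have hx' : ¬ p ∣ orderOf x := (Finset.mem_filter.1 (Finset.mem_coe.1 hx)).2
    obtain ⟨g, hg, hreg⟩ := exists_regular_lift hM.1 D hx'
    exact ⟨g, Finset.mem_coe.2 (Finset.mem_filter.2 ⟨Finset.mem_univ _, hreg⟩), hg⟩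
  · intro g _
    rfl

/-- At most one character of the block has the central defect group in its kernel. -/
theorem unique_ker (hM : IsPModular p M) {D : Subgroup G} [D.Normal] (hDp : IsPGroup p D) (hZ : D ≤ Subgroup.center G)
    {B : Set (IrrCharacter G)} (hB : IsPBlock M B) (hD : IsDefectGroup p M B D) {θ χ : IrrCharacter G} (hθ : θ ∈ B) (hχ : χ ∈ B)
    (hkθ : ∀ u ∈ D, (θ : G → ℂ) u = (θ : G → ℂ) 1) (hkχ : ∀ u ∈ D, (χ : G → ℂ) u = (χ : G → ℂ) 1) : χ = θ := by
  classical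
  haveI : M.IsPrime := hM.2.1.isPrime
  letI : Fintype (G ⧸ D) := Fintype.ofFinite _
  obtain ⟨τ₁, hτ₁, hτ₁eq⟩ := Cfsg.Agent.Lib.CharInflate.exists_quotient_irr D θ.2 hkθ
  obtain ⟨τ₂, hτ₂, hτ₂eq⟩ := Cfsg.Agent.Lib.CharInflate.exists_quotient_irr D χ.2 hkχ
  let t₁ : IrrCharacter (G ⧸ D) := ⟨τ₁, hτ₁⟩
  let t₂ : IrrCharacter (G ⧸ D) := ⟨τ₂, hτ₂⟩
  have ht₁ : infl D t₁ = θ := Subtype.ext (funext hτ₁eq)
  have ht₂ : infl D t₂ = χ := Subtype.ext (funext hτ₂eq)
  suffices h : t₂ = t₁ by rw [← ht₂, ← ht₁, h]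
  have hclosed : BlockClosed M ({t₁} : Set (IrrCharacter (G ⧸ D))) :=
    blockClosed_singleton_infl hM hB hD (τ := t₁) (by rw [ht₁]; exact hθ)
  have heR := isRClass_blockCoeff_of_closed hM hclosed
  let e := blockCoeff ({t₁} : Set (IrrCharacter (G ⧸ D)))
  let f : G → ℂ := fun g => if p ∣ orderOf g then 0 else e (g : G ⧸ D)
  have hf : IsRClass M f := by
    refine ⟨fun g a => ?_, fun g => ?_⟩
    · simp only [f]
      rw [orderOf_conj']
      split_ifs
      · rfl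
      · have h1 : ((a * g * a⁻¹ : G) : G ⧸ D) = (a : G ⧸ D) * (g : G ⧸ D) * (a : G ⧸ D)⁻¹ := rfl
        rw [h1]
        exact heR.1 _ _
    · simp only [f]
      split_ifs
      · exact MemLocalRing.zero hM
      · exact heR.2 _
  have hom : ∀ t : IrrCharacter (G ⧸ D), omega (infl D t : G → ℂ) f = if t = t₁ then 1 else 0 := by
    intro t
    have h1 := omega_blockCoeff ({t₁} : Set (IrrCharacter (G ⧸ D))) t
    have h2 : omega (infl D t : G → ℂ) f = omega (t : G ⧸ D → ℂ) e := by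
      unfold omega
      have h3 : (infl D t : G → ℂ) 1 = (t : G ⧸ D → ℂ) 1 := by
        rw [infl_apply, QuotientGroup.mk_one]
      rw [h3]
      congr 1
      have h4 : ∀ g : G, f g * (infl D t : G → ℂ) g = if p ∣ orderOf g then 0 else e (g : G ⧸ D) * (t : G ⧸ D → ℂ) (g : G ⧸ D) := by
        intro g
        simp only [f, infl_apply]
        split_ifs
        · rw [zero_mul]
        · rfl
      simp only [h4]
      rw [sum_regular_central hM hDp hZ (fun x => e x * (t : G ⧸ D → ℂ) x)]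
      refine Finset.sum_congr rfl fun x _ => ?_
      split_ifs with hx
      · rw [show e x = 0 from blockCoeff_singular hM hclosed hx, zero_mul]
      · rfl
    rw [h2]
    convert h1 using 2
    exact Iff.rfl
  have hs : SameBlock M (infl D t₁ : G → ℂ) (infl D t₂ : G → ℂ) := by
    rw [ht₁, ht₂]
    have := blockOf_eq_of_mem hM hB hθ
    rw [this] at hχ
    exact hχ
  have h3 := sameBlock_omega hM (infl D t₁).2 (infl D t₂).2 hs hf
  rw [hom, hom, if_pos rfl] at h3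
  by_contra hne
  rw [if_neg hne, sub_zero] at h3
  exact not_memLocalIdeal_one hM h3

/-- The sum of the conjugates of a character over a coset. -/
theorem sum_coset_conj (D : Subgroup G) [D.Normal] [Fintype D] (χ : IrrCharacter G) (g : G) [Decidable (∀ n ∈ D, (χ : G → ℂ) n = (χ : G → ℂ) 1)] :
    ∑ d : D, conj ((χ : G → ℂ) (g * d)) = if ∀ n ∈ D, (χ : G → ℂ) n = (χ : G → ℂ) 1 then (Nat.card D : ℂ) * (χ : G → ℂ) g⁻¹ else 0 := by
  have h1 : ∑ d : D, conj ((χ : G → ℂ) (g * d)) = ∑ d : D, (χ : G → ℂ) ((d : G) * g⁻¹) := by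
    refine Fintype.sum_equiv (Equiv.inv D) _ _ fun d => ?_
    rw [conj_apply_eq_inv χ.2]
    simp
  rw [h1]
  by_cases hk : ∀ n ∈ D, (χ : G → ℂ) n = (χ : G → ℂ) 1
  · rw [if_pos hk]
    have h2 : ∀ d : D, (χ : G → ℂ) ((d : G) * g⁻¹) = (χ : G → ℂ) g⁻¹ := fun d =>
      Cfsg.Agent.Lib.CharKernel.apply_mul_of_ker D (IsIrrCharacter.isCharacter' χ.2) hk d.2 _
    simp only [h2, Finset.sum_const, Finset.card_univ, nsmul_eq_mul]
    rw [Nat.card_eq_fintype_card]
  · rw [if_neg hk]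
    push Not at hk
    exact Cfsg.Agent.Lib.CharKernel.sum_coset_eq_zero D χ.2 hk g⁻¹

/-- The block orthogonality for a block with a central defect group. -/
theorem sum_block_central (hM : IsPModular p M) {D : Subgroup G} [D.Normal] [Fintype D] (hDp : IsPGroup p D) (hZ : D ≤ Subgroup.center G)
    {B : Set (IrrCharacter G)} (hB : IsPBlock M B) (hD : IsDefectGroup p M B D) {θ : IrrCharacter G} (hθ : θ ∈ B)
    (hkθ : ∀ u ∈ D, (θ : G → ℂ) u = (θ : G → ℂ) 1) {x y : G} (hx : ¬ p ∣ orderOf x) (hy : ¬ p ∣ orderOf y) [DecidablePred (· ∈ B)] :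
    ∑ χ ∈ Finset.univ.filter (· ∈ B), (χ : G → ℂ) y * conj ((χ : G → ℂ) x) = (Nat.card D : ℂ) * ((θ : G → ℂ) y * conj ((θ : G → ℂ) x)) := by
  classical
  haveI : Fact p.Prime := ⟨hM.1⟩
  have hA := blockClosed_of_isPBlock hM hB
  have h1 : ∀ d : D, d ≠ 1 → ∑ χ ∈ Finset.univ.filter (· ∈ B), (χ : G → ℂ) y * conj ((χ : G → ℂ) (x * d)) = 0 := by
    intro d hd
    have hcomm : Commute x (d : G) := (Subgroup.mem_center_iff.1 (hZ d.2)) x
    obtain ⟨k, hk⟩ := (IsPGroup.iff_orderOf.1 hDp) d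
    have h2 := dvd_orderOf_mul hM.1 hcomm hx (fun h => hd (Subtype.ext h)) ⟨k, by rw [← hk, Subgroup.orderOf_coe]⟩
    have h3 := weak_orthogonality hM hA hy h2
    rw [finsum_mem_eq_sum_ite, ← Finset.sum_filter] at h3
    exact h3
  have h2 : ∑ d : D, ∑ χ ∈ Finset.univ.filter (· ∈ B), (χ : G → ℂ) y * conj ((χ : G → ℂ) (x * d)) =
      ∑ χ ∈ Finset.univ.filter (· ∈ B), (χ : G → ℂ) y * conj ((χ : G → ℂ) x) := by
    rw [Finset.sum_eq_single (1 : D)]
    · simp
    · intro d _ hd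
      exact h1 d hd
    · simp
  rw [← h2, Finset.sum_comm]
  have h3 : ∀ χ : IrrCharacter G, ∑ d : D, (χ : G → ℂ) y * conj ((χ : G → ℂ) (x * d)) =
      if ∀ n ∈ D, (χ : G → ℂ) n = (χ : G → ℂ) 1 then (Nat.card D : ℂ) * ((χ : G → ℂ) y * conj ((χ : G → ℂ) x)) else 0 := by
    intro χ
    rw [← Finset.mul_sum, sum_coset_conj]
    split_ifs
    · rw [conj_apply_eq_inv χ.2]
      ring
    · rw [mul_zero]
  simp only [h3]
  rw [Finset.sum_eq_single θ]
  · rw [if_pos hkθ]
  · intro χ hχ hne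
    rw [if_neg]
    intro hk
    exact hne (unique_ker hM hDp hZ hB hD hθ (Finset.mem_filter.1 hχ).2 hkθ hk)
  · intro h
    exact absurd (Finset.mem_filter.2 ⟨Finset.mem_univ _, hθ⟩) h

/-- On regular elements, the characters of a block with a central defect group are proportional. -/
theorem apply_regular_central (hM : IsPModular p M) {D : Subgroup G} [D.Normal] [Fintype D] (hDp : IsPGroup p D) (hZ : D ≤ Subgroup.center G)
    {B : Set (IrrCharacter G)} (hB : IsPBlock M B) (hD : IsDefectGroup p M B D) {θ : IrrCharacter G} (hθ : θ ∈ B)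
    (hkθ : ∀ u ∈ D, (θ : G → ℂ) u = (θ : G → ℂ) 1) {χ : IrrCharacter G} (hχ : χ ∈ B) {y : G} (hy : ¬ p ∣ orderOf y) :
    (χ : G → ℂ) y = ((θ : G → ℂ) y / (θ : G → ℂ) 1) * (χ : G → ℂ) 1 := by
  classical
  have h1reg : ¬ p ∣ orderOf (1 : G) := by simp [hM.1.ne_one]
  have hθ1 : (θ : G → ℂ) 1 ≠ 0 := degree_ne_zero θ.2
  set c := (θ : G → ℂ) y / (θ : G → ℂ) 1 with hc
  have hcθ : (θ : G → ℂ) y - c * (θ : G → ℂ) 1 = 0 := by
    rw [hc]
    field_simp
    ring
  let S := Finset.univ.filter (fun χ : IrrCharacter G => χ ∈ B)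
  have hsum : ∑ ξ ∈ S, ((Complex.normSq ((ξ : G → ℂ) y - c * (ξ : G → ℂ) 1) : ℝ) : ℂ) = 0 := by
    have h1 : ∀ ξ : IrrCharacter G, ((Complex.normSq ((ξ : G → ℂ) y - c * (ξ : G → ℂ) 1) : ℝ) : ℂ) =
        (ξ : G → ℂ) y * conj ((ξ : G → ℂ) y) - conj c * ((ξ : G → ℂ) y * conj ((ξ : G → ℂ) 1)) - c * ((ξ : G → ℂ) 1 * conj ((ξ : G → ℂ) y)) +
          c * conj c * ((ξ : G → ℂ) 1 * conj ((ξ : G → ℂ) 1)) := by
      intro ξ
      rw [← Complex.mul_conj, map_sub, map_mul]
      ring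
    simp only [h1]
    rw [Finset.sum_add_distrib, Finset.sum_sub_distrib, Finset.sum_sub_distrib, ← Finset.mul_sum, ← Finset.mul_sum, ← Finset.mul_sum]
    rw [sum_block_central hM hDp hZ hB hD hθ hkθ hy hy, sum_block_central hM hDp hZ hB hD hθ hkθ h1reg hy,
      sum_block_central hM hDp hZ hB hD hθ hkθ hy h1reg, sum_block_central hM hDp hZ hB hD hθ hkθ h1reg h1reg]
    have h2 : (θ : G → ℂ) y = c * (θ : G → ℂ) 1 := sub_eq_zero.1 hcθ
    rw [h2, map_mul]
    ring
  have hsum' : ∑ ξ ∈ S, Complex.normSq ((ξ : G → ℂ) y - c * (ξ : G → ℂ) 1) = 0 := by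
    have : ((∑ ξ ∈ S, Complex.normSq ((ξ : G → ℂ) y - c * (ξ : G → ℂ) 1) : ℝ) : ℂ) = 0 := by
      push_cast
      exact hsum
    exact_mod_cast this
  have h2 := (Finset.sum_eq_zero_iff_of_nonneg (fun ξ _ => Complex.normSq_nonneg _)).1 hsum' χ (Finset.mem_filter.2 ⟨Finset.mem_univ _, hχ⟩)
  exact sub_eq_zero.1 (Complex.normSq_eq_zero.1 h2)

/-- A block with a central defect group has rank one. -/
theorem blockRank_central (hM : IsPModular p M) {B : Set (IrrCharacter G)} (hB : IsPBlock M B) {D : Subgroup G}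
    (hD : IsDefectGroup p M B D) (hZ : D ≤ Subgroup.center G) : blockRank p B = 1 := by
  classical
  haveI : Fact p.Prime := ⟨hM.1⟩
  letI : Fintype D := Fintype.ofFinite _
  haveI hn : D.Normal := ⟨fun n hn g => by
    have := Subgroup.mem_center_iff.1 (hZ hn) g
    rw [this, mul_assoc, mul_inv_cancel, mul_one]
    exact hn⟩
  have hDp : IsPGroup p D := by
    obtain ⟨g, -, S, hS⟩ := id hD
    rw [hS]
    exact isPGroup_sylow_map S
  obtain ⟨θ, hθ, hk⟩ := exists_ker_of_defect_normal hM hB hD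
  have hθ1 : (θ : G → ℂ) 1 ≠ 0 := degree_ne_zero θ.2
  have hspan : rankSpan p B = Submodule.span ℂ {pRegularPart p (θ : G → ℂ)} := by
    apply le_antisymm
    · refine Submodule.span_le.2 ?_
      rintro _ ⟨χ, hχ, rfl⟩
      have h1 : pRegularPart p (χ : G → ℂ) = ((χ : G → ℂ) 1 / (θ : G → ℂ) 1) • pRegularPart p (θ : G → ℂ) := by
        funext x
        rw [pRegularPart_eq_regPart, pRegularPart_eq_regPart, Pi.smul_apply, regPart_apply, regPart_apply]
        split_ifs with hx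
        · simp
        · rw [apply_regular_central hM hDp hZ hB hD hθ hk hχ hx, smul_eq_mul]
          ring
      show pRegularPart p (χ : G → ℂ) ∈ _
      rw [h1]
      exact Submodule.smul_mem _ _ (Submodule.mem_span_singleton_self _)
    · refine Submodule.span_le.2 ?_
      rintro _ rfl
      exact Submodule.subset_span ⟨θ, hθ, rfl⟩
  rw [blockRank_eq, hspan]
  exact finrank_span_singleton (pRegularPart_ne_zero hM.1 θ)

end Cfsg.Agent.Lib.CharBlockCenDef
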