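import Mathlib
import Cfsg.Prelude.Def_Blocks
import Cfsg.Agent.Lib.CharBlockKer

/-!
# Counting blocks by defect, principal block defect
-/

set_option autoImplicit false
set_option linter.style.haveILetI false
set_option linter.unusedSectionVars false

namespace Cfsg.Agent.Lib.CharBlockCount

open scoped ComplexConjugate
open Cfsg Cfsg.Agent.Lib.CharBlockLocal Cfsg.Agent.Lib.CharBlockConv Cfsg.Agent.Lib.CharBlockRot
  Cfsg.Agent.Lib.CharBlockOrth Cfsg.Agent.Lib.CharOps Cfsg.Agent.Lib.CharIrr
  Cfsg.Agent.Lib.CharBlockDefect Cfsg.Agent.Lib.CharBlockMinMax Cfsg.Agent.Lib.CharBlockBrauer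
  Cfsg.Agent.Lib.CharBlockInd Cfsg.Agent.Lib.CharBlockThird Cfsg.Agent.Lib.CharBlockKer

universe u v w

variable {p : ℕ} {M : Ideal AlgInt}

/-- The local ideal as an ideal of the local ring. -/
def localIdeal (hM : IsPModular p M) : Ideal (localRing hM) where
  carrier := {z | MemLocalIdeal M (z : ℂ)}
  add_mem' := fun ha hb => MemLocalIdeal.add hM ha hb
  zero_mem' := MemLocalIdeal.zero hM
  smul_mem' := fun c _ hx => MemLocalIdeal.mul_left hM c.2 hx

theorem mem_localIdeal (hM : IsPModular p M) {z : localRing hM} : z ∈ localIdeal hM ↔ MemLocalIdeal M (z : ℂ) := Iff.rfl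

theorem localIdeal_ne_top (hM : IsPModular p M) : localIdeal hM ≠ ⊤ := by
  intro h
  have h1 : (1 : localRing hM) ∈ localIdeal hM := by rw [h]; trivial
  exact not_memLocalIdeal_one hM h1

/-- A matrix identity modulo the local ideal bounds the sizes. -/
theorem card_le_of_mod_identity (hM : IsPModular p M) {ι : Type v} {κ : Type w} [Fintype ι] [Fintype κ] [DecidableEq ι]
    (a : ι → κ → ℂ) (b : κ → ι → ℂ) (ha : ∀ i k, MemLocalRing M (a i k)) (hb : ∀ k i, MemLocalRing M (b k i))
    (h : ∀ i j, MemLocalIdeal M (∑ k, a i k * b k j - if i = j then 1 else 0)) : Fintype.card ι ≤ Fintype.card κ := by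
  classical
  haveI : Nontrivial (localRing hM ⧸ localIdeal hM) := Ideal.Quotient.nontrivial_iff.2 (localIdeal_ne_top hM)
  let A : Matrix ι κ (localRing hM ⧸ localIdeal hM) := fun i k => Ideal.Quotient.mk _ ⟨a i k, ha i k⟩
  let B : Matrix κ ι (localRing hM ⧸ localIdeal hM) := fun k i => Ideal.Quotient.mk _ ⟨b k i, hb k i⟩
  have hAB : A * B = 1 := by
    ext i j
    rw [Matrix.mul_apply, Matrix.one_apply]
    have h1 : ∑ k, A i k * B k j = Ideal.Quotient.mk (localIdeal hM) (∑ k, (⟨a i k, ha i k⟩ : localRing hM) * ⟨b k j, hb k j⟩) := by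
      rw [map_sum]
      refine Finset.sum_congr rfl fun k _ => ?_
      rw [map_mul]
    rw [h1]
    have h2 : (if i = j then (1 : localRing hM ⧸ localIdeal hM) else 0) = Ideal.Quotient.mk (localIdeal hM) (if i = j then 1 else 0) := by
      split_ifs
      · rw [map_one]
      · rw [map_zero]
    rw [h2, Ideal.Quotient.eq, mem_localIdeal]
    convert h i j using 1
    push_cast
    split_ifs <;> simp
  have h1 := Matrix.rank_mul_le_left A B
  rw [hAB, Matrix.rank_one] at h1
  exact h1.trans (Matrix.rank_le_card_width A)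

variable {G : Type u} [Group G] [Fintype G]

/-- A `p`-group centralizing an element in the support of the block idempotent has order at most the defect. -/
theorem val_le_of_support (hM : IsPModular p M) {B : Set (IrrCharacter G)} (hB : IsPBlock M B) {h : G}
    (hb : ¬ MemLocalIdeal M (blockCoeff B h)) :
    (Nat.card (Subgroup.centralizer ({h} : Set G))).factorization p ≤ blockDefect p B := by
  classical
  haveI : Fact p.Prime := ⟨hM.1⟩
  obtain ⟨g, hg⟩ := exists_defect_class hM hB
  obtain ⟨D⟩ : Nonempty (Sylow p (Subgroup.centralizer ({g} : Set G))) := inferInstance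
  obtain ⟨S⟩ : Nonempty (Sylow p (Subgroup.centralizer ({h} : Set G))) := inferInstance
  obtain ⟨x, hx⟩ := sylow_le_defect hM hB hg D hb (isPGroup_sylow_map S) (sylow_map_centralizes S)
  have h1 := Subgroup.card_le_of_le hx
  rw [card_map_conj, card_sylow_map, card_defectGroup hM hB ⟨g, hg, D, rfl⟩] at h1
  exact (Nat.pow_le_pow_iff_right hM.1.one_lt).1 h1

/-- An element with unit central character has defect at least that of the block. -/
theorem val_ge_of_central (hM : IsPModular p M) {B : Set (IrrCharacter G)} (hB : IsPBlock M B) {χ : IrrCharacter G} (hχ : χ ∈ B) {h : G}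
    (hb : ¬ MemLocalIdeal M (centralChar (χ : G → ℂ) h)) :
    blockDefect p B ≤ (Nat.card (Subgroup.centralizer ({h} : Set G))).factorization p := by
  classical
  haveI : Fact p.Prime := ⟨hM.1⟩
  obtain ⟨g, hg⟩ := exists_defect_class hM hB
  obtain ⟨D⟩ : Nonempty (Sylow p (Subgroup.centralizer ({g} : Set G))) := inferInstance
  obtain ⟨x, Q, hx⟩ := defect_le_sylow hM hB hg D hχ hb
  have h1 := Subgroup.card_le_of_le hx
  rw [card_map_conj, card_defectGroup hM hB ⟨g, hg, D, rfl⟩, card_sylow_map] at h1
  exact (Nat.pow_le_pow_iff_right hM.1.one_lt).1 h1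

/-- Two blocks are equal if they share an element. -/
theorem block_eq_of_mem (hM : IsPModular p M) {B B' : Set (IrrCharacter G)} (hB : IsPBlock M B) (hB' : IsPBlock M B')
    {χ : IrrCharacter G} (h : χ ∈ B) (h' : χ ∈ B') : B = B' := by
  rw [blockOf_eq_of_mem hM hB h, blockOf_eq_of_mem hM hB' h']

/-- The general counting bound. -/
theorem card_blocks_le (hM : IsPModular p M) (𝓑 : Set (Set (IrrCharacter G))) (h𝓑 : ∀ B ∈ 𝓑, IsPBlock M B) (𝓒 : Set (ConjClasses G))
    (h : ∀ B ∈ 𝓑, ∀ B' ∈ 𝓑, ∀ χ ∈ B', ∀ c : ConjClasses G, ¬ MemLocalIdeal M (blockCoeff B (Quotient.out c)) →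
      ¬ MemLocalIdeal M (centralChar (χ : G → ℂ) (Quotient.out c)) → c ∈ 𝓒) : Nat.card 𝓑 ≤ Nat.card 𝓒 := by
  classical
  letI : Fintype (ConjClasses G) := Fintype.ofFinite _
  letI : Fintype (Set (IrrCharacter G)) := Fintype.ofFinite _
  have hne : ∀ B : 𝓑, ∃ χ, χ ∈ (B : Set (IrrCharacter G)) := fun B => block_nonempty hM (h𝓑 B B.2)
  choose χ hχ using hne
  rw [Nat.card_eq_fintype_card, Nat.card_eq_fintype_card]
  refine card_le_of_mod_identity hM (fun (B : 𝓑) (c : 𝓒) => blockCoeff (B : Set (IrrCharacter G)) (Quotient.out (c : ConjClasses G)))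
    (fun (c : 𝓒) (B : 𝓑) => centralChar (χ B : G → ℂ) (Quotient.out (c : ConjClasses G))) (fun B c => (isRClass_blockCoeff hM (h𝓑 B B.2)).2 _)
    (fun c B => memLocalRing_centralChar hM (χ B).2 _) ?_
  intro B B'
  have h1 := omega_blockCoeff (B : Set (IrrCharacter G)) (χ B')
  rw [omega_eq_sum_classes (IsCharacter.isClassFunction' (IsIrrCharacter.isCharacter' (χ B').2)) (blockCoeff_isClass _)] at h1
  have h2 : (if χ B' ∈ (B : Set (IrrCharacter G)) then (1 : ℂ) else 0) = if B = B' then 1 else 0 := by
    by_cases hBB : B = B'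
    · rw [if_pos hBB, if_pos]
      rw [hBB]
      exact hχ B'
    · rw [if_neg hBB, if_neg]
      intro h3
      exact hBB (Subtype.ext (block_eq_of_mem hM (h𝓑 B B.2) (h𝓑 B' B'.2) h3 (hχ B')))
  rw [h2] at h1
  rw [← h1, ← Finset.sum_filter_add_sum_filter_not Finset.univ (· ∈ 𝓒) (fun c : ConjClasses G => blockCoeff (B : Set (IrrCharacter G)) (Quotient.out c) * centralChar (χ B' : G → ℂ) (Quotient.out c))]
  have h3 : ∑ c ∈ Finset.univ.filter (· ∈ 𝓒), blockCoeff (B : Set (IrrCharacter G)) (Quotient.out c) * centralChar (χ B' : G → ℂ) (Quotient.out c) =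
      ∑ c : 𝓒, blockCoeff (B : Set (IrrCharacter G)) (Quotient.out (c : ConjClasses G)) * centralChar (χ B' : G → ℂ) (Quotient.out (c : ConjClasses G)) := by
    apply Finset.sum_subtype
    simp
  rw [h3]
  have h4 : ∀ X Y : ℂ, X - (X + Y) = -Y := fun X Y => by ring
  rw [h4]
  apply MemLocalIdeal.neg
  refine MemLocalIdeal.sum hM _ fun c hc => ?_
  have hc' : c ∉ 𝓒 := (Finset.mem_filter.1 hc).2
  by_contra hcon
  have hfR := (isRClass_blockCoeff hM (h𝓑 B B.2)).2 (Quotient.out c)
  have hgR := memLocalRing_centralChar hM (χ B').2 (Quotient.out c)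
  apply hc'
  refine h B B.2 B' B'.2 (χ B') (hχ B') c ?_ ?_
  · intro h5
    exact hcon (MemLocalIdeal.mul_right hM hgR h5)
  · intro h5
    exact hcon (MemLocalIdeal.mul_left hM hfR h5)

/-- Blocks of defect at least `d` are bounded by regular classes of defect at least `d`. -/
theorem card_blocks_defect_ge (hM : IsPModular p M) (d : ℕ) :
    Nat.card {B : Set (IrrCharacter G) // IsPBlock M B ∧ d ≤ blockDefect p B} ≤
      Nat.card {C : ConjClasses G // ∃ g : G, ConjClasses.mk g = C ∧ IsPRegular p g ∧ d ≤ (Nat.card (Subgroup.centralizer ({g} : Set G))).factorization p} := by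
  classical
  haveI : M.IsPrime := hM.2.1.isPrime
  refine card_blocks_le hM {B | IsPBlock M B ∧ d ≤ blockDefect p B} (fun B hB => hB.1) {C | ∃ g : G, ConjClasses.mk g = C ∧ IsPRegular p g ∧ d ≤ (Nat.card (Subgroup.centralizer ({g} : Set G))).factorization p} ?_
  rintro B hB B' hB' χ hχ c h1 h2
  refine ⟨Quotient.out c, Quotient.out_eq c, ?_, ?_⟩
  · exact regular_of_blockCoeff_ne_zero hM (blockClosed_of_isPBlock hM hB.1) (ne_zero_of_not_ideal hM h1)
  · exact hB'.2.trans (val_ge_of_central hM hB'.1 hχ h2)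

/-- Blocks of defect exactly `σ` are bounded by regular classes of defect exactly `σ`. -/
theorem card_blocks_defect_eq (hM : IsPModular p M) (σ : ℕ) :
    Nat.card {B : Set (IrrCharacter G) // IsPBlock M B ∧ blockDefect p B = σ} ≤
      Nat.card {C : ConjClasses G // ∃ g : G, ConjClasses.mk g = C ∧ ¬ p ∣ orderOf g ∧ (Nat.card (Subgroup.centralizer ({g} : Set G))).factorization p = σ} := by
  classical
  haveI : M.IsPrime := hM.2.1.isPrime
  refine card_blocks_le hM {B | IsPBlock M B ∧ blockDefect p B = σ} (fun B hB => hB.1) {C | ∃ g : G, ConjClasses.mk g = C ∧ ¬ p ∣ orderOf g ∧ (Nat.card (Subgroup.centralizer ({g} : Set G))).factorization p = σ} ?_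
  rintro B hB B' hB' χ hχ c h1 h2
  refine ⟨Quotient.out c, Quotient.out_eq c, ?_, ?_⟩
  · exact regular_of_blockCoeff_ne_zero hM (blockClosed_of_isPBlock hM hB.1) (ne_zero_of_not_ideal hM h1)
  · have h3 := val_le_of_support hM hB.1 h1
    have h4 := val_ge_of_central hM hB'.1 hχ h2
    rw [hB.2] at h3
    rw [hB'.2] at h4
    omega

/-- Characters in blocks of the same defect are in the same block as soon as the central characters agree on the classes of that defect. -/
theorem sameBlock_of_defect_classes (hM : IsPModular p M) (d : ℕ) (χ ψ : IrrCharacter G)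
    (hχ : blockDefect p (blockOf M (χ : G → ℂ)) = d) (hψ : blockDefect p (blockOf M (ψ : G → ℂ)) = d)
    (h : ∀ x : G, ¬ p ∣ orderOf x → (Nat.card (Subgroup.centralizer ({x} : Set G))).factorization p = d →
      MemLocalIdeal M (centralChar (χ : G → ℂ) x - centralChar (ψ : G → ℂ) x)) : SameBlock M (χ : G → ℂ) (ψ : G → ℂ) := by
  classical
  letI : Fintype (ConjClasses G) := Fintype.ofFinite _
  haveI : M.IsPrime := hM.2.1.isPrime
  have hB : IsPBlock M (blockOf M (χ : G → ℂ)) := ⟨χ, rfl⟩
  have hB' : IsPBlock M (blockOf M (ψ : G → ℂ)) := ⟨ψ, rfl⟩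
  have h1 := omega_blockCoeff (blockOf M (χ : G → ℂ)) χ
  have h2 := omega_blockCoeff (blockOf M (χ : G → ℂ)) ψ
  rw [if_pos (mem_blockOf_self hM χ), omega_eq_sum_classes (IsCharacter.isClassFunction' (IsIrrCharacter.isCharacter' χ.2)) (blockCoeff_isClass _)] at h1
  rw [omega_eq_sum_classes (IsCharacter.isClassFunction' (IsIrrCharacter.isCharacter' ψ.2)) (blockCoeff_isClass _)] at h2
  by_contra hcon
  rw [if_neg (show ψ ∉ blockOf M (χ : G → ℂ) from hcon)] at h2
  apply not_memLocalIdeal_one hM
  have h8 : (1 : ℂ) = ∑ c : ConjClasses G, blockCoeff (blockOf M (χ : G → ℂ)) (Quotient.out c) * centralChar (χ : G → ℂ) (Quotient.out c) - ∑ c : ConjClasses G, blockCoeff (blockOf M (χ : G → ℂ)) (Quotient.out c) * centralChar (ψ : G → ℂ) (Quotient.out c) := by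
    rw [h1, h2, sub_zero]
  rw [h8, ← Finset.sum_sub_distrib]
  refine MemLocalIdeal.sum hM _ fun c _ => ?_
  rw [← mul_sub]
  have hfR := (isRClass_blockCoeff hM hB).2 (Quotient.out c)
  by_cases h3 : MemLocalIdeal M (blockCoeff (blockOf M (χ : G → ℂ)) (Quotient.out c))
  · exact MemLocalIdeal.mul_right hM (MemLocalRing.sub hM (memLocalRing_centralChar hM χ.2 _) (memLocalRing_centralChar hM ψ.2 _)) h3
  · apply MemLocalIdeal.mul_left hM hfR
    have hreg : ¬ p ∣ orderOf (Quotient.out c) := regular_of_blockCoeff_ne_zero hM (blockClosed_of_isPBlock hM hB) (ne_zero_of_not_ideal hM h3)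
    have hle := val_le_of_support hM hB h3
    by_cases h4 : (Nat.card (Subgroup.centralizer ({Quotient.out c} : Set G))).factorization p = d
    · exact h _ hreg h4
    · have h5 : (Nat.card (Subgroup.centralizer ({Quotient.out c} : Set G))).factorization p < d := by omega
      have h6 : MemLocalIdeal M (centralChar (χ : G → ℂ) (Quotient.out c)) := by
        by_contra h7
        have := val_ge_of_central hM hB (mem_blockOf_self hM χ) h7
        omega
      have h7 : MemLocalIdeal M (centralChar (ψ : G → ℂ) (Quotient.out c)) := by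
        by_contra h7
        have := val_ge_of_central hM hB' (mem_blockOf_self hM ψ) h7
        omega
      exact MemLocalIdeal.sub hM h6 h7

/-- The defect of the principal block. -/
theorem blockDefect_principal (hM : IsPModular p M) : blockDefect p (principalBlock M G) = (Nat.card G).factorization p := by
  classical
  have h1 : triv G ∈ principalBlock M G := triv_mem_principal hM
  have h2 : minVal p (principalBlock M G) = 0 := by
    have h3 := minVal_le (p := p) h1
    have h4 : charDegree (triv G : G → ℂ) = 1 := by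
      unfold charDegree
      show ⌊((1 : ℂ)).re⌋₊ = 1
      simp
    rw [h4] at h3
    simpa using h3
  have h5 : blockDefect p (principalBlock M G) = (Nat.card G).factorization p - minVal p (principalBlock M G) := rfl
  rw [h5, h2, Nat.sub_zero]

/-- The defect groups of the principal block are the Sylow subgroups. -/
theorem isDefectGroup_principal_iff (hM : IsPModular p M) (D : Subgroup G) :
    IsDefectGroup p M (principalBlock M G) D ↔ ∃ S : Sylow p G, (S : Subgroup G) = D := by
  classical
  haveI : Fact p.Prime := ⟨hM.1⟩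
  have hB := principal_isPBlock (G := G) M
  have key : ∀ D : Subgroup G, IsDefectGroup p M (principalBlock M G) D → ∃ S : Sylow p G, (S : Subgroup G) = D := by
    intro D hD
    have h1 := card_defectGroup hM hB hD
    rw [blockDefect_principal hM] at h1
    exact ⟨Sylow.ofCard D h1, Sylow.coe_ofCard _ _⟩
  refine ⟨key D, ?_⟩
  rintro ⟨S, rfl⟩
  obtain ⟨g, hg⟩ := exists_defect_class hM hB
  obtain ⟨T⟩ : Nonempty (Sylow p (Subgroup.centralizer ({g} : Set G))) := inferInstance
  have hT : IsDefectGroup p M (principalBlock M G) ((T : Subgroup (Subgroup.centralizer ({g} : Set G))).map (Subgroup.centralizer ({g} : Set G)).subtype) := ⟨g, hg, T, rfl⟩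
  obtain ⟨S', hS'⟩ := key _ hT
  obtain ⟨x, hx⟩ := MulAction.exists_smul_eq G S' S
  rw [← hx, Sylow.coe_subgroup_smul]
  rw [hS']
  exact isDefectGroup_conj hM hB hT x

end Cfsg.Agent.Lib.CharBlockCount
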