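import Mathlib
import Cfsg.Prelude.Def_Blocks
import Cfsg.Agent.Lib.CharBlockGreen
import Cfsg.Agent.Lib.CharBlockCount

/-!
# The `p`-part of the sum of the squares of the degrees in a block
-/

set_option autoImplicit false
set_option linter.style.haveILetI false
set_option linter.unusedSectionVars false

namespace Cfsg.Agent.Lib.CharBlockDegSum

open scoped ComplexConjugate
open Cfsg Cfsg.Agent.Lib.CharBlockLocal Cfsg.Agent.Lib.CharBlockConv Cfsg.Agent.Lib.CharBlockRot
  Cfsg.Agent.Lib.CharBlockOrth Cfsg.Agent.Lib.CharOps Cfsg.Agent.Lib.CharIrr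
  Cfsg.Agent.Lib.CharBlockDefect Cfsg.Agent.Lib.CharBlockMinMax Cfsg.Agent.Lib.CharBlockBrauer
  Cfsg.Agent.Lib.CharBlockInd Cfsg.Agent.Lib.CharBlockFirst Cfsg.Agent.Lib.CharBlockSecond
  Cfsg.Agent.Lib.CharBlockHeight Cfsg.Agent.Lib.CharBlockDom Cfsg.Agent.Lib.CharBlockThird
  Cfsg.Agent.Lib.CharBlockKer Cfsg.Agent.Lib.CharBlockGreen Cfsg.Agent.Lib.CharBlockPSolv

universe u

section Idem

variable {G : Type u} [Group G] [Fintype G] {p : ℕ} {M : Ideal AlgInt}

theorem blockCoeff_add_compl (A : Set (IrrCharacter G)) : blockCoeff A + blockCoeff Aᶜ = (delta : G → ℂ) := by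
  classical
  refine eq_of_omega_eq (fun g h => ?_) (fun g h => ?_) fun χ => ?_
  · simp only [Pi.add_apply]
    rw [blockCoeff_isClass A, blockCoeff_isClass Aᶜ]
  · simp only [delta_apply]
    by_cases hg : g = 1
    · subst hg
      simp
    · have : h * g * h⁻¹ ≠ 1 := by
        intro h2
        apply hg
        have := congrArg (fun t => h⁻¹ * t * h) h2
        simpa [mul_assoc] using this
      rw [if_neg hg, if_neg this]
  · rw [omega_add, omega_blockCoeff, omega_blockCoeff, omega_delta χ.2]
    by_cases hχ : χ ∈ A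
    · rw [if_pos hχ, if_neg (by simpa using hχ), add_zero]
    · rw [if_neg hχ, if_pos (by simpa using hχ), zero_add]

theorem blockClosed_compl (hM : IsPModular p M) {A : Set (IrrCharacter G)} (hA : BlockClosed M A) : BlockClosed M Aᶜ := by
  intro χ hχ ψ hψ hψA
  apply hχ
  exact hA ψ hψA (SameBlock.symm hψ)

theorem sub_conv (f h k : G → ℂ) : conv (f - h) k = conv f k - conv h k := by
  funext x
  simp only [conv_apply, Pi.sub_apply, sub_mul, Finset.sum_sub_distrib]

theorem conv_sub (f h k : G → ℂ) : conv f (h - k) = conv f h - conv f k := by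
  funext x
  simp only [conv_apply, Pi.sub_apply, mul_sub, Finset.sum_sub_distrib]

/-- A product with an idempotent which is idempotent modulo `I` and whose central characters vanish is zero modulo `I`. -/
theorem conv_reduce (hM : IsPModular p M) {a e : G → ℂ} (ha : IsRClass M a) (he : IsRClass M e) (hee : conv e e = e)
    (haa : ∀ g, MemLocalIdeal M (conv a a g - a g)) (hom : ∀ ξ : IrrCharacter G, MemLocalIdeal M (omega (ξ : G → ℂ) (conv a e))) (g : G) :
    MemLocalIdeal M (conv a e g) := by
  refine ideal_of_idem_mod hM (ha.conv hM he) (fun x => ?_) hom g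
  have h1 : conv (conv a e) (conv a e) = conv (conv a a) e := by
    rw [conv_assoc, ← conv_assoc e a e, conv_comm_of_class ha.1 (f := e), conv_assoc, hee, ← conv_assoc]
  rw [h1]
  have h2 : conv (conv a a) e x - conv a e x = conv (conv a a - a) e x := by
    rw [sub_conv]
    rfl
  rw [h2]
  exact conv_ideal_left hM haa he.2 x

/-- The value of a product with a class sum at the identity. -/
theorem conv_indC_one {w : G → ℂ} (hw : IsClassFunction G w) (g : G) :
    conv (indC g) w 1 = ((Subgroup.centralizer ({g} : Set G)).index : ℂ) * w g⁻¹ := by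
  rw [conv_apply]
  have h1 : IsClassFunction G (fun x => w (x⁻¹ * 1)) := by
    intro a b
    simp only [mul_one, mul_inv_rev, inv_inv]
    rw [← mul_assoc]
    exact hw _ _
  have h2 := sum_indC_mul h1 g
  rw [h2]
  simp

/-- A natural number which is `p ^ k` times a unit has `p`-adic valuation `k`. -/
theorem factorization_of_eq (hM : IsPModular p M) {S k : ℕ} {r : ℂ} (hr : MemLocalRing M r) (hr' : ¬ MemLocalIdeal M r)
    (h : (S : ℂ) = (p : ℂ) ^ k * r) : S.factorization p = k := by
  haveI : M.IsPrime := hM.2.1.isPrime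
  have hr0 : r ≠ 0 := ne_zero_of_not_ideal hM hr'
  have hp0 : (p : ℂ) ≠ 0 := by exact_mod_cast hM.1.ne_zero
  have hS : S ≠ 0 := by
    rintro rfl
    have : (p : ℂ) ^ k * r ≠ 0 := mul_ne_zero (pow_ne_zero _ hp0) hr0
    apply this
    rw [← h]
    simp
  have h1 : p ^ k ∣ S := pow_dvd_of_natCast_eq hM hr h
  have h2 : ¬ p ^ (k + 1) ∣ S := by
    rintro ⟨s, rfl⟩
    apply hr'
    have h3 : r = (p : ℂ) * s := by
      have h4 : (p : ℂ) ^ k * r = (p : ℂ) ^ k * ((p : ℂ) * s) := by
        rw [← h]
        push_cast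
        ring
      exact mul_left_cancel₀ (pow_ne_zero _ hp0) h4
    rw [h3]
    exact MemLocalIdeal.mul_right hM (MemLocalRing.natCast hM s) (memLocalIdeal_p hM)
  have h3 := (Nat.Prime.pow_dvd_iff_le_factorization hM.1 hS).1 h1
  have h4 : ¬ (k + 1 ≤ S.factorization p) := fun h5 => h2 ((Nat.Prime.pow_dvd_iff_le_factorization hM.1 hS).2 h5)
  omega

end Idem

section Nlevel

variable {G : Type u} [Group G] [Fintype G] {p : ℕ} {M : Ideal AlgInt}

/-- Summing a block idempotent over a coset of a normal `p`-subgroup centralized by the regular representative. -/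
theorem coset_regular (hM : IsPModular p M) {b : Set (IrrCharacter G)} (hA : BlockClosed M b) {D : Subgroup G} [Fintype D]
    (hDp : IsPGroup p D) {z : G} (hz : z ∈ Subgroup.centralizer (D : Set G)) (hreg : ¬ p ∣ orderOf z) :
    ∑ d : D, blockCoeff b (z * d) = blockCoeff b z := by
  classical
  haveI : Fact p.Prime := ⟨hM.1⟩
  rw [Finset.sum_eq_single (1 : D)]
  · simp
  · intro d _ hd
    apply blockCoeff_singular hM hA
    refine dvd_orderOf_mul hM.1 (Commute.symm ?_) hreg (fun h => hd (Subtype.ext h)) ?_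
    · exact Subgroup.mem_centralizer_iff.1 hz d d.2
    · obtain ⟨k, hk⟩ := (IsPGroup.iff_orderOf.1 hDp) d
      exact ⟨k, by rw [← hk, Subgroup.orderOf_coe]⟩
  · simp

/-- The value at the identity of the block idempotent of a block with a normal defect group. -/
theorem normal_defect_coeff_one (hM : IsPModular p M) {D : Subgroup G} [hn : D.Normal] {b : Set (IrrCharacter G)}
    (hb : IsPBlock M b) (hbD : IsDefectGroup p M b D) :
    ∃ u, MemLocalRing M u ∧ ¬ MemLocalIdeal M u ∧
      blockCoeff b 1 = (p : ℂ) ^ ((Nat.card G).factorization p - blockDefect p b) * u := by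
  classical
  haveI : Fact p.Prime := ⟨hM.1⟩
  haveI : M.IsPrime := hM.2.1.isPrime
  letI : Fintype (G ⧸ D) := Fintype.ofFinite _
  letI : Fintype D := Fintype.ofFinite _
  have hbc := blockClosed_of_isPBlock hM hb
  have hDp : IsPGroup p D := by
    obtain ⟨g, -, S, hS⟩ := id hbD
    rw [hS]
    exact isPGroup_sylow_map S
  let A : Set (IrrCharacter (G ⧸ D)) := {τ | infl D τ ∈ b}
  have hcQ := card_defectGroup hM hb hbD
  have hG := Subgroup.card_mul_index D
  have hidx : Nat.card (G ⧸ D) = D.index := rfl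
  have hval : (Nat.card G).factorization p = blockDefect p b + (Nat.card (G ⧸ D)).factorization p := by
    rw [← hG, Nat.factorization_mul Nat.card_pos.ne' Subgroup.index_ne_zero_of_finite, hcQ, hidx]
    simp [hM.1.factorization_self]
  set nb := (Nat.card (G ⧸ D)).factorization p with hnb
  have hnbeq : (Nat.card G).factorization p - blockDefect p b = nb := by omega
  rw [hnbeq]
  have hd : blockDefect p b = (Nat.card G).factorization p - minVal p b := rfl
  have hdeg : ∀ τ ∈ A, p ^ nb ∣ charDegree (τ : G ⧸ D → ℂ) := by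
    intro τ hτ
    have hmin := minVal_le (p := p) (B := b) (χ := infl D τ) hτ
    have hmc := minVal_le_card (p := p) (B := b) ⟨_, hτ⟩ hM.1
    rw [infl_degree] at hmin
    rw [Nat.Prime.pow_dvd_iff_le_factorization hM.1 (charDegree_ne_zero τ.2)]
    omega
  -- the cofactor of the order of the quotient
  set q := Nat.card (G ⧸ D) / p ^ nb with hq
  have hqq : p ^ nb * q = Nat.card (G ⧸ D) := Nat.ordProj_mul_ordCompl_eq_self _ p
  have hqp : ¬ p ∣ q := Nat.not_dvd_ordCompl hM.1 Nat.card_pos.ne'
  -- the degrees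
  let n : IrrCharacter (G ⧸ D) → ℕ := fun τ => charDegree (τ : G ⧸ D → ℂ) / p ^ nb
  have hnτ : ∀ τ ∈ A, (τ : G ⧸ D → ℂ) 1 = (p : ℂ) ^ nb * (n τ : ℂ) := by
    intro τ hτ
    rw [← charDegree_cast (IsIrrCharacter.isCharacter' τ.2)]
    have := Nat.mul_div_cancel' (hdeg τ hτ)
    exact_mod_cast this.symm
  have hp0 : (p : ℂ) ≠ 0 := by exact_mod_cast hM.1.ne_zero
  have hpn0 : (p : ℂ) ^ nb ≠ 0 := pow_ne_zero _ hp0
  have hnne : ∀ τ ∈ A, (n τ : ℂ) ≠ 0 := by
    intro τ hτ h0
    have := degree_ne_zero τ.2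
    rw [hnτ τ hτ, h0, mul_zero] at this
    exact this rfl
  -- expanding the idempotent
  let S : Finset (IrrCharacter (G ⧸ D)) := Finset.univ.filter (· ∈ A)
  have hexp : ∀ x : G ⧸ D, blockCoeff A x = (Nat.card (G ⧸ D) : ℂ)⁻¹ * ∑ τ ∈ S, (τ : G ⧸ D → ℂ) 1 * conj ((τ : G ⧸ D → ℂ) x) := by
    intro x
    rw [blockCoeff, finsum_mem_eq_sum_ite, Finset.sum_filter]
  -- the element
  obtain ⟨z, hz, S', hS'⟩ := id hbD
  obtain ⟨hzR, hzI, hzc⟩ := hz
  have hzreg : ¬ p ∣ orderOf z := regular_of_blockCoeff_ne_zero hM hbc (ne_zero_of_not_ideal hM hzI)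
  have hzC : z ∈ Subgroup.centralizer (D : Set G) := by
    rw [Subgroup.mem_centralizer_iff]
    intro d hd
    rw [hS'] at hd
    exact sylow_map_centralizes S' d hd
  have hzval : (Nat.card (Subgroup.centralizer ({z} : Set G))).factorization p = blockDefect p b :=
    defect_class_val hM hb ⟨hzR, hzI, hzc⟩
  let x : G := z⁻¹
  have hcenx : Subgroup.centralizer ({x} : Set G) = Subgroup.centralizer ({z} : Set G) := by
    ext a
    rw [Subgroup.mem_centralizer_singleton_iff, Subgroup.mem_centralizer_singleton_iff]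
    exact Commute.inv_right_iff
  set m := (Subgroup.centralizer ({x} : Set G)).index with hm
  have hmval : m.factorization p = nb := by
    have h1 := natCard_conj_val (p := p) x
    rw [hcenx, hzval] at h1
    rw [hcenx] at hm
    rw [hm]
    omega
  have hm0 : m ≠ 0 := Subgroup.index_ne_zero_of_finite
  set m' := m / p ^ nb with hm'
  have hmm : p ^ nb * m' = m := by
    have := Nat.ordProj_mul_ordCompl_eq_self m p
    rw [hmval] at this
    exact this
  have hm'p : ¬ p ∣ m' := by
    rw [hm', ← hmval]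
    exact Nat.not_dvd_ordCompl hM.1 hm0
  -- per-term identity
  have hterm : ∀ τ ∈ A, (τ : G ⧸ D → ℂ) 1 * conj ((τ : G ⧸ D → ℂ) (z : G ⧸ D)) * (m' : ℂ) =
      (p : ℂ) ^ nb * ((n τ : ℂ) ^ 2 * centralChar (infl D τ : G → ℂ) x) := by
    intro τ hτ
    have h1 : conj ((τ : G ⧸ D → ℂ) (z : G ⧸ D)) = (infl D τ : G → ℂ) x := by
      rw [conj_apply_eq_inv τ.2, infl_apply, QuotientGroup.mk_inv]
    have h2 : (infl D τ : G → ℂ) 1 = (τ : G ⧸ D → ℂ) 1 := by
      rw [infl_apply, QuotientGroup.mk_one]
    have h3 : centralChar (infl D τ : G → ℂ) x = (m : ℂ) * (infl D τ : G → ℂ) x / (τ : G ⧸ D → ℂ) 1 := by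
      unfold centralChar
      rw [h2]
    have h4 : (m : ℂ) = (p : ℂ) ^ nb * (m' : ℂ) := by
      rw [← hmm]
      push_cast
      ring
    rw [h1, h3, h4, hnτ τ hτ]
    have h5 := hnne τ hτ
    field_simp
  -- the sum over `A`
  have hsum : blockCoeff A (z : G ⧸ D) * ((q : ℂ) * (m' : ℂ)) = ∑ τ ∈ S, (n τ : ℂ) ^ 2 * centralChar (infl D τ : G → ℂ) x := by
    have h1 : (Nat.card (G ⧸ D) : ℂ) = (p : ℂ) ^ nb * (q : ℂ) := by
      rw [← hqq]
      push_cast
      ring
    have hq0 : (q : ℂ) ≠ 0 := by
      have : q ≠ 0 := fun h => hqp (h ▸ dvd_zero p)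
      exact_mod_cast this
    rw [hexp, h1]
    have h2 : ∑ τ ∈ S, (τ : G ⧸ D → ℂ) 1 * conj ((τ : G ⧸ D → ℂ) (z : G ⧸ D)) * (m' : ℂ) = (p : ℂ) ^ nb * ∑ τ ∈ S, (n τ : ℂ) ^ 2 * centralChar (infl D τ : G → ℂ) x := by
      rw [Finset.mul_sum]
      exact Finset.sum_congr rfl fun τ hτ => hterm τ (Finset.mem_filter.1 hτ).2
    rw [← Finset.sum_mul] at h2
    set X := ∑ τ ∈ S, (τ : G ⧸ D → ℂ) 1 * conj ((τ : G ⧸ D → ℂ) (z : G ⧸ D)) with hX
    set Y := ∑ τ ∈ S, (n τ : ℂ) ^ 2 * centralChar (infl D τ : G → ℂ) x with hY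
    calc ((p : ℂ) ^ nb * (q : ℂ))⁻¹ * X * ((q : ℂ) * (m' : ℂ)) = ((p : ℂ) ^ nb)⁻¹ * (X * (m' : ℂ)) := by
          field_simp
      _ = ((p : ℂ) ^ nb)⁻¹ * ((p : ℂ) ^ nb * Y) := by rw [h2]
      _ = Y := by field_simp
  -- coset sums
  have hzA : blockCoeff A (z : G ⧸ D) = blockCoeff b z := by
    rw [sum_coset_blockCoeff D b z]
    exact coset_regular hM hbc hDp hzC hzreg
  have h1A : blockCoeff A ((1 : G) : G ⧸ D) = blockCoeff b 1 := by
    rw [sum_coset_blockCoeff D b 1]
    exact coset_regular hM hbc hDp (Subgroup.one_mem _) (by simp [hM.1.ne_one])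
  -- nondivisibility
  let T : ℕ := ∑ τ ∈ S, n τ ^ 2
  have hT : ¬ p ∣ T := by
    intro hpT
    obtain ⟨χ₀, hχ₀⟩ := block_nonempty hM hb
    have h2 : ∑ τ ∈ S, (n τ : ℂ) ^ 2 * centralChar (infl D τ : G → ℂ) x =
        ∑ τ ∈ S, (n τ : ℂ) ^ 2 * (centralChar (infl D τ : G → ℂ) x - centralChar (χ₀ : G → ℂ) x) + (T : ℂ) * centralChar (χ₀ : G → ℂ) x := by
      have : (T : ℂ) = ∑ τ ∈ S, (n τ : ℂ) ^ 2 := by
        simp only [T]
        push_cast
        rfl
      rw [this, Finset.sum_mul, ← Finset.sum_add_distrib]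
      refine Finset.sum_congr rfl fun τ _ => ?_
      ring
    have h3 : MemLocalIdeal M (∑ τ ∈ S, (n τ : ℂ) ^ 2 * centralChar (infl D τ : G → ℂ) x) := by
      rw [h2]
      refine MemLocalIdeal.add hM (MemLocalIdeal.sum hM _ fun τ hτ => ?_) ?_
      · apply MemLocalIdeal.mul_left hM (MemLocalRing.pow hM (MemLocalRing.natCast hM _) _)
        have hτb : infl D τ ∈ b := (Finset.mem_filter.1 hτ).2
        have h4 : SameBlock M (χ₀ : G → ℂ) (infl D τ : G → ℂ) := by
          rw [blockOf_eq_of_mem hM hb hχ₀] at hτb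
          exact hτb
        have h5 := h4 x
        have h6 := MemLocalIdeal.neg h5
        convert h6 using 1
        ring
      · apply MemLocalIdeal.mul_right hM (memLocalRing_centralChar hM χ₀.2 x)
        exact (natCast_memLocalIdeal_iff hM T).2 hpT
    rw [← hsum, hzA] at h3
    have h7 : ¬ MemLocalIdeal M ((q : ℂ) * (m' : ℂ)) := by
      have := (natCast_memLocalIdeal_iff hM (q * m')).not.2 (by
        intro h
        rcases (Nat.Prime.dvd_mul hM.1).1 h with h | h
        · exact hqp h
        · exact hm'p h)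
      push_cast at this
      exact this
    have h8 : MemLocalRing M ((q : ℂ) * (m' : ℂ)) := MemLocalRing.mul hM (MemLocalRing.natCast hM _) (MemLocalRing.natCast hM _)
    exact mul_not_ideal hM hzR h8 hzI h7 h3
  -- the value at `1`
  refine ⟨(T : ℂ) * (q : ℂ)⁻¹, MemLocalRing.mul hM (MemLocalRing.natCast hM _) (natCast_inv_memLocalRing hM hqp), ?_, ?_⟩
  · have hq0 : (q : ℂ) ≠ 0 := by
      have : q ≠ 0 := fun h => hqp (h ▸ dvd_zero p)
      exact_mod_cast this
    intro h
    apply hT
    rw [← natCast_memLocalIdeal_iff hM T]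
    have h2 : (T : ℂ) = (T : ℂ) * (q : ℂ)⁻¹ * (q : ℂ) := by field_simp
    rw [h2]
    exact MemLocalIdeal.mul_right hM (MemLocalRing.natCast hM _) h
  · rw [← h1A, QuotientGroup.mk_one, hexp]
    have h1 : (Nat.card (G ⧸ D) : ℂ) = (p : ℂ) ^ nb * (q : ℂ) := by
      rw [← hqq]
      push_cast
      ring
    have hq0 : (q : ℂ) ≠ 0 := by
      have : q ≠ 0 := fun h => hqp (h ▸ dvd_zero p)
      exact_mod_cast this
    have h2 : ∑ τ ∈ S, (τ : G ⧸ D → ℂ) 1 * conj ((τ : G ⧸ D → ℂ) 1) = (p : ℂ) ^ nb * (p : ℂ) ^ nb * (T : ℂ) := by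
      have : (T : ℂ) = ∑ τ ∈ S, (n τ : ℂ) ^ 2 := by
        simp only [T]
        push_cast
        rfl
      rw [this, Finset.mul_sum]
      refine Finset.sum_congr rfl fun τ hτ => ?_
      rw [hnτ τ (Finset.mem_filter.1 hτ).2]
      simp only [map_mul, map_pow, Complex.conj_natCast]
      ring
    rw [h2, h1]
    field_simp

end Nlevel

section Glevel

variable {G : Type u} [Group G] [Fintype G] {p : ℕ} {M : Ideal AlgInt}

theorem trunc_add (P H : Subgroup G) (a b : G → ℂ) : trunc P H (a + b) = trunc P H a + trunc P H b := by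
  classical
  funext h
  simp only [trunc_apply, Pi.add_apply]
  split_ifs
  · rfl
  · simp

theorem trunc_delta (P H : Subgroup G) [Fintype H] : trunc P H (delta : G → ℂ) = (delta : H → ℂ) := by
  classical
  funext h
  rw [trunc_apply]
  by_cases hh : (h : G) ∈ Subgroup.centralizer (P : Set G)
  · rw [if_pos hh, delta_apply, delta_apply]
    by_cases h1 : h = 1
    · subst h1
      simp
    · have h2 : (h : G) ≠ 1 := fun h2 => h1 (Subtype.ext h2)
      rw [if_neg h1, if_neg h2]
  · rw [if_neg hh, delta_apply, if_neg]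
    rintro rfl
    exact hh (Subgroup.one_mem _)

/-- The value at `1` of a block idempotent. -/
theorem blockCoeff_one_val (hM : IsPModular p M) {B : Set (IrrCharacter G)} (hB : IsPBlock M B) :
    ∃ r, MemLocalRing M r ∧ ¬ MemLocalIdeal M r ∧
      blockCoeff B 1 = (p : ℂ) ^ ((Nat.card G).factorization p - blockDefect p B) * r := by
  classical
  haveI : Fact p.Prime := ⟨hM.1⟩
  haveI : M.IsPrime := hM.2.1.isPrime
  obtain ⟨y, hy⟩ := exists_defect_class hM hB
  obtain ⟨T⟩ : Nonempty (Sylow p (Subgroup.centralizer ({y} : Set G))) := inferInstance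
  let D : Subgroup G := (T : Subgroup (Subgroup.centralizer ({y} : Set G))).map (Subgroup.centralizer ({y} : Set G)).subtype
  have hD : IsDefectGroup p M B D := ⟨y, hy, T, rfl⟩
  have hDp : IsPGroup p D := isPGroup_sylow_map T
  have hcardD : Nat.card D = p ^ blockDefect p B := card_defectGroup hM hB hD
  have hyval := defect_class_val hM hB hy
  letI : Fintype (Subgroup.normalizer (D : Set G)) := Fintype.ofFinite _
  let N := Subgroup.normalizer (D : Set G)
  obtain ⟨b, hb, hbD, hi⟩ := firstMain_exists hM D hDp hB hD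
  have hBc := blockClosed_of_isPBlock hM hB
  have hbc := blockClosed_of_isPBlock hM hb
  have hyC : y ∈ Subgroup.centralizer (D : Set G) := by
    rw [Subgroup.mem_centralizer_iff]
    exact sylow_map_centralizes T
  have hCN : Subgroup.centralizer (D : Set G) ≤ N := centralizer_le_normalizer' D
  have hyN : y ∈ N := hCN hyC
  let yN : N := ⟨y, hyN⟩
  have hDN : D ≤ N := Subgroup.le_normalizer
  have htr : trunc D N (indC y) = indC yN := trunc_indC_normalizer D (y := yN) hyC (by rw [hcardD, hyval])
  have hω : ∀ ξ ∈ b, ¬ MemLocalIdeal M (omega (ξ : N → ℂ) (indC yN)) := by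
    intro ξ hξ h0
    obtain ⟨χ, hχ⟩ := block_nonempty hM hB
    have h1 := hi.2.2 ξ hξ χ hχ y
    rw [inducedCentralChar_eq] at h1
    have h2 := omega_res_sub_trunc hM hDp hDN le_rfl ξ.2 (isRClass_indC hM y)
    rw [htr] at h2
    apply hy.2.2 χ hχ
    have h3 := MemLocalIdeal.sub hM (MemLocalIdeal.add hM h2 h0) h1
    convert h3 using 1
    ring
  have heR := isRClass_blockCoeff hM hb
  have hBR := isRClass_blockCoeff hM hB
  obtain ⟨w₀, hw₀, hw₀e⟩ := exists_block_inverse hM hbc (isRClass_indC hM yN) hω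
  let Wb := conv w₀ (blockCoeff b)
  have hWb : IsRClass M Wb := hw₀.conv hM heR
  have hWb1 : conv (indC yN) Wb = blockCoeff b := by
    simp only [Wb]
    rw [← conv_assoc, hw₀e, conv_blockCoeff_self]
  have hWb2 : conv Wb (blockCoeff b) = Wb := by
    simp only [Wb]
    rw [conv_assoc, conv_blockCoeff_self]
  have hu : ∀ χ ∈ B, ¬ MemLocalIdeal M (omega (χ : G → ℂ) (indC y)) := by
    intro χ hχ
    rw [omega_indC _ (IsCharacter.isClassFunction' (IsIrrCharacter.isCharacter' χ.2))]
    exact hy.2.2 χ hχ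
  obtain ⟨w₁, hw₁, hw₁e⟩ := exists_block_inverse hM hBc (isRClass_indC hM y) hu
  let W := conv w₁ (blockCoeff B)
  have hW : IsRClass M W := hw₁.conv hM hBR
  have hW1 : conv (indC y) W = blockCoeff B := by
    simp only [W]
    rw [← conv_assoc, hw₁e, conv_blockCoeff_self]
  have hW2 : conv W (blockCoeff B) = W := by
    simp only [W]
    rw [conv_assoc, conv_blockCoeff_self]
  let f := trunc D N (blockCoeff B)
  let v := trunc D N W
  have hf : IsRClass M f := trunc_isRClass hM le_rfl hBR
  have hv : IsRClass M v := trunc_isRClass hM le_rfl hW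
  have hfv : ∀ h, MemLocalIdeal M (f h - conv (indC yN) v h) := by
    intro h
    have h1 := trunc_conv hM hDp hCN (isRClass_indC hM y) hW h
    rw [hW1, htr] at h1
    exact h1
  have hvf : ∀ h, MemLocalIdeal M (v h - conv v f h) := by
    intro h
    have h1 := trunc_conv hM hDp hCN hW hBR h
    rw [hW2] at h1
    exact h1
  have hff : ∀ h, MemLocalIdeal M (conv f f h - f h) := by
    intro h
    have h1 := trunc_conv hM hDp hCN hBR hBR h
    rw [conv_blockCoeff_self] at h1
    have h2 := MemLocalIdeal.neg h1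
    convert h2 using 1
    ring
  have hBcc := blockClosed_compl hM hBc
  have hbcc := blockClosed_compl hM hbc
  have hBcR := isRClass_blockCoeff_of_closed hM hBcc
  have hbcR := isRClass_blockCoeff_of_closed hM hbcc
  let fc := trunc D N (blockCoeff Bᶜ)
  have hfc : IsRClass M fc := trunc_isRClass hM le_rfl hBcR
  have hfcfc : ∀ h, MemLocalIdeal M (conv fc fc h - fc h) := by
    intro h
    have h1 := trunc_conv hM hDp hCN hBcR hBcR h
    rw [conv_blockCoeff_self] at h1
    have h2 := MemLocalIdeal.neg h1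
    convert h2 using 1
    ring
  have hffc : f + fc = delta := by
    simp only [f, fc]
    rw [← trunc_add, blockCoeff_add_compl, trunc_delta]
  -- correspondence of characters
  have key : ∀ ξ : IrrCharacter N, ∃ χ : IrrCharacter G, (ξ ∈ b ↔ χ ∈ B) ∧
      ∀ h, IsRClass M h → MemLocalIdeal M (omega (ξ : N → ℂ) (trunc D N h) - omega (χ : G → ℂ) h) := by
    intro ξ
    obtain ⟨χ, hχ⟩ := exists_irr_of_res hM hDp hDN hCN le_rfl ξ.2
    have hχc : IsClassFunction G (χ : G → ℂ) := IsCharacter.isClassFunction' (IsIrrCharacter.isCharacter' χ.2)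
    refine ⟨χ, ?_, fun h hh => ?_⟩
    · constructor
      · intro hξ
        obtain ⟨χ₀, hχ₀⟩ := block_nonempty hM hB
        have hs : SameBlock M (χ₀ : G → ℂ) (χ : G → ℂ) := by
          intro g
          have h1 := hi.2.2 ξ hξ χ₀ hχ₀ g
          rw [inducedCentralChar_eq] at h1
          have h2 := hχ (indC g) (isRClass_indC hM g)
          rw [omega_indC _ hχc] at h2
          have h3 := MemLocalIdeal.sub hM h2 h1
          convert h3 using 1
          ring
        rw [blockOf_eq_of_mem hM hB hχ₀]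
        exact hs
      · intro hχB
        have hb' : IsPBlock M (blockOf M (ξ : N → ℂ)) := ⟨ξ, rfl⟩
        have hind : IsInducedBlock M N (blockOf M (ξ : N → ℂ)) B := by
          refine isInducedBlock_of hM hb' hB (mem_blockOf_self hM ξ) hχB fun g => ?_
          rw [inducedCentralChar_eq]
          have h2 := hχ (indC g) (isRClass_indC hM g)
          rwa [omega_indC _ hχc] at h2
        obtain ⟨g', hg'⟩ := exists_defect_class hM hb'
        obtain ⟨T'⟩ : Nonempty (Sylow p (Subgroup.centralizer ({g'} : Set N))) := inferInstance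
        have hE : IsDefectGroup p M (blockOf M (ξ : N → ℂ)) ((T' : Subgroup (Subgroup.centralizer ({g'} : Set N))).map (Subgroup.centralizer ({g'} : Set N)).subtype) := ⟨g', hg', T', rfl⟩
        haveI : (D.subgroupOf N).Normal := Subgroup.normal_in_normalizer
        have hD'p := isPGroup_subgroupOf_normalizer D hDp
        have hle := normal_le_defect hM hb' hE hD'p
        obtain ⟨E', hE', hEle⟩ := exists_defect_le_of_induced hM hind hE
        have h1 := card_defectGroup hM hB hE'
        have h2 := Subgroup.card_le_of_le hEle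
        have h3 : Nat.card (((T' : Subgroup (Subgroup.centralizer ({g'} : Set N))).map (Subgroup.centralizer ({g'} : Set N)).subtype).map N.subtype) =
            Nat.card ((T' : Subgroup (Subgroup.centralizer ({g'} : Set N))).map (Subgroup.centralizer ({g'} : Set N)).subtype) :=
          (Nat.card_congr (Subgroup.equivMapOfInjective _ _ Subtype.val_injective).toEquiv).symm
        have h4 : Nat.card (D.subgroupOf N) = Nat.card D := Nat.card_congr (Subgroup.subgroupOfEquivOfLe hDN).toEquiv
        have heq : D.subgroupOf N = (T' : Subgroup (Subgroup.centralizer ({g'} : Set N))).map (Subgroup.centralizer ({g'} : Set N)).subtype := by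
          refine Subgroup.eq_of_le_of_card_ge hle ?_
          rw [h4, hcardD, ← h1, ← h3]
          exact h2
        have hb'D : IsDefectGroup p M (blockOf M (ξ : N → ℂ)) (D.subgroupOf N) := by
          rw [heq]
          exact hE
        have h5 := firstMain_unique hM D hDp hB hb'D hind hi
        rw [← h5]
        exact mem_blockOf_self hM ξ
    · have h1 := hχ h hh
      have h2 := omega_res_sub_trunc hM hDp hDN le_rfl ξ.2 hh
      have h3 := MemLocalIdeal.sub hM h1 h2
      convert h3 using 1
      ring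
  -- `f` and `e_b` are congruent
  have h1 : ∀ h, MemLocalIdeal M (conv f (blockCoeff bᶜ) h) := by
    refine conv_reduce hM hf hbcR (conv_blockCoeff_self _) hff fun ξ => ?_
    rw [omega_conv ξ.2 hf.1, omega_blockCoeff]
    by_cases hξ : ξ ∈ b
    · rw [if_neg (by simpa using hξ), mul_zero]
      exact MemLocalIdeal.zero hM
    · rw [if_pos (by simpa using hξ), mul_one]
      obtain ⟨χ, hχ, hc⟩ := key ξ
      have h2 := hc _ hBR
      rw [omega_blockCoeff, if_neg (fun h3 => hξ (hχ.2 h3)), sub_zero] at h2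
      exact h2
  have h2 : ∀ h, MemLocalIdeal M (conv fc (blockCoeff b) h) := by
    refine conv_reduce hM hfc heR (conv_blockCoeff_self _) hfcfc fun ξ => ?_
    rw [omega_conv ξ.2 hfc.1, omega_blockCoeff]
    by_cases hξ : ξ ∈ b
    · rw [if_pos hξ, mul_one]
      obtain ⟨χ, hχ, hc⟩ := key ξ
      have h3 := hc _ hBcR
      rw [omega_blockCoeff, if_neg (by simpa using hχ.1 hξ), sub_zero] at h3
      exact h3
    · rw [if_neg hξ, mul_zero]
      exact MemLocalIdeal.zero hM
  have hfe : ∀ h, MemLocalIdeal M (f h - blockCoeff b h) := by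
    intro h
    have h3 : f = conv f (blockCoeff b) + conv f (blockCoeff bᶜ) := by
      rw [← conv_add, blockCoeff_add_compl, conv_delta]
    have h4 : blockCoeff b = conv f (blockCoeff b) + conv fc (blockCoeff b) := by
      rw [← add_conv, hffc, delta_conv]
    have h5 : f h - blockCoeff b h = conv f (blockCoeff bᶜ) h - conv fc (blockCoeff b) h := by
      have h3' := congrFun h3 h
      have h4' := congrFun h4 h
      simp only [Pi.add_apply] at h3' h4'
      linear_combination h3' - h4'
    rw [h5]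
    exact MemLocalIdeal.sub hM (h1 h) (h2 h)
  -- `W_b` and `v` are congruent
  have hWv : ∀ x, MemLocalIdeal M (Wb x - v x) := by
    intro x
    have s1 : MemLocalIdeal M (conv Wb f x - Wb x) := by
      have h3 := conv_ideal_right hM hWb.2 (b := f - blockCoeff b) (fun h => hfe h) x
      rw [conv_sub, hWb2] at h3
      exact h3
    have s2 : MemLocalIdeal M (conv Wb f x - conv Wb (conv (indC yN) v) x) := by
      have h3 := conv_ideal_right hM hWb.2 (b := f - conv (indC yN) v) (fun h => hfv h) x
      rw [conv_sub] at h3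
      exact h3
    have s3 : conv Wb (conv (indC yN) v) = conv (blockCoeff b) v := by
      rw [← conv_assoc, conv_comm_of_class (indC_isClass yN), hWb1]
    have s4 : MemLocalIdeal M (conv f v x - conv (blockCoeff b) v x) := by
      have h3 := conv_ideal_left hM (a := f - blockCoeff b) (fun h => hfe h) hv.2 x
      rw [sub_conv] at h3
      exact h3
    have s5 : conv f v = conv v f := conv_comm_of_class hv.1
    rw [s3] at s2
    rw [s5] at s4
    have h3 := MemLocalIdeal.sub hM (MemLocalIdeal.sub hM (MemLocalIdeal.sub hM s2 s1) s4) (hvf x)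
    convert h3 using 1
    ring
  -- the values
  obtain ⟨u, huR, huI, hue⟩ := normal_defect_coeff_one (D := D.subgroupOf N) (hn := Subgroup.normal_in_normalizer) hM hb hbD
  have hbd : blockDefect p b = blockDefect p B := by
    have h3 := card_defectGroup hM hb hbD
    have h4 : Nat.card (D.subgroupOf N) = Nat.card D := Nat.card_congr (Subgroup.subgroupOfEquivOfLe hDN).toEquiv
    rw [h4, hcardD] at h3
    exact (Nat.pow_right_injective hM.1.two_le h3).symm
  have hCNval : (Nat.card (Subgroup.centralizer ({yN} : Set N))).factorization p = blockDefect p B := by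
    apply le_antisymm
    · have h3 : ((Subgroup.centralizer ({yN} : Set N)).map N.subtype) ≤ Subgroup.centralizer ({y} : Set G) := by
        rintro _ ⟨a, ha, rfl⟩
        rw [Subgroup.mem_centralizer_singleton_iff]
        have := Subgroup.mem_centralizer_singleton_iff.1 ha
        exact congrArg Subtype.val this
      have h4 := Subgroup.card_dvd_of_le h3
      have h5 : Nat.card ((Subgroup.centralizer ({yN} : Set N)).map N.subtype) = Nat.card (Subgroup.centralizer ({yN} : Set N)) :=
        (Nat.card_congr (Subgroup.equivMapOfInjective _ _ Subtype.val_injective).toEquiv).symm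
      rw [h5] at h4
      have h6 := (Nat.factorization_le_iff_dvd Nat.card_pos.ne' Nat.card_pos.ne').2 h4 p
      rw [hyval] at h6
      exact h6
    · have h3 : D.subgroupOf N ≤ Subgroup.centralizer ({yN} : Set N) := by
        intro d hd
        rw [Subgroup.mem_centralizer_singleton_iff]
        apply Subtype.ext
        exact Subgroup.mem_centralizer_iff.1 hyC _ hd
      have h4 := Subgroup.card_dvd_of_le h3
      have h5 : Nat.card (D.subgroupOf N) = Nat.card D := Nat.card_congr (Subgroup.subgroupOfEquivOfLe hDN).toEquiv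
      rw [h5, hcardD] at h4
      exact (Nat.Prime.pow_dvd_iff_le_factorization hM.1 Nat.card_pos.ne').1 h4
  have hWbI : ¬ MemLocalIdeal M (Wb yN⁻¹) := by
    intro h0
    apply huI
    have h3 := conv_indC_one hWb.1 yN
    rw [hWb1, hue, hbd] at h3
    have h4 := natCard_conj_val (p := p) yN
    rw [hCNval] at h4
    set mN := (Subgroup.centralizer ({yN} : Set N)).index with hmN
    have hmN0 : mN ≠ 0 := Subgroup.index_ne_zero_of_finite
    have hmm := Nat.ordProj_mul_ordCompl_eq_self mN p
    have h5 : mN.factorization p = (Nat.card N).factorization p - blockDefect p B := by omega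
    rw [h5] at hmm
    have hp0 : (p : ℂ) ^ ((Nat.card N).factorization p - blockDefect p B) ≠ 0 := pow_ne_zero _ (by exact_mod_cast hM.1.ne_zero)
    have h6 : (mN : ℂ) = (p : ℂ) ^ ((Nat.card N).factorization p - blockDefect p B) * ((mN / p ^ ((Nat.card N).factorization p - blockDefect p B) : ℕ) : ℂ) := by
      conv_lhs => rw [← hmm]
      push_cast
      ring
    rw [h6, mul_assoc] at h3
    have h7 := mul_left_cancel₀ hp0 h3
    rw [h7]
    exact MemLocalIdeal.mul_left hM (MemLocalRing.natCast hM _) h0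
  have hWI : ¬ MemLocalIdeal M (W y⁻¹) := by
    intro h0
    apply hWbI
    have h3 : v yN⁻¹ = W y⁻¹ := by
      have h4 : ((yN⁻¹ : N) : G) ∈ Subgroup.centralizer (D : Set G) := by
        have : ((yN⁻¹ : N) : G) = y⁻¹ := rfl
        rw [this]
        exact Subgroup.inv_mem _ hyC
      exact trunc_of_mem _ h4
    have h4 := MemLocalIdeal.add hM (hWv yN⁻¹) (h3 ▸ h0)
    convert h4 using 1
    ring
  have h3 := conv_indC_one hW.1 y
  rw [hW1] at h3
  have h4 := natCard_conj_val (p := p) y
  rw [hyval] at h4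
  set mG := (Subgroup.centralizer ({y} : Set G)).index with hmG
  have hmG0 : mG ≠ 0 := Subgroup.index_ne_zero_of_finite
  have hmm := Nat.ordProj_mul_ordCompl_eq_self mG p
  have hmnd := Nat.not_dvd_ordCompl hM.1 hmG0
  have h5 : mG.factorization p = (Nat.card G).factorization p - blockDefect p B := by omega
  rw [h5] at hmm hmnd
  refine ⟨((mG / p ^ ((Nat.card G).factorization p - blockDefect p B) : ℕ) : ℂ) * W y⁻¹, ?_, ?_, ?_⟩
  · exact MemLocalRing.mul hM (MemLocalRing.natCast hM _) (hW.2 _)
  · exact mul_not_ideal hM (MemLocalRing.natCast hM _) (hW.2 _) ((natCast_memLocalIdeal_iff hM _).not.2 hmnd) hWI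
  · rw [h3]
    conv_lhs => rw [← hmm]
    push_cast
    ring

/-- The `p`-part of the sum of the squares of the degrees of a block. -/
theorem sum_deg_sq_val (hM : IsPModular p M) {B : Set (IrrCharacter G)} (hB : IsPBlock M B) :
    (∑ᶠ χ ∈ B, charDegree (χ : G → ℂ) ^ 2).factorization p = 2 * (Nat.card G).factorization p - blockDefect p B := by
  classical
  haveI : M.IsPrime := hM.2.1.isPrime
  obtain ⟨r, hr, hr', he⟩ := blockCoeff_one_val hM hB
  set a := (Nat.card G).factorization p with ha
  set d := blockDefect p B with hd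
  have hda : d ≤ a := Nat.sub_le _ _
  set S : Finset (IrrCharacter G) := Finset.univ.filter (· ∈ B) with hS
  have hSB : B = (S : Set (IrrCharacter G)) := by
    ext χ
    simp [hS]
  have hG0 : (Nat.card G : ℂ) ≠ 0 := by exact_mod_cast Nat.card_pos.ne'
  have h1 : ((∑ᶠ χ ∈ B, charDegree (χ : G → ℂ) ^ 2 : ℕ) : ℂ) = (Nat.card G : ℂ) * blockCoeff B 1 := by
    have hnat : ∀ B' : Set (IrrCharacter G), B' = (S : Set (IrrCharacter G)) →
        (∑ᶠ χ ∈ B', charDegree (χ : G → ℂ) ^ 2) = ∑ χ ∈ S, charDegree (χ : G → ℂ) ^ 2 := by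
      rintro _ rfl
      exact finsum_mem_coe_finset _ _
    rw [blockCoeff, mul_inv_cancel_left₀ hG0, hnat B hSB, finsum_mem_eq_sum_ite, hS, Finset.sum_filter, Nat.cast_sum]
    refine Finset.sum_congr rfl fun χ _ => ?_
    by_cases hχ : χ ∈ B
    · rw [if_pos hχ, if_pos hχ, ← charDegree_cast (IsIrrCharacter.isCharacter' χ.2)]
      simp only [Complex.conj_natCast]
      push_cast
      ring
    · rw [if_neg hχ, if_neg hχ]
      simp
  have hq := Nat.ordProj_mul_ordCompl_eq_self (Nat.card G) p
  have hqd := Nat.not_dvd_ordCompl hM.1 (Nat.card_pos (α := G)).ne'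
  rw [← ha] at hq hqd
  refine factorization_of_eq hM (r := ((Nat.card G / p ^ a : ℕ) : ℂ) * r) (MemLocalRing.mul hM (MemLocalRing.natCast hM _) hr)
    (mul_not_ideal hM (MemLocalRing.natCast hM _) hr ((natCast_memLocalIdeal_iff hM _).not.2 hqd) hr') ?_
  rw [h1, he]
  conv_lhs => rw [← hq]
  have h2 : 2 * a - d = a + (a - d) := by omega
  rw [h2, pow_add]
  push_cast
  ring

end Glevel

end Cfsg.Agent.Lib.CharBlockDegSum
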