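import Mathlib
import Cfsg.Prelude.Def_Blocks
import Cfsg.Agent.Lib.CharBlockThird

/-!
# Külshammer's formula for the principal block idempotent
-/

set_option autoImplicit false
set_option linter.style.haveILetI false
set_option linter.unusedSectionVars false

namespace Cfsg.Agent.Lib.CharBlockKuls

open scoped ComplexConjugate
open Cfsg Cfsg.Agent.Lib.CharBlockLocal Cfsg.Agent.Lib.CharBlockConv Cfsg.Agent.Lib.CharBlockRot
  Cfsg.Agent.Lib.CharBlockOrth Cfsg.Agent.Lib.CharOps Cfsg.Agent.Lib.CharIrr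
  Cfsg.Agent.Lib.CharBlockDefect Cfsg.Agent.Lib.CharBlockMinMax Cfsg.Agent.Lib.CharBlockBrauer
  Cfsg.Agent.Lib.CharBlockInd Cfsg.Agent.Lib.CharBlockFirst Cfsg.Agent.Lib.CharBlockSecond
  Cfsg.Agent.Lib.CharBlockHeight Cfsg.Agent.Lib.CharBlockDom Cfsg.Agent.Lib.CharBlockThird

universe u

section Local

variable {p : ℕ} {M : Ideal AlgInt}

theorem add_pow_congr (hM : IsPModular p M) {a b : ℂ} (ha : MemLocalRing M a) (hb : MemLocalRing M b) (n : ℕ) :
    MemLocalIdeal M ((a + b) ^ (p ^ n) - (a ^ (p ^ n) + b ^ (p ^ n))) := by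
  obtain ⟨r, hr⟩ := exists_add_pow_prime_pow_eq hM.1 (⟨a, ha⟩ : localRing hM) (⟨b, hb⟩ : localRing hM) n
  have h1 := congrArg Subtype.val hr
  simp only [Subring.coe_add, Subring.coe_pow, Subring.coe_mul, Subring.coe_natCast] at h1
  rw [h1]
  have h2 : a ^ p ^ n + b ^ p ^ n + (p : ℂ) * a * b * (r : ℂ) - (a ^ p ^ n + b ^ p ^ n) = (p : ℂ) * (a * b * (r : ℂ)) := by ring
  rw [h2]
  exact MemLocalIdeal.mul_right hM (MemLocalRing.mul hM (MemLocalRing.mul hM ha hb) r.2) (memLocalIdeal_p hM)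

theorem sum_pow_congr' (hM : IsPModular p M) {ι : Type*} (s : Finset ι) (a : ι → ℂ) (ha : ∀ i, MemLocalRing M (a i)) (n : ℕ) :
    MemLocalIdeal M ((∑ i ∈ s, a i) ^ (p ^ n) - ∑ i ∈ s, a i ^ (p ^ n)) := by
  classical
  induction s using Finset.induction_on with
  | empty =>
    have h0 : p ^ n ≠ 0 := (pow_pos hM.1.pos n).ne'
    simp only [Finset.sum_empty, zero_pow h0, sub_zero]
    exact MemLocalIdeal.zero hM
  | insert i s hi ih =>
    rw [Finset.sum_insert hi, Finset.sum_insert hi]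
    have h1 := add_pow_congr hM (ha i) (MemLocalRing.sum hM s fun j _ => ha j) n
    have h2 := MemLocalIdeal.add hM h1 ih
    have h3 : (a i + ∑ j ∈ s, a j) ^ p ^ n - (a i ^ p ^ n + ∑ j ∈ s, a j ^ p ^ n) =
        (a i + ∑ j ∈ s, a j) ^ p ^ n - (a i ^ p ^ n + (∑ j ∈ s, a j) ^ p ^ n) +
        ((∑ j ∈ s, a j) ^ p ^ n - ∑ j ∈ s, a j ^ p ^ n) := by ring
    rw [h3]
    exact h2

theorem ideal_of_pow (hM : IsPModular p M) {z : ℂ} (hz : MemLocalRing M z) (m : ℕ) (h : MemLocalIdeal M (z ^ m)) :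
    MemLocalIdeal M z := by
  induction m with
  | zero =>
    exact absurd (by simpa using h) (not_memLocalIdeal_one hM)
  | succ m ih =>
    by_contra hn
    have h1 : ¬ MemLocalIdeal M (z ^ m) := fun h2 => hn (ih h2)
    rw [pow_succ] at h
    exact mul_not_ideal hM (MemLocalRing.pow hM hz m) hz h1 hn h

/-- Residue classes of algebraic integers lie in finite fields. -/
theorem exists_frob_fixed_algInt (hM : IsPModular p M) (a : AlgInt) :
    ∃ k, 0 < k ∧ Ideal.Quotient.mk M a ^ (p ^ k) = Ideal.Quotient.mk M a := by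
  classical
  haveI : Fact p.Prime := ⟨hM.1⟩
  haveI : M.IsMaximal := hM.2.1
  letI K : Field (AlgInt ⧸ M) := Ideal.Quotient.field M
  haveI := charP_quotient hM
  letI : Algebra (ZMod p) (AlgInt ⧸ M) := ZMod.algebra _ p
  let x : AlgInt ⧸ M := Ideal.Quotient.mk M a
  have hint : IsIntegral (ZMod p) x := by
    obtain ⟨P, hP, hP2⟩ := a.2
    refine ⟨P.map (Int.castRingHom (ZMod p)), hP.map _, ?_⟩
    rw [Polynomial.eval₂_map]
    have h1 : Polynomial.eval₂ (Int.castRingHom AlgInt) a P = 0 := by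
      apply Subtype.ext
      have h2 := Polynomial.hom_eval₂ P (Int.castRingHom AlgInt) ((AlgInt).val.toRingHom) a
      have h4 : ((AlgInt).val.toRingHom).comp (Int.castRingHom AlgInt) = algebraMap ℤ ℂ := RingHom.ext_int _ _
      rw [h4] at h2
      have h5 : ((AlgInt).val.toRingHom) a = (a : ℂ) := rfl
      rw [h5, hP2] at h2
      exact h2
    have h3 := Polynomial.hom_eval₂ P (Int.castRingHom AlgInt) (Ideal.Quotient.mk M) a
    rw [h1, map_zero] at h3
    have h6 : (algebraMap (ZMod p) (AlgInt ⧸ M)).comp (Int.castRingHom (ZMod p)) = (Ideal.Quotient.mk M).comp (Int.castRingHom AlgInt) :=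
      RingHom.ext_int _ _
    rw [h6]
    exact h3.symm
  haveI : FiniteDimensional (ZMod p) (IntermediateField.adjoin (ZMod p) {x}) := IntermediateField.adjoin.finiteDimensional hint
  haveI : Finite (IntermediateField.adjoin (ZMod p) {x}) := Module.finite_of_finite (ZMod p)
  letI : Fintype (IntermediateField.adjoin (ZMod p) {x}) := Fintype.ofFinite _
  obtain ⟨n, -, hn⟩ := FiniteField.card (IntermediateField.adjoin (ZMod p) {x}) p
  refine ⟨n, n.pos, ?_⟩
  have h1 := FiniteField.pow_card (⟨x, IntermediateField.mem_adjoin_simple_self _ x⟩ : IntermediateField.adjoin (ZMod p) {x})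
  rw [hn] at h1
  exact congrArg Subtype.val h1

theorem frob_iter {R : Type*} [Monoid R] {x : R} {k : ℕ} (h : x ^ (p ^ k) = x) (m : ℕ) : x ^ (p ^ (k * m)) = x := by
  induction m with
  | zero => simp
  | succ m ih =>
    rw [mul_add, mul_one, pow_add, pow_mul, ih, h]

/-- Elements of the local ring are Frobenius-fixed modulo the ideal. -/
theorem exists_frob_fixed (hM : IsPModular p M) {z : ℂ} (hz : MemLocalRing M z) :
    ∃ k, 0 < k ∧ ∀ m, MemLocalIdeal M (z ^ (p ^ (k * m)) - z) := by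
  obtain ⟨a, b, hb, rfl⟩ := hz
  obtain ⟨k₁, hk₁, h₁⟩ := exists_frob_fixed_algInt hM a
  obtain ⟨k₂, hk₂, h₂⟩ := exists_frob_fixed_algInt hM b
  refine ⟨k₁ * k₂, Nat.mul_pos hk₁ hk₂, fun m => ?_⟩
  set q := p ^ (k₁ * k₂ * m) with hq
  have ha : a ^ q - a ∈ M := by
    rw [← Ideal.Quotient.eq, map_pow, hq, mul_assoc]
    exact frob_iter h₁ _
  have hb' : b ^ q - b ∈ M := by
    rw [← Ideal.Quotient.eq, map_pow, hq, mul_comm k₁ k₂, mul_assoc]
    exact frob_iter h₂ _
  refine ⟨(a ^ q - a) * b - a * (b ^ q - b), b ^ q * b, ?_, ?_, ?_⟩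
  · exact M.sub_mem (M.mul_mem_right _ ha) (M.mul_mem_left _ hb')
  · exact mul_notMem hM (fun h => hb (hM.2.1.isPrime.mem_of_pow_mem _ h)) hb
  · have h0 := coe_ne_zero b hb
    push_cast
    rw [div_pow]
    field_simp
    ring

end Local

section Words

variable {G : Type u} [Group G] [Fintype G] {p : ℕ} {M : Ideal AlgInt}

theorem wprod_const (y : G) (m : ℕ) : wprod (fun _ : Fin m => y) = y ^ m := by
  induction m with
  | zero => exact (pow_zero y).symm
  | succ m ih =>
    show y * wprod (fun _ : Fin m => y) = _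
    rw [ih, pow_succ']

/-- The main congruence. -/
theorem sum_word_congr (hM : IsPModular p M) {f φ : G → ℂ} (hfR : ∀ g, MemLocalRing M (f g)) (hφR : ∀ g, MemLocalRing M (φ g))
    (hφc : IsClassFunction G φ) (n : ℕ) :
    MemLocalIdeal M (∑ y, cpow f (p ^ n) y * φ y - ∑ y, f y ^ (p ^ n) * φ (y ^ (p ^ n))) := by
  classical
  have hm : 0 < p ^ n := pow_pos hM.1.pos n
  obtain ⟨r, hr, h3⟩ := rot_sum hM (x := 1) (s := 0) (by simp) hfR (by simp) hφR hφc (n := n) (j := 0) (Nat.zero_le _)
  simp only [one_mul, zero_add, pow_one] at h3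
  have h4 : ∑ y, f y ^ (p ^ n) * φ (y ^ (p ^ n)) = ∑ X : Fin (p ^ n) → G,
      if (rot 1 (pow_pos hM.1.pos n))^[p ^ 0] X = X then (∏ i, f (X i)) * φ (wprod X) else 0 := by
    refine Finset.sum_of_injOn (fun y => fun _ => y) ?_ ?_ ?_ ?_
    · intro a _ b _ hab
      exact congrFun hab ⟨0, hm⟩
    · intro a _
      exact Finset.mem_coe.2 (Finset.mem_univ _)
    · intro X _ hX
      rw [if_neg]
      intro hfix
      apply hX
      refine ⟨X ⟨0, hm⟩, Finset.mem_coe.2 (Finset.mem_univ _), ?_⟩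
      funext i
      have h5 : ∀ j : ℕ, unroll 1 hm X j = unroll 1 hm X 0 := by
        intro j
        induction j with
        | zero => rfl
        | succ j ih =>
          have h6 := unroll_periodic 1 hm X hfix j
          simp only [pow_zero] at h6
          rw [h6, ih]
      have h7 := h5 i
      rw [unroll_of_lt 1 hm X i.2, unroll_of_lt 1 hm X hm] at h7
      exact h7.symm
    · intro y _
      rw [if_pos]
      · rw [wprod_const]
        simp
      · simp only [pow_zero, Function.iterate_one]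
        funext i
        unfold rot unroll
        simp
  rw [sum_cpow_mul, h3, h4]
  have h5 : (p : ℂ) * r + ∑ X : Fin (p ^ n) → G,
      (if (rot 1 (pow_pos hM.1.pos n))^[p ^ 0] X = X then (∏ i, f (X i)) * φ (wprod X) else 0) -
      ∑ X : Fin (p ^ n) → G, (if (rot 1 (pow_pos hM.1.pos n))^[p ^ 0] X = X then (∏ i, f (X i)) * φ (wprod X) else 0) = (p : ℂ) * r := by ring
  rw [h5]
  exact MemLocalIdeal.mul_right hM hr (memLocalIdeal_p hM)

theorem cpow_isRClass' (hM : IsPModular p M) {a : G → ℂ} (ha : IsRClass M a) (m : ℕ) : IsRClass M (cpow a m) :=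
  cpow_isRClass hM ha m

theorem conv_deltaAt_deltaAt (u v : G) : conv (deltaAt u) (deltaAt v) = deltaAt (u * v) := by
  classical
  funext x
  rw [conv_deltaAt, deltaAt_apply, deltaAt_apply]
  have : x * v⁻¹ = u ↔ x = u * v := by
    constructor
    · intro h
      rw [← h]
      group
    · intro h
      rw [h]
      group
  simp only [this]

theorem deltaAt_one : deltaAt (1 : G) = delta := by
  classical
  funext x
  rw [deltaAt_apply, delta_apply]

theorem cpow_conv_deltaAt (hM : IsPModular p M) {a : G → ℂ} (ha : IsRClass M a) (u : G) (m : ℕ) :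
    cpow (conv a (deltaAt u)) m = conv (cpow a m) (deltaAt (u ^ m)) := by
  induction m with
  | zero =>
    show delta = conv delta (deltaAt (u ^ 0))
    rw [pow_zero, deltaAt_one, conv_delta]
  | succ m ih =>
    show conv (conv a (deltaAt u)) (cpow (conv a (deltaAt u)) m) = conv (conv a (cpow a m)) (deltaAt (u ^ (m + 1)))
    rw [ih, pow_succ']
    have hc := (cpow_isRClass' hM ha m).1
    calc conv (conv a (deltaAt u)) (conv (cpow a m) (deltaAt (u ^ m)))
        = conv a (conv (conv (deltaAt u) (cpow a m)) (deltaAt (u ^ m))) := by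
          rw [conv_assoc, conv_assoc]
      _ = conv a (conv (conv (cpow a m) (deltaAt u)) (deltaAt (u ^ m))) := by
          rw [conv_comm_of_isClass hc (deltaAt u)]
      _ = conv (conv a (cpow a m)) (conv (deltaAt u) (deltaAt (u ^ m))) := by
          rw [conv_assoc, conv_assoc]
      _ = _ := by rw [conv_deltaAt_deltaAt]

/-- The basic congruence for a translate of a central function. -/
theorem cpow_translate_congr (hM : IsPModular p M) {a : G → ℂ} (ha : IsRClass M a) (g : G) (n : ℕ)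
    [DecidablePred fun y : G => y ^ (p ^ n) = 1] :
    MemLocalIdeal M (cpow a (p ^ n) (g ^ (p ^ n)) - (∑ y, if y ^ (p ^ n) = 1 then a (y * g) else 0) ^ (p ^ n)) := by
  classical
  let f : G → ℂ := conv a (deltaAt g⁻¹)
  have hf : ∀ y, f y = a (y * g) := by
    intro y
    simp only [f]
    rw [conv_deltaAt, inv_inv]
  have hfR : ∀ y, MemLocalRing M (f y) := fun y => by
    rw [hf]
    exact ha.2 _
  have hδ : IsRClass M (delta : G → ℂ) := isRClass_delta hM
  have h1 := sum_word_congr hM hfR hδ.2 hδ.1 n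
  have h2 : ∑ y, cpow f (p ^ n) y * delta y = cpow a (p ^ n) (g ^ (p ^ n)) := by
    rw [Finset.sum_eq_single 1]
    · rw [cpow_conv_deltaAt hM ha, delta_apply, if_pos rfl, mul_one, conv_deltaAt]
      congr 1
      simp
    · intro y _ hy
      rw [delta_apply, if_neg hy, mul_zero]
    · simp
  have h3 : ∑ y, f y ^ (p ^ n) * delta (y ^ (p ^ n)) = ∑ y ∈ Finset.univ.filter (fun y : G => y ^ (p ^ n) = 1), a (y * g) ^ (p ^ n) := by
    rw [Finset.sum_filter]
    refine Finset.sum_congr rfl fun y _ => ?_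
    rw [delta_apply, hf]
    split_ifs <;> simp
  have h4 : (∑ y, if y ^ (p ^ n) = 1 then a (y * g) else 0) = ∑ y ∈ Finset.univ.filter (fun y : G => y ^ (p ^ n) = 1), a (y * g) := by
    rw [Finset.sum_filter]
  rw [h2, h3] at h1
  rw [h4]
  have h5 := sum_pow_congr' hM (Finset.univ.filter (fun y : G => y ^ (p ^ n) = 1)) (fun y => a (y * g)) (fun y => ha.2 _) n
  have h6 := MemLocalIdeal.sub hM h1 h5
  have h7 : cpow a (p ^ n) (g ^ p ^ n) - ∑ y ∈ Finset.univ.filter (fun y : G => y ^ (p ^ n) = 1), a (y * g) ^ p ^ n -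
      ((∑ y ∈ Finset.univ.filter (fun y : G => y ^ (p ^ n) = 1), a (y * g)) ^ p ^ n - ∑ y ∈ Finset.univ.filter (fun y : G => y ^ (p ^ n) = 1), a (y * g) ^ p ^ n) =
      cpow a (p ^ n) (g ^ p ^ n) - (∑ y ∈ Finset.univ.filter (fun y : G => y ^ (p ^ n) = 1), a (y * g)) ^ p ^ n := by ring
  rw [← h7]
  exact h6

theorem pow_eq_one_iff_pelt (hp : p.Prime) {n : ℕ} (hn : (Nat.card G).factorization p ≤ n) (y : G) :
    y ^ (p ^ n) = 1 ↔ ∃ k, orderOf y = p ^ k := by
  constructor
  · intro h
    obtain ⟨k, -, hk⟩ := (Nat.dvd_prime_pow hp).1 (orderOf_dvd_of_pow_eq_one h)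
    exact ⟨k, hk⟩
  · rintro ⟨k, hk⟩
    have h1 : p ^ k ∣ Nat.card G := by
      rw [← hk]
      exact orderOf_dvd_natCard y
    have h2 := (Nat.Prime.pow_dvd_iff_le_factorization hp Nat.card_pos.ne').1 h1
    have h3 : p ^ n = p ^ k * p ^ (n - k) := by
      rw [← pow_add]
      congr 1
      omega
    rw [h3, pow_mul, ← hk, pow_orderOf_eq_one, one_pow]

/-- The `p`-section sum annihilates the radical. -/
theorem sum_pelt_ideal (hM : IsPModular p M) {a : G → ℂ} (ha : IsRClass M a)
    (hom : ∀ ξ : IrrCharacter G, MemLocalIdeal M (omega (ξ : G → ℂ) a)) (g : G) [DecidablePred fun y : G => ∃ k, orderOf y = p ^ k] :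
    MemLocalIdeal M (∑ y, if ∃ k, orderOf y = p ^ k then a (y * g) else 0) := by
  classical
  obtain ⟨n₀, hn₀⟩ := exists_cpow_ideal hM ha hom
  have hI : ∀ s g, MemLocalIdeal M (cpow a (s + (n₀ + 1)) g) := by
    intro s
    induction s with
    | zero => simpa using hn₀
    | succ s ih =>
      intro g
      have h1 : cpow a (s + 1 + (n₀ + 1)) = conv a (cpow a (s + (n₀ + 1))) := by
        rw [show s + 1 + (n₀ + 1) = (s + (n₀ + 1)) + 1 by ring]
        rfl
      rw [h1]
      exact conv_ideal_right hM ha.2 ih g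
  set n := n₀ + 1 + (Nat.card G).factorization p with hn
  have hnq : n₀ + 1 ≤ p ^ n := by
    have : n < p ^ n := Nat.lt_pow_self hM.1.one_lt
    omega
  have h1 := cpow_translate_congr hM ha g n
  obtain ⟨s, hs⟩ : ∃ s, p ^ n = s + (n₀ + 1) := ⟨p ^ n - (n₀ + 1), by omega⟩
  have h2 : MemLocalIdeal M (cpow a (p ^ n) (g ^ p ^ n)) := by
    rw [hs]
    exact hI s _
  have h3 := MemLocalIdeal.sub hM h2 h1
  have h4 : cpow a (p ^ n) (g ^ p ^ n) - (cpow a (p ^ n) (g ^ p ^ n) - (∑ y, if y ^ p ^ n = 1 then a (y * g) else 0) ^ p ^ n) =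
      (∑ y, if y ^ p ^ n = 1 then a (y * g) else 0) ^ p ^ n := by ring
  rw [h4] at h3
  have h5 := ideal_of_pow hM (MemLocalRing.sum hM _ fun y _ => by
    split_ifs
    · exact ha.2 _
    · exact MemLocalRing.zero hM) _ h3
  have h6 : (∑ y, if y ^ p ^ n = 1 then a (y * g) else 0) = ∑ y, if ∃ k, orderOf y = p ^ k then a (y * g) else 0 := by
    refine Finset.sum_congr rfl fun y _ => ?_
    have := pow_eq_one_iff_pelt (G := G) hM.1 (n := n) (by omega) y
    simp only [this]
  rw [← h6]
  exact h5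

/-- The `p`-section sum fixes coefficients of idempotents at `p`-regular elements. -/
theorem sum_pelt_idem (hM : IsPModular p M) {e : G → ℂ} (he : IsRClass M e) (hid : conv e e = e) {g : G} (hg : ¬ p ∣ orderOf g)
    [DecidablePred fun y : G => ∃ k, orderOf y = p ^ k] :
    MemLocalIdeal M ((∑ y, if ∃ k, orderOf y = p ^ k then e (y * g) else 0) - e g) := by
  classical
  set z := ∑ y, if ∃ k, orderOf y = p ^ k then e (y * g) else 0 with hz
  have hzR : MemLocalRing M z := MemLocalRing.sum hM _ fun y _ => by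
    split_ifs
    · exact he.2 _
    · exact MemLocalRing.zero hM
  obtain ⟨k, hk, hfix⟩ := exists_frob_fixed hM hzR
  -- the exponent
  have hcop : Nat.Coprime p (orderOf g) := (Nat.Prime.coprime_iff_not_dvd hM.1).2 hg
  have hg0 : 0 < orderOf g := orderOf_pos g
  set t := Nat.totient (orderOf g) with ht
  have ht0 : 0 < t := Nat.totient_pos.2 hg0
  set m := t * ((Nat.card G).factorization p + 1) with hm
  set n := k * m with hn
  have hnG : (Nat.card G).factorization p ≤ n := by
    have h1 : (Nat.card G).factorization p + 1 ≤ m := by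
      rw [hm]
      exact Nat.le_mul_of_pos_left _ ht0
    have h2 : m ≤ n := by
      rw [hn]
      exact Nat.le_mul_of_pos_left _ hk
    omega
  have hgq : g ^ (p ^ n) = g := by
    have h1 : p ^ t ≡ 1 [MOD orderOf g] := Nat.ModEq.pow_totient hcop
    have h2 : p ^ n = (p ^ t) ^ (k * ((Nat.card G).factorization p + 1)) := by
      rw [← pow_mul, hn, hm]
      congr 1
      ring
    have h3 : p ^ n ≡ 1 [MOD orderOf g] := by
      rw [h2]
      simpa using h1.pow (k * ((Nat.card G).factorization p + 1))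
    have h4 : g ^ (p ^ n) = g ^ 1 := pow_eq_pow_iff_modEq.2 h3
    simpa using h4
  have h1 := cpow_translate_congr hM he g n
  obtain ⟨q', hq'⟩ : ∃ q', p ^ n = q' + 1 := ⟨p ^ n - 1, by
    have := pow_pos hM.1.pos n
    omega⟩
  have h2 : cpow e (p ^ n) (g ^ (p ^ n)) = e g := by
    rw [hgq, hq', cpow_of_idem hid]
  rw [h2] at h1
  have h6 : (∑ y, if y ^ p ^ n = 1 then e (y * g) else 0) = z := by
    refine Finset.sum_congr rfl fun y _ => ?_
    have := pow_eq_one_iff_pelt (G := G) hM.1 hnG y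
    simp only [this]
  rw [h6] at h1
  have h7 := hfix m
  have h8 := MemLocalIdeal.neg (MemLocalIdeal.add hM h1 h7)
  have h9 : -(e g - z ^ p ^ (k * m) + (z ^ p ^ (k * m) - z)) = z - e g := by ring
  rw [h9] at h8
  exact h8

theorem sum_regInd (G : Type u) [Group G] [Fintype G] (p : ℕ) : ∑ g, regInd p G g = (Nat.card {y : G // ¬ p ∣ orderOf y} : ℂ) := by
  classical
  have h1 : ∑ g, regInd p G g = ∑ g : G, if ¬ p ∣ orderOf g then (1 : ℂ) else 0 := by
    refine Finset.sum_congr rfl fun g _ => ?_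
    rw [regInd_apply]
    by_cases h : p ∣ orderOf g
    · simp [h]
    · simp [h]
  rw [h1, ← Finset.sum_filter, Finset.sum_const, nsmul_eq_mul, mul_one]
  congr 1
  rw [Nat.card_eq_fintype_card, Fintype.card_subtype]

/-- **Külshammer's formula.** -/
theorem kulshammer (hM : IsPModular p M) (g : G) (hg : ¬ p ∣ orderOf g) :
    MemLocalIdeal M (blockCoeff (principalBlock M G) g -
      (Nat.card {xy : G × G // (∃ k : ℕ, orderOf xy.1 = p ^ k) ∧ ¬ p ∣ orderOf xy.2 ∧ xy.1 * xy.2 = g} : ℂ) /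
        (Nat.card {y : G // ¬ p ∣ orderOf y} : ℂ)) := by
  classical
  haveI : M.IsPrime := hM.2.1.isPrime
  set N : ℕ := Nat.card {y : G // ¬ p ∣ orderOf y} with hN
  have hNs : ∑ g, regInd p G g = (N : ℂ) := sum_regInd G p
  have hNp : ¬ p ∣ N := by
    have h1 := not_ideal_sum_regInd (G := G) hM
    rwa [hNs, natCast_memLocalIdeal_iff hM] at h1
  set e : G → ℂ := blockCoeff (principalBlock M G) with he
  have heR : IsRClass M e := isRClass_blockCoeff hM (principal_isPBlock M)
  have heid : conv e e = e := conv_blockCoeff_self _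
  have hΓ := isRClass_regInd (G := G) (p := p) hM
  let a : G → ℂ := regInd p G + -((N : ℂ) • e)
  have ha : IsRClass M a := hΓ.add hM ((heR.smul hM (MemLocalRing.natCast hM N)).neg hM)
  have hom : ∀ ξ : IrrCharacter G, MemLocalIdeal M (omega (ξ : G → ℂ) a) := by
    intro ξ
    have h1 : omega (ξ : G → ℂ) a = omega (ξ : G → ℂ) (regInd p G) - (N : ℂ) * omega (ξ : G → ℂ) e := by
      simp only [a]
      rw [omega_add, omega_neg, omega_smul]
      ring
    rw [h1, he, omega_blockCoeff]
    by_cases hξ : ξ ∈ principalBlock M G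
    · rw [if_pos hξ, mul_one]
      have h2 := sameBlock_omega hM (triv G).2 ξ.2 hξ hΓ
      rw [omega_triv, hNs] at h2
      have h3 := MemLocalIdeal.neg h2
      simpa using h3
    · rw [if_neg hξ, mul_zero, sub_zero]
      by_contra hn
      apply hξ
      have h2 := eq_principal_of_omega_reg hM (⟨ξ, rfl⟩ : IsPBlock M (blockOf M (ξ : G → ℂ))) (mem_blockOf_self hM ξ) hn
      rw [← h2]
      exact mem_blockOf_self hM ξ
  have h1 := sum_pelt_ideal hM ha hom g
  have h2 := sum_pelt_idem hM heR heid hg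
  set c : ℕ := Nat.card {xy : G × G // (∃ k : ℕ, orderOf xy.1 = p ^ k) ∧ ¬ p ∣ orderOf xy.2 ∧ xy.1 * xy.2 = g} with hc
  have hcs : (∑ y, if ∃ k, orderOf y = p ^ k then regInd p G (y * g) else 0) = (c : ℂ) := by
    have h3 : c = (Finset.univ.filter fun y : G => (∃ k, orderOf y = p ^ k) ∧ ¬ p ∣ orderOf (y * g)).card := by
      rw [← Fintype.card_subtype, ← Nat.card_eq_fintype_card, hc]
      refine Nat.card_congr ⟨fun w => ⟨w.1.1⁻¹, ?_, ?_⟩, fun w => ⟨(w.1⁻¹, w.1 * g), ?_, ?_, ?_⟩, ?_, ?_⟩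
      · rw [orderOf_inv]
        exact w.2.1
      · have h4 : w.1.1⁻¹ * g = w.1.2 := (eq_inv_mul_iff_mul_eq.2 w.2.2.2).symm
        rw [h4]
        exact w.2.2.1
      · rw [orderOf_inv]
        exact w.2.1
      · exact w.2.2
      · group
      · intro w
        apply Subtype.ext
        apply Prod.ext
        · simp
        · simp only [inv_inv]
          exact (eq_inv_mul_iff_mul_eq.2 w.2.2.2).symm
      · intro w
        apply Subtype.ext
        simp
    rw [h3, Finset.card_filter]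
    push_cast
    refine Finset.sum_congr rfl fun y _ => ?_
    rw [regInd_apply]
    by_cases h4 : ∃ k, orderOf y = p ^ k
    · by_cases h5 : p ∣ orderOf (y * g)
      · simp [h4, h5]
      · simp [h4, h5]
    · simp [h4]
  have h3 : (∑ y, if ∃ k, orderOf y = p ^ k then a (y * g) else 0) =
      (c : ℂ) - (N : ℂ) * ∑ y, if ∃ k, orderOf y = p ^ k then e (y * g) else 0 := by
    rw [← hcs, Finset.mul_sum, ← Finset.sum_sub_distrib]
    refine Finset.sum_congr rfl fun y _ => ?_
    by_cases h4 : ∃ k, orderOf y = p ^ k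
    · simp only [if_pos h4, a, Pi.add_apply, Pi.neg_apply, Pi.smul_apply, smul_eq_mul]
      ring
    · simp only [if_neg h4]
      ring
  rw [h3] at h1
  have h4 := MemLocalIdeal.mul_left hM (MemLocalRing.natCast hM N) h2
  have h5 := MemLocalIdeal.add hM h1 h4
  have h6 : (c : ℂ) - (N : ℂ) * (∑ y, if ∃ k, orderOf y = p ^ k then e (y * g) else 0) +
      (N : ℂ) * ((∑ y, if ∃ k, orderOf y = p ^ k then e (y * g) else 0) - e g) = (c : ℂ) - (N : ℂ) * e g := by ring
  rw [h6] at h5
  have h7 := MemLocalIdeal.neg (MemLocalIdeal.mul_left hM (natCast_inv_memLocalRing hM hNp) h5)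
  have hN0 : (N : ℂ) ≠ 0 := by
    intro h0
    apply hNp
    have : N = 0 := by exact_mod_cast h0
    rw [this]
    exact dvd_zero _
  have h8 : -((N : ℂ)⁻¹ * ((c : ℂ) - (N : ℂ) * e g)) = e g - (c : ℂ) / (N : ℂ) := by
    field_simp
    ring
  rw [h8] at h7
  exact h7

end Words

end Cfsg.Agent.Lib.CharBlockKuls
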