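import Mathlib
import Cfsg.Prelude.Def_Blocks
import Cfsg.Agent.Lib.CharBlockKuls
import Cfsg.Agent.Lib.CharBlockKer
import Cfsg.Agent.Lib.CharGalois2

/-!
# Galois action on blocks; roots of unity in the residue field
-/

set_option autoImplicit false
set_option linter.style.haveILetI false
set_option linter.unusedSectionVars false

namespace Cfsg.Agent.Lib.CharBlockGal

open scoped ComplexConjugate
open Module Cfsg Cfsg.Agent.Lib.CharBlockLocal Cfsg.Agent.Lib.CharBlockConv Cfsg.Agent.Lib.CharBlockRot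
  Cfsg.Agent.Lib.CharBlockOrth Cfsg.Agent.Lib.CharOps Cfsg.Agent.Lib.CharIrr
  Cfsg.Agent.Lib.CharBlockDefect Cfsg.Agent.Lib.CharBlockMinMax Cfsg.Agent.Lib.CharBlockBrauer
  Cfsg.Agent.Lib.CharBlockInd Cfsg.Agent.Lib.CharBlockDom Cfsg.Agent.Lib.CharBlockKer Cfsg.Agent.Lib.CharBlockKuls
  Cfsg.Agent.Lib.CharGalois Cfsg.Agent.Lib.CharGalois2

universe u

section Roots

variable {p : ℕ} {M : Ideal AlgInt}

/-- Roots of unity of order prime to `p` remain distinct modulo a prime above `p`. -/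
theorem root_inj (hM : IsPModular p M) {ε₁ ε₂ : AlgInt} (h₁ : ∃ m : ℕ, ¬ p ∣ m ∧ (ε₁ : ℂ) ^ m = 1)
    (h₂ : ∃ m : ℕ, ¬ p ∣ m ∧ (ε₂ : ℂ) ^ m = 1) (h : ε₁ - ε₂ ∈ M) : ε₁ = ε₂ := by
  classical
  haveI : M.IsPrime := hM.2.1.isPrime
  obtain ⟨m₁, hm₁, he₁⟩ := h₁
  obtain ⟨m₂, hm₂, he₂⟩ := h₂
  set n := m₁ * m₂ with hn
  have hnp : ¬ p ∣ n := by
    intro hd
    rcases (Nat.Prime.dvd_mul hM.1).1 hd with hd | hd
    · exact hm₁ hd
    · exact hm₂ hd
  have hn0 : n ≠ 0 := fun h0 => hnp (h0 ▸ dvd_zero p)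
  have hcoe : Function.Injective (fun a : AlgInt => (a : ℂ)) := Subtype.val_injective
  have he₁' : ε₁ ^ n = 1 := by
    apply Subtype.ext
    push_cast
    rw [hn, pow_mul, he₁, one_pow]
  have he₂' : ε₂ ^ n = 1 := by
    apply Subtype.ext
    push_cast
    rw [hn, mul_comm, pow_mul, he₂, one_pow]
  by_contra hne
  obtain ⟨k, hk⟩ : ∃ k, n = k + 1 := ⟨n - 1, by omega⟩
  let ω : AlgInt := ε₂ * ε₁ ^ k
  have hε : ε₁ ^ k * ε₁ = 1 := by
    rw [← pow_succ, ← hk, he₁']
  have hωn : ω ^ n = 1 := by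
    simp only [ω]
    rw [mul_pow, he₂', one_mul, ← pow_mul, mul_comm, pow_mul, he₁', one_pow]
  have hω1 : ω ≠ 1 := by
    intro h1
    apply hne
    have h2 : ε₂ * ε₁ ^ k * ε₁ = ε₁ := by
      have : ε₂ * ε₁ ^ k = 1 := h1
      rw [this, one_mul]
    rw [mul_assoc, hε, mul_one] at h2
    exact h2.symm
  have hsum : ∑ i ∈ Finset.range n, ω ^ i = 0 := by
    have h1 := mul_geom_sum ω n
    rw [hωn, sub_self] at h1
    rcases mul_eq_zero.1 h1 with h2 | h2
    · exact absurd (sub_eq_zero.1 h2) hω1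
    · exact h2
  have hω1M : ω - 1 ∈ M := by
    have h1 : ω - 1 = -(ε₁ ^ k * (ε₁ - ε₂)) := by
      simp only [ω]
      linear_combination hε
    rw [h1]
    exact M.neg_mem (M.mul_mem_left _ h)
  have hpowM : ∀ i : ℕ, ω ^ i - 1 ∈ M := by
    intro i
    have h1 := sub_one_dvd_pow_sub_one ω i
    exact Ideal.mem_of_dvd M h1 hω1M
  have hnM : (n : AlgInt) ∈ M := by
    have h1 : ∑ i ∈ Finset.range n, (ω ^ i - 1) ∈ M := M.sum_mem fun i _ => hpowM i
    rw [Finset.sum_sub_distrib, hsum] at h1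
    simp only [Finset.sum_const, Finset.card_range, nsmul_eq_mul, mul_one, zero_sub] at h1
    simpa using M.neg_mem h1
  exact hnp ((natCast_mem_iff hM n).1 hnM)

/-- Every residue class outside the maximal ideal contains a root of unity of order prime to `p`. -/
theorem exists_root_congr (hM : IsPModular p M) {a : AlgInt} (ha : a ∉ M) :
    ∃ ε : AlgInt, (∃ m : ℕ, ¬ p ∣ m ∧ (ε : ℂ) ^ m = 1) ∧ a - ε ∈ M := by
  classical
  haveI : M.IsPrime := hM.2.1.isPrime
  obtain ⟨k, hk, hfrob⟩ := exists_frob_fixed_algInt hM a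
  set q := p ^ k with hq
  have hq2 : 2 ≤ q := by
    calc 2 ≤ p := hM.1.two_le
      _ = p ^ 1 := (pow_one p).symm
      _ ≤ p ^ k := Nat.pow_le_pow_right hM.1.pos hk
  obtain ⟨n, hn⟩ : ∃ n, q = n + 1 := ⟨q - 1, by omega⟩
  have hn0 : 0 < n := by omega
  have hnp : ¬ p ∣ n := by
    intro hd
    have h1 : p ∣ q := dvd_pow_self p hk.ne'
    rw [hn] at h1
    have h2 : p ∣ 1 := (Nat.dvd_add_right hd).1 h1
    exact hM.1.one_lt.ne' (Nat.dvd_one.1 h2)
  have hpow : a ^ n - 1 ∈ M := by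
    have h1 : a ^ q - a ∈ M := by
      rw [← Ideal.Quotient.eq, map_pow]
      exact hfrob
    have h2 : a * (a ^ n - 1) ∈ M := by
      have : a * (a ^ n - 1) = a ^ q - a := by
        rw [hn, pow_succ]
        ring
      rw [this]
      exact h1
    exact (Ideal.IsPrime.mem_or_mem inferInstance h2).resolve_left ha
  -- the roots of unity
  have hprim : IsPrimitiveRoot (Complex.exp (2 * Real.pi * Complex.I / n)) n := Complex.isPrimitiveRoot_exp n hn0.ne'
  have hint : IsIntegral ℤ (Complex.exp (2 * Real.pi * Complex.I / n)) := hprim.isIntegral hn0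
  let ζ : AlgInt := ⟨_, hint⟩
  have hζ : IsPrimitiveRoot ζ n := IsPrimitiveRoot.of_map_of_injective (f := (AlgInt).val) (hf := Subtype.val_injective) hprim
  have h1 := Polynomial.X_pow_sub_one_eq_prod hn0 hζ
  have h2 := congrArg (Polynomial.eval a) h1
  simp only [Polynomial.eval_sub, Polynomial.eval_pow, Polynomial.eval_X, Polynomial.eval_one, Polynomial.eval_prod, Polynomial.eval_C] at h2
  rw [h2] at hpow
  obtain ⟨ε, hε, hεM⟩ := Ideal.IsPrime.prod_mem_iff.1 hpow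
  refine ⟨ε, ⟨n, hnp, ?_⟩, hεM⟩
  have h3 := (Polynomial.mem_nthRootsFinset hn0 1).1 hε
  have h4 := congrArg (fun a : AlgInt => (a : ℂ)) h3
  simpa using h4

end Roots

section Field

/-- An element of a larger cyclotomic field fixed by the embeddings fixing a smaller one lies in the smaller one. -/
theorem mem_cyc_of_fixed {n N : ℕ} (hN : N ≠ 0) (hd : n ∣ N) (hn : n ≠ 0) (x : cyc N)
    (h : ∀ σ : cyc N →ₐ[ℚ] ℂ, (∀ (hz : zeta n ∈ cyc N), σ ⟨zeta n, hz⟩ = zeta n) → σ x = x.1) : x.1 ∈ cyc n := by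
  have hzN : zeta n ∈ cyc N := by
    apply root_mem hN
    obtain ⟨c, rfl⟩ := hd
    rw [pow_mul, (zeta_prim hn).pow_eq_one, one_pow]
  have hle : cyc n ≤ cyc N := IntermediateField.adjoin_le_iff.2 (by
    rintro _ rfl
    exact hzN)
  haveI := finiteDimensional_cyc hN
  let L' : IntermediateField (cyc n) ℂ := IntermediateField.extendScalars hle
  have hmem : ∀ y : cyc N, y.1 ∈ L' := fun y => y.2
  haveI : FiniteDimensional ℚ L' := by
    let e : cyc N →ₗ[ℚ] L' :=
      { toFun := fun y => ⟨y.1, hmem y⟩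
        map_add' := fun _ _ => rfl
        map_smul' := fun _ _ => rfl }
    have he : Function.Surjective e := fun y => ⟨⟨y.1, y.2⟩, rfl⟩
    exact Module.Finite.of_surjective e he
  haveI : FiniteDimensional (cyc n) L' := Module.Finite.of_restrictScalars_finite ℚ _ _
  let x' : L' := ⟨x.1, hmem x⟩
  have h1 := trace_eq_sum_embeddings (K := cyc n) (L := L') ℂ (x := x')
  have hfix : ∀ σ : L' →ₐ[cyc n] ℂ, σ x' = x.1 := by
    intro σ
    let σ₀ : cyc N →+* ℂ :=
      { toFun := fun y => σ ⟨y.1, hmem y⟩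
        map_one' := by
          have : (⟨(1 : cyc N).1, hmem 1⟩ : L') = 1 := rfl
          simp only [this, map_one]
        map_mul' := fun a b => by
          have : (⟨(a * b).1, hmem (a * b)⟩ : L') = ⟨a.1, hmem a⟩ * ⟨b.1, hmem b⟩ := rfl
          simp only [this, map_mul]
        map_zero' := by
          have : (⟨(0 : cyc N).1, hmem 0⟩ : L') = 0 := rfl
          simp only [this, map_zero]
        map_add' := fun a b => by
          have : (⟨(a + b).1, hmem (a + b)⟩ : L') = ⟨a.1, hmem a⟩ + ⟨b.1, hmem b⟩ := rfl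
          simp only [this, map_add] }
    have h2 := h (RingHom.toRatAlgHom σ₀) (fun hz => ?_)
    · exact h2
    · show σ ⟨zeta n, hmem ⟨zeta n, hz⟩⟩ = zeta n
      have h3 : (⟨zeta n, hmem ⟨zeta n, hz⟩⟩ : L') = algebraMap (cyc n) L' ⟨zeta n, zeta_mem n⟩ := rfl
      rw [h3, AlgHom.commutes]
      rfl
  have h2 : (∑ σ : L' →ₐ[cyc n] ℂ, σ x') = (finrank (cyc n) L' : ℂ) * x.1 := by
    rw [Finset.sum_congr rfl (fun σ _ => hfix σ), Finset.sum_const, Finset.card_univ,
      AlgHom.card (cyc n) L' ℂ, nsmul_eq_mul]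
  rw [h2] at h1
  have hpos : (finrank (cyc n) L' : ℂ) ≠ 0 := by
    exact_mod_cast (finrank_pos (R := cyc n) (M := L')).ne'
  have h3 : x.1 = ((Algebra.trace (cyc n) L' x' : cyc n) : ℂ) / (finrank (cyc n) L' : ℂ) := by
    have h4 : algebraMap (cyc n) ℂ (Algebra.trace (cyc n) L' x') = ((Algebra.trace (cyc n) L' x' : cyc n) : ℂ) := rfl
    rw [h4] at h1
    rw [h1]
    field_simp
  rw [h3]
  refine div_mem (Subtype.property _) ?_
  exact natCast_mem (cyc n) _

end Field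

section Block

variable {G : Type u} [Group G] [Fintype G] {p : ℕ} {M : Ideal AlgInt}

/-- The Galois conjugate of an irreducible character. -/
noncomputable def pw (m : ℕ) (hm : m.Coprime (Nat.card G)) (χ : IrrCharacter G) : IrrCharacter G :=
  ⟨fun g => (χ : G → ℂ) (g ^ m), isIrr_pow χ.2 hm⟩

theorem pw_apply (m : ℕ) (hm : m.Coprime (Nat.card G)) (χ : IrrCharacter G) (g : G) :
    (pw m hm χ : G → ℂ) g = (χ : G → ℂ) (g ^ m) := rfl

theorem pw_bijective (m : ℕ) (hm : m.Coprime (Nat.card G)) : Function.Bijective (pw (G := G) m hm) := by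
  rw [← Finite.injective_iff_bijective]
  intro χ ψ h
  obtain ⟨m', -, hm'⟩ := exists_inv_exponent (G := G) hm
  have hm2 : ∀ g : G, (g ^ m') ^ m = g := by
    intro g
    rw [← pow_mul, mul_comm, pow_mul, hm']
  apply Subtype.ext
  funext g
  have h1 := congrFun (congrArg Subtype.val h) (g ^ m')
  simp only [pw_apply, hm2] at h1
  exact h1

/-- A Galois conjugate lying in the same block. -/
theorem sameBlock_pw (hM : IsPModular p M) (m : ℕ) (hm : m.Coprime (Nat.card G)) (h1 : ∀ x : G, ¬ p ∣ orderOf x → x ^ m = x)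
    (χ : IrrCharacter G) : SameBlock M (χ : G → ℂ) (pw m hm χ : G → ℂ) := by
  refine sameBlock_of_regular hM fun x hx => ?_
  have h2 : centralChar (pw m hm χ : G → ℂ) x = centralChar (χ : G → ℂ) x := by
    unfold centralChar
    rw [pw_apply, pw_apply, one_pow, h1 x hx]
  rw [h2, sub_self]
  exact MemLocalIdeal.zero hM

theorem pw_mem_iff (hM : IsPModular p M) {B : Set (IrrCharacter G)} (hB : IsPBlock M B) (m : ℕ) (hm : m.Coprime (Nat.card G))
    (h1 : ∀ x : G, ¬ p ∣ orderOf x → x ^ m = x) (χ : IrrCharacter G) : pw m hm χ ∈ B ↔ χ ∈ B := by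
  have hs := sameBlock_pw hM m hm h1 χ
  constructor
  · intro h
    rw [blockOf_eq_of_mem hM hB h]
    exact SameBlock.symm hs
  · intro h
    rw [blockOf_eq_of_mem hM hB h]
    exact hs

/-- The block idempotent is invariant under the powers fixing `p`-regular elements. -/
theorem blockCoeff_pow_eq (hM : IsPModular p M) {B : Set (IrrCharacter G)} (hB : IsPBlock M B) (m : ℕ) (hm : m.Coprime (Nat.card G))
    (h1 : ∀ x : G, ¬ p ∣ orderOf x → x ^ m = x) (g : G) : blockCoeff B (g ^ m) = blockCoeff B g := by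
  classical
  rw [blockCoeff, blockCoeff, finsum_mem_eq_sum_ite, finsum_mem_eq_sum_ite]
  congr 1
  rw [← (pw_bijective (G := G) m hm).sum_comp (fun χ => if χ ∈ B then (χ : G → ℂ) 1 * conj ((χ : G → ℂ) g) else 0)]
  refine Finset.sum_congr rfl fun χ _ => ?_
  by_cases hχ : χ ∈ B
  · rw [if_pos hχ, if_pos ((pw_mem_iff hM hB m hm h1 χ).2 hχ), pw_apply, pw_apply, one_pow]
  · rw [if_neg hχ, if_neg (fun h => hχ ((pw_mem_iff hM hB m hm h1 χ).1 h))]

theorem irr_mem_cyc (χ : IrrCharacter G) (g : G) : (χ : G → ℂ) g ∈ cyc (Nat.card G) := by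
  obtain ⟨n, ρ, -, hρ⟩ := χ.2
  rw [← hρ]
  exact character_mem ρ g

/-- Block idempotents have coefficients in the cyclotomic field of the `p'`-part of the group order. -/
theorem blockCoeff_mem_cyc (hM : IsPModular p M) {B : Set (IrrCharacter G)} (hB : IsPBlock M B) (g : G) :
    blockCoeff B g ∈ cyc (Nat.card G / p ^ (Nat.card G).factorization p) := by
  classical
  haveI : Fact p.Prime := ⟨hM.1⟩
  have hN : Nat.card G ≠ 0 := Nat.card_pos.ne'
  set n := Nat.card G / p ^ (Nat.card G).factorization p with hn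
  have hnN : n ∣ Nat.card G := Nat.div_dvd_of_dvd (Nat.ordProj_dvd _ _)
  have hn0 : n ≠ 0 := fun h => hN (Nat.eq_zero_of_zero_dvd (h ▸ hnN))
  have hval : ∀ (χ : IrrCharacter G) (y : G), ∃ hy : (χ : G → ℂ) y ∈ cyc (Nat.card G), ∀ σ : cyc (Nat.card G) →ₐ[ℚ] ℂ, ∀ m : ℕ,
      (∀ (μ : ℂ) (hμ : μ ∈ cyc (Nat.card G)), μ ^ Nat.card G = 1 → σ ⟨μ, hμ⟩ = μ ^ m) → σ ⟨(χ : G → ℂ) y, hy⟩ = (χ : G → ℂ) (y ^ m) := by
    intro χ y
    obtain ⟨d, ρ, -, hρ⟩ := χ.2
    refine ⟨irr_mem_cyc χ y, fun σ m hσ => ?_⟩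
    have h1 := algHom_character ρ y m σ hσ
    have h2 : ∀ w : G, (χ : G → ℂ) w = ρ.character w := fun w => (congrFun hρ w).symm
    simp only [h2]
    exact h1
  choose hmem hσval using hval
  let x : cyc (Nat.card G) := algebraMap ℚ _ ((Nat.card G : ℚ)⁻¹) * ∑ χ : IrrCharacter G, if χ ∈ B then
    (⟨(χ : G → ℂ) 1, hmem χ 1⟩ : cyc (Nat.card G)) * ⟨(χ : G → ℂ) g⁻¹, hmem χ g⁻¹⟩ else 0
  have hx : x.1 = blockCoeff B g := by
    rw [blockCoeff, finsum_mem_eq_sum_ite]
    simp only [x]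
    have h2 : ((algebraMap ℚ (cyc (Nat.card G)) ((Nat.card G : ℚ)⁻¹)) : ℂ) = (Nat.card G : ℂ)⁻¹ := by
      simp
    rw [MulMemClass.coe_mul, h2, AddSubmonoidClass.coe_finsetSum]
    congr 1
    refine Finset.sum_congr rfl fun χ _ => ?_
    by_cases hχ : χ ∈ B
    · rw [if_pos hχ, if_pos hχ, conj_apply_eq_inv χ.2]
      rfl
    · rw [if_neg hχ, if_neg hχ]
      rfl
  rw [← hx]
  refine mem_cyc_of_fixed hN hnN hn0 x fun σ hσ => ?_
  obtain ⟨m, hmc, hm⟩ := exists_coprime hN σ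
  have hzN : zeta n ^ Nat.card G = 1 := by
    obtain ⟨c, hc⟩ := hnN
    rw [hc, pow_mul, (zeta_prim hn0).pow_eq_one, one_pow]
  have hzmem : zeta n ∈ cyc (Nat.card G) := root_mem hN hzN
  have hzm : zeta n ^ m = zeta n ^ 1 := by
    rw [pow_one, ← hm _ hzmem hzN, hσ hzmem]
  have hmod : m ≡ 1 [MOD n] := by
    rcases Nat.eq_zero_or_pos m with rfl | hmpos
    · have h3 : zeta n ^ 1 = 1 := by rw [← hzm, pow_zero]
      have h4 := (zeta_prim hn0).dvd_of_pow_eq_one 1 h3
      have h5 : n = 1 := Nat.dvd_one.1 h4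
      rw [h5]
      exact Nat.modEq_one
    · obtain ⟨k, rfl⟩ : ∃ k, m = k + 1 := ⟨m - 1, by omega⟩
      have hz0 : zeta n ≠ 0 := (zeta_prim hn0).ne_zero hn0
      have h3 : zeta n ^ k = 1 := by
        have : zeta n ^ k * zeta n = 1 * zeta n := by
          rw [one_mul, ← pow_succ, hzm, pow_one]
        exact mul_right_cancel₀ hz0 this
      have h4 := (zeta_prim hn0).dvd_of_pow_eq_one k h3
      have h5 := (Nat.modEq_zero_iff_dvd.2 h4).add_right 1
      simpa using h5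
  have hreg : ∀ y : G, ¬ p ∣ orderOf y → y ^ m = y := by
    intro y hy
    have h3 : orderOf y ∣ n := by
      have h4 : orderOf y ∣ p ^ (Nat.card G).factorization p * n := by
        rw [hn, Nat.ordProj_mul_ordCompl_eq_self]
        exact orderOf_dvd_natCard y
      have h5 : (orderOf y).Coprime (p ^ (Nat.card G).factorization p) :=
        Nat.Coprime.pow_right _ ((Nat.Prime.coprime_iff_not_dvd hM.1).2 hy).symm
      exact h5.dvd_of_dvd_mul_left h4
    have h4 : y ^ m = y ^ 1 := (pow_eq_pow_iff_modEq).2 (hmod.of_dvd h3)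
    rwa [pow_one] at h4
  have h5 := blockCoeff_pow_eq hM hB m hmc hreg g
  rw [hx, ← h5, blockCoeff, finsum_mem_eq_sum_ite]
  simp only [x]
  rw [map_mul, map_sum, AlgHom.commutes]
  have h6 : algebraMap ℚ ℂ ((Nat.card G : ℚ)⁻¹) = (Nat.card G : ℂ)⁻¹ := by
    simp
  rw [h6]
  congr 1
  refine Finset.sum_congr rfl fun χ _ => ?_
  by_cases hχ : χ ∈ B
  · rw [if_pos hχ, if_pos hχ, map_mul, hσval χ 1 σ m hm, hσval χ g⁻¹ σ m hm, conj_apply_eq_inv χ.2, inv_pow, one_pow]
  · rw [if_neg hχ, if_neg hχ, map_zero]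

end Block

end Cfsg.Agent.Lib.CharBlockGal
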