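import Cfsg.Agent.Lib.CharGal
import Cfsg.Agent.Lib.Glaub2

/-!
# Counting irreducible characters of degree coprime to a complement of a normal Hall subgroup
-/

set_option autoImplicit false
set_option linter.all false

namespace Cfsg.Agent.Lib.CharCop

open Cfsg Cfsg.Agent.Lib.CharOps Cfsg.Agent.Lib.CharIrr Cfsg.Agent.Lib.CharDet Cfsg.Agent.Lib.CharDet2
  Cfsg.Agent.Lib.CharDet3 Cfsg.Agent.Lib.CharAb Cfsg.Agent.Lib.CharGal Cfsg.Agent.Lib.CharBlockDefect
open scoped ComplexConjugate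

universe u

section Formula

variable {M : Type u} [Group M] [Fintype M] (K₀ : Subgroup M) [hK₀ : K₀.Normal]

/-- The determinantal order divides the group order. -/
theorem detOrder_dvd_card {Q : Type u} [Group Q] [Fintype Q] {θ : Q → ℂ} (hθ : IsCharacter Q θ) : detOrder θ ∣ Nat.card Q := by
  rw [detOrder_eq hθ]
  apply orderOf_dvd_of_pow_eq_one
  ext x
  have h1 : ((detHom hθ) ^ Nat.card Q) x = (detHom hθ x) ^ Nat.card Q := rfl
  rw [h1, ← map_pow, pow_card_eq_one']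
  simp

theorem card_coprime_formula (hcop : (Nat.card K₀).Coprime K₀.index) :
    Nat.card {χ : IrrCharacter M // (charDegree (χ : M → ℂ)).Coprime K₀.index} =
      Nat.card {θ : IrrCharacter K₀ // ∀ (g : M) (n : K₀), (θ : K₀ → ℂ) ⟨g * n * g⁻¹, hK₀.conj_mem (n : M) n.2 g⟩ = (θ : K₀ → ℂ) n} *
        Nat.card {l : M →* ℂˣ // ∀ n : K₀, l n = 1} := by
  classical
  letI : Fintype K₀ := Fintype.ofFinite K₀
  have hdcop : ∀ θ : IrrCharacter K₀, K₀.index.Coprime (charDegree (θ : K₀ → ℂ)) := fun θ =>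
    (Nat.Coprime.coprime_dvd_left (charDegree_dvd_card θ.2) hcop).symm
  have hocop : ∀ θ : IrrCharacter K₀, K₀.index.Coprime (detOrder (θ : K₀ → ℂ)) := fun θ =>
    (Nat.Coprime.coprime_dvd_left (detOrder_dvd_card (IsIrrCharacter.isCharacter' θ.2)) hcop).symm
  have hcan : ∀ θ : {θ : IrrCharacter K₀ // ∀ (g : M) (n : K₀), (θ : K₀ → ℂ) ⟨g * n * g⁻¹, hK₀.conj_mem (n : M) n.2 g⟩ = (θ : K₀ → ℂ) n},
      ∃ χ : IrrCharacter M, ∀ n : K₀, (χ : M → ℂ) n = (θ.1 : K₀ → ℂ) n := by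
    intro θ
    obtain ⟨χ, ⟨h1, h2, -⟩, -⟩ := canonical_ext K₀ (θ.1 : K₀ → ℂ) θ.1.2 θ.2 (charDegree (θ.1 : K₀ → ℂ))
      (charDegree_cast (IsIrrCharacter.isCharacter' θ.1.2)).symm
      (Nat.Coprime.mul_right (hocop θ.1) (hdcop θ.1))
    exact ⟨⟨χ, h1⟩, h2⟩
  choose ext hext using hcan
  have hone : ∀ θ, (ext θ : M → ℂ) 1 = (θ.1 : K₀ → ℂ) 1 := fun θ => by
    have := hext θ 1
    simpa using this
  have hdeg : ∀ θ (l : M →* ℂˣ), charDegree ((Cfsg.Agent.Lib.GlaubM.twist l (ext θ) : IrrCharacter M) : M → ℂ) = charDegree (θ.1 : K₀ → ℂ) := by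
    intro θ l
    unfold charDegree
    rw [Cfsg.Agent.Lib.GlaubM.twist_apply, map_one, hone]
    simp
  have hext_ext : ∀ θ (l : M →* ℂˣ), (∀ n : K₀, l n = 1) → ∀ n : K₀, (Cfsg.Agent.Lib.GlaubM.twist l (ext θ) : M → ℂ) n = (θ.1 : K₀ → ℂ) n := by
    intro θ l hl n
    rw [Cfsg.Agent.Lib.GlaubM.twist_apply, hl, hext]
    simp
  let Φ : {θ : IrrCharacter K₀ // ∀ (g : M) (n : K₀), (θ : K₀ → ℂ) ⟨g * n * g⁻¹, hK₀.conj_mem (n : M) n.2 g⟩ = (θ : K₀ → ℂ) n} ×
      {l : M →* ℂˣ // ∀ n : K₀, l n = 1} → {χ : IrrCharacter M // (charDegree (χ : M → ℂ)).Coprime K₀.index} :=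
    fun x => ⟨Cfsg.Agent.Lib.GlaubM.twist x.2.1 (ext x.1), by
      rw [hdeg]
      exact (hdcop x.1.1).symm⟩
  have hbij : Function.Bijective Φ := by
    constructor
    · rintro ⟨θ, l⟩ ⟨θ', l'⟩ h
      have h1 : (Cfsg.Agent.Lib.GlaubM.twist l.1 (ext θ) : IrrCharacter M) = Cfsg.Agent.Lib.GlaubM.twist l'.1 (ext θ') :=
        congrArg Subtype.val h
      have hθ : θ = θ' := by
        apply Subtype.ext
        apply Subtype.ext
        funext n
        rw [← hext_ext θ l.1 l.2 n, ← hext_ext θ' l'.1 l'.2 n, h1]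
      subst hθ
      have hl : l = l' := by
        apply Subtype.ext
        let δ : M →* ℂˣ := l.1 * (l'.1)⁻¹
        have hδN : ∀ n : K₀, δ n = 1 := by
          intro n
          simp [δ, l.2 n, l'.2 n]
        have hm := hom_pow_index_eq_one K₀ δ hδN
        have hχ := IsIrrCharacter.isCharacter' (ext θ).2
        have hfun : ∀ g, (δ g : ℂ) * (ext θ : M → ℂ) g = (ext θ : M → ℂ) g := by
          intro g
          have h2 := congrArg (fun χ : IrrCharacter M => (χ : M → ℂ) g) h1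
          simp only [Cfsg.Agent.Lib.GlaubM.twist_apply] at h2
          have h3 : (l.1 g : ℂ) = (δ g : ℂ) * (l'.1 g : ℂ) := by
            simp [δ]
          rw [h3, mul_assoc] at h2
          have h4 : (l'.1 g : ℂ) ≠ 0 := (l'.1 g).ne_zero
          rw [mul_left_comm] at h2
          exact mul_left_cancel₀ h4 h2
        have hd1 : (ext θ : M → ℂ) 1 = (charDegree (θ.1 : K₀ → ℂ) : ℂ) := by
          rw [hone]
          exact (charDegree_cast (IsIrrCharacter.isCharacter' θ.1.2)).symm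
        have hdet : δ ^ charDegree (θ.1 : K₀ → ℂ) = 1 := by
          ext g
          have h2 := detChar_twist hχ δ (charDegree (θ.1 : K₀ → ℂ)) hd1 g
          have h3 : (fun x => (δ x : ℂ) * (ext θ : M → ℂ) x) = (ext θ : M → ℂ) := funext hfun
          rw [h3] at h2
          have h4 : detChar (ext θ : M → ℂ) g ≠ 0 := by
            rw [← detHom_apply hχ]
            exact (detHom hχ g).ne_zero
          have h5 : ((δ g : ℂ) ^ charDegree (θ.1 : K₀ → ℂ) - 1) * detChar (ext θ : M → ℂ) g = 0 := by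
            rw [sub_mul, ← h2, one_mul, sub_self]
          rcases mul_eq_zero.mp h5 with h6 | h6
          · have h7 := sub_eq_zero.mp h6
            show (((δ ^ charDegree (θ.1 : K₀ → ℂ)) g : ℂˣ) : ℂ) = 1
            have h8 : (δ ^ charDegree (θ.1 : K₀ → ℂ)) g = (δ g) ^ charDegree (θ.1 : K₀ → ℂ) := rfl
            rw [h8, Units.val_pow_eq_pow_val, h7]
          · exact absurd h6 h4
        have h3 : orderOf δ ∣ charDegree (θ.1 : K₀ → ℂ) := orderOf_dvd_of_pow_eq_one hdet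
        have h4 : orderOf δ ∣ K₀.index := orderOf_dvd_of_pow_eq_one hm
        have h5 : orderOf δ ∣ Nat.gcd K₀.index (charDegree (θ.1 : K₀ → ℂ)) := Nat.dvd_gcd h4 h3
        rw [(hdcop θ.1).gcd_eq_one, Nat.dvd_one] at h5
        have h6 : δ = 1 := orderOf_eq_one_iff.mp h5
        exact mul_inv_eq_one.mp h6
      rw [hl]
    · rintro ⟨χ, hχ⟩
      have hextall : ∀ θ : K₀ → ℂ, IsIrrCharacter K₀ θ → (∀ (g : M) (n : K₀), θ ⟨g * n * g⁻¹, hK₀.conj_mem (n : M) n.2 g⟩ = θ n) →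
          K₀.index.Coprime (charDegree θ) → ∃ ψ : M → ℂ, IsIrrCharacter M ψ ∧ ∀ n : K₀, ψ n = θ n := by
        intro θ h1 h2 _
        exact ⟨ext ⟨⟨θ, h1⟩, h2⟩, (ext ⟨⟨θ, h1⟩, h2⟩).2, hext ⟨⟨θ, h1⟩, h2⟩⟩
      have hirr := restrict_irr_of_coprime K₀ hextall χ.2 hχ.symm
      let θ : {θ : IrrCharacter K₀ // ∀ (g : M) (n : K₀), (θ : K₀ → ℂ) ⟨g * n * g⁻¹, hK₀.conj_mem (n : M) n.2 g⟩ = (θ : K₀ → ℂ) n} :=
        ⟨⟨fun n : K₀ => (χ : M → ℂ) n, hirr⟩, fun g n => IsCharacter.isClassFunction' (IsIrrCharacter.isCharacter' χ.2) _ _⟩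
      obtain ⟨l, hl1, hl2⟩ := ext_twist K₀ (IsIrrCharacter.isCharacter' (ext θ).2) (IsIrrCharacter.isCharacter' χ.2) hirr (hext θ) (fun _ => rfl)
      refine ⟨(θ, ⟨l, hl1⟩), ?_⟩
      apply Subtype.ext
      apply Subtype.ext
      funext g
      exact (hl2 g).symm
  rw [← Nat.card_prod]
  exact (Nat.card_congr (Equiv.ofBijective Φ hbij)).symm

end Formula

section Retract

variable {M H₀ : Type*} [Group M] [Group H₀]

theorem exists_retraction (ι : H₀ →* M) (K₀ : Subgroup M) [hK : K₀.Normal]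
    (hgen : ∀ m, ∃ k ∈ K₀, ∃ h, m = k * ι h) (hinj : ∀ h, ι h ∈ K₀ → h = 1) :
    ∃ r : M →* H₀, (∀ h, r (ι h) = h) ∧ ∀ k ∈ K₀, r k = 1 := by
  classical
  choose k hk h hm using hgen
  have huniq : ∀ (a b : H₀) (x y : M), x ∈ K₀ → y ∈ K₀ → x * ι a = y * ι b → a = b := by
    intro a b x y hx hy he
    have h1 : ι (a * b⁻¹) = x⁻¹ * y := by
      rw [map_mul, map_inv]
      have h2 : ι a = x⁻¹ * (y * ι b) := by
        rw [← he]
        group
      rw [h2]
      group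
    have h2 := hinj (a * b⁻¹) (by
      rw [h1]
      exact K₀.mul_mem (K₀.inv_mem hx) hy)
    exact mul_inv_eq_one.mp h2
  refine ⟨MonoidHom.mk' h ?_, ?_, ?_⟩
  · intro a b
    have h1 : a * b = (k a * (ι (h a) * k b * (ι (h a))⁻¹)) * ι (h a * h b) := by
      rw [map_mul]
      conv_lhs => rw [hm a, hm b]
      group
    exact huniq _ _ _ _ (hk (a * b)) (K₀.mul_mem (hk a) (hK.conj_mem _ (hk b) _)) ((hm (a * b)).symm.trans h1)
  · intro a
    show h (ι a) = a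
    exact huniq _ _ _ 1 (hk _) K₀.one_mem (by
      rw [one_mul]
      exact (hm _).symm)
  · intro x hx
    show h x = 1
    exact huniq (h x) 1 (k x) x (hk x) hx (by
      rw [map_one, mul_one]
      exact (hm x).symm)

theorem card_lin_eq (ι : H₀ →* M) (K₀ : Subgroup M) [hK : K₀.Normal]
    (hgen : ∀ m, ∃ k ∈ K₀, ∃ h, m = k * ι h) (hinj : ∀ h, ι h ∈ K₀ → h = 1) :
    Nat.card {l : M →* ℂˣ // ∀ n : K₀, l n = 1} = Nat.card (H₀ →* ℂˣ) := by
  obtain ⟨r, hr1, hr2⟩ := exists_retraction ι K₀ hgen hinj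
  refine Nat.card_congr
    { toFun := fun l => l.1.comp ι
      invFun := fun f => ⟨f.comp r, fun n => by
        show f (r n) = 1
        rw [hr2 _ n.2, map_one]⟩
      left_inv := ?_
      right_inv := ?_ }
  · rintro ⟨l, hl⟩
    apply Subtype.ext
    ext m
    obtain ⟨k, hk, h, rfl⟩ := hgen m
    show ((l (ι (r (k * ι h))) : ℂˣ) : ℂ) = (l (k * ι h) : ℂˣ)
    rw [map_mul r, hr1, hr2 _ hk, one_mul, map_mul l, hl ⟨k, hk⟩, one_mul]
  · intro f
    ext x
    show ((f (r (ι x)) : ℂˣ) : ℂ) = f x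
    rw [hr1]

theorem index_eq_card_of_retraction [Finite H₀] (ι : H₀ →* M) (K₀ : Subgroup M) [hK : K₀.Normal]
    (hgen : ∀ m, ∃ k ∈ K₀, ∃ h, m = k * ι h) (hinj : ∀ h, ι h ∈ K₀ → h = 1) :
    K₀.index = Nat.card H₀ := by
  obtain ⟨r, hr1, hr2⟩ := exists_retraction ι K₀ hgen hinj
  have hker : r.ker = K₀ := by
    ext m
    constructor
    · intro hm
      obtain ⟨k, hk, h, rfl⟩ := hgen m
      have h1 : r (k * ι h) = 1 := hm
      rw [map_mul, hr2 _ hk, one_mul, hr1] at h1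
      rw [h1, map_one, mul_one]
      exact hk
    · intro hm
      exact hr2 _ hm
  rw [← hker, Subgroup.index_ker]
  have hr : r.range = ⊤ := MonoidHom.range_eq_top.mpr fun h => ⟨ι h, hr1 h⟩
  rw [hr, Subgroup.card_top]

end Retract

section Classes

variable {G : Type u} [Group G] [Fintype G] (K H : Subgroup G) [hK : K.Normal]
  (hcop : (Nat.card K).Coprime (Nat.card H)) (hsolv : Group.IsSolvable H)
include hcop hsolv

/-- Two elements of `K` centralized by `H` which are conjugate in `K` are conjugate by an element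
centralized by `H`. -/
theorem conj_in_centralizer (x y g : G) (hg : g ∈ K)
    (hx : ∀ s ∈ H, s * x * s⁻¹ = x) (hy : ∀ s ∈ H, s * y * s⁻¹ = y) (hgxy : g * x * g⁻¹ = y) :
    ∃ g' ∈ K, (∀ s ∈ H, s * g' * s⁻¹ = g') ∧ g' * x * g'⁻¹ = y := by
  classical
  have hinf : K ⊓ H = ⊥ := Subgroup.inf_eq_bot_of_coprime hcop
  let K₁ : Subgroup G := K ⊓ Subgroup.centralizer ({y} : Set G)
  have hmem : ∀ k, k ∈ K₁ ↔ k ∈ K ∧ k * y = y * k := by
    intro k
    simp only [K₁, Subgroup.mem_inf, Subgroup.mem_centralizer_singleton_iff]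
  have hinvfix : ∀ z : G, (∀ s ∈ H, s * z * s⁻¹ = z) → ∀ s ∈ H, s⁻¹ * z * s = z := by
    intro z hz s hs
    have := hz s⁻¹ (H.inv_mem hs)
    simpa using this
  have hnorm : ∀ s ∈ H, ∀ k ∈ K₁, s * k * s⁻¹ ∈ K₁ := by
    intro s hs k hk
    obtain ⟨h1, h2⟩ := (hmem k).mp hk
    refine (hmem _).mpr ⟨hK.conj_mem k h1 s, ?_⟩
    calc s * k * s⁻¹ * y = s * k * (s⁻¹ * y * s) * s⁻¹ := by group
      _ = s * (k * y) * s⁻¹ := by
        rw [hinvfix y hy s hs]
        group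
      _ = s * (y * k) * s⁻¹ := by rw [h2]
      _ = (s * y * s⁻¹) * (s * k * s⁻¹) := by group
      _ = y * (s * k * s⁻¹) := by rw [hy s hs]
  have hcop₁ : (Nat.card K₁).Coprime (Nat.card H) := by
    have h1 : K₁ ≤ K := inf_le_left
    exact Nat.Coprime.coprime_dvd_left (Subgroup.card_dvd_of_le h1) hcop
  obtain ⟨k, hk, hfix⟩ := Cfsg.Agent.Lib.GlaubL.glauberman_amb K₁ H hnorm hcop₁ (Or.inr hsolv) ((g : G) : G ⧸ H) (by
    intro s hs
    refine ⟨(s * g * s⁻¹) * g⁻¹, ?_, ?_⟩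
    · refine (hmem _).mpr ⟨K.mul_mem (hK.conj_mem g hg s) (K.inv_mem hg), ?_⟩
      have h1 : g⁻¹ * y * g = x := by
        rw [← hgxy]
        group
      calc (s * g * s⁻¹) * g⁻¹ * y = (s * g * s⁻¹) * (g⁻¹ * y * g) * g⁻¹ := by group
        _ = (s * g * s⁻¹) * x * g⁻¹ := by rw [h1]
        _ = s * g * (s⁻¹ * x * s) * s⁻¹ * g⁻¹ := by group
        _ = s * g * x * s⁻¹ * g⁻¹ := by rw [hinvfix x hx s hs]
        _ = s * (g * x * g⁻¹) * g * s⁻¹ * g⁻¹ := by group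
        _ = s * y * g * s⁻¹ * g⁻¹ := by rw [hgxy]
        _ = (s * y * s⁻¹) * (s * g * s⁻¹ * g⁻¹) := by group
        _ = y * (s * g * s⁻¹ * g⁻¹) := by rw [hy s hs]
    · show ((s * g : G) : G ⧸ H) = ((s * g * s⁻¹ * g⁻¹ * g : G) : G ⧸ H)
      apply QuotientGroup.eq.mpr
      have h1 : (s * g)⁻¹ * (s * g * s⁻¹ * g⁻¹ * g) = s⁻¹ := by group
      rw [h1]
      exact H.inv_mem hs)
  obtain ⟨h1, h2⟩ := (hmem k).mp hk
  refine ⟨k * g, K.mul_mem h1 hg, ?_, ?_⟩
  · intro s hs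
    have h3 := hfix s hs
    have h4 : ((s * (k * g) : G) : G ⧸ H) = ((k * g : G) : G ⧸ H) := h3
    have h5 : (s * (k * g))⁻¹ * (k * g) ∈ H := QuotientGroup.eq.mp h4
    have hu : k * g ∈ K := K.mul_mem h1 hg
    generalize k * g = u at h5 hu
    have h6 : u⁻¹ * s⁻¹ * u ∈ H := by
      have h7 : (s * u)⁻¹ * u = u⁻¹ * s⁻¹ * u := by group
      rwa [h7] at h5
    have h7 : u⁻¹ * s⁻¹ * u * s ∈ K ⊓ H := by
      refine ⟨?_, H.mul_mem h6 hs⟩
      have h8 : u⁻¹ * s⁻¹ * u * s = u⁻¹ * (s⁻¹ * u * s⁻¹⁻¹) := by group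
      rw [h8]
      exact K.mul_mem (K.inv_mem hu) (hK.conj_mem u hu s⁻¹)
    rw [hinf, Subgroup.mem_bot] at h7
    have h8 : s⁻¹ * u * s = u := by
      have h9 : u * (u⁻¹ * s⁻¹ * u * s) = u * 1 := by rw [h7]
      have h10 : u * (u⁻¹ * s⁻¹ * u * s) = s⁻¹ * u * s := by group
      rw [h10, mul_one] at h9
      exact h9
    calc s * u * s⁻¹ = s * (s⁻¹ * u * s) * s⁻¹ := by rw [h8]
      _ = u := by group
  · calc k * g * x * (k * g)⁻¹ = k * (g * x * g⁻¹) * k⁻¹ := by group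
      _ = k * y * k⁻¹ := by rw [hgxy]
      _ = y := by
        rw [h2]
        group

/-- An `H`-invariant class of `K` contains an element centralized by `H`. -/
theorem exists_fixed_conj (x : G) (h : ∀ s ∈ H, ∃ g ∈ K, s * x * s⁻¹ = g * x * g⁻¹) :
    ∃ g ∈ K, ∀ s ∈ H, s * (g * x * g⁻¹) * s⁻¹ = g * x * g⁻¹ := by
  classical
  let Cx : Subgroup G := Subgroup.centralizer ({x} : Set G)
  obtain ⟨g, hg, hfix⟩ := Cfsg.Agent.Lib.GlaubL.glauberman_amb K H (fun s _ g hg => hK.conj_mem g hg s) hcop (Or.inr hsolv)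
    ((1 : G) : G ⧸ Cx) (by
      intro s hs
      obtain ⟨g, hg, h1⟩ := h s hs
      refine ⟨g, hg, ?_⟩
      show ((s * 1 : G) : G ⧸ Cx) = ((g * 1 : G) : G ⧸ Cx)
      apply QuotientGroup.eq.mpr
      rw [mul_one, mul_one]
      show s⁻¹ * g ∈ Subgroup.centralizer ({x} : Set G)
      rw [Subgroup.mem_centralizer_singleton_iff]
      have h2 : s * x = g * x * g⁻¹ * s := by
        rw [← h1]
        group
      calc s⁻¹ * g * x = s⁻¹ * (g * x * g⁻¹) * g := by group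
        _ = s⁻¹ * (s * x * s⁻¹) * g := by rw [h1]
        _ = x * (s⁻¹ * g) := by group)
  refine ⟨g, hg, fun s hs => ?_⟩
  have h2 := hfix s hs
  have h3 : ((s * (g * 1) : G) : G ⧸ Cx) = ((g * 1 : G) : G ⧸ Cx) := h2
  have h4 : (s * (g * 1))⁻¹ * (g * 1) ∈ Subgroup.centralizer ({x} : Set G) := QuotientGroup.eq.mp h3
  rw [Subgroup.mem_centralizer_singleton_iff, mul_one] at h4
  have h5 : s⁻¹ * (g * x * g⁻¹) * s = g * x * g⁻¹ := by
    have h6 : (s * g)⁻¹ * g * x = x * ((s * g)⁻¹ * g) := h4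
    have h7 : g * ((s * g)⁻¹ * g * x) * (g⁻¹ * s * g) * g⁻¹ = s⁻¹ * (g * x * g⁻¹) * s := by group
    rw [← h7, h6]
    group
  calc s * (g * x * g⁻¹) * s⁻¹ = s * (s⁻¹ * (g * x * g⁻¹) * s) * s⁻¹ := by rw [h5]
    _ = g * x * g⁻¹ := by group

theorem card_classes_fix {A : Type*} [Group A] (ι₁ : A →* K) (hι : Function.Injective ι₁)
    (hrange : ∀ x : K, (∃ a, ι₁ a = x) ↔ ∀ s ∈ H, s * (x : G) * s⁻¹ = x) :
    Nat.card (ConjClasses A) = Nat.card {K' : ConjClasses K // ∀ s ∈ H, ∀ g g' : K, (g' : G) = s * g * s⁻¹ → ConjClasses.mk g = K' → ConjClasses.mk g' = K'} := by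
  classical
  have hfixι : ∀ a : A, ∀ s ∈ H, s * (ι₁ a : G) * s⁻¹ = ι₁ a := fun a => (hrange _).mp ⟨a, rfl⟩
  have hinv : ∀ c : ConjClasses A, ∀ s ∈ H, ∀ g g' : K, (g' : G) = s * g * s⁻¹ → ConjClasses.mk g = ConjClasses.map ι₁ c → ConjClasses.mk g' = ConjClasses.map ι₁ c := by
    intro c
    obtain ⟨a, rfl⟩ := ConjClasses.mk_surjective c
    intro s hs g g' hg' hgc
    have h1 : IsConj g (ι₁ a) := ConjClasses.mk_eq_mk_iff_isConj.mp hgc
    obtain ⟨t, ht⟩ := isConj_iff.mp h1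
    apply ConjClasses.mk_eq_mk_iff_isConj.mpr
    refine isConj_iff.mpr ⟨⟨s * t * s⁻¹, hK.conj_mem t t.2 s⟩, ?_⟩
    apply Subtype.ext
    have h2 : (t : G) * g * (t : G)⁻¹ = ι₁ a := congrArg Subtype.val ht
    simp only [Subgroup.coe_mul, Subgroup.coe_inv]
    rw [hg']
    calc s * ↑t * s⁻¹ * (s * ↑g * s⁻¹) * (s * ↑t * s⁻¹)⁻¹ = s * ((t : G) * g * (t : G)⁻¹) * s⁻¹ := by group
      _ = s * (ι₁ a : G) * s⁻¹ := by rw [h2]
      _ = _ := hfixι a s hs
  refine Nat.card_congr (Equiv.ofBijective (fun c => ⟨ConjClasses.map ι₁ c, hinv c⟩) ⟨?_, ?_⟩)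
  · intro c c' h
    obtain ⟨a, rfl⟩ := ConjClasses.mk_surjective c
    obtain ⟨b, rfl⟩ := ConjClasses.mk_surjective c'
    have h1 : ConjClasses.mk (ι₁ a) = ConjClasses.mk (ι₁ b) := congrArg Subtype.val h
    obtain ⟨t, ht⟩ := isConj_iff.mp (ConjClasses.mk_eq_mk_iff_isConj.mp h1)
    have ht' : (t : G) * ι₁ a * (t : G)⁻¹ = ι₁ b := congrArg Subtype.val ht
    obtain ⟨g', hg', hfix, hg'2⟩ := conj_in_centralizer K H hcop hsolv _ _ t t.2 (hfixι a) (hfixι b) ht'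
    obtain ⟨c, hc⟩ := (hrange ⟨g', hg'⟩).mpr hfix
    have hc' : (ι₁ c : G) = g' := congrArg Subtype.val hc
    apply ConjClasses.mk_eq_mk_iff_isConj.mpr
    refine isConj_iff.mpr ⟨c, hι ?_⟩
    apply Subtype.ext
    simp only [map_mul, map_inv, Subgroup.coe_mul, Subgroup.coe_inv, hc']
    exact hg'2
  · rintro ⟨K', hK'⟩
    obtain ⟨x, rfl⟩ := ConjClasses.mk_surjective K'
    obtain ⟨g, hg, hfix⟩ := exists_fixed_conj K H hcop hsolv (x : G) (by
      intro s hs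
      have h1 := hK' s hs x ⟨s * x * s⁻¹, hK.conj_mem x x.2 s⟩ rfl rfl
      obtain ⟨t, ht⟩ := isConj_iff.mp (ConjClasses.mk_eq_mk_iff_isConj.mp h1)
      have ht' : (t : G) * (s * x * s⁻¹) * (t : G)⁻¹ = x := congrArg Subtype.val ht
      refine ⟨(t : G)⁻¹, K.inv_mem t.2, ?_⟩
      calc s * x * s⁻¹ = (t : G)⁻¹ * ((t : G) * (s * x * s⁻¹) * (t : G)⁻¹) * t := by group
        _ = (t : G)⁻¹ * x * t := by rw [ht']
        _ = _ := by group)
    obtain ⟨a, ha⟩ := (hrange ⟨g * x * g⁻¹, hK.conj_mem x x.2 g⟩).mpr hfix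
    refine ⟨ConjClasses.mk a, Subtype.ext ?_⟩
    show ConjClasses.mk (ι₁ a) = ConjClasses.mk x
    apply ConjClasses.mk_eq_mk_iff_isConj.mpr
    refine isConj_iff.mpr ⟨⟨g⁻¹, K.inv_mem hg⟩, ?_⟩
    apply Subtype.ext
    rw [ha]
    simp only [Subgroup.coe_mul, Subgroup.coe_inv, inv_inv]
    group

end Classes

section Main

variable {G : Type u} [Group G] [Fintype G] (K H : Subgroup G) [hK : K.Normal]

theorem coprime_count (hKH : K ⊔ H = ⊤) (hcop : (Nat.card K).Coprime (Nat.card H)) (hsolv : Group.IsSolvable H) :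
    Nat.card {χ : IrrCharacter G // (charDegree (χ : G → ℂ)).Coprime (Nat.card H)} =
      Nat.card {η : IrrCharacter (Subgroup.normalizer (H : Set G)) //
        (charDegree (η : Subgroup.normalizer (H : Set G) → ℂ)).Coprime (Nat.card H)} := by
  classical
  have hinf : K ⊓ H = ⊥ := Subgroup.inf_eq_bot_of_coprime hcop
  have hdec : ∀ m : G, ∃ k ∈ K, ∃ h : H, m = k * (h : G) := by
    intro m
    have h1 : m ∈ ((K ⊔ H : Subgroup G) : Set G) := by
      rw [hKH]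
      trivial
    rw [Subgroup.normal_mul] at h1
    obtain ⟨a, ha, b, hb, hab⟩ := Set.mem_mul.mp h1
    exact ⟨a, ha, ⟨b, hb⟩, hab.symm⟩
  have hHK : ∀ h : H, (h : G) ∈ K → h = 1 := by
    intro h hh
    have h1 : (h : G) ∈ K ⊓ H := ⟨hh, h.2⟩
    rw [hinf, Subgroup.mem_bot] at h1
    exact Subtype.ext h1
  -- the whole group
  have hiG : K.index = Nat.card H := index_eq_card_of_retraction H.subtype K hdec hHK
  have hfG := card_coprime_formula K (by rw [hiG]; exact hcop)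
  rw [hiG] at hfG
  rw [hfG, card_lin_eq H.subtype K hdec hHK]
  -- the normalizer
  set N := Subgroup.normalizer (H : Set G) with hNdef
  have hHN : H ≤ N := Subgroup.le_normalizer
  let ιN : H →* N := Subgroup.inclusion hHN
  have hιN : ∀ h : H, ((ιN h : N) : G) = h := fun _ => rfl
  let K₀ : Subgroup N := K.subgroupOf N
  haveI hK₀N : K₀.Normal := inferInstanceAs (K.subgroupOf N).Normal
  have hdecN : ∀ m : N, ∃ k ∈ K₀, ∃ h : H, m = k * ιN h := by
    intro m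
    obtain ⟨k, hk, h, hm⟩ := hdec m
    have hkN : k ∈ N := by
      have h1 : k = (m : G) * (h : G)⁻¹ := by
        rw [hm]
        group
      rw [h1]
      exact N.mul_mem m.2 (N.inv_mem (hHN h.2))
    refine ⟨⟨k, hkN⟩, Subgroup.mem_subgroupOf.mpr hk, h, Subtype.ext ?_⟩
    exact hm
  have hHKN : ∀ h : H, ιN h ∈ K₀ → h = 1 := fun h hh => hHK h (Subgroup.mem_subgroupOf.mp hh)
  have hiN : K₀.index = Nat.card H := index_eq_card_of_retraction ιN K₀ hdecN hHKN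
  have hcard₀ : Nat.card K₀ ∣ Nat.card K := GlaubL.card_subgroupOf_dvd _ _
  have hcopN : (Nat.card K₀).Coprime K₀.index := by
    rw [hiN]
    exact Nat.Coprime.coprime_dvd_left hcard₀ hcop
  have hfN := card_coprime_formula K₀ hcopN
  rw [hiN] at hfN
  rw [hfN, card_lin_eq ιN K₀ hdecN hHKN]
  congr 1
  -- elements of `K₀` commute with `H`
  have hcomm : ∀ c : K₀, ∀ s ∈ H, s * ((c : N) : G) * s⁻¹ = ((c : N) : G) := by
    intro c s hs
    have hcK : ((c : N) : G) ∈ K := Subgroup.mem_subgroupOf.mp c.2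
    have hcN : ((c : N) : G) ∈ N := (c : N).2
    have h1 : s * ((c : N) : G) * s⁻¹ * ((c : N) : G)⁻¹ ∈ K ⊓ H := by
      refine ⟨K.mul_mem (hK.conj_mem _ hcK s) (K.inv_mem hcK), ?_⟩
      have h2 : ((c : N) : G) * s⁻¹ * ((c : N) : G)⁻¹ ∈ H :=
        (Subgroup.mem_normalizer_iff.mp hcN _).mp (H.inv_mem hs)
      have h3 : s * ((c : N) : G) * s⁻¹ * ((c : N) : G)⁻¹ = s * (((c : N) : G) * s⁻¹ * ((c : N) : G)⁻¹) := by group
      rw [h3]
      exact H.mul_mem hs h2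
    rw [hinf, Subgroup.mem_bot] at h1
    exact mul_inv_eq_one.mp h1
  -- every character of `K₀` is invariant
  have hall : ∀ (θ : IrrCharacter K₀) (g : N) (n : K₀), (θ : K₀ → ℂ) ⟨g * n * g⁻¹, hK₀N.conj_mem (n : N) n.2 g⟩ = (θ : K₀ → ℂ) n := by
    intro θ g n
    obtain ⟨c, hc, h, rfl⟩ := hdecN g
    have hcl := IsCharacter.isClassFunction' (IsIrrCharacter.isCharacter' θ.2)
    refine (congrArg (θ : K₀ → ℂ) ?_).trans (hcl n ⟨c, hc⟩)
    apply Subtype.ext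
    apply Subtype.ext
    have h2 := hcomm n h h.2
    simp only [Subgroup.coe_mul, Subgroup.coe_inv, mul_inv_rev, hιN, InvMemClass.coe_inv, MulMemClass.coe_mul]
    calc (c : G) * h * ((n : N) : G) * ((h : G)⁻¹ * (c : G)⁻¹) = (c : G) * ((h : G) * ((n : N) : G) * (h : G)⁻¹) * (c : G)⁻¹ := by group
      _ = (c : G) * ((n : N) : G) * (c : G)⁻¹ := by rw [h2]
  have h1 : Nat.card {θ : IrrCharacter K₀ // ∀ (g : N) (n : K₀), (θ : K₀ → ℂ) ⟨g * n * g⁻¹, hK₀N.conj_mem (n : N) n.2 g⟩ = (θ : K₀ → ℂ) n} = Nat.card (IrrCharacter K₀) :=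
    Nat.card_congr (Equiv.subtypeUnivEquiv fun θ g n => hall θ g n)
  rw [h1]
  letI : Fintype K₀ := Fintype.ofFinite K₀
  letI : Fintype K := Fintype.ofFinite K
  rw [card_irr]
  -- classes
  let ι₁ : K₀ →* K :=
    { toFun := fun c => ⟨((c : N) : G), c.2⟩
      map_one' := rfl
      map_mul' := fun _ _ => rfl }
  have hι₁ : Function.Injective ι₁ := by
    intro a b hab
    apply Subtype.ext
    apply Subtype.ext
    show ((ι₁ a : K) : G) = ((ι₁ b : K) : G)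
    rw [hab]
  have hrange : ∀ x : K, (∃ a, ι₁ a = x) ↔ ∀ s ∈ H, s * (x : G) * s⁻¹ = x := by
    intro x
    constructor
    · rintro ⟨a, rfl⟩
      exact hcomm a
    · intro hx
      have hxN : (x : G) ∈ N := by
        rw [hNdef, Subgroup.mem_normalizer_iff]
        intro h
        have h2 : ∀ s ∈ H, (x : G) * s * (x : G)⁻¹ = s := by
          intro s hs
          have h3 := hx s hs
          calc (x : G) * s * (x : G)⁻¹ = (s * (x : G) * s⁻¹) * s * (x : G)⁻¹ := by rw [h3]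
            _ = s := by group
        constructor
        · intro hh
          rw [h2 h hh]
          exact hh
        · intro hh
          have h3 : h = (x : G)⁻¹ * ((x : G) * h * (x : G)⁻¹) * ((x : G)⁻¹)⁻¹ := by group
          have h4 := h2 _ hh
          have h5 : (x : G)⁻¹ * ((x : G) * h * (x : G)⁻¹) * (x : G) = h := by group
          rw [← h5]
          have h6 : ∀ s ∈ H, (x : G)⁻¹ * s * (x : G) = s := by
            intro s hs
            have h7 := h2 s hs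
            calc (x : G)⁻¹ * s * (x : G) = (x : G)⁻¹ * ((x : G) * s * (x : G)⁻¹) * (x : G) := by rw [h7]
              _ = s := by group
          rw [h6 _ hh]
          exact hh
      exact ⟨⟨⟨x, hxN⟩, x.2⟩, rfl⟩
  rw [card_classes_fix K H hcop hsolv ι₁ hι₁ hrange]
  rw [← Cfsg.Agent.Lib.Glaub2.conj_count K H (fun s _ g hg => hK.conj_mem g hg s) hcop hsolv]
  refine Nat.card_congr (Equiv.subtypeEquivRight fun θ => ?_)
  constructor
  · intro h s hs g g' hg'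
    have h2 : g' = ⟨s * g * s⁻¹, hK.conj_mem g g.2 s⟩ := Subtype.ext hg'
    rw [h2]
    exact h s g
  · intro h x n
    obtain ⟨k, hk, s, rfl⟩ := hdec x
    have hcl := IsCharacter.isClassFunction' (IsIrrCharacter.isCharacter' θ.2)
    have h2 := h s s.2 n ⟨(s : G) * n * (s : G)⁻¹, hK.conj_mem n n.2 s⟩ rfl
    have e : (⟨(k * (s : G)) * n * (k * (s : G))⁻¹, hK.conj_mem (n : G) n.2 (k * (s : G))⟩ : K) =
        ⟨k, hk⟩ * ⟨(s : G) * n * (s : G)⁻¹, hK.conj_mem n n.2 s⟩ * (⟨k, hk⟩ : K)⁻¹ := by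
      apply Subtype.ext
      simp only [Subgroup.coe_mul, Subgroup.coe_inv]
      group
    rw [e, hcl, h2]

end Main

end Cfsg.Agent.Lib.CharCop
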