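import Cfsg.Agent.Lib.CharCommutant

/-!
# Matrix entries of endomorphisms of the permutation module
-/

set_option linter.unusedSectionVars false
set_option linter.style.haveILetI false

namespace Cfsg.Agent.Lib.CharPermComm

open scoped ComplexConjugate
open Module Cfsg Cfsg.Agent.Lib.CharCore Cfsg.Agent.Lib.CharBasic Cfsg.Agent.Lib.CharIrr
  Cfsg.Agent.Lib.CharOps Cfsg.Agent.Lib.CharGen Cfsg.Agent.Lib.CharAb Cfsg.Agent.Lib.CharCommutant

universe u v w

variable {G : Type u} [Group G] [Fintype G]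
variable {Ω : Type*} [Fintype Ω] [DecidableEq Ω] [MulAction G Ω]

/-- Matrix entries. -/
noncomputable def ent (S : End ℂ (Ω → ℂ)) (x y : Ω) : ℂ := S (Pi.single y 1) x

theorem apply_eq_sum (S : End ℂ (Ω → ℂ)) (f : Ω → ℂ) (x : Ω) :
    S f x = ∑ y, ent S x y * f y := by
  have h : f = ∑ y, f y • (Pi.single y (1 : ℂ) : Ω → ℂ) := by
    funext z
    simp [Finset.sum_apply, Pi.single_apply]
  conv_lhs => rw [h]
  simp only [map_sum, map_smul, Finset.sum_apply, Pi.smul_apply, smul_eq_mul, ent]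
  exact Finset.sum_congr rfl fun y _ => mul_comm _ _

theorem ext_ent {S T : End ℂ (Ω → ℂ)} (h : ∀ x y, ent S x y = ent T x y) : S = T := by
  refine LinearMap.ext fun f => ?_
  funext x
  rw [apply_eq_sum, apply_eq_sum]
  exact Finset.sum_congr rfl fun y _ => by rw [h]

theorem ent_mul (S T : End ℂ (Ω → ℂ)) (x y : Ω) :
    ent (S * T) x y = ∑ z, ent S x z * ent T z y := by
  show S (T (Pi.single y 1)) x = _
  rw [apply_eq_sum]
  rfl

theorem ent_add (S T : End ℂ (Ω → ℂ)) (x y : Ω) : ent (S + T) x y = ent S x y + ent T x y := rfl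

theorem ent_smul (c : ℂ) (S : End ℂ (Ω → ℂ)) (x y : Ω) : ent (c • S) x y = c * ent S x y := rfl

theorem ent_zero (x y : Ω) : ent (0 : End ℂ (Ω → ℂ)) x y = 0 := rfl

theorem ent_sum {ι : Type*} (s : Finset ι) (f : ι → End ℂ (Ω → ℂ)) (x y : Ω) :
    ent (∑ i ∈ s, f i) x y = ∑ i ∈ s, ent (f i) x y := by
  simp [ent, Finset.sum_apply, LinearMap.sum_apply]

theorem ent_permRep (g : G) (x y : Ω) : ent (Cfsg.permRep ℂ G Ω g) x y = if g • y = x then 1 else 0 := by
  show (Pi.single y (1 : ℂ) : Ω → ℂ) (g⁻¹ • x) = _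
  rw [Pi.single_apply]
  by_cases h : g • y = x
  · have h2 : g⁻¹ • x = y := by
      rw [← h]
      simp
    rw [if_pos h, if_pos h2]
  · have h2 : g⁻¹ • x ≠ y := by
      intro h3
      apply h
      rw [← h3]
      simp
    rw [if_neg h, if_neg h2]

theorem ent_of_invariant {S : End ℂ (Ω → ℂ)} (hS : S ∈ ((Cfsg.permRep ℂ G Ω).linHom (Cfsg.permRep ℂ G Ω)).invariants)
    (g : G) (x y : Ω) : ent S (g • x) (g • y) = ent S x y := by
  have h := (mem_invariants_iff (Cfsg.permRep ℂ G Ω) S).mp hS g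
  have h1 : ent (S * Cfsg.permRep ℂ G Ω g) (g • x) y = ent (Cfsg.permRep ℂ G Ω g * S) (g • x) y := by rw [h]
  have h2 : ∀ (T : End ℂ (Ω → ℂ)) (z : Ω), ent (Cfsg.permRep ℂ G Ω g * T) (g • z) y = ent T z y := by
    intro T z
    show (T (Pi.single y 1)) (g⁻¹ • g • z) = _
    rw [inv_smul_smul]
    rfl
  have h3 : ent (S * Cfsg.permRep ℂ G Ω g) (g • x) y = ent S (g • x) (g • y) := by
    rw [ent_mul, Finset.sum_eq_single (g • y)]
    · rw [ent_permRep, if_pos rfl, mul_one]
    · intro z _ hz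
      rw [ent_permRep, if_neg (Ne.symm hz), mul_zero]
    · simp
  rw [h2] at h1
  rw [← h3, h1]

theorem ent_proj (χ : G → ℂ) (x y : Ω) :
    ent (proj (Cfsg.permRep ℂ G Ω) χ) x y =
      (χ 1 / (Nat.card G : ℂ)) * ∑ g : G, conj (χ g) * (if g • y = x then 1 else 0) := by
  rw [proj, ent_smul, Cfsg.Agent.Lib.CharClass.classOp, ent_sum]
  congr 1
  refine Finset.sum_congr rfl fun g _ => ?_
  rw [ent_smul, ent_permRep]

/-- The transpose of a central projection. -/
theorem ent_proj_swap {χ : G → ℂ} (hχ : IsIrrCharacter G χ) (x y : Ω) :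
    ent (proj (Cfsg.permRep ℂ G Ω) χ) y x = ent (proj (Cfsg.permRep ℂ G Ω) (fun g => conj (χ g))) x y := by
  rw [ent_proj, ent_proj]
  obtain ⟨d, hd0, hd⟩ := exists_degree_pos hχ
  have h1 : conj (χ 1) = χ 1 := by
    rw [hd]
    simp
  simp only [h1, Complex.conj_conj]
  congr 1
  refine Fintype.sum_equiv (Equiv.inv G) _ _ fun g => ?_
  simp only [Equiv.inv_apply]
  have h2 : χ g⁻¹ = conj (χ g) := Cfsg.Agent.Lib.CharBase0.IsCharacter.inv_eq (IsIrrCharacter.isCharacter' hχ) g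
  rw [h2]
  have h3 : (g • x = y) ↔ (g⁻¹ • y = x) := by
    constructor
    · rintro rfl
      simp
    · rintro rfl
      simp
  simp only [h3]

/-- The orbital operator of the orbit of `(a, b)`. -/
noncomputable def orbitalOp (a b : Ω) : End ℂ (Ω → ℂ) :=
  Matrix.mulVecLin (Matrix.of fun x y : Ω =>
    if ∃ g : G, g • a = x ∧ g • b = y then (1 : ℂ) else 0)

theorem ent_orbitalOp (a b x y : Ω) :
    ent (orbitalOp (G := G) a b) x y = if ∃ g : G, g • a = x ∧ g • b = y then (1 : ℂ) else 0 := by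
  show (Matrix.mulVec _ (Pi.single y 1)) x = _
  rw [Matrix.mulVec_single_one]
  rfl

theorem orbitalOp_mem (a b : Ω) :
    orbitalOp (G := G) a b ∈ ((Cfsg.permRep ℂ G Ω).linHom (Cfsg.permRep ℂ G Ω)).invariants := by
  rw [mem_invariants_iff]
  intro g
  apply ext_ent
  intro x y
  rw [ent_mul, ent_mul, Finset.sum_eq_single (g • y), Finset.sum_eq_single (g⁻¹ • x)]
  · rw [ent_permRep, if_pos rfl, mul_one, ent_permRep, if_pos (by simp), one_mul,
      ent_orbitalOp, ent_orbitalOp]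
    have h1 : (∃ h : G, h • a = x ∧ h • b = g • y) ↔ (∃ h : G, h • a = g⁻¹ • x ∧ h • b = y) := by
      constructor
      · rintro ⟨h, rfl, h2⟩
        refine ⟨g⁻¹ * h, by simp [mul_smul], ?_⟩
        rw [mul_smul, h2]
        simp
      · rintro ⟨h, h1, rfl⟩
        refine ⟨g * h, ?_, by simp [mul_smul]⟩
        rw [mul_smul, h1]
        simp
    simp only [h1]
  · intro z _ hz
    rw [ent_permRep, if_neg, zero_mul]
    intro h
    apply hz
    rw [← h]
    simp
  · simp
  · intro z _ hz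
    rw [ent_permRep, if_neg (Ne.symm hz), mul_zero]
  · simp

end Cfsg.Agent.Lib.CharPermComm
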