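import Cfsg.Agent.Lib.CharPermComm

/-!
# Suborbit sums of a character: integrality and vanishing

For a transitive action with point stabilizer `U` and suborbit `Δ = U b`, the number
`β χ = |U|⁻¹ ∑_{g a ∈ Δ} χ g` is an algebraic integer, and vanishes when `χ` is no constituent of
the permutation character.
-/

set_option linter.unusedSectionVars false
set_option linter.style.haveILetI false

namespace Cfsg.Agent.Lib.CharSuborbit

open scoped ComplexConjugate
open Module MulAction Cfsg Cfsg.Agent.Lib.CharCore Cfsg.Agent.Lib.CharBasic Cfsg.Agent.Lib.CharIrr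
  Cfsg.Agent.Lib.CharOps Cfsg.Agent.Lib.CharGen Cfsg.Agent.Lib.CharAb

universe u v w

/-- The trace of an endomorphism all of whose nonzero eigenvalues are integral is integral. -/
theorem isIntegral_trace_of_eigen {V : Type*} [AddCommGroup V] [Module ℂ V] [FiniteDimensional ℂ V]
    (T : End ℂ V) (h : ∀ (c : ℂ) (v : V), v ≠ 0 → T v = c • v → c ≠ 0 → IsIntegral ℤ c) :
    IsIntegral ℤ (LinearMap.trace ℂ V T) := by
  rw [Module.End.trace_eq_sum_roots_charpoly_of_splits (IsAlgClosed.splits _)]
  apply IsIntegral.multiset_sum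
  intro c hc
  by_cases hc0 : c = 0
  · rw [hc0]
    exact isIntegral_zero
  · have hroot : T.charpoly.IsRoot c := (Polynomial.mem_roots'.mp hc).2
    have hev : Module.End.HasEigenvalue T c := (Module.End.hasEigenvalue_iff_isRoot_charpoly T c).mpr hroot
    obtain ⟨v, hv⟩ := hev.exists_hasEigenvector
    exact h c v hv.2 (Module.End.mem_eigenspace_iff.mp hv.1) hc0

/-- The trace of an endomorphism with no nonzero eigenvalue is zero. -/
theorem trace_eq_zero_of_eigen {V : Type*} [AddCommGroup V] [Module ℂ V] [FiniteDimensional ℂ V]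
    (T : End ℂ V) (h : ∀ (c : ℂ) (v : V), v ≠ 0 → T v = c • v → c = 0) :
    LinearMap.trace ℂ V T = 0 := by
  rw [Module.End.trace_eq_sum_roots_charpoly_of_splits (IsAlgClosed.splits _)]
  apply Multiset.sum_eq_zero
  intro c hc
  have hroot : T.charpoly.IsRoot c := (Polynomial.mem_roots'.mp hc).2
  have hev : Module.End.HasEigenvalue T c := (Module.End.hasEigenvalue_iff_isRoot_charpoly T c).mpr hroot
  obtain ⟨v, hv⟩ := hev.exists_hasEigenvector
  exact h c v hv.2 (Module.End.mem_eigenspace_iff.mp hv.1)

variable {G : Type u} [Group G] [Fintype G]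
variable {Ω : Type*} [Fintype Ω] [MulAction G Ω]

open scoped Classical in
/-- The Hecke operator of a suborbit. -/
noncomputable def heckeOp {V : Type*} [AddCommGroup V] [Module ℂ V] (ρ : Representation ℂ G V) (a b : Ω) : End ℂ V :=
  (Nat.card (stabilizer G a) : ℂ)⁻¹ • ∑ g : G, if g • a ∈ orbit (stabilizer G a) b then ρ g else 0

open scoped Classical in
/-- The suborbit sum of a function. -/
noncomputable def beta (χ : G → ℂ) (a b : Ω) : ℂ :=
  (Nat.card (stabilizer G a) : ℂ)⁻¹ * ∑ g : G, if g • a ∈ orbit (stabilizer G a) b then χ g else 0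

theorem trace_heckeOp {V : Type*} [AddCommGroup V] [Module ℂ V] (ρ : Representation ℂ G V) (a b : Ω) :
    LinearMap.trace ℂ V (heckeOp ρ a b) = beta ρ.character a b := by
  classical
  simp only [heckeOp, beta, map_smul, map_sum, smul_eq_mul]
  congr 1
  refine Finset.sum_congr rfl fun g _ => ?_
  split_ifs
  · rfl
  · simp

theorem mem_orbit_smul (a b : Ω) {u : G} (hu : u ∈ stabilizer G a) (x : Ω) :
    u • x ∈ orbit (stabilizer G a) b ↔ x ∈ orbit (stabilizer G a) b := by
  constructor
  · rintro ⟨w, hw⟩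
    refine ⟨⟨u, hu⟩⁻¹ * w, ?_⟩
    have h1 : (w : G) • b = u • x := hw
    show ((⟨u, hu⟩⁻¹ * w : stabilizer G a) : G) • b = x
    simp only [Subgroup.coe_mul, Subgroup.coe_inv, mul_smul, h1, inv_smul_smul]
  · rintro ⟨w, rfl⟩
    refine ⟨⟨u, hu⟩ * w, ?_⟩
    show ((⟨u, hu⟩ * w : stabilizer G a) : G) • b = u • ((w : G) • b)
    simp only [Subgroup.coe_mul, mul_smul]

theorem smul_heckeOp {V : Type*} [AddCommGroup V] [Module ℂ V] (ρ : Representation ℂ G V) (a b : Ω)
    {u : G} (hu : u ∈ stabilizer G a) (v : V) : ρ u (heckeOp ρ a b v) = heckeOp ρ a b v := by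
  classical
  simp only [heckeOp, LinearMap.smul_apply, LinearMap.sum_apply, map_smul, map_sum]
  congr 1
  refine Fintype.sum_equiv (Equiv.mulLeft u) _ _ fun g => ?_
  simp only [Equiv.coe_mulLeft, mul_smul]
  by_cases h : g • a ∈ orbit (stabilizer G a) b
  · rw [if_pos h, if_pos ((mem_orbit_smul a b hu _).mpr h), map_mul]
    rfl
  · rw [if_neg h, if_neg (fun h' => h ((mem_orbit_smul a b hu _).mp h'))]
    simp

/-- An eigenvector for a nonzero eigenvalue is fixed by the stabilizer. -/
theorem fixed_of_eigen {V : Type*} [AddCommGroup V] [Module ℂ V] (ρ : Representation ℂ G V) (a b : Ω)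
    {c : ℂ} {v : V} (hc : c ≠ 0) (hv : heckeOp ρ a b v = c • v) {u : G} (hu : u ∈ stabilizer G a) :
    ρ u v = v := by
  have h1 := smul_heckeOp ρ a b hu v
  rw [hv, map_smul] at h1
  exact smul_right_injective V hc h1

variable [IsPretransitive G Ω]

open scoped Classical in
/-- The Hecke operator on a vector fixed by the stabilizer. -/
theorem heckeOp_apply_fixed {V : Type*} [AddCommGroup V] [Module ℂ V] (ρ : Representation ℂ G V) (a b : Ω)
    {v : V} (hv : ∀ u ∈ stabilizer G a, ρ u v = v) (c : Ω → G) (hc : ∀ y, c y • a = y) :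
    heckeOp ρ a b v = ∑ y ∈ Finset.univ.filter (fun y => y ∈ orbit (stabilizer G a) b), ρ (c y) v := by
  have hU : (Nat.card (stabilizer G a) : ℂ) ≠ 0 := by exact_mod_cast Nat.card_pos.ne'
  have hf : ∀ g : G, ρ g v = ρ (c (g • a)) v := by
    intro g
    have h1 : (c (g • a))⁻¹ * g ∈ stabilizer G a := by
      rw [mem_stabilizer_iff, mul_smul, inv_smul_eq_iff, hc]
    have h2 : g = c (g • a) * ((c (g • a))⁻¹ * g) := by group
    conv_lhs => rw [h2, map_mul]
    show ρ (c (g • a)) (ρ _ v) = _
    rw [hv _ h1]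
  have hfib : ∀ y : Ω, (Finset.univ.filter (fun g : G => g • a = y)).card = Nat.card (stabilizer G a) := by
    intro y
    letI : Fintype (stabilizer G a) := Fintype.ofFinite _
    rw [Nat.card_eq_fintype_card, ← Finset.card_univ]
    refine Finset.card_bij' (fun g hg => ⟨(c y)⁻¹ * g, ?_⟩) (fun u _ => c y * u) ?_ ?_ ?_ ?_
    · rw [mem_stabilizer_iff, mul_smul, (Finset.mem_filter.mp hg).2, inv_smul_eq_iff, hc]
    · intro g _
      exact Finset.mem_univ _
    · intro u _
      simp only [Finset.mem_filter, Finset.mem_univ, true_and]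
      have hu : (u : G) • a = a := u.2
      rw [mul_smul, hu, hc]
    · intro g _
      simp
    · intro u _
      apply Subtype.ext
      simp
  simp only [heckeOp, LinearMap.smul_apply, LinearMap.sum_apply]
  have h2 : ∀ g : G, (if g • a ∈ orbit (stabilizer G a) b then ρ g else (0 : End ℂ V)) v =
      if g • a ∈ orbit (stabilizer G a) b then ρ (c (g • a)) v else 0 := by
    intro g
    split_ifs
    · exact hf g
    · rfl
  simp only [h2]
  rw [← Finset.sum_fiberwise (s := Finset.univ) (g := fun g : G => g • a)]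
  have h3 : ∀ y : Ω, ∑ g ∈ Finset.univ.filter (fun g : G => g • a = y),
      (if g • a ∈ orbit (stabilizer G a) b then ρ (c (g • a)) v else 0) =
      (Nat.card (stabilizer G a) : ℂ) • (if y ∈ orbit (stabilizer G a) b then ρ (c y) v else 0) := by
    intro y
    have h4 : ∀ g ∈ Finset.univ.filter (fun g : G => g • a = y),
        (if g • a ∈ orbit (stabilizer G a) b then ρ (c (g • a)) v else 0) =
        (if y ∈ orbit (stabilizer G a) b then ρ (c y) v else 0) := by
      intro g hg
      rw [(Finset.mem_filter.mp hg).2]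
    rw [Finset.sum_congr rfl h4, Finset.sum_const, hfib, Nat.cast_smul_eq_nsmul]
  simp only [h3]
  rw [← Finset.smul_sum, smul_smul, inv_mul_cancel₀ hU, one_smul, Finset.sum_filter]

/-- Integrality of eigenvalues of the Hecke operator. -/
theorem isIntegral_eigenvalue {n : ℕ} (ρ : Representation ℂ G (Fin n → ℂ)) (a b : Ω)
    {l : ℂ} {v : Fin n → ℂ} (hv0 : v ≠ 0) (hv : heckeOp ρ a b v = l • v) (hl : l ≠ 0) : IsIntegral ℤ l := by
  classical
  have hfix : ∀ u ∈ stabilizer G a, ρ u v = v := fun u hu => fixed_of_eigen ρ a b hl hv hu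
  choose c hc using fun y : Ω => exists_smul_eq G a y
  have hT := heckeOp_apply_fixed ρ a b hfix c hc
  -- the function on `Ω`
  let f : Ω → (Fin n → ℂ) := fun y => ρ (c y) v
  have hf : ∀ g : G, ρ g v = f (g • a) := by
    intro g
    have h1 : (c (g • a))⁻¹ * g ∈ stabilizer G a := by
      rw [mem_stabilizer_iff, mul_smul, inv_smul_eq_iff, hc]
    have h2 : g = c (g • a) * ((c (g • a))⁻¹ * g) := by group
    conv_lhs => rw [h2, map_mul]
    show ρ (c (g • a)) (ρ _ v) = _
    rw [hfix _ h1]
  have hact : ∀ (g : G) (y : Ω), ρ g (f y) = f (g • y) := by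
    intro g y
    show ρ g (ρ (c y) v) = _
    rw [← Module.End.mul_apply, ← map_mul, hf, mul_smul, hc]
  have hfa : f a = v := by
    have := hf 1
    rw [map_one, one_smul] at this
    exact this.symm
  have hrel : ∀ x : Ω, l • f x = ∑ y ∈ Finset.univ.filter (fun y => y ∈ orbit (stabilizer G a) b), f (c x • y) := by
    intro x
    show l • ρ (c x) v = _
    rw [← map_smul, ← hv, hT, map_sum]
    refine Finset.sum_congr rfl fun y _ => ?_
    exact hact (c x) y
  obtain ⟨j, hj⟩ := Function.ne_iff.mp hv0
  let N : Submodule ℤ ℂ := Submodule.span ℤ (Set.range fun x : Ω => f x j)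
  have hN : N ≠ ⊥ := by
    intro h0
    have h1 : f a j ∈ N := Submodule.subset_span ⟨a, rfl⟩
    rw [h0, Submodule.mem_bot, hfa] at h1
    exact hj h1
  have hfg : N.FG := Submodule.fg_span (Set.finite_range _)
  refine isIntegral_of_smul_mem_submodule N hN hfg l ?_
  intro m hm
  refine Submodule.span_induction (p := fun m _ => l • m ∈ N) ?_ ?_ ?_ ?_ hm
  · rintro _ ⟨x, rfl⟩
    have h1 := congrFun (hrel x) j
    simp only [Pi.smul_apply, Finset.sum_apply] at h1
    show l • f x j ∈ N
    rw [h1]
    exact Submodule.sum_mem _ fun y _ => Submodule.subset_span ⟨_, rfl⟩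
  · simp
  · intro p q _ _ hp hq
    rw [smul_add]
    exact N.add_mem hp hq
  · intro z p _ hp
    rw [smul_comm]
    exact N.smul_mem z hp

/-- The suborbit sum of a character is an algebraic integer. -/
theorem isIntegral_beta {χ : G → ℂ} (hχ : IsCharacter G χ) (a b : Ω) : IsIntegral ℤ (beta χ a b) := by
  obtain ⟨n, ρ, rfl⟩ := hχ
  rw [← trace_heckeOp]
  exact isIntegral_trace_of_eigen _ fun c v hv0 hv hc => isIntegral_eigenvalue ρ a b hv0 hv hc

/-- The suborbit sum vanishes for characters not occurring in the permutation character. -/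
theorem beta_eq_zero {χ : G → ℂ} (hχ : IsCharacter G χ) (a b : Ω)
    (h0 : classInner (fun g : G => (Nat.card (fixedBy Ω g) : ℂ)) χ = 0) : beta χ a b = 0 := by
  classical
  obtain ⟨n, ρ, rfl⟩ := hχ
  rw [← trace_heckeOp]
  apply trace_eq_zero_of_eigen
  intro c v hv0 hv
  by_contra hc
  apply hv0
  have hfix : ∀ u ∈ stabilizer G a, ρ u v = v := fun u hu => fixed_of_eigen ρ a b hc hv hu
  -- no fixed vectors
  letI : Fintype (stabilizer G a) := Fintype.ofFinite _
  have h1 : classInner (fun g : G => (Nat.card (fixedBy Ω g) : ℂ)) ρ.character =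
      classInner (indFun (stabilizer G a) (fun _ => 1)) ρ.character := by
    congr 1
    funext g
    rw [Cfsg.Agent.Lib.CharPermRep.indFun_stabilizer_eq_card_fixed]
  rw [h1, frobenius_reciprocity _ _ (IsCharacter.isClassFunction' ⟨n, ρ, rfl⟩)] at h0
  let ρ' : Representation ℂ (stabilizer G a) (Fin n → ℂ) := ρ.comp (stabilizer G a).subtype
  haveI : Invertible (Nat.card (stabilizer G a) : ℂ) := invertibleOfNonzero (by exact_mod_cast Nat.card_pos.ne')
  have h2 := Representation.card_inv_mul_sum_char_eq_finrank ρ'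
  have h3 : (Nat.card (stabilizer G a) : ℂ)⁻¹ * ∑ g : stabilizer G a, ρ'.character g = 0 := by
    have h4 := congrArg (starRingEnd ℂ) h0
    rw [Cfsg.classInner] at h4
    simp only [map_mul, map_inv₀, Complex.conj_natCast, map_sum, Complex.conj_conj, one_mul, map_zero] at h4
    exact h4
  rw [h3] at h2
  have h5 : finrank ℂ ρ'.invariants = 0 := by exact_mod_cast h2.symm
  have h6 : ρ'.invariants = ⊥ := Submodule.finrank_eq_zero.mp h5
  have h7 : v ∈ ρ'.invariants := fun u => hfix u u.2
  rw [h6] at h7
  exact Submodule.mem_bot _ |>.mp h7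

/-- The suborbit sum of the principal character is the size of the suborbit. -/
theorem beta_one (a b : Ω) : beta (fun _ : G => (1 : ℂ)) a b = (Nat.card (orbit (stabilizer G a) b) : ℂ) := by
  classical
  have hU : (Nat.card (stabilizer G a) : ℂ) ≠ 0 := by exact_mod_cast Nat.card_pos.ne'
  -- the permutation representation on functions is not needed: count fibres
  choose c hc using fun y : Ω => exists_smul_eq G a y
  have hfib : ∀ y : Ω, (Finset.univ.filter (fun g : G => g • a = y)).card = Nat.card (stabilizer G a) := by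
    intro y
    letI : Fintype (stabilizer G a) := Fintype.ofFinite _
    rw [Nat.card_eq_fintype_card, ← Finset.card_univ]
    refine Finset.card_bij' (fun g hg => ⟨(c y)⁻¹ * g, ?_⟩) (fun u _ => c y * u) ?_ ?_ ?_ ?_
    · rw [mem_stabilizer_iff, mul_smul, (Finset.mem_filter.mp hg).2, inv_smul_eq_iff, hc]
    · intro g _
      exact Finset.mem_univ _
    · intro u _
      simp only [Finset.mem_filter, Finset.mem_univ, true_and]
      have hu : (u : G) • a = a := u.2
      rw [mul_smul, hu, hc]
    · intro g _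
      simp
    · intro u _
      apply Subtype.ext
      simp
  rw [beta, ← Finset.sum_fiberwise (s := Finset.univ) (g := fun g : G => g • a)]
  have h3 : ∀ y : Ω, ∑ g ∈ Finset.univ.filter (fun g : G => g • a = y),
      (if g • a ∈ orbit (stabilizer G a) b then (1 : ℂ) else 0) =
      (Nat.card (stabilizer G a) : ℂ) * (if y ∈ orbit (stabilizer G a) b then (1 : ℂ) else 0) := by
    intro y
    have h4 : ∀ g ∈ Finset.univ.filter (fun g : G => g • a = y),
        (if g • a ∈ orbit (stabilizer G a) b then (1 : ℂ) else 0) =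
        (if y ∈ orbit (stabilizer G a) b then (1 : ℂ) else 0) := by
      intro g hg
      rw [(Finset.mem_filter.mp hg).2]
    rw [Finset.sum_congr rfl h4, Finset.sum_const, hfib, nsmul_eq_mul]
  simp only [h3]
  rw [← Finset.mul_sum, ← mul_assoc, inv_mul_cancel₀ hU, one_mul, Finset.sum_boole]
  congr 1
  rw [Nat.card_eq_fintype_card, Fintype.card_subtype]

/-- The orthogonality relation for suborbit sums. -/
theorem sum_degree_mul_beta (a b : Ω) (hab : b ≠ a) :
    ∑ χ : IrrCharacter G, (χ : G → ℂ) 1 * beta (χ : G → ℂ) a b = 0 := by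
  classical
  simp only [beta]
  have h1 : ∀ χ : IrrCharacter G, (χ : G → ℂ) 1 * ((Nat.card (stabilizer G a) : ℂ)⁻¹ * ∑ g : G, if g • a ∈ orbit (stabilizer G a) b then (χ : G → ℂ) g else 0) =
      (Nat.card (stabilizer G a) : ℂ)⁻¹ * ∑ g : G, if g • a ∈ orbit (stabilizer G a) b then (χ : G → ℂ) g * (χ : G → ℂ) 1 else 0 := by
    intro χ
    rw [mul_left_comm, Finset.mul_sum]
    congr 1
    refine Finset.sum_congr rfl fun g _ => ?_
    split_ifs
    · ring
    · ring
  simp only [h1]
  rw [← Finset.mul_sum, Finset.sum_comm]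
  have h2 : ∀ g : G, ∑ χ : IrrCharacter G, (if g • a ∈ orbit (stabilizer G a) b then (χ : G → ℂ) g * (χ : G → ℂ) 1 else 0) = 0 := by
    intro g
    by_cases hg : g • a ∈ orbit (stabilizer G a) b
    · simp only [if_pos hg]
      have h3 := column_orthogonality g 1
      have hne : ¬ IsConj g 1 := by
        intro h
        have h4 : g = 1 := isConj_one_left.mp h
        rw [h4, one_smul] at hg
        obtain ⟨u, hu⟩ := hg
        apply hab
        have h5 : ((u : G)) • b = a := hu
        have h6 : (u : G)⁻¹ • a = a := by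
          have : (u : G) • a = a := u.2
          exact inv_smul_eq_iff.mpr this.symm
        have h7 : b = (u : G)⁻¹ • ((u : G) • b) := by simp
        rw [h7, h5, h6]
      rw [if_neg hne] at h3
      rw [← h3]
      refine Finset.sum_congr rfl fun χ _ => ?_
      obtain ⟨d, hd0, hd⟩ := exists_degree_pos χ.2
      rw [hd]
      simp
    · simp [if_neg hg]
  simp only [h2, Finset.sum_const_zero, mul_zero]

/-- Burnside's lemma with `Nat.card`. -/
theorem sum_card_fixed {H X : Type*} [Group H] [Fintype H] [Finite X] [MulAction H X] :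
    ∑ h : H, (Nat.card (fixedBy X h) : ℂ) = (Nat.card (orbitRel.Quotient H X) : ℂ) * Nat.card H := by
  classical
  letI : Fintype X := Fintype.ofFinite _
  letI : Fintype (orbitRel.Quotient H X) := Fintype.ofFinite _
  have h := MulAction.sum_card_fixedBy_eq_card_orbits_mul_card_group H X
  have h2 : ∑ h : H, (Nat.card (fixedBy X h) : ℂ) = ((∑ h : H, Fintype.card (fixedBy X h) : ℕ) : ℂ) := by
    push_cast
    refine Finset.sum_congr rfl fun h _ => ?_
    rw [Nat.card_eq_fintype_card]
  rw [h2, h, Nat.card_eq_fintype_card (α := H), Nat.card_eq_fintype_card (α := orbitRel.Quotient H X)]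
  push_cast
  rfl

/-- The multiplicity of the principal character in a transitive permutation character. -/
theorem classInner_perm_one (a : Ω) :
    classInner (fun g : G => (Nat.card (fixedBy Ω g) : ℂ)) (fun _ => 1) = 1 := by
  classical
  have hG : (Nat.card G : ℂ) ≠ 0 := by exact_mod_cast Nat.card_pos.ne'
  rw [Cfsg.classInner]
  simp only [map_one, mul_one]
  rw [sum_card_fixed]
  have h1 : Nat.card (orbitRel.Quotient G Ω) = 1 := by
    rw [Nat.card_eq_one_iff_unique]
    refine ⟨⟨fun q₁ q₂ => ?_⟩, ⟨Quotient.mk'' a⟩⟩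
    obtain ⟨x, rfl⟩ := Quotient.exists_rep q₁
    obtain ⟨y, rfl⟩ := Quotient.exists_rep q₂
    apply Quotient.sound'
    rw [orbitRel_apply]
    exact exists_smul_eq G y x
  rw [h1]
  field_simp
  simp

/-- The rank of a transitive group is the norm of its permutation character. -/
theorem classInner_perm_self (a : Ω) :
    classInner (fun g : G => (Nat.card (fixedBy Ω g) : ℂ)) (fun g : G => (Nat.card (fixedBy Ω g) : ℂ)) =
      (Nat.card (orbitRel.Quotient (stabilizer G a) Ω) : ℂ) := by
  classical
  letI : Fintype (stabilizer G a) := Fintype.ofFinite _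
  have hU : (Nat.card (stabilizer G a) : ℂ) ≠ 0 := by exact_mod_cast Nat.card_pos.ne'
  have hπ : (fun g : G => (Nat.card (fixedBy Ω g) : ℂ)) = indFun (stabilizer G a) (fun _ => 1) := by
    funext g
    rw [Cfsg.Agent.Lib.CharPermRep.indFun_stabilizer_eq_card_fixed]
  have hc : IsClassFunction G (fun g : G => (Nat.card (fixedBy Ω g) : ℂ)) := by
    rw [hπ]
    exact indFun_isClassFunction _ _
  conv_lhs => arg 1; rw [hπ]
  rw [frobenius_reciprocity _ _ hc, Cfsg.classInner]
  simp only [Complex.conj_natCast, one_mul]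
  have h1 := sum_card_fixed (H := stabilizer G a) (X := Ω)
  have h2 : ∑ u : stabilizer G a, (Nat.card (fixedBy Ω (u : G)) : ℂ) = ∑ u : stabilizer G a, (Nat.card (fixedBy Ω u) : ℂ) := rfl
  rw [h2, h1]
  field_simp

end Cfsg.Agent.Lib.CharSuborbit
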