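import Cfsg.Agent.Lib.GlaubF

/-!
# Compatibility of the Glauberman correspondence with invariant subgroups, and invariant characters above
-/

set_option autoImplicit false
set_option linter.all false

namespace Cfsg.Agent.Lib.GlaubP

open Cfsg Cfsg.Agent.Lib.CharOps Cfsg.Agent.Lib.CharIrr Cfsg.Agent.Lib.Glaub Cfsg.Agent.Lib.Glaub2
  Cfsg.Agent.Lib.GlaubL Cfsg.Agent.Lib.GlaubM Cfsg.Agent.Lib.GlaubF
open scoped ComplexConjugate

universe u

section Basic

variable {G C : Type u} [Group G] [Group C]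

/-- The map `κ` identifies `C` with the fixed points of `R`. -/
structure FixData (R : Subgroup (MulAut G)) (κ : C →* G) : Prop where
  inj : Function.Injective κ
  fix : ∀ c, ∀ a ∈ R, a (κ c) = κ c
  range : ∀ g, (∀ a ∈ R, a g = g) → ∃ c, κ c = g

variable [Fintype G] [Fintype C]

theorem corr_eq_of_irr {p : ℕ} (hp : p.Prime) {f : C → ℂ} (hf : IsIrrCharacter C f) {β : IrrCharacter C}
    (h : Corr p f β) : (β : C → ℂ) = f := by
  by_contra hne
  have h1 := classInner_irr hf hf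
  rw [if_pos rfl] at h1
  have h2 := (h ⟨f, hf⟩ 1 (by simpa using h1)).2 (fun e => hne (congrArg Subtype.val e).symm)
  exact hp.one_lt.ne' (Nat.dvd_one.1 h2)

theorem glau_of_pow {p : ℕ} (hp : p.Prime) (z : MulAut G) [Fintype (fixSub z)] (hz : z ^ p = 1) (hcop : ¬ p ∣ Nat.card G) :
    GlauQ p (InvZ z) (fixSub z).subtype := by
  classical
  by_cases h1 : z = 1
  · subst h1
    refine glau_triv _ Subtype.val_injective (fun g => ⟨⟨g, rfl⟩, rfl⟩) hp _ ?_
    intro f g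
    rfl
  · haveI : Fact p.Prime := ⟨hp⟩
    have h2 : orderOf z = p := orderOf_eq_prime hz h1
    exact base_abs hp z h2 hcop _ Subtype.val_injective (fun c => c.2) (fun g hg => ⟨⟨g, hg⟩, rfl⟩)

end Basic

section Main

theorem compat_p {p : ℕ} (hp : p.Prime) : ∀ (n : ℕ) (G N C C₀ : Type u) [Group G] [Fintype G] [Group N] [Fintype N]
    [Group C] [Fintype C] [Group C₀] [Fintype C₀] (ι : N →* G) (hι : Function.Injective ι) (R : Subgroup (MulAut G)),
    Nat.card R = n → IsPGroup p R → ¬ p ∣ Nat.card G → ∀ (hRN : ∀ (r : R) (x : N), R.subtype r (ι x) ∈ ι.range)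
    (κ : C →* G) (κ₀ : C₀ →* N) (j₀ : C₀ →* C), FixData R κ → FixData (liftAut ι hι R.subtype hRN).range κ₀ →
    (∀ c, κ (j₀ c) = ι (κ₀ c)) → ∀ χ : IrrCharacter G, InvA R (χ : G → ℂ) →
    ∀ θ : IrrCharacter N, InvA (liftAut ι hι R.subtype hRN).range (θ : N → ℂ) →
    ∀ (β : IrrCharacter C) (θ₁ : IrrCharacter C₀), Corr p (fun c => (χ : G → ℂ) (κ c)) β →
    Corr p (fun c => (θ : N → ℂ) (κ₀ c)) θ₁ → classInner (fun c => (β : C → ℂ) (j₀ c)) (θ₁ : C₀ → ℂ) ≠ 0 →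
    classInner (fun x => (χ : G → ℂ) (ι x)) (θ : N → ℂ) ≠ 0 := by
  intro n
  induction n using Nat.strong_induction_on with
  | _ n IH =>
  intro G N C C₀ _ _ _ _ _ _ _ _ ι hι R hn hR hcopG hRN κ κ₀ j₀ F F₀ hj₀ χ hχ θ hθ β θ₁ hβ hθ₁ hin
  classical
  let τ : R →* MulAut N := liftAut ι hι R.subtype hRN
  have hτ : ∀ (r : R) (x : N), ι (τ r x) = r.1 (ι x) := fun r x => liftAut_spec ι hι R.subtype hRN r x
  by_cases hbot : R = ⊥
  · subst hbot
    have hsurj : Function.Surjective κ := fun g => F.range g (by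
      intro a ha
      rw [Subgroup.mem_bot.1 ha]
      rfl)
    have hsurj₀ : Function.Surjective κ₀ := fun g => F₀.range g (by
      rintro _ ⟨r, rfl⟩
      have h1 : r = 1 := Subtype.ext (Subgroup.mem_bot.1 r.2)
      rw [h1, map_one]
      rfl)
    let σ : C ≃* G := MulEquiv.ofBijective κ ⟨F.inj, hsurj⟩
    let σ₀ : C₀ ≃* N := MulEquiv.ofBijective κ₀ ⟨F₀.inj, hsurj₀⟩
    have h1 : (β : C → ℂ) = fun c => (χ : G → ℂ) (κ c) :=
      corr_eq_of_irr hp (BlockPair.irrComp σ χ).2 hβ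
    have h2 : (θ₁ : C₀ → ℂ) = fun c => (θ : N → ℂ) (κ₀ c) :=
      corr_eq_of_irr hp (BlockPair.irrComp σ₀ θ).2 hθ₁
    rw [h1, h2] at hin
    have h3 := Cfsg.Agent.Lib.CharCliff.classInner_comp_mulEquiv σ₀ (fun x => (χ : G → ℂ) (ι x)) (θ : N → ℂ)
    rw [← h3]
    have h4 : (fun x : C₀ => (χ : G → ℂ) (ι (σ₀ x))) = fun c => (χ : G → ℂ) (κ (j₀ c)) := by
      funext c
      rw [hj₀]
      rfl
    rw [h4]
    exact hin
  · haveI : Fact p.Prime := ⟨hp⟩
    haveI : Nontrivial R := (Subgroup.nontrivial_iff_ne_bot R).2 hbot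
    have hcen := hR.center_nontrivial
    have hAc : IsPGroup p (Subgroup.center R) := hR.to_subgroup _
    obtain ⟨k, hk, hk2⟩ := hAc.nontrivial_iff_card.1 hcen
    have hdvd : p ∣ Nat.card (Subgroup.center R) := by
      rw [hk2]
      exact dvd_pow_self p hk.ne'
    obtain ⟨z₀, hz₀⟩ := exists_prime_orderOf_dvd_card' p hdvd
    let z : MulAut G := ((z₀ : R) : MulAut G)
    have hzA : z ∈ R := (z₀ : R).2
    have hzord : orderOf z = p := by
      have h1 : orderOf z = orderOf (z₀ : R) := Subgroup.orderOf_coe (z₀ : R)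
      have h2 : orderOf (z₀ : R) = orderOf z₀ := Subgroup.orderOf_coe z₀
      rw [h1, h2, hz₀]
    have hcomm : ∀ a ∈ R, a * z = z * a := by
      intro a ha
      have h1 := (Subgroup.mem_center_iff.1 z₀.2) ⟨a, ha⟩
      exact congrArg Subtype.val h1
    let zN : MulAut N := τ ⟨z, hzA⟩
    have hzN : ∀ x, ι (zN x) = z (ι x) := fun x => hτ ⟨z, hzA⟩ x
    have hzNmem : zN ∈ (liftAut ι hι R.subtype hRN).range := ⟨_, rfl⟩
    have hzNpow : zN ^ p = 1 := by
      have h1 : (⟨z, hzA⟩ : R) ^ p = 1 := by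
        apply Subtype.ext
        show z ^ p = 1
        rw [← hzord]
        exact pow_orderOf_eq_one z
      show (τ ⟨z, hzA⟩) ^ p = 1
      rw [← map_pow, h1, map_one]
    have hcopN : ¬ p ∣ Nat.card N := fun h => hcopG (h.trans (card_dvd_of_inj ι hι))
    have baseG : GlauQ p (InvZ z) (fixSub z).subtype :=
      base_abs hp z hzord hcopG (fixSub z).subtype Subtype.val_injective (fun c => c.2) (fun g hg => ⟨⟨g, hg⟩, rfl⟩)
    have baseN : GlauQ p (InvZ zN) (fixSub zN).subtype := glau_of_pow hp zN hzNpow hcopN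
    let resG := resHom z R hcomm
    have hresG : ∀ (a : R) (g : fixSub z), ((resG a g : fixSub z) : G) = a.1 g := fun a g => rfl
    have hmemG : ∀ x : fixSub zN, ι x.1 ∈ fixSub z := by
      intro x
      rw [mem_fixSub, ← hzN, mem_fixSub.1 x.2]
    let ι₂ : fixSub zN →* fixSub z := MonoidHom.codRestrict (ι.comp (fixSub zN).subtype) (fixSub z) hmemG
    have hι₂v : ∀ x, ((ι₂ x : fixSub z) : G) = ι x.1 := fun x => rfl
    have hι₂ : Function.Injective ι₂ := by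
      intro a b hab
      exact Subtype.ext (hι (congrArg Subtype.val hab))
    have hτcomm : ∀ (a : R) (x : fixSub zN), τ a x.1 ∈ fixSub zN := by
      intro a x
      rw [mem_fixSub]
      have h1 : (⟨z, hzA⟩ : R) * a = a * ⟨z, hzA⟩ := Subtype.ext (hcomm a.1 a.2).symm
      have h2 : zN * τ a = τ a * zN := by
        show τ ⟨z, hzA⟩ * τ a = _
        rw [← map_mul, h1, map_mul]
      have h3 := congrArg (fun b : MulAut N => b x.1) h2
      simp only [MulAut.mul_apply] at h3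
      rw [h3, mem_fixSub.1 x.2]
    have hRN₂ : ∀ (r : resG.range) (x : fixSub zN), resG.range.subtype r (ι₂ x) ∈ ι₂.range := by
      rintro ⟨_, a, rfl⟩ x
      refine ⟨⟨τ a x.1, hτcomm a x⟩, Subtype.ext ?_⟩
      rw [hι₂v]
      show ι (τ a x.1) = a.1 (ι x.1)
      exact hτ a x.1
    let τ₂ : resG.range →* MulAut (fixSub zN) := liftAut ι₂ hι₂ resG.range.subtype hRN₂
    have hτ₂ : ∀ (r : resG.range) (x : fixSub zN), ι₂ (τ₂ r x) = r.1 (ι₂ x) :=
      fun r x => liftAut_spec ι₂ hι₂ resG.range.subtype hRN₂ r x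
    have hτ₂v : ∀ (a : R) (x : fixSub zN), ((τ₂ ⟨resG a, ⟨a, rfl⟩⟩ x : fixSub zN) : N) = τ a x.1 := by
      intro a x
      apply hι
      have h1 := congrArg Subtype.val (hτ₂ ⟨resG a, ⟨a, rfl⟩⟩ x)
      rw [hι₂v] at h1
      rw [h1, hτ]
      rfl
    let κ₂ : C →* fixSub z := κ.codRestrict (fixSub z) (fun c => F.fix c z hzA)
    let κ₀₂ : C₀ →* fixSub zN := κ₀.codRestrict (fixSub zN) (fun c => F₀.fix c zN hzNmem)
    have F₂ : FixData resG.range κ₂ := by
      refine ⟨fun a b hab => F.inj (congrArg Subtype.val hab), ?_, ?_⟩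
      · rintro c _ ⟨a, rfl⟩
        apply Subtype.ext
        exact F.fix c a.1 a.2
      · intro g hg
        obtain ⟨c, hc⟩ := F.range g.1 (fun a ha => by
          have h1 := hg (resG ⟨a, ha⟩) ⟨_, rfl⟩
          exact congrArg Subtype.val h1)
        exact ⟨c, Subtype.ext hc⟩
    have F₀₂ : FixData (liftAut ι₂ hι₂ resG.range.subtype hRN₂).range κ₀₂ := by
      refine ⟨fun a b hab => F₀.inj (congrArg Subtype.val hab), ?_, ?_⟩
      · rintro c _ ⟨⟨_, a, rfl⟩, rfl⟩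
        apply Subtype.ext
        show ((τ₂ ⟨resG a, ⟨a, rfl⟩⟩ (κ₀₂ c) : fixSub zN) : N) = κ₀ c
        rw [hτ₂v]
        exact F₀.fix c _ ⟨a, rfl⟩
      · intro g hg
        obtain ⟨c, hc⟩ := F₀.range g.1 (by
          rintro _ ⟨a, rfl⟩
          have h1 := hg (τ₂ ⟨resG a, ⟨a, rfl⟩⟩) ⟨_, rfl⟩
          have h2 := congrArg Subtype.val h1
          rw [hτ₂v] at h2
          exact h2)
        exact ⟨c, Subtype.ext hc⟩
    have hj₀₂ : ∀ c, κ₂ (j₀ c) = ι₂ (κ₀₂ c) := fun c => Subtype.ext (hj₀ c)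
    have hlt : Nat.card resG.range < n := by
      by_contra hcon
      have hle : Nat.card R ≤ Nat.card resG.range := by
        rw [hn]
        exact not_lt.1 hcon
      have hb := (resG.rangeRestrict_surjective).bijective_of_nat_card_le hle
      have h1 : resG.rangeRestrict ⟨z, hzA⟩ = resG.rangeRestrict 1 := by
        apply Subtype.ext
        rw [map_one]
        show resG ⟨z, hzA⟩ = 1
        ext g
        exact g.2
      have h2 := hb.1 h1
      have h3 : z = 1 := congrArg Subtype.val h2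
      have h4 : orderOf z = 1 := by rw [h3, orderOf_one]
      rw [hzord] at h4
      exact hp.one_lt.ne' h4
    have hR₂ : IsPGroup p resG.range := hR.of_surjective resG.rangeRestrict resG.rangeRestrict_surjective
    have hcop₂ : ¬ p ∣ Nat.card (fixSub z) := fun h => hcopG (h.trans (Subgroup.card_subgroup_dvd_card _))
    have hcopN₂ : ¬ p ∣ Nat.card (fixSub zN) := fun h => hcopN (h.trans (Subgroup.card_subgroup_dvd_card _))
    have hRNp : IsPGroup p (liftAut ι₂ hι₂ resG.range.subtype hRN₂).range :=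
      hR₂.of_surjective (liftAut ι₂ hι₂ resG.range.subtype hRN₂).rangeRestrict (MonoidHom.rangeRestrict_surjective _)
    have hres : ∀ χ₀ : IrrCharacter G, IsCharacter C (fun c : C => (χ₀ : G → ℂ) (κ c)) :=
      fun χ₀ => isCharacter_comp κ (IsIrrCharacter.isCharacter' χ₀.2)
    have hres₀ : ∀ χ₀ : IrrCharacter N, IsCharacter C₀ (fun c : C₀ => (χ₀ : N → ℂ) (κ₀ c)) :=
      fun χ₀ => isCharacter_comp κ₀ (IsIrrCharacter.isCharacter' χ₀.2)
    have hresS : IsCharacter (fixSub z) (fun g : fixSub z => (χ : G → ℂ) (g : G)) :=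
      isCharacter_comp (fixSub z).subtype (IsIrrCharacter.isCharacter' χ.2)
    have hresS₀ : IsCharacter (fixSub zN) (fun g : fixSub zN => (θ : N → ℂ) (g : N)) :=
      isCharacter_comp (fixSub zN).subtype (IsIrrCharacter.isCharacter' θ.2)
    obtain ⟨β₂, hβ₂⟩ := baseG.ex χ (fun g => hχ z hzA g)
    obtain ⟨θ₂, hθ₂⟩ := baseN.ex θ (fun g => hθ zN hzNmem g)
    have hβ₂' : Corr p (fun g : fixSub z => (χ : G → ℂ) (g : G)) β₂ := hβ₂
    have hθ₂' : Corr p (fun g : fixSub zN => (θ : N → ℂ) (g : N)) θ₂ := hθ₂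
    have hβinv : InvA resG.range (β₂ : fixSub z → ℂ) := by
      rintro _ ⟨a, rfl⟩ g
      have h := Corr.aut (resG a) hβ₂'
      have h1 : (fun c : fixSub z => (χ : G → ℂ) ((resG a c : fixSub z) : G)) = (fun g : fixSub z => (χ : G → ℂ) (g : G)) := by
        funext c
        rw [hresG]
        exact hχ a.1 a.2 c.1
      rw [h1] at h
      have h2 := Corr.unique hp hresS h hβ₂'
      exact congrFun (congrArg Subtype.val h2) g
    have hθinv : InvA (liftAut ι₂ hι₂ resG.range.subtype hRN₂).range (θ₂ : fixSub zN → ℂ) := by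
      rintro _ ⟨⟨_, a, rfl⟩, rfl⟩ g
      have h := Corr.aut (τ₂ ⟨resG a, ⟨a, rfl⟩⟩) hθ₂'
      have h1 : (fun c : fixSub zN => (θ : N → ℂ) ((τ₂ ⟨resG a, ⟨a, rfl⟩⟩ c : fixSub zN) : N)) = (fun g : fixSub zN => (θ : N → ℂ) (g : N)) := by
        funext c
        rw [hτ₂v]
        exact hθ _ ⟨a, rfl⟩ c.1
      rw [h1] at h
      have h2 := Corr.unique hp hresS₀ h hθ₂'
      exact congrFun (congrArg Subtype.val h2) g
    have DG := glau_main hp _ (fixSub z) C resG.range κ₂ rfl hR₂ (fun _ => hcop₂) F₂.inj F₂.fix F₂.range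
    have DN := glau_main hp _ (fixSub zN) C₀ (liftAut ι₂ hι₂ resG.range.subtype hRN₂).range κ₀₂ rfl hRNp (fun _ => hcopN₂)
      F₀₂.inj F₀₂.fix F₀₂.range
    obtain ⟨β', hβ'⟩ := DG.ex β₂ hβinv
    obtain ⟨θ', hθ'⟩ := DN.ex θ₂ hθinv
    have e1 : β' = β := Corr.unique hp (hres χ) (Corr.comp hresS hβ₂' κ₂ hβ') hβ
    have e2 : θ' = θ₁ := Corr.unique hp (hres₀ θ) (Corr.comp hresS₀ hθ₂' κ₀₂ hθ') hθ₁
    subst e1
    subst e2
    have hin₂ := IH _ hlt (fixSub z) (fixSub zN) C C₀ ι₂ hι₂ resG.range rfl hR₂ hcop₂ hRN₂ κ₂ κ₀₂ j₀ F₂ F₀₂ hj₀₂ β₂ hβinv θ₂ hθinv β' θ' hβ' hθ' hin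
    exact compat_z hp z hzord hcopG ι hι zN hzN (fixSub z).subtype Subtype.val_injective (fun c => c.2)
      (fun g hg => ⟨⟨g, hg⟩, rfl⟩) (fixSub zN).subtype Subtype.val_injective (fun c => c.2)
      (fun g hg => ⟨⟨g, hg⟩, rfl⟩) ι₂ (fun c => rfl) χ (fun g => hχ z hzA g) θ (fun g => hθ zN hzNmem g) β₂ θ₂ hβ₂ hθ₂ hin₂

end Main

section Cop

theorem inv_over_cop : ∀ (n : ℕ) (G N : Type u) [Group G] [Fintype G] [Group N] [Fintype N] (ι : N →* G)
    (hι : Function.Injective ι) (A : Subgroup (MulAut G)), Nat.card A = n → Group.IsSolvable A →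
    (Nat.card G).Coprime (Nat.card A) → (∀ (a : A) (x : N), a.1 (ι x) ∈ ι.range) →
    ∀ θ : IrrCharacter N, InvI A ι (θ : N → ℂ) →
    ∃ χ : IrrCharacter G, InvA A (χ : G → ℂ) ∧ classInner (fun x => (χ : G → ℂ) (ι x)) (θ : N → ℂ) ≠ 0 := by
  intro n
  induction n using Nat.strong_induction_on with
  | _ n IH =>
  intro G N _ _ _ _ ι hι A hn hs hcop hAN θ hθ
  classical
  by_cases hbot : A = ⊥
  · subst hbot
    obtain ⟨χ, hχ⟩ := BlockPair.exists_irr_over ι hι θ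
    refine ⟨χ, ?_, hχ⟩
    intro a ha g
    rw [Subgroup.mem_bot.1 ha]
    rfl
  · haveI : Nontrivial A := (Subgroup.nontrivial_iff_ne_bot A).2 hbot
    obtain ⟨p, R₀, hp, hRn, hRne, hRp⟩ := exists_normal_pgroup hs inferInstance
    haveI : Fact p.Prime := ⟨hp⟩
    let R : Subgroup (MulAut G) := R₀.map A.subtype
    have hRA : R ≤ A := by
      rintro _ ⟨r, -, rfl⟩
      exact r.2
    have hN : ∀ a ∈ A, ∀ r ∈ R, a * r * a⁻¹ ∈ R := by
      rintro a ha _ ⟨r, hr, rfl⟩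
      exact ⟨⟨a, ha⟩ * r * ⟨a, ha⟩⁻¹, hRn.conj_mem r hr _, rfl⟩
    have hR : IsPGroup p R := hRp.map A.subtype
    have hpA : p ∣ Nat.card A := by
      have hne : Nat.card R₀ ≠ 1 := fun h => hRne (Subgroup.eq_bot_of_card_eq _ h)
      obtain ⟨k, hk⟩ := IsPGroup.iff_card.1 hRp
      have hk0 : k ≠ 0 := by
        rintro rfl
        exact hne (by simpa using hk)
      exact (dvd_pow_self p hk0).trans (hk ▸ Subgroup.card_subgroup_dvd_card R₀)
    have hcopG : ¬ p ∣ Nat.card G := fun h => hp.one_lt.ne' (Nat.dvd_one.1 (hcop ▸ Nat.dvd_gcd h hpA))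
    have hcopN : ¬ p ∣ Nat.card N := fun h => hcopG (h.trans (card_dvd_of_inj ι hι))
    -- the action on `N`
    let τ : A →* MulAut N := liftAut ι hι A.subtype hAN
    have hτ : ∀ (a : A) (x : N), ι (τ a x) = a.1 (ι x) := fun a x => liftAut_spec ι hι A.subtype hAN a x
    have hRN : ∀ (r : R) (x : N), R.subtype r (ι x) ∈ ι.range := fun r x => hAN ⟨r.1, hRA r.2⟩ x
    let τR : R →* MulAut N := liftAut ι hι R.subtype hRN
    have hτR : ∀ (r : R) (x : N), ι (τR r x) = r.1 (ι x) := fun r x => liftAut_spec ι hι R.subtype hRN r x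
    have hτRv : ∀ r : R, τR r = τ ⟨r.1, hRA r.2⟩ := by
      intro r
      ext x
      apply hι
      rw [hτR, hτ]
    let RN : Subgroup (MulAut N) := τR.range
    have hRNp : IsPGroup p RN := hR.of_surjective τR.rangeRestrict τR.rangeRestrict_surjective
    have hτA : ∀ (a : A), ∀ r ∈ RN, τ a * r * (τ a)⁻¹ ∈ RN := by
      rintro a _ ⟨r, rfl⟩
      refine ⟨⟨a.1 * r.1 * a.1⁻¹, hN a.1 a.2 r.1 r.2⟩, ?_⟩
      rw [hτRv, hτRv]
      have h1 : (⟨a.1 * r.1 * a.1⁻¹, hRA (hN a.1 a.2 r.1 r.2)⟩ : A) = a * ⟨r.1, hRA r.2⟩ * a⁻¹ := rfl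
      rw [h1, map_mul, map_mul, map_inv]
    have hNN : ∀ b ∈ τ.range, ∀ r ∈ RN, b * r * b⁻¹ ∈ RN := by
      rintro _ ⟨a, rfl⟩ r hr
      exact hτA a r hr
    -- the fixed point groups
    let G₁ := fixA R
    let N₁ := fixA RN
    have hmem : ∀ x : N₁, ι x.1 ∈ G₁ := by
      intro x r hr
      have h1 := x.2 (τR ⟨r, hr⟩) ⟨_, rfl⟩
      rw [← hτR ⟨r, hr⟩ x.1, h1]
    let ι₁ : N₁ →* G₁ := MonoidHom.codRestrict (ι.comp N₁.subtype) G₁ hmem
    have hι₁ : Function.Injective ι₁ := by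
      intro a b hab
      exact Subtype.ext (hι (congrArg Subtype.val hab))
    let φ := resHomA hN
    have hφv : ∀ (a : A) (g : G₁), ((φ a g : G₁) : G) = a.1 g := fun a g => rfl
    have hτN : ∀ a : A, (⟨τ a, ⟨a, rfl⟩⟩ : τ.range) = ⟨τ a, ⟨a, rfl⟩⟩ := fun a => rfl
    let φN := resHomA hNN
    have hφNv : ∀ (a : A) (x : N₁), ((φN ⟨τ a, ⟨a, rfl⟩⟩ x : N₁) : N) = τ a x.1 := fun a x => rfl
    have DG := glau_fix hp hR hcopG
    have DN := glau_fix hp hRNp hcopN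
    have hresG : ∀ χ : IrrCharacter G, IsCharacter G₁ (fun g : G₁ => (χ : G → ℂ) (g : G)) :=
      fun χ => isCharacter_comp G₁.subtype (IsIrrCharacter.isCharacter' χ.2)
    have hresN : IsCharacter N₁ (fun g : N₁ => (θ : N → ℂ) (g : N)) :=
      isCharacter_comp N₁.subtype (IsIrrCharacter.isCharacter' θ.2)
    have hθA : ∀ (a : A) (x : N), (θ : N → ℂ) (τ a x) = (θ : N → ℂ) x := fun a x => hθ a.1 a.2 x _ (hτ a x)
    have hθR : InvA RN (θ : N → ℂ) := by
      rintro _ ⟨r, rfl⟩ x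
      rw [hτRv]
      exact hθA _ x
    obtain ⟨θ₁, hθ₁⟩ := DN.ex θ hθR
    have hθ₁' : Corr p (fun g : N₁ => (θ : N → ℂ) (g : N)) θ₁ := hθ₁
    have hθ₁A : ∀ (a : A) (x : N₁), (θ₁ : N₁ → ℂ) (φN ⟨τ a, ⟨a, rfl⟩⟩ x) = (θ₁ : N₁ → ℂ) x := by
      intro a x
      have h := Corr.aut (φN ⟨τ a, ⟨a, rfl⟩⟩) hθ₁'
      have h1 : (fun c : N₁ => (θ : N → ℂ) ((φN ⟨τ a, ⟨a, rfl⟩⟩ c : N₁) : N)) = (fun g : N₁ => (θ : N → ℂ) (g : N)) := by
        funext c
        rw [hφNv]
        exact hθA a c.1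
      rw [h1] at h
      have h2 := Corr.unique hp hresN h hθ₁'
      exact congrFun (congrArg Subtype.val h2) x
    let A₁ := φ.range
    have hlt : Nat.card A₁ < n := by
      by_contra hcon
      have hle : Nat.card A ≤ Nat.card φ.range := by
        rw [hn]
        exact not_lt.1 hcon
      have hb := (φ.rangeRestrict_surjective).bijective_of_nat_card_le hle
      obtain ⟨r, hr⟩ := Subgroup.ne_bot_iff_exists_ne_one.1 hRne
      have h1 : φ.rangeRestrict r.1 = φ.rangeRestrict 1 := by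
        apply Subtype.ext
        rw [map_one]
        show φ r.1 = 1
        ext g
        exact g.2 _ ⟨r, r.2, rfl⟩
      have h2 := hb.1 h1
      exact hr (Subtype.ext h2)
    have hs₁ : Group.IsSolvable A₁ := solvable_of_surjective φ.rangeRestrict_surjective
    have hcop₁ : (Nat.card G₁).Coprime (Nat.card A₁) := by
      have h1 : Nat.card A₁ ∣ Nat.card A := by
        have := φ.ker.index_dvd_card
        rwa [Subgroup.index_ker] at this
      exact Nat.Coprime.coprime_dvd_left (Subgroup.card_subgroup_dvd_card _) (Nat.Coprime.coprime_dvd_right h1 hcop)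
    have hAN₁ : ∀ (a : A₁) (x : N₁), a.1 (ι₁ x) ∈ ι₁.range := by
      rintro ⟨_, a, rfl⟩ x
      refine ⟨φN ⟨τ a, ⟨a, rfl⟩⟩ x, Subtype.ext ?_⟩
      show ι ((φN ⟨τ a, ⟨a, rfl⟩⟩ x : N₁) : N) = a.1 (ι x.1)
      rw [hφNv, hτ]
    have hθ₁I : InvI A₁ ι₁ (θ₁ : N₁ → ℂ) := by
      rintro _ ⟨a, rfl⟩ x x' hxx
      have h1 : x' = φN ⟨τ a, ⟨a, rfl⟩⟩ x := by
        apply Subtype.ext
        apply hι
        rw [hφNv, hτ]
        exact congrArg Subtype.val hxx
      rw [h1]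
      exact hθ₁A a x
    obtain ⟨β, hβ, hβ2⟩ := IH _ hlt G₁ N₁ ι₁ hι₁ A₁ rfl hs₁ hcop₁ hAN₁ θ₁ hθ₁I
    obtain ⟨χ, hχ, hc⟩ := DG.surj β
    have hc' : Corr p (fun g : G₁ => (χ : G → ℂ) (g : G)) β := hc
    have hA : InvA A (χ : G → ℂ) := by
      intro a ha g
      have hz' : InvA R (BlockPair.irrComp a χ : G → ℂ) := by
        intro r hr g
        show (χ : G → ℂ) (a (r g)) = (χ : G → ℂ) (a g)
        have h1 : a (r g) = (a * r * a⁻¹) (a g) := by simp [MulAut.mul_apply]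
        rw [h1]
        exact hχ _ (hN a ha r hr) _
      have hcorr : Corr p (fun g : G₁ => (BlockPair.irrComp a χ : G → ℂ) (g : G)) β := by
        have h1 := Corr.aut (φ ⟨a, ha⟩) hc'
        have h2 : BlockPair.irrComp (φ ⟨a, ha⟩) β = β := by
          apply Subtype.ext
          funext c
          exact hβ _ ⟨_, rfl⟩ c
        rw [h2] at h1
        exact h1
      have h5 := DG.inj (BlockPair.irrComp a χ) χ hz' hχ β hcorr hc
      exact congrFun (congrArg Subtype.val h5) g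
    refine ⟨χ, hA, ?_⟩
    refine compat_p hp _ G N G₁ N₁ ι hι R rfl hR hcopG hRN G₁.subtype N₁.subtype ι₁ ?_ ?_ (fun c => rfl) χ hχ θ hθR β θ₁ hc hθ₁ hβ2
    · exact ⟨Subtype.val_injective, fun c a ha => c.2 a ha, fun g hg => ⟨⟨g, hg⟩, rfl⟩⟩
    · exact ⟨Subtype.val_injective, fun c a ha => c.2 a ha, fun g hg => ⟨⟨g, hg⟩, rfl⟩⟩

end Cop

section Conj

variable {Γ : Type u} [Group Γ]

theorem inv_over_cop_conj [Fintype Γ] (G S N : Subgroup Γ) [Fintype G] [Fintype N]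
    (hnorm : ∀ s ∈ S, ∀ g ∈ G, s * g * s⁻¹ ∈ G) (hNG : N ≤ G) (hNS : ∀ s ∈ S, ∀ n ∈ N, s * n * s⁻¹ ∈ N)
    (hcop : (Nat.card G).Coprime (Nat.card S)) (hsolv : Group.IsSolvable S) (θ : IrrCharacter N)
    (hinv : ∀ s ∈ S, ∀ g g' : N, (g' : Γ) = s * g * s⁻¹ → (θ : N → ℂ) g' = (θ : N → ℂ) g) :
    ∃ χ : IrrCharacter G, classInner (fun n : N => (χ : G → ℂ) ⟨n, hNG n.2⟩) (θ : N → ℂ) ≠ 0 ∧
      ∀ s ∈ S, ∀ g g' : G, (g' : Γ) = s * g * s⁻¹ → (χ : G → ℂ) g' = (χ : G → ℂ) g := by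
  classical
  let φ := conjHomOf G S hnorm
  have hcard : Nat.card φ.range ∣ Nat.card S := by
    rw [← Subgroup.index_ker]
    exact φ.ker.index_dvd_card
  have hs₁ : Group.IsSolvable φ.range := solvable_of_surjective φ.rangeRestrict_surjective
  obtain ⟨χ, h1, h2⟩ := inv_over_cop _ G N (Subgroup.inclusion hNG) (Subgroup.inclusion_injective hNG)
    φ.range rfl hs₁ (Nat.Coprime.coprime_dvd_right hcard hcop) (by
      rintro ⟨_, s, rfl⟩ x
      exact ⟨⟨_, hNS s s.2 x x.2⟩, rfl⟩) θ (by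
      rintro _ ⟨s, rfl⟩ n n' hnn
      exact hinv s s.2 n n' (congrArg Subtype.val hnn))
  exact ⟨χ, h2, (invA_conj_iff G S hnorm _).1 h1⟩

end Conj

end Cfsg.Agent.Lib.GlaubP
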