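import Cfsg.Agent.Lib.FrobRam
import Cfsg.Agent.Lib.GlaubP
import Cfsg.Agent.Lib.BlockDefTwo

/-!
# Invariant constituents above an invariant character

The central case, by means of the transfer power map and the coprime action theorems, and then
the general case through the lifted group of an invariant irreducible representation.
-/

set_option autoImplicit false
set_option linter.all false

namespace Cfsg.Agent.Lib.CharTriple

open Cfsg Cfsg.Agent.Lib.CharOps Cfsg.Agent.Lib.CharIrr Cfsg.Agent.Lib.CharAb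
open scoped ComplexConjugate

universe u

theorem exists_split (m o : ℕ) (ho : o ≠ 0) :
    ∃ a b : ℕ, o = a * b ∧ (∀ p : ℕ, p.Prime → p ∣ a → p ∣ m) ∧ b.Coprime m := by
  induction o using Nat.strong_induction_on with
  | _ o IH =>
  by_cases h : o.Coprime m
  · refine ⟨1, o, (one_mul o).symm, fun p hp h1 => ?_, h⟩
    exact absurd (Nat.dvd_one.1 h1) hp.ne_one
  · obtain ⟨p, hp, h1, h2⟩ := Nat.Prime.not_coprime_iff_dvd.1 h
    obtain ⟨o', rfl⟩ := h1
    have ho' : o' ≠ 0 := fun h0 => ho (by simp [h0])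
    have hlt : o' < p * o' := by
      have := hp.two_le
      have : 0 < o' := Nat.pos_of_ne_zero ho'
      nlinarith
    obtain ⟨a, b, rfl, h3, h4⟩ := IH _ hlt ho'
    refine ⟨p * a, b, by ring, ?_, h4⟩
    intro q hq h5
    rcases (Nat.Prime.dvd_mul hq).1 h5 with h6 | h6
    · rw [(Nat.prime_dvd_prime_iff_eq hq hp).1 h6]
      exact h2
    · exact h3 q hq h6

open scoped IsMulCommutative in
/-- The index power map into a central subgroup is a homomorphism. -/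
theorem pow_central {Y : Type u} [Group Y] [Finite Y] (Z' : Subgroup Y) (hZ' : ∀ z ∈ Z', ∀ y, z * y = y * z) (a b : Y) :
    (a * b) ^ Z'.index = a ^ Z'.index * b ^ Z'.index := by
  have hle : Z' ≤ Subgroup.center Y := fun z hz => Subgroup.mem_center_iff.2 fun y => (hZ' z hz y).symm
  let ϕ : Z' →* Subgroup.center Y := Subgroup.inclusion hle
  have key : ∀ g : Y, ((ϕ.transfer g : Subgroup.center Y) : Y) = g ^ Z'.index := by
    intro g
    rw [MonoidHom.transfer_eq_pow ϕ g]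
    · rfl
    · intro k g₀ h
      have h1 := hZ' _ h g₀
      calc g₀⁻¹ * g ^ k * g₀ = (g₀⁻¹ * g ^ k * g₀) * g₀ * g₀⁻¹ := by group
        _ = g₀ * (g₀⁻¹ * g ^ k * g₀) * g₀⁻¹ := by rw [h1]
        _ = g ^ k := by group
  rw [← key, map_mul, Subgroup.coe_mul, key, key]

/-- A central restriction of an irreducible character with a given linear constituent. -/
theorem central_restrict {A B : Type u} [Group A] [Fintype A] [Group B] [Fintype B] (ι : A →* B)
    (hc : ∀ a c, c * ι a = ι a * c) {μ : B → ℂ} (hμ : IsIrrCharacter B μ) (lam : A →* ℂˣ)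
    (h : classInner (fun a => μ (ι a)) (fun a => (lam a : ℂ)) ≠ 0) (a : A) : μ (ι a) = μ 1 * (lam a : ℂ) := by
  classical
  have hμ1 : μ 1 ≠ 0 := degree_ne_zero hμ
  have hmul : ∀ a₁ a₂ : A, μ (ι a₁) * μ (ι a₂) = μ 1 * μ (ι (a₁ * a₂)) := by
    intro a₁ a₂
    have := Cfsg.Agent.Lib.BlockDefTwo.irr_central_mul hμ (z := ι a₁) (fun c => hc a₁ c) (ι a₂)
    rw [map_mul, ← this]
    ring
  let u : A → ℂ := fun a => μ (ι a) * conj (lam a : ℂ)
  have hu : ∀ a₁ a₂ : A, u a₁ * u a₂ = μ 1 * u (a₁ * a₂) := by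
    intro a₁ a₂
    simp only [u, map_mul, Units.val_mul]
    have h2 := hmul a₁ a₂
    have h3 : μ (ι a₁) * conj ((lam a₁ : ℂˣ) : ℂ) * (μ (ι a₂) * conj ((lam a₂ : ℂˣ) : ℂ)) =
        (μ (ι a₁) * μ (ι a₂)) * (conj ((lam a₁ : ℂˣ) : ℂ) * conj ((lam a₂ : ℂˣ) : ℂ)) := by ring
    rw [h3, h2, map_mul]
    ring
  have hsum : ∑ a, u a ≠ 0 := by
    intro h0
    apply h
    unfold classInner
    simp only [u] at h0
    rw [h0, mul_zero]
  have hu1 : ∀ a₀, u a₀ = μ 1 := by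
    intro a₀
    have h4 : u a₀ * ∑ a, u a = μ 1 * ∑ a, u a := by
      rw [Finset.mul_sum]
      simp only [hu]
      rw [← Finset.mul_sum]
      congr 1
      exact Fintype.sum_equiv (Equiv.mulLeft a₀) _ _ (fun a => rfl)
    exact mul_right_cancel₀ hsum h4
  have hnorm : conj ((lam a : ℂˣ) : ℂ) * ((lam a : ℂˣ) : ℂ) = 1 := by
    have h5 : ((lam a : ℂˣ) : ℂ) ^ (Nat.card A) = 1 := by
      rw [← Units.val_pow_eq_pow_val, ← map_pow, pow_card_eq_one', map_one, Units.val_one]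
    have h6 : ‖((lam a : ℂˣ) : ℂ)‖ = 1 := Complex.norm_eq_one_of_pow_eq_one h5 Nat.card_pos.ne'
    rw [mul_comm, Complex.mul_conj, Complex.normSq_eq_norm_sq, h6]
    simp
  have h7 := hu1 a
  simp only [u] at h7
  calc μ (ι a) = μ (ι a) * (conj ((lam a : ℂˣ) : ℂ) * ((lam a : ℂˣ) : ℂ)) := by rw [hnorm, mul_one]
    _ = (μ (ι a) * conj ((lam a : ℂˣ) : ℂ)) * ((lam a : ℂˣ) : ℂ) := by ring
    _ = _ := by rw [h7]

section Central

variable {X : Type u} [Group X] [Fintype X]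

/-- The exponent of the central power map. -/
theorem exists_exp (Y Z : Subgroup X) [hY : Y.Normal] (hZY : Z ≤ Y) (hZc : ∀ z ∈ Z, ∀ x : X, z * x = x * z)
    (hcop : (Y.index).Coprime (Z.relIndex Y)) :
    ∃ a e : ℕ, (∀ x ∈ Y, ∀ y ∈ Y, (x * y) ^ e = x ^ e * y ^ e) ∧ (∀ y ∈ Y, y ^ e ∈ Z) ∧ (∀ y ∈ Y, (y ^ e) ^ a = 1) ∧
      (∀ z ∈ Z, z ^ a = 1 → z ^ e = z) ∧ (∀ p : ℕ, p.Prime → p ∣ a → p ∣ Y.index) ∧
      (∀ k ∈ Y, k ^ e = 1 → ∀ p : ℕ, p.Prime → orderOf k = p → p ∣ Y.index → False) := by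
  classical
  set m := Y.index with hm
  set n := Z.relIndex Y with hn
  haveI : (Z.subgroupOf Y).Normal := ⟨fun z hz g => by
    have h1 : (z : X) ∈ Z := hz
    show (((g * z * g⁻¹ : Y)) : X) ∈ Z
    have h2 := hZc _ h1 (g : X)
    have h3 : ((g * z * g⁻¹ : Y) : X) = (z : X) := by
      simp only [Subgroup.coe_mul, Subgroup.coe_inv]
      rw [← h2]
      group
    rw [h3]
    exact h1⟩
  have hyn : ∀ y ∈ Y, y ^ n ∈ Z := by
    intro y hy
    have := Subgroup.pow_index_mem (Z.subgroupOf Y) (⟨y, hy⟩ : Y)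
    exact this
  have hpowN : ∀ x ∈ Y, ∀ y ∈ Y, (x * y) ^ n = x ^ n * y ^ n := by
    intro x hx y hy
    have := pow_central (Z.subgroupOf Y) (fun z hz y' => by
      apply Subtype.ext
      exact hZc _ hz (y' : X)) (⟨x, hx⟩ : Y) (⟨y, hy⟩ : Y)
    exact congrArg Subtype.val this
  obtain ⟨a, b, hab, ha, hb⟩ := exists_split m (Nat.card Z) Nat.card_pos.ne'
  have hbm : b.Coprime m := hb
  have han : a.Coprime n := by
    apply Nat.coprime_of_dvd
    intro p hp h1 h2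
    exact hp.one_lt.ne' (Nat.dvd_one.1 (hcop ▸ Nat.dvd_gcd (ha p hp h1) h2))
  have hac : a.Coprime b := by
    apply Nat.coprime_of_dvd
    intro p hp h1 h2
    exact hp.one_lt.ne' (Nat.dvd_one.1 (hbm ▸ Nat.dvd_gcd h2 (ha p hp h1)))
  -- an inverse of `n * b` modulo `a`
  obtain ⟨c, hc⟩ : ∃ c : ℕ, (n * b) * c ≡ 1 [MOD a] := by
    have h1 : (n * b).Coprime a := Nat.Coprime.mul_left han.symm hac.symm
    by_cases ha1 : a = 1
    · subst ha1
      exact ⟨0, Nat.modEq_one⟩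
    · have ha2 : 1 < a := by
        have : a ≠ 0 := by
          intro h0
          have := Nat.card_pos (α := Z)
          rw [hab, h0, zero_mul] at this
          exact lt_irrefl _ this
        omega
      obtain ⟨c, -, hc⟩ := Nat.exists_mul_mod_eq_one_of_coprime h1 ha2
      refine ⟨c, ?_⟩
      show _ % a = 1 % a
      rw [hc, Nat.mod_eq_of_lt ha2]
  set e := n * b * c with he
  have hzab : ∀ z ∈ Z, z ^ (a * b) = 1 := by
    intro z hz
    rw [← hab]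
    have := pow_card_eq_one' (x := (⟨z, hz⟩ : Z))
    exact congrArg Subtype.val this
  have hcentral : ∀ z ∈ Z, ∀ x : X, Commute z x := fun z hz x => hZc z hz x
  have hE2 : ∀ y ∈ Y, y ^ e ∈ Z := by
    intro y hy
    rw [he, mul_assoc, pow_mul]
    exact Z.pow_mem (hyn y hy) _
  have hE1 : ∀ x ∈ Y, ∀ y ∈ Y, (x * y) ^ e = x ^ e * y ^ e := by
    intro x hx y hy
    rw [he, mul_assoc, pow_mul, hpowN x hx y hy, (hcentral _ (hyn x hx) _).mul_pow, ← pow_mul, ← pow_mul]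
  have hE3 : ∀ y ∈ Y, (y ^ e) ^ a = 1 := by
    intro y hy
    have h1 : (y ^ e) ^ a = ((y ^ n) ^ (a * b)) ^ c := by
      rw [← pow_mul, ← pow_mul, ← pow_mul, he]
      congr 1
      ring
    rw [h1, hzab _ (hyn y hy), one_pow]
  have hE4 : ∀ z ∈ Z, z ^ a = 1 → z ^ e = z := by
    intro z _ hz
    have h1 : z ^ e = z ^ 1 := by
      rw [pow_eq_pow_mod e hz, pow_eq_pow_mod 1 hz]
      congr 1
    rwa [pow_one] at h1
  refine ⟨a, e, hE1, hE2, hE3, hE4, ha, ?_⟩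
  intro k hk hke p hp hord hpm
  have hpn : p.Coprime n := by
    apply Nat.coprime_of_dvd
    intro q hq h1 h2
    have : q = p := (Nat.prime_dvd_prime_iff_eq hq hp).1 h1
    subst this
    exact hq.one_lt.ne' (Nat.dvd_one.1 (hcop ▸ Nat.dvd_gcd hpm h2))
  have hkZ : k ∈ Z := by
    haveI : Fact p.Prime := ⟨hp⟩
    have h2 : k ∈ Subgroup.zpowers (k ^ n) := mem_zpowers_pow_iff.2 (by
      rw [hord]
      exact hpn.symm)
    have h3 : Subgroup.zpowers (k ^ n) ≤ Z := (Subgroup.zpowers_le).2 (hyn k hk)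
    exact h3 h2
  have h4 : p ∣ a * b := by
    rw [← hord]
    exact orderOf_dvd_of_pow_eq_one (hzab k hkZ)
  have h5 : p ∣ a := by
    rcases (Nat.Prime.dvd_mul hp).1 h4 with h6 | h6
    · exact h6
    · exact absurd (Nat.dvd_one.1 (hbm ▸ Nat.dvd_gcd h6 hpm)) hp.ne_one
  have h6 : k ^ a = 1 := by
    rw [← orderOf_dvd_iff_pow_eq_one, hord]
    exact h5
  have h7 := hE4 k hkZ h6
  rw [hke] at h7
  rw [← h7, orderOf_one] at hord
  exact hp.ne_one hord.symm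

/-- The kernel of the power map. -/
def powKer (Y : Subgroup X) (e : ℕ) (hE1 : ∀ x ∈ Y, ∀ y ∈ Y, (x * y) ^ e = x ^ e * y ^ e) : Subgroup X where
  carrier := {k | k ∈ Y ∧ k ^ e = 1}
  mul_mem' := by
    rintro a b ⟨ha, ha1⟩ ⟨hb, hb1⟩
    exact ⟨Y.mul_mem ha hb, by rw [hE1 a ha b hb, ha1, hb1, one_mul]⟩
  one_mem' := ⟨Y.one_mem, one_pow e⟩
  inv_mem' := by
    rintro a ⟨ha, ha1⟩
    exact ⟨Y.inv_mem ha, by rw [inv_pow, ha1, inv_one]⟩

theorem isIrr_comp_surj {A B : Type u} [Group A] [Group B] (f : A →* B) (hf : Function.Surjective f) {μ : B → ℂ}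
    (hμ : IsIrrCharacter B μ) : IsIrrCharacter A (fun a => μ (f a)) := by
  obtain ⟨d, ρ, hρ, rfl⟩ := hμ
  exact ⟨d, ρ.comp f, Cfsg.Agent.Lib.CharLift.isIrreducible_comp_surjective f hf ρ hρ, rfl⟩

/-- **The central case.** -/
theorem central_case (Y Z : Subgroup X) [hY : Y.Normal] [hZn : (Z.subgroupOf Y).Normal] [Fintype Y] [Fintype Z] (hZY : Z ≤ Y)
    (hZc : ∀ z ∈ Z, ∀ x : X, z * x = x * z) (hcop : (Y.index).Coprime (Z.relIndex Y))
    (hsolv : Group.IsSolvable (X ⧸ Y) ∨ Group.IsSolvable (Y ⧸ Z.subgroupOf Y)) (lam : Z →* ℂˣ) :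
    ∃ β : IrrCharacter Y, (∀ (x : X) (y : Y), (β : Y → ℂ) ⟨x * y * x⁻¹, hY.conj_mem y y.2 x⟩ = (β : Y → ℂ) y) ∧
      ∀ z : Z, (β : Y → ℂ) ⟨z, hZY z.2⟩ = (β : Y → ℂ) 1 * (lam z : ℂˣ) := by
  classical
  obtain ⟨a, e, hE1, hE2, hE3, hE4, ha, hE6⟩ := exists_exp Y Z hZY hZc hcop
  let K : Subgroup X := powKer Y e hE1
  have hKY : K ≤ Y := fun k hk => hk.1
  have hKmem : ∀ {k}, k ∈ Y → k ^ e = 1 → k ∈ K := fun h1 h2 => ⟨h1, h2⟩
  have hcentral : ∀ z ∈ Z, ∀ x : X, x * z * x⁻¹ = z := by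
    intro z hz x
    rw [← hZc z hz x]
    group
  have hconj : ∀ (x y : X), y ∈ Y → (x * y * x⁻¹) ^ e = y ^ e := by
    intro x y hy
    rw [conj_pow, hcentral _ (hE2 y hy)]
  haveI hKn : K.Normal := ⟨fun k hk x => ⟨hY.conj_mem k hk.1 x, by rw [hconj x k hk.1]; exact hk.2⟩⟩
  letI : Fintype K := Fintype.ofFinite _
  have hcopK : (Nat.card K).Coprime K.index := by
    by_contra hno
    obtain ⟨p, hp, hp1, hp2⟩ := Nat.Prime.not_coprime_iff_dvd.1 hno
    haveI : Fact p.Prime := ⟨hp⟩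
    have hpm : p ∣ Y.index := by
      have h1 : K.relIndex Y * Y.index = K.index := Subgroup.relIndex_mul_index hKY
      rw [← h1] at hp2
      rcases (Nat.Prime.dvd_mul hp).1 hp2 with h2 | h2
      · have h3 : p ∣ Nat.card (Y ⧸ K.subgroupOf Y) := h2
        obtain ⟨q, hq⟩ := exists_prime_orderOf_dvd_card' p h3
        obtain ⟨y, rfl⟩ := QuotientGroup.mk_surjective q
        have h4 : ((y : Y ⧸ K.subgroupOf Y)) ^ a = 1 := by
          rw [← QuotientGroup.mk_pow, QuotientGroup.eq_one_iff]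
          show ((y ^ a : Y) : X) ∈ K
          refine ⟨(y ^ a).2, ?_⟩
          show ((y : X) ^ a) ^ e = 1
          rw [← pow_mul, mul_comm, pow_mul]
          exact hE3 y y.2
        have h5 := orderOf_dvd_of_pow_eq_one h4
        rw [hq] at h5
        exact ha p hp h5
      · exact h2
    obtain ⟨k, hk⟩ := exists_prime_orderOf_dvd_card' p hp1
    exact hE6 k k.2.1 k.2.2 p hp (by rw [Subgroup.orderOf_coe]; exact hk) hpm
  obtain ⟨S, hS⟩ := Subgroup.exists_right_complement'_of_coprime hcopK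
  letI : Fintype S := Fintype.ofFinite _
  have hcardS : Nat.card S = K.index := hS.symm.index_eq_card.symm
  have hdisj : ∀ x, x ∈ K → x ∈ S → x = 1 := fun x h1 h2 => Subgroup.disjoint_def.1 hS.disjoint h1 h2
  let Z₂ : Subgroup X := K ⊓ Z
  have hZ₂K : Z₂ ≤ K := inf_le_left
  have hZ₂Z : Z₂ ≤ Z := inf_le_right
  letI : Fintype Z₂ := Fintype.ofFinite _
  let lam₂ : Z₂ →* ℂˣ := lam.comp (Subgroup.inclusion hZ₂Z)
  let θ₂ : IrrCharacter Z₂ := ⟨fun z => (lam₂ z : ℂ), isIrrCharacter_of_hom lam₂⟩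
  have hθ₂inv : ∀ s ∈ S, ∀ g g' : Z₂, (g' : X) = s * g * s⁻¹ → (θ₂ : Z₂ → ℂ) g' = (θ₂ : Z₂ → ℂ) g := by
    intro s _ g g' h
    have : g' = g := Subtype.ext (by rw [h]; exact hcentral _ (hZ₂Z g.2) s)
    rw [this]
  have hnormS : ∀ s ∈ S, ∀ g ∈ K, s * g * s⁻¹ ∈ K := fun s _ g hg => hKn.conj_mem g hg s
  have hZS : ∀ s ∈ S, ∀ n ∈ Z₂, s * n * s⁻¹ ∈ Z₂ := by
    intro s _ n hn
    rw [hcentral n (hZ₂Z hn) s]
    exact hn
  obtain ⟨μ, hμ1, hμ2⟩ : ∃ μ : IrrCharacter K, classInner (fun n : Z₂ => (μ : K → ℂ) ⟨n, hZ₂K n.2⟩) (θ₂ : Z₂ → ℂ) ≠ 0 ∧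
      ∀ s ∈ S, ∀ g g' : K, (g' : X) = s * g * s⁻¹ → (μ : K → ℂ) g' = (μ : K → ℂ) g := by
    rcases hsolv with h | h
    · have hSs : Group.IsSolvable S := by
        let g : S →* X ⧸ Y := (QuotientGroup.mk' Y).comp S.subtype
        haveI : Group.IsSolvable g.ker := by
          apply isSolvable_of_comm
          rintro ⟨⟨s, hs⟩, hs1⟩ ⟨⟨t, ht⟩, ht1⟩
          have hsY : s ∈ Y := (QuotientGroup.eq_one_iff _).1 hs1
          have htY : t ∈ Y := (QuotientGroup.eq_one_iff _).1 ht1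
          have hc : s * t * s⁻¹ * t⁻¹ = 1 := by
            apply hdisj
            · refine ⟨Y.mul_mem (hY.conj_mem t htY s) (Y.inv_mem htY), ?_⟩
              rw [hE1 _ (hY.conj_mem t htY s) _ (Y.inv_mem htY), hconj s t htY, inv_pow, mul_inv_cancel]
            · exact S.mul_mem (S.mul_mem (S.mul_mem hs ht) (S.inv_mem hs)) (S.inv_mem ht)
          apply Subtype.ext
          apply Subtype.ext
          show s * t = t * s
          calc s * t = (s * t * s⁻¹ * t⁻¹) * (t * s) := by group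
            _ = t * s := by rw [hc, one_mul]
        exact solvable_of_ker_le_range g.ker.subtype g (by simp)
      exact Cfsg.Agent.Lib.GlaubP.inv_over_cop_conj K S Z₂ hnormS hZ₂K hZS (by rw [hcardS]; exact hcopK) hSs θ₂ hθ₂inv
    · haveI hnn : (Z₂.subgroupOf K).Normal := ⟨fun n hn g => by
        show ((g : X) * ((n : K) : X) * (g : X)⁻¹) ∈ Z₂
        have hn' : ((n : K) : X) ∈ Z₂ := hn
        rw [hcentral ((n : K) : X) (hZ₂Z hn') (g : X)]
        exact hn'⟩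
      have hs : Group.IsSolvable (K ⧸ Z₂.subgroupOf K) := by
        let f : K ⧸ Z₂.subgroupOf K →* Y ⧸ Z.subgroupOf Y :=
          QuotientGroup.map (Z₂.subgroupOf K) (Z.subgroupOf Y) (Subgroup.inclusion hKY) (fun x hx => hZ₂Z hx)
        have hf : Function.Injective f := by
          rw [injective_iff_map_eq_one]
          intro q hq
          obtain ⟨x, rfl⟩ := QuotientGroup.mk_surjective q
          have h1 : ((Subgroup.inclusion hKY x : Y) : Y ⧸ Z.subgroupOf Y) = 1 := hq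
          rw [QuotientGroup.eq_one_iff] at h1
          exact (QuotientGroup.eq_one_iff x).2 ⟨x.2, h1⟩
        exact solvable_of_solvable_injective hf
      have hdvd : Z₂.relIndex K ∣ Nat.card K := Subgroup.relIndex_dvd_card Z₂ K
      exact Cfsg.Agent.Lib.GlaubM.inv_over_conj K S Z₂ hnormS hZ₂K hZS
        (Nat.Coprime.coprime_dvd_left hdvd (by rw [hcardS]; exact hcopK)) hs θ₂ hθ₂inv
  have hμc := IsCharacter.isClassFunction' (IsIrrCharacter.isCharacter' μ.2)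
  have hidem : ∀ y ∈ Y, (y ^ e) ^ e = y ^ e := fun y hy => hE4 _ (hE2 y hy) (hE3 y hy)
  have hret : ∀ y : Y, (y : X) * ((y : X) ^ e)⁻¹ ∈ K := by
    intro y
    have h1 : ((y : X) ^ e)⁻¹ ∈ Y := Y.inv_mem (hZY (hE2 y y.2))
    refine ⟨Y.mul_mem y.2 h1, ?_⟩
    rw [hE1 _ y.2 _ h1, inv_pow, hidem _ y.2, mul_inv_cancel]
  let ret : Y →* K :=
    { toFun := fun y => ⟨(y : X) * ((y : X) ^ e)⁻¹, hret y⟩
      map_one' := by
        apply Subtype.ext
        simp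
      map_mul' := by
        intro y y'
        apply Subtype.ext
        show ((y * y' : Y) : X) * (((y * y' : Y) : X) ^ e)⁻¹ = ((y : X) * ((y : X) ^ e)⁻¹) * ((y' : X) * ((y' : X) ^ e)⁻¹)
        simp only [Subgroup.coe_mul]
        rw [hE1 _ y.2 _ y'.2, mul_inv_rev]
        have h2 := hcentral _ (hE2 _ y.2) (y' : X)
        have h3 : ((y : X) ^ e)⁻¹ * (y' : X) = (y' : X) * ((y : X) ^ e)⁻¹ := by
          have h4 := hZc _ (hE2 _ y.2) (y' : X)
          calc ((y : X) ^ e)⁻¹ * (y' : X) = ((y : X) ^ e)⁻¹ * ((y' : X) * (y : X) ^ e) * ((y : X) ^ e)⁻¹ := by group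
            _ = ((y : X) ^ e)⁻¹ * ((y : X) ^ e * (y' : X)) * ((y : X) ^ e)⁻¹ := by rw [h4]
            _ = _ := by group
        calc (y : X) * (y' : X) * (((y' : X) ^ e)⁻¹ * ((y : X) ^ e)⁻¹)
            = (y : X) * ((y' : X) * ((y' : X) ^ e)⁻¹ * ((y : X) ^ e)⁻¹) := by group
          _ = (y : X) * (((y : X) ^ e)⁻¹ * ((y' : X) * ((y' : X) ^ e)⁻¹)) := by
              congr 1
              have h5 : ((y' : X) * ((y' : X) ^ e)⁻¹) * ((y : X) ^ e)⁻¹ = ((y : X) ^ e)⁻¹ * ((y' : X) * ((y' : X) ^ e)⁻¹) := by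
                have h6 := hZc _ (Z.inv_mem (hE2 _ y.2)) ((y' : X) * ((y' : X) ^ e)⁻¹)
                exact h6.symm
              exact h5
          _ = _ := by group }
  have hret_apply : ∀ y : Y, ((ret y : K) : X) = (y : X) * ((y : X) ^ e)⁻¹ := fun y => rfl
  have hretsurj : Function.Surjective ret := by
    intro k
    refine ⟨⟨k, hKY k.2⟩, Subtype.ext ?_⟩
    show (k : X) * ((k : X) ^ e)⁻¹ = k
    rw [k.2.2, inv_one, mul_one]
  let lY : Y →* ℂˣ :=
    { toFun := fun y => lam ⟨(y : X) ^ e, hE2 y y.2⟩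
      map_one' := by
        have : (⟨((1 : Y) : X) ^ e, hE2 1 (1 : Y).2⟩ : Z) = 1 := Subtype.ext (by simp)
        rw [this, map_one]
      map_mul' := by
        intro y y'
        rw [← map_mul]
        congr 1
        apply Subtype.ext
        exact hE1 _ y.2 _ y'.2 }
  have hlY : ∀ y : Y, lY y = lam ⟨(y : X) ^ e, hE2 y y.2⟩ := fun y => rfl
  let β₀ : IrrCharacter Y := ⟨fun y => (μ : K → ℂ) (ret y), isIrr_comp_surj ret hretsurj μ.2⟩
  refine ⟨Cfsg.Agent.Lib.GlaubM.twist lY β₀, ?_, ?_⟩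
  · intro x y
    rw [Cfsg.Agent.Lib.GlaubM.twist_apply, Cfsg.Agent.Lib.GlaubM.twist_apply]
    have h1 : lY ⟨x * y * x⁻¹, hY.conj_mem y y.2 x⟩ = lY y := by
      rw [hlY, hlY]
      congr 1
      exact Subtype.ext (hconj x y y.2)
    rw [h1]
    congr 1
    show (μ : K → ℂ) (ret _) = (μ : K → ℂ) (ret y)
    obtain ⟨⟨k₁, s⟩, hks⟩ := hS.2 x
    have hks' : (k₁ : X) * (s : X) = x := hks
    have h2 : ((ret y : K) : X) ∈ K := (ret y).2
    let w : K := ⟨(s : X) * ((ret y : K) : X) * (s : X)⁻¹, hKn.conj_mem _ h2 s⟩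
    have h3 : ret ⟨x * y * x⁻¹, hY.conj_mem y y.2 x⟩ = k₁ * w * k₁⁻¹ := by
      apply Subtype.ext
      rw [hret_apply]
      show x * (y : X) * x⁻¹ * ((x * (y : X) * x⁻¹) ^ e)⁻¹ = (k₁ : X) * ((s : X) * ((y : X) * ((y : X) ^ e)⁻¹) * (s : X)⁻¹) * (k₁ : X)⁻¹
      rw [hconj x y y.2]
      have h4 : x * (y : X) * x⁻¹ * ((y : X) ^ e)⁻¹ = x * ((y : X) * ((y : X) ^ e)⁻¹) * x⁻¹ := by
        have h5 := hcentral _ (Z.inv_mem (hE2 _ y.2)) x
        calc x * (y : X) * x⁻¹ * ((y : X) ^ e)⁻¹ = x * (y : X) * x⁻¹ * (x * ((y : X) ^ e)⁻¹ * x⁻¹) := by rw [h5]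
          _ = _ := by group
      rw [h4, ← hks']
      group
    rw [h3, hμc w k₁]
    exact hμ2 s s.2 _ _ rfl
  · intro z
    rw [Cfsg.Agent.Lib.GlaubM.twist_apply, Cfsg.Agent.Lib.GlaubM.twist_apply]
    have hone : lY 1 = 1 := map_one lY
    rw [hone]
    show ((lY ⟨z, hZY z.2⟩ : ℂˣ) : ℂ) * (μ : K → ℂ) (ret ⟨z, hZY z.2⟩) = ((1 : ℂˣ) : ℂ) * (μ : K → ℂ) (ret 1) * _
    rw [map_one ret]
    have hzm : ((ret ⟨z, hZY z.2⟩ : K) : X) ∈ Z₂ := by
      refine ⟨(ret ⟨z, hZY z.2⟩).2, ?_⟩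
      show (z : X) * ((z : X) ^ e)⁻¹ ∈ Z
      exact Z.mul_mem z.2 (Z.inv_mem (Z.pow_mem z.2 e))
    have hcr := central_restrict (Subgroup.inclusion hZ₂K) (fun a c => by
      apply Subtype.ext
      show (c : X) * ((a : Z₂) : X) = ((a : Z₂) : X) * (c : X)
      exact (hZc _ (hZ₂Z a.2) _).symm) μ.2 lam₂ hμ1 ⟨_, hzm⟩
    have h7 : Subgroup.inclusion hZ₂K ⟨_, hzm⟩ = ret ⟨z, hZY z.2⟩ := rfl
    rw [h7] at hcr
    rw [hcr, hlY]
    have h8 : lam₂ ⟨_, hzm⟩ * lam ⟨((⟨z, hZY z.2⟩ : Y) : X) ^ e, hE2 _ (hZY z.2)⟩ = lam z := by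
      show lam _ * lam _ = lam z
      rw [← map_mul]
      congr 1
      apply Subtype.ext
      show ((z : X) * ((z : X) ^ e)⁻¹) * (z : X) ^ e = z
      group
    rw [← h8, Units.val_mul]
    simp
    ring

end Central

section Descend

theorem irr_descend {A B : Type u} [Group A] [Finite A] [Group B] [Fintype B] (f : A →* B) (hf : Function.Surjective f) {η : A → ℂ}
    (hη : IsIrrCharacter A η) (hker : ∀ a, f a = 1 → η a = η 1) :
    ∃ χ : B → ℂ, IsIrrCharacter B χ ∧ ∀ a, χ (f a) = η a := by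
  classical
  letI : Fintype (A ⧸ f.ker) := Fintype.ofFinite _
  obtain ⟨θ, hθ, hθ2⟩ := Cfsg.Agent.Lib.CharInflate.exists_quotient_irr f.ker hη (fun n hn => hker n hn)
  let E : A ⧸ f.ker ≃* B := QuotientGroup.quotientKerEquivOfSurjective f hf
  refine ⟨fun b => θ (E.symm b), Cfsg.Agent.Lib.CharCliff.isIrr_comp_mulEquiv E.symm hθ, fun a => ?_⟩
  have h1 : E.symm (f a) = (a : A ⧸ f.ker) := by
    rw [MulEquiv.symm_apply_eq]
    rfl
  show θ (E.symm (f a)) = η a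
  rw [h1, hθ2]

theorem solvable_of_factor {A B C : Type*} [Group A] [Group B] [Group C] (s : A →* B) (t : A →* C)
    (hs : Function.Surjective s) (ht : Function.Surjective t) (hker : t.ker ≤ s.ker) (hC : Group.IsSolvable C) :
    Group.IsSolvable B := by
  let u : C →* B := t.liftOfSurjective ht ⟨s, hker⟩
  have hu : Function.Surjective u := by
    intro b
    obtain ⟨a, rfl⟩ := hs b
    exact ⟨t a, MonoidHom.liftOfRightInverse_comp_apply t _ _ ⟨s, hker⟩ a⟩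
  exact solvable_of_surjective hu

open Cfsg.Agent.Lib.CharLift in
/-- **The general case**, through the lifted group. -/
theorem exists_invariant {Γ : Type u} [Group Γ] [Fintype Γ] (G N : Subgroup Γ) [hG : G.Normal] [hN : N.Normal] [Fintype G]
    [Fintype N] (hNG : N ≤ G) (hcop : (G.index).Coprime (N.relIndex G))
    (hsolv : Group.IsSolvable (Γ ⧸ G) ∨ Group.IsSolvable (G ⧸ N.subgroupOf G)) (θ : IrrCharacter N)
    (hinv : ∀ (x : Γ) (n : N), (θ : N → ℂ) ⟨x * n * x⁻¹, hN.conj_mem n n.2 x⟩ = (θ : N → ℂ) n) :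
    ∃ χ : IrrCharacter G, classInner (fun n : N => (χ : G → ℂ) ⟨n, hNG n.2⟩) (θ : N → ℂ) ≠ 0 ∧
      ∀ (x : Γ) (g : G), (χ : G → ℂ) ⟨x * g * x⁻¹, hG.conj_mem g g.2 x⟩ = (χ : G → ℂ) g := by
  classical
  obtain ⟨θf, hθf⟩ := θ
  obtain ⟨d, ρ, hρ, rfl⟩ := id hθf
  haveI := hρ
  have hs : Function.Surjective (piL N ρ) := piL_surjective N ρ hinv
  haveI : Finite (Lift N ρ) := instFiniteLift N ρ
  letI : Fintype (Lift N ρ) := Fintype.ofFinite _
  have hd := dim_pos ρ ‹_›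
  let K : Subgroup (Lift N ρ) := (iotaL N ρ).range
  haveI hKn : K.Normal := ⟨by
    rintro _ ⟨n, rfl⟩ x
    exact ⟨_, (conj_iota N ρ x n).symm⟩⟩
  letI : Fintype (Lift N ρ ⧸ K) := Fintype.ofFinite _
  let mk : Lift N ρ →* Lift N ρ ⧸ K := QuotientGroup.mk' K
  have hmk : Function.Surjective mk := QuotientGroup.mk'_surjective K
  have hmkK : ∀ w ∈ K, mk w = 1 := fun w hw => (QuotientGroup.eq_one_iff _).2 hw
  have hmkK' : ∀ w, mk w = 1 → w ∈ K := fun w hw => (QuotientGroup.eq_one_iff _).1 hw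
  let YL : Subgroup (Lift N ρ) := G.comap (piL N ρ)
  let ZL : Subgroup (Lift N ρ) := N.comap (piL N ρ)
  have hKZL : K ≤ ZL := by
    rintro _ ⟨n, rfl⟩
    show piL N ρ (iotaL N ρ n) ∈ N
    rw [piL_iota]
    exact n.2
  have hZLYL : ZL ≤ YL := fun w hw => hNG hw
  haveI hYLn : YL.Normal := hG.comap (piL N ρ)
  let Y₁ : Subgroup (Lift N ρ ⧸ K) := YL.map mk
  let Z₁ : Subgroup (Lift N ρ ⧸ K) := ZL.map mk
  haveI hY₁ : Y₁.Normal := hYLn.map mk hmk
  have hZ₁Y₁ : Z₁ ≤ Y₁ := Subgroup.map_mono hZLYL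
  have hZc : ∀ z ∈ Z₁, ∀ x : Lift N ρ ⧸ K, z * x = x * z := by
    rintro _ ⟨w, hw, rfl⟩ x
    obtain ⟨x', rfl⟩ := hmk x
    obtain ⟨z, hz, hwz⟩ := exists_decomp N ρ w hw
    have h1 : mk w = mk z := by
      conv_lhs => rw [hwz]
      rw [map_mul, hmkK _ ⟨_, rfl⟩, one_mul]
    rw [h1, ← map_mul, ← map_mul, central_of_ker N ρ hz x']
  haveI hZ₁n : (Z₁.subgroupOf Y₁).Normal := ⟨fun n hn g => by
    show ((g : Lift N ρ ⧸ K) * ((n : Y₁) : Lift N ρ ⧸ K) * (g : Lift N ρ ⧸ K)⁻¹) ∈ Z₁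
    have hn' : ((n : Y₁) : Lift N ρ ⧸ K) ∈ Z₁ := hn
    rw [← hZc _ hn' (g : Lift N ρ ⧸ K)]
    simpa using hn'⟩
  letI : Fintype Y₁ := Fintype.ofFinite _
  letI : Fintype Z₁ := Fintype.ofFinite _
  have hcomapY : Y₁.comap mk = YL := Subgroup.comap_map_eq_self (by
    rw [QuotientGroup.ker_mk']
    exact hKZL.trans hZLYL)
  have hcomapZ : Z₁.comap mk = ZL := Subgroup.comap_map_eq_self (by
    rw [QuotientGroup.ker_mk']
    exact hKZL)
  have hindex : Y₁.index = G.index := by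
    have h1 : (Y₁.comap mk).index = Y₁.index := Subgroup.index_comap_of_surjective Y₁ hmk
    have h2 : (G.comap (piL N ρ)).index = G.index := Subgroup.index_comap_of_surjective G hs
    rw [← h1, hcomapY]
    exact h2
  have hrel : Z₁.relIndex Y₁ = N.relIndex G := by
    have h1 : (Z₁.comap mk).relIndex YL = Z₁.relIndex (YL.map mk) := Subgroup.relIndex_comap Z₁ mk YL
    have h2 : (N.comap (piL N ρ)).relIndex (G.comap (piL N ρ)) = N.relIndex ((G.comap (piL N ρ)).map (piL N ρ)) :=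
      Subgroup.relIndex_comap N (piL N ρ) _
    rw [Subgroup.map_comap_eq_self_of_surjective hs] at h2
    rw [hcomapZ] at h1
    exact h1.symm.trans h2
  -- the scalars
  have hQinv : ∀ x : Lift N ρ, Q N ρ x * Q N ρ x⁻¹ = 1 := by
    intro x
    rw [← map_mul, mul_inv_cancel, map_one]
  have hEnd : (1 : EndV d) ≠ 0 := by
    have h1 := scalar_inj (d := d) hd (c := 1) (c' := 0)
    intro h0
    have h2 := h1 (by rw [one_smul, zero_smul, h0])
    exact one_ne_zero h2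
  have hex : ∀ w : ZL, ∃ C : ℂ, C ≠ 0 ∧ Q N ρ w = C • ρ ⟨piL N ρ w, w.2⟩ := by
    intro w
    obtain ⟨z, hz, hwz⟩ := exists_decomp N ρ w.1 w.2
    obtain ⟨C, hC⟩ := scalar_of_ker N ρ hz
    have h1 : Q N ρ w = C • ρ ⟨piL N ρ w, w.2⟩ := by
      conv_lhs => rw [hwz, map_mul, Q_iota, hC]
      rw [mul_smul_comm, mul_one]
    refine ⟨C, ?_, h1⟩
    rintro rfl
    have h2 : Q N ρ w = 0 := by rw [h1, zero_smul]
    have h3 := hQinv w
    rw [h2, zero_mul] at h3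
    exact hEnd h3.symm
  choose C hC0 hC using hex
  have huniq : ∀ (n : N) (a b : ℂ), a • ρ n = b • ρ n → a = b := by
    intro n a b hab
    apply scalar_inj hd
    have h1 : ρ n * ρ n⁻¹ = 1 := by rw [← map_mul, mul_inv_cancel, map_one]
    calc a • (1 : EndV d) = (a • ρ n) * ρ n⁻¹ := by rw [smul_mul_assoc, h1]
      _ = (b • ρ n) * ρ n⁻¹ := by rw [hab]
      _ = b • (1 : EndV d) := by rw [smul_mul_assoc, h1]
  have hCmul : ∀ w w' : ZL, C (w * w') = C w * C w' := by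
    intro w w'
    apply huniq ⟨piL N ρ (w * w' : ZL), (w * w' : ZL).2⟩
    rw [← hC]
    have h1 : (⟨piL N ρ (w * w' : ZL), (w * w' : ZL).2⟩ : N) = ⟨piL N ρ w, w.2⟩ * ⟨piL N ρ w', w'.2⟩ :=
      Subtype.ext (map_mul (piL N ρ) (w : Lift N ρ) (w' : Lift N ρ))
    rw [h1, map_mul ρ]
    show Q N ρ ((w : Lift N ρ) * (w' : Lift N ρ)) = _
    rw [map_mul, hC, hC, smul_mul_smul_comm]
  have hC1 : C 1 = 1 := by
    apply huniq 1
    have h1 := hC 1
    have h2 : (⟨piL N ρ ((1 : ZL) : Lift N ρ), (1 : ZL).2⟩ : N) = 1 := Subtype.ext (map_one (piL N ρ))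
    rw [h2] at h1
    rw [← h1, one_smul, map_one]
    show Q N ρ 1 = 1
    rw [map_one]
  let cHom : ZL →* ℂˣ :=
    { toFun := fun w => Units.mk0 (C w) (hC0 w)
      map_one' := Units.ext hC1
      map_mul' := fun w w' => Units.ext (hCmul w w') }
  have hcHom : ∀ w, ((cHom w : ℂˣ) : ℂ) = C w := fun w => rfl
  have hCK : ∀ w : ZL, (w : Lift N ρ) ∈ K → C w = 1 := by
    rintro ⟨w, hw⟩ ⟨n, rfl⟩
    apply huniq n
    have h1 := hC ⟨iotaL N ρ n, hw⟩
    have h2 : (⟨piL N ρ ((⟨iotaL N ρ n, hw⟩ : ZL) : Lift N ρ), (⟨iotaL N ρ n, hw⟩ : ZL).2⟩ : N) = n := Subtype.ext rfl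
    rw [h2] at h1
    rw [← h1, one_smul]
    exact Q_iota N ρ n
  let r₀ : ZL →* Z₁ := mk.subgroupMap ZL
  have hr₀ : Function.Surjective r₀ := mk.subgroupMap_surjective ZL
  have hkerr₀ : r₀.ker ≤ (cHom⁻¹).ker := by
    intro w hw
    have h1 : mk (w : Lift N ρ) = 1 := congrArg Subtype.val hw
    have h2 := hCK w (hmkK' _ h1)
    rw [MonoidHom.mem_ker, MonoidHom.inv_apply, inv_eq_one]
    exact Units.ext h2
  let lam : Z₁ →* ℂˣ := r₀.liftOfSurjective hr₀ ⟨cHom⁻¹, hkerr₀⟩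
  have hlam : ∀ w : ZL, lam (r₀ w) = (cHom w)⁻¹ := fun w =>
    MonoidHom.liftOfRightInverse_comp_apply r₀ _ _ ⟨cHom⁻¹, hkerr₀⟩ w
  -- the map to the quotient group on the preimage of `G`
  let r : YL →* Y₁ := mk.subgroupMap YL
  have hr : Function.Surjective r := mk.subgroupMap_surjective YL
  let πG : YL →* G := (piL N ρ).subgroupComap G
  have hπG : Function.Surjective πG := (piL N ρ).subgroupComap_surjective_of_surjective G hs
  have hπGval : ∀ y : YL, ((πG y : G) : Γ) = piL N ρ y := fun y => rfl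
  have hsolv' : Group.IsSolvable ((Lift N ρ ⧸ K) ⧸ Y₁) ∨ Group.IsSolvable (Y₁ ⧸ Z₁.subgroupOf Y₁) := by
    rcases hsolv with h | h
    · left
      refine solvable_of_factor ((QuotientGroup.mk' Y₁).comp mk) ((QuotientGroup.mk' G).comp (piL N ρ))
        ((QuotientGroup.mk'_surjective Y₁).comp hmk) ((QuotientGroup.mk'_surjective G).comp hs) ?_ h
      intro x hx
      have h1 : piL N ρ x ∈ G := (QuotientGroup.eq_one_iff _).1 hx
      exact (QuotientGroup.eq_one_iff _).2 ⟨x, h1, rfl⟩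
    · right
      refine solvable_of_factor ((QuotientGroup.mk' (Z₁.subgroupOf Y₁)).comp r) ((QuotientGroup.mk' (N.subgroupOf G)).comp πG)
        ((QuotientGroup.mk'_surjective _).comp hr) ((QuotientGroup.mk'_surjective _).comp hπG) ?_ h
      intro y hy
      have h1 : πG y ∈ N.subgroupOf G := (QuotientGroup.eq_one_iff _).1 hy
      have h2 : piL N ρ y ∈ N := h1
      exact (QuotientGroup.eq_one_iff _).2 ⟨y, h2, rfl⟩
  obtain ⟨β, hβinv, hβZ⟩ := central_case Y₁ Z₁ hZ₁Y₁ hZc (by rw [hindex, hrel]; exact hcop) hsolv' lam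
  -- the product character on the preimage of `G`
  let q : Lift N ρ → ℂ := (Q N ρ).character
  have hqirr : IsIrrCharacter (Lift N ρ) q := ⟨d, Q N ρ, Q_irreducible N ρ, rfl⟩
  have hq : IsCharacter (Lift N ρ) q := IsIrrCharacter.isCharacter' hqirr
  letI : Fintype YL := Fintype.ofFinite _
  let K' : Subgroup YL := K.subgroupOf YL
  haveI hK'n : K'.Normal := inferInstance
  letI : Fintype K' := Fintype.ofFinite _
  have hKYL : K ≤ YL := hKZL.trans hZLYL
  let E₁ : K' ≃* N := (Subgroup.subgroupOfEquivOfLe hKYL).trans (MonoidHom.ofInjective (iota_injective N ρ)).symm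
  have hE₁ : ∀ k : K', iotaL N ρ (E₁ k) = ((k : YL) : Lift N ρ) := fun k =>
    MonoidHom.apply_ofInjective_symm (iota_injective N ρ) (Subgroup.subgroupOfEquivOfLe hKYL k)
  have hqres : IsIrrCharacter K' (fun k : K' => q ((k : YL) : Lift N ρ)) := by
    have h1 : (fun k : K' => q ((k : YL) : Lift N ρ)) = fun k : K' => ρ.character (E₁ k) := by
      funext k
      show (Q N ρ).character _ = _
      rw [← hE₁ k]
      rfl
    rw [h1]
    exact Cfsg.Agent.Lib.CharCliff.isIrr_comp_mulEquiv E₁ hθf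
  have hrK : ∀ k ∈ K', r k = 1 := by
    intro k hk
    exact Subtype.ext (hmkK _ hk)
  let u : YL ⧸ K' →* Y₁ := QuotientGroup.lift K' r hrK
  have hubij : Function.Bijective u := by
    constructor
    · rw [injective_iff_map_eq_one]
      intro t ht
      obtain ⟨y, rfl⟩ := QuotientGroup.mk_surjective t
      have h1 : r y = 1 := ht
      have h2 : mk (y : Lift N ρ) = 1 := congrArg Subtype.val h1
      exact (QuotientGroup.eq_one_iff _).2 (hmkK' _ h2)
    · intro t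
      obtain ⟨y, rfl⟩ := hr t
      exact ⟨(y : YL ⧸ K'), rfl⟩
  let E₂ : YL ⧸ K' ≃* Y₁ := MulEquiv.ofBijective u hubij
  let β' : IrrCharacter (YL ⧸ K') := ⟨fun t => (β : Y₁ → ℂ) (E₂ t), Cfsg.Agent.Lib.CharCliff.isIrr_comp_mulEquiv E₂ β.2⟩
  let η : YL → ℂ := fun y => q y * (β : Y₁ → ℂ) (r y)
  have hη : IsIrrCharacter YL η :=
    Cfsg.Agent.Lib.CharGal.isIrr_mul_inflate K' (isCharacter_restrict YL hq) hqres β'
  have hker : ∀ y : YL, πG y = 1 → η y = η 1 := by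
    intro y hy
    have h1 : piL N ρ y = 1 := congrArg Subtype.val hy
    let w : ZL := ⟨y, by
      show piL N ρ y ∈ N
      rw [h1]
      exact N.one_mem⟩
    have h2 : Q N ρ y = C w • 1 := by
      have h3 := hC w
      have h4 : (⟨piL N ρ (w : Lift N ρ), w.2⟩ : N) = 1 := Subtype.ext h1
      rw [h4, map_one] at h3
      exact h3
    have h5 : q y = C w * q 1 := by
      show LinearMap.trace ℂ _ (Q N ρ y) = C w * LinearMap.trace ℂ _ (Q N ρ 1)
      rw [h2, map_one, map_smul, smul_eq_mul]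
    have h6 : r y = ⟨(r₀ w : Z₁), hZ₁Y₁ (r₀ w).2⟩ := rfl
    have h7 := hβZ (r₀ w)
    rw [hlam w] at h7
    show q y * (β : Y₁ → ℂ) (r y) = q 1 * (β : Y₁ → ℂ) (r 1)
    rw [h6, h7, h5, map_one r]
    have h8 : (((cHom w)⁻¹ : ℂˣ) : ℂ) = (C w)⁻¹ := by
      rw [Units.val_inv_eq_inv_val]
      rfl
    rw [h8]
    field_simp [hC0 w]
  obtain ⟨χf, hχ, hχη⟩ := irr_descend πG hπG hη hker
  refine ⟨⟨χf, hχ⟩, ?_, ?_⟩
  · have h1 : (fun n : N => χf ⟨n, hNG n.2⟩) = ((β : Y₁ → ℂ) 1) • ρ.character := by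
      funext n
      have hm : iotaL N ρ n ∈ YL := hKYL ⟨n, rfl⟩
      have h2 : (⟨n, hNG n.2⟩ : G) = πG ⟨iotaL N ρ n, hm⟩ := Subtype.ext rfl
      rw [h2, hχη]
      show q (iotaL N ρ n) * (β : Y₁ → ℂ) (r ⟨iotaL N ρ n, hm⟩) = _
      have h3 : r ⟨iotaL N ρ n, hm⟩ = 1 := hrK _ ⟨n, rfl⟩
      rw [h3]
      have h4 : q (iotaL N ρ n) = ρ.character n := rfl
      rw [h4, Pi.smul_apply, smul_eq_mul, mul_comm]
    show classInner (fun n : N => χf ⟨n, hNG n.2⟩) ρ.character ≠ 0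
    rw [h1, classInner_smul_left, classInner_irr hθf hθf, if_pos rfl, mul_one]
    exact degree_ne_zero β.2
  · intro x g
    show χf _ = χf g
    obtain ⟨x', rfl⟩ := hs x
    obtain ⟨y, rfl⟩ := hπG g
    have hm : x' * (y : Lift N ρ) * x'⁻¹ ∈ YL := hYLn.conj_mem _ y.2 x'
    have h1 : (⟨piL N ρ x' * ((πG y : G) : Γ) * (piL N ρ x')⁻¹, hG.conj_mem _ (πG y).2 _⟩ : G) = πG ⟨_, hm⟩ := by
      apply Subtype.ext
      show _ = piL N ρ (x' * (y : Lift N ρ) * x'⁻¹)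
      rw [map_mul, map_mul, map_inv]
      rfl
    rw [h1, hχη, hχη]
    show q (x' * (y : Lift N ρ) * x'⁻¹) * (β : Y₁ → ℂ) (r ⟨_, hm⟩) = q y * (β : Y₁ → ℂ) (r y)
    rw [IsCharacter.isClassFunction' hq]
    congr 1
    have h2 : r ⟨_, hm⟩ = ⟨mk x' * ((r y : Y₁) : Lift N ρ ⧸ K) * (mk x')⁻¹, hY₁.conj_mem _ (r y).2 _⟩ := by
      apply Subtype.ext
      show mk (x' * (y : Lift N ρ) * x'⁻¹) = _
      rw [map_mul, map_mul, map_inv]
      rfl
    rw [h2]
    exact hβinv (mk x') (r y)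

end Descend

end Cfsg.Agent.Lib.CharTriple
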