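import Mathlib
import Cfsg.Agent.Lib.CoprimeAB
import Cfsg.Agent.Lib.FitSolv
import Cfsg.Agent.Lib.FitCore
import Cfsg.Agent.Lib.PComps
import Cfsg.Agent.Lib.PGroupBasic
import Cfsg.Agent.Lib.SchurZ

/-!
# Solvable involution centralizers with trivial odd core: characteristic `2` type
-/

set_option autoImplicit false
set_option linter.unusedVariables false
set_option linter.style.haveILetI false
set_option linter.unusedSectionVars false

namespace Cfsg.Agent.Lib.CharTwoType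

open Cfsg Subgroup
open scoped Pointwise

universe u

theorem pCore_char {G : Type*} [Group G] [Finite G] (p : ℕ) [Fact p.Prime] :
    (pCore p G).Characteristic := by
  rw [characteristic_iff_map_le]
  intro φ
  apply Cfsg.Agent.Lib.FitCore.le_pCore p _
  · exact Subgroup.Normal.map (Cfsg.Agent.Lib.FitCore.pCore_normal p) φ.toMonoidHom φ.surjective
  · exact (Cfsg.Agent.Lib.FitCore.pCore_isPGroup p).map φ.toMonoidHom

variable {G : Type*} [Group G] [Finite G]

theorem exists_central_invol (T : Subgroup G) (hT : IsPGroup 2 T) (hT1 : T ≠ ⊥) :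
    ∃ t ∈ T, orderOf t = 2 ∧ ∀ u ∈ T, t * u = u * t := by
  classical
  haveI hfact : Fact (Nat.Prime 2) := ⟨Nat.prime_two⟩
  haveI : Nontrivial T := (Subgroup.nontrivial_iff_ne_bot T).2 hT1
  haveI : Nontrivial (center T) := hT.center_nontrivial
  have hp : IsPGroup 2 (center T) := hT.to_subgroup _
  obtain ⟨k, hk⟩ := IsPGroup.iff_card.1 hp
  have h2 : 2 ∣ Nat.card (center T) := by
    rw [hk]
    have : k ≠ 0 := by
      rintro rfl
      rw [pow_zero] at hk
      exact (Finite.one_lt_card (α := center T)).ne' hk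
    exact dvd_pow_self 2 this
  obtain ⟨t, ht⟩ := exists_prime_orderOf_dvd_card' 2 h2
  refine ⟨(t : T), (t : T).2, ?_, ?_⟩
  · rw [Subgroup.orderOf_coe, Subgroup.orderOf_coe, ht]
  · intro u hu
    have := (mem_center_iff.1 t.2 ⟨u, hu⟩)
    have h3 := congrArg Subtype.val this
    exact h3.symm

/-- An odd normal subgroup of a `2`-local subgroup is trivial. -/
theorem odd_normal_trivial
    (hs : ∀ t : G, orderOf t = 2 → Group.IsSolvable (centralizer ({t} : Set G)))
    (hc : ∀ t : G, orderOf t = 2 → oddCore (centralizer ({t} : Set G)) = ⊥)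
    (T : Subgroup G) (hT : IsPGroup 2 T) (hT1 : T ≠ ⊥) (R : Subgroup G)
    (hRN : R ≤ normalizer (T : Set G))
    (hRn : ∀ n ∈ normalizer (T : Set G), ∀ r ∈ R, n * r * n⁻¹ ∈ R)
    (hRo : ¬ 2 ∣ Nat.card R) : R = ⊥ := by
  classical
  haveI hfact : Fact (Nat.Prime 2) := ⟨Nat.prime_two⟩
  have hRc : (Nat.card R).Coprime 2 := ((Nat.Prime.coprime_iff_not_dvd Nat.prime_two).2 hRo).symm
  have hinfT : R ⊓ T = ⊥ := by
    apply Cfsg.Agent.Lib.SchurZ.inf_eq_bot_of_coprime
    obtain ⟨n, hn⟩ := IsPGroup.iff_card.1 hT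
    rw [hn]
    exact hRc.pow_right n
  have hRT : ∀ r ∈ R, ∀ u ∈ T, r * u = u * r := by
    intro r hr u hu
    have h1 : r * u * r⁻¹ ∈ T := (mem_normalizer_iff.1 (hRN hr) u).1 hu
    have h2 : u * r⁻¹ * u⁻¹ ∈ R := hRn u (le_normalizer hu) _ (inv_mem hr)
    have h3 : r * u * r⁻¹ * u⁻¹ ∈ T := mul_mem h1 (inv_mem hu)
    have h4 : r * u * r⁻¹ * u⁻¹ ∈ R := by
      have e : r * u * r⁻¹ * u⁻¹ = r * (u * r⁻¹ * u⁻¹) := by group
      rw [e]
      exact mul_mem hr h2
    have h5 : r * u * r⁻¹ * u⁻¹ ∈ R ⊓ T := ⟨h4, h3⟩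
    rw [hinfT, mem_bot] at h5
    have h6 : r * u * r⁻¹ = u := mul_inv_eq_one.1 h5
    exact (mul_inv_eq_iff_eq_mul.1 h6)
  obtain ⟨t, htT, hto, htc⟩ := exists_central_invol T hT hT1
  let L := centralizer ({t} : Set G)
  haveI hLs : Group.IsSolvable L := hs t hto
  have hLc : pPrimeCore 2 L = ⊥ := hc t hto
  have hmemL : ∀ y : G, y * t = t * y → y ∈ L := by
    intro y hy
    refine mem_centralizer_iff.2 ?_
    intro w hw
    rw [Set.mem_singleton_iff] at hw
    rw [hw]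
    exact hy.symm
  have hRL : ∀ r ∈ R, r ∈ L := fun r hr => hmemL r (hRT r hr t htT)
  have hTL : ∀ u ∈ T, u ∈ L := fun u hu => hmemL u (htc u hu).symm
  let Q : Subgroup L := pCore 2 L
  haveI hQn : Q.Normal := Cfsg.Agent.Lib.FitCore.pCore_normal 2
  have hQp : IsPGroup 2 Q := Cfsg.Agent.Lib.FitCore.pCore_isPGroup 2
  have hQC : centralizer (Q : Set L) ≤ Q := Cfsg.Agent.Lib.FitSolv.centralizer_pCore_le 2 hLc
  let P : Subgroup G := Q.map L.subtype
  have hPp : IsPGroup 2 P := hQp.map L.subtype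
  have hinfP : R ⊓ P = ⊥ := by
    apply Cfsg.Agent.Lib.SchurZ.inf_eq_bot_of_coprime
    obtain ⟨n, hn⟩ := IsPGroup.iff_card.1 hPp
    rw [hn]
    exact hRc.pow_right n
  have hnorm : ∀ y ∈ L, y ∈ normalizer (P : Set G) := by
    intro y hy
    refine mem_normalizer_iff.2 (fun x => ?_)
    constructor
    · rintro ⟨q, hq, rfl⟩
      exact ⟨⟨y, hy⟩ * q * ⟨y, hy⟩⁻¹, hQn.conj_mem q hq ⟨y, hy⟩, rfl⟩
    · rintro ⟨q, hq, e⟩
      refine ⟨⟨y, hy⟩⁻¹ * q * (⟨y, hy⟩⁻¹)⁻¹, hQn.conj_mem q hq ⟨y, hy⟩⁻¹, ?_⟩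
      simp only [coe_subtype, MulMemClass.coe_mul, InvMemClass.coe_inv]
      have e' : (q : G) = y * x * y⁻¹ := e
      rw [e']
      group
  have hab := Cfsg.Agent.Lib.CoprimeAB.ab_lemma (P := P) (A := R) (B := T) hPp hT
    (fun r hr => hnorm r (hRL r hr)) (fun u hu => hnorm u (hTL u hu)) hRT hRc
    (by
      intro x hx hxT a ha
      -- `x` normalises `T`
      have hxN : x ∈ normalizer (T : Set G) := by
        refine mem_normalizer_iff.2 (fun u => ?_)
        constructor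
        · intro hu
          rw [hxT u hu, mul_inv_cancel_right]
          exact hu
        · intro hu
          have h1 := hxT _ hu
          have e : x * u * x⁻¹ = u := by
            have h2 : x * (x * u * x⁻¹) = x * u := by
              rw [h1, inv_mul_cancel_right]
            exact mul_left_cancel h2
          rwa [e] at hu
      have h1 : x * a⁻¹ * x⁻¹ ∈ R := hRn x hxN _ (inv_mem ha)
      have h2 : a * x * a⁻¹ ∈ P := (mem_normalizer_iff.1 (hnorm a (hRL a ha)) x).1 hx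
      have h3 : a * (x * a⁻¹ * x⁻¹) ∈ R := mul_mem ha h1
      have h4 : a * x * a⁻¹ * x⁻¹ ∈ P := mul_mem h2 (inv_mem hx)
      have e : a * (x * a⁻¹ * x⁻¹) = a * x * a⁻¹ * x⁻¹ := by group
      rw [e] at h3
      have h5 : a * x * a⁻¹ * x⁻¹ ∈ R ⊓ P := ⟨h3, h4⟩
      rw [hinfP, mem_bot] at h5
      have h6 : a * x * a⁻¹ = x := mul_inv_eq_one.1 h5
      exact mul_inv_eq_iff_eq_mul.1 h6)
  rw [eq_bot_iff]
  intro r hr
  have h1 : (⟨r, hRL r hr⟩ : L) ∈ Q := by
    apply hQC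
    refine mem_centralizer_iff.2 (fun q hq => ?_)
    apply Subtype.ext
    have := hab (q : G) ⟨q, hq, rfl⟩ r hr
    exact this.symm
  have h2 : r ∈ P := ⟨⟨r, hRL r hr⟩, h1, rfl⟩
  have h3 : r ∈ R ⊓ P := ⟨hr, h2⟩
  rwa [hinfP] at h3

/-- The main theorem. -/
theorem main (h2 : Even (Nat.card G))
    (hs : ∀ t : G, orderOf t = 2 → Group.IsSolvable (centralizer ({t} : Set G)))
    (hc : ∀ t : G, orderOf t = 2 → oddCore (centralizer ({t} : Set G)) = ⊥) :
    IsCharacteristicTwoType G := by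
  classical
  haveI hfact : Fact (Nat.Prime 2) := ⟨Nat.prime_two⟩
  refine ⟨h2, fun T hT hT1 => ?_⟩
  let N := normalizer (T : Set G)
  let Q : Subgroup N := pCore 2 N
  haveI hQn : Q.Normal := Cfsg.Agent.Lib.FitCore.pCore_normal 2
  have hQp : IsPGroup 2 Q := Cfsg.Agent.Lib.FitCore.pCore_isPGroup 2
  let T' : Subgroup N := T.subgroupOf N
  haveI hT'n : T'.Normal := Subgroup.normal_in_normalizer
  have hT'p : IsPGroup 2 T' := by
    intro x
    obtain ⟨k, hk⟩ := hT ⟨(x : N), x.2⟩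
    have hk' : (((x : N) : G)) ^ 2 ^ k = 1 := congrArg Subtype.val hk
    refine ⟨k, Subtype.ext (Subtype.ext ?_)⟩
    simpa using hk'
  have hT'Q : T' ≤ Q := Cfsg.Agent.Lib.FitCore.le_pCore 2 T' hT'n hT'p
  have hT'1 : T' ≠ ⊥ := by
    intro h0
    apply hT1
    rw [eq_bot_iff]
    intro u hu
    have h1 : (⟨u, le_normalizer hu⟩ : N) ∈ T' := hu
    rw [h0, mem_bot] at h1
    have := congrArg Subtype.val h1
    simpa using this
  -- a central involution of `Q` in `T`
  let T'' : Subgroup Q := T'.subgroupOf Q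
  haveI : T''.Normal := Subgroup.normal_subgroupOf
  have hT''1 : T'' ≠ ⊥ := by
    intro h0
    apply hT'1
    rw [eq_bot_iff]
    intro u hu
    have h1 : (⟨u, hT'Q hu⟩ : Q) ∈ T'' := hu
    rw [h0, mem_bot] at h1
    have := congrArg Subtype.val h1
    simpa using this
  obtain ⟨x₀, hx₀T, hx₀1, hx₀c⟩ :=
    Cfsg.Agent.Lib.PGroupBasic.exists_ne_one_mem_center_of_normal hQp T'' hT''1
  -- an involution in the centre
  obtain ⟨t₀, ht₀c, ht₀o⟩ : ∃ t₀ ∈ center Q, orderOf t₀ = 2 := by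
    obtain ⟨k, hk⟩ := IsPGroup.iff_orderOf.1 hQp x₀
    have hk0 : k ≠ 0 := by
      rintro rfl
      rw [pow_zero] at hk
      exact hx₀1 (orderOf_eq_one_iff.1 hk)
    obtain ⟨j, rfl⟩ := Nat.exists_eq_succ_of_ne_zero hk0
    refine ⟨x₀ ^ 2 ^ j, pow_mem hx₀c _, ?_⟩
    rw [orderOf_pow' _ (by positivity), hk, Nat.gcd_eq_right (pow_dvd_pow 2 (Nat.le_succ j))]
    rw [Nat.succ_eq_add_one, pow_succ]
    simp
  let t : G := ((t₀ : Q) : N)
  have hto : orderOf t = 2 := by
    show orderOf (((t₀ : Q) : N) : G) = 2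
    rw [Subgroup.orderOf_coe, Subgroup.orderOf_coe, ht₀o]
  let Y : Subgroup N := centralizer (Q : Set N)
  haveI hYn : Y.Normal := Subgroup.normal_centralizer
  -- `Y` is solvable
  have hYt : ∀ y : Y, ((y : N) : G) ∈ centralizer ({t} : Set G) := by
    intro y
    refine mem_centralizer_iff.2 ?_
    intro w hw
    rw [Set.mem_singleton_iff] at hw
    rw [hw]
    have h1 := mem_centralizer_iff.1 y.2 (t₀ : Q) (t₀ : Q).2
    exact congrArg Subtype.val h1
  let f : Y →* centralizer ({t} : Set G) :=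
    { toFun := fun y => ⟨((y : N) : G), hYt y⟩
      map_one' := rfl
      map_mul' := fun _ _ => rfl }
  have hf : Function.Injective f := by
    intro a b hab
    have := congrArg Subtype.val hab
    exact Subtype.ext (Subtype.ext this)
  haveI hYs : Group.IsSolvable Y :=
    @Group.isSolvable_of_isSolvable_injective _ _ _ _ f hf (hs t hto)
  -- `O(Y) = 1`
  have hOY : pPrimeCore 2 Y = ⊥ := by
    let U : Subgroup Y := pPrimeCore 2 Y
    haveI hUc : U.Characteristic := Cfsg.Agent.Lib.PComps.pPrimeCore_characteristic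
    have hUn : (U.map Y.subtype).Normal := Cfsg.Agent.Lib.FitCore.map_subtype_normal_of_char Y U
    let R : Subgroup G := (U.map Y.subtype).map N.subtype
    have hRo : ¬ 2 ∣ Nat.card R := by
      have e1 : Nat.card R = Nat.card U := by
        show Nat.card ((U.map Y.subtype).map N.subtype : Subgroup G) = _
        rw [Subgroup.card_map_of_injective N.subtype_injective,
          Subgroup.card_map_of_injective Y.subtype_injective]
      rw [e1]
      exact Cfsg.Agent.Lib.FitCore.not_dvd_card_pPrimeCore 2 Nat.prime_two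
    have hR := odd_normal_trivial hs hc T hT hT1 R (by
        rintro _ ⟨n, -, rfl⟩
        exact n.2)
      (by
        rintro n hn _ ⟨r, hr, rfl⟩
        exact ⟨⟨n, hn⟩ * r * ⟨n, hn⟩⁻¹, hUn.conj_mem r hr ⟨n, hn⟩, rfl⟩)
      hRo
    show U = ⊥
    rw [eq_bot_iff]
    intro u hu
    have h1 : (((u : Y) : N) : G) ∈ R := ⟨(u : N), ⟨u, hu, rfl⟩, rfl⟩
    rw [hR, mem_bot] at h1
    have h2 : ((u : Y) : N) = 1 := Subtype.ext h1
    have h3 : u = 1 := Subtype.ext h2
    rw [h3]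
    exact one_mem _
  have hCY : centralizer (pCore 2 Y : Set Y) ≤ pCore 2 Y :=
    Cfsg.Agent.Lib.FitSolv.centralizer_pCore_le 2 hOY
  -- `O₂(Y) ≤ Q`
  haveI hWc : (pCore 2 Y).Characteristic := pCore_char 2
  have hWn : ((pCore 2 Y).map Y.subtype).Normal :=
    Cfsg.Agent.Lib.FitCore.map_subtype_normal_of_char Y (pCore 2 Y)
  have hWp : IsPGroup 2 ((pCore 2 Y).map Y.subtype) :=
    (Cfsg.Agent.Lib.FitCore.pCore_isPGroup 2).map Y.subtype
  have hWQ : (pCore 2 Y).map Y.subtype ≤ Q :=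
    Cfsg.Agent.Lib.FitCore.le_pCore 2 _ hWn hWp
  show centralizer (Q : Set N) ≤ Q
  intro y hy
  have h1 : (⟨y, hy⟩ : Y) ∈ pCore 2 Y := by
    apply hCY
    refine mem_centralizer_iff.2 (fun w hw => ?_)
    apply Subtype.ext
    have h2 : ((w : Y) : N) ∈ Q := hWQ ⟨w, hw, rfl⟩
    exact mem_centralizer_iff.1 hy _ h2
  exact hWQ ⟨_, h1, rfl⟩

end Cfsg.Agent.Lib.CharTwoType
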