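import Cfsg.Agent.Lib.ChevCore
import Cfsg.Prelude.Def_ChevB2

/-! Certificate for type B2 (generated, helper4). -/

set_option autoImplicit false
set_option linter.all false
set_option maxRecDepth 1000000

namespace Cfsg.Agent.Lib.ChevSym

open Cfsg.Lie

def certB2 : Cert where
  wTab := [289921455100330243, 505817143170892288]
  etaTab := [255, 90]

theorem sortedB2 : chainSortedB chevB2 = true := by decide +kernel
theorem negB2 : negCheck chevB2 = true := by decide +kernel
theorem wB2 : wCheck chevB2 certB2 = true := by decide +kernel
theorem nB2 : nCheck chevB2 certB2 = true := by decide +kernel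
theorem conjB2_0_0 : conjChunk chevB2 certB2 0 0 8 = true := by decide +kernel
theorem conjB2_0 : ∀ r < chevB2.nroots, conjCheck1 chevB2 certB2 0 r = true := by
  apply conj_of_chunks 8 1 (by decide)
  intro c hc
  interval_cases c
  · exact conjB2_0_0
theorem conjB2_1_0 : conjChunk chevB2 certB2 1 0 8 = true := by decide +kernel
theorem conjB2_1 : ∀ r < chevB2.nroots, conjCheck1 chevB2 certB2 1 r = true := by
  apply conj_of_chunks 8 1 (by decide)
  intro c hc
  interval_cases c
  · exact conjB2_1_0

end Cfsg.Agent.Lib.ChevSym
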