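import Cfsg.Agent.Lib.ChevBasic
import Cfsg.Agent.Lib.ChevCertB2

/-! The `Good` bundle for type B2 (generated, helper4). -/

set_option autoImplicit false
set_option linter.all false
set_option maxRecDepth 1000000

namespace Cfsg.Agent.Lib.ChevSym

open Cfsg.Lie

theorem simpleB2 : simpleCheck chevB2 certB2 = true := by decide +kernel
theorem descentB2 : descentCheck chevB2 certB2 = true := by decide +kernel
theorem etaNegB2 : etaNegCheck chevB2 certB2 = true := by decide +kernel

theorem conjAllB2 : ∀ i < chevB2.rank, ∀ r < chevB2.nroots, conjCheck1 chevB2 certB2 i r = true := by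
  intro i hi
  have h : i < 2 := hi
  interval_cases i
  · exact conjB2_0
  · exact conjB2_1

theorem goodB2 : Good chevB2 certB2 where
  sorted := chainSorted_of _ sortedB2
  neg := negOK_of negB2
  w := wOK_of wB2
  n := nB2
  conj := conjAllB2
  simple := simpleB2
  descent := descentB2
  etaNeg := etaNegB2

end Cfsg.Agent.Lib.ChevSym
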