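import Cfsg.Agent.Lib.ChevOrd
import Cfsg.Agent.Lib.ChevGoodB2

/-! Fast tables for type B2 (generated, helper4). -/

set_option autoImplicit false
set_option linter.all false
set_option maxRecDepth 1000000

namespace Cfsg.Agent.Lib.ChevSym

open Cfsg.Lie

def tabB2 : Tab where
  cartTab := [9403659501816414334, 9259822507295342464]
  keyA := [5, 6]

theorem hCheckB2 : hCheck chevB2 tabB2 = true := by decide +kernel
theorem cartEqB2 : cartEqCheck chevB2 tabB2 = true := by decide +kernel
theorem cartWB2 : cartWCheck chevB2 certB2 tabB2 = true := by decide +kernel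
theorem gradeCartB2 : gradeCartCheck chevB2 tabB2 = true := by decide +kernel

theorem good2B2 : Good2 chevB2 certB2 tabB2 :=
  ⟨hCheckB2, cartEqB2, cartWB2, gradeCartB2⟩

theorem ordCheckB2 : ordCheck chevB2 certB2 tabB2 = true := by decide +kernel
theorem good3B2 : Good3 chevB2 certB2 tabB2 := good3_of ordCheckB2

theorem reflCheckB2 : reflCheck chevB2 certB2 = true := by decide +kernel
theorem etaCheckB2 : etaCheck chevB2 certB2 tabB2 = true := by decide +kernel
theorem good4B2 : Good4 chevB2 certB2 tabB2 := ⟨reflCheckB2, etaCheckB2⟩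

end Cfsg.Agent.Lib.ChevSym
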