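import Cfsg.Agent.Lib.ChevCore
import Cfsg.Prelude.Def_ChevD4

/-! Certificate for type D4 (generated, helper4). -/

set_option autoImplicit false
set_option linter.all false
set_option maxRecDepth 1000000

namespace Cfsg.Agent.Lib.ChevSym

open Cfsg.Lie

def certD4 : Cert where
  wTab := [565592643864087472290204273757603651193062799363369534976, 541649279090809664310305499994679834166397163664360734721, 565881119482020990812274433957960368099339668429056770816, 565978018496368764364970633948976412520310965285293195776]
  etaTab := [508896, 8945169, 6497478, 5413194]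

theorem sortedD4 : chainSortedB chevD4 = true := by decide +kernel
theorem negD4 : negCheck chevD4 = true := by decide +kernel
theorem wD4 : wCheck chevD4 certD4 = true := by decide +kernel
theorem nD4 : nCheck chevD4 certD4 = true := by decide +kernel
theorem conjD4_0_0 : conjChunk chevD4 certD4 0 0 24 = true := by decide +kernel
theorem conjD4_0 : ∀ r < chevD4.nroots, conjCheck1 chevD4 certD4 0 r = true := by
  apply conj_of_chunks 24 1 (by decide)
  intro c hc
  interval_cases c
  · exact conjD4_0_0
theorem conjD4_1_0 : conjChunk chevD4 certD4 1 0 24 = true := by decide +kernel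
theorem conjD4_1 : ∀ r < chevD4.nroots, conjCheck1 chevD4 certD4 1 r = true := by
  apply conj_of_chunks 24 1 (by decide)
  intro c hc
  interval_cases c
  · exact conjD4_1_0
theorem conjD4_2_0 : conjChunk chevD4 certD4 2 0 24 = true := by decide +kernel
theorem conjD4_2 : ∀ r < chevD4.nroots, conjCheck1 chevD4 certD4 2 r = true := by
  apply conj_of_chunks 24 1 (by decide)
  intro c hc
  interval_cases c
  · exact conjD4_2_0
theorem conjD4_3_0 : conjChunk chevD4 certD4 3 0 24 = true := by decide +kernel
theorem conjD4_3 : ∀ r < chevD4.nroots, conjCheck1 chevD4 certD4 3 r = true := by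
  apply conj_of_chunks 24 1 (by decide)
  intro c hc
  interval_cases c
  · exact conjD4_3_0

end Cfsg.Agent.Lib.ChevSym
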