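import Cfsg.Agent.Lib.ChevBasic
import Cfsg.Agent.Lib.ChevCertD4

/-! The `Good` bundle for type D4 (generated, helper4). -/

set_option autoImplicit false
set_option linter.all false
set_option maxRecDepth 1000000

namespace Cfsg.Agent.Lib.ChevSym

open Cfsg.Lie

theorem simpleD4 : simpleCheck chevD4 certD4 = true := by decide +kernel
theorem descentD4 : descentCheck chevD4 certD4 = true := by decide +kernel
theorem etaNegD4 : etaNegCheck chevD4 certD4 = true := by decide +kernel

theorem conjAllD4 : ∀ i < chevD4.rank, ∀ r < chevD4.nroots, conjCheck1 chevD4 certD4 i r = true := by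
  intro i hi
  have h : i < 4 := hi
  interval_cases i
  · exact conjD4_0
  · exact conjD4_1
  · exact conjD4_2
  · exact conjD4_3

theorem goodD4 : Good chevD4 certD4 where
  sorted := chainSorted_of _ sortedD4
  neg := negOK_of negD4
  w := wOK_of wD4
  n := nD4
  conj := conjAllD4
  simple := simpleD4
  descent := descentD4
  etaNeg := etaNegD4

end Cfsg.Agent.Lib.ChevSym
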