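import Cfsg.Agent.Lib.ChevOrd
import Cfsg.Agent.Lib.ChevGoodD4

/-! Fast tables for type D4 (generated, helper4). -/

set_option autoImplicit false
set_option linter.all false
set_option maxRecDepth 1000000

namespace Cfsg.Agent.Lib.ChevSym

open Cfsg.Lie

def tabD4 : Tab where
  cartTab := [3150955066894724055220588286913597547013787545312205700992, 3175283057999982432364906153876124013409091823259684471167, 3150955063960258372431874348138665532015185410820897996672, 3150954318594423332993479746002114317050338779006433853312]
  keyA := [27, 38, 21, 20]

theorem hCheckD4 : hCheck chevD4 tabD4 = true := by decide +kernel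
theorem cartEqD4 : cartEqCheck chevD4 tabD4 = true := by decide +kernel
theorem cartWD4 : cartWCheck chevD4 certD4 tabD4 = true := by decide +kernel
theorem gradeCartD4 : gradeCartCheck chevD4 tabD4 = true := by decide +kernel

theorem good2D4 : Good2 chevD4 certD4 tabD4 :=
  ⟨hCheckD4, cartEqD4, cartWD4, gradeCartD4⟩

theorem ordCheckD4 : ordCheck chevD4 certD4 tabD4 = true := by decide +kernel
theorem good3D4 : Good3 chevD4 certD4 tabD4 := good3_of ordCheckD4

theorem reflCheckD4 : reflCheck chevD4 certD4 = true := by decide +kernel
theorem etaCheckD4 : etaCheck chevD4 certD4 tabD4 = true := by decide +kernel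
theorem good4D4 : Good4 chevD4 certD4 tabD4 := ⟨reflCheckD4, etaCheckD4⟩

end Cfsg.Agent.Lib.ChevSym
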