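import Cfsg.Agent.Lib.ChevCore
import Cfsg.Prelude.Def_ChevE6

/-! Certificate for type E6 (generated, helper4). -/

set_option autoImplicit false
set_option linter.all false
set_option maxRecDepth 1000000

namespace Cfsg.Agent.Lib.ChevSym

open Cfsg.Lie

def certE6 : Cert where
  wTab := [68860739535078100914596739045472550060558126031925906698557184978812794185875324317535844633006154102049939227231216439978584304288106533539790046234022772551535750302269696, 67898379116758311409174261616388753868225998791303625563428882050626415270252589797741478371984307561973422256644613195820774439032392954730690482532434882508821640184463361, 68860695135535158216797058934368584078938789528211777354868258615236502524939434476014300653026239562496047166733737140692285179851664431971808751874688785261135318011412736, 68856980314703697980439144254334973515401028023823060939175680109056393390696631820261994746199928716884708600540244424635743493790229057459399689936210111163618278074548736, 68860724850632303803458732998465812266828810094652722312245356555948991877575451183817923578624086719198522082862514929281160200302940551006277733868069131789022201037127936, 68860739477726650154684651250440147524905899556371060941805998667168077050675229181777609482453672249988869994526207384147299178654162362870440666247900439482662894518272256]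
  etaTab := [143055259877474304, 2377332098023254656769, 1033169672869552603164, 1236247255438460330178, 669309514447770948132, 342440805587411929416]

theorem sortedE6 : chainSortedB chevE6 = true := by decide +kernel
theorem negE6 : negCheck chevE6 = true := by decide +kernel
theorem wE6 : wCheck chevE6 certE6 = true := by decide +kernel
theorem nE6 : nCheck chevE6 certE6 = true := by decide +kernel
theorem conjE6_0_0 : conjChunk chevE6 certE6 0 0 24 = true := by decide +kernel
theorem conjE6_0_1 : conjChunk chevE6 certE6 0 24 24 = true := by decide +kernel
theorem conjE6_0_2 : conjChunk chevE6 certE6 0 48 24 = true := by decide +kernel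
theorem conjE6_0 : ∀ r < chevE6.nroots, conjCheck1 chevE6 certE6 0 r = true := by
  apply conj_of_chunks 24 3 (by decide)
  intro c hc
  interval_cases c
  · exact conjE6_0_0
  · exact conjE6_0_1
  · exact conjE6_0_2
theorem conjE6_1_0 : conjChunk chevE6 certE6 1 0 24 = true := by decide +kernel
theorem conjE6_1_1 : conjChunk chevE6 certE6 1 24 24 = true := by decide +kernel
theorem conjE6_1_2 : conjChunk chevE6 certE6 1 48 24 = true := by decide +kernel
theorem conjE6_1 : ∀ r < chevE6.nroots, conjCheck1 chevE6 certE6 1 r = true := by
  apply conj_of_chunks 24 3 (by decide)
  intro c hc
  interval_cases c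
  · exact conjE6_1_0
  · exact conjE6_1_1
  · exact conjE6_1_2
theorem conjE6_2_0 : conjChunk chevE6 certE6 2 0 24 = true := by decide +kernel
theorem conjE6_2_1 : conjChunk chevE6 certE6 2 24 24 = true := by decide +kernel
theorem conjE6_2_2 : conjChunk chevE6 certE6 2 48 24 = true := by decide +kernel
theorem conjE6_2 : ∀ r < chevE6.nroots, conjCheck1 chevE6 certE6 2 r = true := by
  apply conj_of_chunks 24 3 (by decide)
  intro c hc
  interval_cases c
  · exact conjE6_2_0
  · exact conjE6_2_1
  · exact conjE6_2_2
theorem conjE6_3_0 : conjChunk chevE6 certE6 3 0 24 = true := by decide +kernel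
theorem conjE6_3_1 : conjChunk chevE6 certE6 3 24 24 = true := by decide +kernel
theorem conjE6_3_2 : conjChunk chevE6 certE6 3 48 24 = true := by decide +kernel
theorem conjE6_3 : ∀ r < chevE6.nroots, conjCheck1 chevE6 certE6 3 r = true := by
  apply conj_of_chunks 24 3 (by decide)
  intro c hc
  interval_cases c
  · exact conjE6_3_0
  · exact conjE6_3_1
  · exact conjE6_3_2
theorem conjE6_4_0 : conjChunk chevE6 certE6 4 0 24 = true := by decide +kernel
theorem conjE6_4_1 : conjChunk chevE6 certE6 4 24 24 = true := by decide +kernel
theorem conjE6_4_2 : conjChunk chevE6 certE6 4 48 24 = true := by decide +kernel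
theorem conjE6_4 : ∀ r < chevE6.nroots, conjCheck1 chevE6 certE6 4 r = true := by
  apply conj_of_chunks 24 3 (by decide)
  intro c hc
  interval_cases c
  · exact conjE6_4_0
  · exact conjE6_4_1
  · exact conjE6_4_2
theorem conjE6_5_0 : conjChunk chevE6 certE6 5 0 24 = true := by decide +kernel
theorem conjE6_5_1 : conjChunk chevE6 certE6 5 24 24 = true := by decide +kernel
theorem conjE6_5_2 : conjChunk chevE6 certE6 5 48 24 = true := by decide +kernel
theorem conjE6_5 : ∀ r < chevE6.nroots, conjCheck1 chevE6 certE6 5 r = true := by
  apply conj_of_chunks 24 3 (by decide)
  intro c hc
  interval_cases c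
  · exact conjE6_5_0
  · exact conjE6_5_1
  · exact conjE6_5_2

end Cfsg.Agent.Lib.ChevSym
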