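import Cfsg.Agent.Lib.ChevBasic
import Cfsg.Agent.Lib.ChevCertE6

/-! The `Good` bundle for type E6 (generated, helper4). -/

set_option autoImplicit false
set_option linter.all false
set_option maxRecDepth 1000000

namespace Cfsg.Agent.Lib.ChevSym

open Cfsg.Lie

theorem simpleE6 : simpleCheck chevE6 certE6 = true := by decide +kernel
theorem descentE6 : descentCheck chevE6 certE6 = true := by decide +kernel
theorem etaNegE6 : etaNegCheck chevE6 certE6 = true := by decide +kernel

theorem conjAllE6 : ∀ i < chevE6.rank, ∀ r < chevE6.nroots, conjCheck1 chevE6 certE6 i r = true := by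
  intro i hi
  have h : i < 6 := hi
  interval_cases i
  · exact conjE6_0
  · exact conjE6_1
  · exact conjE6_2
  · exact conjE6_3
  · exact conjE6_4
  · exact conjE6_5

theorem goodE6 : Good chevE6 certE6 where
  sorted := chainSorted_of _ sortedE6
  neg := negOK_of negE6
  w := wOK_of wE6
  n := nE6
  conj := conjAllE6
  simple := simpleE6
  descent := descentE6
  etaNeg := etaNegE6

end Cfsg.Agent.Lib.ChevSym
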