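import Cfsg.Agent.Lib.ChevOrd
import Cfsg.Agent.Lib.ChevGoodE6

/-! Fast tables for type E6 (generated, helper4). -/

set_option autoImplicit false
set_option linter.all false
set_option maxRecDepth 1000000

namespace Cfsg.Agent.Lib.ChevSym

open Cfsg.Lie

def tabE6 : Tab where
  cartTab := [124150162308069040413466862158172473927867008554097441332342019908250379165537187317579772487040464264524910869500832656827953892015512916238752370311370277139002195789774976, 125112522726397651318381323856765529004315976962053877471920530077965531729207549202862106323267688831273761910857744936826536910449616328743953725563383231765139937076216191, 124150177107919040352625993805337580012851753239426728700517911641938554537308353170678311176963979403920229236738603324566147874314210710738821075221385547392331715377594496, 124153921528452261301467541325557126835379196077855942451652118100857005021605347720066819329250038990359922487414927396813626781052703219272524913146379140440604305921245056, 124150176992523658924202011740034410895688762820255291599315054337983753848004757436911900285543875086981052047717961638152231557452979631335936810006211152782973185699053696, 124150162365429312572976093488060075637611673358536952969754412226764668674904979471672104743968779181776105876822323649483708818878520014192955856097136105489307710018060416]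
  keyA := [1418, 1479, 2107, 2715, 1817, 910]

theorem hCheckE6 : hCheck chevE6 tabE6 = true := by decide +kernel
theorem cartEqE6 : cartEqCheck chevE6 tabE6 = true := by decide +kernel
theorem cartWE6 : cartWCheck chevE6 certE6 tabE6 = true := by decide +kernel
theorem gradeCartE6 : gradeCartCheck chevE6 tabE6 = true := by decide +kernel

theorem good2E6 : Good2 chevE6 certE6 tabE6 :=
  ⟨hCheckE6, cartEqE6, cartWE6, gradeCartE6⟩

theorem ordCheckE6 : ordCheck chevE6 certE6 tabE6 = true := by decide +kernel
theorem good3E6 : Good3 chevE6 certE6 tabE6 := good3_of ordCheckE6

theorem reflCheckE6 : reflCheck chevE6 certE6 = true := by decide +kernel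
theorem etaCheckE6 : etaCheck chevE6 certE6 tabE6 = true := by decide +kernel
theorem good4E6 : Good4 chevE6 certE6 tabE6 := ⟨reflCheckE6, etaCheckE6⟩

end Cfsg.Agent.Lib.ChevSym
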