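import Cfsg.Agent.Lib.ChevCore
import Cfsg.Prelude.Def_ChevE7

/-! Certificate for type E7 (generated, helper4). -/

set_option autoImplicit false
set_option linter.all false
set_option maxRecDepth 1000000

namespace Cfsg.Agent.Lib.ChevSym

open Cfsg.Lie

def certE7 : Cert where
  wTab := [1333922837158942011638783835004871262489243524474933806757983325204324354148955901128787715251435855896924984706939979518567157242719197682064722754383056752064764745714105188869695029532754693822593611899134007025978423511653352929402726346889239349767349520011297160997758072428838116713298751769411585, 1344596064861142540599490890337037530396506312014796134457654209860766914474355053533424106448304668641750238146235616625298608967855065371567541345205591130313893835021149335810105157533873267793712369235831381486269171621811991934200833355141336107082133768387345013012537819798176998924533019780972800, 1344554375120106414798065960470017614978713755228414151433370668601621092779175356141058506517844188051958962228323355573505999256791464453714183605373019334854214694897010135565448054736646733569358624734534287147711832887250382219472046131816456686545071408428738776743299531196152165404305104465625600,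 1344595904565267213246157475033494803249157207063324738659324389841659715695283955303815316936280329696179597506512307998177941509827115356010016869474657504041538202575428963476748087995021914745714269311908081227369626699231579603641239181490320192525717933280632587761748264543583905599801831599571200, 1344596066789662372468730772808347860477161005122219541718508235419833626106302450745862748198090247695116521795627890666608206327119702733434927280617614040672948193304917070539624301444895806139576218160085363566180297830617521222446695171034178763232251478019132116438882014609021606895640681331687680, 1344596067423351416207557940869874944091727118574762836469837882638712679846178606418228818601986310217411887451905765776107214182568852020646749836716948362818007050784749838543502259798351210584973756022172436114146241694089563918431059909805690131092344135313086916729119604848859188691072391118455040, 1344596067425826764034662734529601288506926453046107113143229300984890479501381833876110010911357495579068344096520604677306938752775870105507180309928942299606468867262391627195069014991692130646454801374407591002787052249416073179196764677152311158875352053765052537485552134445183160720605330624610560]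
  etaTab := [42535295884914969941661665728038699009, 9969219475911752942880135688992325752, 21308537290271745760265171479237359618, 10924663619488793363045094406352799492, 5665040612189914454778297062204911752, 2847024252714933557071685096178878736, 1425493702456110909934783426152649248]

theorem sortedE7 : chainSortedB chevE7 = true := by decide +kernel
theorem negE7 : negCheck chevE7 = true := by decide +kernel
theorem wE7 : wCheck chevE7 certE7 = true := by decide +kernel
theorem nE7 : nCheck chevE7 certE7 = true := by decide +kernel
theorem conjE7_0_0 : conjChunk chevE7 certE7 0 0 18 = true := by decide +kernel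
theorem conjE7_0_1 : conjChunk chevE7 certE7 0 18 18 = true := by decide +kernel
theorem conjE7_0_2 : conjChunk chevE7 certE7 0 36 18 = true := by decide +kernel
theorem conjE7_0_3 : conjChunk chevE7 certE7 0 54 18 = true := by decide +kernel
theorem conjE7_0_4 : conjChunk chevE7 certE7 0 72 18 = true := by decide +kernel
theorem conjE7_0_5 : conjChunk chevE7 certE7 0 90 18 = true := by decide +kernel
theorem conjE7_0_6 : conjChunk chevE7 certE7 0 108 18 = true := by decide +kernel
theorem conjE7_0 : ∀ r < chevE7.nroots, conjCheck1 chevE7 certE7 0 r = true := by
  apply conj_of_chunks 18 7 (by decide)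
  intro c hc
  interval_cases c
  · exact conjE7_0_0
  · exact conjE7_0_1
  · exact conjE7_0_2
  · exact conjE7_0_3
  · exact conjE7_0_4
  · exact conjE7_0_5
  · exact conjE7_0_6
theorem conjE7_1_0 : conjChunk chevE7 certE7 1 0 18 = true := by decide +kernel
theorem conjE7_1_1 : conjChunk chevE7 certE7 1 18 18 = true := by decide +kernel
theorem conjE7_1_2 : conjChunk chevE7 certE7 1 36 18 = true := by decide +kernel
theorem conjE7_1_3 : conjChunk chevE7 certE7 1 54 18 = true := by decide +kernel
theorem conjE7_1_4 : conjChunk chevE7 certE7 1 72 18 = true := by decide +kernel
theorem conjE7_1_5 : conjChunk chevE7 certE7 1 90 18 = true := by decide +kernel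
theorem conjE7_1_6 : conjChunk chevE7 certE7 1 108 18 = true := by decide +kernel
theorem conjE7_1 : ∀ r < chevE7.nroots, conjCheck1 chevE7 certE7 1 r = true := by
  apply conj_of_chunks 18 7 (by decide)
  intro c hc
  interval_cases c
  · exact conjE7_1_0
  · exact conjE7_1_1
  · exact conjE7_1_2
  · exact conjE7_1_3
  · exact conjE7_1_4
  · exact conjE7_1_5
  · exact conjE7_1_6
theorem conjE7_2_0 : conjChunk chevE7 certE7 2 0 18 = true := by decide +kernel
theorem conjE7_2_1 : conjChunk chevE7 certE7 2 18 18 = true := by decide +kernel
theorem conjE7_2_2 : conjChunk chevE7 certE7 2 36 18 = true := by decide +kernel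
theorem conjE7_2_3 : conjChunk chevE7 certE7 2 54 18 = true := by decide +kernel
theorem conjE7_2_4 : conjChunk chevE7 certE7 2 72 18 = true := by decide +kernel
theorem conjE7_2_5 : conjChunk chevE7 certE7 2 90 18 = true := by decide +kernel
theorem conjE7_2_6 : conjChunk chevE7 certE7 2 108 18 = true := by decide +kernel
theorem conjE7_2 : ∀ r < chevE7.nroots, conjCheck1 chevE7 certE7 2 r = true := by
  apply conj_of_chunks 18 7 (by decide)
  intro c hc
  interval_cases c
  · exact conjE7_2_0
  · exact conjE7_2_1
  · exact conjE7_2_2
  · exact conjE7_2_3
  · exact conjE7_2_4
  · exact conjE7_2_5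
  · exact conjE7_2_6
theorem conjE7_3_0 : conjChunk chevE7 certE7 3 0 18 = true := by decide +kernel
theorem conjE7_3_1 : conjChunk chevE7 certE7 3 18 18 = true := by decide +kernel
theorem conjE7_3_2 : conjChunk chevE7 certE7 3 36 18 = true := by decide +kernel
theorem conjE7_3_3 : conjChunk chevE7 certE7 3 54 18 = true := by decide +kernel
theorem conjE7_3_4 : conjChunk chevE7 certE7 3 72 18 = true := by decide +kernel
theorem conjE7_3_5 : conjChunk chevE7 certE7 3 90 18 = true := by decide +kernel
theorem conjE7_3_6 : conjChunk chevE7 certE7 3 108 18 = true := by decide +kernel
theorem conjE7_3 : ∀ r < chevE7.nroots, conjCheck1 chevE7 certE7 3 r = true := by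
  apply conj_of_chunks 18 7 (by decide)
  intro c hc
  interval_cases c
  · exact conjE7_3_0
  · exact conjE7_3_1
  · exact conjE7_3_2
  · exact conjE7_3_3
  · exact conjE7_3_4
  · exact conjE7_3_5
  · exact conjE7_3_6
theorem conjE7_4_0 : conjChunk chevE7 certE7 4 0 18 = true := by decide +kernel
theorem conjE7_4_1 : conjChunk chevE7 certE7 4 18 18 = true := by decide +kernel
theorem conjE7_4_2 : conjChunk chevE7 certE7 4 36 18 = true := by decide +kernel
theorem conjE7_4_3 : conjChunk chevE7 certE7 4 54 18 = true := by decide +kernel
theorem conjE7_4_4 : conjChunk chevE7 certE7 4 72 18 = true := by decide +kernel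
theorem conjE7_4_5 : conjChunk chevE7 certE7 4 90 18 = true := by decide +kernel
theorem conjE7_4_6 : conjChunk chevE7 certE7 4 108 18 = true := by decide +kernel
theorem conjE7_4 : ∀ r < chevE7.nroots, conjCheck1 chevE7 certE7 4 r = true := by
  apply conj_of_chunks 18 7 (by decide)
  intro c hc
  interval_cases c
  · exact conjE7_4_0
  · exact conjE7_4_1
  · exact conjE7_4_2
  · exact conjE7_4_3
  · exact conjE7_4_4
  · exact conjE7_4_5
  · exact conjE7_4_6
theorem conjE7_5_0 : conjChunk chevE7 certE7 5 0 18 = true := by decide +kernel
theorem conjE7_5_1 : conjChunk chevE7 certE7 5 18 18 = true := by decide +kernel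
theorem conjE7_5_2 : conjChunk chevE7 certE7 5 36 18 = true := by decide +kernel
theorem conjE7_5_3 : conjChunk chevE7 certE7 5 54 18 = true := by decide +kernel
theorem conjE7_5_4 : conjChunk chevE7 certE7 5 72 18 = true := by decide +kernel
theorem conjE7_5_5 : conjChunk chevE7 certE7 5 90 18 = true := by decide +kernel
theorem conjE7_5_6 : conjChunk chevE7 certE7 5 108 18 = true := by decide +kernel
theorem conjE7_5 : ∀ r < chevE7.nroots, conjCheck1 chevE7 certE7 5 r = true := by
  apply conj_of_chunks 18 7 (by decide)
  intro c hc
  interval_cases c
  · exact conjE7_5_0
  · exact conjE7_5_1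
  · exact conjE7_5_2
  · exact conjE7_5_3
  · exact conjE7_5_4
  · exact conjE7_5_5
  · exact conjE7_5_6
theorem conjE7_6_0 : conjChunk chevE7 certE7 6 0 18 = true := by decide +kernel
theorem conjE7_6_1 : conjChunk chevE7 certE7 6 18 18 = true := by decide +kernel
theorem conjE7_6_2 : conjChunk chevE7 certE7 6 36 18 = true := by decide +kernel
theorem conjE7_6_3 : conjChunk chevE7 certE7 6 54 18 = true := by decide +kernel
theorem conjE7_6_4 : conjChunk chevE7 certE7 6 72 18 = true := by decide +kernel
theorem conjE7_6_5 : conjChunk chevE7 certE7 6 90 18 = true := by decide +kernel
theorem conjE7_6_6 : conjChunk chevE7 certE7 6 108 18 = true := by decide +kernel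
theorem conjE7_6 : ∀ r < chevE7.nroots, conjCheck1 chevE7 certE7 6 r = true := by
  apply conj_of_chunks 18 7 (by decide)
  intro c hc
  interval_cases c
  · exact conjE7_6_0
  · exact conjE7_6_1
  · exact conjE7_6_2
  · exact conjE7_6_3
  · exact conjE7_6_4
  · exact conjE7_6_5
  · exact conjE7_6_6

end Cfsg.Agent.Lib.ChevSym
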