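import Cfsg.Agent.Lib.ChevBasic
import Cfsg.Agent.Lib.ChevCertE7

/-! The `Good` bundle for type E7 (generated, helper4). -/

set_option autoImplicit false
set_option linter.all false
set_option maxRecDepth 1000000

namespace Cfsg.Agent.Lib.ChevSym

open Cfsg.Lie

theorem simpleE7 : simpleCheck chevE7 certE7 = true := by decide +kernel
theorem descentE7 : descentCheck chevE7 certE7 = true := by decide +kernel
theorem etaNegE7 : etaNegCheck chevE7 certE7 = true := by decide +kernel

theorem conjAllE7 : ∀ i < chevE7.rank, ∀ r < chevE7.nroots, conjCheck1 chevE7 certE7 i r = true := by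
  intro i hi
  have h : i < 7 := hi
  interval_cases i
  · exact conjE7_0
  · exact conjE7_1
  · exact conjE7_2
  · exact conjE7_3
  · exact conjE7_4
  · exact conjE7_5
  · exact conjE7_6

theorem goodE7 : Good chevE7 certE7 where
  sorted := chainSorted_of _ sortedE7
  neg := negOK_of negE7
  w := wOK_of wE7
  n := nE7
  conj := conjAllE7
  simple := simpleE7
  descent := descentE7
  etaNeg := etaNegE7

end Cfsg.Agent.Lib.ChevSym
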