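import Cfsg.Agent.Lib.ChevOrd
import Cfsg.Agent.Lib.ChevGoodE7

/-! Fast tables for type E7 (generated, helper4). -/

set_option autoImplicit false
set_option linter.all false
set_option maxRecDepth 1000000

namespace Cfsg.Agent.Lib.ChevSym

open Cfsg.Lie

def tabE7 : Tab where
  cartTab := [1387582800473937893871200565680185399176109229274841687138632107404327359704205705007113653885129366621407077579281755337914218432532018544985580852588259530534545882877340426114710234852179694564767452581327938989804510861074543363115839281142326731828746417546318807939424254995309200292039295156388223, 1376909570848216916899329024869302998360627157915240657805372935410421430760016994978482015637998257452443914445616541331610506854936505671557439202716840589199980759705565186416144133721939549653456238147867525210456489089728698635241916933396104864922843898246226387804064104049031964136116950266839168, 1376951262512773490711918440041248625892881671115339949076914470892791973633474034754210914859110851865632583397594383640662280175534853859833983015180346667519728606475634685305686947185903084455413684858767714509420959752733558487408432795482747283545246363739264973077497518216688248729870500890771328, 1376909733067612692262660638019239066936897202090919057104427997558577260001767730451425628456002252865774591250898838453198708160456761912411977036284708133856831629426204903317668328086406506804461213971684579629781849834812510751581365695157338953092112473480585510738256114512609308271989280292700288,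 1376909570843217533041253627876573031565403381521872223392423938163323738885032346745956048340319404549364217798693722441052883427331189606050874635000718139678979219903523956806004839347735307259275391472450394752983941654035899796778719942947168457570701603425244602944169224097162672036715141227643008, 1376909570209528489302426459815181717573627487457828252889683042261426634931549502104755764865056436934971432582292476570022984000599992384032987393815776014014245519220721056756466006959082172643794982388822104993032449179088696800660525554807393833260553970553901690762975866852731189332858899563315328, 1376909570207053141475321666155455373158428152986483976216291623915248835276346274646874572555685251573314975937677637668823259430392974299172556924049588714418741779902393689178731218471094527897169312446644655370081655728943223701296751045436285234498297017953329841219789135796545943959684430904197248]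
  keyA := [4658, 5691, 7858, 10896, 8189, 5464, 2733]

theorem hCheckE7 : hCheck chevE7 tabE7 = true := by decide +kernel
theorem cartEqE7 : cartEqCheck chevE7 tabE7 = true := by decide +kernel
theorem cartWE7 : cartWCheck chevE7 certE7 tabE7 = true := by decide +kernel
theorem gradeCartE7 : gradeCartCheck chevE7 tabE7 = true := by decide +kernel

theorem good2E7 : Good2 chevE7 certE7 tabE7 :=
  ⟨hCheckE7, cartEqE7, cartWE7, gradeCartE7⟩

theorem ordCheckE7 : ordCheck chevE7 certE7 tabE7 = true := by decide +kernel
theorem good3E7 : Good3 chevE7 certE7 tabE7 := good3_of ordCheckE7

theorem reflCheckE7 : reflCheck chevE7 certE7 = true := by decide +kernel
theorem etaCheckE7 : etaCheck chevE7 certE7 tabE7 = true := by decide +kernel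
theorem good4E7 : Good4 chevE7 certE7 tabE7 := ⟨reflCheckE7, etaCheckE7⟩

end Cfsg.Agent.Lib.ChevSym
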