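import Cfsg.Agent.Lib.ChevCore
import Cfsg.Prelude.Def_ChevF4

/-! Certificate for type F4 (generated, helper4). -/

set_option autoImplicit false
set_option linter.all false
set_option maxRecDepth 1000000

namespace Cfsg.Agent.Lib.ChevSym

open Cfsg.Lie

def certF4 : Cert where
  wTab := [7261724565101152271001196648824430191705409898545041084742521782222439549395075633586971079114467536390968217567488, 7261719905179377314326951809577084366435515108925945206036271551105028264520922437528663364052125838431098365018368, 7261125723798567773061544950201179012210677350992756811983071709623601191490907863340615466535151168674041335710208, 7108411742389255762021063953019659246634323563397623500971045033854480450961950488139841120255260502304031118589953]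
  etaTab := [33964469241720, 19125464147592, 79753579630866, 145481911306785]

theorem sortedF4 : chainSortedB chevF4 = true := by decide +kernel
theorem negF4 : negCheck chevF4 = true := by decide +kernel
theorem wF4 : wCheck chevF4 certF4 = true := by decide +kernel
theorem nF4 : nCheck chevF4 certF4 = true := by decide +kernel
theorem conjF4_0_0 : conjChunk chevF4 certF4 0 0 48 = true := by decide +kernel
theorem conjF4_0 : ∀ r < chevF4.nroots, conjCheck1 chevF4 certF4 0 r = true := by
  apply conj_of_chunks 48 1 (by decide)
  intro c hc
  interval_cases c
  · exact conjF4_0_0
theorem conjF4_1_0 : conjChunk chevF4 certF4 1 0 48 = true := by decide +kernel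
theorem conjF4_1 : ∀ r < chevF4.nroots, conjCheck1 chevF4 certF4 1 r = true := by
  apply conj_of_chunks 48 1 (by decide)
  intro c hc
  interval_cases c
  · exact conjF4_1_0
theorem conjF4_2_0 : conjChunk chevF4 certF4 2 0 48 = true := by decide +kernel
theorem conjF4_2 : ∀ r < chevF4.nroots, conjCheck1 chevF4 certF4 2 r = true := by
  apply conj_of_chunks 48 1 (by decide)
  intro c hc
  interval_cases c
  · exact conjF4_2_0
theorem conjF4_3_0 : conjChunk chevF4 certF4 3 0 48 = true := by decide +kernel
theorem conjF4_3 : ∀ r < chevF4.nroots, conjCheck1 chevF4 certF4 3 r = true := by
  apply conj_of_chunks 48 1 (by decide)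
  intro c hc
  interval_cases c
  · exact conjF4_3_0

end Cfsg.Agent.Lib.ChevSym
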