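import Cfsg.Agent.Lib.ChevBasic
import Cfsg.Agent.Lib.ChevCertF4

/-! The `Good` bundle for type F4 (generated, helper4). -/

set_option autoImplicit false
set_option linter.all false
set_option maxRecDepth 1000000

namespace Cfsg.Agent.Lib.ChevSym

open Cfsg.Lie

theorem simpleF4 : simpleCheck chevF4 certF4 = true := by decide +kernel
theorem descentF4 : descentCheck chevF4 certF4 = true := by decide +kernel
theorem etaNegF4 : etaNegCheck chevF4 certF4 = true := by decide +kernel

theorem conjAllF4 : ∀ i < chevF4.rank, ∀ r < chevF4.nroots, conjCheck1 chevF4 certF4 i r = true := by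
  intro i hi
  have h : i < 4 := hi
  interval_cases i
  · exact conjF4_0
  · exact conjF4_1
  · exact conjF4_2
  · exact conjF4_3

theorem goodF4 : Good chevF4 certF4 where
  sorted := chainSorted_of _ sortedF4
  neg := negOK_of negF4
  w := wOK_of wF4
  n := nF4
  conj := conjAllF4
  simple := simpleF4
  descent := descentF4
  etaNeg := etaNegF4

end Cfsg.Agent.Lib.ChevSym
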