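import Cfsg.Agent.Lib.ChevOrd
import Cfsg.Agent.Lib.ChevGoodF4

/-! Fast tables for type F4 (generated, helper4). -/

set_option autoImplicit false
set_option linter.all false
set_option maxRecDepth 1000000

namespace Cfsg.Agent.Lib.ChevSym

open Cfsg.Lie

def tabF4 : Tab where
  cartTab := [19778261943122391822632190550314835961626098024167713471544210589745844973445869327947827746287903031247695635316864, 19778266630889938185384509287699379869763739737384372098205108217865661192675576379885949228903272166682817577517184, 19778860812270747726649948866466389191370688050087597901691770566035510301539456369860300151423979613552367630385024, 19931574793680059737690429863647908956947041837682731625686874520210016133077906682283030831840347252897022652481919]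
  keyA := [88, 149, 201, 101]

theorem hCheckF4 : hCheck chevF4 tabF4 = true := by decide +kernel
theorem cartEqF4 : cartEqCheck chevF4 tabF4 = true := by decide +kernel
theorem cartWF4 : cartWCheck chevF4 certF4 tabF4 = true := by decide +kernel
theorem gradeCartF4 : gradeCartCheck chevF4 tabF4 = true := by decide +kernel

theorem good2F4 : Good2 chevF4 certF4 tabF4 :=
  ⟨hCheckF4, cartEqF4, cartWF4, gradeCartF4⟩

theorem ordCheckF4 : ordCheck chevF4 certF4 tabF4 = true := by decide +kernel
theorem good3F4 : Good3 chevF4 certF4 tabF4 := good3_of ordCheckF4

theorem reflCheckF4 : reflCheck chevF4 certF4 = true := by decide +kernel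
theorem etaCheckF4 : etaCheck chevF4 certF4 tabF4 = true := by decide +kernel
theorem good4F4 : Good4 chevF4 certF4 tabF4 := ⟨reflCheckF4, etaCheckF4⟩

end Cfsg.Agent.Lib.ChevSym
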