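import Cfsg.Agent.Lib.ChevTabG2
import Cfsg.Agent.Lib.ChevTabB2
import Cfsg.Agent.Lib.ChevTabD4
import Cfsg.Agent.Lib.ChevTabF4
import Cfsg.Agent.Lib.ChevTabE6
import Cfsg.Agent.Lib.ChevTabE7
import Cfsg.Agent.Lib.ChevTabE8

/-! All certificates together (helper4). -/

set_option autoImplicit false
set_option linter.all false

namespace Cfsg.Agent.Lib.ChevSym

open Cfsg.Lie

theorem exists_good {D : ChevalleyDatum} (hD : D ∈ [chevG2, chevB2, chevD4, chevF4, chevE6, chevE7, chevE8]) :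
    ∃ (C : Cert) (T : Tab), AllGood D C T := by
  simp only [List.mem_cons, List.not_mem_nil, or_false] at hD
  rcases hD with rfl | rfl | rfl | rfl | rfl | rfl | rfl
  · exact ⟨certG2, tabG2, goodG2, good2G2, good3G2, good4G2⟩
  · exact ⟨certB2, tabB2, goodB2, good2B2, good3B2, good4B2⟩
  · exact ⟨certD4, tabD4, goodD4, good2D4, good3D4, good4D4⟩
  · exact ⟨certF4, tabF4, goodF4, good2F4, good3F4, good4F4⟩
  · exact ⟨certE6, tabE6, goodE6, good2E6, good3E6, good4E6⟩
  · exact ⟨certE7, tabE7, goodE7, good2E7, good3E7, good4E7⟩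
  · exact ⟨certE8, tabE8, goodE8, good2E8, good3E8, good4E8⟩

end Cfsg.Agent.Lib.ChevSym
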