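import Cfsg.Agent.Lib.ChevComm
import Cfsg.Agent.Lib.ChevTabB2

/-! Commutator tables for type B2 (generated, helper4). -/

set_option autoImplicit false
set_option linter.all false
set_option maxRecDepth 1000000

namespace Cfsg.Agent.Lib.ChevSym

open Cfsg.Lie

def tpB2 : List (ℕ × ℕ) := [(6, 3), (6, 5), (6, 7), (7, 2), (7, 4), (7, 6)]

theorem commTermsB2 : allL (termPairOK chevB2 tabB2) tpB2 = true := by decide +kernel
theorem commDomB2 : allL (domCheck1 chevB2 tabB2 tpB2) (List.range chevB2.nroots) = true := by decide +kernel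
theorem commFixB2 : fixCheck chevB2 tabB2 certB2 = true := by decide +kernel
theorem good5B2 : Good5 chevB2 certB2 tabB2 tpB2 := ⟨commTermsB2, commDomB2, commFixB2⟩

end Cfsg.Agent.Lib.ChevSym
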