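import Cfsg.Agent.Lib.ChevN0
import Cfsg.Agent.Lib.ChevCommB2

/-! Further tables for type B2 (generated, helper4). -/

set_option autoImplicit false
set_option linter.all false
set_option maxRecDepth 1000000

namespace Cfsg.Agent.Lib.ChevSym

open Cfsg.Lie

def tab6B2 : Tab6 where
  l0 := [0, 1, 0, 1]
  par := [0, 0]
  dep := [0, 1]

theorem l0CheckB2 : l0Check chevB2 certB2 tab6B2 = true := by decide +kernel
theorem treeCheckB2 : treeCheck chevB2 certB2 tab6B2 = true := by decide +kernel
theorem good6B2 : Good6 chevB2 certB2 tab6B2 := ⟨l0CheckB2, treeCheckB2, by decide⟩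


end Cfsg.Agent.Lib.ChevSym
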