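import Cfsg.Agent.Lib.ChevComm
import Cfsg.Agent.Lib.ChevTabD4

/-! Commutator tables for type D4 (generated, helper4). -/

set_option autoImplicit false
set_option linter.all false
set_option maxRecDepth 1000000

namespace Cfsg.Agent.Lib.ChevSym

open Cfsg.Lie

def tpD4 : List (ℕ × ℕ) := [(23, 9), (23, 12), (23, 13), (23, 18), (23, 22)]

theorem commTermsD4 : allL (termPairOK chevD4 tabD4) tpD4 = true := by decide +kernel
theorem commDomD4 : allL (domCheck1 chevD4 tabD4 tpD4) (List.range chevD4.nroots) = true := by decide +kernel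
theorem commFixD4 : fixCheck chevD4 tabD4 certD4 = true := by decide +kernel
theorem good5D4 : Good5 chevD4 certD4 tabD4 tpD4 := ⟨commTermsD4, commDomD4, commFixD4⟩

end Cfsg.Agent.Lib.ChevSym
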