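import Cfsg.Agent.Lib.ChevN0
import Cfsg.Agent.Lib.ChevCommD4

/-! Further tables for type D4 (generated, helper4). -/

set_option autoImplicit false
set_option linter.all false
set_option maxRecDepth 1000000

namespace Cfsg.Agent.Lib.ChevSym

open Cfsg.Lie

def tab6D4 : Tab6 where
  l0 := [0, 1, 0, 2, 1, 0, 3, 1, 0, 2, 1, 3]
  par := [0, 0, 1, 1]
  dep := [0, 1, 2, 2]

theorem l0CheckD4 : l0Check chevD4 certD4 tab6D4 = true := by decide +kernel
theorem treeCheckD4 : treeCheck chevD4 certD4 tab6D4 = true := by decide +kernel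
theorem good6D4 : Good6 chevD4 certD4 tab6D4 := ⟨l0CheckD4, treeCheckD4, by decide⟩

theorem perfTD4_0 : chevD4.commTerms 6 22 = [(chevD4.simple 0, 1, 1, 1)] := by decide +kernel
theorem perfCD4_0 : checkWords chevD4 [(22, pb), (6, pa)] ([(6, pa), (22, pb)] ++ commWordS chevD4 6 22) = true := by decide +kernel
theorem perfTD4_1 : chevD4.commTerms 1 23 = [(chevD4.simple 1, -1, 1, 1)] := by decide +kernel
theorem perfCD4_1 : checkWords chevD4 [(23, pb), (1, pa)] ([(1, pa), (23, pb)] ++ commWordS chevD4 1 23) = true := by decide +kernel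
theorem perfTD4_2 : chevD4.commTerms 3 22 = [(chevD4.simple 2, -1, 1, 1)] := by decide +kernel
theorem perfCD4_2 : checkWords chevD4 [(22, pb), (3, pa)] ([(3, pa), (22, pb)] ++ commWordS chevD4 3 22) = true := by decide +kernel
theorem perfTD4_3 : chevD4.commTerms 2 22 = [(chevD4.simple 3, -1, 1, 1)] := by decide +kernel
theorem perfCD4_3 : checkWords chevD4 [(22, pb), (2, pa)] ([(2, pa), (22, pb)] ++ commWordS chevD4 2 22) = true := by decide +kernel

theorem perfectD4 {F : Type*} [Field F] : commutator (chevD4.group F) = ⊤ := by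
  have A : AllGood chevD4 certD4 tabD4 := ⟨goodD4, good2D4, good3D4, good4D4⟩
  apply commutator_eq_top_of_le
  apply group_le_Dc_of_simple A
  intro i hi t
  have hi' : i < 4 := hi
  interval_cases i
  · exact gx_mem_Dc_of_single A (Or.inl rfl) perfTD4_0 perfCD4_0 t
  · exact gx_mem_Dc_of_single A (Or.inr rfl) perfTD4_1 perfCD4_1 t
  · exact gx_mem_Dc_of_single A (Or.inr rfl) perfTD4_2 perfCD4_2 t
  · exact gx_mem_Dc_of_single A (Or.inr rfl) perfTD4_3 perfCD4_3 t

end Cfsg.Agent.Lib.ChevSym
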