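import Cfsg.Agent.Lib.ChevComm
import Cfsg.Agent.Lib.ChevTabE6

/-! Commutator tables for type E6 (generated, helper4). -/

set_option autoImplicit false
set_option linter.all false
set_option maxRecDepth 1000000

namespace Cfsg.Agent.Lib.ChevSym

open Cfsg.Lie

def tpE6 : List (ℕ × ℕ) := [(71, 25), (71, 60), (71, 70)]

theorem commTermsE6 : allL (termPairOK chevE6 tabE6) tpE6 = true := by decide +kernel
theorem commDomE6 : allL (domCheck1 chevE6 tabE6 tpE6) (List.range chevE6.nroots) = true := by decide +kernel
theorem commFixE6 : fixCheck chevE6 tabE6 certE6 = true := by decide +kernel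
theorem good5E6 : Good5 chevE6 certE6 tabE6 tpE6 := ⟨commTermsE6, commDomE6, commFixE6⟩

end Cfsg.Agent.Lib.ChevSym
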