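import Cfsg.Agent.Lib.ChevN0
import Cfsg.Agent.Lib.ChevCommE6

/-! Further tables for type E6 (generated, helper4). -/

set_option autoImplicit false
set_option linter.all false
set_option maxRecDepth 1000000

namespace Cfsg.Agent.Lib.ChevSym

open Cfsg.Lie

def tab6E6 : Tab6 where
  l0 := [0, 1, 2, 0, 3, 1, 2, 0, 3, 2, 4, 3, 1, 2, 0, 3, 2, 4, 3, 1, 5, 4, 3, 1, 2, 0, 3, 2, 4, 3, 1, 5, 4, 3, 2, 0]
  par := [0, 3, 0, 2, 3, 4]
  dep := [0, 3, 1, 2, 3, 4]

theorem l0CheckE6 : l0Check chevE6 certE6 tab6E6 = true := by decide +kernel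
theorem treeCheckE6 : treeCheck chevE6 certE6 tab6E6 = true := by decide +kernel
theorem good6E6 : Good6 chevE6 certE6 tab6E6 := ⟨l0CheckE6, treeCheckE6, by decide⟩

theorem perfTE6_0 : chevE6.commTerms 16 66 = [(chevE6.simple 0, 1, 1, 1)] := by decide +kernel
theorem perfCE6_0 : checkWords chevE6 [(66, pb), (16, pa)] ([(16, pa), (66, pb)] ++ commWordS chevE6 16 66) = true := by decide +kernel
theorem perfTE6_1 : chevE6.commTerms 1 71 = [(chevE6.simple 1, -1, 1, 1)] := by decide +kernel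
theorem perfCE6_1 : checkWords chevE6 [(71, pb), (1, pa)] ([(1, pa), (71, pb)] ++ commWordS chevE6 1 71) = true := by decide +kernel
theorem perfTE6_2 : chevE6.commTerms 5 69 = [(chevE6.simple 2, -1, 1, 1)] := by decide +kernel
theorem perfCE6_2 : checkWords chevE6 [(69, pb), (5, pa)] ([(5, pa), (69, pb)] ++ commWordS chevE6 5 69) = true := by decide +kernel
theorem perfTE6_3 : chevE6.commTerms 2 70 = [(chevE6.simple 3, -1, 1, 1)] := by decide +kernel
theorem perfCE6_3 : checkWords chevE6 [(70, pb), (2, pa)] ([(2, pa), (70, pb)] ++ commWordS chevE6 2 70) = true := by decide +kernel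
theorem perfTE6_4 : chevE6.commTerms 3 69 = [(chevE6.simple 4, -1, 1, 1)] := by decide +kernel
theorem perfCE6_4 : checkWords chevE6 [(69, pb), (3, pa)] ([(3, pa), (69, pb)] ++ commWordS chevE6 3 69) = true := by decide +kernel
theorem perfTE6_5 : chevE6.commTerms 4 68 = [(chevE6.simple 5, -1, 1, 1)] := by decide +kernel
theorem perfCE6_5 : checkWords chevE6 [(68, pb), (4, pa)] ([(4, pa), (68, pb)] ++ commWordS chevE6 4 68) = true := by decide +kernel

theorem perfectE6 {F : Type*} [Field F] : commutator (chevE6.group F) = ⊤ := by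
  have A : AllGood chevE6 certE6 tabE6 := ⟨goodE6, good2E6, good3E6, good4E6⟩
  apply commutator_eq_top_of_le
  apply group_le_Dc_of_simple A
  intro i hi t
  have hi' : i < 6 := hi
  interval_cases i
  · exact gx_mem_Dc_of_single A (Or.inl rfl) perfTE6_0 perfCE6_0 t
  · exact gx_mem_Dc_of_single A (Or.inr rfl) perfTE6_1 perfCE6_1 t
  · exact gx_mem_Dc_of_single A (Or.inr rfl) perfTE6_2 perfCE6_2 t
  · exact gx_mem_Dc_of_single A (Or.inr rfl) perfTE6_3 perfCE6_3 t
  · exact gx_mem_Dc_of_single A (Or.inr rfl) perfTE6_4 perfCE6_4 t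
  · exact gx_mem_Dc_of_single A (Or.inr rfl) perfTE6_5 perfCE6_5 t

end Cfsg.Agent.Lib.ChevSym
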