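import Cfsg.Agent.Lib.ChevComm
import Cfsg.Agent.Lib.ChevTabE7

/-! Commutator tables for type E7 (generated, helper4). -/

set_option autoImplicit false
set_option linter.all false
set_option maxRecDepth 1000000

namespace Cfsg.Agent.Lib.ChevSym

open Cfsg.Lie

def tpE7 : List (ℕ × ℕ) := [(125, 32), (125, 92), (125, 124)]

theorem commTermsE7 : allL (termPairOK chevE7 tabE7) tpE7 = true := by decide +kernel
theorem commDomE7 : allL (domCheck1 chevE7 tabE7 tpE7) (List.range chevE7.nroots) = true := by decide +kernel
theorem commFixE7 : fixCheck chevE7 tabE7 certE7 = true := by decide +kernel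
theorem good5E7 : Good5 chevE7 certE7 tabE7 tpE7 := ⟨commTermsE7, commDomE7, commFixE7⟩

end Cfsg.Agent.Lib.ChevSym
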