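import Cfsg.Agent.Lib.ChevN0
import Cfsg.Agent.Lib.ChevCommE7

/-! Further tables for type E7 (generated, helper4). -/

set_option autoImplicit false
set_option linter.all false
set_option maxRecDepth 1000000

namespace Cfsg.Agent.Lib.ChevSym

open Cfsg.Lie

def tab6E7 : Tab6 where
  l0 := [0, 1, 2, 0, 3, 1, 2, 0, 3, 2, 4, 3, 1, 2, 0, 3, 2, 4, 3, 1, 5, 4, 3, 1, 2, 0, 3, 2, 4, 3, 1, 5, 4, 3, 2, 0, 6, 5, 4, 3, 1, 2, 0, 3, 2, 4, 3, 1, 5, 4, 3, 2, 0, 6, 5, 4, 3, 1, 2, 3, 4, 5, 6]
  par := [0, 3, 0, 2, 3, 4, 5]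
  dep := [0, 3, 1, 2, 3, 4, 5]

theorem l0CheckE7 : l0Check chevE7 certE7 tab6E7 = true := by decide +kernel
theorem treeCheckE7 : treeCheck chevE7 certE7 tab6E7 = true := by decide +kernel
theorem good6E7 : Good6 chevE7 certE7 tab6E7 := ⟨l0CheckE7, treeCheckE7, by decide⟩

theorem perfTE7_0 : chevE7.commTerms 1 125 = [(chevE7.simple 0, -1, 1, 1)] := by decide +kernel
theorem perfCE7_0 : checkWords chevE7 [(125, pb), (1, pa)] ([(1, pa), (125, pb)] ++ commWordS chevE7 1 125) = true := by decide +kernel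
theorem perfTE7_1 : chevE7.commTerms 7 122 = [(chevE7.simple 1, -1, 1, 1)] := by decide +kernel
theorem perfCE7_1 : checkWords chevE7 [(122, pb), (7, pa)] ([(7, pa), (122, pb)] ++ commWordS chevE7 7 122) = true := by decide +kernel
theorem perfTE7_2 : chevE7.commTerms 2 124 = [(chevE7.simple 2, -1, 1, 1)] := by decide +kernel
theorem perfCE7_2 : checkWords chevE7 [(124, pb), (2, pa)] ([(2, pa), (124, pb)] ++ commWordS chevE7 2 124) = true := by decide +kernel
theorem perfTE7_3 : chevE7.commTerms 3 123 = [(chevE7.simple 3, -1, 1, 1)] := by decide +kernel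
theorem perfCE7_3 : checkWords chevE7 [(123, pb), (3, pa)] ([(3, pa), (123, pb)] ++ commWordS chevE7 3 123) = true := by decide +kernel
theorem perfTE7_4 : chevE7.commTerms 4 122 = [(chevE7.simple 4, -1, 1, 1)] := by decide +kernel
theorem perfCE7_4 : checkWords chevE7 [(122, pb), (4, pa)] ([(4, pa), (122, pb)] ++ commWordS chevE7 4 122) = true := by decide +kernel
theorem perfTE7_5 : chevE7.commTerms 5 121 = [(chevE7.simple 5, -1, 1, 1)] := by decide +kernel
theorem perfCE7_5 : checkWords chevE7 [(121, pb), (5, pa)] ([(5, pa), (121, pb)] ++ commWordS chevE7 5 121) = true := by decide +kernel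
theorem perfTE7_6 : chevE7.commTerms 6 120 = [(chevE7.simple 6, -1, 1, 1)] := by decide +kernel
theorem perfCE7_6 : checkWords chevE7 [(120, pb), (6, pa)] ([(6, pa), (120, pb)] ++ commWordS chevE7 6 120) = true := by decide +kernel

theorem perfectE7 {F : Type*} [Field F] : commutator (chevE7.group F) = ⊤ := by
  have A : AllGood chevE7 certE7 tabE7 := ⟨goodE7, good2E7, good3E7, good4E7⟩
  apply commutator_eq_top_of_le
  apply group_le_Dc_of_simple A
  intro i hi t
  have hi' : i < 7 := hi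
  interval_cases i
  · exact gx_mem_Dc_of_single A (Or.inr rfl) perfTE7_0 perfCE7_0 t
  · exact gx_mem_Dc_of_single A (Or.inr rfl) perfTE7_1 perfCE7_1 t
  · exact gx_mem_Dc_of_single A (Or.inr rfl) perfTE7_2 perfCE7_2 t
  · exact gx_mem_Dc_of_single A (Or.inr rfl) perfTE7_3 perfCE7_3 t
  · exact gx_mem_Dc_of_single A (Or.inr rfl) perfTE7_4 perfCE7_4 t
  · exact gx_mem_Dc_of_single A (Or.inr rfl) perfTE7_5 perfCE7_5 t
  · exact gx_mem_Dc_of_single A (Or.inr rfl) perfTE7_6 perfCE7_6 t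

end Cfsg.Agent.Lib.ChevSym
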