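import Cfsg.Agent.Lib.ChevComm
import Cfsg.Agent.Lib.ChevTabE8

/-! Commutator tables for type E8 (generated, helper4). -/

set_option autoImplicit false
set_option linter.all false
set_option maxRecDepth 1000000

namespace Cfsg.Agent.Lib.ChevSym

open Cfsg.Lie

def tpE8 : List (ℕ × ℕ) := [(239, 119), (239, 226), (239, 238)]

theorem commTermsE8 : allL (termPairOK chevE8 tabE8) tpE8 = true := by decide +kernel
theorem commDomE8 : allL (domCheck1 chevE8 tabE8 tpE8) (List.range chevE8.nroots) = true := by decide +kernel
theorem commFixE8 : fixCheck chevE8 tabE8 certE8 = true := by decide +kernel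
theorem good5E8 : Good5 chevE8 certE8 tabE8 tpE8 := ⟨commTermsE8, commDomE8, commFixE8⟩

end Cfsg.Agent.Lib.ChevSym
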