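import Cfsg.Agent.Lib.ChevN0
import Cfsg.Agent.Lib.ChevCommE8

/-! Further tables for type E8 (generated, helper4). -/

set_option autoImplicit false
set_option linter.all false
set_option maxRecDepth 1000000

namespace Cfsg.Agent.Lib.ChevSym

open Cfsg.Lie

def tab6E8 : Tab6 where
  l0 := [0, 1, 2, 0, 3, 1, 2, 0, 3, 2, 4, 3, 1, 2, 0, 3, 2, 4, 3, 1, 5, 4, 3, 1, 2, 0, 3, 2, 4, 3, 1, 5, 4, 3, 2, 0, 6, 5, 4, 3, 1, 2, 0, 3, 2, 4, 3, 1, 5, 4, 3, 2, 0, 6, 5, 4, 3, 1, 2, 3, 4, 5, 6, 7, 6, 5, 4, 3, 1, 2, 0, 3, 2, 4, 3, 1, 5, 4, 3, 2, 0, 6, 5, 4, 3, 1, 2, 3, 4, 5, 6, 7, 6, 5, 4, 3, 1, 2, 0, 3, 2, 4, 3, 1, 5, 4, 3, 2, 0, 6, 5, 4, 3, 1, 2, 3, 4, 5, 6, 7]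
  par := [0, 3, 0, 2, 3, 4, 5, 6]
  dep := [0, 3, 1, 2, 3, 4, 5, 6]

theorem l0CheckE8 : l0Check chevE8 certE8 tab6E8 = true := by decide +kernel
theorem treeCheckE8 : treeCheck chevE8 certE8 tab6E8 = true := by decide +kernel
theorem good6E8 : Good6 chevE8 certE8 tab6E8 := ⟨l0CheckE8, treeCheckE8, by decide⟩

theorem perfTE8_0 : chevE8.commTerms 14 233 = [(chevE8.simple 0, -1, 1, 1)] := by decide +kernel
theorem perfCE8_0 : checkWords chevE8 [(233, pb), (14, pa)] ([(14, pa), (233, pb)] ++ commWordS chevE8 14 233) = true := by decide +kernel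
theorem perfTE8_1 : chevE8.commTerms 7 234 = [(chevE8.simple 1, -1, 1, 1)] := by decide +kernel
theorem perfCE8_1 : checkWords chevE8 [(234, pb), (7, pa)] ([(7, pa), (234, pb)] ++ commWordS chevE8 7 234) = true := by decide +kernel
theorem perfTE8_2 : chevE8.commTerms 6 234 = [(chevE8.simple 2, -1, 1, 1)] := by decide +kernel
theorem perfCE8_2 : checkWords chevE8 [(234, pb), (6, pa)] ([(6, pa), (234, pb)] ++ commWordS chevE8 6 234) = true := by decide +kernel
theorem perfTE8_3 : chevE8.commTerms 5 235 = [(chevE8.simple 3, -1, 1, 1)] := by decide +kernel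
theorem perfCE8_3 : checkWords chevE8 [(235, pb), (5, pa)] ([(5, pa), (235, pb)] ++ commWordS chevE8 5 235) = true := by decide +kernel
theorem perfTE8_4 : chevE8.commTerms 4 236 = [(chevE8.simple 4, -1, 1, 1)] := by decide +kernel
theorem perfCE8_4 : checkWords chevE8 [(236, pb), (4, pa)] ([(4, pa), (236, pb)] ++ commWordS chevE8 4 236) = true := by decide +kernel
theorem perfTE8_5 : chevE8.commTerms 3 237 = [(chevE8.simple 5, -1, 1, 1)] := by decide +kernel
theorem perfCE8_5 : checkWords chevE8 [(237, pb), (3, pa)] ([(3, pa), (237, pb)] ++ commWordS chevE8 3 237) = true := by decide +kernel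
theorem perfTE8_6 : chevE8.commTerms 2 238 = [(chevE8.simple 6, -1, 1, 1)] := by decide +kernel
theorem perfCE8_6 : checkWords chevE8 [(238, pb), (2, pa)] ([(2, pa), (238, pb)] ++ commWordS chevE8 2 238) = true := by decide +kernel
theorem perfTE8_7 : chevE8.commTerms 1 239 = [(chevE8.simple 7, -1, 1, 1)] := by decide +kernel
theorem perfCE8_7 : checkWords chevE8 [(239, pb), (1, pa)] ([(1, pa), (239, pb)] ++ commWordS chevE8 1 239) = true := by decide +kernel

theorem perfectE8 {F : Type*} [Field F] : commutator (chevE8.group F) = ⊤ := by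
  have A : AllGood chevE8 certE8 tabE8 := ⟨goodE8, good2E8, good3E8, good4E8⟩
  apply commutator_eq_top_of_le
  apply group_le_Dc_of_simple A
  intro i hi t
  have hi' : i < 8 := hi
  interval_cases i
  · exact gx_mem_Dc_of_single A (Or.inr rfl) perfTE8_0 perfCE8_0 t
  · exact gx_mem_Dc_of_single A (Or.inr rfl) perfTE8_1 perfCE8_1 t
  · exact gx_mem_Dc_of_single A (Or.inr rfl) perfTE8_2 perfCE8_2 t
  · exact gx_mem_Dc_of_single A (Or.inr rfl) perfTE8_3 perfCE8_3 t
  · exact gx_mem_Dc_of_single A (Or.inr rfl) perfTE8_4 perfCE8_4 t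
  · exact gx_mem_Dc_of_single A (Or.inr rfl) perfTE8_5 perfCE8_5 t
  · exact gx_mem_Dc_of_single A (Or.inr rfl) perfTE8_6 perfCE8_6 t
  · exact gx_mem_Dc_of_single A (Or.inr rfl) perfTE8_7 perfCE8_7 t

end Cfsg.Agent.Lib.ChevSym
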