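import Cfsg.Agent.Lib.ChevComm
import Cfsg.Agent.Lib.ChevTabF4

/-! Commutator tables for type F4 (generated, helper4). -/

set_option autoImplicit false
set_option linter.all false
set_option maxRecDepth 1000000

namespace Cfsg.Agent.Lib.ChevSym

open Cfsg.Lie

def tpF4 : List (ℕ × ℕ) := [(44, 6), (44, 14), (44, 29), (44, 32), (44, 40), (44, 47), (47, 18), (47, 23), (47, 37), (47, 41), (47, 44), (47, 46)]

theorem commTermsF4 : allL (termPairOK chevF4 tabF4) tpF4 = true := by decide +kernel
theorem commDomF4 : allL (domCheck1 chevF4 tabF4 tpF4) (List.range chevF4.nroots) = true := by decide +kernel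
theorem commFixF4 : fixCheck chevF4 tabF4 certF4 = true := by decide +kernel
theorem good5F4 : Good5 chevF4 certF4 tabF4 tpF4 := ⟨commTermsF4, commDomF4, commFixF4⟩

end Cfsg.Agent.Lib.ChevSym
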