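import Cfsg.Agent.Lib.ChevN0
import Cfsg.Agent.Lib.ChevCommF4

/-! Further tables for type F4 (generated, helper4). -/

set_option autoImplicit false
set_option linter.all false
set_option maxRecDepth 1000000

namespace Cfsg.Agent.Lib.ChevSym

open Cfsg.Lie

def tab6F4 : Tab6 where
  l0 := [0, 1, 0, 2, 1, 0, 2, 1, 2, 3, 2, 1, 0, 2, 1, 2, 3, 2, 1, 0, 2, 1, 2, 3]
  par := [0, 0, 1, 2]
  dep := [0, 1, 2, 3]

theorem l0CheckF4 : l0Check chevF4 certF4 tab6F4 = true := by decide +kernel
theorem treeCheckF4 : treeCheck chevF4 certF4 tab6F4 = true := by decide +kernel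
theorem good6F4 : Good6 chevF4 certF4 tab6F4 := ⟨l0CheckF4, treeCheckF4, by decide⟩

theorem perfTF4_0 : chevF4.commTerms 7 44 = [(chevF4.simple 0, -1, 1, 1)] := by decide +kernel
theorem perfCF4_0 : checkWords chevF4 [(44, pb), (7, pa)] ([(7, pa), (44, pb)] ++ commWordS chevF4 7 44) = true := by decide +kernel
theorem perfTF4_1 : chevF4.commTerms 8 40 = [(chevF4.simple 1, -1, 1, 1)] := by decide +kernel
theorem perfCF4_1 : checkWords chevF4 [(40, pb), (8, pa)] ([(8, pa), (40, pb)] ++ commWordS chevF4 8 40) = true := by decide +kernel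
theorem perfTF4_2 : chevF4.commTerms 2 46 = [(chevF4.simple 2, -1, 1, 1)] := by decide +kernel
theorem perfCF4_2 : checkWords chevF4 [(46, pb), (2, pa)] ([(2, pa), (46, pb)] ++ commWordS chevF4 2 46) = true := by decide +kernel
theorem perfTF4_3 : chevF4.commTerms 1 47 = [(chevF4.simple 3, -1, 1, 1)] := by decide +kernel
theorem perfCF4_3 : checkWords chevF4 [(47, pb), (1, pa)] ([(1, pa), (47, pb)] ++ commWordS chevF4 1 47) = true := by decide +kernel

theorem perfectF4 {F : Type*} [Field F] : commutator (chevF4.group F) = ⊤ := by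
  have A : AllGood chevF4 certF4 tabF4 := ⟨goodF4, good2F4, good3F4, good4F4⟩
  apply commutator_eq_top_of_le
  apply group_le_Dc_of_simple A
  intro i hi t
  have hi' : i < 4 := hi
  interval_cases i
  · exact gx_mem_Dc_of_single A (Or.inr rfl) perfTF4_0 perfCF4_0 t
  · exact gx_mem_Dc_of_single A (Or.inr rfl) perfTF4_1 perfCF4_1 t
  · exact gx_mem_Dc_of_single A (Or.inr rfl) perfTF4_2 perfCF4_2 t
  · exact gx_mem_Dc_of_single A (Or.inr rfl) perfTF4_3 perfCF4_3 t

end Cfsg.Agent.Lib.ChevSym
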