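import Cfsg.Agent.Lib.ChevCore
import Cfsg.Prelude.Def_ChevG2

/-! Certificate for type G2 (generated, helper4). -/

set_option autoImplicit false
set_option linter.all false
set_option maxRecDepth 1000000

namespace Cfsg.Agent.Lib.ChevSym

open Cfsg.Lie

def certG2 : Cert where
  wTab := [3411626608196089407097472256, 3108190913232640688152248321]
  etaTab := [1686, 2409]

theorem sortedG2 : chainSortedB chevG2 = true := by decide +kernel
theorem negG2 : negCheck chevG2 = true := by decide +kernel
theorem wG2 : wCheck chevG2 certG2 = true := by decide +kernel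
theorem nG2 : nCheck chevG2 certG2 = true := by decide +kernel
theorem conjG2_0_0 : conjChunk chevG2 certG2 0 0 12 = true := by decide +kernel
theorem conjG2_0 : ∀ r < chevG2.nroots, conjCheck1 chevG2 certG2 0 r = true := by
  apply conj_of_chunks 12 1 (by decide)
  intro c hc
  interval_cases c
  · exact conjG2_0_0
theorem conjG2_1_0 : conjChunk chevG2 certG2 1 0 12 = true := by decide +kernel
theorem conjG2_1 : ∀ r < chevG2.nroots, conjCheck1 chevG2 certG2 1 r = true := by
  apply conj_of_chunks 12 1 (by decide)
  intro c hc
  interval_cases c
  · exact conjG2_1_0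

end Cfsg.Agent.Lib.ChevSym
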