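import Cfsg.Agent.Lib.ChevBasic
import Cfsg.Agent.Lib.ChevCertG2

/-! The `Good` bundle for type G2 (generated, helper4). -/

set_option autoImplicit false
set_option linter.all false
set_option maxRecDepth 1000000

namespace Cfsg.Agent.Lib.ChevSym

open Cfsg.Lie

theorem simpleG2 : simpleCheck chevG2 certG2 = true := by decide +kernel
theorem descentG2 : descentCheck chevG2 certG2 = true := by decide +kernel
theorem etaNegG2 : etaNegCheck chevG2 certG2 = true := by decide +kernel

theorem conjAllG2 : ∀ i < chevG2.rank, ∀ r < chevG2.nroots, conjCheck1 chevG2 certG2 i r = true := by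
  intro i hi
  have h : i < 2 := hi
  interval_cases i
  · exact conjG2_0
  · exact conjG2_1

theorem goodG2 : Good chevG2 certG2 where
  sorted := chainSorted_of _ sortedG2
  neg := negOK_of negG2
  w := wOK_of wG2
  n := nG2
  conj := conjAllG2
  simple := simpleG2
  descent := descentG2
  etaNeg := etaNegG2

end Cfsg.Agent.Lib.ChevSym
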