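import Cfsg.Agent.Lib.ChevOrd
import Cfsg.Agent.Lib.ChevGoodG2

/-! Fast tables for type G2 (generated, helper4). -/

set_option autoImplicit false
set_option linter.all false
set_option maxRecDepth 1000000

namespace Cfsg.Agent.Lib.ChevSym

open Cfsg.Lie

def tabG2 : Tab where
  cartTab := [39773062076917288940385303936, 40077706697772409878248194431]
  keyA := [5, 8]

theorem hCheckG2 : hCheck chevG2 tabG2 = true := by decide +kernel
theorem cartEqG2 : cartEqCheck chevG2 tabG2 = true := by decide +kernel
theorem cartWG2 : cartWCheck chevG2 certG2 tabG2 = true := by decide +kernel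
theorem gradeCartG2 : gradeCartCheck chevG2 tabG2 = true := by decide +kernel

theorem good2G2 : Good2 chevG2 certG2 tabG2 :=
  ⟨hCheckG2, cartEqG2, cartWG2, gradeCartG2⟩

theorem ordCheckG2 : ordCheck chevG2 certG2 tabG2 = true := by decide +kernel
theorem good3G2 : Good3 chevG2 certG2 tabG2 := good3_of ordCheckG2

theorem reflCheckG2 : reflCheck chevG2 certG2 = true := by decide +kernel
theorem etaCheckG2 : etaCheck chevG2 certG2 tabG2 = true := by decide +kernel
theorem good4G2 : Good4 chevG2 certG2 tabG2 := ⟨reflCheckG2, etaCheckG2⟩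

end Cfsg.Agent.Lib.ChevSym
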