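import Cfsg.Agent.Lib.ChevComm
import Cfsg.Agent.Lib.ChevTabG2

/-! Commutator tables for type G2 (generated, helper4). -/

set_option autoImplicit false
set_option linter.all false
set_option maxRecDepth 1000000

namespace Cfsg.Agent.Lib.ChevSym

open Cfsg.Lie

def tpG2 : List (ℕ × ℕ) := [(9, 1), (9, 4), (9, 6), (9, 8), (9, 11), (11, 3), (11, 5), (11, 7), (11, 9), (11, 10)]

theorem commTermsG2 : allL (termPairOK chevG2 tabG2) tpG2 = true := by decide +kernel
theorem commDomG2 : allL (domCheck1 chevG2 tabG2 tpG2) (List.range chevG2.nroots) = true := by decide +kernel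
theorem commFixG2 : fixCheck chevG2 tabG2 certG2 = true := by decide +kernel
theorem good5G2 : Good5 chevG2 certG2 tabG2 tpG2 := ⟨commTermsG2, commDomG2, commFixG2⟩

end Cfsg.Agent.Lib.ChevSym
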