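import Cfsg.Agent.Lib.ChevAll
import Cfsg.Agent.Lib.ChevXG2
import Cfsg.Agent.Lib.ChevXB2
import Cfsg.Agent.Lib.ChevXD4
import Cfsg.Agent.Lib.ChevXF4
import Cfsg.Agent.Lib.ChevXE6
import Cfsg.Agent.Lib.ChevXE7
import Cfsg.Agent.Lib.ChevXE8

/-! All commutator tables together; perfectness (helper4). -/

set_option autoImplicit false
set_option linter.all false
set_option maxRecDepth 1000000

namespace Cfsg.Agent.Lib.ChevSym

open Cfsg.Lie

theorem exists_good6 {D : ChevalleyDatum} (hD : D ∈ [chevG2, chevB2, chevD4, chevF4, chevE6, chevE7, chevE8]) :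
    ∃ (C : Cert) (T : Tab) (tp : List (ℕ × ℕ)) (X : Tab6), AllGood D C T ∧ Good5 D C T tp ∧ Good6 D C X := by
  simp only [List.mem_cons, List.not_mem_nil, or_false] at hD
  rcases hD with rfl | rfl | rfl | rfl | rfl | rfl | rfl
  · exact ⟨certG2, tabG2, tpG2, tab6G2, ⟨goodG2, good2G2, good3G2, good4G2⟩, good5G2, good6G2⟩
  · exact ⟨certB2, tabB2, tpB2, tab6B2, ⟨goodB2, good2B2, good3B2, good4B2⟩, good5B2, good6B2⟩
  · exact ⟨certD4, tabD4, tpD4, tab6D4, ⟨goodD4, good2D4, good3D4, good4D4⟩, good5D4, good6D4⟩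
  · exact ⟨certF4, tabF4, tpF4, tab6F4, ⟨goodF4, good2F4, good3F4, good4F4⟩, good5F4, good6F4⟩
  · exact ⟨certE6, tabE6, tpE6, tab6E6, ⟨goodE6, good2E6, good3E6, good4E6⟩, good5E6, good6E6⟩
  · exact ⟨certE7, tabE7, tpE7, tab6E7, ⟨goodE7, good2E7, good3E7, good4E7⟩, good5E7, good6E7⟩
  · exact ⟨certE8, tabE8, tpE8, tab6E8, ⟨goodE8, good2E8, good3E8, good4E8⟩, good5E8, good6E8⟩

theorem perfT1G2 : chevG2.commTerms 1 11 = [(chevG2.simple 1, -1, 1, 1)] := by decide +kernel
theorem perfC1G2 : checkWords chevG2 [(11, pb), (1, pa)] ([(1, pa), (11, pb)] ++ commWordS chevG2 1 11) = true := by decide +kernel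
theorem cartG2 : tabG2.cart 1 (chevG2.simple 0) = -1 := by decide +kernel

theorem perfectG2 {F : Type*} [Field F] (hF : ∃ a : F, a ≠ 0 ∧ a ≠ 1) : commutator (chevG2.group F) = ⊤ := by
  have A : AllGood chevG2 certG2 tabG2 := ⟨goodG2, good2G2, good3G2, good4G2⟩
  obtain ⟨a, ha, ha1⟩ := hF
  apply commutator_eq_top_of_le
  apply group_le_Dc_of_simple A
  intro i hi t
  have hi' : i < 2 := hi
  interval_cases i
  · exact gx_mem_Dc_of_torus A (j := 1) (by decide) (by decide) (Or.inr cartG2) ha ha1 t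
  · exact gx_mem_Dc_of_single A (Or.inr rfl) perfT1G2 perfC1G2 t

theorem perfT1B2 : chevB2.commTerms 6 0 = [(2, 1, 1, 1), (chevB2.simple 1, 1, 2, 1)] := by decide +kernel
theorem perfC1B2 : checkWords chevB2 [(0, pb), (6, pa)] ([(6, pa), (0, pb)] ++ commWordS chevB2 6 0) = true := by decide +kernel
theorem cartB2 : tabB2.cart 1 (chevB2.simple 0) = -1 := by decide +kernel
theorem cartB2' : tabB2.cart 1 2 = 1 := by decide +kernel

theorem perfectB2 {F : Type*} [Field F] (hF : ∃ a : F, a ≠ 0 ∧ a ≠ 1) : commutator (chevB2.group F) = ⊤ := by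
  have A : AllGood chevB2 certB2 tabB2 := ⟨goodB2, good2B2, good3B2, good4B2⟩
  obtain ⟨a, ha, ha1⟩ := hF
  apply commutator_eq_top_of_le
  apply group_le_Dc_of_simple A
  intro i hi t
  have hi' : i < 2 := hi
  interval_cases i
  · exact gx_mem_Dc_of_torus A (j := 1) (by decide) (by decide) (Or.inr cartB2) ha ha1 t
  · exact gx_mem_Dc_of_double A (Or.inl rfl) perfT1B2 perfC1B2
      (fun v => gx_mem_Dc_of_torus A (j := 1) (by decide) (by decide) (Or.inl cartB2') ha ha1 v) t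

/-- All the types are perfect, `G₂`, `B₂` over fields with more than two elements. -/
theorem perfect_all {F : Type*} [Field F] {D : ChevalleyDatum} (hD : D ∈ [chevG2, chevB2, chevD4, chevF4, chevE6, chevE7, chevE8])
    (h2 : D = chevG2 ∨ D = chevB2 → ∃ a : F, a ≠ 0 ∧ a ≠ 1) : commutator (D.group F) = ⊤ := by
  simp only [List.mem_cons, List.not_mem_nil, or_false] at hD
  rcases hD with rfl | rfl | rfl | rfl | rfl | rfl | rfl
  · exact perfectG2 (h2 (Or.inl rfl))
  · exact perfectB2 (h2 (Or.inr rfl))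
  · exact perfectD4
  · exact perfectF4
  · exact perfectE6
  · exact perfectE7
  · exact perfectE8

end Cfsg.Agent.Lib.ChevSym
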