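import Cfsg.Agent.Lib.ChevGraph
import Cfsg.Prelude.Def_ChevD4


/-! Tables of the triality automorphisms of D4 (generated, helper4). -/

set_option autoImplicit false
set_option linter.all false
set_option maxRecDepth 1000000

namespace Cfsg.Agent.Lib.ChevSym

open Cfsg.Lie

noncomputable def gD4a : GTab := ⟨2854161557792140560536154438623110918635256156547402006326287728898, 44569920⟩

noncomputable def gD4b : GTab := ⟨2854166353473251066308398924080055256945159568229337209736175550723, 28315008⟩

theorem gD4a_check : gD4a.check chevD4 = true := by decide +kernel

theorem gD4b_check : gD4b.check chevD4 = true := by decide +kernel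

theorem gD4a_inv : gD4a.invCheck chevD4 gD4b = true := by decide +kernel

theorem gD4b_inv : gD4b.invCheck chevD4 gD4a = true := by decide +kernel

theorem gD4a_simple : gD4a.simpleChk chevD4 [2, 1, 3, 0] = true := by decide +kernel

theorem gD4b_simple : gD4b.simpleChk chevD4 [3, 1, 0, 2] = true := by decide +kernel

end Cfsg.Agent.Lib.ChevSym
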