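import Cfsg.Agent.Lib.ChevGraph
import Cfsg.Prelude.Def_ChevE6


/-! Tables of the graph automorphism of E6 (generated, helper4). -/

set_option autoImplicit false
set_option linter.all false
set_option maxRecDepth 1000000

namespace Cfsg.Agent.Lib.ChevSym

open Cfsg.Lie

noncomputable def gE6 : GTab := ⟨21020629588315977342102643293361051310797613486127781916947365211205027208058566875940593059548509184045424410227249909403225142870400862767800357085826260648166106955836865963335476314373, 11117949231516678988800⟩

theorem gE6_check : gE6.check chevE6 = true := by decide +kernel

theorem gE6_inv : gE6.invCheck chevE6 gE6 = true := by decide +kernel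

theorem gE6_simple : gE6.simpleChk chevE6 [5, 1, 4, 3, 2, 0] = true := by decide +kernel

end Cfsg.Agent.Lib.ChevSym
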