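import Cfsg.Agent.Lib.ChevU
import Cfsg.Prelude.Def_ChevE8

/-! Pivot table for type E8 (generated, helper4). -/

set_option autoImplicit false
set_option linter.all false
set_option maxRecDepth 1000000

namespace Cfsg.Agent.Lib.ChevSym

open Cfsg.Lie

def tab7E8 : Tab7 where
  pivU := [1, 0, 0, 0, 0, 0, 0, 0, 0, 0, 0, 0, 0, 1, 0, 0, 0, 0, 0, 0, 1, 0, 0, 0, 0, 1, 0, 0, 0, 1, 0, 0, 1, 0, 1, 2, 0, 0, 0, 1, 0, 0, 1, 0, 1, 2, 0, 0, 1, 0, 1, 2, 0, 1, 2, 3, 0, 0, 1, 0, 1, 2, 0, 1, 2, 3, 0, 1, 2, 3, 4, 0, 1, 2, 3, 4, 5, 6, 0, 0, 1, 0, 1, 2, 0, 1, 2, 3, 0, 1, 2, 3, 4, 0, 1, 2, 3, 4, 5, 0, 1, 2, 3, 4, 5, 0, 1, 2, 3, 4, 0, 1, 2, 3, 0, 1, 2, 0, 1, 0, 1, 2, 2, 3, 3, 3, 4, 4, 4, 4, 5, 5, 5, 5, 5, 6, 6, 6, 6, 6, 6, 7, 7, 7, 7, 7, 7, 8,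 8, 8, 8, 8, 9, 9, 9, 9, 10, 10, 10, 11, 11, 12, 14, 14, 14, 14, 14, 14, 14, 15, 15, 15, 15, 15, 16, 16, 16, 16, 17, 17, 17, 18, 18, 19, 21, 21, 21, 21, 22, 22, 22, 23, 23, 24, 26, 26, 26, 27, 27, 28, 30, 30, 31, 33, 36, 36, 36, 37, 37, 38, 40, 40, 41, 43, 46, 46, 47, 49, 52, 56, 56, 57, 59, 62, 66, 71, 78, 78, 79, 81, 84, 88, 93, 99, 105, 110, 114, 117, 119, 120]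
  pivV := [120, 119, 117, 114, 110, 105, 99, 93, 88, 84, 81, 79, 78, 78, 71, 66, 62, 59, 57, 56, 56, 52, 49, 47, 46, 46, 43, 41, 40, 40, 38, 37, 37, 36, 36, 36, 33, 31, 30, 30, 28, 27, 27, 26, 26, 26, 24, 23, 23, 22, 22, 22, 21, 21, 21, 21, 19, 18, 18, 17, 17, 17, 16, 16, 16, 16, 15, 15, 15, 15, 15, 14, 14, 14, 14, 14, 14, 14, 12, 11, 11, 10, 10, 10, 9, 9, 9, 9, 8, 8, 8, 8, 8, 7, 7, 7, 7, 7, 7, 6, 6, 6, 6, 6, 6, 5, 5, 5, 5, 5, 4, 4, 4, 4, 3, 3, 3, 2, 2, 1, 0, 1, 0, 2, 1, 0, 3, 2, 1, 0, 4, 3, 2, 1, 0, 5, 4, 3, 2, 1, 0, 5, 4, 3, 2, 1, 0, 4, 3, 2, 1, 0, 3, 2, 1, 0, 2, 1, 0, 1, 0, 0, 6, 5, 4, 3, 2, 1, 0, 4, 3, 2, 1, 0, 3, 2, 1, 0, 2, 1, 0, 1, 0, 0, 3, 2, 1, 0, 2, 1, 0, 1, 0, 0, 2, 1, 0, 1, 0, 0, 1, 0, 0, 0, 2, 1, 0, 1, 0, 0,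 1, 0, 0, 0, 1, 0, 0, 0, 0, 1, 0, 0, 0, 0, 0, 0, 1, 0, 0, 0, 0, 0, 0, 0, 0, 0, 0, 0, 0, 1]

theorem pivE8 : pivCheck chevE8 tab7E8 = true := by decide +kernel

end Cfsg.Agent.Lib.ChevSym
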