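import Cfsg.Agent.Lib.ChevU
import Cfsg.Prelude.Def_ChevF4

/-! Pivot table for type F4 (generated, helper4). -/

set_option autoImplicit false
set_option linter.all false
set_option maxRecDepth 1000000

namespace Cfsg.Agent.Lib.ChevSym

open Cfsg.Lie

def tab7F4 : Tab7 where
  pivU := [1, 0, 0, 7, 0, 0, 1, 3, 3, 3, 3, 3, 3, 3, 3, 0, 0, 1, 3, 3, 3, 0, 1, 0, 1, 2, 2, 3, 3, 3, 4, 4, 5, 7, 7, 7, 7, 8, 8, 9, 11, 15, 15, 16, 18, 21, 23, 24]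
  pivV := [24, 23, 21, 33, 16, 15, 15, 14, 13, 12, 11, 10, 9, 8, 7, 5, 4, 4, 6, 5, 4, 2, 2, 1, 0, 1, 0, 2, 1, 0, 1, 0, 0, 3, 2, 1, 0, 1, 0, 0, 0, 1, 0, 0, 0, 0, 0, 1]

theorem pivF4 : pivCheck chevF4 tab7F4 = true := by decide +kernel

end Cfsg.Agent.Lib.ChevSym
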