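import Cfsg.Agent.Lib.ChevU
import Cfsg.Prelude.Def_ChevG2

/-! Pivot table for type G2 (generated, helper4). -/

set_option autoImplicit false
set_option linter.all false
set_option maxRecDepth 1000000

namespace Cfsg.Agent.Lib.ChevSym

open Cfsg.Lie

def tab7G2 : Tab7 where
  pivU := [1, 0, 7, 4, 3, 0, 1, 2, 2, 3, 5, 6]
  pivV := [6, 5, 10, 6, 5, 1, 0, 1, 0, 0, 0, 1]

theorem pivG2 : pivCheck chevG2 tab7G2 = true := by decide +kernel

end Cfsg.Agent.Lib.ChevSym
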