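import Cfsg.Agent.Lib.ChevU

/-! Orders of groups generated by root subgroups; the normal form of `U` (helper4). -/

set_option autoImplicit false
set_option linter.all false

namespace Cfsg.Agent.Lib.ChevSym

open Cfsg.Lie Cfsg.Lie.ChevalleyDatum Matrix Cfsg.Agent.Lib.MatFilt

variable {F : Type*} [Field F] {D : ChevalleyDatum} {C : Cert} {T : Tab}

variable (A : AllGood D C T) {tp : List (ℕ × ℕ)} (B5 : Good5 D C T tp) {X7 : Tab7} (hP : pivCheck D X7 = true)
include A B5 hP

/-- The order of a group generated by the root groups of a closed set. -/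
theorem card_Xs [Finite F] {Ψ : ℕ → Prop} (hΨ : IsClosedPos D T Ψ) :
    Nat.card (Xs D F Ψ) = Nat.card F ^ (filterL D Ψ 0).length := by
  classical
  have hG := A.g1
  set L := filterL D Ψ 0 with hL
  have hpair : L.Pairwise (· < ·) := filterL_pairwise
  have hnd : L.Nodup := hpair.imp (fun h => Nat.ne_of_lt h)
  have hmemL : ∀ r ∈ L, Ψ r := fun r hr => (mem_filterL.mp hr).2.2
  let ext : ({r // r ∈ L.toFinset} → F) → ℕ → F := fun t r => if h : r ∈ L.toFinset then t ⟨r, h⟩ else 0
  let f : ({r // r ∈ L.toFinset} → F) → Xs D F Ψ := fun t => ⟨gw hG (ext t) L, gw_mem_Xs hG hmemL⟩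
  have hf : Function.Bijective f := by
    constructor
    · intro t t' h
      have h1 : gw hG (ext t) L = gw hG (ext t') L := congrArg Subtype.val h
      have h2 := gw_inj A hP hpair (fun r hr => hΨ.pos r (hmemL r hr)) h1
      funext r
      have h3 := h2 r.1 (List.mem_toFinset.mp r.2)
      simp only [ext, dif_pos r.2] at h3
      exact h3
    · rintro ⟨g, hg⟩
      obtain ⟨t, rfl⟩ := exists_gw A B5 hΨ hg
      refine ⟨fun r => t r.1, Subtype.ext ?_⟩
      apply gw_congr
      intro r hr
      have : r ∈ L.toFinset := List.mem_toFinset.mpr hr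
      simp only [ext, dif_pos this]
  rw [← Nat.card_congr (Equiv.ofBijective f hf), Nat.card_fun]
  congr 1
  rw [Nat.card_eq_fintype_card, Fintype.card_coe, List.toFinset_card_of_nodup hnd]

omit B5 hP in
/-- The positive roots form a closed set. -/
theorem isClosedPos_pos : IsClosedPos D T D.IsPosRoot := by
  refine ⟨fun r hr => ⟨(A.g3.posIff r hr.1).mp hr, hr.1⟩, fun r s q hr hs hne hq hrs => ?_⟩
  obtain ⟨a, b, ha, hb, h3⟩ := key_rootSum A hrs
  have h7 := A.g3.keyPos s hs.1 ((A.g3.posIff s hs.1).mp hs)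
  have h8 := A.g3.keyPos r hr.1 ((A.g3.posIff r hr.1).mp hr)
  have ha' : (1 : ℤ) ≤ a := by exact_mod_cast ha
  have hb' : (1 : ℤ) ≤ b := by exact_mod_cast hb
  refine (A.g3.posIff q hq).mpr ?_
  by_contra hN
  have := A.g3.keyNeg q hq (not_le.mp hN)
  nlinarith

omit B5 hP in
/-- The number of positive roots. -/
theorem length_pos : (filterL D D.IsPosRoot 0).length = D.nroots / 2 := by
  classical
  have hev := A.g3.even
  have key : ∀ (j k : ℕ), D.nroots - k = j → (filterL D D.IsPosRoot k).length = min (D.nroots - k) (D.nroots / 2) := by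
    intro j
    induction j with
    | zero =>
      intro k hk
      have : filterL D D.IsPosRoot k = [] := by
        rw [List.eq_nil_iff_forall_not_mem]
        intro r hr
        have := mem_filterL.mp hr
        omega
      rw [this]
      simp [hk]
    | succ j ih =>
      intro k hk
      have hkn : k < D.nroots := by omega
      rw [filterL_succ hkn]
      by_cases hpos : D.nroots / 2 ≤ k
      · rw [if_pos ((A.g3.posIff k hkn).mpr hpos), List.length_cons, ih (k + 1) (by omega)]
        omega
      · have : ¬ D.IsPosRoot k := fun h => hpos ((A.g3.posIff k hkn).mp h)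
        rw [if_neg this, ih (k + 1) (by omega)]
        omega
  rw [key _ 0 rfl]
  omega

/-- `|U| = q^N`. -/
theorem core1027 [Finite F] : Nat.card (D.posUnipotent F) = Nat.card F ^ (D.nroots / 2) := by
  have := card_Xs (F := F) A B5 hP (isClosedPos_pos A)
  rwa [length_pos A] at this

omit B5 hP in
theorem posRoots_eq : D.posRoots = filterL D D.IsPosRoot 0 := by
  classical
  unfold ChevalleyDatum.posRoots filterL
  rw [Nat.sub_zero, List.range_eq_range']
  apply List.filter_congr
  intro x _
  simp only [decide_eq_decide]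

/-- The normal form in `U`. -/
theorem core1026 :
    (∀ g : GL D.Idx F, g ∈ D.posUnipotent F →
      ∃! t : ℕ → F, (∀ r, ¬ D.IsPosRoot r → t r = 0) ∧
        (g : Matrix D.Idx D.Idx F) = D.wordMat F (D.posRoots.map fun r => (r, t r))) ∧
    (∀ t : ℕ → F, ∃ g : GL D.Idx F, g ∈ D.posUnipotent F ∧
      (g : Matrix D.Idx D.Idx F) = D.wordMat F (D.posRoots.map fun r => (r, t r))) := by
  classical
  have hG := A.g1
  have hcl := isClosedPos_pos A (T := T)
  rw [posRoots_eq A]
  set L := filterL D D.IsPosRoot 0 with hL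
  have hpair : L.Pairwise (· < ·) := filterL_pairwise
  have hmemL : ∀ r ∈ L, D.IsPosRoot r := fun r hr => (mem_filterL.mp hr).2.2
  have hmemL' : ∀ r, D.IsPosRoot r → r ∈ L := fun r hr => mem_filterL.mpr ⟨Nat.zero_le _, hr.1, hr⟩
  constructor
  · intro g hg
    obtain ⟨t, rfl⟩ := exists_gw A B5 hcl hg
    refine ⟨fun r => if D.IsPosRoot r then t r else 0, ⟨fun r hr => if_neg hr, ?_⟩, ?_⟩
    · rw [← coe_gw hG _ L]
      exact congrArg _ (gw_congr hG fun r hr => (if_pos (hmemL r hr)).symm)
    · rintro t' ⟨h1, h2⟩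
      rw [← coe_gw hG t' L] at h2
      have h3 := gw_inj A hP hpair (fun r hr => hcl.pos r (hmemL r hr)) (Units.ext h2)
      funext r
      by_cases hr : D.IsPosRoot r
      · rw [if_pos hr]
        exact (h3 r (hmemL' r hr)).symm
      · rw [if_neg hr]
        exact h1 r hr
  · intro t
    exact ⟨gw hG t L, gw_mem_Xs hG hmemL, coe_gw hG t L⟩

end Cfsg.Agent.Lib.ChevSym
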