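import Cfsg.Agent.Lib.ChevAll2
import Cfsg.Agent.Lib.ChevU2
import Cfsg.Agent.Lib.ChevPG2
import Cfsg.Agent.Lib.ChevPB2
import Cfsg.Agent.Lib.ChevPD4
import Cfsg.Agent.Lib.ChevPF4
import Cfsg.Agent.Lib.ChevPE6
import Cfsg.Agent.Lib.ChevPE7
import Cfsg.Agent.Lib.ChevPE8

/-! The tables so far, with the pivots (helper4). -/

set_option autoImplicit false
set_option linter.all false

namespace Cfsg.Agent.Lib.ChevSym

open Cfsg.Lie

theorem exists_good7 {D : ChevalleyDatum} (hD : D ∈ [chevG2, chevB2, chevD4, chevF4, chevE6, chevE7, chevE8]) :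
    ∃ (C : Cert) (T : Tab) (tp : List (ℕ × ℕ)) (X : Tab7), AllGood D C T ∧ Good5 D C T tp ∧ pivCheck D X = true := by
  simp only [List.mem_cons, List.not_mem_nil, or_false] at hD
  rcases hD with rfl | rfl | rfl | rfl | rfl | rfl | rfl
  · exact ⟨certG2, tabG2, tpG2, tab7G2, ⟨goodG2, good2G2, good3G2, good4G2⟩, good5G2, pivG2⟩
  · exact ⟨certB2, tabB2, tpB2, tab7B2, ⟨goodB2, good2B2, good3B2, good4B2⟩, good5B2, pivB2⟩
  · exact ⟨certD4, tabD4, tpD4, tab7D4, ⟨goodD4, good2D4, good3D4, good4D4⟩, good5D4, pivD4⟩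
  · exact ⟨certF4, tabF4, tpF4, tab7F4, ⟨goodF4, good2F4, good3F4, good4F4⟩, good5F4, pivF4⟩
  · exact ⟨certE6, tabE6, tpE6, tab7E6, ⟨goodE6, good2E6, good3E6, good4E6⟩, good5E6, pivE6⟩
  · exact ⟨certE7, tabE7, tpE7, tab7E7, ⟨goodE7, good2E7, good3E7, good4E7⟩, good5E7, pivE7⟩
  · exact ⟨certE8, tabE8, tpE8, tab7E8, ⟨goodE8, good2E8, good3E8, good4E8⟩, good5E8, pivE8⟩

end Cfsg.Agent.Lib.ChevSym
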