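import Cfsg.Agent.Lib.ChevHCard
import Cfsg.Agent.Lib.ChevAll

/-! The orders of the diagonal groups (generated, helper4). -/

set_option autoImplicit false
set_option linter.all false
set_option maxRecDepth 1000000

namespace Cfsg.Agent.Lib.ChevSym

open Cfsg.Lie

/-- A matrix from lists. -/
def lmat (n : ℕ) (L : List (List ℤ)) : Matrix (Fin n) (Fin n) ℤ := fun i j => (L.getD i.val []).getD j.val 0

/-- The exponents: `1`, then `m` times `d`. -/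
def sF (l m d : ℕ) : Fin l → ℕ := fun j => if j.val + m < l then 1 else d

theorem prod_sF (g l m d : ℕ) (hm : m ≤ l) : (∏ j, g.gcd (sF l m d j)) = (g.gcd d) ^ m := by
  induction m generalizing l with
  | zero =>
    apply Finset.prod_eq_one
    intro j _
    have : sF l 0 d j = 1 := by
      simp [sF, j.2]
    rw [this, Nat.gcd_one_right]
  | succ m ih =>
    obtain ⟨l, rfl⟩ : ∃ l', l = l' + 1 := ⟨l - 1, by omega⟩
    rw [Fin.prod_univ_castSucc, pow_succ]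
    congr 1
    · rw [← ih l (by omega)]
      apply Finset.prod_congr rfl
      intro j _
      simp only [sF, Fin.val_castSucc]
      have : j.val + (m + 1) < l + 1 ↔ j.val + m < l := by omega
      simp [this]
    · have : sF (l + 1) (m + 1) d (Fin.last l) = d := by
        simp only [sF, Fin.val_last]
        rw [if_neg (by omega)]
      rw [this]

def smXG2 : Matrix (Fin chevG2.rank) (Fin chevG2.rank) ℤ := lmat _ [[2, 1], [-1, 0]]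
def smXiG2 : Matrix (Fin chevG2.rank) (Fin chevG2.rank) ℤ := lmat _ [[0, -1], [1, 2]]
def smYG2 : Matrix (Fin chevG2.rank) (Fin chevG2.rank) ℤ := lmat _ [[1, -2], [0, 1]]
def smYiG2 : Matrix (Fin chevG2.rank) (Fin chevG2.rank) ℤ := lmat _ [[1, 2], [0, 1]]

theorem smAG2 : Amat chevG2 tabG2 = smXG2 * (Matrix.diagonal fun i => ((sF chevG2.rank 0 1 i : ℕ) : ℤ)) * smYG2 := by decide +kernel
theorem smBG2 : smXG2 * smXiG2 = 1 := by decide +kernel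
theorem smCG2 : smYG2 * smYiG2 = 1 := by decide +kernel

theorem hcardG2 {F : Type*} [Field F] [Fintype F] :
    (Fintype.card F - 1).gcd 1 ^ 0 * Nat.card (chevG2.diagonalSubgroup F) = (Fintype.card F - 1) ^ chevG2.rank := by
  have A : AllGood chevG2 certG2 tabG2 := ⟨goodG2, good2G2, good3G2, good4G2⟩
  have h := core1035 (F := F) A smAG2 smBG2 smCG2
  rwa [prod_sF _ _ _ _ (by decide)] at h

def smXB2 : Matrix (Fin chevB2.rank) (Fin chevB2.rank) ℤ := lmat _ [[2, 1], [-1, 0]]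
def smXiB2 : Matrix (Fin chevB2.rank) (Fin chevB2.rank) ℤ := lmat _ [[0, -1], [1, 2]]
def smYB2 : Matrix (Fin chevB2.rank) (Fin chevB2.rank) ℤ := lmat _ [[1, -2], [0, 1]]
def smYiB2 : Matrix (Fin chevB2.rank) (Fin chevB2.rank) ℤ := lmat _ [[1, 2], [0, 1]]

theorem smAB2 : Amat chevB2 tabB2 = smXB2 * (Matrix.diagonal fun i => ((sF chevB2.rank 1 2 i : ℕ) : ℤ)) * smYB2 := by decide +kernel
theorem smBB2 : smXB2 * smXiB2 = 1 := by decide +kernel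
theorem smCB2 : smYB2 * smYiB2 = 1 := by decide +kernel

theorem hcardB2 {F : Type*} [Field F] [Fintype F] :
    (Fintype.card F - 1).gcd 2 ^ 1 * Nat.card (chevB2.diagonalSubgroup F) = (Fintype.card F - 1) ^ chevB2.rank := by
  have A : AllGood chevB2 certB2 tabB2 := ⟨goodB2, good2B2, good3B2, good4B2⟩
  have h := core1035 (F := F) A smAB2 smBB2 smCB2
  rwa [prod_sF _ _ _ _ (by decide)] at h

def smXD4 : Matrix (Fin chevD4.rank) (Fin chevD4.rank) ℤ := lmat _ [[-1, 0, 0, 0], [2, -1, 0, 0], [-1, 2, -1, 0], [-1, 0, 1, 1]]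
def smXiD4 : Matrix (Fin chevD4.rank) (Fin chevD4.rank) ℤ := lmat _ [[-1, 0, 0, 0], [-2, -1, 0, 0], [-3, -2, -1, 0], [2, 2, 1, 1]]
def smYD4 : Matrix (Fin chevD4.rank) (Fin chevD4.rank) ℤ := lmat _ [[-2, 1, 0, 0], [-3, 0, 1, 1], [-2, 0, 0, 1], [1, 0, 0, 0]]
def smYiD4 : Matrix (Fin chevD4.rank) (Fin chevD4.rank) ℤ := lmat _ [[0, 0, 0, 1], [1, 0, 0, 2], [0, 1, -1, 1], [0, 0, 1, 2]]

theorem smAD4 : Amat chevD4 tabD4 = smXD4 * (Matrix.diagonal fun i => ((sF chevD4.rank 2 2 i : ℕ) : ℤ)) * smYD4 := by decide +kernel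
theorem smBD4 : smXD4 * smXiD4 = 1 := by decide +kernel
theorem smCD4 : smYD4 * smYiD4 = 1 := by decide +kernel

theorem hcardD4 {F : Type*} [Field F] [Fintype F] :
    (Fintype.card F - 1).gcd 2 ^ 2 * Nat.card (chevD4.diagonalSubgroup F) = (Fintype.card F - 1) ^ chevD4.rank := by
  have A : AllGood chevD4 certD4 tabD4 := ⟨goodD4, good2D4, good3D4, good4D4⟩
  have h := core1035 (F := F) A smAD4 smBD4 smCD4
  rwa [prod_sF _ _ _ _ (by decide)] at h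

def smXF4 : Matrix (Fin chevF4.rank) (Fin chevF4.rank) ℤ := lmat _ [[-1, 0, 0, 0], [2, 0, -1, 0], [-1, -1, 0, 0], [0, 2, 2, -1]]
def smXiF4 : Matrix (Fin chevF4.rank) (Fin chevF4.rank) ℤ := lmat _ [[-1, 0, 0, 0], [1, 0, -1, 0], [-2, -1, 0, 0], [-2, -2, -2, -1]]
def smYF4 : Matrix (Fin chevF4.rank) (Fin chevF4.rank) ℤ := lmat _ [[-2, 1, 0, 0], [2, 0, -2, 1], [-3, 0, 2, 0], [-2, 0, 1, 0]]
def smYiF4 : Matrix (Fin chevF4.rank) (Fin chevF4.rank) ℤ := lmat _ [[0, 0, 1, -2], [1, 0, 2, -4], [0, 0, 2, -3], [0, 1, 2, -2]]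

theorem smAF4 : Amat chevF4 tabF4 = smXF4 * (Matrix.diagonal fun i => ((sF chevF4.rank 0 1 i : ℕ) : ℤ)) * smYF4 := by decide +kernel
theorem smBF4 : smXF4 * smXiF4 = 1 := by decide +kernel
theorem smCF4 : smYF4 * smYiF4 = 1 := by decide +kernel

theorem hcardF4 {F : Type*} [Field F] [Fintype F] :
    (Fintype.card F - 1).gcd 1 ^ 0 * Nat.card (chevF4.diagonalSubgroup F) = (Fintype.card F - 1) ^ chevF4.rank := by
  have A : AllGood chevF4 certF4 tabF4 := ⟨goodF4, good2F4, good3F4, good4F4⟩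
  have h := core1035 (F := F) A smAF4 smBF4 smCF4
  rwa [prod_sF _ _ _ _ (by decide)] at h

def smXE6 : Matrix (Fin chevE6.rank) (Fin chevE6.rank) ℤ := lmat _ [[-1, 0, 0, 0, 0, 0], [0, -1, 0, 0, 0, 0], [2, -1, 0, 0, -1, 0], [-1, 2, -1, 0, 0, 0], [0, -1, 2, -1, 0, 0], [0, 0, -1, 2, 4, -1]]
def smXiE6 : Matrix (Fin chevE6.rank) (Fin chevE6.rank) ℤ := lmat _ [[-1, 0, 0, 0, 0, 0], [0, -1, 0, 0, 0, 0], [1, -2, 0, -1, 0, 0], [2, -3, 0, -2, -1, 0], [-2, 1, -1, 0, 0, 0], [-5, 0, -4, -3, -2, -1]]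
def smYE6 : Matrix (Fin chevE6.rank) (Fin chevE6.rank) ℤ := lmat _ [[-2, 0, 1, 0, 0, 0], [0, -2, 0, 1, 0, 0], [2, -3, 0, 0, 1, 0], [4, -4, 0, 0, 0, 1], [-3, 2, 0, 0, 0, 0], [-2, 1, 0, 0, 0, 0]]
def smYiE6 : Matrix (Fin chevE6.rank) (Fin chevE6.rank) ℤ := lmat _ [[0, 0, 0, 0, 1, -2], [0, 0, 0, 0, 2, -3], [1, 0, 0, 0, 2, -4], [0, 1, 0, 0, 4, -6], [0, 0, 1, 0, 4, -5], [0, 0, 0, 1, 4, -4]]

theorem smAE6 : Amat chevE6 tabE6 = smXE6 * (Matrix.diagonal fun i => ((sF chevE6.rank 1 3 i : ℕ) : ℤ)) * smYE6 := by decide +kernel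
theorem smBE6 : smXE6 * smXiE6 = 1 := by decide +kernel
theorem smCE6 : smYE6 * smYiE6 = 1 := by decide +kernel

theorem hcardE6 {F : Type*} [Field F] [Fintype F] :
    (Fintype.card F - 1).gcd 3 ^ 1 * Nat.card (chevE6.diagonalSubgroup F) = (Fintype.card F - 1) ^ chevE6.rank := by
  have A : AllGood chevE6 certE6 tabE6 := ⟨goodE6, good2E6, good3E6, good4E6⟩
  have h := core1035 (F := F) A smAE6 smBE6 smCE6
  rwa [prod_sF _ _ _ _ (by decide)] at h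

def smXE7 : Matrix (Fin chevE7.rank) (Fin chevE7.rank) ℤ := lmat _ [[-1, 0, 0, 0, 0, 0, 0], [0, -1, 0, 0, 0, 0, 0], [2, -1, 0, 0, 0, -1, 0], [-1, 2, -1, 0, 0, 0, 0], [0, -1, 2, -1, 0, 0, 0], [0, 0, -1, 2, -1, 0, 0], [0, 0, 0, -1, 2, 4, -1]]
def smXiE7 : Matrix (Fin chevE7.rank) (Fin chevE7.rank) ℤ := lmat _ [[-1, 0, 0, 0, 0, 0, 0], [0, -1, 0, 0, 0, 0, 0], [1, -2, 0, -1, 0, 0, 0], [2, -3, 0, -2, -1, 0, 0], [3, -4, 0, -3, -2, -1, 0], [-2, 1, -1, 0, 0, 0, 0], [-4, -1, -4, -4, -3, -2, -1]]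
def smYE7 : Matrix (Fin chevE7.rank) (Fin chevE7.rank) ℤ := lmat _ [[-2, 0, 1, 0, 0, 0, 0], [0, -2, 0, 1, 0, 0, 0], [2, -3, 0, 0, 1, 0, 0], [4, -4, 0, 0, 0, 1, 0], [6, -5, 0, 0, 0, 0, 1], [-3, 2, 0, 0, 0, 0, 0], [-2, 1, 0, 0, 0, 0, 0]]
def smYiE7 : Matrix (Fin chevE7.rank) (Fin chevE7.rank) ℤ := lmat _ [[0, 0, 0, 0, 0, 1, -2], [0, 0, 0, 0, 0, 2, -3], [1, 0, 0, 0, 0, 2, -4], [0, 1, 0, 0, 0, 4, -6], [0, 0, 1, 0, 0, 4, -5], [0, 0, 0, 1, 0, 4, -4], [0, 0, 0, 0, 1, 4, -3]]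

theorem smAE7 : Amat chevE7 tabE7 = smXE7 * (Matrix.diagonal fun i => ((sF chevE7.rank 1 2 i : ℕ) : ℤ)) * smYE7 := by decide +kernel
theorem smBE7 : smXE7 * smXiE7 = 1 := by decide +kernel
theorem smCE7 : smYE7 * smYiE7 = 1 := by decide +kernel

theorem hcardE7 {F : Type*} [Field F] [Fintype F] :
    (Fintype.card F - 1).gcd 2 ^ 1 * Nat.card (chevE7.diagonalSubgroup F) = (Fintype.card F - 1) ^ chevE7.rank := by
  have A : AllGood chevE7 certE7 tabE7 := ⟨goodE7, good2E7, good3E7, good4E7⟩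
  have h := core1035 (F := F) A smAE7 smBE7 smCE7
  rwa [prod_sF _ _ _ _ (by decide)] at h

def smXE8 : Matrix (Fin chevE8.rank) (Fin chevE8.rank) ℤ := lmat _ [[-1, 0, 0, 0, 0, 0, 0, 0], [0, -1, 0, 0, 0, 0, 0, 0], [2, -1, 0, 0, 0, 0, -1, 0], [-1, 2, -1, 0, 0, 0, 0, 0], [0, -1, 2, -1, 0, 0, 0, 0], [0, 0, -1, 2, -1, 0, 0, 0], [0, 0, 0, -1, 2, -1, 0, 0], [0, 0, 0, 0, -1, 2, 4, -1]]
def smXiE8 : Matrix (Fin chevE8.rank) (Fin chevE8.rank) ℤ := lmat _ [[-1, 0, 0, 0, 0, 0, 0, 0], [0, -1, 0, 0, 0, 0, 0, 0], [1, -2, 0, -1, 0, 0, 0, 0], [2, -3, 0, -2, -1, 0, 0, 0], [3, -4, 0, -3, -2, -1, 0, 0], [4, -5, 0, -4, -3, -2, -1, 0], [-2, 1, -1, 0, 0, 0, 0, 0], [-3, -2, -4, -5, -4, -3, -2, -1]]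
def smYE8 : Matrix (Fin chevE8.rank) (Fin chevE8.rank) ℤ := lmat _ [[-2, 0, 1, 0, 0, 0, 0, 0], [0, -2, 0, 1, 0, 0, 0, 0], [2, -3, 0, 0, 1, 0, 0, 0], [4, -4, 0, 0, 0, 1, 0, 0], [6, -5, 0, 0, 0, 0, 1, 0], [8, -6, 0, 0, 0, 0, 0, 1], [-3, 2, 0, 0, 0, 0, 0, 0], [-2, 1, 0, 0, 0, 0, 0, 0]]
def smYiE8 : Matrix (Fin chevE8.rank) (Fin chevE8.rank) ℤ := lmat _ [[0, 0, 0, 0, 0, 0, 1, -2], [0, 0, 0, 0, 0, 0, 2, -3], [1, 0, 0, 0, 0, 0, 2, -4], [0, 1, 0, 0, 0, 0, 4, -6], [0, 0, 1, 0, 0, 0, 4, -5], [0, 0, 0, 1, 0, 0, 4, -4], [0, 0, 0, 0, 1, 0, 4, -3], [0, 0, 0, 0, 0, 1, 4, -2]]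

theorem smAE8 : Amat chevE8 tabE8 = smXE8 * (Matrix.diagonal fun i => ((sF chevE8.rank 0 1 i : ℕ) : ℤ)) * smYE8 := by decide +kernel
theorem smBE8 : smXE8 * smXiE8 = 1 := by decide +kernel
theorem smCE8 : smYE8 * smYiE8 = 1 := by decide +kernel

theorem hcardE8 {F : Type*} [Field F] [Fintype F] :
    (Fintype.card F - 1).gcd 1 ^ 0 * Nat.card (chevE8.diagonalSubgroup F) = (Fintype.card F - 1) ^ chevE8.rank := by
  have A : AllGood chevE8 certE8 tabE8 := ⟨goodE8, good2E8, good3E8, good4E8⟩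
  have h := core1035 (F := F) A smAE8 smBE8 smCE8
  rwa [prod_sF _ _ _ _ (by decide)] at h

end Cfsg.Agent.Lib.ChevSym
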