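import Cfsg.Agent.Lib.ChevW4

/-! The monomial group maps onto the permutation group of the roots; the order of the group (helper4). -/

set_option autoImplicit false
set_option linter.all false

namespace Cfsg.Agent.Lib.ChevSym

open Cfsg.Lie Cfsg.Lie.ChevalleyDatum Matrix Cfsg.Agent.Lib.MatFilt

variable {F : Type*} [Field F] {D : ChevalleyDatum} {C : Cert} {T : Tab}

/-- A permutation of the roots, on the natural numbers. -/
def pExt (π : Equiv.Perm (Fin D.nroots)) (r : ℕ) : ℕ := if h : r < D.nroots then (π ⟨r, h⟩).val else r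

theorem pExt_of_lt (π : Equiv.Perm (Fin D.nroots)) {r : ℕ} (h : r < D.nroots) : pExt π r = (π ⟨r, h⟩).val := dif_pos h

theorem monP_congr {g : GL D.Idx F} {f f' : ℕ → ℕ} (h : MonP g f) (hff : ∀ s < D.nroots, f s = f' s) : MonP g f' := by
  intro s
  obtain ⟨hs, c, hc, e⟩ := h s
  have e1 := hff s.val s.2
  have hs' : f' s.val < D.nroots := e1 ▸ hs
  refine ⟨hs', c, hc, fun u => ?_⟩
  rw [e u]
  have : (⟨f s.val, hs⟩ : Fin D.nroots) = ⟨f' s.val, hs'⟩ := Fin.ext e1
  rw [this]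

/-- `g` acts on the roots through `π`. -/
def Acts (g : GL D.Idx F) (π : Equiv.Perm (Fin D.nroots)) : Prop := MonP g (pExt π)

theorem acts_unique {g : GL D.Idx F} {π π' : Equiv.Perm (Fin D.nroots)} (h : Acts g π) (h' : Acts g π') : π = π' := by
  ext s
  have := monP_unique h h' s.2
  rwa [pExt_of_lt π s.2, pExt_of_lt π' s.2] at this

theorem acts_mul {g g' : GL D.Idx F} {π π' : Equiv.Perm (Fin D.nroots)} (h : Acts g π) (h' : Acts g' π') :
    Acts (g * g') (π * π') := by
  refine monP_congr (monP_mul h h') fun s hs => ?_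
  simp only [Function.comp]
  rw [pExt_of_lt π' hs, pExt_of_lt (π * π') hs, pExt_of_lt π ((π' ⟨s, hs⟩).2)]
  rfl

theorem acts_one : Acts (1 : GL D.Idx F) (1 : Equiv.Perm (Fin D.nroots)) :=
  monP_congr monP_one fun s hs => by
    rw [pExt_of_lt _ hs]
    rfl

section

variable (hG : Good D C)

/-- The permutation of a word. -/
noncomputable def wordP (hG : Good D C) (l : List ℕ) : Equiv.Perm (Fin D.nroots) := (l.map (wPerm hG)).prod

theorem acts_wd {l : List ℕ} (hl : ∀ i ∈ l, i < D.rank) : Acts (wd hG F l) (wordP hG l) :=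
  monP_congr (monP_wd hG hl) fun s hs => by
    rw [pExt_of_lt _ hs]
    exact (wordPerm_val hG hl ⟨s, hs⟩).symm

theorem wordP_mem {l : List ℕ} (hl : ∀ i ∈ l, i < D.rank) : wordP hG l ∈ WG hG (List.range D.rank) := by
  unfold wordP
  apply Subgroup.list_prod_mem
  intro g hg
  obtain ⟨i, hi, rfl⟩ := List.mem_map.mp hg
  exact wPerm_mem hG (List.mem_range.mpr (hl i hi))

theorem exists_word_of_mem {w : Equiv.Perm (Fin D.nroots)} (hw : w ∈ WG hG (List.range D.rank)) :
    ∃ l : List ℕ, (∀ i ∈ l, i < D.rank) ∧ wordP hG l = w := by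
  induction hw using Subgroup.closure_induction_left with
  | one => exact ⟨[], by simp, rfl⟩
  | mul_left a ha y _ ih =>
    obtain ⟨i, hi, rfl⟩ := ha
    obtain ⟨l, hl, rfl⟩ := ih
    refine ⟨i :: l, ?_, by simp [wordP]⟩
    intro j hj
    rcases List.mem_cons.mp hj with rfl | hj
    · exact List.mem_range.mp hi
    · exact hl j hj
  | inv_mul_cancel a ha y _ ih =>
    obtain ⟨i, hi, rfl⟩ := ha
    obtain ⟨l, hl, rfl⟩ := ih
    have hi' := List.mem_range.mp hi
    refine ⟨i :: l, ?_, ?_⟩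
    · intro j hj
      rcases List.mem_cons.mp hj with rfl | hj
      · exact hi'
      · exact hl j hj
    · have e : (wPerm hG i)⁻¹ = wPerm hG i := inv_eq_of_mul_eq_one_left (wPerm_sq hG hi')
      rw [e]
      simp [wordP]

end

variable (A : AllGood D C T)
include A

theorem acts_Hs {h : GL D.Idx F} (hh : h ∈ Hs A.g1 F) : Acts h (1 : Equiv.Perm (Fin D.nroots)) :=
  monP_congr (monP_Hs A hh) fun s hs => by
    rw [pExt_of_lt _ hs]
    rfl

theorem exists_acts {g : GL D.Idx F} (hg : g ∈ Ns A.g1 F) :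
    ∃ π ∈ WG A.g1 (List.range D.rank), Acts g π := by
  obtain ⟨l, hl, h, hh, rfl⟩ := isWordH_of_mem A hg
  refine ⟨wordP A.g1 l, wordP_mem A.g1 hl, ?_⟩
  have := acts_mul (acts_wd A.g1 (F := F) hl) (acts_Hs A hh)
  rwa [mul_one] at this

/-- The action of `N` on the roots. -/
noncomputable def rho : Ns A.g1 F →* Equiv.Perm (Fin D.nroots) where
  toFun g := Classical.choose (exists_acts A g.2)
  map_one' := acts_unique (Classical.choose_spec (exists_acts A (Subgroup.one_mem (Ns A.g1 F)))).2 acts_one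
  map_mul' g g' := acts_unique (Classical.choose_spec (exists_acts A (Subgroup.mul_mem _ g.2 g'.2))).2
    (acts_mul (Classical.choose_spec (exists_acts A g.2)).2 (Classical.choose_spec (exists_acts A g'.2)).2)

theorem rho_acts (g : Ns A.g1 F) : Acts (g : GL D.Idx F) (rho A g) := (Classical.choose_spec (exists_acts A g.2)).2

theorem rho_mem (g : Ns A.g1 F) : rho A g ∈ WG A.g1 (List.range D.rank) := (Classical.choose_spec (exists_acts A g.2)).1

theorem rho_of_acts {g : Ns A.g1 F} {π : Equiv.Perm (Fin D.nroots)} (h : Acts (g : GL D.Idx F) π) : rho A g = π :=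
  acts_unique (rho_acts A g) h

theorem rho_eq_one_iff (g : Ns A.g1 F) : rho A g = 1 ↔ (g : GL D.Idx F) ∈ Hs A.g1 F := by
  constructor
  · intro h
    obtain ⟨g, hg⟩ := g
    obtain ⟨l, hl, x, hx, rfl⟩ := isWordH_of_mem A hg
    refine Subgroup.mul_mem _ ?_ hx
    apply wd_mem_Hs_of_trivial A _ l le_rfl hl
    intro r hr
    have h1 := acts_mul (acts_wd A.g1 (F := F) hl) (acts_Hs A hx)
    rw [mul_one] at h1
    have h2 := rho_of_acts A (g := ⟨_, hg⟩) h1
    rw [h] at h2
    have h3 := wordPerm_val A.g1 hl ⟨r, hr⟩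
    have h4 : (wordP A.g1 l) ⟨r, hr⟩ = ⟨r, hr⟩ := by rw [← h2]; rfl
    rw [← h3]
    exact congrArg Fin.val h4
  · intro h
    exact rho_of_acts A (acts_Hs A h)

theorem exists_rho {w : Equiv.Perm (Fin D.nroots)} (hw : w ∈ WG A.g1 (List.range D.rank)) :
    ∃ g : Ns A.g1 F, rho A g = w := by
  obtain ⟨l, hl, rfl⟩ := exists_word_of_mem A.g1 hw
  exact ⟨⟨wd A.g1 F l, wd_mem_Ns A.g1 hl⟩, rho_of_acts A (acts_wd A.g1 hl)⟩

/-- Conjugating a root element by an element of `N`. -/
theorem conj_rho (g : Ns A.g1 F) {r : ℕ} (hr : r < D.nroots) (t : F) :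
    ∃ c : F, (t ≠ 0 → c ≠ 0) ∧ (g : GL D.Idx F) * gx A.g1 F r t * (g : GL D.Idx F)⁻¹ = gx A.g1 F (rho A g ⟨r, hr⟩).val c := by
  have hG := A.g1
  obtain ⟨g, hg⟩ := g
  obtain ⟨l, hl, x, hx, rfl⟩ := isWordH_of_mem A hg
  have h1 := acts_mul (acts_wd A.g1 (F := F) hl) (acts_Hs A hx)
  rw [mul_one] at h1
  have h2 := rho_of_acts A (g := ⟨_, hg⟩) h1
  rw [h2]
  obtain ⟨c, hc⟩ := Hs_conj_gx A hx hr t
  obtain ⟨ε, hε, h3⟩ := wd_conj_gx hG (F := F) hl hr
  have e1 : wd hG F l * x * gx hG F r t * (wd hG F l * x)⁻¹ = gx hG F (wp C l r) (ε * c) := by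
    rw [← h3 c, ← hc]
    group
  have h5 : (wordP A.g1 l ⟨r, hr⟩).val = wp C l r := wordPerm_val A.g1 hl ⟨r, hr⟩
  rw [h5]
  refine ⟨ε * c, fun ht h6 => ?_, e1⟩
  rw [h6, gx_zero] at e1
  have h7 : gx hG F r t = 1 := by
    have : (wd hG F l * x) * gx hG F r t * (wd hG F l * x)⁻¹ = (wd hG F l * x) * 1 * (wd hG F l * x)⁻¹ := by
      rw [e1]
      group
    exact mul_left_cancel (mul_right_cancel this)
  have h8 := congrArg Units.val h7
  rw [coe_gx, Units.val_one, x_eq_one_iff hG.neg hr] at h8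
  exact ht h8

/-- The inversion set as a set of natural numbers. -/
def PsiW (π : Equiv.Perm (Fin D.nroots)) (r : ℕ) : Prop :=
  ∃ h : r < D.nroots, D.nroots / 2 ≤ r ∧ (π ⟨r, h⟩).val < D.nroots / 2

omit A in
theorem filterL_length (π : Equiv.Perm (Fin D.nroots)) : (filterL D (PsiW π) 0).length = invL π := by
  classical
  have hnd : (filterL D (PsiW π) 0).Nodup := filterL_pairwise.imp (fun h => Nat.ne_of_lt h)
  rw [← List.toFinset_card_of_nodup hnd]
  unfold invL
  rw [← Finset.card_map Fin.valEmbedding]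
  congr 1
  ext r
  simp only [List.mem_toFinset, mem_filterL, Finset.mem_map, Fin.valEmbedding_apply, mem_invS]
  constructor
  · rintro ⟨_, hr, h, h1, h2⟩
    exact ⟨⟨r, hr⟩, ⟨h1, h2⟩, rfl⟩
  · rintro ⟨s, ⟨h1, h2⟩, rfl⟩
    exact ⟨Nat.zero_le _, s.2, s.2, h1, h2⟩

/-- The Weyl group preserves sums of roots. -/
theorem rootSum_WG {w : Equiv.Perm (Fin D.nroots)} (hw : w ∈ WG A.g1 (List.range D.rank)) {r s k : Fin D.nroots}
    (h : RootSum D T r.val s.val k.val) : RootSum D T (w r).val (w s).val (w k).val := by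
  obtain ⟨l, hl, rfl⟩ := exists_word_of_mem A.g1 hw
  have : ∀ l : List ℕ, (∀ i ∈ l, i < D.rank) → RootSum D T (wordP A.g1 l r).val (wordP A.g1 l s).val (wordP A.g1 l k).val := by
    intro l
    induction l with
    | nil => intro _; exact h
    | cons i l ih =>
      intro hl
      have hi := hl i (by simp)
      have h1 := ih fun j hj => hl j (by simp [hj])
      have e : ∀ x : Fin D.nroots, wordP A.g1 (i :: l) x = wPerm A.g1 i (wordP A.g1 l x) := by
        intro x
        simp [wordP]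
      rw [e, e, e, wPerm_val A.g1 hi, wPerm_val A.g1 hi, wPerm_val A.g1 hi]
      exact rootSum_w A.g2 hi (Fin.is_lt _) (Fin.is_lt _) (Fin.is_lt _) h1
  exact this l hl

/-- The inversion set of an element of the Weyl group is closed. -/
theorem isClosed_PsiW {w : Equiv.Perm (Fin D.nroots)} (hw : w ∈ WG A.g1 (List.range D.rank)) :
    IsClosedPos D T (PsiW w) := by
  refine ⟨fun r ⟨h, h1, h2⟩ => ⟨h1, h⟩, fun r s k ⟨hr, h1, h2⟩ ⟨hs, h3, h4⟩ hne hk hsum => ?_⟩
  refine ⟨hk, ?_, ?_⟩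
  · obtain ⟨a, b, ha, hb, h5⟩ := key_rootSum A hsum
    have h7 := A.g3.keyPos s hs h3
    have h8 := A.g3.keyPos r hr h1
    have ha' : (1 : ℤ) ≤ a := by exact_mod_cast ha
    have hb' : (1 : ℤ) ≤ b := by exact_mod_cast hb
    by_contra hN
    have := A.g3.keyNeg k hk (not_le.mp hN)
    nlinarith
  · have h5 := rootSum_WG A hw (r := ⟨r, hr⟩) (s := ⟨s, hs⟩) (k := ⟨k, hk⟩) hsum
    obtain ⟨a, b, ha, hb, h6⟩ := key_rootSum A h5
    have h7 := A.g3.keyNeg _ (Fin.is_lt _) h2
    have h8 := A.g3.keyNeg _ (Fin.is_lt _) h4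
    have ha' : (1 : ℤ) ≤ a := by exact_mod_cast ha
    have hb' : (1 : ℤ) ≤ b := by exact_mod_cast hb
    by_contra hN
    have := A.g3.keyPos _ (Fin.is_lt _) (not_lt.mp hN)
    nlinarith

/-- `Cn` in terms of the inversion set. -/
theorem Cn_eq (g : Ns A.g1 F) : Cn D F (g : GL D.Idx F) = Xs D F (PsiW (rho A g)) := by
  have hG := A.g1
  apply le_antisymm
  · unfold Cn Xs
    rw [Subgroup.closure_le]
    rintro x ⟨r, t, h1, h2, h3⟩
    refine Subgroup.subset_closure ⟨r, t, ?_, h3⟩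
    refine ⟨h1.1, (A.g3.posIff r h1.1).mp h1, ?_⟩
    by_contra h5
    obtain ⟨c, hc, e⟩ := conj_rho A g h1.1 (1 : F)
    have h6 : gx hG F (rho A g ⟨r, h1.1⟩).val c ∈ D.negUnipotent F := by
      rw [← e]
      exact h2 ⟨_, Subgroup.subset_closure ⟨1, rfl⟩, rfl⟩
    have h7 : gx hG F (rho A g ⟨r, h1.1⟩).val c ∈ D.posUnipotent F :=
      Subgroup.subset_closure ⟨_, c, (A.g3.posIff _ (Fin.is_lt _)).mpr (not_lt.mp h5), rfl⟩
    have h8 : gx hG F (rho A g ⟨r, h1.1⟩).val c ∈ D.borelSubgroup F ⊓ D.negUnipotent F := ⟨U_le_B A h7, h6⟩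
    rw [B_inf_V A, Subgroup.mem_bot] at h8
    have h9 := congrArg Units.val h8
    rw [coe_gx, Units.val_one, x_eq_one_iff hG.neg (Fin.is_lt _)] at h9
    exact hc one_ne_zero h9
  · unfold Cn Xs
    rw [Subgroup.closure_le]
    rintro x ⟨r, t, ⟨hr, h1, h2⟩, h3⟩
    refine Subgroup.subset_closure ⟨r, t, (A.g3.posIff r hr).mpr h1, ?_, h3⟩
    rintro _ ⟨y, hy, rfl⟩
    obtain ⟨s, rfl⟩ := (mem_rootSubgroup_iff hG).mp hy
    obtain ⟨c, _, e⟩ := conj_rho A g hr s
    show (g : GL D.Idx F) * gx hG F r s * (g : GL D.Idx F)⁻¹ ∈ _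
    rw [e]
    exact Subgroup.subset_closure ⟨_, c, (A.g3.negIff _ (Fin.is_lt _)).mpr h2, rfl⟩

/-- `|B| = |U| |H|`. -/
theorem card_B [Finite F] : Nat.card (D.borelSubgroup F) = Nat.card (D.posUnipotent F) * Nat.card (D.diagonalSubgroup F) := by
  have hm : ∀ p : D.posUnipotent F × D.diagonalSubgroup F, (p.1 : GL D.Idx F) * p.2 ∈ D.borelSubgroup F := fun p =>
    Subgroup.mul_mem _ (U_le_B A p.1.2) (H_le_B A p.2.2)
  let f : D.posUnipotent F × D.diagonalSubgroup F → D.borelSubgroup F := fun p => ⟨_, hm p⟩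
  have hf : Function.Bijective f := by
    constructor
    · rintro ⟨u, h⟩ ⟨u', h'⟩ e
      have e1 : (u : GL D.Idx F) * h = u' * h' := congrArg Subtype.val e
      have h1 : (u' : GL D.Idx F)⁻¹ * u = h' * (h : GL D.Idx F)⁻¹ := by
        rw [inv_mul_eq_iff_eq_mul, ← mul_assoc, eq_mul_inv_iff_mul_eq, e1]
      have h2 : (u' : GL D.Idx F)⁻¹ * u ∈ D.posUnipotent F ⊓ D.diagonalSubgroup F := by
        refine ⟨Subgroup.mul_mem _ (Subgroup.inv_mem _ u'.2) u.2, ?_⟩
        rw [h1]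
        exact Subgroup.mul_mem _ h'.2 (Subgroup.inv_mem _ h.2)
      rw [U_inf_H A, Subgroup.mem_bot] at h2
      have h3 : (u : GL D.Idx F) = u' := by
        have := congrArg ((u' : GL D.Idx F) * ·) h2
        simpa using this
      have h4 : (h : GL D.Idx F) = h' := by
        rw [h3] at e1
        exact mul_left_cancel e1
      rw [Subtype.ext h3, Subtype.ext h4]
    · rintro ⟨b, hb⟩
      have hb2 : b ∈ D.diagonalSubgroup F ⊔ D.posUnipotent F := by
        rw [sup_comm]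
        exact hb
      obtain ⟨u, hu, h, hh, rfl⟩ := exists_mul_sup' (H_le_normalizer_U A) hb2
      exact ⟨(⟨u, hu⟩, ⟨h, hh⟩), rfl⟩
  rw [← Nat.card_congr (Equiv.ofBijective f hf), Nat.card_prod]

/-- The Bruhat decomposition counted. -/
theorem card_group_sum [Finite F] {tp : List (ℕ × ℕ)} (B5 : Good5 D C T tp) {X7 : Tab7} (hP : pivCheck D X7 = true) :
    Nat.card (D.group F) = ∑ w : WG A.g1 (List.range D.rank),
      Nat.card (D.borelSubgroup F) * Nat.card F ^ invL (w : Equiv.Perm (Fin D.nroots)) := by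
  classical
  have hG := A.g1
  have hex : ∀ w : WG hG (List.range D.rank), ∃ g : Ns hG F, rho A g = w := fun w => exists_rho A w.2
  choose rN hrN using hex
  have hXs : ∀ w : WG hG (List.range D.rank), Xs D F (PsiW (w : Equiv.Perm (Fin D.nroots))) = Cn D F (rN w : GL D.Idx F) := by
    intro w
    rw [Cn_eq A, hrN]
  have hXU : ∀ w : WG hG (List.range D.rank), Xs D F (PsiW (w : Equiv.Perm (Fin D.nroots))) ≤ D.posUnipotent F := by
    intro w
    rw [hXs]
    exact Cn_le_U _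
  have hNG : ∀ g : Ns hG F, (g : GL D.Idx F) ∈ D.group F := by
    intro g
    have h1 : (g : GL D.Idx F) ∈ D.monomialSubgroup F := by
      rw [monomial_eq A]
      exact g.2
    exact N_le_group A h1
  let β : WG hG (List.range D.rank) → Type _ := fun w => D.borelSubgroup F × Xs D F (PsiW (w : Equiv.Perm (Fin D.nroots)))
  let Φ : (Σ w, β w) → D.group F := fun p =>
    ⟨(p.2.1 : GL D.Idx F) * rN p.1 * p.2.2, Subgroup.mul_mem _ (Subgroup.mul_mem _ (B_le_group A p.2.1.2) (hNG _))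
      (U_le_group A (hXU _ p.2.2.2))⟩
  have hΦ : Function.Bijective Φ := by
    constructor
    · rintro ⟨w, b, u⟩ ⟨w', b', u'⟩ e
      have e1 : (b : GL D.Idx F) * rN w * u = b' * rN w' * u' := congrArg Subtype.val e
      have hn1 : (rN w : GL D.Idx F) ∈ D.monomialSubgroup F := by
        rw [monomial_eq A]
        exact (rN w).2
      have hn2 : (rN w' : GL D.Idx F) ∈ D.monomialSubgroup F := by
        rw [monomial_eq A]
        exact (rN w').2
      have h1 := canon_unique_n A B5 b.2 b'.2 hn1 hn2 (hXU _ u.2) (hXU _ u'.2) e1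
      rw [diagonal_eq A] at h1
      have h2 : rho A ((rN w)⁻¹ * rN w') = 1 := (rho_eq_one_iff A _).mpr h1
      rw [map_mul, map_inv, inv_mul_eq_one, hrN, hrN] at h2
      have hww : w = w' := Subtype.ext h2
      subst hww
      have hu1 : (u : GL D.Idx F) ∈ Cn D F (rN w : GL D.Idx F) := by
        rw [← hXs]
        exact u.2
      have hu2 : (u' : GL D.Idx F) ∈ Cn D F (rN w : GL D.Idx F) := by
        rw [← hXs]
        exact u'.2
      obtain ⟨h3, h4⟩ := canon_unique_fac A b.2 b'.2 hu1 hu2 e1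
      have h5 : b = b' := Subtype.ext h3
      have h6 : u = u' := Subtype.ext h4
      rw [h5, h6]
    · rintro ⟨g, hg⟩
      obtain ⟨b, hb, n, hn, u, hu, rfl⟩ := canon_exists A B5 hg
      have hn' : n ∈ Ns hG F := by
        rw [← monomial_eq A]
        exact hn
      let w : WG hG (List.range D.rank) := ⟨rho A ⟨n, hn'⟩, rho_mem A _⟩
      have h1 : ((rN w)⁻¹ * ⟨n, hn'⟩ : Ns hG F).1 ∈ Hs hG F := by
        rw [← rho_eq_one_iff A, map_mul, map_inv, inv_mul_eq_one, hrN]
      set h := (((rN w)⁻¹ * ⟨n, hn'⟩ : Ns hG F).1 : GL D.Idx F) with hh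
      have e2 : n = rN w * h := by
        rw [hh]
        show n = (rN w : GL D.Idx F) * (((rN w : GL D.Idx F))⁻¹ * n)
        group
      have h3 : (rN w : GL D.Idx F) * h * (rN w : GL D.Idx F)⁻¹ ∈ D.borelSubgroup F :=
        Hs_le_B A (Ns_normalizes A (rN w).2 h1)
      have hu' : u ∈ Xs D F (PsiW (w : Equiv.Perm (Fin D.nroots))) := by
        have := Cn_eq A ⟨n, hn'⟩
        rw [this] at hu
        exact hu
      refine ⟨⟨w, ⟨b * ((rN w : GL D.Idx F) * h * (rN w : GL D.Idx F)⁻¹), Subgroup.mul_mem _ hb h3⟩, ⟨u, hu'⟩⟩, ?_⟩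
      apply Subtype.ext
      show b * ((rN w : GL D.Idx F) * h * (rN w : GL D.Idx F)⁻¹) * rN w * u = b * n * u
      rw [e2]
      group
  rw [← Nat.card_congr (Equiv.ofBijective Φ hΦ), Nat.card_sigma]
  apply Finset.sum_congr rfl
  intro w _
  show Nat.card (_ × _) = _
  rw [Nat.card_prod, card_Xs A B5 hP (isClosed_PsiW A w.2), filterL_length]

/-- The order of the group. -/
theorem card_group_eq [Finite F] {tp : List (ℕ × ℕ)} (B5 : Good5 D C T tp) {X7 : Tab7} (hP : pivCheck D X7 = true) :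
    Nat.card (D.group F) = Nat.card F ^ (D.nroots / 2) * Nat.card (D.diagonalSubgroup F) *
      ∑ w : WG A.g1 (List.range D.rank), Nat.card F ^ invL (w : Equiv.Perm (Fin D.nroots)) := by
  rw [card_group_sum A B5 hP, card_B A, core1027 A B5 hP, Finset.mul_sum]

/-- The order of the group from a chain of tables. -/
theorem card_group_chain [Finite F] {tp : List (ℕ × ℕ)} (B5 : Good5 D C T tp) {X7 : Tab7} (hP : pivCheck D X7 = true)
    {mt : ℕ → ℕ → ℕ} (hcox : coxCheck mt D C = true) {L : List Step} (hL : ChainOK D C mt (List.range D.rank) L) :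
    Nat.card (D.group F) = Nat.card F ^ (D.nroots / 2) * Nat.card (D.diagonalSubgroup F) *
      (L.map fun X => ∑ x : Fin X.k, Nat.card F ^ X.dep x).prod := by
  rw [card_group_eq A B5 hP, chain_poin A.g1 A.g3.even A.g3.negEq (fun i hi k hk => cox_of A.g1 hcox hi hk) _ L _ hL]

end Cfsg.Agent.Lib.ChevSym
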