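import Cfsg.Agent.Lib.ChevPar
import Cfsg.Agent.Lib.ChevTabB2

/-! Coweight rows for type B2 (generated, helper4). -/

set_option autoImplicit false
set_option linter.all false
set_option maxRecDepth 1000000

namespace Cfsg.Agent.Lib.ChevSym

open Cfsg.Lie

def tab8B2 : Tab8 where
  rows := [[1, 1], [1, 2]]

theorem parCheckB2 : parCheck chevB2 tabB2 tab8B2 = true := by decide +kernel
theorem good8B2 : Good8 chevB2 tabB2 tab8B2 := good8_of good3B2.even parCheckB2

end Cfsg.Agent.Lib.ChevSym
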