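import Cfsg.Agent.Lib.ChevPar
import Cfsg.Agent.Lib.ChevTabD4

/-! Coweight rows for type D4 (generated, helper4). -/

set_option autoImplicit false
set_option linter.all false
set_option maxRecDepth 1000000

namespace Cfsg.Agent.Lib.ChevSym

open Cfsg.Lie

def tab8D4 : Tab8 where
  rows := [[2, 2, 1, 1], [1, 2, 1, 1], [1, 2, 2, 1], [1, 2, 1, 2]]

theorem parCheckD4 : parCheck chevD4 tabD4 tab8D4 = true := by decide +kernel
theorem good8D4 : Good8 chevD4 tabD4 tab8D4 := good8_of good3D4.even parCheckD4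

end Cfsg.Agent.Lib.ChevSym
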