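import Cfsg.Agent.Lib.ChevPar
import Cfsg.Agent.Lib.ChevTabE6

/-! Coweight rows for type E6 (generated, helper4). -/

set_option autoImplicit false
set_option linter.all false
set_option maxRecDepth 1000000

namespace Cfsg.Agent.Lib.ChevSym

open Cfsg.Lie

def tab8E6 : Tab8 where
  rows := [[4, 3, 5, 6, 4, 2], [1, 2, 2, 3, 2, 1], [5, 6, 10, 12, 8, 4], [2, 3, 4, 6, 4, 2], [4, 6, 8, 12, 10, 5], [2, 3, 4, 6, 5, 4]]

theorem parCheckE6 : parCheck chevE6 tabE6 tab8E6 = true := by decide +kernel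
theorem good8E6 : Good8 chevE6 tabE6 tab8E6 := good8_of good3E6.even parCheckE6

end Cfsg.Agent.Lib.ChevSym
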