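import Cfsg.Agent.Lib.ChevPar
import Cfsg.Agent.Lib.ChevTabE7

/-! Coweight rows for type E7 (generated, helper4). -/

set_option autoImplicit false
set_option linter.all false
set_option maxRecDepth 1000000

namespace Cfsg.Agent.Lib.ChevSym

open Cfsg.Lie

def tab8E7 : Tab8 where
  rows := [[2, 2, 3, 4, 3, 2, 1], [4, 7, 8, 12, 9, 6, 3], [3, 4, 6, 8, 6, 4, 2], [4, 6, 8, 12, 9, 6, 3], [6, 9, 12, 18, 15, 10, 5], [2, 3, 4, 6, 5, 4, 2], [2, 3, 4, 6, 5, 4, 3]]

theorem parCheckE7 : parCheck chevE7 tabE7 tab8E7 = true := by decide +kernel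
theorem good8E7 : Good8 chevE7 tabE7 tab8E7 := good8_of good3E7.even parCheckE7

end Cfsg.Agent.Lib.ChevSym
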