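import Cfsg.Agent.Lib.ChevPar
import Cfsg.Agent.Lib.ChevTabE8

/-! Coweight rows for type E8 (generated, helper4). -/

set_option autoImplicit false
set_option linter.all false
set_option maxRecDepth 1000000

namespace Cfsg.Agent.Lib.ChevSym

open Cfsg.Lie

def tab8E8 : Tab8 where
  rows := [[4, 5, 7, 10, 8, 6, 4, 2], [5, 8, 10, 15, 12, 9, 6, 3], [7, 10, 14, 20, 16, 12, 8, 4], [10, 15, 20, 30, 24, 18, 12, 6], [8, 12, 16, 24, 20, 15, 10, 5], [6, 9, 12, 18, 15, 12, 8, 4], [4, 6, 8, 12, 10, 8, 6, 3], [2, 3, 4, 6, 5, 4, 3, 2]]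

theorem parCheckE8 : parCheck chevE8 tabE8 tab8E8 = true := by decide +kernel
theorem good8E8 : Good8 chevE8 tabE8 tab8E8 := good8_of good3E8.even parCheckE8

end Cfsg.Agent.Lib.ChevSym
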