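import Cfsg.Agent.Lib.ChevPar
import Cfsg.Agent.Lib.ChevTabF4

/-! Coweight rows for type F4 (generated, helper4). -/

set_option autoImplicit false
set_option linter.all false
set_option maxRecDepth 1000000

namespace Cfsg.Agent.Lib.ChevSym

open Cfsg.Lie

def tab8F4 : Tab8 where
  rows := [[2, 3, 4, 2], [3, 6, 8, 4], [2, 4, 6, 3], [1, 2, 3, 2]]

theorem parCheckF4 : parCheck chevF4 tabF4 tab8F4 = true := by decide +kernel
theorem good8F4 : Good8 chevF4 tabF4 tab8F4 := good8_of good3F4.even parCheckF4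

end Cfsg.Agent.Lib.ChevSym
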