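import Cfsg.Agent.Lib.ChevPar
import Cfsg.Agent.Lib.ChevTabG2

/-! Coweight rows for type G2 (generated, helper4). -/

set_option autoImplicit false
set_option linter.all false
set_option maxRecDepth 1000000

namespace Cfsg.Agent.Lib.ChevSym

open Cfsg.Lie

def tab8G2 : Tab8 where
  rows := [[2, 3], [1, 2]]

theorem parCheckG2 : parCheck chevG2 tabG2 tab8G2 = true := by decide +kernel
theorem good8G2 : Good8 chevG2 tabG2 tab8G2 := good8_of good3G2.even parCheckG2

end Cfsg.Agent.Lib.ChevSym
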