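import Cfsg.Agent.Lib.ChevW3
import Cfsg.Agent.Lib.ChevGoodB2

/-! Coset tables for type B2 (generated, helper4). -/

set_option autoImplicit false
set_option linter.all false
set_option maxRecDepth 1000000

namespace Cfsg.Agent.Lib.ChevSym

open Cfsg.Lie

def mtTB2 : List ℕ := [1025, 260]
noncomputable def mtB2 (i k : ℕ) : ℕ := tb (getL mtTB2 i) k

theorem coxB2 : coxCheck mtB2 chevB2 certB2 = true := by decide +kernel

def stepB2_0 : Step where
  J := [1]
  Jp := [0, 1]
  k := 4
  actT := [33751041, 50397696]
  parT := 33619968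
  genT := 65536
  depT := 50462976
  psiB := 224
  ptT := [506097522914230528, 289921455100330243, 217581286574129668, 564066695644423]
  maskT := [224, 84, 42, 7]

theorem stepCB2_0 : stepCheck stepB2_0 mtB2 = true := by decide +kernel
theorem permCB2_0 : permCheck stepB2_0 chevB2 certB2 = true := by decide +kernel

def stepB2_1 : Step where
  J := []
  Jp := [1]
  k := 2
  actT := [0, 1]
  parT := 0
  genT := 256
  depT := 256
  psiB := 240
  ptT := [506097522914230528, 505817143170892288]
  maskT := [240, 232]

theorem stepCB2_1 : stepCheck stepB2_1 mtB2 = true := by decide +kernel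
theorem permCB2_1 : permCheck stepB2_1 chevB2 certB2 = true := by decide +kernel

def stepsB2 : List Step := [stepB2_0, stepB2_1]

theorem chainB2 : ChainOK chevB2 certB2 mtB2 (List.range 2) stepsB2 := by
  exact ⟨rfl, stepOK_of stepCB2_0, permOK_of permCB2_0, ⟨rfl, stepOK_of stepCB2_1, permOK_of permCB2_1, rfl⟩⟩

end Cfsg.Agent.Lib.ChevSym
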