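import Cfsg.Agent.Lib.ChevW3
import Cfsg.Agent.Lib.ChevGoodD4

/-! Coset tables for type D4 (generated, helper4). -/

set_option autoImplicit false
set_option linter.all false
set_option maxRecDepth 1000000

namespace Cfsg.Agent.Lib.ChevSym

open Cfsg.Lie

def mtTD4 : List ℕ := [33686273, 50528515, 33620738, 16909058]
noncomputable def mtD4 (i k : ℕ) : ℕ := tb (getL mtTD4 i) k

theorem coxD4 : coxCheck mtD4 chevD4 certD4 = true := by decide +kernel

def stepD4_0 : Step where
  J := [1, 2, 3]
  Jp := [0, 1, 2, 3]
  k := 8
  actT := [434321403853012993, 505817147449082368, 506096427680858368, 506095315334725888]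
  parT := 433756246269558784
  genT := 284786430115840
  depT := 433757350092996864
  psiB := 16515072
  ptT := [566073426779046459040877649791461066728553822781039575296, 565592643864087472290204273757603651193062799363369534976, 541071588363903700943283858585254758103210847676006008321, 491839046668866967525129721356063660621451894724370434051, 516455877271512432647930780239236669359234506711202662146, 467223335576475699229776643010045571877475553759567087876, 442223375248316117244176840918139260137695490883323956741, 122983519833541283103520991599571938277842329370686198546]
  maskT := [16515072, 8634400, 4338192, 1086596, 2173192, 543810, 263105, 63]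

theorem stepCD4_0 : stepCheck stepD4_0 mtD4 = true := by decide +kernel
theorem permCD4_0 : permCheck stepD4_0 chevD4 certD4 = true := by decide +kernel

def stepD4_1 : Step where
  J := [1, 3]
  Jp := [1, 2, 3]
  k := 4
  actT := [0, 50397696, 50462721, 33751296]
  parT := 33619968
  genT := 50397696
  depT := 50462976
  psiB := 16719872
  ptT := [566073426779046459040877649791461066728553822781039575296, 565881119482020990812274433957960368099339668429056770816, 541360818145271287405210002820587615059322471851766383361, 516745108525844151679953876806063355221564466780040397826]
  maskT := [16719872, 16565248, 16519808, 16517440]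

theorem stepCD4_1 : stepCheck stepD4_1 mtD4 = true := by decide +kernel
theorem permCD4_1 : permCheck stepD4_1 chevD4 certD4 = true := by decide +kernel

def stepD4_2 : Step where
  J := [3]
  Jp := [1, 3]
  k := 3
  actT := [0, 131073, 0, 66048]
  parT := 65536
  genT := 196864
  depT := 131328
  psiB := 16769024
  ptT := [566073426779046459040877649791461066728553822781039575296, 541649279090809664310305499994679834166397163664360734721, 517129723119895175588394288273648390236729482356549812226]
  maskT := [16769024, 16724480, 16722176]

theorem stepCD4_2 : stepCheck stepD4_2 mtD4 = true := by decide +kernel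
theorem permCD4_2 : permCheck stepD4_2 chevD4 certD4 = true := by decide +kernel

def stepD4_3 : Step where
  J := []
  Jp := [3]
  k := 2
  actT := [0, 0, 0, 1]
  parT := 0
  genT := 768
  depT := 256
  psiB := 16773120
  ptT := [566073426779046459040877649791461066728553822781039575296, 565978018496368764364970633948976412520310965285293195776]
  maskT := [16773120, 16771072]

theorem stepCD4_3 : stepCheck stepD4_3 mtD4 = true := by decide +kernel
theorem permCD4_3 : permCheck stepD4_3 chevD4 certD4 = true := by decide +kernel

def stepsD4 : List Step := [stepD4_0, stepD4_1, stepD4_2, stepD4_3]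

theorem chainD4 : ChainOK chevD4 certD4 mtD4 (List.range 4) stepsD4 := by
  exact ⟨rfl, stepOK_of stepCD4_0, permOK_of permCD4_0, ⟨rfl, stepOK_of stepCD4_1, permOK_of permCD4_1, ⟨rfl, stepOK_of stepCD4_2, permOK_of permCD4_2, ⟨rfl, stepOK_of stepCD4_3, permOK_of permCD4_3, rfl⟩⟩⟩⟩

end Cfsg.Agent.Lib.ChevSym
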