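import Cfsg.Agent.Lib.ChevW3
import Cfsg.Agent.Lib.ChevGoodG2

/-! Coset tables for type G2 (generated, helper4). -/

set_option autoImplicit false
set_option linter.all false
set_option maxRecDepth 1000000

namespace Cfsg.Agent.Lib.ChevSym

open Cfsg.Lie

def mtTG2 : List ℕ := [1537, 262]
noncomputable def mtG2 (i k : ℕ) : ℕ := tb (getL mtTG2 i) k

theorem coxG2 : coxCheck mtG2 chevG2 certG2 = true := by decide +kernel

def stepG2_0 : Step where
  J := [1]
  Jp := [0, 1]
  k := 6
  actT := [4419555098625, 5510510215680]
  parT := 4410965032960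
  genT := 4295032832
  depT := 5514788471040
  psiB := 3968
  ptT := [3416467015609337987117220096, 3411626608196089407097472256, 3100927950116869625274959361, 1858138021934780561305831941, 1547439345480313544603339526, 309494528559154266863373066]
  maskT := [3968, 2896, 1704, 342, 173, 31]

theorem stepCG2_0 : stepCheck stepG2_0 mtG2 = true := by decide +kernel
theorem permCG2_0 : permCheck stepG2_0 chevG2 certG2 = true := by decide +kernel

def stepG2_1 : Step where
  J := []
  Jp := [1]
  k := 2
  actT := [0, 1]
  parT := 0
  genT := 256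
  depT := 256
  psiB := 4032
  ptT := [3416467015609337987117220096, 3108190913232640688152248321]
  maskT := [4032, 4000]

theorem stepCG2_1 : stepCheck stepG2_1 mtG2 = true := by decide +kernel
theorem permCG2_1 : permCheck stepG2_1 chevG2 certG2 = true := by decide +kernel

def stepsG2 : List Step := [stepG2_0, stepG2_1]

theorem chainG2 : ChainOK chevG2 certG2 mtG2 (List.range 2) stepsG2 := by
  exact ⟨rfl, stepOK_of stepCG2_0, permOK_of permCG2_0, ⟨rfl, stepOK_of stepCG2_1, permOK_of permCG2_1, rfl⟩⟩

end Cfsg.Agent.Lib.ChevSym
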