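import Cfsg.Agent.Lib.ChevAll3
import Cfsg.Agent.Lib.ChevOrder
import Cfsg.Agent.Lib.ChevHAll
import Cfsg.Agent.Lib.ChevSG2
import Cfsg.Agent.Lib.ChevRG2
import Cfsg.Agent.Lib.ChevSB2
import Cfsg.Agent.Lib.ChevRB2
import Cfsg.Agent.Lib.ChevSD4
import Cfsg.Agent.Lib.ChevRD4
import Cfsg.Agent.Lib.ChevSF4
import Cfsg.Agent.Lib.ChevRF4
import Cfsg.Agent.Lib.ChevSE6
import Cfsg.Agent.Lib.ChevRE6
import Cfsg.Agent.Lib.ChevSE7
import Cfsg.Agent.Lib.ChevRE7
import Cfsg.Agent.Lib.ChevSE8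
import Cfsg.Agent.Lib.ChevRE8

/-! Assembling the order formulas and the Coxeter groups (generated, helper4). -/

set_option autoImplicit false
set_option linter.all false
set_option maxRecDepth 1000000

namespace Cfsg.Agent.Lib.ChevSym

open Cfsg.Lie

theorem exists_good8 {D : ChevalleyDatum} (hD : D ∈ [chevG2, chevB2, chevD4, chevF4, chevE6, chevE7, chevE8]) :
    ∃ (C : Cert) (T : Tab) (tp : List (ℕ × ℕ)) (X : Tab8), AllGood D C T ∧ Good5 D C T tp ∧ Good8 D T X := by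
  simp only [List.mem_cons, List.not_mem_nil, or_false] at hD
  rcases hD with rfl | rfl | rfl | rfl | rfl | rfl | rfl
  · exact ⟨certG2, tabG2, tpG2, tab8G2, ⟨goodG2, good2G2, good3G2, good4G2⟩, good5G2, good8G2⟩
  · exact ⟨certB2, tabB2, tpB2, tab8B2, ⟨goodB2, good2B2, good3B2, good4B2⟩, good5B2, good8B2⟩
  · exact ⟨certD4, tabD4, tpD4, tab8D4, ⟨goodD4, good2D4, good3D4, good4D4⟩, good5D4, good8D4⟩
  · exact ⟨certF4, tabF4, tpF4, tab8F4, ⟨goodF4, good2F4, good3F4, good4F4⟩, good5F4, good8F4⟩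
  · exact ⟨certE6, tabE6, tpE6, tab8E6, ⟨goodE6, good2E6, good3E6, good4E6⟩, good5E6, good8E6⟩
  · exact ⟨certE7, tabE7, tpE7, tab8E7, ⟨goodE7, good2E7, good3E7, good4E7⟩, good5E7, good8E7⟩
  · exact ⟨certE8, tabE8, tpE8, tab8E8, ⟨goodE8, good2E8, good3E8, good4E8⟩, good5E8, good8E8⟩

/-- Vanishing of all coefficients. -/
def lpZero : List ℤ → Bool
  | [] => true
  | x :: a => cond (iBeq x 0) (lpZero a) false

/-- Equality of coefficient lists up to trailing zeros, by structural recursion. -/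
def lpEqS : List ℤ → List ℤ → Bool
  | [], b => lpZero b
  | x :: a, [] => lpZero (x :: a)
  | x :: a, y :: b => cond (iBeq x y) (lpEqS a b) false

theorem lpEval_zero (q : ℤ) : ∀ a : List ℤ, lpZero a = true → lpEval q a = 0 := by
  intro a
  induction a with
  | nil => intro _; rfl
  | cons x a ih =>
    intro h
    rw [lpZero] at h
    cases e : iBeq x 0
    · rw [e] at h; simp at h
    · rw [e, cond_true] at h
      rw [lpEval, ih h, iBeq_eq e]
      simp

theorem lpEval_of_eqS (q : ℤ) : ∀ a b : List ℤ, lpEqS a b = true → lpEval q a = lpEval q b := by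
  intro a
  induction a with
  | nil =>
    intro b h
    rw [lpEqS] at h
    rw [lpEval_zero q b h]
    rfl
  | cons x a ih =>
    intro b h
    cases b with
    | nil =>
      rw [lpEqS] at h
      rw [lpEval_zero q _ h]
      rfl
    | cons y b =>
      rw [lpEqS] at h
      cases e : iBeq x y
      · rw [e] at h; simp at h
      · rw [e, cond_true] at h
        rw [lpEval, lpEval, ih b h, iBeq_eq e]

/-- The factor `q^d - 1`. -/
def lpFac (d : ℕ) : List ℤ := lpAdd (lpMono d) [-1]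

/-- The product of the factors. -/
def lpProdD : List ℕ → List ℤ
  | [] => [1]
  | d :: l => lpMul (lpFac d) (lpProdD l)

/-- The polynomial `(q-1)^n`. -/
def lpPowM1 : ℕ → List ℤ
  | 0 => [1]
  | n + 1 => lpMul [-1, 1] (lpPowM1 n)

theorem lpEval_powM1 (q : ℤ) (n : ℕ) : lpEval q (lpPowM1 n) = (q - 1) ^ n := by
  induction n with
  | zero => simp [lpPowM1, lpEval]
  | succ n ih =>
    rw [lpPowM1, lpEval_mul, ih, pow_succ]
    simp [lpEval]
    ring

theorem lpEval_prodD (q : ℤ) (ds : List ℕ) : lpEval q (lpProdD ds) = (ds.map fun d => q ^ d - 1).prod := by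
  induction ds with
  | nil => simp [lpProdD, lpEval]
  | cons d l ih =>
    rw [lpProdD, lpEval_mul, ih, lpFac, lpEval_add, lpEval_mono]
    simp only [lpEval, List.map_cons, List.prod_cons]
    ring

theorem cast_prodD (q : ℕ) (hq : 1 ≤ q) (ds : List ℕ) :
    (((ds.map fun d => q ^ d - 1).prod : ℕ) : ℤ) = (ds.map fun d => (q : ℤ) ^ d - 1).prod := by
  induction ds with
  | nil => simp
  | cons d l ih =>
    simp only [List.map_cons, List.prod_cons]
    rw [Nat.cast_mul, ih, Nat.cast_sub (Nat.one_le_pow _ _ hq)]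
    push_cast
    rfl

theorem chain_degrees (L : List Step) (rk : ℕ) (ds : List ℕ) (h : lpEqS (lpMul (lpPowM1 rk) (chainPoly L)) (lpProdD ds) = true)
    (q : ℕ) (hq : 1 ≤ q) :
    (q - 1) ^ rk * (L.map fun X => ∑ x : Fin X.k, q ^ X.dep x).prod = (ds.map fun d => q ^ d - 1).prod := by
  have h1 := lpEval_of_eqS (q : ℤ) _ _ h
  rw [lpEval_mul, lpEval_powM1, lpEval_prodD, ← chain_eval, ← cast_prodD q hq] at h1
  have h2 : ((q - 1 : ℕ) : ℤ) = (q : ℤ) - 1 := by
    rw [Nat.cast_sub hq]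
    simp
  rw [← h2] at h1
  exact_mod_cast h1

theorem card_type {F : Type*} [Field F] [Fintype F] {q : ℕ} (hq : Fintype.card F = q) {D : ChevalleyDatum} {C : Cert} {T : Tab}
    {tp : List (ℕ × ℕ)} {X7 : Tab7} {mt : ℕ → ℕ → ℕ} {L : List Step} (A : AllGood D C T) (B5 : Good5 D C T tp)
    (hP : pivCheck D X7 = true) (hcox : coxCheck mt D C = true) (hL : ChainOK D C mt (List.range D.rank) L)
    (ds : List ℕ) (hchk : lpEqS (lpMul (lpPowM1 D.rank) (chainPoly L)) (lpProdD ds) = true) {g : ℕ}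
    (hH : g * Nat.card (D.diagonalSubgroup F) = (q - 1) ^ D.rank) :
    g * Nat.card (D.group F) = q ^ (D.nroots / 2) * (ds.map fun d => q ^ d - 1).prod := by
  have hq1 : 1 ≤ q := by
    rw [← hq]
    exact Fintype.card_pos
  rw [card_group_chain A B5 hP hcox hL, Nat.card_eq_fintype_card, hq, ← chain_degrees L _ ds hchk q hq1, ← hH]
  ring

theorem core1094 {D : ChevalleyDatum} {C : Cert} {n : ℕ} {M : CoxeterMatrix (Fin n)} {mt : ℕ → ℕ → ℕ} {L : List Step}
    (hG : Good D C) (hmt : ∀ i (h : i < n) k (h' : k < n), mt i k = M.M ⟨i, h⟩ ⟨k, h'⟩) (hn : D.rank = n)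
    (hcox : coxCheck mt D C = true) (hL : ChainOK D C mt (List.range n) L) {h r₀ : ℕ} (hh : 0 < h)
    (hc : coxOrdCheck D C (List.range n) h r₀ = true) :
    orderOf ((List.finRange n).map M.simple).prod = h := by
  subst hn
  obtain ⟨e, he, -⟩ := cox_iso (M := M) hG hmt rfl (fun i hi k hk => cox_of hG hcox hi hk) hL
  have h1 : orderOf ((List.finRange D.rank).map M.simple).prod = orderOf (e ((List.finRange D.rank).map M.simple).prod) :=
    (MulEquiv.orderOf_eq e _).symm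
  rw [h1, ← Subgroup.orderOf_coe]
  have h2 : ((e ((List.finRange D.rank).map M.simple).prod : WG hG (List.range D.rank)) : Equiv.Perm (Fin D.nroots)) =
      ((List.range D.rank).map (wPerm hG)).prod := by
    rw [map_list_prod, Subgroup.val_list_prod, List.map_map, List.map_map]
    have h3 : ∀ n : ℕ, ∀ f : ℕ → Equiv.Perm (Fin D.nroots), (List.range n).map f = (List.finRange n).map (fun i => f i.val) := by
      intro n f
      apply List.ext_getElem <;> simp
    rw [h3]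
    congr 1
    apply List.map_congr_left
    intro i _
    exact he i
  rw [h2]
  exact coxOrd_spec hG (by simp) hh hc

theorem core1039 {F : Type*} [Field F] {D : ChevalleyDatum} {C : Cert} {T : Tab} {n : ℕ} {M : CoxeterMatrix (Fin n)}
    {mt : ℕ → ℕ → ℕ} {L : List Step} (A : AllGood D C T)
    (hmt : ∀ i (h : i < n) k (h' : k < n), mt i k = M.M ⟨i, h⟩ ⟨k, h'⟩) (hn : D.rank = n)
    (hcox : coxCheck mt D C = true) (hL : ChainOK D C mt (List.range n) L) :
    ∃ φ : ↥(D.monomialSubgroup F) →* M.Group, Function.Surjective φ ∧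
      φ.ker = (D.diagonalSubgroup F).subgroupOf (D.monomialSubgroup F) ∧
      ∀ (i : Fin n) (g : ↥(D.monomialSubgroup F)),
        ((g : GL D.Idx F) : Matrix D.Idx D.Idx F) = D.nMat F (D.simple i) 1 → φ g = M.simple i := by
  subst hn
  have hG := A.g1
  obtain ⟨e, he, -⟩ := cox_iso (M := M) hG hmt rfl (fun i hi k hk => cox_of hG hcox hi hk) hL
  have hNs : D.monomialSubgroup F ≤ Ns A.g1 F := (monomial_eq A).le
  have hNs' : Ns A.g1 F ≤ D.monomialSubgroup F := (monomial_eq A).ge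
  let ψ : D.monomialSubgroup F →* WG A.g1 (List.range D.rank) :=
    ((rho A).comp (Subgroup.inclusion hNs)).codRestrict _ (fun g => rho_mem A _)
  refine ⟨e.symm.toMonoidHom.comp ψ, ?_, ?_, ?_⟩
  · intro w
    obtain ⟨g, hg⟩ := exists_rho (F := F) A (e w).2
    refine ⟨⟨g.1, hNs' g.2⟩, ?_⟩
    show e.symm (ψ ⟨g.1, hNs' g.2⟩) = w
    have : ψ ⟨g.1, hNs' g.2⟩ = e w := Subtype.ext hg
    rw [this, MulEquiv.symm_apply_apply]
  · ext g
    rw [MonoidHom.mem_ker, Subgroup.mem_subgroupOf, diagonal_eq A]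
    have h1 : (e.symm.toMonoidHom.comp ψ) g = 1 ↔ ψ g = 1 := by
      show e.symm (ψ g) = 1 ↔ _
      simp
    rw [h1, ← rho_eq_one_iff A ⟨g.1, hNs g.2⟩]
    exact Subtype.ext_iff
  · intro i g hg
    show e.symm (ψ g) = M.simple i
    rw [MulEquiv.symm_apply_eq]
    apply Subtype.ext
    rw [he i]
    show rho A ⟨g.1, hNs g.2⟩ = wPerm A.g1 i.val
    apply rho_of_acts
    have h1 : (g : GL D.Idx F) = gs A.g1 F i.val := eq_gn A.g1 hg
    rw [h1]
    have h2 := acts_wd A.g1 (F := F) (l := [i.val]) (by simpa using i.2)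
    have h3 : wd A.g1 F [i.val] = gs A.g1 F i.val := by simp [wd]
    have h4 : wordP A.g1 [i.val] = wPerm A.g1 i.val := by simp [wordP]
    rwa [h3, h4] at h2

theorem polyG2 : lpEqS (lpMul (lpPowM1 chevG2.rank) (chainPoly stepsG2)) (lpProdD [2, 6]) = true := by decide +kernel
theorem hmtG2 : ∀ i (h : i < 2) k (h' : k < 2), mtG2 i k = (CoxeterMatrix.G₂).M ⟨i, h⟩ ⟨k, h'⟩ := by decide +kernel
theorem coxOrdG2 : coxOrdCheck chevG2 certG2 (List.range 2) 6 0 = true := by decide +kernel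
theorem coxCardG2 : Nat.card (CoxeterMatrix.G₂).Group = 12 := by
  obtain ⟨e, -, h⟩ := cox_iso (M := CoxeterMatrix.G₂) goodG2 hmtG2 rfl (fun i hi k hk => cox_of goodG2 coxG2 hi hk) chainG2
  rw [h]
  decide +kernel
theorem coxOrderG2 : orderOf ((List.finRange 2).map (CoxeterMatrix.G₂).simple).prod = 6 :=
  core1094 goodG2 hmtG2 rfl coxG2 chainG2 (by decide) coxOrdG2
theorem natG2 {F : Type*} [Field F] :
    ∃ φ : ↥(chevG2.monomialSubgroup F) →* (CoxeterMatrix.G₂).Group, Function.Surjective φ ∧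
      φ.ker = (chevG2.diagonalSubgroup F).subgroupOf (chevG2.monomialSubgroup F) ∧
      ∀ (i : Fin 2) (g : ↥(chevG2.monomialSubgroup F)),
        ((g : GL chevG2.Idx F) : Matrix chevG2.Idx chevG2.Idx F) = chevG2.nMat F (chevG2.simple i) 1 → φ g = (CoxeterMatrix.G₂).simple i :=
  core1039 ⟨goodG2, good2G2, good3G2, good4G2⟩ hmtG2 rfl coxG2 chainG2

theorem polyB2 : lpEqS (lpMul (lpPowM1 chevB2.rank) (chainPoly stepsB2)) (lpProdD [2, 4]) = true := by decide +kernel
theorem hmtB2 : ∀ i (h : i < 2) k (h' : k < 2), mtB2 i k = ((CoxeterMatrix.B 2)).M ⟨i, h⟩ ⟨k, h'⟩ := by decide +kernel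
theorem coxOrdB2 : coxOrdCheck chevB2 certB2 (List.range 2) 4 0 = true := by decide +kernel
theorem coxCardB2 : Nat.card ((CoxeterMatrix.B 2)).Group = 8 := by
  obtain ⟨e, -, h⟩ := cox_iso (M := (CoxeterMatrix.B 2)) goodB2 hmtB2 rfl (fun i hi k hk => cox_of goodB2 coxB2 hi hk) chainB2
  rw [h]
  decide +kernel
theorem coxOrderB2 : orderOf ((List.finRange 2).map ((CoxeterMatrix.B 2)).simple).prod = 4 :=
  core1094 goodB2 hmtB2 rfl coxB2 chainB2 (by decide) coxOrdB2
theorem natB2 {F : Type*} [Field F] :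
    ∃ φ : ↥(chevB2.monomialSubgroup F) →* ((CoxeterMatrix.B 2)).Group, Function.Surjective φ ∧
      φ.ker = (chevB2.diagonalSubgroup F).subgroupOf (chevB2.monomialSubgroup F) ∧
      ∀ (i : Fin 2) (g : ↥(chevB2.monomialSubgroup F)),
        ((g : GL chevB2.Idx F) : Matrix chevB2.Idx chevB2.Idx F) = chevB2.nMat F (chevB2.simple i) 1 → φ g = ((CoxeterMatrix.B 2)).simple i :=
  core1039 ⟨goodB2, good2B2, good3B2, good4B2⟩ hmtB2 rfl coxB2 chainB2

theorem polyD4 : lpEqS (lpMul (lpPowM1 chevD4.rank) (chainPoly stepsD4)) (lpProdD [2, 4, 4, 6]) = true := by decide +kernel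
theorem hmtD4 : ∀ i (h : i < 4) k (h' : k < 4), mtD4 i k = (coxeterD4).M ⟨i, h⟩ ⟨k, h'⟩ := by decide +kernel
theorem coxOrdD4 : coxOrdCheck chevD4 certD4 (List.range 4) 6 0 = true := by decide +kernel
theorem coxCardD4 : Nat.card (coxeterD4).Group = 192 := by
  obtain ⟨e, -, h⟩ := cox_iso (M := coxeterD4) goodD4 hmtD4 rfl (fun i hi k hk => cox_of goodD4 coxD4 hi hk) chainD4
  rw [h]
  decide +kernel
theorem coxOrderD4 : orderOf ((List.finRange 4).map (coxeterD4).simple).prod = 6 :=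
  core1094 goodD4 hmtD4 rfl coxD4 chainD4 (by decide) coxOrdD4
theorem natD4 {F : Type*} [Field F] :
    ∃ φ : ↥(chevD4.monomialSubgroup F) →* (coxeterD4).Group, Function.Surjective φ ∧
      φ.ker = (chevD4.diagonalSubgroup F).subgroupOf (chevD4.monomialSubgroup F) ∧
      ∀ (i : Fin 4) (g : ↥(chevD4.monomialSubgroup F)),
        ((g : GL chevD4.Idx F) : Matrix chevD4.Idx chevD4.Idx F) = chevD4.nMat F (chevD4.simple i) 1 → φ g = (coxeterD4).simple i :=
  core1039 ⟨goodD4, good2D4, good3D4, good4D4⟩ hmtD4 rfl coxD4 chainD4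

theorem polyF4 : lpEqS (lpMul (lpPowM1 chevF4.rank) (chainPoly stepsF4)) (lpProdD [2, 6, 8, 12]) = true := by decide +kernel
theorem hmtF4 : ∀ i (h : i < 4) k (h' : k < 4), mtF4 i k = (CoxeterMatrix.F₄).M ⟨i, h⟩ ⟨k, h'⟩ := by decide +kernel
theorem coxOrdF4 : coxOrdCheck chevF4 certF4 (List.range 4) 12 0 = true := by decide +kernel
theorem coxCardF4 : Nat.card (CoxeterMatrix.F₄).Group = 1152 := by
  obtain ⟨e, -, h⟩ := cox_iso (M := CoxeterMatrix.F₄) goodF4 hmtF4 rfl (fun i hi k hk => cox_of goodF4 coxF4 hi hk) chainF4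
  rw [h]
  decide +kernel
theorem coxOrderF4 : orderOf ((List.finRange 4).map (CoxeterMatrix.F₄).simple).prod = 12 :=
  core1094 goodF4 hmtF4 rfl coxF4 chainF4 (by decide) coxOrdF4
theorem natF4 {F : Type*} [Field F] :
    ∃ φ : ↥(chevF4.monomialSubgroup F) →* (CoxeterMatrix.F₄).Group, Function.Surjective φ ∧
      φ.ker = (chevF4.diagonalSubgroup F).subgroupOf (chevF4.monomialSubgroup F) ∧
      ∀ (i : Fin 4) (g : ↥(chevF4.monomialSubgroup F)),
        ((g : GL chevF4.Idx F) : Matrix chevF4.Idx chevF4.Idx F) = chevF4.nMat F (chevF4.simple i) 1 → φ g = (CoxeterMatrix.F₄).simple i :=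
  core1039 ⟨goodF4, good2F4, good3F4, good4F4⟩ hmtF4 rfl coxF4 chainF4

theorem polyE6 : lpEqS (lpMul (lpPowM1 chevE6.rank) (chainPoly stepsE6)) (lpProdD [2, 5, 6, 8, 9, 12]) = true := by decide +kernel
theorem hmtE6 : ∀ i (h : i < 6) k (h' : k < 6), mtE6 i k = (CoxeterMatrix.E₆).M ⟨i, h⟩ ⟨k, h'⟩ := by decide +kernel
theorem coxOrdE6 : coxOrdCheck chevE6 certE6 (List.range 6) 12 0 = true := by decide +kernel
theorem coxCardE6 : Nat.card (CoxeterMatrix.E₆).Group = 51840 := by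
  obtain ⟨e, -, h⟩ := cox_iso (M := CoxeterMatrix.E₆) goodE6 hmtE6 rfl (fun i hi k hk => cox_of goodE6 coxE6 hi hk) chainE6
  rw [h]
  decide +kernel
theorem coxOrderE6 : orderOf ((List.finRange 6).map (CoxeterMatrix.E₆).simple).prod = 12 :=
  core1094 goodE6 hmtE6 rfl coxE6 chainE6 (by decide) coxOrdE6
theorem natE6 {F : Type*} [Field F] :
    ∃ φ : ↥(chevE6.monomialSubgroup F) →* (CoxeterMatrix.E₆).Group, Function.Surjective φ ∧
      φ.ker = (chevE6.diagonalSubgroup F).subgroupOf (chevE6.monomialSubgroup F) ∧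
      ∀ (i : Fin 6) (g : ↥(chevE6.monomialSubgroup F)),
        ((g : GL chevE6.Idx F) : Matrix chevE6.Idx chevE6.Idx F) = chevE6.nMat F (chevE6.simple i) 1 → φ g = (CoxeterMatrix.E₆).simple i :=
  core1039 ⟨goodE6, good2E6, good3E6, good4E6⟩ hmtE6 rfl coxE6 chainE6

theorem polyE7 : lpEqS (lpMul (lpPowM1 chevE7.rank) (chainPoly stepsE7)) (lpProdD [2, 6, 8, 10, 12, 14, 18]) = true := by decide +kernel
theorem hmtE7 : ∀ i (h : i < 7) k (h' : k < 7), mtE7 i k = (CoxeterMatrix.E₇).M ⟨i, h⟩ ⟨k, h'⟩ := by decide +kernel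
theorem coxOrdE7 : coxOrdCheck chevE7 certE7 (List.range 7) 18 0 = true := by decide +kernel
theorem coxCardE7 : Nat.card (CoxeterMatrix.E₇).Group = 2903040 := by
  obtain ⟨e, -, h⟩ := cox_iso (M := CoxeterMatrix.E₇) goodE7 hmtE7 rfl (fun i hi k hk => cox_of goodE7 coxE7 hi hk) chainE7
  rw [h]
  decide +kernel
theorem coxOrderE7 : orderOf ((List.finRange 7).map (CoxeterMatrix.E₇).simple).prod = 18 :=
  core1094 goodE7 hmtE7 rfl coxE7 chainE7 (by decide) coxOrdE7
theorem natE7 {F : Type*} [Field F] :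
    ∃ φ : ↥(chevE7.monomialSubgroup F) →* (CoxeterMatrix.E₇).Group, Function.Surjective φ ∧
      φ.ker = (chevE7.diagonalSubgroup F).subgroupOf (chevE7.monomialSubgroup F) ∧
      ∀ (i : Fin 7) (g : ↥(chevE7.monomialSubgroup F)),
        ((g : GL chevE7.Idx F) : Matrix chevE7.Idx chevE7.Idx F) = chevE7.nMat F (chevE7.simple i) 1 → φ g = (CoxeterMatrix.E₇).simple i :=
  core1039 ⟨goodE7, good2E7, good3E7, good4E7⟩ hmtE7 rfl coxE7 chainE7

theorem polyE8 : lpEqS (lpMul (lpPowM1 chevE8.rank) (chainPoly stepsE8)) (lpProdD [2, 8, 12, 14, 18, 20, 24, 30]) = true := by decide +kernel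
theorem hmtE8 : ∀ i (h : i < 8) k (h' : k < 8), mtE8 i k = (CoxeterMatrix.E₈).M ⟨i, h⟩ ⟨k, h'⟩ := by decide +kernel
theorem coxOrdE8 : coxOrdCheck chevE8 certE8 (List.range 8) 30 0 = true := by decide +kernel
theorem coxCardE8 : Nat.card (CoxeterMatrix.E₈).Group = 696729600 := by
  obtain ⟨e, -, h⟩ := cox_iso (M := CoxeterMatrix.E₈) goodE8 hmtE8 rfl (fun i hi k hk => cox_of goodE8 coxE8 hi hk) chainE8
  rw [h]
  decide +kernel
theorem coxOrderE8 : orderOf ((List.finRange 8).map (CoxeterMatrix.E₈).simple).prod = 30 :=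
  core1094 goodE8 hmtE8 rfl coxE8 chainE8 (by decide) coxOrdE8
theorem natE8 {F : Type*} [Field F] :
    ∃ φ : ↥(chevE8.monomialSubgroup F) →* (CoxeterMatrix.E₈).Group, Function.Surjective φ ∧
      φ.ker = (chevE8.diagonalSubgroup F).subgroupOf (chevE8.monomialSubgroup F) ∧
      ∀ (i : Fin 8) (g : ↥(chevE8.monomialSubgroup F)),
        ((g : GL chevE8.Idx F) : Matrix chevE8.Idx chevE8.Idx F) = chevE8.nMat F (chevE8.simple i) 1 → φ g = (CoxeterMatrix.E₈).simple i :=
  core1039 ⟨goodE8, good2E8, good3E8, good4E8⟩ hmtE8 rfl coxE8 chainE8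

end Cfsg.Agent.Lib.ChevSym
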