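import Cfsg.Prelude.Def_ChevStructure

/-! Field automorphisms of the Chevalley groups (helper4). -/

set_option autoImplicit false
set_option linter.all false

namespace Cfsg.Agent.Lib.ChevAut

open Cfsg.Lie Cfsg.Lie.ChevalleyDatum Matrix

variable {F : Type*} [Field F] (D : ChevalleyDatum)

theorem xMat_map (f : F ≃+* F) (r : Fin D.nroots) (t : F) (u j : D.Idx) :
    f (D.xMat F r t u j) = D.xMat F r (f t) u j := by
  rcases j with i | s
  · rcases u with i' | v
    · show f (if i' = i then (1 : F) else 0) = if i' = i then (1 : F) else 0
      split_ifs <;> simp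
    · show f (if v = r then - (((D.cartanSR.getD i.val #[]).getD r.val 0 : ℤ) : F) * t else 0) =
        if v = r then - (((D.cartanSR.getD i.val #[]).getD r.val 0 : ℤ) : F) * f t else 0
      split_ifs <;> simp
  · by_cases h1 : s = r
    · subst h1
      rcases u with i' | v
      · show f (if s = s then (0 : F) else _) = (if s = s then (0 : F) else _)
        simp
      · show f (if s = s then (if v = s then (1 : F) else 0) else _) = (if s = s then (if v = s then (1 : F) else 0) else _)
        simp only [if_true]
        split_ifs <;> simp
    · by_cases h2 : s.val = D.negIdx.getD r.val 0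
      · rcases u with i' | v
        · show f (if s = r then (0 : F) else if s.val = D.negIdx.getD r.val 0 then
              (((D.coroot.getD r.val #[]).getD i'.val 0 : ℤ) : F) * t else _) =
            (if s = r then (0 : F) else if s.val = D.negIdx.getD r.val 0 then
              (((D.coroot.getD r.val #[]).getD i'.val 0 : ℤ) : F) * f t else _)
          rw [if_neg h1, if_pos h2, if_neg h1, if_pos h2]
          simp
        · show f (if s = r then (if v = r then (1 : F) else 0) else if s.val = D.negIdx.getD r.val 0 then
              (if v = s then 1 else if v = r then -(t ^ 2) else 0) else _) =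
            (if s = r then (if v = r then (1 : F) else 0) else if s.val = D.negIdx.getD r.val 0 then
              (if v = s then 1 else if v = r then -((f t) ^ 2) else 0) else _)
          rw [if_neg h1, if_pos h2, if_neg h1, if_pos h2]
          split_ifs <;> simp
      · rcases u with i' | v
        · show f (if s = r then (0 : F) else if s.val = D.negIdx.getD r.val 0 then _ else 0) =
            (if s = r then (0 : F) else if s.val = D.negIdx.getD r.val 0 then _ else 0)
          rw [if_neg h1, if_neg h2, if_neg h1, if_neg h2]
          simp
        · show f (if s = r then (if v = r then (1 : F) else 0) else if s.val = D.negIdx.getD r.val 0 then _ else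
              ((if v = s then 1 else 0) + ((D.chainCoeff r.val s.val v.val).map fun km => ((km.2 : ℤ) : F) * t ^ km.1).sum)) =
            (if s = r then (if v = r then (1 : F) else 0) else if s.val = D.negIdx.getD r.val 0 then _ else
              ((if v = s then 1 else 0) + ((D.chainCoeff r.val s.val v.val).map fun km => ((km.2 : ℤ) : F) * (f t) ^ km.1).sum))
          rw [if_neg h1, if_neg h2, if_neg h1, if_neg h2, map_add, map_list_sum, List.map_map]
          congr 1
          · split_ifs <;> simp
          · congr 1
            apply List.map_congr_left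
            intro km _
            simp

/-- The automorphism of the general linear group induced by a field automorphism. -/
noncomputable def glMap (f : F ≃+* F) : GL D.Idx F ≃* GL D.Idx F :=
  Units.mapEquiv (RingEquiv.mapMatrix f).toMulEquiv

theorem coe_glMap (f : F ≃+* F) (g : GL D.Idx F) (u j : D.Idx) :
    ((glMap D f g : GL D.Idx F) : Matrix D.Idx D.Idx F) u j = f ((g : Matrix D.Idx D.Idx F) u j) := rfl

theorem coe_glMap_of_eq (f : F ≃+* F) {g : GL D.Idx F} {r : Fin D.nroots} {t : F}
    (h : (g : Matrix D.Idx D.Idx F) = D.xMat F r t) :
    ((glMap D f g : GL D.Idx F) : Matrix D.Idx D.Idx F) = D.xMat F r (f t) := by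
  ext u j
  rw [coe_glMap, h]
  exact xMat_map D f r t u j

theorem glMap_trans (f : F ≃+* F) (g : GL D.Idx F) : glMap D f.symm (glMap D f g) = g := by
  apply Units.ext
  ext u j
  rw [coe_glMap, coe_glMap]
  simp

theorem map_group_le (f : F ≃+* F) : (D.group F).map (glMap D f).toMonoidHom ≤ D.group F := by
  rw [ChevalleyDatum.group, MonoidHom.map_closure, Subgroup.closure_le]
  rintro _ ⟨g, ⟨r, t, h⟩, rfl⟩
  exact Subgroup.subset_closure ⟨r, f t, coe_glMap_of_eq D f h⟩

theorem map_group_eq (f : F ≃+* F) : (D.group F).map (glMap D f).toMonoidHom = D.group F := by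
  apply le_antisymm (map_group_le D f)
  intro g hg
  refine ⟨glMap D f.symm g, map_group_le D f.symm ⟨g, hg, rfl⟩, ?_⟩
  have := glMap_trans D f.symm g
  simpa using this

/-- Field automorphisms of the Chevalley group. -/
theorem exists_field_aut (f : F ≃+* F) :
    ∃ α : ↥(D.group F) ≃* ↥(D.group F), ∀ (g : ↥(D.group F)) (r : ℕ) (t : F), r < D.nroots →
      ((g : GL D.Idx F) : Matrix D.Idx D.Idx F) = D.x F r t → ((α g : GL D.Idx F) : Matrix D.Idx D.Idx F) = D.x F r (f t) := by
  refine ⟨((glMap D f).subgroupMap (D.group F)).trans (MulEquiv.subgroupCongr (map_group_eq D f)), ?_⟩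
  intro g r t hr h
  rw [ChevalleyDatum.x, dif_pos hr] at h ⊢
  exact coe_glMap_of_eq D f h

end Cfsg.Agent.Lib.ChevAut
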