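import Mathlib
import Cfsg.Prelude.Def_ChevB2

/-!
# The Chevalley group of type B₂ over the field with two elements is the symmetric group of degree 6
-/

set_option autoImplicit false
set_option maxHeartbeats 1000000
set_option maxRecDepth 100000

namespace Cfsg.Agent.Lib.ChevB2S6

open Cfsg.Lie

/-- The index set of the matrices. -/
abbrev Idx : Type := chevB2.Idx

/-- Bit position of an index. -/
def bitIdx : Idx → ℕ := Sum.elim (fun i => i.val) (fun i => i.val + 2)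

/-- The vector with a given code. -/
def vecOf (c : ℕ) : Idx → ZMod 2 := fun i => if c.testBit (bitIdx i) = true then 1 else 0

/-- The permutation attached to a root. -/
def sg : Fin 8 → Equiv.Perm (Fin 6)
  | ⟨0, _⟩ => Equiv.swap (0 : Fin 6) 1 * Equiv.swap (2 : Fin 6) 3 * Equiv.swap (4 : Fin 6) 5
  | ⟨1, _⟩ => Equiv.swap (0 : Fin 6) 1
  | ⟨2, _⟩ => Equiv.swap (4 : Fin 6) 5
  | ⟨3, _⟩ => Equiv.swap (0 : Fin 6) 1 * Equiv.swap (2 : Fin 6) 4 * Equiv.swap (3 : Fin 6) 5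
  | ⟨4, _⟩ => Equiv.swap (0 : Fin 6) 2 * Equiv.swap (1 : Fin 6) 3 * Equiv.swap (4 : Fin 6) 5
  | ⟨5, _⟩ => Equiv.swap (3 : Fin 6) 5
  | ⟨6, _⟩ => Equiv.swap (0 : Fin 6) 2
  | ⟨7, _⟩ => Equiv.swap (0 : Fin 6) 2 * Equiv.swap (1 : Fin 6) 4 * Equiv.swap (3 : Fin 6) 5

/-- The labelled vectors. -/
def T15C : List (Equiv.Perm (Fin 6) × ℕ) := [
  (Equiv.swap (0 : Fin 6) 1 * Equiv.swap (2 : Fin 6) 3 * Equiv.swap (4 : Fin 6) 5, 4),
  (Equiv.swap (0 : Fin 6) 1 * Equiv.swap (2 : Fin 6) 4 * Equiv.swap (3 : Fin 6) 5, 32),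
  (Equiv.swap (0 : Fin 6) 1 * Equiv.swap (2 : Fin 6) 5 * Equiv.swap (3 : Fin 6) 4, 44),
  (Equiv.swap (0 : Fin 6) 2 * Equiv.swap (1 : Fin 6) 3 * Equiv.swap (4 : Fin 6) 5, 64),
  (Equiv.swap (0 : Fin 6) 2 * Equiv.swap (1 : Fin 6) 4 * Equiv.swap (3 : Fin 6) 5, 512),
  (Equiv.swap (0 : Fin 6) 2 * Equiv.swap (1 : Fin 6) 5 * Equiv.swap (3 : Fin 6) 4, 832),
  (Equiv.swap (0 : Fin 6) 3 * Equiv.swap (1 : Fin 6) 2 * Equiv.swap (4 : Fin 6) 5, 84),
  (Equiv.swap (0 : Fin 6) 3 * Equiv.swap (1 : Fin 6) 4 * Equiv.swap (2 : Fin 6) 5, 994),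
  (Equiv.swap (0 : Fin 6) 3 * Equiv.swap (1 : Fin 6) 5 * Equiv.swap (2 : Fin 6) 4, 687),
  (Equiv.swap (0 : Fin 6) 4 * Equiv.swap (1 : Fin 6) 2 * Equiv.swap (3 : Fin 6) 5, 672),
  (Equiv.swap (0 : Fin 6) 4 * Equiv.swap (1 : Fin 6) 3 * Equiv.swap (2 : Fin 6) 5, 855),
  (Equiv.swap (0 : Fin 6) 4 * Equiv.swap (1 : Fin 6) 5 * Equiv.swap (2 : Fin 6) 3, 126),
  (Equiv.swap (0 : Fin 6) 5 * Equiv.swap (1 : Fin 6) 2 * Equiv.swap (3 : Fin 6) 4, 1021),
  (Equiv.swap (0 : Fin 6) 5 * Equiv.swap (1 : Fin 6) 3 * Equiv.swap (2 : Fin 6) 4, 519),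
  (Equiv.swap (0 : Fin 6) 5 * Equiv.swap (1 : Fin 6) 4 * Equiv.swap (2 : Fin 6) 3, 98)]

/-- The basis perms. -/
def T10 : List (Equiv.Perm (Fin 6)) := [
  Equiv.swap (0 : Fin 6) 1 * Equiv.swap (2 : Fin 6) 3 * Equiv.swap (4 : Fin 6) 5,
  Equiv.swap (0 : Fin 6) 1 * Equiv.swap (2 : Fin 6) 4 * Equiv.swap (3 : Fin 6) 5,
  Equiv.swap (0 : Fin 6) 1 * Equiv.swap (2 : Fin 6) 5 * Equiv.swap (3 : Fin 6) 4,
  Equiv.swap (0 : Fin 6) 2 * Equiv.swap (1 : Fin 6) 3 * Equiv.swap (4 : Fin 6) 5,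
  Equiv.swap (0 : Fin 6) 2 * Equiv.swap (1 : Fin 6) 4 * Equiv.swap (3 : Fin 6) 5,
  Equiv.swap (0 : Fin 6) 2 * Equiv.swap (1 : Fin 6) 5 * Equiv.swap (3 : Fin 6) 4,
  Equiv.swap (0 : Fin 6) 3 * Equiv.swap (1 : Fin 6) 2 * Equiv.swap (4 : Fin 6) 5,
  Equiv.swap (0 : Fin 6) 3 * Equiv.swap (1 : Fin 6) 4 * Equiv.swap (2 : Fin 6) 5,
  Equiv.swap (0 : Fin 6) 3 * Equiv.swap (1 : Fin 6) 5 * Equiv.swap (2 : Fin 6) 4,
  Equiv.swap (0 : Fin 6) 4 * Equiv.swap (1 : Fin 6) 2 * Equiv.swap (3 : Fin 6) 5]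

/-- Codes of the rows of the inverse of the basis matrix. -/
def BI : List ℕ := [28,169,9,336,899,259,16,3,1,130]

/-- Words for the adjacent transpositions. -/
def adjW : List (List (Fin 8)) := [[1],[1,6,1],[0,1,2],[2,5,2],[2]]


/-- The code attached to a permutation. -/
def codeOf (t : Equiv.Perm (Fin 6)) : ℕ := ((T15C.find? (fun p => decide (p.1 = t))).map Prod.snd).getD 0

/-- The labelled vector over `ZMod 2`. -/
def V2 (t : Equiv.Perm (Fin 6)) : Idx → ZMod 2 := vecOf (codeOf t)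

/-- The fixed-point-free involutions. -/
def isT (t : Equiv.Perm (Fin 6)) : Prop := t * t = 1 ∧ ∀ i, t i ≠ i

instance : DecidablePred isT := fun t => by unfold isT; infer_instance

/-- The list of fixed-point-free involutions. -/
def T15 : List (Equiv.Perm (Fin 6)) := T15C.map Prod.fst

theorem T15_complete : ∀ t : Equiv.Perm (Fin 6), isT t → t ∈ T15 := by decide +kernel

theorem V_inj : ∀ t ∈ T15, ∀ t' ∈ T15, V2 t = V2 t' → t = t' := by decide +kernel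

theorem center_chk : ∀ c : Equiv.Perm (Fin 6), (∀ t ∈ T15, c * t * c⁻¹ = t) → c = 1 := by decide +kernel

theorem gen_chk0 : ∀ r : Fin 8, chevB2.xMat (ZMod 2) r 0 = 1 := by decide +kernel

theorem gen_chk1 : ∀ r : Fin 8, chevB2.xMat (ZMod 2) r 1 * chevB2.xMat (ZMod 2) r 1 = 1 := by decide +kernel

theorem gen_chk : ∀ r : Fin 8, ∀ t ∈ T15, (chevB2.xMat (ZMod 2) r 1).mulVec (V2 t) = V2 (sg r * t * (sg r)⁻¹) := by
  decide +kernel

/-- The basis matrix. -/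
def B2 : Matrix Idx Idx (ZMod 2) := Matrix.of fun i j => V2 (T10.getD (bitIdx j) 1) i

/-- Its inverse. -/
def B2' : Matrix Idx Idx (ZMod 2) := Matrix.of fun i j => vecOf (BI.getD (bitIdx i) 0) j

theorem B_chk : B2 * B2' = 1 := by decide +kernel

theorem T10_chk : ∀ j : Idx, T10.getD (bitIdx j) 1 ∈ T15 := by decide +kernel

/-- Evaluation of a word. -/
def wordS (w : List (Fin 8)) : Equiv.Perm (Fin 6) := w.foldr (fun r acc => sg r * acc) 1

theorem adj_chk : ∀ i : Fin 5, wordS (adjW.getD i.val []) = Equiv.swap i.castSucc i.succ := by decide +kernel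

theorem T15_sound : ∀ t ∈ T15, isT t := by decide +kernel

theorem isT_conj {t : Equiv.Perm (Fin 6)} (h : isT t) (σ : Equiv.Perm (Fin 6)) : isT (σ * t * σ⁻¹) := by
  refine ⟨?_, ?_⟩
  · have : σ * t * σ⁻¹ * (σ * t * σ⁻¹) = σ * (t * t) * σ⁻¹ := by group
    rw [this, h.1]
    simp
  · intro i hi
    have h2 : σ (t (σ⁻¹ i)) = i := hi
    have h3 : t (σ⁻¹ i) = σ⁻¹ i := by
      have h4 := congrArg (σ⁻¹ : Equiv.Perm (Fin 6)) h2
      have h5 : σ⁻¹ (σ (t (σ⁻¹ i))) = t (σ⁻¹ i) := by simp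
      rwa [h5] at h4
    exact h.2 _ h3

theorem conj_mem {t : Equiv.Perm (Fin 6)} (h : t ∈ T15) (σ : Equiv.Perm (Fin 6)) : σ * t * σ⁻¹ ∈ T15 :=
  T15_complete _ (isT_conj (T15_sound t h) σ)

theorem xMat_map {K L : Type*} [Field K] [Field L] (ρ : K →+* L) (D : ChevalleyDatum) (r : Fin D.nroots) (t : K) :
    (D.xMat K r t).map ρ = D.xMat L r (ρ t) := by
  ext row col
  simp only [ChevalleyDatum.xMat, Matrix.map_apply, Matrix.of_apply]
  rcases col with i | s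
  · rcases row with i' | u
    · simp only
      split_ifs <;> simp
    · simp only
      split_ifs <;> simp
  · simp only
    split_ifs with h1 h2
    · rcases row with i' | u
      · simp
      · simp only
        split_ifs <;> simp
    · rcases row with i' | u
      · simp
      · simp only
        split_ifs <;> simp
    · rcases row with i' | u
      · simp
      · simp only [map_add, map_list_sum, List.map_map]
        congr 1
        · split_ifs <;> simp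
        · congr 1
          apply List.map_congr_left
          intro km _
          simp

section Main

variable {F : Type*} [Field F]

/-- The labelled vector over `F`. -/
def VF (ρ : ZMod 2 →+* F) (t : Equiv.Perm (Fin 6)) : Idx → F := fun i => ρ (V2 t i)

/-- The relation between matrices and permutations. -/
def RR (ρ : ZMod 2 →+* F) (g : Matrix Idx Idx F) (σ : Equiv.Perm (Fin 6)) : Prop :=
  ∀ t ∈ T15, g.mulVec (VF ρ t) = VF ρ (σ * t * σ⁻¹)

theorem RR_one (ρ : ZMod 2 →+* F) : RR ρ 1 1 := by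
  intro t _
  simp

theorem RR_mul {ρ : ZMod 2 →+* F} {g h : Matrix Idx Idx F} {σ τ : Equiv.Perm (Fin 6)} (hg : RR ρ g σ) (hh : RR ρ h τ) :
    RR ρ (g * h) (σ * τ) := by
  intro t ht
  rw [← Matrix.mulVec_mulVec, hh t ht, hg _ (conj_mem ht τ)]
  have e : σ * (τ * t * τ⁻¹) * σ⁻¹ = (σ * τ) * t * (σ * τ)⁻¹ := by group
  rw [e]

theorem xMat_map' (ρ : ZMod 2 →+* F) (r : Fin 8) (t : ZMod 2) :
    (chevB2.xMat (ZMod 2) r t).map ρ = chevB2.xMat F r (ρ t) := xMat_map ρ chevB2 r t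

theorem RR_gen (ρ : ZMod 2 →+* F) (r : Fin 8) : RR ρ (chevB2.xMat F r (ρ 1)) (sg r) := by
  intro t ht
  rw [← xMat_map' ρ r]
  funext i
  have h1 := ρ.map_mulVec (chevB2.xMat (ZMod 2) r 1) (V2 t) i
  have h2 : (chevB2.xMat (ZMod 2) r 1).mulVec (V2 t) = V2 (sg r * t * (sg r)⁻¹) := gen_chk r t ht
  rw [h2] at h1
  exact h1.symm

theorem xMat_zero (ρ : ZMod 2 →+* F) (r : Fin 8) : chevB2.xMat F r (ρ 0) = 1 := by
  rw [← xMat_map' ρ r, gen_chk0 r]
  exact Matrix.map_one _ (map_zero ρ) (map_one ρ)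

theorem xMat_sq (ρ : ZMod 2 →+* F) (r : Fin 8) : chevB2.xMat F r (ρ 1) * chevB2.xMat F r (ρ 1) = 1 := by
  rw [← xMat_map' ρ r, ← Matrix.map_mul, gen_chk1 r]
  exact Matrix.map_one _ (map_zero ρ) (map_one ρ)

theorem RR_uniq {ρ : ZMod 2 →+* F} (hρ : Function.Injective ρ) {g : Matrix Idx Idx F} {σ τ : Equiv.Perm (Fin 6)}
    (h1 : RR ρ g σ) (h2 : RR ρ g τ) : σ = τ := by
  have hc : τ⁻¹ * σ = 1 := by
    apply center_chk
    intro t ht
    have h3 := (h1 t ht).symm.trans (h2 t ht)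
    have h4 : V2 (σ * t * σ⁻¹) = V2 (τ * t * τ⁻¹) := by
      funext i
      exact hρ (congrFun h3 i)
    have h5 := V_inj _ (conj_mem ht σ) _ (conj_mem ht τ) h4
    calc τ⁻¹ * σ * t * (τ⁻¹ * σ)⁻¹ = τ⁻¹ * (σ * t * σ⁻¹) * τ := by group
      _ = τ⁻¹ * (τ * t * τ⁻¹) * τ := by rw [h5]
      _ = t := by group
  exact (inv_mul_eq_one.mp hc).symm

theorem RR_eq_one {ρ : ZMod 2 →+* F} {g : Matrix Idx Idx F} (h : RR ρ g 1) : g = 1 := by
  have h1 : g * B2.map ρ = B2.map ρ := by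
    ext i j
    have h2 := congrFun (h _ (T10_chk j)) i
    simp only [one_mul, inv_one, mul_one] at h2
    exact h2
  have h3 : B2.map ρ * B2'.map ρ = 1 := by
    rw [← Matrix.map_mul, B_chk]
    exact Matrix.map_one _ (map_zero ρ) (map_one ρ)
  calc g = g * (B2.map ρ * B2'.map ρ) := by rw [h3, mul_one]
    _ = B2.map ρ * B2'.map ρ := by rw [← mul_assoc, h1]
    _ = 1 := h3

/-- The generators as units. -/
def XX (ρ : ZMod 2 →+* F) (r : Fin 8) : GL Idx F :=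
  ⟨chevB2.xMat F r (ρ 1), chevB2.xMat F r (ρ 1), xMat_sq ρ r, xMat_sq ρ r⟩

theorem exists_RR {ρ : ZMod 2 →+* F} (hρ : Function.Surjective ρ) (g : GL Idx F) (hg : g ∈ chevB2.group F) :
    ∃ σ, RR ρ g.1 σ := by
  induction hg using Subgroup.closure_induction with
  | mem g hg =>
    obtain ⟨r, t, ht⟩ := hg
    obtain ⟨a, rfl⟩ := hρ t
    have ha : ∀ a : ZMod 2, a = 0 ∨ a = 1 := by decide
    rcases ha a with rfl | rfl
    · refine ⟨1, ?_⟩
      rw [ht, show chevB2.xMat F r (ρ 0) = 1 from xMat_zero ρ r]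
      exact RR_one ρ
    · refine ⟨sg r, ?_⟩
      rw [ht]
      exact RR_gen ρ r
  | one => exact ⟨1, RR_one ρ⟩
  | mul x y _ _ hx hy =>
    obtain ⟨σ, hσ⟩ := hx
    obtain ⟨τ, hτ⟩ := hy
    exact ⟨σ * τ, RR_mul hσ hτ⟩
  | inv x _ hx =>
    obtain ⟨σ, hσ⟩ := hx
    refine ⟨σ⁻¹, ?_⟩
    intro t ht
    have h1 := hσ (σ⁻¹ * t * σ⁻¹⁻¹) (conj_mem ht σ⁻¹)
    have h2 : σ * (σ⁻¹ * t * σ⁻¹⁻¹) * σ⁻¹ = t := by group
    rw [h2] at h1
    rw [← h1, Matrix.mulVec_mulVec]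
    have h3 : (x⁻¹ : GL Idx F).1 * x.1 = 1 := by
      rw [← Units.val_mul, inv_mul_cancel, Units.val_one]
    rw [h3, Matrix.one_mulVec]

end Main

/-- The statement. -/
theorem main1058 {F : Type*} [Field F] [Fintype F] (hF : Fintype.card F = 2) :
    Nonempty (↥(chevB2.group F) ≃* Equiv.Perm (Fin 6)) := by
  classical
  have h2 : (2 : F) = 0 := by
    have h : (Fintype.card F) • (1 : F) = 0 := by
      have := card_nsmul_eq_zero' (G := F) (x := (1 : F))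
      rwa [Nat.card_eq_fintype_card] at this
    rw [hF] at h
    simpa using h
  have : CharP F 2 := CharTwo.of_one_ne_zero_of_two_eq_zero one_ne_zero h2
  let ρ : ZMod 2 →+* F := ZMod.castHom (dvd_refl 2) F
  have hρ : Function.Bijective ρ :=
    (Fintype.bijective_iff_injective_and_card ρ).mpr ⟨ρ.injective, by simp [ZMod.card, hF]⟩
  have hex : ∀ g : ↥(chevB2.group F), ∃ σ, RR ρ g.1.1 σ := fun g => exists_RR hρ.2 g.1 g.2
  choose φ₀ hφ₀ using hex
  let φ : ↥(chevB2.group F) →* Equiv.Perm (Fin 6) := MonoidHom.mk' φ₀ (fun a b =>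
    (RR_uniq hρ.1 (hφ₀ (a * b)) (RR_mul (hφ₀ a) (hφ₀ b))))
  have hinj : Function.Injective φ := by
    rw [injective_iff_map_eq_one]
    intro g hg
    have h3 : RR ρ g.1.1 1 := by
      have := hφ₀ g
      have h4 : φ₀ g = 1 := hg
      rwa [h4] at this
    have h5 := RR_eq_one h3
    apply Subtype.ext
    apply Units.ext
    exact h5
  have hsg : ∀ r : Fin 8, sg r ∈ φ.range := by
    intro r
    have hm : XX ρ r ∈ chevB2.group F := Subgroup.subset_closure ⟨r, ρ 1, rfl⟩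
    refine ⟨⟨XX ρ r, hm⟩, ?_⟩
    exact RR_uniq hρ.1 (hφ₀ _) (RR_gen ρ r)
  have hw : ∀ w : List (Fin 8), wordS w ∈ φ.range := by
    intro w
    induction w with
    | nil => exact one_mem _
    | cons a w ih =>
      simp only [wordS, List.foldr_cons]
      exact mul_mem (hsg a) ih
  have hsurj : Function.Surjective φ := by
    rw [← MonoidHom.range_eq_top]
    rw [eq_top_iff]
    intro σ _
    have h5 : σ ∈ Submonoid.closure (Set.range fun i : Fin 5 => Equiv.swap i.castSucc i.succ) := by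
      rw [Equiv.Perm.mclosure_swap_castSucc_succ]
      exact Submonoid.mem_top σ
    have h6 : Submonoid.closure (Set.range fun i : Fin 5 => Equiv.swap i.castSucc i.succ) ≤ φ.range.toSubmonoid := by
      rw [Submonoid.closure_le]
      rintro _ ⟨i, rfl⟩
      show _ ∈ φ.range
      simp only
      rw [← adj_chk i]
      exact hw _
    exact h6 h5
  exact ⟨MulEquiv.ofBijective φ ⟨hinj, hsurj⟩⟩

end Cfsg.Agent.Lib.ChevB2S6
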