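import Cfsg.Agent.Lib.ChevComm
import Cfsg.Prelude.Def_LieExceptional

/-! Subgroups generated by root elements, the groups `U_p`, and the `(B,N)`-pair (helper4). -/

set_option autoImplicit false
set_option linter.all false

namespace Cfsg.Agent.Lib.ChevSym

open Cfsg.Lie Cfsg.Lie.ChevalleyDatum Matrix Cfsg.Agent.Lib.MatFilt

variable {F : Type*} [Field F] {D : ChevalleyDatum} {C : Cert} {T : Tab}

/-- The subgroup generated by the root elements of the roots satisfying `P`. -/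
def Xs (D : ChevalleyDatum) (F : Type*) [Field F] (P : ℕ → Prop) : Subgroup (GL D.Idx F) :=
  Subgroup.closure {g | ∃ (r : ℕ) (t : F), P r ∧ (g : Matrix D.Idx D.Idx F) = D.x F r t}

theorem gx_mem_Xs (hG : Good D C) {P : ℕ → Prop} {r : ℕ} (h : P r) (t : F) : gx hG F r t ∈ Xs D F P :=
  Subgroup.subset_closure ⟨r, t, h, rfl⟩

theorem Xs_mono {P Q : ℕ → Prop} (h : ∀ r, P r → Q r) : Xs D F P ≤ Xs D F Q :=
  Subgroup.closure_mono (by
    rintro g ⟨r, t, hr, e⟩
    exact ⟨r, t, h r hr, e⟩)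

/-- Elements of a root group. -/
theorem mem_rootSubgroup_iff (hG : Good D C) {r : ℕ} {g : GL D.Idx F} :
    g ∈ D.rootSubgroup F r ↔ ∃ t : F, g = gx hG F r t := by
  constructor
  · intro hg
    induction hg using Subgroup.closure_induction with
    | mem x hx =>
      obtain ⟨t, h⟩ := hx
      exact ⟨t, eq_gx hG h⟩
    | one => exact ⟨0, (gx_zero hG r).symm⟩
    | mul x y _ _ hx hy =>
      obtain ⟨t, rfl⟩ := hx
      obtain ⟨u, rfl⟩ := hy
      exact ⟨t + u, gx_add hG r t u⟩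
    | inv x _ hx =>
      obtain ⟨t, rfl⟩ := hx
      exact ⟨-t, gx_inv hG r t⟩
  · rintro ⟨t, rfl⟩
    exact Subgroup.subset_closure ⟨t, rfl⟩

theorem gx_comm (hG : Good D C) (r : ℕ) (t u : F) : gx hG F r t * gx hG F r u = gx hG F r u * gx hG F r t := by
  rw [gx_add, gx_add, add_comm]

variable (A : AllGood D C T) {tp : List (ℕ × ℕ)} (B5 : Good5 D C T tp)
include A

theorem Rsub_le {r s : ℕ} {P : ℕ → Prop} (h : ∀ k, k < D.nroots → RootSum D T r s k → P k) :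
    Rsub A.g1 T F r s ≤ Xs D F P := by
  rw [Rsub, Subgroup.closure_le]
  rintro g ⟨k, v, hk, hrs, rfl⟩
  exact gx_mem_Xs A.g1 (h k hk hrs) v

omit A in
/-- Conjugation of root elements by `n_i⁻¹`. -/
theorem gs_inv_conj_gx (hG : Good D C) {i s : ℕ} (hi : i < D.rank) (hs : s < D.nroots) (u : F) :
    (gs hG F i)⁻¹ * gx hG F s u * gs hG F i = gx hG F (C.w i s) ((C.eta i (C.w i s) : F) * u) := by
  have h2 := gs_mul_gx hG (F := F) hi (hG.w.lt i hi s hs) ((C.eta i (C.w i s) : F) * u)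
  rw [hG.w.invol i hi s hs, ← mul_assoc, eta_sq hG, one_mul] at h2
  rw [mul_assoc, ← h2, inv_mul_cancel_left]

/-- `n_i` normalizes `X_P` if `w_i` preserves `P`. -/
theorem gs_mem_normalizer_Xs {P : ℕ → Prop} (hP : ∀ s, P s → s < D.nroots) {i : ℕ} (hi : i < D.rank)
    (hw : ∀ s, P s → P (C.w i s)) : gs A.g1 F i ∈ Subgroup.normalizer (Xs D F P : Set (GL D.Idx F)) := by
  apply mem_normalizer_closure
  · rintro x ⟨s, u, hs, h⟩
    rw [eq_gx A.g1 h, gs_conj_gx A.g1 hi (hP s hs)]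
    exact gx_mem_Xs A.g1 (hw s hs) _
  · rintro x ⟨s, u, hs, h⟩
    rw [eq_gx A.g1 h, gs_inv_conj_gx A.g1 hi (hP s hs)]
    exact gx_mem_Xs A.g1 (hw s hs) _

include B5

/-- A root element normalizes `X_P` if `P` is closed under adding `r`. -/
theorem gx_mem_normalizer_Xs {P : ℕ → Prop} (hP : ∀ s, P s → s < D.nroots) {r : ℕ} (hr : r < D.nroots)
    (hneg : ¬ P (D.neg r)) (hcl : ∀ s k, P s → s ≠ r → k < D.nroots → RootSum D T r s k → P k) (t : F) :
    gx A.g1 F r t ∈ Subgroup.normalizer (Xs D F P : Set (GL D.Idx F)) := by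
  have key : ∀ (t u : F) (s : ℕ), P s → gx A.g1 F r t * gx A.g1 F s u * gx A.g1 F r (-t) ∈ Xs D F P := by
    intro t u s hs
    by_cases hsr : s = r
    · subst hsr
      rw [gx_comm A.g1 s t u, mul_assoc, gx_add, add_neg_cancel, gx_zero, mul_one]
      exact gx_mem_Xs A.g1 hs u
    · have hne : s ≠ D.neg r := by
        rintro rfl
        exact hneg hs
      have h1 := commP_all (F := F) A B5 r hr s (hP s hs) hsr hne (-t) u
      have h2 := Rsub_le (F := F) A (P := P) (r := r) (s := s) (fun k hk hrs => hcl s k hs hsr hk hrs) h1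
      have h3 := Subgroup.mul_mem _ (gx_mem_Xs A.g1 hs u) h2
      have e : gx A.g1 F s u * ((gx A.g1 F r (-t) * gx A.g1 F s u)⁻¹ * (gx A.g1 F s u * gx A.g1 F r (-t))) =
          gx A.g1 F r t * gx A.g1 F s u * gx A.g1 F r (-t) := by
        have e0 : (gx A.g1 F r (-t))⁻¹ = gx A.g1 F r t := by rw [gx_inv, neg_neg]
        rw [← e0]
        group
      rwa [e] at h3
  apply mem_normalizer_closure
  · rintro x ⟨s, u, hs, h⟩
    rw [eq_gx A.g1 h, gx_inv]
    exact key t u s hs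
  · rintro x ⟨s, u, hs, h⟩
    rw [eq_gx A.g1 h, gx_inv]
    have := key (-t) u s hs
    rwa [neg_neg] at this

/-- The group `U_p`: the positive roots other than `p_i`. -/
def UpP (D : ChevalleyDatum) (i : ℕ) (s : ℕ) : Prop := D.IsPosRoot s ∧ s ≠ D.simple i

omit A B5 in
theorem UpP_lt {i s : ℕ} (h : UpP D i s) : s < D.nroots := h.1.1

/-- `X_p` normalizes `U_p`. -/
theorem gx_mem_normalizer_Up {i : ℕ} (hi : i < D.rank) (t : F) :
    gx A.g1 F (D.simple i) t ∈ Subgroup.normalizer (Xs D F (UpP D i) : Set (GL D.Idx F)) := by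
  have hp := A.g1.simple_lt hi
  have hev := A.g3.even
  have hpN := A.g3.simplePos i hi
  apply gx_mem_normalizer_Xs A B5 (fun s hs => UpP_lt hs) hp
  · rintro ⟨h1, _⟩
    have h2 := (A.g3.posIff _ h1.1).mp h1
    rw [A.g3.negEq _ hp] at h2
    omega
  · intro s k hs hne hk hrs
    have hs' := hs.1.1
    have hsN := (A.g3.posIff s hs').mp hs.1
    have h1 := A.g3.keyPos s hs' hsN
    have h2 := A.g3.keyPos _ hp hpN
    obtain ⟨a, b, ha, hb, h3⟩ := key_rootSum A hrs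
    have ha' : (1 : ℤ) ≤ a := by exact_mod_cast ha
    have hb' : (1 : ℤ) ≤ b := by exact_mod_cast hb
    have h4 : T.key (D.simple i) < T.key k := by
      rw [h3]
      nlinarith
    refine ⟨(A.g3.posIff k hk).mpr ?_, ?_⟩
    · by_contra hN
      have := A.g3.keyNeg k hk (not_le.mp hN)
      omega
    · rintro rfl
      omega

omit B5 in
/-- `n_i` normalizes `U_p`. -/
theorem gs_mem_normalizer_Up {i : ℕ} (hi : i < D.rank) :
    gs A.g1 F i ∈ Subgroup.normalizer (Xs D F (UpP D i) : Set (GL D.Idx F)) := by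
  apply gs_mem_normalizer_Xs A (fun s hs => UpP_lt hs) hi
  rintro s ⟨h1, h2⟩
  have hs := h1.1
  have hN := (A.g3.posIff s hs).mp h1
  refine ⟨(A.g3.posIff _ (A.g1.w.lt i hi s hs)).mpr (A.g3.wPos i hi s hs hN h2), ?_⟩
  intro h3
  have h4 := congrArg (C.w i) h3
  rw [A.g1.w.invol i hi s hs, A.g1.w_simple hi] at h4
  have hp := A.g1.simple_lt hi
  rw [h4, A.g3.negEq _ hp] at hN
  have := A.g3.simplePos i hi
  have := A.g3.even
  omega

omit B5 in
/-- The root element of `-p_i` as a conjugate. -/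
theorem gx_neg_simple {i : ℕ} (hi : i < D.rank) (t : F) :
    gx A.g1 F (D.neg (D.simple i)) t = gs A.g1 F i * gx A.g1 F (D.simple i) ((C.eta i (D.simple i) : F) * t) * (gs A.g1 F i)⁻¹ := by
  rw [gs_conj_gx A.g1 hi (A.g1.simple_lt hi), ← mul_assoc, eta_sq A.g1, one_mul, A.g1.w_simple hi]

/-- `X_{-p}` normalizes `U_p`. -/
theorem gx_neg_mem_normalizer_Up {i : ℕ} (hi : i < D.rank) (t : F) :
    gx A.g1 F (D.neg (D.simple i)) t ∈ Subgroup.normalizer (Xs D F (UpP D i) : Set (GL D.Idx F)) := by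
  rw [gx_neg_simple A hi]
  exact Subgroup.mul_mem _ (Subgroup.mul_mem _ (gs_mem_normalizer_Up A hi) (gx_mem_normalizer_Up A B5 hi _))
    (Subgroup.inv_mem _ (gs_mem_normalizer_Up A hi))

/-- First half of `S1045`. -/
theorem core1045a {i : ℕ} (hi : i < D.rank) :
    D.rootSubgroup F (D.simple i) ⊔ D.rootSubgroup F (D.neg (D.simple i)) ≤
      Subgroup.normalizer (Xs D F (UpP D i) : Set (GL D.Idx F)) := by
  apply sup_le
  · intro g hg
    obtain ⟨t, rfl⟩ := (mem_rootSubgroup_iff A.g1).mp hg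
    exact gx_mem_normalizer_Up A B5 hi t
  · intro g hg
    obtain ⟨t, rfl⟩ := (mem_rootSubgroup_iff A.g1).mp hg
    exact gx_neg_mem_normalizer_Up A B5 hi t

omit B5 in
/-- Second half of `S1045`. -/
theorem core1045b {i : ℕ} (hi : i < D.rank) :
    Xs D F (UpP D i) ⊔ D.rootSubgroup F (D.simple i) = D.posUnipotent F := by
  have hp := A.g1.simple_lt hi
  apply le_antisymm
  · apply sup_le
    · exact Xs_mono (fun r hr => hr.1)
    · rw [rootSubgroup, Subgroup.closure_le]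
      rintro g ⟨t, h⟩
      exact Subgroup.subset_closure ⟨D.simple i, t, (A.g3.posIff _ hp).mpr (A.g3.simplePos i hi), h⟩
  · rw [posUnipotent, Subgroup.closure_le]
    rintro g ⟨r, t, hr, h⟩
    by_cases hrp : r = D.simple i
    · subst hrp
      exact Subgroup.mem_sup_right (Subgroup.subset_closure ⟨t, h⟩)
    · exact Subgroup.mem_sup_left (Subgroup.subset_closure ⟨r, t, ⟨hr, hrp⟩, h⟩)

/-- Decomposition of elements of `B`. -/
theorem B_decomp {i : ℕ} (hi : i < D.rank) {b : GL D.Idx F} (hb : b ∈ D.borelSubgroup F) :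
    ∃ c ∈ Xs D F (UpP D i), ∃ t : F, ∃ h ∈ Hs A.g1 F, b = c * gx A.g1 F (D.simple i) t * h := by
  obtain ⟨u, hu, h, hh, rfl⟩ := exists_mul_sup' (H_le_normalizer_U A) (by
    rw [sup_comm]; exact hb)
  rw [← core1045b A hi, sup_comm] at hu
  have hle : D.rootSubgroup F (D.simple i) ≤ Subgroup.normalizer (Xs D F (UpP D i) : Set (GL D.Idx F)) :=
    le_sup_left.trans (core1045a A B5 hi)
  obtain ⟨c, hc, m, hm, rfl⟩ := exists_mul_sup' hle hu
  obtain ⟨t, rfl⟩ := (mem_rootSubgroup_iff A.g1).mp hm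
  rw [diagonal_eq A] at hh
  exact ⟨c, hc, t, h, hh, rfl⟩

/-! ### The action of `N` on the root elements -/

/-- How an element acts on the root elements. -/
structure NData (hG : Good D C) (n : GL D.Idx F) (π ρ : ℕ → ℕ) (c : ℕ → F) : Prop where
  lt : ∀ r < D.nroots, π r < D.nroots
  lt' : ∀ r < D.nroots, ρ r < D.nroots
  right : ∀ r < D.nroots, π (ρ r) = r
  left : ∀ r < D.nroots, ρ (π r) = r
  c_ne : ∀ r < D.nroots, c r ≠ 0
  neg : ∀ r < D.nroots, π (D.neg r) = D.neg (π r)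
  conj : ∀ r < D.nroots, ∀ t : F, n * gx hG F r t * n⁻¹ = gx hG F (π r) (c r * t)

omit A B5 in
theorem NData.mul {hG : Good D C} {n n' : GL D.Idx F} {π ρ π' ρ' : ℕ → ℕ} {c c' : ℕ → F} (h : NData hG n π ρ c)
    (h' : NData hG n' π' ρ' c') : NData hG (n * n') (π ∘ π') (ρ' ∘ ρ) (fun r => c (π' r) * c' r) := by
  refine ⟨fun r hr => h.lt _ (h'.lt r hr), fun r hr => h'.lt' _ (h.lt' r hr), fun r hr => ?_, fun r hr => ?_,
    fun r hr => mul_ne_zero (h.c_ne _ (h'.lt r hr)) (h'.c_ne r hr), fun r hr => ?_, fun r hr t => ?_⟩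
  · simp only [Function.comp]
    rw [h'.right _ (h.lt' r hr), h.right r hr]
  · simp only [Function.comp]
    rw [h.left _ (h'.lt r hr), h'.left r hr]
  · simp only [Function.comp]
    rw [h'.neg r hr, h.neg _ (h'.lt r hr)]
  · have e : n * n' * gx hG F r t * (n * n')⁻¹ = n * (n' * gx hG F r t * n'⁻¹) * n⁻¹ := by group
    rw [e, h'.conj r hr, h.conj _ (h'.lt r hr)]
    simp only [Function.comp]
    rw [mul_assoc]

omit A B5 in
theorem NData.inv {hG : Good D C} {n : GL D.Idx F} {π ρ : ℕ → ℕ} {c : ℕ → F} (h : NData hG n π ρ c) :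
    NData hG n⁻¹ ρ π (fun r => (c (ρ r))⁻¹) := by
  refine ⟨h.lt', h.lt, h.left, h.right, fun r hr => inv_ne_zero (h.c_ne _ (h.lt' r hr)), fun r hr => ?_, fun r hr t => ?_⟩
  · have h1 := h.neg (ρ r) (h.lt' r hr)
    rw [h.right r hr] at h1
    have h2 := congrArg ρ h1
    rw [h.left _ (hG.neg.lt _ (h.lt' r hr))] at h2
    exact h2.symm
  · have hq := h.lt' r hr
    have h1 := h.conj (ρ r) hq ((c (ρ r))⁻¹ * t)
    rw [h.right r hr, ← mul_assoc, mul_inv_cancel₀ (h.c_ne _ hq), one_mul] at h1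
    rw [← h1]
    group

omit B5 in
theorem nData_gs {i : ℕ} (hi : i < D.rank) :
    NData A.g1 (gs A.g1 F i) (C.w i) (C.w i) (fun r => ((C.eta i r : ℤ) : F)) := by
  refine ⟨A.g1.w.lt i hi, A.g1.w.lt i hi, A.g1.w.invol i hi, A.g1.w.invol i hi, fun r _ => ?_, fun r hr => A.g1.w.neg i hi r hr,
    fun r hr t => gs_conj_gx A.g1 hi hr t⟩
  rcases C.eta_cases i r with h | h <;> simp [h]

omit B5 in
theorem nData_Hs {h : GL D.Idx F} (hh : h ∈ Hs A.g1 F) : ∃ c : ℕ → F, NData A.g1 h id id c := by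
  obtain ⟨χ, h1, _, h4⟩ := HProp_of_mem A.g1 A.g2 hh
  refine ⟨χ, fun r hr => hr, fun r hr => hr, fun _ _ => rfl, fun _ _ => rfl, h1, fun _ _ => rfl, fun r hr t => ?_⟩
  rw [h4 r hr t, mul_inv_cancel_right]
  rfl

omit B5 in
theorem exists_nData {n : GL D.Idx F} (hn : n ∈ Ns A.g1 F) : ∃ π ρ c, NData A.g1 n π ρ c := by
  unfold Ns at hn
  rw [← Subgroup.closure_eq (Hs A.g1 F), ← Subgroup.closure_union] at hn
  induction hn using Subgroup.closure_induction with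
  | mem x hx =>
    rcases hx with hx | ⟨i, hi, rfl⟩
    · obtain ⟨c, hc⟩ := nData_Hs A (h := x) (by simpa using hx)
      exact ⟨id, id, c, hc⟩
    · exact ⟨_, _, _, nData_gs A hi⟩
  | one =>
    obtain ⟨c, hc⟩ := nData_Hs A (Subgroup.one_mem _ : (1 : GL D.Idx F) ∈ Hs A.g1 F)
    exact ⟨id, id, c, hc⟩
  | mul x y _ _ hx hy =>
    obtain ⟨π, ρ, c, h⟩ := hx
    obtain ⟨π', ρ', c', h'⟩ := hy
    exact ⟨_, _, _, h.mul h'⟩
  | inv x _ hx =>
    obtain ⟨π, ρ, c, h⟩ := hx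
    exact ⟨_, _, _, h.inv⟩

omit B5 in
/-- `gn p d * n_i ∈ H`. -/
theorem gn_mul_gs_mem {i : ℕ} (hi : i < D.rank) {d : F} (hd : d ≠ 0) :
    gn A.g1 F (D.simple i) d * gs A.g1 F i ∈ Hs A.g1 F := by
  have e : gn A.g1 F (D.simple i) d * gs A.g1 F i =
      gh A.g1 F (D.simple i) d * (gs A.g1 F i * gs A.g1 F i) := by
    unfold gh
    rw [show gn A.g1 F (D.simple i) (-1 : F) = (gs A.g1 F i)⁻¹ from by rw [gn_inv]]
    group
  rw [e]
  exact Subgroup.mul_mem _ (gh_simple_mem A.g1 A.g2 hi hd) (gs_sq_mem A.g1 A.g2 hi)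

omit B5 in
/-- The rank-one computation: `x_{-p}(c)` in terms of `x_p`, `n_p`. -/
theorem gx_neg_eq {p : ℕ} {c : F} (hc : c ≠ 0) :
    gx A.g1 F (D.neg p) c = gx A.g1 F p (c⁻¹) * gn A.g1 F p (-c⁻¹) * gx A.g1 F p (c⁻¹) := by
  unfold gn
  have e : -(-c⁻¹)⁻¹ = c := by
    rw [inv_neg, inv_inv, neg_neg]
  rw [e]
  have e1 : gx A.g1 F p (c⁻¹) * (gx A.g1 F p (-c⁻¹) * gx A.g1 F (D.neg p) c * gx A.g1 F p (-c⁻¹)) * gx A.g1 F p (c⁻¹) =
      (gx A.g1 F p (c⁻¹) * gx A.g1 F p (-c⁻¹)) * gx A.g1 F (D.neg p) c * (gx A.g1 F p (-c⁻¹) * gx A.g1 F p (c⁻¹)) := by group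
  rw [e1, gx_add, gx_add, add_neg_cancel, neg_add_cancel, gx_zero, one_mul, mul_one]

omit B5 in
/-- The basic lemma on `n_i x_{p_i}(t) n`. -/
theorem core_step {i : ℕ} (hi : i < D.rank) (t : F) {n : GL D.Idx F} (hn : n ∈ Ns A.g1 F) :
    (∃ b₂ ∈ D.borelSubgroup F, gs A.g1 F i * gx A.g1 F (D.simple i) t * n = gs A.g1 F i * n * b₂) ∨
    (∃ b₁ ∈ D.borelSubgroup F, ∃ b₂ ∈ D.borelSubgroup F, gs A.g1 F i * gx A.g1 F (D.simple i) t * n = b₁ * n * b₂) := by
  have hG := A.g1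
  have hp := hG.simple_lt hi
  have hev := A.g3.even
  have hpN := A.g3.simplePos i hi
  by_cases ht : t = 0
  · left
    refine ⟨1, Subgroup.one_mem _, ?_⟩
    rw [ht, gx_zero]
    group
  obtain ⟨π, ρ, c, hD⟩ := exists_nData A hn
  set q := ρ (D.simple i) with hq
  have hqlt : q < D.nroots := hD.lt' _ hp
  have hπq : π q = D.simple i := hD.right _ hp
  have hconj : ∀ τ : F, gx hG F (D.simple i) τ * n = n * gx hG F q ((c q)⁻¹ * τ) := by
    intro τ
    have h1 := hD.conj q hqlt ((c q)⁻¹ * τ)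
    rw [hπq, ← mul_assoc, mul_inv_cancel₀ (hD.c_ne q hqlt), one_mul] at h1
    rw [← h1]
    group
  by_cases hqN : D.nroots / 2 ≤ q
  · left
    refine ⟨gx hG F q ((c q)⁻¹ * t), U_le_B A (Subgroup.subset_closure ⟨q, _, (A.g3.posIff q hqlt).mpr hqN, rfl⟩), ?_⟩
    rw [mul_assoc, hconj, mul_assoc]
  · right
    have hnq : D.neg q < D.nroots := hG.neg.lt q hqlt
    have hnqN : D.nroots / 2 ≤ D.neg q := by
      rw [A.g3.negEq q hqlt]
      omega
    have hπnq : π (D.neg q) = D.neg (D.simple i) := by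
      rw [hD.neg q hqlt, hπq]
    have hconj' : ∀ τ : F, gx hG F (D.neg (D.simple i)) τ * n = n * gx hG F (D.neg q) ((c (D.neg q))⁻¹ * τ) := by
      intro τ
      have h1 := hD.conj (D.neg q) hnq ((c (D.neg q))⁻¹ * τ)
      rw [hπnq, ← mul_assoc, mul_inv_cancel₀ (hD.c_ne _ hnq), one_mul] at h1
      rw [← h1]
      group
    -- the element `c₁`
    set c₁ : F := (C.eta i (D.simple i) : F) * t with hc₁
    have hc₁0 : c₁ ≠ 0 := by
      rcases C.eta_cases i (D.simple i) with h | h <;> simp [hc₁, h, ht]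
    have e1 : gs hG F i * gx hG F (D.simple i) t = gx hG F (D.neg (D.simple i)) c₁ * gs hG F i := by
      rw [gs_mul_gx hG hi hp, hG.w_simple hi]
    -- `x_p(τ) n_i = n_i x_{-p}(σ)`
    have e2 : ∃ σ : F, gx hG F (D.simple i) (c₁⁻¹) * gs hG F i = gs hG F i * gx hG F (D.neg (D.simple i)) σ := by
      have hnp := hG.neg.lt _ hp
      have h3 := gs_mul_gx hG (F := F) hi hnp ((C.eta i (D.neg (D.simple i)) : F) * c₁⁻¹)
      rw [hG.w.neg i hi _ hp, hG.w_simple hi, hG.neg.invol _ hp, ← mul_assoc, eta_sq hG, one_mul] at h3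
      exact ⟨_, h3.symm⟩
    obtain ⟨σ, hσ⟩ := e2
    have hH : gn hG F (D.simple i) (-c₁⁻¹) * gs hG F i ∈ Hs hG F :=
      gn_mul_gs_mem A hi (neg_ne_zero.mpr (inv_ne_zero hc₁0))
    refine ⟨gx hG F (D.simple i) (c₁⁻¹) * (gn hG F (D.simple i) (-c₁⁻¹) * gs hG F i), ?_,
      gx hG F (D.neg q) ((c (D.neg q))⁻¹ * σ), U_le_B A (Subgroup.subset_closure ⟨_, _, (A.g3.posIff _ hnq).mpr hnqN, rfl⟩), ?_⟩
    · refine Subgroup.mul_mem _ (U_le_B A (Subgroup.subset_closure ⟨_, _, (A.g3.posIff _ hp).mpr hpN, rfl⟩)) ?_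
      apply H_le_B A
      rw [diagonal_eq A]
      exact hH
    · rw [e1, gx_neg_eq A hc₁0]
      have e3 : gx hG F (D.simple i) c₁⁻¹ * gn hG F (D.simple i) (-c₁⁻¹) * gx hG F (D.simple i) c₁⁻¹ * gs hG F i * n =
          gx hG F (D.simple i) c₁⁻¹ * gn hG F (D.simple i) (-c₁⁻¹) * (gx hG F (D.simple i) c₁⁻¹ * gs hG F i) * n := by group
      rw [e3, hσ]
      have e4 : gx hG F (D.simple i) c₁⁻¹ * gn hG F (D.simple i) (-c₁⁻¹) * (gs hG F i * gx hG F (D.neg (D.simple i)) σ) * n =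
          gx hG F (D.simple i) c₁⁻¹ * (gn hG F (D.simple i) (-c₁⁻¹) * gs hG F i) * (gx hG F (D.neg (D.simple i)) σ * n) := by group
      rw [e4, hconj']
      group

/-- The double coset condition in the general linear group. -/
theorem core_union {i : ℕ} (hi : i < D.rank) {b n : GL D.Idx F} (hb : b ∈ D.borelSubgroup F) (hn : n ∈ Ns A.g1 F) :
    (∃ b₁ ∈ D.borelSubgroup F, ∃ b₂ ∈ D.borelSubgroup F, gs A.g1 F i * b * n = b₁ * (gs A.g1 F i * n) * b₂) ∨
    (∃ b₁ ∈ D.borelSubgroup F, ∃ b₂ ∈ D.borelSubgroup F, gs A.g1 F i * b * n = b₁ * n * b₂) := by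
  have hG := A.g1
  obtain ⟨c, hc, t, h, hh, rfl⟩ := B_decomp A B5 hi hb
  have hn' : h * n ∈ Ns hG F := Subgroup.mul_mem _ (Hs_le_Ns hG hh) hn
  have hc0 : gs hG F i * c * (gs hG F i)⁻¹ ∈ D.borelSubgroup F := by
    have h1 := conj_mem_of_normalizer (gs_mem_normalizer_Up A hi) hc
    exact U_le_B A (Xs_mono (fun r hr => hr.1) h1)
  have hhB : h ∈ D.borelSubgroup F := H_le_B A (by rw [diagonal_eq A]; exact hh)
  have hsh : gs hG F i * h * (gs hG F i)⁻¹ ∈ D.borelSubgroup F :=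
    H_le_B A (by rw [diagonal_eq A]; exact gs_conj_mem hG A.g2 hi hh)
  have e : gs hG F i * (c * gx hG F (D.simple i) t * h) * n =
      (gs hG F i * c * (gs hG F i)⁻¹) * (gs hG F i * gx hG F (D.simple i) t * (h * n)) := by group
  rw [e]
  rcases core_step A hi t hn' with ⟨b₂, hb₂, h3⟩ | ⟨b₁, hb₁, b₂, hb₂, h3⟩
  · left
    refine ⟨(gs hG F i * c * (gs hG F i)⁻¹) * (gs hG F i * h * (gs hG F i)⁻¹), Subgroup.mul_mem _ hc0 hsh, b₂, hb₂, ?_⟩
    rw [h3]
    group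
  · right
    refine ⟨(gs hG F i * c * (gs hG F i)⁻¹) * b₁ * h, Subgroup.mul_mem _ (Subgroup.mul_mem _ hc0 hb₁) hhB, b₂, hb₂, ?_⟩
    rw [h3]
    group

end Cfsg.Agent.Lib.ChevSym
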