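import Cfsg.Agent.Lib.ChevBN

/-! The `(B,N)`-pair of a tabulated Chevalley group (helper4). -/

set_option autoImplicit false
set_option linter.all false

namespace Cfsg.Agent.Lib.ChevSym

open Cfsg.Lie Cfsg.Lie.ChevalleyDatum Matrix Cfsg.Agent.Lib.MatFilt

variable {F : Type*} [Field F] {D : ChevalleyDatum} {C : Cert} {T : Tab}

variable (A : AllGood D C T) {tp : List (ℕ × ℕ)} (B5 : Good5 D C T tp)
include A

theorem Hs_le_B : Hs A.g1 F ≤ D.borelSubgroup F := by
  rw [← diagonal_eq A]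
  exact H_le_B A

theorem gs_mem_group {i : ℕ} : gs A.g1 F i ∈ D.group F := gn_mem_group A _ _

theorem gs_mem_N {i : ℕ} (hi : i < D.rank) : gs A.g1 F i ∈ D.monomialSubgroup F := by
  rw [monomial_eq A]
  exact gs_mem_Ns A.g1 hi

/-- The elements `n_i` have distinct images in `W`. -/
theorem gs_inj {i i' : ℕ} (hi : i < D.rank) (hi' : i' < D.rank) (h : (gs A.g1 F i)⁻¹ * gs A.g1 F i' ∈ D.borelSubgroup F) :
    gs A.g1 F i = gs A.g1 F i' := by
  have hG := A.g1
  have hN : (gs hG F i)⁻¹ * gs hG F i' ∈ Ns hG F :=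
    Subgroup.mul_mem _ (Subgroup.inv_mem _ (gs_mem_Ns hG hi)) (gs_mem_Ns hG hi')
  have hH := B_inf_N_le A h hN
  have m1 := monP_mul (monP_gs hG hi (F := F)) (monP_Hs A hH)
  have e : gs hG F i * ((gs hG F i)⁻¹ * gs hG F i') = gs hG F i' := by group
  rw [e] at m1
  have m2 := monP_gs hG hi' (F := F)
  have hp := hG.simple_lt hi
  have h3 := monP_unique m1 m2 hp
  simp only [Function.comp, id] at h3
  rw [hG.w_simple hi] at h3
  by_cases hne : D.simple i = D.simple i'
  · show gn hG F (D.simple i) 1 = gn hG F (D.simple i') 1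
    rw [hne]
  · exfalso
    have h4 := A.g3.wPos i' hi' _ hp (A.g3.simplePos i hi) hne
    rw [← h3, A.g3.negEq _ hp] at h4
    have := A.g3.simplePos i hi
    have := A.g3.even
    omega

include B5

/-- The `(B,N)`-pair. -/
noncomputable def chevBN : Cfsg.BNPair (D.group F) where
  B := (D.borelSubgroup F).subgroupOf (D.group F)
  N := (D.monomialSubgroup F).subgroupOf (D.group F)
  S := {n | ∃ i < D.rank, ((n : GL D.Idx F) : Matrix D.Idx D.Idx F) = D.nMat F (D.simple i) 1}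
  sup_eq_top := by
    rw [← Subgroup.subgroupOf_sup (B_le_group A) (N_le_group A), B_sup_N A, Subgroup.subgroupOf_self]
  conj_mem := by
    rintro n hn t ⟨ht1, ht2⟩
    replace ht1 : (t : GL D.Idx F) ∈ D.borelSubgroup F := Subgroup.mem_subgroupOf.mp ht1
    replace ht2 : (t : GL D.Idx F) ∈ D.monomialSubgroup F := Subgroup.mem_subgroupOf.mp ht2
    replace hn : (n : GL D.Idx F) ∈ D.monomialSubgroup F := Subgroup.mem_subgroupOf.mp hn
    rw [monomial_eq A] at hn ht2
    exact Subgroup.mem_subgroupOf.mpr (Hs_le_B A (Ns_normalizes A hn (B_inf_N_le A ht1 ht2)))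
  subset := by
    rintro n ⟨i, hi, h⟩
    rw [SetLike.mem_coe, Subgroup.mem_subgroupOf, eq_gn A.g1 h]
    exact gs_mem_N A hi
  sq_mem := by
    rintro s ⟨i, hi, h⟩
    rw [Subgroup.mem_subgroupOf]
    show (s : GL D.Idx F) * (s : GL D.Idx F) ∈ _
    rw [eq_gn A.g1 h]
    exact Hs_le_B A (gs_sq_mem A.g1 A.g2 hi)
  inj := by
    rintro s ⟨i, hi, h⟩ s' ⟨i', hi', h'⟩ hs
    rw [Subgroup.mem_subgroupOf] at hs
    apply Subtype.ext
    have hs' : ((s : GL D.Idx F))⁻¹ * (s' : GL D.Idx F) ∈ D.borelSubgroup F := hs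
    rw [eq_gn A.g1 h, eq_gn A.g1 h'] at hs' ⊢
    exact gs_inj A hi hi' hs'
  closure_sup := by
    apply le_antisymm
    · apply sup_le
      · rw [Subgroup.closure_le]
        rintro n ⟨i, hi, h⟩
        rw [SetLike.mem_coe, Subgroup.mem_subgroupOf, eq_gn A.g1 h]
        exact gs_mem_N A hi
      · exact inf_le_right
    · rintro ⟨x, hx⟩ hx'
      rw [Subgroup.mem_subgroupOf] at hx'
      change x ∈ D.monomialSubgroup F at hx'
      rw [monomial_eq A] at hx'
      obtain ⟨l, hl, h, hh, rfl⟩ := isWordH_of_mem A hx'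
      have hlift : ∀ l : List ℕ, (∀ i ∈ l, i < D.rank) →
          ∃ y ∈ Subgroup.closure {n : D.group F | ∃ i < D.rank,
            ((n : GL D.Idx F) : Matrix D.Idx D.Idx F) = D.nMat F (D.simple i) 1}, (y : GL D.Idx F) = wd A.g1 F l := by
        intro l
        induction l with
        | nil => exact fun _ => ⟨1, Subgroup.one_mem _, rfl⟩
        | cons i l ih =>
          intro hl
          obtain ⟨y, hy, e⟩ := ih fun j hj => hl j (by simp [hj])
          have hi := hl i (by simp)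
          refine ⟨⟨gs A.g1 F i, gs_mem_group A⟩ * y, Subgroup.mul_mem _ (Subgroup.subset_closure ⟨i, hi, coe_gn A.g1 _ _⟩) hy, ?_⟩
          show gs A.g1 F i * (y : GL D.Idx F) = _
          rw [e, wd_cons]
      obtain ⟨y, hy, e⟩ := hlift l hl
      have hhG : h ∈ D.group F := by
        rw [← diagonal_eq A] at hh
        exact H_le_group A hh
      have e2 : (⟨wd A.g1 F l * h, hx⟩ : D.group F) = y * ⟨h, hhG⟩ := by
        apply Subtype.ext
        show wd A.g1 F l * h = (y : GL D.Idx F) * h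
        rw [e]
      rw [e2]
      refine Subgroup.mul_mem _ (Subgroup.mem_sup_left hy) (Subgroup.mem_sup_right ⟨?_, ?_⟩)
      · exact Subgroup.mem_subgroupOf.mpr (Hs_le_B A hh)
      · refine Subgroup.mem_subgroupOf.mpr ?_
        show h ∈ D.monomialSubgroup F
        rw [monomial_eq A]
        exact Hs_le_Ns A.g1 hh
  mul_mem_union := by
    rintro s ⟨i, hi, h⟩ n hn b hb
    rw [Subgroup.mem_subgroupOf] at hn hb
    have hn' : (n : GL D.Idx F) ∈ Ns A.g1 F := by
      rw [← monomial_eq A]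
      exact hn
    have hs : (s : GL D.Idx F) = gs A.g1 F i := eq_gn A.g1 h
    have key := core_union A B5 hi hb hn'
    rw [← hs] at key
    rcases key with ⟨b₁, hb₁, b₂, hb₂, e⟩ | ⟨b₁, hb₁, b₂, hb₂, e⟩
    · left
      rw [DoubleCoset.mem_doubleCoset]
      refine ⟨⟨b₁, B_le_group A hb₁⟩, (Subgroup.mem_subgroupOf.mpr hb₁), ⟨b₂, B_le_group A hb₂⟩,
        (Subgroup.mem_subgroupOf.mpr hb₂), Subtype.ext ?_⟩
      exact e
    · right
      rw [DoubleCoset.mem_doubleCoset]
      refine ⟨⟨b₁, B_le_group A hb₁⟩, (Subgroup.mem_subgroupOf.mpr hb₁), ⟨b₂, B_le_group A hb₂⟩,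
        (Subgroup.mem_subgroupOf.mpr hb₂), Subtype.ext ?_⟩
      exact e
  conj_ne := by
    rintro s ⟨i, hi, h⟩ heq
    have hG := A.g1
    have hs : (s : GL D.Idx F) = gs hG F i := eq_gn hG h
    have hp := hG.simple_lt hi
    have hpos : D.IsPosRoot (D.simple i) := (A.g3.posIff _ hp).mpr (A.g3.simplePos i hi)
    have hx : gx hG F (D.simple i) (1 : F) ∈ D.borelSubgroup F :=
      U_le_B A (Subgroup.subset_closure ⟨_, _, hpos, rfl⟩)
    let x : D.group F := ⟨gx hG F (D.simple i) (1 : F), gx_mem_group A _ _⟩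
    have hxB : x ∈ (((D.borelSubgroup F).subgroupOf (D.group F) : Subgroup (D.group F)) : Set (D.group F)) :=
      Subgroup.mem_subgroupOf.mpr hx
    have h1 : s * x * s ∈ (((D.borelSubgroup F).subgroupOf (D.group F) : Subgroup (D.group F)) : Set (D.group F)) := by
      rw [← heq]
      exact ⟨x, hxB, rfl⟩
    have h2 : (s : GL D.Idx F) * gx hG F (D.simple i) (1 : F) * (s : GL D.Idx F) ∈ D.borelSubgroup F :=
      Subgroup.mem_subgroupOf.mp h1
    rw [hs] at h2
    have h3 := gs_conj_gx hG (F := F) hi hp (1 : F)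
    rw [hG.w_simple hi] at h3
    have h4 : gx hG F (D.neg (D.simple i)) ((C.eta i (D.simple i) : F) * 1) ∈ D.borelSubgroup F := by
      rw [← h3]
      have e : gs hG F i * gx hG F (D.simple i) 1 * (gs hG F i)⁻¹ =
          (gs hG F i * gx hG F (D.simple i) 1 * gs hG F i) * (gs hG F i * gs hG F i)⁻¹ := by group
      rw [e]
      exact Subgroup.mul_mem _ h2 (Subgroup.inv_mem _ (Hs_le_B A (gs_sq_mem hG A.g2 hi)))
    have hnp := hG.neg.lt _ hp
    have hneg : D.IsNegRoot (D.neg (D.simple i)) := by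
      refine (A.g3.negIff _ hnp).mpr ?_
      rw [A.g3.negEq _ hp]
      have := A.g3.simplePos i hi
      have := A.g3.even
      omega
    have h5 : gx hG F (D.neg (D.simple i)) ((C.eta i (D.simple i) : F) * 1) ∈ D.borelSubgroup F ⊓ D.negUnipotent F :=
      ⟨h4, Subgroup.subset_closure ⟨_, _, hneg, rfl⟩⟩
    rw [B_inf_V A, Subgroup.mem_bot] at h5
    have h6 := congrArg Units.val h5
    rw [coe_gx, Units.val_one, x_eq_one_iff hG.neg hnp] at h6
    rcases C.eta_cases i (D.simple i) with h7 | h7 <;> simp [h7] at h6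

/-- The `(B,N)`-pair, with its data. -/
theorem core1042 :
    ∃ P : Cfsg.BNPair ↥(D.group F),
      P.B = (D.borelSubgroup F).subgroupOf (D.group F) ∧ P.N = (D.monomialSubgroup F).subgroupOf (D.group F) ∧
      P.S = {n : ↥(D.group F) | ∃ i < D.rank, ((n : GL D.Idx F) : Matrix D.Idx D.Idx F) = D.nMat F (D.simple i) 1} :=
  ⟨chevBN A B5, rfl, rfl, rfl⟩

/-- `B ∪ B n_p B` is a subgroup. -/
theorem core1044 {i : ℕ} (hi : i < D.rank) (n : GL D.Idx F) (hn : (n : Matrix D.Idx D.Idx F) = D.nMat F (D.simple i) 1) :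
    ∃ P : Subgroup (GL D.Idx F), (P : Set (GL D.Idx F)) =
      (D.borelSubgroup F : Set (GL D.Idx F)) ∪ DoubleCoset.doubleCoset n (D.borelSubgroup F : Set (GL D.Idx F)) (D.borelSubgroup F) := by
  have hG := A.g1
  have hn1 : n = gs hG F i := eq_gn hG hn
  have hnN : n ∈ Ns hG F := by rw [hn1]; exact gs_mem_Ns hG hi
  have hsq : n * n ∈ D.borelSubgroup F := by rw [hn1]; exact Hs_le_B A (gs_sq_mem hG A.g2 hi)
  have hmem : ∀ {g : GL D.Idx F}, g ∈ DoubleCoset.doubleCoset n (D.borelSubgroup F : Set (GL D.Idx F)) (D.borelSubgroup F) ↔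
      ∃ x ∈ D.borelSubgroup F, ∃ y ∈ D.borelSubgroup F, g = x * n * y := by
    intro g
    exact DoubleCoset.mem_doubleCoset
  refine ⟨{ carrier := (D.borelSubgroup F : Set (GL D.Idx F)) ∪ DoubleCoset.doubleCoset n (D.borelSubgroup F : Set (GL D.Idx F)) (D.borelSubgroup F)
            one_mem' := Or.inl (Subgroup.one_mem _)
            mul_mem' := ?_
            inv_mem' := ?_ }, rfl⟩
  · rintro a b (ha | ha) (hb | hb)
    · exact Or.inl (Subgroup.mul_mem _ ha hb)
    · right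
      obtain ⟨x, hx, y, hy, rfl⟩ := hmem.mp hb
      exact hmem.mpr ⟨a * x, Subgroup.mul_mem _ ha hx, y, hy, by group⟩
    · right
      obtain ⟨x, hx, y, hy, rfl⟩ := hmem.mp ha
      exact hmem.mpr ⟨x, hx, y * b, Subgroup.mul_mem _ hy hb, by group⟩
    · obtain ⟨x, hx, y, hy, rfl⟩ := hmem.mp ha
      obtain ⟨x', hx', y', hy', rfl⟩ := hmem.mp hb
      have key := core_union A B5 hi (Subgroup.mul_mem _ hy hx') hnN
      rw [← hn1] at key
      have e : x * n * y * (x' * n * y') = x * (n * (y * x') * n) * y' := by group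
      rw [e]
      rcases key with ⟨b₁, hb₁, b₂, hb₂, h3⟩ | ⟨b₁, hb₁, b₂, hb₂, h3⟩
      · left
        rw [h3]
        exact Subgroup.mul_mem _ (Subgroup.mul_mem _ hx (Subgroup.mul_mem _ (Subgroup.mul_mem _ hb₁ hsq) hb₂)) hy'
      · right
        rw [h3]
        exact hmem.mpr ⟨x * b₁, Subgroup.mul_mem _ hx hb₁, b₂ * y', Subgroup.mul_mem _ hb₂ hy', by group⟩
  · rintro a (ha | ha)
    · exact Or.inl (Subgroup.inv_mem _ ha)
    · right
      obtain ⟨x, hx, y, hy, rfl⟩ := hmem.mp ha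
      refine hmem.mpr ⟨y⁻¹ * (n * n)⁻¹, Subgroup.mul_mem _ (Subgroup.inv_mem _ hy) (Subgroup.inv_mem _ hsq), x⁻¹, Subgroup.inv_mem _ hx, by group⟩

end Cfsg.Agent.Lib.ChevSym
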