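import Cfsg.Agent.Lib.ChevCore

/-! Basic facts on root elements of a Chevalley datum with a certificate (helper4). -/

set_option autoImplicit false
set_option linter.all false

namespace Cfsg.Agent.Lib.ChevSym

open Cfsg.Lie Cfsg.Lie.ChevalleyDatum Matrix

section checks

variable (D : ChevalleyDatum) (C : Cert)

noncomputable def addCheck (r : ℕ) : Bool :=
  checkOn D [r] [(r, pa), (r, pb)] [(r, padd pa pb)]

/-- The measure used for the induction over all roots. -/
noncomputable def mu (r : ℕ) : ℕ :=
  cond (Nat.ble (Nat.div D.nroots 2) r)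
    (Nat.mul 2 (Nat.sub r (Nat.div D.nroots 2)))
    (Nat.add (Nat.mul 2 (Nat.sub (Nat.sub (Nat.div D.nroots 2) 1) r)) 1)

noncomputable def anyL {α : Type} (f : α → Bool) (L : List α) : Bool :=
  List.rec (motive := fun _ => Bool) false (fun a _ ih => cond (f a) true ih) L

theorem anyL_iff {α : Type} (f : α → Bool) (L : List α) : anyL f L = true ↔ ∃ x ∈ L, f x = true := by
  induction L with
  | nil => simp [anyL]
  | cons a L ih =>
    show (cond (f a) true (anyL f L)) = true ↔ _
    cases h : f a <;> simp [h, ih]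

noncomputable def descentCheck1 (r : ℕ) : Bool :=
  anyL (fun i => cond (Nat.beq (D.simple i) r) true (Nat.blt (mu D (C.w i r)) (mu D r))) (List.range D.rank)

noncomputable def descentCheck : Bool := allL (descentCheck1 D C) (List.range D.nroots)

/-- cheap facts on the fundamental roots -/
noncomputable def simpleCheck : Bool :=
  allL (fun i =>
    cond (Nat.blt (D.simple i) D.nroots)
      (cond (Nat.beq (C.w i (D.simple i)) (D.neg (D.simple i)))
        (cond (addCheck D (D.simple i)) (addCheck D (D.neg (D.simple i))) false) false) false)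
    (List.range D.rank)

noncomputable def etaNegCheck : Bool :=
  allL (fun i => allL (fun s => iBeq (C.eta i (D.neg s)) (C.eta i s)) (List.range D.nroots)) (List.range D.rank)

end checks

/-- Everything about a datum and a certificate that follows from cheap table checks and the
conjugation check. -/
structure Good (D : ChevalleyDatum) (C : Cert) : Prop where
  sorted : ChainSorted D
  neg : NegOK D
  w : WOK D C
  n : nCheck D C = true
  conj : ∀ i < D.rank, ∀ r < D.nroots, conjCheck1 D C i r = true
  simple : simpleCheck D C = true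
  descent : descentCheck D C = true
  etaNeg : etaNegCheck D C = true

section basic

variable {F : Type*} [Field F] {D : ChevalleyDatum} {C : Cert}

theorem Good.conj1 (hG : Good D C) {i r : ℕ} (hi : i < D.rank) (hr : r < D.nroots) : conjCheck1 D C i r = true :=
  hG.conj i hi r hr

theorem Good.simple_lt (hG : Good D C) {i : ℕ} (hi : i < D.rank) : D.simple i < D.nroots := by
  have h := (allL_iff _ _).mp hG.simple i (List.mem_range.mpr hi)
  cases e : Nat.blt (D.simple i) D.nroots
  · rw [e] at h; exact absurd h (by simp)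
  · exact Nat.le_of_ble_eq_true e

theorem Good.w_simple (hG : Good D C) {i : ℕ} (hi : i < D.rank) : C.w i (D.simple i) = D.neg (D.simple i) := by
  have h := (allL_iff _ _).mp hG.simple i (List.mem_range.mpr hi)
  cases e : Nat.blt (D.simple i) D.nroots
  · rw [e] at h; exact absurd h (by simp)
  · rw [e] at h
    simp only [cond_true] at h
    cases e2 : Nat.beq (C.w i (D.simple i)) (D.neg (D.simple i))
    · rw [e2] at h; exact absurd h (by simp)
    · exact Nat.eq_of_beq_eq_true e2

theorem Good.add_simple (hG : Good D C) {i : ℕ} (hi : i < D.rank) :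
    addCheck D (D.simple i) = true ∧ addCheck D (D.neg (D.simple i)) = true := by
  have h := (allL_iff _ _).mp hG.simple i (List.mem_range.mpr hi)
  cases e : Nat.blt (D.simple i) D.nroots
  · rw [e] at h; exact absurd h (by simp)
  · rw [e] at h
    simp only [cond_true] at h
    cases e2 : Nat.beq (C.w i (D.simple i)) (D.neg (D.simple i))
    · rw [e2] at h; exact absurd h (by simp)
    · rw [e2] at h
      simp only [cond_true] at h
      cases e3 : addCheck D (D.simple i)
      · rw [e3] at h; exact absurd h (by simp)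
      · rw [e3] at h
        exact ⟨rfl, h⟩

theorem Good.eta_neg (hG : Good D C) {i s : ℕ} (hi : i < D.rank) (hs : s < D.nroots) : C.eta i (D.neg s) = C.eta i s :=
  iBeq_eq ((allL_iff _ _).mp ((allL_iff _ _).mp hG.etaNeg i (List.mem_range.mpr hi)) s (List.mem_range.mpr hs))

theorem mu_of_ge {r : ℕ} (h : D.nroots / 2 ≤ r) : mu D r = 2 * (r - D.nroots / 2) := by
  unfold mu
  have : Nat.ble (Nat.div D.nroots 2) r = true := ble_true' h
  rw [this]; rfl

/-- Induction over all roots along the reflections in the fundamental roots. -/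
theorem Good.root_ind (hG : Good D C) (P : ℕ → Prop) (h1 : ∀ i < D.rank, P (D.simple i))
    (h2 : ∀ i < D.rank, ∀ r < D.nroots, P r → P (C.w i r)) : ∀ r < D.nroots, P r := by
  have key : ∀ m r, mu D r = m → r < D.nroots → P r := by
    intro m
    induction m using Nat.strong_induction_on with
    | _ m ih =>
      intro r hm hr
      have h3 := (allL_iff _ _).mp hG.descent r (List.mem_range.mpr hr)
      obtain ⟨i, hi, h4⟩ := (anyL_iff _ _).mp h3
      have hi' : i < D.rank := List.mem_range.mp hi
      cases e : Nat.beq (D.simple i) r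
      · rw [e] at h4
        simp only [cond_false] at h4
        have h5 : mu D (C.w i r) < mu D r := Nat.le_of_ble_eq_true h4
        have h6 := ih _ (hm ▸ h5) (C.w i r) rfl (hG.w.lt i hi' r hr)
        have h7 := h2 i hi' _ (hG.w.lt i hi' r hr) h6
        rwa [hG.w.invol i hi' r hr] at h7
      · rw [← Nat.eq_of_beq_eq_true e]
        exact h1 i hi'
  exact fun r hr => key _ r rfl hr

theorem x_out {r : ℕ} (hr : ¬ r < D.nroots) (t : F) : D.x F r t = 1 := by
  simp [ChevalleyDatum.x, hr]

/-- `x_r(0) = 1`. -/
theorem x_zero (r : ℕ) : D.x F r 0 = 1 := by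
  by_cases hr : r < D.nroots
  · have h0 : D.x F r (0 : F) = D.xMat F ⟨r, hr⟩ 0 := by
      simp [ChevalleyDatum.x, hr]
    rw [h0]
    ext u j
    rcases j with i | s
    · rcases u with i' | v
      · show (if i' = i then (1 : F) else 0) = _
        simp [Matrix.one_apply]
      · show (if v = ⟨r, hr⟩ then -(((D.cartanSR.getD i.val #[]).getD r 0 : ℤ) : F) * 0 else 0) = _
        simp [Matrix.one_apply]
    · by_cases h3 : s = ⟨r, hr⟩
      · rcases u with i' | v
        · show (if s = ⟨r, hr⟩ then (0 : F) else _) = _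
          rw [if_pos h3]
          simp [Matrix.one_apply]
        · show (if s = ⟨r, hr⟩ then (if v = ⟨r, hr⟩ then (1 : F) else 0) else _) = _
          rw [if_pos h3, h3]
          simp [Matrix.one_apply]
      · by_cases hsn : s.val = D.negIdx.getD r 0
        · rcases u with i' | v
          · show (if s = ⟨r, hr⟩ then (0 : F) else if s.val = D.negIdx.getD r 0 then
              (((D.coroot.getD r #[]).getD i'.val 0 : ℤ) : F) * 0 else 0) = _
            rw [if_neg h3, if_pos hsn]
            simp [Matrix.one_apply]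
          · show (if s = ⟨r, hr⟩ then (if v = ⟨r, hr⟩ then (1 : F) else 0) else if s.val = D.negIdx.getD r 0 then
              (if v = s then 1 else if v = ⟨r, hr⟩ then -((0 : F) ^ 2) else 0) else _) = _
            rw [if_neg h3, if_pos hsn]
            by_cases h7 : v = s
            · simp [h7, Matrix.one_apply]
            · have h8 : (Sum.inr v : D.Idx) ≠ Sum.inr s := fun h => h7 (Sum.inr.inj h)
              simp [h7, Matrix.one_apply]
        · rcases u with i' | v
          · show (if s = ⟨r, hr⟩ then (0 : F) else if s.val = D.negIdx.getD r 0 then _ else 0) = _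
            rw [if_neg h3, if_neg hsn]
            simp [Matrix.one_apply]
          · show (if s = ⟨r, hr⟩ then _ else if s.val = D.negIdx.getD r 0 then _ else
              (if v = s then (1 : F) else 0) + ((D.chainCoeff r s.val v.val).map
                fun km => ((km.2 : ℤ) : F) * (0 : F) ^ km.1).sum) = _
            rw [if_neg h3, if_neg hsn]
            have h9 : ((D.chainCoeff r s.val v.val).map fun km => ((km.2 : ℤ) : F) * (0 : F) ^ km.1).sum = 0 := by
              apply List.sum_eq_zero
              intro x hx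
              obtain ⟨km, hkm, rfl⟩ := List.mem_map.mp hx
              unfold ChevalleyDatum.chainCoeff at hkm
              obtain ⟨e, _, he⟩ := List.mem_flatMap.mp hkm
              obtain ⟨q, _, rfl⟩ := List.mem_map.mp he
              simp
            rw [h9, add_zero]
            by_cases h7 : v = s
            · simp [h7, Matrix.one_apply]
            · simp [h7, Matrix.one_apply]
  · exact x_out hr 0

theorem wordMat_cons (r : ℕ) (t : F) (w : List (ℕ × F)) :
    D.wordMat F ((r, t) :: w) = D.x F r t * D.wordMat F w := by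
  simp [ChevalleyDatum.wordMat]

theorem wordMat_nil : D.wordMat F [] = 1 := by
  simp [ChevalleyDatum.wordMat]

theorem wordMat_append (w w' : List (ℕ × F)) :
    D.wordMat F (w ++ w') = D.wordMat F w * D.wordMat F w' := by
  simp [ChevalleyDatum.wordMat]

theorem nMat_eq (r : ℕ) (t : F) :
    D.nMat F r t = D.x F r t * D.x F (D.neg r) (-t⁻¹) * D.x F r t := by
  simp [ChevalleyDatum.nMat, ChevalleyDatum.nWord, ChevalleyDatum.wordMat, mul_assoc]

theorem hMat_eq (r : ℕ) (t : F) : D.hMat F r t = D.nMat F r t * D.nMat F r (-1) := by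
  simp [ChevalleyDatum.hMat, ChevalleyDatum.hWord, ChevalleyDatum.nMat, wordMat_append]

theorem x_add_of_check {r : ℕ} (hS : ChainSorted D) (h : addCheck D r = true) (a b : F) :
    D.x F r a * D.x F r b = D.x F r (a + b) := by
  have h1 := wordMat_eq_of_checkOn hS h a b
  simp only [evW, List.map_cons, List.map_nil, pev_pa, pev_pb, pev_padd] at h1
  simpa [ChevalleyDatum.wordMat] using h1

variable (hG : Good D C)
include hG

theorem nMat_simple_mul (hi' : True) {i : ℕ} (hi : i < D.rank) (s t : F) (hs : s = 1) :
    True := trivial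

/-- `n_i · n_i(-1) = 1` -/
theorem nMat_simple_inv {i : ℕ} (hi : i < D.rank) :
    D.nMat F (D.simple i) 1 * D.nMat F (D.simple i) (-1) = 1 ∧
      D.nMat F (D.simple i) (-1) * D.nMat F (D.simple i) 1 = 1 := by
  obtain ⟨h1, h2⟩ := hG.add_simple hi
  have a1 := x_add_of_check (F := F) hG.sorted h1
  have a2 := x_add_of_check (F := F) hG.sorted h2
  rw [nMat_eq, nMat_eq]
  have e1 : -((1 : F)⁻¹) = -1 := by simp
  have e2 : -((-1 : F)⁻¹) = 1 := by simp
  rw [e1, e2]
  constructor
  · calc D.x F (D.simple i) 1 * D.x F (D.neg (D.simple i)) (-1) * D.x F (D.simple i) 1 *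
          (D.x F (D.simple i) (-1) * D.x F (D.neg (D.simple i)) 1 * D.x F (D.simple i) (-1))
        = D.x F (D.simple i) 1 * (D.x F (D.neg (D.simple i)) (-1) * ((D.x F (D.simple i) 1 * D.x F (D.simple i) (-1)) *
            D.x F (D.neg (D.simple i)) 1)) * D.x F (D.simple i) (-1) := by noncomm_ring
      _ = 1 := by
        rw [a1, add_neg_cancel, x_zero, one_mul, a2, neg_add_cancel, x_zero, mul_one, a1, add_neg_cancel, x_zero]
  · calc D.x F (D.simple i) (-1) * D.x F (D.neg (D.simple i)) 1 * D.x F (D.simple i) (-1) *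
          (D.x F (D.simple i) 1 * D.x F (D.neg (D.simple i)) (-1) * D.x F (D.simple i) 1)
        = D.x F (D.simple i) (-1) * (D.x F (D.neg (D.simple i)) 1 * ((D.x F (D.simple i) (-1) * D.x F (D.simple i) 1) *
            D.x F (D.neg (D.simple i)) (-1))) * D.x F (D.simple i) 1 := by noncomm_ring
      _ = 1 := by
        rw [a1, neg_add_cancel, x_zero, one_mul, a2, add_neg_cancel, x_zero, mul_one, a1, neg_add_cancel, x_zero]

/-- `n_i x_r(t) = x_{w r}(η t) n_i`. -/
theorem nMat_mul_x' {i r : ℕ} (hi : i < D.rank) (hr : r < D.nroots) (t : F) :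
    D.nMat F (D.simple i) 1 * D.x F r t =
      D.x F (C.w i r) ((C.eta i r : F) * t) * D.nMat F (D.simple i) 1 :=
  nMat_mul_x hG.sorted hG.w hG.neg hG.n hi hr (hG.conj1 hi hr) t

theorem eta_sq (i s : ℕ) : ((C.eta i s : ℤ) : F) * (C.eta i s : F) = 1 := by
  rcases C.eta_cases i s with h | h <;> simp [h]

/-- `x_{w r}(t) = n_i x_r(η t) n_i⁻¹` -/
theorem x_w_eq {i r : ℕ} (hi : i < D.rank) (hr : r < D.nroots) (t : F) :
    D.x F (C.w i r) t = D.nMat F (D.simple i) 1 * D.x F r ((C.eta i r : F) * t) * D.nMat F (D.simple i) (-1) := by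
  have h1 := nMat_mul_x' hG (F := F) hi hr ((C.eta i r : F) * t)
  rw [h1, ← mul_assoc, eta_sq hG, one_mul, mul_assoc, (nMat_simple_inv hG hi).1, mul_one]

/-- Additivity of root elements. -/
theorem x_add (r : ℕ) (a b : F) : D.x F r a * D.x F r b = D.x F r (a + b) := by
  by_cases hr : r < D.nroots
  · have key : ∀ r < D.nroots, ∀ a b : F, D.x F r a * D.x F r b = D.x F r (a + b) := by
      apply hG.root_ind
      · intro i hi a b
        exact x_add_of_check hG.sorted (hG.add_simple hi).1 a b
      · intro i hi r hr h a b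
        rw [x_w_eq hG hi hr, x_w_eq hG hi hr, x_w_eq hG hi hr]
        calc D.nMat F (D.simple i) 1 * D.x F r ((C.eta i r : F) * a) * D.nMat F (D.simple i) (-1) *
              (D.nMat F (D.simple i) 1 * D.x F r ((C.eta i r : F) * b) * D.nMat F (D.simple i) (-1))
            = D.nMat F (D.simple i) 1 * D.x F r ((C.eta i r : F) * a) * (D.nMat F (D.simple i) (-1) *
              D.nMat F (D.simple i) 1) * D.x F r ((C.eta i r : F) * b) * D.nMat F (D.simple i) (-1) := by noncomm_ring
          _ = _ := by
            rw [(nMat_simple_inv hG hi).2, mul_one, mul_assoc (D.nMat F (D.simple i) 1), h, mul_add]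
    exact key r hr a b
  · rw [x_out hr, x_out hr, x_out hr, one_mul]

omit hG in
/-- `x_r(t) = 1` only for `t = 0`. -/
theorem x_eq_one_iff (hN : NegOK D) {r : ℕ} (hr : r < D.nroots) (t : F) : D.x F r t = 1 ↔ t = 0 := by
  constructor
  · intro h
    have h0 : D.x F r t = D.xMat F ⟨r, hr⟩ t := by
      simp [ChevalleyDatum.x, hr]
    have hs := hN.lt r hr
    have hne := hN.ne r hr
    have h1 := congrFun (congrFun h (Sum.inr ⟨r, hr⟩)) (Sum.inr ⟨D.neg r, hs⟩)
    rw [h0] at h1
    have h3 : (⟨D.neg r, hs⟩ : Fin D.nroots) ≠ ⟨r, hr⟩ := fun h => hne (congrArg Fin.val h)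
    have h4 : D.xMat F ⟨r, hr⟩ t (Sum.inr ⟨r, hr⟩) (Sum.inr ⟨D.neg r, hs⟩) = -(t ^ 2) := by
      show (if (⟨D.neg r, hs⟩ : Fin D.nroots) = ⟨r, hr⟩ then (if (⟨r, hr⟩ : Fin D.nroots) = ⟨r, hr⟩ then (1 : F) else 0)
        else if D.neg r = D.negIdx.getD r 0 then
            (if (⟨r, hr⟩ : Fin D.nroots) = ⟨D.neg r, hs⟩ then 1 else if (⟨r, hr⟩ : Fin D.nroots) = ⟨r, hr⟩ then -(t ^ 2) else 0) else _) = _
      rw [if_neg h3, if_neg h3.symm, if_pos rfl]
      exact if_pos rfl
    rw [h4] at h1
    have h5 : (1 : Matrix D.Idx D.Idx F) (Sum.inr ⟨r, hr⟩) (Sum.inr ⟨D.neg r, hs⟩) = 0 := by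
      rw [Matrix.one_apply_ne]
      intro h6
      exact h3 (Sum.inr.inj h6).symm
    rw [h5] at h1
    have h6 : t ^ 2 = 0 := by
      simpa using h1
    exact pow_eq_zero_iff (two_ne_zero) |>.mp h6
  · rintro rfl
    exact x_zero r

end basic

end Cfsg.Agent.Lib.ChevSym
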