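import Cfsg.Agent.Lib.ChevPerf
import Cfsg.Agent.S0319

/-! The longest element, the core of `B`, irreducibility; simplicity of the Chevalley groups (helper4). -/

set_option autoImplicit false
set_option linter.all false

namespace Cfsg.Agent.Lib.ChevSym

open Cfsg.Lie Cfsg.Lie.ChevalleyDatum Matrix Cfsg.Agent.Lib.MatFilt

variable {F : Type*} [Field F] {D : ChevalleyDatum} {C : Cert} {T : Tab}

/-- Further tables. -/
structure Tab6 where
  l0 : List ℕ
  par : List ℕ
  dep : List ℕ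

section checks

variable (D : ChevalleyDatum) (C : Cert) (X : Tab6)

noncomputable def l0Check : Bool :=
  cond (allL (fun i => Nat.blt i D.rank) X.l0)
    (allL (fun r => Nat.blt (wp C X.l0 (Nat.add (Nat.div D.nroots 2) r)) (Nat.div D.nroots 2)) (List.range (Nat.div D.nroots 2))) false

/-- `n_i`, `n_j` do not commute in the Weyl group. -/
noncomputable def adjCheck (i j : ℕ) : Bool :=
  anyL (fun r => cond (Nat.beq (C.w i (C.w j (C.w i (C.w j r)))) r) false true) (List.range D.nroots)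

noncomputable def treeCheck : Bool :=
  allL (fun i => cond (Nat.beq (getL X.dep i) 0) (Nat.beq i 0)
    (cond (Nat.blt (getL X.par i) D.rank) (cond (Nat.blt (getL X.dep (getL X.par i)) (getL X.dep i))
      (adjCheck D C i (getL X.par i)) false) false)) (List.range D.rank)

end checks

structure Good6 (D : ChevalleyDatum) (C : Cert) (X : Tab6) : Prop where
  l0 : l0Check D C X = true
  tree : treeCheck D C X = true
  rank_pos : 0 < D.rank

theorem Good6.l0_lt {X : Tab6} (h : Good6 D C X) : ∀ i ∈ X.l0, i < D.rank := by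
  have h1 := h.l0
  unfold l0Check at h1
  cases e : allL (fun i => Nat.blt i D.rank) X.l0
  · rw [e] at h1; exact absurd h1 (by simp)
  · intro i hi
    exact Nat.le_of_ble_eq_true ((allL_iff _ _).mp e i hi)

theorem Good6.l0_neg {X : Tab6} (h : Good6 D C X) {r : ℕ} (hr : D.nroots / 2 ≤ r) (hr' : r < D.nroots)
    (hev : D.nroots % 2 = 0) : wp C X.l0 r < D.nroots / 2 := by
  have h1 := h.l0
  unfold l0Check at h1
  cases e : allL (fun i => Nat.blt i D.rank) X.l0
  · rw [e] at h1; exact absurd h1 (by simp)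
  rw [e, cond_true] at h1
  have h2 := (allL_iff _ _).mp h1 (r - D.nroots / 2) (List.mem_range.mpr (show r - D.nroots / 2 < Nat.div D.nroots 2 by
    show r - D.nroots / 2 < D.nroots / 2
    omega))
  have h3 : Nat.add (Nat.div D.nroots 2) (r - D.nroots / 2) = r := by
    show D.nroots / 2 + (r - D.nroots / 2) = r
    omega
  rw [h3] at h2
  exact Nat.le_of_ble_eq_true h2

theorem wp_reverse (hG : Good D C) {l : List ℕ} (hl : ∀ i ∈ l, i < D.rank) {s : ℕ} (hs : s < D.nroots) :
    wp C l (wp C l.reverse s) = s := by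
  induction l generalizing s with
  | nil => rfl
  | cons i l ih =>
    have h1 : ∀ j ∈ l, j < D.rank := fun j hj => hl j (by simp [hj])
    have hi := hl i (by simp)
    rw [List.reverse_cons, wp_append, wp_cons, show wp C [i] s = C.w i s from rfl, ih h1 (hG.w.lt i hi s hs), hG.w.invol i hi s hs]

theorem wp_reverse_lt (hG : Good D C) {l : List ℕ} (hl : ∀ i ∈ l, i < D.rank) {s : ℕ} (hs : s < D.nroots) :
    wp C l.reverse s < D.nroots :=
  wp_lt hG (fun i hi => hl i (List.mem_reverse.mp hi)) hs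

/-- Conjugating root elements by a word. -/
theorem wd_conj_gx (hG : Good D C) {l : List ℕ} (hl : ∀ i ∈ l, i < D.rank) {r : ℕ} (hr : r < D.nroots) :
    ∃ ε : F, ε ≠ 0 ∧ ∀ t : F, wd hG F l * gx hG F r t * (wd hG F l)⁻¹ = gx hG F (wp C l r) (ε * t) := by
  induction l with
  | nil => exact ⟨1, one_ne_zero, fun t => by simp [wd_nil]⟩
  | cons i l ih =>
    have h1 : ∀ j ∈ l, j < D.rank := fun j hj => hl j (by simp [hj])
    obtain ⟨ε, hε, h⟩ := ih h1
    have hi := hl i (by simp)
    refine ⟨(C.eta i (wp C l r) : F) * ε, ?_, fun t => ?_⟩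
    · apply mul_ne_zero _ hε
      rcases C.eta_cases i (wp C l r) with h3 | h3 <;> simp [h3]
    · rw [wd_cons, wp_cons]
      have e : gs hG F i * wd hG F l * gx hG F r t * (gs hG F i * wd hG F l)⁻¹ =
          gs hG F i * (wd hG F l * gx hG F r t * (wd hG F l)⁻¹) * (gs hG F i)⁻¹ := by group
      rw [e, h, gs_conj_gx hG hi (wp_lt hG h1 hr), mul_assoc]

variable (A : AllGood D C T) {X : Tab6} (B6 : Good6 D C X)
include A B6

theorem l0_pos {r : ℕ} (hr : r < D.nroots / 2) (hr' : r < D.nroots) : D.nroots / 2 ≤ wp C X.l0 r := by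
  have hev := A.g3.even
  have hl := B6.l0_lt
  have h1 : D.neg r < D.nroots := A.g1.neg.lt r hr'
  have h2 : D.nroots / 2 ≤ D.neg r := by
    rw [A.g3.negEq r hr']
    omega
  have h3 := B6.l0_neg h2 h1 hev
  rw [wp_neg A.g1 hl hr', A.g3.negEq _ (wp_lt A.g1 hl hr')] at h3
  have := wp_lt A.g1 hl hr'
  omega

/-- The element `n₀` conjugating `U` to `V`. -/
theorem map_U_eq_V : (D.posUnipotent F).map (MulAut.conj (wd A.g1 F X.l0)).toMonoidHom = D.negUnipotent F := by
  have hG := A.g1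
  have hl := B6.l0_lt
  have hev := A.g3.even
  apply le_antisymm
  · rw [posUnipotent, MonoidHom.map_closure, Subgroup.closure_le]
    rintro _ ⟨g, ⟨r, t, hr, h⟩, rfl⟩
    have hr1 := hr.1
    obtain ⟨ε, _, h3⟩ := wd_conj_gx hG (F := F) hl hr1
    show wd hG F X.l0 * g * (wd hG F X.l0)⁻¹ ∈ _
    rw [eq_gx hG h, h3]
    refine Subgroup.subset_closure ⟨_, _, (A.g3.negIff _ (wp_lt hG hl hr1)).mpr ?_, rfl⟩
    exact B6.l0_neg ((A.g3.posIff r hr1).mp hr) hr1 hev
  · rw [negUnipotent, Subgroup.closure_le]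
    rintro g ⟨s, t, hs, h⟩
    have hs1 := hs.1
    have hsN := (A.g3.negIff s hs1).mp hs
    set r := wp C X.l0.reverse s with hrdef
    have hr1 : r < D.nroots := wp_reverse_lt hG hl hs1
    have hrs : wp C X.l0 r = s := wp_reverse hG hl hs1
    have hrN : D.nroots / 2 ≤ r := by
      by_contra hn
      have := l0_pos A B6 (not_le.mp hn) hr1
      omega
    obtain ⟨ε, hε, h3⟩ := wd_conj_gx hG (F := F) hl hr1
    have h4 := h3 (ε⁻¹ * t)
    rw [hrs, ← mul_assoc, mul_inv_cancel₀ hε, one_mul] at h4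
    refine ⟨gx hG F r (ε⁻¹ * t), Subgroup.subset_closure ⟨r, _, (A.g3.posIff r hr1).mpr hrN, rfl⟩, ?_⟩
    show wd hG F X.l0 * _ * (wd hG F X.l0)⁻¹ = g
    rw [h4, eq_gx hG h]

/-- `n₀` lies in `N`. -/
theorem wd_mem_N {l : List ℕ} (hl : ∀ i ∈ l, i < D.rank) : wd A.g1 F l ∈ D.monomialSubgroup F := by
  rw [monomial_eq A]
  exact wd_mem_Ns A.g1 hl

theorem core1053 : ∃ n ∈ D.monomialSubgroup F, (D.posUnipotent F).map (MulAut.conj n).toMonoidHom = D.negUnipotent F :=
  ⟨_, wd_mem_N A B6 B6.l0_lt, map_U_eq_V A B6⟩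

/-- The normal core of `B` is trivial. -/
theorem core1051 : ((D.borelSubgroup F).subgroupOf (D.group F)).normalCore = ⊥ := by
  have hG := A.g1
  have hl := B6.l0_lt
  have hn0G : wd hG F X.l0 ∈ D.group F := N_le_group A (wd_mem_N A B6 hl)
  -- elements of the core lie in `H`
  have step1 : ∀ z : D.group F, z ∈ ((D.borelSubgroup F).subgroupOf (D.group F)).normalCore → (z : GL D.Idx F) ∈ Hs hG F := by
    intro z hz
    have hz1 : ∀ b : D.group F, ((b * z * b⁻¹ : D.group F) : GL D.Idx F) ∈ D.borelSubgroup F :=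
      fun b => Subgroup.mem_subgroupOf.mp (hz b)
    have h1 : (z : GL D.Idx F) ∈ D.borelSubgroup F := by
      have := hz1 1
      simpa using this
    have h2 : (wd hG F X.l0)⁻¹ * (z : GL D.Idx F) * wd hG F X.l0 ∈ D.borelSubgroup F := by
      have := hz1 ⟨(wd hG F X.l0)⁻¹, Subgroup.inv_mem _ hn0G⟩
      simpa using this
    obtain ⟨u, hu, h, hh, e⟩ := exists_mul_sup' (H_le_normalizer_U A) (by rw [sup_comm]; exact h2)
    have h3 : (z : GL D.Idx F) = (wd hG F X.l0 * u * (wd hG F X.l0)⁻¹) * (wd hG F X.l0 * h * (wd hG F X.l0)⁻¹) := by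
      have e2 : (z : GL D.Idx F) = wd hG F X.l0 * ((wd hG F X.l0)⁻¹ * (z : GL D.Idx F) * wd hG F X.l0) * (wd hG F X.l0)⁻¹ := by group
      rw [e2, e]
      group
    have h4 : wd hG F X.l0 * u * (wd hG F X.l0)⁻¹ ∈ D.negUnipotent F := by
      rw [← map_U_eq_V A B6]
      exact ⟨u, hu, rfl⟩
    have h5 : wd hG F X.l0 * h * (wd hG F X.l0)⁻¹ ∈ D.diagonalSubgroup F := by
      rw [diagonal_eq A] at hh ⊢
      exact Ns_normalizes A (wd_mem_Ns hG hl) hh
    have h6 : (z : GL D.Idx F) ∈ D.borelSubgroup F ⊓ (D.negUnipotent F ⊔ D.diagonalSubgroup F) := by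
      refine ⟨h1, ?_⟩
      rw [h3]
      exact Subgroup.mul_mem _ (Subgroup.mem_sup_left h4) (Subgroup.mem_sup_right h5)
    rw [B_inf_VH A, diagonal_eq A] at h6
    exact h6
  rw [eq_bot_iff]
  intro x hx
  have hxH := step1 x hx
  obtain ⟨χ, hχ, h3, h4⟩ := HProp_of_mem hG A.g2 hxH
  have hχ1 : ∀ r < D.nroots, χ r = 1 := by
    intro r hr
    let g : D.group F := ⟨gx hG F r 1, gx_mem_group A r 1⟩
    have h5 : (g * x * g⁻¹ : D.group F) ∈ ((D.borelSubgroup F).subgroupOf (D.group F)).normalCore := by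
      have hn : ((D.borelSubgroup F).subgroupOf (D.group F)).normalCore.Normal := Subgroup.normalCore_normal _
      exact hn.conj_mem x hx g
    have h6 := step1 _ h5
    have h7 : gx hG F r (1 - χ r) = (g * x * g⁻¹ : D.group F) * (x : GL D.Idx F)⁻¹ := by
      show _ = gx hG F r 1 * (x : GL D.Idx F) * (gx hG F r 1)⁻¹ * (x : GL D.Idx F)⁻¹
      have e1 := h4 r hr (-1)
      have e2 : (x : GL D.Idx F) * (gx hG F r 1)⁻¹ * (x : GL D.Idx F)⁻¹ = gx hG F r (χ r * -1) := by
        rw [gx_inv, e1, mul_inv_cancel_right]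
      have e3 : gx hG F r 1 * (x : GL D.Idx F) * (gx hG F r 1)⁻¹ * (x : GL D.Idx F)⁻¹ =
          gx hG F r 1 * ((x : GL D.Idx F) * (gx hG F r 1)⁻¹ * (x : GL D.Idx F)⁻¹) := by group
      rw [e3, e2, gx_add]
      congr 1
      ring
    have h8 : gx hG F r (1 - χ r) ∈ Hs hG F := by
      rw [h7]
      exact Subgroup.mul_mem _ h6 (Subgroup.inv_mem _ hxH)
    have h9 : gx hG F r (1 - χ r) = 1 := by
      rw [← diagonal_eq A] at h8
      by_cases hN : D.nroots / 2 ≤ r
      · have h10 : gx hG F r (1 - χ r) ∈ D.posUnipotent F ⊓ D.diagonalSubgroup F :=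
          ⟨Subgroup.subset_closure ⟨r, _, (A.g3.posIff r hr).mpr hN, rfl⟩, h8⟩
        rw [U_inf_H A] at h10
        exact h10
      · have h10 : gx hG F r (1 - χ r) ∈ D.borelSubgroup F ⊓ D.negUnipotent F :=
          ⟨H_le_B A h8, Subgroup.subset_closure ⟨r, _, (A.g3.negIff r hr).mpr (not_le.mp hN), rfl⟩⟩
        rw [B_inf_V A] at h10
        exact h10
    have h10 := congrArg Units.val h9
    rw [coe_gx, Units.val_one, x_eq_one_iff hG.neg hr] at h10
    exact (sub_eq_zero.mp h10).symm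
  rw [Subgroup.mem_bot]
  apply Subtype.ext
  apply Units.ext
  show ((x : GL D.Idx F) : Matrix D.Idx D.Idx F) = 1
  rw [h3, ← Matrix.diagonal_one]
  congr 1
  funext u
  rcases u with i | s
  · rfl
  · exact hχ1 s.val s.2

omit A B6 in
theorem Good6.tree_spec (B6 : Good6 D C X) {i : ℕ} (hi : i < D.rank) :
    (getL X.dep i = 0 ∧ i = 0) ∨ (getL X.par i < D.rank ∧ getL X.dep (getL X.par i) < getL X.dep i ∧
      adjCheck D C i (getL X.par i) = true) := by
  have h1 := (allL_iff _ _).mp B6.tree i (List.mem_range.mpr hi)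
  cases e : Nat.beq (getL X.dep i) 0
  · rw [e, cond_false] at h1
    cases e1 : Nat.blt (getL X.par i) D.rank
    · rw [e1] at h1; exact absurd h1 (by simp)
    rw [e1, cond_true] at h1
    cases e2 : Nat.blt (getL X.dep (getL X.par i)) (getL X.dep i)
    · rw [e2] at h1; exact absurd h1 (by simp)
    rw [e2, cond_true] at h1
    exact Or.inr ⟨Nat.le_of_ble_eq_true e1, Nat.le_of_ble_eq_true e2, h1⟩
  · rw [e, cond_true] at h1
    exact Or.inl ⟨Nat.eq_of_beq_eq_true e, Nat.eq_of_beq_eq_true h1⟩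

omit B6 in
/-- Non-commuting of the `n_i` modulo `B`. -/
theorem not_comm_mem_B {i j : ℕ} (hi : i < D.rank) (hj : j < D.rank) (h : adjCheck D C i j = true) :
    gs A.g1 F i * gs A.g1 F j * (gs A.g1 F i)⁻¹ * (gs A.g1 F j)⁻¹ ∉ D.borelSubgroup F := by
  intro hmem
  have hG := A.g1
  have hN : gs hG F i * gs hG F j * (gs hG F i)⁻¹ * (gs hG F j)⁻¹ ∈ Ns hG F :=
    Subgroup.mul_mem _ (Subgroup.mul_mem _ (Subgroup.mul_mem _ (gs_mem_Ns hG hi) (gs_mem_Ns hG hj))
      (Subgroup.inv_mem _ (gs_mem_Ns hG hi))) (Subgroup.inv_mem _ (gs_mem_Ns hG hj))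
  have hH := B_inf_N_le A hmem hN
  obtain ⟨r, hr, h3⟩ := (anyL_iff _ _).mp h
  have hr' := List.mem_range.mp hr
  have hm : ∀ k, k < D.rank → MonP (gs hG F k)⁻¹ (C.w k) := by
    intro k hk
    have e : (gs hG F k)⁻¹ = gs hG F k * (gs hG F k * gs hG F k)⁻¹ := by group
    rw [e]
    exact monP_mul (monP_gs hG hk) (monP_Hs A (Subgroup.inv_mem _ (gs_sq_mem hG A.g2 hk)))
  have m1 := monP_mul (monP_mul (monP_mul (monP_gs hG hi (F := F)) (monP_gs hG hj (F := F))) (hm i hi)) (hm j hj)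
  have m2 := monP_unique m1 (monP_Hs A hH) hr'
  simp only [Function.comp, id] at m2
  rw [m2] at h3
  simp at h3

variable {tp : List (ℕ × ℕ)} (B5 : Good5 D C T tp)
include B5

/-- Irreducibility of the `(B,N)`-pair. -/
theorem chevBN_irreducible : (chevBN (F := F) A B5).Irreducible := by
  have hG := A.g1
  intro J hJ hne hne'
  by_contra hcon
  push_neg at hcon
  let lft : ℕ → D.group F := fun i => ⟨gs hG F i, gs_mem_group A⟩
  have hlftS : ∀ i < D.rank, lft i ∈ (chevBN (F := F) A B5).S := fun i hi => ⟨i, hi, coe_gn hG _ _⟩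
  have hSlft : ∀ s ∈ (chevBN (F := F) A B5).S, ∃ i < D.rank, s = lft i := by
    rintro s ⟨i, hi, h⟩
    exact ⟨i, hi, Subtype.ext (eq_gn hG h)⟩
  have hB : ∀ x : D.group F, x ∈ (chevBN (F := F) A B5).B → (x : GL D.Idx F) ∈ D.borelSubgroup F :=
    fun x hx => Subgroup.mem_subgroupOf.mp hx
  have hadj : ∀ i < D.rank, ∀ j < D.rank, adjCheck D C i j = true → (lft i ∈ J ↔ lft j ∈ J) := by
    intro i hi j hj h
    constructor
    · intro h1
      by_contra h2
      have h3 := hB _ (hcon _ h1 _ ⟨hlftS j hj, h2⟩)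
      exact not_comm_mem_B A hi hj h h3
    · intro h1
      by_contra h2
      have h3 := hB _ (hcon _ h1 _ ⟨hlftS i hi, h2⟩)
      apply not_comm_mem_B A hi hj h (F := F)
      have h4 : gs hG F i * gs hG F j * (gs hG F i)⁻¹ * (gs hG F j)⁻¹ =
          (gs hG F j * gs hG F i * (gs hG F j)⁻¹ * (gs hG F i)⁻¹)⁻¹ := by group
      rw [h4]
      exact Subgroup.inv_mem _ h3
  have hall : ∀ i < D.rank, (lft i ∈ J ↔ lft 0 ∈ J) := by
    intro i hi
    induction' hk : getL X.dep i using Nat.strong_induction_on with k ih generalizing i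
    rcases B6.tree_spec hi with ⟨_, rfl⟩ | ⟨h1, h2, h3⟩
    · exact Iff.rfl
    · exact (hadj i hi _ h1 h3).trans (ih _ (by omega) _ h1 rfl)
  obtain ⟨s, hs⟩ := hne
  obtain ⟨i, hi, rfl⟩ := hSlft s (hJ hs)
  obtain ⟨s', hs', hs''⟩ := hne'
  obtain ⟨j, hj, rfl⟩ := hSlft s' hs'
  exact hs'' ((hall j hj).mpr ((hall i hi).mp hs))

/-- The Chevalley group is simple once it is perfect. -/
theorem core_simple (hperf : commutator (D.group F) = ⊤) :
    IsSimpleGroup ↥(D.group F) ∧ ¬ IsMulCommutative ↥(D.group F) := by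
  have hG := A.g1
  have hp := hG.simple_lt B6.rank_pos
  let x : D.group F := ⟨gx hG F (D.simple 0) 1, gx_mem_group A _ _⟩
  have hx : x ≠ 1 := by
    intro h
    have h1 := congrArg (fun y : D.group F => ((y : GL D.Idx F) : Matrix D.Idx D.Idx F)) h
    have h2 : D.x F (D.simple 0) 1 = 1 := h1
    have h3 := (x_eq_one_iff hG.neg hp (1 : F)).mp h2
    exact one_ne_zero h3
  haveI : Nontrivial (D.group F) := ⟨⟨x, 1, hx⟩⟩
  constructor
  · apply Cfsg.Agent.S0319.result (chevBN (F := F) A B5) (chevBN_irreducible A B6 B5)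
    · have hs := B_isSolvable (F := F) A
      exact Group.isSolvable_of_surjective (f := ((Subgroup.subgroupOfEquivOfLe (B_le_group A)).symm : _ ≃* _).toMonoidHom)
        (MulEquiv.surjective _)
    · exact hperf
    · exact core1051 A B6
  · intro hc
    have hcomm : ∀ a b : D.group F, a * b = b * a := isMulCommutative_iff.mp hc
    have hle : commutator (D.group F) ≤ ⊥ := by
      rw [commutator_def, Subgroup.commutator_le]
      intro a _ b _
      rw [commutatorElement_def, hcomm a b]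
      simp
    have : x ∈ (⊥ : Subgroup (D.group F)) := hle (by rw [hperf]; exact Subgroup.mem_top _)
    exact hx this

end Cfsg.Agent.Lib.ChevSym
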