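import Cfsg.Agent.Lib.ChevU2
import Cfsg.Agent.Lib.ChevN0

/-! The canonical form `g = b n u`; conjugacy in `H` (helper4). -/

set_option autoImplicit false
set_option linter.all false

namespace Cfsg.Agent.Lib.ChevSym

open Cfsg.Lie Cfsg.Lie.ChevalleyDatum Matrix Cfsg.Agent.Lib.MatFilt

variable {F : Type*} [Field F] {D : ChevalleyDatum} {C : Cert} {T : Tab}

/-- The group of the positive roots made negative by `n`. -/
def Cn (D : ChevalleyDatum) (F : Type*) [Field F] (n : GL D.Idx F) : Subgroup (GL D.Idx F) :=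
  Subgroup.closure {x : GL D.Idx F | ∃ (r : ℕ) (t : F), D.IsPosRoot r ∧
    (D.rootSubgroup F r).map (MulAut.conj n).toMonoidHom ≤ D.negUnipotent F ∧ (x : Matrix D.Idx D.Idx F) = D.x F r t}

theorem Cn_le_U (n : GL D.Idx F) : Cn D F n ≤ D.posUnipotent F :=
  Subgroup.closure_mono (by
    rintro x ⟨r, t, h1, _, h3⟩
    exact ⟨r, t, h1, h3⟩)

theorem Cn_conj {n u : GL D.Idx F} (hu : u ∈ Cn D F n) : n * u * n⁻¹ ∈ D.negUnipotent F := by
  induction hu using Subgroup.closure_induction with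
  | mem x hx =>
    obtain ⟨r, t, _, h2, h3⟩ := hx
    exact h2 ⟨x, Subgroup.subset_closure ⟨t, h3⟩, rfl⟩
  | one => simp [Subgroup.one_mem]
  | mul x y _ _ hx hy =>
    have e : n * (x * y) * n⁻¹ = (n * x * n⁻¹) * (n * y * n⁻¹) := by group
    rw [e]
    exact Subgroup.mul_mem _ hx hy
  | inv x _ hx =>
    have e : n * x⁻¹ * n⁻¹ = (n * x * n⁻¹)⁻¹ := by group
    rw [e]
    exact Subgroup.inv_mem _ hx

variable (A : AllGood D C T)
include A

/-- The action of `N` on the root elements. -/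
theorem N_conj_gx {n : GL D.Idx F} (hn : n ∈ Ns A.g1 F) :
    ∃ π : ℕ → ℕ, (∀ r, r < D.nroots → π r < D.nroots) ∧
      ∀ r (t : F), r < D.nroots → ∃ c : F, n * gx A.g1 F r t * n⁻¹ = gx A.g1 F (π r) c := by
  have hG := A.g1
  obtain ⟨l, hl, h, hh, rfl⟩ := isWordH_of_mem A hn
  refine ⟨wp C l, fun r hr => wp_lt hG hl hr, fun r t hr => ?_⟩
  obtain ⟨c, hc⟩ := Hs_conj_gx A hh hr t
  obtain ⟨ε, _, h3⟩ := wd_conj_gx hG (F := F) hl hr
  refine ⟨ε * c, ?_⟩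
  rw [← h3 c, ← hc]
  group

/-- `N` permutes generators of groups generated by root elements. -/
theorem conj_Xs_le {n : GL D.Idx F} {π : ℕ → ℕ}
    (h : ∀ r (t : F), r < D.nroots → ∃ c : F, n * gx A.g1 F r t * n⁻¹ = gx A.g1 F (π r) c)
    {P Q : ℕ → Prop} (hPQ : ∀ r, P r → r < D.nroots ∧ Q (π r)) {g : GL D.Idx F} (hg : g ∈ Xs D F P) :
    n * g * n⁻¹ ∈ Xs D F Q := by
  have hG := A.g1
  induction hg using Subgroup.closure_induction with
  | mem x hx =>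
    obtain ⟨r, t, h1, h2⟩ := hx
    obtain ⟨h3, h4⟩ := hPQ r h1
    rw [eq_gx hG h2]
    obtain ⟨c, hc⟩ := h r t h3
    rw [hc]
    exact gx_mem_Xs hG h4 c
  | one => simp [Subgroup.one_mem]
  | mul x y _ _ hx hy =>
    have e : n * (x * y) * n⁻¹ = (n * x * n⁻¹) * (n * y * n⁻¹) := by group
    rw [e]
    exact Subgroup.mul_mem _ hx hy
  | inv x _ hx =>
    have e : n * x⁻¹ * n⁻¹ = (n * x * n⁻¹)⁻¹ := by group
    rw [e]
    exact Subgroup.inv_mem _ hx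

/-- `U = U' Cn`, where `U'` is mapped into `U` by `n`. -/
theorem U_split_n {tp : List (ℕ × ℕ)} (B5 : Good5 D C T tp) {n u : GL D.Idx F} (hn : n ∈ Ns A.g1 F)
    (hu : u ∈ D.posUnipotent F) :
    ∃ a ∈ D.posUnipotent F, ∃ b ∈ Cn D F n, n * u = a * n * b := by
  classical
  have hG := A.g1
  obtain ⟨π, h1, h2⟩ := N_conj_gx A hn
  obtain ⟨a, ha, b, hb, rfl⟩ := U_split A B5 (Ψ₁ := fun r => D.IsPosRoot r ∧ D.IsPosRoot (π r))
    (Ψ₂ := fun r => D.IsPosRoot r ∧ ¬ D.IsPosRoot (π r)) (fun r hr => by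
      by_cases h : D.IsPosRoot (π r)
      · exact Or.inl ⟨hr, h⟩
      · exact Or.inr ⟨hr, h⟩) u hu
  refine ⟨n * a * n⁻¹, ?_, b, ?_, by group⟩
  · have := conj_Xs_le A h2 (P := fun r => D.IsPosRoot r ∧ D.IsPosRoot (π r)) (Q := D.IsPosRoot)
      (fun r hr => ⟨hr.1.1, hr.2⟩) ha
    exact this
  · have hle : Xs D F (fun r => D.IsPosRoot r ∧ ¬ D.IsPosRoot (π r)) ≤ Cn D F n := by
      unfold Xs Cn
      rw [Subgroup.closure_le]
      rintro x ⟨r, t, ⟨h3, h4⟩, h5⟩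
      refine Subgroup.subset_closure ⟨r, t, h3, ?_, h5⟩
      rintro _ ⟨y, hy, rfl⟩
      obtain ⟨s, rfl⟩ := (mem_rootSubgroup_iff hG).mp hy
      obtain ⟨c, hc⟩ := h2 r s h3.1
      show n * gx hG F r s * n⁻¹ ∈ _
      rw [hc]
      refine Subgroup.subset_closure ⟨π r, c, ?_, rfl⟩
      have h6 := h1 r h3.1
      refine (A.g3.negIff _ h6).mpr ?_
      by_contra h7
      exact h4 ((A.g3.posIff _ h6).mpr (not_lt.mp h7))
    exact hle hb

/-- Existence of the canonical form. -/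
theorem canon_exists {tp : List (ℕ × ℕ)} (B5 : Good5 D C T tp) {g : GL D.Idx F} (hg : g ∈ D.group F) :
    ∃ b ∈ D.borelSubgroup F, ∃ n ∈ D.monomialSubgroup F, ∃ u ∈ Cn D F n, g = b * n * u := by
  have hG := A.g1
  obtain ⟨n, hn, hC⟩ := Lib.BNPair.exists_mem_C (P := chevBN (F := F) A B5) ⟨g, hg⟩
  obtain ⟨x, hx, y, hy, e⟩ := Lib.BNPair.mem_C.mp hC
  have hx' : (x : GL D.Idx F) ∈ D.borelSubgroup F := Subgroup.mem_subgroupOf.mp hx
  have hy' : (y : GL D.Idx F) ∈ D.borelSubgroup F := Subgroup.mem_subgroupOf.mp hy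
  have hn' : (n : GL D.Idx F) ∈ D.monomialSubgroup F := Subgroup.mem_subgroupOf.mp hn
  have e' : g = (x : GL D.Idx F) * n * y := congrArg Subtype.val e
  have hy2 : (y : GL D.Idx F) ∈ D.diagonalSubgroup F ⊔ D.posUnipotent F := by
    rw [sup_comm]
    exact hy'
  obtain ⟨h, hh, u, hu, e2⟩ := exists_mul_sup (H_le_normalizer_U A) hy2
  have hnN : (n : GL D.Idx F) * h ∈ D.monomialSubgroup F :=
    Subgroup.mul_mem _ hn' (le_sup_left (a := D.diagonalSubgroup F) hh)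
  have hnN' := hnN
  rw [monomial_eq A] at hnN'
  obtain ⟨a, ha, b, hb, e3⟩ := U_split_n A B5 hnN' hu
  refine ⟨x * a, Subgroup.mul_mem _ hx' (U_le_B A ha), _, hnN, b, hb, ?_⟩
  rw [e', e2]
  calc (x : GL D.Idx F) * n * (h * u) = x * ((n * h) * u) := by group
    _ = x * (a * (n * h) * b) := by rw [e3]
    _ = _ := by group

/-- Uniqueness of the Bruhat class. -/
theorem canon_unique_n {tp : List (ℕ × ℕ)} (B5 : Good5 D C T tp) {b b' n n' u u' : GL D.Idx F}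
    (hb : b ∈ D.borelSubgroup F) (hb' : b' ∈ D.borelSubgroup F) (hn : n ∈ D.monomialSubgroup F)
    (hn' : n' ∈ D.monomialSubgroup F) (hu : u ∈ D.posUnipotent F) (hu' : u' ∈ D.posUnipotent F)
    (e : b * n * u = b' * n' * u') : n⁻¹ * n' ∈ D.diagonalSubgroup F := by
  have hBG := B_le_group (F := F) A
  have hNG := N_le_group (F := F) A
  have hUB := U_le_B (F := F) A
  let bG : D.group F := ⟨b, hBG hb⟩
  let bG' : D.group F := ⟨b', hBG hb'⟩
  let nG : D.group F := ⟨n, hNG hn⟩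
  let nG' : D.group F := ⟨n', hNG hn'⟩
  let uG : D.group F := ⟨u, hBG (hUB hu)⟩
  let uG' : D.group F := ⟨u', hBG (hUB hu')⟩
  have h1 : bG * nG * uG ∈ Lib.BNPair.C (chevBN (F := F) A B5) nG :=
    Lib.BNPair.mem_C.mpr ⟨bG, Subgroup.mem_subgroupOf.mpr hb, uG, Subgroup.mem_subgroupOf.mpr (hUB hu), rfl⟩
  have h2 : bG * nG * uG ∈ Lib.BNPair.C (chevBN (F := F) A B5) nG' :=
    Lib.BNPair.mem_C.mpr ⟨bG', Subgroup.mem_subgroupOf.mpr hb', uG', Subgroup.mem_subgroupOf.mpr (hUB hu'), Subtype.ext e⟩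
  have h3 := Lib.BNPair.E_of_not_disjoint (P := chevBN (F := F) A B5)
    (Subgroup.mem_subgroupOf.mpr hn) (Subgroup.mem_subgroupOf.mpr hn') h1 h2
  have h4 : n⁻¹ * n' ∈ D.borelSubgroup F := Subgroup.mem_subgroupOf.mp h3
  rw [← B_inf_N A]
  exact ⟨h4, Subgroup.mul_mem _ (Subgroup.inv_mem _ hn) hn'⟩

/-- Uniqueness of the factors. -/
theorem canon_unique_fac {b b' n u u' : GL D.Idx F} (hb : b ∈ D.borelSubgroup F) (hb' : b' ∈ D.borelSubgroup F)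
    (hu : u ∈ Cn D F n) (hu' : u' ∈ Cn D F n) (e : b * n * u = b' * n * u') : b = b' ∧ u = u' := by
  have h1 : n * u' * n⁻¹ * (n * u * n⁻¹)⁻¹ ∈ D.negUnipotent F :=
    Subgroup.mul_mem _ (Cn_conj hu') (Subgroup.inv_mem _ (Cn_conj hu))
  have e2 : n * u' * n⁻¹ * (n * u * n⁻¹)⁻¹ = b'⁻¹ * b := by
    have : b = b' * n * u' * u⁻¹ * n⁻¹ := by
      rw [← e]
      group
    rw [this]
    group
  have h2 : n * u' * n⁻¹ * (n * u * n⁻¹)⁻¹ ∈ D.borelSubgroup F ⊓ D.negUnipotent F := by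
    refine ⟨?_, h1⟩
    rw [e2]
    exact Subgroup.mul_mem _ (Subgroup.inv_mem _ hb') hb
  rw [B_inf_V A, Subgroup.mem_bot, e2] at h2
  have h3 : b = b' := by
    have := congrArg (b' * ·) h2
    simpa using this
  subst h3
  refine ⟨rfl, ?_⟩
  exact (mul_left_cancel (a := b * n) e)

/-- Two elements of `H` conjugate in the group are conjugate in `N`. -/
theorem core1046 {tp : List (ℕ × ℕ)} (B5 : Good5 D C T tp) {h₁ h₂ g : GL D.Idx F} (h1 : h₁ ∈ D.diagonalSubgroup F)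
    (h2 : h₂ ∈ D.diagonalSubgroup F) (hg : g ∈ D.group F) (hc : g * h₁ * g⁻¹ = h₂) :
    ∃ n ∈ D.monomialSubgroup F, n * h₁ * n⁻¹ = h₂ := by
  obtain ⟨b, hb, n, hn, u, hu, rfl⟩ := canon_exists A B5 hg
  refine ⟨n, hn, ?_⟩
  have hNs := hn
  rw [monomial_eq A] at hNs
  set h₄ := n * h₁ * n⁻¹ with hh4
  have h4H : h₄ ∈ D.diagonalSubgroup F := by
    rw [diagonal_eq A] at h1 ⊢
    exact Ns_normalizes A hNs h1
  set v := n * u * n⁻¹ with hv
  have hvV : v ∈ D.negUnipotent F := Cn_conj hu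
  have hHB : D.diagonalSubgroup F ≤ D.borelSubgroup F := H_le_B A
  have e1 : b⁻¹ * h₂ * b = v * h₄ * v⁻¹ := by
    rw [← hc, hh4, hv]
    group
  have h5 : v * h₄ * v⁻¹ * h₄⁻¹ ∈ D.borelSubgroup F := by
    rw [← e1]
    exact Subgroup.mul_mem _ (Subgroup.mul_mem _ (Subgroup.mul_mem _ (Subgroup.inv_mem _ hb) (hHB h2)) hb)
      (Subgroup.inv_mem _ (hHB h4H))
  have h6 : v * h₄ * v⁻¹ * h₄⁻¹ ∈ D.negUnipotent F := by
    have h7 := H_le_normalizer_V A h4H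
    rw [Subgroup.mem_normalizer_iff] at h7
    have h8 : h₄ * v⁻¹ * h₄⁻¹ ∈ D.negUnipotent F := (h7 _).mp (Subgroup.inv_mem _ hvV)
    have e : v * h₄ * v⁻¹ * h₄⁻¹ = v * (h₄ * v⁻¹ * h₄⁻¹) := by group
    rw [e]
    exact Subgroup.mul_mem _ hvV h8
  have h7 : v * h₄ * v⁻¹ * h₄⁻¹ ∈ D.borelSubgroup F ⊓ D.negUnipotent F := ⟨h5, h6⟩
  rw [B_inf_V A, Subgroup.mem_bot] at h7
  have h8 : v * h₄ * v⁻¹ = h₄ := by
    have := congrArg (· * h₄) h7
    simpa using this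
  rw [h8] at e1
  have hb2 : b ∈ D.diagonalSubgroup F ⊔ D.posUnipotent F := by
    rw [sup_comm]
    exact hb
  obtain ⟨u₀, hu₀, h₀, hh₀, rfl⟩ := exists_mul_sup' (H_le_normalizer_U A) hb2
  have e2 : u₀⁻¹ * h₂ * u₀ = h₀ * h₄ * h₀⁻¹ := by
    rw [← e1]
    group
  have hcomm : h₀ * h₄ = h₄ * h₀ := by
    rw [diagonal_eq A] at hh₀ h4H
    exact Hs_comm A.g1 A.g2 hh₀ h4H
  have e3 : h₀ * h₄ * h₀⁻¹ = h₄ := by
    rw [hcomm]
    group
  rw [e3] at e2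
  have h9 : u₀⁻¹ * h₂ * u₀ * h₂⁻¹ ∈ D.posUnipotent F ⊓ D.diagonalSubgroup F := by
    constructor
    · have h7 := H_le_normalizer_U A h2
      rw [Subgroup.mem_normalizer_iff] at h7
      have h8 : h₂ * u₀ * h₂⁻¹ ∈ D.posUnipotent F := (h7 _).mp hu₀
      have e : u₀⁻¹ * h₂ * u₀ * h₂⁻¹ = u₀⁻¹ * (h₂ * u₀ * h₂⁻¹) := by group
      rw [e]
      exact Subgroup.mul_mem _ (Subgroup.inv_mem _ hu₀) h8
    · rw [e2]
      exact Subgroup.mul_mem _ h4H (Subgroup.inv_mem _ h2)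
  rw [U_inf_H A, Subgroup.mem_bot, e2] at h9
  have := congrArg (· * h₂) h9
  simpa using this

end Cfsg.Agent.Lib.ChevSym
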