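import Cfsg.Agent.Lib.ChevF4

/-! Commutators of root elements: the weak commutator formula, transported by the Weyl group (helper4). -/

set_option autoImplicit false
set_option linter.all false

namespace Cfsg.Agent.Lib.ChevSym

open Cfsg.Lie Cfsg.Lie.ChevalleyDatum Matrix Cfsg.Agent.Lib.MatFilt

variable {F : Type*} [Field F] {D : ChevalleyDatum} {C : Cert} {T : Tab}

/-- `k = a r + b s`, `a, b ≥ 1`, as far as the Cartan integers see it. -/
def RootSum (D : ChevalleyDatum) (T : Tab) (r s k : ℕ) : Prop :=
  ∃ a b : ℕ, 1 ≤ a ∧ 1 ≤ b ∧ ∀ l < D.rank, T.cart l k = a * T.cart l r + b * T.cart l s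

/-- The group generated by the root elements of the roots `k = a r + b s`. -/
def Rsub (hG : Good D C) (T : Tab) (F : Type*) [Field F] (r s : ℕ) : Subgroup (GL D.Idx F) :=
  Subgroup.closure {g | ∃ (k : ℕ) (v : F), k < D.nroots ∧ RootSum D T r s k ∧ g = gx hG F k v}

/-- The weak commutator relation for the pair `r`, `s`. -/
def CommP (hG : Good D C) (T : Tab) (F : Type*) [Field F] (r s : ℕ) : Prop :=
  ∀ t u : F, (gx hG F r t * gx hG F s u)⁻¹ * (gx hG F s u * gx hG F r t) ∈ Rsub hG T F r s

/-! ### Linear functionals on the Cartan integers -/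

theorem keyAux_rootSum {a b k r s : ℕ} (h : ∀ l < D.rank, T.cart l k = a * T.cart l r + b * T.cart l s)
    (L : List ℤ) : ∀ m, m + L.length ≤ D.rank →
    keyAux T L m k = a * keyAux T L m r + b * keyAux T L m s := by
  induction L with
  | nil => intro m _; simp [keyAux]
  | cons x L ih =>
    intro m hm
    simp only [List.length_cons] at hm
    have h1 := ih (m + 1) (by omega)
    show x * T.cart m k + keyAux T L (m + 1) k = a * (x * T.cart m r + keyAux T L (m + 1) r) +
      b * (x * T.cart m s + keyAux T L (m + 1) s)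
    rw [h m (by omega), h1]
    ring

theorem keyAux_w (h2 : Good2 D C T) {i s : ℕ} (hi : i < D.rank) (hs : s < D.nroots) (L : List ℤ) :
    ∀ m, m + L.length ≤ D.rank →
    keyAux T L m (C.w i s) = keyAux T L m s - T.cart i s * keyAux T L m (D.simple i) := by
  induction L with
  | nil => intro m _; simp [keyAux]
  | cons x L ih =>
    intro m hm
    simp only [List.length_cons] at hm
    have h1 := ih (m + 1) (by omega)
    show x * T.cart m (C.w i s) + keyAux T L (m + 1) (C.w i s) = (x * T.cart m s + keyAux T L (m + 1) s) -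
      T.cart i s * (x * T.cart m (D.simple i) + keyAux T L (m + 1) (D.simple i))
    rw [h2.cart_w hi (by omega) hs, h1]
    ring

variable (A : AllGood D C T)
include A

theorem key_rootSum {r s k : ℕ} (h : RootSum D T r s k) : ∃ a b : ℕ, 1 ≤ a ∧ 1 ≤ b ∧ T.key k = a * T.key r + b * T.key s := by
  obtain ⟨a, b, h1, h3, h4⟩ := h
  refine ⟨a, b, h1, h3, ?_⟩
  exact keyAux_rootSum h4 T.keyA 0 (by rw [A.g3.keyLen]; omega)

theorem key_w {i s : ℕ} (hi : i < D.rank) (hs : s < D.nroots) :
    T.key (C.w i s) = T.key s - T.cart i s * T.key (D.simple i) :=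
  keyAux_w A.g2 hi hs T.keyA 0 (by rw [A.g3.keyLen]; omega)

theorem key_simple_pos {i : ℕ} (hi : i < D.rank) : 0 < T.key (D.simple i) :=
  A.g3.keyPos _ (A.g1.simple_lt hi) (A.g3.simplePos i hi)

/-- A negative Cartan integer moves the root up. -/
theorem lt_w_of_cart_neg {i s : ℕ} (hi : i < D.rank) (hs : s < D.nroots) (h : T.cart i s < 0) : s < C.w i s := by
  rw [← key_lt_iff A hs (A.g1.w.lt i hi s hs), key_w A hi hs]
  have h1 := key_simple_pos A hi
  nlinarith

omit A in
theorem rootSum_w (h2 : Good2 D C T) {i r s k : ℕ} (hi : i < D.rank) (hr : r < D.nroots) (hs : s < D.nroots)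
    (hk : k < D.nroots) (h : RootSum D T r s k) : RootSum D T (C.w i r) (C.w i s) (C.w i k) := by
  obtain ⟨a, b, h1, h3, h4⟩ := h
  refine ⟨a, b, h1, h3, fun l hl => ?_⟩
  rw [h2.cart_w hi hl hk, h2.cart_w hi hl hr, h2.cart_w hi hl hs, h4 l hl, h4 i hi]
  ring

omit A in
theorem Rsub_conj (hG : Good D C) (h2 : Good2 D C T) {i r s : ℕ} (hi : i < D.rank) (hr : r < D.nroots) (hs : s < D.nroots)
    {g : GL D.Idx F} (hg : g ∈ Rsub hG T F r s) : gs hG F i * g * (gs hG F i)⁻¹ ∈ Rsub hG T F (C.w i r) (C.w i s) := by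
  induction hg using Subgroup.closure_induction with
  | mem x hx =>
    obtain ⟨k, v, hk, hrs, rfl⟩ := hx
    rw [gs_conj_gx hG hi hk]
    exact Subgroup.subset_closure ⟨_, _, hG.w.lt i hi k hk, rootSum_w h2 hi hr hs hk hrs, rfl⟩
  | one => simp [Subgroup.one_mem]
  | mul x y _ _ hx hy =>
    have e : gs hG F i * (x * y) * (gs hG F i)⁻¹ =
        (gs hG F i * x * (gs hG F i)⁻¹) * (gs hG F i * y * (gs hG F i)⁻¹) := by group
    rw [e]
    exact Subgroup.mul_mem _ hx hy
  | inv x _ hx =>
    have e : gs hG F i * x⁻¹ * (gs hG F i)⁻¹ = (gs hG F i * x * (gs hG F i)⁻¹)⁻¹ := by group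
    rw [e]
    exact Subgroup.inv_mem _ hx

omit A in
/-- The weak commutator relation is transported by the Weyl group. -/
theorem commP_w (hG : Good D C) (h2 : Good2 D C T) {i r s : ℕ} (hi : i < D.rank) (hr : r < D.nroots) (hs : s < D.nroots)
    (h : CommP hG T F r s) : CommP hG T F (C.w i r) (C.w i s) := by
  intro t u
  have e1 : gx hG F (C.w i r) t = gs hG F i * gx hG F r ((C.eta i r : F) * t) * (gs hG F i)⁻¹ := by
    rw [gs_conj_gx hG hi hr, ← mul_assoc, eta_sq hG, one_mul]
  have e2 : gx hG F (C.w i s) u = gs hG F i * gx hG F s ((C.eta i s : F) * u) * (gs hG F i)⁻¹ := by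
    rw [gs_conj_gx hG hi hs, ← mul_assoc, eta_sq hG, one_mul]
  have h3 := Rsub_conj hG h2 hi hr hs (h ((C.eta i r : F) * t) ((C.eta i s : F) * u))
  rw [e1, e2]
  convert h3 using 1
  group

/-! ### Checks -/

section checks

variable (D T)

/-- The symbolic commutator word. -/
noncomputable def commWordS (r s : ℕ) : List (ℕ × Poly) :=
  (D.commTerms r s).map fun c => (c.1, pmul (pmul (pconst c.2.1) (ppow (pmul (pconst (-1)) pa) c.2.2.1)) (ppow pb c.2.2.2))

/-- Each term of the commutator word is a root `i r + j s`. -/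
noncomputable def rootSumCheck (r s : ℕ) (c : ℕ × ℤ × ℕ × ℕ) : Bool :=
  cond (Nat.blt c.1 D.nroots) (cond (Nat.ble 1 c.2.2.1) (cond (Nat.ble 1 c.2.2.2)
    (allL (fun l => iBeq (T.cart l c.1) ((c.2.2.1 : ℤ) * T.cart l r + (c.2.2.2 : ℤ) * T.cart l s)) (List.range D.rank))
      false) false) false

/-- The check for a terminal pair. -/
noncomputable def termPairOK (p : ℕ × ℕ) : Bool :=
  cond (checkWords D [(p.2, pb), (p.1, pa)] ([(p.1, pa), (p.2, pb)] ++ commWordS D p.1 p.2))
    (allL (rootSumCheck D T p.1 p.2) (D.commTerms p.1 p.2)) false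

noncomputable def pairMem (p : ℕ × ℕ) (L : List (ℕ × ℕ)) : Bool :=
  anyL (fun q => cond (Nat.beq q.1 p.1) (Nat.beq q.2 p.2) false) L

/-- Each pair with a dominant root is terminal or can be moved. -/
noncomputable def okPair (tp : List (ℕ × ℕ)) (r s : ℕ) : Bool :=
  cond (Nat.beq s r) true (cond (Nat.beq s (D.neg r)) true
    (cond (anyL (fun i => cond (iBeq (T.cart i r) 0) (iNeg (T.cart i s)) false) (List.range D.rank)) true
      (pairMem (r, s) tp)))

noncomputable def domCheck1 (tp : List (ℕ × ℕ)) (r : ℕ) : Bool :=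
  cond (anyL (fun i => iNeg (T.cart i r)) (List.range D.rank)) true (allL (okPair D T tp r) (List.range D.nroots))

noncomputable def fixCheck (C : Cert) : Bool :=
  allL (fun i => allL (fun r => cond (iBeq (T.cart i r) 0) (Nat.beq (C.w i r) r) true) (List.range D.nroots)) (List.range D.rank)

end checks

/-- The commutator tables. -/
structure Good5 (D : ChevalleyDatum) (C : Cert) (T : Tab) (tp : List (ℕ × ℕ)) : Prop where
  terms : allL (termPairOK D T) tp = true
  dom : allL (domCheck1 D T tp) (List.range D.nroots) = true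
  fix : fixCheck D T C = true

omit A in
theorem Good5.fix_eq {tp : List (ℕ × ℕ)} (B : Good5 D C T tp) {i r : ℕ} (hi : i < D.rank) (hr : r < D.nroots)
    (h : T.cart i r = 0) : C.w i r = r := by
  have h1 := (allL_iff _ _).mp ((allL_iff _ _).mp B.fix i (List.mem_range.mpr hi)) r (List.mem_range.mpr hr)
  rw [show iBeq (T.cart i r) 0 = true by rw [h]; rfl, cond_true] at h1
  exact Nat.eq_of_beq_eq_true h1

/-- The product of root elements in the group. -/
noncomputable def gword (hG : Good D C) (w : List (ℕ × F)) : GL D.Idx F :=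
  (w.map fun p => gx hG F p.1 p.2).prod

omit A in
theorem coe_gword (hG : Good D C) (w : List (ℕ × F)) :
    ((gword hG w : GL D.Idx F) : Matrix D.Idx D.Idx F) = D.wordMat F w := by
  induction w with
  | nil => simp [gword, wordMat_nil]
  | cons p w ih =>
    have : gword hG (p :: w) = gx hG F p.1 p.2 * gword hG w := by simp [gword]
    rw [this, Units.val_mul, ih, wordMat_cons, coe_gx]

omit A in
theorem evW_commWordS (a b : F) (r s : ℕ) : evW a b (commWordS D r s) = D.commWord F r s a b := by
  unfold commWordS ChevalleyDatum.commWord evW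
  rw [List.map_map]
  apply List.map_congr_left
  intro c _
  simp only [Function.comp]
  congr 1
  rw [pev_pmul, pev_pmul, pev_pconst, pev_ppow, pev_ppow, pev_pmul, pev_pconst, pev_pa, pev_pb]
  simp

omit A in
/-- The exact commutator formula for a pair from the symbolic check. -/
theorem comm_of_check (hG : Good D C) {r s : ℕ}
    (h : checkWords D [(s, pb), (r, pa)] ([(r, pa), (s, pb)] ++ commWordS D r s) = true) (t u : F) :
    D.x F s u * D.x F r t = D.x F r t * D.x F s u * D.wordMat F (D.commWord F r s t u) := by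
  have h1 := wordMat_eq_of_check hG.sorted h t u
  simp only [evW, List.map_cons, List.map_nil, List.map_append, List.cons_append, List.nil_append, pev_pa, pev_pb] at h1
  rw [wordMat_cons, wordMat_cons, wordMat_cons, wordMat_cons, wordMat_nil, mul_one] at h1
  have e2 := evW_commWordS (D := D) t u r s
  unfold evW at e2
  rw [e2] at h1
  rw [h1, mul_assoc]

omit A in
theorem gword_mem_Rsub (hG : Good D C) {r s : ℕ} {w : List (ℕ × F)}
    (h : ∀ p ∈ w, p.1 < D.nroots ∧ RootSum D T r s p.1) : gword hG w ∈ Rsub hG T F r s := by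
  induction w with
  | nil => exact Subgroup.one_mem _
  | cons p w ih =>
    have : gword hG (p :: w) = gx hG F p.1 p.2 * gword hG w := by simp [gword]
    rw [this]
    refine Subgroup.mul_mem _ (Subgroup.subset_closure ⟨p.1, p.2, (h p (by simp)).1, (h p (by simp)).2, rfl⟩)
      (ih fun q hq => h q (by simp [hq]))

omit A in
theorem commP_of_term (hG : Good D C) {r s : ℕ} (h : termPairOK D T (r, s) = true) : CommP hG T F r s := by
  unfold termPairOK at h
  cases e : checkWords D [(s, pb), (r, pa)] ([(r, pa), (s, pb)] ++ commWordS D r s)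
  · simp only at h
    rw [e] at h
    exact absurd h (by simp)
  · simp only at h
    rw [e, cond_true] at h
    intro t u
    have h1 := comm_of_check hG e t u
    have h3 : gx hG F s u * gx hG F r t = gx hG F r t * gx hG F s u * gword hG (D.commWord F r s t u) :=
      Units.ext (by rw [Units.val_mul, Units.val_mul, Units.val_mul, coe_gword, coe_gx, coe_gx]; exact h1)
    have h4 : (gx hG F r t * gx hG F s u)⁻¹ * (gx hG F s u * gx hG F r t) = gword hG (D.commWord F r s t u) := by
      rw [h3]; group
    rw [h4]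
    apply gword_mem_Rsub
    intro p hp
    obtain ⟨c, hc, rfl⟩ := List.mem_map.mp hp
    have h5 := (allL_iff _ _).mp h c hc
    unfold rootSumCheck at h5
    cases e1 : Nat.blt c.1 D.nroots
    · rw [e1] at h5; exact absurd h5 (by simp)
    rw [e1, cond_true] at h5
    cases e2 : Nat.ble 1 c.2.2.1
    · rw [e2] at h5; exact absurd h5 (by simp)
    rw [e2, cond_true] at h5
    cases e3 : Nat.ble 1 c.2.2.2
    · rw [e3] at h5; exact absurd h5 (by simp)
    rw [e3, cond_true] at h5
    refine ⟨Nat.le_of_ble_eq_true e1, c.2.2.1, c.2.2.2, Nat.le_of_ble_eq_true e2, Nat.le_of_ble_eq_true e3, fun l hl => ?_⟩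
    exact iBeq_eq ((allL_iff _ _).mp h5 l (List.mem_range.mpr hl))

variable {tp : List (ℕ × ℕ)} (B : Good5 D C T tp)
include B

/-- The weak commutator relations for a dominant root. -/
theorem commP_dom {r : ℕ} (hr : r < D.nroots) (hdom : ∀ i < D.rank, 0 ≤ T.cart i r) :
    ∀ s < D.nroots, s ≠ r → s ≠ D.neg r → CommP A.g1 T F r s := by
  have h1 := (allL_iff _ _).mp B.dom r (List.mem_range.mpr hr)
  unfold domCheck1 at h1
  have hany : anyL (fun i => iNeg (T.cart i r)) (List.range D.rank) = false := by
    cases e : anyL (fun i => iNeg (T.cart i r)) (List.range D.rank)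
    · rfl
    · obtain ⟨i, hi, h3⟩ := (anyL_iff _ _).mp e
      have := iNeg_spec h3
      have := hdom i (List.mem_range.mp hi)
      omega
  rw [hany, cond_false] at h1
  intro s hs
  induction' hk : D.nroots - s using Nat.strong_induction_on with k ih generalizing s
  intro hne1 hne2
  have h3 := (allL_iff _ _).mp h1 s (List.mem_range.mpr hs)
  unfold okPair at h3
  rw [beq_false' hne1, cond_false, beq_false' hne2, cond_false] at h3
  cases e : anyL (fun i => cond (iBeq (T.cart i r) 0) (iNeg (T.cart i s)) false) (List.range D.rank)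
  · rw [e, cond_false] at h3
    obtain ⟨q, hq, h4⟩ := (anyL_iff _ _).mp h3
    have e1 : q.1 = r := by
      cases e2 : Nat.beq q.1 r
      · rw [e2] at h4; exact absurd h4 (by simp)
      · exact Nat.eq_of_beq_eq_true e2
    have e2' : q.2 = s := by
      rw [show Nat.beq q.1 r = true from beq_true' e1, cond_true] at h4
      exact Nat.eq_of_beq_eq_true h4
    have hq' : q = (r, s) := Prod.ext e1 e2'
    subst hq'
    exact commP_of_term A.g1 ((allL_iff _ _).mp B.terms _ hq)
  · obtain ⟨i, hi', h4⟩ := (anyL_iff _ _).mp e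
    have hi := List.mem_range.mp hi'
    cases e2 : iBeq (T.cart i r) 0
    · rw [e2] at h4; exact absurd h4 (by simp)
    rw [e2, cond_true] at h4
    have h0 := iBeq_eq e2
    have hfix := B.fix_eq hi hr h0
    have hlt := lt_w_of_cart_neg A hi hs (iNeg_spec h4)
    have hws := A.g1.w.lt i hi s hs
    have h5 := ih (D.nroots - C.w i s) (by omega) (C.w i s) hws rfl
      (fun h6 => hne1 (by
        have := congrArg (C.w i) h6
        rwa [A.g1.w.invol i hi s hs, hfix] at this))
      (fun h6 => hne2 (by
        have := congrArg (C.w i) h6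
        rwa [A.g1.w.invol i hi s hs, A.g1.w.neg i hi r hr, hfix] at this))
    have h6 := commP_w A.g1 A.g2 hi hr hws h5
    rwa [hfix, A.g1.w.invol i hi s hs] at h6

/-- The weak commutator relations. -/
theorem commP_all : ∀ r < D.nroots, ∀ s < D.nroots, s ≠ r → s ≠ D.neg r → CommP A.g1 T F r s := by
  intro r hr
  induction' hk : D.nroots - r using Nat.strong_induction_on with k ih generalizing r
  by_cases hdom : ∀ i < D.rank, 0 ≤ T.cart i r
  · exact commP_dom A B hr hdom
  · push_neg at hdom
    obtain ⟨i, hi, hneg⟩ := hdom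
    have hlt := lt_w_of_cart_neg A hi hr hneg
    have hwr := A.g1.w.lt i hi r hr
    intro s hs hne1 hne2
    have hws := A.g1.w.lt i hi s hs
    have h5 := ih (D.nroots - C.w i r) (by omega) (C.w i r) hwr rfl (C.w i s) hws
      (fun h6 => hne1 (by
        have := congrArg (C.w i) h6
        rwa [A.g1.w.invol i hi s hs, A.g1.w.invol i hi r hr] at this))
      (fun h6 => hne2 (by
        have := congrArg (C.w i) h6
        rwa [A.g1.w.invol i hi s hs, A.g1.w.neg i hi _ hwr, A.g1.w.invol i hi r hr] at this))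
    have h6 := commP_w A.g1 A.g2 hi hwr hws h5
    rwa [A.g1.w.invol i hi r hr, A.g1.w.invol i hi s hs] at h6

end Cfsg.Agent.Lib.ChevSym
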