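import Cfsg.Agent.Lib.ChevSym

/-! Certificates for the Weyl action on a Chevalley datum and the conjugation formula for the
elements `n_i` (helper4). -/

set_option autoImplicit false
set_option linter.all false

namespace Cfsg.Agent.Lib.ChevSym

open Cfsg.Lie Cfsg.Lie.ChevalleyDatum Matrix

/-- byte-table lookup in a big natural number -/
@[inline] def tb (t k : ℕ) : ℕ := Nat.land (Nat.shiftRight t (Nat.mul 8 k)) 255

/-- bit lookup in a big natural number -/
@[inline] def tbit (t k : ℕ) : Bool := Nat.beq (Nat.land (Nat.shiftRight t k) 1) 1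

noncomputable def getL (L : List ℕ) (i : ℕ) : ℕ :=
  (List.rec (motive := fun _ => ℕ → ℕ) (fun _ => 0)
    (fun x _ ih i => Nat.rec (motive := fun _ => ℕ) x (fun k _ => ih k) i) L) i

/-- A certificate: tables for the reflections in the fundamental roots. -/
structure Cert where
  wTab : List ℕ
  etaTab : List ℕ

namespace Cert

variable (C : Cert)

noncomputable def w (i s : ℕ) : ℕ := tb (getL C.wTab i) s

noncomputable def eta (i s : ℕ) : ℤ := cond (tbit (getL C.etaTab i) s) (-1) 1

theorem eta_cases (i s : ℕ) : C.eta i s = 1 ∨ C.eta i s = -1 := by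
  unfold eta
  cases tbit (getL C.etaTab i) s <;> simp

end Cert

section checks

variable (D : ChevalleyDatum) (C : Cert)

noncomputable def nCol (i j : ℕ) : SV :=
  cond (Nat.blt j D.rank)
    (svIns (i, pconst (-D.cartan j (D.simple i))) [(j, pconst 1)])
    (cond (Nat.blt j (Nat.add D.rank D.nroots))
      [(Nat.add D.rank (C.w i (Nat.sub j D.rank)), pconst (C.eta i (Nat.sub j D.rank)))] [])

noncomputable def nWordS (r : ℕ) : List (ℕ × Poly) :=
  [(r, pconst 1), (D.neg r, pconst (-1)), (r, pconst 1)]

noncomputable def nCheck : Bool :=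
  allL (fun i => allL (fun j => svEq (wordAct D (nWordS D (D.simple i)) [(j, pconst 1)]) (nCol D C i j))
    (List.range (D.rank + D.nroots))) (List.range D.rank)

noncomputable def nAct (i : ℕ) (L : SV) : SV :=
  List.rec (motive := fun _ => SV) [] (fun m _ ih => svAdd (svScale m.2 (nCol D C i m.1)) ih) L

noncomputable def keysOf (r : ℕ) : List ℕ := (D.chain.getD r #[]).toList.map Prod.fst

noncomputable def conjCol (i r j : ℕ) : Bool :=
  svEq (nAct D C i (xCol (mkRT D r) pa j))
    (actX (mkRT D (C.w i r)) (pmul (pconst (C.eta i r)) pa) (nCol D C i j))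

noncomputable def conjCheck1 (i r : ℕ) : Bool :=
  cond (allL (conjCol D C i r) (colsOf D [r]))
    (allL (fun s => memB (C.w i s) (keysOf D r)) (keysOf D (C.w i r))) false

noncomputable def conjCheck (i : ℕ) : Bool :=
  allL (conjCheck1 D C i) (List.range D.nroots)

/-- A chunk of the check `conjCheck`, used to keep the kernel's memory small. -/
noncomputable def conjChunk (i lo len : ℕ) : Bool :=
  allL (conjCheck1 D C i) (List.range' lo len)

/-- Basic facts on the reflection tables. -/
noncomputable def wCheck1 (i s : ℕ) : Bool :=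
  cond (Nat.blt (C.w i s) D.nroots)
    (cond (Nat.beq (C.w i (C.w i s)) s)
      (Nat.beq (C.w i (D.neg s)) (D.neg (C.w i s))) false) false

noncomputable def wCheck : Bool :=
  allL (fun i => allL (wCheck1 D C i) (List.range D.nroots)) (List.range D.rank)

noncomputable def negCheck1 (s : ℕ) : Bool :=
  cond (Nat.blt (D.neg s) D.nroots)
    (cond (Nat.beq (D.neg (D.neg s)) s)
      (cond (Nat.beq (D.neg s) s) false true) false) false

noncomputable def negCheck : Bool := allL (negCheck1 D) (List.range D.nroots)

end checks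

section soundness

variable {F : Type*} [Field F] {D : ChevalleyDatum} {C : Cert}

/-- `W` facts as a proposition. -/
structure WOK (D : ChevalleyDatum) (C : Cert) : Prop where
  lt : ∀ i < D.rank, ∀ s < D.nroots, C.w i s < D.nroots
  invol : ∀ i < D.rank, ∀ s < D.nroots, C.w i (C.w i s) = s
  neg : ∀ i < D.rank, ∀ s < D.nroots, C.w i (D.neg s) = D.neg (C.w i s)

theorem wOK_of (h : wCheck D C = true) : WOK D C := by
  have key : ∀ i < D.rank, ∀ s < D.nroots, wCheck1 D C i s = true := fun i hi s hs =>
    (allL_iff _ _).mp ((allL_iff _ _).mp h i (List.mem_range.mpr hi)) s (List.mem_range.mpr hs)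
  have key2 : ∀ i < D.rank, ∀ s < D.nroots, C.w i s < D.nroots ∧ C.w i (C.w i s) = s ∧
      C.w i (D.neg s) = D.neg (C.w i s) := by
    intro i hi s hs
    have h1 := key i hi s hs
    unfold wCheck1 at h1
    cases e1 : Nat.blt (C.w i s) D.nroots
    · rw [e1] at h1; exact absurd h1 (by simp)
    · cases e2 : Nat.beq (C.w i (C.w i s)) s
      · rw [e1, e2] at h1; exact absurd h1 (by simp)
      · rw [e1, e2] at h1
        simp only [cond_true] at h1
        exact ⟨Nat.le_of_ble_eq_true e1, Nat.eq_of_beq_eq_true e2, Nat.eq_of_beq_eq_true h1⟩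
  exact ⟨fun i hi s hs => (key2 i hi s hs).1, fun i hi s hs => (key2 i hi s hs).2.1,
    fun i hi s hs => (key2 i hi s hs).2.2⟩

/-- Facts on `neg` as a proposition. -/
structure NegOK (D : ChevalleyDatum) : Prop where
  lt : ∀ s < D.nroots, D.neg s < D.nroots
  invol : ∀ s < D.nroots, D.neg (D.neg s) = s
  ne : ∀ s < D.nroots, D.neg s ≠ s

theorem negOK_of (h : negCheck D = true) : NegOK D := by
  have key2 : ∀ s < D.nroots, D.neg s < D.nroots ∧ D.neg (D.neg s) = s ∧ D.neg s ≠ s := by
    intro s hs
    have h1 := (allL_iff _ _).mp h s (List.mem_range.mpr hs)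
    unfold negCheck1 at h1
    cases e1 : Nat.blt (D.neg s) D.nroots
    · rw [e1] at h1; exact absurd h1 (by simp)
    · cases e2 : Nat.beq (D.neg (D.neg s)) s
      · rw [e1, e2] at h1; exact absurd h1 (by simp)
      · rw [e1, e2] at h1
        simp only [cond_true] at h1
        cases e3 : Nat.beq (D.neg s) s
        · refine ⟨Nat.le_of_ble_eq_true e1, Nat.eq_of_beq_eq_true e2, ?_⟩
          intro h3
          rw [beq_true' h3] at e3
          exact absurd e3 (by simp)
        · rw [e3] at h1; exact absurd h1 (by simp)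
  exact ⟨fun s hs => (key2 s hs).1, fun s hs => (key2 s hs).2.1, fun s hs => (key2 s hs).2.2⟩

theorem evW_nWordS (a b : F) (r : ℕ) : evW a b (nWordS D r) = D.nWord r (1 : F) := by
  simp [evW, nWordS, ChevalleyDatum.nWord, pev_pconst]

/-- The columns of `n_i`. -/
theorem nMat_apply (hS : ChainSorted D) (h : nCheck D C = true) (a b : F) {i : ℕ} (hi : i < D.rank) (u j : D.Idx) :
    D.nMat F (D.simple i) 1 u j = svev a b (nCol D C i (enc D j)) (enc D u) := by
  have h1 := (allL_iff _ _).mp ((allL_iff _ _).mp h i (List.mem_range.mpr hi)) (enc D j)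
    (List.mem_range.mpr (enc_lt D j))
  rw [← svEq_eq h1, ← wordMat_apply' hS, evW_nWordS]
  rfl

theorem nCol_out (i j : ℕ) (hj : ¬ j < D.rank + D.nroots) : nCol D C i j = [] := by
  unfold nCol
  rw [blt_false' (show ¬ j < D.rank by omega), cond_false,
    blt_false' (show ¬ j < Nat.add D.rank D.nroots from hj), cond_false]

theorem xCol_fixed_of (r j : ℕ) (p : Poly) (hr : D.rank ≤ j) (hj : j < D.rank + D.nroots)
    (h1 : j - D.rank ≠ D.negIdx.getD r 0) (h2 : j - D.rank ∉ keysOf D r) :
    xCol (mkRT D r) p j = [(j, pconst 1)] := by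
  have h4 : Nat.sub j D.rank ∉ (mkRT D r).chain.map Prod.fst := by
    intro h
    obtain ⟨e, he, he'⟩ := List.mem_map.mp h
    obtain ⟨e', he2, rfl⟩ := List.mem_map.mp he
    apply h2
    have : e'.1 = j - D.rank := he'
    rw [← this]
    exact List.mem_map_of_mem he2
  unfold xCol
  rw [blt_false' (show ¬ j < (mkRT D r).rank from by show ¬ j < D.rank; omega), cond_false,
    blt_true' (show j < Nat.add (mkRT D r).rank (mkRT D r).nroots from hj), cond_true]
  by_cases h5 : Nat.sub j D.rank = r
  · rw [beq_true' (show Nat.sub j (mkRT D r).rank = (mkRT D r).r from h5), cond_true]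
  · rw [beq_false' (show Nat.sub j (mkRT D r).rank ≠ (mkRT D r).r from h5), cond_false,
      beq_false' (show Nat.sub j (mkRT D r).rank ≠ (mkRT D r).neg from h1), cond_false]
    show chainCol j p (findC (Nat.sub j D.rank) (mkRT D r).chain) = _
    rw [findC_nil_of_not_mem _ _ h4]
    rfl

/-- The conjugation formula `n_i x_r(t) = x_{w r}(η t) n_i`. -/
theorem nMat_mul_x (hS : ChainSorted D) (hW : WOK D C) (hN : NegOK D) (hn : nCheck D C = true) {i r : ℕ}
    (hi : i < D.rank) (hr : r < D.nroots) (h : conjCheck1 D C i r = true) (t : F) :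
    D.nMat F (D.simple i) 1 * D.x F r t =
      D.x F (C.w i r) ((C.eta i r : F) * t) * D.nMat F (D.simple i) 1 := by
  unfold conjCheck1 at h
  cases e1 : allL (conjCol D C i r) (colsOf D [r])
  · rw [e1] at h; exact absurd h (by simp)
  rw [e1] at h
  simp only [cond_true] at h
  have hkeys : ∀ s' ∈ keysOf D (C.w i r), C.w i s' ∈ keysOf D r := fun s' hs' =>
    memB_mem ((allL_iff _ _).mp h s' hs')
  have hwr := hW.lt i hi r hr
  have e2 : (pev t 0 pa) = t := by simp
  have e3 : pev t (0 : F) (pmul (pconst (C.eta i r)) pa) = (C.eta i r : F) * t := by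
    rw [pev_pmul, pev_pconst, pev_pa]
  ext u j
  rw [Matrix.mul_apply, Matrix.mul_apply]
  -- left side
  have hL : ∑ k, D.nMat F (D.simple i) 1 u k * D.x F r t k j =
      svev t 0 (nAct D C i (xCol (mkRT D r) pa (enc D j))) (enc D u) := by
    refine Eq.trans ?_ (sum_col D (D.nMat F (D.simple i) 1) (nCol D C i) t (0 : F)
      (fun u j => nMat_apply hS hn t 0 hi u j) (fun j hj => nCol_out i j hj)
      (xCol (mkRT D r) pa (enc D j)) u)
    apply Finset.sum_congr rfl
    intro k _
    congr 1
    conv_lhs => rw [← e2]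
    exact x_apply D hr (hS r hr) t 0 pa k j
  have hR : ∑ k, D.x F (C.w i r) ((C.eta i r : F) * t) u k * D.nMat F (D.simple i) 1 k j =
      svev t 0 (actX (mkRT D (C.w i r)) (pmul (pconst (C.eta i r)) pa) (nCol D C i (enc D j))) (enc D u) := by
    refine Eq.trans ?_ (sum_col D (D.x F (C.w i r) ((C.eta i r : F) * t)) (xCol (mkRT D (C.w i r)) (pmul (pconst (C.eta i r)) pa)) t (0 : F)
      (fun u j => by
        conv_lhs => rw [← e3]
        exact x_apply D hwr (hS _ hwr) t 0 _ u j)
      (fun j hj => xCol_out _ _ _ hj) (nCol D C i (enc D j)) u)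
    apply Finset.sum_congr rfl
    intro k _
    congr 1
    exact nMat_apply hS hn t 0 hi k j
  rw [hL, hR]
  by_cases hj : enc D j ∈ colsOf D [r]
  · have := (allL_iff _ _).mp e1 _ hj
    rw [svEq_eq this]
  · -- both sides act trivially
    have hjl := enc_lt D j
    have h1 : ¬ enc D j < D.rank := fun h => hj (List.mem_append_left _ (List.mem_range.mpr h))
    have h2 : ∀ x, x ∈ (Nat.add D.rank (D.negIdx.getD r 0) :: ((D.chain.getD r #[]).toList.map fun e => Nat.add D.rank e.1)) → enc D j ≠ x := by
      intro x hx hjx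
      apply hj
      apply List.mem_append_right
      rw [List.mem_flatMap]
      exact ⟨r, List.mem_singleton.mpr rfl, hjx ▸ hx⟩
    set s := enc D j - D.rank with hsdef
    have hs : s < D.nroots := by omega
    have hjs : enc D j = D.rank + s := by omega
    have h3 : s ≠ D.negIdx.getD r 0 := by
      intro h
      apply h2 _ (List.mem_cons_self ..)
      show enc D j = D.rank + D.negIdx.getD r 0
      omega
    have h4 : s ∉ keysOf D r := by
      intro h
      obtain ⟨e', he2, he3⟩ := List.mem_map.mp h
      apply h2 (Nat.add D.rank e'.1) (List.mem_cons_of_mem _ (List.mem_map_of_mem he2))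
      show enc D j = D.rank + e'.1
      rw [he3]; omega
    have h5 : xCol (mkRT D r) pa (enc D j) = [(enc D j, pconst 1)] :=
      xCol_fixed_of r _ pa (by omega) hjl (by omega) (by simpa [hjs] using h4)
    have h6 : nCol D C i (enc D j) = [(D.rank + C.w i s, pconst (C.eta i s))] := by
      unfold nCol
      rw [blt_false' h1, cond_false, blt_true' (show enc D j < Nat.add D.rank D.nroots from hjl), cond_true]
      have : Nat.sub (enc D j) D.rank = s := rfl
      rw [this]
      rfl
    have hws := hW.lt i hi s hs
    have h7 : xCol (mkRT D (C.w i r)) (pmul (pconst (C.eta i r)) pa) (D.rank + C.w i s) =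
        [(D.rank + C.w i s, pconst 1)] := by
      apply xCol_fixed_of
      · omega
      · omega
      · have : D.rank + C.w i s - D.rank = C.w i s := by omega
        rw [this]
        intro h8
        apply h3
        have h9 : C.w i s = D.neg (C.w i r) := h8
        rw [← hW.neg i hi r hr] at h9
        have h10 := congrArg (C.w i) h9
        rw [hW.invol i hi s hs, hW.invol i hi _ (hN.lt r hr)] at h10
        exact h10
      · have : D.rank + C.w i s - D.rank = C.w i s := by omega
        rw [this]
        intro h8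
        have h9 := hkeys _ h8
        rw [hW.invol i hi s hs] at h9
        exact h4 h9
    rw [h5, h6]
    show svev t 0 (svAdd (svScale (pconst 1) (nCol D C i (enc D j))) []) _ =
      svev t 0 (svAdd (svScale (pconst (C.eta i s)) (xCol (mkRT D (C.w i r)) (pmul (pconst (C.eta i r)) pa) (D.rank + C.w i s))) []) _
    rw [h6, h7]
    simp only [svev_svAdd, svev_svScale, svev_cons, svev_nil, pev_pconst]
    by_cases h10 : D.rank + C.w i s = enc D u <;> simp [h10]

theorem conj_of_chunks {i : ℕ} (len k : ℕ) (hk : D.nroots ≤ k * len)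
    (h : ∀ c < k, conjChunk D C i (c * len) len = true) : ∀ r < D.nroots, conjCheck1 D C i r = true := by
  intro r hr
  have hlen : 0 < len := by
    rcases Nat.eq_zero_or_pos len with h0 | h0
    · subst h0; simp at hk; omega
    · exact h0
  have hc : r / len < k := by
    apply Nat.div_lt_of_lt_mul
    rw [mul_comm]
    omega
  have h1 := (allL_iff _ _).mp (h (r / len) hc) r
  apply h1
  rw [List.mem_range'_1]
  have h2 := Nat.div_add_mod r len
  have h3 := Nat.mod_lt r hlen
  rw [mul_comm] at h2
  constructor <;> omega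

end soundness

end Cfsg.Agent.Lib.ChevSym
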