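import Cfsg.Agent.Lib.ChevExact
import Cfsg.Agent.Lib.ChevCommB2

/-! The exact commutator formula for type B2 (generated, helper4). -/

set_option autoImplicit false
set_option linter.all false
set_option maxRecDepth 1000000

namespace Cfsg.Agent.Lib.ChevSym

open Cfsg.Lie

theorem exChunkB2_0 : allL (okR chevB2 certB2 tabB2 tpB2) (List.range' 0 8) = true := by decide +kernel

theorem okAllB2 : ∀ r < chevB2.nroots, okR chevB2 certB2 tabB2 tpB2 r = true := by
  apply allL_cov (c := 8) (by decide)
  intro k hk
  have hk' : k < 1 := by
    have h : chevB2.nroots = 8 := by decide +kernel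
    rw [h] at hk
    omega
  interval_cases k
  · exact exChunkB2_0

end Cfsg.Agent.Lib.ChevSym
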