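import Cfsg.Agent.Lib.ChevExact
import Cfsg.Agent.Lib.ChevCommD4

/-! The exact commutator formula for type D4 (generated, helper4). -/

set_option autoImplicit false
set_option linter.all false
set_option maxRecDepth 1000000

namespace Cfsg.Agent.Lib.ChevSym

open Cfsg.Lie

theorem exChunkD4_0 : allL (okR chevD4 certD4 tabD4 tpD4) (List.range' 0 24) = true := by decide +kernel

theorem okAllD4 : ∀ r < chevD4.nroots, okR chevD4 certD4 tabD4 tpD4 r = true := by
  apply allL_cov (c := 24) (by decide)
  intro k hk
  have hk' : k < 1 := by
    have h : chevD4.nroots = 24 := by decide +kernel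
    rw [h] at hk
    omega
  interval_cases k
  · exact exChunkD4_0

end Cfsg.Agent.Lib.ChevSym
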