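import Cfsg.Agent.Lib.ChevExact
import Cfsg.Agent.Lib.ChevCommE6

/-! The exact commutator formula for type E6 (generated, helper4). -/

set_option autoImplicit false
set_option linter.all false
set_option maxRecDepth 1000000

namespace Cfsg.Agent.Lib.ChevSym

open Cfsg.Lie

theorem exChunkE6_0 : allL (okR chevE6 certE6 tabE6 tpE6) (List.range' 0 12) = true := by decide +kernel
theorem exChunkE6_1 : allL (okR chevE6 certE6 tabE6 tpE6) (List.range' 12 12) = true := by decide +kernel
theorem exChunkE6_2 : allL (okR chevE6 certE6 tabE6 tpE6) (List.range' 24 12) = true := by decide +kernel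
theorem exChunkE6_3 : allL (okR chevE6 certE6 tabE6 tpE6) (List.range' 36 12) = true := by decide +kernel
theorem exChunkE6_4 : allL (okR chevE6 certE6 tabE6 tpE6) (List.range' 48 12) = true := by decide +kernel
theorem exChunkE6_5 : allL (okR chevE6 certE6 tabE6 tpE6) (List.range' 60 12) = true := by decide +kernel

theorem okAllE6 : ∀ r < chevE6.nroots, okR chevE6 certE6 tabE6 tpE6 r = true := by
  apply allL_cov (c := 12) (by decide)
  intro k hk
  have hk' : k < 6 := by
    have h : chevE6.nroots = 72 := by decide +kernel
    rw [h] at hk
    omega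
  interval_cases k
  · exact exChunkE6_0
  · exact exChunkE6_1
  · exact exChunkE6_2
  · exact exChunkE6_3
  · exact exChunkE6_4
  · exact exChunkE6_5

end Cfsg.Agent.Lib.ChevSym
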