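import Cfsg.Agent.Lib.ChevExact
import Cfsg.Agent.Lib.ChevCommE7

/-! The exact commutator formula for type E7 (generated, helper4). -/

set_option autoImplicit false
set_option linter.all false
set_option maxRecDepth 1000000

namespace Cfsg.Agent.Lib.ChevSym

open Cfsg.Lie

theorem exChunkE7_0 : allL (okR chevE7 certE7 tabE7 tpE7) (List.range' 0 14) = true := by decide +kernel
theorem exChunkE7_1 : allL (okR chevE7 certE7 tabE7 tpE7) (List.range' 14 14) = true := by decide +kernel
theorem exChunkE7_2 : allL (okR chevE7 certE7 tabE7 tpE7) (List.range' 28 14) = true := by decide +kernel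
theorem exChunkE7_3 : allL (okR chevE7 certE7 tabE7 tpE7) (List.range' 42 14) = true := by decide +kernel
theorem exChunkE7_4 : allL (okR chevE7 certE7 tabE7 tpE7) (List.range' 56 14) = true := by decide +kernel
theorem exChunkE7_5 : allL (okR chevE7 certE7 tabE7 tpE7) (List.range' 70 14) = true := by decide +kernel
theorem exChunkE7_6 : allL (okR chevE7 certE7 tabE7 tpE7) (List.range' 84 14) = true := by decide +kernel
theorem exChunkE7_7 : allL (okR chevE7 certE7 tabE7 tpE7) (List.range' 98 14) = true := by decide +kernel
theorem exChunkE7_8 : allL (okR chevE7 certE7 tabE7 tpE7) (List.range' 112 14) = true := by decide +kernel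

theorem okAllE7 : ∀ r < chevE7.nroots, okR chevE7 certE7 tabE7 tpE7 r = true := by
  apply allL_cov (c := 14) (by decide)
  intro k hk
  have hk' : k < 9 := by
    have h : chevE7.nroots = 126 := by decide +kernel
    rw [h] at hk
    omega
  interval_cases k
  · exact exChunkE7_0
  · exact exChunkE7_1
  · exact exChunkE7_2
  · exact exChunkE7_3
  · exact exChunkE7_4
  · exact exChunkE7_5
  · exact exChunkE7_6
  · exact exChunkE7_7
  · exact exChunkE7_8

end Cfsg.Agent.Lib.ChevSym
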