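import Cfsg.Agent.Lib.ChevExact
import Cfsg.Agent.Lib.ChevCommE8

/-! The exact commutator formula for type E8, part C (generated, helper4). -/

set_option autoImplicit false
set_option linter.all false
set_option maxRecDepth 1000000

namespace Cfsg.Agent.Lib.ChevSym

open Cfsg.Lie

theorem exChunkE8_8 : allL (okR chevE8 certE8 tabE8 tpE8) (List.range' 160 20) = true := by decide +kernel
theorem exChunkE8_9 : allL (okR chevE8 certE8 tabE8 tpE8) (List.range' 180 20) = true := by decide +kernel
theorem exChunkE8_10 : allL (okR chevE8 certE8 tabE8 tpE8) (List.range' 200 20) = true := by decide +kernel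
theorem exChunkE8_11 : allL (okR chevE8 certE8 tabE8 tpE8) (List.range' 220 20) = true := by decide +kernel

end Cfsg.Agent.Lib.ChevSym
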