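import Cfsg.Agent.Lib.ChevEE8A
import Cfsg.Agent.Lib.ChevEE8B
import Cfsg.Agent.Lib.ChevEE8C

/-! The exact commutator formula for type E8 (generated, helper4). -/

set_option autoImplicit false
set_option linter.all false
set_option maxRecDepth 1000000

namespace Cfsg.Agent.Lib.ChevSym

open Cfsg.Lie

theorem okAllE8 : ∀ r < chevE8.nroots, okR chevE8 certE8 tabE8 tpE8 r = true := by
  apply allL_cov (c := 20) (by decide)
  intro k hk
  have hk' : k < 12 := by
    have h : chevE8.nroots = 240 := by decide +kernel
    rw [h] at hk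
    omega
  interval_cases k
  · exact exChunkE8_0
  · exact exChunkE8_1
  · exact exChunkE8_2
  · exact exChunkE8_3
  · exact exChunkE8_4
  · exact exChunkE8_5
  · exact exChunkE8_6
  · exact exChunkE8_7
  · exact exChunkE8_8
  · exact exChunkE8_9
  · exact exChunkE8_10
  · exact exChunkE8_11

end Cfsg.Agent.Lib.ChevSym
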