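import Cfsg.Agent.Lib.ChevExact
import Cfsg.Agent.Lib.ChevCommF4

/-! The exact commutator formula for type F4 (generated, helper4). -/

set_option autoImplicit false
set_option linter.all false
set_option maxRecDepth 1000000

namespace Cfsg.Agent.Lib.ChevSym

open Cfsg.Lie

theorem exChunkF4_0 : allL (okR chevF4 certF4 tabF4 tpF4) (List.range' 0 12) = true := by decide +kernel
theorem exChunkF4_1 : allL (okR chevF4 certF4 tabF4 tpF4) (List.range' 12 12) = true := by decide +kernel
theorem exChunkF4_2 : allL (okR chevF4 certF4 tabF4 tpF4) (List.range' 24 12) = true := by decide +kernel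
theorem exChunkF4_3 : allL (okR chevF4 certF4 tabF4 tpF4) (List.range' 36 12) = true := by decide +kernel

theorem okAllF4 : ∀ r < chevF4.nroots, okR chevF4 certF4 tabF4 tpF4 r = true := by
  apply allL_cov (c := 12) (by decide)
  intro k hk
  have hk' : k < 4 := by
    have h : chevF4.nroots = 48 := by decide +kernel
    rw [h] at hk
    omega
  interval_cases k
  · exact exChunkF4_0
  · exact exChunkF4_1
  · exact exChunkF4_2
  · exact exChunkF4_3

end Cfsg.Agent.Lib.ChevSym
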