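import Cfsg.Agent.Lib.ChevExact
import Cfsg.Agent.Lib.ChevCommG2

/-! The exact commutator formula for type G2 (generated, helper4). -/

set_option autoImplicit false
set_option linter.all false
set_option maxRecDepth 1000000

namespace Cfsg.Agent.Lib.ChevSym

open Cfsg.Lie

theorem exChunkG2_0 : allL (okR chevG2 certG2 tabG2 tpG2) (List.range' 0 12) = true := by decide +kernel

theorem okAllG2 : ∀ r < chevG2.nroots, okR chevG2 certG2 tabG2 tpG2 r = true := by
  apply allL_cov (c := 12) (by decide)
  intro k hk
  have hk' : k < 1 := by
    have h : chevG2.nroots = 12 := by decide +kernel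
    rw [h] at hk
    omega
  interval_cases k
  · exact exChunkG2_0

end Cfsg.Agent.Lib.ChevSym
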