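import Cfsg.Agent.Lib.ChevComm

/-! The exact commutator formula for all pairs of roots, transported by the Weyl group (helper4). -/

set_option autoImplicit false
set_option linter.all false

namespace Cfsg.Agent.Lib.ChevSym

open Cfsg.Lie Cfsg.Lie.ChevalleyDatum Matrix Cfsg.Agent.Lib.MatFilt

variable {F : Type*} [Field F] {D : ChevalleyDatum} {C : Cert} {T : Tab}

/-- The exact commutator relation for a pair. -/
def Exact (hG : Good D C) (F : Type*) [Field F] (r s : ℕ) : Prop :=
  ∀ t u : F, gx hG F s u * gx hG F r t = gx hG F r t * gx hG F s u * gword hG (D.commWord F r s t u)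

/-- Small powers of integers. -/
noncomputable def ipow (e : ℤ) (n : ℕ) : ℤ := Nat.rec 1 (fun _ ih => e * ih) n

theorem ipow_eq (e : ℤ) (n : ℕ) : ipow e n = e ^ n := by
  induction n with
  | zero =>
    show (1 : ℤ) = e ^ 0
    simp
  | succ n ih =>
    show e * ipow e n = _
    rw [ih, pow_succ, mul_comm]

/-- The term lists of `(r, s)` and of `(r', s')` correspond under the reflection `i`. -/
noncomputable def transL (D : ChevalleyDatum) (C : Cert) (i : ℕ) (er es : ℤ) : List (ℕ × ℤ × ℕ × ℕ) → List (ℕ × ℤ × ℕ × ℕ) → Bool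
  | [], [] => true
  | c :: l, c' :: l' =>
    cond (Nat.blt c'.1 D.nroots) (cond (Nat.beq c.1 (C.w i c'.1)) (cond (Nat.beq c.2.2.1 c'.2.2.1) (cond (Nat.beq c.2.2.2 c'.2.2.2)
      (cond (iBeq c.2.1 (C.eta i c'.1 * c'.2.1 * ipow er c'.2.2.1 * ipow es c'.2.2.2)) (transL D C i er es l l') false) false) false) false) false
  | _, _ => false

/-- The next move. -/
noncomputable def firstL (p : ℕ → Bool) (L : List ℕ) : Option ℕ :=
  List.rec (motive := fun _ => Option ℕ) none (fun a _ ih => cond (p a) (some a) ih) L

theorem firstL_some {p : ℕ → Bool} {L : List ℕ} {i : ℕ} (h : firstL p L = some i) : i ∈ L ∧ p i = true := by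
  induction L with
  | nil => cases h
  | cons a L ih =>
    cases e : p a
    · have h' : firstL p L = some i := by
        have : firstL p (a :: L) = cond (p a) (some a) (firstL p L) := rfl
        rwa [this, e, cond_false] at h
      obtain ⟨h1, h2⟩ := ih h'
      exact ⟨List.mem_cons_of_mem _ h1, h2⟩
    · have h' : some a = some i := by
        have : firstL p (a :: L) = cond (p a) (some a) (firstL p L) := rfl
        rwa [this, e, cond_true] at h
      cases h'
      exact ⟨List.mem_cons_self, e⟩

theorem firstL_none {p : ℕ → Bool} {L : List ℕ} (h : firstL p L = none) : ∀ i ∈ L, p i = false := by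
  induction L with
  | nil => intro i hi; cases hi
  | cons a L ih =>
    cases e : p a
    · have h' : firstL p L = none := by
        have : firstL p (a :: L) = cond (p a) (some a) (firstL p L) := rfl
        rwa [this, e, cond_false] at h
      intro i hi
      rcases List.mem_cons.mp hi with rfl | hi
      · exact e
      · exact ih h' i hi
    · have : firstL p (a :: L) = cond (p a) (some a) (firstL p L) := rfl
      rw [this, e, cond_true] at h
      cases h

section checks
variable (D T C)

noncomputable def stepI (r s : ℕ) : Option ℕ :=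
  match firstL (fun i => iNeg (T.cart i r)) (List.range D.rank) with
  | some i => some i
  | none => firstL (fun i => cond (iBeq (T.cart i r) 0) (iNeg (T.cart i s)) false) (List.range D.rank)

noncomputable def okE (tp : List (ℕ × ℕ)) (r s : ℕ) : Bool :=
  cond (Nat.beq s r) true (cond (Nat.beq s (D.neg r)) true
    (match stepI D T r s with
     | none => pairMem (r, s) tp
     | some i => transL D C i (C.eta i (C.w i r)) (C.eta i (C.w i s)) (D.commTerms r s) (D.commTerms (C.w i r) (C.w i s))))

noncomputable def okR (tp : List (ℕ × ℕ)) (r : ℕ) : Bool := allL (okE D C T tp r) (List.range D.nroots)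

end checks

theorem exact_of_term (hG : Good D C) {r s : ℕ} (h : termPairOK D T (r, s) = true) : Exact hG F r s := by
  unfold termPairOK at h
  cases e : checkWords D [(s, pb), (r, pa)] ([(r, pa), (s, pb)] ++ commWordS D r s)
  · simp only at h
    rw [e] at h
    exact absurd h (by simp)
  · intro t u
    have h1 := comm_of_check hG e t u
    exact Units.ext (by rw [Units.val_mul, Units.val_mul, Units.val_mul, coe_gword, coe_gx, coe_gx]; exact h1)

/-- Conjugating a word by a reflection. -/
theorem gs_conj_word (hG : Good D C) {i : ℕ} (hi : i < D.rank) {er es : ℤ} (her : (er : F) * er = 1) (hes : (es : F) * es = 1)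
    (t u : F) : ∀ (L L' : List (ℕ × ℤ × ℕ × ℕ)), transL D C i er es L L' = true →
      gs hG F i * gword hG (L'.map fun c => (c.1, (c.2.1 : F) * (-((er : F) * t)) ^ c.2.2.1 * ((es : F) * u) ^ c.2.2.2)) * (gs hG F i)⁻¹ =
        gword hG (L.map fun c => (c.1, (c.2.1 : F) * (-t) ^ c.2.2.1 * u ^ c.2.2.2)) := by
  intro L
  induction L with
  | nil =>
    intro L' h
    cases L' with
    | nil => simp [gword]
    | cons _ _ => simp [transL] at h
  | cons c l ih =>
    intro L' h
    cases L' with
    | nil => simp [transL] at h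
    | cons c' l' =>
      unfold transL at h
      cases e1 : Nat.blt c'.1 D.nroots
      · rw [e1] at h; exact absurd h (by simp)
      rw [e1, cond_true] at h
      cases e2 : Nat.beq c.1 (C.w i c'.1)
      · rw [e2] at h; exact absurd h (by simp)
      rw [e2, cond_true] at h
      cases e3 : Nat.beq c.2.2.1 c'.2.2.1
      · rw [e3] at h; exact absurd h (by simp)
      rw [e3, cond_true] at h
      cases e4 : Nat.beq c.2.2.2 c'.2.2.2
      · rw [e4] at h; exact absurd h (by simp)
      rw [e4, cond_true] at h
      cases e5 : iBeq c.2.1 (C.eta i c'.1 * c'.2.1 * ipow er c'.2.2.1 * ipow es c'.2.2.2)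
      · rw [e5] at h; exact absurd h (by simp)
      rw [e5, cond_true] at h
      have hk : c'.1 < D.nroots := Nat.le_of_ble_eq_true e1
      have e2' := Nat.eq_of_beq_eq_true e2
      have e3' := Nat.eq_of_beq_eq_true e3
      have e4' := Nat.eq_of_beq_eq_true e4
      have e5' := iBeq_eq e5
      rw [ipow_eq, ipow_eq] at e5'
      have h1 := ih l' h
      have h2 : ∀ (a : ℕ × F) (w : List (ℕ × F)), gword hG (a :: w) = gx hG F a.1 a.2 * gword hG w := by
        intro a w; simp [gword]
      simp only [List.map_cons]
      rw [h2, h2, ← h1]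
      have h3 := gs_conj_gx hG (F := F) hi hk ((c'.2.1 : F) * (-((er : F) * t)) ^ c'.2.2.1 * ((es : F) * u) ^ c'.2.2.2)
      have h4 : gx hG F (c.1) ((c.2.1 : F) * (-t) ^ c.2.2.1 * u ^ c.2.2.2) =
          gx hG F (C.w i c'.1) ((C.eta i c'.1 : F) * ((c'.2.1 : F) * (-((er : F) * t)) ^ c'.2.2.1 * ((es : F) * u) ^ c'.2.2.2)) := by
        rw [e2']
        congr 1
        rw [e5', e3', e4']
        push_cast
        rw [show -((er : F) * t) = (er : F) * (-t) by ring, mul_pow, mul_pow]
        ring
      rw [h4, ← h3]
      group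

theorem exact_w (hG : Good D C) {i r s : ℕ} (hi : i < D.rank) (hr : r < D.nroots) (hs : s < D.nroots)
    (hc : transL D C i (C.eta i (C.w i r)) (C.eta i (C.w i s)) (D.commTerms r s) (D.commTerms (C.w i r) (C.w i s)) = true)
    (h : Exact hG F (C.w i r) (C.w i s)) : Exact hG F r s := by
  intro t u
  have hr' := hG.w.lt i hi r hr
  have hs' := hG.w.lt i hi s hs
  have hinvr := hG.w.invol i hi r hr
  have hinvs := hG.w.invol i hi s hs
  set er := C.eta i (C.w i r) with her
  set es := C.eta i (C.w i s) with hes
  have hsq : ∀ e : ℤ, (e = C.eta i (C.w i r) ∨ e = C.eta i (C.w i s)) → (e : F) * e = 1 := by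
    intro e he
    rcases he with rfl | rfl
    · exact eta_sq hG _ _
    · exact eta_sq hG _ _
  have h1 := h ((er : F) * t) ((es : F) * u)
  have h2 := gs_conj_word hG (F := F) hi (hsq er (Or.inl rfl)) (hsq es (Or.inr rfl)) t u _ _ hc
  have e1 : gs hG F i * gx hG F (C.w i r) ((er : F) * t) * (gs hG F i)⁻¹ = gx hG F r t := by
    rw [gs_conj_gx hG hi hr', hinvr, ← mul_assoc, her, eta_sq hG, one_mul]
  have e2 : gs hG F i * gx hG F (C.w i s) ((es : F) * u) * (gs hG F i)⁻¹ = gx hG F s u := by
    rw [gs_conj_gx hG hi hs', hinvs, ← mul_assoc, hes, eta_sq hG, one_mul]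
  have h3 : gs hG F i * (gx hG F (C.w i s) ((es : F) * u) * gx hG F (C.w i r) ((er : F) * t)) * (gs hG F i)⁻¹ =
      gs hG F i * (gx hG F (C.w i r) ((er : F) * t) * gx hG F (C.w i s) ((es : F) * u) *
        gword hG (D.commWord F (C.w i r) (C.w i s) ((er : F) * t) ((es : F) * u))) * (gs hG F i)⁻¹ := by
    rw [h1]
  have h4 : gs hG F i * (gx hG F (C.w i s) ((es : F) * u) * gx hG F (C.w i r) ((er : F) * t)) * (gs hG F i)⁻¹ =
      (gs hG F i * gx hG F (C.w i s) ((es : F) * u) * (gs hG F i)⁻¹) * (gs hG F i * gx hG F (C.w i r) ((er : F) * t) * (gs hG F i)⁻¹) := by group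
  have h5 : gs hG F i * (gx hG F (C.w i r) ((er : F) * t) * gx hG F (C.w i s) ((es : F) * u) *
        gword hG (D.commWord F (C.w i r) (C.w i s) ((er : F) * t) ((es : F) * u))) * (gs hG F i)⁻¹ =
      (gs hG F i * gx hG F (C.w i r) ((er : F) * t) * (gs hG F i)⁻¹) * (gs hG F i * gx hG F (C.w i s) ((es : F) * u) * (gs hG F i)⁻¹) *
        (gs hG F i * gword hG (D.commWord F (C.w i r) (C.w i s) ((er : F) * t) ((es : F) * u)) * (gs hG F i)⁻¹) := by group
  rw [h4, h5, e1, e2] at h3
  rw [h3]
  congr 1

theorem allL_cov {p : ℕ → Bool} {N c : ℕ} (hc : 0 < c) (h : ∀ k, k * c < N → allL p (List.range' (k * c) c) = true) :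
    ∀ r < N, p r = true := by
  intro r hr
  have h1 : (r / c) * c ≤ r := Nat.div_mul_le_self r c
  have h2 := h (r / c) (by omega)
  apply (allL_iff _ _).mp h2
  rw [List.mem_range'_1]
  have h3 : r < (r / c) * c + c := by
    have := Nat.lt_div_mul_add hc (a := r)
    omega
  omega

variable (A : AllGood D C T) {tp : List (ℕ × ℕ)} (B : Good5 D C T tp)
include A B

theorem exact_all (hE : ∀ r < D.nroots, okR D C T tp r = true) :
    ∀ r < D.nroots, ∀ s < D.nroots, s ≠ r → s ≠ D.neg r → Exact A.g1 F r s := by
  have hG := A.g1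
  intro r hr
  induction' hk : D.nroots - r using Nat.strong_induction_on with k ih generalizing r
  intro s hs
  induction' hk' : D.nroots - s using Nat.strong_induction_on with k' ih' generalizing s
  intro hne1 hne2
  have h0 := (allL_iff _ _).mp (hE r hr) s (List.mem_range.mpr hs)
  unfold okE at h0
  rw [beq_false' hne1, cond_false, beq_false' hne2, cond_false] at h0
  have hws := fun i (hi : i < D.rank) => A.g1.w.lt i hi s hs
  have hwr := fun i (hi : i < D.rank) => A.g1.w.lt i hi r hr
  have hne1' : ∀ i (hi : i < D.rank), C.w i s ≠ C.w i r := fun i hi h6 => hne1 (by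
    have := congrArg (C.w i) h6
    rwa [A.g1.w.invol i hi s hs, A.g1.w.invol i hi r hr] at this)
  have hne2' : ∀ i (hi : i < D.rank), C.w i s ≠ D.neg (C.w i r) := fun i hi h6 => hne2 (by
    have := congrArg (C.w i) h6
    rwa [A.g1.w.invol i hi s hs, A.g1.w.neg i hi _ (hwr i hi), A.g1.w.invol i hi r hr] at this)
  cases e : stepI D T r s with
  | none =>
    rw [e] at h0
    obtain ⟨q, hq, h4⟩ := (anyL_iff _ _).mp h0
    have e1 : q.1 = r := by
      cases e2 : Nat.beq q.1 r
      · rw [e2] at h4; exact absurd h4 (by simp)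
      · exact Nat.eq_of_beq_eq_true e2
    have e2' : q.2 = s := by
      rw [show Nat.beq q.1 r = true from beq_true' e1, cond_true] at h4
      exact Nat.eq_of_beq_eq_true h4
    have hq' : q = (r, s) := Prod.ext e1 e2'
    subst hq'
    exact exact_of_term A.g1 ((allL_iff _ _).mp B.terms _ hq)
  | some i =>
    rw [e] at h0
    unfold stepI at e
    cases e3 : firstL (fun i => iNeg (T.cart i r)) (List.range D.rank) with
    | some j =>
      rw [e3] at e
      have hij : j = i := by simpa using e
      subst hij
      obtain ⟨h1, h2⟩ := firstL_some e3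
      have hi := List.mem_range.mp h1
      have hlt := lt_w_of_cart_neg A hi hr (iNeg_spec h2)
      have h5 := ih (D.nroots - C.w j r) (by omega) (C.w j r) (hwr j hi) rfl (C.w j s) (hws j hi) (hne1' j hi) (hne2' j hi)
      exact exact_w A.g1 hi hr hs h0 h5
    | none =>
      rw [e3] at e
      have e' : firstL (fun i => cond (iBeq (T.cart i r) 0) (iNeg (T.cart i s)) false) (List.range D.rank) = some i := e
      obtain ⟨h1, h2⟩ := firstL_some e'
      have hi := List.mem_range.mp h1
      cases e2 : iBeq (T.cart i r) 0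
      · simp only [e2, cond_false] at h2; exact absurd h2 (by simp)
      simp only [e2, cond_true] at h2
      have h00 := iBeq_eq e2
      have hfix := B.fix_eq hi hr h00
      have hlt := lt_w_of_cart_neg A hi hs (iNeg_spec h2)
      have h5 := ih' (D.nroots - C.w i s) (by omega) (C.w i s) (hws i hi) rfl (by
        have := hne1' i hi
        rwa [hfix] at this) (by
        have := hne2' i hi
        rwa [hfix] at this)
      apply exact_w A.g1 hi hr hs h0
      rw [hfix]
      exact h5

/-- The commutator formula. -/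
theorem core1025 (hE : ∀ r < D.nroots, okR D C T tp r = true) {r s : ℕ} (hr : r < D.nroots) (hs : s < D.nroots)
    (hrs : s ≠ r) (hneg : s ≠ D.neg r) (t u : F) :
    D.x F s u * D.x F r t = D.x F r t * D.x F s u * D.wordMat F (D.commWord F r s t u) := by
  have h := exact_all A B hE r hr s hs hrs hneg t u
  have h2 := congrArg Units.val h
  simpa only [Units.val_mul, coe_gword, coe_gx] using h2

end Cfsg.Agent.Lib.ChevSym
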