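import Cfsg.Agent.Lib.ChevOrd

/-! Direct consequences of the tables: the formulas for `n_i`, `h_i` (helper4). -/

set_option autoImplicit false
set_option linter.all false

namespace Cfsg.Agent.Lib.ChevSym

open Cfsg.Lie Cfsg.Lie.ChevalleyDatum Matrix Cfsg.Agent.Lib.MatFilt

variable {F : Type*} [Field F] {D : ChevalleyDatum} {C : Cert} {T : Tab} (A : AllGood D C T)
include A

theorem core1031 {i s : ℕ} (hi : i < D.rank) (hs : s < D.nroots) :
    ∃ η : ℤ, (η = 1 ∨ η = -1) ∧
      ∀ t : F, D.nMat F (D.simple i) 1 * D.x F s t = D.x F (D.reflectRoot i s) ((η : F) * t) * D.nMat F (D.simple i) 1 := by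
  refine ⟨C.eta i s, C.eta_cases i s, fun t => ?_⟩
  rw [A.g4.refl_eq hi hs]
  exact nMat_mul_x' A.g1 hi hs t

theorem core1032 {i s : ℕ} (hi : i < D.rank) (hs : s < D.nroots) {c : F} (hc : c ≠ 0) (t : F) :
    D.hMat F (D.simple i) c * D.x F s t = D.x F s (c ^ (D.cartan i s) * t) * D.hMat F (D.simple i) c := by
  have h := congrArg Units.val (gh_simple_mul_gx A.g1 A.g2 hi hs hc t)
  rw [A.g2.cart_eq hi hs] at h
  simpa only [Units.val_mul, coe_gh, coe_gx] using h

theorem core1033 {i : ℕ} (hi : i < D.rank) {c : F} (hc : c ≠ 0) :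
    D.hMat F (D.simple i) c = Matrix.diagonal (Sum.elim (fun _ => (1 : F)) (fun s : Fin D.nroots => c ^ (D.cartan i s))) := by
  rw [hMat_simple A.g1.sorted A.g2 hi hc]
  congr 1
  funext u
  rcases u with a | s
  · rfl
  · show c ^ T.cart i s.val = c ^ D.cartan i s.val
    rw [A.g2.cart_eq hi s.2]

theorem core1076 {r : ℕ} (hr : r < D.nroots) {a b : F} (ha : a ≠ 0) (hb : b ≠ 0) :
    D.hMat F r a * D.hMat F r b = D.hMat F r (a * b) := by
  have h := congrArg Units.val (gh_mul A.g1 A.g2 hr ha hb)
  simpa only [Units.val_mul, coe_gh] using h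

theorem core1096 {i j : ℕ} (hi : i < D.rank) (hj : j < D.rank) {t : F} (ht : t ≠ 0) :
    D.nMat F (D.simple i) 1 * D.hMat F (D.simple j) t =
      D.hMat F (D.reflectRoot i (D.simple j)) t * D.nMat F (D.simple i) 1 := by
  have hs := A.g1.simple_lt hj
  rw [A.g4.refl_eq hi hs]
  have h := gs_conj_gh_eq A.g1 A.g2 hi hs ht
  rw [mul_inv_eq_iff_eq_mul] at h
  have h' := congrArg Units.val h
  simpa only [Units.val_mul, coe_gh, coe_gn] using h'

theorem core1095 {i : ℕ} (hi : i < D.rank) :
    ∃ η : ℕ → ℤ, (∀ s < D.nroots, η s = 1 ∨ η s = -1) ∧ η (D.simple i) = -1 ∧ η (D.neg (D.simple i)) = -1 ∧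
      (∀ s < D.nroots, η s * η (D.reflectRoot i s) = (-1) ^ (D.cartan i s).natAbs ∧ η s * η (D.neg s) = 1) ∧
      D.nMat F (D.simple i) 1 = Matrix.of (fun (row col : D.Idx) =>
        Sum.elim
          (fun j' : Fin D.rank => Sum.elim
            (fun j : Fin D.rank => (if j' = j then (1 : F) else 0) - (if (j' : ℕ) = i then ((D.cartan j (D.simple i) : ℤ) : F) else 0))
            (fun _ => (0 : F)) col)
          (fun s' : Fin D.nroots => Sum.elim
            (fun _ => (0 : F))
            (fun s : Fin D.nroots => if (s' : ℕ) = D.reflectRoot i s then ((η s : ℤ) : F) else 0) col)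
          row) := by
  have hG := A.g1
  have hp := hG.simple_lt hi
  refine ⟨C.eta i, fun s _ => C.eta_cases i s, A.g4.eta_simple hi, ?_, ?_, ?_⟩
  · rw [hG.eta_neg hi hp]; exact A.g4.eta_simple hi
  · intro s hs
    constructor
    · rw [A.g4.refl_eq hi hs, A.g4.eta_mul hi hs, A.g2.cart_eq hi hs]
    · rw [hG.eta_neg hi hs]
      rcases C.eta_cases i s with h | h <;> rw [h] <;> norm_num
  · ext u j
    rcases j with j | s
    · rcases u with j' | s'
      · rw [nMat_apply hG.sorted hG.n (0 : F) 0 hi]
        unfold nCol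
        rw [show Nat.blt (enc D (Sum.inl j)) D.rank = true from blt_true' j.2, cond_true, svev_svIns, svev_cons,
          svev_nil, add_zero]
        show (if i = j'.val then _ else 0) + (if j.val = j'.val then _ else (0 : F)) = _
        rw [pev_pconst, pev_pconst]
        show _ = (if j' = j then (1 : F) else 0) - (if (j' : ℕ) = i then ((D.cartan j.val (D.simple i) : ℤ) : F) else 0)
        have e1 : (i = j'.val) ↔ ((j' : ℕ) = i) := eq_comm
        have e2 : (j.val = j'.val) ↔ (j' = j) := by
          rw [eq_comm]; exact Fin.val_inj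
        have e0 : enc D (Sum.inl j) = j.val := rfl
        simp only [e1, e2, e0]
        by_cases h1 : (j' : ℕ) = i <;> by_cases h2 : j' = j
        · rw [if_pos h1, if_pos h2, if_pos h1, if_pos h2, Int.cast_neg]; ring
        · rw [if_pos h1, if_neg h2, if_pos h1, if_neg h2, Int.cast_neg]; ring
        · rw [if_neg h1, if_pos h2, if_neg h1, if_pos h2]; ring
        · rw [if_neg h1, if_neg h2, if_neg h1, if_neg h2]; ring
      · rw [nMat_inl_entry hG hi]
        rfl
    · rw [nMat_inr_entry hG hi]
      rcases u with j' | s'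
      · show _ = (0 : F)
        rw [if_neg]
        show ¬ (D.rank + C.w i s.val = j'.val)
        have := j'.2
        omega
      · show (if D.rank + C.w i s.val = D.rank + s'.val then _ else _) =
          (if s'.val = D.reflectRoot i s.val then ((C.eta i s.val : ℤ) : F) else 0)
        rw [A.g4.refl_eq hi s.2]
        have e : (D.rank + C.w i s.val = D.rank + s'.val) ↔ (s'.val = C.w i s.val) := by omega
        simp only [e]

end Cfsg.Agent.Lib.ChevSym
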