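import Cfsg.Agent.Lib.ChevF1

/-! The subgroups `U`, `V`, `H`, `B`, `N` of a tabulated Chevalley group (helper4). -/

set_option autoImplicit false
set_option linter.all false

namespace Cfsg.Agent.Lib.ChevSym

open Cfsg.Lie Cfsg.Lie.ChevalleyDatum Matrix Cfsg.Agent.Lib.MatFilt

section general

variable {G : Type*} [Group G]

/-- Normalizing a subgroup given by generators. -/
theorem mem_normalizer_closure {S : Set G} {g : G} (h1 : ∀ x ∈ S, g * x * g⁻¹ ∈ Subgroup.closure S)
    (h2 : ∀ x ∈ S, g⁻¹ * x * g ∈ Subgroup.closure S) :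
    g ∈ Subgroup.normalizer (Subgroup.closure S : Set G) := by
  have key : ∀ (g : G), (∀ x ∈ S, g * x * g⁻¹ ∈ Subgroup.closure S) → ∀ x ∈ Subgroup.closure S,
      g * x * g⁻¹ ∈ Subgroup.closure S := by
    intro g h x hx
    induction hx using Subgroup.closure_induction with
    | mem x hx => exact h x hx
    | one => simp [Subgroup.one_mem]
    | mul x y _ _ hx hy =>
      have e : g * (x * y) * g⁻¹ = (g * x * g⁻¹) * (g * y * g⁻¹) := by group
      rw [e]
      exact Subgroup.mul_mem _ hx hy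
    | inv x _ hx =>
      have e : g * x⁻¹ * g⁻¹ = (g * x * g⁻¹)⁻¹ := by group
      rw [e]
      exact Subgroup.inv_mem _ hx
  rw [Subgroup.mem_normalizer_iff]
  intro x
  constructor
  · exact key g h1 x
  · intro hx
    have := key g⁻¹ (by simpa using h2) _ hx
    have e : g⁻¹ * (g * x * g⁻¹) * g⁻¹⁻¹ = x := by group
    rwa [e] at this

/-- The elements of a normalizing subgroup act. -/
theorem conj_mem_of_normalizer {H : Subgroup G} {g x : G} (hg : g ∈ Subgroup.normalizer (H : Set G)) (hx : x ∈ H) :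
    g * x * g⁻¹ ∈ H :=
  (Subgroup.mem_normalizer_iff.mp hg x).mp hx

/-- Conjugation by an element of the normalizer, the other way. -/
theorem inv_conj_mem_of_normalizer {H : Subgroup G} {g x : G} (hg : g ∈ Subgroup.normalizer (H : Set G)) (hx : x ∈ H) :
    g⁻¹ * x * g ∈ H := by
  have := conj_mem_of_normalizer (Subgroup.inv_mem _ hg) hx
  simpa using this

theorem exists_mul_sup {M C : Subgroup G} (h : M ≤ Subgroup.normalizer (C : Set G)) {x : G}
    (hx : x ∈ M ⊔ C) : ∃ m ∈ M, ∃ c ∈ C, x = m * c := by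
  rw [← Subgroup.closure_eq M, ← Subgroup.closure_eq C, ← Subgroup.closure_union] at hx
  induction hx using Subgroup.closure_induction with
  | mem x hx =>
    rcases hx with hx | hx
    · exact ⟨x, hx, 1, one_mem _, by simp⟩
    · exact ⟨1, one_mem _, x, hx, by simp⟩
  | one => exact ⟨1, one_mem _, 1, one_mem _, by simp⟩
  | mul x y _ _ hx hy =>
    obtain ⟨m, hm, c, hc, rfl⟩ := hx
    obtain ⟨m', hm', c', hc', rfl⟩ := hy
    refine ⟨m * m', mul_mem hm hm', m'⁻¹ * c * m' * c', mul_mem ?_ hc', by group⟩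
    have h2 := h (inv_mem hm')
    rw [Subgroup.mem_normalizer_iff] at h2
    have h3 := (h2 c).mp hc
    simpa using h3
  | inv x _ hx =>
    obtain ⟨m, hm, c, hc, rfl⟩ := hx
    refine ⟨m⁻¹, inv_mem hm, m * c⁻¹ * m⁻¹, ?_, by group⟩
    have h2 := h hm
    rw [Subgroup.mem_normalizer_iff] at h2
    exact (h2 _).mp (inv_mem hc)


/-- Decomposition, the other way round. -/
theorem exists_mul_sup' {M C : Subgroup G} (h : M ≤ Subgroup.normalizer (C : Set G)) {x : G}
    (hx : x ∈ M ⊔ C) : ∃ c ∈ C, ∃ m ∈ M, x = c * m := by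
  obtain ⟨m, hm, c, hc, rfl⟩ := exists_mul_sup h hx
  refine ⟨m * c * m⁻¹, ?_, m, hm, by group⟩
  have h2 := h hm
  rw [Subgroup.mem_normalizer_iff] at h2
  exact (h2 _).mp hc

end general

variable {F : Type*} [Field F] {D : ChevalleyDatum} {C : Cert} {T : Tab} (A : AllGood D C T)

section elements

variable (hG : Good D C)
include hG

theorem eq_gx {g : GL D.Idx F} {r : ℕ} {t : F} (h : (g : Matrix D.Idx D.Idx F) = D.x F r t) : g = gx hG F r t :=
  Units.ext h

theorem eq_gn {g : GL D.Idx F} {r : ℕ} {t : F} (h : (g : Matrix D.Idx D.Idx F) = D.nMat F r t) : g = gn hG F r t :=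
  Units.ext (h.trans (coe_gn hG r t).symm)

theorem eq_gh {g : GL D.Idx F} {r : ℕ} {t : F} (h : (g : Matrix D.Idx D.Idx F) = D.hMat F r t) : g = gh hG F r t :=
  Units.ext (h.trans (coe_gh hG r t).symm)

end elements

include A

/-- `H` is generated by the fundamental `h_{p_i}(c)`. -/
theorem diagonal_eq : D.diagonalSubgroup F = Hs A.g1 F := by
  apply le_antisymm
  · rw [diagonalSubgroup, Subgroup.closure_le]
    rintro g ⟨r, t, hr, ht, h⟩
    rw [eq_gh A.g1 h]
    exact gh_mem A.g1 A.g2 hr ht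
  · rw [Hs, Subgroup.closure_le]
    rintro g ⟨i, hi, c, hc, rfl⟩
    exact Subgroup.subset_closure ⟨D.simple i, c, A.g1.simple_lt hi, hc, coe_gh A.g1 _ _⟩

/-- The subgroup generated by `H` and the `n_i`. -/
def Ns (hG : Good D C) (F : Type*) [Field F] : Subgroup (GL D.Idx F) :=
  Hs hG F ⊔ Subgroup.closure {g | ∃ i < D.rank, g = gs hG F i}

omit A in
theorem gs_mem_Ns (hG : Good D C) {i : ℕ} (hi : i < D.rank) : gs hG F i ∈ Ns hG F :=
  (le_sup_right : _ ≤ Ns hG F) (Subgroup.subset_closure ⟨i, hi, rfl⟩)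

omit A in
theorem Hs_le_Ns (hG : Good D C) : Hs hG F ≤ Ns hG F := le_sup_left

theorem gn_one_mem_Ns {r : ℕ} (hr : r < D.nroots) : gn A.g1 F r 1 ∈ Ns A.g1 F := by
  have key : ∀ r < D.nroots, gn A.g1 F r 1 ∈ Ns A.g1 F := by
    apply A.g1.root_ind
    · intro i hi
      exact gs_mem_Ns A.g1 hi
    · intro i hi r hr h
      have e := gs_conj_gn A.g1 hi hr (1 : F)
      have h3 : gn A.g1 F (C.w i r) ((C.eta i r : F) * 1) ∈ Ns A.g1 F := by
        rw [← e]
        exact Subgroup.mul_mem _ (Subgroup.mul_mem _ (gs_mem_Ns A.g1 hi) h) (Subgroup.inv_mem _ (gs_mem_Ns A.g1 hi))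
      rcases C.eta_cases i r with he | he
      · rw [he] at h3
        simpa using h3
      · rw [he] at h3
        have h4 := Subgroup.inv_mem _ h3
        rw [gn_inv] at h4
        simpa using h4
  exact key r hr

/-- `N` is generated by `H` and the `n_i`. -/
theorem monomial_eq : D.monomialSubgroup F = Ns A.g1 F := by
  unfold monomialSubgroup Ns
  rw [diagonal_eq A]
  apply le_antisymm
  · apply sup_le le_sup_left
    rw [Subgroup.closure_le]
    rintro g ⟨r, hr, h⟩
    rw [eq_gn A.g1 h]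
    exact gn_one_mem_Ns A hr
  · apply sup_le le_sup_left
    rw [Subgroup.closure_le]
    rintro g ⟨i, hi, rfl⟩
    exact Subgroup.mem_sup_right (Subgroup.subset_closure ⟨D.simple i, A.g1.simple_lt hi, coe_gn A.g1 _ _⟩)

theorem Ns_normalizes {g x : GL D.Idx F} (hg : g ∈ Ns A.g1 F) (hx : x ∈ Hs A.g1 F) :
    g * x * g⁻¹ ∈ Hs A.g1 F := by
  have key : Ns A.g1 F ≤ Subgroup.normalizer (Hs A.g1 F : Set (GL D.Idx F)) := by
    apply sup_le
    · intro y hy
      rw [Subgroup.mem_normalizer_iff]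
      intro z
      constructor
      · intro hz
        exact Subgroup.mul_mem _ (Subgroup.mul_mem _ hy hz) (Subgroup.inv_mem _ hy)
      · intro hz
        have := Subgroup.mul_mem _ (Subgroup.mul_mem _ (Subgroup.inv_mem _ hy) hz) hy
        have e : y⁻¹ * (y * z * y⁻¹) * y = z := by group
        rwa [e] at this
    · rw [Subgroup.closure_le]
      rintro g ⟨i, hi, rfl⟩
      show _ ∈ Subgroup.normalizer _
      rw [Subgroup.mem_normalizer_iff]
      intro z
      constructor
      · intro hz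
        exact gs_conj_mem A.g1 A.g2 hi hz
      · intro hz
        have := gs_inv_conj_mem A.g1 A.g2 hi hz
        have e : (gs A.g1 F i)⁻¹ * (gs A.g1 F i * z * (gs A.g1 F i)⁻¹) * gs A.g1 F i = z := by group
        rwa [e] at this
  exact conj_mem_of_normalizer (key hg) hx

/-! ### The grading by the key -/

/-- Auxiliary list recursion for the key. -/
noncomputable def keyAux (T : Tab) (L : List ℤ) (l k : ℕ) : ℤ :=
  (List.rec (motive := fun _ => ℕ → ℤ) (fun _ => 0)
    (fun a _ ih l => a * T.cart l k + ih (Nat.succ l)) L) l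

omit A in
theorem key_eq (T : Tab) (k : ℕ) : T.key k = keyAux T T.keyA 0 k := rfl

omit A in
theorem keyAux_grade (h2 : Good2 D C T) (L : List ℤ) : ∀ l, l + L.length ≤ D.rank → GradeOK D (keyAux T L l) := by
  induction L with
  | nil =>
    intro l _
    refine ⟨fun r _ => ?_, fun r _ e _ q _ => ?_⟩
    · show (0 : ℤ) = -0
      simp
    · show (0 : ℤ) = 0 + _ * 0
      simp
  | cons a L ih =>
    intro l hl
    have h1 : l < D.rank := by
      simp only [List.length_cons] at hl
      omega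
    have h3 := ih (l + 1) (by simp only [List.length_cons] at hl; omega)
    have h4 := h2.gradeOK h1
    refine ⟨fun r hr => ?_, fun r hr e he q hq => ?_⟩
    · show a * T.cart l (D.neg r) + keyAux T L (l + 1) (D.neg r) = -(a * T.cart l r + keyAux T L (l + 1) r)
      rw [h4.neg r hr, h3.neg r hr]
      ring
    · show a * T.cart l q.1.1 + keyAux T L (l + 1) q.1.1 =
        a * T.cart l e.1 + keyAux T L (l + 1) e.1 + ((q.2 : ℤ) + 1) * (a * T.cart l r + keyAux T L (l + 1) r)
      rw [h4.chain r hr e he q hq, h3.chain r hr e he q hq]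
      ring

theorem gradeOK_key : GradeOK D T.key :=
  keyAux_grade A.g2 T.keyA 0 (by rw [A.g3.keyLen]; omega)

/-- The opposite grading. -/
noncomputable def nkey (T : Tab) (k : ℕ) : ℤ := - T.key k

theorem gradeOK_nkey : GradeOK D (nkey T) := by
  have h := gradeOK_key A
  refine ⟨fun r hr => ?_, fun r hr e he q hq => ?_⟩
  · show -T.key (D.neg r) = - -T.key r
    rw [h.neg r hr]
  · show -T.key q.1.1 = -T.key e.1 + ((q.2 : ℤ) + 1) * (-T.key r)
    rw [h.chain r hr e he q hq]
    ring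

omit A in
/-- Root elements in the filtration groups. -/
theorem gx_mem_flt (hG : Good D C) {κ : ℕ → ℤ} (hκ : GradeOK D κ) {r : ℕ} (hr : r < D.nroots) {d : ℤ} (hd : 0 ≤ d)
    (hrd : d ≤ κ r) (hpos : 0 < κ r) (t : F) : gx hG F r t ∈ fltSub (kap D κ) F d hd := by
  constructor
  · exact Deg.mono hrd (x_sub_one_deg hκ hr hpos t)
  · rw [gx_inv]
    exact Deg.mono hrd (x_sub_one_deg hκ hr hpos (-t))

/-- The group `U` lies in the first filtration step. -/
theorem U_le : D.posUnipotent F ≤ fltSub (kap D T.key) F 1 zero_le_one := by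
  rw [posUnipotent, Subgroup.closure_le]
  rintro g ⟨r, t, hr, h⟩
  rw [eq_gx A.g1 h]
  have hr1 := hr.1
  have hN := (A.g3.posIff r hr1).mp hr
  have hk := A.g3.keyPos r hr1 hN
  exact gx_mem_flt A.g1 (gradeOK_key A) hr1 zero_le_one (by omega) hk t

/-- The group `V` lies in the first step of the opposite filtration. -/
theorem V_le : D.negUnipotent F ≤ fltSub (kap D (nkey T)) F 1 zero_le_one := by
  rw [negUnipotent, Subgroup.closure_le]
  rintro g ⟨r, t, hr, h⟩
  rw [eq_gx A.g1 h]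
  have hr1 := hr.1
  have hN := (A.g3.negIff r hr1).mp hr
  have hk := A.g3.keyNeg r hr1 hN
  have hk' : 0 < nkey T r := by
    show 0 < -T.key r
    omega
  exact gx_mem_flt A.g1 (gradeOK_nkey A) hr1 zero_le_one (by omega) hk' t

omit A in
/-- Diagonal matrices have degree `0`, in every grading. -/
theorem diag_deg_zero (κ : D.Idx → ℤ) (d : D.Idx → F) : Deg κ 0 (Matrix.diagonal d - 1 : Matrix D.Idx D.Idx F) := by
  intro u j hj
  have hne : u ≠ j := by
    rintro rfl
    simp at hj
  rw [Matrix.sub_apply, Matrix.diagonal_apply_ne _ hne, Matrix.one_apply_ne hne, sub_zero]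

theorem Hs_le_flt0 (κ : D.Idx → ℤ) : Hs A.g1 F ≤ fltSub κ F 0 le_rfl := by
  intro g hg
  obtain ⟨χ, _, h3, _⟩ := HProp_of_mem A.g1 A.g2 hg
  obtain ⟨χ', _, h3', _⟩ := HProp_of_mem A.g1 A.g2 (Subgroup.inv_mem _ hg)
  constructor
  · rw [h3]
    exact diag_deg_zero κ _
  · rw [h3']
    exact diag_deg_zero κ _

theorem flt1_le_flt0 {κ : D.Idx → ℤ} : fltSub κ F 1 zero_le_one ≤ fltSub κ F 0 le_rfl := by
  rintro g ⟨h1, h2⟩
  exact ⟨Deg.mono (by omega) h1, Deg.mono (by omega) h2⟩

/-- The Borel group lies in the degree `0` filtration group. -/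
theorem B_le : D.borelSubgroup F ≤ fltSub (kap D T.key) F 0 le_rfl := by
  unfold borelSubgroup
  rw [diagonal_eq A]
  exact sup_le ((U_le A).trans (flt1_le_flt0 A)) (Hs_le_flt0 A _)

omit A in
/-- Trivial intersection of opposite filtration groups. -/
theorem flt_inf_opp {κ : ℕ → ℤ} {g : GL D.Idx F} (h1 : Deg (kap D κ) 0 ((g : Matrix D.Idx D.Idx F) - 1))
    (h2 : Deg (kap D (fun k => - κ k)) 1 ((g : Matrix D.Idx D.Idx F) - 1)) : g = 1 := by
  apply Units.ext
  rw [Units.val_one]
  rw [← sub_eq_zero]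
  ext u j
  by_cases h : kap D κ u - kap D κ j < 0
  · exact h1 u j h
  · apply h2 u j
    rcases u with i | s <;> rcases j with i' | s' <;> simp only [kap] at h ⊢ <;> omega

/-- `B ∩ V = 1`. -/
theorem B_inf_V : D.borelSubgroup F ⊓ D.negUnipotent F = ⊥ := by
  rw [Subgroup.eq_bot_iff_forall]
  rintro g ⟨h1, h2⟩
  exact flt_inf_opp (κ := T.key) ((B_le A) h1).1 ((V_le A) h2).1

/-- `U ∩ V = 1` -/
theorem U_le_B : D.posUnipotent F ≤ D.borelSubgroup F := le_sup_left

theorem H_le_B : D.diagonalSubgroup F ≤ D.borelSubgroup F := le_sup_right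

/-- `H` scales root elements. -/
theorem Hs_conj_gx {g : GL D.Idx F} (hg : g ∈ Hs A.g1 F) {r : ℕ} (hr : r < D.nroots) (t : F) :
    ∃ c : F, g * gx A.g1 F r t * g⁻¹ = gx A.g1 F r c := by
  obtain ⟨χ, _, _, h4⟩ := HProp_of_mem A.g1 A.g2 hg
  exact ⟨χ r * t, by rw [h4 r hr t, mul_inv_cancel_right]⟩

/-- `H` normalizes each group generated by a family of root subgroups. -/
theorem Hs_le_normalizer (P : ℕ → Prop) (hP : ∀ r, P r → r < D.nroots) :
    Hs A.g1 F ≤ Subgroup.normalizer (Subgroup.closure {g : GL D.Idx F | ∃ (r : ℕ) (t : F), P r ∧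
      (g : Matrix D.Idx D.Idx F) = D.x F r t} : Set (GL D.Idx F)) := by
  intro g hg
  apply mem_normalizer_closure
  · rintro x ⟨r, t, hr, h⟩
    obtain ⟨c, hc⟩ := Hs_conj_gx A hg (hP r hr) t
    rw [eq_gx A.g1 h, hc]
    exact Subgroup.subset_closure ⟨r, c, hr, rfl⟩
  · rintro x ⟨r, t, hr, h⟩
    obtain ⟨c, hc⟩ := Hs_conj_gx A (Subgroup.inv_mem _ hg) (hP r hr) t
    rw [eq_gx A.g1 h]
    rw [inv_inv] at hc
    rw [hc]
    exact Subgroup.subset_closure ⟨r, c, hr, rfl⟩

theorem H_le_normalizer_U : D.diagonalSubgroup F ≤ Subgroup.normalizer (D.posUnipotent F : Set (GL D.Idx F)) := by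
  rw [diagonal_eq A]
  exact Hs_le_normalizer A (fun r => D.IsPosRoot r) (fun r hr => hr.1)

theorem H_le_normalizer_V : D.diagonalSubgroup F ≤ Subgroup.normalizer (D.negUnipotent F : Set (GL D.Idx F)) := by
  rw [diagonal_eq A]
  exact Hs_le_normalizer A (fun r => D.IsNegRoot r) (fun r hr => hr.1)

/-- `U ∩ H = 1`. -/
theorem U_inf_H : D.posUnipotent F ⊓ D.diagonalSubgroup F = ⊥ := by
  rw [Subgroup.eq_bot_iff_forall]
  rintro g ⟨h1, h2⟩
  rw [diagonal_eq A] at h2
  obtain ⟨χ, _, h3, _⟩ := HProp_of_mem A.g1 A.g2 h2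
  have h4 := ((U_le A) h1).1
  apply Units.ext
  rw [Units.val_one, ← sub_eq_zero]
  ext u j
  by_cases h : u = j
  · subst h
    exact h4 u u (by simp)
  · rw [Matrix.sub_apply, h3, Matrix.diagonal_apply_ne _ h, Matrix.one_apply_ne h, sub_zero]
    rfl

/-- `B ∩ VH = H`. -/
theorem B_inf_VH : D.borelSubgroup F ⊓ (D.negUnipotent F ⊔ D.diagonalSubgroup F) = D.diagonalSubgroup F := by
  apply le_antisymm
  · rintro g ⟨h1, h2⟩
    rw [sup_comm] at h2
    obtain ⟨v, hv, h, hh, rfl⟩ := exists_mul_sup' (H_le_normalizer_V A) h2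
    have h3 : v ∈ D.borelSubgroup F ⊓ D.negUnipotent F := by
      refine ⟨?_, hv⟩
      have := Subgroup.mul_mem _ h1 (Subgroup.inv_mem _ (H_le_B A hh))
      simpa using this
    rw [B_inf_V A, Subgroup.mem_bot] at h3
    rw [h3, one_mul]
    exact hh
  · exact le_inf (H_le_B A) le_sup_right

/-- The group is generated by `U` and `V`. -/
theorem U_sup_V : D.posUnipotent F ⊔ D.negUnipotent F = D.group F := by
  apply le_antisymm
  · apply sup_le
    · rw [posUnipotent, Subgroup.closure_le]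
      rintro g ⟨r, t, hr, h⟩
      refine Subgroup.subset_closure ⟨⟨r, hr.1⟩, t, ?_⟩
      rw [h, ChevalleyDatum.x, dif_pos hr.1]
    · rw [negUnipotent, Subgroup.closure_le]
      rintro g ⟨r, t, hr, h⟩
      refine Subgroup.subset_closure ⟨⟨r, hr.1⟩, t, ?_⟩
      rw [h, ChevalleyDatum.x, dif_pos hr.1]
  · rw [group, Subgroup.closure_le]
    rintro g ⟨r, t, h⟩
    have h' : (g : Matrix D.Idx D.Idx F) = D.x F r.val t := by
      rw [h, ChevalleyDatum.x, dif_pos r.2]
    by_cases hN : D.nroots / 2 ≤ r.val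
    · exact Subgroup.mem_sup_left (Subgroup.subset_closure ⟨r.val, t, (A.g3.posIff r.val r.2).mpr hN, h'⟩)
    · exact Subgroup.mem_sup_right (Subgroup.subset_closure ⟨r.val, t, (A.g3.negIff r.val r.2).mpr (not_le.mp hN), h'⟩)

/-- Root elements of `G`. -/
theorem gx_mem_group (r : ℕ) (t : F) : gx A.g1 F r t ∈ D.group F := by
  by_cases hr : r < D.nroots
  · refine Subgroup.subset_closure ⟨⟨r, hr⟩, t, ?_⟩
    show D.x F r t = _
    rw [ChevalleyDatum.x, dif_pos hr]
  · have : gx A.g1 F r t = 1 := Units.ext (x_out hr t)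
    rw [this]
    exact Subgroup.one_mem _

theorem gn_mem_group (r : ℕ) (t : F) : gn A.g1 F r t ∈ D.group F :=
  Subgroup.mul_mem _ (Subgroup.mul_mem _ (gx_mem_group A _ _) (gx_mem_group A _ _)) (gx_mem_group A _ _)

theorem gh_mem_group (r : ℕ) (t : F) : gh A.g1 F r t ∈ D.group F :=
  Subgroup.mul_mem _ (gn_mem_group A _ _) (gn_mem_group A _ _)

theorem H_le_group : D.diagonalSubgroup F ≤ D.group F := by
  rw [diagonalSubgroup, Subgroup.closure_le]
  rintro g ⟨r, t, _, _, h⟩
  rw [eq_gh A.g1 h]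
  exact gh_mem_group A _ _

theorem U_le_group : D.posUnipotent F ≤ D.group F := by
  rw [← U_sup_V A]
  exact le_sup_left

theorem V_le_group : D.negUnipotent F ≤ D.group F := by
  rw [← U_sup_V A]
  exact le_sup_right

theorem B_le_group : D.borelSubgroup F ≤ D.group F := sup_le (U_le_group A) (H_le_group A)

theorem N_le_group : D.monomialSubgroup F ≤ D.group F := by
  apply sup_le (H_le_group A)
  rw [Subgroup.closure_le]
  rintro g ⟨r, _, h⟩
  rw [eq_gn A.g1 h]
  exact gn_mem_group A _ _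

/-- The group generated by `B` and `N` is everything. -/
theorem B_sup_N : D.borelSubgroup F ⊔ D.monomialSubgroup F = D.group F := by
  apply le_antisymm (sup_le (B_le_group A) (N_le_group A))
  have key : ∀ r < D.nroots, ∀ t : F, gx A.g1 F r t ∈ D.borelSubgroup F ⊔ D.monomialSubgroup F := by
    apply A.g1.root_ind
    · intro i hi t
      refine Subgroup.mem_sup_left (U_le_B A (Subgroup.subset_closure ⟨D.simple i, t, ?_, rfl⟩))
      have h1 := A.g1.simple_lt hi
      exact (A.g3.posIff _ h1).mpr (A.g3.simplePos i hi)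
    · intro i hi r hr h t
      have hsN : gs A.g1 F i ∈ D.borelSubgroup F ⊔ D.monomialSubgroup F := by
        refine Subgroup.mem_sup_right ?_
        rw [monomial_eq A]
        exact gs_mem_Ns A.g1 hi
      have e := gs_conj_gx A.g1 hi hr ((C.eta i r : F) * t)
      rw [← mul_assoc, eta_sq A.g1, one_mul] at e
      rw [← e]
      exact Subgroup.mul_mem _ (Subgroup.mul_mem _ hsN (h _)) (Subgroup.inv_mem _ hsN)
  rw [group, Subgroup.closure_le]
  rintro g ⟨r, t, h⟩
  have h' : (g : Matrix D.Idx D.Idx F) = D.x F r.val t := by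
    rw [h, ChevalleyDatum.x, dif_pos r.2]
  rw [eq_gx A.g1 h']
  exact key r.val r.2 t

/-! ### Nilpotency, solvability -/

theorem U_isNilpotent : Group.IsNilpotent (D.posUnipotent F) := by
  have hfin : ∃ M : ℤ, ∀ u : D.Idx, |kap D T.key u| ≤ M := by
    obtain ⟨M, hM⟩ := (Set.finite_range (fun u : D.Idx => |kap D T.key u|)).bddAbove
    exact ⟨M, fun u => hM ⟨u, rfl⟩⟩
  obtain ⟨M, hM⟩ := hfin
  apply isNilpotent_of_le (κ := kap D T.key) (2 * M + 1) _ _ (U_le A)
  intro u j
  have h1 := abs_le.mp (hM u)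
  have h2 := abs_le.mp (hM j)
  omega

end Cfsg.Agent.Lib.ChevSym
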