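import Cfsg.Agent.Lib.ChevF2

/-! Unipotence, solvability of `B`, product form of `H`, and the deletion argument for `N` (helper4). -/

set_option autoImplicit false
set_option linter.all false

namespace Cfsg.Agent.Lib.ChevSym

open Cfsg.Lie Cfsg.Lie.ChevalleyDatum Matrix Cfsg.Agent.Lib.MatFilt

variable {F : Type*} [Field F] {D : ChevalleyDatum} {C : Cert} {T : Tab} (A : AllGood D C T)

include A

theorem key_lt {a b : ℕ} (hab : a < b) (hb : b < D.nroots) : T.key a < T.key b := by
  induction b, hab using Nat.le_induction with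
  | base => exact A.g3.keyMono a hb
  | succ b hab ih =>
    have h1 := ih (by omega)
    have h2 := A.g3.keyMono b hb
    omega

theorem key_lt_iff {a b : ℕ} (ha : a < D.nroots) (hb : b < D.nroots) : T.key a < T.key b ↔ a < b := by
  constructor
  · intro h
    by_contra hn
    rcases Nat.lt_or_ge b a with h1 | h1
    · have := key_lt A h1 ha
      omega
    · have e : a = b := by omega
      subst e
      omega
  · exact fun h => key_lt A h hb

/-- The positional ranks of the coordinates. -/
def posI (D : ChevalleyDatum) : D.Idx → ℤ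
  | Sum.inl i => ((D.nroots / 2 + i.val : ℕ) : ℤ)
  | Sum.inr s => if s.val < D.nroots / 2 then (s.val : ℤ) else ((s.val + D.rank : ℕ) : ℤ)

/-- `U` consists of unipotent matrices. -/
theorem U_pow_eq_zero {g : GL D.Idx F} (hg : g ∈ D.posUnipotent F) :
    ((g : Matrix D.Idx D.Idx F) - 1) ^ (D.rank + D.nroots) = 0 := by
  have h1 : Deg (kap D T.key) 1 ((g : Matrix D.Idx D.Idx F) - 1) := ((U_le A) hg).1
  have hev := A.g3.even
  have h2 : Deg (posI D) 1 ((g : Matrix D.Idx D.Idx F) - 1) := by
    intro u j hj
    apply h1 u j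
    by_contra hn
    have hn' : 1 ≤ kap D T.key u - kap D T.key j := not_lt.mp hn
    rcases u with i | s <;> rcases j with i' | s'
    · simp [kap] at hn'
    · -- `κ u - κ j = - key s'`
      simp only [kap] at hn'
      have hs' : s'.val < D.nroots / 2 := by
        by_contra h3
        have := A.g3.keyPos s'.val s'.2 (not_lt.mp h3)
        omega
      simp only [posI, if_pos hs'] at hj
      push_cast at hj
      have := s'.2
      omega
    · simp only [kap] at hn'
      have hs : ¬ s.val < D.nroots / 2 := by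
        intro h3
        have := A.g3.keyNeg s.val s.2 h3
        omega
      simp only [posI, if_neg hs] at hj
      push_cast at hj
      have := i'.2
      omega
    · simp only [kap] at hn'
      have h3 : s'.val < s.val := (key_lt_iff A s'.2 s.2).mp (by omega)
      simp only [posI] at hj
      split_ifs at hj <;> push_cast at hj <;> omega
  have h3 := Deg.pow_sub_one (d := 1) zero_le_one h2 (D.rank + D.nroots)
  apply Deg.eq_zero h3
  intro u j
  have hu : ∀ u : D.Idx, 0 ≤ posI D u ∧ posI D u < ((D.rank + D.nroots : ℕ) : ℤ) := by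
    intro u
    rcases u with i | s
    · simp only [posI]
      have := i.2
      push_cast
      omega
    · simp only [posI]
      have := s.2
      split_ifs with h4 <;> push_cast <;> omega
  have h4 := hu u
  have h5 := hu j
  simp only [mul_one]
  omega

/-- `B` is solvable. -/
theorem B_isSolvable : Group.IsSolvable (D.borelSubgroup F) := by
  haveI hnormal : ((D.posUnipotent F).subgroupOf (D.borelSubgroup F)).Normal := by
    constructor
    rintro ⟨u, hu⟩ hu' ⟨b, hb⟩
    rw [Subgroup.mem_subgroupOf] at hu' ⊢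
    obtain ⟨c, hc, h, hh, rfl⟩ := exists_mul_sup' (H_le_normalizer_U A) (by
      rw [sup_comm]; exact hb)
    show c * h * u * (c * h)⁻¹ ∈ _
    have e : c * h * u * (c * h)⁻¹ = c * (h * u * h⁻¹) * c⁻¹ := by group
    rw [e]
    have h3 := conj_mem_of_normalizer (H_le_normalizer_U A hh) hu'
    exact Subgroup.mul_mem _ (Subgroup.mul_mem _ hc h3) (Subgroup.inv_mem _ hc)
  haveI : Group.IsNilpotent (D.posUnipotent F) := U_isNilpotent A
  have hsU : Group.IsSolvable (D.posUnipotent F) := inferInstance
  let K := (D.posUnipotent F).subgroupOf (D.borelSubgroup F)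
  have hred : ∀ a : D.borelSubgroup F ⧸ K, ∃ h : GL D.Idx F, ∃ hh : h ∈ D.diagonalSubgroup F,
      a = QuotientGroup.mk ⟨h, H_le_B A hh⟩ := by
    intro a
    obtain ⟨⟨x, hx⟩, rfl⟩ := QuotientGroup.mk_surjective a
    obtain ⟨c, hc, h, hh, rfl⟩ := exists_mul_sup' (H_le_normalizer_U A) (by
      rw [sup_comm]; exact hx)
    refine ⟨h, hh, ?_⟩
    rw [QuotientGroup.eq, Subgroup.mem_subgroupOf]
    show ((c * h)⁻¹ * h : GL D.Idx F) ∈ _
    have e : (c * h)⁻¹ * h = h⁻¹ * c⁻¹ * h := by group
    rw [e]
    have := inv_conj_mem_of_normalizer (H_le_normalizer_U A hh) (Subgroup.inv_mem _ hc)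
    exact this
  have hsq : Group.IsSolvable (D.borelSubgroup F ⧸ K) := by
    apply Group.isSolvable_of_comm
    intro a b
    obtain ⟨h, hh, rfl⟩ := hred a
    obtain ⟨h', hh', rfl⟩ := hred b
    rw [← QuotientGroup.mk_mul, ← QuotientGroup.mk_mul]
    congr 1
    apply Subtype.ext
    show h * h' = h' * h
    rw [diagonal_eq A] at hh hh'
    exact Hs_comm A.g1 A.g2 hh hh'
  exact Group.isSolvable_of_ker_le_range
    (Subgroup.inclusion (show D.posUnipotent F ≤ D.borelSubgroup F from U_le_B A))
    (QuotientGroup.mk' K) (by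
      rintro ⟨x, hx⟩ hk
      rw [MonoidHom.mem_ker, QuotientGroup.mk'_apply, QuotientGroup.eq_one_iff, Subgroup.mem_subgroupOf] at hk
      exact ⟨⟨x, hk⟩, rfl⟩)

/-! ### `H` as a product -/

/-- The product of the `h_{p_i}(c_i)`, `i` in a list. -/
noncomputable def hProd (hG : Good D C) (c : ℕ → F) (L : List ℕ) : GL D.Idx F :=
  (L.map fun i => gh hG F (D.simple i) (c i)).prod

omit A in
theorem hProd_nil (hG : Good D C) (c : ℕ → F) : hProd hG c [] = 1 := rfl

omit A in
theorem hProd_cons (hG : Good D C) (c : ℕ → F) (i : ℕ) (L : List ℕ) :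
    hProd hG c (i :: L) = gh hG F (D.simple i) (c i) * hProd hG c L := by
  simp [hProd]

theorem hProd_mem {c : ℕ → F} {L : List ℕ} (hL : ∀ i ∈ L, i < D.rank) (hc : ∀ i < D.rank, c i ≠ 0) :
    hProd A.g1 c L ∈ Hs A.g1 F := by
  induction L with
  | nil => exact Subgroup.one_mem _
  | cons i L ih =>
    rw [hProd_cons]
    have h1 : i < D.rank := hL i (by simp)
    exact Subgroup.mul_mem _ (gh_simple_mem A.g1 A.g2 h1 (hc i h1)) (ih fun j hj => hL j (by simp [hj]))

/-- The diagonal of `hProd`. -/
theorem coe_hProd {c : ℕ → F} {L : List ℕ} (hL : ∀ i ∈ L, i < D.rank) (hc : ∀ i < D.rank, c i ≠ 0) :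
    ((hProd A.g1 c L : GL D.Idx F) : Matrix D.Idx D.Idx F) =
      Matrix.diagonal (dmat D fun s => (L.map fun i => c i ^ T.cart i s).prod) := by
  induction L with
  | nil =>
    rw [hProd_nil]
    ext u j
    by_cases h : u = j
    · subst h
      rcases u with i | s <;> simp [dmat]
    · rw [Matrix.diagonal_apply_ne _ h]
      exact Matrix.one_apply_ne h
  | cons i L ih =>
    have h1 : i < D.rank := hL i (by simp)
    rw [hProd_cons, Units.val_mul, ih (fun j hj => hL j (by simp [hj])), coe_gh_simple A.g1 A.g2 h1 (hc i h1),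
      Matrix.diagonal_mul_diagonal]
    congr 1
    funext u
    rcases u with i' | s
    · simp [dmat]
    · simp [dmat]

/-- The product for the pointwise product of coefficients. -/
theorem hProd_mul {c c' : ℕ → F} {L : List ℕ} (hL : ∀ i ∈ L, i < D.rank) (hc : ∀ i < D.rank, c i ≠ 0)
    (hc' : ∀ i < D.rank, c' i ≠ 0) :
    hProd A.g1 c L * hProd A.g1 c' L = hProd A.g1 (fun i => c i * c' i) L := by
  apply Units.ext
  rw [Units.val_mul, coe_hProd A hL hc, coe_hProd A hL hc', coe_hProd A hL (fun i hi => mul_ne_zero (hc i hi) (hc' i hi)),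
    Matrix.diagonal_mul_diagonal]
  congr 1
  funext u
  rcases u with i' | s
  · simp [dmat]
  · simp only [dmat]
    rw [← List.prod_map_mul]
    congr 1
    apply List.map_congr_left
    intro i _
    rw [mul_zpow]

/-- Every element of `H` is a product over the fundamental roots. -/
theorem exists_hProd {g : GL D.Idx F} (hg : g ∈ Hs A.g1 F) :
    ∃ c : ℕ → F, (∀ i < D.rank, c i ≠ 0) ∧ g = hProd A.g1 c (List.range D.rank) := by
  have hR : ∀ i ∈ List.range D.rank, i < D.rank := fun i hi => List.mem_range.mp hi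
  induction hg using Subgroup.closure_induction with
  | mem x hx =>
    obtain ⟨j, hj, c₀, hc₀, rfl⟩ := hx
    refine ⟨fun i => if i = j then c₀ else 1, fun i _ => ?_, ?_⟩
    · show (if i = j then c₀ else 1) ≠ 0
      split_ifs
      · exact hc₀
      · exact one_ne_zero
    · have key : ∀ L : List ℕ, L.Nodup →
          hProd A.g1 (fun i => if i = j then c₀ else 1) L = if j ∈ L then gh A.g1 F (D.simple j) c₀ else 1 := by
        intro L
        induction L with
        | nil => intro _; simp [hProd_nil]
        | cons i L ih =>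
          intro hnd
          have hnd' := List.nodup_cons.mp hnd
          rw [hProd_cons, ih hnd'.2]
          by_cases hij : i = j
          · subst hij
            simp [hnd'.1]
          · have : j ≠ i := fun h => hij h.symm
            simp [hij, this, gh_one]
      rw [key _ List.nodup_range, if_pos (List.mem_range.mpr hj)]
  | one =>
    refine ⟨fun _ => 1, fun _ _ => one_ne_zero, ?_⟩
    have key : ∀ L : List ℕ, hProd A.g1 (fun _ => (1 : F)) L = 1 := by
      intro L
      induction L with
      | nil => rfl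
      | cons i L ih => rw [hProd_cons, ih, gh_one, one_mul]
    rw [key]
  | mul x y _ _ hx hy =>
    obtain ⟨c, h1, rfl⟩ := hx
    obtain ⟨c', h2, rfl⟩ := hy
    exact ⟨fun i => c i * c' i, fun i hi => mul_ne_zero (h1 i hi) (h2 i hi), hProd_mul A hR h1 h2⟩
  | inv x _ hx =>
    obtain ⟨c, h1, rfl⟩ := hx
    refine ⟨fun i => (c i)⁻¹, fun i hi => inv_ne_zero (h1 i hi), ?_⟩
    rw [inv_eq_iff_mul_eq_one, hProd_mul A hR h1 (fun i hi => inv_ne_zero (h1 i hi))]
    have key : ∀ L : List ℕ, (∀ i ∈ L, i < D.rank) → hProd A.g1 (fun i => c i * (c i)⁻¹) L = 1 := by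
      intro L hL
      induction L with
      | nil => rfl
      | cons i L ih =>
        rw [hProd_cons, ih (fun j hj => hL j (by simp [hj])), mul_inv_cancel₀ (h1 i (hL i (by simp))), gh_one, one_mul]
    exact key _ hR

/-- The word of `hProd`. -/
theorem coe_hProd_word (c : ℕ → F) (L : List ℕ) :
    ((hProd A.g1 c L : GL D.Idx F) : Matrix D.Idx D.Idx F) = D.wordMat F (L.flatMap fun i => D.hWord (D.simple i) (c i)) := by
  induction L with
  | nil => rw [hProd_nil, Units.val_one, List.flatMap_nil, wordMat_nil]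
  | cons i L ih =>
    rw [hProd_cons, Units.val_mul, ih, List.flatMap_cons, wordMat_append, coe_gh]
    rfl

/-- Every element of `H` is a product of `h_{p_i}(c_i)`, as a word. -/
theorem core1034 {g : GL D.Idx F} (hg : g ∈ D.diagonalSubgroup F) :
    ∃ c : ℕ → F, (∀ i < D.rank, c i ≠ 0) ∧
      (g : Matrix D.Idx D.Idx F) = D.wordMat F ((List.range D.rank).flatMap fun i => D.hWord (D.simple i) (c i)) := by
  rw [diagonal_eq A] at hg
  obtain ⟨c, h1, rfl⟩ := exists_hProd A hg
  exact ⟨c, h1, coe_hProd_word A c _⟩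

end Cfsg.Agent.Lib.ChevSym
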