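import Cfsg.Agent.Lib.ChevF3

/-! Words in the `n_i`: monomial matrices, the deletion argument, `B ∩ N = H` (helper4). -/

set_option autoImplicit false
set_option linter.all false

namespace Cfsg.Agent.Lib.ChevSym

open Cfsg.Lie Cfsg.Lie.ChevalleyDatum Matrix Cfsg.Agent.Lib.MatFilt

variable {F : Type*} [Field F] {D : ChevalleyDatum} {C : Cert} {T : Tab}

/-- `g` moves the coordinate vector `e_s` to a multiple of `e_{π s}`. -/
def MonP (g : GL D.Idx F) (π : ℕ → ℕ) : Prop :=
  ∀ s : Fin D.nroots, ∃ (hs : π s.val < D.nroots), ∃ c : F, c ≠ 0 ∧ ∀ u : D.Idx,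
    (g : Matrix D.Idx D.Idx F) u (Sum.inr s) = if u = Sum.inr ⟨π s.val, hs⟩ then c else 0

theorem monP_one : MonP (1 : GL D.Idx F) id := by
  intro s
  refine ⟨s.2, 1, one_ne_zero, fun u => ?_⟩
  rw [Units.val_one, Matrix.one_apply]
  rfl

theorem monP_mul {g g' : GL D.Idx F} {π π' : ℕ → ℕ} (h : MonP g π) (h' : MonP g' π') : MonP (g * g') (π ∘ π') := by
  intro s
  obtain ⟨hs', c', hc', e'⟩ := h' s
  obtain ⟨hs, c, hc, e⟩ := h ⟨π' s.val, hs'⟩
  refine ⟨hs, c * c', mul_ne_zero hc hc', fun u => ?_⟩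
  rw [Units.val_mul, Matrix.mul_apply]
  rw [Finset.sum_eq_single (Sum.inr ⟨π' s.val, hs'⟩)]
  · rw [e, e']
    show (if u = Sum.inr ⟨π (π' s.val), hs⟩ then c else 0) * (if (Sum.inr ⟨π' s.val, hs'⟩ : D.Idx) = Sum.inr ⟨π' s.val, hs'⟩ then c' else 0) = _
    rw [if_pos rfl]
    show _ = if u = Sum.inr ⟨π (π' s.val), hs⟩ then c * c' else 0
    split_ifs <;> simp
  · intro b _ hb
    rw [e' b, if_neg hb, mul_zero]
  · simp

theorem monP_unique {g : GL D.Idx F} {π π' : ℕ → ℕ} (h : MonP g π) (h' : MonP g π') {s : ℕ} (hs : s < D.nroots) :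
    π s = π' s := by
  obtain ⟨h1, c, hc, e⟩ := h ⟨s, hs⟩
  obtain ⟨h2, c', hc', e'⟩ := h' ⟨s, hs⟩
  have h3 := e (Sum.inr ⟨π s, h1⟩)
  rw [if_pos rfl, e'] at h3
  by_contra hne
  rw [if_neg] at h3
  · exact hc h3.symm
  · intro h4
    exact hne (congrArg Fin.val (Sum.inr.inj h4))

section
variable (hG : Good D C)
include hG

theorem monP_gs {i : ℕ} (hi : i < D.rank) : MonP (gs hG F i) (C.w i) := by
  intro s
  have hw := hG.w.lt i hi s.val s.2
  refine ⟨hw, (C.eta i s.val : F), ?_, fun u => ?_⟩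
  · rcases C.eta_cases i s.val with h | h <;> simp [h]
  · rw [coe_gn, nMat_inr_entry hG hi]
    by_cases h : u = Sum.inr ⟨C.w i s.val, hw⟩
    · subst h
      rw [if_pos, if_pos rfl]
      rfl
    · rw [if_neg h, if_neg]
      intro h3
      apply h
      apply enc_inj D
      exact h3.symm

/-- The word in the `n_i`. -/
noncomputable def wd (hG : Good D C) (F : Type*) [Field F] (l : List ℕ) : GL D.Idx F :=
  (l.map (fun i => gs hG F i)).prod

/-- The permutation of a word. -/
noncomputable def wp (C : Cert) (l : List ℕ) (r : ℕ) : ℕ := l.foldr (fun i s => C.w i s) r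

omit hG in
@[simp] theorem wp_nil (r : ℕ) : wp C [] r = r := rfl
omit hG in
@[simp] theorem wp_cons (i : ℕ) (l : List ℕ) (r : ℕ) : wp C (i :: l) r = C.w i (wp C l r) := rfl

theorem wd_nil : wd hG F [] = 1 := rfl
theorem wd_cons (i : ℕ) (l : List ℕ) : wd hG F (i :: l) = gs hG F i * wd hG F l := by simp [wd]
theorem wd_append (l l' : List ℕ) : wd hG F (l ++ l') = wd hG F l * wd hG F l' := by simp [wd]
omit hG in
theorem wp_append (l l' : List ℕ) (r : ℕ) : wp C (l ++ l') r = wp C l (wp C l' r) := by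
  simp [wp, List.foldr_append]

theorem monP_wd {l : List ℕ} (hl : ∀ i ∈ l, i < D.rank) : MonP (wd hG F l) (wp C l) := by
  induction l with
  | nil => exact monP_one
  | cons i l ih =>
    rw [wd_cons]
    exact monP_mul (monP_gs hG (hl i (by simp))) (ih fun j hj => hl j (by simp [hj]))

theorem wp_lt {l : List ℕ} (hl : ∀ i ∈ l, i < D.rank) {r : ℕ} (hr : r < D.nroots) : wp C l r < D.nroots := by
  induction l with
  | nil => exact hr
  | cons i l ih => exact hG.w.lt i (hl i (by simp)) _ (ih fun j hj => hl j (by simp [hj]))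

theorem wp_neg {l : List ℕ} (hl : ∀ i ∈ l, i < D.rank) {r : ℕ} (hr : r < D.nroots) :
    wp C l (D.neg r) = D.neg (wp C l r) := by
  induction l with
  | nil => rfl
  | cons i l ih =>
    have h1 : ∀ j ∈ l, j < D.rank := fun j hj => hl j (by simp [hj])
    rw [wp_cons, ih h1, hG.w.neg i (hl i (by simp)) _ (wp_lt hG h1 hr)]
    rfl

theorem wp_inj {l : List ℕ} (hl : ∀ i ∈ l, i < D.rank) {r s : ℕ} (hr : r < D.nroots) (hs : s < D.nroots)
    (h : wp C l r = wp C l s) : r = s := by
  induction l with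
  | nil => exact h
  | cons i l ih =>
    have h1 : ∀ j ∈ l, j < D.rank := fun j hj => hl j (by simp [hj])
    apply ih h1
    have hi := hl i (by simp)
    have h3 := congrArg (C.w i) h
    simp only [wp_cons] at h3
    rwa [hG.w.invol i hi _ (wp_lt hG h1 hr), hG.w.invol i hi _ (wp_lt hG h1 hs)] at h3

/-- Conjugating `n_r(t)` by a word. -/
theorem wd_conj_gn {l : List ℕ} (hl : ∀ i ∈ l, i < D.rank) {r : ℕ} (hr : r < D.nroots) :
    ∃ ε : F, (ε = 1 ∨ ε = -1) ∧ ∀ t : F, wd hG F l * gn hG F r t * (wd hG F l)⁻¹ = gn hG F (wp C l r) (ε * t) := by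
  induction l with
  | nil => exact ⟨1, Or.inl rfl, fun t => by simp [wd_nil]⟩
  | cons i l ih =>
    have h1 : ∀ j ∈ l, j < D.rank := fun j hj => hl j (by simp [hj])
    obtain ⟨ε, hε, h⟩ := ih h1
    have hi := hl i (by simp)
    refine ⟨(C.eta i (wp C l r) : F) * ε, ?_, fun t => ?_⟩
    · rcases C.eta_cases i (wp C l r) with h3 | h3 <;> rcases hε with h4 | h4 <;> simp [h3, h4]
    · rw [wd_cons, wp_cons]
      have e : gs hG F i * wd hG F l * gn hG F r t * (gs hG F i * wd hG F l)⁻¹ =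
          gs hG F i * (wd hG F l * gn hG F r t * (wd hG F l)⁻¹) * (gs hG F i)⁻¹ := by group
      rw [e, h, gs_conj_gn hG hi (wp_lt hG h1 hr), mul_assoc]

end

/-- Normal form of the elements of `N`: a word times an element of `H`. -/
def IsWordH (hG : Good D C) (g : GL D.Idx F) : Prop :=
  ∃ l : List ℕ, (∀ i ∈ l, i < D.rank) ∧ ∃ h ∈ Hs hG F, g = wd hG F l * h

theorem wd_mem_Ns (hG : Good D C) {l : List ℕ} (hl : ∀ i ∈ l, i < D.rank) : wd hG F l ∈ Ns hG F := by
  induction l with
  | nil => exact Subgroup.one_mem _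
  | cons i l ih =>
    rw [wd_cons]
    exact Subgroup.mul_mem _ (gs_mem_Ns hG (hl i (by simp))) (ih fun j hj => hl j (by simp [hj]))

variable (A : AllGood D C T)
include A

theorem Hs_conj_wd {l : List ℕ} (hl : ∀ i ∈ l, i < D.rank) {h : GL D.Idx F} (hh : h ∈ Hs A.g1 F) :
    (wd A.g1 F l)⁻¹ * h * wd A.g1 F l ∈ Hs A.g1 F := by
  have := Ns_normalizes A (Subgroup.inv_mem _ (wd_mem_Ns A.g1 hl)) hh
  simpa using this

theorem isWordH_mul {g g' : GL D.Idx F} (h : IsWordH A.g1 g) (h' : IsWordH A.g1 g') : IsWordH A.g1 (g * g') := by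
  obtain ⟨l, hl, x, hx, rfl⟩ := h
  obtain ⟨l', hl', x', hx', rfl⟩ := h'
  refine ⟨l ++ l', ?_, (wd A.g1 F l')⁻¹ * x * wd A.g1 F l' * x', ?_, ?_⟩
  · intro i hi
    rcases List.mem_append.mp hi with h1 | h1
    · exact hl i h1
    · exact hl' i h1
  · exact Subgroup.mul_mem _ (Hs_conj_wd A hl' hx) hx'
  · rw [wd_append]
    group

theorem isWordH_inv_gs {i : ℕ} (hi : i < D.rank) : IsWordH A.g1 (gs A.g1 F i)⁻¹ := by
  refine ⟨[i], by simpa using hi, (gs A.g1 F i * gs A.g1 F i)⁻¹, Subgroup.inv_mem _ (gs_sq_mem A.g1 A.g2 hi), ?_⟩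
  simp [wd_cons, wd_nil]

theorem isWordH_of_Hs {h : GL D.Idx F} (hh : h ∈ Hs A.g1 F) : IsWordH A.g1 h :=
  ⟨[], by simp, h, hh, by simp [wd_nil]⟩

theorem isWordH_inv_wd {l : List ℕ} (hl : ∀ i ∈ l, i < D.rank) : IsWordH A.g1 (wd A.g1 F l)⁻¹ := by
  induction l with
  | nil => simpa [wd_nil] using isWordH_of_Hs A (Subgroup.one_mem _)
  | cons i l ih =>
    rw [wd_cons, _root_.mul_inv_rev]
    exact isWordH_mul A (ih fun j hj => hl j (by simp [hj])) (isWordH_inv_gs A (hl i (by simp)))

theorem isWordH_of_mem {g : GL D.Idx F} (hg : g ∈ Ns A.g1 F) : IsWordH A.g1 g := by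
  unfold Ns at hg
  rw [← Subgroup.closure_eq (Hs A.g1 F), ← Subgroup.closure_union] at hg
  induction hg using Subgroup.closure_induction with
  | mem x hx =>
    rcases hx with hx | ⟨i, hi, rfl⟩
    · exact isWordH_of_Hs A (by simpa using hx)
    · exact ⟨[i], by simpa using hi, 1, Subgroup.one_mem _, by simp [wd_cons, wd_nil]⟩
  | one => exact isWordH_of_Hs A (Subgroup.one_mem _)
  | mul x y _ _ hx hy => exact isWordH_mul A hx hy
  | inv x _ hx =>
    obtain ⟨l, hl, h, hh, rfl⟩ := hx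
    rw [_root_.mul_inv_rev]
    exact isWordH_mul A (isWordH_of_Hs A (Subgroup.inv_mem _ hh)) (isWordH_inv_wd A hl)

theorem monP_Hs {h : GL D.Idx F} (hh : h ∈ Hs A.g1 F) : MonP h id := by
  obtain ⟨χ, h1, h3, _⟩ := HProp_of_mem A.g1 A.g2 hh
  intro s
  refine ⟨s.2, χ s.val, h1 s.val s.2, fun u => ?_⟩
  rw [h3]
  by_cases h4 : u = Sum.inr s
  · subst h4
    rw [Matrix.diagonal_apply_eq]
    exact (if_pos rfl).symm
  · rw [Matrix.diagonal_apply_ne _ h4]
    exact (if_neg h4).symm

/-- Deletion: if a word sends `p_j` to a negative root, one letter can be deleted from the word for `l·j`. -/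
theorem deletion {l : List ℕ} (hl : ∀ i ∈ l, i < D.rank) {j : ℕ} (hj : j < D.rank)
    (hneg : wp C l (D.simple j) < D.nroots / 2) :
    ∃ l' : List ℕ, (∀ i ∈ l', i < D.rank) ∧ l'.length + 1 = l.length ∧
      (wd A.g1 F l')⁻¹ * (wd A.g1 F l * gs A.g1 F j) ∈ Hs A.g1 F := by
  have hG := A.g1
  have hsj := hG.simple_lt hj
  induction l with
  | nil =>
    exfalso
    have := A.g3.simplePos j hj
    simp only [wp_nil] at hneg
    omega
  | cons i l ih =>
    have h1 : ∀ j ∈ l, j < D.rank := fun j hj => hl j (by simp [hj])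
    have hi := hl i (by simp)
    by_cases hcase : wp C l (D.simple j) < D.nroots / 2
    · obtain ⟨l', h3, h4, h5⟩ := ih h1 hcase
      refine ⟨i :: l', ?_, by simp [h4], ?_⟩
      · intro k hk
        rcases List.mem_cons.mp hk with rfl | hk
        · exact hi
        · exact h3 k hk
      · rw [wd_cons, wd_cons]
        have e : (gs hG F i * wd hG F l')⁻¹ * (gs hG F i * wd hG F l * gs hG F j) =
            (wd hG F l')⁻¹ * (wd hG F l * gs hG F j) := by group
        rw [e]
        exact h5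
    · refine ⟨l, h1, rfl, ?_⟩
      -- the critical letter
      have hq : wp C l (D.simple j) = D.simple i := by
        by_contra hne
        have := A.g3.wPos i hi _ (wp_lt hG h1 hsj) (not_lt.mp hcase) hne
        simp only [wp_cons] at hneg
        omega
      obtain ⟨ε, hε, h3⟩ := wd_conj_gn hG (F := F) h1 hsj
      have h4 := h3 1
      rw [hq, mul_one] at h4
      have h5 : gs hG F i * gn hG F (D.simple i) ε ∈ Hs hG F := by
        rcases hε with rfl | rfl
        · exact gs_sq_mem hG A.g2 hi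
        · have : gn hG F (D.simple i) (-1 : F) = (gs hG F i)⁻¹ := by
            rw [gn_inv]
          rw [this]
          simpa using Subgroup.one_mem (Hs hG F)
      have e : (wd hG F l)⁻¹ * (wd hG F (i :: l) * gs hG F j) =
          (wd hG F l)⁻¹ * (gs hG F i * gn hG F (D.simple i) ε) * wd hG F l := by
        rw [wd_cons, ← h4]
        group
      rw [e]
      exact Hs_conj_wd A h1 h5

/-- A word acting trivially on the roots is in `H`. -/
theorem wd_mem_Hs_of_trivial : ∀ (n : ℕ) (l : List ℕ), l.length ≤ n → (∀ i ∈ l, i < D.rank) →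
    (∀ r < D.nroots, wp C l r = r) → wd A.g1 F l ∈ Hs A.g1 F := by
  intro n
  induction n with
  | zero =>
    intro l hl _ _
    have : l = [] := List.length_eq_zero_iff.mp (by omega)
    subst this
    exact Subgroup.one_mem _
  | succ n ih =>
    intro l hl hl1 htriv
    have hG := A.g1
    rcases List.eq_nil_or_concat l with rfl | ⟨l1, j, rfl⟩
    · exact Subgroup.one_mem _
    · have h1 : ∀ i ∈ l1, i < D.rank := fun i hi => hl1 i (by simp [hi])
      have hj : j < D.rank := hl1 j (by simp)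
      have hsj := hG.simple_lt hj
      have hlen : l1.length ≤ n := by
        simp at hl
        omega
      -- `l1` sends `p_j` to `-p_j`
      have h3 : wp C l1 (D.neg (D.simple j)) = D.simple j := by
        have := htriv _ hsj
        rw [List.concat_eq_append, wp_append] at this
        simp only [wp_cons, wp_nil] at this
        rwa [hG.w_simple hj] at this
      have h4 : wp C l1 (D.simple j) = D.neg (D.simple j) := by
        have h5 := wp_neg hG h1 (hG.neg.lt _ hsj)
        rw [hG.neg.invol _ hsj, h3] at h5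
        exact h5
      have h5 : wp C l1 (D.simple j) < D.nroots / 2 := by
        rw [h4, A.g3.negEq _ hsj]
        have := A.g3.simplePos j hj
        have := A.g3.even
        omega
      obtain ⟨l', h6, h7, h8⟩ := deletion (F := F) A h1 hj h5
      have e : wd hG F (l1.concat j) = wd hG F l' * ((wd hG F l')⁻¹ * (wd hG F l1 * gs hG F j)) := by
        rw [List.concat_eq_append, wd_append, wd_cons, wd_nil]
        group
      rw [e]
      refine Subgroup.mul_mem _ (ih l' (by omega) h6 ?_) h8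
      -- the permutation of `l'`
      intro r hr
      have m1 : MonP (wd hG F l') (wp C l') := monP_wd hG h6
      have m2 : MonP (wd hG F l1 * gs hG F j) (wp C l1 ∘ C.w j) := monP_mul (monP_wd hG h1) (monP_gs hG hj)
      have m3 := monP_mul m1 (monP_Hs A h8)
      have e2 : wd hG F l' * ((wd hG F l')⁻¹ * (wd hG F l1 * gs hG F j)) = wd hG F l1 * gs hG F j := by group
      rw [e2] at m3
      have e3 := monP_unique m3 m2 hr
      have e4 := htriv r hr
      rw [List.concat_eq_append, wp_append] at e4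
      simp only [wp_cons, wp_nil] at e4
      simp only [Function.comp, id] at e3
      rw [e3, e4]

omit A in
/-- A monotone injective self-map of an initial segment is the identity. -/
theorem eq_of_ge_of_inj {n : ℕ} (π : ℕ → ℕ) (hlt : ∀ s < n, π s < n) (hinj : ∀ a < n, ∀ b < n, π a = π b → a = b)
    (hge : ∀ s < n, s ≤ π s) : ∀ s < n, π s = s := by
  let f : Fin n → Fin n := fun s => ⟨π s.val, hlt s.val s.2⟩
  have hf : Function.Injective f := by
    intro a b hab
    exact Fin.ext (hinj _ a.2 _ b.2 (congrArg Fin.val hab))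
  have hb : Function.Bijective f := Function.Injective.bijective_of_finite hf
  let e := Equiv.ofBijective f hb
  have hsum : ∑ s : Fin n, ((f s).val) = ∑ s : Fin n, s.val := Equiv.sum_comp e (fun s : Fin n => s.val)
  have h2 := (Finset.sum_eq_sum_iff_of_le (s := Finset.univ) (f := fun s : Fin n => s.val)
    (g := fun s : Fin n => (f s).val) (fun s _ => hge s.val s.2)).mp hsum.symm
  intro s hs
  exact (h2 ⟨s, hs⟩ (Finset.mem_univ _)).symm

/-- `B ∩ N ≤ H`. -/
theorem B_inf_N_le {g : GL D.Idx F} (h1 : g ∈ D.borelSubgroup F) (h2 : g ∈ Ns A.g1 F) : g ∈ Hs A.g1 F := by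
  have hG := A.g1
  obtain ⟨l, hl, x, hx, rfl⟩ := isWordH_of_mem A h2
  refine Subgroup.mul_mem _ ?_ hx
  apply wd_mem_Hs_of_trivial A _ l le_rfl hl
  have m : MonP (wd hG F l * x) (wp C l ∘ id) := monP_mul (monP_wd hG hl) (monP_Hs A hx)
  have hdeg := ((B_le A) h1).1
  apply eq_of_ge_of_inj (wp C l) (fun s hs => wp_lt hG hl hs) (fun a ha b hb hab => wp_inj hG hl ha hb hab)
  intro s hs
  obtain ⟨h3, c, hc, e⟩ := m ⟨s, hs⟩
  by_cases heq : wp C l s = s
  · omega
  · have h4 := hdeg (Sum.inr ⟨wp C l s, h3⟩) (Sum.inr ⟨s, hs⟩)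
    have h5 : ¬ (kap D T.key (Sum.inr ⟨wp C l s, h3⟩) - kap D T.key (Sum.inr ⟨s, hs⟩) < 0) := by
      intro hlt
      have h6 := h4 hlt
      have e' : ((wd hG F l * x : GL D.Idx F) : Matrix D.Idx D.Idx F) (Sum.inr ⟨wp C l s, h3⟩) (Sum.inr ⟨s, hs⟩) = c :=
        (e _).trans (if_pos rfl)
      rw [Matrix.sub_apply, e', Matrix.one_apply_ne] at h6
      · exact hc (by simpa using h6)
      · intro h7
        exact heq (congrArg Fin.val (Sum.inr.inj h7))
    simp only [kap] at h5
    by_contra hn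
    have h7 : wp C l s < s := by omega
    have := key_lt A h7 hs
    omega

/-- `B ∩ N = H`. -/
theorem B_inf_N : D.borelSubgroup F ⊓ D.monomialSubgroup F = D.diagonalSubgroup F := by
  rw [monomial_eq A]
  apply le_antisymm
  · rintro g ⟨h1, h2⟩
    rw [diagonal_eq A]
    exact B_inf_N_le A h1 h2
  · apply le_inf (H_le_B A)
    rw [diagonal_eq A]
    exact Hs_le_Ns A.g1

/-- `U ∩ N = 1`. -/
theorem U_inf_N : D.posUnipotent F ⊓ D.monomialSubgroup F = ⊥ := by
  rw [Subgroup.eq_bot_iff_forall]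
  rintro g ⟨h1, h2⟩
  have h3 : g ∈ D.borelSubgroup F ⊓ D.monomialSubgroup F := ⟨U_le_B A h1, h2⟩
  rw [B_inf_N A] at h3
  have h4 : g ∈ D.posUnipotent F ⊓ D.diagonalSubgroup F := ⟨h1, h3⟩
  rw [U_inf_H A] at h4
  exact h4

end Cfsg.Agent.Lib.ChevSym
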