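import Cfsg.Agent.Lib.ChevGrade

/-! Root elements and the elements `n_r(t)`, `h_r(t)` in the general linear group (helper4). -/

set_option autoImplicit false
set_option linter.all false

namespace Cfsg.Agent.Lib.ChevSym

open Cfsg.Lie Cfsg.Lie.ChevalleyDatum Matrix Cfsg.Agent.Lib.MatFilt

variable {F : Type*} [Field F] {D : ChevalleyDatum} {C : Cert} (hG : Good D C)

/-- The root element as an invertible matrix. -/
noncomputable def gx (F : Type*) [Field F] (r : ℕ) (t : F) : GL D.Idx F where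
  val := D.x F r t
  inv := D.x F r (-t)
  val_inv := by rw [x_add hG, add_neg_cancel, x_zero]
  inv_val := by rw [x_add hG, neg_add_cancel, x_zero]

@[simp] theorem coe_gx (r : ℕ) (t : F) : ((gx hG F r t : GL D.Idx F) : Matrix D.Idx D.Idx F) = D.x F r t := rfl

theorem gx_inv (r : ℕ) (t : F) : (gx hG F r t)⁻¹ = gx hG F r (-t) := by
  apply Units.ext
  show D.x F r (-t) = D.x F r (-t)
  rfl

theorem gx_add (r : ℕ) (a b : F) : gx hG F r a * gx hG F r b = gx hG F r (a + b) :=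
  Units.ext (x_add hG r a b)

theorem gx_zero (r : ℕ) : gx hG F r (0 : F) = 1 := Units.ext (x_zero r)

/-- `n_r(t)` as an invertible matrix. -/
noncomputable def gn (F : Type*) [Field F] (r : ℕ) (t : F) : GL D.Idx F :=
  gx hG F r t * gx hG F (D.neg r) (-t⁻¹) * gx hG F r t

/-- `h_r(t)` as an invertible matrix. -/
noncomputable def gh (F : Type*) [Field F] (r : ℕ) (t : F) : GL D.Idx F :=
  gn hG F r t * gn hG F r (-1)

@[simp] theorem coe_gn (r : ℕ) (t : F) : ((gn hG F r t : GL D.Idx F) : Matrix D.Idx D.Idx F) = D.nMat F r t := by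
  rw [nMat_eq]; rfl

@[simp] theorem coe_gh (r : ℕ) (t : F) : ((gh hG F r t : GL D.Idx F) : Matrix D.Idx D.Idx F) = D.hMat F r t := by
  rw [hMat_eq]
  show ((gn hG F r t : GL D.Idx F) : Matrix D.Idx D.Idx F) * ((gn hG F r (-1) : GL D.Idx F) : Matrix D.Idx D.Idx F) = _
  rw [coe_gn, coe_gn]

theorem gn_inv (r : ℕ) (t : F) : (gn hG F r t)⁻¹ = gn hG F r (-t) := by
  unfold gn
  simp only [_root_.mul_inv_rev, gx_inv, neg_neg, inv_neg, mul_assoc]

/-- `n_i := n_{p_i}(1)` -/
noncomputable abbrev gs (F : Type*) [Field F] (i : ℕ) : GL D.Idx F := gn hG F (D.simple i) 1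

/-- The conjugation formula in the general linear group. -/
theorem gs_mul_gx {i r : ℕ} (hi : i < D.rank) (hr : r < D.nroots) (t : F) :
    gs hG F i * gx hG F r t = gx hG F (C.w i r) ((C.eta i r : F) * t) * gs hG F i := by
  apply Units.ext
  show ((gn hG F (D.simple i) 1 : GL D.Idx F) : Matrix D.Idx D.Idx F) * D.x F r t =
    D.x F (C.w i r) ((C.eta i r : F) * t) * ((gn hG F (D.simple i) 1 : GL D.Idx F) : Matrix D.Idx D.Idx F)
  rw [coe_gn]
  exact nMat_mul_x' hG hi hr t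

theorem gs_conj_gx {i r : ℕ} (hi : i < D.rank) (hr : r < D.nroots) (t : F) :
    gs hG F i * gx hG F r t * (gs hG F i)⁻¹ = gx hG F (C.w i r) ((C.eta i r : F) * t) := by
  rw [gs_mul_gx hG hi hr, mul_inv_cancel_right]

theorem eta_inv_mul (i s : ℕ) (t : F) : ((C.eta i s : ℤ) : F) * t⁻¹ = (((C.eta i s : ℤ) : F) * t)⁻¹ := by
  rcases C.eta_cases i s with h | h <;> simp [h]

/-- Conjugation of `n_r(t)` by `n_i`. -/
theorem gs_conj_gn {i r : ℕ} (hi : i < D.rank) (hr : r < D.nroots) (t : F) :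
    gs hG F i * gn hG F r t * (gs hG F i)⁻¹ = gn hG F (C.w i r) ((C.eta i r : F) * t) := by
  have h1 := gs_conj_gx hG hi hr t
  have h2 := gs_conj_gx hG hi (hG.neg.lt r hr) (-t⁻¹)
  rw [hG.w.neg i hi r hr, hG.eta_neg hi hr] at h2
  unfold gn
  have e : ((C.eta i r : ℤ) : F) * (-t⁻¹) = -(((C.eta i r : ℤ) : F) * t)⁻¹ := by
    rw [mul_neg, eta_inv_mul]
  rw [e] at h2
  rw [← h1, ← h2]
  group

/-- Conjugation of `h_r(t)` by `n_i`. -/
theorem gs_conj_gh {i r : ℕ} (hi : i < D.rank) (hr : r < D.nroots) (t : F) :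
    gs hG F i * gh hG F r t * (gs hG F i)⁻¹ =
      gn hG F (C.w i r) ((C.eta i r : F) * t) * gn hG F (C.w i r) (-(C.eta i r : F)) := by
  have h1 := gs_conj_gn hG hi hr t
  have h2 := gs_conj_gn hG hi hr (-1 : F)
  have e : ((C.eta i r : ℤ) : F) * (-1) = -(C.eta i r : F) := by ring
  rw [e] at h2
  rw [← h1, ← h2]
  unfold gh
  group

end Cfsg.Agent.Lib.ChevSym
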