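import Cfsg.Agent.Lib.ChevAll4
import Cfsg.Agent.Lib.ChevExact

/-! Generation by the monomial group and one or two root groups; the Sylow subgroup `U` (generated, helper4). -/

set_option autoImplicit false
set_option linter.all false
set_option maxRecDepth 1000000

namespace Cfsg.Agent.Lib.ChevSym

open Cfsg.Lie Cfsg.Lie.ChevalleyDatum Matrix

variable {F : Type*} [Field F] {D : ChevalleyDatum} {C : Cert} {T : Tab}

/-- One round of the orbit computation on bit masks. -/
noncomputable def orbStep (D : ChevalleyDatum) (C : Cert) (m : ℕ) : ℕ :=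
  (List.range D.nroots).foldr (fun r acc => cond (m.testBit r)
    ((List.range D.rank).foldr (fun j a => Nat.lor a (2 ^ (C.w j r))) acc) acc) m

noncomputable def orbFrom (D : ChevalleyDatum) (C : Cert) (m fuel : ℕ) : ℕ :=
  Nat.rec m (fun _ ih => orbStep D C ih) fuel

/-- A mask of a list of roots. -/
noncomputable def maskOf (S : List ℕ) : ℕ := S.foldr (fun r a => Nat.lor a (2 ^ r)) 0

noncomputable def orbCheck (D : ChevalleyDatum) (C : Cert) (S : List ℕ) (fuel : ℕ) : Bool :=
  allL (fun j => (orbFrom D C (maskOf S) fuel).testBit (D.simple j)) (List.range D.rank)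

def MaskInv (D : ChevalleyDatum) (P : ℕ → Prop) (m : ℕ) : Prop := ∀ r, m.testBit r = true → r < D.nroots ∧ P r

theorem maskInv_lor {P : ℕ → Prop} {m r : ℕ} (h : MaskInv D P m) (hr : r < D.nroots) (hP : P r) : MaskInv D P (Nat.lor m (2 ^ r)) := by
  intro s hs
  have h1 : (m ||| 2 ^ r).testBit s = true := hs
  rw [Nat.testBit_lor, Nat.testBit_two_pow] at h1
  rcases Bool.or_eq_true _ _ |>.mp h1 with h2 | h2
  · exact h s h2
  · have : r = s := by simpa using h2
    subst this
    exact ⟨hr, hP⟩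

theorem maskInv_inner (hG : Good D C) {P : ℕ → Prop} (hw : ∀ j < D.rank, ∀ r, r < D.nroots → P r → P (C.w j r)) {a r : ℕ}
    (h : MaskInv D P a) (hr : r < D.nroots) (hP : P r) (J : List ℕ) (hJ : ∀ j ∈ J, j < D.rank) :
    MaskInv D P (J.foldr (fun j a => Nat.lor a (2 ^ (C.w j r))) a) := by
  induction J with
  | nil => exact h
  | cons j J ih =>
    have hj := hJ j (by simp)
    exact maskInv_lor (ih fun x hx => hJ x (List.mem_cons_of_mem _ hx)) (hG.w.lt j hj r hr) (hw j hj r hr hP)

theorem maskInv_step (hG : Good D C) {P : ℕ → Prop} (hw : ∀ j < D.rank, ∀ r, r < D.nroots → P r → P (C.w j r)) {m : ℕ}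
    (h : MaskInv D P m) : MaskInv D P (orbStep D C m) := by
  unfold orbStep
  generalize hL : List.range D.nroots = L
  have hL' : ∀ r ∈ L, r < D.nroots := fun r hr => by
    rw [← hL] at hr
    exact List.mem_range.mp hr
  clear hL
  induction L with
  | nil => exact h
  | cons r L ih =>
    have ih' := ih (fun x hx => hL' x (List.mem_cons_of_mem _ hx))
    show MaskInv D P (cond (m.testBit r) _ _)
    cases e : m.testBit r
    · exact ih'
    · rw [cond_true]
      obtain ⟨hr, hP⟩ := h r e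
      exact maskInv_inner hG hw ih' hr hP _ fun j hj => List.mem_range.mp hj

theorem maskInv_of_list {P : ℕ → Prop} {S : List ℕ} (hS : ∀ r ∈ S, r < D.nroots ∧ P r) : MaskInv D P (maskOf S) := by
  induction S with
  | nil =>
    intro r hr
    simp [maskOf] at hr
  | cons a S ih =>
    exact maskInv_lor (ih fun x hx => hS x (List.mem_cons_of_mem _ hx)) (hS a (by simp)).1 (hS a (by simp)).2

variable (A : AllGood D C T) {L : Subgroup (GL D.Idx F)} (hN : D.monomialSubgroup F ≤ L)
include A hN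

theorem orb_mem {S : List ℕ} (hS : ∀ r ∈ S, r < D.nroots ∧ ∀ t : F, gx A.g1 F r t ∈ L) {fuel r : ℕ}
    (h : (orbFrom D C (maskOf S) fuel).testBit r = true) : ∀ t : F, gx A.g1 F r t ∈ L := by
  have hG := A.g1
  have hw : ∀ j < D.rank, ∀ r, r < D.nroots → (∀ t : F, gx A.g1 F r t ∈ L) → ∀ t : F, gx A.g1 F (C.w j r) t ∈ L := by
    intro j hj r hr h1 t
    have hsN : gs A.g1 F j ∈ L := hN (gs_mem_N A hj)
    have e := gs_conj_gx A.g1 hj hr ((C.eta j r : F) * t)
    rw [← mul_assoc, eta_sq A.g1, one_mul] at e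
    rw [← e]
    exact Subgroup.mul_mem _ (Subgroup.mul_mem _ hsN (h1 _)) (Subgroup.inv_mem _ hsN)
  have key : ∀ n, MaskInv D (fun r => ∀ t : F, gx A.g1 F r t ∈ L) (orbFrom D C (maskOf S) n) := by
    intro n
    induction n with
    | zero => exact maskInv_of_list hS
    | succ n ih => exact maskInv_step A.g1 hw ih
  exact (key fuel r h).2

theorem group_le_of_orb {S : List ℕ} (hS : ∀ r ∈ S, r < D.nroots ∧ ∀ t : F, gx A.g1 F r t ∈ L) {fuel : ℕ}
    (h : orbCheck D C S fuel = true) : D.group F ≤ L := by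
  have key : ∀ r < D.nroots, ∀ t : F, gx A.g1 F r t ∈ L := by
    apply A.g1.root_ind
    · intro i hi
      exact orb_mem A hN hS ((allL_iff _ _).mp h i (List.mem_range.mpr hi))
    · intro i hi r hr h1 t
      have hsN : gs A.g1 F i ∈ L := hN (gs_mem_N A hi)
      have e := gs_conj_gx A.g1 hi hr ((C.eta i r : F) * t)
      rw [← mul_assoc, eta_sq A.g1, one_mul] at e
      rw [← e]
      exact Subgroup.mul_mem _ (Subgroup.mul_mem _ hsN (h1 _)) (Subgroup.inv_mem _ hsN)
  rw [group, Subgroup.closure_le]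
  rintro g ⟨r, t, h'⟩
  have h'' : (g : Matrix D.Idx D.Idx F) = D.x F r.val t := by
    rw [h', ChevalleyDatum.x, dif_pos r.2]
  rw [eq_gx A.g1 h'']
  exact key r.val r.2 t

omit hN in
/-- A root with an invertible single commutator term. -/
theorem comm_single_mem {a b k : ℕ} {c : ℤ} (hterm : D.commTerms a b = [(k, c, 1, 1)])
    (hchk : checkWords D [(b, pb), (a, pa)] ([(a, pa), (b, pb)] ++ commWordS D a b) = true) (hc : (c : F) ≠ 0)
    (ha : ∀ t : F, gx A.g1 F a t ∈ L) (hb : ∀ t : F, gx A.g1 F b t ∈ L) (t : F) : gx A.g1 F k t ∈ L := by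
  have hG := A.g1
  have h1 := comm_of_check hG hchk (1 : F) (-((c : F)⁻¹ * t))
  have hw : D.commWord F a b (1 : F) (-((c : F)⁻¹ * t)) = [(k, t)] := by
    unfold ChevalleyDatum.commWord
    rw [hterm]
    simp only [List.map_cons, List.map_nil, pow_one]
    congr 2
    field_simp
  rw [hw] at h1
  have h2 : gx hG F b (-((c : F)⁻¹ * t)) * gx hG F a 1 = gx hG F a 1 * gx hG F b (-((c : F)⁻¹ * t)) * gx hG F k t :=
    Units.ext (by
      rw [Units.val_mul, Units.val_mul, Units.val_mul, coe_gx, coe_gx, coe_gx]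
      have : D.wordMat F [(k, t)] = D.x F k t := by
        simp [wordMat_cons, wordMat_nil]
      rw [← this]
      exact h1)
  have h3 : gx hG F k t = (gx hG F a 1 * gx hG F b (-((c : F)⁻¹ * t)))⁻¹ * (gx hG F b (-((c : F)⁻¹ * t)) * gx hG F a 1) := by
    rw [h2]; group
  rw [h3]
  exact Subgroup.mul_mem _ (Subgroup.inv_mem _ (Subgroup.mul_mem _ (ha _) (hb _))) (Subgroup.mul_mem _ (hb _) (ha _))

omit A hN

theorem gx_mem_sup (hG : Good D C) (r : ℕ) (t : F) (L : Subgroup (GL D.Idx F)) (h : D.rootSubgroup F r ≤ L) : gx hG F r t ∈ L :=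
  h (Subgroup.subset_closure ⟨t, coe_gx hG r t⟩)

theorem orbAllD4 : ∀ i < chevD4.rank, orbCheck chevD4 certD4 [chevD4.simple i] 7 = true := by decide +kernel

theorem gen2416D4 {K : Type*} [Field K] (i : ℕ) (hi : i < chevD4.rank) :
    chevD4.group K ≤ chevD4.monomialSubgroup K ⊔ chevD4.rootSubgroup K (chevD4.simple i) := by
  have A : AllGood chevD4 certD4 tabD4 := ⟨goodD4, good2D4, good3D4, good4D4⟩
  apply group_le_of_orb A le_sup_left (S := [chevD4.simple i]) _ (orbAllD4 i hi)
  intro r hr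
  rw [List.mem_singleton] at hr
  subst hr
  exact ⟨A.g1.simple_lt hi, fun t => gx_mem_sup A.g1 _ t _ le_sup_right⟩

theorem orbAllE6 : ∀ i < chevE6.rank, orbCheck chevE6 certE6 [chevE6.simple i] 13 = true := by decide +kernel

theorem gen2416E6 {K : Type*} [Field K] (i : ℕ) (hi : i < chevE6.rank) :
    chevE6.group K ≤ chevE6.monomialSubgroup K ⊔ chevE6.rootSubgroup K (chevE6.simple i) := by
  have A : AllGood chevE6 certE6 tabE6 := ⟨goodE6, good2E6, good3E6, good4E6⟩
  apply group_le_of_orb A le_sup_left (S := [chevE6.simple i]) _ (orbAllE6 i hi)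
  intro r hr
  rw [List.mem_singleton] at hr
  subst hr
  exact ⟨A.g1.simple_lt hi, fun t => gx_mem_sup A.g1 _ t _ le_sup_right⟩

theorem orbAllE7 : ∀ i < chevE7.rank, orbCheck chevE7 certE7 [chevE7.simple i] 19 = true := by decide +kernel

theorem gen2416E7 {K : Type*} [Field K] (i : ℕ) (hi : i < chevE7.rank) :
    chevE7.group K ≤ chevE7.monomialSubgroup K ⊔ chevE7.rootSubgroup K (chevE7.simple i) := by
  have A : AllGood chevE7 certE7 tabE7 := ⟨goodE7, good2E7, good3E7, good4E7⟩
  apply group_le_of_orb A le_sup_left (S := [chevE7.simple i]) _ (orbAllE7 i hi)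
  intro r hr
  rw [List.mem_singleton] at hr
  subst hr
  exact ⟨A.g1.simple_lt hi, fun t => gx_mem_sup A.g1 _ t _ le_sup_right⟩

theorem orbAllE8 : ∀ i < chevE8.rank, orbCheck chevE8 certE8 [chevE8.simple i] 31 = true := by decide +kernel

theorem gen2416E8 {K : Type*} [Field K] (i : ℕ) (hi : i < chevE8.rank) :
    chevE8.group K ≤ chevE8.monomialSubgroup K ⊔ chevE8.rootSubgroup K (chevE8.simple i) := by
  have A : AllGood chevE8 certE8 tabE8 := ⟨goodE8, good2E8, good3E8, good4E8⟩
  apply group_le_of_orb A le_sup_left (S := [chevE8.simple i]) _ (orbAllE8 i hi)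
  intro r hr
  rw [List.mem_singleton] at hr
  subst hr
  exact ⟨A.g1.simple_lt hi, fun t => gx_mem_sup A.g1 _ t _ le_sup_right⟩

theorem pairTB2 : chevB2.commTerms 1 2 = [(0, 2, 1, 1)] := by decide +kernel
theorem pairCB2 : checkWords chevB2 [(2, pb), (1, pa)] ([(1, pa), (2, pb)] ++ commWordS chevB2 1 2) = true := by decide +kernel
theorem orbAB2_0 : (orbFrom chevB2 certB2 (maskOf [chevB2.simple 0]) 4).testBit 1 = true := by decide +kernel
theorem orbBB2_0 : (orbFrom chevB2 certB2 (maskOf [chevB2.simple 0]) 4).testBit 2 = true := by decide +kernel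
theorem orbCB2_0 : orbCheck chevB2 certB2 [chevB2.simple 0, 0] 4 = true := by decide +kernel

theorem gen2416B2_0 {K : Type*} [Field K] (hc : ((2 : ℤ) : K) ≠ 0) :
    chevB2.group K ≤ chevB2.monomialSubgroup K ⊔ chevB2.rootSubgroup K (chevB2.simple 0) := by
  have A : AllGood chevB2 certB2 tabB2 := ⟨goodB2, good2B2, good3B2, good4B2⟩
  have hi : 0 < chevB2.rank := by decide +kernel
  have h0 : ∀ r ∈ [chevB2.simple 0], r < chevB2.nroots ∧ ∀ t : K, gx A.g1 K r t ∈ chevB2.monomialSubgroup K ⊔ chevB2.rootSubgroup K (chevB2.simple 0) := by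
    intro r hr
    rw [List.mem_singleton] at hr
    subst hr
    exact ⟨A.g1.simple_lt hi, fun t => gx_mem_sup A.g1 _ t _ le_sup_right⟩
  have ha := orb_mem A le_sup_left h0 orbAB2_0
  have hb := orb_mem A le_sup_left h0 orbBB2_0
  have hk := comm_single_mem A pairTB2 pairCB2 hc ha hb
  apply group_le_of_orb A le_sup_left (S := [chevB2.simple 0, 0]) _ orbCB2_0
  intro r hr
  rcases List.mem_cons.mp hr with rfl | hr
  · exact h0 _ (by simp)
  · rw [List.mem_singleton] at hr
    subst hr
    exact ⟨by decide +kernel, hk⟩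

theorem orbDB2_0_1 : orbCheck chevB2 certB2 [chevB2.simple 0, chevB2.simple 1] 4 = true := by decide +kernel

theorem gen2417B2_0_1 {K : Type*} [Field K] :
    chevB2.group K ≤ chevB2.monomialSubgroup K ⊔ chevB2.rootSubgroup K (chevB2.simple 0) ⊔ chevB2.rootSubgroup K (chevB2.simple 1) := by
  have A : AllGood chevB2 certB2 tabB2 := ⟨goodB2, good2B2, good3B2, good4B2⟩
  have hi : 0 < chevB2.rank := by decide +kernel
  have hj : 1 < chevB2.rank := by decide +kernel
  apply group_le_of_orb A (le_trans le_sup_left le_sup_left) (S := [chevB2.simple 0, chevB2.simple 1]) _ orbDB2_0_1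
  intro r hr
  rcases List.mem_cons.mp hr with rfl | hr
  · exact ⟨A.g1.simple_lt hi, fun t => gx_mem_sup A.g1 _ t _ (le_trans le_sup_right le_sup_left)⟩
  · rw [List.mem_singleton] at hr
    subst hr
    exact ⟨A.g1.simple_lt hj, fun t => gx_mem_sup A.g1 _ t _ le_sup_right⟩

theorem pairTF4 : chevF4.commTerms 3 18 = [(0, 2, 1, 1)] := by decide +kernel
theorem pairCF4 : checkWords chevF4 [(18, pb), (3, pa)] ([(3, pa), (18, pb)] ++ commWordS chevF4 3 18) = true := by decide +kernel
theorem orbAF4_0 : (orbFrom chevF4 certF4 (maskOf [chevF4.simple 0]) 10).testBit 3 = true := by decide +kernel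
theorem orbBF4_0 : (orbFrom chevF4 certF4 (maskOf [chevF4.simple 0]) 10).testBit 18 = true := by decide +kernel
theorem orbCF4_0 : orbCheck chevF4 certF4 [chevF4.simple 0, 0] 10 = true := by decide +kernel

theorem gen2416F4_0 {K : Type*} [Field K] (hc : ((2 : ℤ) : K) ≠ 0) :
    chevF4.group K ≤ chevF4.monomialSubgroup K ⊔ chevF4.rootSubgroup K (chevF4.simple 0) := by
  have A : AllGood chevF4 certF4 tabF4 := ⟨goodF4, good2F4, good3F4, good4F4⟩
  have hi : 0 < chevF4.rank := by decide +kernel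
  have h0 : ∀ r ∈ [chevF4.simple 0], r < chevF4.nroots ∧ ∀ t : K, gx A.g1 K r t ∈ chevF4.monomialSubgroup K ⊔ chevF4.rootSubgroup K (chevF4.simple 0) := by
    intro r hr
    rw [List.mem_singleton] at hr
    subst hr
    exact ⟨A.g1.simple_lt hi, fun t => gx_mem_sup A.g1 _ t _ le_sup_right⟩
  have ha := orb_mem A le_sup_left h0 orbAF4_0
  have hb := orb_mem A le_sup_left h0 orbBF4_0
  have hk := comm_single_mem A pairTF4 pairCF4 hc ha hb
  apply group_le_of_orb A le_sup_left (S := [chevF4.simple 0, 0]) _ orbCF4_0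
  intro r hr
  rcases List.mem_cons.mp hr with rfl | hr
  · exact h0 _ (by simp)
  · rw [List.mem_singleton] at hr
    subst hr
    exact ⟨by decide +kernel, hk⟩

theorem orbAF4_1 : (orbFrom chevF4 certF4 (maskOf [chevF4.simple 1]) 10).testBit 3 = true := by decide +kernel
theorem orbBF4_1 : (orbFrom chevF4 certF4 (maskOf [chevF4.simple 1]) 10).testBit 18 = true := by decide +kernel
theorem orbCF4_1 : orbCheck chevF4 certF4 [chevF4.simple 1, 0] 10 = true := by decide +kernel

theorem gen2416F4_1 {K : Type*} [Field K] (hc : ((2 : ℤ) : K) ≠ 0) :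
    chevF4.group K ≤ chevF4.monomialSubgroup K ⊔ chevF4.rootSubgroup K (chevF4.simple 1) := by
  have A : AllGood chevF4 certF4 tabF4 := ⟨goodF4, good2F4, good3F4, good4F4⟩
  have hi : 1 < chevF4.rank := by decide +kernel
  have h0 : ∀ r ∈ [chevF4.simple 1], r < chevF4.nroots ∧ ∀ t : K, gx A.g1 K r t ∈ chevF4.monomialSubgroup K ⊔ chevF4.rootSubgroup K (chevF4.simple 1) := by
    intro r hr
    rw [List.mem_singleton] at hr
    subst hr
    exact ⟨A.g1.simple_lt hi, fun t => gx_mem_sup A.g1 _ t _ le_sup_right⟩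
  have ha := orb_mem A le_sup_left h0 orbAF4_1
  have hb := orb_mem A le_sup_left h0 orbBF4_1
  have hk := comm_single_mem A pairTF4 pairCF4 hc ha hb
  apply group_le_of_orb A le_sup_left (S := [chevF4.simple 1, 0]) _ orbCF4_1
  intro r hr
  rcases List.mem_cons.mp hr with rfl | hr
  · exact h0 _ (by simp)
  · rw [List.mem_singleton] at hr
    subst hr
    exact ⟨by decide +kernel, hk⟩

theorem orbDF4_0_2 : orbCheck chevF4 certF4 [chevF4.simple 0, chevF4.simple 2] 10 = true := by decide +kernel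

theorem gen2417F4_0_2 {K : Type*} [Field K] :
    chevF4.group K ≤ chevF4.monomialSubgroup K ⊔ chevF4.rootSubgroup K (chevF4.simple 0) ⊔ chevF4.rootSubgroup K (chevF4.simple 2) := by
  have A : AllGood chevF4 certF4 tabF4 := ⟨goodF4, good2F4, good3F4, good4F4⟩
  have hi : 0 < chevF4.rank := by decide +kernel
  have hj : 2 < chevF4.rank := by decide +kernel
  apply group_le_of_orb A (le_trans le_sup_left le_sup_left) (S := [chevF4.simple 0, chevF4.simple 2]) _ orbDF4_0_2
  intro r hr
  rcases List.mem_cons.mp hr with rfl | hr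
  · exact ⟨A.g1.simple_lt hi, fun t => gx_mem_sup A.g1 _ t _ (le_trans le_sup_right le_sup_left)⟩
  · rw [List.mem_singleton] at hr
    subst hr
    exact ⟨A.g1.simple_lt hj, fun t => gx_mem_sup A.g1 _ t _ le_sup_right⟩

theorem orbDF4_0_3 : orbCheck chevF4 certF4 [chevF4.simple 0, chevF4.simple 3] 10 = true := by decide +kernel

theorem gen2417F4_0_3 {K : Type*} [Field K] :
    chevF4.group K ≤ chevF4.monomialSubgroup K ⊔ chevF4.rootSubgroup K (chevF4.simple 0) ⊔ chevF4.rootSubgroup K (chevF4.simple 3) := by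
  have A : AllGood chevF4 certF4 tabF4 := ⟨goodF4, good2F4, good3F4, good4F4⟩
  have hi : 0 < chevF4.rank := by decide +kernel
  have hj : 3 < chevF4.rank := by decide +kernel
  apply group_le_of_orb A (le_trans le_sup_left le_sup_left) (S := [chevF4.simple 0, chevF4.simple 3]) _ orbDF4_0_3
  intro r hr
  rcases List.mem_cons.mp hr with rfl | hr
  · exact ⟨A.g1.simple_lt hi, fun t => gx_mem_sup A.g1 _ t _ (le_trans le_sup_right le_sup_left)⟩
  · rw [List.mem_singleton] at hr
    subst hr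
    exact ⟨A.g1.simple_lt hj, fun t => gx_mem_sup A.g1 _ t _ le_sup_right⟩

theorem orbDF4_1_2 : orbCheck chevF4 certF4 [chevF4.simple 1, chevF4.simple 2] 10 = true := by decide +kernel

theorem gen2417F4_1_2 {K : Type*} [Field K] :
    chevF4.group K ≤ chevF4.monomialSubgroup K ⊔ chevF4.rootSubgroup K (chevF4.simple 1) ⊔ chevF4.rootSubgroup K (chevF4.simple 2) := by
  have A : AllGood chevF4 certF4 tabF4 := ⟨goodF4, good2F4, good3F4, good4F4⟩
  have hi : 1 < chevF4.rank := by decide +kernel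
  have hj : 2 < chevF4.rank := by decide +kernel
  apply group_le_of_orb A (le_trans le_sup_left le_sup_left) (S := [chevF4.simple 1, chevF4.simple 2]) _ orbDF4_1_2
  intro r hr
  rcases List.mem_cons.mp hr with rfl | hr
  · exact ⟨A.g1.simple_lt hi, fun t => gx_mem_sup A.g1 _ t _ (le_trans le_sup_right le_sup_left)⟩
  · rw [List.mem_singleton] at hr
    subst hr
    exact ⟨A.g1.simple_lt hj, fun t => gx_mem_sup A.g1 _ t _ le_sup_right⟩

theorem orbDF4_1_3 : orbCheck chevF4 certF4 [chevF4.simple 1, chevF4.simple 3] 10 = true := by decide +kernel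

theorem gen2417F4_1_3 {K : Type*} [Field K] :
    chevF4.group K ≤ chevF4.monomialSubgroup K ⊔ chevF4.rootSubgroup K (chevF4.simple 1) ⊔ chevF4.rootSubgroup K (chevF4.simple 3) := by
  have A : AllGood chevF4 certF4 tabF4 := ⟨goodF4, good2F4, good3F4, good4F4⟩
  have hi : 1 < chevF4.rank := by decide +kernel
  have hj : 3 < chevF4.rank := by decide +kernel
  apply group_le_of_orb A (le_trans le_sup_left le_sup_left) (S := [chevF4.simple 1, chevF4.simple 3]) _ orbDF4_1_3
  intro r hr
  rcases List.mem_cons.mp hr with rfl | hr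
  · exact ⟨A.g1.simple_lt hi, fun t => gx_mem_sup A.g1 _ t _ (le_trans le_sup_right le_sup_left)⟩
  · rw [List.mem_singleton] at hr
    subst hr
    exact ⟨A.g1.simple_lt hj, fun t => gx_mem_sup A.g1 _ t _ le_sup_right⟩

theorem pairTG2 : chevG2.commTerms 2 3 = [(0, 3, 1, 1)] := by decide +kernel
theorem pairCG2 : checkWords chevG2 [(3, pb), (2, pa)] ([(2, pa), (3, pb)] ++ commWordS chevG2 2 3) = true := by decide +kernel
theorem orbAG2_0 : (orbFrom chevG2 certG2 (maskOf [chevG2.simple 0]) 5).testBit 2 = true := by decide +kernel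
theorem orbBG2_0 : (orbFrom chevG2 certG2 (maskOf [chevG2.simple 0]) 5).testBit 3 = true := by decide +kernel
theorem orbCG2_0 : orbCheck chevG2 certG2 [chevG2.simple 0, 0] 5 = true := by decide +kernel

theorem gen2416G2_0 {K : Type*} [Field K] (hc : ((3 : ℤ) : K) ≠ 0) :
    chevG2.group K ≤ chevG2.monomialSubgroup K ⊔ chevG2.rootSubgroup K (chevG2.simple 0) := by
  have A : AllGood chevG2 certG2 tabG2 := ⟨goodG2, good2G2, good3G2, good4G2⟩
  have hi : 0 < chevG2.rank := by decide +kernel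
  have h0 : ∀ r ∈ [chevG2.simple 0], r < chevG2.nroots ∧ ∀ t : K, gx A.g1 K r t ∈ chevG2.monomialSubgroup K ⊔ chevG2.rootSubgroup K (chevG2.simple 0) := by
    intro r hr
    rw [List.mem_singleton] at hr
    subst hr
    exact ⟨A.g1.simple_lt hi, fun t => gx_mem_sup A.g1 _ t _ le_sup_right⟩
  have ha := orb_mem A le_sup_left h0 orbAG2_0
  have hb := orb_mem A le_sup_left h0 orbBG2_0
  have hk := comm_single_mem A pairTG2 pairCG2 hc ha hb
  apply group_le_of_orb A le_sup_left (S := [chevG2.simple 0, 0]) _ orbCG2_0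
  intro r hr
  rcases List.mem_cons.mp hr with rfl | hr
  · exact h0 _ (by simp)
  · rw [List.mem_singleton] at hr
    subst hr
    exact ⟨by decide +kernel, hk⟩

theorem orbDG2_0_1 : orbCheck chevG2 certG2 [chevG2.simple 0, chevG2.simple 1] 5 = true := by decide +kernel

theorem gen2417G2_0_1 {K : Type*} [Field K] :
    chevG2.group K ≤ chevG2.monomialSubgroup K ⊔ chevG2.rootSubgroup K (chevG2.simple 0) ⊔ chevG2.rootSubgroup K (chevG2.simple 1) := by
  have A : AllGood chevG2 certG2 tabG2 := ⟨goodG2, good2G2, good3G2, good4G2⟩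
  have hi : 0 < chevG2.rank := by decide +kernel
  have hj : 1 < chevG2.rank := by decide +kernel
  apply group_le_of_orb A (le_trans le_sup_left le_sup_left) (S := [chevG2.simple 0, chevG2.simple 1]) _ orbDG2_0_1
  intro r hr
  rcases List.mem_cons.mp hr with rfl | hr
  · exact ⟨A.g1.simple_lt hi, fun t => gx_mem_sup A.g1 _ t _ (le_trans le_sup_right le_sup_left)⟩
  · rw [List.mem_singleton] at hr
    subst hr
    exact ⟨A.g1.simple_lt hj, fun t => gx_mem_sup A.g1 _ t _ le_sup_right⟩


/-! ### The Sylow subgroup -/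

theorem exists_card_form {F : Type*} [Field F] [Fintype F] {q : ℕ} (hq : Fintype.card F = q) {D : ChevalleyDatum}
    (hD : D ∈ [chevG2, chevB2, chevD4, chevF4, chevE6, chevE7, chevE8]) :
    ∃ (g : ℕ) (ds : List ℕ), (∀ d ∈ ds, 1 ≤ d) ∧ g * Nat.card (D.group F) = q ^ (D.nroots / 2) * (ds.map fun d => q ^ d - 1).prod := by
  simp only [List.mem_cons, List.not_mem_nil, or_false] at hD
  rcases hD with rfl | rfl | rfl | rfl | rfl | rfl | rfl
  · exact ⟨1, [2, 6], by decide, card_type hq ⟨goodG2, good2G2, good3G2, good4G2⟩ good5G2 pivG2 coxG2 chainG2 [2, 6] polyG2 (by have := hcardG2 (F := F); subst hq; simpa using this)⟩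
  · exact ⟨Nat.gcd 2 (q - 1), [2, 4], by decide, card_type hq ⟨goodB2, good2B2, good3B2, good4B2⟩ good5B2 pivB2 coxB2 chainB2 [2, 4] polyB2 (by have := hcardB2 (F := F); subst hq; simpa [Nat.gcd_comm] using this)⟩
  · exact ⟨Nat.gcd 2 (q - 1) ^ 2, [2, 4, 4, 6], by decide, card_type hq ⟨goodD4, good2D4, good3D4, good4D4⟩ good5D4 pivD4 coxD4 chainD4 [2, 4, 4, 6] polyD4 (by have := hcardD4 (F := F); subst hq; simpa [Nat.gcd_comm] using this)⟩
  · exact ⟨1, [2, 6, 8, 12], by decide, card_type hq ⟨goodF4, good2F4, good3F4, good4F4⟩ good5F4 pivF4 coxF4 chainF4 [2, 6, 8, 12] polyF4 (by have := hcardF4 (F := F); subst hq; simpa using this)⟩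
  · exact ⟨Nat.gcd 3 (q - 1), [2, 5, 6, 8, 9, 12], by decide, card_type hq ⟨goodE6, good2E6, good3E6, good4E6⟩ good5E6 pivE6 coxE6 chainE6 [2, 5, 6, 8, 9, 12] polyE6 (by have := hcardE6 (F := F); subst hq; simpa [Nat.gcd_comm] using this)⟩
  · exact ⟨Nat.gcd 2 (q - 1), [2, 6, 8, 10, 12, 14, 18], by decide, card_type hq ⟨goodE7, good2E7, good3E7, good4E7⟩ good5E7 pivE7 coxE7 chainE7 [2, 6, 8, 10, 12, 14, 18] polyE7 (by have := hcardE7 (F := F); subst hq; simpa [Nat.gcd_comm] using this)⟩
  · exact ⟨1, [2, 8, 12, 14, 18, 20, 24, 30], by decide, card_type hq ⟨goodE8, good2E8, good3E8, good4E8⟩ good5E8 pivE8 coxE8 chainE8 [2, 8, 12, 14, 18, 20, 24, 30] polyE8 (by have := hcardE8 (F := F); subst hq; simpa using this)⟩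

theorem exists_good0 {D : ChevalleyDatum} (hD : D ∈ [chevG2, chevB2, chevD4, chevF4, chevE6, chevE7, chevE8]) :
    ∃ (C : Cert) (T : Tab) (tp : List (ℕ × ℕ)) (X : Tab7), AllGood D C T ∧ Good5 D C T tp ∧ pivCheck D X = true :=
  exists_good7 hD

theorem core2326 {F : Type*} [Field F] [Fintype F] (p : ℕ) [Fact p.Prime] [CharP F p] {D : ChevalleyDatum}
    (hD : D ∈ [chevG2, chevB2, chevD4, chevF4, chevE6, chevE7, chevE8]) :
    ∃ P : Sylow p ↥(D.group F), (P : Subgroup ↥(D.group F)) = (D.posUnipotent F).subgroupOf (D.group F) := by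
  classical
  obtain ⟨C, T, tp, X, A, B5, hP⟩ := exists_good7 hD
  have hpp : p.Prime := Fact.out
  obtain ⟨k, hk0, hk⟩ : ∃ k : ℕ, 0 < k ∧ Fintype.card F = p ^ k := by
    obtain ⟨n, hp', hn⟩ := FiniteField.card F p
    exact ⟨n, n.pos, hn⟩
  set q := Fintype.card F with hqd
  have hU : Nat.card (D.posUnipotent F) = q ^ (D.nroots / 2) := by
    rw [core1027 (F := F) A B5 hP, Nat.card_eq_fintype_card]
  have hle := U_le_group (F := F) A
  have hcardU : Nat.card ((D.posUnipotent F).subgroupOf (D.group F)) = q ^ (D.nroots / 2) := by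
    rw [← hU]
    exact Nat.card_congr (Subgroup.subgroupOfEquivOfLe hle).toEquiv
  obtain ⟨g, ds, hds, hform⟩ := exists_card_form (F := F) (q := q) rfl hD
  obtain ⟨m, hm⟩ : q ^ (D.nroots / 2) ∣ Nat.card (D.group F) := by
    rw [← hcardU]
    exact Subgroup.card_subgroup_dvd_card _
  have hqpos : 0 < q ^ (D.nroots / 2) := Nat.pos_of_ne_zero (pow_ne_zero _ (by rw [hk]; exact pow_ne_zero _ hpp.ne_zero))
  have h2 : g * m = (ds.map fun d => q ^ d - 1).prod := by
    rw [hm] at hform
    apply Nat.eq_of_mul_eq_mul_left hqpos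
    rw [← hform]
    ring
  have hnd : ¬ p ∣ (ds.map fun d => q ^ d - 1).prod := by
    intro hdvd
    obtain ⟨x, hx, hxd⟩ := (Prime.dvd_prod_iff hpp.prime).mp hdvd |>.imp fun x h => h
    obtain ⟨d, hd, rfl⟩ := List.mem_map.mp hx
    have hd1 := hds d hd
    have h3 : p ∣ q ^ d := by
      rw [hk]
      exact dvd_pow (dvd_pow_self p hk0.ne') (by omega)
    have h4 : q ^ d - 1 + 1 = q ^ d := Nat.sub_add_cancel (Nat.one_le_iff_ne_zero.mpr (pow_ne_zero _ (by rw [hk]; exact pow_ne_zero _ hpp.ne_zero)))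
    have h5 : p ∣ 1 := by
      have := (Nat.dvd_add_right hxd).mp (h4 ▸ h3)
      exact this
    exact hpp.one_lt.ne' (Nat.dvd_one.mp h5)
  have hmnd : ¬ p ∣ m := fun h => hnd (by rw [← h2]; exact Dvd.dvd.mul_left h g)
  have hcard : Nat.card ((D.posUnipotent F).subgroupOf (D.group F)) = p ^ (Nat.card (D.group F)).factorization p := by
    rw [hcardU, hm, hk, ← pow_mul, Nat.factorization_mul (pow_ne_zero _ hpp.ne_zero) (fun h => hmnd (by rw [h]; exact dvd_zero _))]
    simp only [Finsupp.coe_add, Pi.add_apply, Nat.Prime.factorization_pow hpp, Finsupp.single_eq_same]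
    rw [Nat.factorization_eq_zero_of_not_dvd hmnd, add_zero]
  haveI : Finite (D.group F) := inferInstance
  exact ⟨Sylow.ofCard _ hcard, Sylow.coe_ofCard _ hcard⟩

end Cfsg.Agent.Lib.ChevSym
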