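import Cfsg.Agent.Lib.ChevBasic
import Cfsg.Agent.Lib.ChevCertE8

/-! The `Good` bundle for type E8 (generated, helper4). -/

set_option autoImplicit false
set_option linter.all false
set_option maxRecDepth 1000000

namespace Cfsg.Agent.Lib.ChevSym

open Cfsg.Lie

theorem simpleE8 : simpleCheck chevE8 certE8 = true := by decide +kernel
theorem descentE8 : descentCheck chevE8 certE8 = true := by decide +kernel
theorem etaNegE8 : etaNegCheck chevE8 certE8 = true := by decide +kernel

theorem conjAllE8 : ∀ i < chevE8.rank, ∀ r < chevE8.nroots, conjCheck1 chevE8 certE8 i r = true := by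
  intro i hi
  have h : i < 8 := hi
  interval_cases i
  · exact conjE8_0
  · exact conjE8_1
  · exact conjE8_2
  · exact conjE8_3
  · exact conjE8_4
  · exact conjE8_5
  · exact conjE8_6
  · exact conjE8_7

theorem goodE8 : Good chevE8 certE8 where
  sorted := chainSorted_of _ sortedE8
  neg := negOK_of negE8
  w := wOK_of wE8
  n := nE8
  conj := conjAllE8
  simple := simpleE8
  descent := descentE8
  etaNeg := etaNegE8

end Cfsg.Agent.Lib.ChevSym
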