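import Mathlib

/-! Filtrations of matrix groups by a degree function on the index set (helper4). -/

set_option autoImplicit false
set_option linter.all false

namespace Cfsg.Agent.Lib.MatFilt

open Matrix

variable {ι : Type*} [Fintype ι] [DecidableEq ι] {F : Type*} [Field F] (κ : ι → ℤ)

/-- `A` has degree at least `d`: entries vanish unless `κ u - κ j ≥ d`. -/
def Deg (d : ℤ) (A : Matrix ι ι F) : Prop := ∀ u j, κ u - κ j < d → A u j = 0

variable {κ}

theorem Deg.mono {d d' : ℤ} (h : d ≤ d') {A : Matrix ι ι F} (hA : Deg κ d' A) : Deg κ d A :=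
  fun u j hj => hA u j (lt_of_lt_of_le hj h)

theorem Deg.add {d : ℤ} {A B : Matrix ι ι F} (hA : Deg κ d A) (hB : Deg κ d B) : Deg κ d (A + B) := by
  intro u j hj
  simp [hA u j hj, hB u j hj]

theorem Deg.sub {d : ℤ} {A B : Matrix ι ι F} (hA : Deg κ d A) (hB : Deg κ d B) : Deg κ d (A - B) := by
  intro u j hj
  simp [hA u j hj, hB u j hj]

theorem Deg.mul {a b : ℤ} {A B : Matrix ι ι F} (hA : Deg κ a A) (hB : Deg κ b B) : Deg κ (a + b) (A * B) := by
  intro u j hj
  rw [Matrix.mul_apply]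
  apply Finset.sum_eq_zero
  intro k _
  by_cases h : κ u - κ k < a
  · rw [hA u k h, zero_mul]
  · have : κ k - κ j < b := by omega
    rw [hB k j this, mul_zero]

theorem deg_one_zero : Deg κ 0 (1 : Matrix ι ι F) := by
  intro u j hj
  have : u ≠ j := by
    rintro rfl
    simp at hj
  rw [Matrix.one_apply_ne this]

theorem deg_zero (d : ℤ) : Deg κ d (0 : Matrix ι ι F) := fun _ _ _ => rfl

theorem Deg.pow_sub_one {d : ℤ} (hd : 0 ≤ d) {A : Matrix ι ι F} (hA : Deg κ d A) (k : ℕ) :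
    Deg κ (k * d) (A ^ k) := by
  induction k with
  | zero => simpa using deg_one_zero
  | succ k ih =>
    rw [pow_succ]
    have := ih.mul hA
    have e : ((k : ℤ) * d + d) = ((k + 1 : ℕ) : ℤ) * d := by push_cast; ring
    rwa [e] at this

/-- A matrix of large degree vanishes. -/
theorem Deg.eq_zero {d : ℤ} {A : Matrix ι ι F} (hA : Deg κ d A) (hd : ∀ u j, κ u - κ j < d) : A = 0 := by
  ext u j
  exact hA u j (hd u j)

theorem one_add_mul_sub_one {A B : Matrix ι ι F} : A * B - 1 = (A - 1) * (B - 1) + (A - 1) + (B - 1) := by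
  noncomm_ring

theorem Deg.mul_sub_one {d : ℤ} (hd : 0 ≤ d) {A B : Matrix ι ι F} (hA : Deg κ d (A - 1)) (hB : Deg κ d (B - 1)) :
    Deg κ d (A * B - 1) := by
  rw [one_add_mul_sub_one]
  refine Deg.add (Deg.add ?_ hA) hB
  exact Deg.mono (by omega) (hA.mul hB)

/-- The group of invertible matrices congruent to `1` in degree `≥ d`. -/
def fltSub (κ : ι → ℤ) (F : Type*) [Field F] (d : ℤ) (hd : 0 ≤ d) : Subgroup (GL ι F) where
  carrier := {g | Deg κ d ((g : Matrix ι ι F) - 1) ∧ Deg κ d ((g⁻¹ : GL ι F).1 - 1)}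
  one_mem' := by
    constructor <;> simpa using deg_zero d
  mul_mem' := by
    rintro g h ⟨g1, g2⟩ ⟨h1, h2⟩
    constructor
    · show Deg κ d ((g * h).1 - 1)
      rw [Units.val_mul]
      exact Deg.mul_sub_one hd g1 h1
    · show Deg κ d (((g * h)⁻¹ : GL ι F).1 - 1)
      rw [_root_.mul_inv_rev, Units.val_mul]
      exact Deg.mul_sub_one hd h2 g2
  inv_mem' := by
    rintro g ⟨g1, g2⟩
    constructor
    · exact g2
    · simpa using g1

theorem mem_fltSub {d : ℤ} {hd : 0 ≤ d} {g : GL ι F} :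
    g ∈ fltSub κ F d hd ↔ Deg κ d ((g : Matrix ι ι F) - 1) ∧ Deg κ d ((g⁻¹ : GL ι F).1 - 1) := Iff.rfl

/-- Commutators raise the degree. -/
theorem comm_mem_fltSub {a b : ℤ} (ha : 0 ≤ a) (hb : 0 ≤ b) {g h : GL ι F} (hg : g ∈ fltSub κ F a ha)
    (hh : h ∈ fltSub κ F b hb) : g * h * g⁻¹ * h⁻¹ ∈ fltSub κ F (a + b) (by omega) := by
  have key : ∀ {a b : ℤ} (ha : 0 ≤ a) (hb : 0 ≤ b) {g h : GL ι F}, g ∈ fltSub κ F a ha →
      h ∈ fltSub κ F b hb → Deg κ (a + b) ((g * h * g⁻¹ * h⁻¹ : GL ι F).1 - 1) := by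
    intro a b ha hb g h hg hh
    have hg1 := hg.1
    have hg2 := hg.2
    have hh1 := hh.1
    have hh2 := hh.2
    have e : (g * h * g⁻¹ * h⁻¹ : GL ι F).1 - 1 =
        ((g.1 - 1) * (h.1 - 1) - (h.1 - 1) * (g.1 - 1)) * ((g⁻¹ : GL ι F).1 - 1) * ((h⁻¹ : GL ι F).1 - 1) +
        ((g.1 - 1) * (h.1 - 1) - (h.1 - 1) * (g.1 - 1)) * ((g⁻¹ : GL ι F).1 - 1) +
        ((g.1 - 1) * (h.1 - 1) - (h.1 - 1) * (g.1 - 1)) * ((h⁻¹ : GL ι F).1 - 1) +
        ((g.1 - 1) * (h.1 - 1) - (h.1 - 1) * (g.1 - 1)) := by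
      have h1 : g.1 * (g⁻¹ : GL ι F).1 = 1 := by simp
      have h2 : h.1 * (h⁻¹ : GL ι F).1 = 1 := by simp
      have h3 : (g * h * g⁻¹ * h⁻¹ : GL ι F).1 = g.1 * h.1 * (g⁻¹ : GL ι F).1 * (h⁻¹ : GL ι F).1 := by
        simp [Units.val_mul]
      rw [h3]
      have e2 : (g.1 - 1) * (h.1 - 1) - (h.1 - 1) * (g.1 - 1) = g.1 * h.1 - h.1 * g.1 := by noncomm_ring
      rw [e2]
      have h4 : (g.1 * h.1 - h.1 * g.1) * ((g⁻¹ : GL ι F).1 - 1) * ((h⁻¹ : GL ι F).1 - 1) +
          (g.1 * h.1 - h.1 * g.1) * ((g⁻¹ : GL ι F).1 - 1) + (g.1 * h.1 - h.1 * g.1) * ((h⁻¹ : GL ι F).1 - 1) +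
          (g.1 * h.1 - h.1 * g.1) = (g.1 * h.1 - h.1 * g.1) * ((g⁻¹ : GL ι F).1 * (h⁻¹ : GL ι F).1) := by
        noncomm_ring
      rw [h4, sub_mul]
      have h5 : h.1 * g.1 * ((g⁻¹ : GL ι F).1 * (h⁻¹ : GL ι F).1) = 1 := by
        rw [mul_assoc, ← mul_assoc g.1, h1, one_mul, h2]
      rw [h5, mul_assoc (g.1 * h.1)]
    rw [e]
    have h0 : Deg κ (a + b) ((g.1 - 1) * (h.1 - 1) - (h.1 - 1) * (g.1 - 1)) := by
      apply Deg.sub (hg1.mul hh1)
      have := hh1.mul hg1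
      rwa [add_comm] at this
    refine Deg.add (Deg.add (Deg.add ?_ ?_) ?_) h0
    · have := (h0.mul hg2).mul hh2
      exact Deg.mono (by omega) this
    · exact Deg.mono (by omega) (h0.mul hg2)
    · exact Deg.mono (by omega) (h0.mul hh2)
  constructor
  · exact key ha hb hg hh
  · have e : ((g * h * g⁻¹ * h⁻¹)⁻¹ : GL ι F) = h * g * h⁻¹ * g⁻¹ := by group
    rw [e, add_comm]
    exact key hb ha hh hg

/-- A group of invertible matrices inside `fltSub 1` is nilpotent. -/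
theorem isNilpotent_of_le (R : ℤ) (hR : ∀ u j, κ u - κ j < R) (U : Subgroup (GL ι F))
    (hU : U ≤ fltSub κ F 1 (by omega)) : Group.IsNilpotent U := by
  have hnil : Group.IsNilpotent (fltSub κ F 1 (by omega)) := by
    rw [nilpotent_iff_finite_descending_central_series]
    refine ⟨R.toNat, fun n => (fltSub κ F ((n : ℤ) + 1) (by omega)).subgroupOf (fltSub κ F 1 (by omega)), ?_, ?_⟩
    · constructor
      · ext x
        simp [Subgroup.mem_subgroupOf]
      · intro x n hx g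
        rw [Subgroup.mem_subgroupOf] at hx ⊢
        have := comm_mem_fltSub (by omega) (by omega : (0 : ℤ) ≤ 1) hx g.2
        rw [commutatorElement_def]
        push_cast
        convert this using 2
    · rw [Subgroup.eq_bot_iff_forall]
      intro x hx
      rw [Subgroup.mem_subgroupOf] at hx
      apply Subtype.ext
      apply Units.ext
      have h1 : Deg κ (((R.toNat : ℕ) : ℤ) + 1) ((x : GL ι F).1 - 1) := hx.1
      have h2 := Deg.eq_zero h1 (fun u j => by
        have := hR u j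
        have h3 : R ≤ (R.toNat : ℤ) := Int.self_le_toNat R
        omega)
      exact sub_eq_zero.mp h2
  haveI := hnil
  have h2 : Group.IsNilpotent (U.subgroupOf (fltSub κ F 1 (by omega))) := inferInstance
  exact (Group.isNilpotent_congr (Subgroup.subgroupOfEquivOfLe hU)).mp h2

end Cfsg.Agent.Lib.MatFilt
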