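import Cfsg.Agent.Lib.ChevBasic
import Cfsg.Agent.Lib.MatFilt

/-! Entries of root elements in terms of the tables: scaling and filtrations (helper4). -/

set_option autoImplicit false
set_option linter.all false

namespace Cfsg.Agent.Lib.ChevSym

open Cfsg.Lie Cfsg.Lie.ChevalleyDatum Matrix Cfsg.Agent.Lib.MatFilt

variable {F : Type*} [Field F] (D : ChevalleyDatum)

/-- The non-diagonal contributions to an entry of `x_r(t)`: a list of `(k, m)`, meaning `m t^k`. -/
def xE (r : ℕ) (u j : D.Idx) : List (ℕ × ℤ) :=
  match j with
  | Sum.inl i =>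
    (match u with
     | Sum.inl _ => []
     | Sum.inr v => if v.val = r then [(1, -(D.cartanSR.getD i.val #[]).getD r 0)] else [])
  | Sum.inr s =>
    if s.val = r then []
    else if s.val = D.negIdx.getD r 0 then
      (match u with
       | Sum.inl i => [(1, (D.coroot.getD r #[]).getD i.val 0)]
       | Sum.inr v => if v = s then [] else if v.val = r then [(2, -1)] else [])
    else
      (match u with
       | Sum.inl _ => []
       | Sum.inr v => D.chainCoeff r s.val v.val)

variable {D}

theorem x_eq_E {r : ℕ} (hr : r < D.nroots) (t : F) (u j : D.Idx) :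
    D.x F r t u j = (1 : Matrix D.Idx D.Idx F) u j + ((xE D r u j).map fun km => (km.2 : F) * t ^ km.1).sum := by
  have h0 : D.x F r t = D.xMat F ⟨r, hr⟩ t := by
    simp [ChevalleyDatum.x, hr]
  rw [h0]
  rcases j with i | s
  · rcases u with i' | v
    · show (if i' = i then (1 : F) else 0) = _
      simp [Matrix.one_apply, xE]
    · show (if v = ⟨r, hr⟩ then -(((D.cartanSR.getD i.val #[]).getD r 0 : ℤ) : F) * t else 0) = _
      by_cases h : v = ⟨r, hr⟩
      · have h' : v.val = r := congrArg Fin.val h
        simp [Matrix.one_apply, xE, h', h]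
      · have h' : v.val ≠ r := fun h2 => h (Fin.ext h2)
        simp [Matrix.one_apply, xE, h', h]
  · by_cases h3 : s = ⟨r, hr⟩
    · have h3' : s.val = r := congrArg Fin.val h3
      rcases u with i' | v
      · show (if s = ⟨r, hr⟩ then (0 : F) else _) = _
        rw [if_pos h3]
        simp [Matrix.one_apply, xE, h3']
      · show (if s = ⟨r, hr⟩ then (if v = ⟨r, hr⟩ then (1 : F) else 0) else _) = _
        rw [if_pos h3, h3]
        simp [Matrix.one_apply, xE]
    · have h3' : s.val ≠ r := fun h2 => h3 (Fin.ext h2)
      by_cases hsn : s.val = D.negIdx.getD r 0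
      · rcases u with i' | v
        · show (if s = ⟨r, hr⟩ then (0 : F) else if s.val = D.negIdx.getD r 0 then
            (((D.coroot.getD r #[]).getD i'.val 0 : ℤ) : F) * t else 0) = _
          rw [if_neg h3, if_pos hsn]
          have e : xE D r (Sum.inl i') (Sum.inr s) = [(1, (D.coroot.getD r #[]).getD i'.val 0)] := by
            unfold xE
            simp only [if_neg h3', if_pos hsn]
          rw [e]
          simp [Matrix.one_apply]
        · show (if s = ⟨r, hr⟩ then (if v = ⟨r, hr⟩ then (1 : F) else 0) else if s.val = D.negIdx.getD r 0 then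
            (if v = s then 1 else if v = ⟨r, hr⟩ then -(t ^ 2) else 0) else _) = _
          rw [if_neg h3, if_pos hsn]
          have e : xE D r (Sum.inr v) (Sum.inr s) = if v = s then [] else if v.val = r then [(2, -1)] else [] := by
            unfold xE
            simp only [if_neg h3', if_pos hsn]
          rw [e]
          by_cases h7 : v = s
          · simp [h7, Matrix.one_apply]
          · have h8 : (Sum.inr v : D.Idx) ≠ Sum.inr s := fun h => h7 (Sum.inr.inj h)
            rw [if_neg h7, if_neg h7, Matrix.one_apply_ne h8]
            by_cases h9 : v = ⟨r, hr⟩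
            · have h9' : v.val = r := congrArg Fin.val h9
              rw [if_pos h9, if_pos h9']
              simp
            · have h9' : v.val ≠ r := fun h2 => h9 (Fin.ext h2)
              rw [if_neg h9, if_neg h9']
              simp
      · rcases u with i' | v
        · show (if s = ⟨r, hr⟩ then (0 : F) else if s.val = D.negIdx.getD r 0 then _ else 0) = _
          rw [if_neg h3, if_neg hsn]
          have e : xE D r (Sum.inl i') (Sum.inr s) = [] := by
            unfold xE
            simp only [if_neg h3', if_neg hsn]
          rw [e]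
          simp [Matrix.one_apply]
        · show (if s = ⟨r, hr⟩ then _ else if s.val = D.negIdx.getD r 0 then _ else
            (if v = s then (1 : F) else 0) + ((D.chainCoeff r s.val v.val).map
              fun km => ((km.2 : ℤ) : F) * t ^ km.1).sum) = _
          rw [if_neg h3, if_neg hsn]
          have e : xE D r (Sum.inr v) (Sum.inr s) = D.chainCoeff r s.val v.val := by
            unfold xE
            simp only [if_neg h3', if_neg hsn]
          rw [e]
          congr 1
          by_cases h7 : v = s
          · simp [h7, Matrix.one_apply]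
          · have h8 : (Sum.inr v : D.Idx) ≠ Sum.inr s := fun h => h7 (Sum.inr.inj h)
            rw [if_neg h7, Matrix.one_apply_ne h8]

/-- Degree function on coordinates from a degree function on roots. -/
def kap (D : ChevalleyDatum) (κ : ℕ → ℤ) : D.Idx → ℤ
  | Sum.inl _ => 0
  | Sum.inr s => κ s.val

/-- `κ` is additive on all the tables of the datum. -/
structure GradeOK (D : ChevalleyDatum) (κ : ℕ → ℤ) : Prop where
  neg : ∀ r < D.nroots, κ (D.neg r) = - κ r
  chain : ∀ r < D.nroots, ∀ e ∈ (D.chain.getD r #[]).toList, ∀ q ∈ e.2.toList.zipIdx,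
    κ q.1.1 = κ e.1 + ((q.2 : ℤ) + 1) * κ r

noncomputable def gradeCheck1 (D : ChevalleyDatum) (κ : ℕ → ℤ) (r : ℕ) : Bool :=
  cond (iBeq (κ (D.neg r)) (- κ r))
    (allL (fun e => allL (fun q : (ℕ × ℤ) × ℕ => iBeq (κ q.1.1) (κ e.1 + ((q.2 : ℤ) + 1) * κ r)) e.2.toList.zipIdx)
      (D.chain.getD r #[]).toList) false

noncomputable def gradeCheck (D : ChevalleyDatum) (κ : ℕ → ℤ) : Bool :=
  allL (gradeCheck1 D κ) (List.range D.nroots)

theorem gradeOK_of {κ : ℕ → ℤ} (h : gradeCheck D κ = true) : GradeOK D κ := by
  have key : ∀ r < D.nroots, κ (D.neg r) = - κ r ∧ (∀ e ∈ (D.chain.getD r #[]).toList, ∀ q ∈ e.2.toList.zipIdx,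
      κ q.1.1 = κ e.1 + ((q.2 : ℤ) + 1) * κ r) := by
    intro r hr
    have h1 := (allL_iff _ _).mp h r (List.mem_range.mpr hr)
    unfold gradeCheck1 at h1
    cases e1 : iBeq (κ (D.neg r)) (- κ r)
    · rw [e1] at h1; exact absurd h1 (by simp)
    · rw [e1] at h1
      simp only [cond_true] at h1
      refine ⟨iBeq_eq e1, fun e he q hq => ?_⟩
      exact iBeq_eq ((allL_iff _ _).mp ((allL_iff _ _).mp h1 e he) q hq)
  exact ⟨fun r hr => (key r hr).1, fun r hr => (key r hr).2⟩

/-- Every contribution to an entry of `x_r` has degree a positive multiple of `κ r`. -/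
theorem GradeOK.xE_deg {κ : ℕ → ℤ} (hκ : GradeOK D κ) {r : ℕ} (hr : r < D.nroots) {u j : D.Idx} {km : ℕ × ℤ}
    (h : km ∈ xE D r u j) : 1 ≤ km.1 ∧ kap D κ u - kap D κ j = km.1 * κ r := by
  have hn := hκ.neg r hr
  rcases j with i | s
  · rcases u with i' | v
    · simp [xE] at h
    · simp only [xE] at h
      by_cases hv : v.val = r
      · rw [if_pos hv, List.mem_singleton] at h
        subst h
        simp [kap, hv]
      · rw [if_neg hv] at h
        simp at h
  · by_cases h3 : s.val = r
    · simp [xE, h3] at h
    · by_cases hsn : s.val = D.negIdx.getD r 0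
      · have hs : κ s.val = - κ r := by rw [hsn]; exact hn
        rcases u with i' | v
        · have e : xE D r (Sum.inl i') (Sum.inr s) = [(1, (D.coroot.getD r #[]).getD i'.val 0)] := by
            unfold xE
            simp only [if_neg h3, if_pos hsn]
          rw [e, List.mem_singleton] at h
          subst h
          simp [kap, hs]
        · have e : xE D r (Sum.inr v) (Sum.inr s) = if v = s then [] else if v.val = r then [(2, -1)] else [] := by
            unfold xE
            simp only [if_neg h3, if_pos hsn]
          rw [e] at h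
          by_cases h7 : v = s
          · rw [if_pos h7] at h; simp at h
          · rw [if_neg h7] at h
            by_cases h9 : v.val = r
            · rw [if_pos h9, List.mem_singleton] at h
              subst h
              simp [kap, hs, h9]
              ring
            · rw [if_neg h9] at h; simp at h
      · rcases u with i' | v
        · have e : xE D r (Sum.inl i') (Sum.inr s) = [] := by
            unfold xE
            simp only [if_neg h3, if_neg hsn]
          rw [e] at h; simp at h
        · have e : xE D r (Sum.inr v) (Sum.inr s) = D.chainCoeff r s.val v.val := by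
            unfold xE
            simp only [if_neg h3, if_neg hsn]
          rw [e] at h
          unfold ChevalleyDatum.chainCoeff at h
          obtain ⟨e', he', he2⟩ := List.mem_flatMap.mp h
          obtain ⟨q, hq, rfl⟩ := List.mem_map.mp he2
          rw [List.mem_filter] at he' hq
          have hs' : e'.1 = s.val := by simpa using he'.2
          have hv' : q.1.1 = v.val := by simpa using hq.2
          have := hκ.chain r hr e' he'.1 q hq.1
          rw [hs', hv'] at this
          constructor
          · simp
          · simp only [kap]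
            rw [this]
            push_cast
            ring

theorem sum_scale_aux {α : Type*} (L : List α) (f g : α → F) (A B : F) (h : ∀ x ∈ L, f x * A = B * g x) :
    (L.map f).sum * A = B * (L.map g).sum := by
  induction L with
  | nil => simp
  | cons a L ih =>
    simp only [List.map_cons, List.sum_cons, add_mul, mul_add]
    rw [h a (List.mem_cons_self ..), ih (fun x hx => h x (List.mem_cons_of_mem _ hx))]

/-- Scaling of root elements by an additive degree function. -/
theorem x_scale {κ : ℕ → ℤ} (hκ : GradeOK D κ) {r : ℕ} (hr : r < D.nroots) {c : F} (hc : c ≠ 0) (t : F) (u j : D.Idx) :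
    D.x F r (c ^ κ r * t) u j * c ^ kap D κ j = c ^ kap D κ u * D.x F r t u j := by
  rw [x_eq_E hr, x_eq_E hr, add_mul, mul_add]
  congr 1
  · by_cases h : u = j
    · subst h; simp [mul_comm]
    · simp [Matrix.one_apply_ne h]
  · apply sum_scale_aux
    intro km hkm
    obtain ⟨h1, h2⟩ := hκ.xE_deg hr hkm
    have h3 : kap D κ u = kap D κ j + km.1 * κ r := by rw [← h2]; ring
    rw [h3, zpow_add₀ hc, mul_pow, ← zpow_natCast (c ^ κ r), ← _root_.zpow_mul]
    have h4 : κ r * (km.1 : ℤ) = km.1 * κ r := mul_comm _ _
    rw [h4]
    ring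

/-- The matrix form of the scaling. -/
theorem x_mul_diag {κ : ℕ → ℤ} (hκ : GradeOK D κ) {r : ℕ} (hr : r < D.nroots) {c : F} (hc : c ≠ 0) (t : F) :
    Matrix.diagonal (fun u => c ^ kap D κ u) * D.x F r t =
      D.x F r (c ^ κ r * t) * Matrix.diagonal (fun u => c ^ kap D κ u) := by
  ext u j
  rw [Matrix.diagonal_mul, Matrix.mul_diagonal]
  exact (x_scale hκ hr hc t u j).symm

/-- The root elements with `κ r > 0` lie in the filtration group. -/
theorem x_sub_one_deg {κ : ℕ → ℤ} (hκ : GradeOK D κ) {r : ℕ} (hr : r < D.nroots) (hpos : 0 < κ r) (t : F) :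
    Deg (kap D κ) (κ r) (D.x F r t - 1) := by
  intro u j hj
  rw [Matrix.sub_apply, x_eq_E hr, add_sub_cancel_left]
  apply List.sum_eq_zero
  intro y hy
  obtain ⟨km, hkm, rfl⟩ := List.mem_map.mp hy
  obtain ⟨h1, h2⟩ := hκ.xE_deg hr hkm
  exfalso
  have h3 : (1 : ℤ) ≤ km.1 := by exact_mod_cast h1
  nlinarith

end Cfsg.Agent.Lib.ChevSym
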