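import Cfsg.Agent.Lib.ChevF2

/-! Monomial graph automorphisms given by tables (helper4). -/

set_option autoImplicit false
set_option linter.all false

namespace Cfsg.Agent.Lib.ChevSym

open Cfsg.Lie Cfsg.Lie.ChevalleyDatum Matrix Cfsg.Agent.Lib.MatFilt

/-- A signed permutation of the basis, as byte and bit tables. -/
structure GTab where
  piT : ℕ
  sgT : ℕ

namespace GTab

variable (G : GTab) (D : ChevalleyDatum)

/-- image of a basis index -/
noncomputable def pi (j : ℕ) : ℕ := tb G.piT j

/-- sign at a basis index -/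
noncomputable def sg (j : ℕ) : ℤ := cond (tbit G.sgT j) (-1) 1

/-- permutation of the roots -/
noncomputable def ro (r : ℕ) : ℕ := Nat.sub (G.pi (Nat.add D.rank r)) D.rank

/-- sign at a root -/
noncomputable def ep (r : ℕ) : ℤ := G.sg (Nat.add D.rank r)

/-- the column of a basis vector -/
noncomputable def colS (j : ℕ) : SV :=
  cond (Nat.blt j (Nat.add D.rank D.nroots)) [(G.pi j, pconst (G.sg j))] []

/-- the action on a sparse vector -/
noncomputable def act (L : SV) : SV :=
  List.rec (motive := fun _ => SV) [] (fun m _ ih => svAdd (svScale m.2 (G.colS D m.1)) ih) L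

/-- intertwining of root elements -/
noncomputable def check : Bool :=
  allL (fun r => allL (fun j =>
      svEq (actR D (G.ro D r) (pmul (pconst (G.ep D r)) pa) (G.colS D j))
        (G.act D (actR D r pa [(j, pconst 1)])))
    (List.range (D.rank + D.nroots))) (List.range D.nroots)

/-- inverse tables -/
noncomputable def invCheck (G' : GTab) : Bool :=
  allL (fun j => svEq (G.act D (G'.colS D j)) [(j, pconst 1)]) (List.range (D.rank + D.nroots))

/-- values at the fundamental roots -/
noncomputable def simpleChk (π : List ℕ) : Bool :=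
  allL (fun i => cond (Nat.beq (G.ro D (D.simple i)) (D.simple (π.getD i 0)))
    (cond (Nat.beq (G.ro D (D.neg (D.simple i))) (D.neg (D.simple (π.getD i 0))))
      (cond (iBeq (G.ep D (D.simple i)) 1) (iBeq (G.ep D (D.neg (D.simple i))) 1) false) false) false)
    (List.range D.rank)

end GTab

section

variable {F : Type*} [Field F] (G : GTab) (D : ChevalleyDatum)

/-- The monomial matrix of a table. -/
noncomputable def Pm (F : Type*) [Field F] : Matrix D.Idx D.Idx F :=
  fun u j => if G.pi (enc D j) = enc D u then ((G.sg (enc D j) : ℤ) : F) else 0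

theorem Pm_col (a b : F) (u j : D.Idx) : Pm G D F u j = svev a b (G.colS D (enc D j)) (enc D u) := by
  have h : G.colS D (enc D j) = [(G.pi (enc D j), pconst (G.sg (enc D j)))] := by
    unfold GTab.colS
    have h0 : Nat.blt (enc D j) (Nat.add D.rank D.nroots) = true := blt_true' (enc_lt D j)
    rw [h0, cond_true]
  rw [h, svev_cons, svev_nil, add_zero]
  unfold Pm
  simp only [pev_pconst]

theorem colS_out (j : ℕ) (hj : ¬ j < D.rank + D.nroots) : G.colS D j = [] := by
  unfold GTab.colS
  have h0 : Nat.blt j (Nat.add D.rank D.nroots) = false := blt_false' hj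
  rw [h0, cond_false]

theorem Pm_spec (a b : F) (L : SV) (u : D.Idx) :
    ∑ j, Pm G D F u j * svev a b L (enc D j) = svev a b (G.act D L) (enc D u) :=
  sum_col D (Pm G D F) (G.colS D) a b (fun u j => Pm_col G D a b u j) (colS_out G D) L u

theorem x_col (hS : ChainSorted D) (r : ℕ) (a b : F) (p : Poly) (k j : D.Idx) :
    D.x F r (pev a b p) k j = svev a b (actR D r p [(enc D j, pconst 1)]) (enc D k) := by
  rw [← actR_spec hS]
  rw [Finset.sum_eq_single j]
  · simp [pev_pconst]
  · intro m _ hm
    have : ¬ (enc D j = enc D m) := fun h => hm (enc_inj D h).symm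
    simp [this]
  · simp

/-- Intertwining. -/
theorem x_mul_Pm (hS : ChainSorted D) (hc : G.check D = true) {r : ℕ} (hr : r < D.nroots) (t : F) :
    D.x F (G.ro D r) (((G.ep D r : ℤ) : F) * t) * Pm G D F = Pm G D F * D.x F r t := by
  ext u j
  have h1 := (allL_iff _ _).mp ((allL_iff _ _).mp hc r (List.mem_range.mpr hr)) (enc D j)
    (List.mem_range.mpr (enc_lt D j))
  have e0 : pev t (0 : F) (pmul (pconst (G.ep D r)) pa) = ((G.ep D r : ℤ) : F) * t := by
    rw [pev_pmul, pev_pconst, pev_pa]
  have e1 : pev t (0 : F) pa = t := pev_pa _ _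
  rw [Matrix.mul_apply, Matrix.mul_apply]
  calc ∑ k, D.x F (G.ro D r) (((G.ep D r : ℤ) : F) * t) u k * Pm G D F k j
      = ∑ k, D.x F (G.ro D r) (pev t (0 : F) (pmul (pconst (G.ep D r)) pa)) u k *
          svev t (0 : F) (G.colS D (enc D j)) (enc D k) := by
        rw [e0]
        exact Finset.sum_congr rfl fun k _ => by rw [Pm_col G D t 0]
    _ = svev t (0 : F) (actR D (G.ro D r) (pmul (pconst (G.ep D r)) pa) (G.colS D (enc D j))) (enc D u) :=
        actR_spec hS _ _ _ _ _ _
    _ = svev t (0 : F) (G.act D (actR D r pa [(enc D j, pconst 1)])) (enc D u) := by rw [svEq_eq h1]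
    _ = ∑ k, Pm G D F u k * svev t (0 : F) (actR D r pa [(enc D j, pconst 1)]) (enc D k) :=
        (Pm_spec G D _ _ _ _).symm
    _ = ∑ k, Pm G D F u k * D.x F r t k j := by
        refine Finset.sum_congr rfl fun k _ => ?_
        rw [← x_col D hS r t 0 pa k j, e1]

/-- Inverse tables give inverse matrices. -/
theorem Pm_mul_Pm (G' : GTab) (h : G.invCheck D G' = true) : Pm G D F * Pm G' D F = 1 := by
  ext u j
  have h1 := (allL_iff _ _).mp h (enc D j) (List.mem_range.mpr (enc_lt D j))
  rw [Matrix.mul_apply]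
  calc ∑ k, Pm G D F u k * Pm G' D F k j
      = ∑ k, Pm G D F u k * svev (0 : F) (0 : F) (G'.colS D (enc D j)) (enc D k) :=
        Finset.sum_congr rfl fun k _ => by rw [Pm_col G' D 0 0]
    _ = svev (0 : F) (0 : F) (G.act D (G'.colS D (enc D j))) (enc D u) := Pm_spec G D _ _ _ _
    _ = (1 : Matrix D.Idx D.Idx F) u j := by
        rw [svEq_eq h1, svev_cons, svev_nil, add_zero, pev_pconst, Matrix.one_apply]
        by_cases e : u = j
        · subst e; simp
        · have : ¬ (enc D j = enc D u) := fun h => e (enc_inj D h).symm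
          simp [e, this]

/-- The invertible matrix of a pair of tables. -/
noncomputable def Pg (F : Type*) [Field F] (G' : GTab) (h : G.invCheck D G' = true) : GL D.Idx F where
  val := Pm G D F
  inv := Pm G' D F
  val_inv := Pm_mul_Pm G D G' h
  inv_val := mul_eq_one_comm.mp (Pm_mul_Pm G D G' h)

@[simp] theorem coe_Pg (G' : GTab) (h : G.invCheck D G' = true) :
    ((Pg G D F G' h : GL D.Idx F) : Matrix D.Idx D.Idx F) = Pm G D F := rfl

variable {C : Cert} (hG : Good D C)
include hG

/-- The conjugation formula in `GL`. -/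
theorem Pg_conj_gx (hc : G.check D = true) (G' : GTab) (h : G.invCheck D G' = true) {r : ℕ} (hr : r < D.nroots)
    (t : F) : Pg G D F G' h * gx hG F r t * (Pg G D F G' h)⁻¹ = gx hG F (G.ro D r) (((G.ep D r : ℤ) : F) * t) := by
  have h1 : gx hG F (G.ro D r) (((G.ep D r : ℤ) : F) * t) * Pg G D F G' h = Pg G D F G' h * gx hG F r t :=
    Units.ext (x_mul_Pm G D hG.sorted hc hr t)
  rw [← h1]
  group

/-- Conjugation by `P` preserves the group. -/
theorem Pg_conj_mem (hc : G.check D = true) (G' : GTab) (h : G.invCheck D G' = true) {g : GL D.Idx F}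
    (hg : g ∈ D.group F) (hgr : ∀ (r : ℕ) (t : F), gx hG F r t ∈ D.group F) :
    Pg G D F G' h * g * (Pg G D F G' h)⁻¹ ∈ D.group F := by
  induction hg using Subgroup.closure_induction with
  | mem x hx =>
    obtain ⟨r, t, hx⟩ := hx
    have e : x = gx hG F r.val t := by
      apply Units.ext
      rw [hx, coe_gx]
      simp [ChevalleyDatum.x, r.2]
    rw [e, Pg_conj_gx G D hG hc G' h r.2]
    exact hgr _ _
  | one => simp
  | mul x y _ _ hx hy =>
    have e : Pg G D F G' h * (x * y) * (Pg G D F G' h)⁻¹ =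
        (Pg G D F G' h * x * (Pg G D F G' h)⁻¹) * (Pg G D F G' h * y * (Pg G D F G' h)⁻¹) := by group
    rw [e]
    exact Subgroup.mul_mem _ hx hy
  | inv x _ hx =>
    have e : Pg G D F G' h * x⁻¹ * (Pg G D F G' h)⁻¹ = (Pg G D F G' h * x * (Pg G D F G' h)⁻¹)⁻¹ := by group
    rw [e]
    exact Subgroup.inv_mem _ hx

/-- Packaged form of `S1081`. -/
theorem core1081 (hgr : ∀ (r : ℕ) (t : F), gx hG F r t ∈ D.group F) {G' : GTab} (hc : G.check D = true)
    (hc' : G'.check D = true)
    (h : G.invCheck D G' = true) (h' : G'.invCheck D G = true) {π : List ℕ} (hs : G.simpleChk D π = true) :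
    ∃ α : ↥(D.group F) ≃* ↥(D.group F), ∀ (g : ↥(D.group F)) (i : ℕ) (t : F), i < D.rank →
      (((g : GL D.Idx F) : Matrix D.Idx D.Idx F) = D.x F (D.simple i) t →
        ((α g : GL D.Idx F) : Matrix D.Idx D.Idx F) = D.x F (D.simple (π.getD i 0)) t) ∧
      (((g : GL D.Idx F) : Matrix D.Idx D.Idx F) = D.x F (D.neg (D.simple i)) t →
        ((α g : GL D.Idx F) : Matrix D.Idx D.Idx F) = D.x F (D.neg (D.simple (π.getD i 0))) t) := by
  set P := Pg G D F G' h with hP
  have hinv : P⁻¹ = Pg G' D F G h' := by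
    apply Units.ext
    rfl
  have hm : ∀ g ∈ D.group F, P * g * P⁻¹ ∈ D.group F := fun g hg => Pg_conj_mem G D hG hc G' h hg hgr
  have hm' : ∀ g ∈ D.group F, P⁻¹ * g * P ∈ D.group F := by
    intro g hg
    have := Pg_conj_mem G' D hG hc' G h' hg hgr
    rw [← hinv] at this
    simpa using this
  let α : ↥(D.group F) ≃* ↥(D.group F) :=
    { toFun := fun g => ⟨P * g * P⁻¹, hm g g.2⟩
      invFun := fun g => ⟨P⁻¹ * g * P, hm' g g.2⟩
      left_inv := fun g => by
        apply Subtype.ext
        show P⁻¹ * (P * g * P⁻¹) * P = g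
        group
      right_inv := fun g => by
        apply Subtype.ext
        show P * (P⁻¹ * g * P) * P⁻¹ = g
        group
      map_mul' := fun g g' => by
        apply Subtype.ext
        show P * (g * g') * P⁻¹ = P * g * P⁻¹ * (P * g' * P⁻¹)
        group }
  refine ⟨α, fun g i t hi => ?_⟩
  have hp := hG.simple_lt hi
  have hchk : cond (Nat.beq (G.ro D (D.simple i)) (D.simple (π.getD i 0)))
    (cond (Nat.beq (G.ro D (D.neg (D.simple i))) (D.neg (D.simple (π.getD i 0))))
      (cond (iBeq (G.ep D (D.simple i)) 1) (iBeq (G.ep D (D.neg (D.simple i))) 1) false) false) false = true :=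
    (allL_iff _ _).mp hs i (List.mem_range.mpr hi)
  cases e1 : Nat.beq (G.ro D (D.simple i)) (D.simple (π.getD i 0))
  · rw [e1] at hchk
    exact absurd hchk (by simp)
  cases e2 : Nat.beq (G.ro D (D.neg (D.simple i))) (D.neg (D.simple (π.getD i 0)))
  · rw [e1, e2] at hchk
    exact absurd hchk (by simp)
  cases e3 : iBeq (G.ep D (D.simple i)) 1
  · rw [e1, e2, e3] at hchk
    exact absurd hchk (by simp)
  rw [e1, e2, e3] at hchk
  simp only [cond_true] at hchk
  have e1' := Nat.eq_of_beq_eq_true e1
  have e2' := Nat.eq_of_beq_eq_true e2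
  have e3' := iBeq_eq e3
  have e4' := iBeq_eq hchk
  constructor
  · intro hg
    have hg' : (g : GL D.Idx F) = gx hG F (D.simple i) t := Units.ext hg
    show ((P * g * P⁻¹ : GL D.Idx F) : Matrix D.Idx D.Idx F) = _
    rw [hg', Pg_conj_gx G D hG hc G' h hp, e1', e3']
    simp
  · intro hg
    have hg' : (g : GL D.Idx F) = gx hG F (D.neg (D.simple i)) t := Units.ext hg
    show ((P * g * P⁻¹ : GL D.Idx F) : Matrix D.Idx D.Idx F) = _
    rw [hg', Pg_conj_gx G D hG hc G' h (hG.neg.lt _ hp), e2', e4']
    simp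

end

end Cfsg.Agent.Lib.ChevSym
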