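import Cfsg.Agent.Lib.ChevGL

/-! Diagonal elements: `h_r(c)` for the fundamental roots and the group they generate (helper4). -/

set_option autoImplicit false
set_option linter.all false

namespace Cfsg.Agent.Lib.ChevSym

open Cfsg.Lie Cfsg.Lie.ChevalleyDatum Matrix Cfsg.Agent.Lib.MatFilt

/-- Fast tables. -/
structure Tab where
  cartTab : List ℕ
  keyA : List ℤ

noncomputable def Tab.cart (T : Tab) (i s : ℕ) : ℤ := ((tb (getL T.cartTab i) s : ℕ) : ℤ) - 128

section checks

variable (D : ChevalleyDatum) (C : Cert) (T : Tab)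

noncomputable def pcancel (p : Poly) : Poly :=
  List.rec (motive := fun _ => Poly) [] (fun m _ ih => insT (Nat.sub m.1 m.2.1, Nat.sub m.2.1 m.1, m.2.2) ih) p

noncomputable def svCancel (v : SV) : SV :=
  List.rec (motive := fun _ => SV) [] (fun m _ ih => svIns (m.1, pcancel m.2) ih) v

noncomputable def hWordS (r : ℕ) : List (ℕ × Poly) :=
  [(r, pa), (D.neg r, pmul (pconst (-1)) pb), (r, pa), (r, pconst (-1)), (D.neg r, pconst 1), (r, pconst (-1))]

def monoZ (A : ℤ) : Poly := [(A.toNat, (-A).toNat, 1)]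

noncomputable def hCol (i j : ℕ) : SV :=
  cond (Nat.blt j D.rank) [(j, pconst 1)]
    (cond (Nat.blt j (Nat.add D.rank D.nroots)) [(j, monoZ (T.cart i (Nat.sub j D.rank)))] [])

noncomputable def hCheck : Bool :=
  allL (fun i => allL (fun j => svEq (svCancel (wordAct D (hWordS D (D.simple i)) [(j, pconst 1)])) (hCol D T i j))
    (List.range (D.rank + D.nroots))) (List.range D.rank)

noncomputable def cartEqCheck : Bool :=
  allL (fun i => allL (fun s => iBeq (T.cart i s) (D.cartan i s)) (List.range D.nroots)) (List.range D.rank)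

noncomputable def cartWCheck : Bool :=
  allL (fun i => allL (fun j => allL (fun s =>
    iBeq (T.cart j (C.w i s)) (T.cart j s - T.cart i s * T.cart j (D.simple i)))
      (List.range D.nroots)) (List.range D.rank)) (List.range D.rank)

noncomputable def gradeCartCheck : Bool :=
  allL (fun i => gradeCheck D (T.cart i)) (List.range D.rank)

end checks

structure Good2 (D : ChevalleyDatum) (C : Cert) (T : Tab) : Prop where
  h : hCheck D T = true
  cartEq : cartEqCheck D T = true
  cartW : cartWCheck D C T = true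
  grade : gradeCartCheck D T = true

variable {F : Type*} [Field F] {D : ChevalleyDatum} {C : Cert} {T : Tab}

theorem Good2.cart_eq (h2 : Good2 D C T) {i s : ℕ} (hi : i < D.rank) (hs : s < D.nroots) : T.cart i s = D.cartan i s :=
  iBeq_eq ((allL_iff _ _).mp ((allL_iff _ _).mp h2.cartEq i (List.mem_range.mpr hi)) s (List.mem_range.mpr hs))

theorem Good2.cart_w (h2 : Good2 D C T) {i j s : ℕ} (hi : i < D.rank) (hj : j < D.rank) (hs : s < D.nroots) :
    T.cart j (C.w i s) = T.cart j s - T.cart i s * T.cart j (D.simple i) :=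
  iBeq_eq ((allL_iff _ _).mp ((allL_iff _ _).mp ((allL_iff _ _).mp h2.cartW i (List.mem_range.mpr hi)) j
    (List.mem_range.mpr hj)) s (List.mem_range.mpr hs))

theorem Good2.gradeOK (h2 : Good2 D C T) {i : ℕ} (hi : i < D.rank) : GradeOK D (T.cart i) :=
  gradeOK_of ((allL_iff _ _).mp h2.grade i (List.mem_range.mpr hi))

section cancel

theorem pev_pcancel {a b : F} (hab : a * b = 1) (p : Poly) : pev a b (pcancel p) = pev a b p := by
  induction p with
  | nil => rfl
  | cons m p ih =>
    show pev a b (insT (Nat.sub m.1 m.2.1, Nat.sub m.2.1 m.1, m.2.2) (pcancel p)) = _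
    rw [pev_insT, ih, pev_cons]
    congr 1
    show (m.2.2 : F) * a ^ (m.1 - m.2.1) * b ^ (m.2.1 - m.1) = (m.2.2 : F) * a ^ m.1 * b ^ m.2.1
    rw [mul_assoc, mul_assoc]
    congr 1
    rcases le_total m.1 m.2.1 with h | h
    · obtain ⟨k, hk⟩ := Nat.exists_eq_add_of_le h
      rw [hk]
      have e1 : m.1 - (m.1 + k) = 0 := by omega
      have e2 : m.1 + k - m.1 = k := by omega
      rw [e1, e2, pow_zero, one_mul, pow_add, ← mul_assoc, ← mul_pow, hab, one_pow, one_mul]
    · obtain ⟨k, hk⟩ := Nat.exists_eq_add_of_le h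
      rw [hk]
      have e1 : m.2.1 + k - m.2.1 = k := by omega
      have e2 : m.2.1 - (m.2.1 + k) = 0 := by omega
      rw [e1, e2, pow_zero, mul_one, pow_add, mul_assoc, mul_comm (a ^ k), ← mul_assoc, ← mul_pow, hab, one_pow, one_mul]

theorem svev_svCancel {a b : F} (hab : a * b = 1) (v : SV) (k : ℕ) : svev a b (svCancel v) k = svev a b v k := by
  induction v with
  | nil => rfl
  | cons m v ih =>
    show svev a b (svIns (m.1, pcancel m.2) (svCancel v)) k = _
    rw [svev_svIns, ih, svev_cons, pev_pcancel hab]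

theorem pev_monoZ {c : F} (hc : c ≠ 0) (A : ℤ) : pev c c⁻¹ (monoZ A) = c ^ A := by
  unfold monoZ
  rw [pev_cons, pev_nil, add_zero]
  show (((1 : ℤ) : F)) * c ^ A.toNat * c⁻¹ ^ (-A).toNat = c ^ A
  rcases Int.eq_nat_or_neg A with ⟨n, rfl | rfl⟩
  · simp
  · simp

end cancel

/-- The diagonal matrix with entries `1` on the coroots and `d s` on the root vectors. -/
def dmat (D : ChevalleyDatum) (d : ℕ → F) : D.Idx → F
  | Sum.inl _ => 1
  | Sum.inr s => d s.val

theorem evW_hWordS {c : F} (hc : c ≠ 0) (r : ℕ) : evW c c⁻¹ (hWordS D r) = D.hWord r c := by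
  simp [evW, hWordS, ChevalleyDatum.hWord, ChevalleyDatum.nWord, pev_pconst, pev_pmul]

/-- `h_{p_i}(c)` is diagonal. -/
theorem hMat_simple (hS : ChainSorted D) (h2 : Good2 D C T) {i : ℕ} (hi : i < D.rank) {c : F} (hc : c ≠ 0) :
    D.hMat F (D.simple i) c = Matrix.diagonal (dmat D fun s => c ^ T.cart i s) := by
  ext u j
  have hc1 : c * c⁻¹ = 1 := mul_inv_cancel₀ hc
  have h1 := (allL_iff _ _).mp ((allL_iff _ _).mp h2.h i (List.mem_range.mpr hi)) (enc D j)
    (List.mem_range.mpr (enc_lt D j))
  unfold ChevalleyDatum.hMat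
  rw [← evW_hWordS hc, wordMat_apply' hS, ← svev_svCancel hc1, svEq_eq h1]
  rcases j with i' | s
  · have : Nat.blt (enc D (Sum.inl i')) D.rank = true := blt_true' i'.2
    unfold hCol
    rw [this, cond_true, svev_cons, svev_nil, add_zero, pev_pconst]
    by_cases h3 : u = Sum.inl i'
    · subst h3
      simp [dmat]
    · have h4 : ¬ (enc D (Sum.inl i') = enc D u) := fun h => h3 (enc_inj D h).symm
      rw [if_neg h4, Matrix.diagonal_apply_ne _ h3]
  · have h5 : Nat.blt (enc D (Sum.inr s)) D.rank = false := by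
      apply blt_false'
      show ¬ (D.rank + s.val < D.rank)
      omega
    have h6 : Nat.blt (enc D (Sum.inr s)) (Nat.add D.rank D.nroots) = true := blt_true' (enc_lt D _)
    unfold hCol
    rw [h5, cond_false, h6, cond_true, svev_cons, svev_nil, add_zero, pev_monoZ hc]
    have h7 : Nat.sub (enc D (Sum.inr s)) D.rank = s.val := by
      show D.rank + s.val - D.rank = s.val
      omega
    rw [h7]
    by_cases h3 : u = Sum.inr s
    · subst h3
      simp [dmat]
    · have h4 : ¬ (enc D (Sum.inr s) = enc D u) := fun h => h3 (enc_inj D h).symm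
      rw [if_neg h4, Matrix.diagonal_apply_ne _ h3]

variable (hG : Good D C) (h2 : Good2 D C T)
include hG

/-- Pattern of `n_i`. -/
theorem nMat_inr_entry {i : ℕ} (hi : i < D.rank) (u : D.Idx) (s : Fin D.nroots) :
    D.nMat F (D.simple i) 1 u (Sum.inr s) =
      if D.rank + C.w i s.val = enc D u then ((C.eta i s.val : ℤ) : F) else 0 := by
  rw [nMat_apply hG.sorted hG.n (0 : F) 0 hi]
  have h5 : Nat.blt (enc D (Sum.inr s)) D.rank = false := by
    apply blt_false'
    show ¬ (D.rank + s.val < D.rank)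
    omega
  have h6 : Nat.blt (enc D (Sum.inr s)) (Nat.add D.rank D.nroots) = true := blt_true' (enc_lt D _)
  have h7 : Nat.sub (enc D (Sum.inr s)) D.rank = s.val := by
    show D.rank + s.val - D.rank = s.val
    omega
  unfold nCol
  rw [h5, cond_false, h6, cond_true, h7, svev_cons, svev_nil, add_zero, pev_pconst]
  rfl

theorem nMat_inl_entry {i : ℕ} (hi : i < D.rank) (v : Fin D.nroots) (i' : Fin D.rank) :
    D.nMat F (D.simple i) 1 (Sum.inr v) (Sum.inl i') = 0 := by
  rw [nMat_apply hG.sorted hG.n (0 : F) 0 hi]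
  unfold nCol
  rw [show Nat.blt (enc D (Sum.inl i')) D.rank = true from blt_true' i'.2, cond_true, svev_svIns, svev_cons,
    svev_nil, add_zero]
  have h1 : ¬ (i = enc D (Sum.inr v)) := by
    show ¬ (i = D.rank + v.val)
    omega
  have h2 : ¬ (enc D (Sum.inl i') = enc D (Sum.inr v)) := by
    show ¬ (i'.val = D.rank + v.val)
    have := i'.2
    omega
  show (if i = enc D (Sum.inr v) then _ else (0 : F)) + (if enc D (Sum.inl i') = enc D (Sum.inr v) then _ else 0) = 0
  rw [if_neg h1, if_neg h2, add_zero]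

/-- `n_i` conjugates diagonal matrices by the permutation `w_i`. -/
theorem nMat_mul_diag {i : ℕ} (hi : i < D.rank) (d : ℕ → F) :
    D.nMat F (D.simple i) 1 * Matrix.diagonal (dmat D d) =
      Matrix.diagonal (dmat D (fun s => d (C.w i s))) * D.nMat F (D.simple i) 1 := by
  ext u j
  rw [Matrix.mul_diagonal, Matrix.diagonal_mul]
  rcases j with i' | s
  · rcases u with i'' | v
    · simp [dmat]
    · rw [nMat_inl_entry hG hi]
      simp
  · rw [nMat_inr_entry hG hi]
    by_cases h3 : D.rank + C.w i s.val = enc D u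
    · rw [if_pos h3]
      have hws := hG.w.lt i hi s.val s.2
      have hu : u = Sum.inr ⟨C.w i s.val, hws⟩ := enc_inj D h3.symm
      subst hu
      show _ * d s.val = d (C.w i (C.w i s.val)) * _
      rw [hG.w.invol i hi s.val s.2, mul_comm]
    · rw [if_neg h3]
      simp

include h2

/-- `h_{p_i}(c)` as a diagonal matrix in `GL`. -/
theorem coe_gh_simple {i : ℕ} (hi : i < D.rank) {c : F} (hc : c ≠ 0) :
    ((gh hG F (D.simple i) c : GL D.Idx F) : Matrix D.Idx D.Idx F) = Matrix.diagonal (dmat D fun s => c ^ T.cart i s) := by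
  rw [coe_gh, hMat_simple hG.sorted h2 hi hc]

/-- Scaling of `x_r` by `h_{p_i}(c)`. -/
theorem gh_simple_mul_gx {i r : ℕ} (hi : i < D.rank) (hr : r < D.nroots) {c : F} (hc : c ≠ 0) (t : F) :
    gh hG F (D.simple i) c * gx hG F r t = gx hG F r (c ^ T.cart i r * t) * gh hG F (D.simple i) c := by
  apply Units.ext
  show ((gh hG F (D.simple i) c : GL D.Idx F) : Matrix D.Idx D.Idx F) * D.x F r t =
    D.x F r (c ^ T.cart i r * t) * ((gh hG F (D.simple i) c : GL D.Idx F) : Matrix D.Idx D.Idx F)
  rw [coe_gh_simple hG h2 hi hc]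
  have := x_mul_diag (h2.gradeOK hi) hr hc t
  have e : (fun u : D.Idx => c ^ kap D (T.cart i) u) = dmat D fun s => c ^ T.cart i s := by
    funext u
    rcases u with i' | s
    · simp [kap, dmat]
    · rfl
  rwa [e] at this

end Cfsg.Agent.Lib.ChevSym
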