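import Cfsg.Agent.Lib.ChevCanon

/-! The order of the diagonal group: powers of a torus and the Smith form of the Cartan matrix (helper4). -/

set_option autoImplicit false
set_option linter.all false

namespace Cfsg.Agent.Lib.ChevSym

open Cfsg.Lie Cfsg.Lie.ChevalleyDatum Matrix Cfsg.Agent.Lib.MatFilt

section powM

variable {l : ℕ} {G : Type*} [CommGroup G]

/-- The map `u ↦ (∏ᵢ uᵢ^{A i j})ⱼ`. -/
def powM (A : Matrix (Fin l) (Fin l) ℤ) (u : Fin l → G) : Fin l → G := fun j => ∏ i, u i ^ A i j

theorem zpow_sum_eq {ι : Type*} (s : Finset ι) (x : G) (f : ι → ℤ) : x ^ (∑ i ∈ s, f i) = ∏ i ∈ s, x ^ f i := by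
  classical
  induction s using Finset.induction_on with
  | empty => simp
  | insert a s ha ih => rw [Finset.sum_insert ha, Finset.prod_insert ha, _root_.zpow_add, ih]

theorem powM_mul (A B : Matrix (Fin l) (Fin l) ℤ) (u : Fin l → G) : powM (A * B) u = powM B (powM A u) := by
  funext j
  unfold powM
  rw [Fintype.prod_congr _ (fun k => ∏ i, (u i ^ A i k) ^ B k j) (fun k => (Finset.prod_zpow _ _ _).symm)]
  rw [Finset.prod_comm]
  apply Finset.prod_congr rfl
  intro i _
  rw [Matrix.mul_apply, zpow_sum_eq]
  apply Finset.prod_congr rfl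
  intro k _
  rw [_root_.zpow_mul]

theorem powM_one (u : Fin l → G) : powM (1 : Matrix (Fin l) (Fin l) ℤ) u = u := by
  classical
  funext j
  unfold powM
  rw [Finset.prod_eq_single j]
  · simp
  · intro b _ hb
    rw [Matrix.one_apply_ne hb, zpow_zero]
  · simp

theorem powM_of_one (A : Matrix (Fin l) (Fin l) ℤ) : powM A (1 : Fin l → G) = 1 := by
  funext j
  simp [powM]

theorem powM_mul' (A : Matrix (Fin l) (Fin l) ℤ) (u v : Fin l → G) : powM A (u * v) = powM A u * powM A v := by
  funext j
  simp only [powM, Pi.mul_apply, mul_zpow, Finset.prod_mul_distrib]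

theorem powM_diag [DecidableEq (Fin l)] (s : Fin l → ℕ) (u : Fin l → G) (j : Fin l) :
    powM (Matrix.diagonal fun i => (s i : ℤ)) u j = u j ^ (s j) := by
  unfold powM
  rw [Finset.prod_eq_single j]
  · simp
  · intro b _ hb
    rw [Matrix.diagonal_apply_ne _ hb, zpow_zero]
  · simp

/-- The kernel does not change under unimodular transformations. -/
theorem card_ker_eq {A X X' S Y Y' : Matrix (Fin l) (Fin l) ℤ} (h : A = X * S * Y) (hX : X * X' = 1) (hY : Y * Y' = 1) :
    Nat.card {u : Fin l → G // powM A u = 1} = Nat.card {u : Fin l → G // powM S u = 1} := by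
  have hX2 : X' * X = 1 := mul_eq_one_comm.mp hX
  have e1 : ∀ u : Fin l → G, powM X' (powM X u) = u := by
    intro u
    rw [← powM_mul, hX, powM_one]
  have e2 : ∀ u : Fin l → G, powM X (powM X' u) = u := by
    intro u
    rw [← powM_mul, hX2, powM_one]
  have e3 : ∀ u : Fin l → G, powM Y' (powM Y u) = u := by
    intro u
    rw [← powM_mul, hY, powM_one]
  have key : ∀ u : Fin l → G, powM A u = 1 ↔ powM S (powM X u) = 1 := by
    intro u
    rw [h, powM_mul, powM_mul]
    constructor
    · intro h1
      have := congrArg (powM Y') h1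
      rwa [e3, powM_of_one] at this
    · intro h1
      rw [h1, powM_of_one]
  apply Nat.card_congr
  exact { toFun := fun u => ⟨powM X u.1, (key u.1).mp u.2⟩
          invFun := fun v => ⟨powM X' v.1, (key _).mpr (by rw [e2]; exact v.2)⟩
          left_inv := fun u => Subtype.ext (e1 u.1)
          right_inv := fun v => Subtype.ext (e2 v.1) }

/-- The kernel of a diagonal map. -/
theorem card_ker_diag [Finite G] [IsCyclic G] (s : Fin l → ℕ) :
    Nat.card {u : Fin l → G // powM (Matrix.diagonal fun i => (s i : ℤ)) u = 1} = ∏ j, (Nat.card G).gcd (s j) := by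
  have e : {u : Fin l → G // powM (Matrix.diagonal fun i => (s i : ℤ)) u = 1} ≃
      {u : Fin l → G // ∀ j, u j ∈ (powMonoidHom (s j) : G →* G).ker} := by
    apply Equiv.subtypeEquivRight
    intro u
    constructor
    · intro h j
      have := congrFun h j
      rw [powM_diag] at this
      exact this
    · intro h
      funext j
      rw [powM_diag]
      exact h j
  rw [Nat.card_congr e, Nat.card_congr (Equiv.subtypePiEquivPi), Nat.card_pi]
  apply Finset.prod_congr rfl
  intro j _
  exact IsCyclic.card_powMonoidHom_ker (G := G) (s j)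

end powM

variable {F : Type*} [Field F] {D : ChevalleyDatum} {C : Cert} {T : Tab}

/-- The Cartan matrix. -/
noncomputable def Amat (D : ChevalleyDatum) (T : Tab) : Matrix (Fin D.rank) (Fin D.rank) ℤ :=
  fun i j => T.cart i (D.simple j)

/-- The coefficients of a tuple of units. -/
noncomputable def cOf (u : Fin D.rank → Fˣ) (i : ℕ) : F := if h : i < D.rank then (u ⟨i, h⟩ : F) else 1

theorem cOf_ne (u : Fin D.rank → Fˣ) (i : ℕ) : cOf u i ≠ 0 := by
  unfold cOf
  split_ifs
  · exact Units.ne_zero _
  · exact one_ne_zero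

theorem cOf_mul (u v : Fin D.rank → Fˣ) : cOf (u * v) = fun i => cOf u i * cOf v i := by
  funext i
  unfold cOf
  split_ifs
  · simp
  · simp

theorem list_range_prod {M : Type*} [CommMonoid M] (f : ℕ → M) (n : ℕ) : ((List.range n).map f).prod = ∏ i : Fin n, f i := by
  induction n with
  | zero => simp
  | succ n ih =>
    rw [List.range_succ, List.map_append, List.prod_append, ih, Fin.prod_univ_castSucc]
    simp

variable (A : AllGood D C T)
include A

/-- The torus map. -/
noncomputable def thetaH : (Fin D.rank → Fˣ) →* GL D.Idx F where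
  toFun u := hProd A.g1 (cOf u) (List.range D.rank)
  map_one' := by
    apply Units.ext
    rw [coe_hProd A (fun i hi => List.mem_range.mp hi) (fun i _ => cOf_ne _ i)]
    ext a b
    by_cases h : a = b
    · subst h
      rcases a with i | s
      · simp [dmat]
      · have : ∀ i ∈ List.range D.rank, cOf (1 : Fin D.rank → Fˣ) i ^ T.cart i s.val = (1 : F) := by
          intro i hi
          have h1 := List.mem_range.mp hi
          simp [cOf, h1]
        simp only [Matrix.diagonal_apply_eq, dmat, Units.val_one, Matrix.one_apply_eq]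
        apply List.prod_eq_one
        intro x hx
        obtain ⟨i, hi, rfl⟩ := List.mem_map.mp hx
        exact this i hi
    · rw [Matrix.diagonal_apply_ne _ h, Units.val_one, Matrix.one_apply_ne h]
  map_mul' u v := by
    rw [cOf_mul]
    exact (hProd_mul A (fun i hi => List.mem_range.mp hi) (fun i _ => cOf_ne _ i) (fun i _ => cOf_ne _ i)).symm

theorem thetaH_apply (u : Fin D.rank → Fˣ) : thetaH A u = hProd A.g1 (cOf u) (List.range D.rank) := rfl

/-- The range of the torus map is `H`. -/
theorem thetaH_range : (thetaH (F := F) A).range = D.diagonalSubgroup F := by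
  rw [diagonal_eq A]
  apply le_antisymm
  · rintro _ ⟨u, rfl⟩
    exact hProd_mem A (fun i hi => List.mem_range.mp hi) (fun i _ => cOf_ne _ i)
  · intro g hg
    obtain ⟨c, hc, rfl⟩ := exists_hProd A hg
    refine ⟨fun i => Units.mk0 (c i.val) (hc i.val i.2), ?_⟩
    rw [thetaH_apply]
    unfold hProd
    congr 1
    apply List.map_congr_left
    intro i hi
    have h1 := List.mem_range.mp hi
    simp [cOf, h1]

/-- The kernel of the torus map. -/
theorem thetaH_ker_iff (u : Fin D.rank → Fˣ) : thetaH A u = 1 ↔ powM (Amat D T) u = 1 := by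
  have hG := A.g1
  have hR : ∀ i ∈ List.range D.rank, i < D.rank := fun i hi => List.mem_range.mp hi
  have e0 : ∀ s : ℕ, ((List.range D.rank).map fun i => cOf u i ^ T.cart i s).prod = ((∏ i, u i ^ T.cart i s : Fˣ) : F) := by
    intro s
    rw [list_range_prod, Units.coe_prod]
    apply Finset.prod_congr rfl
    intro i _
    simp [cOf, i.2]
  have e1 : thetaH A u = 1 ↔ ∀ s < D.nroots, (∏ i, u i ^ T.cart i s : Fˣ) = 1 := by
    rw [thetaH_apply]
    constructor
    · intro h s hs
      have h1 := congrArg Units.val h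
      rw [coe_hProd A hR (fun i _ => cOf_ne _ i), Units.val_one] at h1
      have h2 := congrFun (congrFun h1 (Sum.inr ⟨s, hs⟩)) (Sum.inr ⟨s, hs⟩)
      rw [Matrix.diagonal_apply_eq, Matrix.one_apply_eq] at h2
      simp only [dmat] at h2
      rw [e0] at h2
      exact Units.ext h2
    · intro h
      apply Units.ext
      rw [coe_hProd A hR (fun i _ => cOf_ne _ i), Units.val_one]
      ext a b
      by_cases hab : a = b
      · subst hab
        rw [Matrix.diagonal_apply_eq, Matrix.one_apply_eq]
        rcases a with i | s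
        · rfl
        · simp only [dmat]
          rw [e0, h s.val s.2]
          rfl
      · rw [Matrix.diagonal_apply_ne _ hab, Matrix.one_apply_ne hab]
  rw [e1]
  constructor
  · intro h
    funext j
    exact h _ (hG.simple_lt j.2)
  · intro h
    apply hG.root_ind
    · intro j hj
      exact congrFun h ⟨j, hj⟩
    · intro i hi s hs h1
      have e2 : (∏ k, u k ^ T.cart k (C.w i s) : Fˣ) =
          (∏ k, u k ^ T.cart k s) * (∏ k, u k ^ T.cart k (D.simple i)) ^ (- T.cart i s) := by
        rw [← Finset.prod_zpow, ← Finset.prod_mul_distrib]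
        apply Finset.prod_congr rfl
        intro k _
        rw [A.g2.cart_w hi k.2 hs, ← _root_.zpow_mul, ← _root_.zpow_add]
        congr 1
        ring
      rw [e2, h1]
      have := congrFun h ⟨i, hi⟩
      have h5 : (∏ k, u k ^ T.cart k (D.simple i) : Fˣ) = 1 := this
      rw [h5]
      simp

/-- The order of `H`. -/
theorem core1035 [Fintype F] {X X' Y Y' : Matrix (Fin D.rank) (Fin D.rank) ℤ} {s : Fin D.rank → ℕ}
    (h : Amat D T = X * (Matrix.diagonal fun i => (s i : ℤ)) * Y) (hX : X * X' = 1) (hY : Y * Y' = 1) :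
    (∏ j, (Fintype.card F - 1).gcd (s j)) * Nat.card (D.diagonalSubgroup F) = (Fintype.card F - 1) ^ D.rank := by
  classical
  have hcard : Nat.card Fˣ = Fintype.card F - 1 := by
    rw [Nat.card_eq_fintype_card, Fintype.card_units]
  have h1 : Nat.card (thetaH (F := F) A).ker * Nat.card (thetaH (F := F) A).range = (Fintype.card F - 1) ^ D.rank := by
    rw [← Subgroup.index_ker, Subgroup.card_mul_index, Nat.card_fun, hcard, Nat.card_eq_fintype_card, Fintype.card_fin]
  rw [thetaH_range A] at h1
  rw [← h1]
  congr 1
  have e : (thetaH (F := F) A).ker ≃ {u : Fin D.rank → Fˣ // powM (Amat D T) u = 1} :=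
    Equiv.subtypeEquivRight fun u => by rw [MonoidHom.mem_ker, thetaH_ker_iff]
  rw [Nat.card_congr e, card_ker_eq h hX hY, card_ker_diag, hcard]

end Cfsg.Agent.Lib.ChevSym
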