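import Cfsg.Agent.Lib.ChevH

/-! The diagonal subgroup generated by the `h_{p_i}(c)` (helper4). -/

set_option autoImplicit false
set_option linter.all false

namespace Cfsg.Agent.Lib.ChevSym

open Cfsg.Lie Cfsg.Lie.ChevalleyDatum Matrix Cfsg.Agent.Lib.MatFilt

variable {F : Type*} [Field F] {D : ChevalleyDatum} {C : Cert} {T : Tab}
variable (hG : Good D C) (h2 : Good2 D C T)

/-- The group generated by the `h_{p_i}(c)`, `c ≠ 0`. -/
def Hs (hG : Good D C) (F : Type*) [Field F] : Subgroup (GL D.Idx F) :=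
  Subgroup.closure {g | ∃ i < D.rank, ∃ c : F, c ≠ 0 ∧ g = gh hG F (D.simple i) c}

/-- Diagonal elements which scale all the root elements. -/
def HProp (hG : Good D C) (g : GL D.Idx F) : Prop :=
  ∃ χ : ℕ → F, (∀ s < D.nroots, χ s ≠ 0) ∧ (g : Matrix D.Idx D.Idx F) = Matrix.diagonal (dmat D χ) ∧
    ∀ r < D.nroots, ∀ t : F, g * gx hG F r t = gx hG F r (χ r * t) * g

include h2

theorem HProp_of_mem {g : GL D.Idx F} (hg : g ∈ Hs hG F) : HProp hG g := by
  induction hg using Subgroup.closure_induction with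
  | mem x hx =>
    obtain ⟨i, hi, c, hc, rfl⟩ := hx
    refine ⟨fun s => c ^ T.cart i s, fun s _ => zpow_ne_zero _ hc, coe_gh_simple hG h2 hi hc, fun r hr t => ?_⟩
    exact gh_simple_mul_gx hG h2 hi hr hc t
  | one =>
    refine ⟨fun _ => 1, fun _ _ => one_ne_zero, ?_, fun r _ t => by simp⟩
    ext u j
    by_cases h : u = j
    · subst h
      rcases u with i | s <;> simp [dmat]
    · rw [Matrix.diagonal_apply_ne _ h]
      exact Matrix.one_apply_ne h
  | mul x y _ _ hx hy =>
    obtain ⟨χ, h1, h3, h4⟩ := hx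
    obtain ⟨ψ, h5, h6, h7⟩ := hy
    refine ⟨fun s => χ s * ψ s, fun s hs => mul_ne_zero (h1 s hs) (h5 s hs), ?_, fun r hr t => ?_⟩
    · show (x : Matrix D.Idx D.Idx F) * (y : Matrix D.Idx D.Idx F) = _
      rw [h3, h6, Matrix.diagonal_mul_diagonal]
      congr 1
      funext u
      rcases u with i | s <;> simp [dmat]
    · calc x * y * gx hG F r t = x * (y * gx hG F r t) := by group
        _ = x * (gx hG F r (ψ r * t) * y) := by rw [h7 r hr]
        _ = (x * gx hG F r (ψ r * t)) * y := by group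
        _ = (gx hG F r (χ r * (ψ r * t)) * x) * y := by rw [h4 r hr]
        _ = gx hG F r (χ r * ψ r * t) * (x * y) := by rw [mul_assoc, mul_assoc (χ r)]
  | inv x _ hx =>
    obtain ⟨χ, h1, h3, h4⟩ := hx
    refine ⟨fun s => (χ s)⁻¹, fun s hs => inv_ne_zero (h1 s hs), ?_, fun r hr t => ?_⟩
    · have e : ((x⁻¹ : GL D.Idx F) : Matrix D.Idx D.Idx F) * (x : Matrix D.Idx D.Idx F) = 1 := by simp
      have e2 : Matrix.diagonal (dmat D fun s => (χ s)⁻¹) * (x : Matrix D.Idx D.Idx F) = 1 := by
        rw [h3, Matrix.diagonal_mul_diagonal]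
        rw [← Matrix.diagonal_one]
        congr 1
        funext u
        rcases u with i | s
        · simp [dmat]
        · simp [dmat, h1 s.val s.2]
      have e3 : ((x⁻¹ : GL D.Idx F) : Matrix D.Idx D.Idx F) = Matrix.diagonal (dmat D fun s => (χ s)⁻¹) := by
        calc ((x⁻¹ : GL D.Idx F) : Matrix D.Idx D.Idx F)
            = (Matrix.diagonal (dmat D fun s => (χ s)⁻¹) * (x : Matrix D.Idx D.Idx F)) * ((x⁻¹ : GL D.Idx F) : Matrix D.Idx D.Idx F) := by
              rw [e2, one_mul]
          _ = Matrix.diagonal (dmat D fun s => (χ s)⁻¹) := by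
              rw [mul_assoc]
              have : (x : Matrix D.Idx D.Idx F) * ((x⁻¹ : GL D.Idx F) : Matrix D.Idx D.Idx F) = 1 := by simp
              rw [this, mul_one]
      exact e3
    · have h5 := h4 r hr ((χ r)⁻¹ * t)
      rw [← mul_assoc, mul_inv_cancel₀ (h1 r hr), one_mul] at h5
      have h6 : x⁻¹ * gx hG F r t * x = gx hG F r ((χ r)⁻¹ * t) := by
        rw [mul_assoc, ← h5, inv_mul_cancel_left]
      rw [← h6]
      group

/-- Elements of `Hs` commute. -/
theorem Hs_comm {g g' : GL D.Idx F} (hg : g ∈ Hs hG F) (hg' : g' ∈ Hs hG F) : g * g' = g' * g := by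
  obtain ⟨χ, _, h3, _⟩ := HProp_of_mem hG h2 hg
  obtain ⟨ψ, _, h6, _⟩ := HProp_of_mem hG h2 hg'
  apply Units.ext
  show (g : Matrix D.Idx D.Idx F) * (g' : Matrix D.Idx D.Idx F) = (g' : Matrix D.Idx D.Idx F) * (g : Matrix D.Idx D.Idx F)
  rw [h3, h6, Matrix.diagonal_mul_diagonal, Matrix.diagonal_mul_diagonal]
  congr 1
  funext u
  exact mul_comm _ _

theorem gh_simple_mem {i : ℕ} (hi : i < D.rank) {c : F} (hc : c ≠ 0) : gh hG F (D.simple i) c ∈ Hs hG F :=
  Subgroup.subset_closure ⟨i, hi, c, hc, rfl⟩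

omit h2 in
/-- `n_i` on diagonal elements, `GL` form. -/
theorem gs_mul_of_diag {i : ℕ} (hi : i < D.rank) {g g' : GL D.Idx F} (d : ℕ → F)
    (h3 : (g : Matrix D.Idx D.Idx F) = Matrix.diagonal (dmat D d))
    (h4 : (g' : Matrix D.Idx D.Idx F) = Matrix.diagonal (dmat D fun s => d (C.w i s))) :
    gs hG F i * g * (gs hG F i)⁻¹ = g' := by
  rw [mul_inv_eq_iff_eq_mul]
  apply Units.ext
  show ((gs hG F i : GL D.Idx F) : Matrix D.Idx D.Idx F) * (g : Matrix D.Idx D.Idx F) =
    (g' : Matrix D.Idx D.Idx F) * ((gs hG F i : GL D.Idx F) : Matrix D.Idx D.Idx F)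
  rw [coe_gn, h3, h4]
  exact nMat_mul_diag hG hi d

/-- `n_i` normalises the diagonal group. -/
theorem gs_conj_mem {i : ℕ} (hi : i < D.rank) {g : GL D.Idx F} (hg : g ∈ Hs hG F) :
    gs hG F i * g * (gs hG F i)⁻¹ ∈ Hs hG F := by
  induction hg using Subgroup.closure_induction with
  | mem x hx =>
    obtain ⟨j, hj, c, hc, rfl⟩ := hx
    have hcA : c ^ (-T.cart j (D.simple i)) ≠ 0 := zpow_ne_zero _ hc
    have e : gs hG F i * gh hG F (D.simple j) c * (gs hG F i)⁻¹ =
        gh hG F (D.simple j) c * gh hG F (D.simple i) (c ^ (-T.cart j (D.simple i))) := by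
      apply gs_mul_of_diag hG hi (fun s => c ^ T.cart j s) (coe_gh_simple hG h2 hj hc)
      show ((gh hG F (D.simple j) c : GL D.Idx F) : Matrix D.Idx D.Idx F) *
        ((gh hG F (D.simple i) (c ^ (-T.cart j (D.simple i))) : GL D.Idx F) : Matrix D.Idx D.Idx F) = _
      rw [coe_gh_simple hG h2 hj hc, coe_gh_simple hG h2 hi hcA, Matrix.diagonal_mul_diagonal]
      congr 1
      funext u
      rcases u with i' | s
      · simp [dmat]
      · show c ^ T.cart j s.val * (c ^ (-T.cart j (D.simple i))) ^ T.cart i s.val = c ^ T.cart j (C.w i s.val)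
        rw [h2.cart_w hi hj s.2, ← _root_.zpow_mul, ← zpow_add₀ hc]
        congr 1
        ring
    rw [e]
    exact Subgroup.mul_mem _ (gh_simple_mem hG h2 hj hc) (gh_simple_mem hG h2 hi hcA)
  | one => simp [Subgroup.one_mem]
  | mul x y _ _ hx hy =>
    have e : gs hG F i * (x * y) * (gs hG F i)⁻¹ =
        (gs hG F i * x * (gs hG F i)⁻¹) * (gs hG F i * y * (gs hG F i)⁻¹) := by group
    rw [e]
    exact Subgroup.mul_mem _ hx hy
  | inv x _ hx =>
    have e : gs hG F i * x⁻¹ * (gs hG F i)⁻¹ = (gs hG F i * x * (gs hG F i)⁻¹)⁻¹ := by group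
    rw [e]
    exact Subgroup.inv_mem _ hx

omit h2 in
theorem gn_one_sq (r : ℕ) : (gn hG F r (-1) * gn hG F r (-1)) = gh hG F r (-1) := by
  unfold gh
  simp

omit h2 in
theorem gh_one (r : ℕ) : gh hG F r 1 = 1 := by
  unfold gh
  rw [← gn_inv hG r (1 : F)]
  group

/-- The square of `n_i` lies in `Hs`. -/
theorem gs_sq_mem {i : ℕ} (hi : i < D.rank) : gs hG F i * gs hG F i ∈ Hs hG F := by
  have h1 : gh hG F (D.simple i) (-1 : F) ∈ Hs hG F := gh_simple_mem hG h2 hi (by simp)
  rw [← gn_one_sq hG] at h1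
  rw [← gn_inv hG (D.simple i) (1 : F)] at h1
  have := Subgroup.inv_mem _ h1
  simpa using this

/-- `n_i⁻¹` normalises `Hs` as well. -/
theorem gs_inv_conj_mem {i : ℕ} (hi : i < D.rank) {g : GL D.Idx F} (hg : g ∈ Hs hG F) :
    (gs hG F i)⁻¹ * g * gs hG F i ∈ Hs hG F := by
  have h1 := gs_conj_mem hG h2 hi hg
  have h3 := gs_sq_mem hG h2 (F := F) hi
  have e : (gs hG F i)⁻¹ * g * gs hG F i =
      (gs hG F i * gs hG F i)⁻¹ * (gs hG F i * g * (gs hG F i)⁻¹) * (gs hG F i * gs hG F i) := by group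
  rw [e]
  exact Subgroup.mul_mem _ (Subgroup.mul_mem _ (Subgroup.inv_mem _ h3) h1) h3

/-- All the `h_r(c)` lie in `Hs`. -/
theorem gh_mem {r : ℕ} (hr : r < D.nroots) {c : F} (hc : c ≠ 0) : gh hG F r c ∈ Hs hG F := by
  have key : ∀ r < D.nroots, ∀ c : F, c ≠ 0 → gh hG F r c ∈ Hs hG F := by
    apply hG.root_ind
    · intro i hi c hc
      exact gh_simple_mem hG h2 hi hc
    · intro i hi r hr h c hc
      have hψ : ∀ t : F, t ≠ 0 → gs hG F i * gh hG F r t * (gs hG F i)⁻¹ ∈ Hs hG F := fun t ht =>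
        gs_conj_mem hG h2 hi (h t ht)
      rcases C.eta_cases i r with he | he
      · have e := gs_conj_gh hG hi hr c
        rw [he] at e
        have e2 : gs hG F i * gh hG F r c * (gs hG F i)⁻¹ = gh hG F (C.w i r) c := by
          rw [e]
          unfold gh
          simp
        rw [← e2]
        exact hψ c hc
      · have e := gs_conj_gh hG hi hr (-c)
        rw [he] at e
        have e1 := gs_conj_gh hG hi hr (-1 : F)
        rw [he] at e1
        simp only [Int.cast_neg, Int.cast_one, neg_mul, one_mul, neg_neg] at e e1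
        have e2 : gh hG F (C.w i r) c = (gs hG F i * gh hG F r (-c) * (gs hG F i)⁻¹) *
            (gs hG F i * gh hG F r (-1) * (gs hG F i)⁻¹)⁻¹ := by
          rw [e, e1]
          rw [show gn hG F (C.w i r) (1 : F) = (gn hG F (C.w i r) (-1 : F))⁻¹ from by rw [gn_inv, neg_neg]]
          unfold gh
          group
        rw [e2]
        exact Subgroup.mul_mem _ (hψ _ (neg_ne_zero.mpr hc)) (Subgroup.inv_mem _ (hψ _ (by simp)))
  exact key r hr c hc

/-- Multiplicativity of `h_r`. -/
theorem gh_mul {r : ℕ} (hr : r < D.nroots) {a b : F} (ha : a ≠ 0) (hb : b ≠ 0) :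
    gh hG F r a * gh hG F r b = gh hG F r (a * b) := by
  have key : ∀ r < D.nroots, ∀ a b : F, a ≠ 0 → b ≠ 0 → gh hG F r a * gh hG F r b = gh hG F r (a * b) := by
    apply hG.root_ind
    · intro i hi a b ha hb
      apply Units.ext
      show ((gh hG F (D.simple i) a : GL D.Idx F) : Matrix D.Idx D.Idx F) *
        ((gh hG F (D.simple i) b : GL D.Idx F) : Matrix D.Idx D.Idx F) = _
      rw [coe_gh_simple hG h2 hi ha, coe_gh_simple hG h2 hi hb, coe_gh_simple hG h2 hi (mul_ne_zero ha hb),
        Matrix.diagonal_mul_diagonal]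
      congr 1
      funext u
      rcases u with i' | s
      · simp [dmat]
      · show a ^ T.cart i s.val * b ^ T.cart i s.val = (a * b) ^ T.cart i s.val
        rw [mul_zpow]
    · intro i hi r hr h a b ha hb
      rcases C.eta_cases i r with he | he
      · have e : ∀ c : F, gs hG F i * gh hG F r c * (gs hG F i)⁻¹ = gh hG F (C.w i r) c := by
          intro c
          have e := gs_conj_gh hG hi hr c
          rw [he] at e
          rw [e]
          unfold gh
          simp
        rw [← e, ← e, ← e, ← h a b ha hb]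
        group
      · -- the sign is `-1`
        set q := C.w i r with hq
        set ψ : F → GL D.Idx F := fun c => gs hG F i * gh hG F r c * (gs hG F i)⁻¹ with hψdef
        have hψmul : ∀ a b : F, a ≠ 0 → b ≠ 0 → ψ a * ψ b = ψ (a * b) := by
          intro a b ha hb
          simp only [hψdef]
          rw [← h a b ha hb]
          group
        have hψ1 : ψ 1 = 1 := by
          simp only [hψdef]
          rw [gh_one]
          group
        have hform : ∀ c : F, gh hG F q (-c) * (gh hG F q (-1))⁻¹ = ψ c := by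
          intro c
          simp only [hψdef]
          have e := gs_conj_gh hG hi hr c
          rw [he] at e
          simp only [Int.cast_neg, Int.cast_one, neg_mul, one_mul, neg_neg] at e
          rw [e]
          rw [show gn hG F q (1 : F) = (gn hG F q (-1 : F))⁻¹ from by rw [gn_inv, neg_neg]]
          unfold gh
          group
          rfl
        set z := gh hG F q (-1 : F) with hz
        have hqm : ∀ c : F, gh hG F q c = ψ (-c) * z := by
          intro c
          rw [← hform (-c), neg_neg]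
          group
        have hψm1 : ψ (-1) = z⁻¹ := by
          rw [← hform (-1), neg_neg, gh_one, one_mul]
        have hz2 : z * z = 1 := by
          have h5 := hψmul (-1) (-1) (by simp) (by simp)
          rw [neg_mul_neg, one_mul, hψ1, hψm1] at h5
          have h6 : z⁻¹ * z⁻¹ * (z * z) = 1 := by group
          rw [h5, one_mul] at h6
          exact h6
        have hqlt : q < D.nroots := hG.w.lt i hi r hr
        have hzm : z ∈ Hs hG F := gh_mem hG h2 hqlt (by simp)
        have hψm : ∀ c : F, c ≠ 0 → ψ c ∈ Hs hG F := fun c hc => gs_conj_mem hG h2 hi (gh_mem hG h2 hr hc)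
        have hcomm := Hs_comm hG h2 hzm (hψm (-b) (neg_ne_zero.mpr hb))
        rw [hqm a, hqm b, hqm (a * b)]
        calc ψ (-a) * z * (ψ (-b) * z) = ψ (-a) * (z * ψ (-b)) * z := by group
          _ = ψ (-a) * (ψ (-b) * z) * z := by rw [hcomm]
          _ = (ψ (-a) * ψ (-b)) * (z * z) := by group
          _ = ψ (a * b) := by
            rw [hz2, mul_one, hψmul _ _ (neg_ne_zero.mpr ha) (neg_ne_zero.mpr hb), neg_mul_neg]
          _ = ψ (-(a * b)) * z := by
            have h5 := hψmul (a * b) (-1) (mul_ne_zero ha hb) (by simp)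
            rw [hψm1, mul_neg_one] at h5
            rw [← h5]
            group
  exact key r hr a b ha hb

/-- `n_i h_r(c) n_i⁻¹ = h_{w_i r}(c)`. -/
theorem gs_conj_gh_eq {i r : ℕ} (hi : i < D.rank) (hr : r < D.nroots) {c : F} (hc : c ≠ 0) :
    gs hG F i * gh hG F r c * (gs hG F i)⁻¹ = gh hG F (C.w i r) c := by
  have e := gs_conj_gh hG hi hr c
  rcases C.eta_cases i r with he | he
  · rw [he] at e
    rw [e]
    unfold gh
    simp
  · rw [he] at e
    simp only [Int.cast_neg, Int.cast_one, neg_mul, one_mul, neg_neg] at e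
    rw [e]
    have hq : C.w i r < D.nroots := hG.w.lt i hi r hr
    have h5 := gh_mul hG h2 hq (a := c) (b := -1) hc (by simp)
    rw [mul_neg_one] at h5
    rw [show gn hG F (C.w i r) (1 : F) = (gn hG F (C.w i r) (-1 : F))⁻¹ from by rw [gn_inv, neg_neg]]
    have h6 : gn hG F (C.w i r) (-c) * (gn hG F (C.w i r) (-1 : F))⁻¹ =
        gh hG F (C.w i r) (-c) * (gh hG F (C.w i r) (-1 : F))⁻¹ := by
      unfold gh
      group
    rw [h6, ← h5]
    group

end Cfsg.Agent.Lib.ChevSym
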