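import Cfsg.Agent.Lib.ChevHs

/-! The ordering of the roots: the additive key, positive and negative roots (helper4). -/

set_option autoImplicit false
set_option linter.all false

namespace Cfsg.Agent.Lib.ChevSym

open Cfsg.Lie Cfsg.Lie.ChevalleyDatum Matrix Cfsg.Agent.Lib.MatFilt

/-- The additive key of a root: a fixed linear combination of the Cartan integers. -/
noncomputable def Tab.key (T : Tab) (k : ℕ) : ℤ :=
  (List.rec (motive := fun _ => ℕ → ℤ) (fun _ => 0)
    (fun a _ ih l => a * T.cart l k + ih (Nat.succ l)) T.keyA) 0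

section checks

variable (D : ChevalleyDatum) (C : Cert) (T : Tab)

def iNonneg (c : ℤ) : Bool := match c with | Int.ofNat _ => true | Int.negSucc _ => false
def iNonpos (c : ℤ) : Bool := match c with | Int.ofNat m => Nat.beq m 0 | Int.negSucc _ => true
def iPos (c : ℤ) : Bool := match c with | Int.ofNat m => Nat.blt 0 m | Int.negSucc _ => false
def iNeg (c : ℤ) : Bool := match c with | Int.ofNat _ => false | Int.negSucc _ => true

noncomputable def ordCheck1 (r : ℕ) : Bool :=
  cond (Nat.beq (D.neg r) (Nat.sub (Nat.sub D.nroots 1) r))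
    (cond (Nat.ble (Nat.div D.nroots 2) r)
      (cond (allL iNonneg (D.coroot.getD r #[]).toList)
        (cond (anyL iPos (D.coroot.getD r #[]).toList) (iPos (T.key r)) false) false)
      (cond (allL iNonpos (D.coroot.getD r #[]).toList)
        (cond (anyL iNeg (D.coroot.getD r #[]).toList) (iNeg (T.key r)) false) false)) false

noncomputable def ordCheck2 (k : ℕ) : Bool := iPos (T.key (Nat.succ k) - T.key k)

/-- The reflection in `p_i` permutes the positive roots other than `p_i`. -/
noncomputable def wPosCheck (i r : ℕ) : Bool :=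
  cond (Nat.beq r (D.simple i)) true (Nat.ble (Nat.div D.nroots 2) (C.w i r))

noncomputable def ordCheck : Bool :=
  cond (Nat.beq (Nat.mod D.nroots 2) 0)
  (cond (Nat.beq (T.keyA.length) D.rank)
  (cond (allL (ordCheck1 D T) (List.range D.nroots))
    (cond (allL (ordCheck2 T) (List.range (Nat.sub D.nroots 1)))
      (allL (fun i => cond (Nat.ble (Nat.div D.nroots 2) (D.simple i))
        (allL (fun r => wPosCheck D C i (Nat.add (Nat.div D.nroots 2) r)) (List.range (Nat.div D.nroots 2))) false)
        (List.range D.rank)) false) false) false) false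

end checks

/-- Facts on the order of the roots. -/
structure Good3 (D : ChevalleyDatum) (C : Cert) (T : Tab) : Prop where
  even : D.nroots % 2 = 0
  keyLen : T.keyA.length = D.rank
  negEq : ∀ r < D.nroots, D.neg r = D.nroots - 1 - r
  posIff : ∀ r < D.nroots, (D.IsPosRoot r ↔ D.nroots / 2 ≤ r)
  negIff : ∀ r < D.nroots, (D.IsNegRoot r ↔ r < D.nroots / 2)
  keyPos : ∀ r < D.nroots, D.nroots / 2 ≤ r → 0 < T.key r
  keyNeg : ∀ r < D.nroots, r < D.nroots / 2 → T.key r < 0
  keyMono : ∀ k, k + 1 < D.nroots → T.key k < T.key (k + 1)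
  simplePos : ∀ i < D.rank, D.nroots / 2 ≤ D.simple i
  wPos : ∀ i < D.rank, ∀ r < D.nroots, D.nroots / 2 ≤ r → r ≠ D.simple i → D.nroots / 2 ≤ C.w i r

variable {F : Type*} [Field F] {D : ChevalleyDatum} {C : Cert} {T : Tab}

theorem iNonneg_spec {c : ℤ} (h : iNonneg c = true) : 0 ≤ c := by
  cases c with
  | ofNat m => exact Int.natCast_nonneg m
  | negSucc m => simp [iNonneg] at h

theorem iNonpos_spec {c : ℤ} (h : iNonpos c = true) : c ≤ 0 := by
  cases c with
  | ofNat m =>
    have : m = 0 := Nat.eq_of_beq_eq_true h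
    subst this; rfl
  | negSucc m => exact le_of_lt (Int.negSucc_lt_zero m)

theorem iPos_spec {c : ℤ} (h : iPos c = true) : 0 < c := by
  cases c with
  | ofNat m =>
    have : 0 < m := Nat.le_of_ble_eq_true h
    exact Int.ofNat_lt.mpr this
  | negSucc m => simp [iPos] at h

theorem iNeg_spec {c : ℤ} (h : iNeg c = true) : c < 0 := by
  cases c with
  | ofNat m => simp [iNeg] at h
  | negSucc m => exact Int.negSucc_lt_zero m

theorem good3_of (h : ordCheck D C T = true) : Good3 D C T := by
  unfold ordCheck at h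
  cases e1 : Nat.beq (Nat.mod D.nroots 2) 0
  · rw [e1] at h; exact absurd h (by simp)
  rw [e1] at h
  simp only [cond_true] at h
  cases e1' : Nat.beq (T.keyA.length) D.rank
  · rw [e1'] at h; exact absurd h (by simp)
  rw [e1'] at h
  simp only [cond_true] at h
  cases e2 : allL (ordCheck1 D T) (List.range D.nroots)
  · rw [e2] at h; exact absurd h (by simp)
  rw [e2] at h
  simp only [cond_true] at h
  cases e3 : allL (ordCheck2 T) (List.range (Nat.sub D.nroots 1))
  · rw [e3] at h; exact absurd h (by simp)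
  rw [e3] at h
  simp only [cond_true] at h
  have hodd : D.nroots % 2 = 0 := Nat.eq_of_beq_eq_true e1
  have k1 : ∀ r < D.nroots, ordCheck1 D T r = true := fun r hr => (allL_iff _ _).mp e2 r (List.mem_range.mpr hr)
  have k2 : ∀ r < D.nroots, D.neg r = D.nroots - 1 - r := by
    intro r hr
    have h1 := k1 r hr
    unfold ordCheck1 at h1
    cases e : Nat.beq (D.neg r) (Nat.sub (Nat.sub D.nroots 1) r)
    · rw [e] at h1; exact absurd h1 (by simp)
    · exact Nat.eq_of_beq_eq_true e
  have k3 : ∀ r < D.nroots, D.nroots / 2 ≤ r →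
      (∀ c ∈ (D.coroot.getD r #[]).toList, 0 ≤ c) ∧ (∃ c ∈ (D.coroot.getD r #[]).toList, 0 < c) ∧ 0 < T.key r := by
    intro r hr hN
    have h1 := k1 r hr
    unfold ordCheck1 at h1
    rw [beq_true' (show D.neg r = Nat.sub (Nat.sub D.nroots 1) r from k2 r hr), cond_true, ble_true' (show Nat.div D.nroots 2 ≤ r from hN), cond_true] at h1
    cases e : allL iNonneg (D.coroot.getD r #[]).toList
    · rw [e] at h1; exact absurd h1 (by simp)
    rw [e] at h1
    simp only [cond_true] at h1
    cases e' : anyL iPos (D.coroot.getD r #[]).toList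
    · rw [e'] at h1; exact absurd h1 (by simp)
    rw [e'] at h1
    simp only [cond_true] at h1
    refine ⟨fun c hc => iNonneg_spec ((allL_iff _ _).mp e c hc), ?_, iPos_spec h1⟩
    obtain ⟨c, hc, hc2⟩ := (anyL_iff _ _).mp e'
    exact ⟨c, hc, iPos_spec hc2⟩
  have k4 : ∀ r < D.nroots, r < D.nroots / 2 →
      (∀ c ∈ (D.coroot.getD r #[]).toList, c ≤ 0) ∧ (∃ c ∈ (D.coroot.getD r #[]).toList, c < 0) ∧ T.key r < 0 := by
    intro r hr hN
    have h1 := k1 r hr
    unfold ordCheck1 at h1
    rw [beq_true' (show D.neg r = Nat.sub (Nat.sub D.nroots 1) r from k2 r hr), cond_true, ble_false' (show ¬ (Nat.div D.nroots 2 ≤ r) from not_le.mpr hN), cond_false] at h1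
    cases e : allL iNonpos (D.coroot.getD r #[]).toList
    · rw [e] at h1; exact absurd h1 (by simp)
    rw [e] at h1
    simp only [cond_true] at h1
    cases e' : anyL iNeg (D.coroot.getD r #[]).toList
    · rw [e'] at h1; exact absurd h1 (by simp)
    rw [e'] at h1
    simp only [cond_true] at h1
    refine ⟨fun c hc => iNonpos_spec ((allL_iff _ _).mp e c hc), ?_, iNeg_spec h1⟩
    obtain ⟨c, hc, hc2⟩ := (anyL_iff _ _).mp e'
    exact ⟨c, hc, iNeg_spec hc2⟩
  have k5 : ∀ i < D.rank, D.nroots / 2 ≤ D.simple i ∧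
      ∀ r < D.nroots / 2, wPosCheck D C i (D.nroots / 2 + r) = true := by
    intro i hi
    have h1 := (allL_iff _ _).mp h i (List.mem_range.mpr hi)
    cases e : Nat.ble (Nat.div D.nroots 2) (D.simple i)
    · rw [e] at h1; exact absurd h1 (by simp)
    rw [e] at h1
    simp only [cond_true] at h1
    exact ⟨Nat.le_of_ble_eq_true e, fun r hr => (allL_iff _ _).mp h1 r (List.mem_range.mpr hr)⟩
  refine ⟨hodd, Nat.eq_of_beq_eq_true e1', k2, ?_, ?_, ?_, ?_, ?_, ?_, ?_⟩
  · intro r hr
    constructor
    · rintro ⟨_, h2⟩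
      by_contra hN
      obtain ⟨c, hc, hc2⟩ := (k4 r hr (not_le.mp hN)).2.1
      have := h2 c hc
      omega
    · intro hN
      exact ⟨hr, (k3 r hr hN).1⟩
  · intro r hr
    constructor
    · rintro ⟨_, h2⟩
      by_contra hN
      obtain ⟨c, hc, hc2⟩ := (k3 r hr (not_lt.mp hN)).2.1
      have := h2 c hc
      omega
    · intro hN
      exact ⟨hr, (k4 r hr hN).1⟩
  · exact fun r hr hN => (k3 r hr hN).2.2
  · exact fun r hr hN => (k4 r hr hN).2.2
  · intro k hk
    have h1 := (allL_iff _ _).mp e3 k (List.mem_range.mpr (show k < D.nroots - 1 by omega))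
    have h2 := iPos_spec h1
    show T.key k < T.key (Nat.succ k)
    omega
  · exact fun i hi => (k5 i hi).1
  · intro i hi r hr hN hne
    have hr' : r - D.nroots / 2 < D.nroots / 2 := by omega
    have h1 := (k5 i hi).2 _ hr'
    have e4 : D.nroots / 2 + (r - D.nroots / 2) = r := by omega
    rw [e4] at h1
    unfold wPosCheck at h1
    rw [beq_false' hne, cond_false] at h1
    exact Nat.le_of_ble_eq_true h1

section more

variable (D C T)

/-- The table of reflections is the prelude's `reflectRoot`. -/
noncomputable def reflCheck : Bool :=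
  allL (fun i => allL (fun s => Nat.beq (C.w i s) (D.reflectRoot i s)) (List.range D.nroots)) (List.range D.rank)

/-- Relations among the signs. -/
noncomputable def etaCheck : Bool :=
  allL (fun i => cond (iBeq (C.eta i (D.simple i)) (-1))
    (allL (fun s => iBeq (C.eta i s * C.eta i (C.w i s)) (cond (Nat.beq (Nat.mod (T.cart i s).natAbs 2) 0) 1 (-1)))
      (List.range D.nroots)) false) (List.range D.rank)

/-- More facts on the tables. -/
structure Good4 : Prop where
  refl : reflCheck D C = true
  eta : etaCheck D C T = true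

end more

/-- All the table facts. -/
structure AllGood (D : ChevalleyDatum) (C : Cert) (T : Tab) : Prop where
  g1 : Good D C
  g2 : Good2 D C T
  g3 : Good3 D C T
  g4 : Good4 D C T

theorem Good4.refl_eq (h : Good4 D C T) {i s : ℕ} (hi : i < D.rank) (hs : s < D.nroots) : D.reflectRoot i s = C.w i s :=
  (Nat.eq_of_beq_eq_true ((allL_iff _ _).mp ((allL_iff _ _).mp h.refl i (List.mem_range.mpr hi)) s
    (List.mem_range.mpr hs))).symm

theorem Good4.eta_simple (h : Good4 D C T) {i : ℕ} (hi : i < D.rank) : C.eta i (D.simple i) = -1 := by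
  have h1 := (allL_iff _ _).mp h.eta i (List.mem_range.mpr hi)
  cases e : iBeq (C.eta i (D.simple i)) (-1)
  · rw [e] at h1; exact absurd h1 (by simp)
  · exact iBeq_eq e

theorem Good4.eta_mul (h : Good4 D C T) {i s : ℕ} (hi : i < D.rank) (hs : s < D.nroots) :
    C.eta i s * C.eta i (C.w i s) = (-1) ^ (T.cart i s).natAbs := by
  have h1 := (allL_iff _ _).mp h.eta i (List.mem_range.mpr hi)
  cases e : iBeq (C.eta i (D.simple i)) (-1)
  · rw [e] at h1; exact absurd h1 (by simp)
  rw [e] at h1
  simp only [cond_true] at h1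
  have h3 := iBeq_eq ((allL_iff _ _).mp h1 s (List.mem_range.mpr hs))
  rw [h3]
  rcases Nat.even_or_odd (T.cart i s).natAbs with h4 | h4
  · rw [beq_true' (show Nat.mod (T.cart i s).natAbs 2 = 0 from Nat.even_iff.mp h4), cond_true, h4.neg_one_pow]
  · rw [beq_false' (show ¬ Nat.mod (T.cart i s).natAbs 2 = 0 by
      have := Nat.odd_iff.mp h4
      show ¬ (T.cart i s).natAbs % 2 = 0
      omega), cond_false, h4.neg_one_pow]

end Cfsg.Agent.Lib.ChevSym
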