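import Cfsg.Agent.Lib.ChevCanon

/-! Parabolic subgroups: the functionals measuring the coefficient at a simple root; the Levi decomposition (helper4). -/

set_option autoImplicit false
set_option linter.all false

namespace Cfsg.Agent.Lib.ChevSym

open Cfsg.Lie Cfsg.Lie.ChevalleyDatum Matrix Cfsg.Agent.Lib.MatFilt

variable {F : Type*} [Field F] {D : ChevalleyDatum} {C : Cert} {T : Tab}

/-- For each simple root a row of integers: a multiple of a fundamental coweight. -/
structure Tab8 where
  rows : List (List ℤ)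

def Tab8.row (X : Tab8) (m : ℕ) : List ℤ := X.rows.getD m []

noncomputable def phi (T : Tab) (X : Tab8) (m k : ℕ) : ℤ := keyAux T (X.row m) 0 k

section checks

variable (D : ChevalleyDatum) (T : Tab) (X : Tab8)

def signCheck (c a : ℤ) : Bool := cond (iPos c) (iPos a) (cond (iNeg c) (iNeg a) (iBeq a 0))

noncomputable def parCheck1 (m : ℕ) : Bool :=
  cond (Nat.ble (X.row m).length D.rank)
    (cond (allL (fun r => signCheck ((D.coroot.getD r #[]).getD m 0) (phi T X m r)) (List.range D.nroots))
      (cond (iPos ((D.coroot.getD (D.simple m) #[]).getD m 0))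
        (allL (fun j => cond (Nat.beq j m) true (iBeq (phi T X m (D.simple j)) 0)) (List.range D.rank))
        false) false) false

noncomputable def descCheck1 (r : ℕ) : Bool :=
  cond (anyL (fun j => Nat.beq r (D.simple j)) (List.range D.rank)) true
    (anyL (fun j => cond (iPos ((D.coroot.getD r #[]).getD j 0)) (iPos (T.cart j r)) false) (List.range D.rank))

noncomputable def parCheck : Bool :=
  cond (allL (parCheck1 D T X) (List.range D.rank))
    (allL (fun r => descCheck1 D T (Nat.add (Nat.div D.nroots 2) r)) (List.range (Nat.div D.nroots 2))) false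

end checks

variable {X : Tab8}

/-- The facts checked on the functionals. -/
structure Good8 (D : ChevalleyDatum) (T : Tab) (X : Tab8) : Prop where
  len : ∀ m < D.rank, (X.row m).length ≤ D.rank
  sign : ∀ m < D.rank, ∀ r < D.nroots,
    (0 < (D.coroot.getD r #[]).getD m 0 → 0 < phi T X m r) ∧
    ((D.coroot.getD r #[]).getD m 0 < 0 → phi T X m r < 0) ∧
    ((D.coroot.getD r #[]).getD m 0 = 0 → phi T X m r = 0)
  simplePos : ∀ m < D.rank, 0 < (D.coroot.getD (D.simple m) #[]).getD m 0
  phiSimple : ∀ m < D.rank, ∀ j < D.rank, j ≠ m → phi T X m (D.simple j) = 0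
  desc : ∀ r < D.nroots, D.nroots / 2 ≤ r → (∃ j < D.rank, r = D.simple j) ∨
    ∃ j < D.rank, 0 < (D.coroot.getD r #[]).getD j 0 ∧ 0 < T.cart j r

theorem good8_of (h0 : D.nroots % 2 = 0) (h : parCheck D T X = true) : Good8 D T X := by
  unfold parCheck at h
  cases e1 : allL (parCheck1 D T X) (List.range D.rank)
  · rw [e1] at h; exact absurd h (by simp)
  rw [e1, cond_true] at h
  have k1 : ∀ m < D.rank, parCheck1 D T X m = true := fun m hm => (allL_iff _ _).mp e1 m (List.mem_range.mpr hm)
  have k2 : ∀ m < D.rank, Nat.ble (X.row m).length D.rank = true ∧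
      allL (fun r => signCheck ((D.coroot.getD r #[]).getD m 0) (phi T X m r)) (List.range D.nroots) = true ∧
      iPos ((D.coroot.getD (D.simple m) #[]).getD m 0) = true ∧
      allL (fun j => cond (Nat.beq j m) true (iBeq (phi T X m (D.simple j)) 0)) (List.range D.rank) = true := by
    intro m hm
    have h1 := k1 m hm
    unfold parCheck1 at h1
    revert h1
    cases Nat.ble (X.row m).length D.rank <;> cases allL (fun r => signCheck ((D.coroot.getD r #[]).getD m 0) (phi T X m r)) (List.range D.nroots) <;>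
      cases iPos ((D.coroot.getD (D.simple m) #[]).getD m 0) <;> simp
  refine ⟨fun m hm => Nat.le_of_ble_eq_true (k2 m hm).1, ?_, fun m hm => iPos_spec (k2 m hm).2.2.1, ?_, ?_⟩
  · intro m hm r hr
    have h1 := (allL_iff _ _).mp (k2 m hm).2.1 r (List.mem_range.mpr hr)
    revert h1
    generalize (D.coroot.getD r #[]).getD m 0 = c
    generalize phi T X m r = a
    intro h1
    unfold signCheck at h1
    cases e2 : iPos c
    · rw [e2, cond_false] at h1
      cases e3 : iNeg c
      · rw [e3, cond_false] at h1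
        have h5 : ¬ 0 < c := fun h6 => by
          cases c with
          | ofNat n =>
            have h8 : Nat.blt 0 n = false := e2
            have h7 : 0 < n := Int.ofNat_lt.mp h6
            have h9 : Nat.blt 0 n = true := Nat.ble_eq_true_of_le h7
            rw [h8] at h9
            exact absurd h9 (by simp)
          | negSucc n => exact absurd h6 (by simp)
        have h6 : ¬ c < 0 := fun h6 => by
          cases c with
          | ofNat n => exact absurd h6 (by simp)
          | negSucc n => simp [iNeg] at e3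
        refine ⟨fun h7 => absurd h7 h5, fun h7 => absurd h7 h6, fun _ => iBeq_eq h1⟩
      · rw [e3, cond_true] at h1
        have h6 := iNeg_spec e3
        exact ⟨fun h7 => by omega, fun _ => iNeg_spec h1, fun h7 => by omega⟩
    · rw [e2, cond_true] at h1
      have h6 := iPos_spec e2
      exact ⟨fun _ => iPos_spec h1, fun h7 => by omega, fun h7 => by omega⟩
  · intro m hm j hj hne
    have h1 := (allL_iff _ _).mp (k2 m hm).2.2.2 j (List.mem_range.mpr hj)
    cases e2 : Nat.beq j m
    · rw [e2, cond_false] at h1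
      exact iBeq_eq h1
    · exact absurd (Nat.eq_of_beq_eq_true e2) hne
  · intro r hr hN
    have hmem : r - D.nroots / 2 < D.nroots / 2 := by omega
    have h1 := (allL_iff _ _).mp h (r - D.nroots / 2) (List.mem_range.mpr hmem)
    have e3 : Nat.add (Nat.div D.nroots 2) (r - D.nroots / 2) = r := by
      show D.nroots / 2 + (r - D.nroots / 2) = r
      omega
    rw [e3] at h1
    unfold descCheck1 at h1
    cases e2 : anyL (fun j => Nat.beq r (D.simple j)) (List.range D.rank)
    · rw [e2, cond_false] at h1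
      right
      obtain ⟨j, hj, h3⟩ := (anyL_iff _ _).mp h1
      refine ⟨j, List.mem_range.mp hj, ?_⟩
      cases e4 : iPos ((D.coroot.getD r #[]).getD j 0)
      · rw [e4] at h3; exact absurd h3 (by simp)
      · rw [e4, cond_true] at h3
        exact ⟨iPos_spec e4, iPos_spec h3⟩
    · left
      obtain ⟨j, hj, h3⟩ := (anyL_iff _ _).mp e2
      exact ⟨j, List.mem_range.mp hj, Nat.eq_of_beq_eq_true h3⟩

/-- The sum of functionals. -/
noncomputable def kapL (T : Tab) (X : Tab8) (L : List ℕ) (k : ℕ) : ℤ := (L.map fun m => phi T X m k).sum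

theorem kapL_nil (k : ℕ) : kapL T X [] k = 0 := rfl
theorem kapL_cons (m : ℕ) (L : List ℕ) (k : ℕ) : kapL T X (m :: L) k = phi T X m k + kapL T X L k := by
  simp [kapL]

theorem kapL_nonneg {X : Tab8} {L : List ℕ} {k : ℕ} (h : ∀ m ∈ L, 0 ≤ phi T X m k) : 0 ≤ kapL T X L k := by
  induction L with
  | nil => simp [kapL_nil]
  | cons m L ih =>
    rw [kapL_cons]
    have h1 := h m (by simp)
    have h2 := ih fun n hn => h n (by simp [hn])
    omega

theorem kapL_pos {X : Tab8} {L : List ℕ} {k i : ℕ} (h : ∀ m ∈ L, 0 ≤ phi T X m k) (hi : i ∈ L) (hp : 0 < phi T X i k) :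
    0 < kapL T X L k := by
  induction L with
  | nil => simp at hi
  | cons m L ih =>
    rw [kapL_cons]
    have h1 := h m (by simp)
    rcases List.mem_cons.mp hi with rfl | hi
    · have h2 := kapL_nonneg (T := T) (X := X) (L := L) (k := k) (fun n hn => h n (by simp [hn]))
      omega
    · have h2 := ih (fun n hn => h n (by simp [hn])) hi
      omega

open Classical in
/-- The complement of `J` in the simple roots. -/
noncomputable def Jc (D : ChevalleyDatum) (J : Set ℕ) : List ℕ := (List.range D.rank).filter fun m => m ∉ J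

theorem mem_Jc {J : Set ℕ} {m : ℕ} : m ∈ Jc D J ↔ m < D.rank ∧ m ∉ J := by
  classical
  simp [Jc]

theorem getD_zero_or (a : Array ℤ) (m : ℕ) : a.getD m 0 = 0 ∨ a.getD m 0 ∈ a.toList := by
  by_cases hm : m < a.size
  · right
    rw [Array.getD_eq_getD_getElem?, Array.getElem?_eq_getElem hm]
    simp only [Option.getD_some]
    exact Array.getElem_mem_toList hm
  · left
    rw [Array.getD_eq_getD_getElem?, Array.getElem?_eq_none (by omega)]
    simp

section

variable (A : AllGood D C T) (B8 : Good8 D T X)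
include A B8

theorem phi_grade {m : ℕ} (hm : m < D.rank) : GradeOK D (phi T X m) :=
  keyAux_grade A.g2 (X.row m) 0 (by have := B8.len m hm; omega)

theorem kapL_grade {L : List ℕ} (hL : ∀ m ∈ L, m < D.rank) : GradeOK D (kapL T X L) := by
  induction L with
  | nil =>
    refine ⟨fun r _ => ?_, fun r _ e _ q _ => ?_⟩
    · simp [kapL_nil]
    · simp [kapL_nil]
  | cons m L ih =>
    have h1 := phi_grade A B8 (hL m (by simp))
    have h2 := ih fun n hn => hL n (by simp [hn])
    refine ⟨fun r hr => ?_, fun r hr e he q hq => ?_⟩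
    · rw [kapL_cons, kapL_cons, h1.neg r hr, h2.neg r hr]
      ring
    · rw [kapL_cons, kapL_cons, kapL_cons, h1.chain r hr e he q hq, h2.chain r hr e he q hq]
      ring

theorem phi_rootSum {m r s k : ℕ} (hm : m < D.rank) {a b : ℕ} (h : ∀ l < D.rank, T.cart l k = a * T.cart l r + b * T.cart l s) :
    phi T X m k = a * phi T X m r + b * phi T X m s :=
  keyAux_rootSum h (X.row m) 0 (by have := B8.len m hm; omega)

theorem kapL_rootSum {L : List ℕ} (hL : ∀ m ∈ L, m < D.rank) {r s k : ℕ} {a b : ℕ}
    (h : ∀ l < D.rank, T.cart l k = a * T.cart l r + b * T.cart l s) :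
    kapL T X L k = a * kapL T X L r + b * kapL T X L s := by
  induction L with
  | nil => simp [kapL_nil]
  | cons m L ih =>
    rw [kapL_cons, kapL_cons, kapL_cons, phi_rootSum A B8 (hL m (by simp)) h, ih fun n hn => hL n (by simp [hn])]
    ring

theorem phi_w {m i s : ℕ} (hm : m < D.rank) (hi : i < D.rank) (hs : s < D.nroots) :
    phi T X m (C.w i s) = phi T X m s - T.cart i s * phi T X m (D.simple i) :=
  keyAux_w A.g2 hi hs (X.row m) 0 (by have := B8.len m hm; omega)

omit B8 in
theorem coroot_nonneg {r m : ℕ} (hr : D.IsPosRoot r) : 0 ≤ (D.coroot.getD r #[]).getD m 0 := by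
  rcases getD_zero_or (D.coroot.getD r #[]) m with h | h
  · rw [h]
  · exact hr.2 _ h

omit B8 in
theorem coroot_nonpos {r m : ℕ} (hr : D.IsNegRoot r) : (D.coroot.getD r #[]).getD m 0 ≤ 0 := by
  rcases getD_zero_or (D.coroot.getD r #[]) m with h | h
  · rw [h]
  · exact hr.2 _ h

theorem phi_nonneg {r m : ℕ} (hm : m < D.rank) (hr : D.IsPosRoot r) : 0 ≤ phi T X m r := by
  obtain ⟨h1, _, h3⟩ := B8.sign m hm r hr.1
  have h4 := coroot_nonneg (m := m) A hr
  rcases h4.lt_or_eq with h5 | h5
  · exact le_of_lt (h1 h5)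
  · rw [h3 h5.symm]

theorem inRootSub_iff {J : Set ℕ} {r : ℕ} (hr : r < D.nroots) :
    D.InRootSub J r ↔ ∀ m < D.rank, m ∉ J → phi T X m r = 0 := by
  constructor
  · rintro ⟨_, h⟩ m hm hJ
    exact (B8.sign m hm r hr).2.2 (h m hm hJ)
  · intro h
    refine ⟨hr, fun m hm hJ => ?_⟩
    have h1 := h m hm hJ
    obtain ⟨h3, h4, _⟩ := B8.sign m hm r hr
    by_contra h5
    rcases lt_or_gt_of_ne h5 with h6 | h6
    · have := h4 h6
      omega
    · have := h3 h6
      omega

theorem inRootSub_neg {J : Set ℕ} {r : ℕ} (hr : r < D.nroots) (h : D.InRootSub J r) : D.InRootSub J (D.neg r) := by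
  have hn := A.g1.neg.lt r hr
  rw [inRootSub_iff A B8 hn]
  intro m hm hJ
  rw [(phi_grade A B8 hm).neg r hr, (inRootSub_iff A B8 hr).mp h m hm hJ]
  rfl

theorem inRootSub_simple {J : Set ℕ} {j : ℕ} (hj : j < D.rank) (hJ : j ∈ J) : D.InRootSub J (D.simple j) := by
  have hs := A.g1.simple_lt hj
  rw [inRootSub_iff A B8 hs]
  intro m hm hmJ
  exact B8.phiSimple m hm j hj (fun h => hmJ (h ▸ hJ))

theorem inRootSub_w {J : Set ℕ} {j r : ℕ} (hj : j < D.rank) (hJ : j ∈ J) (hr : r < D.nroots) (h : D.InRootSub J r) :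
    D.InRootSub J (C.w j r) := by
  have hn := A.g1.w.lt j hj r hr
  rw [inRootSub_iff A B8 hn]
  intro m hm hmJ
  rw [phi_w A B8 hm hj hr, (inRootSub_iff A B8 hr).mp h m hm hmJ, B8.phiSimple m hm j hj (fun h => hmJ (h ▸ hJ))]
  ring

theorem kapJ_grade (J : Set ℕ) : GradeOK D (kapL T X (Jc D J)) :=
  kapL_grade A B8 fun _ hm => (mem_Jc.mp hm).1

theorem kapJ_zero {J : Set ℕ} {r : ℕ} (h : D.InRootSub J r) : kapL T X (Jc D J) r = 0 := by
  have h1 := (inRootSub_iff A B8 h.1).mp h
  have : ∀ L : List ℕ, (∀ m ∈ L, m ∈ Jc D J) → kapL T X L r = 0 := by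
    intro L
    induction L with
    | nil => simp [kapL_nil]
    | cons m L ih =>
      intro hL
      rw [kapL_cons, ih fun n hn => hL n (by simp [hn])]
      obtain ⟨h3, h4⟩ := mem_Jc.mp (hL m (by simp))
      rw [h1 m h3 h4]
      rfl
  exact this _ fun _ h => h

theorem kapJ_pos {J : Set ℕ} {r : ℕ} (hr : D.IsPosRoot r) (h : ¬ D.InRootSub J r) : 0 < kapL T X (Jc D J) r := by
  rw [inRootSub_iff A B8 hr.1] at h
  push_neg at h
  obtain ⟨m, hm, hJ, h3⟩ := h
  apply kapL_pos (i := m)
  · intro n hn
    exact phi_nonneg A B8 (mem_Jc.mp hn).1 hr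
  · exact mem_Jc.mpr ⟨hm, hJ⟩
  · exact lt_of_le_of_ne (phi_nonneg A B8 hm hr) (Ne.symm h3)

theorem kapJ_nonneg {J : Set ℕ} {r : ℕ} (hr : D.IsPosRoot r) : 0 ≤ kapL T X (Jc D J) r :=
  kapL_nonneg fun n hn => phi_nonneg A B8 (mem_Jc.mp hn).1 hr

theorem kapJ_neg {J : Set ℕ} {r : ℕ} (hr : D.IsNegRoot r) (h : ¬ D.InRootSub J r) : kapL T X (Jc D J) r < 0 := by
  have hn := A.g1.neg.lt r hr.1
  have hev := A.g3.even
  have hpos : D.IsPosRoot (D.neg r) := by
    refine (A.g3.posIff _ hn).mpr ?_
    rw [A.g3.negEq r hr.1]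
    have := (A.g3.negIff r hr.1).mp hr
    omega
  have h1 : ¬ D.InRootSub J (D.neg r) := by
    intro h3
    apply h
    have h4 := inRootSub_neg A B8 hn h3
    rwa [A.g1.neg.invol r hr.1] at h4
  have h2 := kapJ_pos A B8 hpos h1
  rw [(kapJ_grade A B8 J).neg r hr.1] at h2
  omega

/-- A root is one of three kinds. -/
theorem root_trichotomy {r : ℕ} (hr : r < D.nroots) : D.IsPosRoot r ∨ D.IsNegRoot r := by
  by_cases h : r < D.nroots / 2
  · exact Or.inr ((A.g3.negIff r hr).mpr h)
  · exact Or.inl ((A.g3.posIff r hr).mpr (not_lt.mp h))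

omit B8 in
/-- Root elements move by the reflection, if they lie in a group containing `n_i`. -/
theorem gx_w_mem {P : Subgroup (GL D.Idx F)} {i s : ℕ} (hi : i < D.rank) (hs : s < D.nroots) (hP : gs A.g1 F i ∈ P)
    (h : ∀ u : F, gx A.g1 F s u ∈ P) (t : F) : gx A.g1 F (C.w i s) t ∈ P := by
  have h1 := gs_conj_gx A.g1 (F := F) hi hs ((C.eta i s : F) * t)
  rw [← mul_assoc, eta_sq A.g1, one_mul] at h1
  rw [← h1]
  exact Subgroup.mul_mem _ (Subgroup.mul_mem _ hP (h _)) (Subgroup.inv_mem _ hP)

/-- Root elements of `Φ_J` are in `P_J`. -/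
theorem x_neg_mem_parabolic {J : Set ℕ} : ∀ (n s : ℕ), s < n → s < D.nroots → D.nroots / 2 ≤ s → D.InRootSub J s →
    ∀ t : F, gx A.g1 F (D.neg s) t ∈ D.parabolicSubgroup F J := by
  have hG := A.g1
  have hgs : ∀ j, j < D.rank → j ∈ J → gs hG F j ∈ D.parabolicSubgroup F J := by
    intro j hj hJ
    exact Subgroup.mem_sup_right (Subgroup.subset_closure ⟨j, hJ, hj, coe_gn hG _ _⟩)
  have hpos : ∀ s t, D.IsPosRoot s → gx hG F s t ∈ D.parabolicSubgroup F J := by
    intro s t hs
    exact Subgroup.mem_sup_left (U_le_B A (Subgroup.subset_closure ⟨s, t, hs, rfl⟩))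
  intro n
  induction n with
  | zero => intro s hs; omega
  | succ n ih =>
    intro s hsn hs hN hsJ t
    by_cases hsimp : ∃ j < D.rank, s = D.simple j
    · obtain ⟨j, hj, rfl⟩ := hsimp
      have hJ : j ∈ J := by
        by_contra h
        have := hsJ.2 j hj h
        have h2 := B8.simplePos j hj
        omega
      have e : D.neg (D.simple j) = C.w j (D.simple j) := (hG.w_simple hj).symm
      rw [e]
      exact gx_w_mem A hj hs (hgs j hj hJ) (fun u => hpos _ u ((A.g3.posIff _ hs).mpr hN)) t
    · rcases B8.desc s hs hN with h | ⟨j, hj, h1, h3⟩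
      · exact absurd h hsimp
      · have hJ : j ∈ J := by
          by_contra h
          have := hsJ.2 j hj h
          omega
        have hne : s ≠ D.simple j := fun h => hsimp ⟨j, hj, h⟩
        have hs' := hG.w.lt j hj s hs
        have hN' := A.g3.wPos j hj s hs hN hne
        have hlt : C.w j s < s := by
          rw [← key_lt_iff A hs' hs, key_w A hj hs]
          have := key_simple_pos A hj
          nlinarith
        have hJ' := inRootSub_w A B8 hj hJ hs hsJ
        have h5 := ih (C.w j s) (by omega) hs' hN' hJ'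
        have e : D.neg s = C.w j (D.neg (C.w j s)) := by
          rw [hG.w.neg j hj _ hs', hG.w.invol j hj s hs]
        rw [e]
        exact gx_w_mem A hj (hG.neg.lt _ hs') (hgs j hj hJ) h5 t

/-- `P_J = ⟨H, X_r : r ∈ Φ⁺ ∪ Φ_J⟩`. -/
theorem core1047 (J : Set ℕ) :
    D.parabolicSubgroup F J = D.diagonalSubgroup F ⊔
      Subgroup.closure {g : GL D.Idx F | ∃ (r : ℕ) (t : F), (D.IsPosRoot r ∨ D.InRootSub J r) ∧ (g : Matrix D.Idx D.Idx F) = D.x F r t} := by
  have hG := A.g1
  have hev := A.g3.even
  apply le_antisymm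
  · apply sup_le
    · apply sup_le
      · rw [posUnipotent, Subgroup.closure_le]
        rintro g ⟨r, t, hr, h⟩
        exact Subgroup.mem_sup_right (Subgroup.subset_closure ⟨r, t, Or.inl hr, h⟩)
      · exact le_sup_left
    · rw [Subgroup.closure_le]
      rintro g ⟨j, hJ, hj, h⟩
      rw [SetLike.mem_coe, eq_gn hG h]
      apply Subgroup.mem_sup_right
      have hs := hG.simple_lt hj
      have hpos : D.IsPosRoot (D.simple j) := (A.g3.posIff _ hs).mpr (A.g3.simplePos j hj)
      have hS := inRootSub_simple A B8 hj hJ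
      have hn := inRootSub_neg A B8 hs hS
      unfold gn
      refine Subgroup.mul_mem _ (Subgroup.mul_mem _ ?_ ?_) ?_
      · exact Subgroup.subset_closure ⟨_, _, Or.inl hpos, rfl⟩
      · exact Subgroup.subset_closure ⟨_, _, Or.inr hn, rfl⟩
      · exact Subgroup.subset_closure ⟨_, _, Or.inl hpos, rfl⟩
  · apply sup_le
    · exact (H_le_B A).trans le_sup_left
    · rw [Subgroup.closure_le]
      rintro g ⟨r, t, hr, h⟩
      rw [SetLike.mem_coe, eq_gx hG h]
      rcases hr with hr | hr
      · exact Subgroup.mem_sup_left (U_le_B A (Subgroup.subset_closure ⟨r, t, hr, rfl⟩))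
      · rcases root_trichotomy A B8 hr.1 with hp | hp
        · exact Subgroup.mem_sup_left (U_le_B A (Subgroup.subset_closure ⟨r, t, hp, rfl⟩))
        · have hn := hG.neg.lt r hr.1
          have hN : D.nroots / 2 ≤ D.neg r := by
            rw [A.g3.negEq r hr.1]
            have := (A.g3.negIff r hr.1).mp hp
            omega
          have h5 := x_neg_mem_parabolic A B8 (D.neg r + 1) (D.neg r) (by omega) hn hN (inRootSub_neg A B8 hr.1 hr) t
          rwa [hG.neg.invol r hr.1] at h5

/-- The roots of `U_J`. -/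
def PsiJ (D : ChevalleyDatum) (J : Set ℕ) (r : ℕ) : Prop := D.IsPosRoot r ∧ ¬ D.InRootSub J r

theorem rad_eq (J : Set ℕ) : D.unipotentRadical F J = Xs D F (PsiJ D J) := by
  unfold unipotentRadical Xs PsiJ
  congr 1
  ext g
  constructor
  · rintro ⟨r, t, h1, h2, h3⟩
    exact ⟨r, t, ⟨h1, h2⟩, h3⟩
  · rintro ⟨r, t, ⟨h1, h2⟩, h3⟩
    exact ⟨r, t, h1, h2, h3⟩

/-- `U_J` is normal in `P_J`. -/
theorem P_le_normalizer {tp : List (ℕ × ℕ)} (B5 : Good5 D C T tp) (J : Set ℕ) :
    D.parabolicSubgroup F J ≤ Subgroup.normalizer (D.unipotentRadical F J : Set (GL D.Idx F)) := by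
  have hG := A.g1
  have hev := A.g3.even
  rw [core1047 A B8 J, rad_eq A B8 J]
  have hκ := kapJ_grade A B8 J
  apply sup_le
  · rw [diagonal_eq A]
    exact Hs_le_normalizer A (PsiJ D J) (fun r hr => hr.1.1)
  · rw [Subgroup.closure_le]
    rintro g ⟨r, t, hr, h⟩
    rw [SetLike.mem_coe, eq_gx hG h]
    have hr1 : r < D.nroots := by
      rcases hr with hr | hr
      · exact hr.1
      · exact hr.1
    have hrnn : 0 ≤ kapL T X (Jc D J) r := by
      rcases hr with hr | hr
      · exact kapJ_nonneg A B8 hr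
      · exact le_of_eq (kapJ_zero A B8 hr).symm
    apply gx_mem_normalizer_Xs A B5 (fun s hs => hs.1.1) hr1
    · rintro ⟨h3, h4⟩
      rcases hr with hr | hr
      · have h5 := (A.g3.posIff _ hr1).mp hr
        have h6 := (A.g3.posIff _ h3.1).mp h3
        rw [A.g3.negEq r hr1] at h6
        omega
      · exact h4 (inRootSub_neg A B8 hr1 hr)
    · rintro s k ⟨hs1, hs2⟩ hne hk ⟨a, b, ha, hb, hab⟩
      have hspos := kapJ_pos A B8 hs1 hs2
      have e := kapL_rootSum A B8 (L := Jc D J) (fun _ hm => (mem_Jc.mp hm).1) hab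
      have ha' : (0 : ℤ) ≤ a := by positivity
      have hb' : (1 : ℤ) ≤ b := by exact_mod_cast hb
      have hkpos : 0 < kapL T X (Jc D J) k := by
        rw [e]
        nlinarith
      refine ⟨?_, ?_⟩
      · rcases root_trichotomy A B8 hk with h3 | h3
        · exact h3
        · exfalso
          by_cases h4 : D.InRootSub J k
          · have := kapJ_zero A B8 h4
            omega
          · have := kapJ_neg A B8 h3 h4
            omega
      · intro h4
        have := kapJ_zero A B8 h4
        omega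

/-- Root elements in degree zero. -/
theorem gx_mem_flt0 {κ : ℕ → ℤ} (hκ : GradeOK D κ) {r : ℕ} (hr : r < D.nroots) (h0 : κ r = 0) (t : F) :
    gx A.g1 F r t ∈ fltSub (kap D κ) F 0 le_rfl := by
  have key : ∀ t : F, Deg (kap D κ) 0 (D.x F r t - 1) := by
    intro t u j hj
    rw [Matrix.sub_apply, x_eq_E hr, add_sub_cancel_left]
    apply List.sum_eq_zero
    intro y hy
    obtain ⟨km, hkm, rfl⟩ := List.mem_map.mp hy
    obtain ⟨_, h2⟩ := hκ.xE_deg hr hkm
    rw [h0, mul_zero] at h2
    omega
  constructor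
  · exact key t
  · rw [gx_inv]
    exact key (-t)

omit A B8 in
theorem gradeOK_negF {κ : ℕ → ℤ} (hκ : GradeOK D κ) : GradeOK D (fun k => - κ k) := by
  refine ⟨fun r hr => ?_, fun r hr e he q hq => ?_⟩
  · show - κ (D.neg r) = - - κ r
    rw [hκ.neg r hr]
  · show - κ q.1.1 = - κ e.1 + _ * - κ r
    rw [hκ.chain r hr e he q hq]
    ring

/-- The Levi decomposition. -/
theorem core1048 {tp : List (ℕ × ℕ)} (B5 : Good5 D C T tp) (J : Set ℕ) :
    D.parabolicSubgroup F J ≤ Subgroup.normalizer (D.unipotentRadical F J : Set (GL D.Idx F)) ∧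
      D.unipotentRadical F J ⊔ D.leviSubgroup F J = D.parabolicSubgroup F J ∧
      D.unipotentRadical F J ⊓ D.leviSubgroup F J = ⊥ := by
  have hG := A.g1
  have hκ := kapJ_grade A B8 J
  refine ⟨P_le_normalizer A B8 B5 J, ?_, ?_⟩
  · rw [core1047 A B8 J]
    apply le_antisymm
    · apply sup_le
      · rw [unipotentRadical, Subgroup.closure_le]
        rintro g ⟨r, t, h1, h2, h3⟩
        exact Subgroup.mem_sup_right (Subgroup.subset_closure ⟨r, t, Or.inl h1, h3⟩)
      · apply sup_le le_sup_left
        apply le_sup_of_le_right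
        apply Subgroup.closure_mono
        rintro g ⟨r, t, h1, h3⟩
        exact ⟨r, t, Or.inr h1, h3⟩
    · apply sup_le
      · exact le_sup_of_le_right le_sup_left
      · rw [Subgroup.closure_le]
        rintro g ⟨r, t, h1, h3⟩
        by_cases h4 : D.InRootSub J r
        · exact Subgroup.mem_sup_right (Subgroup.mem_sup_right (Subgroup.subset_closure ⟨r, t, h4, h3⟩))
        · rcases h1 with h1 | h1
          · exact Subgroup.mem_sup_left (Subgroup.subset_closure ⟨r, t, h1, h4, h3⟩)
          · exact absurd h1 h4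
  · rw [Subgroup.eq_bot_iff_forall]
    rintro g ⟨h1, h2⟩
    have h3 : D.unipotentRadical F J ≤ fltSub (kap D (kapL T X (Jc D J))) F 1 zero_le_one := by
      rw [unipotentRadical, Subgroup.closure_le]
      rintro x ⟨r, t, h4, h5, h6⟩
      rw [SetLike.mem_coe, eq_gx hG h6]
      have := kapJ_pos A B8 h4 h5
      exact gx_mem_flt hG hκ h4.1 zero_le_one (by omega) this t
    have h4 : D.leviSubgroup F J ≤ fltSub (kap D (fun k => - kapL T X (Jc D J) k)) F 0 le_rfl := by
      apply sup_le
      · rw [diagonal_eq A]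
        exact Hs_le_flt0 A _
      · rw [Subgroup.closure_le]
        rintro x ⟨r, t, h4, h6⟩
        rw [SetLike.mem_coe, eq_gx hG h6]
        apply gx_mem_flt0 A B8 (gradeOK_negF hκ) h4.1
        show - kapL T X (Jc D J) r = 0
        rw [kapJ_zero A B8 h4]
        rfl
    exact flt_inf_opp (h4 h2).1 (by simpa using (h3 h1).1)

/-- The normalizer of `U_J` is `P_J`. -/
theorem core1049 {tp : List (ℕ × ℕ)} (B5 : Good5 D C T tp) (J : Set ℕ) (hJ : ∀ j ∈ J, j < D.rank) :
    Subgroup.normalizer (D.unipotentRadical F J : Set (GL D.Idx F)) ⊓ D.group F = D.parabolicSubgroup F J := by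
  have hG := A.g1
  have hev := A.g3.even
  have hP_le : D.parabolicSubgroup F J ≤ D.group F := by
    apply sup_le (B_le_group A)
    rw [Subgroup.closure_le]
    rintro g ⟨j, _, hj, h⟩
    rw [SetLike.mem_coe, eq_gn hG h]
    exact gn_mem_group A _ _
  apply le_antisymm
  swap
  · exact le_inf (P_le_normalizer A B8 B5 J) hP_le
  -- now use the parabolic lattice
  set M := Subgroup.normalizer (D.unipotentRadical F J : Set (GL D.Idx F)) ⊓ D.group F with hM
  let P := chevBN (F := F) A B5
  have hB : P.B ≤ M.subgroupOf (D.group F) := by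
    intro b hb
    rw [Subgroup.mem_subgroupOf]
    have hb' : (b : GL D.Idx F) ∈ D.borelSubgroup F := Subgroup.mem_subgroupOf.mp hb
    exact ⟨P_le_normalizer A B8 B5 J (Subgroup.mem_sup_left hb'), b.2⟩
  have key := Lib.BNPair.eq_parabolic (P := P) hB
  intro g hg
  have hgG : g ∈ D.group F := hg.2
  have hg' : (⟨g, hgG⟩ : D.group F) ∈ M.subgroupOf (D.group F) := Subgroup.mem_subgroupOf.mpr hg
  rw [key] at hg'
  -- the image of the parabolic is inside `P_J`
  have hle : P.parabolic {s | s ∈ P.S ∧ s ∈ M.subgroupOf (D.group F)} ≤ (D.parabolicSubgroup F J).subgroupOf (D.group F) := by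
    apply sup_le
    · intro b hb
      rw [Subgroup.mem_subgroupOf]
      exact Subgroup.mem_sup_left (Subgroup.mem_subgroupOf.mp hb)
    · rw [Subgroup.closure_le]
      rintro s ⟨⟨i, hi, hs⟩, hsM⟩
      rw [SetLike.mem_coe, Subgroup.mem_subgroupOf]
      have hs' : (s : GL D.Idx F) = gs hG F i := eq_gn hG hs
      have hiJ : i ∈ J := by
        by_contra hiJ
        -- `n_i` would normalize `U_J`, but moves `p_i` to `-p_i`
        have hsM' : (s : GL D.Idx F) ∈ M := Subgroup.mem_subgroupOf.mp hsM
        have h1 : (s : GL D.Idx F) ∈ Subgroup.normalizer (D.unipotentRadical F J : Set (GL D.Idx F)) := hsM'.1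
        rw [Subgroup.mem_normalizer_iff] at h1
        have hp := hG.simple_lt hi
        have hpos : D.IsPosRoot (D.simple i) := (A.g3.posIff _ hp).mpr (A.g3.simplePos i hi)
        have hnot : ¬ D.InRootSub J (D.simple i) := by
          intro h3
          have := h3.2 i hi hiJ
          have h2 := B8.simplePos i hi
          omega
        have hmem : gx hG F (D.simple i) (1 : F) ∈ D.unipotentRadical F J :=
          Subgroup.subset_closure ⟨_, _, hpos, hnot, rfl⟩
        have h3 := (h1 _).mp hmem
        rw [hs', gs_conj_gx hG hi hp, hG.w_simple hi] at h3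
        have hnp := hG.neg.lt _ hp
        have hneg : D.IsNegRoot (D.neg (D.simple i)) := by
          refine (A.g3.negIff _ hnp).mpr ?_
          rw [A.g3.negEq _ hp]
          have := A.g3.simplePos i hi
          omega
        have h4 : gx hG F (D.neg (D.simple i)) ((C.eta i (D.simple i) : F) * 1) ∈ D.borelSubgroup F ⊓ D.negUnipotent F := by
          constructor
          · apply U_le_B A
            have : D.unipotentRadical F J ≤ D.posUnipotent F := by
              apply Subgroup.closure_mono
              rintro g ⟨r, t, h5, _, h6⟩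
              exact ⟨r, t, h5, h6⟩
            exact this h3
          · exact Subgroup.subset_closure ⟨_, _, hneg, rfl⟩
        rw [B_inf_V A, Subgroup.mem_bot] at h4
        have h6 := congrArg Units.val h4
        rw [coe_gx, Units.val_one, x_eq_one_iff hG.neg hnp] at h6
        rcases C.eta_cases i (D.simple i) with h7 | h7 <;> simp [h7] at h6
      exact Subgroup.mem_sup_right (Subgroup.subset_closure ⟨i, hiJ, hi, hs⟩)
  exact Subgroup.mem_subgroupOf.mp (hle hg')

end

end Cfsg.Agent.Lib.ChevSym
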