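import Cfsg.Agent.Lib.ChevBN2

/-! The Chevalley groups are perfect; core of `B`; the longest element (helper4). -/

set_option autoImplicit false
set_option linter.all false

namespace Cfsg.Agent.Lib.ChevSym

open Cfsg.Lie Cfsg.Lie.ChevalleyDatum Matrix Cfsg.Agent.Lib.MatFilt

variable {F : Type*} [Field F] {D : ChevalleyDatum} {C : Cert} {T : Tab}

/-- The derived group of `G`, inside `GL`. -/
def Dc (D : ChevalleyDatum) (F : Type*) [Field F] : Subgroup (GL D.Idx F) :=
  (commutator (D.group F)).map (D.group F).subtype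

theorem Dc_le : Dc D F ≤ D.group F := by
  rintro _ ⟨x, _, rfl⟩
  exact x.2

theorem comm_mem_Dc {g h : GL D.Idx F} (hg : g ∈ D.group F) (hh : h ∈ D.group F) : g * h * g⁻¹ * h⁻¹ ∈ Dc D F := by
  have h1 := Subgroup.commutator_mem_commutator (Subgroup.mem_top (⟨g, hg⟩ : D.group F)) (Subgroup.mem_top (⟨h, hh⟩ : D.group F))
  rw [commutatorElement_def] at h1
  exact ⟨_, h1, rfl⟩

theorem conj_mem_Dc {g d : GL D.Idx F} (hg : g ∈ D.group F) (hd : d ∈ Dc D F) : g * d * g⁻¹ ∈ Dc D F := by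
  obtain ⟨x, hx, rfl⟩ := hd
  refine ⟨(⟨g, hg⟩ : D.group F) * x * (⟨g, hg⟩ : D.group F)⁻¹, ?_, rfl⟩
  exact (inferInstance : (commutator (D.group F)).Normal).conj_mem x hx _

theorem commutator_eq_top_of_le (h : D.group F ≤ Dc D F) : commutator (D.group F) = ⊤ := by
  rw [eq_top_iff]
  rintro ⟨x, hx⟩ _
  obtain ⟨y, hy, e⟩ := h hx
  have : y = ⟨x, hx⟩ := Subtype.ext e
  rwa [← this]

variable (A : AllGood D C T)
include A

theorem group_le_Dc_of_simple (h : ∀ i < D.rank, ∀ t : F, gx A.g1 F (D.simple i) t ∈ Dc D F) : D.group F ≤ Dc D F := by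
  have key : ∀ r < D.nroots, ∀ t : F, gx A.g1 F r t ∈ Dc D F := by
    apply A.g1.root_ind
    · exact h
    · intro i hi r hr h1 t
      have e := gs_conj_gx A.g1 hi hr ((C.eta i r : F) * t)
      rw [← mul_assoc, eta_sq A.g1, one_mul] at e
      rw [← e]
      exact conj_mem_Dc (gs_mem_group A) (h1 _)
  rw [group, Subgroup.closure_le]
  rintro g ⟨r, t, h1⟩
  have h' : (g : Matrix D.Idx D.Idx F) = D.x F r.val t := by
    rw [h1, ChevalleyDatum.x, dif_pos r.2]
  rw [eq_gx A.g1 h']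
  exact key r.val r.2 t

/-- A pair of roots whose commutator is a single root element with coefficient `±1`. -/
theorem gx_mem_Dc_of_single {a b p : ℕ} {c : ℤ} (hc : c = 1 ∨ c = -1) (hterms : D.commTerms a b = [(p, c, 1, 1)])
    (h : checkWords D [(b, pb), (a, pa)] ([(a, pa), (b, pb)] ++ commWordS D a b) = true) (t : F) :
    gx A.g1 F p t ∈ Dc D F := by
  have hG := A.g1
  have hc2 : (c : F) * c = 1 := by rcases hc with rfl | rfl <;> simp
  set t' : F := - ((c : F) * t) with ht'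
  have h1 := comm_of_check hG h t' (1 : F)
  have hw : D.commWord F a b t' 1 = [(p, t)] := by
    unfold ChevalleyDatum.commWord
    rw [hterms]
    simp only [List.map_cons, List.map_nil, pow_one, one_pow, mul_one, ht', neg_neg]
    rw [← mul_assoc, hc2, one_mul]
  rw [hw, wordMat_cons, wordMat_nil, mul_one] at h1
  have h3 : gx hG F b 1 * gx hG F a t' = gx hG F a t' * gx hG F b 1 * gx hG F p t :=
    Units.ext (by simpa only [Units.val_mul, coe_gx] using h1)
  have e : gx hG F p t = (gx hG F b 1)⁻¹ * (gx hG F a t')⁻¹ * gx hG F b 1 * gx hG F a t' := by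
    have e1 : (gx hG F b 1)⁻¹ * (gx hG F a t')⁻¹ * gx hG F b 1 * gx hG F a t' =
        (gx hG F a t' * gx hG F b 1)⁻¹ * (gx hG F b 1 * gx hG F a t') := by group
    rw [e1, h3]
    group
  rw [e]
  have := comm_mem_Dc (Subgroup.inv_mem _ (gx_mem_group A b 1)) (Subgroup.inv_mem _ (gx_mem_group A a t'))
  simpa using this

/-- A pair of roots whose commutator has two terms, the first already known. -/
theorem gx_mem_Dc_of_double {a b s p : ℕ} {c₁ c : ℤ} (hc : c = 1 ∨ c = -1)
    (hterms : D.commTerms a b = [(s, c₁, 1, 1), (p, c, 2, 1)])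
    (h : checkWords D [(b, pb), (a, pa)] ([(a, pa), (b, pb)] ++ commWordS D a b) = true)
    (hs : ∀ v : F, gx A.g1 F s v ∈ Dc D F) (u : F) : gx A.g1 F p u ∈ Dc D F := by
  have hG := A.g1
  have hc2 : (c : F) * c = 1 := by rcases hc with rfl | rfl <;> simp
  set v : F := (c : F) * u with hv
  have h1 := comm_of_check hG h (1 : F) v
  have hw : D.commWord F a b 1 v = [(s, (c₁ : F) * (-1) ^ 1 * v ^ 1), (p, u)] := by
    unfold ChevalleyDatum.commWord
    rw [hterms]
    simp only [List.map_cons, List.map_nil, hv, pow_one, List.cons.injEq, Prod.mk.injEq, true_and, and_true]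
    rw [neg_one_sq, mul_one, ← mul_assoc, hc2, one_mul]
  rw [hw, wordMat_cons, wordMat_cons, wordMat_nil, mul_one] at h1
  set σ : F := (c₁ : F) * (-1) ^ 1 * v ^ 1 with hσ
  have h3 : gx hG F b v * gx hG F a 1 = gx hG F a 1 * gx hG F b v * (gx hG F s σ * gx hG F p u) :=
    Units.ext (by simpa only [Units.val_mul, coe_gx] using h1)
  have e : gx hG F p u = (gx hG F s σ)⁻¹ * ((gx hG F b v)⁻¹ * (gx hG F a 1)⁻¹ * gx hG F b v * gx hG F a 1) := by
    have e1 : (gx hG F b v)⁻¹ * (gx hG F a 1)⁻¹ * gx hG F b v * gx hG F a 1 =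
        (gx hG F a 1 * gx hG F b v)⁻¹ * (gx hG F b v * gx hG F a 1) := by group
    rw [e1, h3]
    group
  rw [e]
  refine Subgroup.mul_mem _ (Subgroup.inv_mem _ (hs σ)) ?_
  have := comm_mem_Dc (Subgroup.inv_mem _ (gx_mem_group A b v)) (Subgroup.inv_mem _ (gx_mem_group A a 1))
  simpa using this

/-- The torus argument: `h x_r(t) h⁻¹ x_r(-t)`. -/
theorem gx_mem_Dc_of_torus {j r : ℕ} (hj : j < D.rank) (hr : r < D.nroots) (hA : T.cart j r = 1 ∨ T.cart j r = -1)
    {a : F} (ha : a ≠ 0) (ha1 : a ≠ 1) (t : F) : gx A.g1 F r t ∈ Dc D F := by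
  have hG := A.g1
  set c : F := a ^ T.cart j r with hc
  have hc1 : c ≠ 1 := by
    rcases hA with h | h
    · rw [hc, h, zpow_one]
      exact ha1
    · rw [hc, h, _root_.zpow_neg_one]
      exact fun h2 => ha1 (by simpa using h2)
  have hsub : c - 1 ≠ 0 := sub_ne_zero.mpr hc1
  set u : F := (c - 1)⁻¹ * t with hu
  have h1 := gh_simple_mul_gx hG A.g2 hj hr ha u
  set h := gh hG F (D.simple j) a with hh
  have hhG : h ∈ D.group F := gh_mem_group A _ _
  have e : gx hG F r t = h * gx hG F r u * h⁻¹ * (gx hG F r u)⁻¹ := by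
    rw [h1, mul_inv_cancel_right, gx_inv, gx_add]
    congr 1
    rw [hu]
    field_simp [hsub]
    ring
  rw [e]
  exact comm_mem_Dc hhG (gx_mem_group A r u)

end Cfsg.Agent.Lib.ChevSym
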