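import Mathlib

/-! A homomorphism from `SL₂(F)` determined by a pair of additive families with the rank-one
relations (big-cell normal forms; helper4). -/

set_option autoImplicit false
set_option linter.all false

namespace Cfsg.Agent.Lib.SL2Hom

open Matrix

variable {F : Type*} [Field F] {Γ : Type*} [Group Γ]

/-- `n(v) = x(v) y(-v⁻¹) x(v)`. -/
def Nn (X Y : F → Γ) (v : F) : Γ := X v * Y (-v⁻¹) * X v

/-- `h(a) = n(a) n(-1)`. -/
def Hh (X Y : F → Γ) (a : F) : Γ := Nn X Y a * Nn X Y (-1)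

/-- The rank one relations. -/
structure Rel (X Y : F → Γ) : Prop where
  hX : ∀ s t, X s * X t = X (s + t)
  hY : ∀ s t, Y s * Y t = Y (s + t)
  h1 : ∀ v, v ≠ 0 → ∀ t, Nn X Y v * X t * (Nn X Y v)⁻¹ = Y (-(v⁻¹ ^ 2 * t))
  h2 : ∀ a, a ≠ 0 → ∀ t, Hh X Y a * X t = X (a ^ 2 * t) * Hh X Y a
  h3 : ∀ a b, a ≠ 0 → b ≠ 0 → Hh X Y a * Hh X Y b = Hh X Y (a * b)

open scoped Classical in
/-- The value on the matrix with entries `a b c d`. -/
noncomputable def phiF (X Y : F → Γ) (a b c d : F) : Γ :=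
  if c = 0 then X (b * a) * Hh X Y a else X (a / c) * Nn X Y (-c⁻¹) * X (d / c)

namespace Rel

variable {X Y : F → Γ} (R : Rel X Y)
include R

theorem X_zero : X 0 = 1 := by
  have h := R.hX 0 0
  rw [add_zero] at h
  exact mul_left_cancel (a := X 0) (by rw [h, mul_one])

theorem Y_zero : Y 0 = 1 := by
  have h := R.hY 0 0
  rw [add_zero] at h
  exact mul_left_cancel (a := Y 0) (by rw [h, mul_one])

theorem X_inv (t : F) : (X t)⁻¹ = X (-t) :=
  inv_eq_of_mul_eq_one_right (by rw [R.hX, add_neg_cancel, R.X_zero])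

theorem Y_inv (t : F) : (Y t)⁻¹ = Y (-t) :=
  inv_eq_of_mul_eq_one_right (by rw [R.hY, add_neg_cancel, R.Y_zero])

theorem Nn_inv (v : F) : (Nn X Y v)⁻¹ = Nn X Y (-v) := by
  unfold Nn
  simp only [_root_.mul_inv_rev, R.X_inv, R.Y_inv, neg_neg, inv_neg, mul_assoc]

theorem Hh_one : Hh X Y (1 : F) = 1 := by
  unfold Hh
  rw [← R.Nn_inv]
  simp

theorem Nn_eq (v : F) : Nn X Y v = Hh X Y v * Nn X Y 1 := by
  unfold Hh
  rw [← R.Nn_inv]
  simp

theorem Yneg {c : F} (hc : c ≠ 0) : Y c = X c⁻¹ * Nn X Y (-c⁻¹) * X c⁻¹ := by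
  unfold Nn
  have e : -(-c⁻¹)⁻¹ = c := by rw [inv_neg, inv_inv, neg_neg]
  rw [e]
  have e1 : X c⁻¹ * (X (-c⁻¹) * Y c * X (-c⁻¹)) * X c⁻¹ =
      (X c⁻¹ * X (-c⁻¹)) * Y c * (X (-c⁻¹) * X c⁻¹) := by group
  rw [e1, R.hX, R.hX, add_neg_cancel, neg_add_cancel, R.X_zero, one_mul, mul_one]

theorem h1' {v : F} (hv : v ≠ 0) (u : F) : Nn X Y v * Y u * (Nn X Y v)⁻¹ = X (-(v ^ 2 * u)) := by
  have h := R.h1 (-v) (neg_ne_zero.mpr hv) (-(v ^ 2 * u))
  have e : -((-v)⁻¹ ^ 2 * (-(v ^ 2 * u))) = u := by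
    field_simp
  rw [e, ← R.Nn_inv, inv_inv] at h
  rw [← h]
  group

theorem braid {v : F} (hv : v ≠ 0) : Nn X Y v = Y (-v⁻¹) * X v * Y (-v⁻¹) := by
  have h := R.h1 v hv v
  have e : -(v⁻¹ ^ 2 * v) = -v⁻¹ := by
    field_simp
  rw [e] at h
  have h2 : Nn X Y v * X v = Y (-v⁻¹) * Nn X Y v := by
    rw [← h]
    group
  have h3 : Nn X Y v * X v = (Y (-v⁻¹) * X v * Y (-v⁻¹)) * X v := by
    rw [h2]
    unfold Nn
    group
  exact mul_right_cancel h3

theorem Nconj {a : F} (ha : a ≠ 0) : Nn X Y 1 * Nn X Y a * (Nn X Y 1)⁻¹ = Nn X Y a⁻¹ := by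
  have h1 := R.h1 1 one_ne_zero a
  have h2 := R.h1' (v := 1) one_ne_zero (-a⁻¹)
  have h3 := R.braid (inv_ne_zero ha)
  rw [inv_inv] at h3
  simp only [inv_one, one_pow, one_mul, neg_neg] at h1 h2
  rw [h3, ← h1, ← h2]
  conv_lhs => enter [1, 2]; unfold Nn
  group

theorem Hconj {a : F} (ha : a ≠ 0) : Nn X Y 1 * Hh X Y a * (Nn X Y 1)⁻¹ = Hh X Y a⁻¹ := by
  have h := R.Nconj ha
  unfold Hh
  rw [← h, ← R.Nn_inv]
  group

theorem N1_mul_H {a : F} (ha : a ≠ 0) : Nn X Y 1 * Hh X Y a = Nn X Y a⁻¹ := by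
  have h := R.Hconj ha
  rw [R.Nn_eq a⁻¹, ← h]
  group

theorem H_mul_N {e v : F} (he : e ≠ 0) (hv : v ≠ 0) : Hh X Y e * Nn X Y v = Nn X Y (e * v) := by
  rw [R.Nn_eq v, ← mul_assoc, R.h3 e v he hv, ← R.Nn_eq]

theorem N_mul_H {v c : F} (hv : v ≠ 0) (hc : c ≠ 0) : Nn X Y v * Hh X Y c = Nn X Y (v * c⁻¹) := by
  rw [R.Nn_eq v, mul_assoc, R.N1_mul_H hc, R.H_mul_N hv (inv_ne_zero hc)]

theorem N1_sq : Nn X Y 1 * Nn X Y 1 = Hh X Y (-1 : F) := by
  have h : Hh X Y (-1 : F) * Hh X Y (-1 : F) = 1 := by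
    rw [R.h3 _ _ (by simp) (by simp), neg_mul_neg, mul_one, R.Hh_one]
  have e : Hh X Y (-1 : F) = (Nn X Y 1)⁻¹ * (Nn X Y 1)⁻¹ := by
    unfold Hh
    rw [← R.Nn_inv]
  have h2 : (Hh X Y (-1 : F))⁻¹ = Hh X Y (-1 : F) := inv_eq_of_mul_eq_one_left h
  rw [← h2, e]
  simp only [_root_.mul_inv_rev, inv_inv]

theorem N1_mul_N {v : F} (hv : v ≠ 0) : Nn X Y 1 * Nn X Y v = Hh X Y (-v⁻¹) := by
  rw [R.Nn_eq v, ← mul_assoc, R.N1_mul_H hv, R.Nn_eq v⁻¹, mul_assoc, R.N1_sq,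
    R.h3 _ _ (inv_ne_zero hv) (by simp), mul_neg_one]

theorem phi_x {a b c d : F} (t : F) (hdet : a * d - b * c = 1) :
    phiF X Y (a + t * c) (b + t * d) c d = X t * phiF X Y a b c d := by
  by_cases hc : c = 0
  · subst hc
    have hda : a * d = 1 := by simpa using hdet
    simp only [phiF, if_true, mul_zero, add_zero]
    rw [← mul_assoc, R.hX]
    congr 2
    linear_combination t * hda
  · simp only [phiF, if_neg hc]
    have e : (a + t * c) / c = t + a / c := by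
      field_simp
      ring
    rw [e, ← R.hX]
    simp only [mul_assoc]

theorem phi_h {a b c d e : F} (he : e ≠ 0) (hdet : a * d - b * c = 1) :
    phiF X Y (e * a) (e * b) (e⁻¹ * c) (e⁻¹ * d) = Hh X Y e * phiF X Y a b c d := by
  by_cases hc : c = 0
  · subst hc
    have hda : a * d = 1 := by simpa using hdet
    have ha : a ≠ 0 := left_ne_zero_of_mul_eq_one hda
    simp only [phiF, if_true, mul_zero]
    have e0 : Hh X Y e * (X (b * a) * Hh X Y a) = (Hh X Y e * X (b * a)) * Hh X Y a := (mul_assoc _ _ _).symm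
    rw [e0, R.h2 e he, mul_assoc (X _) (Hh X Y e) (Hh X Y a), R.h3 e a he ha]
    congr 2
    ring
  · have hc' : e⁻¹ * c ≠ 0 := mul_ne_zero (inv_ne_zero he) hc
    simp only [phiF, if_neg hc, if_neg hc']
    have e1 : e * a / (e⁻¹ * c) = e ^ 2 * (a / c) := by
      field_simp
    have e2 : -(e⁻¹ * c)⁻¹ = e * (-c⁻¹) := by
      rw [mul_inv, inv_inv]
      ring
    have e3 : e⁻¹ * d / (e⁻¹ * c) = d / c := by
      field_simp
    rw [e1, e2, e3, ← R.H_mul_N he (neg_ne_zero.mpr (inv_ne_zero hc))]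
    calc _ = (X (e ^ 2 * (a / c)) * Hh X Y e) * Nn X Y (-c⁻¹) * X (d / c) := by
            simp only [mul_assoc]
      _ = (Hh X Y e * X (a / c)) * Nn X Y (-c⁻¹) * X (d / c) := by rw [R.h2 e he]
      _ = _ := by simp only [mul_assoc]

theorem phi_w {a b c d : F} (hdet : a * d - b * c = 1) :
    phiF X Y c d (-a) (-b) = Nn X Y 1 * phiF X Y a b c d := by
  by_cases ha : a = 0
  · subst ha
    have hc : c ≠ 0 := by
      rintro rfl
      simp at hdet
    simp only [phiF, neg_zero, if_true, if_neg hc, zero_div, R.X_zero, one_mul]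
    rw [← mul_assoc, R.N1_mul_N (neg_ne_zero.mpr (inv_ne_zero hc))]
    have e : -(-c⁻¹)⁻¹ = c := by rw [inv_neg, inv_inv, neg_neg]
    rw [e, R.h2 c hc]
    congr 2
    field_simp
  · have ha' : -a ≠ 0 := neg_ne_zero.mpr ha
    have e1 : -(-a)⁻¹ = a⁻¹ := by rw [inv_neg, neg_neg]
    have e2 : -b / -a = b / a := by rw [neg_div_neg_eq]
    by_cases hc : c = 0
    · subst hc
      have hda : a * d = 1 := by simpa using hdet
      simp only [phiF, if_true, if_neg ha', zero_div, R.X_zero, one_mul, e1, e2]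
      have e3 : X (b * a) * Hh X Y a = Hh X Y a * X (b / a) := by
        rw [R.h2 a ha]
        congr 2
        field_simp
      rw [e3, ← mul_assoc, R.N1_mul_H ha]
    · simp only [phiF, if_neg ha', if_neg hc, e1, e2]
      have e4 : c / -a = -(c / a) := by rw [div_neg]
      rw [e4]
      -- move `n(1)` across
      have h1 := R.h1 1 one_ne_zero (a / c)
      simp only [inv_one, one_pow, one_mul] at h1
      have h2 : Nn X Y 1 * X (a / c) = Y (-(a / c)) * Nn X Y 1 := by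
        rw [← h1]
        group
      have hne : -(a / c) ≠ 0 := neg_ne_zero.mpr (div_ne_zero ha hc)
      have h3 := R.Yneg hne
      have e5 : (-(a / c))⁻¹ = -(c / a) := by
        rw [inv_neg, inv_div]
      rw [e5, neg_neg] at h3
      have h4 := R.N1_mul_N (neg_ne_zero.mpr (inv_ne_zero hc))
      have e6 : -(-c⁻¹)⁻¹ = c := by rw [inv_neg, inv_inv, neg_neg]
      rw [e6] at h4
      have h5 := R.h2 c hc (-(a * c)⁻¹)
      have e7 : c ^ 2 * -(a * c)⁻¹ = -(c / a) := by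
        field_simp
      rw [e7] at h5
      have h6 := R.N_mul_H (div_ne_zero hc ha) hc
      have e8 : c / a * c⁻¹ = a⁻¹ := by
        field_simp
      rw [e8] at h6
      have e9 : -(a * c)⁻¹ + d / c = b / a := by
        field_simp
        linear_combination hdet
      calc _ = X (-(c / a)) * (Nn X Y (c / a) * Hh X Y c) * X (-(a * c)⁻¹ + d / c) := by
              rw [h6, e9]
        _ = X (-(c / a)) * Nn X Y (c / a) * (Hh X Y c * X (-(a * c)⁻¹)) * X (d / c) := by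
              rw [← R.hX]
              simp only [mul_assoc]
        _ = (X (-(c / a)) * Nn X Y (c / a) * X (-(c / a))) * Hh X Y c * X (d / c) := by
              rw [h5]
              simp only [mul_assoc]
        _ = Y (-(a / c)) * (Nn X Y 1 * Nn X Y (-c⁻¹)) * X (d / c) := by
              rw [← h3, h4]
        _ = (Y (-(a / c)) * Nn X Y 1) * Nn X Y (-c⁻¹) * X (d / c) := by
              simp only [mul_assoc]
        _ = (Nn X Y 1 * X (a / c)) * Nn X Y (-c⁻¹) * X (d / c) := by rw [h2]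
        _ = _ := by simp only [mul_assoc]

end Rel

/-- The function on `SL₂`. -/
noncomputable def phi (X Y : F → Γ) (g : SpecialLinearGroup (Fin 2) F) : Γ :=
  phiF X Y (g.1 0 0) (g.1 0 1) (g.1 1 0) (g.1 1 1)

theorem det_entries (g : SpecialLinearGroup (Fin 2) F) : g.1 0 0 * g.1 1 1 - g.1 0 1 * g.1 1 0 = 1 := by
  have h := g.2
  rw [Matrix.det_fin_two] at h
  exact h

/-- The upper unitriangular element. -/
def xS (t : F) : SpecialLinearGroup (Fin 2) F := ⟨!![1, t; 0, 1], by simp [Matrix.det_fin_two_of]⟩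

/-- The diagonal element. -/
def hS (e : F) (he : e ≠ 0) : SpecialLinearGroup (Fin 2) F :=
  ⟨!![e, 0; 0, e⁻¹], by simp [Matrix.det_fin_two_of, he]⟩

/-- The Weyl element. -/
def wS : SpecialLinearGroup (Fin 2) F := ⟨!![0, 1; -1, 0], by simp [Matrix.det_fin_two_of]⟩

theorem sl_ext {g h : SpecialLinearGroup (Fin 2) F} (h00 : g.1 0 0 = h.1 0 0) (h01 : g.1 0 1 = h.1 0 1)
    (h10 : g.1 1 0 = h.1 1 0) (h11 : g.1 1 1 = h.1 1 1) : g = h :=
  Subtype.ext (by ext i j; fin_cases i <;> fin_cases j <;> assumption)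

section entries

variable (g : SpecialLinearGroup (Fin 2) F) (t e : F) (he : e ≠ 0)

theorem xS_00 : (xS t * g).1 0 0 = g.1 0 0 + t * g.1 1 0 := by
  show (!![1, t; 0, 1] * g.1) 0 0 = _
  simp [Matrix.mul_apply, Fin.sum_univ_two]
theorem xS_01 : (xS t * g).1 0 1 = g.1 0 1 + t * g.1 1 1 := by
  show (!![1, t; 0, 1] * g.1) 0 1 = _
  simp [Matrix.mul_apply, Fin.sum_univ_two]
theorem xS_10 : (xS t * g).1 1 0 = g.1 1 0 := by
  show (!![1, t; 0, 1] * g.1) 1 0 = _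
  simp [Matrix.mul_apply, Fin.sum_univ_two]
theorem xS_11 : (xS t * g).1 1 1 = g.1 1 1 := by
  show (!![1, t; 0, 1] * g.1) 1 1 = _
  simp [Matrix.mul_apply, Fin.sum_univ_two]
theorem hS_00 : (hS e he * g).1 0 0 = e * g.1 0 0 := by
  show (!![e, 0; 0, e⁻¹] * g.1) 0 0 = _
  simp [Matrix.mul_apply, Fin.sum_univ_two]
theorem hS_01 : (hS e he * g).1 0 1 = e * g.1 0 1 := by
  show (!![e, 0; 0, e⁻¹] * g.1) 0 1 = _
  simp [Matrix.mul_apply, Fin.sum_univ_two]
theorem hS_10 : (hS e he * g).1 1 0 = e⁻¹ * g.1 1 0 := by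
  show (!![e, 0; 0, e⁻¹] * g.1) 1 0 = _
  simp [Matrix.mul_apply, Fin.sum_univ_two]
theorem hS_11 : (hS e he * g).1 1 1 = e⁻¹ * g.1 1 1 := by
  show (!![e, 0; 0, e⁻¹] * g.1) 1 1 = _
  simp [Matrix.mul_apply, Fin.sum_univ_two]
theorem wS_00 : (wS * g).1 0 0 = g.1 1 0 := by
  show ((!![0, 1; -1, 0] : Matrix (Fin 2) (Fin 2) F) * g.1) 0 0 = _
  simp [Matrix.mul_apply, Fin.sum_univ_two]
theorem wS_01 : (wS * g).1 0 1 = g.1 1 1 := by
  show ((!![0, 1; -1, 0] : Matrix (Fin 2) (Fin 2) F) * g.1) 0 1 = _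
  simp [Matrix.mul_apply, Fin.sum_univ_two]
theorem wS_10 : (wS * g).1 1 0 = -g.1 0 0 := by
  show ((!![0, 1; -1, 0] : Matrix (Fin 2) (Fin 2) F) * g.1) 1 0 = _
  simp [Matrix.mul_apply, Fin.sum_univ_two]
theorem wS_11 : (wS * g).1 1 1 = -g.1 0 1 := by
  show ((!![0, 1; -1, 0] : Matrix (Fin 2) (Fin 2) F) * g.1) 1 1 = _
  simp [Matrix.mul_apply, Fin.sum_univ_two]

end entries

namespace Rel

section hom

variable {X Y : F → Γ} (R : Rel X Y)
include R

theorem phi_xS_mul (t : F) (g : SpecialLinearGroup (Fin 2) F) :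
    phi X Y (xS t * g) = X t * phi X Y g := by
  have h := R.phi_x t (det_entries g)
  have e0 : phi X Y g = phiF X Y (g.1 0 0) (g.1 0 1) (g.1 1 0) (g.1 1 1) := rfl
  rw [e0, ← h]
  unfold phi
  rw [xS_00, xS_01, xS_10, xS_11]

theorem phi_hS_mul {e : F} (he : e ≠ 0) (g : SpecialLinearGroup (Fin 2) F) :
    phi X Y (hS e he * g) = Hh X Y e * phi X Y g := by
  have h := R.phi_h he (det_entries g)
  have e0 : phi X Y g = phiF X Y (g.1 0 0) (g.1 0 1) (g.1 1 0) (g.1 1 1) := rfl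
  rw [e0, ← h]
  unfold phi
  rw [hS_00, hS_01, hS_10, hS_11]

theorem phi_wS_mul (g : SpecialLinearGroup (Fin 2) F) :
    phi X Y (wS * g) = Nn X Y 1 * phi X Y g := by
  have h := R.phi_w (det_entries g)
  have e0 : phi X Y g = phiF X Y (g.1 0 0) (g.1 0 1) (g.1 1 0) (g.1 1 1) := rfl
  rw [e0, ← h]
  unfold phi
  rw [wS_00, wS_01, wS_10, wS_11]

theorem phi_xS (t : F) : phi X Y (xS t) = X t := by
  have : phi X Y (xS t) = X (t * 1) * Hh X Y 1 := by
    simp [phi, xS, phiF]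
  rw [this, R.Hh_one, mul_one, mul_one]

theorem phi_hS {e : F} (he : e ≠ 0) : phi X Y (hS e he) = Hh X Y e := by
  simp [phi, hS, phiF, R.X_zero]

theorem phi_wS : phi X Y (wS : SpecialLinearGroup (Fin 2) F) = Nn X Y 1 := by
  simp [phi, wS, phiF, R.X_zero]

theorem phi_mul (g g' : SpecialLinearGroup (Fin 2) F) : phi X Y (g * g') = phi X Y g * phi X Y g' := by
  have hmul : ∀ g₁ g₂ : SpecialLinearGroup (Fin 2) F,
      (∀ g', phi X Y (g₁ * g') = phi X Y g₁ * phi X Y g') →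
      (∀ g', phi X Y (g₂ * g') = phi X Y g₂ * phi X Y g') →
      ∀ g', phi X Y (g₁ * g₂ * g') = phi X Y (g₁ * g₂) * phi X Y g' := by
    intro g₁ g₂ h₁ h₂ g'
    rw [mul_assoc, h₁, h₂, h₁, mul_assoc]
  have hx : ∀ t : F, ∀ g', phi X Y (xS t * g') = phi X Y (xS t) * phi X Y g' := by
    intro t g'
    rw [R.phi_xS_mul, R.phi_xS]
  have hh : ∀ (e : F) (he : e ≠ 0), ∀ g', phi X Y (hS e he * g') = phi X Y (hS e he) * phi X Y g' := by
    intro e he g'
    rw [R.phi_hS_mul, R.phi_hS]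
  have hw : ∀ g', phi X Y (wS * g') = phi X Y (wS : SpecialLinearGroup (Fin 2) F) * phi X Y g' := by
    intro g'
    rw [R.phi_wS_mul, R.phi_wS]
  have hdet := det_entries g
  by_cases hc : g.1 1 0 = 0
  · rw [hc] at hdet
    have hda : g.1 0 0 * g.1 1 1 = 1 := by simpa using hdet
    have ha : g.1 0 0 ≠ 0 := left_ne_zero_of_mul_eq_one hda
    have hd : g.1 1 1 = (g.1 0 0)⁻¹ := eq_inv_of_mul_eq_one_right hda
    have e : g = xS (g.1 0 1 * g.1 0 0) * hS (g.1 0 0) ha := by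
      apply sl_ext
      · rw [xS_00]
        simp [hS]
      · rw [xS_01]
        simp [hS]
        field_simp
      · rw [xS_10]
        simp [hS, hc]
      · rw [xS_11]
        simp [hS, hd]
    rw [e]
    exact hmul _ _ (hx _) (hh _ _) g'
  · have hv : -(g.1 1 0)⁻¹ ≠ 0 := neg_ne_zero.mpr (inv_ne_zero hc)
    have e : g = xS (g.1 0 0 / g.1 1 0) * (hS (-(g.1 1 0)⁻¹) hv * (wS * xS (g.1 1 1 / g.1 1 0))) := by
      have e1 : (-(g.1 1 0)⁻¹)⁻¹ = -g.1 1 0 := by rw [inv_neg, inv_inv]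
      apply sl_ext
      · rw [xS_00, hS_00, hS_10, wS_00, wS_10, e1]
        simp [xS]
        field_simp
      · rw [xS_01, hS_01, hS_11, wS_01, wS_11, e1]
        simp [xS]
        field_simp
        linear_combination -hdet
      · rw [xS_10, hS_10, wS_10, e1]
        simp [xS]
      · rw [xS_11, hS_11, wS_11, e1]
        simp [xS]
        field_simp
    rw [e]
    have := hmul _ _ (hx (g.1 0 0 / g.1 1 0)) (hmul _ _ (hh _ hv) (hmul _ _ hw (hx (g.1 1 1 / g.1 1 0)))) g'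
    exact this

end hom

end Rel

/-- The homomorphism. -/
theorem exists_hom {X Y : F → Γ} (R : Rel X Y) : ∃ φ : SpecialLinearGroup (Fin 2) F →* Γ,
    (∀ (g : SpecialLinearGroup (Fin 2) F) (t : F), g.1 = !![1, t; 0, 1] → φ g = X t) ∧
    (∀ (g : SpecialLinearGroup (Fin 2) F) (t : F), g.1 = !![1, 0; t, 1] → φ g = Y t) ∧
    (∀ K : Subgroup Γ, (∀ t, X t ∈ K) → (∀ t, Y t ∈ K) → φ.range ≤ K) ∧
    (∀ t, X t ∈ φ.range) ∧ (∀ t, Y t ∈ φ.range) := by
  let φ : SpecialLinearGroup (Fin 2) F →* Γ := MonoidHom.mk' (phi X Y) (R.phi_mul)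
  have hφ : ∀ g, φ g = phi X Y g := fun _ => rfl
  have hXv : ∀ (g : SpecialLinearGroup (Fin 2) F) (t : F), g.1 = !![1, t; 0, 1] → φ g = X t := by
    intro g t hg
    have e : g = xS t := Subtype.ext hg
    rw [e, hφ, R.phi_xS]
  have hYv : ∀ (g : SpecialLinearGroup (Fin 2) F) (t : F), g.1 = !![1, 0; t, 1] → φ g = Y t := by
    intro g t hg
    rw [hφ]
    unfold phi
    rw [hg]
    by_cases ht : t = 0
    · subst ht
      simp [phiF, R.X_zero, R.Y_zero, R.Hh_one]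
    · simp only [phiF]
      simp [ht]
      rw [R.Yneg ht]
  refine ⟨φ, hXv, hYv, ?_, ?_, ?_⟩
  · rintro K hX hY _ ⟨g, rfl⟩
    have hN : ∀ v, Nn X Y v ∈ K := fun v => K.mul_mem (K.mul_mem (hX _) (hY _)) (hX _)
    have hH : ∀ v, Hh X Y v ∈ K := fun v => K.mul_mem (hN _) (hN _)
    rw [hφ]
    unfold phi phiF
    split_ifs
    · exact K.mul_mem (hX _) (hH _)
    · exact K.mul_mem (K.mul_mem (hX _) (hN _)) (hX _)
  · intro t
    exact ⟨⟨!![1, t; 0, 1], by simp [Matrix.det_fin_two_of]⟩, hXv _ t rfl⟩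
  · intro t
    exact ⟨⟨!![1, 0; t, 1], by simp [Matrix.det_fin_two_of]⟩, hYv _ t rfl⟩

end Cfsg.Agent.Lib.SL2Hom
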