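import Cfsg.Agent.Lib.ChevBN
import Cfsg.Agent.Lib.SL2Hom

/-! Rank one relations for an arbitrary root and the homomorphism from `SL₂` (helper4). -/

set_option autoImplicit false
set_option linter.all false

namespace Cfsg.Agent.Lib.ChevSym

open Cfsg.Lie Cfsg.Lie.ChevalleyDatum Matrix Cfsg.Agent.Lib.MatFilt Cfsg.Agent.Lib.SL2Hom

variable {F : Type*} [Field F] {D : ChevalleyDatum} {C : Cert} {T : Tab}

/-- Table values at the fundamental roots. -/
noncomputable def rankOneCheck (D : ChevalleyDatum) (C : Cert) (T : Tab) : Bool :=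
  allL (fun i => cond (iBeq (T.cart i (D.simple i)) 2)
    (cond (iBeq (T.cart i (D.neg (D.simple i))) (-2)) (iBeq (C.eta i (D.simple i)) (-1)) false) false)
    (List.range D.rank)

theorem rankOne_spec (h : rankOneCheck D C T = true) {i : ℕ} (hi : i < D.rank) :
    T.cart i (D.simple i) = 2 ∧ T.cart i (D.neg (D.simple i)) = -2 ∧ C.eta i (D.simple i) = -1 := by
  have h1 := (allL_iff _ _).mp h i (List.mem_range.mpr hi)
  cases e1 : iBeq (T.cart i (D.simple i)) 2
  · simp [e1] at h1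
  · cases e2 : iBeq (T.cart i (D.neg (D.simple i))) (-2)
    · simp [e1, e2] at h1
    · simp only [e1, e2, cond_true] at h1
      exact ⟨iBeq_eq e1, iBeq_eq e2, iBeq_eq h1⟩

variable (A : AllGood D C T) (R : rankOneCheck D C T = true)
include A R

/-- `h_r(a) x_r(t) h_r(a)⁻¹ = x_r(a² t)`. -/
theorem gh_mul_gx_self {r : ℕ} (hr : r < D.nroots) {a : F} (ha : a ≠ 0) (t : F) :
    gh A.g1 F r a * gx A.g1 F r t = gx A.g1 F r (a ^ 2 * t) * gh A.g1 F r a := by
  have key : ∀ r < D.nroots, ∀ a : F, a ≠ 0 → ∀ t : F,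
      gh A.g1 F r a * gx A.g1 F r t = gx A.g1 F r (a ^ 2 * t) * gh A.g1 F r a := by
    apply A.g1.root_ind
    · intro i hi a ha t
      have h := gh_simple_mul_gx A.g1 A.g2 hi (A.g1.simple_lt hi) ha t
      rw [(rankOne_spec R hi).1] at h
      simpa using h
    · intro i hi r hr h a ha t
      have hη : ((C.eta i r : ℤ) : F) * (C.eta i r : F) = 1 := eta_sq A.g1 i r
      have h1 := h a ha ((C.eta i r : F) * t)
      have h2 := gs_conj_gh_eq A.g1 A.g2 hi hr ha
      have h3 := gs_conj_gx A.g1 hi hr ((C.eta i r : F) * t)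
      have h4 := gs_conj_gx A.g1 hi hr (a ^ 2 * ((C.eta i r : F) * t))
      have e3 : ((C.eta i r : ℤ) : F) * (((C.eta i r : ℤ) : F) * t) = t := by
        rw [← mul_assoc, hη, one_mul]
      have e4 : ((C.eta i r : ℤ) : F) * (a ^ 2 * (((C.eta i r : ℤ) : F) * t)) = a ^ 2 * t := by
        linear_combination (a ^ 2 * t) * hη
      rw [e3] at h3
      rw [e4] at h4
      rw [← h2, ← h3, ← h4]
      calc _ = gs A.g1 F i * (gh A.g1 F r a * gx A.g1 F r ((C.eta i r : F) * t)) * (gs A.g1 F i)⁻¹ := by group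
        _ = gs A.g1 F i * (gx A.g1 F r (a ^ 2 * ((C.eta i r : F) * t)) * gh A.g1 F r a) * (gs A.g1 F i)⁻¹ := by rw [h1]
        _ = _ := by group
  exact key r hr a ha t

/-- `n_r(v) x_r(t) n_r(v)⁻¹ = x_{-r}(-v⁻² t)`. -/
theorem gn_conj_gx_self {r : ℕ} (hr : r < D.nroots) {v : F} (hv : v ≠ 0) (t : F) :
    gn A.g1 F r v * gx A.g1 F r t * (gn A.g1 F r v)⁻¹ = gx A.g1 F (D.neg r) (-(v⁻¹ ^ 2 * t)) := by
  have key : ∀ r < D.nroots, ∀ v : F, v ≠ 0 → ∀ t : F,
      gn A.g1 F r v * gx A.g1 F r t * (gn A.g1 F r v)⁻¹ = gx A.g1 F (D.neg r) (-(v⁻¹ ^ 2 * t)) := by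
    apply A.g1.root_ind
    · intro i hi v hv t
      have hp := A.g1.simple_lt hi
      obtain ⟨c1, c2, e1⟩ := rankOne_spec R hi
      have e0 : gn A.g1 F (D.simple i) v = gh A.g1 F (D.simple i) v * gs A.g1 F i := by
        unfold gh gs
        rw [show gn A.g1 F (D.simple i) (-1 : F) = (gn A.g1 F (D.simple i) 1)⁻¹ from by rw [gn_inv]]
        group
      have h1 := gs_conj_gx A.g1 hi hp t
      rw [A.g1.w_simple hi, e1] at h1
      have h2 := gh_simple_mul_gx A.g1 A.g2 hi (A.g1.neg.lt _ hp) hv (-t)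
      rw [c2] at h2
      have e2 : v ^ (-2 : ℤ) * (-t) = -(v⁻¹ ^ 2 * t) := by
        rw [_root_.zpow_neg, mul_neg]
        simp
      rw [e2] at h2
      have e3 : ((-1 : ℤ) : F) * t = -t := by simp
      rw [e3] at h1
      rw [e0]
      calc _ = gh A.g1 F (D.simple i) v * (gs A.g1 F i * gx A.g1 F (D.simple i) t * (gs A.g1 F i)⁻¹) *
            (gh A.g1 F (D.simple i) v)⁻¹ := by group
        _ = _ := by rw [h1, h2]; group
    · intro i hi r hr h v hv t
      have hη : ((C.eta i r : ℤ) : F) * (C.eta i r : F) = 1 := eta_sq A.g1 i r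
      have hη0 : ((C.eta i r : ℤ) : F) ≠ 0 := left_ne_zero_of_mul_eq_one hη
      have h1 := h ((C.eta i r : F) * v) (mul_ne_zero hη0 hv) ((C.eta i r : F) * t)
      have h2 := gs_conj_gn A.g1 hi hr ((C.eta i r : F) * v)
      have h3 := gs_conj_gx A.g1 hi hr ((C.eta i r : F) * t)
      have h4 := gs_conj_gx A.g1 hi (A.g1.neg.lt r hr) (-((((C.eta i r : F) * v)⁻¹) ^ 2 * ((C.eta i r : F) * t)))
      rw [A.g1.w.neg i hi r hr, A.g1.eta_neg hi hr] at h4
      have e2 : ((C.eta i r : ℤ) : F) * (((C.eta i r : ℤ) : F) * v) = v := by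
        rw [← mul_assoc, hη, one_mul]
      have e3 : ((C.eta i r : ℤ) : F) * (((C.eta i r : ℤ) : F) * t) = t := by
        rw [← mul_assoc, hη, one_mul]
      have e4 : ((C.eta i r : ℤ) : F) * (-((((C.eta i r : F) * v)⁻¹) ^ 2 * ((C.eta i r : F) * t))) = -(v⁻¹ ^ 2 * t) := by
        have e5 : (((C.eta i r : ℤ) : F) * v)⁻¹ ^ 2 = v⁻¹ ^ 2 := by
          rw [mul_inv, mul_pow]
          have : ((((C.eta i r : ℤ) : F))⁻¹) ^ 2 = 1 := by
            rw [inv_pow, sq, hη, inv_one]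
          rw [this, one_mul]
        rw [e5]
        linear_combination (-(v⁻¹ ^ 2 * t)) * hη
      rw [e2] at h2
      rw [e3] at h3
      rw [e4] at h4
      rw [← h2, ← h3, ← h4, ← h1]
      group
  exact key r hr v hv t

/-- The homomorphism from `SL₂`. -/
theorem core1030 {r : ℕ} (hr : r < D.nroots) :
    ∃ φ : Matrix.SpecialLinearGroup (Fin 2) F →* GL D.Idx F,
      φ.range = D.rootSubgroup F r ⊔ D.rootSubgroup F (D.neg r) ∧
      ∀ (g : Matrix.SpecialLinearGroup (Fin 2) F) (t : F),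
        ((g : Matrix (Fin 2) (Fin 2) F) = !![1, t; 0, 1] → ((φ g : GL D.Idx F) : Matrix D.Idx D.Idx F) = D.x F r t) ∧
        ((g : Matrix (Fin 2) (Fin 2) F) = !![1, 0; t, 1] →
          ((φ g : GL D.Idx F) : Matrix D.Idx D.Idx F) = D.x F (D.neg r) t) := by
  have Rl : Rel (fun t : F => gx A.g1 F r t) (fun t : F => gx A.g1 F (D.neg r) t) :=
    { hX := fun s t => gx_add A.g1 r s t
      hY := fun s t => gx_add A.g1 (D.neg r) s t
      h1 := fun v hv t => gn_conj_gx_self A R hr hv t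
      h2 := fun a ha t => gh_mul_gx_self A R hr ha t
      h3 := fun a b ha hb => gh_mul A.g1 A.g2 hr ha hb }
  obtain ⟨φ, hX, hY, hK, hXr, hYr⟩ := exists_hom Rl
  refine ⟨φ, le_antisymm ?_ ?_, fun g t => ⟨fun hg => ?_, fun hg => ?_⟩⟩
  · apply hK
    · intro t
      exact Subgroup.mem_sup_left ((mem_rootSubgroup_iff A.g1).mpr ⟨t, rfl⟩)
    · intro t
      exact Subgroup.mem_sup_right ((mem_rootSubgroup_iff A.g1).mpr ⟨t, rfl⟩)
  · apply sup_le
    · intro g hg
      obtain ⟨t, rfl⟩ := (mem_rootSubgroup_iff A.g1).mp hg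
      exact hXr t
    · intro g hg
      obtain ⟨t, rfl⟩ := (mem_rootSubgroup_iff A.g1).mp hg
      exact hYr t
  · rw [hX g t hg]; rfl
  · rw [hY g t hg]; rfl

end Cfsg.Agent.Lib.ChevSym
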