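import Mathlib
import Cfsg.Prelude.Def_ChevStructure

/-! Symbolic sparse evaluation of words in root elements of a Chevalley datum (helper4).

Polynomials in two variables `a, b` with integer coefficients are sorted term lists; sparse vectors
are sorted lists of (index, polynomial).  All functions are written with `List.rec` so that the kernel
can evaluate them quickly. -/

set_option autoImplicit false
set_option linter.all false

namespace Cfsg.Agent.Lib.ChevSym

open Cfsg.Lie Cfsg.Lie.ChevalleyDatum Matrix

/-- A term `c * a^i * b^j` is `(i, j, c)`. -/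
abbrev Mon := ℕ × ℕ × ℤ
abbrev Poly := List Mon
abbrev SV := List (ℕ × Poly)

theorem beq_false' {a b : ℕ} (h : a ≠ b) : Nat.beq a b = false := by
  cases e : Nat.beq a b
  · rfl
  · exact absurd (Nat.eq_of_beq_eq_true e) h

theorem beq_true' {a b : ℕ} (h : a = b) : Nat.beq a b = true := by
  subst h; exact Nat.beq_refl a

theorem ble_true' {a b : ℕ} (h : a ≤ b) : Nat.ble a b = true := Nat.ble_eq.mpr h

theorem ble_false' {a b : ℕ} (h : ¬ a ≤ b) : Nat.ble a b = false := by
  cases e : Nat.ble a b
  · rfl
  · exact absurd (Nat.ble_eq.mp e) h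

theorem blt_true' {a b : ℕ} (h : a < b) : Nat.blt a b = true := ble_true' h

theorem blt_false' {a b : ℕ} (h : ¬ a < b) : Nat.blt a b = false := ble_false' h

def iZero (a : ℤ) : Bool :=
  match a with
  | Int.ofNat m => Nat.beq m 0
  | _ => false

def iBeq (a b : ℤ) : Bool :=
  match a, b with
  | Int.ofNat m, Int.ofNat n => Nat.beq m n
  | Int.negSucc m, Int.negSucc n => Nat.beq m n
  | _, _ => false

theorem iZero_eq {a : ℤ} (h : iZero a = true) : a = 0 := by
  cases a with
  | ofNat m =>
    have : m = 0 := Nat.eq_of_beq_eq_true h
    subst this; rfl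
  | negSucc m => simp [iZero] at h

theorem iBeq_eq {a b : ℤ} (h : iBeq a b = true) : a = b := by
  cases a with
  | ofNat m =>
    cases b with
    | ofNat n =>
      have : m = n := Nat.eq_of_beq_eq_true h
      subst this; rfl
    | negSucc n => simp [iBeq] at h
  | negSucc m =>
    cases b with
    | ofNat n => simp [iBeq] at h
    | negSucc n =>
      have : m = n := Nat.eq_of_beq_eq_true h
      subst this; rfl

@[inline] def mkMon (m : Mon) : Poly := cond (iZero m.2.2) [] [m]

noncomputable def insT (m : Mon) (p : Poly) : Poly :=
  List.rec (motive := fun _ => Poly) (mkMon m)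
    (fun n p ih =>
      cond (Nat.beq m.1 n.1)
        (cond (Nat.beq m.2.1 n.2.1)
          (cond (iZero (m.2.2 + n.2.2)) p ((n.1, n.2.1, m.2.2 + n.2.2) :: p))
          (cond (Nat.ble m.2.1 n.2.1) (m :: n :: p) (n :: ih)))
        (cond (Nat.ble m.1 n.1) (m :: n :: p) (n :: ih))) p

noncomputable def padd (p q : Poly) : Poly :=
  List.rec (motive := fun _ => Poly) q (fun m _ ih => insT m ih) p

noncomputable def mulT (m : Mon) (p : Poly) : Poly :=
  List.rec (motive := fun _ => Poly) []
    (fun n _ ih => (Nat.add m.1 n.1, Nat.add m.2.1 n.2.1, m.2.2 * n.2.2) :: ih) p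

noncomputable def pmul (p q : Poly) : Poly :=
  List.rec (motive := fun _ => Poly) [] (fun m _ ih => padd (mulT m q) ih) p

@[inline] def pconst (c : ℤ) : Poly := mkMon (0, 0, c)

noncomputable def ppow (p : Poly) (n : ℕ) : Poly :=
  Nat.rec (pconst 1) (fun _ ih => pmul p ih) n

def pIsNil (p : Poly) : Bool := match p with | [] => true | _ :: _ => false

theorem pIsNil_eq {p : Poly} (h : pIsNil p = true) : p = [] := by
  cases p with
  | nil => rfl
  | cons _ _ => simp [pIsNil] at h

noncomputable def svIns (m : ℕ × Poly) (v : SV) : SV :=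
  List.rec (motive := fun _ => SV) (cond (pIsNil m.2) [] [m])
    (fun n v ih =>
      cond (Nat.beq m.1 n.1)
        (cond (pIsNil (padd m.2 n.2)) v ((n.1, padd m.2 n.2) :: v))
        (cond (Nat.ble m.1 n.1) (cond (pIsNil m.2) (n :: v) (m :: n :: v)) (n :: ih))) v

noncomputable def svAdd (v w : SV) : SV :=
  List.rec (motive := fun _ => SV) w (fun m _ ih => svIns m ih) v

noncomputable def svScale (q : Poly) (v : SV) : SV :=
  List.rec (motive := fun _ => SV) [] (fun m _ ih => (m.1, pmul q m.2) :: ih) v

noncomputable def pEq (p q : Poly) : Bool :=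
  List.rec (motive := fun _ => Poly → Bool) (fun q => pIsNil q)
    (fun m _ ih q => List.casesOn (motive := fun _ => Bool) q false (fun n q' =>
       cond (Nat.beq m.1 n.1) (cond (Nat.beq m.2.1 n.2.1) (cond (iBeq m.2.2 n.2.2) (ih q') false) false) false)) p q

noncomputable def svEq (p q : SV) : Bool :=
  List.rec (motive := fun _ => SV → Bool) (fun q => match q with | [] => true | _ :: _ => false)
    (fun m _ ih q => List.casesOn (motive := fun _ => Bool) q false (fun n q' =>
       cond (Nat.beq m.1 n.1) (cond (pEq m.2 n.2) (ih q') false) false)) p q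

noncomputable def allL {α : Type} (f : α → Bool) (L : List α) : Bool :=
  List.rec (motive := fun _ => Bool) true (fun a _ ih => cond (f a) ih false) L

theorem allL_iff {α : Type} (f : α → Bool) (L : List α) : allL f L = true ↔ ∀ x ∈ L, f x = true := by
  induction L with
  | nil => simp [allL]
  | cons a L ih =>
    show (cond (f a) (allL f L) false) = true ↔ _
    cases h : f a <;> simp [h, ih]

theorem pEq_eq {p q : Poly} (h : pEq p q = true) : p = q := by
  induction p generalizing q with
  | nil => exact (pIsNil_eq h).symm
  | cons m p ih =>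
    cases q with
    | nil => exact absurd h (by simp [pEq])
    | cons n q =>
      have h' : cond (Nat.beq m.1 n.1) (cond (Nat.beq m.2.1 n.2.1) (cond (iBeq m.2.2 n.2.2) (pEq p q) false) false) false = true := h
      cases h1 : Nat.beq m.1 n.1
      · simp [h1] at h'
      · cases h2 : Nat.beq m.2.1 n.2.1
        · simp [h1, h2] at h'
        · cases h3 : iBeq m.2.2 n.2.2
          · simp [h1, h2, h3] at h'
          · simp [h1, h2, h3] at h'
            have e1 := Nat.eq_of_beq_eq_true h1
            have e2 := Nat.eq_of_beq_eq_true h2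
            have e3 := iBeq_eq h3
            have e4 := ih h'
            rw [e4]
            have : m = n := by
              rcases m with ⟨m1, m2, m3⟩
              rcases n with ⟨n1, n2, n3⟩
              simp_all
            rw [this]

theorem svEq_eq {p q : SV} (h : svEq p q = true) : p = q := by
  induction p generalizing q with
  | nil =>
    cases q with
    | nil => rfl
    | cons _ _ => exact absurd h (by simp [svEq])
  | cons m p ih =>
    cases q with
    | nil => exact absurd h (by simp [svEq])
    | cons n q =>
      have h' : cond (Nat.beq m.1 n.1) (cond (pEq m.2 n.2) (svEq p q) false) false = true := h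
      cases h1 : Nat.beq m.1 n.1
      · simp [h1] at h'
      · cases h2 : pEq m.2 n.2
        · simp [h1, h2] at h'
        · simp [h1, h2] at h'
          have e1 := Nat.eq_of_beq_eq_true h1
          have e2 := pEq_eq h2
          have e3 := ih h'
          rw [e3]
          have : m = n := by
            rcases m with ⟨m1, m2⟩
            rcases n with ⟨n1, n2⟩
            simp_all
          rw [this]

section eval

variable {F : Type*} [Field F]

def Mon.ev (a b : F) (m : Mon) : F := (m.2.2 : F) * a ^ m.1 * b ^ m.2.1

def pev (a b : F) (p : Poly) : F := (p.map (Mon.ev a b)).sum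

@[simp] theorem pev_nil (a b : F) : pev a b [] = 0 := rfl
@[simp] theorem pev_cons (a b : F) (m : Mon) (p : Poly) : pev a b (m :: p) = Mon.ev a b m + pev a b p := by
  simp [pev]

theorem pev_mkMon (a b : F) (m : Mon) : pev a b (mkMon m) = Mon.ev a b m := by
  unfold mkMon
  cases h : iZero m.2.2
  · simp
  · have := iZero_eq h
    simp [Mon.ev, this]

theorem pev_insT (a b : F) (m : Mon) (p : Poly) : pev a b (insT m p) = Mon.ev a b m + pev a b p := by
  induction p with
  | nil =>
    show pev a b (mkMon m) = _
    rw [pev_mkMon]; simp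
  | cons n p ih =>
    have h0 : insT m (n :: p) = cond (Nat.beq m.1 n.1)
        (cond (Nat.beq m.2.1 n.2.1)
          (cond (iZero (m.2.2 + n.2.2)) p ((n.1, n.2.1, m.2.2 + n.2.2) :: p))
          (cond (Nat.ble m.2.1 n.2.1) (m :: n :: p) (n :: insT m p)))
        (cond (Nat.ble m.1 n.1) (m :: n :: p) (n :: insT m p)) := rfl
    rw [h0]
    have hih : pev a b (n :: insT m p) = Mon.ev a b m + pev a b (n :: p) := by
      rw [pev_cons, ih, pev_cons]; ring
    cases h1 : Nat.beq m.1 n.1
    · cases h4 : Nat.ble m.1 n.1
      · simp only [cond_false, hih]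
      · simp only [cond_false, cond_true, pev_cons]
    · cases h2 : Nat.beq m.2.1 n.2.1
      · cases h4 : Nat.ble m.2.1 n.2.1
        · simp only [cond_true, cond_false, hih]
        · simp only [cond_true, cond_false, pev_cons]
      · have e1 := Nat.eq_of_beq_eq_true h1
        have e2 := Nat.eq_of_beq_eq_true h2
        have key : Mon.ev a b m + Mon.ev a b n = ((m.2.2 + n.2.2 : ℤ) : F) * a ^ n.1 * b ^ n.2.1 := by
          simp only [Mon.ev, e1, e2]
          push_cast; ring
        cases h3 : iZero (m.2.2 + n.2.2)
        · simp only [cond_true, cond_false, pev_cons]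
          rw [← add_assoc, key]; simp [Mon.ev]
        · have e3 := iZero_eq h3
          simp only [cond_true, pev_cons]
          rw [← add_assoc, key, e3]; simp

theorem pev_padd (a b : F) (p q : Poly) : pev a b (padd p q) = pev a b p + pev a b q := by
  induction p with
  | nil => simp [padd]
  | cons m p ih =>
    show pev a b (insT m (padd p q)) = _
    rw [pev_insT, ih, pev_cons]; ring

theorem pev_mulT (a b : F) (m : Mon) (p : Poly) : pev a b (mulT m p) = Mon.ev a b m * pev a b p := by
  induction p with
  | nil => simp [mulT]
  | cons n p ih =>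
    show pev a b ((Nat.add m.1 n.1, Nat.add m.2.1 n.2.1, m.2.2 * n.2.2) :: mulT m p) = _
    rw [pev_cons, ih, pev_cons, mul_add]
    congr 1
    show ((m.2.2 * n.2.2 : ℤ) : F) * a ^ (m.1 + n.1) * b ^ (m.2.1 + n.2.1) = _
    simp only [Mon.ev, pow_add]
    push_cast; ring

theorem pev_pmul (a b : F) (p q : Poly) : pev a b (pmul p q) = pev a b p * pev a b q := by
  induction p with
  | nil => simp [pmul]
  | cons m p ih =>
    show pev a b (padd (mulT m q) (pmul p q)) = _
    rw [pev_padd, pev_mulT, ih, pev_cons]; ring

theorem pev_pconst (a b : F) (c : ℤ) : pev a b (pconst c) = (c : F) := by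
  unfold pconst
  rw [pev_mkMon]
  simp [Mon.ev]

theorem pev_ppow (a b : F) (p : Poly) (n : ℕ) : pev a b (ppow p n) = pev a b p ^ n := by
  induction n with
  | zero => simp [ppow, pev_pconst]
  | succ n ih =>
    show pev a b (pmul p (ppow p n)) = _
    rw [pev_pmul, ih, pow_succ]; ring

/-- The coefficient at index `k` of a sparse vector. -/
def svev (a b : F) (v : SV) (k : ℕ) : F := (v.map fun m => if m.1 = k then pev a b m.2 else 0).sum

@[simp] theorem svev_nil (a b : F) (k : ℕ) : svev a b [] k = 0 := rfl
@[simp] theorem svev_cons (a b : F) (m : ℕ × Poly) (v : SV) (k : ℕ) :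
    svev a b (m :: v) k = (if m.1 = k then pev a b m.2 else 0) + svev a b v k := by
  simp [svev]

theorem svev_svIns (a b : F) (m : ℕ × Poly) (v : SV) (k : ℕ) :
    svev a b (svIns m v) k = (if m.1 = k then pev a b m.2 else 0) + svev a b v k := by
  have hnil : pIsNil m.2 = true → (if m.1 = k then pev a b m.2 else 0) = 0 := by
    intro h
    rw [pIsNil_eq h]; simp
  induction v with
  | nil =>
    show svev a b (cond (pIsNil m.2) [] [m]) k = _
    cases h : pIsNil m.2
    · simp
    · simp [hnil h]
  | cons n v ih =>
    have h0 : svIns m (n :: v) = cond (Nat.beq m.1 n.1)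
        (cond (pIsNil (padd m.2 n.2)) v ((n.1, padd m.2 n.2) :: v))
        (cond (Nat.ble m.1 n.1) (cond (pIsNil m.2) (n :: v) (m :: n :: v)) (n :: svIns m v)) := rfl
    rw [h0]
    cases h1 : Nat.beq m.1 n.1
    · cases h4 : Nat.ble m.1 n.1
      · simp only [cond_false, svev_cons, ih]
        ring
      · cases h5 : pIsNil m.2
        · simp only [cond_false, cond_true, svev_cons]
        · have := hnil h5
          simp only [cond_false, cond_true, svev_cons, this]
          ring
    · have e1 := Nat.eq_of_beq_eq_true h1
      cases h5 : pIsNil (padd m.2 n.2)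
      · simp only [cond_true, cond_false, svev_cons, pev_padd]
        rw [← add_assoc]
        congr 1
        by_cases h : n.1 = k
        · simp [e1, h]
        · simp [e1, h]
      · have h6 := pIsNil_eq h5
        have h7 : pev a b m.2 + pev a b n.2 = 0 := by
          rw [← pev_padd, h6]; rfl
        simp only [cond_true, svev_cons]
        rw [← add_assoc]
        by_cases h : n.1 = k
        · simp [e1, h, h7]
        · simp [e1, h]

theorem svev_svAdd (a b : F) (v w : SV) (k : ℕ) : svev a b (svAdd v w) k = svev a b v k + svev a b w k := by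
  induction v with
  | nil => simp [svAdd]
  | cons m v ih =>
    show svev a b (svIns m (svAdd v w)) k = _
    rw [svev_svIns, ih, svev_cons]; ring

theorem svev_svScale (a b : F) (q : Poly) (v : SV) (k : ℕ) : svev a b (svScale q v) k = pev a b q * svev a b v k := by
  induction v with
  | nil => simp [svScale]
  | cons m v ih =>
    show svev a b ((m.1, pmul q m.2) :: svScale q v) k = _
    rw [svev_cons, ih, svev_cons, pev_pmul, mul_add]
    congr 1
    by_cases h : m.1 = k <;> simp [h]

end eval

/-- Per-root table: everything needed about the root `r`. -/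
structure RT where
  rank : ℕ
  nroots : ℕ
  r : ℕ
  neg : ℕ
  hcol : ℕ → ℤ
  ncol : List (ℕ × ℤ)
  chain : List (ℕ × List (ℕ × ℕ × ℤ))

noncomputable def findC (s : ℕ) (L : List (ℕ × List (ℕ × ℕ × ℤ))) : List (ℕ × ℕ × ℤ) :=
  List.rec (motive := fun _ => List (ℕ × ℕ × ℤ)) []
    (fun e _ ih => cond (Nat.ble e.1 s) (cond (Nat.beq e.1 s) e.2 ih) []) L

def chainEntries (rk : ℕ) (e : ℕ × Array (ℕ × ℤ)) : ℕ × List (ℕ × ℕ × ℤ) :=
  (e.1, (e.2.toList.zipIdx).map fun q => (Nat.add rk q.1.1, Nat.add q.2 1, q.1.2))

def mkRT (D : ChevalleyDatum) (r : ℕ) : RT where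
  rank := D.rank
  nroots := D.nroots
  r := r
  neg := D.negIdx.getD r 0
  hcol := fun i => -(D.cartanSR.getD i #[]).getD r 0
  ncol := (List.range D.rank).map fun i => (i, (D.coroot.getD r #[]).getD i 0)
  chain := (D.chain.getD r #[]).toList.map (chainEntries D.rank)

noncomputable def chainCol (j : ℕ) (p : Poly) (L : List (ℕ × ℕ × ℤ)) : SV :=
  List.rec (motive := fun _ => SV) [(j, pconst 1)]
    (fun e _ ih => svIns (e.1, pmul (pconst e.2.2) (ppow p e.2.1)) ih) L

noncomputable def negCol (T : RT) (j : ℕ) (p : Poly) : SV :=
  List.rec (motive := fun _ => SV)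
    (svIns (Nat.add T.rank T.r, pmul (pconst (-1)) (ppow p 2)) [(j, pconst 1)])
    (fun e _ ih => svIns (e.1, pmul (pconst e.2) p) ih) T.ncol

noncomputable def xCol (T : RT) (p : Poly) (j : ℕ) : SV :=
  cond (Nat.blt j T.rank)
    (svIns (Nat.add T.rank T.r, pmul (pconst (T.hcol j)) p) [(j, pconst 1)])
    (cond (Nat.blt j (Nat.add T.rank T.nroots))
      (cond (Nat.beq (Nat.sub j T.rank) T.r) [(j, pconst 1)]
        (cond (Nat.beq (Nat.sub j T.rank) T.neg)
          (negCol T j p)
          (chainCol j p (findC (Nat.sub j T.rank) T.chain))))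
      [])

noncomputable def actX (T : RT) (p : Poly) (L : SV) : SV :=
  List.rec (motive := fun _ => SV) [] (fun m _ ih => svAdd (svScale m.2 (xCol T p m.1)) ih) L

/-- The action of a letter: `x_r(p)` on a sparse vector (the identity for `r` out of range). -/
noncomputable def actR (D : ChevalleyDatum) (r : ℕ) (p : Poly) (L : SV) : SV :=
  cond (Nat.blt r D.nroots) (actX (mkRT D r) p L) L

/-- The action of a word. -/
noncomputable def wordAct (D : ChevalleyDatum) (w : List (ℕ × Poly)) (L : SV) : SV :=
  List.rec (motive := fun _ => SV) L (fun m _ ih => actR D m.1 m.2 ih) w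

/-- Chain keys are increasing. -/
noncomputable def sortedFrom (k : ℕ) (L : List ℕ) : Bool :=
  (List.rec (motive := fun _ => ℕ → Bool) (fun _ => true)
    (fun x _ ih k => cond (Nat.blt k x) (ih x) false) L) k

noncomputable def sortedKeys (L : List ℕ) : Bool :=
  List.rec (motive := fun _ => Bool) true (fun x xs _ => sortedFrom x xs) L

noncomputable def chainSortedB (D : ChevalleyDatum) : Bool :=
  allL (fun r => sortedKeys ((D.chain.getD r #[]).toList.map Prod.fst)) (List.range D.nroots)

theorem sortedFrom_spec (L : List ℕ) : ∀ k, sortedFrom k L = true → (∀ x ∈ L, k < x) ∧ L.Pairwise (· < ·) := by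
  induction L with
  | nil => intro k _; simp
  | cons x xs ih =>
    intro k h
    have h' : cond (Nat.blt k x) (sortedFrom x xs) false = true := h
    cases h1 : Nat.blt k x
    · simp [h1] at h'
    · simp [h1] at h'
      have hkx : k < x := by simpa [Nat.blt_eq] using h1
      obtain ⟨h2, h3⟩ := ih x h'
      refine ⟨?_, List.pairwise_cons.mpr ⟨h2, h3⟩⟩
      intro y hy
      rcases List.mem_cons.mp hy with rfl | hy
      · exact hkx
      · exact hkx.trans (h2 y hy)

theorem sortedKeys_spec (L : List ℕ) (h : sortedKeys L = true) : L.Pairwise (· < ·) := by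
  cases L with
  | nil => simp
  | cons x xs =>
    obtain ⟨h2, h3⟩ := sortedFrom_spec xs x h
    exact List.pairwise_cons.mpr ⟨h2, h3⟩

section soundness

variable {F : Type*} [Field F] (D : ChevalleyDatum)

/-- The natural-number code of a coordinate. -/
def enc : D.Idx → ℕ
  | Sum.inl i => i.val
  | Sum.inr s => D.rank + s.val

theorem enc_inj {u v : D.Idx} (h : enc D u = enc D v) : u = v := by
  rcases u with i | s <;> rcases v with i' | s'
  · congr 1; exact Fin.ext h
  · have : i.val < D.rank := i.2
    simp [enc] at h; omega
  · have : i'.val < D.rank := i'.2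
    simp [enc] at h; omega
  · congr 1; apply Fin.ext; simpa [enc] using h

theorem enc_lt (u : D.Idx) : enc D u < D.rank + D.nroots := by
  rcases u with i | s
  · have := i.2
    show i.val < D.rank + D.nroots
    omega
  · have := s.2
    show D.rank + s.val < D.rank + D.nroots
    omega

theorem exists_enc {j : ℕ} (h : j < D.rank + D.nroots) : ∃ u, enc D u = j := by
  by_cases h1 : j < D.rank
  · exact ⟨Sum.inl ⟨j, h1⟩, rfl⟩
  · refine ⟨Sum.inr ⟨j - D.rank, by omega⟩, ?_⟩
    show D.rank + (j - D.rank) = j
    omega


theorem findC_eq (rk : ℕ) (L : List (ℕ × Array (ℕ × ℤ))) (h : (L.map Prod.fst).Pairwise (· < ·)) (s : ℕ) :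
    findC s (L.map (chainEntries rk)) =
      (L.filter (fun e => decide (e.1 = s))).flatMap (fun e => (chainEntries rk e).2) := by
  induction L with
  | nil => rfl
  | cons e L ih =>
    rw [List.map_cons, List.pairwise_cons] at h
    have hL := ih h.2
    have hkeys : ∀ e' ∈ L, e.1 < e'.1 := fun e' he' => h.1 e'.1 (List.mem_map_of_mem he')
    show cond (Nat.ble (chainEntries rk e).1 s) (cond (Nat.beq (chainEntries rk e).1 s) (chainEntries rk e).2 (findC s (L.map (chainEntries rk)))) [] = _
    have h1 : (chainEntries rk e).1 = e.1 := rfl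
    rw [h1]
    by_cases hs : e.1 = s
    · subst hs
      have hf : L.filter (fun e' => decide (e'.1 = e.1)) = [] := by
        rw [List.filter_eq_nil_iff]
        intro e' he'
        have := hkeys e' he'
        simp only [decide_eq_true_eq]
        omega
      rw [ble_true' (le_refl _), cond_true, beq_true' rfl, cond_true]
      simp [hf]
    · rw [List.filter_cons_of_neg (by simpa using hs)]
      rw [← hL]
      rw [beq_false' hs]
      by_cases hlt : e.1 ≤ s
      · rw [ble_true' hlt]; rfl
      · rw [ble_false' hlt]
        have hf : findC s (L.map (chainEntries rk)) = [] := by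
          rw [hL, List.flatMap_eq_nil_iff]
          intro e' he'
          rw [List.mem_filter] at he'
          have h2 := hkeys e' he'.1
          have h3 : e'.1 = s := by simpa using he'.2
          omega
        rw [hf]; rfl

theorem sum_filter_map {α β : Type*} [AddCommMonoid β] (P : α → Bool) (f : α → β) (l : List α) :
    ((l.filter P).map f).sum = (l.map fun q => if P q then f q else 0).sum := by
  induction l with
  | nil => rfl
  | cons a l ih =>
    by_cases h : P a
    · simp [h, ih]
    · simp [h, ih]

theorem sum_range_ite {β : Type*} [AddCommMonoid β] (f : ℕ → β) (n k : ℕ) :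
    ((List.range n).map fun i => if i = k then f i else 0).sum = if k < n then f k else 0 := by
  induction n with
  | zero => simp
  | succ n ih =>
    rw [List.range_succ, List.map_append, List.sum_append, ih]
    simp only [List.map_cons, List.map_nil, List.sum_cons, List.sum_nil, add_zero]
    by_cases h1 : k < n
    · have h2 : k < n + 1 := by omega
      have h3 : n ≠ k := by omega
      simp [h1, h2, h3]
    · by_cases h2 : k = n
      · subst h2; simp
      · have h3 : ¬ k < n + 1 := by omega
        have h4 : n ≠ k := by omega
        simp [h1, h3, h4]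

/-- Evaluation of a chain column. -/
theorem svev_chainCol (a b : F) (j : ℕ) (p : Poly) (L : List (ℕ × ℕ × ℤ)) (k : ℕ) :
    svev a b (chainCol j p L) k = (if j = k then 1 else 0) +
      (L.map fun e => if e.1 = k then (e.2.2 : F) * pev a b p ^ e.2.1 else 0).sum := by
  induction L with
  | nil =>
    show svev a b [(j, pconst 1)] k = _
    rw [svev_cons, svev_nil]
    by_cases h : j = k <;> simp [h, pev_pconst]
  | cons e L ih =>
    show svev a b (svIns (e.1, pmul (pconst e.2.2) (ppow p e.2.1)) (chainCol j p L)) k = _
    rw [svev_svIns, ih]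
    simp only [pev_pmul, pev_pconst, pev_ppow, List.map_cons, List.sum_cons]
    ring

theorem svev_negCol (a b : F) (T : RT) (j : ℕ) (p : Poly) (k : ℕ) :
    svev a b (negCol T j p) k = (T.ncol.map fun e => if e.1 = k then (e.2 : F) * pev a b p else 0).sum +
      ((if T.rank + T.r = k then -(pev a b p ^ 2) else 0) + (if j = k then 1 else 0)) := by
  unfold negCol
  induction T.ncol with
  | nil =>
    show svev a b (svIns (Nat.add T.rank T.r, pmul (pconst (-1)) (ppow p 2)) [(j, pconst 1)]) k = _
    rw [svev_svIns, svev_cons, svev_nil]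
    simp only [pev_pmul, pev_pconst, pev_ppow, List.map_nil, List.sum_nil, zero_add]
    have h0 : Nat.add T.rank T.r = T.rank + T.r := rfl
    rw [h0]
    by_cases h1 : T.rank + T.r = k <;> by_cases h2 : j = k <;> simp [h1, h2]
  | cons e L ih =>
    show svev a b (svIns (e.1, pmul (pconst e.2) p) _) k = _
    rw [svev_svIns, ih]
    simp only [pev_pmul, pev_pconst, List.map_cons, List.sum_cons]
    ring

theorem chain_sum_aux (rk u : ℕ) (t : F) (z : List ((ℕ × ℤ) × ℕ)) :
    ((z.map fun q => ((Nat.add rk q.1.1, Nat.add q.2 1, q.1.2) : ℕ × ℕ × ℤ)).map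
        fun e => if e.1 = rk + u then (e.2.2 : F) * t ^ e.2.1 else 0).sum =
      (((z.filter fun q => decide (q.1.1 = u)).map fun q => ((q.2 + 1, q.1.2) : ℕ × ℤ)).map
        fun km => (km.2 : F) * t ^ km.1).sum := by
  induction z with
  | nil => rfl
  | cons q z ih =>
    by_cases h : q.1.1 = u
    · simp only [List.map_cons, List.sum_cons, List.filter_cons, h, decide_true, if_true]
      rw [← ih]
      have : Nat.add rk u = rk + u := rfl
      simp [this]
    · simp only [List.map_cons, List.sum_cons, List.filter_cons]
      have h2 : ¬ (Nat.add rk q.1.1 = rk + u) := by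
        show ¬ (rk + q.1.1 = rk + u)
        omega
      simp only [h, h2, decide_false, if_false, zero_add, Bool.false_eq_true]
      exact ih

theorem chain_sum (rk u : ℕ) (t : F) (LL : List (ℕ × Array (ℕ × ℤ))) :
    ((LL.flatMap fun e => (chainEntries rk e).2).map
        fun e => if e.1 = rk + u then (e.2.2 : F) * t ^ e.2.1 else 0).sum =
      ((LL.flatMap fun e => (e.2.toList.zipIdx.filter fun q => decide (q.1.1 = u)).map
          fun q => ((q.2 + 1, q.1.2) : ℕ × ℤ)).map fun km => (km.2 : F) * t ^ km.1).sum := by
  induction LL with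
  | nil => rfl
  | cons e LL ih =>
    simp only [List.flatMap_cons, List.map_append, List.sum_append, ih]
    congr 1
    exact chain_sum_aux rk u t _

theorem chain_sum_low (rk i : ℕ) (hi : i < rk) (t : F) (LL : List (ℕ × Array (ℕ × ℤ))) :
    ((LL.flatMap fun e => (chainEntries rk e).2).map
        fun e => if e.1 = i then (e.2.2 : F) * t ^ e.2.1 else 0).sum = 0 := by
  apply List.sum_eq_zero
  intro x hx
  obtain ⟨e, he, rfl⟩ := List.mem_map.mp hx
  obtain ⟨e', _, he'⟩ := List.mem_flatMap.mp he
  obtain ⟨q, _, rfl⟩ := List.mem_map.mp he'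
  have : ¬ (Nat.add rk q.1.1 = i) := by
    show ¬ (rk + q.1.1 = i)
    omega
  exact if_neg this

/-- The symbolic column of a root element is its true column. -/
theorem x_apply {r : ℕ} (hr : r < D.nroots)
    (hs : ((D.chain.getD r #[]).toList.map Prod.fst).Pairwise (· < ·)) (a b : F) (p : Poly) (u j : D.Idx) :
    D.x F r (pev a b p) u j = svev a b (xCol (mkRT D r) p (enc D j)) (enc D u) := by
  have h0 : D.x F r (pev a b p) = D.xMat F ⟨r, hr⟩ (pev a b p) := by
    simp [ChevalleyDatum.x, hr]
  rw [h0]
  rcases j with i | s
  · -- the column of a fundamental coroot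
    have hi : i.val < D.rank := i.2
    have h1 : Nat.blt (enc D (Sum.inl i)) (mkRT D r).rank = true := blt_true' hi
    unfold xCol
    rw [h1, cond_true]
    rw [svev_svIns, svev_cons, svev_nil]
    simp only [pev_pmul, pev_pconst]
    rcases u with i' | v
    · have hi' : i'.val < D.rank := i'.2
      have h2 : ¬ (Nat.add (mkRT D r).rank (mkRT D r).r = enc D (Sum.inl i')) := by
        show ¬ (D.rank + r = i'.val)
        omega
      rw [if_neg h2]
      show (if i' = i then (1 : F) else 0) = 0 + ((if i.val = i'.val then ((1 : ℤ) : F) else 0) + 0)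
      by_cases h3 : i' = i
      · subst h3; simp
      · have : i.val ≠ i'.val := fun h => h3 (Fin.ext h.symm)
        simp [h3, this]
    · have h2 : (Nat.add (mkRT D r).rank (mkRT D r).r = enc D (Sum.inr v)) ↔ v.val = r := by
        show (D.rank + r = D.rank + v.val) ↔ _
        omega
      have h3 : ¬ (enc D (Sum.inl i) = enc D (Sum.inr v)) := by
        show ¬ (i.val = D.rank + v.val)
        omega
      rw [if_neg h3]
      show (if v = ⟨r, hr⟩ then -(((D.cartanSR.getD i.val #[]).getD r 0 : ℤ) : F) * pev a b p else 0) = _
      by_cases h4 : v.val = r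
      · have h5 : v = ⟨r, hr⟩ := Fin.ext h4
        rw [if_pos h5, if_pos (h2.mpr h4)]
        show _ = ((-(D.cartanSR.getD i.val #[]).getD r 0 : ℤ) : F) * pev a b p + (0 + 0)
        push_cast; simp
      · have h5 : v ≠ ⟨r, hr⟩ := fun h => h4 (congrArg Fin.val h)
        rw [if_neg h5, if_neg (fun h => h4 (h2.mp h))]
        simp
  · -- the column of a root vector
    have hsn : s.val < D.nroots := s.2
    have e0 : Nat.sub (enc D (Sum.inr s)) (mkRT D r).rank = s.val := by
      show D.rank + s.val - D.rank = s.val
      omega
    have h1 : Nat.blt (enc D (Sum.inr s)) (mkRT D r).rank = false := by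
      apply blt_false'
      show ¬ (D.rank + s.val < D.rank)
      omega
    have h2 : Nat.blt (enc D (Sum.inr s)) (Nat.add (mkRT D r).rank (mkRT D r).nroots) = true := by
      apply blt_true'
      show (D.rank + s.val < D.rank + D.nroots)
      omega
    have hk : ∀ v : Fin D.nroots, enc D (Sum.inr v) = D.rank + v.val := fun _ => rfl
    have hkl : ∀ i : Fin D.rank, enc D (Sum.inl i) = i.val := fun _ => rfl
    unfold xCol
    rw [h1, cond_false, h2, cond_true, e0]
    by_cases hsr : s.val = r
    · -- `s = r`
      have h3 : s = ⟨r, hr⟩ := Fin.ext hsr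
      rw [beq_true' (show s.val = (mkRT D r).r from hsr), cond_true, svev_cons, svev_nil]
      rcases u with i' | v
      · have h4 : ¬ (enc D (Sum.inr s) = enc D (Sum.inl i')) := by
          rw [hk, hkl]
          have := i'.2
          omega
        rw [if_neg h4]
        show (if s = ⟨r, hr⟩ then (0 : F) else _) = _
        rw [if_pos h3]
        simp
      · show (if s = ⟨r, hr⟩ then (if v = ⟨r, hr⟩ then (1 : F) else 0) else _) = _
        rw [if_pos h3]
        by_cases h4 : v = ⟨r, hr⟩
        · have : enc D (Sum.inr s) = enc D (Sum.inr v) := by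
            rw [hk, hk, h3, h4]
          rw [if_pos h4, if_pos this, pev_pconst]
          simp
        · have : ¬ (enc D (Sum.inr s) = enc D (Sum.inr v)) := by
            rw [hk, hk]
            intro h5
            apply h4
            apply Fin.ext
            show v.val = r
            omega
          rw [if_neg h4, if_neg this]
          simp
    · have h3 : s ≠ ⟨r, hr⟩ := fun h => hsr (congrArg Fin.val h)
      rw [beq_false' (show s.val ≠ (mkRT D r).r from hsr), cond_false]
      by_cases hsn' : s.val = D.negIdx.getD r 0
      · -- `s = -r`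
        rw [beq_true' (show s.val = (mkRT D r).neg from hsn'), cond_true, svev_negCol]
        have hm : ((mkRT D r).ncol.map fun e => if e.1 = enc D u then (e.2 : F) * pev a b p else 0) =
            ((List.range D.rank).map fun i => if i = enc D u then
              (((D.coroot.getD r #[]).getD i 0 : ℤ) : F) * pev a b p else 0) := by
          show (((List.range D.rank).map fun i => (i, (D.coroot.getD r #[]).getD i 0)).map _) = _
          rw [List.map_map]
          rfl
        rw [hm, sum_range_ite (fun i => (((D.coroot.getD r #[]).getD i 0 : ℤ) : F) * pev a b p)]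
        have ht : (mkRT D r).rank + (mkRT D r).r = D.rank + r := rfl
        rw [ht]
        rcases u with i' | v
        · have h4 : ¬ (enc D (Sum.inr s) = enc D (Sum.inl i')) := by
            rw [hk, hkl]
            have := i'.2
            omega
          have h5 : ¬ (D.rank + r = enc D (Sum.inl i')) := by
            rw [hkl]
            have := i'.2
            omega
          have h6 : enc D (Sum.inl i') < D.rank := i'.2
          rw [if_neg h4, if_neg h5, if_pos h6, hkl]
          show (if s = ⟨r, hr⟩ then (0 : F) else if s.val = D.negIdx.getD r 0 then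
            (((D.coroot.getD r #[]).getD i'.val 0 : ℤ) : F) * pev a b p else 0) = _
          rw [if_neg h3, if_pos hsn']
          simp
        · have h6 : ¬ (enc D (Sum.inr v) < D.rank) := by
            rw [hk]
            omega
          rw [if_neg h6]
          show (if s = ⟨r, hr⟩ then (if v = ⟨r, hr⟩ then (1 : F) else 0) else if s.val = D.negIdx.getD r 0 then
            (if v = s then 1 else if v = ⟨r, hr⟩ then -(pev a b p ^ 2) else 0) else _) = _
          rw [if_neg h3, if_pos hsn']
          by_cases h7 : v = s
          · subst h7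
            have h8 : ¬ (D.rank + r = enc D (Sum.inr v)) := by
              rw [hk]
              omega
            rw [if_neg h8]
            simp
          · have h8 : ¬ (enc D (Sum.inr s) = enc D (Sum.inr v)) := fun h => h7 (Sum.inr.inj (enc_inj D h)).symm
            simp only [if_neg h7, if_neg h8]
            by_cases h9 : v = ⟨r, hr⟩
            · have h10 : D.rank + r = enc D (Sum.inr v) := by
                rw [hk, h9]
              rw [if_pos h9, if_pos h10]
              simp
            · have h10 : ¬ (D.rank + r = enc D (Sum.inr v)) := by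
                rw [hk]
                intro h
                apply h9
                apply Fin.ext
                show v.val = r
                omega
              rw [if_neg h9, if_neg h10]
              simp
      · -- the chain case
        rw [beq_false' (show s.val ≠ (mkRT D r).neg from hsn'), cond_false, svev_chainCol]
        have hf : findC s.val (mkRT D r).chain =
            ((D.chain.getD r #[]).toList.filter fun e => decide (e.1 = s.val)).flatMap
              fun e => (chainEntries D.rank e).2 := findC_eq D.rank _ hs s.val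
        rw [hf]
        rcases u with i' | v
        · have h4 : ¬ (enc D (Sum.inr s) = enc D (Sum.inl i')) := by
            rw [hk, hkl]
            have := i'.2
            omega
          rw [if_neg h4, zero_add]
          have h5 : enc D (Sum.inl i') < D.rank := i'.2
          rw [chain_sum_low D.rank _ h5]
          show (if s = ⟨r, hr⟩ then (0 : F) else if s.val = D.negIdx.getD r 0 then _ else 0) = _
          rw [if_neg h3, if_neg hsn']
        · rw [hk v, hk s, chain_sum]
          show (if s = ⟨r, hr⟩ then _ else if s.val = D.negIdx.getD r 0 then _ else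
            (if v = s then (1 : F) else 0) + ((D.chainCoeff r s.val v.val).map
              fun km => ((km.2 : ℤ) : F) * pev a b p ^ km.1).sum) = _
          rw [if_neg h3, if_neg hsn']
          congr 1
          by_cases h7 : v = s
          · subst h7; simp
          · have h8 : ¬ (D.rank + s.val = D.rank + v.val) := by
              intro h
              apply h7
              apply Fin.ext
              omega
            rw [if_neg h7, if_neg h8]

/-- Linearity: a sum over columns against a sparse vector. -/
theorem sum_col (M : Matrix D.Idx D.Idx F) (colS : ℕ → SV) (a b : F)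
    (hcol : ∀ u j, M u j = svev a b (colS (enc D j)) (enc D u))
    (hout : ∀ j, ¬ j < D.rank + D.nroots → colS j = [])
    (L : SV) (u : D.Idx) :
    ∑ j, M u j * svev a b L (enc D j) =
      svev a b (List.rec (motive := fun _ => SV) [] (fun m _ ih => svAdd (svScale m.2 (colS m.1)) ih) L) (enc D u) := by
  induction L with
  | nil => simp
  | cons m L ih =>
    show _ = svev a b (svAdd (svScale m.2 (colS m.1)) _) _
    rw [svev_svAdd, svev_svScale, ← ih]
    simp only [svev_cons, mul_add, Finset.sum_add_distrib]
    congr 1
    by_cases hm : m.1 < D.rank + D.nroots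
    · obtain ⟨j₀, hj₀⟩ := exists_enc D hm
      rw [Finset.sum_eq_single j₀]
      · rw [if_pos hj₀.symm, hcol, hj₀]; ring
      · intro j _ hj
        have : ¬ (m.1 = enc D j) := by
          rw [← hj₀]
          exact fun h => hj (enc_inj D h).symm
        rw [if_neg this, mul_zero]
      · simp
    · rw [hout _ hm, svev_nil, mul_zero]
      apply Finset.sum_eq_zero
      intro j _
      have : ¬ (m.1 = enc D j) := by
        intro h
        apply hm
        rw [h]
        exact enc_lt D j
      rw [if_neg this, mul_zero]

theorem xCol_out (T : RT) (p : Poly) (j : ℕ) (hT : ¬ j < T.rank + T.nroots) : xCol T p j = [] := by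
  unfold xCol
  rw [blt_false' (show ¬ j < T.rank by omega), cond_false, blt_false' (show ¬ j < Nat.add T.rank T.nroots from hT), cond_false]

/-- Well-formedness used by the soundness theorems: chain keys increase. -/
def ChainSorted (D : ChevalleyDatum) : Prop :=
  ∀ r < D.nroots, ((D.chain.getD r #[]).toList.map Prod.fst).Pairwise (· < ·)

theorem chainSorted_of (h : chainSortedB D = true) : ChainSorted D := by
  intro r hr
  have h1 := (allL_iff _ _).mp h r (List.mem_range.mpr hr)
  exact sortedKeys_spec _ h1

variable {D}

theorem actR_spec (hS : ChainSorted D) (r : ℕ) (a b : F) (p : Poly) (L : SV) (u : D.Idx) :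
    ∑ j, D.x F r (pev a b p) u j * svev a b L (enc D j) = svev a b (actR D r p L) (enc D u) := by
  by_cases hr : r < D.nroots
  · unfold actR
    rw [blt_true' hr, cond_true]
    exact sum_col D _ (xCol (mkRT D r) p) a b (fun u j => x_apply D hr (hS r hr) a b p u j)
      (fun j hj => xCol_out _ _ _ hj) L u
  · unfold actR
    rw [blt_false' hr, cond_false]
    have h0 : D.x F r (pev a b p) = 1 := by
      simp [ChevalleyDatum.x, hr]
    rw [h0]
    simp [Matrix.one_apply]

/-- The evaluated word. -/
def evW (a b : F) (w : List (ℕ × Poly)) : List (ℕ × F) := w.map fun m => (m.1, pev a b m.2)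

theorem wordAct_spec (hS : ChainSorted D) (a b : F) (w : List (ℕ × Poly)) (L : SV) (u : D.Idx) :
    ∑ j, D.wordMat F (evW a b w) u j * svev a b L (enc D j) = svev a b (wordAct D w L) (enc D u) := by
  induction w generalizing u with
  | nil =>
    simp [evW, ChevalleyDatum.wordMat, Matrix.one_apply]
    rfl
  | cons m w ih =>
    show _ = svev a b (actR D m.1 m.2 (wordAct D w L)) (enc D u)
    rw [← actR_spec hS]
    have h1 : D.wordMat F (evW a b (m :: w)) = D.x F m.1 (pev a b m.2) * D.wordMat F (evW a b w) := by
      simp [evW, ChevalleyDatum.wordMat]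
    rw [h1]
    simp only [Matrix.mul_apply, Finset.sum_mul]
    rw [Finset.sum_comm]
    apply Finset.sum_congr rfl
    intro k _
    rw [← ih k]
    rw [Finset.mul_sum]
    apply Finset.sum_congr rfl
    intro j _
    ring

/-- The entries of a word matrix. -/
theorem wordMat_apply' (hS : ChainSorted D) (a b : F) (w : List (ℕ × Poly)) (u j : D.Idx) :
    D.wordMat F (evW a b w) u j = svev a b (wordAct D w [(enc D j, pconst 1)]) (enc D u) := by
  rw [← wordAct_spec hS]
  rw [Finset.sum_eq_single j]
  · simp [pev_pconst]
  · intro k _ hk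
    have : ¬ (enc D j = enc D k) := fun h => hk (enc_inj D h).symm
    simp [this]
  · simp

/-- Word identity from symbolic identity on all columns. -/
noncomputable def checkWords (D : ChevalleyDatum) (w₁ w₂ : List (ℕ × Poly)) : Bool :=
  allL (fun j => svEq (wordAct D w₁ [(j, pconst 1)]) (wordAct D w₂ [(j, pconst 1)]))
    (List.range (D.rank + D.nroots))

theorem wordMat_eq_of_check (hS : ChainSorted D) {w₁ w₂ : List (ℕ × Poly)} (h : checkWords D w₁ w₂ = true)
    (a b : F) : D.wordMat F (evW a b w₁) = D.wordMat F (evW a b w₂) := by
  ext u j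
  rw [wordMat_apply' hS, wordMat_apply' hS]
  have h1 := (allL_iff _ _).mp h (enc D j) (List.mem_range.mpr (enc_lt D j))
  rw [svEq_eq h1]

/-- The columns on which some letter with root in `rs` can act non-trivially. -/
noncomputable def colsOf (D : ChevalleyDatum) (rs : List ℕ) : List ℕ :=
  List.range D.rank ++ rs.flatMap fun r =>
    Nat.add D.rank (D.negIdx.getD r 0) :: ((D.chain.getD r #[]).toList.map fun e => Nat.add D.rank e.1)

theorem findC_nil_of_not_mem (L : List (ℕ × List (ℕ × ℕ × ℤ))) (s : ℕ) (h : s ∉ L.map Prod.fst) : findC s L = [] := by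
  induction L with
  | nil => rfl
  | cons e L ih =>
    show cond (Nat.ble e.1 s) (cond (Nat.beq e.1 s) e.2 (findC s L)) [] = []
    have h1 : e.1 ≠ s := by
      intro h2
      apply h
      rw [← h2]
      simp
    have h2 : s ∉ L.map Prod.fst := fun h3 => h (List.mem_cons_of_mem _ h3)
    rw [beq_false' h1, cond_false, ih h2]
    cases Nat.ble e.1 s <;> rfl

theorem pconst_one_mul : pmul (pconst 1) (pconst 1) = pconst 1 := rfl

theorem actX_fixed (T : RT) (p : Poly) (j : ℕ) (h : xCol T p j = [(j, pconst 1)]) :
    actX T p [(j, pconst 1)] = [(j, pconst 1)] := by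
  show svAdd (svScale (pconst 1) (xCol T p j)) [] = _
  rw [h]
  rfl

theorem wordAct_fixed (D : ChevalleyDatum) (rs : List ℕ) (w : List (ℕ × Poly)) (hw : ∀ m ∈ w, m.1 ∈ rs) (j : ℕ)
    (hj : j < D.rank + D.nroots) (hc : j ∉ colsOf D rs) :
    wordAct D w [(j, pconst 1)] = [(j, pconst 1)] := by
  induction w with
  | nil => rfl
  | cons m w ih =>
    show actR D m.1 m.2 (wordAct D w [(j, pconst 1)]) = _
    rw [ih (fun x hx => hw x (List.mem_cons_of_mem _ hx))]
    unfold actR
    by_cases hr : m.1 < D.nroots
    · rw [blt_true' hr, cond_true]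
      apply actX_fixed
      have hm : m.1 ∈ rs := hw m (List.mem_cons_self ..)
      have h1 : ¬ j < D.rank := by
        intro h
        apply hc
        exact List.mem_append_left _ (List.mem_range.mpr h)
      have h2 : ∀ x, x ∈ (Nat.add D.rank (D.negIdx.getD m.1 0) :: ((D.chain.getD m.1 #[]).toList.map fun e => Nat.add D.rank e.1)) → j ≠ x := by
        intro x hx hjx
        apply hc
        apply List.mem_append_right
        rw [List.mem_flatMap]
        exact ⟨m.1, hm, hjx ▸ hx⟩
      have h3 : Nat.sub j D.rank ≠ D.negIdx.getD m.1 0 := by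
        intro h
        apply h2 _ (List.mem_cons_self ..)
        show j = D.rank + D.negIdx.getD m.1 0
        have : j - D.rank = D.negIdx.getD m.1 0 := h
        omega
      have h4 : Nat.sub j D.rank ∉ (mkRT D m.1).chain.map Prod.fst := by
        intro h
        obtain ⟨e, he, he'⟩ := List.mem_map.mp h
        obtain ⟨e', he2, rfl⟩ := List.mem_map.mp he
        apply h2 (Nat.add D.rank e'.1) (List.mem_cons_of_mem _ (List.mem_map_of_mem he2))
        show j = D.rank + e'.1
        have : e'.1 = j - D.rank := he'
        omega
      unfold xCol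
      rw [blt_false' (show ¬ j < (mkRT D m.1).rank from h1), cond_false,
        blt_true' (show j < Nat.add (mkRT D m.1).rank (mkRT D m.1).nroots from hj), cond_true]
      by_cases h5 : Nat.sub j D.rank = m.1
      · rw [beq_true' (show Nat.sub j (mkRT D m.1).rank = (mkRT D m.1).r from h5), cond_true]
      · rw [beq_false' (show Nat.sub j (mkRT D m.1).rank ≠ (mkRT D m.1).r from h5), cond_false,
          beq_false' (show Nat.sub j (mkRT D m.1).rank ≠ (mkRT D m.1).neg from h3), cond_false]
        show chainCol j m.2 (findC (Nat.sub j D.rank) (mkRT D m.1).chain) = _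
        rw [findC_nil_of_not_mem _ _ h4]
        rfl
    · rw [blt_false' hr, cond_false]

noncomputable def memB (x : ℕ) (L : List ℕ) : Bool :=
  List.rec (motive := fun _ => Bool) false (fun y _ ih => cond (Nat.beq y x) true ih) L

theorem memB_mem {x : ℕ} {L : List ℕ} (h : memB x L = true) : x ∈ L := by
  induction L with
  | nil => exact absurd h (by simp [memB])
  | cons y L ih =>
    have h' : cond (Nat.beq y x) true (memB x L) = true := h
    cases h1 : Nat.beq y x
    · rw [h1] at h'
      exact List.mem_cons_of_mem _ (ih h')
    · rw [Nat.eq_of_beq_eq_true h1]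
      exact List.mem_cons_self ..

/-- Word identity from a symbolic identity on the relevant columns only. -/
noncomputable def checkOn (D : ChevalleyDatum) (rs : List ℕ) (w₁ w₂ : List (ℕ × Poly)) : Bool :=
  cond (allL (fun m => memB m.1 rs) w₁)
    (cond (allL (fun m => memB m.1 rs) w₂)
      (allL (fun j => svEq (wordAct D w₁ [(j, pconst 1)]) (wordAct D w₂ [(j, pconst 1)])) (colsOf D rs)) false) false

theorem wordMat_eq_of_checkOn (hS : ChainSorted D) {rs : List ℕ} {w₁ w₂ : List (ℕ × Poly)}
    (h : checkOn D rs w₁ w₂ = true) (a b : F) : D.wordMat F (evW a b w₁) = D.wordMat F (evW a b w₂) := by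
  unfold checkOn at h
  cases h1 : allL (fun m => memB m.1 rs) w₁
  · rw [h1] at h; exact absurd h (by simp)
  · cases h2 : allL (fun m => memB m.1 rs) w₂
    · rw [h1, h2] at h; exact absurd h (by simp)
    · rw [h1, h2] at h
      simp only [cond_true] at h
      have hw1 : ∀ m ∈ w₁, m.1 ∈ rs := fun m hm => memB_mem ((allL_iff _ _).mp h1 m hm)
      have hw2 : ∀ m ∈ w₂, m.1 ∈ rs := fun m hm => memB_mem ((allL_iff _ _).mp h2 m hm)
      ext u j
      rw [wordMat_apply' hS, wordMat_apply' hS]
      by_cases hj : enc D j ∈ colsOf D rs
      · have h3 := (allL_iff _ _).mp h (enc D j) hj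
        rw [svEq_eq h3]
      · rw [wordAct_fixed D rs w₁ hw1 _ (enc_lt D j) hj, wordAct_fixed D rs w₂ hw2 _ (enc_lt D j) hj]

/-- The variables as polynomials. -/
def pa : Poly := [(1, 0, 1)]
def pb : Poly := [(0, 1, 1)]

@[simp] theorem pev_pa (a b : F) : pev a b pa = a := by simp [pa, Mon.ev]
@[simp] theorem pev_pb (a b : F) : pev a b pb = b := by simp [pb, Mon.ev]

end soundness

end Cfsg.Agent.Lib.ChevSym
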