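import Cfsg.Agent.Lib.ChevBN2

/-! Normal forms in the unipotent groups (helper4). -/

set_option autoImplicit false
set_option linter.all false

namespace Cfsg.Agent.Lib.ChevSym

open Cfsg.Lie Cfsg.Lie.ChevalleyDatum Matrix Cfsg.Agent.Lib.MatFilt

variable {F : Type*} [Field F] {D : ChevalleyDatum} {C : Cert} {T : Tab}

/-- For each root `r`, a chain entry `e_v ↦ e_v ± t e_u + ⋯`. -/
structure Tab7 where
  pivU : List ℕ
  pivV : List ℕ

section checks

variable (D : ChevalleyDatum) (X : Tab7)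

noncomputable def pivCheck1 (r : ℕ) : Bool :=
  cond (Nat.blt (getL X.pivU r) D.nroots) (cond (Nat.blt (getL X.pivV r) D.nroots)
    (cond (Nat.beq (getL X.pivV r) r) false (cond (Nat.beq (getL X.pivV r) (D.neg r)) false
      (cond (Nat.beq (getL X.pivU r) (getL X.pivV r)) false
        (match D.chainCoeff r (getL X.pivV r) (getL X.pivU r) with
         | [(1, Int.ofNat 1)] => true
         | [(1, Int.negSucc 0)] => true
         | _ => false)))) false) false

noncomputable def pivCheck : Bool := allL (pivCheck1 D X) (List.range D.nroots)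

end checks

theorem piv_spec {X : Tab7} (h : pivCheck D X = true) {r : ℕ} (hr : r < D.nroots) :
    ∃ (u v : ℕ) (M : ℤ), u < D.nroots ∧ v < D.nroots ∧ v ≠ r ∧ v ≠ D.neg r ∧ u ≠ v ∧ (M = 1 ∨ M = -1) ∧
      D.chainCoeff r v u = [(1, M)] := by
  have h1 := (allL_iff _ _).mp h r (List.mem_range.mpr hr)
  unfold pivCheck1 at h1
  cases e1 : Nat.blt (getL X.pivU r) D.nroots
  · rw [e1] at h1; exact absurd h1 (by simp)
  rw [e1, cond_true] at h1
  cases e2 : Nat.blt (getL X.pivV r) D.nroots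
  · rw [e2] at h1; exact absurd h1 (by simp)
  rw [e2, cond_true] at h1
  cases e3 : Nat.beq (getL X.pivV r) r
  swap
  · rw [e3] at h1; exact absurd h1 (by simp)
  rw [e3, cond_false] at h1
  cases e4 : Nat.beq (getL X.pivV r) (D.neg r)
  swap
  · rw [e4] at h1; exact absurd h1 (by simp)
  rw [e4, cond_false] at h1
  cases e5 : Nat.beq (getL X.pivU r) (getL X.pivV r)
  swap
  · rw [e5] at h1; exact absurd h1 (by simp)
  rw [e5, cond_false] at h1
  have hM : ∃ M : ℤ, (M = 1 ∨ M = -1) ∧ D.chainCoeff r (getL X.pivV r) (getL X.pivU r) = [(1, M)] := by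
    revert h1
    generalize D.chainCoeff r (getL X.pivV r) (getL X.pivU r) = L
    intro h1
    match L, h1 with
    | [(1, Int.ofNat 1)], _ => exact ⟨1, Or.inl rfl, rfl⟩
    | [(1, Int.negSucc 0)], _ => exact ⟨-1, Or.inr rfl, rfl⟩
  obtain ⟨M, hM1, hM2⟩ := hM
  refine ⟨_, _, M, Nat.le_of_ble_eq_true e1, Nat.le_of_ble_eq_true e2, ?_, ?_, ?_, hM1, hM2⟩
  · intro h3
    rw [beq_true' h3] at e3
    exact absurd e3 (by simp)
  · intro h3
    rw [beq_true' h3] at e4
    exact absurd e4 (by simp)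
  · intro h3
    rw [beq_true' h3] at e5
    exact absurd e5 (by simp)

/-- A root element of degree higher than expected is trivial. -/
theorem t_eq_zero_of_deg {X : Tab7} (hP : pivCheck D X = true) {κ : ℕ → ℤ} (hκ : GradeOK D κ) {r : ℕ} (hr : r < D.nroots)
    {t : F} (h : Deg (kap D κ) (κ r + 1) (D.x F r t - 1)) : t = 0 := by
  obtain ⟨u, v, M, hu, hv, h1, h2, h3, hM, hc⟩ := piv_spec hP hr
  have hE : xE D r (Sum.inr ⟨u, hu⟩) (Sum.inr ⟨v, hv⟩) = [(1, M)] := by
    show (if v = r then [] else if v = D.negIdx.getD r 0 then _ else D.chainCoeff r v u) = _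
    rw [if_neg h1, if_neg (show ¬ v = D.negIdx.getD r 0 from h2), hc]
  have hmem : (1, M) ∈ xE D r (Sum.inr ⟨u, hu⟩) (Sum.inr ⟨v, hv⟩) := by
    rw [hE]
    simp
  obtain ⟨_, hdeg⟩ := hκ.xE_deg hr hmem
  have h4 := h (Sum.inr ⟨u, hu⟩) (Sum.inr ⟨v, hv⟩) (by
    rw [hdeg]
    simp)
  have hne : (Sum.inr ⟨u, hu⟩ : D.Idx) ≠ Sum.inr ⟨v, hv⟩ := fun h5 => h3 (congrArg Fin.val (Sum.inr.inj h5))
  rw [Matrix.sub_apply, x_eq_E hr, hE, Matrix.one_apply_ne hne] at h4
  simp only [zero_add, sub_zero, List.map_cons, List.map_nil, List.sum_cons, List.sum_nil, add_zero, pow_one] at h4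
  rcases hM with rfl | rfl <;> simpa using h4

/-- Product of root elements along a list of roots. -/
noncomputable def gw (hG : Good D C) (t : ℕ → F) (L : List ℕ) : GL D.Idx F :=
  (L.map fun r => gx hG F r (t r)).prod

theorem gw_nil (hG : Good D C) (t : ℕ → F) : gw hG t [] = 1 := rfl

theorem gw_cons (hG : Good D C) (t : ℕ → F) (r : ℕ) (L : List ℕ) : gw hG t (r :: L) = gx hG F r (t r) * gw hG t L := by
  simp [gw]

theorem gw_congr (hG : Good D C) {t t' : ℕ → F} {L : List ℕ} (h : ∀ r ∈ L, t r = t' r) : gw hG t L = gw hG t' L := by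
  unfold gw
  congr 1
  apply List.map_congr_left
  intro r hr
  rw [h r hr]

theorem coe_gw (hG : Good D C) (t : ℕ → F) (L : List ℕ) :
    ((gw hG t L : GL D.Idx F) : Matrix D.Idx D.Idx F) = D.wordMat F (L.map fun r => (r, t r)) := by
  induction L with
  | nil => simp [gw_nil, wordMat_nil]
  | cons r L ih => rw [gw_cons, Units.val_mul, ih, List.map_cons, wordMat_cons, coe_gx]

theorem gw_mem_Xs (hG : Good D C) {P : ℕ → Prop} {t : ℕ → F} {L : List ℕ} (h : ∀ r ∈ L, P r) : gw hG t L ∈ Xs D F P := by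
  induction L with
  | nil => exact Subgroup.one_mem _
  | cons r L ih =>
    rw [gw_cons]
    exact Subgroup.mul_mem _ (gx_mem_Xs hG (h r (by simp)) _) (ih fun s hs => h s (by simp [hs]))

variable (A : AllGood D C T)
include A

/-- Words in high roots lie in a filtration group. -/
theorem gw_mem_flt {d : ℤ} (hd : 0 ≤ d) {t : ℕ → F} {L : List ℕ} (hL : ∀ r ∈ L, r < D.nroots ∧ d ≤ T.key r ∧ 0 < T.key r) :
    gw A.g1 t L ∈ fltSub (kap D T.key) F d hd := by
  induction L with
  | nil => exact Subgroup.one_mem _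
  | cons r L ih =>
    rw [gw_cons]
    obtain ⟨h1, h2, h3⟩ := hL r (by simp)
    exact Subgroup.mul_mem _ (gx_mem_flt A.g1 (gradeOK_key A) h1 hd h2 h3 _) (ih fun s hs => hL s (by simp [hs]))

/-- Uniqueness of the coefficients in the ordered product. -/
theorem gw_inj {X : Tab7} (hP : pivCheck D X = true) {t t' : ℕ → F} {L : List ℕ} (hL : L.Pairwise (· < ·))
    (hpos : ∀ r ∈ L, D.nroots / 2 ≤ r ∧ r < D.nroots) (h : gw A.g1 t L = gw A.g1 t' L) : ∀ r ∈ L, t r = t' r := by
  have hG := A.g1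
  induction L with
  | nil => simp
  | cons r L ih =>
    have hL' := List.pairwise_cons.mp hL
    rw [gw_cons, gw_cons] at h
    obtain ⟨hr1, hr2⟩ := hpos r (by simp)
    have hkr := A.g3.keyPos r hr2 hr1
    have hd : (0 : ℤ) ≤ T.key r + 1 := by omega
    have hF : ∀ t : ℕ → F, gw hG t L ∈ fltSub (kap D T.key) F (T.key r + 1) hd := by
      intro t
      apply gw_mem_flt A hd
      intro s hs
      have h1 := hL'.1 s hs
      obtain ⟨h2, h3⟩ := hpos s (by simp [hs])
      have h4 := key_lt A h1 h3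
      exact ⟨h3, by omega, by omega⟩
    have e : gx hG F r (t r - t' r) = gw hG t' L * (gw hG t L)⁻¹ := by
      have e1 : gx hG F r (t r - t' r) = (gx hG F r (t' r))⁻¹ * gx hG F r (t r) := by
        rw [gx_inv, gx_add]
        congr 1
        ring
      rw [e1]
      have e2 : gx hG F r (t r) = gx hG F r (t' r) * gw hG t' L * (gw hG t L)⁻¹ := by
        rw [← h]
        group
      rw [e2]
      group
    have hmem : gx hG F r (t r - t' r) ∈ fltSub (kap D T.key) F (T.key r + 1) hd := by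
      rw [e]
      exact Subgroup.mul_mem _ (hF t') (Subgroup.inv_mem _ (hF t))
    have h0 := t_eq_zero_of_deg hP (gradeOK_key A) hr2 hmem.1
    have htt : t r = t' r := sub_eq_zero.mp h0
    intro s hs
    rcases List.mem_cons.mp hs with rfl | hs
    · exact htt
    · rw [htt] at h
      have h5 := mul_left_cancel h
      exact ih hL'.2 (fun q hq => hpos q (by simp [hq])) h5 s hs

/-- A set of positive roots closed under root sums. -/
structure IsClosedPos (D : ChevalleyDatum) (T : Tab) (Ψ : ℕ → Prop) : Prop where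
  pos : ∀ r, Ψ r → D.nroots / 2 ≤ r ∧ r < D.nroots
  closed : ∀ r s k, Ψ r → Ψ s → s ≠ r → k < D.nroots → RootSum D T r s k → Ψ k

open Classical in
/-- The sorted list of the roots of `Ψ` at least `k`. -/
noncomputable def filterL (D : ChevalleyDatum) (Ψ : ℕ → Prop) (k : ℕ) : List ℕ :=
  (List.range' k (D.nroots - k)).filter fun r => decide (Ψ r)

omit A in
theorem mem_filterL {Ψ : ℕ → Prop} {k r : ℕ} : r ∈ filterL D Ψ k ↔ k ≤ r ∧ r < D.nroots ∧ Ψ r := by
  classical
  unfold filterL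
  simp only [List.mem_filter, List.mem_range'_1, decide_eq_true_eq]
  constructor
  · rintro ⟨⟨a, b⟩, c⟩
    exact ⟨a, by omega, c⟩
  · rintro ⟨a, b, c⟩
    exact ⟨⟨a, by omega⟩, c⟩

omit A in
theorem filterL_pairwise {Ψ : ℕ → Prop} {k : ℕ} : (filterL D Ψ k).Pairwise (· < ·) := by
  classical
  unfold filterL
  exact (List.pairwise_lt_range').filter _

open Classical in
omit A in
theorem filterL_succ {Ψ : ℕ → Prop} {k : ℕ} (hk : k < D.nroots) :
    filterL D Ψ k = if Ψ k then k :: filterL D Ψ (k + 1) else filterL D Ψ (k + 1) := by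
  classical
  unfold filterL
  have e : D.nroots - k = (D.nroots - (k + 1)) + 1 := by omega
  rw [e, List.range'_succ, List.filter_cons]
  by_cases h : Ψ k <;> simp [h]

/-- Suffix of a closed set: the next root element normalizes the group of the higher roots. -/
theorem normalizes_suffix {tp : List (ℕ × ℕ)} (B5 : Good5 D C T tp) {Ψ : ℕ → Prop} (hΨ : IsClosedPos D T Ψ) {k : ℕ} (hk : Ψ k) (t : F) :
    gx A.g1 F k t ∈ Subgroup.normalizer (Xs D F (fun r => Ψ r ∧ k + 1 ≤ r) : Set (GL D.Idx F)) := by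
  obtain ⟨h1, h2⟩ := hΨ.pos k hk
  have hev := A.g3.even
  apply gx_mem_normalizer_Xs A B5 (fun s hs => (hΨ.pos s hs.1).2) h2
  · rintro ⟨h3, _⟩
    have h4 := (hΨ.pos _ h3).1
    rw [A.g3.negEq k h2] at h4
    omega
  · rintro s q ⟨hs, hsk⟩ hne hq hrs
    refine ⟨hΨ.closed k s q hk hs hne hq hrs, ?_⟩
    obtain ⟨a, b, ha, hb, h3⟩ := key_rootSum A hrs
    obtain ⟨h5, h6⟩ := hΨ.pos s hs
    have h7 := A.g3.keyPos s h6 h5
    have h8 := A.g3.keyPos k h2 h1
    have ha' : (1 : ℤ) ≤ a := by exact_mod_cast ha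
    have hb' : (1 : ℤ) ≤ b := by exact_mod_cast hb
    have h9 : T.key k < T.key q := by
      rw [h3]
      nlinarith
    have := (key_lt_iff A h2 hq).mp h9
    omega

omit A in
/-- `Ψ`-suffix at `k` splits as the root group of `k` and the next suffix. -/
theorem Xs_suffix_eq {Ψ : ℕ → Prop} {k : ℕ} (hk : Ψ k) :
    Xs D F (fun r => Ψ r ∧ k ≤ r) = D.rootSubgroup F k ⊔ Xs D F (fun r => Ψ r ∧ k + 1 ≤ r) := by
  apply le_antisymm
  · rw [Xs, Subgroup.closure_le]
    rintro g ⟨r, t, ⟨h1, h2⟩, h3⟩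
    by_cases hr : r = k
    · subst hr
      exact Subgroup.mem_sup_left (Subgroup.subset_closure ⟨t, h3⟩)
    · exact Subgroup.mem_sup_right (Subgroup.subset_closure ⟨r, t, ⟨h1, by omega⟩, h3⟩)
  · apply sup_le
    · rw [rootSubgroup, Subgroup.closure_le]
      rintro g ⟨t, h⟩
      exact Subgroup.subset_closure ⟨k, t, ⟨hk, le_rfl⟩, h⟩
    · exact Xs_mono (fun r hr => ⟨hr.1, by omega⟩)

omit A in
theorem Xs_suffix_eq' {Ψ : ℕ → Prop} {k : ℕ} (hk : ¬ Ψ k) :
    Xs D F (fun r => Ψ r ∧ k ≤ r) = Xs D F (fun r => Ψ r ∧ k + 1 ≤ r) := by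
  unfold Xs
  congr 1
  ext g
  constructor
  · rintro ⟨r, t, ⟨h1, h2⟩, h3⟩
    refine ⟨r, t, ⟨h1, ?_⟩, h3⟩
    have : r ≠ k := fun h => hk (h ▸ h1)
    omega
  · rintro ⟨r, t, ⟨h1, h2⟩, h3⟩
    exact ⟨r, t, ⟨h1, by omega⟩, h3⟩

/-- Ordered product for a closed set. -/
theorem exists_gw_suffix {tp : List (ℕ × ℕ)} (B5 : Good5 D C T tp) {Ψ : ℕ → Prop} (hΨ : IsClosedPos D T Ψ) :
    ∀ (j k : ℕ), D.nroots - k = j → ∀ g ∈ Xs D F (fun r => Ψ r ∧ k ≤ r), ∃ t : ℕ → F, g = gw A.g1 t (filterL D Ψ k) := by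
  intro j
  have hG := A.g1
  induction j with
  | zero =>
    intro k hk g hg
    have hbot : Xs D F (fun r => Ψ r ∧ k ≤ r) = ⊥ := by
      rw [Xs, Subgroup.closure_eq_bot_iff]
      rintro x ⟨r, t, ⟨h1, h2⟩, _⟩
      have := (hΨ.pos r h1).2
      omega
    rw [hbot, Subgroup.mem_bot] at hg
    have hL : filterL D Ψ k = [] := by
      rw [List.eq_nil_iff_forall_not_mem]
      intro r hr
      have := (mem_filterL.mp hr)
      omega
    exact ⟨fun _ => 0, by rw [hL, gw_nil, hg]⟩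
  | succ j ih =>
    intro k hk g hg
    have hkn : k < D.nroots := by omega
    rw [filterL_succ hkn]
    by_cases hΨk : Ψ k
    · rw [if_pos hΨk]
      rw [Xs_suffix_eq hΨk] at hg
      have hle : D.rootSubgroup F k ≤ Subgroup.normalizer (Xs D F (fun r => Ψ r ∧ k + 1 ≤ r) : Set (GL D.Idx F)) := by
        intro x hx
        obtain ⟨t, rfl⟩ := (mem_rootSubgroup_iff hG).mp hx
        exact normalizes_suffix A B5 hΨ hΨk t
      obtain ⟨m, hm, c, hc, rfl⟩ := exists_mul_sup hle hg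
      obtain ⟨s, rfl⟩ := (mem_rootSubgroup_iff hG).mp hm
      obtain ⟨t, rfl⟩ := ih (k + 1) (by omega) c hc
      refine ⟨fun r => if r = k then s else t r, ?_⟩
      rw [gw_cons]
      congr 1
      · simp
      · apply gw_congr
        intro r hr
        have := (mem_filterL.mp hr).1
        have hne : r ≠ k := by omega
        simp [hne]
    · rw [if_neg hΨk]
      rw [Xs_suffix_eq' hΨk] at hg
      exact ih (k + 1) (by omega) g hg

theorem exists_gw {tp : List (ℕ × ℕ)} (B5 : Good5 D C T tp) {Ψ : ℕ → Prop} (hΨ : IsClosedPos D T Ψ) {g : GL D.Idx F}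
    (hg : g ∈ Xs D F Ψ) : ∃ t : ℕ → F, g = gw A.g1 t (filterL D Ψ 0) := by
  refine exists_gw_suffix A B5 hΨ _ 0 rfl g ?_
  exact (Xs_mono (fun r hr => ⟨hr, Nat.zero_le _⟩)) hg

/-- A partition of the positive roots gives a factorization of `U`. -/
theorem U_split {tp : List (ℕ × ℕ)} (B5 : Good5 D C T tp) {Ψ₁ Ψ₂ : ℕ → Prop} (h : ∀ r, D.IsPosRoot r → Ψ₁ r ∨ Ψ₂ r) :
    ∀ g ∈ D.posUnipotent F, ∃ a ∈ Xs D F Ψ₁, ∃ b ∈ Xs D F Ψ₂, g = a * b := by
  have hG := A.g1
  have key : ∀ (j k : ℕ), D.nroots - k = j → ∀ g ∈ Xs D F (fun r => D.IsPosRoot r ∧ k ≤ r),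
      ∃ a ∈ Xs D F Ψ₁, ∃ b ∈ Xs D F Ψ₂, g = a * b := by
    intro j
    induction j with
    | zero =>
      intro k hk g hg
      have hbot : Xs D F (fun r => D.IsPosRoot r ∧ k ≤ r) = ⊥ := by
        rw [Xs, Subgroup.closure_eq_bot_iff]
        rintro x ⟨r, t, ⟨h1, h2⟩, _⟩
        have := h1.1
        omega
      rw [hbot, Subgroup.mem_bot] at hg
      exact ⟨1, Subgroup.one_mem _, 1, Subgroup.one_mem _, by simp [hg]⟩
    | succ j ih =>
      intro k hk g hg
      by_cases hΨk : D.IsPosRoot k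
      · rw [Xs_suffix_eq hΨk] at hg
        have hle : D.rootSubgroup F k ≤ Subgroup.normalizer (Xs D F (fun r => D.IsPosRoot r ∧ k + 1 ≤ r) : Set (GL D.Idx F)) := by
          intro x hx
          obtain ⟨t, rfl⟩ := (mem_rootSubgroup_iff hG).mp hx
          refine normalizes_suffix A B5 ⟨fun r hr => ?_, fun r s q hr hs hne hq hrs => ?_⟩ hΨk t
          · exact ⟨(A.g3.posIff r hr.1).mp hr, hr.1⟩
          · obtain ⟨a, b, ha, hb, h3⟩ := key_rootSum A hrs
            have h7 := A.g3.keyPos s hs.1 ((A.g3.posIff s hs.1).mp hs)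
            have h8 := A.g3.keyPos r hr.1 ((A.g3.posIff r hr.1).mp hr)
            have ha' : (1 : ℤ) ≤ a := by exact_mod_cast ha
            have hb' : (1 : ℤ) ≤ b := by exact_mod_cast hb
            refine (A.g3.posIff q hq).mpr ?_
            by_contra hN
            have := A.g3.keyNeg q hq (not_le.mp hN)
            nlinarith
        rcases h k hΨk with h1 | h2
        · obtain ⟨m, hm, c, hc, rfl⟩ := exists_mul_sup hle hg
          obtain ⟨s, rfl⟩ := (mem_rootSubgroup_iff hG).mp hm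
          obtain ⟨a, ha, b, hb, rfl⟩ := ih (k + 1) (by omega) c hc
          exact ⟨gx hG F k s * a, Subgroup.mul_mem _ (gx_mem_Xs hG h1 s) ha, b, hb, by group⟩
        · obtain ⟨c, hc, m, hm, rfl⟩ := exists_mul_sup' hle hg
          obtain ⟨s, rfl⟩ := (mem_rootSubgroup_iff hG).mp hm
          obtain ⟨a, ha, b, hb, rfl⟩ := ih (k + 1) (by omega) c hc
          exact ⟨a, ha, b * gx hG F k s, Subgroup.mul_mem _ hb (gx_mem_Xs hG h2 s), by group⟩
      · rw [Xs_suffix_eq' hΨk] at hg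
        exact ih (k + 1) (by omega) g hg
  intro g hg
  refine key _ 0 rfl g ?_
  exact (Xs_mono (fun r hr => ⟨hr, Nat.zero_le _⟩)) hg

end Cfsg.Agent.Lib.ChevSym
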