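import Cfsg.Agent.Lib.ChevCanon

/-! Coset tables: a table with local dihedral checks covers the group generated by involutions (helper4). -/

set_option autoImplicit false
set_option linter.all false

namespace Cfsg.Agent.Lib.ChevSym

open Cfsg.Lie Cfsg.Lie.ChevalleyDatum Matrix Cfsg.Agent.Lib.MatFilt

/-! ### Alternating products -/

section alt

variable {G : Type*} [Group G] (s : ℕ → G)

/-- The alternating product `s_a s_b s_a ⋯` of `n` letters. -/
def altP : ℕ → ℕ → ℕ → G
  | 0, _, _ => 1
  | n + 1, a, b => s a * altP n b a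

theorem altP_zero (a b : ℕ) : altP s 0 a b = 1 := rfl

theorem altP_succ (n a b : ℕ) : altP s (n + 1) a b = s a * altP s n b a := rfl

theorem altP_succ_right (n a b : ℕ) :
    altP s (n + 1) a b = altP s n a b * s (if n % 2 = 0 then a else b) := by
  induction n generalizing a b with
  | zero => simp [altP]
  | succ n ih =>
    rw [altP_succ, ih b a, altP_succ s n a b, mul_assoc]
    congr 2
    by_cases h : n % 2 = 0
    · rw [if_pos h, if_neg (by omega)]
    · rw [if_neg h, if_pos (by omega)]

theorem altP_mul_inv {a b : ℕ} (h1 : s a * s a = 1) (h2 : s b * s b = 1) (n : ℕ) :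
    altP s n a b * (altP s n b a)⁻¹ = (s a * s b) ^ n := by
  have key : ∀ (n a b : ℕ), s a * s a = 1 → s b * s b = 1 →
      altP s n a b * (altP s n b a)⁻¹ = (s a * s b) ^ n := by
    intro n
    induction n with
    | zero => intro a b _ _; simp [altP]
    | succ n ih =>
      intro a b h1 h2
      rw [altP_succ, altP_succ, _root_.mul_inv_rev]
      have e : (s b)⁻¹ = s b := inv_eq_of_mul_eq_one_left h2
      rw [e, pow_succ, ← mul_assoc, ← mul_assoc, mul_pow_mul, ← ih b a h2 h1]
      group
  exact key n a b h1 h2

theorem altP_braid {a b m : ℕ} (h1 : s a * s a = 1) (h2 : s b * s b = 1) (h : (s a * s b) ^ m = 1) :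
    altP s m a b = altP s m b a := by
  have := altP_mul_inv s h1 h2 m
  rw [h] at this
  exact mul_inv_eq_one.mp this

end alt

/-! ### Tables -/

/-- A coset table of the group generated by `Jp` modulo the group generated by `J`, with the
permutations of the roots given by the representatives. -/
structure Step where
  J : List ℕ
  Jp : List ℕ
  k : ℕ
  actT : List ℕ
  parT : ℕ
  genT : ℕ
  depT : ℕ
  psiB : ℕ
  ptT : List ℕ
  maskT : List ℕ

namespace Step

variable (X : Step)

noncomputable def act (i x : ℕ) : ℕ := tb (getL X.actT i) x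
def par (x : ℕ) : ℕ := tb X.parT x
def gen (x : ℕ) : ℕ := tb X.genT x
def dep (x : ℕ) : ℕ := tb X.depT x
noncomputable def pt (x r : ℕ) : ℕ := tb (getL X.ptT x) r

/-- A walk going down, alternating the letters. -/
noncomputable def walk : ℕ → ℕ → ℕ → ℕ → Option ℕ
  | 0, _, _, v => some v
  | n + 1, a, b, v =>
    cond (Nat.beq (Nat.succ (X.dep (X.act a v))) (X.dep v)) (walk n b a (X.act a v)) none

noncomputable def memL (a : ℕ) (L : List ℕ) : Bool := anyL (fun b => Nat.beq a b) L

theorem memL_iff {a : ℕ} {L : List ℕ} : memL a L = true ↔ a ∈ L := by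
  unfold memL
  rw [anyL_iff]
  constructor
  · rintro ⟨b, hb, h⟩
    rw [Nat.eq_of_beq_eq_true h]
    exact hb
  · intro h
    exact ⟨a, h, Nat.beq_refl a⟩

/-- The local check at a vertex and a letter. -/
noncomputable def localOK (mt : ℕ → ℕ → ℕ) (x i : ℕ) : Bool :=
  cond (Nat.beq (X.act i x) x)
    (cond (Nat.beq x 0) (memL i X.J)
      (cond (Nat.ble 2 (mt i (X.gen x)))
        (match X.walk (mt i (X.gen x) - 1) (X.gen x) i x with
         | some w => Nat.beq (X.act (if (mt i (X.gen x) - 1) % 2 = 0 then X.gen x else i) w) w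
         | none => false) false))
    (cond (Nat.beq (X.dep (X.act i x)) (Nat.succ (X.dep x)))
      (cond (Nat.beq (X.par (X.act i x)) x)
        (cond (Nat.beq (X.gen (X.act i x)) i) true
          (cond (Nat.ble 2 (mt i (X.gen (X.act i x))))
            (match X.walk (mt i (X.gen (X.act i x)) - 1) (X.gen (X.act i x)) i x,
                X.walk (mt i (X.gen (X.act i x)) - 1) i (X.gen (X.act i x)) (X.par (X.act i x)) with
             | some w, some w' => Nat.beq w w'
             | _, _ => false) false))
        (cond (Nat.ble 2 (mt i (X.gen (X.act i x))))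
          (match X.walk (mt i (X.gen (X.act i x)) - 1) (X.gen (X.act i x)) i x,
              X.walk (mt i (X.gen (X.act i x)) - 1) i (X.gen (X.act i x)) (X.par (X.act i x)) with
           | some w, some w' => Nat.beq w w'
           | _, _ => false) false))
      (Nat.beq (Nat.succ (X.dep (X.act i x))) (X.dep x)))

/-- The word of a vertex. -/
noncomputable def wordOf : ℕ → ℕ → List ℕ
  | 0, _ => []
  | n + 1, x => X.gen x :: wordOf n (X.par x)

noncomputable def word (x : ℕ) : List ℕ := X.wordOf (X.dep x) x

end Step

/-- The table is a coset table. -/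
structure StepOK (X : Step) (mt : ℕ → ℕ → ℕ) : Prop where
  pos0 : 0 < X.k
  dep0 : X.dep 0 = 0
  act_lt : ∀ i ∈ X.Jp, ∀ x < X.k, X.act i x < X.k
  act_invol : ∀ i ∈ X.Jp, ∀ x < X.k, X.act i (X.act i x) = x
  tree : ∀ x < X.k, x ≠ 0 → X.par x < X.k ∧ X.dep x = X.dep (X.par x) + 1 ∧ X.gen x ∈ X.Jp ∧ X.act (X.gen x) (X.par x) = x
  loc : ∀ x < X.k, ∀ i ∈ X.Jp, X.localOK mt x i = true

section cover

variable {G : Type*} [Group G] (s : ℕ → G) (H₀ : Subgroup G)

/-- Same left coset. -/
def CE (g g' : G) : Prop := g⁻¹ * g' ∈ H₀

variable {H₀}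

theorem CE.refl (g : G) : CE H₀ g g := by simp [CE, Subgroup.one_mem]
theorem CE.symm {g g' : G} (h : CE H₀ g g') : CE H₀ g' g := by
  have := Subgroup.inv_mem _ h
  simpa [CE] using this
theorem CE.trans {a b c : G} (h : CE H₀ a b) (h' : CE H₀ b c) : CE H₀ a c := by
  have := Subgroup.mul_mem _ h h'
  have e : a⁻¹ * b * (b⁻¹ * c) = a⁻¹ * c := by group
  rw [e] at this
  exact this
theorem CE.left (x : G) {a b : G} (h : CE H₀ a b) : CE H₀ (x * a) (x * b) := by
  have e : (x * a)⁻¹ * (x * b) = a⁻¹ * b := by group
  unfold CE
  rw [e]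
  exact h

variable {X : Step} {mt : ℕ → ℕ → ℕ}

/-- The representative of a vertex. -/
noncomputable def rep (X : Step) (x : ℕ) : G := ((X.word x).map s).prod

theorem rep_zero (hX : StepOK X mt) : rep s X 0 = 1 := by
  unfold rep Step.word
  rw [hX.dep0]
  rfl

theorem rep_par (hX : StepOK X mt) {x : ℕ} (hx : x < X.k) (h0 : x ≠ 0) : rep s X x = s (X.gen x) * rep s X (X.par x) := by
  obtain ⟨_, h2, _, _⟩ := hX.tree x hx h0
  unfold rep Step.word
  rw [h2]
  simp [Step.wordOf]

variable (hX : StepOK X mt) (hs : ∀ i ∈ X.Jp, s i * s i = 1)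
  (hb : ∀ i ∈ X.Jp, ∀ k ∈ X.Jp, altP s (mt i k) i k = altP s (mt i k) k i) (hJ : ∀ j ∈ X.J, s j ∈ H₀)

/-- The symmetric form. -/
theorem good_symm (hs : ∀ i ∈ X.Jp, s i * s i = 1) (hX : StepOK X mt) {x i : ℕ} (hx : x < X.k) (hi : i ∈ X.Jp)
    (h : CE H₀ (s i * rep s X x) (rep s X (X.act i x))) :
    CE H₀ (s i * rep s X (X.act i x)) (rep s X x) := by
  have h1 := CE.left (s i) h
  rw [← mul_assoc, hs i hi, one_mul] at h1
  exact h1.symm

include hX hs in
/-- Walking down along good edges. -/
theorem walk_spec {d : ℕ}
    (ih : ∀ z < X.k, X.dep z < d → ∀ j ∈ X.Jp, CE H₀ (s j * rep s X z) (rep s X (X.act j z))) :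
    ∀ (n a b v w : ℕ), a ∈ X.Jp → b ∈ X.Jp → v < X.k → X.dep v ≤ d → X.walk n a b v = some w →
      CE H₀ (rep s X v) (altP s n a b * rep s X w) ∧ w < X.k ∧ X.dep w + n = X.dep v := by
  intro n
  induction n with
  | zero =>
    intro a b v w _ _ hv _ h
    simp only [Step.walk, Option.some.injEq] at h
    subst h
    refine ⟨?_, hv, rfl⟩
    rw [altP_zero, one_mul]
    exact CE.refl _
  | succ n ih' =>
    intro a b v w ha hb' hv hd h
    simp only [Step.walk] at h
    cases e : Nat.beq (Nat.succ (X.dep (X.act a v))) (X.dep v)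
    · rw [e] at h
      simp at h
    · rw [e, cond_true] at h
      have e1 : X.dep (X.act a v) + 1 = X.dep v := Nat.eq_of_beq_eq_true e
      have hv' := hX.act_lt a ha v hv
      obtain ⟨h1, h2, h3⟩ := ih' b a _ w hb' ha hv' (by omega) h
      refine ⟨?_, h2, by omega⟩
      have h4 := ih _ hv' (by omega) a ha
      rw [hX.act_invol a ha v hv] at h4
      rw [altP_succ, mul_assoc]
      exact h4.symm.trans (CE.left _ h1)

include hX hs hb hJ in
/-- All edges are good. -/
theorem all_good : ∀ d, ∀ x < X.k, X.dep x < d → ∀ i ∈ X.Jp, CE H₀ (s i * rep s X x) (rep s X (X.act i x)) := by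
  intro d
  induction d with
  | zero => intro x _ h; omega
  | succ d ih =>
    intro x hx hd i hi
    have hloc := hX.loc x hx i hi
    unfold Step.localOK at hloc
    have hy := hX.act_lt i hi x hx
    have hd' : X.dep x ≤ d := by omega
    cases e1 : Nat.beq (X.act i x) x
    · -- moves
      rw [e1, cond_false] at hloc
      cases e2 : Nat.beq (X.dep (X.act i x)) (Nat.succ (X.dep x))
      · -- down
        rw [e2, cond_false] at hloc
        have e3 : X.dep (X.act i x) + 1 = X.dep x := Nat.eq_of_beq_eq_true hloc
        have h4 := ih _ hy (by omega) i hi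
        rw [hX.act_invol i hi x hx] at h4
        have h5 := CE.left (s i) h4
        rw [← mul_assoc, hs i hi, one_mul] at h5
        exact h5.symm
      · -- up
        rw [e2, cond_true] at hloc
        have e3 : X.dep (X.act i x) = X.dep x + 1 := Nat.eq_of_beq_eq_true e2
        have hy0 : X.act i x ≠ 0 := by
          intro h
          rw [h, hX.dep0] at e3
          omega
        obtain ⟨t1, t2, t3, t4⟩ := hX.tree _ hy hy0
        -- the polygon case
        have polygon : (match X.walk (mt i (X.gen (X.act i x)) - 1) (X.gen (X.act i x)) i x,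
            X.walk (mt i (X.gen (X.act i x)) - 1) i (X.gen (X.act i x)) (X.par (X.act i x)) with
             | some w, some w' => Nat.beq w w'
             | _, _ => false) = true → 2 ≤ mt i (X.gen (X.act i x)) → CE H₀ (s i * rep s X x) (rep s X (X.act i x)) := by
          intro hm hm2
          cases w1 : X.walk (mt i (X.gen (X.act i x)) - 1) (X.gen (X.act i x)) i x with
          | none => rw [w1] at hm; simp at hm
          | some w =>
            cases w2 : X.walk (mt i (X.gen (X.act i x)) - 1) i (X.gen (X.act i x)) (X.par (X.act i x)) with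
            | none => rw [w1, w2] at hm; simp at hm
            | some w' =>
              rw [w1, w2] at hm
              have hww : w = w' := Nat.eq_of_beq_eq_true hm
              subst hww
              obtain ⟨a1, _, _⟩ := walk_spec s hX hs ih _ _ _ x w t3 hi hx hd' w1
              obtain ⟨a2, _, _⟩ := walk_spec s hX hs ih _ _ _ _ w hi t3 t1 (by omega) w2
              have em : mt i (X.gen (X.act i x)) = (mt i (X.gen (X.act i x)) - 1) + 1 := by omega
              have hbr := hb i hi _ t3
              rw [rep_par s hX hy hy0]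
              refine (CE.left (s i) a1).trans ?_
              refine CE.symm ?_
              refine (CE.left _ a2).trans ?_
              rw [em, altP_succ, altP_succ] at hbr
              rw [← mul_assoc, ← mul_assoc, hbr]
              exact CE.refl _
        cases e4 : Nat.beq (X.par (X.act i x)) x
        · rw [e4, cond_false] at hloc
          cases e5 : Nat.ble 2 (mt i (X.gen (X.act i x)))
          · rw [e5] at hloc; simp at hloc
          · rw [e5, cond_true] at hloc
            exact polygon hloc (Nat.le_of_ble_eq_true e5)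
        · rw [e4, cond_true] at hloc
          cases e5 : Nat.beq (X.gen (X.act i x)) i
          · rw [e5, cond_false] at hloc
            cases e6 : Nat.ble 2 (mt i (X.gen (X.act i x)))
            · rw [e6] at hloc; simp at hloc
            · rw [e6, cond_true] at hloc
              exact polygon hloc (Nat.le_of_ble_eq_true e6)
          · have e7 : X.par (X.act i x) = x := Nat.eq_of_beq_eq_true e4
            have e8 : X.gen (X.act i x) = i := Nat.eq_of_beq_eq_true e5
            rw [rep_par s hX hy hy0, e7, e8]
            exact CE.refl _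
    · -- fixed
      rw [e1, cond_true] at hloc
      have e2 : X.act i x = x := Nat.eq_of_beq_eq_true e1
      rw [e2]
      cases e3 : Nat.beq x 0
      · rw [e3, cond_false] at hloc
        have hx0 : x ≠ 0 := fun h => by
          rw [h] at e3
          simp at e3
        obtain ⟨t1, t2, t3, t4⟩ := hX.tree x hx hx0
        cases e5 : Nat.ble 2 (mt i (X.gen x))
        · rw [e5] at hloc; simp at hloc
        · rw [e5, cond_true] at hloc
          have hm2 := Nat.le_of_ble_eq_true e5
          cases w1 : X.walk (mt i (X.gen x) - 1) (X.gen x) i x with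
          | none => rw [w1] at hloc; simp at hloc
          | some w =>
            rw [w1] at hloc
            have e6 := Nat.eq_of_beq_eq_true hloc
            obtain ⟨a1, a2, a3⟩ := walk_spec s hX hs ih _ _ _ x w t3 hi hx hd' w1
            have hj : (if (mt i (X.gen x) - 1) % 2 = 0 then X.gen x else i) ∈ X.Jp := by
              split_ifs
              · exact t3
              · exact hi
            have hgood := ih w a2 (by omega) _ hj
            rw [e6] at hgood
            have em : mt i (X.gen x) = (mt i (X.gen x) - 1) + 1 := by omega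
            have hbr := hb i hi _ t3
            refine (CE.left (s i) a1).trans ?_
            rw [← mul_assoc]
            refine CE.trans ?_ a1.symm
            rw [em] at hbr
            have hbr1 := hbr
            rw [altP_succ, altP_succ_right] at hbr1
            rw [hbr1, mul_assoc]
            exact CE.left _ hgood
      · have e4 : x = 0 := Nat.eq_of_beq_eq_true e3
        rw [e3, cond_true] at hloc
        subst e4
        rw [rep_zero s hX, mul_one]
        have := hJ i (Step.memL_iff.mp hloc)
        simpa [CE] using this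

include hX hs hb hJ in
/-- The table covers the group. -/
theorem cover {g : G} (hg : g ∈ Subgroup.closure (s '' {i | i ∈ X.Jp})) :
    ∃ x < X.k, CE H₀ (rep s X x) g := by
  have good : ∀ x < X.k, ∀ i ∈ X.Jp, CE H₀ (s i * rep s X x) (rep s X (X.act i x)) :=
    fun x hx => all_good s hX hs hb hJ (X.dep x + 1) x hx (by omega)
  induction hg using Subgroup.closure_induction_left with
  | one =>
    refine ⟨0, hX.pos0, ?_⟩
    rw [rep_zero s hX]
    exact CE.refl _
  | mul_left a ha y _ ih =>
    obtain ⟨i, hi, rfl⟩ := ha
    obtain ⟨x, hx, h⟩ := ih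
    refine ⟨X.act i x, hX.act_lt i hi x hx, ?_⟩
    exact (good x hx i hi).symm.trans (CE.left _ h)
  | inv_mul_cancel a ha y _ ih =>
    obtain ⟨i, hi, rfl⟩ := ha
    obtain ⟨x, hx, h⟩ := ih
    refine ⟨X.act i x, hX.act_lt i hi x hx, ?_⟩
    have e : (s i)⁻¹ = s i := inv_eq_of_mul_eq_one_left (hs i hi)
    rw [e]
    exact (good x hx i hi).symm.trans (CE.left _ h)

end cover

end Cfsg.Agent.Lib.ChevSym
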