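import Cfsg.Agent.Lib.ChevW

/-! The Weyl group as a group of permutations of the roots; lengths along a coset table (helper4). -/

set_option autoImplicit false
set_option linter.all false

namespace Cfsg.Agent.Lib.ChevSym

open Cfsg.Lie Cfsg.Lie.ChevalleyDatum Matrix Cfsg.Agent.Lib.MatFilt

variable {D : ChevalleyDatum} {C : Cert} {T : Tab}

/-- A sum, in a form good for computation. -/
def sumTo (f : ℕ → ℕ) : ℕ → ℕ
  | 0 => 0
  | n + 1 => Nat.add (sumTo f n) (f n)

theorem sumTo_eq (f : ℕ → ℕ) (n : ℕ) : sumTo f n = ∑ i : Fin n, f i := by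
  induction n with
  | zero => simp [sumTo]
  | succ n ih =>
    rw [Fin.sum_univ_castSucc]
    simp only [sumTo, Fin.val_castSucc, Fin.val_last]
    rw [ih]
    rfl

/-- The reflection as a permutation. -/
noncomputable def wPerm (hG : Good D C) (i : ℕ) : Equiv.Perm (Fin D.nroots) :=
  if hi : i < D.rank then
    { toFun := fun s => ⟨C.w i s.val, hG.w.lt i hi s.val s.2⟩
      invFun := fun s => ⟨C.w i s.val, hG.w.lt i hi s.val s.2⟩
      left_inv := fun s => Fin.ext (hG.w.invol i hi s.val s.2)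
      right_inv := fun s => Fin.ext (hG.w.invol i hi s.val s.2) }
  else 1

theorem wPerm_val (hG : Good D C) {i : ℕ} (hi : i < D.rank) (s : Fin D.nroots) : (wPerm hG i s).val = C.w i s.val := by
  simp [wPerm, hi]

theorem wPerm_sq (hG : Good D C) {i : ℕ} (hi : i < D.rank) : wPerm hG i * wPerm hG i = 1 := by
  ext s
  simp only [Equiv.Perm.coe_mul, Function.comp, Equiv.Perm.coe_one, id]
  rw [wPerm_val hG hi, wPerm_val hG hi]
  exact hG.w.invol i hi s.val s.2

/-- The group generated by a family of reflections. -/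
noncomputable def WG (hG : Good D C) (J : List ℕ) : Subgroup (Equiv.Perm (Fin D.nroots)) :=
  Subgroup.closure (wPerm hG '' {i | i ∈ J})

theorem WG_mono (hG : Good D C) {J J' : List ℕ} (h : ∀ j ∈ J, j ∈ J') : WG hG J ≤ WG hG J' :=
  Subgroup.closure_mono (Set.image_mono h)

theorem wPerm_mem (hG : Good D C) {J : List ℕ} {i : ℕ} (h : i ∈ J) : wPerm hG i ∈ WG hG J :=
  Subgroup.subset_closure ⟨i, h, rfl⟩

noncomputable instance WG_fintype (hG : Good D C) (J : List ℕ) : Fintype (WG hG J) := Fintype.ofFinite _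

/-- The permutation of a word. -/
theorem wordPerm_val (hG : Good D C) {l : List ℕ} (hl : ∀ i ∈ l, i < D.rank) (s : Fin D.nroots) :
    (((l.map (wPerm hG)).prod) s).val = wp C l s.val := by
  induction l with
  | nil => rfl
  | cons i l ih =>
    rw [List.map_cons, List.prod_cons, Equiv.Perm.mul_apply, wPerm_val hG (hl i (by simp)),
      ih fun j hj => hl j (by simp [hj])]
    rfl

/-- Positive roots. -/
def isPosF (D : ChevalleyDatum) (r : Fin D.nroots) : Prop := D.nroots / 2 ≤ r.val

instance (r : Fin D.nroots) : Decidable (isPosF D r) := inferInstanceAs (Decidable (_ ≤ _))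

/-- The inversion set. -/
noncomputable def invS (π : Equiv.Perm (Fin D.nroots)) : Finset (Fin D.nroots) :=
  Finset.univ.filter fun r => D.nroots / 2 ≤ r.val ∧ (π r).val < D.nroots / 2

theorem mem_invS {π : Equiv.Perm (Fin D.nroots)} {r : Fin D.nroots} :
    r ∈ invS π ↔ D.nroots / 2 ≤ r.val ∧ (π r).val < D.nroots / 2 := by
  simp [invS]

/-- The length. -/
noncomputable def invL (π : Equiv.Perm (Fin D.nroots)) : ℕ := (invS π).card

theorem invL_one : invL (1 : Equiv.Perm (Fin D.nroots)) = 0 := by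
  unfold invL invS
  rw [Finset.card_eq_zero, Finset.filter_eq_empty_iff]
  rintro r _ ⟨h1, h2⟩
  simp only [Equiv.Perm.coe_one, id] at h2
  omega

/-- Lengths add. -/
theorem invL_mul (hn : D.nroots % 2 = 0) {π v : Equiv.Perm (Fin D.nroots)} {P : Fin D.nroots → Prop}
    (hP : ∀ r, P r → D.nroots / 2 ≤ r.val)
    (hth : ∀ r : Fin D.nroots, D.nroots / 2 ≤ r.val → ¬ P r → D.nroots / 2 ≤ (π r).val)
    (hv : ∀ r, P r ↔ P (v r))
    (hπn : ∀ r, π (Fin.rev r) = Fin.rev (π r)) (hvn : ∀ r, v (Fin.rev r) = Fin.rev (v r)) :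
    invL (π * v) = invL π + invL v := by
  classical
  have hrev : ∀ r : Fin D.nroots, (Fin.rev r).val = D.nroots - (r.val + 1) := fun r => rfl
  have hS : invS (π * v) = invS v ∪ (invS π).map (v⁻¹ : Equiv.Perm (Fin D.nroots)).toEmbedding := by
    ext r
    simp only [Finset.mem_union, mem_invS, Finset.mem_map, Equiv.Perm.coe_mul, Function.comp, Equiv.coe_toEmbedding]
    constructor
    · rintro ⟨h1, h2⟩
      by_cases h3 : (v r).val < D.nroots / 2
      · exact Or.inl ⟨h1, h3⟩
      · refine Or.inr ⟨v r, ⟨not_lt.mp h3, h2⟩, ?_⟩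
        simp
    · rintro (⟨h1, h2⟩ | ⟨s, ⟨h1, h2⟩, rfl⟩)
      · refine ⟨h1, ?_⟩
        have h3 : D.nroots / 2 ≤ (Fin.rev (v r)).val := by
          rw [hrev]
          have := (v r).2
          omega
        have h4 : ¬ P (Fin.rev (v r)) := by
          intro h5
          rw [← hvn, ← hv] at h5
          have h6 := hP _ h5
          rw [hrev] at h6
          have := r.2
          omega
        have h5 := hth _ h3 h4
        rw [hπn, hrev] at h5
        have := (π (v r)).2
        omega
      · have h3 : P s := by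
          by_contra h4
          have := hth s h1 h4
          omega
        have h4 : P ((v⁻¹ : Equiv.Perm (Fin D.nroots)) s) := by
          rw [hv]
          simpa using h3
        refine ⟨hP _ h4, ?_⟩
        simpa using h2
  have hdisj : Disjoint (invS v) ((invS π).map (v⁻¹ : Equiv.Perm (Fin D.nroots)).toEmbedding) := by
    rw [Finset.disjoint_left]
    intro r h1 h2
    simp only [mem_invS, Finset.mem_map, Equiv.coe_toEmbedding] at h1 h2
    obtain ⟨s, ⟨h3, _⟩, rfl⟩ := h2
    have h5 := h1.2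
    simp at h5
    omega
  unfold invL
  rw [hS, Finset.card_union_of_disjoint hdisj, Finset.card_map, add_comm]

/-! ### The table on the roots -/

/-- The table describes cosets of the permutation group. -/
structure PermOK (D : ChevalleyDatum) (C : Cert) (X : Step) (psiB : ℕ) : Prop where
  Jp_lt : ∀ i ∈ X.Jp, i < D.rank
  J_sub : ∀ j ∈ X.J, j ∈ X.Jp
  pt0 : ∀ r < D.nroots, X.pt 0 r = r
  ptS : ∀ x < X.k, x ≠ 0 → ∀ r < D.nroots, X.pt x r = C.w (X.gen x) (X.pt (X.par x) r)
  psiPos : ∀ r < D.nroots, tbit psiB r = true → D.nroots / 2 ≤ r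
  psiInv : ∀ j ∈ X.J, ∀ r < D.nroots, tbit psiB r = true → tbit psiB (C.w j r) = true
  theta : ∀ x < X.k, ∀ r < D.nroots, D.nroots / 2 ≤ r → tbit psiB r = false → D.nroots / 2 ≤ X.pt x r
  cnt : ∀ x < X.k, sumTo (fun r => cond (Nat.ble (D.nroots / 2) r) (cond (Nat.blt (X.pt x r) (D.nroots / 2)) 1 0) 0) D.nroots = X.dep x
  maskEq : ∀ x < X.k, getL X.maskT x = sumTo (fun r => cond (tbit psiB r) (2 ^ X.pt x r) 0) D.nroots
  maskNe : ∀ x < X.k, ∀ y < x, getL X.maskT x ≠ getL X.maskT y

section step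

variable {X : Step} {mt : ℕ → ℕ → ℕ} {psiB : ℕ}

theorem word_mem (hX : StepOK X mt) : ∀ (n x : ℕ), x < X.k → X.dep x = n → ∀ i ∈ X.wordOf n x, i ∈ X.Jp := by
  intro n
  induction n with
  | zero => intro x _ _ i hi; simp [Step.wordOf] at hi
  | succ n ih =>
    intro x hx hd i hi
    have hx0 : x ≠ 0 := by
      rintro rfl
      rw [hX.dep0] at hd
      omega
    obtain ⟨h1, h2, h3, _⟩ := hX.tree x hx hx0
    rcases List.mem_cons.mp hi with rfl | hi
    · exact h3
    · exact ih _ h1 (by omega) i hi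

theorem word_mem' (hX : StepOK X mt) {x : ℕ} (hx : x < X.k) : ∀ i ∈ X.word x, i ∈ X.Jp :=
  word_mem hX _ x hx rfl

variable (hG : Good D C) (hX : StepOK X mt) (hO : PermOK D C X psiB)
include hX hO

theorem word_lt {x : ℕ} (hx : x < X.k) : ∀ i ∈ X.word x, i < D.rank :=
  fun i hi => hO.Jp_lt i (word_mem' hX hx i hi)

theorem pt_eq_aux : ∀ (n x : ℕ), x < X.k → X.dep x = n → ∀ r < D.nroots, X.pt x r = wp C (X.wordOf n x) r := by
  intro n
  induction n with
  | zero =>
    intro x hx hd r hr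
    have hx0 : x = 0 := by
      by_contra h
      obtain ⟨_, h2, _, _⟩ := hX.tree x hx h
      omega
    subst hx0
    exact hO.pt0 r hr
  | succ n ih =>
    intro x hx hd r hr
    have hx0 : x ≠ 0 := by
      rintro rfl
      rw [hX.dep0] at hd
      omega
    obtain ⟨h1, h2, h3, _⟩ := hX.tree x hx hx0
    rw [hO.ptS x hx hx0 r hr, ih _ h1 (by omega) r hr]
    rfl

theorem pt_eq {x r : ℕ} (hx : x < X.k) (hr : r < D.nroots) : X.pt x r = wp C (X.word x) r :=
  pt_eq_aux hX hO _ x hx rfl r hr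

/-- The representative acts as the table says. -/
theorem rep_val {x : ℕ} (hx : x < X.k) (r : Fin D.nroots) :
    ((rep (wPerm hG) X x : Equiv.Perm (Fin D.nroots)) r).val = X.pt x r.val := by
  rw [pt_eq hX hO hx r.2]
  exact wordPerm_val hG (word_lt hX hO hx) r

theorem rep_mem {x : ℕ} (hx : x < X.k) : rep (wPerm hG) X x ∈ WG hG X.Jp := by
  unfold rep
  apply Subgroup.list_prod_mem
  intro g hg
  obtain ⟨i, hi, rfl⟩ := List.mem_map.mp hg
  exact wPerm_mem hG (word_mem' hX hx i hi)

/-- The elements of the small group preserve the special set. -/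
theorem small_psi {v : Equiv.Perm (Fin D.nroots)} (hv : v ∈ WG hG X.J) :
    ∀ r : Fin D.nroots, tbit psiB r.val = true ↔ tbit psiB (v r).val = true := by
  induction hv using Subgroup.closure_induction with
  | mem x hx =>
    obtain ⟨j, hj, rfl⟩ := hx
    have hjr := hO.Jp_lt j (hO.J_sub j hj)
    intro r
    constructor
    · intro h
      rw [wPerm_val hG hjr]
      exact hO.psiInv j hj r.val r.2 h
    · intro h
      rw [wPerm_val hG hjr] at h
      have := hO.psiInv j hj _ (hG.w.lt j hjr r.val r.2) h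
      rwa [hG.w.invol j hjr r.val r.2] at this
  | one => intro r; rfl
  | mul x y _ _ hx hy =>
    intro r
    rw [hy r, hx (y r)]
    rfl
  | inv x _ hx =>
    intro r
    rw [hx (x⁻¹ r)]
    simp

end step

/-- The elements of the Weyl group commute with the negation. -/
theorem WG_rev (hG : Good D C) (h3 : ∀ r < D.nroots, D.neg r = D.nroots - 1 - r) {J : List ℕ} (hJ : ∀ j ∈ J, j < D.rank)
    {v : Equiv.Perm (Fin D.nroots)} (hv : v ∈ WG hG J) : ∀ r, v (Fin.rev r) = Fin.rev (v r) := by
  have hrev : ∀ r : Fin D.nroots, (Fin.rev r).val = D.neg r.val := by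
    intro r
    rw [h3 r.val r.2]
    show D.nroots - (r.val + 1) = _
    omega
  induction hv using Subgroup.closure_induction with
  | mem x hx =>
    obtain ⟨j, hj, rfl⟩ := hx
    have hjr := hJ j hj
    intro r
    apply Fin.ext
    rw [wPerm_val hG hjr, hrev, hrev, wPerm_val hG hjr]
    exact hG.w.neg j hjr r.val r.2
  | one => intro r; rfl
  | mul x y _ _ hx hy =>
    intro r
    simp only [Equiv.Perm.mul_apply]
    rw [hy r, hx (y r)]
  | inv x _ hx =>
    intro r
    have := hx (x⁻¹ r)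
    simp at this
    rw [← this]
    simp

section bij

variable {X : Step} {mt : ℕ → ℕ → ℕ} {psiB : ℕ} (hG : Good D C) (hX : StepOK X mt) (hO : PermOK D C X psiB)
  (hn : D.nroots % 2 = 0) (h3 : ∀ r < D.nroots, D.neg r = D.nroots - 1 - r)
  (hcox : ∀ i ∈ X.Jp, ∀ k ∈ X.Jp, (wPerm hG i * wPerm hG k) ^ (mt i k) = 1)
include hX hO

/-- The mask of a permutation is invariant under the small group. -/
theorem mask_inv {π v : Equiv.Perm (Fin D.nroots)} (hv : v ∈ WG hG X.J) :
    (∑ r : Fin D.nroots, cond (tbit psiB r.val) (2 ^ ((π * v) r).val) 0) =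
      ∑ r : Fin D.nroots, cond (tbit psiB r.val) (2 ^ (π r).val) 0 := by
  rw [← Equiv.sum_comp v (fun r => cond (tbit psiB r.val) (2 ^ (π r).val) 0)]
  apply Finset.sum_congr rfl
  intro r _
  have h1 := small_psi hG hX hO hv r
  simp only [Equiv.Perm.mul_apply]
  cases e : tbit psiB r.val
  · have : tbit psiB (v r).val = false := by
      cases e2 : tbit psiB (v r).val
      · rfl
      · rw [h1.mpr e2] at e
        exact absurd e (by simp)
    rw [this]
  · rw [h1.mp e]

theorem mask_rep {x : ℕ} (hx : x < X.k) :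
    getL X.maskT x = ∑ r : Fin D.nroots, cond (tbit psiB r.val) (2 ^ ((rep (wPerm hG) X x : Equiv.Perm (Fin D.nroots)) r).val) 0 := by
  rw [hO.maskEq x hx, sumTo_eq]
  apply Finset.sum_congr rfl
  intro r _
  rw [rep_val hG hX hO hx]

/-- Injectivity of the product. -/
theorem rep_inj {x y : ℕ} (hx : x < X.k) (hy : y < X.k) {v v' : Equiv.Perm (Fin D.nroots)} (hv : v ∈ WG hG X.J)
    (hv' : v' ∈ WG hG X.J) (h : rep (wPerm hG) X x * v = rep (wPerm hG) X y * v') : x = y := by
  have h1 := mask_inv (π := rep (wPerm hG) X x) hG hX hO hv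
  have h2 := mask_inv (π := rep (wPerm hG) X y) hG hX hO hv'
  rw [h, h2, ← mask_rep hG hX hO hx, ← mask_rep hG hX hO hy] at h1
  rcases Nat.lt_trichotomy x y with h4 | h4 | h4
  · exact absurd h1 (hO.maskNe y hy x h4)
  · exact h4
  · exact absurd h1.symm (hO.maskNe x hx y h4)

include hn h3 in
/-- The length of a product. -/
theorem invL_rep_mul {x : ℕ} (hx : x < X.k) {v : Equiv.Perm (Fin D.nroots)} (hv : v ∈ WG hG X.J) :
    invL (rep (wPerm hG) X x * v) = X.dep x + invL v := by
  have hJ1 : ∀ j ∈ X.J, j < D.rank := fun j hj => hO.Jp_lt j (hO.J_sub j hj)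
  have e1 : invL (rep (wPerm hG) X x) = X.dep x := by
    rw [← hO.cnt x hx, sumTo_eq]
    unfold invL invS
    rw [Finset.card_filter]
    apply Finset.sum_congr rfl
    intro r _
    rw [rep_val hG hX hO hx]
    by_cases h1 : D.nroots / 2 ≤ r.val
    · have e2 : Nat.ble (D.nroots / 2) r.val = true := Nat.ble_eq_true_of_le h1
      rw [e2, cond_true]
      by_cases h2 : X.pt x r.val < D.nroots / 2
      · have e3 : Nat.blt (X.pt x r.val) (D.nroots / 2) = true := Nat.ble_eq_true_of_le h2
        rw [e3, cond_true, if_pos ⟨h1, h2⟩]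
      · have e3 : Nat.blt (X.pt x r.val) (D.nroots / 2) = false := by
          cases e4 : Nat.blt (X.pt x r.val) (D.nroots / 2)
          · rfl
          · exact absurd (Nat.le_of_ble_eq_true e4) h2
        rw [e3, cond_false, if_neg (fun h => h2 h.2)]
    · have e2 : Nat.ble (D.nroots / 2) r.val = false := by
        cases e4 : Nat.ble (D.nroots / 2) r.val
        · rfl
        · exact absurd (Nat.le_of_ble_eq_true e4) h1
      rw [e2, cond_false, if_neg (fun h => h1 h.1)]
  rw [invL_mul hn (P := fun r => tbit psiB r.val = true) (fun r hr => hO.psiPos r.val r.2 hr) ?_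
    (small_psi hG hX hO hv) (WG_rev hG h3 hO.Jp_lt (rep_mem hG hX hO hx)) (WG_rev hG h3 hJ1 hv), e1]
  intro r h1 h2
  rw [rep_val hG hX hO hx]
  apply hO.theta x hx r.val r.2 h1
  cases e : tbit psiB r.val
  · rfl
  · exact absurd e h2

include hcox in
/-- Surjectivity of the product: the table covers the big group. -/
theorem rep_surj {g : Equiv.Perm (Fin D.nroots)} (hg : g ∈ WG hG X.Jp) :
    ∃ x < X.k, ∃ v ∈ WG hG X.J, g = rep (wPerm hG) X x * v := by
  have hs : ∀ i ∈ X.Jp, wPerm hG i * wPerm hG i = 1 := fun i hi => wPerm_sq hG (hO.Jp_lt i hi)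
  obtain ⟨x, hx, h⟩ := cover (H₀ := WG hG X.J) (wPerm hG) hX hs
    (fun i hi k hk => altP_braid _ (hs i hi) (hs k hk) (hcox i hi k hk))
    (fun j hj => wPerm_mem hG hj) hg
  exact ⟨x, hx, _, h, by simp⟩

include hn h3 hcox in
/-- The Poincaré sum along a step of the table. -/
theorem poin_step (q : ℕ) :
    (∑ g : WG hG X.Jp, q ^ invL (g : Equiv.Perm (Fin D.nroots))) =
      (∑ x : Fin X.k, q ^ X.dep x) * ∑ v : WG hG X.J, q ^ invL (v : Equiv.Perm (Fin D.nroots)) := by
  classical
  let f : Fin X.k × WG hG X.J → WG hG X.Jp := fun p =>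
    ⟨rep (wPerm hG) X p.1 * p.2, Subgroup.mul_mem _ (rep_mem hG hX hO p.1.2) (WG_mono hG hO.J_sub p.2.2)⟩
  have hf : Function.Bijective f := by
    constructor
    · rintro ⟨x, v⟩ ⟨y, v'⟩ h
      have h1 : rep (wPerm hG) X x * (v : Equiv.Perm (Fin D.nroots)) = rep (wPerm hG) X y * v' := congrArg Subtype.val h
      have h2 := rep_inj hG hX hO x.2 y.2 v.2 v'.2 h1
      have h4 : x = y := Fin.ext h2
      subst h4
      have h5 := mul_left_cancel h1
      rw [Subtype.ext h5]
    · rintro ⟨g, hg⟩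
      obtain ⟨x, hx, v, hv, rfl⟩ := rep_surj hG hX hO hcox hg
      exact ⟨(⟨x, hx⟩, ⟨v, hv⟩), rfl⟩
  rw [← Function.Bijective.sum_comp hf, Fintype.sum_prod_type, Finset.sum_mul_sum]
  apply Finset.sum_congr rfl
  intro x _
  apply Finset.sum_congr rfl
  intro v _
  show q ^ invL (rep (wPerm hG) X x * (v : Equiv.Perm (Fin D.nroots))) = _
  rw [invL_rep_mul hG hX hO hn h3 x.2 v.2, pow_add]

include hcox in
/-- The order along a step of the table. -/
theorem card_step : Nat.card (WG hG X.Jp) = X.k * Nat.card (WG hG X.J) := by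
  classical
  let f : Fin X.k × WG hG X.J → WG hG X.Jp := fun p =>
    ⟨rep (wPerm hG) X p.1 * p.2, Subgroup.mul_mem _ (rep_mem hG hX hO p.1.2) (WG_mono hG hO.J_sub p.2.2)⟩
  have hf : Function.Bijective f := by
    constructor
    · rintro ⟨x, v⟩ ⟨y, v'⟩ h
      have h1 : rep (wPerm hG) X x * (v : Equiv.Perm (Fin D.nroots)) = rep (wPerm hG) X y * v' := congrArg Subtype.val h
      have h2 := rep_inj hG hX hO x.2 y.2 v.2 v'.2 h1
      have h4 : x = y := Fin.ext h2
      subst h4
      have h5 := mul_left_cancel h1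
      rw [Subtype.ext h5]
    · rintro ⟨g, hg⟩
      obtain ⟨x, hx, v, hv, rfl⟩ := rep_surj hG hX hO hcox hg
      exact ⟨(⟨x, hx⟩, ⟨v, hv⟩), rfl⟩
  rw [← Nat.card_congr (Equiv.ofBijective f hf), Nat.card_prod, Nat.card_fin]

end bij

end Cfsg.Agent.Lib.ChevSym
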