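import Cfsg.Agent.Lib.ChevW2

/-! Boolean forms of the table checks; chains of tables; integer polynomials as lists (helper4). -/

set_option autoImplicit false
set_option linter.all false

namespace Cfsg.Agent.Lib.ChevSym

open Cfsg.Lie Cfsg.Lie.ChevalleyDatum Matrix Cfsg.Agent.Lib.MatFilt

variable {D : ChevalleyDatum} {C : Cert} {T : Tab}

section checks

variable (X : Step) (mt : ℕ → ℕ → ℕ) (D : ChevalleyDatum) (C : Cert)

noncomputable def stepCheck1 (i x : ℕ) : Bool :=
  cond (Nat.blt (X.act i x) X.k)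
    (cond (Nat.beq (X.act i (X.act i x)) x) (X.localOK mt x i) false) false

noncomputable def treeCheck1 (x : ℕ) : Bool :=
  cond (Nat.beq x 0) true
    (cond (Nat.blt (X.par x) X.k)
      (cond (Nat.beq (X.dep x) (Nat.succ (X.dep (X.par x))))
        (cond (Step.memL (X.gen x) X.Jp) (Nat.beq (X.act (X.gen x) (X.par x)) x) false) false) false)

noncomputable def stepCheck : Bool :=
  cond (Nat.blt 0 X.k)
    (cond (Nat.beq (X.dep 0) 0)
      (cond (allL (fun i => allL (stepCheck1 X mt i) (List.range X.k)) X.Jp)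
        (allL (treeCheck1 X) (List.range X.k)) false) false) false

noncomputable def permCheck : Bool :=
  cond (allL (fun i => Nat.blt i D.rank) X.Jp)
  (cond (allL (fun j => Step.memL j X.Jp) X.J)
  (cond (allL (fun r => Nat.beq (X.pt 0 r) r) (List.range D.nroots))
  (cond (allL (fun x => cond (Nat.beq x 0) true
      (allL (fun r => Nat.beq (X.pt x r) (C.w (X.gen x) (X.pt (X.par x) r))) (List.range D.nroots))) (List.range X.k))
  (cond (allL (fun r => cond (tbit X.psiB r) (Nat.ble (D.nroots / 2) r) true) (List.range D.nroots))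
  (cond (allL (fun j => allL (fun r => cond (tbit X.psiB r) (tbit X.psiB (C.w j r)) true) (List.range D.nroots)) X.J)
  (cond (allL (fun x => allL (fun r => cond (Nat.ble (D.nroots / 2) r)
      (cond (tbit X.psiB r) true (Nat.ble (D.nroots / 2) (X.pt x r))) true) (List.range D.nroots)) (List.range X.k))
  (cond (allL (fun x => Nat.beq (sumTo (fun r => cond (Nat.ble (D.nroots / 2) r)
      (cond (Nat.blt (X.pt x r) (D.nroots / 2)) 1 0) 0) D.nroots) (X.dep x)) (List.range X.k))
  (cond (allL (fun x => Nat.beq (getL X.maskT x) (sumTo (fun r => cond (tbit X.psiB r) (Nat.pow 2 (X.pt x r)) 0) D.nroots)) (List.range X.k))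
    (allL (fun x => allL (fun y => cond (Nat.beq (getL X.maskT x) (getL X.maskT y)) false true) (List.range x)) (List.range X.k))
    false) false) false) false) false) false) false) false) false

/-- The Coxeter relations on the roots. -/
noncomputable def coxCheck : Bool :=
  allL (fun i => allL (fun k => allL (fun r =>
    Nat.beq (Nat.rec (motive := fun _ => ℕ) r (fun _ ih => C.w i (C.w k ih)) (mt i k)) r) (List.range D.nroots))
    (List.range D.rank)) (List.range D.rank)

end checks

variable {X : Step} {mt : ℕ → ℕ → ℕ}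

private theorem cond_and {a : Bool} {b : Bool} (h : cond a b false = true) : a = true ∧ b = true := by
  cases a <;> simp_all

theorem stepOK_of (h : stepCheck X mt = true) : StepOK X mt := by
  unfold stepCheck at h
  obtain ⟨h1, h⟩ := cond_and h
  obtain ⟨h2, h⟩ := cond_and h
  obtain ⟨h3, h⟩ := cond_and h
  have k1 : ∀ i ∈ X.Jp, ∀ x < X.k, X.act i x < X.k ∧ X.act i (X.act i x) = x ∧ X.localOK mt x i = true := by
    intro i hi x hx
    have h5 := (allL_iff _ _).mp ((allL_iff _ _).mp h3 i hi) x (List.mem_range.mpr hx)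
    unfold stepCheck1 at h5
    obtain ⟨h6, h5⟩ := cond_and h5
    obtain ⟨h7, h5⟩ := cond_and h5
    exact ⟨Nat.le_of_ble_eq_true h6, Nat.eq_of_beq_eq_true h7, h5⟩
  refine ⟨Nat.le_of_ble_eq_true h1, Nat.eq_of_beq_eq_true h2, fun i hi x hx => (k1 i hi x hx).1,
    fun i hi x hx => (k1 i hi x hx).2.1, ?_, fun x hx i hi => (k1 i hi x hx).2.2⟩
  intro x hx h0
  have h5 := (allL_iff _ _).mp h x (List.mem_range.mpr hx)
  unfold treeCheck1 at h5
  have e : Nat.beq x 0 = false := by
    cases e' : Nat.beq x 0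
    · rfl
    · exact absurd (Nat.eq_of_beq_eq_true e') h0
  rw [e, cond_false] at h5
  obtain ⟨h6, h5⟩ := cond_and h5
  obtain ⟨h7, h5⟩ := cond_and h5
  obtain ⟨h8, h5⟩ := cond_and h5
  exact ⟨Nat.le_of_ble_eq_true h6, Nat.eq_of_beq_eq_true h7, Step.memL_iff.mp h8, Nat.eq_of_beq_eq_true h5⟩

theorem permOK_of (h : permCheck X D C = true) : PermOK D C X X.psiB := by
  unfold permCheck at h
  obtain ⟨h1, h⟩ := cond_and h
  obtain ⟨h2, h⟩ := cond_and h
  obtain ⟨h3, h⟩ := cond_and h
  obtain ⟨h4, h⟩ := cond_and h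
  obtain ⟨h5, h⟩ := cond_and h
  obtain ⟨h6, h⟩ := cond_and h
  obtain ⟨h7, h⟩ := cond_and h
  obtain ⟨h8, h⟩ := cond_and h
  obtain ⟨h9, h⟩ := cond_and h
  refine ⟨?_, ?_, ?_, ?_, ?_, ?_, ?_, ?_, ?_, ?_⟩
  · exact fun i hi => Nat.le_of_ble_eq_true ((allL_iff _ _).mp h1 i hi)
  · exact fun j hj => Step.memL_iff.mp ((allL_iff _ _).mp h2 j hj)
  · exact fun r hr => Nat.eq_of_beq_eq_true ((allL_iff _ _).mp h3 r (List.mem_range.mpr hr))
  · intro x hx h0 r hr
    have h10 := (allL_iff _ _).mp h4 x (List.mem_range.mpr hx)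
    have e : Nat.beq x 0 = false := by
      cases e' : Nat.beq x 0
      · rfl
      · exact absurd (Nat.eq_of_beq_eq_true e') h0
    rw [e, cond_false] at h10
    exact Nat.eq_of_beq_eq_true ((allL_iff _ _).mp h10 r (List.mem_range.mpr hr))
  · intro r hr hp
    have h10 := (allL_iff _ _).mp h5 r (List.mem_range.mpr hr)
    rw [hp, cond_true] at h10
    exact Nat.le_of_ble_eq_true h10
  · intro j hj r hr hp
    have h10 := (allL_iff _ _).mp ((allL_iff _ _).mp h6 j hj) r (List.mem_range.mpr hr)
    rw [hp, cond_true] at h10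
    exact h10
  · intro x hx r hr hN hp
    have h10 := (allL_iff _ _).mp ((allL_iff _ _).mp h7 x (List.mem_range.mpr hx)) r (List.mem_range.mpr hr)
    rw [Nat.ble_eq_true_of_le hN, cond_true, hp, cond_false] at h10
    exact Nat.le_of_ble_eq_true h10
  · exact fun x hx => Nat.eq_of_beq_eq_true ((allL_iff _ _).mp h8 x (List.mem_range.mpr hx))
  · exact fun x hx => Nat.eq_of_beq_eq_true ((allL_iff _ _).mp h9 x (List.mem_range.mpr hx))
  · intro x hx y hy e
    have h10 := (allL_iff _ _).mp ((allL_iff _ _).mp h x (List.mem_range.mpr hx)) y (List.mem_range.mpr hy)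
    rw [e, Nat.beq_refl, cond_true] at h10
    exact absurd h10 (by simp)

theorem cox_of (hG : Good D C) (h : coxCheck mt D C = true) {i k : ℕ} (hi : i < D.rank) (hk : k < D.rank) :
    (wPerm hG i * wPerm hG k) ^ (mt i k) = 1 := by
  ext r
  have h1 := (allL_iff _ _).mp ((allL_iff _ _).mp ((allL_iff _ _).mp h i (List.mem_range.mpr hi)) k (List.mem_range.mpr hk))
    r.val (List.mem_range.mpr r.2)
  have h2 := Nat.eq_of_beq_eq_true h1
  have key : ∀ m : ℕ, (((wPerm hG i * wPerm hG k) ^ m) r).val =
      Nat.rec (motive := fun _ => ℕ) r.val (fun _ ih => C.w i (C.w k ih)) m := by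
    intro m
    induction m with
    | zero => rfl
    | succ m ih =>
      rw [pow_succ', Equiv.Perm.mul_apply, Equiv.Perm.mul_apply, wPerm_val hG hi, wPerm_val hG hk, ih]
  rw [key, h2]
  rfl

/-! ### Chains of tables -/

/-- A chain of tables, from a group to the trivial group. -/
def ChainOK (D : ChevalleyDatum) (C : Cert) (mt : ℕ → ℕ → ℕ) : List ℕ → List Step → Prop
  | J₀, [] => J₀ = []
  | J₀, X :: L => X.Jp = J₀ ∧ StepOK X mt ∧ PermOK D C X X.psiB ∧ ChainOK D C mt X.J L

theorem WG_nil_sum (hG : Good D C) (q : ℕ) : (∑ g : WG hG [], q ^ invL (g : Equiv.Perm (Fin D.nroots))) = 1 := by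
  have hbot : WG hG [] = ⊥ := by
    unfold WG
    have : (wPerm hG '' {i | i ∈ ([] : List ℕ)}) = ∅ := by simp
    rw [this, Subgroup.closure_empty]
  have hsing : ∀ g : WG hG [], g = 1 := by
    rintro ⟨g, hg⟩
    rw [hbot, Subgroup.mem_bot] at hg
    exact Subtype.ext hg
  rw [Fintype.sum_eq_single (1 : WG hG []) (fun g hg => absurd (hsing g) hg)]
  show q ^ invL (1 : Equiv.Perm (Fin D.nroots)) = 1
  rw [invL_one, pow_zero]

theorem chain_poin (hG : Good D C) (hn : D.nroots % 2 = 0) (h3 : ∀ r < D.nroots, D.neg r = D.nroots - 1 - r)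
    (hcox : ∀ i < D.rank, ∀ k < D.rank, (wPerm hG i * wPerm hG k) ^ (mt i k) = 1) (q : ℕ) :
    ∀ (L : List Step) (J₀ : List ℕ), ChainOK D C mt J₀ L →
    (∑ g : WG hG J₀, q ^ invL (g : Equiv.Perm (Fin D.nroots))) = (L.map fun X => ∑ x : Fin X.k, q ^ X.dep x).prod := by
  intro L
  induction L with
  | nil =>
    intro J₀ h
    have h0 : J₀ = [] := h
    subst h0
    exact WG_nil_sum hG q
  | cons X L ih =>
    rintro J₀ ⟨rfl, h1, h2, h4⟩
    rw [List.map_cons, List.prod_cons, ← ih _ h4]
    exact poin_step hG h1 h2 hn h3 (fun i hi k hk => hcox i (h2.Jp_lt i hi) k (h2.Jp_lt k hk)) q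

theorem chain_card (hG : Good D C)
    (hcox : ∀ i < D.rank, ∀ k < D.rank, (wPerm hG i * wPerm hG k) ^ (mt i k) = 1) :
    ∀ (L : List Step) (J₀ : List ℕ), ChainOK D C mt J₀ L →
    Nat.card (WG hG J₀) = (L.map fun X => X.k).prod := by
  intro L
  induction L with
  | nil =>
    intro J₀ h
    have h0 : J₀ = [] := h
    subst h0
    have hbot : WG hG [] = ⊥ := by
      unfold WG
      have : (wPerm hG '' {i | i ∈ ([] : List ℕ)}) = ∅ := by simp
      rw [this, Subgroup.closure_empty]
    rw [hbot]
    simp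
  | cons X L ih =>
    rintro J₀ ⟨rfl, h1, h2, h4⟩
    rw [List.map_cons, List.prod_cons, ← ih _ h4]
    exact card_step hG h1 h2 (fun i hi k hk => hcox i (h2.Jp_lt i hi) k (h2.Jp_lt k hk))

/-! ### Polynomials as lists -/

def lpAdd : List ℤ → List ℤ → List ℤ
  | [], b => b
  | a, [] => a
  | x :: a, y :: b => Int.add x y :: lpAdd a b

def lpScale (c : ℤ) : List ℤ → List ℤ
  | [] => []
  | x :: a => Int.mul c x :: lpScale c a

def lpMul : List ℤ → List ℤ → List ℤ
  | [], _ => []
  | x :: a, b => lpAdd (lpScale x b) ((0 : ℤ) :: lpMul a b)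

def lpEval (q : ℤ) : List ℤ → ℤ
  | [] => 0
  | x :: a => x + q * lpEval q a

/-- Equality as polynomials. -/
def lpEq : List ℤ → List ℤ → Bool
  | [], [] => true
  | x :: a, [] => cond (iBeq x 0) (lpEq a []) false
  | [], y :: b => cond (iBeq y 0) (lpEq [] b) false
  | x :: a, y :: b => cond (iBeq x y) (lpEq a b) false

theorem lpEval_add (q : ℤ) (a b : List ℤ) : lpEval q (lpAdd a b) = lpEval q a + lpEval q b := by
  induction a generalizing b with
  | nil => simp [lpAdd, lpEval]
  | cons x a ih =>
    cases b with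
    | nil => simp [lpAdd, lpEval]
    | cons y b =>
      show (Int.add x y) + q * lpEval q (lpAdd a b) = _
      rw [ih]
      simp only [lpEval]
      show x + y + _ = _
      ring

theorem lpEval_scale (q c : ℤ) (a : List ℤ) : lpEval q (lpScale c a) = c * lpEval q a := by
  induction a with
  | nil => simp [lpScale, lpEval]
  | cons x a ih =>
    show Int.mul c x + q * lpEval q (lpScale c a) = _
    rw [ih]
    simp only [lpEval]
    show c * x + _ = _
    ring

theorem lpEval_mul (q : ℤ) (a b : List ℤ) : lpEval q (lpMul a b) = lpEval q a * lpEval q b := by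
  induction a with
  | nil => simp [lpMul, lpEval]
  | cons x a ih =>
    simp only [lpMul, lpEval_add, lpEval_scale, lpEval, ih]
    ring

theorem lpEval_of_eq (q : ℤ) : ∀ (a b : List ℤ), lpEq a b = true → lpEval q a = lpEval q b := by
  intro a
  induction a with
  | nil =>
    intro b
    induction b with
    | nil => intro _; rfl
    | cons y b ih =>
      intro h
      simp only [lpEq] at h
      obtain ⟨h1, h2⟩ := cond_and h
      have e := iBeq_eq h1
      simp only [lpEval]
      rw [e, ← ih h2]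
      simp [lpEval]
  | cons x a ih =>
    intro b
    cases b with
    | nil =>
      intro h
      simp only [lpEq] at h
      obtain ⟨h1, h2⟩ := cond_and h
      have e := iBeq_eq h1
      simp only [lpEval]
      rw [e, ih _ h2]
      simp [lpEval]
    | cons y b =>
      intro h
      simp only [lpEq] at h
      obtain ⟨h1, h2⟩ := cond_and h
      have e := iBeq_eq h1
      simp only [lpEval]
      rw [e, ih _ h2]

/-- The monomial `q^d`. -/
def lpMono : ℕ → List ℤ
  | 0 => [1]
  | d + 1 => (0 : ℤ) :: lpMono d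

theorem lpEval_mono (q : ℤ) (d : ℕ) : lpEval q (lpMono d) = q ^ d := by
  induction d with
  | zero => simp [lpMono, lpEval]
  | succ d ih =>
    simp only [lpMono, lpEval, ih]
    ring

theorem list_range_sum (f : ℕ → ℕ) (n : ℕ) : ((List.range n).map f).sum = ∑ i : Fin n, f i := by
  induction n with
  | zero => simp
  | succ n ih =>
    rw [List.range_succ, List.map_append, List.sum_append, ih, Fin.sum_univ_castSucc]
    simp

/-- The polynomial of a step. -/
noncomputable def stepPoly (X : Step) : List ℤ :=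
  List.rec (motive := fun _ => List ℤ) [] (fun x _ ih => lpAdd (lpMono (X.dep x)) ih) (List.range X.k)

theorem sum_eq_lpEval (X : Step) (q : ℕ) : ((∑ x : Fin X.k, q ^ X.dep x : ℕ) : ℤ) = lpEval (q : ℤ) (stepPoly X) := by
  have key : ∀ L : List ℕ, ((L.map fun x => q ^ X.dep x).sum : ℤ) =
      lpEval (q : ℤ) (List.rec (motive := fun _ => List ℤ) [] (fun x _ ih => lpAdd (lpMono (X.dep x)) ih) L) := by
    intro L
    induction L with
    | nil => simp [lpEval]
    | cons x L ih =>
      rw [List.map_cons, List.sum_cons]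
      show _ = lpEval (q : ℤ) (lpAdd (lpMono (X.dep x)) _)
      rw [lpEval_add, lpEval_mono, ← ih]
      push_cast
      rfl
  unfold stepPoly
  rw [← key]
  congr 1
  exact (list_range_sum (fun x => q ^ X.dep x) X.k).symm

/-- The polynomial of a chain. -/
noncomputable def chainPoly (L : List Step) : List ℤ :=
  List.rec (motive := fun _ => List ℤ) [1] (fun X _ ih => lpMul (stepPoly X) ih) L

theorem chain_eval (L : List Step) (q : ℕ) :
    (((L.map fun X => ∑ x : Fin X.k, q ^ X.dep x).prod : ℕ) : ℤ) = lpEval (q : ℤ) (chainPoly L) := by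
  induction L with
  | nil => simp [chainPoly, lpEval]
  | cons X L ih =>
    rw [List.map_cons, List.prod_cons]
    push_cast
    rw [show chainPoly (X :: L) = lpMul (stepPoly X) (chainPoly L) from rfl, lpEval_mul, ← sum_eq_lpEval, ← ih]
    push_cast
    rfl

end Cfsg.Agent.Lib.ChevSym
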