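import Cfsg.Agent.Lib.ChevW3

/-! The presented Coxeter group is the permutation group of the roots (helper4). -/

set_option autoImplicit false
set_option linter.all false

namespace Cfsg.Agent.Lib.ChevSym

open Cfsg.Lie Cfsg.Lie.ChevalleyDatum Matrix Cfsg.Agent.Lib.MatFilt

variable {D : ChevalleyDatum} {C : Cert} {T : Tab}

section cox

variable {n : ℕ} (M : CoxeterMatrix (Fin n))

/-- The simple reflections, with natural indices. -/
noncomputable def sW (i : ℕ) : M.Group := if h : i < n then M.simple ⟨i, h⟩ else 1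

theorem sW_of_lt {i : ℕ} (h : i < n) : sW M i = M.simple ⟨i, h⟩ := dif_pos h

theorem sW_sq {i : ℕ} (h : i < n) : sW M i * sW M i = 1 := by
  rw [sW_of_lt M h]
  exact M.toCoxeterSystem.simple_mul_simple_self ⟨i, h⟩

theorem sW_rel {i k : ℕ} (h : i < n) (h' : k < n) : (sW M i * sW M k) ^ (M.M ⟨i, h⟩ ⟨k, h'⟩) = 1 := by
  rw [sW_of_lt M h, sW_of_lt M h']
  exact M.toCoxeterSystem.simple_mul_simple_pow ⟨i, h⟩ ⟨k, h'⟩

/-- The subgroup generated by a family of simple reflections. -/
noncomputable def WH (J : List ℕ) : Subgroup M.Group := Subgroup.closure (sW M '' {i | i ∈ J})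

variable {M}

/-- One step of a table for the presented group. -/
theorem cox_step {X : Step} {mt : ℕ → ℕ → ℕ} (hX : StepOK X mt) (hJp : ∀ i ∈ X.Jp, i < n)
    (hmt : ∀ i (h : i < n) k (h' : k < n), mt i k = M.M ⟨i, h⟩ ⟨k, h'⟩) [Finite (WH M X.J)] :
    Finite (WH M X.Jp) ∧ Nat.card (WH M X.Jp) ≤ X.k * Nat.card (WH M X.J) := by
  classical
  have hs : ∀ i ∈ X.Jp, sW M i * sW M i = 1 := fun i hi => sW_sq M (hJp i hi)
  have hb : ∀ i ∈ X.Jp, ∀ k ∈ X.Jp, altP (sW M) (mt i k) i k = altP (sW M) (mt i k) k i := by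
    intro i hi k hk
    apply altP_braid _ (hs i hi) (hs k hk)
    rw [hmt i (hJp i hi) k (hJp k hk)]
    exact sW_rel M _ _
  have hJ : ∀ j ∈ X.J, sW M j ∈ WH M X.J := fun j hj => Subgroup.subset_closure ⟨j, hj, rfl⟩
  have hc : ∀ g : WH M X.Jp, ∃ x : Fin X.k, (rep (sW M) X x)⁻¹ * (g : M.Group) ∈ WH M X.J := by
    intro g
    obtain ⟨x, hx, h⟩ := cover (H₀ := WH M X.J) (sW M) hX hs hb hJ g.2
    exact ⟨⟨x, hx⟩, h⟩
  choose f hf using hc
  let φ : WH M X.Jp → Fin X.k × WH M X.J := fun g => (f g, ⟨_, hf g⟩)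
  have hφ : Function.Injective φ := by
    intro g g' h
    have h1 : f g = f g' := congrArg Prod.fst h
    have h2 : (rep (sW M) X (f g))⁻¹ * (g : M.Group) = (rep (sW M) X (f g'))⁻¹ * (g' : M.Group) :=
      congrArg (fun p => ((Prod.snd p : WH M X.J) : M.Group)) h
    rw [h1] at h2
    exact Subtype.ext (mul_left_cancel h2)
  refine ⟨Finite.of_injective φ hφ, ?_⟩
  have := Nat.card_le_card_of_injective φ hφ
  rwa [Nat.card_prod, Nat.card_fin] at this

/-- Along a chain of tables. -/
theorem cox_chain {mt : ℕ → ℕ → ℕ} (hmt : ∀ i (h : i < n) k (h' : k < n), mt i k = M.M ⟨i, h⟩ ⟨k, h'⟩)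
    (hn : D.rank = n) : ∀ (L : List Step) (J₀ : List ℕ), ChainOK D C mt J₀ L →
    Finite (WH M J₀) ∧ Nat.card (WH M J₀) ≤ (L.map fun X => X.k).prod := by
  intro L
  induction L with
  | nil =>
    intro J₀ h
    have h0 : J₀ = [] := h
    subst h0
    have hbot : WH M [] = ⊥ := by
      unfold WH
      have : (sW M '' {i | i ∈ ([] : List ℕ)}) = ∅ := by simp
      rw [this, Subgroup.closure_empty]
    rw [hbot]
    refine ⟨inferInstance, by simp⟩
  | cons X L ih =>
    rintro J₀ ⟨rfl, h1, h2, h4⟩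
    obtain ⟨h5, h6⟩ := ih _ h4
    have := h5
    obtain ⟨h7, h8⟩ := cox_step (M := M) h1 (fun i hi => hn ▸ h2.Jp_lt i hi) hmt
    refine ⟨h7, h8.trans ?_⟩
    rw [List.map_cons, List.prod_cons]
    exact Nat.mul_le_mul_left _ h6

theorem WH_top : WH M (List.range n) = ⊤ := by
  rw [eq_top_iff, ← M.toCoxeterSystem.subgroup_closure_range_simple]
  apply Subgroup.closure_mono
  rintro _ ⟨i, rfl⟩
  refine ⟨i.val, List.mem_range.mpr i.2, ?_⟩
  rw [sW_of_lt M i.2]
  rfl

/-- The presented group is finite of order at most the product of the sizes of the tables. -/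
theorem cox_bound {mt : ℕ → ℕ → ℕ} (hmt : ∀ i (h : i < n) k (h' : k < n), mt i k = M.M ⟨i, h⟩ ⟨k, h'⟩)
    (hn : D.rank = n) {L : List Step} (hL : ChainOK D C mt (List.range n) L) :
    Finite M.Group ∧ Nat.card M.Group ≤ (L.map fun X => X.k).prod := by
  obtain ⟨h1, h2⟩ := cox_chain (M := M) hmt hn L _ hL
  rw [WH_top] at h1 h2
  refine ⟨?_, ?_⟩
  · exact Finite.of_equiv _ Subgroup.topEquiv.toEquiv
  · rwa [Nat.card_congr Subgroup.topEquiv.toEquiv] at h2

/-- The presented group and the permutation group of the roots. -/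
theorem cox_iso (hG : Good D C) {mt : ℕ → ℕ → ℕ} (hmt : ∀ i (h : i < n) k (h' : k < n), mt i k = M.M ⟨i, h⟩ ⟨k, h'⟩)
    (hn : D.rank = n) (hcox : ∀ i < D.rank, ∀ k < D.rank, (wPerm hG i * wPerm hG k) ^ (mt i k) = 1)
    {L : List Step} (hL : ChainOK D C mt (List.range n) L) :
    ∃ e : M.Group ≃* WG hG (List.range n), (∀ i : Fin n, ((e (M.simple i) : WG hG (List.range n)) : Equiv.Perm (Fin D.nroots)) = wPerm hG i) ∧
      Nat.card M.Group = (L.map fun X => X.k).prod := by
  obtain ⟨hfin, hle⟩ := cox_bound (M := M) hmt hn hL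
  have hcard := chain_card hG hcox L _ hL
  subst hn
  have hlift : M.IsLiftable (fun i : Fin D.rank => wPerm hG i.val) := by
    intro i k
    rw [← hmt i.val i.2 k.val k.2]
    exact hcox i.val i.2 k.val k.2
  let φ : M.Group →* Equiv.Perm (Fin D.nroots) := M.toCoxeterSystem.lift ⟨_, hlift⟩
  have hφ : ∀ i : Fin D.rank, φ (M.simple i) = wPerm hG i.val := fun i =>
    M.toCoxeterSystem.lift_apply_simple hlift i
  have hφmem : ∀ g, φ g ∈ WG hG (List.range D.rank) := by
    intro g
    induction g using M.toCoxeterSystem.simple_induction with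
    | simple i =>
      have : M.toCoxeterSystem.simple i = M.simple i := rfl
      rw [this, hφ]
      exact wPerm_mem hG (List.mem_range.mpr i.2)
    | one => rw [map_one]; exact Subgroup.one_mem _
    | mul a b ha hb => rw [map_mul]; exact Subgroup.mul_mem _ ha hb
  let ψ : M.Group →* WG hG (List.range D.rank) := φ.codRestrict _ hφmem
  have hsurj : Function.Surjective ψ := by
    rw [← MonoidHom.range_eq_top, eq_top_iff]
    rintro ⟨g, hg⟩ _
    have hle2 : WG hG (List.range D.rank) ≤ φ.range := by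
      unfold WG
      rw [Subgroup.closure_le]
      rintro _ ⟨i, hi, rfl⟩
      have hi' := List.mem_range.mp hi
      exact ⟨M.simple ⟨i, hi'⟩, hφ ⟨i, hi'⟩⟩
    obtain ⟨x, hx⟩ := hle2 hg
    exact ⟨x, Subtype.ext hx⟩
  have hbij : Function.Bijective ψ := by
    refine (Function.Surjective.bijective_of_nat_card_le hsurj ?_)
    rw [hcard]
    exact hle
  refine ⟨MulEquiv.ofBijective ψ hbij, fun i => hφ i, ?_⟩
  rw [← hcard]
  exact Nat.card_congr (MulEquiv.ofBijective ψ hbij).toEquiv

end cox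

/-! ### The order of a Coxeter element -/

section order

/-- The word acting on a root. -/
noncomputable def wpIter (C : Cert) (l : List ℕ) (r : ℕ) : ℕ → ℕ
  | 0 => r
  | m + 1 => wp C l (wpIter C l r m)

noncomputable def coxOrdCheck (D : ChevalleyDatum) (C : Cert) (l : List ℕ) (h r₀ : ℕ) : Bool :=
  cond (Nat.blt r₀ D.nroots)
    (cond (allL (fun r => Nat.beq (wpIter C l r h) r) (List.range D.nroots))
      (allL (fun m => cond (Nat.beq (wpIter C l r₀ (Nat.succ m)) r₀) false true) (List.range (h - 1))) false) false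

theorem coxOrd_spec (hG : Good D C) {l : List ℕ} (hl : ∀ i ∈ l, i < D.rank) {h r₀ : ℕ} (hh : 0 < h)
    (hc : coxOrdCheck D C l h r₀ = true) : orderOf ((l.map (wPerm hG)).prod) = h := by
  unfold coxOrdCheck at hc
  cases e1 : Nat.blt r₀ D.nroots
  · rw [e1] at hc; simp at hc
  rw [e1, cond_true] at hc
  cases e2 : allL (fun r => Nat.beq (wpIter C l r h) r) (List.range D.nroots)
  · rw [e2] at hc; simp at hc
  rw [e2, cond_true] at hc
  have hr0 : r₀ < D.nroots := Nat.le_of_ble_eq_true e1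
  set c := (l.map (wPerm hG)).prod with hcdef
  have key : ∀ (m : ℕ) (r : Fin D.nroots), ((c ^ m) r).val = wpIter C l r.val m := by
    intro m
    induction m with
    | zero => intro r; rfl
    | succ m ih =>
      intro r
      rw [pow_succ', Equiv.Perm.mul_apply]
      show (c ((c ^ m) r)).val = wp C l (wpIter C l r.val m)
      rw [hcdef, wordPerm_val hG hl, ← hcdef, ih]
  rw [orderOf_eq_iff hh]
  constructor
  · ext r
    rw [key]
    exact Nat.eq_of_beq_eq_true ((allL_iff _ _).mp e2 r.val (List.mem_range.mpr r.2))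
  · intro m hm hm0 h1
    have h2 := key m ⟨r₀, hr0⟩
    rw [h1] at h2
    have h3 := (allL_iff _ _).mp hc (m - 1) (List.mem_range.mpr (by omega))
    have e3 : Nat.succ (m - 1) = m := by omega
    rw [e3, ← h2] at h3
    simp at h3

end order

end Cfsg.Agent.Lib.ChevSym
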