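import Mathlib
import Cfsg.Prelude.Def_Sporadic_a
import Cfsg.Prelude.Def_Spor_Conway

/-!
# The second Conway group in dimension 23 over the field with 13 elements

Reduction modulo 13 of the action on the lattice, restricted to the hyperplane orthogonal to the fixed vector.
-/

set_option autoImplicit false
set_option maxHeartbeats 1000000

namespace Cfsg.Agent.Lib.Co2Rep

open Cfsg Cfsg.Spor

/-- Eight times a coordinate vector. -/
def e8 (i : GolayPt) : GolayPt → ℤ := fun p => if p = i then 8 else 0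

theorem e8_mem (i : GolayPt) : e8 i ∈ leechSet := by
  refine mem_leechSet_of_const_mod_four _ 0 0 (by decide) ?_ ?_
  · intro p
    unfold e8
    split_ifs <;> decide
  · have : ∑ p, e8 i p = 8 := by
      unfold e8
      simp
    rw [this]
    decide

/-- Eight times a coordinate vector, in the lattice. -/
def E (i : GolayPt) : leechLattice := ⟨e8 i, AddSubgroup.subset_closure (e8_mem i)⟩

theorem unif_of_mem {x : GolayPt → ℤ} (hx : x ∈ leechLattice) : ∀ i j, x i ≡ x j [ZMOD 2] := by
  induction hx using AddSubgroup.closure_induction with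
  | mem x hx =>
    obtain ⟨m, h1, -, -⟩ := hx
    intro i j
    exact (h1 i).trans (h1 j).symm
  | zero =>
    intro i j
    exact Int.ModEq.refl _
  | add x y _ _ hx hy =>
    intro i j
    exact (hx i j).add (hy i j)
  | neg x _ hx =>
    intro i j
    exact (hx i j).neg

theorem five_eight : (5 : ZMod 13) * 8 = 1 := by decide

section Aut

variable {f : Equiv.Perm leechLattice} (hf : f ∈ Co0)

include hf

theorem map_add' (v w : leechLattice) : f (v + w) = f v + f w := hf.1 v w

theorem map_norm (v : leechLattice) : sqNorm ((f v : leechLattice) : GolayPt → ℤ) = sqNorm (v : GolayPt → ℤ) := hf.2 v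

/-- The additive map. -/
def phi : leechLattice →+ (GolayPt → ℤ) :=
  leechLattice.subtype.comp (AddMonoidHom.mk' f (map_add' hf))

theorem phi_apply (v : leechLattice) : phi hf v = (f v : leechLattice) := rfl

omit hf in
theorem sqNorm_add (a b : GolayPt → ℤ) : sqNorm (a + b) = sqNorm a + 2 * dotInt a b + sqNorm b := by
  unfold sqNorm dotInt
  rw [Finset.mul_sum, ← Finset.sum_add_distrib, ← Finset.sum_add_distrib]
  refine Finset.sum_congr rfl (fun i _ => ?_)
  simp only [Pi.add_apply]
  ring

theorem map_dot (a b : leechLattice) :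
    dotInt ((f a : leechLattice) : GolayPt → ℤ) ((f b : leechLattice) : GolayPt → ℤ) = dotInt (a : GolayPt → ℤ) (b : GolayPt → ℤ) := by
  have h1 := map_norm hf (a + b)
  rw [map_add' hf] at h1
  have h2 : (((f a + f b : leechLattice)) : GolayPt → ℤ) = (f a : GolayPt → ℤ) + (f b : GolayPt → ℤ) := rfl
  have h3 : ((a + b : leechLattice) : GolayPt → ℤ) = (a : GolayPt → ℤ) + (b : GolayPt → ℤ) := rfl
  rw [h2, h3, sqNorm_add, sqNorm_add, map_norm hf a, map_norm hf b] at h1
  omega

/-- The key linearity formula. -/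
theorem eight_map (x : leechLattice) (k : GolayPt) :
    8 * ((f x : leechLattice) : GolayPt → ℤ) k = ∑ i, (x : GolayPt → ℤ) i * ((f (E i) : leechLattice) : GolayPt → ℤ) k := by
  have h1 : (8 : ℤ) • x = ∑ i, ((x : GolayPt → ℤ) i) • E i := by
    apply Subtype.ext
    funext p
    have h2 : (((∑ i, ((x : GolayPt → ℤ) i) • E i : leechLattice)) : GolayPt → ℤ) = ∑ i, ((x : GolayPt → ℤ) i) • e8 i := by
      rw [AddSubgroup.val_finsetSum]
      rfl
    rw [h2]
    show (8 : ℤ) * (x : GolayPt → ℤ) p = _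
    simp only [Finset.sum_apply, Pi.smul_apply, smul_eq_mul, e8, mul_ite, mul_zero, Finset.sum_ite_eq, Finset.sum_ite_eq', Finset.mem_univ, if_true]
    ring
  have h3 := congrArg (phi hf) h1
  rw [map_zsmul, map_sum] at h3
  have h4 := congrFun h3 k
  simp only [Pi.smul_apply, smul_eq_mul, Finset.sum_apply, map_zsmul, phi_apply] at h4
  exact h4

/-- The reduced matrix. -/
def MM (f : Equiv.Perm leechLattice) : Matrix GolayPt GolayPt (ZMod 13) :=
  Matrix.of fun k i => ((((f (E i) : leechLattice) : GolayPt → ℤ) k : ℤ) : ZMod 13) * 5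

theorem MM_mulVec (x : leechLattice) : (MM f).mulVec (fun p => (((x : GolayPt → ℤ) p : ℤ) : ZMod 13)) =
    fun k => ((((f x : leechLattice) : GolayPt → ℤ) k : ℤ) : ZMod 13) := by
  funext k
  have h1 := congrArg (fun z : ℤ => (z : ZMod 13)) (eight_map hf x k)
  simp only [Int.cast_mul, Int.cast_sum] at h1
  simp only [Matrix.mulVec, dotProduct, MM, Matrix.of_apply]
  have h2 : ∑ i, (((f (E i) : leechLattice) : GolayPt → ℤ) k : ZMod 13) * 5 * ((x : GolayPt → ℤ) i : ZMod 13) =
      5 * ∑ i, ((x : GolayPt → ℤ) i : ZMod 13) * (((f (E i) : leechLattice) : GolayPt → ℤ) k : ZMod 13) := by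
    rw [Finset.mul_sum]
    refine Finset.sum_congr rfl (fun i _ => ?_)
    ring
  rw [h2, ← h1]
  have h3 : ((8 : ℤ) : ZMod 13) = 8 := by norm_cast
  rw [h3, ← mul_assoc, five_eight, one_mul]

end Aut

theorem MM_one : MM 1 = 1 := by
  ext k i
  simp only [MM, Matrix.of_apply, Matrix.one_apply, Equiv.Perm.coe_one, id]
  show ((e8 i k : ℤ) : ZMod 13) * 5 = _
  unfold e8
  by_cases h : k = i
  · subst h
    simp only [if_true]
    decide
  · simp [h]

theorem MM_mul {f g : Equiv.Perm leechLattice} (hf : f ∈ Co0) : MM (f * g) = MM f * MM g := by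
  ext k i
  simp only [Matrix.mul_apply, MM, Matrix.of_apply, Equiv.Perm.mul_apply]
  have h1 := congrArg (fun z : ℤ => (z : ZMod 13)) (eight_map hf (g (E i)) k)
  simp only [Int.cast_mul, Int.cast_sum] at h1
  have h2 : ∑ j, (((f (E j) : leechLattice) : GolayPt → ℤ) k : ZMod 13) * 5 * ((((g (E i) : leechLattice) : GolayPt → ℤ) j : ZMod 13) * 5) =
      5 * 5 * ∑ j, (((g (E i) : leechLattice) : GolayPt → ℤ) j : ZMod 13) * (((f (E j) : leechLattice) : GolayPt → ℤ) k : ZMod 13) := by
    rw [Finset.mul_sum]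
    refine Finset.sum_congr rfl (fun j _ => ?_)
    ring
  rw [h2, ← h1]
  have h3 : ((8 : ℤ) : ZMod 13) = 8 := by norm_cast
  rw [h3]
  have h4 : (5 : ZMod 13) * 5 * 8 = 5 := by decide
  rw [← mul_assoc, h4, mul_comm]

theorem MM_orth {f : Equiv.Perm leechLattice} (hf : f ∈ Co0) : (MM f).transpose * MM f = 1 := by
  ext i j
  simp only [Matrix.mul_apply, Matrix.transpose_apply, MM, Matrix.of_apply]
  have h1 := map_dot hf (E i) (E j)
  have h2 := congrArg (fun z : ℤ => (z : ZMod 13)) h1
  simp only [dotInt, Int.cast_sum, Int.cast_mul] at h2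
  have h3 : ∑ k, (((f (E i) : leechLattice) : GolayPt → ℤ) k : ZMod 13) * 5 * ((((f (E j) : leechLattice) : GolayPt → ℤ) k : ZMod 13) * 5) =
      5 * 5 * ∑ k, (((f (E i) : leechLattice) : GolayPt → ℤ) k : ZMod 13) * (((f (E j) : leechLattice) : GolayPt → ℤ) k : ZMod 13) := by
    rw [Finset.mul_sum]
    refine Finset.sum_congr rfl (fun k _ => ?_)
    ring
  rw [h3, h2]
  by_cases h : i = j
  · subst h
    have h4 : ∑ k, (((E i : leechLattice) : GolayPt → ℤ) k : ZMod 13) * (((E i : leechLattice) : GolayPt → ℤ) k : ZMod 13) = 64 := by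
      show ∑ k, ((e8 i k : ℤ) : ZMod 13) * ((e8 i k : ℤ) : ZMod 13) = 64
      rw [Finset.sum_eq_single i]
      · simp only [e8, if_true]
        decide
      · intro b _ hb
        simp [e8, hb]
      · simp
    rw [h4, Matrix.one_apply_eq]
    decide
  · have h4 : ∑ k, (((E i : leechLattice) : GolayPt → ℤ) k : ZMod 13) * (((E j : leechLattice) : GolayPt → ℤ) k : ZMod 13) = 0 := by
      apply Finset.sum_eq_zero
      intro k _
      show ((e8 i k : ℤ) : ZMod 13) * ((e8 j k : ℤ) : ZMod 13) = 0
      unfold e8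
      by_cases h5 : k = i
      · subst h5
        simp [h]
      · simp [h5]
    rw [h4, Matrix.one_apply_ne h]
    simp

/-- Reduction of the fixed vector. -/
def vb : GolayPt → ZMod 13 := fun p => ((vecU p : ℤ) : ZMod 13)

theorem MM_fix {f : Equiv.Perm leechLattice} (hf : f ∈ Co2) : (MM f).mulVec vb = vb := by
  have h1 := MM_mulVec hf.1 leechU
  have h2 : f leechU = leechU := hf.2
  rw [h2] at h1
  exact h1

theorem MMt_fix {f : Equiv.Perm leechLattice} (hf : f ∈ Co2) : (MM f).transpose.mulVec vb = vb := by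
  have h1 := MM_fix hf
  have h2 := MM_orth hf.1
  calc (MM f).transpose.mulVec vb = (MM f).transpose.mulVec ((MM f).mulVec vb) := by rw [h1]
    _ = vb := by rw [Matrix.mulVec_mulVec, h2, Matrix.one_mulVec]

/-- Projection to the hyperplane. -/
def PP : Matrix GolayPt GolayPt (ZMod 13) := 1 - (11 : ZMod 13) • Matrix.vecMulVec vb vb

theorem MM_comm {f : Equiv.Perm leechLattice} (hf : f ∈ Co2) : MM f * PP = PP * MM f := by
  have h1 : MM f * Matrix.vecMulVec vb vb = Matrix.vecMulVec vb vb := by
    rw [Matrix.mul_vecMulVec, MM_fix hf]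
  have h2 : Matrix.vecMulVec vb vb * MM f = Matrix.vecMulVec vb vb := by
    rw [Matrix.vecMulVec_mul, ← Matrix.mulVec_transpose, MMt_fix hf]
  unfold PP
  rw [mul_sub, sub_mul, mul_one, one_mul, Matrix.mul_smul, Matrix.smul_mul, h1, h2]

/-- Inclusion of the hyperplane. -/
def RR : Matrix GolayPt (Fin 23) (ZMod 13) := Matrix.of fun p j =>
  if j.val = 0 then (if p = none then 1 else if p = some 0 then -1 else 0)
  else (if p = some ((j.val : ℕ) : ZMod 23) then 1 else 0)

/-- Coordinates on the hyperplane. -/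
def QQ : Matrix (Fin 23) GolayPt (ZMod 13) := Matrix.of fun j p =>
  if j.val = 0 then (if p = none then 7 else if p = some 0 then -7 else 0)
  else (if p = some ((j.val : ℕ) : ZMod 23) then 1 else 0)

theorem QR : QQ * RR = 1 := by decide +kernel

theorem RQ : RR * QQ = PP := by decide +kernel

theorem vb_part : PP + (11 : ZMod 13) • Matrix.vecMulVec vb vb = 1 := by
  unfold PP
  abel

/-- The matrix in dimension 23. -/
def NN (f : Equiv.Perm leechLattice) : Matrix (Fin 23) (Fin 23) (ZMod 13) := QQ * MM f * RR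

theorem NN_mul {f g : Equiv.Perm leechLattice} (hf : f ∈ Co2) (hg : g ∈ Co2) : NN (f * g) = NN f * NN g := by
  unfold NN
  calc QQ * MM (f * g) * RR = QQ * (MM f * MM g) * (RR * (QQ * RR)) := by rw [MM_mul hf.1, QR, Matrix.mul_one]
    _ = QQ * MM f * (MM g * (RR * QQ)) * RR := by simp only [Matrix.mul_assoc]
    _ = QQ * MM f * ((RR * QQ) * MM g) * RR := by rw [RQ, MM_comm hg]
    _ = QQ * MM f * RR * (QQ * MM g * RR) := by simp only [Matrix.mul_assoc]

theorem NN_one : NN 1 = 1 := by
  unfold NN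
  rw [MM_one, Matrix.mul_one, QR]

theorem MM_of_NN {f : Equiv.Perm leechLattice} (hf : f ∈ Co2) (h : NN f = 1) : MM f = 1 := by
  have h1 : MM f * RR = RR := by
    calc MM f * RR = MM f * (RR * (QQ * RR)) := by rw [QR, Matrix.mul_one]
      _ = (MM f * (RR * QQ)) * RR := by simp only [Matrix.mul_assoc]
      _ = ((RR * QQ) * MM f) * RR := by rw [RQ, MM_comm hf]
      _ = RR * (QQ * MM f * RR) := by simp only [Matrix.mul_assoc]
      _ = RR := by
        have : QQ * MM f * RR = 1 := h
        rw [this, Matrix.mul_one]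
  have h2 : MM f * PP = PP := by
    rw [← RQ, ← Matrix.mul_assoc, h1]
  have h3 : MM f * Matrix.vecMulVec vb vb = Matrix.vecMulVec vb vb := by
    rw [Matrix.mul_vecMulVec, MM_fix hf]
  calc MM f = MM f * (PP + (11 : ZMod 13) • Matrix.vecMulVec vb vb) := by rw [vb_part, Matrix.mul_one]
    _ = PP + (11 : ZMod 13) • Matrix.vecMulVec vb vb := by rw [Matrix.mul_add, h2, Matrix.mul_smul, h3]
    _ = 1 := vb_part

/-- A small vector divisible by thirteen with uniform parity is zero. -/
theorem small_zero {z : GolayPt → ℤ} (h13 : ∀ k, (13 : ℤ) ∣ z k) (hu : ∀ i j, z i ≡ z j [ZMOD 2]) (hn : sqNorm z ≤ 256) : z = 0 := by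
  by_contra hne
  obtain ⟨k, hk⟩ : ∃ k, z k ≠ 0 := by
    by_contra hall
    push Not at hall
    exact hne (funext hall)
  have hle : ∀ j, z j ^ 2 ≤ 256 := by
    intro j
    refine le_trans ?_ hn
    unfold sqNorm
    exact Finset.single_le_sum (f := fun i => z i ^ 2) (fun i _ => sq_nonneg _) (Finset.mem_univ j)
  have hne13 : ∀ j, z j ≠ 0 → 169 ≤ z j ^ 2 := by
    intro j hj
    obtain ⟨c, hc⟩ := h13 j
    have hc0 : c ≠ 0 := by
      rintro rfl
      apply hj
      rw [hc]
      ring
    have h1 : 1 ≤ c ^ 2 := by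
      have := sq_nonneg c
      have h2 : c ^ 2 ≠ 0 := pow_ne_zero 2 hc0
      omega
    rw [hc]
    nlinarith
  by_cases hodd : z k % 2 = 0
  · obtain ⟨c, hc⟩ := h13 k
    have hc2 : c % 2 = 0 := by omega
    obtain ⟨d, hd⟩ : ∃ d, c = 2 * d := ⟨c / 2, by omega⟩
    have hd0 : d ≠ 0 := by
      rintro rfl
      apply hk
      rw [hc, hd]
      ring
    have h1 : 1 ≤ d ^ 2 := by
      have := sq_nonneg d
      have h2 : d ^ 2 ≠ 0 := pow_ne_zero 2 hd0
      omega
    have h3 := hle k
    rw [hc, hd] at h3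
    nlinarith
  · have hall : ∀ j, z j ≠ 0 := by
      intro j hj
      have h1 := hu j k
      rw [hj] at h1
      have h2 : (0 : ℤ) % 2 = z k % 2 := h1
      omega
    have h1 : ∑ j : GolayPt, (169 : ℤ) ≤ ∑ j, z j ^ 2 := Finset.sum_le_sum (fun j _ => hne13 j (hall j))
    have h2 : ∑ j : GolayPt, (169 : ℤ) = 4056 := by
      rw [Finset.sum_const]
      have : Fintype.card GolayPt = 24 := by decide
      rw [Finset.card_univ, this]
      norm_num
    have h3 : sqNorm z = ∑ j, z j ^ 2 := rfl
    omega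

theorem eq_one_of_MM {f : Equiv.Perm leechLattice} (hf : f ∈ Co0) (h : MM f = 1) : f = 1 := by
  have hE : ∀ i, f (E i) = E i := by
    intro i
    apply Subtype.ext
    have hv : sqNorm (e8 i) = 64 := by
      unfold sqNorm
      rw [Finset.sum_eq_single i]
      · simp [e8]
      · intro b _ hb
        simp [e8, hb]
      · simp
    have hw : sqNorm ((f (E i) : leechLattice) : GolayPt → ℤ) = 64 := by
      rw [map_norm hf]
      exact hv
    have hz := small_zero (z := ((f (E i) : leechLattice) : GolayPt → ℤ) - e8 i) ?_ ?_ ?_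
    · exact sub_eq_zero.mp hz
    · intro k
      have h1 := congrFun (congrFun h k) i
      simp only [MM, Matrix.of_apply] at h1
      have h2 : ((((f (E i) : leechLattice) : GolayPt → ℤ) k : ℤ) : ZMod 13) = (1 : Matrix GolayPt GolayPt (ZMod 13)) k i * 8 := by
        rw [← h1, mul_assoc, five_eight, mul_one]
      have h3 : ((e8 i k : ℤ) : ZMod 13) = (1 : Matrix GolayPt GolayPt (ZMod 13)) k i * 8 := by
        unfold e8
        by_cases hk : k = i
        · subst hk
          simp
        · simp [hk, Matrix.one_apply_ne hk]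
      have h4 : ((((((f (E i) : leechLattice) : GolayPt → ℤ) - e8 i) k : ℤ)) : ZMod 13) = 0 := by
        simp only [Pi.sub_apply, Int.cast_sub]
        rw [h2, h3, sub_self]
      exact_mod_cast (ZMod.intCast_zmod_eq_zero_iff_dvd _ 13).mp h4
    · intro a b
      have h1 := unif_of_mem (f (E i)).2 a b
      have h2 : e8 i a ≡ e8 i b [ZMOD 2] := by
        unfold e8
        split_ifs <;> decide
      exact h1.sub h2
    · have h5 : sqNorm (((f (E i) : leechLattice) : GolayPt → ℤ) - e8 i) + sqNorm (((f (E i) : leechLattice) : GolayPt → ℤ) + e8 i) =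
          2 * sqNorm ((f (E i) : leechLattice) : GolayPt → ℤ) + 2 * sqNorm (e8 i) := by
        unfold sqNorm
        rw [Finset.mul_sum, Finset.mul_sum, ← Finset.sum_add_distrib, ← Finset.sum_add_distrib]
        refine Finset.sum_congr rfl (fun j _ => ?_)
        simp only [Pi.sub_apply, Pi.add_apply]
        ring
      have h6 : 0 ≤ sqNorm (((f (E i) : leechLattice) : GolayPt → ℤ) + e8 i) :=
        Finset.sum_nonneg (fun j _ => sq_nonneg _)
      rw [hw, hv] at h5
      omega
  ext1 x
  apply Subtype.ext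
  funext k
  have h1 := eight_map hf x k
  simp only [hE] at h1
  have h2 : ∑ i, (x : GolayPt → ℤ) i * ((E i : leechLattice) : GolayPt → ℤ) k = (x : GolayPt → ℤ) k * 8 := by
    show ∑ i, (x : GolayPt → ℤ) i * e8 i k = _
    rw [Finset.sum_eq_single k]
    · simp [e8]
    · intro b _ hb
      simp [e8, Ne.symm hb]
    · simp
  rw [h2] at h1
  show ((f x : leechLattice) : GolayPt → ℤ) k = (x : GolayPt → ℤ) k
  omega

/-- The statement. -/
theorem main5546 : ∃ f : ↥Co2 →* GL (Fin 23) (ZMod 13), Function.Injective f := by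
  let φ : ↥Co2 →* Matrix (Fin 23) (Fin 23) (ZMod 13) :=
    { toFun := fun g => NN g.1
      map_one' := NN_one
      map_mul' := fun a b => NN_mul a.2 b.2 }
  refine ⟨φ.toHomUnits, ?_⟩
  rw [injective_iff_map_eq_one]
  intro g hg
  have h1 : NN g.1 = 1 := by
    have := congrArg Units.val hg
    have h2 : φ g = 1 := by simpa using this
    exact h2
  apply Subtype.ext
  exact eq_one_of_MM g.2.1 (MM_of_NN g.2 h1)

end Cfsg.Agent.Lib.Co2Rep
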