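import Mathlib
import Cfsg.Agent.Lib.PResidual

/-! Counting fixed points of a `q`-group acting by conjugation, primary parts of elements
(helper4). -/

namespace Cfsg.Agent.Lib.ConjCount

variable {G : Type*} [Group G] [Finite G]

/-- A `q`-group normalizing `P` fixes a number of elements of `P` congruent to `|P|`. -/
theorem card_modEq_fixed (T P : Subgroup G) {q : ℕ} [Fact q.Prime] (hT : IsPGroup q T)
    (hTP : T ≤ Subgroup.normalizer (P : Set G)) :
    Nat.card P ≡ Nat.card (P ⊓ Subgroup.centralizer (T : Set G) : Subgroup G) [MOD q] := by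
  classical
  letI : MulAction T P :=
    { smul := fun b s => ⟨b.1 * s.1 * b.1⁻¹, (Subgroup.mem_normalizer_iff.mp (hTP b.2) s.1).mp s.2⟩
      one_smul := fun s => Subtype.ext (by
        show (1 : G) * s.1 * (1 : G)⁻¹ = s.1
        simp)
      mul_smul := fun a b s => Subtype.ext (by
        show (a.1 * b.1) * s.1 * (a.1 * b.1)⁻¹ = a.1 * (b.1 * s.1 * b.1⁻¹) * a.1⁻¹
        group) }
  have h1 := hT.card_modEq_card_fixedPoints P
  have h2 : Nat.card (MulAction.fixedPoints T P) =
      Nat.card (P ⊓ Subgroup.centralizer (T : Set G) : Subgroup G) := by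
    refine Nat.card_congr ⟨fun x => ⟨x.1.1, Subgroup.mem_inf.mpr ⟨x.1.2, ?_⟩⟩, fun x => ⟨⟨x.1, (Subgroup.mem_inf.mp x.2).1⟩, ?_⟩, ?_, ?_⟩
    · rw [Subgroup.mem_centralizer_iff]
      intro t ht
      have h3 : t * x.1.1 * t⁻¹ = x.1.1 := congrArg Subtype.val (x.2 ⟨t, ht⟩)
      calc t * x.1.1 = (t * x.1.1 * t⁻¹) * t := by group
        _ = x.1.1 * t := by rw [h3]
    · intro t
      apply Subtype.ext
      show (t : G) * x.1 * (t : G)⁻¹ = x.1
      have h3 := Subgroup.mem_centralizer_iff.mp (Subgroup.mem_inf.mp x.2).2 t t.2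
      rw [h3]
      group
    · intro x
      rfl
    · intro x
      rfl
  rwa [h2] at h1

/-- If `g ∉ C` then some power of `g` of prime power order is not in `C`. -/
theorem exists_primary_not_mem (C : Subgroup G) :
    ∀ (n : ℕ) (g : G), orderOf g = n → g ∉ C →
      ∃ z ∈ Subgroup.zpowers g, z ∉ C ∧ ∃ q k : ℕ, q.Prime ∧ orderOf z = q ^ k := by
  intro n
  induction n using Nat.strong_induction_on with
  | _ n IH =>
  intro g hg hgC
  have hn1 : n ≠ 1 := by
    intro h
    rw [h] at hg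
    apply hgC
    rw [orderOf_eq_one_iff.mp hg]
    exact C.one_mem
  have hn0 : n ≠ 0 := by
    rw [← hg]
    exact (orderOf_pos g).ne'
  set q := n.minFac with hq
  have hqp : q.Prime := Nat.minFac_prime hn1
  have hqn : q ∣ n := Nat.minFac_dvd n
  haveI : Fact q.Prime := ⟨hqp⟩
  obtain ⟨a, b, hab, -, ha, ⟨k, hk⟩, ha', hb'⟩ := Cfsg.Agent.Lib.PResidual.exists_decomp (p := q) g
  by_cases hb : b ∈ C
  · have haC : a ∉ C := by
      intro h
      apply hgC
      rw [hab]
      exact C.mul_mem h hb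
    have hadvd : orderOf a ∣ n := by
      rw [← hg]
      exact orderOf_dvd_of_mem_zpowers ha'
    have halt : orderOf a < n := by
      refine lt_of_le_of_ne (Nat.le_of_dvd (Nat.pos_of_ne_zero hn0) hadvd) ?_
      intro h
      rw [h] at ha
      have := Nat.Coprime.eq_one_of_dvd ha.symm hqn
      exact hqp.ne_one this
    obtain ⟨z, hz, hzC, hzo⟩ := IH _ halt a rfl haC
    exact ⟨z, (Subgroup.zpowers_le.mpr ha') hz, hzC, hzo⟩
  · exact ⟨b, hb', hb, q, k, hqp, hk⟩

end Cfsg.Agent.Lib.ConjCount
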