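import Mathlib
import Cfsg.Agent.Lib.SchurZ
import Cfsg.Agent.Lib.H2Basic
import Cfsg.Agent.Lib.Replacement

/-!
# Coprime factorisations `G = K U` with `H ≤ U` of order prime to `K`
-/

set_option autoImplicit false
set_option linter.all false

namespace Cfsg.Agent.Lib.CoprimeDec

variable {G : Type*} [Group G] [Finite G]

/-- `g H g⁻¹ ≤ U` forces `g = u c`, with `u ∈ U` and `c ∈ K` centralizing `H`. -/
theorem exists_decomp_of_conj_le (K U H : Subgroup G) [hK : K.Normal] (hKU : K ⊔ U = ⊤) (hH : H ≤ U)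
    (hcop : (Nat.card H).Coprime (Nat.card K)) (hs : Group.IsSolvable K ∨ Group.IsSolvable H) (g : G)
    (hg : H.map (MulAut.conj g).toMonoidHom ≤ U) :
    ∃ u ∈ U, ∃ c ∈ K ⊓ Subgroup.centralizer (H : Set G), g = u * c := by
  classical
  have hUle : U ≤ Subgroup.normalizer (K : Set G) := fun w _ => by
    rw [Subgroup.normalizer_eq_top K]
    trivial
  obtain ⟨u₀, hu₀, k, hk, e⟩ := Cfsg.Agent.Lib.Replacement.mem_sup_of_le_normalizer hUle
    (show g ∈ U ⊔ K by rw [sup_comm, hKU]; trivial)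
  -- `L = K ⊓ U`
  let L := K ⊓ U
  have hLK : Nat.card L ∣ Nat.card K := Subgroup.card_dvd_of_le inf_le_left
  have hHL : H ≤ Subgroup.normalizer (L : Set G) := by
    intro h hh
    rw [Subgroup.mem_normalizer_iff]
    intro x
    have h1 : ∀ y ∈ L, h * y * h⁻¹ ∈ L := by
      intro y hy
      exact ⟨hK.conj_mem y hy.1 h, U.mul_mem (U.mul_mem (hH hh) hy.2) (U.inv_mem (hH hh))⟩
    constructor
    · exact h1 x
    · intro hx
      have h2 := (show h⁻¹ ∈ H from H.inv_mem hh)
      have h3 : ∀ y ∈ L, h⁻¹ * y * h⁻¹⁻¹ ∈ L := by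
        intro y hy
        exact ⟨hK.conj_mem y hy.1 h⁻¹, U.mul_mem (U.mul_mem (hH h2) hy.2) (U.inv_mem (hH h2))⟩
      have := h3 _ hx
      have e3 : h⁻¹ * (h * x * h⁻¹) * h⁻¹⁻¹ = x := by group
      rwa [e3] at this
  have hu₀' : ∀ a ∈ H, k * a * k⁻¹ * a⁻¹ ∈ L := by
    intro a ha
    refine ⟨?_, ?_⟩
    · have : k * a * k⁻¹ * a⁻¹ = k * (a * k⁻¹ * a⁻¹) := by group
      rw [this]
      exact K.mul_mem hk (hK.conj_mem _ (K.inv_mem hk) a)
    · have h1 : g * a * g⁻¹ ∈ U := hg ⟨a, ha, rfl⟩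
      have h2 : k * a * k⁻¹ = u₀⁻¹ * (g * a * g⁻¹) * u₀ := by rw [e]; group
      have h3 : k * a * k⁻¹ ∈ U := by
        rw [h2]
        exact U.mul_mem (U.mul_mem (U.inv_mem hu₀) h1) hu₀
      exact U.mul_mem h3 (U.inv_mem (hH ha))
  have hsL : Group.IsSolvable L ∨ Group.IsSolvable H := by
    rcases hs with hs | hs
    · left
      exact Cfsg.Agent.Lib.SchurZ.isSolvable_of_le inf_le_left hs
    · exact Or.inr hs
  obtain ⟨n, hn, hnk⟩ := Cfsg.Agent.Lib.SchurZ.exists_fixed L H hHL k hu₀'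
    (by exact (hcop.coprime_dvd_right hLK).symm) hsL
  refine ⟨u₀ * n⁻¹, U.mul_mem hu₀ (U.inv_mem hn.2), n * k, ⟨K.mul_mem hn.1 hk, hnk⟩, ?_⟩
  rw [e]
  group

/-- The normalizer decomposition. -/
theorem normalizer_eq (K U H : Subgroup G) [hK : K.Normal] (hKU : K ⊔ U = ⊤) (hH : H ≤ U)
    (hcop : (Nat.card H).Coprime (Nat.card K)) (hs : Group.IsSolvable K ∨ Group.IsSolvable H) :
    Subgroup.normalizer (H : Set G) = (K ⊓ Subgroup.centralizer (H : Set G)) ⊔ (U ⊓ Subgroup.normalizer (H : Set G)) := by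
  apply le_antisymm
  · intro g hg
    have h1 : H.map (MulAut.conj g).toMonoidHom ≤ U := by
      rintro _ ⟨a, ha, rfl⟩
      exact hH ((Subgroup.mem_normalizer_iff.1 hg a).1 ha)
    obtain ⟨u, hu, c, hc, e⟩ := exists_decomp_of_conj_le K U H hKU hH hcop hs g h1
    have hcN : c ∈ Subgroup.normalizer (H : Set G) :=
      Cfsg.Agent.Lib.H2Basic.mem_normalizer_of_forall_comm fun b hb => (Subgroup.mem_centralizer_iff.1 hc.2 b hb).symm
    have huN : u ∈ Subgroup.normalizer (H : Set G) := by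
      have : u = g * c⁻¹ := by rw [e]; group
      rw [this]
      exact Subgroup.mul_mem _ hg (Subgroup.inv_mem _ hcN)
    rw [e]
    exact Subgroup.mul_mem _ ((le_sup_right : U ⊓ Subgroup.normalizer (H : Set G) ≤ _) ⟨hu, huN⟩)
      ((le_sup_left : K ⊓ Subgroup.centralizer (H : Set G) ≤ _) hc)
  · apply sup_le
    · intro c hc
      exact Cfsg.Agent.Lib.H2Basic.mem_normalizer_of_forall_comm fun b hb => (Subgroup.mem_centralizer_iff.1 hc.2 b hb).symm
    · exact inf_le_right

/-- `H ∩ G' = H ∩ U'`. -/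
theorem inf_commutator_eq (K U H : Subgroup G) [hK : K.Normal] (hKU : K ⊔ U = ⊤) (hH : H ≤ U)
    (hcop : (Nat.card H).Coprime (Nat.card K)) : H ⊓ commutator G = H ⊓ ⁅U, U⁆ := by
  apply le_antisymm
  · rintro h ⟨hh, hhG⟩
    refine ⟨hh, ?_⟩
    -- `G' ≤ K U'`
    let π := QuotientGroup.mk' K
    have hsurj : U.map π = ⊤ := by
      rw [eq_top_iff]
      rintro y -
      obtain ⟨g, rfl⟩ := QuotientGroup.mk'_surjective K y
      have hg : g ∈ U ⊔ K := by
        rw [sup_comm, hKU]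
        trivial
      have hUle : U ≤ Subgroup.normalizer (K : Set G) := fun w _ => by
        rw [Subgroup.normalizer_eq_top K]
        trivial
      obtain ⟨u, hu, k, hk, e⟩ := Cfsg.Agent.Lib.Replacement.mem_sup_of_le_normalizer hUle hg
      refine ⟨u, hu, ?_⟩
      rw [e, map_mul]
      have : QuotientGroup.mk' K k = 1 := (QuotientGroup.eq_one_iff k).2 hk
      rw [this, mul_one]
    have h1 : (commutator G).map π ≤ (⁅U, U⁆ : Subgroup G).map π := by
      rw [commutator_def, Subgroup.map_commutator, Subgroup.map_commutator]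
      have htop : (⊤ : Subgroup G).map π = ⊤ := by
        rw [← MonoidHom.range_eq_map]
        exact QuotientGroup.range_mk' K
      rw [htop, hsurj]
    have h2 : π h ∈ (⁅U, U⁆ : Subgroup G).map π := h1 ⟨h, hhG, rfl⟩
    obtain ⟨v, hv, e⟩ := h2
    have h3 : h * v⁻¹ ∈ K := by
      rw [← QuotientGroup.eq_one_iff]
      change π (h * v⁻¹) = 1
      rw [map_mul, map_inv, e, mul_inv_cancel]
    -- now `h v⁻¹ ∈ K ⊓ U` and `h` is a `π`-element
    have hvU : v ∈ U := (Subgroup.commutator_le.2 (fun a ha b hb => by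
      rw [commutatorElement_def]
      exact U.mul_mem (U.mul_mem (U.mul_mem ha hb) (U.inv_mem ha)) (U.inv_mem hb))) hv
    -- quotient of `U` by `U'` is commutative
    let N : Subgroup U := commutator U
    have hmem : ∀ x : U, (x : G) ∈ (⁅U, U⁆ : Subgroup G) ↔ x ∈ N := by
      intro x
      have h5 : (⁅U, U⁆ : Subgroup G) = (commutator U).map U.subtype := (Subgroup.map_subtype_commutator U).symm
      rw [h5]
      constructor
      · rintro ⟨y, hy, e⟩
        have : y = x := Subtype.ext e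
        rwa [← this]
      · intro hx
        exact ⟨x, hx, rfl⟩
    let hU : U := ⟨h, hH hh⟩
    let kU : U := ⟨h * v⁻¹, U.mul_mem (hH hh) (U.inv_mem hvU)⟩
    have hkey : (QuotientGroup.mk hU : U ⧸ N) = QuotientGroup.mk kU := by
      rw [QuotientGroup.eq]
      rw [← hmem]
      have : ((hU⁻¹ * kU : U) : G) = v⁻¹ := by
        change (h⁻¹ * (h * v⁻¹) : G) = v⁻¹
        group
      rw [this]
      exact Subgroup.inv_mem _ hv
    have hord1 : (QuotientGroup.mk hU : U ⧸ N) ^ Nat.card H = 1 := by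
      have h6 : hU ^ Nat.card H = 1 := by
        apply Subtype.ext
        have : (h : G) ^ Nat.card H = 1 := orderOf_dvd_iff_pow_eq_one.1 (Subgroup.orderOf_dvd_natCard H hh)
        simpa [hU] using this
      rw [← QuotientGroup.mk_pow, h6]
      rfl
    have hord2 : (QuotientGroup.mk kU : U ⧸ N) ^ Nat.card K = 1 := by
      have h6 : kU ^ Nat.card K = 1 := by
        apply Subtype.ext
        have : (h * v⁻¹ : G) ^ Nat.card K = 1 := orderOf_dvd_iff_pow_eq_one.1 (Subgroup.orderOf_dvd_natCard K h3)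
        simpa [kU] using this
      rw [← QuotientGroup.mk_pow, h6]
      rfl
    rw [hkey] at hord1
    have h7 : orderOf (QuotientGroup.mk kU : U ⧸ N) = 1 :=
      Nat.eq_one_of_dvd_coprimes hcop (orderOf_dvd_of_pow_eq_one hord1) (orderOf_dvd_of_pow_eq_one hord2)
    rw [orderOf_eq_one_iff, ← hkey, QuotientGroup.eq_one_iff, ← hmem] at h7
    exact h7
  · rintro h ⟨hh, hhU⟩
    refine ⟨hh, ?_⟩
    exact (Subgroup.commutator_mono le_top le_top) hhU

end Cfsg.Agent.Lib.CoprimeDec
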