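import Mathlib
import Cfsg.Agent.Lib.SchurZ
import Cfsg.Agent.Lib.PResidual
import Cfsg.Agent.S0075

/-!
# A group with abelian Sylow subgroups in `O^p(G)`: the residual has a complement
-/

set_option autoImplicit false
set_option linter.style.haveILetI false
set_option linter.unusedSectionVars false
set_option linter.unusedVariables false

namespace Cfsg.Agent.Lib.ResidComplement

open Cfsg Cfsg.Agent.Lib.PResidual Cfsg.Agent.Lib.SchurZ
open scoped commutatorElement Pointwise

universe u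

variable {G : Type u} [Group G] [Finite G]

/-- Averaging: in an abelian group with a coprime action, the commutator subgroup meets the fixed
points trivially. -/
theorem commutator_inf_centralizer_eq_bot {A C : Subgroup G} (hab : ∀ a ∈ A, ∀ b ∈ A, a * b = b * a)
    (hC : C ≤ Subgroup.normalizer (A : Set G)) (hcop : Nat.Coprime (Nat.card A) (Nat.card C)) :
    ⁅A, C⁆ ⊓ Subgroup.centralizer (C : Set G) = ⊥ := by
  classical
  letI : Fintype C := Fintype.ofFinite _
  letI : CommGroup A := { (inferInstance : Group A) with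
    mul_comm := fun a b => Subtype.ext (hab a a.2 b b.2) }
  have hconj : ∀ c ∈ C, ∀ x ∈ A, c * x * c⁻¹ ∈ A := by
    intro c hc x hx
    exact (Subgroup.mem_normalizer_iff.1 (hC hc) x).1 hx
  let φ : C → A →* A := fun c =>
    { toFun := fun x => ⟨c * x * c⁻¹, hconj c c.2 x x.2⟩
      map_one' := by
        apply Subtype.ext
        simp
      map_mul' := by
        intro x y
        apply Subtype.ext
        show (c : G) * ((x : G) * y) * (c : G)⁻¹ = ((c : G) * x * (c : G)⁻¹) * ((c : G) * y * (c : G)⁻¹)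
        group }
  let τ : A →* A := ∏ c : C, φ c
  have hτ : ∀ x, τ x = ∏ c : C, φ c x := fun x => MonoidHom.finsetProd_apply _ _ _
  have hτc : ∀ x, ∀ c : C, τ (φ c x) = τ x := by
    intro x d
    rw [hτ, hτ]
    apply Fintype.prod_equiv (Equiv.mulRight d)
    intro c
    apply Subtype.ext
    show (c : G) * ((d : G) * x * (d : G)⁻¹) * (c : G)⁻¹ = ((c * d : C) : G) * x * ((c * d : C) : G)⁻¹
    push_cast
    group
  have hker : ⁅A, C⁆ ≤ τ.ker.map A.subtype := by
    rw [Subgroup.commutator_le]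
    intro a ha c hc
    have h1 : ⁅a, c⁆ = (⟨a, ha⟩ * (φ ⟨c, hc⟩ ⟨a, ha⟩)⁻¹ : A) := by
      show ⁅a, c⁆ = a * (c * a * c⁻¹)⁻¹
      rw [commutatorElement_def]
      group
    rw [h1]
    refine ⟨(⟨a, ha⟩ * (φ ⟨c, hc⟩ ⟨a, ha⟩)⁻¹ : A), ?_, rfl⟩
    show τ _ = 1
    rw [map_mul, map_inv, hτc]
    exact mul_inv_cancel _
  rw [eq_bot_iff]
  rintro x ⟨hx, hxc⟩
  obtain ⟨y, hy, rfl⟩ := hker hx
  have h1 : τ y = y ^ Nat.card C := by
    rw [hτ, Nat.card_eq_fintype_card, ← Finset.card_univ, ← Finset.prod_const]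
    apply Finset.prod_congr rfl
    intro c _
    apply Subtype.ext
    show (c : G) * y * (c : G)⁻¹ = y
    have := Subgroup.mem_centralizer_iff.1 hxc c c.2
    change (c : G) * (y : G) = (y : G) * c at this
    rw [this]
    group
  have h2 : y ^ Nat.card C = 1 := by
    rw [← h1]
    exact hy
  have h3 : orderOf y ∣ Nat.card C := orderOf_dvd_of_pow_eq_one h2
  have h4 : orderOf y ∣ Nat.card A := orderOf_dvd_natCard y
  have h5 := Nat.eq_one_of_dvd_coprimes hcop h4 h3
  rw [orderOf_eq_one_iff] at h5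
  rw [h5]
  exact Subgroup.one_mem _

/-- A normal Hall subgroup of a subgroup has a complement in it. -/
theorem exists_complement_in (A L : Subgroup G) (hAL : A ≤ L)
    (hn : L ≤ Subgroup.normalizer (A : Set G)) (hcop : Nat.Coprime (Nat.card A) (A.relIndex L)) :
    ∃ C : Subgroup G, C ≤ L ∧ A ⊓ C = ⊥ ∧ (∀ l ∈ L, ∃ a ∈ A, ∃ c ∈ C, l = a * c) ∧
      Nat.card A * Nat.card C = Nat.card L := by
  classical
  haveI : (A.subgroupOf L).Normal := Subgroup.normal_subgroupOf_of_le_normalizer hn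
  have hc1 : Nat.card (A.subgroupOf L) = Nat.card A :=
    Nat.card_congr (Subgroup.subgroupOfEquivOfLe hAL).toEquiv
  have hc2 : Nat.Coprime (Nat.card (A.subgroupOf L)) (A.subgroupOf L).index := by
    rw [hc1]
    exact hcop
  obtain ⟨C', hC'⟩ := Subgroup.exists_right_complement'_of_coprime hc2
  refine ⟨C'.map L.subtype, ?_, ?_, ?_, ?_⟩
  · rintro _ ⟨x, -, rfl⟩
    exact x.2
  · rw [eq_bot_iff]
    rintro _ ⟨ha, ⟨x, hx, rfl⟩⟩
    have h1 : x ∈ A.subgroupOf L ⊓ C' := ⟨Subgroup.mem_subgroupOf.2 ha, hx⟩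
    have h2 := hC'.disjoint
    rw [disjoint_iff] at h2
    rw [h2, Subgroup.mem_bot] at h1
    rw [h1]
    exact Subgroup.one_mem _
  · intro l hl
    obtain ⟨⟨a, c⟩, hac, -⟩ := Subgroup.IsComplement.existsUnique hC' ⟨l, hl⟩
    refine ⟨(a : L), Subgroup.mem_subgroupOf.1 a.2, (c : L), ⟨c, c.2, rfl⟩, ?_⟩
    have := congrArg Subtype.val hac
    exact this.symm
  · have h1 := hC'.card_mul_card
    rw [hc1] at h1
    rw [← h1, Subgroup.card_map_of_injective L.subtype_injective]

/-- `O^p(O^p(G)) = O^p(G)`. -/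
theorem pResidual_residual (p : ℕ) : pResidual p (pResidual p G) = ⊤ := by
  classical
  have h1 : pResidual p G ≤ (pResidual p (pResidual p G)).map (pResidual p G).subtype := by
    conv_lhs => unfold pResidual
    rw [Subgroup.closure_le]
    intro x hx
    have hxR : x ∈ pResidual p G := Subgroup.subset_closure hx
    refine ⟨⟨x, hxR⟩, ?_, rfl⟩
    apply mem_pResidual_of_coprime
    rw [Subgroup.orderOf_mk]
    exact hx
  rw [eq_top_iff]
  intro r _
  obtain ⟨r', hr', e⟩ := h1 r.2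
  have : r' = r := Subtype.ext e
  rwa [← this]

/-- **Theorem.** If `O^p(G)` has abelian Sylow `p`-subgroups, it has a complement. -/
theorem exists_complement {p : ℕ} [hp : Fact p.Prime]
    (h : ∀ Q : Sylow p (pResidual p G), IsMulCommutative Q) :
    ∃ K : Subgroup G, K.IsComplement' (pResidual p G) := by
  classical
  haveI hRn : (pResidual p G).Normal := pResidual_normal p G
  let Rt : Subgroup G := pResidual p G
  obtain ⟨Q⟩ : Nonempty (Sylow p Rt) := inferInstance
  have hQab := h Q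
  have hres := pResidual_residual (G := G) p
  have h75 := Cfsg.Agent.S0075.result Q hQab
  rw [hres, inf_top_eq] at h75
  let A : Subgroup G := (Q : Subgroup Rt).map Rt.subtype
  have hAR : A ≤ Rt := by
    rintro _ ⟨x, -, rfl⟩
    exact x.2
  let M : Subgroup G := Subgroup.normalizer (A : Set G)
  let L : Subgroup G := Rt ⊓ M
  have hAM : A ≤ M := Subgroup.le_normalizer
  have hAL : A ≤ L := le_inf hAR hAM
  have hLM : L ≤ M := inf_le_right
  have hab : ∀ a ∈ A, ∀ b ∈ A, a * b = b * a := by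
    rintro _ ⟨x, hx, rfl⟩ _ ⟨y, hy, rfl⟩
    have := congrArg Subtype.val (mul_comm' (⟨x, hx⟩ : Q) ⟨y, hy⟩)
    have h2 : x * y = y * x := this
    show (x : G) * y = y * x
    exact congrArg Subtype.val h2
  have hAp : IsPGroup p A := (Q.isPGroup').map _
  have hcardA : Nat.card A = Nat.card (Q : Subgroup Rt) :=
    Subgroup.card_map_of_injective Rt.subtype_injective
  have hL1 : Nat.card A * A.relIndex L = Nat.card L := by
    have := Subgroup.relIndex_mul_relIndex (⊥ : Subgroup G) A L bot_le hAL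
    simpa only [Subgroup.relIndex_bot_left] using this
  have hR1 : Nat.card A * (Q : Subgroup Rt).index = Nat.card Rt := by
    rw [hcardA]
    exact Subgroup.card_mul_index _
  have hLR : Nat.card L ∣ Nat.card Rt := Subgroup.card_dvd_of_le inf_le_left
  have hApos : 0 < Nat.card A := Nat.card_pos
  have hpi : ¬ p ∣ A.relIndex L := by
    intro hd
    have h1 : A.relIndex L ∣ (Q : Subgroup Rt).index := by
      rw [← hL1, ← hR1] at hLR
      exact Nat.dvd_of_mul_dvd_mul_left hApos hLR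
    exact Q.not_dvd_index (hd.trans h1)
  obtain ⟨i, hi⟩ := IsPGroup.iff_card.1 hAp
  have hcop : Nat.Coprime (Nat.card A) (A.relIndex L) := by
    rw [hi]
    exact Nat.Coprime.pow_left i ((Nat.Prime.coprime_iff_not_dvd hp.out).2 hpi)
  obtain ⟨C, hCL, hACd, hdec, hcardC⟩ := exists_complement_in A L hAL hLM hcop
  have hCidx : Nat.card C = A.relIndex L := by
    have := hL1.trans hcardC.symm
    exact (Nat.eq_of_mul_eq_mul_left hApos this).symm
  have hcC : Nat.Coprime (Nat.card A) (Nat.card C) := by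
    rw [hCidx]
    exact hcop
  have hpC : Nat.Coprime p (Nat.card C) := by
    rw [hCidx]
    exact (Nat.Prime.coprime_iff_not_dvd hp.out).2 hpi
  have hCM : C ≤ Subgroup.normalizer (A : Set G) := hCL.trans hLM
  have hAconj : ∀ c ∈ C, ∀ x ∈ A, c * x * c⁻¹ ∈ A := fun c hc x hx =>
    (Subgroup.mem_normalizer_iff.1 (hCM hc) x).1 hx
  -- `A = [A, L]`
  have hNL : ((Subgroup.normalizer (Q : Set Rt)).map Rt.subtype) ≤ L := by
    rintro _ ⟨x, hx, rfl⟩
    refine ⟨x.2, ?_⟩
    show (x : G) ∈ Subgroup.normalizer (A : Set G)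
    rw [Subgroup.mem_normalizer_iff]
    intro y
    constructor
    · rintro ⟨q, hq, rfl⟩
      exact ⟨x * q * x⁻¹, (Subgroup.mem_normalizer_iff.1 hx q).1 hq, rfl⟩
    · rintro ⟨q, hq, e⟩
      refine ⟨x⁻¹ * q * x⁻¹⁻¹, (Subgroup.mem_normalizer_iff.1 (Subgroup.inv_mem _ hx) q).1 hq, ?_⟩
      have e' : ((q : Rt) : G) = (x : G) * y * (x : G)⁻¹ := e
      show ((x⁻¹ * q * x⁻¹⁻¹ : Rt) : G) = y
      push_cast
      rw [e']
      group
  have hA1 : A ≤ ⁅A, L⁆ := by
    have h1 : A = ⁅A, (Subgroup.normalizer (Q : Set Rt)).map Rt.subtype⁆ := by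
      rw [← Subgroup.map_commutator, ← h75]
    calc A = _ := h1
      _ ≤ ⁅A, L⁆ := Subgroup.commutator_mono le_rfl hNL
  have hA2 : ⁅A, L⁆ ≤ ⁅A, C⁆ := by
    rw [Subgroup.commutator_le]
    intro a ha l hl
    obtain ⟨b, hb, c, hc, rfl⟩ := hdec l hl
    have hw : a * (c * a⁻¹ * c⁻¹) ∈ A := A.mul_mem ha (hAconj c hc _ (A.inv_mem ha))
    have h1 : ⁅a, b * c⁆ = ⁅a, c⁆ := by
      rw [commutatorElement_def, commutatorElement_def]
      have h2 : a * (b * c) * a⁻¹ * (b * c)⁻¹ = (a * b * a⁻¹) * (a * (c * a⁻¹ * c⁻¹)) * b⁻¹ := by group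
      have h3 : a * b * a⁻¹ = b := by
        rw [hab a ha b hb]
        group
      have h4 : b * (a * (c * a⁻¹ * c⁻¹)) * b⁻¹ = a * (c * a⁻¹ * c⁻¹) := by
        rw [← hab _ hw b hb]
        group
      rw [h2, h3, h4]
      group
    rw [h1]
    exact Subgroup.commutator_mem_commutator ha hc
  have hAC : A ≤ ⁅A, C⁆ := hA1.trans hA2
  have hfix : ∀ x ∈ A, x ∈ Subgroup.normalizer (C : Set G) → x = 1 := by
    intro x hx hxN
    have h1 := mem_centralizer_of_mem_normalizer hCM hACd hx hxN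
    have h2 := commutator_inf_centralizer_eq_bot hab hCM hcC
    have h3 : x ∈ ⁅A, C⁆ ⊓ Subgroup.centralizer (C : Set G) := ⟨hAC hx, h1⟩
    rw [h2] at h3
    exact h3
  let N : Subgroup G := M ⊓ Subgroup.normalizer (C : Set G)
  have hCN : C ≤ N := le_inf hCM Subgroup.le_normalizer
  have hAsolv : Group.IsSolvable A := Group.isSolvable_of_comm (fun a b => Subtype.ext (hab a a.2 b b.2))
  have hLsup : L ≤ A ⊔ C := by
    intro l hl
    obtain ⟨a, ha, c, hc, rfl⟩ := hdec l hl
    exact Subgroup.mul_mem_sup ha hc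
  have hM : ∀ m ∈ M, ∃ a ∈ A, a * m ∈ N := by
    intro m hm
    obtain ⟨n, hn, hnm⟩ := exists_normalizing A C hCM m (fun c hc => by
      apply hLsup
      refine ⟨hRn.conj_mem _ (hCL hc).1 m, M.mul_mem (M.mul_mem hm (hCM hc)) (M.inv_mem hm)⟩) hcC (Or.inl hAsolv)
    exact ⟨n, hn, M.mul_mem (hAM hn) hm, hnm⟩
  have hNR : N ⊓ Rt ≤ C := by
    rintro x ⟨hxN, hxR⟩
    obtain ⟨a, ha, c, hc, rfl⟩ := hdec x ⟨hxR, hxN.1⟩
    have h1 : a = (a * c) * c⁻¹ := by group
    have h2 : a ∈ Subgroup.normalizer (C : Set G) := by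
      rw [h1]
      exact Subgroup.mul_mem _ hxN.2 (Subgroup.inv_mem _ (Subgroup.le_normalizer hc))
    rw [hfix a ha h2, one_mul]
    exact hc
  have hCR : C ≤ Rt := hCL.trans inf_le_left
  obtain ⟨T₀⟩ : Nonempty (Sylow p N) := inferInstance
  let T : Subgroup G := (T₀ : Subgroup N).map N.subtype
  have hTp : IsPGroup p T := (T₀.isPGroup').map _
  have hTcard : Nat.card T = Nat.card (T₀ : Subgroup N) :=
    Subgroup.card_map_of_injective N.subtype_injective
  obtain ⟨j, hj⟩ := IsPGroup.iff_card.1 hTp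
  have hTC : Nat.Coprime (Nat.card T) (Nat.card C) := by
    rw [hj]
    exact Nat.Coprime.pow_left j hpC
  have hTC' := inf_eq_bot_of_coprime hTC
  have hTN : T ≤ N := by
    rintro _ ⟨x, -, rfl⟩
    exact x.2
  have hdis : T ⊓ Rt = ⊥ := by
    rw [eq_bot_iff, ← hTC']
    exact le_inf inf_le_left ((inf_le_inf_right _ hTN).trans hNR)
  have hsup : Rt ⊔ N = ⊤ := by
    rw [eq_top_iff]
    intro g _
    have h1 : g ∈ ((M ⊔ Rt : Subgroup G) : Set G) := by
      have h2 := Sylow.normalizer_sup_eq_top Q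
      have h3 : M ⊔ Rt = ⊤ := h2
      rw [h3]
      exact Subgroup.mem_top _
    rw [Subgroup.mul_normal] at h1
    obtain ⟨m, hm, r, hr, rfl⟩ := h1
    obtain ⟨a, ha, han⟩ := hM m hm
    have e : m * r = a⁻¹ * (a * m) * r := by group
    show m * r ∈ _
    rw [e]
    have hr' : r ∈ Rt := hr
    exact Subgroup.mul_mem _ (Subgroup.mul_mem _ ((le_sup_left : Rt ≤ Rt ⊔ N) (hAR (A.inv_mem ha)))
      ((le_sup_right : N ≤ Rt ⊔ N) han)) ((le_sup_left : Rt ≤ Rt ⊔ N) hr')
  have hidx : Rt.relIndex N = Rt.index := by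
    have h1 := Subgroup.relIndex_sup_left N Rt
    rw [hsup, Subgroup.relIndex_top_right] at h1
    exact h1.symm
  have hinf : Rt ⊓ N = C := le_antisymm (by rw [inf_comm]; exact hNR) (le_inf hCR hCN)
  have hN1 : Nat.card C * Rt.index = Nat.card N := by
    have h1 := Subgroup.relIndex_mul_relIndex (⊥ : Subgroup G) C N bot_le hCN
    simp only [Subgroup.relIndex_bot_left] at h1
    rw [← hidx, ← Subgroup.inf_relIndex_right, hinf]
    exact h1
  obtain ⟨k, hk⟩ : ∃ k, Rt.index = p ^ k := by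
    obtain ⟨k, hk⟩ := IsPGroup.iff_card.1 (isPGroup_quotient_pResidual (p := p) (G := G))
    exact ⟨k, hk⟩
  have hT1 : Nat.card T * (T₀ : Subgroup N).index = Nat.card N := by
    rw [hTcard]
    exact Subgroup.card_mul_index _
  have hT2 : ¬ p ∣ (T₀ : Subgroup N).index := T₀.not_dvd_index
  have hEq : Nat.card T = Rt.index := by
    rw [hj, hk]
    apply Nat.dvd_antisymm
    · have h1 : p ^ j ∣ Nat.card C * p ^ k := by
        rw [← hk, hN1, ← hT1, hj]
        exact dvd_mul_right _ _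
      have h2 : Nat.Coprime (p ^ j) (Nat.card C) := Nat.Coprime.pow_left j hpC
      exact h2.dvd_of_dvd_mul_left h1
    · have h1 : p ^ k ∣ p ^ j * (T₀ : Subgroup N).index := by
        rw [← hj, hT1, ← hN1, hk]
        exact dvd_mul_left _ _
      have h2 : Nat.Coprime (p ^ k) (T₀ : Subgroup N).index :=
        Nat.Coprime.pow_left k ((Nat.Prime.coprime_iff_not_dvd hp.out).2 hT2)
      exact h2.dvd_of_dvd_mul_right h1
  refine ⟨T, Subgroup.isComplement'_of_card_mul_and_disjoint ?_ (disjoint_iff.2 hdis)⟩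
  rw [hEq]
  exact Subgroup.index_mul_card _

end Cfsg.Agent.Lib.ResidComplement
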