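import Mathlib
import Cfsg.Agent.Lib.SchurZ2
import Cfsg.Agent.Lib.ResidComplement

/-!
# Coprime action with centralizer of prime index
-/

set_option autoImplicit false
set_option linter.style.haveILetI false
set_option linter.unusedSectionVars false
set_option linter.unusedVariables false

namespace Cfsg.Agent.Lib.CoprimeIndexP

open Cfsg Cfsg.Agent.Lib.SchurZ Cfsg.Agent.Lib.Commutators
open scoped commutatorElement Pointwise

universe u

variable {G : Type u} [Group G] [Finite G]

theorem card_commutator_eq_of_relIndex (A K : Subgroup G)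
    (hAK : A ≤ Subgroup.normalizer (K : Set G))
    (hcop : (Nat.card A).Coprime (Nat.card K)) (hsolv : Group.IsSolvable A ∨ Group.IsSolvable K)
    (p : ℕ) (hp : p.Prime) (hidx : (K ⊓ Subgroup.centralizer (A : Set G)).relIndex K = p) :
    Nat.card (⁅K, A⁆ : Subgroup G) = p := by
  classical
  haveI hfp : Fact p.Prime := ⟨hp⟩
  have hs' : Group.IsSolvable K ∨ Group.IsSolvable A := hsolv.symm
  obtain ⟨P₀, hP₀⟩ := Cfsg.Agent.Lib.SchurZ2.exists_invariant_sylow A K hAK hcop.symm hs' p
  let Q : Subgroup G := (P₀ : Subgroup K).map K.subtype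
  have hQK : Q ≤ K := by
    rintro _ ⟨x, -, rfl⟩
    exact x.2
  have hQp : IsPGroup p Q := (P₀.isPGroup').map _
  let C : Subgroup G := K ⊓ Subgroup.centralizer (A : Set G)
  have hQC : ¬ Q ≤ C := by
    intro h
    have h1 : C.relIndex K ∣ Q.relIndex K := Subgroup.relIndex_dvd_of_le_left K h
    have h2 : Q.relIndex K = (P₀ : Subgroup K).index := by
      have h3 : Q.subgroupOf K = (P₀ : Subgroup K) :=
        Subgroup.comap_map_eq_self_of_injective K.subtype_injective _
      rw [Subgroup.relIndex, h3]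
    rw [hidx, h2] at h1
    exact P₀.not_dvd_index h1
  let F : Set (Subgroup G) := {X | X ≤ Q ∧ A ≤ Subgroup.normalizer (X : Set G) ∧ ¬ X ≤ C}
  obtain ⟨X, hXmin⟩ := Set.Finite.exists_minimal (Set.toFinite F) ⟨Q, le_rfl, hP₀, hQC⟩
  obtain ⟨⟨hXQ, hXA, hXC⟩, hmin⟩ := hXmin
  have hXK : X ≤ K := hXQ.trans hQK
  have hXp : IsPGroup p X := hQp.to_le hXQ
  have hcX : Nat.Coprime (Nat.card X) (Nat.card A) :=
    Nat.Coprime.coprime_dvd_left (Subgroup.card_dvd_of_le hXK) hcop.symm
  have hsX : Group.IsSolvable X ∨ Group.IsSolvable A := by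
    rcases hs' with h | h
    · exact Or.inl (isSolvable_of_le hXK h)
    · exact Or.inr h
  have hXc : ¬ X ≤ Subgroup.centralizer (A : Set G) := fun h => hXC (le_inf hXK h)
  have hcomm : ⁅X, A⁆ = X := by
    have hle : ⁅X, A⁆ ≤ X := commutator_le_of_normalizes hXA
    by_contra hne
    have hW : ⁅X, A⁆ ≤ C := by
      by_contra hnot
      have hmem : ⁅X, A⁆ ∈ F := ⟨hle.trans hXQ, commutator_le_normalizer_right, hnot⟩
      exact hne (le_antisymm hle (hmin hmem hle))
    have h1 := commutator_commutator_eq hXA hcX hsX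
    have h2 : ⁅⁅X, A⁆, A⁆ = ⊥ := Subgroup.commutator_eq_bot_iff_le_centralizer.2 (hW.trans inf_le_right)
    rw [h2] at h1
    exact hXc (Subgroup.commutator_eq_bot_iff_le_centralizer.1 h1.symm)
  -- the index
  have hr : C.relIndex X = p := by
    have h1 : C.relIndex X ≤ C.relIndex K :=
      Subgroup.relIndex_le_of_le_right hXK (by rw [hidx]; exact hp.ne_zero)
    rw [hidx] at h1
    have h2 : C.relIndex X ≠ 1 := fun h => hXC (Subgroup.relIndex_eq_one.1 h)
    obtain ⟨i, hi⟩ := IsPGroup.iff_card.1 hXp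
    have h3 : C.relIndex X ∣ p ^ i := hi ▸ Subgroup.relIndex_dvd_card C X
    obtain ⟨j, -, hj⟩ := (Nat.dvd_prime_pow hp).1 h3
    rw [hj] at h1 h2 ⊢
    rcases j with _ | _ | j
    · simp at h2
    · simp
    · exfalso
      have h4 : p ^ (j + 1 + 1) = p ^ j * p * p := by ring
      have h5 : p < p ^ (j + 1 + 1) := by
        calc p = p ^ 1 := (pow_one p).symm
          _ < p ^ (j + 1 + 1) := Nat.pow_lt_pow_right hp.one_lt (by omega)
      omega
  let N : Subgroup G := X ⊓ Subgroup.centralizer (A : Set G)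
  have hCX : C ⊓ X = N := by
    apply le_antisymm
    · exact le_inf inf_le_right (inf_le_left.trans inf_le_right)
    · exact le_inf (le_inf (inf_le_left.trans hXK) inf_le_right) inf_le_left
  have hNr : N.relIndex X = p := by
    rw [← hCX, Subgroup.inf_relIndex_right]
    exact hr
  have hNX : N ≤ X := inf_le_left
  -- normal
  have hcardX : ∃ i, Nat.card X = p ^ (i + 1) := by
    obtain ⟨i, hi⟩ := IsPGroup.iff_card.1 hXp
    rcases i with _ | i
    · exfalso
      have : p ∣ Nat.card X := hr ▸ Subgroup.relIndex_dvd_card C X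
      rw [hi] at this
      simp at this
      exact hp.one_lt.ne' this
    · exact ⟨i, hi⟩
  obtain ⟨i, hi⟩ := hcardX
  have hNn : (N.subgroupOf X).Normal := by
    apply Subgroup.normal_of_index_eq_minFac_card
    rw [hi, Nat.Prime.pow_minFac hp (by omega)]
    exact hNr
  -- `N` is central in `X`
  have hAconj : ∀ a ∈ A, ∀ x ∈ X, a * x * a⁻¹ ∈ X := fun a ha x hx =>
    (Subgroup.mem_normalizer_iff.1 (hXA ha) x).1 hx
  have hXcN : X ≤ Subgroup.centralizer (N : Set G) := by
    rw [← hcomm, Subgroup.commutator_le]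
    intro x hx a ha
    rw [Subgroup.mem_centralizer_iff]
    intro n hn
    have hxn : x⁻¹ * n * x ∈ N := by
      have h1 := hNn.conj_mem ⟨n, hNX hn⟩ (Subgroup.mem_subgroupOf.2 hn) ⟨x⁻¹, X.inv_mem hx⟩
      have h2 := Subgroup.mem_subgroupOf.1 h1
      have e : x⁻¹ * n * x = ((⟨x⁻¹, X.inv_mem hx⟩ : X) * ⟨n, hNX hn⟩ * (⟨x⁻¹, X.inv_mem hx⟩ : X)⁻¹ : X) := by
        push_cast
        group
      rw [e]
      exact h2
    have h3 := Subgroup.mem_centralizer_iff.1 hxn.2 a ha
    have h4 := Subgroup.mem_centralizer_iff.1 hn.2 a ha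
    -- `a` fixes `n` and `x⁻¹ n x`
    have h6 : a⁻¹ * n * a = n := by
      rw [mul_assoc, ← h4]
      group
    have h5 : ⁅x, a⁆ * n = n * ⁅x, a⁆ := by
      rw [commutatorElement_def]
      calc x * a * x⁻¹ * a⁻¹ * n = x * a * x⁻¹ * (a⁻¹ * n * a) * a⁻¹ := by group
        _ = x * a * x⁻¹ * n * a⁻¹ := by rw [h6]
        _ = x * (a * (x⁻¹ * n * x)) * x⁻¹ * a⁻¹ := by group
        _ = x * ((x⁻¹ * n * x) * a) * x⁻¹ * a⁻¹ := by rw [h3]
        _ = n * (x * a * x⁻¹ * a⁻¹) := by group
    exact h5.symm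
  -- `X` is abelian
  have hab : ∀ a ∈ X, ∀ b ∈ X, a * b = b * a := by
    haveI : (N.subgroupOf X).Normal := hNn
    let f : X →* X ⧸ N.subgroupOf X := QuotientGroup.mk' _
    have hcq : Nat.card (X ⧸ N.subgroupOf X) = p := hNr
    haveI : IsCyclic (X ⧸ N.subgroupOf X) := isCyclic_of_prime_card hcq
    have hker : f.ker ≤ Subgroup.center X := by
      intro x hx
      have h1 : x ∈ N.subgroupOf X := by
        have := (QuotientGroup.ker_mk' (N.subgroupOf X))
        rw [← this]
        exact hx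
      rw [Subgroup.mem_center_iff]
      intro y
      apply Subtype.ext
      exact (Subgroup.mem_centralizer_iff.1 (hXcN y.2) _ (Subgroup.mem_subgroupOf.1 h1)).symm
    intro a ha b hb
    have := commutative_of_cyclic_center_quotient f hker ⟨a, ha⟩ ⟨b, hb⟩
    exact congrArg Subtype.val this
  have hbot := Cfsg.Agent.Lib.ResidComplement.commutator_inf_centralizer_eq_bot hab hXA hcX
  rw [hcomm] at hbot
  have hNbot : N = ⊥ := hbot
  have hcX' : Nat.card X = p := by
    rw [hNbot, Subgroup.relIndex_bot_left] at hNr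
    exact hNr
  have hCXbot : C ⊓ X = ⊥ := by rw [hCX, hNbot]
  -- `K = C X`
  have hdec : ∀ k ∈ K, ∃ c ∈ C, ∃ x ∈ X, k = c * x := by
    have hCK : C ≤ K := inf_le_left
    have h1 : Nat.card (C.subgroupOf K) * Nat.card (X.subgroupOf K) = Nat.card K := by
      have h2 : Nat.card (C.subgroupOf K) = Nat.card C :=
        Nat.card_congr (Subgroup.subgroupOfEquivOfLe hCK).toEquiv
      have h3 : Nat.card (X.subgroupOf K) = Nat.card X :=
        Nat.card_congr (Subgroup.subgroupOfEquivOfLe hXK).toEquiv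
      rw [h2, h3, hcX', ← hidx]
      have := Subgroup.relIndex_mul_relIndex (⊥ : Subgroup G) C K bot_le hCK
      simpa only [Subgroup.relIndex_bot_left] using this
    have hd : Disjoint (C.subgroupOf K) (X.subgroupOf K) := by
      rw [disjoint_iff, eq_bot_iff]
      rintro x ⟨h2, h3⟩
      have h4 : (x : G) ∈ C ⊓ X := ⟨Subgroup.mem_subgroupOf.1 h2, Subgroup.mem_subgroupOf.1 h3⟩
      rw [hCXbot, Subgroup.mem_bot] at h4
      exact Subtype.ext h4
    have hc := Subgroup.isComplement'_of_card_mul_and_disjoint h1 hd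
    intro k hk
    obtain ⟨⟨c, x⟩, hcx, -⟩ := Subgroup.IsComplement.existsUnique hc ⟨k, hk⟩
    refine ⟨(c : K), Subgroup.mem_subgroupOf.1 c.2, (x : K), Subgroup.mem_subgroupOf.1 x.2, ?_⟩
    exact (congrArg Subtype.val hcx).symm
  have hfinal : ⁅K, A⁆ = X := by
    apply le_antisymm
    · rw [Subgroup.commutator_le]
      intro k hk a ha
      obtain ⟨c, hc, x, hx, e⟩ := hdec k⁻¹ (K.inv_mem hk)
      have h1 : k = x⁻¹ * c⁻¹ := by
        have : k = (k⁻¹)⁻¹ := by group
        rw [this, e]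
        group
      have h2 : a * c = c * a := (Subgroup.mem_centralizer_iff.1 hc.2 a ha)
      have h3 : ⁅k, a⁆ = x⁻¹ * (a * x * a⁻¹) := by
        rw [commutatorElement_def, h1]
        have h4 : x⁻¹ * c⁻¹ * a * (x⁻¹ * c⁻¹)⁻¹ * a⁻¹ = x⁻¹ * (c⁻¹ * (a * c)) * x * a⁻¹ := by group
        rw [h4, h2]
        group
      rw [h3]
      exact X.mul_mem (X.inv_mem hx) (hAconj a ha x hx)
    · conv_lhs => rw [← hcomm]
      exact Subgroup.commutator_mono hXK le_rfl
  rw [hfinal, hcX']

end Cfsg.Agent.Lib.CoprimeIndexP
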