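import Mathlib
import Cfsg.Statements.S2419

/-! Generation of finite Coxeter groups by a Coxeter element and few reflections, by explicit
rewriting of words. -/

set_option autoImplicit false
set_option linter.all false
set_option maxRecDepth 100000

namespace Cfsg.Agent.Lib.CoxGen

open CoxeterSystem

variable {n : ℕ} (M : CoxeterMatrix (Fin n))

/-- The product of a word. -/
abbrev wp (w : List (Fin n)) : M.Group := M.toCoxeterSystem.wordProd w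

/-- One rewriting step: a cancellation (when the two letters agree) or a braid move. -/
def step (w : List (Fin n)) (mv : ℕ × Fin n × Fin n) : Option (List (Fin n)) :=
  if mv.2.1 = mv.2.2 then
    if (w.drop mv.1).take 2 = [mv.2.1, mv.2.1] then some (w.take mv.1 ++ w.drop (mv.1 + 2)) else none
  else
    if (w.drop mv.1).take (M mv.2.1 mv.2.2) = CoxeterSystem.alternatingWord mv.2.1 mv.2.2 (M mv.2.1 mv.2.2) then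
      some (w.take mv.1 ++ (CoxeterSystem.alternatingWord mv.2.2 mv.2.1 (M mv.2.2 mv.2.1) ++ w.drop (mv.1 + M mv.2.1 mv.2.2)))
    else none

theorem split (w : List (Fin n)) (p m : ℕ) :
    wp M w = wp M (w.take p) * (wp M ((w.drop p).take m) * wp M (w.drop (p + m))) := by
  have e2 : (w.drop p).take m ++ (w.drop p).drop m = w.drop p := List.take_append_drop _ _
  have e3 : w.take p ++ w.drop p = w := List.take_append_drop _ _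
  have e4 : (w.drop p).drop m = w.drop (p + m) := by
    rw [List.drop_drop]
  simp only [wp]
  rw [← wordProd_append, ← wordProd_append, ← e4, e2, e3]

theorem step_sound {w w' : List (Fin n)} {mv : ℕ × Fin n × Fin n} (h : step M w mv = some w') :
    wp M w = wp M w' := by
  obtain ⟨p, i, j⟩ := mv
  unfold step at h
  simp only at h
  by_cases hij : i = j
  · rw [if_pos hij] at h
    by_cases h2 : (w.drop p).take 2 = [i, i]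
    · rw [if_pos h2] at h
      have h3 := Option.some.inj h
      rw [split M w p 2, h2, ← h3]
      simp only [wp]
      rw [wordProd_append, wordProd_cons, wordProd_singleton, M.toCoxeterSystem.simple_mul_simple_self, one_mul]
    · rw [if_neg h2] at h
      exact absurd h (by simp)
  · rw [if_neg hij] at h
    by_cases h2 : (w.drop p).take (M i j) = CoxeterSystem.alternatingWord i j (M i j)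
    · rw [if_pos h2] at h
      have h3 := Option.some.inj h
      rw [split M w p (M i j), h2, ← h3]
      simp only [wp]
      rw [wordProd_append, wordProd_append]
      congr 2
      exact M.toCoxeterSystem.wordProd_braidWord_eq i j
    · rw [if_neg h2] at h
      exact absurd h (by simp)

/-- Iterated rewriting. -/
def run (w : List (Fin n)) : List (ℕ × Fin n × Fin n) → Option (List (Fin n))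
  | [] => some w
  | mv :: ms =>
    match step M w mv with
    | some w' => run w' ms
    | none => none

theorem run_sound {ms : List (ℕ × Fin n × Fin n)} {w w' : List (Fin n)} (h : run M w ms = some w') :
    wp M w = wp M w' := by
  induction ms generalizing w with
  | nil =>
    have := Option.some.inj h
    rw [this]
  | cons mv ms ih =>
    unfold run at h
    cases hs : step M w mv with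
    | none =>
      rw [hs] at h
      exact absurd h (by simp)
    | some w₁ =>
      rw [hs] at h
      exact (step_sound M hs).trans (ih h)

theorem conj_step (D : Subgroup M.Group) (a r r' : List (Fin n)) (ms : List (ℕ × Fin n × Fin n))
    (ha : wp M a ∈ D) (hr : wp M r ∈ D) (h : run M (a ++ r ++ a.reverse) ms = some r') : wp M r' ∈ D := by
  rw [← run_sound M h]
  simp only [wp] at ha hr ⊢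
  rw [wordProd_append, wordProd_append, wordProd_reverse]
  exact D.mul_mem (D.mul_mem ha hr) (D.inv_mem ha)

theorem inv_word (D : Subgroup M.Group) (a : List (Fin n)) (ha : wp M a ∈ D) : wp M a.reverse ∈ D := by
  simp only [wp] at ha ⊢
  rw [wordProd_reverse]
  exact D.inv_mem ha

theorem top_of_all (D : Subgroup M.Group) (h : ∀ i, wp M [i] ∈ D) : D = ⊤ := by
  rw [eq_top_iff, ← M.toCoxeterSystem.subgroup_closure_range_simple, Subgroup.closure_le]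
  rintro _ ⟨i, rfl⟩
  have := h i
  simp only [wp, wordProd_singleton] at this
  exact this

theorem cox_mem (D : Subgroup M.Group) (h : ((List.finRange n).map M.simple).prod ∈ D) :
    wp M (List.finRange n) ∈ D := h

set_option maxHeartbeats 4000000 in
theorem chain_D4 (D : Subgroup (Cfsg.Lie.coxeterD4).Group) (hc : wp Cfsg.Lie.coxeterD4 (List.finRange 4) ∈ D) (ht0 : wp Cfsg.Lie.coxeterD4 [0] ∈ D) (ht2 : wp Cfsg.Lie.coxeterD4 [2] ∈ D) :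
    ∀ i, wp Cfsg.Lie.coxeterD4 [i] ∈ D := by
  have hci := inv_word Cfsg.Lie.coxeterD4 D _ hc
  have h0 : wp Cfsg.Lie.coxeterD4 [1] ∈ D := conj_step Cfsg.Lie.coxeterD4 D (List.finRange 4) [0] [1] [(3,3,0),(4,3,3),(2,2,0),(3,2,2),(0,1,0),(2,1,1),(1,0,0)] hc ht0 (by decide +kernel)
  have h1 : wp Cfsg.Lie.coxeterD4 [3,1,3] ∈ D := conj_step Cfsg.Lie.coxeterD4 D (List.finRange 4).reverse [2] [3,1,3] [(3,0,2),(1,1,2),(4,0,0),(3,1,1),(2,2,2)] hci ht2 (by decide +kernel)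
  have h2 : wp Cfsg.Lie.coxeterD4 [3] ∈ D := conj_step Cfsg.Lie.coxeterD4 D [1] [3,1,3] [3] [(0,3,1),(2,3,3),(1,1,1)] h0 h1 (by decide +kernel)
  intro i
  fin_cases i
  · exact ht0
  · exact h0
  · exact ht2
  · exact h2

set_option maxHeartbeats 4000000 in
theorem chain_F4 (D : Subgroup (CoxeterMatrix.F₄).Group) (hc : wp CoxeterMatrix.F₄ (List.finRange 4) ∈ D) (ht0 : wp CoxeterMatrix.F₄ [0] ∈ D) (ht2 : wp CoxeterMatrix.F₄ [2] ∈ D) :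
    ∀ i, wp CoxeterMatrix.F₄ [i] ∈ D := by
  have hci := inv_word CoxeterMatrix.F₄ D _ hc
  have h0 : wp CoxeterMatrix.F₄ [1] ∈ D := conj_step CoxeterMatrix.F₄ D (List.finRange 4) [0] [1] [(3,3,0),(4,3,3),(2,2,0),(3,2,2),(0,1,0),(2,1,1),(1,0,0)] hc ht0 (by decide +kernel)
  have h1 : wp CoxeterMatrix.F₄ [3] ∈ D := conj_step CoxeterMatrix.F₄ D (List.finRange 4) [2] [3] [(2,3,2),(1,1,3),(0,0,3),(4,3,3),(3,2,2),(2,1,1),(1,0,0)] hc ht2 (by decide +kernel)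
  intro i
  fin_cases i
  · exact ht0
  · exact h0
  · exact ht2
  · exact h1

set_option maxHeartbeats 4000000 in
theorem chain_E6 (D : Subgroup (CoxeterMatrix.E₆).Group) (hc : wp CoxeterMatrix.E₆ (List.finRange 6) ∈ D) (ht0 : wp CoxeterMatrix.E₆ [0] ∈ D) :
    ∀ i, wp CoxeterMatrix.E₆ [i] ∈ D := by
  have hci := inv_word CoxeterMatrix.E₆ D _ hc
  have h0 : wp CoxeterMatrix.E₆ [5,4,3,2,0,2,3,4,5] ∈ D := conj_step CoxeterMatrix.E₆ D (List.finRange 6).reverse [0] [5,4,3,2,0,2,3,4,5] [(5,0,0),(4,1,0),(5,1,1)] hci ht0 (by decide +kernel)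
  have h1 : wp CoxeterMatrix.E₆ [4,3,1,3,4] ∈ D := conj_step CoxeterMatrix.E₆ D (List.finRange 6).reverse [5,4,3,2,0,2,3,4,5] [4,3,1,3,4] [(5,0,5),(4,1,5),(3,2,5),(2,3,5),(0,4,5),(6,0,4),(5,1,4),(4,2,4),(2,3,4),(7,0,3),(8,2,0),(10,2,2),(5,2,1),(6,3,2),(4,1,3),(6,1,2),(8,3,0),(9,3,3),(8,0,4),(7,1,4),(6,2,4),(3,4,1),(4,3,4),(2,1,3),(4,1,4),(9,0,5),(8,1,5),(7,2,5),(6,3,5),(5,1,5),(1,5,1),(2,5,3),(3,4,5),(0,4,1),(1,3,4),(3,3,5),(10,0,0),(9,1,1),(8,2,2),(7,3,3),(5,4,1),(6,4,4),(3,5,3),(4,5,1),(5,5,5),(1,4,3),(0,1,4),(3,4,1),(1,3,1)] hci h0 (by decide +kernel)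
  have h2 : wp CoxeterMatrix.E₆ [3,2,3] ∈ D := conj_step CoxeterMatrix.E₆ D (List.finRange 6).reverse [4,3,1,3,4] [3,2,3] [(4,1,0),(5,1,4),(4,0,4),(3,2,4),(1,3,4),(6,3,1),(5,0,3),(3,2,3),(6,0,1),(8,3,3),(7,0,4),(6,1,4),(5,2,4),(2,4,2),(3,3,4),(1,2,3),(3,2,4),(8,0,0),(7,1,1),(6,2,2),(5,3,3),(3,4,2),(4,4,4),(0,5,2),(1,5,3),(2,5,2),(3,5,5),(0,3,2)] hci h1 (by decide +kernel)
  have h3 : wp CoxeterMatrix.E₆ [5,4,1,3,2,0,2,3,1,4,5] ∈ D := conj_step CoxeterMatrix.E₆ D (List.finRange 6).reverse [3,2,3] [5,4,1,3,2,0,2,3,1,4,5] [(6,2,3),(3,2,1),(4,0,2),(3,1,0),(4,1,2),(6,0,3),(7,2,0),(9,2,1),(8,0,1),(10,2,2),(4,2,1),(3,0,1),(5,3,2),(3,1,0),(2,3,0),(3,1,3),(2,0,1),(3,0,3),(5,1,2),(6,3,1),(3,3,0),(4,2,3),(2,1,0),(3,1,2),(8,3,0),(9,3,3),(7,1,0),(3,2,1),(2,0,1),(4,3,2),(3,0,3),(6,3,0),(4,2,0)]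 hci h2 (by decide +kernel)
  have h4 : wp CoxeterMatrix.E₆ [1] ∈ D := conj_step CoxeterMatrix.E₆ D [5,4,3,2,0,2,3,4,5] [5,4,1,3,2,0,2,3,1,4,5] [1] [(3,0,2),(5,0,3),(2,3,0),(3,2,3),(6,0,4),(5,2,4),(1,4,0),(2,4,2),(3,3,4),(8,5,5),(3,4,3),(2,2,4),(1,0,4),(5,4,2),(6,4,0),(7,4,4),(6,0,1),(7,0,3),(3,3,2),(2,0,3),(5,1,3),(8,2,0),(7,1,2),(10,2,2),(4,2,1),(3,0,1),(5,3,2),(3,1,0),(2,3,0),(3,1,3),(2,0,1),(3,0,3),(5,1,2),(6,3,1),(3,3,0),(4,2,3),(2,1,0),(3,1,2),(8,3,0),(9,3,3),(7,1,0),(8,1,1),(7,0,4),(6,2,4),(1,4,0),(2,4,2),(3,4,1),(4,3,4),(9,5,5),(4,4,3),(3,1,4),(2,2,4),(1,0,4),(6,4,2),(7,4,0),(8,4,4),(3,2,1),(2,0,1),(4,3,2),(3,0,3),(6,3,0),(7,3,3),(4,2,0),(6,2,2),(5,0,0),(4,2,2),(3,3,3),(1,4,1),(2,4,4),(0,5,1),(1,5,5)] h0 h3 (by decide +kernel)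
  have h5 : wp CoxeterMatrix.E₆ [2] ∈ D := conj_step CoxeterMatrix.E₆ D (List.finRange 6) [0] [2] [(1,1,2),(5,5,0),(6,5,5),(4,4,0),(5,4,4),(3,3,0),(4,3,3),(1,2,1),(0,0,1),(1,2,0),(0,1,2),(3,2,2),(1,1,0),(2,1,1),(1,0,0)] hc ht0 (by decide +kernel)
  have h6 : wp CoxeterMatrix.E₆ [3,1,3] ∈ D := conj_step CoxeterMatrix.E₆ D (List.finRange 6) [2] [3,1,3] [(1,1,2),(5,5,2),(6,5,5),(4,4,2),(5,4,4),(1,2,1),(0,0,1),(2,3,2),(1,0,3),(4,3,3),(3,2,2),(2,0,1),(3,0,0),(0,3,1)] hc h5 (by decide +kernel)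
  have h7 : wp CoxeterMatrix.E₆ [4,3,2,0,2,3,4] ∈ D := conj_step CoxeterMatrix.E₆ D (List.finRange 6) [3,1,3] [4,3,2,0,2,3,4] [(1,1,2),(5,5,3),(6,5,1),(7,5,3),(5,1,3),(8,5,5),(4,4,1),(2,3,1),(4,4,3),(3,1,4),(6,4,1),(7,4,4),(4,3,1),(6,3,3),(5,1,2),(6,1,1),(2,4,3),(1,2,4),(0,0,4),(4,4,2),(5,4,0),(2,3,2),(1,0,3),(4,3,0),(2,2,0)] hc h6 (by decide +kernel)
  have h8 : wp CoxeterMatrix.E₆ [5,4,2,3,1,3,2,4,5] ∈ D := conj_step CoxeterMatrix.E₆ D (List.finRange 6) [4,3,2,0,2,3,4] [5,4,2,3,1,3,2,4,5] [(1,1,2),(4,5,4),(3,3,5),(2,1,5),(1,2,5),(0,0,5),(6,5,3),(7,5,2),(8,5,0),(9,5,2),(7,0,2),(10,5,3),(4,4,3),(3,1,4),(2,2,4),(1,0,4),(6,4,0),(7,4,2),(8,4,0),(5,3,0),(3,2,1),(2,0,1),(3,2,0),(2,1,2),(5,3,2),(4,0,3),(7,3,0),(8,4,3),(7,0,4),(6,2,4),(5,0,4),(1,4,2),(2,4,1),(3,3,4),(8,0,3),(5,3,0),(6,2,3),(10,5,4),(9,0,5),(8,2,5),(7,3,5),(6,2,5),(5,0,5),(0,5,2),(1,5,1),(2,5,3),(3,4,5),(10,0,4),(9,2,4),(5,4,0),(6,4,2),(7,3,4),(12,5,5),(7,4,3),(6,2,4),(5,0,4),(9,4,2),(10,4,0),(11,4,4),(7,3,2),(6,0,3),(9,3,0),(10,3,3),(7,2,0),(9,2,2),(8,0,1),(9,0,0),(3,5,4),(2,3,5),(1,1,5),(0,2,5),(5,5,3),(6,5,2),(7,5,1),(3,4,3),(2,1,4),(1,2,4),(5,4,2),(6,4,1),(5,2,1),(3,3,1)]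 hc h7 (by decide +kernel)
  have h9 : wp CoxeterMatrix.E₆ [3] ∈ D := conj_step CoxeterMatrix.E₆ D (List.finRange 6) [5,4,2,3,1,3,2,4,5] [3] [(1,1,2),(5,5,5),(4,4,4),(1,2,1),(0,0,1),(2,3,2),(1,0,3),(4,3,3),(3,2,1),(1,3,0),(0,1,0),(1,3,1),(0,0,3),(1,0,1),(3,2,3),(1,1,0),(2,1,2),(5,2,2),(6,5,5),(5,4,4),(4,3,3),(2,2,1),(1,0,1),(3,2,2),(1,1,0),(2,1,1),(1,0,0)] hc h8 (by decide +kernel)
  have h10 : wp CoxeterMatrix.E₆ [4] ∈ D := conj_step CoxeterMatrix.E₆ D (List.finRange 6) [3] [4] [(1,1,2),(5,5,3),(6,5,5),(3,4,3),(2,1,4),(1,2,4),(0,0,4),(5,4,4),(4,3,3),(2,2,1),(1,0,1),(3,2,2),(1,1,0),(2,1,1),(1,0,0)] hc h9 (by decide +kernel)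
  have h11 : wp CoxeterMatrix.E₆ [5] ∈ D := conj_step CoxeterMatrix.E₆ D (List.finRange 6).reverse [5,4,1,3,2,0,2,3,1,4,5] [5] [(4,1,0),(5,1,5),(4,0,5),(3,2,5),(2,3,5),(0,4,5),(6,1,4),(5,0,4),(4,2,4),(2,3,4),(7,1,1),(6,0,3),(4,2,3),(6,0,2),(8,0,0),(7,2,2),(5,3,0),(6,3,3),(3,4,2),(4,4,0),(5,4,1),(4,0,1),(6,4,4),(1,5,3),(2,5,2),(3,5,1),(4,5,0),(5,5,5),(4,0,0),(3,1,1),(2,2,2),(1,3,3),(0,4,4)] hci h3 (by decide +kernel)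
  intro i
  fin_cases i
  · exact ht0
  · exact h4
  · exact h5
  · exact h9
  · exact h10
  · exact h11

set_option maxHeartbeats 4000000 in
theorem chain_E7 (D : Subgroup (CoxeterMatrix.E₇).Group) (hc : wp CoxeterMatrix.E₇ (List.finRange 7) ∈ D) (ht1 : wp CoxeterMatrix.E₇ [1] ∈ D) :
    ∀ i, wp CoxeterMatrix.E₇ [i] ∈ D := by
  have hci := inv_word CoxeterMatrix.E₇ D _ hc
  have h0 : wp CoxeterMatrix.E₇ [3,2,0,2,3] ∈ D := conj_step CoxeterMatrix.E₇ D (List.finRange 7) [1] [3,2,0,2,3] [(1,1,2),(6,6,1),(7,6,6),(5,5,1),(6,5,5),(4,4,1),(5,4,4),(2,3,1),(4,3,3),(3,1,2),(4,1,1),(1,3,2),(0,0,3),(3,3,0),(1,2,0)] hc ht1 (by decide +kernel)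
  have h1 : wp CoxeterMatrix.E₇ [4,2,3,1,3,2,4] ∈ D := conj_step CoxeterMatrix.E₇ D (List.finRange 7) [3,2,0,2,3] [4,2,3,1,3,2,4] [(1,1,2),(6,6,3),(7,6,2),(8,6,0),(9,6,2),(7,0,2),(10,6,3),(9,0,3),(6,3,0),(7,2,3),(11,6,6),(5,5,0),(6,5,2),(7,5,3),(8,5,2),(9,5,0),(10,5,5),(4,4,0),(5,4,2),(3,3,0),(1,2,1),(0,0,1),(1,2,0),(0,1,2),(3,3,2),(2,0,3),(5,4,3),(4,2,4),(3,0,4),(7,4,2),(8,4,0),(9,4,4),(5,3,2),(4,0,3),(7,3,0),(8,3,3),(5,2,0),(7,2,2),(6,0,1),(7,0,0),(2,4,3),(1,1,4),(0,2,4),(4,4,2),(5,4,1),(4,2,1),(2,3,1)] hc h0 (by decide +kernel)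
  have h2 : wp CoxeterMatrix.E₇ [5,3,4,1,3,2,0,2,3,1,4,3,5] ∈ D := conj_step CoxeterMatrix.E₇ D (List.finRange 7) [4,2,3,1,3,2,4] [5,3,4,1,3,2,0,2,3,1,4,3,5] [(1,1,2),(6,6,4),(7,6,2),(8,6,3),(9,6,1),(10,6,3),(8,1,3),(11,6,2),(10,1,2),(12,6,4),(11,1,4),(10,2,4),(6,4,2),(7,4,1),(8,3,4),(13,6,6),(8,4,3),(7,1,4),(6,2,4),(10,4,2),(11,4,1),(4,5,4),(3,3,5),(2,1,5),(1,2,5),(0,0,5),(6,5,2),(7,5,1),(8,5,3),(9,5,2),(10,5,1),(11,4,5),(10,1,4),(9,2,4),(5,4,2),(6,4,1),(7,3,4),(2,2,1),(1,0,1),(3,3,2),(2,0,3),(5,1,3),(4,2,1),(2,3,0),(1,1,0),(2,3,1),(1,0,3),(2,0,1),(4,2,3),(2,1,0),(3,1,2),(7,1,4),(6,2,4),(11,1,5),(10,2,5),(9,3,5),(8,1,5),(7,2,5),(0,5,3),(1,5,0),(2,5,2),(3,5,1),(4,5,3),(5,4,5),(13,4,4),(11,2,1),(9,3,1),(11,2,3),(10,1,2),(8,3,2),(10,1,3),(13,2,2),(12,1,1),(5,5,4),(4,3,5),(3,1,5),(2,2,5),(1,0,5),(0,3,5),(7,5,3),(8,5,2),(9,5,1),(10,5,3),(11,5,0),(10,3,0),(5,4,3),(4,1,4),(3,2,4),(2,0,4),(7,4,2),(8,4,1),(9,4,0),(8,1,0),(4,2,1),(3,0,1),(5,3,2),(4,0,3),(7,3,0),(5,2,0)]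 hc h1 (by decide +kernel)
  have h3 : wp CoxeterMatrix.E₇ [6,5,4,3,1,3,4,5,6] ∈ D := conj_step CoxeterMatrix.E₇ D (List.finRange 7).reverse [1] [6,5,4,3,1,3,4,5,6] [(5,1,0),(6,1,1),(5,0,0),(4,2,1),(5,2,2)] hci ht1 (by decide +kernel)
  have h4 : wp CoxeterMatrix.E₇ [5,4,3,2,3,4,5] ∈ D := conj_step CoxeterMatrix.E₇ D (List.finRange 7).reverse [6,5,4,3,1,3,4,5,6] [5,4,3,2,3,4,5] [(5,1,0),(6,1,6),(5,0,6),(4,2,6),(3,3,6),(2,4,6),(0,5,6),(7,1,5),(6,0,5),(5,2,5),(4,3,5),(2,4,5),(8,1,4),(7,0,4),(6,2,4),(4,3,4),(9,3,1),(8,0,3),(6,2,3),(9,0,1),(11,3,3),(10,0,4),(9,1,4),(8,2,4),(5,4,2),(6,3,4),(4,2,3),(6,2,4),(11,0,5),(10,1,5),(9,2,5),(8,3,5),(7,2,5),(3,5,2),(4,5,3),(5,4,5),(2,4,2),(3,3,4),(5,3,5),(12,0,6),(11,1,6),(10,2,6),(9,3,6),(8,2,6),(7,4,6),(6,3,6),(1,6,2),(2,6,3),(3,6,4),(4,5,6),(0,5,2),(1,5,3),(2,4,5),(4,4,6),(13,0,0),(12,1,1),(11,2,2),(10,3,3),(8,4,2),(9,4,4),(6,5,3),(7,5,2),(8,5,5),(4,6,4),(5,6,3),(6,6,2),(7,6,6),(2,5,4),(1,3,5),(0,2,5),(4,5,3),(5,5,2),(2,4,3),(1,2,4),(4,4,2),(2,3,2)]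 hci h3 (by decide +kernel)
  have h5 : wp CoxeterMatrix.E₇ [6,4,5,3,4,1,3,2,0,2,3,1,4,3,5,4,6] ∈ D := conj_step CoxeterMatrix.E₇ D (List.finRange 7).reverse [5,4,3,2,3,4,5] [6,4,5,3,4,1,3,2,0,2,3,1,4,3,5,4,6] [(6,0,5),(5,1,5),(4,2,5),(3,3,5),(1,4,5),(7,0,4),(6,1,4),(5,2,4),(3,3,4),(9,2,3),(6,2,1),(7,0,2),(6,1,0),(7,1,2),(9,0,3),(11,2,4),(10,0,4),(3,4,3),(5,4,0),(6,4,2),(7,4,1),(8,3,4),(12,2,5),(11,0,5),(10,3,5),(1,5,4),(3,5,3),(4,5,0),(5,5,2),(6,5,1),(7,5,3),(8,4,5),(12,2,0),(14,2,1),(13,0,1),(15,2,2),(8,5,4),(7,3,5),(6,1,5),(5,2,5),(4,0,5),(3,3,5),(1,4,5),(10,5,3),(11,5,2),(12,5,1),(13,5,0),(14,5,3),(8,4,3),(7,1,4),(6,2,4),(5,0,4),(3,3,4),(10,4,2),(11,4,1),(12,4,0),(7,2,1),(6,0,1),(8,3,2),(6,1,0),(5,3,0),(6,1,3),(5,0,1),(6,0,3),(8,1,2),(9,3,1),(6,3,0),(7,2,3),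(5,1,0),(6,1,2),(11,3,0),(12,4,3),(11,0,4),(10,1,4),(9,2,4),(4,4,0),(5,4,2),(6,4,1),(7,3,4),(12,0,3),(14,5,4),(13,0,5),(12,3,5),(11,1,5),(10,2,5),(9,3,5),(2,5,3),(3,5,0),(4,5,2),(5,5,1),(6,5,3),(7,4,5),(14,0,4),(16,5,5),(14,4,0),(7,5,4),(6,3,5),(5,1,5),(4,2,5),(3,0,5),(2,3,5),(9,5,3),(10,5,2),(11,5,1),(12,5,3),(13,5,0),(12,3,0),(7,4,3),(6,1,4),(5,2,4),(4,0,4),(9,4,2),(10,4,1),(11,4,0),(10,1,0),(6,2,1),(5,0,1),(7,3,2),(6,0,3),(9,3,0),(7,2,0)] hci h4 (by decide +kernel)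
  have h6 : wp CoxeterMatrix.E₇ [5,3,4,2,3,1,3,2,4,3,5] ∈ D := conj_step CoxeterMatrix.E₇ D (List.finRange 7).reverse [6,4,5,3,4,1,3,2,0,2,3,1,4,3,5,4,6] [5,3,4,2,3,1,3,2,4,3,5] [(6,0,6),(5,1,6),(4,2,6),(3,3,6),(2,4,6),(0,5,6),(7,0,4),(6,1,4),(5,2,4),(3,3,4),(8,0,5),(7,1,5),(6,2,5),(5,3,5),(2,5,3),(3,4,5),(9,0,3),(10,0,4),(11,0,1),(12,0,3),(13,2,0),(15,2,2),(10,4,1),(8,3,1),(6,2,3),(10,4,3),(9,1,4),(8,2,4),(5,4,2),(6,3,4),(12,4,2),(13,4,0),(9,2,1),(10,3,2),(8,1,3),(10,1,2),(12,3,0),(13,4,3),(12,0,4),(11,1,4),(10,2,4),(7,4,1),(8,3,4),(6,1,3),(8,1,4),(13,0,3),(11,2,1),(9,3,1),(11,2,3),(10,1,2),(15,4,1),(14,0,1),(16,4,4),(10,2,1),(11,3,2),(9,1,3),(11,1,2),(12,3,1),(10,2,3),(9,1,2),(14,3,0),(15,3,3),(14,0,5),(13,1,5),(12,2,5),(11,3,5),(10,1,5),(9,2,5),(4,5,2),(5,5,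1),(6,5,3),(7,4,5),(3,4,2),(4,4,1),(5,3,4),(7,3,5),(15,0,4),(14,1,4),(13,2,4),(9,4,2),(10,4,1),(11,3,4),(16,0,6),(15,1,6),(14,2,6),(13,3,6),(12,4,6),(11,3,6),(10,1,6),(9,2,6),(8,3,6),(1,6,3),(2,6,2),(3,6,1),(4,6,3),(5,6,4),(6,5,6),(0,5,3),(1,5,2),(2,5,1),(3,5,3),(4,4,5),(6,4,6),(17,0,0),(16,1,1),(15,2,2),(14,3,3),(13,4,4),(8,5,3),(9,5,2),(10,5,1),(11,5,3),(12,5,5),(6,6,4),(7,6,3),(8,6,2),(9,6,1),(10,6,3),(11,6,6),(4,5,4),(3,3,5),(2,1,5),(1,2,5),(0,3,5),(6,5,3),(7,5,2),(8,5,1),(9,5,3),(4,4,3),(3,1,4),(2,2,4),(6,4,2),(7,4,1),(6,2,1),(4,3,1)] hci h5 (by decide +kernel)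
  have h7 : wp CoxeterMatrix.E₇ [0] ∈ D := conj_step CoxeterMatrix.E₇ D [5,3,4,1,3,2,0,2,3,1,4,3,5] [5,3,4,2,3,1,3,2,4,3,5] [0] [(5,0,2),(7,0,3),(4,3,0),(5,2,3),(3,1,0),(4,1,2),(8,0,1),(9,0,4),(8,1,4),(7,2,4),(2,4,0),(3,4,2),(4,4,1),(5,3,4),(10,0,3),(12,5,5),(10,3,0),(11,3,3),(5,4,3),(4,1,4),(3,2,4),(2,0,4),(7,4,2),(8,4,1),(9,4,0),(10,4,4),(8,1,0),(9,1,2),(4,2,1),(3,0,1),(5,3,2),(4,0,3),(7,3,0),(5,2,0),(7,3,2),(6,0,3),(4,2,3),(3,1,2),(6,0,2),(9,1,3),(8,0,1),(9,0,3),(7,2,1),(5,3,0),(4,1,0),(5,3,1),(4,0,3),(5,0,1),(7,2,3),(5,1,0),(6,1,2),(11,1,1),(6,2,1),(5,0,1),(7,3,2),(5,1,0),(4,3,0),(5,1,3),(4,0,1),(5,0,3),(7,1,2),(9,3,0),(10,3,3),(7,2,1),(6,0,1),(7,2,0),(6,1,2),(9,2,2),(8,0,4),(7,1,4),(6,2,4),(2,4,2),(3,4,1),(4,3,4),(9,0,3),(11,5,5),(9,3,0),(10,3,3),(4,4,3),(3,1,4),(2,2,4),(6,4,2),(7,4,1),(8,4,0),(9,4,4),(7,1,0),(8,1,1),(3,2,1),(4,3,2),(6,3,0),(7,3,3),(5,0,2),(7,0,0),(6,2,2),(4,3,0),(5,3,3),(3,1,0),(4,1,1),(2,4,0),(3,4,4),(1,3,0),(2,3,3),(0,5,0),(1,5,5)]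 h2 h6 (by decide +kernel)
  have h8 : wp CoxeterMatrix.E₇ [6,4,5,2,3,4,1,3,2,0,2,3,1,4,3,2,5,4,6] ∈ D := conj_step CoxeterMatrix.E₇ D (List.finRange 7) [5,3,4,1,3,2,0,2,3,1,4,3,5] [6,4,5,2,3,4,1,3,2,0,2,3,1,4,3,2,5,4,6] [(1,1,2),(5,6,5),(4,4,6),(3,3,6),(2,1,6),(1,2,6),(0,0,6),(7,6,3),(8,6,4),(9,6,1),(10,6,3),(11,6,2),(12,6,0),(13,6,2),(11,0,2),(14,6,3),(13,0,3),(10,3,0),(11,2,3),(9,1,0),(10,1,2),(15,6,1),(14,0,1),(16,6,4),(15,0,4),(14,1,4),(13,2,4),(8,4,0),(9,4,2),(10,4,1),(11,3,4),(17,6,3),(16,0,3),(18,5,6),(17,0,5),(16,3,5),(15,1,5),(14,2,5),(13,3,5),(6,5,3),(7,5,0),(8,5,2),(9,5,1),(10,5,3),(11,4,5),(4,4,3),(3,1,4),(2,2,4),(1,0,4),(6,4,0),(7,4,2),(8,4,1),(9,3,4),(5,3,0),(3,2,1),(2,0,1),(3,2,0),(2,1,2),(5,3,2),(4,0,3),(7,1,3),(6,2,1),(4,3,0),(3,1,0),(4,3,1),(3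,0,3),(4,0,1),(6,2,3),(4,1,0),(5,1,2),(9,1,4),(8,2,4),(11,3,5),(10,1,5),(9,2,5),(18,0,6),(17,3,6),(16,1,6),(15,2,6),(14,3,6),(13,4,6),(12,3,6),(11,1,6),(10,2,6),(0,6,4),(1,6,2),(2,6,3),(3,6,0),(4,6,2),(5,6,1),(6,6,3),(7,6,4),(8,5,6),(20,5,5),(18,3,0),(13,4,3),(12,1,4),(11,2,4),(15,4,2),(16,4,1),(17,4,0),(18,3,4),(17,0,3),(12,2,1),(13,3,2),(15,1,3),(14,2,1),(12,3,1),(14,2,3),(13,1,2),(18,0,4),(17,1,4),(16,2,4),(20,3,3),(18,1,0),(19,1,2),(17,0,2),(20,1,1),(19,0,0),(8,6,5),(7,4,6),(6,3,6),(5,1,6),(4,2,6),(3,0,6),(2,3,6),(1,2,6),(0,4,6),(10,6,4),(11,6,3),(12,6,2),(13,6,1),(14,6,3),(15,6,4),(16,6,0),(17,6,2),(15,4,0),(16,4,2),(8,5,4),(7,3,5),(6,1,5),(5,2,5),(4,0,5),(3,3,5),(2,2,5),(10,5,3),(11,5,2),(12,5,1),(13,5,3),(14,5,0),(15,5,2),(13,3,0),(8,4,3),(7,1,4),(6,2,4),(5,0,4),(10,4,2),(11,4,1),(12,4,0),(11,1,0),(7,2,1),(6,0,1),(8,3,2),(7,0,3),(10,3,0),(8,2,0)]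 hc h2 (by decide +kernel)
  have h9 : wp CoxeterMatrix.E₇ [2] ∈ D := conj_step CoxeterMatrix.E₇ D [6,4,5,3,4,1,3,2,0,2,3,1,4,3,5,4,6] [6,4,5,2,3,4,1,3,2,0,2,3,1,4,3,2,5,4,6] [2] [(7,0,2),(9,0,3),(6,3,0),(7,2,3),(5,1,0),(6,1,2),(10,0,1),(11,0,4),(10,1,4),(9,2,4),(4,4,0),(5,4,2),(6,4,1),(7,3,4),(12,0,3),(13,0,5),(12,3,5),(11,1,5),(10,2,5),(9,3,5),(2,5,3),(3,5,0),(4,5,2),(5,5,1),(6,5,3),(7,4,5),(14,0,4),(16,6,6),(14,4,0),(15,4,4),(7,5,4),(6,3,5),(5,1,5),(4,2,5),(3,0,5),(2,3,5),(9,5,3),(10,5,2),(11,5,1),(12,5,3),(13,5,0),(14,5,5),(12,3,0),(13,2,3),(10,2,1),(11,0,2),(10,1,0),(11,1,2),(13,0,3),(15,2,4),(14,0,4),(7,4,3),(6,1,4),(5,2,4),(4,0,4),(9,4,0),(10,4,2),(11,4,1),(12,3,4),(8,3,0),(6,2,1),(5,0,1),(6,2,0),(5,1,2),(8,3,2),(7,0,3),(10,1,3),(9,2,1),(7,3,0),(6,1,0),(7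,3,1),(6,0,3),(7,0,1),(9,2,3),(7,1,0),(8,1,2),(12,1,4),(11,2,4),(16,2,1),(14,3,0),(13,1,0),(14,3,1),(13,0,3),(14,0,1),(16,2,3),(14,1,0),(15,1,2),(18,2,2),(17,3,0),(15,2,1),(14,0,1),(15,2,0),(14,1,2),(17,3,2),(15,1,0),(12,3,2),(14,3,0),(15,1,3),(14,0,1),(15,0,3),(17,1,2),(19,3,3),(18,1,1),(10,4,3),(9,1,4),(8,2,4),(7,0,4),(4,4,2),(5,3,4),(3,2,3),(5,2,4),(12,4,2),(13,4,1),(9,2,1),(8,0,1),(10,3,2),(8,1,0),(7,3,0),(8,1,3),(7,0,1),(8,0,3),(10,1,2),(11,3,1),(8,3,0),(9,2,3),(6,2,1),(7,0,2),(6,1,0),(7,1,2),(9,0,3),(13,4,3),(12,1,4),(11,2,4),(10,0,4),(5,4,0),(6,4,2),(7,4,1),(8,3,4),(15,4,0),(16,4,2),(17,4,4),(14,3,0),(12,2,1),(11,0,1),(12,2,0),(11,1,2),(14,3,2),(13,0,3),(16,3,3),(15,2,2),(14,0,5),(13,3,5),(12,1,5),(11,2,5),(10,3,5),(2,5,2),(3,5,3),(4,5,0),(5,5,2),(6,5,1),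(7,5,3),(8,4,5),(15,0,4),(17,6,6),(15,4,0),(16,4,4),(8,5,4),(7,3,5),(6,1,5),(5,2,5),(4,0,5),(3,3,5),(2,2,5),(10,5,3),(11,5,2),(12,5,1),(13,5,3),(14,5,0),(15,5,5),(13,3,0),(14,3,3),(8,4,3),(7,1,4),(6,2,4),(5,0,4),(10,4,2),(11,4,1),(12,4,0),(13,4,4),(11,1,0),(12,1,1),(7,2,1),(6,0,1),(8,3,2),(7,0,3),(10,3,0),(11,3,3),(8,2,0),(10,2,2),(9,0,0),(8,2,2),(7,3,3),(6,1,1),(5,4,4),(4,3,3),(2,5,2),(3,5,5),(1,4,2),(2,4,4),(0,6,2),(1,6,6)] h5 h8 (by decide +kernel)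
  have h10 : wp CoxeterMatrix.E₇ [3,1,3] ∈ D := conj_step CoxeterMatrix.E₇ D [5,4,3,2,3,4,5] [5,3,4,2,3,1,3,2,4,3,5] [3,1,3] [(2,2,3),(4,2,4),(1,4,2),(2,3,4),(6,5,5),(2,4,3),(1,2,4),(4,4,2),(2,3,2),(4,4,3),(3,2,4),(1,3,4),(3,2,3),(6,4,4),(5,2,2),(4,3,3),(6,2,4),(2,4,2),(3,4,1),(4,3,4),(6,2,3),(9,5,5),(5,4,2),(2,2,1),(3,3,2),(1,1,3),(3,1,2),(5,4,3),(4,1,4),(3,2,4),(7,4,2),(8,4,4),(4,2,1),(5,3,2),(7,3,3),(6,2,2),(5,3,3),(3,4,1),(4,4,4),(0,5,1),(1,5,3),(2,5,1),(3,5,5),(0,3,1)] h4 h6 (by decide +kernel)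
  have h11 : wp CoxeterMatrix.E₇ [3] ∈ D := conj_step CoxeterMatrix.E₇ D [1] [3,1,3] [3] [(0,3,1),(2,3,3),(1,1,1)] ht1 h10 (by decide +kernel)
  have h12 : wp CoxeterMatrix.E₇ [4,3,2,0,2,3,4] ∈ D := conj_step CoxeterMatrix.E₇ D [6,5,4,3,1,3,4,5,6] [6,4,5,3,4,1,3,2,0,2,3,1,4,3,5,4,6] [4,3,2,0,2,3,4] [(3,1,3),(5,1,4),(2,4,1),(3,3,4),(6,1,5),(5,3,5),(1,5,1),(2,5,3),(3,4,5),(8,6,6),(3,5,4),(2,3,5),(1,1,5),(5,5,3),(6,5,1),(3,4,3),(2,1,4),(5,4,1),(6,5,4),(5,1,5),(4,3,5),(3,1,5),(1,4,5),(6,1,4),(3,4,1),(4,3,4),(8,5,5),(4,4,3),(3,1,4),(6,4,1),(4,3,1),(6,4,3),(5,1,4),(3,3,4),(5,1,3),(8,4,4),(7,1,1),(6,3,3),(6,0,2),(5,1,0),(6,1,2),(8,0,3),(9,0,1),(10,0,4),(9,1,4),(4,4,0),(5,4,2),(6,4,1),(7,3,4),(11,0,3),(9,1,3),(12,0,5),(11,1,5),(10,3,5),(9,1,5),(2,5,3),(3,5,0),(4,5,2),(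5,5,1),(6,5,3),(7,4,5),(13,0,4),(12,1,4),(9,4,1),(10,3,4),(15,6,6),(8,5,1),(9,5,3),(7,4,1),(5,3,1),(2,3,0),(3,2,3),(7,4,3),(6,1,4),(5,2,4),(1,4,0),(2,4,2),(3,3,4),(9,5,4),(8,3,5),(7,1,5),(6,2,5),(5,3,5),(11,5,3),(12,5,1),(13,5,0),(14,5,5),(9,4,3),(8,1,4),(7,2,4),(11,4,1),(12,4,0),(13,4,4),(9,3,1),(11,3,0),(12,3,3),(10,1,0),(11,1,1),(9,3,0),(10,3,3),(7,4,2),(8,4,0),(9,4,4),(5,5,3),(6,5,2),(7,5,0),(8,5,5),(0,6,0),(1,6,2),(2,6,3),(3,6,4),(4,6,3),(5,6,2),(6,6,0),(7,6,6),(2,4,3),(1,2,4),(0,0,4),(4,4,2),(5,4,0),(2,3,2),(1,0,3),(4,3,0),(2,2,0)] h3 h5 (by decide +kernel)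
  have h13 : wp CoxeterMatrix.E₇ [4] ∈ D := conj_step CoxeterMatrix.E₇ D [3,2,0,2,3] [4,3,2,0,2,3,4] [4] [(1,0,2),(3,0,3),(0,3,0),(1,2,3),(4,0,4),(3,2,4),(5,0,3),(6,2,0),(8,2,2),(4,3,2),(6,3,0),(7,3,3),(2,4,3),(1,2,4),(0,0,4),(4,4,2),(5,4,0),(6,4,4),(2,3,2),(1,0,3),(4,3,0),(5,3,3),(2,2,0),(4,2,2),(3,0,0),(2,2,2),(1,3,3)] h0 h12 (by decide +kernel)
  have h14 : wp CoxeterMatrix.E₇ [5,4,2,3,1,3,2,4,5] ∈ D := conj_step CoxeterMatrix.E₇ D [1] [5,4,3,2,3,4,5] [5,4,2,3,1,3,2,4,5] [(0,1,5),(1,1,4),(3,2,3),(2,1,2),(5,2,4),(1,4,2),(2,4,1),(3,3,4),(7,5,1),(3,4,3),(2,1,4),(1,2,4),(5,4,2),(6,4,1),(5,2,1),(3,3,1)] ht1 h4 (by decide +kernel)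
  have h15 : wp CoxeterMatrix.E₇ [5] ∈ D := conj_step CoxeterMatrix.E₇ D [4,2,3,1,3,2,4] [5,4,2,3,1,3,2,4,5] [5] [(2,1,3),(5,2,4),(4,1,4),(0,4,2),(1,4,1),(2,3,4),(6,2,5),(5,1,5),(4,3,5),(7,2,4),(6,1,4),(8,2,2),(7,3,1),(9,3,3),(5,4,3),(7,4,1),(8,4,2),(7,1,2),(9,4,4),(3,5,4),(2,3,5),(1,1,5),(0,2,5),(5,5,3),(6,5,2),(7,5,1),(8,5,5),(3,4,3),(2,1,4),(1,2,4),(5,4,2),(6,4,1),(7,4,4),(5,2,1),(6,2,2),(3,3,1),(5,3,3),(4,1,1),(3,3,3),(2,2,2),(1,4,4)] h1 h14 (by decide +kernel)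
  have h16 : wp CoxeterMatrix.E₇ [5,4,3,1,3,4,5] ∈ D := conj_step CoxeterMatrix.E₇ D [3,2,0,2,3] [5,3,4,1,3,2,0,2,3,1,4,3,5] [5,4,3,1,3,4,5] [(1,0,2),(4,3,5),(3,0,5),(2,2,5),(1,0,5),(0,3,5),(5,3,3),(4,0,4),(3,2,4),(2,0,4),(5,0,1),(6,0,3),(7,2,0),(9,2,2),(4,2,1),(3,0,1),(5,3,2),(4,0,3),(7,3,0),(8,3,3),(7,0,1),(8,0,4),(7,1,4),(6,2,4),(5,0,4),(2,4,1),(3,3,4),(1,1,3),(3,1,4),(10,3,5),(9,0,5),(8,1,5),(7,2,5),(6,0,5),(5,3,5),(4,1,5),(0,5,1),(1,5,3),(2,4,5),(11,3,3),(8,2,1),(7,0,1),(8,2,0),(7,1,2),(10,2,2),(9,0,0),(7,2,1),(8,2,2),(5,3,1),(7,3,3),(2,5,4),(1,3,5),(0,1,5),(4,5,3),(5,5,1),(2,4,3),(1,1,4),(4,4,1),(2,3,1)] h0 h2 (by decide +kernel)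
  have h17 : wp CoxeterMatrix.E₇ [6] ∈ D := conj_step CoxeterMatrix.E₇ D [6,5,4,3,1,3,4,5,6] [5,4,3,1,3,4,5] [6] [(3,1,3),(5,1,4),(2,4,1),(3,3,4),(6,1,5),(5,3,5),(1,5,1),(2,5,3),(3,4,5),(7,1,6),(6,3,6),(5,4,6),(0,6,1),(1,6,3),(2,6,4),(3,5,6),(8,1,5),(7,3,5),(5,4,5),(9,1,4),(7,3,4),(9,1,3),(11,1,1),(10,3,3),(8,4,1),(9,4,4),(6,5,3),(7,5,1),(8,5,5),(4,6,4),(5,6,3),(6,6,1),(7,6,6),(2,5,4),(1,3,5),(0,1,5),(4,5,3),(5,5,1),(6,5,5),(2,4,3),(1,1,4),(4,4,1),(5,4,4),(2,3,1),(4,3,3),(3,1,1),(2,3,3),(1,4,4),(0,5,5)] h3 h16 (by decide +kernel)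
  intro i
  fin_cases i
  · exact h7
  · exact ht1
  · exact h9
  · exact h11
  · exact h13
  · exact h15
  · exact h17

set_option maxHeartbeats 4000000 in
theorem chain_E8 (D : Subgroup (CoxeterMatrix.E₈).Group) (hc : wp CoxeterMatrix.E₈ (List.finRange 8) ∈ D) (ht0 : wp CoxeterMatrix.E₈ [0] ∈ D) :
    ∀ i, wp CoxeterMatrix.E₈ [i] ∈ D := by
  have hci := inv_word CoxeterMatrix.E₈ D _ hc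
  have h0 : wp CoxeterMatrix.E₈ [7,6,5,4,3,2,0,2,3,4,5,6,7] ∈ D := conj_step CoxeterMatrix.E₈ D (List.finRange 8).reverse [0] [7,6,5,4,3,2,0,2,3,4,5,6,7] [(7,0,0),(6,1,0),(7,1,1)] hci ht0 (by decide +kernel)
  have h1 : wp CoxeterMatrix.E₈ [6,5,4,3,1,3,4,5,6] ∈ D := conj_step CoxeterMatrix.E₈ D (List.finRange 8).reverse [7,6,5,4,3,2,0,2,3,4,5,6,7] [6,5,4,3,1,3,4,5,6] [(7,0,7),(6,1,7),(5,2,7),(4,3,7),(3,4,7),(2,5,7),(0,6,7),(8,0,6),(7,1,6),(6,2,6),(5,3,6),(4,4,6),(2,5,6),(9,0,5),(8,1,5),(7,2,5),(6,3,5),(4,4,5),(10,0,4),(9,1,4),(8,2,4),(6,3,4),(11,0,3),(12,2,0),(14,2,2),(9,2,1),(10,3,2),(8,1,3),(10,1,2),(12,3,0),(13,3,3),(12,0,4),(11,1,4),(10,2,4),(7,4,1),(8,3,4),(6,1,3),(8,1,4),(13,0,5),(12,1,5),(11,2,5),(10,3,5),(9,1,5),(5,5,1),(6,5,3),(7,4,5),(4,4,1),(5,3,4),(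7,3,5),(14,0,6),(13,1,6),(12,2,6),(11,3,6),(10,1,6),(9,4,6),(8,3,6),(3,6,1),(4,6,3),(5,6,4),(6,5,6),(2,5,1),(3,5,3),(4,4,5),(6,4,6),(15,0,7),(14,1,7),(13,2,7),(12,3,7),(11,1,7),(10,4,7),(9,3,7),(8,5,7),(7,4,7),(1,7,1),(2,7,3),(3,7,4),(4,7,5),(5,6,7),(0,6,1),(1,6,3),(2,6,4),(3,5,6),(5,5,7),(16,0,0),(15,1,1),(14,2,2),(13,3,3),(11,4,1),(12,4,4),(9,5,3),(10,5,1),(11,5,5),(7,6,4),(8,6,3),(9,6,1),(10,6,6),(5,7,5),(6,7,4),(7,7,3),(8,7,1),(9,7,7),(3,6,5),(2,4,6),(1,3,6),(0,1,6),(5,6,4),(6,6,3),(7,6,1),(3,5,4),(2,3,5),(1,1,5),(5,5,3),(6,5,1),(3,4,3),(2,1,4),(5,4,1),(3,3,1)] hci h0 (by decide +kernel)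
  have h2 : wp CoxeterMatrix.E₈ [5,4,3,2,3,4,5] ∈ D := conj_step CoxeterMatrix.E₈ D (List.finRange 8).reverse [6,5,4,3,1,3,4,5,6] [5,4,3,2,3,4,5] [(6,1,0),(7,1,6),(6,0,6),(5,2,6),(4,3,6),(3,4,6),(1,5,6),(8,1,5),(7,0,5),(6,2,5),(5,3,5),(3,4,5),(9,1,4),(8,0,4),(7,2,4),(5,3,4),(10,3,1),(9,0,3),(7,2,3),(10,0,1),(12,3,3),(11,0,4),(10,1,4),(9,2,4),(6,4,2),(7,3,4),(5,2,3),(7,2,4),(12,0,5),(11,1,5),(10,2,5),(9,3,5),(8,2,5),(4,5,2),(5,5,3),(6,4,5),(3,4,2),(4,3,4),(6,3,5),(13,0,6),(12,1,6),(11,2,6),(10,3,6),(9,2,6),(8,4,6),(7,3,6),(2,6,2),(3,6,3),(4,6,4),(5,5,6),(1,5,2),(2,5,3),(3,4,5),(5,4,6),(14,0,0),(13,1,1),(12,2,2),(11,3,3),(9,4,2),(10,4,4),(7,5,3),(8,5,2),(9,5,5),(5,6,4),(6,6,3),(7,6,2),(8,6,6),(0,7,2),(1,7,3),(2,7,4),(3,7,5),(4,7,4),(5,7,3),(6,7,2),(7,7,7),(2,5,4),(1,3,5),(0,2,5),(4,5,3),(5,5,2),(2,4,3),(1,2,4),(4,4,2),(2,3,2)]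 hci h1 (by decide +kernel)
  have h3 : wp CoxeterMatrix.E₈ [2] ∈ D := conj_step CoxeterMatrix.E₈ D (List.finRange 8) [0] [2] [(1,1,2),(7,7,0),(8,7,7),(6,6,0),(7,6,6),(5,5,0),(6,5,5),(4,4,0),(5,4,4),(3,3,0),(4,3,3),(1,2,1),(0,0,1),(1,2,0),(0,1,2),(3,2,2),(1,1,0),(2,1,1),(1,0,0)] hc ht0 (by decide +kernel)
  have h4 : wp CoxeterMatrix.E₈ [3,1,3] ∈ D := conj_step CoxeterMatrix.E₈ D (List.finRange 8) [2] [3,1,3] [(1,1,2),(7,7,2),(8,7,7),(6,6,2),(7,6,6),(5,5,2),(6,5,5),(4,4,2),(5,4,4),(1,2,1),(0,0,1),(2,3,2),(1,0,3),(4,3,3),(3,2,2),(2,0,1),(3,0,0),(0,3,1)] hc h3 (by decide +kernel)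
  have h5 : wp CoxeterMatrix.E₈ [4,3,2,0,2,3,4] ∈ D := conj_step CoxeterMatrix.E₈ D (List.finRange 8) [3,1,3] [4,3,2,0,2,3,4] [(1,1,2),(7,7,3),(8,7,1),(9,7,3),(7,1,3),(10,7,7),(6,6,1),(7,6,3),(8,6,1),(9,6,6),(5,5,1),(6,5,3),(7,5,1),(8,5,5),(4,4,1),(2,3,1),(4,4,3),(3,1,4),(6,4,1),(7,4,4),(4,3,1),(6,3,3),(5,1,2),(6,1,1),(2,4,3),(1,2,4),(0,0,4),(4,4,2),(5,4,0),(2,3,2),(1,0,3),(4,3,0),(2,2,0)] hc h4 (by decide +kernel)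
  have h6 : wp CoxeterMatrix.E₈ [5,4,2,3,1,3,2,4,5] ∈ D := conj_step CoxeterMatrix.E₈ D (List.finRange 8) [4,3,2,0,2,3,4] [5,4,2,3,1,3,2,4,5] [(1,1,2),(7,7,4),(8,7,3),(9,7,2),(10,7,0),(11,7,2),(9,0,2),(12,7,3),(11,0,3),(8,3,0),(9,2,3),(13,7,4),(12,0,4),(11,2,4),(7,4,0),(8,4,2),(9,3,4),(14,7,7),(6,6,0),(7,6,2),(8,6,3),(9,6,4),(10,6,3),(11,6,2),(12,6,0),(13,6,6),(5,5,0),(6,5,2),(7,5,3),(4,4,0),(5,4,2),(3,3,0),(1,2,1),(0,0,1),(1,2,0),(0,1,2),(3,3,2),(2,0,3),(5,4,3),(4,2,4),(3,0,4),(7,5,4),(6,3,5),(5,2,5),(4,0,5),(9,5,3),(10,5,2),(11,5,0),(12,5,5),(7,4,3),(6,2,4),(5,0,4),(9,4,2),(10,4,0),(11,4,4),(7,3,2),(6,0,3),(9,3,0),(10,3,3),(7,2,0),(9,2,2),(8,0,1),(9,0,0),(3,5,4),(2,3,5),(1,1,5),(0,2,5),(5,5,3),(6,5,2),(7,5,1),(3,4,3),(2,1,4),(1,2,4),(5,4,2),(6,4,1),(5,2,1),(3,3,1)]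 hc h5 (by decide +kernel)
  have h7 : wp CoxeterMatrix.E₈ [1] ∈ D := conj_step CoxeterMatrix.E₈ D [5,4,3,2,3,4,5] [5,4,2,3,1,3,2,4,5] [1] [(2,2,3),(4,2,4),(1,4,2),(2,3,4),(6,5,5),(2,4,3),(1,2,4),(4,4,2),(5,4,4),(4,2,2),(3,3,3),(5,2,4),(1,4,2),(2,4,1),(3,3,4),(7,5,5),(3,4,3),(2,1,4),(1,2,4),(5,4,2),(6,4,4),(2,2,1),(3,3,2),(5,3,3),(4,2,2),(3,3,3),(1,4,1),(2,4,4),(0,5,1),(1,5,5)] h2 h6 (by decide +kernel)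
  have h8 : wp CoxeterMatrix.E₈ [6,5,3,4,1,3,2,0,2,3,1,4,3,5,6] ∈ D := conj_step CoxeterMatrix.E₈ D (List.finRange 8) [5,4,2,3,1,3,2,4,5] [6,5,3,4,1,3,2,0,2,3,1,4,3,5,6] [(1,1,2),(7,7,5),(8,7,4),(9,7,2),(10,7,3),(11,7,1),(12,7,3),(10,1,3),(13,7,2),(12,1,2),(14,7,4),(13,1,4),(12,2,4),(8,4,2),(9,4,1),(10,3,4),(15,7,5),(14,1,5),(13,2,5),(12,3,5),(7,5,2),(8,5,1),(9,5,3),(10,4,5),(16,7,7),(10,5,4),(9,3,5),(8,1,5),(7,2,5),(12,5,3),(13,5,2),(14,5,1),(5,6,5),(4,4,6),(3,3,6),(2,1,6),(1,2,6),(0,0,6),(7,6,2),(8,6,1),(9,6,3),(10,6,4),(11,6,3),(12,6,2),(13,6,1),(14,5,6),(13,1,5),(12,2,5),(11,3,5),(6,5,2),(7,5,1),(8,5,3),(9,4,5),(5,4,2),(6,4,1),(7,3,4),(2,2,1),(1,0,1),(3,3,2),(2,0,3),(5,1,3),(4,2,1),(2,3,0),(1,1,0),(2,3,1),(1,0,3),(2,0,1),(4,2,3),(2,1,0),(3,1,2),(7,1,4),(6,2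,4),(9,3,5),(8,1,5),(7,2,5),(14,1,6),(13,2,6),(12,3,6),(11,4,6),(10,3,6),(9,1,6),(8,2,6),(0,6,3),(1,6,0),(2,6,2),(3,6,1),(4,6,3),(5,6,4),(6,5,6),(16,5,5),(11,4,3),(10,1,4),(9,2,4),(13,4,2),(14,4,1),(15,4,4),(13,2,1),(11,3,1),(13,2,3),(12,1,2),(10,3,2),(12,1,3),(15,2,2),(14,1,1),(6,6,5),(5,4,6),(4,3,6),(3,1,6),(2,2,6),(1,0,6),(0,3,6),(8,6,4),(9,6,3),(10,6,2),(11,6,1),(12,6,3),(13,6,0),(6,5,4),(5,3,5),(4,1,5),(3,2,5),(2,0,5),(1,3,5),(8,5,3),(9,5,2),(10,5,1),(11,5,3),(12,5,0),(11,3,0),(6,4,3),(5,1,4),(4,2,4),(3,0,4),(8,4,2),(9,4,1),(10,4,0),(9,1,0),(5,2,1),(4,0,1),(6,3,2),(5,0,3),(8,3,0),(6,2,0)] hc h6 (by decide +kernel)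
  have h9 : wp CoxeterMatrix.E₈ [7,6,4,5,2,3,4,1,3,2,0,2,3,1,4,3,2,5,4,6,7] ∈ D := conj_step CoxeterMatrix.E₈ D (List.finRange 8) [6,5,3,4,1,3,2,0,2,3,1,4,3,5,6] [7,6,4,5,2,3,4,1,3,2,0,2,3,1,4,3,2,5,4,6,7] [(1,1,2),(6,7,6),(5,5,7),(4,4,7),(3,3,7),(2,1,7),(1,2,7),(0,0,7),(8,7,5),(9,7,3),(10,7,4),(11,7,1),(12,7,3),(13,7,2),(14,7,0),(15,7,2),(13,0,2),(16,7,3),(15,0,3),(12,3,0),(13,2,3),(11,1,0),(12,1,2),(17,7,1),(16,0,1),(18,7,4),(17,0,4),(16,1,4),(15,2,4),(10,4,0),(11,4,2),(12,4,1),(13,3,4),(19,7,3),(18,0,3),(20,7,5),(19,0,5),(18,3,5),(17,1,5),(16,2,5),(15,3,5),(8,5,3),(9,5,0),(10,5,2),(11,5,1),(12,5,3),(13,4,5),(21,6,7),(20,0,6),(19,3,6),(18,1,6),(17,2,6),(16,3,6),(15,4,6),(7,6,3),(8,6,0),(9,6,2),(10,6,1),(11,6,3),(12,6,4),(13,5,6),(6,5,3),(7,5,0),(8,5,2),(9,5,1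),(10,5,3),(11,4,5),(4,4,3),(3,1,4),(2,2,4),(1,0,4),(6,4,0),(7,4,2),(8,4,1),(9,3,4),(5,3,0),(3,2,1),(2,0,1),(3,2,0),(2,1,2),(5,3,2),(4,0,3),(7,1,3),(6,2,1),(4,3,0),(3,1,0),(4,3,1),(3,0,3),(4,0,1),(6,2,3),(4,1,0),(5,1,2),(9,1,4),(8,2,4),(11,3,5),(10,1,5),(9,2,5),(13,4,6),(12,3,6),(11,1,6),(10,2,6),(21,0,7),(20,3,7),(19,1,7),(18,2,7),(17,3,7),(16,4,7),(15,5,7),(14,4,7),(13,3,7),(12,1,7),(11,2,7),(0,7,4),(1,7,2),(2,7,3),(3,7,0),(4,7,2),(5,7,1),(6,7,3),(7,7,4),(8,7,5),(9,6,7),(23,6,6),(15,5,4),(14,3,5),(13,1,5),(12,2,5),(17,5,3),(18,5,2),(19,5,1),(20,5,3),(21,5,0),(22,5,5),(20,3,0),(15,4,3),(14,1,4),(13,2,4),(17,4,2),(18,4,1),(19,4,0),(20,3,4),(19,0,3),(14,2,1),(15,3,2),(17,1,3),(16,2,1),(14,3,1),(16,2,3),(15,1,2),(20,0,4),(19,1,4),(18,2,4),(22,3,3),(20,1,0),(21,1,2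),(19,0,2),(22,1,1),(21,0,0),(9,7,6),(8,5,7),(7,4,7),(6,3,7),(5,1,7),(4,2,7),(3,0,7),(2,3,7),(1,2,7),(0,4,7),(11,7,5),(12,7,4),(13,7,3),(14,7,2),(15,7,1),(16,7,3),(17,7,4),(18,7,0),(19,7,2),(9,6,5),(8,4,6),(7,3,6),(6,1,6),(5,2,6),(4,0,6),(3,3,6),(2,2,6),(1,4,6),(11,6,4),(12,6,3),(13,6,2),(14,6,1),(15,6,3),(16,6,4),(17,6,0),(18,6,2),(16,4,0),(17,4,2),(9,5,4),(8,3,5),(7,1,5),(6,2,5),(5,0,5),(4,3,5),(3,2,5),(11,5,3),(12,5,2),(13,5,1),(14,5,3),(15,5,0),(16,5,2),(14,3,0),(9,4,3),(8,1,4),(7,2,4),(6,0,4),(11,4,2),(12,4,1),(13,4,0),(12,1,0),(8,2,1),(7,0,1),(9,3,2),(8,0,3),(11,3,0),(9,2,0)] hc h8 (by decide +kernel)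
  have h10 : wp CoxeterMatrix.E₈ [5,3,4,2,3,1,3,2,4,3,5] ∈ D := conj_step CoxeterMatrix.E₈ D (List.finRange 8) [7,6,4,5,2,3,4,1,3,2,0,2,3,1,4,3,2,5,4,6,7] [5,3,4,2,3,1,3,2,4,3,5] [(1,1,2),(7,7,7),(6,6,6),(4,5,4),(3,3,5),(2,1,5),(1,2,5),(0,0,5),(6,5,5),(5,4,2),(2,2,1),(1,0,1),(3,3,2),(2,0,3),(5,4,3),(4,2,4),(3,0,4),(7,4,4),(6,1,3),(8,1,2),(9,1,0),(10,1,2),(5,2,1),(4,0,1),(6,3,2),(5,0,3),(8,3,0),(6,2,0),(8,3,2),(7,0,3),(5,2,3),(4,1,2),(7,0,2),(10,1,3),(9,0,1),(10,0,3),(8,2,1),(6,3,0),(5,1,0),(6,3,1),(5,0,3),(6,0,1),(8,2,3),(6,1,0),(7,1,2),(12,1,1),(11,0,4),(10,2,4),(12,0,3),(14,2,5),(13,0,5),(12,3,5),(11,2,5),(15,2,4),(14,0,4),(16,2,6),(15,0,6),(14,4,6),(13,3,6),(12,2,6),(18,7,7),(12,6,2),(13,6,3),(14,6,4),(15,6,0),(16,6,2),(17,6,6),(11,5,2),(12,5,3),(10,4,2),(7,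2,1),(6,0,1),(8,3,2),(6,1,0),(5,3,0),(6,1,3),(5,0,1),(6,0,3),(8,1,2),(10,4,3),(9,1,4),(8,2,4),(7,0,4),(3,4,2),(4,4,1),(5,3,4),(3,2,1),(1,3,1),(3,2,3),(2,1,2),(5,2,4),(12,5,4),(11,3,5),(10,1,5),(9,2,5),(8,0,5),(7,3,5),(6,2,5),(0,5,3),(1,5,2),(2,5,1),(3,5,3),(4,4,5),(14,5,0),(15,5,2),(16,5,5),(13,4,0),(14,4,2),(15,4,4),(12,3,0),(10,2,1),(9,0,1),(10,2,0),(9,1,2),(12,3,2),(10,1,0),(7,3,2),(9,3,0),(10,1,3),(9,0,1),(10,0,3),(12,1,2),(14,3,3),(12,2,1),(11,0,1),(13,2,2),(11,1,0),(12,1,1),(11,0,0),(4,5,4),(3,3,5),(2,1,5),(1,2,5),(0,3,5),(6,5,3),(7,5,2),(8,5,1),(9,5,3),(4,4,3),(3,1,4),(2,2,4),(6,4,2),(7,4,1),(6,2,1),(4,3,1)] hc h9 (by decide +kernel)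
  have h11 : wp CoxeterMatrix.E₈ [3] ∈ D := conj_step CoxeterMatrix.E₈ D [5,4,2,3,1,3,2,4,5] [5,3,4,2,3,1,3,2,4,3,5] [3] [(3,1,3),(5,1,2),(6,1,4),(5,2,4),(1,4,2),(2,4,1),(3,3,4),(8,5,5),(3,4,3),(2,1,4),(1,2,4),(5,4,2),(6,4,1),(7,3,4),(5,2,1),(3,3,1),(5,2,3),(4,1,2),(2,3,2),(4,1,3),(7,2,4),(6,1,4),(8,3,2),(10,3,3),(9,2,1),(7,3,1),(9,2,3),(8,1,2),(11,2,2),(5,4,3),(4,1,4),(3,2,4),(1,3,4),(7,4,2),(8,4,1),(4,2,1),(5,3,2),(3,1,3),(5,1,2),(6,3,1),(4,2,3),(3,1,2),(8,4,3),(7,1,4),(6,2,4),(2,4,2),(3,4,1),(4,3,4),(10,4,4),(9,3,3),(9,5,5),(4,4,3),(3,1,4),(2,2,4),(6,4,2),(7,4,1),(8,4,4),(6,2,1),(7,2,2),(4,3,1),(6,3,3),(5,1,1),(4,3,3),(3,2,2),(2,4,4),(0,5,3),(1,5,5)] h6 h10 (by decide +kernel)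
  have h12 : wp CoxeterMatrix.E₈ [7,6,4,5,3,4,1,3,2,0,2,3,1,4,3,5,4,6,7] ∈ D := conj_step CoxeterMatrix.E₈ D (List.finRange 8).reverse [5,4,3,2,3,4,5] [7,6,4,5,3,4,1,3,2,0,2,3,1,4,3,5,4,6,7] [(7,0,5),(6,1,5),(5,2,5),(4,3,5),(2,4,5),(8,0,4),(7,1,4),(6,2,4),(4,3,4),(10,2,3),(7,2,1),(8,0,2),(7,1,0),(8,1,2),(10,0,3),(12,2,4),(11,0,4),(4,4,3),(6,4,0),(7,4,2),(8,4,1),(9,3,4),(13,2,5),(12,0,5),(11,3,5),(2,5,4),(4,5,3),(5,5,0),(6,5,2),(7,5,1),(8,5,3),(9,4,5),(13,2,0),(15,2,1),(14,0,1),(16,2,2),(9,5,4),(8,3,5),(7,1,5),(6,2,5),(5,0,5),(4,3,5),(2,4,5),(11,5,3),(12,5,2),(13,5,1),(14,5,0),(15,5,3),(9,4,3),(8,1,4),(7,2,4),(6,0,4),(4,3,4),(11,4,2),(12,4,1),(13,4,0),(8,2,1),(7,0,1),(9,3,2),(7,1,0),(6,3,0),(7,1,3),(6,0,1),(7,0,3),(9,1,2),(10,3,1),(7,3,0),(8,2,3),(6,1,0),(7,1,2)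,(12,3,0),(13,4,3),(12,0,4),(11,1,4),(10,2,4),(5,4,0),(6,4,2),(7,4,1),(8,3,4),(13,0,3),(15,5,4),(14,0,5),(13,3,5),(12,1,5),(11,2,5),(10,3,5),(3,5,3),(4,5,0),(5,5,2),(6,5,1),(7,5,3),(8,4,5),(15,0,4),(17,5,5),(15,4,0),(8,5,4),(7,3,5),(6,1,5),(5,2,5),(4,0,5),(3,3,5),(10,5,3),(11,5,2),(12,5,1),(13,5,3),(14,5,0),(13,3,0),(8,4,3),(7,1,4),(6,2,4),(5,0,4),(10,4,2),(11,4,1),(12,4,0),(11,1,0),(7,2,1),(6,0,1),(8,3,2),(7,0,3),(10,3,0),(8,2,0)] hci h2 (by decide +kernel)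
  have h13 : wp CoxeterMatrix.E₈ [6,5,3,4,2,3,1,3,2,4,3,5,6] ∈ D := conj_step CoxeterMatrix.E₈ D (List.finRange 8).reverse [7,6,4,5,3,4,1,3,2,0,2,3,1,4,3,5,4,6,7] [6,5,3,4,2,3,1,3,2,4,3,5,6] [(7,0,7),(6,1,7),(5,2,7),(4,3,7),(3,4,7),(2,5,7),(0,6,7),(8,0,6),(7,1,6),(6,2,6),(5,3,6),(4,4,6),(2,5,6),(9,0,4),(8,1,4),(7,2,4),(5,3,4),(10,0,5),(9,1,5),(8,2,5),(7,3,5),(4,5,3),(5,4,5),(11,0,3),(12,0,4),(13,0,1),(14,0,3),(15,2,0),(17,2,2),(12,4,1),(10,3,1),(8,2,3),(12,4,3),(11,1,4),(10,2,4),(7,4,2),(8,3,4),(14,4,2),(15,4,0),(11,2,1),(12,3,2),(10,1,3),(12,1,2),(14,3,0),(15,4,3),(14,0,4),(13,1,4),(12,2,4),(9,4,1),(10,3,4),(8,1,3),(10,1,4),(15,0,3),(13,2,1),(11,3,1),(13,2,3),(12,1,2),(17,4,1),(16,0,1),(18,4,4),(12,2,1),(13,3,2),(11,1,3),(13,1,2),(14,3,1),(12,2,3),(11,1,2),(16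,3,0),(17,3,3),(16,0,5),(15,1,5),(14,2,5),(13,3,5),(12,1,5),(11,2,5),(6,5,2),(7,5,1),(8,5,3),(9,4,5),(5,4,2),(6,4,1),(7,3,4),(9,3,5),(17,0,4),(16,1,4),(15,2,4),(11,4,2),(12,4,1),(13,3,4),(18,0,6),(17,1,6),(16,2,6),(15,3,6),(14,4,6),(13,3,6),(12,1,6),(11,2,6),(10,3,6),(3,6,3),(4,6,2),(5,6,1),(6,6,3),(7,6,4),(8,5,6),(2,5,3),(3,5,2),(4,5,1),(5,5,3),(6,4,5),(8,4,6),(19,0,7),(18,1,7),(17,2,7),(16,3,7),(15,4,7),(14,3,7),(13,1,7),(12,2,7),(11,3,7),(10,5,7),(9,4,7),(1,7,3),(2,7,2),(3,7,1),(4,7,3),(5,7,4),(6,7,5),(7,6,7),(0,6,3),(1,6,2),(2,6,1),(3,6,3),(4,6,4),(5,5,6),(7,5,7),(20,0,0),(19,1,1),(18,2,2),(17,3,3),(16,4,4),(11,5,3),(12,5,2),(13,5,1),(14,5,3),(15,5,5),(9,6,4),(10,6,3),(11,6,2),(12,6,1),(13,6,3),(14,6,6),(7,7,5),(8,7,4),(9,7,3),(10,7,2),(11,7,1),(12,7,3),(13,7,7),(5,6,5),(4,4,6),(3,3,6),(2,1,6),(1,2,6),(0,3,6),(7,6,4),(8,6,3),(9,6,2),(10,6,1),(11,6,3),(5,5,4),(4,3,5),(3,1,5),(2,2,5),(1,3,5),(7,5,3),(8,5,2),(9,5,1),(10,5,3),(5,4,3),(4,1,4),(3,2,4),(7,4,2),(8,4,1),(7,2,1),(5,3,1)]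 hci h12 (by decide +kernel)
  have h14 : wp CoxeterMatrix.E₈ [7,5,6,4,5,2,3,4,1,3,2,0,2,3,1,4,3,2,5,4,6,5,7] ∈ D := conj_step CoxeterMatrix.E₈ D (List.finRange 8).reverse [6,5,3,4,2,3,1,3,2,4,3,5,6] [7,5,6,4,5,2,3,4,1,3,2,0,2,3,1,4,3,2,5,4,6,5,7] [(7,0,6),(6,1,6),(5,2,6),(4,3,6),(3,4,6),(1,5,6),(8,0,5),(7,1,5),(6,2,5),(5,3,5),(3,4,5),(9,0,3),(10,0,4),(13,1,3),(15,1,2),(16,1,4),(12,2,1),(11,0,1),(13,3,2),(10,4,1),(11,4,0),(8,3,1),(6,2,3),(10,3,0),(11,4,3),(10,0,4),(9,1,4),(8,2,4),(5,4,2),(6,3,4),(11,0,3),(13,4,2),(14,3,4),(11,3,0),(12,2,3),(9,2,1),(10,0,2),(9,1,0),(10,1,2),(12,0,3),(14,2,4),(13,0,4),(6,4,3),(5,2,4),(8,4,0),(9,4,2),(10,4,1),(11,3,4),(16,1,3),(18,1,5),(17,3,5),(16,1,5),(15,2,5),(14,0,5),(13,3,5),(3,5,4),(5,5,2),(6,5,3),(7,5,0),(8,5,2),(9,5,1),(10,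5,3),(11,4,5),(19,1,6),(18,3,6),(17,1,6),(16,2,6),(15,0,6),(14,3,6),(13,4,6),(1,6,5),(3,6,4),(4,6,2),(5,6,3),(6,6,0),(7,6,2),(8,6,1),(9,6,3),(10,6,4),(11,5,6),(20,1,0),(21,1,1),(19,3,0),(17,2,1),(16,0,1),(17,2,0),(16,1,2),(19,3,2),(18,0,3),(21,3,3),(11,6,5),(10,4,6),(9,3,6),(8,1,6),(7,2,6),(6,0,6),(5,3,6),(4,2,6),(3,4,6),(1,5,6),(13,6,4),(14,6,3),(15,6,2),(16,6,1),(17,6,3),(18,6,0),(19,6,2),(20,6,4),(11,5,4),(10,3,5),(9,1,5),(8,2,5),(7,0,5),(6,3,5),(5,2,5),(3,4,5),(13,5,3),(14,5,2),(15,5,1),(16,5,3),(17,5,0),(18,5,2),(11,4,3),(10,1,4),(9,2,4),(8,0,4),(5,4,2),(6,3,4),(13,4,2),(14,4,1),(10,2,1),(9,0,1),(11,3,2),(9,1,0),(8,3,0),(9,1,3),(8,0,1),(9,0,3),(11,1,2),(12,3,1),(9,3,0),(10,2,3),(8,1,0),(9,1,2),(14,4,3),(13,1,4),(12,2,4),(7,4,0),(8,4,2),(9,4,1),(10,3,4),(16,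4,0),(17,4,2),(18,5,4),(17,2,5),(16,0,5),(15,3,5),(14,1,5),(13,2,5),(12,3,5),(4,5,2),(5,5,3),(6,5,0),(7,5,2),(8,5,1),(9,5,3),(10,4,5),(18,2,4),(17,0,4),(20,6,5),(19,2,6),(18,0,6),(17,4,6),(16,3,6),(15,1,6),(14,2,6),(13,3,6),(12,4,6),(2,6,4),(3,6,2),(4,6,3),(5,6,0),(6,6,2),(7,6,1),(8,6,3),(9,6,4),(10,5,6),(20,2,5),(19,0,5),(22,6,6),(19,5,0),(20,5,2),(10,6,5),(9,4,6),(8,3,6),(7,1,6),(6,2,6),(5,0,6),(4,3,6),(3,2,6),(2,4,6),(12,6,4),(13,6,3),(14,6,2),(15,6,1),(16,6,3),(17,6,4),(18,6,0),(19,6,2),(17,4,0),(18,4,2),(10,5,4),(9,3,5),(8,1,5),(7,2,5),(6,0,5),(5,3,5),(4,2,5),(12,5,3),(13,5,2),(14,5,1),(15,5,3),(16,5,0),(17,5,2),(15,3,0),(10,4,3),(9,1,4),(8,2,4),(7,0,4),(12,4,2),(13,4,1),(14,4,0),(13,1,0),(9,2,1),(8,0,1),(10,3,2),(9,0,3),(12,3,0),(10,2,0)] hci h13 (by decide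 +kernel)
  have h15 : wp CoxeterMatrix.E₈ [6,4,5,3,4,1,3,2,0,2,3,1,4,3,5,4,6] ∈ D := conj_step CoxeterMatrix.E₈ D (List.finRange 8).reverse [7,5,6,4,5,2,3,4,1,3,2,0,2,3,1,4,3,2,5,4,6,5,7] [6,4,5,3,4,1,3,2,0,2,3,1,4,3,5,4,6] [(7,0,7),(6,1,7),(5,2,7),(4,3,7),(3,4,7),(2,5,7),(0,6,7),(8,0,5),(7,1,5),(6,2,5),(5,3,5),(3,4,5),(9,0,6),(8,1,6),(7,2,6),(6,3,6),(5,4,6),(2,6,4),(3,5,6),(10,0,4),(9,1,4),(8,2,4),(6,3,4),(11,0,5),(9,2,1),(10,2,5),(9,1,5),(8,3,5),(5,5,3),(6,4,5),(11,0,2),(10,1,0),(11,1,2),(13,0,3),(14,0,4),(15,0,1),(16,0,3),(17,2,0),(19,2,2),(14,4,1),(12,3,1),(9,3,0),(10,2,3),(14,4,3),(13,1,4),(12,2,4),(8,4,0),(9,4,2),(10,3,4),(16,4,2),(17,4,0),(13,2,1),(14,3,2),(12,1,3),(14,1,2),(16,3,0),(17,4,3),(16,0,4),(15,1,4),(14,2,4),(11,4,1),(12,3,4),(10,1,3),(12,1,4),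(17,0,3),(15,2,1),(13,3,1),(15,2,3),(14,1,2),(19,4,1),(18,0,1),(20,4,4),(14,2,1),(15,3,2),(13,1,3),(15,1,2),(16,3,1),(14,2,3),(13,1,2),(18,3,0),(19,3,3),(16,2,1),(17,0,2),(16,1,0),(17,1,2),(19,0,5),(18,1,5),(17,2,5),(16,0,5),(15,3,5),(14,1,5),(13,2,5),(7,5,0),(8,5,2),(9,5,1),(10,5,3),(11,4,5),(6,4,0),(7,4,2),(8,4,1),(9,3,4),(11,3,5),(20,0,4),(19,1,4),(18,2,4),(17,0,4),(13,4,2),(14,4,1),(15,3,4),(21,0,6),(20,1,6),(19,2,6),(18,0,6),(17,3,6),(16,4,6),(15,3,6),(14,1,6),(13,2,6),(12,3,6),(4,6,3),(5,6,0),(6,6,2),(7,6,1),(8,6,3),(9,6,4),(10,5,6),(3,5,3),(4,5,0),(5,5,2),(6,5,1),(7,5,3),(8,4,5),(10,4,6),(22,0,5),(21,1,5),(20,2,5),(19,0,5),(18,3,5),(12,5,3),(13,5,2),(14,5,1),(15,5,3),(16,4,5),(23,0,7),(22,1,7),(21,2,7),(20,0,7),(19,3,7),(18,4,7),(17,5,7),(16,4,7),(15,3,7)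,(14,1,7),(13,2,7),(12,3,7),(11,4,7),(1,7,4),(2,7,3),(3,7,0),(4,7,2),(5,7,1),(6,7,3),(7,7,4),(8,7,5),(9,6,7),(0,6,4),(1,6,3),(2,6,0),(3,6,2),(4,6,1),(5,6,3),(6,6,4),(7,5,6),(9,5,7),(24,0,0),(23,1,1),(22,2,2),(20,3,0),(21,3,3),(19,4,0),(20,4,4),(18,5,0),(19,5,5),(11,6,4),(12,6,3),(13,6,2),(14,6,1),(15,6,3),(16,6,4),(17,6,0),(18,6,6),(9,7,5),(10,7,4),(11,7,3),(12,7,2),(13,7,1),(14,7,3),(15,7,4),(16,7,0),(17,7,7),(7,6,5),(6,4,6),(5,3,6),(4,1,6),(3,2,6),(2,0,6),(1,3,6),(0,4,6),(9,6,4),(10,6,3),(11,6,2),(12,6,1),(13,6,3),(14,6,4),(15,6,0),(14,4,0),(7,5,4),(6,3,5),(5,1,5),(4,2,5),(3,0,5),(2,3,5),(9,5,3),(10,5,2),(11,5,1),(12,5,3),(13,5,0),(12,3,0),(7,4,3),(6,1,4),(5,2,4),(4,0,4),(9,4,2),(10,4,1),(11,4,0),(10,1,0),(6,2,1),(5,0,1),(7,3,2),(6,0,3),(9,3,0),(7,2,0)] hci h14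 (by decide +kernel)
  have h16 : wp CoxeterMatrix.E₈ [4] ∈ D := conj_step CoxeterMatrix.E₈ D [6,5,3,4,1,3,2,0,2,3,1,4,3,5,6] [6,4,5,3,4,1,3,2,0,2,3,1,4,3,5,4,6] [4] [(6,0,2),(8,0,3),(5,3,0),(6,2,3),(4,1,0),(5,1,2),(9,0,1),(10,0,4),(9,1,4),(8,2,4),(3,4,0),(4,4,2),(5,4,1),(6,3,4),(11,0,3),(12,0,5),(11,3,5),(10,1,5),(9,2,5),(8,3,5),(1,5,3),(2,5,0),(3,5,2),(4,5,1),(5,5,3),(6,4,5),(14,6,6),(6,5,4),(5,3,5),(4,1,5),(3,2,5),(2,0,5),(1,3,5),(8,5,3),(9,5,2),(10,5,1),(11,5,3),(12,5,0),(13,4,5),(11,3,0),(6,4,3),(5,1,4),(4,2,4),(3,0,4),(8,4,2),(9,4,1),(10,4,0),(11,3,4),(10,0,3),(5,2,1),(4,0,1),(6,3,2),(5,0,3),(8,1,3),(7,2,1),(5,3,0),(4,1,0),(5,3,1),(4,0,3),(5,0,1),(7,2,3),(5,1,0),(6,1,2),(11,0,4),(10,1,4),(9,2,4),(2,4,3),(4,4,0),(5,4,2),(6,4,1),(7,3,4),(13,3,5),(12,0,5),(11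,1,5),(10,2,5),(9,3,5),(14,4,3),(13,0,4),(12,1,4),(11,2,4),(14,0,3),(16,4,4),(14,3,0),(13,1,0),(14,3,1),(13,0,3),(14,0,1),(16,3,3),(15,2,0),(14,1,2),(17,2,2),(15,1,0),(12,3,2),(14,3,0),(15,1,3),(14,0,1),(15,0,3),(17,1,1),(15,3,0),(10,4,3),(12,4,2),(13,4,1),(14,4,0),(15,3,4),(14,0,3),(15,0,4),(17,3,3),(8,5,4),(7,3,5),(6,1,5),(5,2,5),(4,0,5),(3,3,5),(1,4,5),(10,5,3),(11,5,2),(12,5,1),(13,5,3),(8,4,3),(7,1,4),(6,2,4),(5,0,4),(3,3,4),(10,4,2),(11,4,1),(7,2,1),(6,0,1),(8,3,2),(6,1,0),(5,3,0),(6,1,3),(5,0,1),(6,0,3),(8,1,2),(9,3,1),(6,3,0),(7,2,3),(5,1,0),(6,1,2),(11,4,3),(10,1,4),(9,2,4),(4,4,0),(5,4,2),(6,4,1),(7,3,4),(13,5,4),(12,3,5),(11,1,5),(10,2,5),(9,3,5),(2,5,3),(3,5,0),(4,5,2),(5,5,1),(6,5,3),(7,4,5),(15,5,0),(16,5,5),(14,4,0),(15,4,4),(15,6,6),(7,5,4),(6,3,5),(5,1,5),(4,2,5),(3,0,5),(2,3,5),(9,5,3),(10,5,2),(11,5,1),(12,5,3),(13,5,0),(14,5,5),(12,3,0),(13,3,3),(7,4,3),(6,1,4),(5,2,4),(4,0,4),(9,4,2),(10,4,1),(11,4,0),(12,4,4),(10,1,0),(11,1,1),(6,2,1),(5,0,1),(7,3,2),(6,0,3),(9,3,0),(10,3,3),(7,2,0),(9,2,2),(8,0,0),(7,2,2),(6,3,3),(5,1,1),(4,4,4),(3,3,3),(2,5,5),(0,6,4),(1,6,6)]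 h8 h15 (by decide +kernel)
  have h17 : wp CoxeterMatrix.E₈ [5] ∈ D := conj_step CoxeterMatrix.E₈ D [7,6,4,5,2,3,4,1,3,2,0,2,3,1,4,3,2,5,4,6,7] [7,5,6,4,5,2,3,4,1,3,2,0,2,3,1,4,3,2,5,4,6,5,7] [5] [(9,0,2),(11,0,3),(8,3,0),(9,2,3),(7,1,0),(8,1,2),(12,0,1),(13,0,4),(12,1,4),(11,2,4),(6,4,0),(7,4,2),(8,4,1),(9,3,4),(14,0,3),(16,2,5),(15,0,5),(14,3,5),(13,1,5),(12,2,5),(11,3,5),(3,5,2),(4,5,3),(5,5,0),(6,5,2),(7,5,1),(8,5,3),(9,4,5),(17,2,4),(16,0,4),(18,2,6),(17,0,6),(16,4,6),(15,3,6),(14,1,6),(13,2,6),(12,3,6),(11,4,6),(1,6,4),(2,6,2),(3,6,3),(4,6,0),(5,6,2),(6,6,1),(7,6,3),(8,6,4),(9,5,6),(20,7,7),(9,6,5),(8,4,6),(7,3,6),(6,1,6),(5,2,6),(4,0,6),(3,3,6),(2,2,6),(1,4,6),(11,6,4),(12,6,3),(13,6,2),(14,6,1),(15,6,3),(16,6,4),(17,6,0),(18,6,2),(19,5,6),(16,4,0),(17,4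,2),(9,5,4),(8,3,5),(7,1,5),(6,2,5),(5,0,5),(4,3,5),(3,2,5),(11,5,3),(12,5,2),(13,5,1),(14,5,3),(15,5,0),(16,5,2),(17,4,5),(16,2,4),(15,0,4),(9,4,3),(8,1,4),(7,2,4),(6,0,4),(11,4,2),(12,4,1),(13,3,4),(8,2,1),(7,0,1),(9,3,2),(8,0,3),(11,1,3),(10,2,1),(8,3,0),(7,1,0),(8,3,1),(7,0,3),(8,0,1),(10,2,3),(8,1,0),(9,1,2),(13,1,4),(12,2,4),(5,4,3),(4,2,4),(7,4,0),(8,4,2),(9,4,1),(10,3,4),(17,2,5),(16,0,5),(15,3,5),(14,1,5),(13,2,5),(12,3,5),(2,5,4),(4,5,2),(5,5,3),(6,5,0),(7,5,2),(8,5,1),(9,5,3),(10,4,5),(19,4,6),(18,2,6),(17,0,6),(16,3,6),(15,1,6),(14,2,6),(13,3,6),(12,4,6),(20,5,4),(19,2,5),(18,0,5),(17,3,5),(16,1,5),(15,2,5),(14,3,5),(20,2,4),(19,0,4),(22,5,5),(21,2,2),(19,4,0),(18,3,0),(19,4,3),(18,0,4),(17,1,4),(16,2,4),(19,0,3),(21,4,4),(19,3,0),(18,1,0),(19,3,1),(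18,0,3),(19,0,1),(21,3,3),(20,2,0),(19,1,2),(22,2,2),(20,1,0),(17,3,2),(19,3,0),(20,1,3),(19,0,1),(20,0,3),(22,1,1),(20,3,0),(15,4,3),(17,4,2),(18,4,1),(19,4,0),(20,3,4),(19,0,3),(20,0,4),(22,3,3),(20,4,0),(21,4,2),(13,5,4),(15,5,3),(16,5,2),(17,5,1),(18,5,3),(19,5,0),(20,5,2),(21,4,5),(20,2,4),(19,0,4),(21,2,5),(20,0,5),(23,4,4),(11,6,5),(10,4,6),(9,3,6),(8,1,6),(7,2,6),(6,0,6),(5,3,6),(4,2,6),(3,4,6),(1,5,6),(13,6,4),(14,6,3),(15,6,2),(16,6,1),(17,6,3),(18,6,4),(11,5,4),(10,3,5),(9,1,5),(8,2,5),(7,0,5),(6,3,5),(5,2,5),(3,4,5),(13,5,3),(14,5,2),(15,5,1),(16,5,3),(11,4,3),(10,1,4),(9,2,4),(8,0,4),(5,4,2),(6,3,4),(13,4,2),(14,4,1),(10,2,1),(9,0,1),(11,3,2),(9,1,0),(8,3,0),(9,1,3),(8,0,1),(9,0,3),(11,1,2),(12,3,1),(9,3,0),(10,2,3),(8,1,0),(9,1,2),(14,4,3),(13,1,4)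,(12,2,4),(7,4,0),(8,4,2),(9,4,1),(10,3,4),(16,5,4),(15,3,5),(14,1,5),(13,2,5),(12,3,5),(4,5,2),(5,5,3),(6,5,0),(7,5,2),(8,5,1),(9,5,3),(10,4,5),(18,6,5),(17,4,6),(16,3,6),(15,1,6),(14,2,6),(13,3,6),(12,4,6),(2,6,4),(3,6,2),(4,6,3),(5,6,0),(6,6,2),(7,6,1),(8,6,3),(9,6,4),(10,5,6),(20,6,0),(21,6,2),(22,6,6),(19,5,0),(20,5,2),(21,5,5),(21,7,7),(10,6,5),(9,4,6),(8,3,6),(7,1,6),(6,2,6),(5,0,6),(4,3,6),(3,2,6),(2,4,6),(12,6,4),(13,6,3),(14,6,2),(15,6,1),(16,6,3),(17,6,4),(18,6,0),(19,6,2),(20,6,6),(17,4,0),(18,4,2),(19,4,4),(10,5,4),(9,3,5),(8,1,5),(7,2,5),(6,0,5),(5,3,5),(4,2,5),(12,5,3),(13,5,2),(14,5,1),(15,5,3),(16,5,0),(17,5,2),(18,5,5),(17,2,2),(15,3,0),(16,3,3),(10,4,3),(9,1,4),(8,2,4),(7,0,4),(12,4,2),(13,4,1),(14,4,0),(15,4,4),(13,1,0),(14,1,1),(9,2,1),(8,0,1),(10,3,2),(9,0,3),(12,3,0),(13,3,3),(10,2,0),(12,2,2),(11,0,0),(10,2,2),(9,3,3),(8,1,1),(7,4,4),(6,3,3),(5,2,2),(4,5,5),(3,4,4),(2,6,6),(0,7,5),(1,7,7)]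 h9 h14 (by decide +kernel)
  have h18 : wp CoxeterMatrix.E₈ [6] ∈ D := conj_step CoxeterMatrix.E₈ D [6,5,3,4,2,3,1,3,2,4,3,5,6] [5,3,4,2,3,1,3,2,4,3,5] [6] [(5,1,3),(7,1,2),(8,1,4),(7,2,4),(3,4,2),(4,4,1),(5,3,4),(10,3,5),(9,1,5),(8,2,5),(7,3,5),(1,5,3),(2,5,2),(3,5,1),(4,5,3),(5,4,5),(11,3,6),(10,1,6),(9,2,6),(8,3,6),(7,4,6),(0,6,3),(1,6,2),(2,6,1),(3,6,3),(4,6,4),(5,5,6),(12,3,5),(11,1,5),(10,2,5),(9,3,5),(7,4,5),(13,3,3),(11,2,1),(12,2,4),(11,1,4),(9,3,4),(13,2,2),(11,1,3),(13,1,1),(12,3,3),(10,4,1),(11,4,2),(10,1,2),(12,4,4),(8,5,3),(9,5,2),(10,5,1),(11,5,3),(12,5,5),(6,6,4),(7,6,3),(8,6,2),(9,6,1),(10,6,3),(11,6,6),(4,5,4),(3,3,5),(2,1,5),(1,2,5),(0,3,5),(6,5,3),(7,5,2),(8,5,1),(9,5,3),(10,5,5),(9,3,3),(4,4,3),(3,1,4),(2,2,4),(6,4,2),(7,4,1),(8,4,4),(6,2,1),(7,2,2),(4,3,1),(6,3,3),(5,1,1),(4,3,3),(3,2,2),(2,4,4),(1,3,3),(0,5,5)]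 h13 h10 (by decide +kernel)
  have h19 : wp CoxeterMatrix.E₈ [7] ∈ D := conj_step CoxeterMatrix.E₈ D [7,6,4,5,3,4,1,3,2,0,2,3,1,4,3,5,4,6,7] [6,4,5,3,4,1,3,2,0,2,3,1,4,3,5,4,6] [7] [(8,0,2),(10,0,3),(7,3,0),(8,2,3),(6,1,0),(7,1,2),(11,0,1),(12,0,4),(11,1,4),(10,2,4),(5,4,0),(6,4,2),(7,4,1),(8,3,4),(13,0,3),(14,0,5),(13,3,5),(12,1,5),(11,2,5),(10,3,5),(3,5,3),(4,5,0),(5,5,2),(6,5,1),(7,5,3),(8,4,5),(16,4,6),(15,0,6),(14,3,6),(13,1,6),(12,2,6),(11,3,6),(10,4,6),(1,6,4),(2,6,3),(3,6,0),(4,6,2),(5,6,1),(6,6,3),(7,6,4),(8,5,6),(17,4,7),(16,0,7),(15,3,7),(14,1,7),(13,2,7),(12,3,7),(11,4,7),(10,5,7),(0,7,4),(1,7,3),(2,7,0),(3,7,2),(4,7,1),(5,7,3),(6,7,4),(7,7,5),(8,6,7),(18,4,6),(17,0,6),(16,3,6),(15,1,6),(14,2,6),(13,3,6),(12,4,6),(10,5,6),(19,4,4),(17,3,0),(18,3,5),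(17,0,5),(16,1,5),(15,2,5),(14,3,5),(12,4,5),(19,3,3),(17,1,0),(18,1,4),(17,0,4),(16,2,4),(14,3,4),(19,1,1),(18,0,3),(16,2,3),(18,0,2),(20,0,0),(19,2,2),(17,3,0),(18,3,3),(15,4,2),(16,4,0),(17,4,1),(16,0,1),(18,4,4),(13,5,3),(14,5,2),(15,5,1),(16,5,0),(17,5,3),(16,0,3),(18,5,5),(11,6,4),(12,6,3),(13,6,2),(14,6,1),(15,6,3),(16,6,0),(17,6,4),(16,0,4),(18,6,6),(9,7,5),(10,7,4),(11,7,3),(12,7,2),(13,7,1),(14,7,3),(15,7,4),(16,7,0),(17,7,7),(7,6,5),(6,4,6),(5,3,6),(4,1,6),(3,2,6),(2,0,6),(1,3,6),(0,4,6),(9,6,4),(10,6,3),(11,6,2),(12,6,1),(13,6,3),(14,6,4),(15,6,0),(16,6,6),(14,4,0),(15,4,4),(7,5,4),(6,3,5),(5,1,5),(4,2,5),(3,0,5),(2,3,5),(9,5,3),(10,5,2),(11,5,1),(12,5,3),(13,5,0),(14,5,5),(12,3,0),(13,3,3),(7,4,3),(6,1,4),(5,2,4),(4,0,4),(9,4,2),(10,4,1),(11,4,0),(12,4,4),(10,1,0),(11,1,1),(6,2,1),(5,0,1),(7,3,2),(6,0,3),(9,3,0),(10,3,3),(7,2,0),(9,2,2),(8,0,0),(7,2,2),(6,3,3),(5,1,1),(4,4,4),(3,3,3),(2,5,5),(1,4,4),(0,6,6)]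 h12 h15 (by decide +kernel)
  intro i
  fin_cases i
  · exact ht0
  · exact h7
  · exact h3
  · exact h11
  · exact h16
  · exact h17
  · exact h18
  · exact h19


theorem finset_one {n : ℕ} (M : CoxeterMatrix (Fin n)) (a : Fin n)
    (h : ∀ D : Subgroup M.Group, wp M (List.finRange n) ∈ D → wp M [a] ∈ D → ∀ i, wp M [i] ∈ D) :
    ∃ T : Finset M.Group, T.card = 1 ∧ (∀ t ∈ T, ∃ (g : M.Group) (i : Fin n), t = g * M.simple i * g⁻¹) ∧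
      Subgroup.closure (({((List.finRange n).map M.simple).prod} : Set M.Group) ∪ ↑T) = ⊤ := by
  classical
  refine ⟨{M.simple a}, Finset.card_singleton _, ?_, ?_⟩
  · intro t ht
    rw [Finset.mem_singleton] at ht
    exact ⟨1, a, by rw [ht]; simp⟩
  · apply top_of_all
    apply h
    · exact Subgroup.subset_closure (Or.inl rfl)
    · have : wp M [a] = M.simple a := by
        simp only [wp, wordProd_singleton]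
        rfl
      rw [this]
      exact Subgroup.subset_closure (Or.inr (by simp))

theorem finset_two {n : ℕ} (M : CoxeterMatrix (Fin n)) (a b : Fin n) (hab : M.simple a ≠ M.simple b)
    (h : ∀ D : Subgroup M.Group, wp M (List.finRange n) ∈ D → wp M [a] ∈ D → wp M [b] ∈ D → ∀ i, wp M [i] ∈ D) :
    ∃ T : Finset M.Group, T.card = 2 ∧ (∀ t ∈ T, ∃ (g : M.Group) (i : Fin n), t = g * M.simple i * g⁻¹) ∧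
      Subgroup.closure (({((List.finRange n).map M.simple).prod} : Set M.Group) ∪ ↑T) = ⊤ := by
  classical
  refine ⟨{M.simple a, M.simple b}, Finset.card_pair hab, ?_, ?_⟩
  · intro t ht
    rw [Finset.mem_insert, Finset.mem_singleton] at ht
    rcases ht with ht | ht
    · exact ⟨1, a, by rw [ht]; simp⟩
    · exact ⟨1, b, by rw [ht]; simp⟩
  · apply top_of_all
    apply h
    · exact Subgroup.subset_closure (Or.inl rfl)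
    · have : wp M [a] = M.simple a := by
        simp only [wp, wordProd_singleton]
        rfl
      rw [this]
      exact Subgroup.subset_closure (Or.inr (by simp))
    · have : wp M [b] = M.simple b := by
        simp only [wp, wordProd_singleton]
        rfl
      rw [this]
      exact Subgroup.subset_closure (Or.inr (by simp))

/-- The rank two case: the first simple reflection and the Coxeter element. -/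
theorem rank_two (M : CoxeterMatrix (Fin 2)) :
    ∃ T : Finset M.Group, T.card = 1 ∧ (∀ t ∈ T, ∃ (g : M.Group) (i : Fin 2), t = g * M.simple i * g⁻¹) ∧
      Subgroup.closure (({((List.finRange 2).map M.simple).prod} : Set M.Group) ∪ ↑T) = ⊤ := by
  apply finset_one M 0
  intro D hc h0 i
  fin_cases i
  · exact h0
  · have e : wp M [1] = (wp M [0])⁻¹ * wp M (List.finRange 2) := by
      have e1 : List.finRange 2 = [0, 1] := by decide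
      rw [e1]
      simp only [wp, wordProd_singleton, wordProd_cons, wordProd_nil, mul_one, inv_mul_cancel_left]
    show wp M [1] ∈ D
    rw [e]
    exact D.mul_mem (D.inv_mem h0) hc

theorem ne_D4 : (Cfsg.Lie.coxeterD4).simple 0 ≠ (Cfsg.Lie.coxeterD4).simple 2 := by
  intro h
  let f : Fin 4 → Equiv.Perm (Fin 4) := ![Equiv.swap 0 1, Equiv.swap 1 2, Equiv.swap 2 3, Equiv.swap 2 3]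
  have hf : (Cfsg.Lie.coxeterD4).IsLiftable f := by
    unfold CoxeterMatrix.IsLiftable
    decide
  let φ := (Cfsg.Lie.coxeterD4).toCoxeterSystem.lift ⟨f, hf⟩
  have h1 := congrArg φ h
  have e0 : φ ((Cfsg.Lie.coxeterD4).simple 0) = f 0 := (Cfsg.Lie.coxeterD4).toCoxeterSystem.lift_apply_simple hf 0
  have e2 : φ ((Cfsg.Lie.coxeterD4).simple 2) = f 2 := (Cfsg.Lie.coxeterD4).toCoxeterSystem.lift_apply_simple hf 2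
  rw [e0, e2] at h1
  revert h1
  decide

theorem ne_F4 : (CoxeterMatrix.F₄).simple 0 ≠ (CoxeterMatrix.F₄).simple 2 := by
  intro h
  let f : Fin 4 → Equiv.Perm (Fin 2) := ![Equiv.swap 0 1, Equiv.swap 0 1, 1, 1]
  have hf : (CoxeterMatrix.F₄).IsLiftable f := by
    unfold CoxeterMatrix.IsLiftable
    decide
  let φ := (CoxeterMatrix.F₄).toCoxeterSystem.lift ⟨f, hf⟩
  have h1 := congrArg φ h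
  have e0 : φ ((CoxeterMatrix.F₄).simple 0) = f 0 := (CoxeterMatrix.F₄).toCoxeterSystem.lift_apply_simple hf 0
  have e2 : φ ((CoxeterMatrix.F₄).simple 2) = f 2 := (CoxeterMatrix.F₄).toCoxeterSystem.lift_apply_simple hf 2
  rw [e0, e2] at h1
  revert h1
  decide

end Cfsg.Agent.Lib.CoxGen
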