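import Mathlib
import Cfsg.Prelude
import Cfsg.Agent.Lib.H2Basic
import Cfsg.Agent.Lib.CharOps
import Cfsg.Agent.Lib.CharAb
import Cfsg.Agent.Lib.CharIrr

/-! Cyclic TI: the additive structure of the inner products with a cyclic TI family. -/

set_option autoImplicit false
set_option linter.all false

namespace Cfsg.Agent.Lib.CyclicTI

open Cfsg Cfsg.Agent.Lib.H2Basic
open ComplexConjugate

universe u

section matrix

variable {I J : Type*} [Fintype I] [Fintype J]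

/-- A combinatorial lemma on matrices of the form `b i + c j`. -/
theorem matrix_lemma [DecidableEq I] [DecidableEq J] (b : I → ℂ) (c : J → ℂ) (h2 : Fintype.card I + 2 ≤ Fintype.card J)
    (hfew : (Finset.univ.filter (fun p : I × J => b p.1 + c p.2 ≠ 0)).card < 2 * Fintype.card I) :
    (∃ j₀ a, ∀ i j, b i + c j = if j = j₀ then a else 0) ∨
      (∃ i₀ a, ∀ i j, b i + c j = if i = i₀ then a else 0) := by
  classical
  set N := Finset.univ.filter (fun p : I × J => b p.1 + c p.2 ≠ 0) with hN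
  -- a row with at most one nonzero entry
  have hrow : ∃ i₀, (Finset.univ.filter (fun j : J => b i₀ + c j ≠ 0)).card ≤ 1 := by
    by_contra hno
    push Not at hno
    have h1 : ∀ i : I, 2 ≤ (Finset.univ.filter (fun j : J => b i + c j ≠ 0)).card := fun i => hno i
    have h3 : N.card = ∑ i : I, (Finset.univ.filter (fun j : J => b i + c j ≠ 0)).card := by
      rw [hN, ← Finset.card_sigma]
      refine Finset.card_bij (fun p _ => ⟨p.1, p.2⟩) ?_ ?_ ?_
      · intro p hp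
        simpa using hp
      · rintro ⟨a, b⟩ _ ⟨c, d⟩ _ h
        simpa using h
      · rintro ⟨a, b⟩ h
        exact ⟨(a, b), by simpa using h, rfl⟩
    have h4 : ∑ i : I, 2 ≤ ∑ i : I, (Finset.univ.filter (fun j : J => b i + c j ≠ 0)).card :=
      Finset.sum_le_sum fun i _ => h1 i
    simp only [Finset.sum_const, Finset.card_univ, smul_eq_mul] at h4
    omega
  obtain ⟨i₀, hi₀⟩ := hrow
  have hJ : 0 < Fintype.card J := by omega
  haveI : Nonempty J := Fintype.card_pos_iff.1 hJ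
  obtain ⟨j₀, hj₀⟩ : ∃ j₀ : J, ∀ j, j ≠ j₀ → b i₀ + c j = 0 := by
    by_cases he : ∃ j, b i₀ + c j ≠ 0
    · obtain ⟨j₀, hj₀⟩ := he
      refine ⟨j₀, fun j hj => ?_⟩
      by_contra hc
      have h3 : ({j, j₀} : Finset J) ⊆ Finset.univ.filter (fun j : J => b i₀ + c j ≠ 0) := by
        intro k hk
        simp only [Finset.mem_insert, Finset.mem_singleton] at hk
        rcases hk with rfl | rfl <;> simp [hc, hj₀]
      have h4 := Finset.card_le_card h3
      rw [Finset.card_pair hj] at h4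
      omega
    · push Not at he
      exact ⟨Classical.arbitrary J, fun j _ => he j⟩
  set B : I → ℂ := fun i => b i - b i₀ with hB
  set C : J → ℂ := fun j => c j + b i₀ with hC
  have hsum : ∀ i j, b i + c j = B i + C j := by
    intro i j
    simp only [hB, hC]
    ring
  have hC0 : ∀ j, j ≠ j₀ → C j = 0 := by
    intro j hj
    have := hj₀ j hj
    simp only [hC]
    linear_combination this
  have hBi₀ : B i₀ = 0 := by simp [hB]
  have hcardErase : (Finset.univ.erase j₀).card = Fintype.card J - 1 := by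
    rw [Finset.card_erase_of_mem (Finset.mem_univ _), Finset.card_univ]
  -- at most one nonzero `B`
  have hone : ∀ i₁ i₂, B i₁ ≠ 0 → B i₂ ≠ 0 → i₁ = i₂ := by
    intro i₁ i₂ h₁ h₂
    by_contra hne
    have h3 : ({i₁, i₂} : Finset I) ×ˢ (Finset.univ.erase j₀) ⊆ N := by
      rintro ⟨i, j⟩ hp
      simp only [Finset.mem_product, Finset.mem_insert, Finset.mem_singleton, Finset.mem_erase, Finset.mem_univ,
        and_true] at hp
      simp only [hN, Finset.mem_filter, Finset.mem_univ, true_and]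
      rw [hsum, hC0 j hp.2, add_zero]
      rcases hp.1 with rfl | rfl <;> assumption
    have h4 := Finset.card_le_card h3
    rw [Finset.card_product, Finset.card_pair hne, hcardErase] at h4
    omega
  by_cases hall : ∀ i, B i = 0
  · left
    refine ⟨j₀, C j₀, fun i j => ?_⟩
    rw [hsum, hall i, zero_add]
    by_cases hj : j = j₀
    · rw [if_pos hj, hj]
    · rw [if_neg hj, hC0 j hj]
  · push Not at hall
    obtain ⟨i₁, hi₁⟩ := hall
    right
    have hBother : ∀ i, i ≠ i₁ → B i = 0 := by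
      intro i hi
      by_contra hc
      exact hi (hone i i₁ hc hi₁)
    have hCj₀ : C j₀ = 0 := by
      by_contra hc
      have h3 : (({i₁} : Finset I) ×ˢ (Finset.univ.erase j₀)) ∪ ((Finset.univ.erase i₁) ×ˢ ({j₀} : Finset J)) ⊆ N := by
        rintro ⟨i, j⟩ hp
        simp only [Finset.mem_union, Finset.mem_product, Finset.mem_singleton, Finset.mem_erase, Finset.mem_univ,
          and_true] at hp
        simp only [hN, Finset.mem_filter, Finset.mem_univ, true_and]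
        rw [hsum]
        rcases hp with ⟨rfl, h5⟩ | ⟨h5, rfl⟩
        · rw [hC0 j h5, add_zero]
          exact hi₁
        · rw [hBother i h5, zero_add]
          exact hc
      have h4 := Finset.card_le_card h3
      have hdisj : Disjoint (({i₁} : Finset I) ×ˢ (Finset.univ.erase j₀)) ((Finset.univ.erase i₁) ×ˢ ({j₀} : Finset J)) := by
        rw [Finset.disjoint_left]
        rintro ⟨i, j⟩ h5 h6
        simp only [Finset.mem_product, Finset.mem_singleton, Finset.mem_erase, Finset.mem_univ, and_true] at h5 h6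
        exact h6.1 h5.1
      rw [Finset.card_union_of_disjoint hdisj, Finset.card_product, Finset.card_product, Finset.card_singleton,
        Finset.card_singleton, hcardErase, Finset.card_erase_of_mem (Finset.mem_univ _), Finset.card_univ] at h4
      have hI : 0 < Fintype.card I := Fintype.card_pos_iff.2 ⟨i₁⟩
      omega
    refine ⟨i₁, B i₁, fun i j => ?_⟩
    have hCall : ∀ j, C j = 0 := by
      intro j
      by_cases hj : j = j₀
      · rw [hj, hCj₀]
      · exact hC0 j hj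
    rw [hsum, hCall j, add_zero]
    by_cases hi : i = i₁
    · rw [if_pos hi, hi]
    · rw [if_neg hi, hBother i hi]

end matrix

section structure_W

variable {G : Type u} [Group G] {W₁ W₂ : Subgroup G}

/-- The product map `W₁ × W₂ → W₁ ⊔ W₂`. -/
noncomputable def mulHom (hc : ∀ a ∈ W₁, ∀ b ∈ W₂, a * b = b * a) : W₁ × W₂ →* ↥(W₁ ⊔ W₂) :=
  MonoidHom.noncommCoprod (Subgroup.inclusion le_sup_left) (Subgroup.inclusion le_sup_right)
    (fun a b => Subtype.ext (hc a a.2 b b.2))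

theorem mulHom_apply (hc : ∀ a ∈ W₁, ∀ b ∈ W₂, a * b = b * a) (a : W₁) (b : W₂) :
    ((mulHom hc (a, b) : ↥(W₁ ⊔ W₂)) : G) = (a : G) * (b : G) := rfl

theorem mulHom_bijective (hc : ∀ a ∈ W₁, ∀ b ∈ W₂, a * b = b * a) (hinf : W₁ ⊓ W₂ = ⊥) :
    Function.Bijective (mulHom hc) := by
  constructor
  · rw [injective_iff_map_eq_one]
    rintro ⟨a, b⟩ h
    have h1 : (a : G) * (b : G) = 1 := congrArg Subtype.val h
    have h2 : (a : G) = (b : G)⁻¹ := eq_inv_of_mul_eq_one_left h1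
    have h3 : (a : G) ∈ W₁ ⊓ W₂ := ⟨a.2, by rw [h2]; exact W₂.inv_mem b.2⟩
    rw [hinf, Subgroup.mem_bot] at h3
    have h4 : (b : G) = 1 := by
      rw [h3, one_mul] at h1
      exact h1
    exact Prod.ext (Subtype.ext h3) (Subtype.ext h4)
  · rintro ⟨w, hw⟩
    have hN : W₁ ≤ Subgroup.normalizer (W₂ : Set G) := fun a ha =>
      mem_normalizer_of_forall_comm (fun b hb => hc a ha b hb)
    have h1 : w ∈ ((W₁ ⊔ W₂ : Subgroup G) : Set G) := hw
    rw [Subgroup.coe_mul_of_left_le_normalizer_right _ _ hN] at h1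
    obtain ⟨a, ha, b, hb, e⟩ := Set.mem_mul.1 h1
    exact ⟨(⟨a, ha⟩, ⟨b, hb⟩), Subtype.ext e⟩

/-- Linear characters of `W₁ ⊔ W₂` split. -/
noncomputable def homEquiv (hc : ∀ a ∈ W₁, ∀ b ∈ W₂, a * b = b * a) (hinf : W₁ ⊓ W₂ = ⊥) :
    (↥(W₁ ⊔ W₂) →* ℂˣ) ≃ (W₁ →* ℂˣ) × (W₂ →* ℂˣ) where
  toFun ω := (ω.comp (Subgroup.inclusion le_sup_left), ω.comp (Subgroup.inclusion le_sup_right))
  invFun p := (p.1.coprod p.2).comp (MulEquiv.ofBijective _ (mulHom_bijective hc hinf)).symm.toMonoidHom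
  left_inv ω := by
    ext w
    set e := MulEquiv.ofBijective _ (mulHom_bijective hc hinf) with he
    obtain ⟨⟨a, b⟩, rfl⟩ := e.surjective w
    simp only [MonoidHom.coe_comp, Function.comp_apply, MulEquiv.coe_toMonoidHom, MulEquiv.symm_apply_apply,
      MonoidHom.coprod_apply]
    have h1 : e (a, b) = Subgroup.inclusion le_sup_left a * Subgroup.inclusion le_sup_right b := rfl
    rw [h1, map_mul]
  right_inv p := by
    obtain ⟨i, j⟩ := p
    set e := MulEquiv.ofBijective _ (mulHom_bijective hc hinf) with he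
    have h1 : ∀ a : W₁, Subgroup.inclusion (le_sup_left : W₁ ≤ W₁ ⊔ W₂) a = e (a, 1) := by
      intro a
      apply Subtype.ext
      show (a : G) = (a : G) * 1
      rw [mul_one]
    have h2 : ∀ b : W₂, Subgroup.inclusion (le_sup_right : W₂ ≤ W₁ ⊔ W₂) b = e (1, b) := by
      intro b
      apply Subtype.ext
      show (b : G) = 1 * (b : G)
      rw [one_mul]
    apply Prod.ext
    · ext a
      simp only [MonoidHom.coe_comp, Function.comp_apply, MulEquiv.coe_toMonoidHom, h1, MulEquiv.symm_apply_apply,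
        MonoidHom.coprod_apply, map_one, mul_one]
    · ext b
      simp only [MonoidHom.coe_comp, Function.comp_apply, MulEquiv.coe_toMonoidHom, h2, MulEquiv.symm_apply_apply,
        MonoidHom.coprod_apply, map_one, one_mul]

theorem homEquiv_fst_apply (hc : ∀ a ∈ W₁, ∀ b ∈ W₂, a * b = b * a) (hinf : W₁ ⊓ W₂ = ⊥)
    (ω : ↥(W₁ ⊔ W₂) →* ℂˣ) (a : W₁) :
    (homEquiv hc hinf ω).1 a = ω (Subgroup.inclusion le_sup_left a) := rfl

theorem homEquiv_snd_apply (hc : ∀ a ∈ W₁, ∀ b ∈ W₂, a * b = b * a) (hinf : W₁ ⊓ W₂ = ⊥)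
    (ω : ↥(W₁ ⊔ W₂) →* ℂˣ) (b : W₂) :
    (homEquiv hc hinf ω).2 b = ω (Subgroup.inclusion le_sup_right b) := rfl

theorem homEquiv_mul (hc : ∀ a ∈ W₁, ∀ b ∈ W₂, a * b = b * a) (hinf : W₁ ⊓ W₂ = ⊥)
    (ω ω' : ↥(W₁ ⊔ W₂) →* ℂˣ) :
    homEquiv hc hinf (ω * ω') = homEquiv hc hinf ω * homEquiv hc hinf ω' := by
  apply Prod.ext
  · ext a
    rfl
  · ext b
    rfl

end structure_W

section inner

variable {G : Type u} [Group G] [Fintype G] {W₁ W₂ : Subgroup G}

theorem classInner_rect (θ x y z t : G → ℂ) :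
    classInner θ (fun g => x g - y g - z g + t g) =
      classInner θ x - classInner θ y - classInner θ z + classInner θ t := by
  unfold classInner
  rw [← mul_sub, ← mul_sub, ← mul_add]
  congr 1
  rw [← Finset.sum_sub_distrib, ← Finset.sum_sub_distrib, ← Finset.sum_add_distrib]
  refine Finset.sum_congr rfl fun g _ => ?_
  simp only [map_add, map_sub]
  ring

/-- The inner products with a cyclic TI family are additive on rectangles. -/
theorem inner_rect {χ : (↥(W₁ ⊔ W₂) →* ℂˣ) → (G → ℂ)} (hχ : IsCyclicTIFamily W₁ W₂ χ) {θ : G → ℂ}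
    (hθ : IsClassFunction G θ) (hθV : ∀ w : ↥(W₁ ⊔ W₂), (w : G) ∉ W₁ → (w : G) ∉ W₂ → θ w = 0)
    (φ ψ : ↥(W₁ ⊔ W₂) →* ℂˣ) (hφ : ∀ w : ↥(W₁ ⊔ W₂), (w : G) ∈ W₂ → φ w = 1)
    (hψ : ∀ w : ↥(W₁ ⊔ W₂), (w : G) ∈ W₁ → ψ w = 1) :
    classInner θ (χ (φ * ψ)) = classInner θ (χ φ) + classInner θ (χ ψ) - classInner θ (χ 1) := by
  classical
  by_cases hφ1 : φ = 1
  · have e : φ * ψ = ψ := by
      ext w
      simp [hφ1]
    rw [e, hφ1]
    ring
  by_cases hψ1 : ψ = 1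
  · have e : φ * ψ = φ := by
      ext w
      simp [hψ1]
    rw [e, hψ1]
    ring
  letI : Fintype ↥(W₁ ⊔ W₂) := Fintype.ofFinite _
  have h := hχ.induced_eq φ ψ hφ1 hψ1 hφ hψ
  have h1 := Cfsg.Agent.Lib.CharOps.frobenius_reciprocity (W₁ ⊔ W₂)
    (fun w => 1 - (φ w : ℂ) - (ψ w : ℂ) + (φ w : ℂ) * (ψ w : ℂ)) hθ
  rw [h] at h1
  have h2 : classInner (fun w : ↥(W₁ ⊔ W₂) => 1 - (φ w : ℂ) - (ψ w : ℂ) + (φ w : ℂ) * (ψ w : ℂ))
      (fun w : ↥(W₁ ⊔ W₂) => θ w) = 0 := by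
    unfold classInner
    rw [mul_eq_zero]
    right
    apply Finset.sum_eq_zero
    intro w _
    show (1 - (φ w : ℂ) - (ψ w : ℂ) + (φ w : ℂ) * (ψ w : ℂ)) * conj (θ w) = 0
    by_cases h3 : (w : G) ∈ W₁
    · rw [hψ w h3]
      simp
    by_cases h4 : (w : G) ∈ W₂
    · rw [hφ w h4]
      simp
    rw [hθV w h3 h4]
    simp
  rw [h2] at h1
  have h3 := Cfsg.Agent.Lib.CharIrr.classInner_conj θ (fun g => 1 - χ φ g - χ ψ g + χ (φ * ψ) g)
  rw [h1] at h3
  have h3' := (map_eq_zero (starRingEnd ℂ)).1 h3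
  have h4 := classInner_rect θ (fun _ => 1) (χ φ) (χ ψ) (χ (φ * ψ))
  have h5 : classInner θ (fun g => (fun _ => (1 : ℂ)) g - χ φ g - χ ψ g + χ (φ * ψ) g) = 0 := h3'
  rw [h5, ← hχ.map_one] at h4
  linear_combination -h4

theorem card_hom_of_cyclic {X : Type*} [Group X] [Finite X] [IsCyclic X] : Nat.card (X →* ℂˣ) = Nat.card X := by
  letI := Fintype.ofFinite X
  have h1 := Cfsg.Agent.Lib.CharAb.card_hom_eq_index (G := X)
  rw [h1]
  have h2 : commutator X = ⊥ := by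
    letI := IsCyclic.commGroup (α := X)
    exact (commutator_eq_bot_iff_center_eq_top X).2 (CommGroup.center_eq_top)
  rw [h2, Subgroup.index_bot]

open Classical in
/-- The statement on the inner products with few nonzero values. -/
theorem few_nonzero (W₁ W₂ : Subgroup G) (hW : IsSelfNormalizingCyclic W₁ W₂) (hodd : Odd (Nat.card ↥(W₁ ⊔ W₂)))
    (χ : (↥(W₁ ⊔ W₂) →* ℂˣ) → (G → ℂ)) (hχ : IsCyclicTIFamily W₁ W₂ χ) (hlt : Nat.card W₁ < Nat.card W₂)
    (θ : G → ℂ) (hθ : IsClassFunction G θ) (hθV : ∀ w : ↥(W₁ ⊔ W₂), (w : G) ∉ W₁ → (w : G) ∉ W₂ → θ w = 0)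
    (hfew : Nat.card {ω : ↥(W₁ ⊔ W₂) →* ℂˣ // classInner θ (χ ω) ≠ 0} < 2 * Nat.card W₁) :
    (∀ ω, classInner θ (χ ω) = 0) ∨
      (∃ (ψ₀ : ↥(W₁ ⊔ W₂) →* ℂˣ) (a : ℂ), ∀ ω, classInner θ (χ ω) =
        if (∀ w : ↥(W₁ ⊔ W₂), (w : G) ∈ W₂ → (ω * ψ₀⁻¹) w = 1) then a else 0) ∨
      (∃ (φ₀ : ↥(W₁ ⊔ W₂) →* ℂˣ) (a : ℂ), ∀ ω, classInner θ (χ ω) =
        if (∀ w : ↥(W₁ ⊔ W₂), (w : G) ∈ W₁ → (ω * φ₀⁻¹) w = 1) then a else 0) := by
  classical
  obtain ⟨_, _, hinf, hc, hcyc, _⟩ := hW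
  haveI hc1 : IsCyclic W₁ := by
    haveI := hcyc
    exact isCyclic_of_injective (Subgroup.inclusion (le_sup_left : W₁ ≤ W₁ ⊔ W₂)) (Subgroup.inclusion_injective _)
  haveI hc2 : IsCyclic W₂ := by
    haveI := hcyc
    exact isCyclic_of_injective (Subgroup.inclusion (le_sup_right : W₂ ≤ W₁ ⊔ W₂)) (Subgroup.inclusion_injective _)
  have hI : Nat.card (W₁ →* ℂˣ) = Nat.card W₁ := card_hom_of_cyclic
  have hJ : Nat.card (W₂ →* ℂˣ) = Nat.card W₂ := card_hom_of_cyclic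
  haveI hfI : Finite (W₁ →* ℂˣ) := Nat.finite_of_card_ne_zero (by rw [hI]; exact Nat.card_pos.ne')
  haveI hfJ : Finite (W₂ →* ℂˣ) := Nat.finite_of_card_ne_zero (by rw [hJ]; exact Nat.card_pos.ne')
  letI : Fintype (W₁ →* ℂˣ) := Fintype.ofFinite _
  letI : Fintype (W₂ →* ℂˣ) := Fintype.ofFinite _
  have hcI : Fintype.card (W₁ →* ℂˣ) = Nat.card W₁ := by rw [← Nat.card_eq_fintype_card, hI]
  have hcJ : Fintype.card (W₂ →* ℂˣ) = Nat.card W₂ := by rw [← Nat.card_eq_fintype_card, hJ]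
  have hodd1 : Odd (Nat.card W₁) := Odd.of_dvd_nat hodd (Subgroup.card_dvd_of_le le_sup_left)
  have hodd2 : Odd (Nat.card W₂) := Odd.of_dvd_nat hodd (Subgroup.card_dvd_of_le le_sup_right)
  have hgap : Fintype.card (W₁ →* ℂˣ) + 2 ≤ Fintype.card (W₂ →* ℂˣ) := by
    rw [hcI, hcJ]
    obtain ⟨k, hk⟩ := hodd1
    obtain ⟨l, hl⟩ := hodd2
    omega
  set e := homEquiv hc hinf with he
  set a : (↥(W₁ ⊔ W₂) →* ℂˣ) → ℂ := fun ω => classInner θ (χ ω) with ha
  -- the two pieces of a linear character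
  let Ψ : (W₁ →* ℂˣ) × (W₂ →* ℂˣ) → (↥(W₁ ⊔ W₂) →* ℂˣ) := e.symm
  have hΨ1 : ∀ (i : W₁ →* ℂˣ) (w : ↥(W₁ ⊔ W₂)), (w : G) ∈ W₂ → Ψ (i, 1) w = 1 := by
    intro i w hw
    have h1 : w = Subgroup.inclusion le_sup_right (⟨w, hw⟩ : W₂) := Subtype.ext rfl
    rw [h1, ← homEquiv_snd_apply hc hinf]
    have h2 : homEquiv hc hinf (Ψ (i, 1)) = (i, 1) := e.apply_symm_apply _
    rw [h2]
    rfl
  have hΨ2 : ∀ (j : W₂ →* ℂˣ) (w : ↥(W₁ ⊔ W₂)), (w : G) ∈ W₁ → Ψ (1, j) w = 1 := by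
    intro j w hw
    have h1 : w = Subgroup.inclusion le_sup_left (⟨w, hw⟩ : W₁) := Subtype.ext rfl
    rw [h1, ← homEquiv_fst_apply hc hinf]
    have h2 : homEquiv hc hinf (Ψ (1, j)) = (1, j) := e.apply_symm_apply _
    rw [h2]
    rfl
  have hmul : ∀ i j, Ψ (i, j) = Ψ (i, 1) * Ψ (1, j) := by
    intro i j
    apply e.injective
    rw [he, homEquiv_mul]
    have h1 : homEquiv hc hinf (Ψ (i, 1)) = (i, 1) := e.apply_symm_apply _
    have h2 : homEquiv hc hinf (Ψ (1, j)) = (1, j) := e.apply_symm_apply _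
    have h3 : homEquiv hc hinf (Ψ (i, j)) = (i, j) := e.apply_symm_apply _
    rw [h1, h2, h3]
    refine Prod.ext (MonoidHom.ext fun x => ?_) (MonoidHom.ext fun x => ?_) <;> simp
  let b : (W₁ →* ℂˣ) → ℂ := fun i => a (Ψ (i, 1))
  let c : (W₂ →* ℂˣ) → ℂ := fun j => a (Ψ (1, j)) - a 1
  have hadd : ∀ i j, a (Ψ (i, j)) = b i + c j := by
    intro i j
    rw [hmul]
    have := inner_rect hχ hθ hθV (Ψ (i, 1)) (Ψ (1, j)) (hΨ1 i) (hΨ2 j)
    show classInner θ (χ (Ψ (i, 1) * Ψ (1, j))) = a (Ψ (i, 1)) + (a (Ψ (1, j)) - a 1)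
    rw [this]
    simp only [ha]
    ring
  have hcount : (Finset.univ.filter (fun p : (W₁ →* ℂˣ) × (W₂ →* ℂˣ) => b p.1 + c p.2 ≠ 0)).card
      = Nat.card {ω : ↥(W₁ ⊔ W₂) →* ℂˣ // classInner θ (χ ω) ≠ 0} := by
    rw [← Fintype.card_subtype, ← Nat.card_eq_fintype_card]
    refine Nat.card_congr (Equiv.subtypeEquiv e.symm ?_)
    intro p
    show b p.1 + c p.2 ≠ 0 ↔ a (Ψ p) ≠ 0
    obtain ⟨i, j⟩ := p
    rw [hadd]
  have hcond : ∀ (ω ψ₀ : ↥(W₁ ⊔ W₂) →* ℂˣ), (∀ w : ↥(W₁ ⊔ W₂), (w : G) ∈ W₂ → (ω * ψ₀⁻¹) w = 1) ↔ (e ω).2 = (e ψ₀).2 := by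
    intro ω ψ₀
    constructor
    · intro h
      ext b'
      have h1 := h (Subgroup.inclusion le_sup_right b') b'.2
      rw [MonoidHom.mul_apply, MonoidHom.inv_apply, mul_inv_eq_one] at h1
      exact congrArg _ h1
    · intro h w hw
      have h1 : w = Subgroup.inclusion le_sup_right (⟨w, hw⟩ : W₂) := Subtype.ext rfl
      have h2 := DFunLike.congr_fun h (⟨w, hw⟩ : W₂)
      rw [MonoidHom.mul_apply, MonoidHom.inv_apply, mul_inv_eq_one]
      rw [h1]
      exact h2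
  have hcond' : ∀ (ω φ₀ : ↥(W₁ ⊔ W₂) →* ℂˣ), (∀ w : ↥(W₁ ⊔ W₂), (w : G) ∈ W₁ → (ω * φ₀⁻¹) w = 1) ↔ (e ω).1 = (e φ₀).1 := by
    intro ω ψ₀
    constructor
    · intro h
      ext b'
      have h1 := h (Subgroup.inclusion le_sup_left b') b'.2
      rw [MonoidHom.mul_apply, MonoidHom.inv_apply, mul_inv_eq_one] at h1
      exact congrArg _ h1
    · intro h w hw
      have h1 : w = Subgroup.inclusion le_sup_left (⟨w, hw⟩ : W₁) := Subtype.ext rfl
      have h2 := DFunLike.congr_fun h (⟨w, hw⟩ : W₁)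
      rw [MonoidHom.mul_apply, MonoidHom.inv_apply, mul_inv_eq_one]
      rw [h1]
      exact h2
  have hsymm : ∀ ω, Ψ (e ω) = ω := fun ω => e.symm_apply_apply ω
  have hval : ∀ ω, a ω = b (e ω).1 + c (e ω).2 := by
    intro ω
    rw [← hadd]
    congr 1
    exact (hsymm ω).symm
  rcases matrix_lemma b c hgap (by rw [hcount, hcI]; exact hfew) with ⟨j₀, v, hv⟩ | ⟨i₀, v, hv⟩
  · right
    left
    refine ⟨Ψ (1, j₀), v, fun ω => ?_⟩
    have h1 : (e (Ψ (1, j₀))).2 = j₀ := by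
      have : e (Ψ (1, j₀)) = (1, j₀) := e.apply_symm_apply _
      rw [this]
    show a ω = _
    rw [hval, hv]
    by_cases h2 : (e ω).2 = j₀
    · rw [if_pos h2, if_pos]
      rw [hcond, h1]
      exact h2
    · rw [if_neg h2, if_neg]
      rw [hcond, h1]
      exact h2
  · right
    right
    refine ⟨Ψ (i₀, 1), v, fun ω => ?_⟩
    have h1 : (e (Ψ (i₀, 1))).1 = i₀ := by
      have : e (Ψ (i₀, 1)) = (i₀, 1) := e.apply_symm_apply _
      rw [this]
    show a ω = _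
    rw [hval, hv]
    by_cases h2 : (e ω).1 = i₀
    · rw [if_pos h2, if_pos]
      rw [hcond', h1]
      exact h2
    · rw [if_neg h2, if_neg]
      rw [hcond', h1]
      exact h2

end inner

end Cfsg.Agent.Lib.CyclicTI
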