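import Cfsg.Agent.Lib.TwoDeg
import Cfsg.Agent.Lib.CdSmall
import Cfsg.Agent.Lib.CNBasic
import Cfsg.Agent.Lib.SchurZ2
import Cfsg.Agent.Lib.H5Basic
import Cfsg.Agent.Lib.PResidual
import Cfsg.Agent.Lib.FitSolv
import Cfsg.Agent.Lib.CharTriple
import Cfsg.Agent.Lib.TwoClass

/-!
# Larger degrees with smaller kernels (Isaacs, Chapter 12; Berger)
-/

set_option autoImplicit false
set_option linter.all false

namespace Cfsg.Agent.Lib.DegKer

open Cfsg Cfsg.Agent.Lib.CharOps Cfsg.Agent.Lib.CharIrr Cfsg.Agent.Lib.CharAb Cfsg.Agent.Lib.CharBlockDefect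
  Cfsg.Agent.Lib.CharKernel Cfsg.Agent.Lib.CharInflate Cfsg.Agent.Lib.CdSmall
open scoped ComplexConjugate

universe u

section Bump

variable {G : Type u} [Group G] [Fintype G]

/-- A restriction to a subgroup which is irreducible, and not supported on the core, has a
constituent of the induced character of larger degree. -/
theorem bump (N : Subgroup G) [Fintype N] (χ : IrrCharacter G) (hN : IsIrrCharacter N (fun n : N => (χ : G → ℂ) n))
    (x₀ : G) (hx₀ : x₀ ∈ N) (hne : (χ : G → ℂ) x₀ ≠ 0) (t : G) (ht : t⁻¹ * x₀ * t ∉ N) :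
    ∃ τ : IrrCharacter G, classInner (fun n : N => (χ : G → ℂ) n) (fun n : N => (τ : G → ℂ) n) ≠ 0 ∧
      charDegree (χ : G → ℂ) < charDegree (τ : G → ℂ) := by
  classical
  let φ : N → ℂ := fun n => (χ : G → ℂ) n
  have hcl := IsCharacter.isClassFunction' (IsIrrCharacter.isCharacter' χ.2)
  let c : G → ℕ := fun g => (Finset.univ.filter (fun x : G => x⁻¹ * g * x ∈ N)).card
  have hΨ : ∀ g, indFun N φ g = (Nat.card N : ℂ)⁻¹ * ((c g : ℂ) * (χ : G → ℂ) g) := by
    intro g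
    rw [indFun_apply]
    congr 1
    have h1 : ∀ x : G, extendByZero N φ (x⁻¹ * g * x) = if x⁻¹ * g * x ∈ N then (χ : G → ℂ) g else 0 := by
      intro x
      split_ifs with h
      · rw [extendByZero_of_mem N _ h]
        have h2 := hcl g x⁻¹
        simpa using h2
      · rw [extendByZero_of_not_mem N _ h]
    simp only [h1]
    rw [Finset.sum_ite, Finset.sum_const_zero, add_zero, Finset.sum_const, nsmul_eq_mul]
  have hΨc : IsCharacter G (indFun N φ) := isCharacter_indFun N (IsIrrCharacter.isCharacter' hN)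
  obtain ⟨m, hm, hΨΨ, hΨ1⟩ := char_decomp hΨc
  have hfr : ∀ τ : IrrCharacter G, classInner (indFun N φ) (τ : G → ℂ) = classInner φ (fun n : N => (τ : G → ℂ) n) :=
    fun τ => frobenius_reciprocity N φ (IsCharacter.isClassFunction' (IsIrrCharacter.isCharacter' τ.2))
  by_contra hcon
  push_neg at hcon
  have hdeg : ∀ τ : IrrCharacter G, m τ ≠ 0 → charDegree (τ : G → ℂ) ≤ charDegree (χ : G → ℂ) := by
    intro τ hτ
    apply hcon
    rw [← hfr, hm]
    exact_mod_cast hτ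
  have hd : ∀ τ : IrrCharacter G, (τ : G → ℂ) 1 = charDegree (τ : G → ℂ) := fun τ =>
    (charDegree_cast (IsIrrCharacter.isCharacter' τ.2)).symm
  have hdpos : 0 < charDegree (χ : G → ℂ) := Nat.pos_of_ne_zero (charDegree_ne_zero χ.2)
  have h1 : N.index * charDegree (χ : G → ℂ) = ∑ τ : IrrCharacter G, m τ * charDegree (τ : G → ℂ) := by
    have h2 := hΨ1
    rw [indFun_one] at h2
    simp only [φ, hd] at h2
    have h3 : (1 : G) = ((1 : N) : G) := rfl
    have h4 : (χ : G → ℂ) ((1 : N) : G) = charDegree (χ : G → ℂ) := by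
      rw [Subgroup.coe_one]; exact hd χ
    rw [h4] at h2
    exact_mod_cast h2
  have h2 : N.index ≤ ∑ τ : IrrCharacter G, (m τ) ^ 2 := by
    have h3 : N.index * charDegree (χ : G → ℂ) ≤ (∑ τ : IrrCharacter G, (m τ) ^ 2) * charDegree (χ : G → ℂ) := by
      rw [h1, Finset.sum_mul]
      apply Finset.sum_le_sum
      intro τ _
      by_cases h0 : m τ = 0
      · simp [h0]
      · calc m τ * charDegree (τ : G → ℂ) ≤ m τ * charDegree (χ : G → ℂ) := Nat.mul_le_mul_left _ (hdeg τ h0)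
          _ ≤ (m τ) ^ 2 * charDegree (χ : G → ℂ) := by
            apply Nat.mul_le_mul_right
            rw [pow_two]
            exact Nat.le_mul_of_pos_left _ (Nat.pos_of_ne_zero h0)
    exact Nat.le_of_mul_le_mul_right h3 hdpos
  have h3c : ((∑ τ : IrrCharacter G, (m τ) ^ 2 : ℕ) : ℂ) * (Nat.card N : ℂ) ^ 2 =
      ∑ n : N, ((c n : ℂ) * ((Complex.normSq ((χ : G → ℂ) n) : ℝ) : ℂ)) := by
    have hN0 : (Nat.card N : ℂ) ≠ 0 := by exact_mod_cast Nat.card_pos.ne'
    have e1 : ((∑ τ : IrrCharacter G, (m τ) ^ 2 : ℕ) : ℂ) = classInner (indFun N φ) (indFun N φ) := by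
      rw [hΨΨ]
      push_cast
      rfl
    rw [e1, frobenius_reciprocity N φ (indFun_isClassFunction N φ), classInner]
    have e2 : ∀ n : N, φ n * conj (indFun N φ n) =
        (Nat.card N : ℂ)⁻¹ * ((c n : ℂ) * ((Complex.normSq ((χ : G → ℂ) n) : ℝ) : ℂ)) := by
      intro n
      rw [hΨ, map_mul, map_mul, map_inv₀, Complex.conj_natCast, Complex.conj_natCast, ← Complex.mul_conj]
      simp only [φ]
      ring
    simp only [e2]
    rw [← Finset.mul_sum]
    field_simp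
  have h3 : ((∑ τ : IrrCharacter G, (m τ) ^ 2 : ℕ) : ℝ) * (Nat.card N : ℝ) ^ 2 =
      ∑ n : N, ((c n : ℝ) * Complex.normSq ((χ : G → ℂ) n)) := by
    exact_mod_cast h3c
  have h4 : ∑ n : N, Complex.normSq ((χ : G → ℂ) n) = Nat.card N := by
    have h5 := classInner_irr hN hN
    rw [if_pos rfl, classInner] at h5
    have hN0 : (Nat.card N : ℂ) ≠ 0 := by exact_mod_cast Nat.card_pos.ne'
    have h6 : ∑ n : N, (χ : G → ℂ) n * conj ((χ : G → ℂ) n) = Nat.card N := by
      field_simp at h5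
      exact h5
    simp only [Complex.mul_conj] at h6
    exact_mod_cast h6
  have h5 : ∑ n : N, ((c n : ℝ) * Complex.normSq ((χ : G → ℂ) n)) <
      ∑ n : N, ((Nat.card G : ℝ) * Complex.normSq ((χ : G → ℂ) n)) := by
    have hcle : ∀ g : G, c g ≤ Nat.card G := by
      intro g
      rw [Nat.card_eq_fintype_card, ← Finset.card_univ]
      exact Finset.card_filter_le _ _
    apply Finset.sum_lt_sum
    · intro n _
      apply mul_le_mul_of_nonneg_right _ (Complex.normSq_nonneg _)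
      exact_mod_cast hcle n
    · refine ⟨⟨x₀, hx₀⟩, Finset.mem_univ _, ?_⟩
      apply mul_lt_mul_of_pos_right _ (Complex.normSq_pos.2 hne)
      have h6 : c x₀ < Nat.card G := by
        rw [Nat.card_eq_fintype_card, ← Finset.card_univ]
        apply Finset.card_lt_card
        rw [Finset.ssubset_iff_of_subset (Finset.filter_subset _ _)]
        exact ⟨t, Finset.mem_univ _, by simpa using ht⟩
      exact_mod_cast h6
  rw [← Finset.mul_sum, h4, ← h3] at h5
  have h6 : Nat.card N * N.index = Nat.card G := Subgroup.card_mul_index N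
  have hNpos : (0 : ℝ) < Nat.card N := by exact_mod_cast Nat.card_pos
  have h7 : ((∑ τ : IrrCharacter G, (m τ) ^ 2 : ℕ) : ℝ) < N.index := by
    have h8 : (Nat.card G : ℝ) = Nat.card N * N.index := by exact_mod_cast h6.symm
    rw [h8] at h5
    have h9 : ((∑ τ : IrrCharacter G, (m τ) ^ 2 : ℕ) : ℝ) * (Nat.card N : ℝ) ^ 2 < (N.index : ℝ) * (Nat.card N : ℝ) ^ 2 := by
      calc _ < (Nat.card N : ℝ) * N.index * Nat.card N := h5
        _ = _ := by ring
    exact lt_of_mul_lt_mul_right h9 (by positivity)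
  have h8 : ∑ τ : IrrCharacter G, (m τ) ^ 2 < N.index := by exact_mod_cast h7
  omega

/-- A quotient hit by the subgroup keeps irreducibility. -/
theorem restrict_irr (J N : Subgroup G) [J.Normal] (hJN : ∀ g : G, ∃ j ∈ J, ∃ n ∈ N, j * n = g)
    {τ : G → ℂ} (hτ : IsIrrCharacter G τ) (hker : ∀ j ∈ J, τ j = τ 1) :
    IsIrrCharacter N (fun n : N => τ n) := by
  obtain ⟨θ, hθ, hθe⟩ := exists_quotient_irr J hτ hker
  have hs : Function.Surjective ((QuotientGroup.mk' J).comp N.subtype) := by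
    intro q
    obtain ⟨g, rfl⟩ := QuotientGroup.mk_surjective q
    obtain ⟨j, hj, n, hn, rfl⟩ := hJN g
    refine ⟨⟨n, hn⟩, ?_⟩
    show ((n : G) : G ⧸ J) = ((j * n : G) : G ⧸ J)
    rw [QuotientGroup.mk_mul, (QuotientGroup.eq_one_iff j).2 hj, one_mul]
  have h1 := Cfsg.Agent.Lib.CharTriple.isIrr_comp_surj _ hs hθ
  have h2 : (fun a : N => θ (((QuotientGroup.mk' J).comp N.subtype) a)) = fun n : N => τ n := by
    funext a
    exact hθe a
  rwa [h2] at h1

/-- The kernel of a character. -/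
def kerSub {τ : G → ℂ} (hτ : IsCharacter G τ) : Subgroup G where
  carrier := {g | τ g = τ 1}
  one_mem' := rfl
  mul_mem' := by
    intro a b ha hb
    show τ (a * b) = τ 1
    rw [Cfsg.Agent.Lib.TwoClass.apply_mul_of_val hτ ha b]
    exact hb
  inv_mem' := by
    intro a ha
    show τ a⁻¹ = τ 1
    have h1 := Cfsg.Agent.Lib.TwoClass.apply_mul_of_val hτ ha a⁻¹
    rw [mul_inv_cancel] at h1
    exact h1.symm

theorem mem_kerSub {τ : G → ℂ} (hτ : IsCharacter G τ) {g : G} : g ∈ kerSub hτ ↔ τ g = τ 1 := Iff.rfl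

theorem kerSub_normal {τ : G → ℂ} (hτ : IsCharacter G τ) : (kerSub hτ).Normal := ⟨by
  intro n hn g
  rw [mem_kerSub] at hn ⊢
  rw [IsCharacter.isClassFunction' hτ n g]
  exact hn⟩

end Bump

section Group

variable {G : Type u} [Group G] [Finite G] {q : ℕ} [hq : Fact q.Prime]

theorem le_of_rel {Q R A : Subgroup G} (hQR : Q ≤ R) (hRA : R ≤ A) (hR : IsPGroup q R)
    (hidx : ¬ q ∣ Q.relIndex A) : R ≤ Q := by
  have h1 : Q.relIndex R * R.relIndex A = Q.relIndex A := Subgroup.relIndex_mul_relIndex Q R A hQR hRA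
  obtain ⟨n, hn⟩ := IsPGroup.iff_card.1 hR
  have h2 : Q.relIndex R ∣ q ^ n := by
    rw [← hn, Subgroup.relIndex]
    exact Subgroup.index_dvd_card _
  obtain ⟨k, -, hk⟩ := (Nat.dvd_prime_pow hq.out).1 h2
  rcases k with _ | k
  · rw [pow_zero] at hk
    exact Subgroup.relIndex_eq_one.1 hk
  · exfalso
    apply hidx
    rw [← h1, hk, pow_succ]
    exact Dvd.dvd.mul_right (dvd_mul_left _ _) _

theorem exists_sylow_of {Q W : Subgroup G} (hQW : Q ≤ W) (hQp : IsPGroup q Q) (hidx : ¬ q ∣ Q.relIndex W) :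
    ∃ P : Sylow q W, (P : Subgroup W).map W.subtype = Q := by
  refine ⟨{ toSubgroup := Q.subgroupOf W
            isPGroup' := hQp.comap_of_injective W.subtype W.subtype_injective
            is_maximal' := ?_ }, Subgroup.map_subgroupOf_eq_of_le hQW⟩
  intro T hT hle
  apply le_antisymm _ hle
  have h1 : T.map W.subtype ≤ Q := by
    apply le_of_rel (q := q) (A := W) _ (Subgroup.map_subtype_le T) (hT.map _) hidx
    intro x hx
    exact ⟨⟨x, hQW hx⟩, hle (show (⟨x, hQW hx⟩ : W) ∈ Q.subgroupOf W from hx), rfl⟩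
  intro t ht
  exact h1 ⟨t, ht, rfl⟩

theorem frat {Q W : Subgroup G} (hQW : Q ≤ W) (hQp : IsPGroup q Q) (hidx : ¬ q ∣ Q.relIndex W) {x : G}
    (hx : x ∈ Subgroup.normalizer (W : Set G)) : ∃ w ∈ W, w * x ∈ Subgroup.normalizer (Q : Set G) := by
  obtain ⟨P, hP⟩ := exists_sylow_of hQW hQp hidx
  have h1 := Cfsg.Agent.Lib.SchurZ2.frattini_of_normalizer P hx
  rwa [hP] at h1

theorem exists_pow_one {Q : Subgroup G} (hQp : IsPGroup q Q) {x : G} (hx : x ∈ Q) : ∃ r, x ^ (q ^ r) = 1 := by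
  obtain ⟨r, hr⟩ := hQp ⟨x, hx⟩
  exact ⟨r, by simpa using congrArg Subtype.val hr⟩

end Group

/-- The set-up of the main lemma. -/
structure Setup {G : Type u} [Group G] (χ : IrrCharacter G) (K A Q : Subgroup G) (q : ℕ) : Prop where
  hK : ∀ g, g ∈ K ↔ (χ : G → ℂ) g = (χ : G → ℂ) 1
  hKn : K.Normal
  hAn : A.Normal
  hKA : K ≤ A
  hQA : Q ≤ A
  hQp : IsPGroup q Q
  hidx : ¬ q ∣ Q.relIndex A
  hAKQ : A ≤ K ⊔ Q
  hnn : ∃ a ∈ A, ∃ x ∈ Q, a * x * a⁻¹ ∉ Q
  hchief : A = K ∨ ∀ B : Subgroup G, B.Normal → K ≤ B → B ≤ A → B = K ∨ B = A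

/-- The conclusion. -/
def Concl {G : Type u} [Group G] (χ : IrrCharacter G) (K : Subgroup G) : Prop :=
  ∃ ψ : IrrCharacter G, charDegree (χ : G → ℂ) < charDegree (ψ : G → ℂ) ∧
    ∃ L : Subgroup G, (∀ g : G, g ∈ L ↔ (ψ : G → ℂ) g = (ψ : G → ℂ) 1) ∧ L < K

section Case

variable {G : Type u} [Group G] [Finite G] {q : ℕ} [hq : Fact q.Prime] {χ : IrrCharacter G} {K A Q : Subgroup G}

theorem mem_of_norm (h : Setup χ K A Q q) {z : G} (hzA : z ∈ A) (hzN : z ∈ Subgroup.normalizer (Q : Set G)) {r : ℕ}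
    (hz : z ^ (q ^ r) = 1) : z ∈ Q := by
  have hR : IsPGroup q (Subgroup.zpowers z) := by
    rintro ⟨_, m, rfl⟩
    refine ⟨r, Subtype.ext ?_⟩
    show ((z ^ m) ^ (q ^ r) : G) = 1
    rw [← zpow_natCast, ← zpow_mul, mul_comm, zpow_mul, zpow_natCast, hz, one_zpow]
  have hle : Subgroup.zpowers z ≤ Subgroup.normalizer (Q : Set G) := Subgroup.zpowers_le.2 hzN
  have h1 := hR.to_sup_of_normal_right' h.hQp hle
  have h2 := le_of_rel (q := q) (A := A) (le_sup_right : Q ≤ Subgroup.zpowers z ⊔ Q)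
    (sup_le (Subgroup.zpowers_le.2 hzA) h.hQA) h1 h.hidx
  exact h2 ((le_sup_left : Subgroup.zpowers z ≤ Subgroup.zpowers z ⊔ Q) (Subgroup.mem_zpowers z))

theorem hAq (h : Setup χ K A Q q) {a : G} (ha : a ∈ A) : ∃ r, a ^ (q ^ r) ∈ K := by
  haveI := h.hKn
  obtain ⟨k, hk, x, hx, rfl⟩ := Subgroup.mem_sup_of_normal_left.1 (h.hAKQ ha)
  obtain ⟨r, hr⟩ := exists_pow_one h.hQp hx
  refine ⟨r, (QuotientGroup.eq_one_iff _).1 ?_⟩
  rw [QuotientGroup.mk_pow, QuotientGroup.mk_mul, (QuotientGroup.eq_one_iff k).2 hk, one_mul,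
    ← QuotientGroup.mk_pow, hr, QuotientGroup.mk_one]

theorem mul_norm (h : Setup χ K A Q q) (g : G) : ∃ k ∈ K, ∃ n ∈ Subgroup.normalizer (Q : Set G), k * n = g := by
  haveI := h.hKn
  haveI := h.hAn
  have hg : g ∈ Subgroup.normalizer (A : Set G) := by
    rw [Subgroup.normalizer_eq_top A]
    trivial
  obtain ⟨a, ha, hag⟩ := frat h.hQA h.hQp h.hidx hg
  obtain ⟨k, hk, x, hx, hkx⟩ := Subgroup.mem_sup_of_normal_left.1 (h.hAKQ (A.inv_mem ha))
  refine ⟨k, hk, x * (a * g), Subgroup.mul_mem _ (Subgroup.le_normalizer hx) hag, ?_⟩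
  rw [← mul_assoc, hkx]
  group

theorem mul_norm' (h : Setup χ K A Q q) {J : Subgroup G} [hJ : J.Normal] (hJK : J ≤ K)
    (hcond : ∀ a ∈ A, ∀ x ∈ Q, a * x * a⁻¹ ∈ Q ⊔ J) (g : G) :
    ∃ j ∈ J, ∃ n ∈ Subgroup.normalizer (Q : Set G), j * n = g := by
  haveI := h.hKn
  haveI := h.hAn
  have hg : g ∈ Subgroup.normalizer (A : Set G) := by
    rw [Subgroup.normalizer_eq_top A]
    trivial
  obtain ⟨a, ha, hag⟩ := frat h.hQA h.hQp h.hidx hg
  have hWA : Q ⊔ J ≤ A := sup_le h.hQA (hJK.trans h.hKA)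
  have hidx' : ¬ q ∣ Q.relIndex (Q ⊔ J) := by
    intro hd
    apply h.hidx
    rw [← Subgroup.relIndex_mul_relIndex Q (Q ⊔ J) A le_sup_left hWA]
    exact Dvd.dvd.mul_right hd _
  have hnorm : a⁻¹ ∈ Subgroup.normalizer ((Q ⊔ J : Subgroup G) : Set G) := by
    apply Cfsg.Agent.Lib.H5Basic.mem_normalizer_of_map_conj_le
    rintro _ ⟨y, hy, rfl⟩
    obtain ⟨x, hx, j, hj, rfl⟩ := Subgroup.mem_sup_of_normal_right.1 hy
    show a⁻¹ * (x * j) * a⁻¹⁻¹ ∈ Q ⊔ J
    have e : a⁻¹ * (x * j) * a⁻¹⁻¹ = (a⁻¹ * x * a⁻¹⁻¹) * (a⁻¹ * j * a⁻¹⁻¹) := by group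
    rw [e]
    exact Subgroup.mul_mem _ (hcond _ (A.inv_mem ha) x hx)
      ((le_sup_right : J ≤ Q ⊔ J) (hJ.conj_mem j hj _))
  obtain ⟨w, hw, hwa⟩ := frat (le_sup_left : Q ≤ Q ⊔ J) h.hQp hidx' hnorm
  obtain ⟨x, hx, j, hj, hxj⟩ := Subgroup.mem_sup_of_normal_right.1 ((Q ⊔ J).inv_mem hw)
  refine ⟨x * j * x⁻¹, hJ.conj_mem j hj x, x * ((w * a⁻¹) * (a * g)), ?_, ?_⟩
  · exact Subgroup.mul_mem _ (Subgroup.le_normalizer hx) (Subgroup.mul_mem _ hwa hag)
  · have e : x * j * x⁻¹ * (x * (w * a⁻¹ * (a * g))) = (x * j) * (w * a⁻¹ * (a * g)) := by group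
    rw [e, hxj]
    group

theorem exists_x0 (h : Setup χ K A Q q) :
    ∃ x₀ ∈ Q, (χ : G → ℂ) x₀ ≠ 0 ∧ ∃ t : G, t⁻¹ * x₀ * t ∉ Subgroup.normalizer (Q : Set G) := by
  classical
  letI : Fintype G := Fintype.ofFinite _
  haveI hKn := h.hKn
  haveI hAn := h.hAn
  let N := Subgroup.normalizer (Q : Set G)
  let D := N.normalCore
  have hD : D.Normal := Subgroup.normalCore_normal N
  have hDN : D ≤ N := Subgroup.normalCore_le N
  suffices hs : ∃ x₀ ∈ Q, (χ : G → ℂ) x₀ ≠ 0 ∧ x₀ ∉ D by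
    obtain ⟨x₀, hx, hne, hxD⟩ := hs
    refine ⟨x₀, hx, hne, ?_⟩
    by_contra hcon
    push_neg at hcon
    apply hxD
    show ∀ b : G, b * x₀ * b⁻¹ ∈ N
    intro b
    have := hcon b⁻¹
    simpa using this
  have hχ1 : (χ : G → ℂ) 1 ≠ 0 := degree_ne_zero χ.2
  have hchar := IsIrrCharacter.isCharacter' χ.2
  have hQD : ¬ Q ≤ D := by
    intro hle
    obtain ⟨a, ha, x, hx, hn⟩ := h.hnn
    apply hn
    have h1 : a * x * a⁻¹ ∈ D := hD.conj_mem x (hle hx) a
    have h2 : a * x * a⁻¹ ∈ A := hAn.conj_mem x (h.hQA hx) a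
    obtain ⟨r, hr⟩ := exists_pow_one h.hQp hx
    have h3 : (a * x * a⁻¹) ^ (q ^ r) = 1 := by
      rw [conj_pow, hr]
      simp
    exact mem_of_norm h h2 (hDN h1) h3
  by_cases hAK : A = K
  · obtain ⟨x, hx, hxD⟩ := SetLike.not_le_iff_exists.1 hQD
    refine ⟨x, hx, ?_, hxD⟩
    have h1 : x ∈ K := hAK ▸ h.hQA hx
    rw [(h.hK x).1 h1]
    exact hχ1
  have hch := h.hchief.resolve_left hAK
  haveI hD₁ : (D ⊓ A).Normal := Subgroup.normal_inf_normal _ _
  haveI hB : (K ⊔ (D ⊓ A)).Normal := Subgroup.sup_normal _ _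
  rcases hch (K ⊔ (D ⊓ A)) hB le_sup_left (sup_le h.hKA inf_le_right) with hB1 | hB1
  · have hD₁K : D ⊓ A ≤ K := by
      rw [← hB1]
      exact le_sup_right
    have hex : ∃ x ∈ Q, x ∉ K ∧ (χ : G → ℂ) x ≠ 0 := by
      by_contra hcon
      push_neg at hcon
      have hvan : ∀ a ∈ A, a ∉ K → (χ : G → ℂ) a = 0 := by
        intro a ha haK
        obtain ⟨k, hk, x, hx, rfl⟩ := Subgroup.mem_sup_of_normal_left.1 (h.hAKQ ha)
        have hxK : x ∉ K := fun hxK => haK (K.mul_mem hk hxK)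
        rw [Cfsg.Agent.Lib.TwoClass.apply_mul_of_val hchar ((h.hK k).1 hk) x]
        exact hcon x hx hxK
      letI : Fintype A := Fintype.ofFinite _
      have hnot : ∃ a ∈ A, (χ : G → ℂ) a ≠ (χ : G → ℂ) 1 := by
        obtain ⟨a, ha, haK⟩ := SetLike.exists_of_lt (lt_of_le_of_ne h.hKA (Ne.symm hAK))
        exact ⟨a, ha, fun he => haK ((h.hK a).2 he)⟩
      have h0 := sum_coset_eq_zero A χ.2 hnot 1
      have h1 : ∀ a : A, (χ : G → ℂ) ((a : G) * 1) = if (a : G) ∈ K then (χ : G → ℂ) 1 else 0 := by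
        intro a
        rw [mul_one]
        split_ifs with haK
        · exact (h.hK a).1 haK
        · exact hvan a a.2 haK
      simp only [h1] at h0
      rw [Finset.sum_ite, Finset.sum_const_zero, add_zero, Finset.sum_const, nsmul_eq_mul] at h0
      have h2 : ((Finset.univ.filter (fun a : A => (a : G) ∈ K)).card : ℂ) ≠ 0 := by
        have h3 : (Finset.univ.filter (fun a : A => (a : G) ∈ K)).card ≠ 0 := by
          rw [Finset.card_ne_zero]
          exact ⟨1, by simp [K.one_mem]⟩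
        exact_mod_cast h3
      exact (mul_ne_zero h2 hχ1) h0
    obtain ⟨x, hx, hxK, hne⟩ := hex
    exact ⟨x, hx, hne, fun hxD => hxK (hD₁K ⟨hxD, h.hQA hx⟩)⟩
  · by_contra hcon
    push_neg at hcon
    apply hQD
    intro x hx
    have hxA := h.hQA hx
    rw [← hB1] at hxA
    obtain ⟨k, hk, d, hd, rfl⟩ := Subgroup.mem_sup_of_normal_left.1 hxA
    obtain ⟨u, z, rfl, -, hu, ⟨m, hm⟩, huy, hzy⟩ := Cfsg.Agent.Lib.PResidual.exists_decomp (p := q) d
    have huD : u ∈ D ⊓ A := Subgroup.zpowers_le.2 hd huy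
    have hzD : z ∈ D ⊓ A := Subgroup.zpowers_le.2 hd hzy
    have huK : u ∈ K := by
      obtain ⟨r, hr⟩ := hAq h huD.2
      obtain ⟨s, hs⟩ := exists_pow_eq_self_of_coprime (Nat.Coprime.pow_left r hu.symm)
      rw [← hs]
      exact K.pow_mem hr s
    have hzQ : z ∈ Q := mem_of_norm h hzD.2 (hDN hzD.1) (r := m) (by rw [← hm]; exact pow_orderOf_eq_one z)
    have hy : k * u ∈ Q := by
      have e : k * u = (k * (u * z)) * z⁻¹ := by group
      rw [e]
      exact Q.mul_mem hx (Q.inv_mem hzQ)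
    have hyK : k * u ∈ K := K.mul_mem hk huK
    have hyD : k * u ∈ D := hcon _ hy (by rw [(h.hK _).1 hyK]; exact hχ1)
    have e : k * (u * z) = (k * u) * z := by group
    rw [e]
    exact D.mul_mem hyD hzD.1

/-- Case where conjugates of `Q` are controlled modulo every normal subgroup of `G` inside the kernel. -/
theorem case_R (h : Setup χ K A Q q)
    (hR : ∀ J : Subgroup G, J.Normal → J ≠ ⊥ → J ≤ K → ∀ a ∈ A, ∀ x ∈ Q, a * x * a⁻¹ ∈ Q ⊔ J) : Concl χ K := by
  classical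
  letI : Fintype G := Fintype.ofFinite _
  haveI hKn := h.hKn
  haveI hAn := h.hAn
  let N := Subgroup.normalizer (Q : Set G)
  letI : Fintype N := Fintype.ofFinite _
  have hirr : IsIrrCharacter N (fun n : N => (χ : G → ℂ) n) :=
    restrict_irr K N (mul_norm h) χ.2 (fun k hk => (h.hK k).1 hk)
  obtain ⟨x₀, hx₀, hne, t, ht⟩ := exists_x0 h
  obtain ⟨τ, hin, hdeg⟩ := bump N χ hirr x₀ (Subgroup.le_normalizer hx₀) hne t ht
  have hτc := IsIrrCharacter.isCharacter' τ.2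
  let Y := kerSub hτc
  haveI hYn : Y.Normal := kerSub_normal _
  have hYK : Y ⊓ K = ⊥ := by
    by_contra hne'
    haveI hJn : (Y ⊓ K).Normal := Subgroup.normal_inf_normal _ _
    have hcond := hR (Y ⊓ K) hJn hne' inf_le_right
    have hτN : IsIrrCharacter N (fun n : N => (τ : G → ℂ) n) :=
      restrict_irr (Y ⊓ K) N (mul_norm' h inf_le_right hcond) τ.2 (fun j hj => hj.1)
    have heq : (fun n : N => (χ : G → ℂ) n) = (fun n : N => (τ : G → ℂ) n) := by
      by_contra hne2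
      apply hin
      have h1 := classInner_irr hirr hτN
      rw [if_neg hne2] at h1
      exact h1
    have h1 : (χ : G → ℂ) 1 = (τ : G → ℂ) 1 := congrFun heq 1
    have h2 : charDegree (χ : G → ℂ) = charDegree (τ : G → ℂ) := by
      unfold charDegree
      rw [h1]
    omega
  have hYN : Y ≤ N := by
    intro y hy
    apply Cfsg.Agent.Lib.H5Basic.mem_normalizer_of_map_conj_le
    rintro _ ⟨x, hx, rfl⟩
    show y * x * y⁻¹ ∈ Q
    have hc : y * x * y⁻¹ * x⁻¹ ∈ Y ⊓ A := by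
      constructor
      · have e : y * x * y⁻¹ * x⁻¹ = y * (x * y⁻¹ * x⁻¹) := by group
        rw [e]
        exact Y.mul_mem hy (hYn.conj_mem _ (Y.inv_mem hy) x)
      · exact A.mul_mem (hAn.conj_mem x (h.hQA hx) y) (A.inv_mem (h.hQA hx))
    have hRp : IsPGroup q (Y ⊓ A : Subgroup G) := by
      rintro ⟨c, hc1, hc2⟩
      obtain ⟨r, hr⟩ := hAq h hc2
      refine ⟨r, Subtype.ext ?_⟩
      have h1 : c ^ (q ^ r) ∈ Y ⊓ K := ⟨Y.pow_mem hc1 _, hr⟩
      rw [hYK] at h1
      simpa using h1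
    haveI hI : (Y ⊓ A).Normal := Subgroup.normal_inf_normal _ _
    have hRQ : Y ⊓ A ≤ Q := by
      have h1 := h.hQp.to_sup_of_normal_right hRp
      have h2 := le_of_rel (q := q) (A := A) (le_sup_left : Q ≤ Q ⊔ (Y ⊓ A))
        (sup_le h.hQA inf_le_right) h1 h.hidx
      exact le_sup_right.trans h2
    have e : y * x * y⁻¹ = (y * x * y⁻¹ * x⁻¹) * x := by group
    rw [e]
    exact Q.mul_mem (hRQ hc) hx
  have hY0 : Y = ⊥ := by
    rw [← hYK]
    apply le_antisymm _ inf_le_left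
    refine le_inf le_rfl ?_
    intro y hy
    rw [h.hK]
    have h1 := ker_of_constituent (α := fun n : N => (τ : G → ℂ) n) (φ := fun n : N => (χ : G → ℂ) n)
      (isCharacter_restrict N hτc) hirr (by
        intro h0
        apply hin
        rw [← classInner_conj, h0, map_zero]) (b := ⟨y, hYN hy⟩) hy
    exact h1
  have hKne : K ≠ ⊥ := by
    intro hK0
    obtain ⟨a, ha, x, hx, hn⟩ := h.hnn
    apply hn
    have h1 : A ≤ Q := by
      have h2 := h.hAKQ
      rwa [hK0, bot_sup_eq] at h2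
    exact h1 (hAn.conj_mem x (h.hQA hx) a)
  refine ⟨τ, hdeg, Y, fun g => Iff.rfl, ?_⟩
  rw [hY0]
  exact bot_lt_iff_ne_bot.2 hKne

end Case

section Descend

variable {G : Type u} [Group G] [Finite G] {q : ℕ} {χ : IrrCharacter G} {K A Q : Subgroup G}

theorem mem_map_mk_iff (J S : Subgroup G) [J.Normal] (hJS : J ≤ S) (g : G) :
    (g : G ⧸ J) ∈ S.map (QuotientGroup.mk' J) ↔ g ∈ S := by
  constructor
  · rintro ⟨s, hs, he⟩
    have h1 : s⁻¹ * g ∈ J := QuotientGroup.eq.1 he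
    have e : g = s * (s⁻¹ * g) := by group
    rw [e]
    exact S.mul_mem hs (hJS h1)
  · intro hg
    exact ⟨g, hg, rfl⟩

theorem descend (h : Setup χ K A Q q) {J : Subgroup G} [hJ : J.Normal] (hJK : J ≤ K) {a x : G} (ha : a ∈ A)
    (hx : x ∈ Q) (hn : a * x * a⁻¹ ∉ Q ⊔ J)
    (IH : ∀ (θ : IrrCharacter (G ⧸ J)) (K' A' Q' : Subgroup (G ⧸ J)), Setup θ K' A' Q' q → Concl θ K') : Concl χ K := by
  have hker : ∀ n ∈ J, (χ : G → ℂ) n = (χ : G → ℂ) 1 := fun n hn => (h.hK n).1 (hJK hn)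
  obtain ⟨θ, hθ, hθe⟩ := exists_quotient_irr J χ.2 hker
  have hJA : J ≤ A := hJK.trans h.hKA
  have hsurj : Function.Surjective (QuotientGroup.mk' J) := QuotientGroup.mk'_surjective J
  have hθ1 : θ 1 = (χ : G → ℂ) 1 := hθe 1
  have hdeg : charDegree θ = charDegree (χ : G → ℂ) := by
    unfold charDegree
    rw [hθ1]
  haveI hKn := h.hKn
  haveI hAn := h.hAn
  have hS : Setup ⟨θ, hθ⟩ (K.map (QuotientGroup.mk' J)) (A.map (QuotientGroup.mk' J)) (Q.map (QuotientGroup.mk' J)) q := by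
    refine ⟨?_, hKn.map _ hsurj, hAn.map _ hsurj, Subgroup.map_mono h.hKA, Subgroup.map_mono h.hQA, h.hQp.map _, ?_,
      ?_, ?_, ?_⟩
    · intro g
      obtain ⟨g, rfl⟩ := QuotientGroup.mk_surjective g
      rw [mem_map_mk_iff J K hJK, h.hK]
      show _ ↔ θ (g : G ⧸ J) = θ 1
      rw [hθe, hθ1]
    · intro hd
      apply h.hidx
      rw [Subgroup.relIndex_map_map, QuotientGroup.ker_mk', sup_eq_left.2 hJA] at hd
      exact hd.trans (Subgroup.relIndex_dvd_of_le_left A le_sup_left)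
    · rw [← Subgroup.map_sup]
      exact Subgroup.map_mono h.hAKQ
    · refine ⟨(a : G ⧸ J), ⟨a, ha, rfl⟩, (x : G ⧸ J), ⟨x, hx, rfl⟩, ?_⟩
      rintro ⟨y, hy, he⟩
      apply hn
      have h1 : y⁻¹ * (a * x * a⁻¹) ∈ J := QuotientGroup.eq.1 (by
        rw [show ((y : G) : G ⧸ J) = (QuotientGroup.mk' J) y from rfl, he]
        rfl)
      have e : a * x * a⁻¹ = y * (y⁻¹ * (a * x * a⁻¹)) := by group
      rw [e]
      exact Subgroup.mul_mem _ ((le_sup_left : Q ≤ Q ⊔ J) hy) ((le_sup_right : J ≤ Q ⊔ J) h1)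
    · rcases h.hchief with hAK | hch
      · left
        rw [hAK]
      · right
        intro B hBn hKB hBA
        have h1 : (B.comap (QuotientGroup.mk' J)).Normal := hBn.comap _
        have h2 : K ≤ B.comap (QuotientGroup.mk' J) := fun k hk => hKB ⟨k, hk, rfl⟩
        have h3 : B.comap (QuotientGroup.mk' J) ≤ A := by
          intro g hg
          exact (mem_map_mk_iff J A hJA g).1 (hBA hg)
        rcases hch _ h1 h2 h3 with h4 | h4
        · left
          rw [← h4, Subgroup.map_comap_eq_self_of_surjective hsurj]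
        · right
          rw [← h4, Subgroup.map_comap_eq_self_of_surjective hsurj]
  obtain ⟨ψ, hψd, L, hL, hLK⟩ := IH _ _ _ _ hS
  have hψ1 : IsIrrCharacter G (fun g : G => (ψ : G ⧸ J → ℂ) (g : G ⧸ J)) := isIrr_inflate J ψ.2
  refine ⟨⟨_, hψ1⟩, ?_, L.comap (QuotientGroup.mk' J), ?_, ?_⟩
  · have h1 : charDegree (fun g : G => (ψ : G ⧸ J → ℂ) (g : G ⧸ J)) = charDegree (ψ : G ⧸ J → ℂ) := rfl
    show charDegree (χ : G → ℂ) < charDegree (fun g : G => (ψ : G ⧸ J → ℂ) (g : G ⧸ J))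
    rw [h1, ← hdeg]
    exact hψd
  · intro g
    show (g : G ⧸ J) ∈ L ↔ (ψ : G ⧸ J → ℂ) (g : G ⧸ J) = (ψ : G ⧸ J → ℂ) ((1 : G) : G ⧸ J)
    rw [hL, QuotientGroup.mk_one]
  · refine lt_of_le_of_ne ?_ ?_
    · intro g hg
      exact (mem_map_mk_iff J K hJK g).1 (hLK.le hg)
    · intro he
      apply hLK.ne
      rw [← Subgroup.map_comap_eq_self_of_surjective hsurj L, he]

end Descend

/-- **Main Lemma.** -/
theorem lemmaX (n : ℕ) : ∀ (G : Type u) [Group G] [Finite G], Nat.card G = n → ∀ (q : ℕ) [Fact q.Prime]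
    (χ : IrrCharacter G) (K A Q : Subgroup G), Setup χ K A Q q → Concl χ K := by
  induction n using Nat.strong_induction_on with
  | _ n ih =>
    intro G _ _ hG q _ χ K A Q h
    by_cases hR : ∀ J : Subgroup G, J.Normal → J ≠ ⊥ → J ≤ K → ∀ a ∈ A, ∀ x ∈ Q, a * x * a⁻¹ ∈ Q ⊔ J
    · exact case_R h hR
    · push_neg at hR
      obtain ⟨J, hJn, hJ0, hJK, a, ha, x, hx, hn⟩ := hR
      haveI := hJn
      apply descend h hJK ha hx hn
      intro θ K' A' Q' hS
      have hlt : Nat.card (G ⧸ J) < n := by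
        rw [← hG, Subgroup.card_eq_card_quotient_mul_card_subgroup J]
        have h1 : 1 < Nat.card J := (Subgroup.one_lt_card_iff_ne_bot J).2 hJ0
        have h2 : 0 < Nat.card (G ⧸ J) := Nat.card_pos
        nlinarith
      exact ih _ hlt (G ⧸ J) rfl q θ K' A' Q' hS

section Assembly

variable {G : Type u} [Group G] [Finite G]

theorem le_fitting_of (N : Subgroup G) [hN : N.Normal] (hn : Group.IsNilpotent N) : N ≤ fittingSubgroup G :=
  le_sSup ⟨hN, hn⟩

/-- The kernel not nilpotent. -/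
theorem case_nonnil (χ : IrrCharacter G) (K : Subgroup G) [hKn : K.Normal]
    (hK : ∀ g : G, g ∈ K ↔ (χ : G → ℂ) g = (χ : G → ℂ) 1) (h : ¬ K ≤ fittingSubgroup G) : Concl χ K := by
  have hnil : ¬ Group.IsNilpotent K := fun hn => h (le_fitting_of K hn)
  have htf := Group.isNilpotent_of_finite_tfae (G := K)
  have h1 : ¬ ∀ (p : ℕ) (_hp : Fact p.Prime) (P : Sylow p K), (↑P : Subgroup K).Normal := by
    intro h2
    exact hnil (htf.out 0 3 |>.2 h2)
  push_neg at h1
  obtain ⟨q, hq, P, hP⟩ := h1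
  apply lemmaX _ G rfl q χ K K (P.toSubgroup.map K.subtype)
  refine ⟨hK, hKn, hKn, le_rfl, Subgroup.map_subtype_le _, P.isPGroup'.map _, ?_, le_sup_left, ?_, Or.inl rfl⟩
  · have e : (P.toSubgroup.map K.subtype).subgroupOf K = P.toSubgroup :=
      Subgroup.comap_map_eq_self_of_injective K.subtype_injective _
    rw [Subgroup.relIndex, e]
    exact P.not_dvd_index
  · by_contra hcon
    push_neg at hcon
    apply hP
    refine ⟨fun n hn g => ?_⟩
    have h2 := hcon g g.2 n ⟨n, hn, rfl⟩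
    obtain ⟨y, hy, hye⟩ := h2
    have h3 : y = g * n * g⁻¹ := Subtype.ext hye
    rw [← h3]
    exact hy

/-- The kernel is the Fitting subgroup of a group with solvable quotient. -/
theorem case_fit (χ : IrrCharacter G) (K : Subgroup G) [hKn : K.Normal]
    (hK : ∀ g : G, g ∈ K ↔ (χ : G → ℂ) g = (χ : G → ℂ) 1) (hF : K = fittingSubgroup G)
    (hs : Group.IsSolvable (G ⧸ K)) (hne : K ≠ ⊤) : Concl χ K := by
  classical
  -- a minimal normal overgroup
  obtain ⟨A, hA⟩ : ∃ A : Subgroup G, Minimal (fun B : Subgroup G => B.Normal ∧ K < B) A := by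
    apply Set.Finite.exists_minimal (s := {B : Subgroup G | B.Normal ∧ K < B}) (Set.toFinite _)
    exact ⟨⊤, inferInstance, lt_top_iff_ne_top.2 hne⟩
  obtain ⟨⟨hAn, hKA⟩, hmin⟩ := hA
  haveI := hAn
  have hchief : ∀ B : Subgroup G, B.Normal → K ≤ B → B ≤ A → B = K ∨ B = A := by
    intro B hBn hKB hBA
    by_cases hBK : B = K
    · exact Or.inl hBK
    · right
      exact le_antisymm hBA (hmin ⟨hBn, lt_of_le_of_ne hKB (Ne.symm hBK)⟩ hBA)
  have hsurj : Function.Surjective (QuotientGroup.mk' K) := QuotientGroup.mk'_surjective K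
  let Ā := A.map (QuotientGroup.mk' K)
  haveI hĀ : Ā.Normal := hAn.map _ hsurj
  have hĀ0 : Ā ≠ ⊥ := by
    intro h0
    obtain ⟨a, ha, haK⟩ := SetLike.exists_of_lt hKA
    apply haK
    have h1 : (a : G ⧸ K) ∈ Ā := ⟨a, ha, rfl⟩
    rw [h0, Subgroup.mem_bot] at h1
    exact (QuotientGroup.eq_one_iff a).1 h1
  have hĀmin : ∀ M : Subgroup (G ⧸ K), M.Normal → M ≤ Ā → M = ⊥ ∨ M = Ā := by
    intro M hMn hMA
    have h1 : (M.comap (QuotientGroup.mk' K)).Normal := hMn.comap _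
    have h2 : K ≤ M.comap (QuotientGroup.mk' K) := by
      intro k hk
      show (k : G ⧸ K) ∈ M
      rw [(QuotientGroup.eq_one_iff k).2 hk]
      exact M.one_mem
    have h3 : M.comap (QuotientGroup.mk' K) ≤ A := by
      intro g hg
      exact (mem_map_mk_iff K A hKA.le g).1 (hMA hg)
    rcases hchief _ h1 h2 h3 with h4 | h4
    · left
      rw [← Subgroup.map_comap_eq_self_of_surjective hsurj M, h4]
      exact (Subgroup.map_eq_bot_iff K).2 (by rw [QuotientGroup.ker_mk'])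
    · right
      rw [← Subgroup.map_comap_eq_self_of_surjective hsurj M, h4]
  obtain ⟨-, q, hq, hel⟩ := Cfsg.Agent.Lib.FitSolv.minimal_normal_elementary Ā hĀ0 hĀmin
  haveI : Fact q.Prime := ⟨hq⟩
  have hĀp : IsPGroup q Ā := by
    rintro ⟨x, hx⟩
    refine ⟨1, Subtype.ext ?_⟩
    simpa using hel x hx
  obtain ⟨P⟩ : Nonempty (Sylow q A) := inferInstance
  let Q : Subgroup G := P.toSubgroup.map A.subtype
  have hQA : Q ≤ A := Subgroup.map_subtype_le _
  have hQp : IsPGroup q Q := P.isPGroup'.map _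
  have hidx : ¬ q ∣ Q.relIndex A := by
    have e : (P.toSubgroup.map A.subtype).subgroupOf A = P.toSubgroup :=
      Subgroup.comap_map_eq_self_of_injective A.subtype_injective _
    rw [Subgroup.relIndex]
    show ¬ q ∣ ((P.toSubgroup.map A.subtype).subgroupOf A).index
    rw [e]
    exact P.not_dvd_index
  have hAKQ : A ≤ K ⊔ Q := by
    have h1 : (K ⊔ Q).relIndex A ∣ Q.relIndex A := Subgroup.relIndex_dvd_of_le_left A le_sup_right
    have h2 : ¬ q ∣ (K ⊔ Q).relIndex A := fun hd => hidx (hd.trans h1)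
    have h3 : (Subgroup.map (QuotientGroup.mk' K) (K ⊔ Q)).relIndex Ā = (K ⊔ Q).relIndex A := by
      rw [show Ā = A.map (QuotientGroup.mk' K) from rfl, Subgroup.relIndex_map_map, QuotientGroup.ker_mk',
        sup_eq_left.2 (le_sup_left : K ≤ K ⊔ Q), sup_eq_left.2 hKA.le]
    obtain ⟨m, hm⟩ := IsPGroup.iff_card.1 hĀp
    have h4 : (K ⊔ Q).relIndex A ∣ q ^ m := by
      rw [← h3, ← hm, Subgroup.relIndex]
      exact Subgroup.index_dvd_card _
    obtain ⟨k, -, hk⟩ := (Nat.dvd_prime_pow hq).1 h4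
    rcases k with _ | k
    · rw [pow_zero] at hk
      exact Subgroup.relIndex_eq_one.1 hk
    · exfalso
      apply h2
      rw [hk, pow_succ]
      exact dvd_mul_left _ _
  have hnn : ∃ a ∈ A, ∃ x ∈ Q, a * x * a⁻¹ ∉ Q := by
    by_contra hcon
    push_neg at hcon
    have hAN : A ≤ Subgroup.normalizer (Q : Set G) := by
      intro a ha
      apply Cfsg.Agent.Lib.H5Basic.mem_normalizer_of_map_conj_le
      rintro _ ⟨x, hx, rfl⟩
      exact hcon a ha x hx
    have hQn : Q.Normal := by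
      refine ⟨fun x hx g => ?_⟩
      let R : Subgroup G := Q.map (MulAut.conj g).toMonoidHom
      have hRA : R ≤ A := by
        rintro _ ⟨y, hy, rfl⟩
        exact hAn.conj_mem y (hQA hy) g
      have hRp : IsPGroup q R := hQp.map _
      have h1 := hRp.to_sup_of_normal_right' hQp (hRA.trans hAN)
      have h2 := le_of_rel (q := q) (A := A) (le_sup_right : Q ≤ R ⊔ Q) (sup_le hRA hQA) h1 hidx
      exact h2 ((le_sup_left : R ≤ R ⊔ Q) ⟨x, hx, rfl⟩)
    have hQnil : Group.IsNilpotent Q := IsPGroup.isNilpotent hQp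
    have hQK : Q ≤ K := by
      rw [hF]
      haveI := hQn
      exact le_fitting_of Q hQnil
    have h1 : A ≤ K := hAKQ.trans (sup_le le_rfl hQK)
    exact hKA.not_ge h1
  exact lemmaX _ G rfl q χ K A Q ⟨hK, hKn, hAn, hKA.le, hQA, hQp, hidx, hAKQ, hnn, Or.inr hchief⟩

/-- **Larger degree, smaller kernel.** -/
theorem degree_kernel (χ : IrrCharacter G) (K : Subgroup G) [K.Normal]
    (hK : ∀ g : G, g ∈ K ↔ (χ : G → ℂ) g = (χ : G → ℂ) 1)
    (h : ¬ K ≤ fittingSubgroup G ∨ (K = fittingSubgroup G ∧ Group.IsSolvable (G ⧸ K) ∧ K ≠ ⊤)) : Concl χ K := by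
  rcases h with h | ⟨h1, h2, h3⟩
  · exact case_nonnil χ K hK h
  · exact case_fit χ K hK h1 h2 h3

end Assembly

end Cfsg.Agent.Lib.DegKer
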