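import Cfsg.Agent.Lib.GLClass
import Mathlib

/-!
Counting classes of elements of prime order in `GL`.
-/

set_option linter.all false

open scoped MatrixGroups
open Polynomial UniqueFactorizationMonoid

noncomputable section

namespace Cfsg.Agent.Lib.GLPrimeOrd

/-- Multisets of bounded size. -/
theorem card_multiset_le {α : Type*} [Fintype α] [DecidableEq α] (M : ℕ) :
    Nat.card {m : Multiset α // Multiset.card m ≤ M} =
      Nat.choose (M + Fintype.card α) (Fintype.card α) := by
  classical
  have hsym : Nat.card (Sym (Option α) M) = Nat.choose (M + Fintype.card α) (Fintype.card α) := by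
    rw [Nat.card_eq_fintype_card, Sym.card_sym_eq_choose, Fintype.card_option]
    have : Fintype.card α + 1 + M - 1 = Fintype.card α + M := by omega
    rw [this, Nat.add_comm M, Nat.choose_symm_add]
  rw [← hsym]
  refine Nat.card_congr (Equiv.ofBijective (fun m => (⟨m.1.map some + Multiset.replicate (M - Multiset.card m.1) none, by
      have := m.2
      simp only [Multiset.card_add, Multiset.card_map, Multiset.card_replicate]
      omega⟩ : Sym (Option α) M)) ⟨?_, ?_⟩)
  · intro m m' h
    have h1 := congrArg Subtype.val h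
    apply Subtype.ext
    ext a
    have h2 := congrArg (Multiset.count (some a)) h1
    simp only [Multiset.count_add, Multiset.count_replicate] at h2
    rw [Multiset.count_map_eq_count' _ _ (Option.some_injective α), Multiset.count_map_eq_count' _ _ (Option.some_injective α)] at h2
    simpa using h2
  · intro s
    have key : ∀ s : Multiset (Option α), ∃ (m : Multiset α) (k : ℕ), s = m.map some + Multiset.replicate k none := by
      intro s
      induction s using Multiset.induction with
      | empty => exact ⟨0, 0, by simp⟩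
      | cons a s ih =>
        obtain ⟨m, k, rfl⟩ := ih
        cases a with
        | none => exact ⟨m, k + 1, by simp [Multiset.replicate_succ]⟩
        | some a => exact ⟨a ::ₘ m, k, by simp⟩
    obtain ⟨m, k, hs⟩ := key s.1
    have hc : Multiset.card m + k = M := by
      have := s.2
      rw [hs] at this
      simpa using this
    refine ⟨⟨m, by omega⟩, ?_⟩
    apply Subtype.ext
    show m.map some + Multiset.replicate (M - Multiset.card m) none = s.1
    rw [hs]
    congr 2
    omega

section poly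

variable {F : Type*} [Field F]

/-- Squarefree divisor criterion. -/
theorem dvd_of_squarefree {M b : F[X]} (hb : b ≠ 0) (hM : Squarefree M)
    (h : ∀ Q, Irreducible Q → Q ∣ M → Q ∣ b) : M ∣ b := by
  classical
  have hM0 : M ≠ 0 := hM.ne_zero
  rw [dvd_iff_normalizedFactors_le_normalizedFactors hM0 hb,
    Multiset.le_iff_subset ((squarefree_iff_nodup_normalizedFactors hM0).1 hM)]
  intro Q hQ
  obtain ⟨h1, h2, h3⟩ := (Polynomial.mem_normalizedFactors_iff hM0).1 hQ
  exact (Polynomial.mem_normalizedFactors_iff hb).2 ⟨h1, h2, h _ h1 h3⟩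

/-- Characteristic polynomial of a root of unity. -/
theorem charpoly_dvd_pow {n r : ℕ} (A : Matrix (Fin n) (Fin n) F) (hA : A ^ r = 1) :
    A.charpoly ∣ (X ^ r - 1) ^ n := by
  have hc : Commute (Matrix.scalar (Fin n) (X : F[X])) (C.mapMatrix A) :=
    Matrix.scalar_commute _ (fun r => Commute.all _ _) _
  have h := hc.geom_sum₂_mul r
  have h2 : (Matrix.scalar (Fin n) (X : F[X])) ^ r - (C.mapMatrix A) ^ r =
      Matrix.scalar (Fin n) (X ^ r - 1 : F[X]) := by
    rw [← map_pow, ← map_pow, hA, map_one, map_sub, map_pow, map_one]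
  rw [h2] at h
  have h3 := congrArg Matrix.det h
  rw [Matrix.det_mul] at h3
  have h4 : (Matrix.scalar (Fin n) (X ^ r - 1 : F[X])).det = (X ^ r - 1) ^ n := by
    rw [Matrix.scalar_apply, Matrix.det_diagonal]
    simp
  rw [h4] at h3
  have h5 : A.charpoly = ((Matrix.scalar (Fin n)) X - C.mapMatrix A).det := rfl
  rw [h5]
  exact Dvd.intro_left _ h3

/-- Divisors of the cyclotomic binomial have the order degree. -/
theorem natDegree_factor [Fintype F] {r i : ℕ} (hr : r.Prime)
    (hqr : ((Fintype.card F : ℕ) : ZMod r) ≠ 0)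
    (hi : i = orderOf ((Fintype.card F : ℕ) : ZMod r)) {P : F[X]} (hP : Irreducible P)
    (hm : P.Monic) (hd : P ∣ X ^ r - 1) (hne : P ≠ X - 1) : P.natDegree = i := by
  classical
  haveI : Fact (Irreducible P) := ⟨hP⟩
  haveI : Fact r.Prime := ⟨hr⟩
  set q := Fintype.card F with hq
  have hq2 : 1 < q := Fintype.one_lt_card
  have hpb := AdjoinRoot.powerBasis hP.ne_zero
  haveI : Module.Finite F (AdjoinRoot P) := (AdjoinRoot.powerBasis hP.ne_zero).finite
  haveI : Finite (AdjoinRoot P) := Module.finite_of_finite F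
  letI : Fintype (AdjoinRoot P) := Fintype.ofFinite _
  have hfr : Module.finrank F (AdjoinRoot P) = P.natDegree := by
    rw [(AdjoinRoot.powerBasis hP.ne_zero).finrank, AdjoinRoot.powerBasis_dim]
  have hcard : Fintype.card (AdjoinRoot P) = q ^ P.natDegree := by
    rw [Module.card_eq_pow_finrank (K := F), hfr]
  set α : AdjoinRoot P := AdjoinRoot.root P with hα
  have h1 : α ^ r = 1 := by
    have : AdjoinRoot.mk P (X ^ r - 1) = 0 := AdjoinRoot.mk_eq_zero.2 hd
    rw [map_sub, map_pow, AdjoinRoot.mk_X, map_one, sub_eq_zero] at this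
    exact this
  have hα1 : α ≠ 1 := by
    intro h
    have h2 : AdjoinRoot.mk P X = AdjoinRoot.mk P 1 := by
      rw [AdjoinRoot.mk_X, map_one]
      exact h
    have h3 : P ∣ X - 1 := AdjoinRoot.mk_eq_mk.1 h2
    have hirr : Irreducible (X - 1 : F[X]) := by
      simpa using irreducible_X_sub_C (1 : F)
    have h4 := hP.associated_of_dvd hirr h3
    exact hne (eq_of_monic_of_associated hm (by simpa using monic_X_sub_C (1 : F)) h4)
  have hα0 : α ≠ 0 := by
    intro h
    rw [h, zero_pow hr.ne_zero] at h1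
    exact zero_ne_one h1
  have hord : orderOf α = r := orderOf_eq_prime h1 hα1
  have hq1 : ∀ k, 1 ≤ q ^ k := fun k => Nat.one_le_pow _ _ (by omega)
  -- the order divides the degree
  have h2 : r ∣ q ^ P.natDegree - 1 := by
    rw [← hord, ← hcard]
    exact orderOf_dvd_of_pow_eq_one (FiniteField.pow_card_sub_one_eq_one α hα0)
  have h3 : ((q : ℕ) : ZMod r) ^ P.natDegree = 1 := by
    have h4 := (ZMod.natCast_eq_zero_iff _ _).2 h2
    rw [Nat.cast_sub (hq1 _), Nat.cast_pow, Nat.cast_one, sub_eq_zero] at h4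
    exact h4
  have hi1 : i ∣ P.natDegree := hi ▸ orderOf_dvd_of_pow_eq_one h3
  have hdeg : 0 < P.natDegree := hP.natDegree_pos
  have hile : i ≤ P.natDegree := Nat.le_of_dvd hdeg hi1
  have hipos : 0 < i := by
    rw [hi]
    apply Nat.pos_of_dvd_of_pos (orderOf_dvd_of_pow_eq_one (ZMod.pow_card_sub_one_eq_one hqr))
    have := hr.two_le
    omega
  -- the degree is bounded by the order
  have h5 : ((q : ℕ) : ZMod r) ^ i = 1 := by
    rw [hi]
    exact pow_orderOf_eq_one _
  have h6 : r ∣ q ^ i - 1 := by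
    rw [← ZMod.natCast_eq_zero_iff, Nat.cast_sub (hq1 _), Nat.cast_pow, Nat.cast_one, h5, sub_self]
  obtain ⟨k, hk⟩ := h6
  have h7 : α ^ (q ^ i) = α := by
    have : q ^ i = r * k + 1 := by
      have := hq1 i
      omega
    rw [this, pow_succ, pow_mul, h1, one_pow, one_mul]
  have hpow : ∀ (j : ℕ) (y : AdjoinRoot P), ((FiniteField.frobeniusAlgHom F (AdjoinRoot P)) ^ j) y = y ^ (q ^ j) := by
    intro j y
    induction j with
    | zero => simp
    | succ j ih =>
      rw [pow_succ', AlgHom.mul_apply, ih]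
      show (y ^ q ^ j) ^ q = _
      rw [← pow_mul, pow_succ]
  have hid : (FiniteField.frobeniusAlgHom F (AdjoinRoot P)) ^ i = AlgHom.id F (AdjoinRoot P) := by
    apply AdjoinRoot.algHom_ext
    rw [hpow]
    exact h7
  have hall : ∀ y : AdjoinRoot P, y ^ (q ^ i) = y := by
    intro y
    rw [← hpow, hid]
    rfl
  have hqi : 1 < q ^ i := Nat.one_lt_pow hipos.ne' hq2
  have hdeg2 : ((X : (AdjoinRoot P)[X]) ^ (q ^ i) - X).natDegree = q ^ i :=
    FiniteField.X_pow_card_sub_X_natDegree_eq _ hqi
  have hne0 : ((X : (AdjoinRoot P)[X]) ^ (q ^ i) - X) ≠ 0 := by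
    intro h
    rw [h, natDegree_zero] at hdeg2
    omega
  have hle : Fintype.card (AdjoinRoot P) ≤ q ^ i := by
    calc Fintype.card (AdjoinRoot P) = (Finset.univ : Finset (AdjoinRoot P)).card := rfl
      _ ≤ ((X : (AdjoinRoot P)[X]) ^ (q ^ i) - X).roots.toFinset.card := by
          apply Finset.card_le_card
          intro y _
          rw [Multiset.mem_toFinset, mem_roots hne0]
          simp [hall y]
      _ ≤ Multiset.card ((X : (AdjoinRoot P)[X]) ^ (q ^ i) - X).roots := Multiset.toFinset_card_le _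
      _ ≤ _ := by
          have := card_roots' ((X : (AdjoinRoot P)[X]) ^ (q ^ i) - X)
          omega
  rw [hcard] at hle
  have : P.natDegree ≤ i := (Nat.pow_le_pow_iff_right hq2).1 hle
  omega

end poly

section main

variable {F : Type*} [Field F] [Fintype F]

/-- Conjugacy classes of order `r` correspond to polynomials. -/
theorem card_classes_eq {p : ℕ} [Fact p.Prime] [CharP F p] (n r : ℕ) (hr : r.Prime) (hrp : r ≠ p) :
    Nat.card {C : ConjClasses (GL (Fin n) F) // ∃ g : GL (Fin n) F, ConjClasses.mk g = C ∧ orderOf g = r} =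
      Nat.card {f : F[X] // f.Monic ∧ f.natDegree = n ∧ (∀ Q, Irreducible Q → Q ∣ f → Q ∣ X ^ r - 1) ∧ f ≠ (X - 1) ^ n} := by
  classical
  have hb0 : (X ^ r - 1 : F[X]) ≠ 0 := by
    have := monic_X_pow_sub_C (1 : F) hr.ne_zero
    rw [C_1] at this
    exact this.ne_zero
  have hone : (((1 : GL (Fin n) F) : Matrix (Fin n) (Fin n) F)).charpoly = (X - 1) ^ n := by
    rw [Units.val_one, Matrix.charpoly_one, Fintype.card_fin]
  have hex : ∀ f : {f : F[X] // f.Monic ∧ f.natDegree = n ∧ (∀ Q, Irreducible Q → Q ∣ f → Q ∣ X ^ r - 1) ∧ f ≠ (X - 1) ^ n}, ∃ x : GL (Fin n) F,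
      (x : Matrix (Fin n) (Fin n) F).charpoly = f.1 ∧ orderOf x = r := by
    rintro ⟨f, hf, hd, hQ, hne⟩
    have h0 : f.coeff 0 ≠ 0 := by
      intro h
      have h1 : (X : F[X]) ∣ f := X_dvd_iff.2 h
      have h2 : (X : F[X]) ∣ X ^ r - 1 := hQ _ irreducible_X h1
      have h3 := X_dvd_iff.1 h2
      simp [coeff_X_pow, hr.ne_zero.symm] at h3
    obtain ⟨x, hx1, hx2⟩ := GLClass.exists_element (p := p) f hf hd h0
    have hNpos : 0 < orderOf x := orderOf_pos x
    have hNp : ((orderOf x : ℕ) : F) ≠ 0 := by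
      intro h
      rw [CharP.cast_eq_zero_iff F p] at h
      have h1 := Nat.Coprime.eq_one_of_dvd hx2.symm h
      exact (Fact.out : p.Prime).one_lt.ne' h1
    have hsep : (X ^ orderOf x - C (1 : F)).Separable := separable_X_pow_sub_C 1 hNp one_ne_zero
    have hpowx : (x : Matrix (Fin n) (Fin n) F) ^ orderOf x = 1 := by
      rw [← Units.val_pow_eq_pow_val, pow_orderOf_eq_one, Units.val_one]
    have hM1 : minpoly F (x : Matrix (Fin n) (Fin n) F) ∣ X ^ orderOf x - C 1 := minpoly.dvd F _ (by
      simp [hpowx])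
    have hsq : Squarefree (minpoly F (x : Matrix (Fin n) (Fin n) F)) := hsep.squarefree.squarefree_of_dvd hM1
    have hM2 : minpoly F (x : Matrix (Fin n) (Fin n) F) ∣ f := hx1 ▸ Matrix.minpoly_dvd_charpoly _
    have hM3 : minpoly F (x : Matrix (Fin n) (Fin n) F) ∣ X ^ r - 1 :=
      dvd_of_squarefree hb0 hsq (fun Q h1 h2 => hQ Q h1 (h2.trans hM2))
    have h4 : aeval (x : Matrix (Fin n) (Fin n) F) (X ^ r - 1 : F[X]) = 0 := by
      obtain ⟨c, hc⟩ := hM3
      rw [hc, map_mul, minpoly.aeval, zero_mul]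
    have h5 : (x : Matrix (Fin n) (Fin n) F) ^ r = 1 := by
      simpa [sub_eq_zero] using h4
    have h6 : x ^ r = 1 := Units.ext (by rw [Units.val_pow_eq_pow_val, h5, Units.val_one])
    have h7 := orderOf_dvd_of_pow_eq_one h6
    rcases (Nat.dvd_prime hr).1 h7 with h8 | h8
    · exfalso
      have h9 : x = 1 := orderOf_eq_one_iff.1 h8
      apply hne
      rw [← hx1, h9, hone]
    · exact ⟨x, hx1, h8⟩
  choose x hx1 hx2 using hex
  have hcop : ∀ y : GL (Fin n) F, orderOf y = r → (orderOf y).Coprime p := by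
    intro y hy
    rw [hy]
    exact (Nat.coprime_primes hr Fact.out).2 hrp
  symm
  refine Nat.card_congr (Equiv.ofBijective (fun f => ⟨ConjClasses.mk (x f), x f, rfl, hx2 f⟩) ⟨?_, ?_⟩)
  · intro f f' h
    have h1 : ConjClasses.mk (x f) = ConjClasses.mk (x f') := congrArg Subtype.val h
    obtain ⟨c, hc⟩ := isConj_iff.1 (ConjClasses.mk_eq_mk_iff_isConj.1 h1)
    apply Subtype.ext
    rw [← hx1 f, ← hx1 f', ← hc]
    have := Matrix.charpoly_units_conj (c : (Matrix (Fin n) (Fin n) F)ˣ) (x f : Matrix (Fin n) (Fin n) F)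
    rw [Units.val_mul, Units.val_mul, Matrix.coe_units_inv]
    exact this.symm
  · rintro ⟨c, g, rfl, hg⟩
    have hgr : (g : Matrix (Fin n) (Fin n) F) ^ r = 1 := by
      rw [← Units.val_pow_eq_pow_val, ← hg, pow_orderOf_eq_one, Units.val_one]
    refine ⟨⟨(g : Matrix (Fin n) (Fin n) F).charpoly, Matrix.charpoly_monic _, by
      rw [Matrix.charpoly_natDegree_eq_dim, Fintype.card_fin], ?_, ?_⟩, ?_⟩
    · intro Q hQ hQd
      exact hQ.prime.dvd_of_dvd_pow (hQd.trans (charpoly_dvd_pow _ hgr))
    · intro h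
      have h1 : IsConj g 1 := GLClass.conj_of_charpoly (p := p) g 1 (hcop g hg) (by simp) (by rw [h, hone])
      have h2 : g = 1 := isConj_one_right.1 h1.symm
      rw [h2, orderOf_one] at hg
      exact hr.one_lt.ne hg
    · apply Subtype.ext
      exact ConjClasses.mk_eq_mk_iff_isConj.2 (GLClass.conj_of_charpoly (p := p) _ _ (hcop _ (hx2 _)) (hcop _ hg) (hx1 _))

/-- Removing one point. -/
theorem card_subtype_ne' {γ : Type*} [Finite γ] (a : γ) : Nat.card {x // x ≠ a} = Nat.card γ - 1 := by
  classical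
  letI := Fintype.ofFinite γ
  rw [Nat.card_eq_fintype_card, Nat.card_eq_fintype_card]
  exact Set.card_ne_eq a

/-- The polynomial count. -/
theorem card_polys {n r i t : ℕ} (hr : r.Prime) (hrF : (r : F) ≠ 0)
    (hqr : ((Fintype.card F : ℕ) : ZMod r) ≠ 0) (hi : i = orderOf ((Fintype.card F : ℕ) : ZMod r))
    (ht : t * i = r - 1) :
    Nat.card {f : F[X] // f.Monic ∧ f.natDegree = n ∧ (∀ Q, Irreducible Q → Q ∣ f → Q ∣ X ^ r - 1) ∧ f ≠ (X - 1) ^ n} =
      Nat.choose (n / i + t) t - 1 := by
  classical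
  haveI : Fact r.Prime := ⟨hr⟩
  have hbm : (X ^ r - 1 : F[X]).Monic := by
    have := monic_X_pow_sub_C (1 : F) hr.ne_zero
    rwa [C_1] at this
  have hb0 : (X ^ r - 1 : F[X]) ≠ 0 := hbm.ne_zero
  have hipos : 0 < i := by
    rw [hi]
    apply Nat.pos_of_dvd_of_pos (orderOf_dvd_of_pow_eq_one (ZMod.pow_card_sub_one_eq_one hqr))
    have := hr.two_le
    omega
  have hirr1 : Irreducible (X - 1 : F[X]) := by simpa using irreducible_X_sub_C (1 : F)
  have hm1 : (X - 1 : F[X]).Monic := by simpa using monic_X_sub_C (1 : F)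
  have hd1 : (X - 1 : F[X]) ∣ X ^ r - 1 := by simpa using sub_dvd_pow_sub_pow (X : F[X]) 1 r
  have hsep : (X ^ r - 1 : F[X]).Separable := by
    have := separable_X_pow_sub_C (1 : F) hrF one_ne_zero
    rwa [C_1] at this
  have hnd : (normalizedFactors (X ^ r - 1 : F[X])).Nodup :=
    (squarefree_iff_nodup_normalizedFactors hb0).1 hsep.squarefree
  set FS := (normalizedFactors (X ^ r - 1 : F[X])).toFinset with hFS
  have hmemFS : ∀ P, P ∈ FS ↔ Irreducible P ∧ P.Monic ∧ P ∣ X ^ r - 1 := by
    intro P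
    rw [hFS, Multiset.mem_toFinset, Polynomial.mem_normalizedFactors_iff hb0]
  have h1FS : (X - 1 : F[X]) ∈ FS := (hmemFS _).2 ⟨hirr1, hm1, hd1⟩
  set S := FS.erase (X - 1) with hS
  have hmemS : ∀ P ∈ S, Irreducible P ∧ P.Monic ∧ P ∣ X ^ r - 1 ∧ P ≠ X - 1 ∧ P.natDegree = i := by
    intro P hP
    obtain ⟨h1, h2⟩ := Finset.mem_erase.1 hP
    obtain ⟨h3, h4, h5⟩ := (hmemFS P).1 h2
    exact ⟨h3, h4, h5, h1, natDegree_factor hr hqr hi h3 h4 h5 h1⟩
  have hprod0 : ∀ f : F[X], f.Monic → (normalizedFactors f).prod = f := by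
    intro f hf
    have := leadingCoeff_mul_prod_normalizedFactors f
    rwa [hf.leadingCoeff, C_1, one_mul] at this
  have hcardS : S.card = t := by
    have h2 : r = ∑ P ∈ FS, P.natDegree := by
      have h3 : (X ^ r - 1 : F[X]).natDegree = r := by
        have := natDegree_X_pow_sub_C (n := r) (r := (1 : F))
        rwa [C_1] at this
      conv_lhs => rw [← h3, ← hprod0 _ hbm]
      rw [natDegree_multiset_prod_of_monic _ (fun f hf => ((Polynomial.mem_normalizedFactors_iff hb0).1 hf).2.1),
        Finset.sum_eq_multiset_sum, hFS, Multiset.toFinset_val, hnd.dedup]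
    have h4 : ∑ P ∈ FS, P.natDegree = 1 + S.card * i := by
      rw [← Finset.insert_erase h1FS, Finset.sum_insert (Finset.notMem_erase _ _),
        Finset.sum_const_nat (fun P hP => (hmemS P hP).2.2.2.2)]
      congr 1
      simpa using natDegree_X_sub_C (1 : F)
    have h5 : S.card * i = t * i := by
      rw [ht]
      omega
    exact Nat.eq_of_mul_eq_mul_right hipos h5
  let Φ : ℕ → Multiset S → F[X] := fun k m => (X - 1) ^ k * (m.map Subtype.val).prod
  have hΦprod : ∀ k m, Φ k m = (Multiset.replicate k (X - 1 : F[X]) + m.map Subtype.val).prod := by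
    intro k m
    simp only [Φ, Multiset.prod_add, Multiset.prod_replicate]
  have hmonprod : ∀ m : Multiset S, (m.map Subtype.val).prod.Monic := fun m =>
    monic_multiset_prod_of_monic _ _ (fun a _ => (hmemS a.1 a.2).2.1)
  have hmon : ∀ k m, (Φ k m).Monic := fun k m => (hm1.pow k).mul (hmonprod m)
  have hdeg : ∀ k m, (Φ k m).natDegree = k + i * Multiset.card m := by
    intro k m
    have h1 : (X - 1 : F[X]).natDegree = 1 := by simpa using natDegree_X_sub_C (1 : F)
    simp only [Φ]
    rw [(hm1.pow k).natDegree_mul (hmonprod m), hm1.natDegree_pow, h1, mul_one,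
      natDegree_multiset_prod_of_monic _ (by
        intro f hf
        obtain ⟨a, _, rfl⟩ := Multiset.mem_map.1 hf
        exact (hmemS a.1 a.2).2.1), Multiset.map_map,
      Multiset.map_congr rfl (fun a _ => (hmemS a.1 a.2).2.2.2.2), Multiset.map_const', Multiset.sum_replicate,
      smul_eq_mul, mul_comm i]
  have hnf : ∀ k m, normalizedFactors (Φ k m) = Multiset.replicate k (X - 1 : F[X]) + m.map Subtype.val := by
    intro k m
    have hmem : ∀ a ∈ Multiset.replicate k (X - 1 : F[X]) + m.map Subtype.val, Irreducible a ∧ a.Monic := by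
      intro a ha
      rcases Multiset.mem_add.1 ha with h | h
      · rw [Multiset.eq_of_mem_replicate h]
        exact ⟨hirr1, hm1⟩
      · obtain ⟨a', _, rfl⟩ := Multiset.mem_map.1 h
        exact ⟨(hmemS a'.1 a'.2).1, (hmemS a'.1 a'.2).2.1⟩
    rw [hΦprod, normalizedFactors_prod_eq _ (fun a ha => (hmem a ha).1)]
    calc Multiset.map normalize (Multiset.replicate k (X - 1 : F[X]) + m.map Subtype.val)
        = Multiset.map id (Multiset.replicate k (X - 1 : F[X]) + m.map Subtype.val) :=
          Multiset.map_congr rfl (fun a ha => (hmem a ha).2.normalize_eq_self)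
      _ = _ := Multiset.map_id _
  have hdvd : ∀ k m Q, Irreducible Q → Q ∣ Φ k m → Q ∣ X ^ r - 1 := by
    intro k m Q hQ h
    rcases hQ.prime.dvd_or_dvd h with h1 | h1
    · exact (hQ.prime.dvd_of_dvd_pow h1).trans hd1
    · obtain ⟨a, ha, hQa⟩ := hQ.prime.exists_mem_multiset_dvd h1
      obtain ⟨a', _, rfl⟩ := Multiset.mem_map.1 ha
      exact hQa.trans (hmemS a'.1 a'.2).2.2.1
  have hinj : ∀ k m k' m', Φ k m = Φ k' m' → m = m' := by
    intro k m k' m' h
    have h1 := congrArg normalizedFactors h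
    rw [hnf, hnf] at h1
    ext a
    have h2 := congrArg (Multiset.count a.1) h1
    simp only [Multiset.count_add, Multiset.count_replicate] at h2
    rw [Multiset.count_map_eq_count' _ _ Subtype.val_injective, Multiset.count_map_eq_count' _ _ Subtype.val_injective] at h2
    have h3 : (X - 1 : F[X]) ≠ a.1 := (hmemS a.1 a.2).2.2.2.1.symm
    simpa [h3] using h2
  have hsurj : ∀ f : F[X], f.Monic → (∀ Q, Irreducible Q → Q ∣ f → Q ∣ X ^ r - 1) → ∃ k m, f = Φ k m := by
    intro f hf hQ
    have hf0 := hf.ne_zero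
    have hsub : ∀ P ∈ normalizedFactors f, P ≠ X - 1 → P ∈ S := by
      intro P hP hne
      obtain ⟨h1, h2, h3⟩ := (Polynomial.mem_normalizedFactors_iff hf0).1 hP
      exact Finset.mem_erase.2 ⟨hne, (hmemFS P).2 ⟨h1, h2, hQ P h1 h3⟩⟩
    let m : Multiset S := ((normalizedFactors f).filter (· ≠ X - 1)).pmap (fun P hP => ⟨P, hP⟩) (by
      intro P hP
      obtain ⟨h1, h2⟩ := Multiset.mem_filter.1 hP
      exact hsub P h1 h2)
    have hm : m.map Subtype.val = (normalizedFactors f).filter (· ≠ X - 1) := by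
      simp [m, Multiset.map_pmap, Multiset.pmap_eq_map]
    have hs : normalizedFactors f = Multiset.replicate (Multiset.count (X - 1) (normalizedFactors f)) (X - 1) + m.map Subtype.val := by
      rw [hm, ← Multiset.filter_eq']
      exact (Multiset.filter_add_not (· = X - 1) _).symm
    refine ⟨Multiset.count (X - 1) (normalizedFactors f), m, ?_⟩
    rw [hΦprod, ← hs, hprod0 f hf]
  have hzero : ∀ k, Φ k 0 = (X - 1) ^ k := by
    intro k
    simp [Φ]
  have hcount := card_multiset_le (α := S) (n / i)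
  rw [Fintype.card_coe, hcardS] at hcount
  have hposC : Nat.card {m : Multiset S // Multiset.card m ≤ n / i} ≠ 0 := by
    rw [hcount]
    exact (Nat.choose_pos (Nat.le_add_left _ _)).ne'
  haveI : Finite {m : Multiset S // Multiset.card m ≤ n / i} := Nat.finite_of_card_ne_zero hposC
  rw [← hcount, ← card_subtype_ne' (⟨0, by simp⟩ : {m : Multiset S // Multiset.card m ≤ n / i})]
  have hle : ∀ c, c ≤ n / i ↔ i * c ≤ n := by
    intro c
    rw [Nat.le_div_iff_mul_le hipos, mul_comm]
  symm
  refine Nat.card_congr (Equiv.ofBijective (fun m => ⟨Φ (n - i * Multiset.card m.1.1) m.1.1, hmon _ _, ?_, hdvd _ _, ?_⟩) ⟨?_, ?_⟩)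
  · rw [hdeg]
    have := (hle _).1 m.1.2
    omega
  · intro h
    rw [← hzero] at h
    apply m.2
    apply Subtype.ext
    exact hinj _ _ _ _ h
  · intro m m' h
    have h1 := congrArg Subtype.val h
    apply Subtype.ext
    apply Subtype.ext
    exact hinj _ _ _ _ h1
  · rintro ⟨f, hf, hd, hQ, hne⟩
    obtain ⟨k, m, rfl⟩ := hsurj f hf hQ
    rw [hdeg] at hd
    have hcm : Multiset.card m ≤ n / i := (hle _).2 (by omega)
    have hk : n - i * Multiset.card m = k := by omega
    refine ⟨⟨⟨m, hcm⟩, ?_⟩, ?_⟩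
    · intro h
      have h1 : m = 0 := congrArg Subtype.val h
      apply hne
      rw [h1, hzero]
      rw [h1] at hd
      simp at hd
      rw [hd]
    · apply Subtype.ext
      show Φ (n - i * Multiset.card m) m = Φ k m
      rw [hk]

/-- The number of classes of elements of order `r`. -/
theorem card_prime_order_classes {p : ℕ} [Fact p.Prime] [CharP F p] (n r i t : ℕ) (hr : r.Prime) (hrp : r ≠ p)
    (hi : i = orderOf ((Fintype.card F : ℕ) : ZMod r)) (ht : t * i = r - 1) :
    Nat.card {C : ConjClasses (GL (Fin n) F) // ∃ g : GL (Fin n) F, ConjClasses.mk g = C ∧ orderOf g = r} =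
      Nat.choose (n / i + t) t - 1 := by
  have hrF : (r : F) ≠ 0 := by
    intro h
    rw [CharP.cast_eq_zero_iff F p] at h
    exact hrp ((Nat.prime_dvd_prime_iff_eq Fact.out hr).1 h).symm
  have hqr : ((Fintype.card F : ℕ) : ZMod r) ≠ 0 := by
    intro h
    rw [ZMod.natCast_eq_zero_iff] at h
    obtain ⟨k, hp, hk⟩ := FiniteField.card F p
    rw [hk] at h
    exact hrp ((Nat.prime_dvd_prime_iff_eq hr Fact.out).1 (hr.dvd_of_dvd_pow h))
  rw [card_classes_eq (p := p) n r hr hrp, card_polys hr hrF hqr hi ht]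

end main

end Cfsg.Agent.Lib.GLPrimeOrd
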