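/-
Dual polynomials for a field automorphism and counts of self-dual polynomials.
-/
import Mathlib
import Cfsg.Agent.Lib.GLPrimeOrd

set_option autoImplicit false
set_option linter.all false

noncomputable section

namespace Cfsg.Agent.Lib.DualPoly

open Polynomial UniqueFactorizationMonoid

universe u

variable {K : Type u} [Field K]

/-- The dual polynomial. -/
def dual (σ : K ≃+* K) (f : K[X]) : K[X] := C (σ (f.coeff 0))⁻¹ * (reverse f).map (σ : K →+* K)

theorem dual_mul (σ : K ≃+* K) (f g : K[X]) : dual σ (f * g) = dual σ f * dual σ g := by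
  unfold dual
  rw [reverse_mul_of_domain, Polynomial.map_mul, mul_coeff_zero, map_mul, mul_inv, C_mul]
  ring

theorem rev_rev (f : K[X]) (h0 : f.coeff 0 ≠ 0) : reverse (reverse f) = f := by
  ext k
  have h1 : (reverse f).natDegree = f.natDegree := by
    rw [reverse_natDegree]
    have : f.natTrailingDegree = 0 := by
      rw [natTrailingDegree_eq_zero]
      exact Or.inr h0
    omega
  rw [coeff_reverse, coeff_reverse, h1, revAt_invol]

theorem rev_map (σ : K ≃+* K) (f : K[X]) : reverse (f.map (σ : K →+* K)) = (reverse f).map (σ : K →+* K) := by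
  ext k
  rw [coeff_reverse, natDegree_map, coeff_map, coeff_map, coeff_reverse]

theorem natDegree_rev (f : K[X]) (h0 : f.coeff 0 ≠ 0) : (reverse f).natDegree = f.natDegree := by
  rw [reverse_natDegree]
  have : f.natTrailingDegree = 0 := by
    rw [natTrailingDegree_eq_zero]
    exact Or.inr h0
  omega

theorem natDegree_dual (σ : K ≃+* K) (f : K[X]) (h0 : f.coeff 0 ≠ 0) : (dual σ f).natDegree = f.natDegree := by
  unfold dual
  rw [natDegree_C_mul (inv_ne_zero (by simpa using h0)), natDegree_map, natDegree_rev f h0]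

theorem monic_dual (σ : K ≃+* K) (f : K[X]) (h0 : f.coeff 0 ≠ 0) : (dual σ f).Monic := by
  have h1 : (reverse f).leadingCoeff = f.coeff 0 := by
    rw [leadingCoeff, natDegree_rev f h0, coeff_reverse, revAt_le le_rfl, Nat.sub_self]
  unfold dual Monic
  rw [leadingCoeff_mul, leadingCoeff_C, leadingCoeff_map, h1]
  exact inv_mul_cancel₀ (by simpa using h0)

theorem coeff_zero_dual (σ : K ≃+* K) (f : K[X]) (hm : f.Monic) : (dual σ f).coeff 0 = (σ (f.coeff 0))⁻¹ := by
  unfold dual
  rw [coeff_C_mul, coeff_map, coeff_zero_reverse, hm.leadingCoeff]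
  simp

theorem dual_dual (σ : K ≃+* K) (hσ2 : ∀ a, σ (σ a) = a) (f : K[X]) (hm : f.Monic) (h0 : f.coeff 0 ≠ 0) :
    dual σ (dual σ f) = f := by
  have h1 : reverse (C (σ (f.coeff 0))⁻¹ * (reverse f).map (σ : K →+* K)) = C (σ (f.coeff 0))⁻¹ * f.map (σ : K →+* K) := by
    rw [reverse_mul_of_domain, reverse_C, rev_map, rev_rev f h0]
  have hmm : ∀ g : K[X], (g.map (σ : K →+* K)).map (σ : K →+* K) = g := by
    intro g
    ext k
    simp [hσ2]
  have h2 : dual σ (dual σ f) = C (σ ((dual σ f).coeff 0))⁻¹ * (reverse (dual σ f)).map (σ : K →+* K) := rfl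
  rw [h2, coeff_zero_dual σ f hm]
  change C (σ (σ (f.coeff 0))⁻¹)⁻¹ * (reverse (C (σ (f.coeff 0))⁻¹ * (reverse f).map (σ : K →+* K))).map (σ : K →+* K) = f
  rw [h1, Polynomial.map_mul, map_C, hmm, ← mul_assoc, ← C_mul]
  simp [hσ2, map_inv₀]
  rw [← C_mul, mul_inv_cancel₀ h0]
  simp

theorem dual_X_sub_one (σ : K ≃+* K) : dual σ (X - 1) = X - 1 := by
  have h1 : reverse (X - C (1 : K)) = C (-1) * (X - C 1) := by
    ext k
    rw [coeff_reverse, natDegree_X_sub_C, coeff_C_mul]
    rcases k with _ | _ | k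
    · simp [revAt_le, coeff_X, coeff_C, coeff_one]
    · simp [revAt_le, coeff_X, coeff_C, coeff_one]
    · have h : revAt 1 (k + 2) = k + 2 := revAt_eq_self_of_lt (by omega)
      rw [h]
      simp [coeff_X, coeff_C, coeff_one]
  have h2 : (X - 1 : K[X]) = X - C 1 := by simp
  rw [h2]
  unfold dual
  rw [h1]
  simp [coeff_X, coeff_C]

theorem dual_X_pow_sub_one (σ : K ≃+* K) {r : ℕ} (hr : 0 < r) : dual σ (X ^ r - 1) = X ^ r - 1 := by
  have hd : (X ^ r - 1 : K[X]).natDegree = r := by
    have := natDegree_X_pow_sub_C (n := r) (r := (1 : K))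
    rwa [C_1] at this
  have h1 : reverse (X ^ r - 1 : K[X]) = C (-1) * (X ^ r - 1) := by
    ext k
    rw [coeff_reverse, hd, coeff_C_mul]
    by_cases hk : k ≤ r
    · rw [revAt_le hk]
      rcases Nat.eq_zero_or_pos k with rfl | hk0
      · simp [coeff_X_pow, coeff_one, hr.ne', hr.ne]
      · by_cases hkr : k = r
        · subst hkr
          simp [coeff_X_pow, coeff_one, hr.ne', hr.ne]
        · have h3 : r - k ≠ r := by omega
          have h4 : r - k ≠ 0 := by omega
          have h5 : k ≠ 0 := by omega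
          simp [coeff_X_pow, coeff_one, h3, h4, h5, hkr]
    · rw [revAt_eq_self_of_lt (by omega)]
      have h3 : k ≠ r := by omega
      have h4 : k ≠ 0 := by omega
      simp [coeff_X_pow, coeff_one, h3, h4]
  unfold dual
  rw [h1]
  have h0 : (X ^ r - 1 : K[X]).coeff 0 = -1 := by
    simp [coeff_X_pow, coeff_one, hr.ne]
  rw [h0]
  simp

theorem dual_dvd (σ : K ≃+* K) {P f : K[X]} (h : P ∣ f) : dual σ P ∣ dual σ f := by
  obtain ⟨g, rfl⟩ := h
  rw [dual_mul]
  exact dvd_mul_right _ _

theorem irreducible_dual (σ : K ≃+* K) (hσ2 : ∀ a, σ (σ a) = a) {P : K[X]} (hP : Irreducible P) (hm : P.Monic)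
    (h0 : P.coeff 0 ≠ 0) : Irreducible (dual σ P) := by
  have hm' := monic_dual σ P h0
  rw [Monic.irreducible_iff_natDegree' hm']
  have hP' := (Monic.irreducible_iff_natDegree' hm).1 hP
  refine ⟨?_, ?_⟩
  · intro h
    have h1 := natDegree_dual σ P h0
    rw [h, natDegree_one] at h1
    exact hP.natDegree_pos.ne h1
  · intro f g hf hg hfg
    have hz : (f * g).coeff 0 ≠ 0 := by
      rw [hfg, coeff_zero_dual σ P hm]
      exact inv_ne_zero (by simpa using h0)
    rw [mul_coeff_zero] at hz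
    have hf0 : f.coeff 0 ≠ 0 := left_ne_zero_of_mul hz
    have hg0 : g.coeff 0 ≠ 0 := right_ne_zero_of_mul hz
    have h1 : dual σ f * dual σ g = P := by
      rw [← dual_mul, hfg, dual_dual σ hσ2 P hm h0]
    have h2 := hP'.2 _ _ (monic_dual σ f hf0) (monic_dual σ g hg0) h1
    rw [natDegree_dual σ g hg0, ← natDegree_dual σ P h0] at h2
    exact h2

section count

variable [Fintype K]

theorem dual_one (σ : K ≃+* K) : dual σ (1 : K[X]) = 1 := by
  have h : reverse (1 : K[X]) = 1 := by
    have := reverse_C (1 : K)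
    simpa using this
  unfold dual
  rw [h]
  simp

theorem dual_pow (σ : K ≃+* K) (f : K[X]) (k : ℕ) : dual σ (f ^ k) = dual σ f ^ k := by
  induction k with
  | zero => simp [dual_one]
  | succ k ih => rw [pow_succ, dual_mul, ih, pow_succ]

/-- A monic irreducible factor. -/
theorem exists_monic_factor (f : K[X]) (hf : f.Monic) (hd0 : f.natDegree ≠ 0) :
    ∃ P : K[X], Irreducible P ∧ P.Monic ∧ P ∣ f := by
  obtain ⟨P, hPm, hP, hPd⟩ := Polynomial.exists_monic_irreducible_factor f (by
    intro h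
    have h1 := natDegree_eq_zero_of_isUnit h
    exact hd0 h1)
  exact ⟨P, hP, hPm, hPd⟩

/-- If every factor is self-dual, every polynomial is self-dual. -/
theorem dual_of_all (σ : K ≃+* K) {r : ℕ} (hr : 0 < r) (hall : ∀ P : K[X], Irreducible P → P.Monic → P ∣ X ^ r - 1 → P ≠ X - 1 → dual σ P = P) :
    ∀ (d : ℕ) (f : K[X]), f.Monic → f.natDegree = d → (∀ Q, Irreducible Q → Q ∣ f → Q ∣ X ^ r - 1) → dual σ f = f := by
  classical
  intro d
  induction d using Nat.strong_induction_on with
  | _ d ih =>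
    intro f hf hd hQ
    by_cases hd0 : f.natDegree = 0
    · have h1 : f = 1 := eq_one_of_monic_natDegree_zero hf hd0
      rw [h1, dual_one]
    · obtain ⟨P, hP, hPm, g, rfl⟩ := exists_monic_factor f hf hd0
      have hgm : g.Monic := Monic.of_mul_monic_left hPm hf
      have hdeg : (P * g).natDegree = P.natDegree + g.natDegree := hPm.natDegree_mul hgm
      have hg := ih g.natDegree (by have := hP.natDegree_pos; omega) g hgm rfl
        (fun Q hQi hQg => hQ Q hQi (hQg.trans (dvd_mul_left _ _)))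
      rw [dual_mul, hg]
      by_cases h1 : P = X - 1
      · rw [h1, dual_X_sub_one]
      · rw [hall P hP hPm (hQ P hP (dvd_mul_right _ _)) h1]

/-- The count when all factors are self-dual. -/
theorem card_dual_all (σ : K ≃+* K) {n r i t : ℕ} (hr : r.Prime) (hrF : (r : K) ≠ 0)
    (hqr : ((Fintype.card K : ℕ) : ZMod r) ≠ 0) (hi : i = orderOf ((Fintype.card K : ℕ) : ZMod r))
    (ht : t * i = r - 1)
    (hall : ∀ P : K[X], Irreducible P → P.Monic → P ∣ X ^ r - 1 → P ≠ X - 1 → dual σ P = P) :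
    Nat.card {f : K[X] // f.Monic ∧ f.natDegree = n ∧ (∀ Q, Irreducible Q → Q ∣ f → Q ∣ X ^ r - 1) ∧ dual σ f = f ∧ f ≠ (X - 1) ^ n} =
      Nat.choose (n / i + t) t - 1 := by
  rw [← Cfsg.Agent.Lib.GLPrimeOrd.card_polys (n := n) hr hrF hqr hi ht]
  apply Nat.card_congr
  refine Equiv.subtypeEquivRight ?_
  intro f
  constructor
  · rintro ⟨h1, h2, h3, -, h5⟩
    exact ⟨h1, h2, h3, h5⟩
  · rintro ⟨h1, h2, h3, h5⟩
    exact ⟨h1, h2, h3, dual_of_all σ hr.pos hall _ f h1 rfl h3, h5⟩

/-- A half system for a fixed-point-free involution. -/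
theorem exists_half {α : Type*} [Fintype α] [DecidableEq α] (star : α → α) (h2 : ∀ a, star (star a) = a)
    (hne : ∀ a, star a ≠ a) : ∃ s : Finset α, (∀ a, a ∈ s ↔ star a ∉ s) ∧ 2 * s.card = Fintype.card α := by
  classical
  let rk : α → ℕ := fun a => (Fintype.equivFin α a : ℕ)
  have hrk : ∀ a b, rk a = rk b → a = b := by
    intro a b h
    exact (Fintype.equivFin α).injective (Fin.ext h)
  let s : Finset α := Finset.univ.filter (fun a => rk a < rk (star a))
  have hmem : ∀ a, a ∈ s ↔ rk a < rk (star a) := by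
    intro a
    simp [s]
  have hs : ∀ a, a ∈ s ↔ star a ∉ s := by
    intro a
    rw [hmem, hmem, h2]
    have h3 : rk (star a) ≠ rk a := fun h => hne a (hrk _ _ h)
    omega
  refine ⟨s, hs, ?_⟩
  have h3 : sᶜ.card = s.card := by
    apply Finset.card_bij (fun a _ => star a)
    · intro a ha
      have h4 : a ∉ s := Finset.mem_compl.1 ha
      by_contra h5
      exact h4 ((hs a).2 h5)
    · intro a _ b _ h
      have := congrArg star h
      rwa [h2, h2] at this
    · intro b hb
      refine ⟨star b, ?_, h2 b⟩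
      rw [Finset.mem_compl]
      exact (hs b).1 hb
  have h4 := Finset.card_compl s
  have h5 := Finset.card_le_univ s
  omega

/-- The count when no factor is self-dual. -/
theorem card_dual_none (σ : K ≃+* K) (hσ2 : ∀ a, σ (σ a) = a) {n r i t : ℕ} (hr : r.Prime) (hrF : (r : K) ≠ 0)
    (hqr : ((Fintype.card K : ℕ) : ZMod r) ≠ 0) (hi : i = orderOf ((Fintype.card K : ℕ) : ZMod r))
    (ht : t * i = r - 1)
    (hnone : ∀ P : K[X], Irreducible P → P.Monic → P ∣ X ^ r - 1 → P ≠ X - 1 → dual σ P ≠ P) :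
    Nat.card {f : K[X] // f.Monic ∧ f.natDegree = n ∧ (∀ Q, Irreducible Q → Q ∣ f → Q ∣ X ^ r - 1) ∧ dual σ f = f ∧ f ≠ (X - 1) ^ n} =
      Nat.choose (n / (2 * i) + t / 2) (t / 2) - 1 := by
  classical
  haveI : Fact r.Prime := ⟨hr⟩
  have hbm : (X ^ r - 1 : K[X]).Monic := by
    have := monic_X_pow_sub_C (1 : K) hr.ne_zero
    rwa [C_1] at this
  have hb0 : (X ^ r - 1 : K[X]) ≠ 0 := hbm.ne_zero
  have hipos : 0 < i := by
    rw [hi]
    apply Nat.pos_of_dvd_of_pos (orderOf_dvd_of_pow_eq_one (ZMod.pow_card_sub_one_eq_one hqr))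
    have := hr.two_le
    omega
  have hirr1 : Irreducible (X - 1 : K[X]) := by simpa using irreducible_X_sub_C (1 : K)
  have hm1 : (X - 1 : K[X]).Monic := by simpa using monic_X_sub_C (1 : K)
  have hd1 : (X - 1 : K[X]) ∣ X ^ r - 1 := by simpa using sub_dvd_pow_sub_pow (X : K[X]) 1 r
  have hsep : (X ^ r - 1 : K[X]).Separable := by
    have := separable_X_pow_sub_C (1 : K) hrF one_ne_zero
    rwa [C_1] at this
  have hnd : (normalizedFactors (X ^ r - 1 : K[X])).Nodup :=
    (squarefree_iff_nodup_normalizedFactors hb0).1 hsep.squarefree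
  set FS := (normalizedFactors (X ^ r - 1 : K[X])).toFinset with hFS
  have hmemFS : ∀ P, P ∈ FS ↔ Irreducible P ∧ P.Monic ∧ P ∣ X ^ r - 1 := by
    intro P
    rw [hFS, Multiset.mem_toFinset, Polynomial.mem_normalizedFactors_iff hb0]
  have h1FS : (X - 1 : K[X]) ∈ FS := (hmemFS _).2 ⟨hirr1, hm1, hd1⟩
  set S := FS.erase (X - 1) with hS
  have hmemS : ∀ P ∈ S, Irreducible P ∧ P.Monic ∧ P ∣ X ^ r - 1 ∧ P ≠ X - 1 ∧ P.natDegree = i := by
    intro P hP
    obtain ⟨h1, h2⟩ := Finset.mem_erase.1 hP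
    obtain ⟨h3, h4, h5⟩ := (hmemFS P).1 h2
    exact ⟨h3, h4, h5, h1, Cfsg.Agent.Lib.GLPrimeOrd.natDegree_factor hr hqr hi h3 h4 h5 h1⟩
  have hmemS' : ∀ P, Irreducible P → P.Monic → P ∣ X ^ r - 1 → P ≠ X - 1 → P ∈ S := by
    intro P h1 h2 h3 h4
    exact Finset.mem_erase.2 ⟨h4, (hmemFS P).2 ⟨h1, h2, h3⟩⟩
  have hprod0 : ∀ f : K[X], f.Monic → (normalizedFactors f).prod = f := by
    intro f hf
    have := leadingCoeff_mul_prod_normalizedFactors f
    rwa [hf.leadingCoeff, C_1, one_mul] at this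
  have hcardS : S.card = t := by
    have h2 : r = ∑ P ∈ FS, P.natDegree := by
      have h3 : (X ^ r - 1 : K[X]).natDegree = r := by
        have := natDegree_X_pow_sub_C (n := r) (r := (1 : K))
        rwa [C_1] at this
      conv_lhs => rw [← h3, ← hprod0 _ hbm]
      rw [natDegree_multiset_prod_of_monic _ (fun f hf => ((Polynomial.mem_normalizedFactors_iff hb0).1 hf).2.1),
        Finset.sum_eq_multiset_sum, hFS, Multiset.toFinset_val, hnd.dedup]
    have h4 : ∑ P ∈ FS, P.natDegree = 1 + S.card * i := by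
      rw [← Finset.insert_erase h1FS, Finset.sum_insert (Finset.notMem_erase _ _),
        Finset.sum_const_nat (fun P hP => (hmemS P hP).2.2.2.2)]
      congr 1
      simpa using natDegree_X_sub_C (1 : K)
    have h5 : S.card * i = t * i := by
      rw [ht]
      omega
    exact Nat.eq_of_mul_eq_mul_right hipos h5
  have hcoeff0 : ∀ P : K[X], P ∣ X ^ r - 1 → P.coeff 0 ≠ 0 := by
    intro P hP h0
    have h1 : (X : K[X]) ∣ P := X_dvd_iff.2 h0
    have h2 : (X : K[X]) ∣ X ^ r - 1 := h1.trans hP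
    have h3 := X_dvd_iff.1 h2
    simp [coeff_X_pow, hr.ne_zero.symm] at h3
  -- the involution
  have hdualS : ∀ P ∈ S, dual σ P ∈ S := by
    intro P hP
    obtain ⟨h1, h2, h3, h4, -⟩ := hmemS P hP
    have h0 := hcoeff0 P h3
    refine hmemS' _ (irreducible_dual σ hσ2 h1 h2 h0) (monic_dual σ P h0) ?_ ?_
    · rw [← dual_X_pow_sub_one σ hr.pos]
      exact dual_dvd σ h3
    · intro h5
      apply h4
      rw [← dual_dual σ hσ2 P h2 h0, h5, dual_X_sub_one]
  let α := ↥S
  let star : α → α := fun a => ⟨dual σ a.1, hdualS a.1 a.2⟩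
  have hstar2 : ∀ a, star (star a) = a := by
    intro a
    apply Subtype.ext
    obtain ⟨h1, h2, h3, h4, -⟩ := hmemS a.1 a.2
    exact dual_dual σ hσ2 a.1 h2 (hcoeff0 _ h3)
  have hstarne : ∀ a, star a ≠ a := by
    intro a h
    obtain ⟨h1, h2, h3, h4, -⟩ := hmemS a.1 a.2
    exact hnone a.1 h1 h2 h3 h4 (congrArg Subtype.val h)
  obtain ⟨s, hs, hcs⟩ := exists_half star hstar2 hstarne
  have hcards : Fintype.card ↥s = t / 2 := by
    rw [Fintype.card_coe]
    have h1 : Fintype.card α = t := by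
      rw [← hcardS]
      exact Fintype.card_coe S
    omega
  -- the building blocks
  let P₀ : ↥s → K[X] := fun a => a.1.1
  let P₁ : ↥s → K[X] := fun a => dual σ a.1.1
  have hP₀ : ∀ a, Irreducible (P₀ a) ∧ (P₀ a).Monic ∧ (P₀ a).natDegree = i ∧ P₀ a ∣ X ^ r - 1 := by
    intro a
    obtain ⟨h1, h2, h3, -, h5⟩ := hmemS a.1.1 a.1.2
    exact ⟨h1, h2, h5, h3⟩
  have hP₁ : ∀ a, Irreducible (P₁ a) ∧ (P₁ a).Monic ∧ (P₁ a).natDegree = i ∧ P₁ a ∣ X ^ r - 1 := by
    intro a
    obtain ⟨h1, h2, h3, -, h5⟩ := hmemS _ (hdualS a.1.1 a.1.2)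
    exact ⟨h1, h2, h5, h3⟩
  have hP₁d : ∀ a, dual σ (P₁ a) = P₀ a := by
    intro a
    obtain ⟨h1, h2, h3, -, -⟩ := hmemS a.1.1 a.1.2
    exact dual_dual σ hσ2 _ h2 (hcoeff0 _ h3)
  let π : ↥s → K[X] := fun a => P₀ a * P₁ a
  have hπm : ∀ a, (π a).Monic := fun a => (hP₀ a).2.1.mul (hP₁ a).2.1
  have hπd : ∀ a, (π a).natDegree = 2 * i := by
    intro a
    show (P₀ a * P₁ a).natDegree = _
    rw [(hP₀ a).2.1.natDegree_mul (hP₁ a).2.1, (hP₀ a).2.2.1, (hP₁ a).2.2.1]
    ring
  have hπdual : ∀ a, dual σ (π a) = π a := by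
    intro a
    show dual σ (P₀ a * P₁ a) = P₀ a * P₁ a
    rw [dual_mul, hP₁d, mul_comm]
  have hprod : ∀ m : Multiset ↥s, (m.map π).prod.Monic ∧ (m.map π).prod.natDegree = 2 * i * Multiset.card m ∧
      dual σ (m.map π).prod = (m.map π).prod := by
    intro m
    induction m using Multiset.induction_on with
    | empty => simp [dual_one]
    | cons a m ih =>
      obtain ⟨h1, h2, h3⟩ := ih
      rw [Multiset.map_cons, Multiset.prod_cons]
      refine ⟨(hπm a).mul h1, ?_, ?_⟩
      · rw [(hπm a).natDegree_mul h1, hπd, h2, Multiset.card_cons]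
        ring
      · rw [dual_mul, hπdual, h3]
  let Φ : ℕ → Multiset ↥s → K[X] := fun k m => (X - 1) ^ k * (m.map π).prod
  have hΦprod : ∀ k m, Φ k m = (Multiset.replicate k (X - 1 : K[X]) + m.map P₀ + m.map P₁).prod := by
    intro k m
    simp only [Φ, π, Multiset.prod_add, Multiset.prod_replicate, Multiset.prod_map_mul, mul_assoc]
  have hmon : ∀ k m, (Φ k m).Monic := fun k m => (hm1.pow k).mul (hprod m).1
  have hdeg : ∀ k m, (Φ k m).natDegree = k + 2 * i * Multiset.card m := by
    intro k m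
    have h1 : (X - 1 : K[X]).natDegree = 1 := by simpa using natDegree_X_sub_C (1 : K)
    show ((X - 1) ^ k * (m.map π).prod).natDegree = _
    rw [(hm1.pow k).natDegree_mul (hprod m).1, hm1.natDegree_pow, h1, mul_one, (hprod m).2.1]
  have hdualΦ : ∀ k m, dual σ (Φ k m) = Φ k m := by
    intro k m
    show dual σ ((X - 1) ^ k * (m.map π).prod) = (X - 1) ^ k * (m.map π).prod
    rw [dual_mul, dual_pow, dual_X_sub_one, (hprod m).2.2]
  have hnf : ∀ k m, normalizedFactors (Φ k m) = Multiset.replicate k (X - 1 : K[X]) + m.map P₀ + m.map P₁ := by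
    intro k m
    have hmem : ∀ a ∈ Multiset.replicate k (X - 1 : K[X]) + m.map P₀ + m.map P₁, Irreducible a ∧ a.Monic := by
      intro a ha
      rcases Multiset.mem_add.1 ha with h | h
      · rcases Multiset.mem_add.1 h with h | h
        · rw [Multiset.eq_of_mem_replicate h]
          exact ⟨hirr1, hm1⟩
        · obtain ⟨a', _, rfl⟩ := Multiset.mem_map.1 h
          exact ⟨(hP₀ a').1, (hP₀ a').2.1⟩
      · obtain ⟨a', _, rfl⟩ := Multiset.mem_map.1 h
        exact ⟨(hP₁ a').1, (hP₁ a').2.1⟩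
    rw [hΦprod, normalizedFactors_prod_eq _ (fun a ha => (hmem a ha).1)]
    calc Multiset.map normalize (Multiset.replicate k (X - 1 : K[X]) + m.map P₀ + m.map P₁)
        = Multiset.map id (Multiset.replicate k (X - 1 : K[X]) + m.map P₀ + m.map P₁) :=
          Multiset.map_congr rfl (fun a ha => (hmem a ha).2.normalize_eq_self)
      _ = _ := Multiset.map_id _
  have hdvd : ∀ k m Q, Irreducible Q → Q ∣ Φ k m → Q ∣ X ^ r - 1 := by
    intro k m Q hQ h
    rw [hΦprod] at h
    obtain ⟨a, ha, hQa⟩ := hQ.prime.exists_mem_multiset_dvd h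
    rcases Multiset.mem_add.1 ha with h1 | h1
    · rcases Multiset.mem_add.1 h1 with h1 | h1
      · rw [Multiset.eq_of_mem_replicate h1] at hQa
        exact hQa.trans hd1
      · obtain ⟨a', _, rfl⟩ := Multiset.mem_map.1 h1
        exact hQa.trans (hP₀ a').2.2.2
    · obtain ⟨a', _, rfl⟩ := Multiset.mem_map.1 h1
      exact hQa.trans (hP₁ a').2.2.2
  have hP₀inj : Function.Injective P₀ := by
    intro a b h
    exact Subtype.ext (Subtype.ext h)
  have hinj : ∀ k m k' m', Φ k m = Φ k' m' → m = m' := by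
    intro k m k' m' h
    have h1 := congrArg normalizedFactors h
    rw [hnf, hnf] at h1
    ext a
    have h2 := congrArg (Multiset.count (P₀ a)) h1
    simp only [Multiset.count_add, Multiset.count_replicate] at h2
    rw [Multiset.count_map_eq_count' _ _ hP₀inj, Multiset.count_map_eq_count' _ _ hP₀inj] at h2
    have h3 : (X - 1 : K[X]) ≠ P₀ a := (hmemS a.1.1 a.1.2).2.2.2.1.symm
    have hzero : ∀ m'' : Multiset ↥s, Multiset.count (P₀ a) (m''.map P₁) = 0 := by
      intro m''
      rw [Multiset.count_eq_zero]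
      intro h4
      obtain ⟨b, _, hb⟩ := Multiset.mem_map.1 h4
      have h5 : star b.1 = a.1 := Subtype.ext hb
      have h6 := (hs b.1).1 b.2
      rw [h5] at h6
      exact h6 a.2
    rw [hzero, hzero] at h2
    simpa [h3] using h2
  have hsurj : ∀ (d : ℕ) (f : K[X]), f.Monic → f.natDegree = d → (∀ Q, Irreducible Q → Q ∣ f → Q ∣ X ^ r - 1) →
      dual σ f = f → ∃ k m, f = Φ k m := by
    intro d
    induction d using Nat.strong_induction_on with
    | _ d ih =>
      intro f hf hd hQ hfd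
      by_cases hd0 : f.natDegree = 0
      · have h1 : f = 1 := eq_one_of_monic_natDegree_zero hf hd0
        exact ⟨0, 0, by rw [h1]; simp [Φ]⟩
      obtain ⟨P, hP, hPm, hPf⟩ := exists_monic_factor f hf hd0
      by_cases hP1 : P = X - 1
      · subst hP1
        obtain ⟨g, rfl⟩ := hPf
        have hgm : g.Monic := Monic.of_mul_monic_left hPm hf
        have hdeg' := hPm.natDegree_mul hgm
        have hg : dual σ g = g := by
          rw [dual_mul, dual_X_sub_one] at hfd
          exact mul_left_cancel₀ hm1.ne_zero hfd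
        obtain ⟨k, m, rfl⟩ := ih g.natDegree (by have := hP.natDegree_pos; omega) g hgm rfl
          (fun Q hQi hQg => hQ Q hQi (hQg.trans (dvd_mul_left _ _))) hg
        refine ⟨k + 1, m, ?_⟩
        simp only [Φ]
        ring
      · have hPS : P ∈ S := hmemS' P hP hPm (hQ P hP hPf) hP1
        obtain ⟨-, -, h3, -, hPd⟩ := hmemS P hPS
        have h0 := hcoeff0 P h3
        have hP'S := hdualS P hPS
        obtain ⟨hP'i, hP'm, -, -, hP'd⟩ := hmemS _ hP'S
        have hne' : dual σ P ≠ P := hnone P hP hPm h3 hP1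
        have hP'f : dual σ P ∣ f := by
          have := dual_dvd σ hPf
          rwa [hfd] at this
        have hcop : IsCoprime P (dual σ P) := by
          apply (hP.coprime_iff_not_dvd).2
          intro h4
          exact hne' (eq_of_monic_of_associated hP'm hPm (hP.associated_of_dvd hP'i h4).symm)
        obtain ⟨g, hg⟩ := hcop.mul_dvd hPf hP'f
        have hmm : (P * dual σ P).Monic := hPm.mul hP'm
        have hgm : g.Monic := by
          rw [hg] at hf
          exact Monic.of_mul_monic_left hmm hf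
        have hdeg' : f.natDegree = P.natDegree + (dual σ P).natDegree + g.natDegree := by
          rw [hg, hmm.natDegree_mul hgm, hPm.natDegree_mul hP'm]
        have hgd : dual σ g = g := by
          rw [hg, dual_mul, dual_mul, dual_dual σ hσ2 P hPm h0] at hfd
          have h5 : (dual σ P * P) * dual σ g = (P * dual σ P) * g := hfd
          rw [mul_comm (dual σ P) P] at h5
          exact mul_left_cancel₀ hmm.ne_zero h5
        obtain ⟨k, m, hkm⟩ := ih g.natDegree (by omega) g hgm rfl
          (fun Q hQi hQg => hQ Q hQi (hQg.trans (by rw [hg]; exact dvd_mul_left _ _))) hgd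
        by_cases has : (⟨P, hPS⟩ : α) ∈ s
        · refine ⟨k, (⟨⟨P, hPS⟩, has⟩ : ↥s) ::ₘ m, ?_⟩
          rw [hg, hkm]
          simp only [Φ, Multiset.map_cons, Multiset.prod_cons, π, P₀, P₁]
          ring
        · have hb : star (⟨P, hPS⟩ : α) ∈ s := by
            by_contra h6
            exact has ((hs _).2 h6)
          refine ⟨k, (⟨star ⟨P, hPS⟩, hb⟩ : ↥s) ::ₘ m, ?_⟩
          rw [hg, hkm]
          simp only [Φ, Multiset.map_cons, Multiset.prod_cons, π, P₀, P₁, star]
          rw [dual_dual σ hσ2 P hPm h0]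
          ring
  have hzero : ∀ k, Φ k 0 = (X - 1) ^ k := by
    intro k
    simp [Φ]
  have hcount := Cfsg.Agent.Lib.GLPrimeOrd.card_multiset_le (α := ↥s) (n / (2 * i))
  rw [hcards] at hcount
  have hposC : Nat.card {m : Multiset ↥s // Multiset.card m ≤ n / (2 * i)} ≠ 0 := by
    rw [hcount]
    exact (Nat.choose_pos (Nat.le_add_left _ _)).ne'
  haveI : Finite {m : Multiset ↥s // Multiset.card m ≤ n / (2 * i)} := Nat.finite_of_card_ne_zero hposC
  rw [← hcount, ← Cfsg.Agent.Lib.GLPrimeOrd.card_subtype_ne' (⟨0, by simp⟩ : {m : Multiset ↥s // Multiset.card m ≤ n / (2 * i)})]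
  have hle : ∀ c, c ≤ n / (2 * i) ↔ 2 * i * c ≤ n := by
    intro c
    rw [Nat.le_div_iff_mul_le (by omega), mul_comm]
  symm
  refine Nat.card_congr (Equiv.ofBijective (fun m => ⟨Φ (n - 2 * i * Multiset.card m.1.1) m.1.1, hmon _ _, ?_, hdvd _ _, hdualΦ _ _, ?_⟩) ⟨?_, ?_⟩)
  · rw [hdeg]
    have := (hle _).1 m.1.2
    omega
  · intro h
    rw [← hzero] at h
    apply m.2
    apply Subtype.ext
    exact hinj _ _ _ _ h
  · intro m m' h
    have h1 := congrArg Subtype.val h
    apply Subtype.ext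
    apply Subtype.ext
    exact hinj _ _ _ _ h1
  · rintro ⟨f, hf, hd, hQ, hfd, hne⟩
    obtain ⟨k, m, rfl⟩ := hsurj _ f hf rfl hQ hfd
    rw [hdeg] at hd
    have hcm : Multiset.card m ≤ n / (2 * i) := (hle _).2 (by omega)
    have hk : n - 2 * i * Multiset.card m = k := by omega
    refine ⟨⟨⟨m, hcm⟩, ?_⟩, ?_⟩
    · intro h
      have h1 : m = 0 := congrArg Subtype.val h
      apply hne
      rw [h1, hzero]
      rw [h1] at hd
      simp at hd
      rw [hd]
    · apply Subtype.ext
      show Φ (n - 2 * i * Multiset.card m) m = Φ k m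
      rw [hk]

/-- When a factor of `X ^ r - 1` is self-dual. -/
theorem dual_eq_iff (σ : K ≃+* K) (hσ2 : ∀ a, σ (σ a) = a) {e r i : ℕ}
    (hτ : ∀ (L : Type u) [Field L] [Algebra K L], ∃ τ : L →+* L, (∀ x, τ x = x ^ e) ∧ ∀ a, τ (algebraMap K L a) = algebraMap K L (σ a))
    (hr : r.Prime) (hqr : ((Fintype.card K : ℕ) : ZMod r) ≠ 0) (hi : i = orderOf ((Fintype.card K : ℕ) : ZMod r))
    {P : K[X]} (hP : Irreducible P) (hm : P.Monic) (hd : P ∣ X ^ r - 1) (hne : P ≠ X - 1) :
    dual σ P = P ↔ ∃ j : ℕ, ((Fintype.card K : ℕ) : ZMod r) ^ j = -(e : ZMod r) := by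
  classical
  haveI : Fact (Irreducible P) := ⟨hP⟩
  haveI : Fact r.Prime := ⟨hr⟩
  set q := Fintype.card K with hq
  have hq2 : 1 < q := Fintype.one_lt_card
  have hdeg : P.natDegree = i := Cfsg.Agent.Lib.GLPrimeOrd.natDegree_factor hr hqr hi hP hm hd hne
  have h0 : P.coeff 0 ≠ 0 := by
    intro h0
    have h1 : (X : K[X]) ∣ P := X_dvd_iff.2 h0
    have h2 : (X : K[X]) ∣ X ^ r - 1 := h1.trans hd
    have h3 := X_dvd_iff.1 h2
    simp [coeff_X_pow, hr.ne_zero.symm] at h3
  haveI : Module.Finite K (AdjoinRoot P) := (AdjoinRoot.powerBasis hP.ne_zero).finite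
  haveI : Finite (AdjoinRoot P) := Module.finite_of_finite K
  letI : Fintype (AdjoinRoot P) := Fintype.ofFinite _
  set α : AdjoinRoot P := AdjoinRoot.root P with hα
  have hαP : aeval α P = 0 := AdjoinRoot.aeval_eq P ▸ by simp [hα]
  have h1 : α ^ r = 1 := by
    have : AdjoinRoot.mk P (X ^ r - 1) = 0 := AdjoinRoot.mk_eq_zero.2 hd
    rw [map_sub, map_pow, AdjoinRoot.mk_X, map_one, sub_eq_zero] at this
    exact this
  have hα1 : α ≠ 1 := by
    intro h
    have h2 : AdjoinRoot.mk P X = AdjoinRoot.mk P 1 := by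
      rw [AdjoinRoot.mk_X, map_one]
      exact h
    have h3 : P ∣ X - 1 := AdjoinRoot.mk_eq_mk.1 h2
    have hirr : Irreducible (X - 1 : K[X]) := by
      simpa using irreducible_X_sub_C (1 : K)
    have h4 := hP.associated_of_dvd hirr h3
    exact hne (eq_of_monic_of_associated hm (by simpa using monic_X_sub_C (1 : K)) h4)
  have hα0 : α ≠ 0 := by
    intro h
    rw [h, zero_pow hr.ne_zero] at h1
    exact zero_ne_one h1
  have hord : orderOf α = r := orderOf_eq_prime h1 hα1
  obtain ⟨τ, hτ1, hτ2⟩ := hτ (AdjoinRoot P)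
  set y := τ α⁻¹ with hy
  have hye : y = (α⁻¹) ^ e := hτ1 _
  have hrev0 : aeval α⁻¹ (reverse P) = 0 := by
    letI : Invertible α := invertibleOfNonzero hα0
    have h3 := eval₂_reverse_mul_pow (algebraMap K (AdjoinRoot P)) α P
    rw [invOf_eq_inv] at h3
    have h4 : eval₂ (algebraMap K (AdjoinRoot P)) α P = 0 := hαP
    rw [h4] at h3
    exact (mul_eq_zero.1 h3).resolve_right (pow_ne_zero _ hα0)
  have hdualy : aeval y (dual σ P) = 0 := by
    unfold dual
    rw [map_mul]
    have h3 : aeval y ((reverse P).map (σ : K →+* K)) = τ (aeval α⁻¹ (reverse P)) := by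
      have hcomp : (algebraMap K (AdjoinRoot P)).comp (σ : K →+* K) = τ.comp (algebraMap K (AdjoinRoot P)) := by
        apply RingHom.ext
        intro a
        exact (hτ2 a).symm
      rw [aeval_def, aeval_def, eval₂_map, hom_eval₂, hcomp]
    rw [h3, hrev0, map_zero, mul_zero]
  have hpow : ∀ (j : ℕ) (x : AdjoinRoot P), ((FiniteField.frobeniusAlgHom K (AdjoinRoot P)) ^ j) x = x ^ (q ^ j) := by
    intro j x
    induction j with
    | zero => simp
    | succ j ih =>
      rw [pow_succ', AlgHom.mul_apply, ih]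
      show (x ^ q ^ j) ^ q = _
      rw [← pow_mul, pow_succ]
  have hroot : ∀ j : ℕ, aeval (α ^ (q ^ j)) P = 0 := by
    intro j
    rw [← hpow, aeval_algHom_apply, hαP, map_zero]
  have hrel : ∀ j : ℕ, ((q : ZMod r) ^ j = -(e : ZMod r)) ↔ α ^ (q ^ j) = y := by
    intro j
    have h3 : ((q : ZMod r) ^ j = -(e : ZMod r)) ↔ r ∣ q ^ j + e := by
      rw [← ZMod.natCast_eq_zero_iff]
      push_cast
      constructor
      · intro h
        rw [h]
        ring
      · intro h
        linear_combination h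
    rw [h3, hye, ← hord, orderOf_dvd_iff_pow_eq_one, pow_add, inv_pow, mul_eq_one_iff_eq_inv₀ (pow_ne_zero _ hα0)]
  constructor
  · intro hP'
    rw [hP'] at hdualy
    have hinj : Set.InjOn (fun j : ℕ => α ^ (q ^ j)) (Finset.range i : Set ℕ) := by
      have key : ∀ j j' : ℕ, j < j' → j' < i → α ^ (q ^ j) = α ^ (q ^ j') → False := by
        intro j j' hjj hj' h
        have h3 : (q : ZMod r) ^ j = (q : ZMod r) ^ j' := by
          have hlt : q ^ j ≤ q ^ j' := Nat.pow_le_pow_right (by omega) hjj.le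
          have h4 : α ^ (q ^ j' - q ^ j) = 1 := by
            apply mul_left_cancel₀ (pow_ne_zero (q ^ j) hα0)
            rw [← pow_add, Nat.add_sub_cancel' hlt, mul_one, h]
          have h5 : r ∣ q ^ j' - q ^ j := hord ▸ orderOf_dvd_of_pow_eq_one h4
          have h6 := (ZMod.natCast_eq_zero_iff _ _).2 h5
          rw [Nat.cast_sub hlt] at h6
          push_cast at h6
          exact (sub_eq_zero.1 h6).symm
        have h6 : (q : ZMod r) ^ j * (q : ZMod r) ^ (j' - j) = (q : ZMod r) ^ j * 1 := by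
          rw [← pow_add, mul_one, h3]
          congr 1
          omega
        have h7 := mul_left_cancel₀ (pow_ne_zero j hqr) h6
        have h8 := orderOf_dvd_of_pow_eq_one h7
        rw [← hi] at h8
        have h9 := Nat.le_of_dvd (by omega) h8
        omega
      intro a ha b hb h
      have ha' : a < i := Finset.mem_range.1 ha
      have hb' : b < i := Finset.mem_range.1 hb
      rcases lt_trichotomy a b with hab | hab | hab
      · exact (key a b hab hb' h).elim
      · exact hab
      · exact (key b a hab ha' h.symm).elim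
    set P' := P.map (algebraMap K (AdjoinRoot P)) with hP'def
    have hP'0 : P' ≠ 0 := (hm.map _).ne_zero
    have hP'deg : P'.natDegree = i := by
      rw [hP'def, natDegree_map, hdeg]
    have hmemr : ∀ x : AdjoinRoot P, aeval x P = 0 → x ∈ P'.roots.toFinset := by
      intro x hx
      rw [Multiset.mem_toFinset, mem_roots hP'0, IsRoot.def, hP'def, eval_map_algebraMap]
      exact hx
    by_contra hno
    push Not at hno
    have hyR : y ∉ (Finset.range i).image (fun j : ℕ => α ^ (q ^ j)) := by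
      intro h
      obtain ⟨j, _, hj⟩ := Finset.mem_image.1 h
      exact hno j ((hrel j).2 hj)
    have hsub : insert y ((Finset.range i).image (fun j : ℕ => α ^ (q ^ j))) ⊆ P'.roots.toFinset := by
      intro x hx
      rcases Finset.mem_insert.1 hx with rfl | hx
      · exact hmemr _ hdualy
      · obtain ⟨j, _, rfl⟩ := Finset.mem_image.1 hx
        exact hmemr _ (hroot j)
    have hc1 := Finset.card_le_card hsub
    rw [Finset.card_insert_of_notMem hyR, Finset.card_image_of_injOn hinj, Finset.card_range] at hc1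
    have hc2 := Multiset.toFinset_card_le P'.roots
    have hc3 := card_roots' P'
    omega
  · rintro ⟨j, hj⟩
    have h3 : aeval y P = 0 := by
      rw [← (hrel j).1 hj]
      exact hroot j
    exact (minpoly.eq_of_irreducible_of_monic (irreducible_dual σ hσ2 hP hm h0) hdualy (monic_dual σ P h0)).trans
      (minpoly.eq_of_irreducible_of_monic hP h3 hm).symm

end count

end Cfsg.Agent.Lib.DualPoly
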