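import Mathlib

/-!
# Norm-8 vectors of an even lattice without roots with the vector counts of the rank-24 lattice
-/

set_option autoImplicit false
set_option linter.all false

namespace Cfsg.Agent.Lib.EvenLattice

open Matrix

abbrev V := Fin 24 → ℤ

variable (B : Matrix (Fin 24) (Fin 24) ℤ)

/-- The norm. -/
def N (x : V) : ℤ := x ⬝ᵥ (B *ᵥ x)

/-- Congruence modulo two. -/
def Cong (x y : V) : Prop := ∀ i, (2 : ℤ) ∣ (x - y) i

theorem norm_sub_add (hsymm : B.IsSymm) (a b : V) :
    (a - b) ⬝ᵥ (B *ᵥ (a - b)) + (a + b) ⬝ᵥ (B *ᵥ (a + b)) = 2 * (a ⬝ᵥ (B *ᵥ a)) + 2 * (b ⬝ᵥ (B *ᵥ b)) ∧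
    (a + b) ⬝ᵥ (B *ᵥ (a + b)) - (a - b) ⬝ᵥ (B *ᵥ (a - b)) = 4 * (a ⬝ᵥ (B *ᵥ b)) := by
  have hs : b ⬝ᵥ (B *ᵥ a) = a ⬝ᵥ (B *ᵥ b) := by
    rw [Matrix.dotProduct_mulVec, ← Matrix.mulVec_transpose, hsymm.eq, dotProduct_comm]
  simp only [Matrix.mulVec_sub, Matrix.mulVec_add, dotProduct_add, dotProduct_sub, add_dotProduct, sub_dotProduct, hs]
  constructor <;> ring

variable {B}

/-- Halves of the sum and difference of congruent vectors. -/
theorem halves (hsymm : B.IsSymm) {x y : V} (hc : Cong x y) :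
    ∃ u v : V, x - y = (2 : ℤ) • u ∧ x + y = (2 : ℤ) • v ∧ 2 * (N B u + N B v) = N B x + N B y ∧
      N B v - N B u = x ⬝ᵥ (B *ᵥ y) := by
  choose u hu using hc
  have hxy : x - y = (2 : ℤ) • u := by
    funext i
    simp [hu i]
  have hv : x + y = (2 : ℤ) • (x - u) := by
    funext i
    have := hu i
    simp only [Pi.sub_apply] at this
    simp only [Pi.add_apply, Pi.smul_apply, Pi.sub_apply, smul_eq_mul]
    linarith
  have hsc : ∀ w : V, ((2 : ℤ) • w) ⬝ᵥ (B *ᵥ ((2 : ℤ) • w)) = 4 * (w ⬝ᵥ (B *ᵥ w)) := by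
    intro w
    rw [Matrix.mulVec_smul, smul_dotProduct, dotProduct_smul]
    simp only [smul_eq_mul]
    ring
  obtain ⟨e1, e2⟩ := norm_sub_add B hsymm x y
  refine ⟨u, x - u, hxy, hv, ?_, ?_⟩
  · rw [hxy, hv, hsc, hsc] at e1
    simp only [N]
    linarith
  · rw [hxy, hv, hsc, hsc] at e2
    simp only [N]
    linarith

section main

variable (hsymm : B.IsSymm) (hpos : ∀ x : V, x ≠ 0 → 0 < x ⬝ᵥ (B *ᵥ x))
  (heven : ∀ x : V, (2 : ℤ) ∣ x ⬝ᵥ (B *ᵥ x)) (h2 : ∀ x : V, x ⬝ᵥ (B *ᵥ x) ≠ 2)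

include hpos heven h2 in
theorem four_le {x : V} (h : x ≠ 0) : 4 ≤ N B x := by
  have h1 := hpos x h
  obtain ⟨a, ha⟩ := heven x
  have h3 := h2 x
  simp only [N]
  omega

include hsymm hpos heven h2 in
/-- Congruent vectors of small total norm are equal or opposite. -/
theorem eq_or_neg {x y : V} (hc : Cong x y) (hsum : N B x + N B y < 16) : y = x ∨ y = -x := by
  obtain ⟨u, v, h1, h3, h4, -⟩ := halves hsymm hc
  by_cases hu : u = 0
  · left
    have : x - y = 0 := by rw [h1, hu]; simp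
    exact (sub_eq_zero.1 this).symm
  by_cases hv : v = 0
  · right
    have : x + y = 0 := by rw [h3, hv]; simp
    exact eq_neg_of_add_eq_zero_right this
  have := four_le hpos heven h2 hu
  have := four_le hpos heven h2 hv
  omega

include hsymm hpos heven h2 in
/-- Congruent vectors of norm eight are equal, opposite or orthogonal. -/
theorem eq_or_neg_or_orth {x y : V} (hc : Cong x y) (hx : N B x = 8) (hy : N B y = 8) :
    y = x ∨ y = -x ∨ x ⬝ᵥ (B *ᵥ y) = 0 := by
  obtain ⟨u, v, h1, h3, h4, h5⟩ := halves hsymm hc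
  by_cases hu : u = 0
  · left
    have : x - y = 0 := by rw [h1, hu]; simp
    exact (sub_eq_zero.1 this).symm
  by_cases hv : v = 0
  · right; left
    have : x + y = 0 := by rw [h3, hv]; simp
    exact eq_neg_of_add_eq_zero_right this
  right; right
  have := four_le hpos heven h2 hu
  have := four_le hpos heven h2 hv
  omega

end main

theorem cong_refl (x : V) : Cong x x := fun i => by simp

theorem cong_symm {x y : V} (h : Cong x y) : Cong y x := fun i => by
  have := h i
  simp only [Pi.sub_apply] at this ⊢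
  exact (dvd_sub_comm).1 this

theorem cong_trans {x y z : V} (h : Cong x y) (h' : Cong y z) : Cong x z := fun i => by
  have h1 := h i
  have h3 := h' i
  simp only [Pi.sub_apply] at h1 h3 ⊢
  have := dvd_add h1 h3
  simpa using this

theorem cong_neg (x : V) : Cong x (-x) := fun i => by
  simp only [Pi.sub_apply, Pi.neg_apply, sub_neg_eq_add]
  exact ⟨x i, by ring⟩

/-- Reduction modulo two. -/
def red (x : V) : Fin 24 → ZMod 2 := fun i => (x i : ZMod 2)

theorem red_eq_iff {x y : V} : red x = red y ↔ Cong x y := by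
  constructor
  · intro h i
    have h1 := congrFun h i
    exact (ZMod.intCast_eq_intCast_iff_dvd_sub _ _ _).1 h1.symm |> fun h3 => by simpa using h3
  · intro h
    funext i
    have := h i
    exact ((ZMod.intCast_eq_intCast_iff_dvd_sub _ _ _).2 (by simpa using this)).symm

theorem N_neg (x : V) : N B (-x) = N B x := by
  simp [N, Matrix.mulVec_neg]

theorem card_le_24 (R : Finset V) (hR8 : ∀ y ∈ R, N B y = 8)
    (hR : ∀ a ∈ R, ∀ b ∈ R, a ≠ b → a ⬝ᵥ (B *ᵥ b) = 0) : R.card ≤ 24 := by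
  classical
  have hli : LinearIndependent ℤ (fun r : R => (r : V)) := by
    rw [Fintype.linearIndependent_iff]
    intro g hg r₀
    have h1 := congrArg (fun w : V => w ⬝ᵥ (B *ᵥ (r₀ : V))) hg
    simp only [sum_dotProduct, smul_dotProduct, zero_dotProduct, smul_eq_mul] at h1
    rw [Finset.sum_eq_single r₀] at h1
    · rw [show (r₀ : V) ⬝ᵥ (B *ᵥ (r₀ : V)) = 8 from hR8 _ r₀.2] at h1
      omega
    · intro r _ hne
      rw [hR _ r.2 _ r₀.2 (fun h => hne (Subtype.ext h)), mul_zero]
    · intro h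
      exact absurd (Finset.mem_univ _) h
  have h2 := hli.fintype_card_le_finrank
  rw [Module.finrank_fin_fun, Fintype.card_coe] at h2
  exact h2

section main2

variable (hsymm : B.IsSymm) (hpos : ∀ x : V, x ≠ 0 → 0 < x ⬝ᵥ (B *ᵥ x))
  (heven : ∀ x : V, (2 : ℤ) ∣ x ⬝ᵥ (B *ᵥ x)) (h2 : ∀ x : V, x ⬝ᵥ (B *ᵥ x) ≠ 2)

include hsymm hpos heven h2 in
theorem fiber_le (S : Finset V) (hS : ∀ y ∈ S, N B y = 8) (hc : ∀ y ∈ S, ∀ y' ∈ S, Cong y y') :
    S.card ≤ 48 := by
  classical
  let P : Finset V → Prop := fun R => ∀ a ∈ R, ∀ b ∈ R, a ≠ b → a ⬝ᵥ (B *ᵥ b) = 0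
  have hne : (S.powerset.filter P).Nonempty := ⟨∅, by simp [P]⟩
  obtain ⟨R, hRmem, hRmax⟩ := Finset.exists_max_image _ Finset.card hne
  simp only [Finset.mem_filter, Finset.mem_powerset] at hRmem
  obtain ⟨hRS, hRP⟩ := hRmem
  have hcov : S ⊆ R ∪ R.image (fun r => -r) := by
    intro y hy
    by_cases hyR : y ∈ R
    · exact Finset.mem_union_left _ hyR
    apply Finset.mem_union_right
    by_contra hcon
    have hnot : ∀ r ∈ R, r ⬝ᵥ (B *ᵥ y) = 0 := by
      intro r hr
      rcases eq_or_neg_or_orth hsymm hpos heven h2 (hc r (hRS hr) y hy) (hS r (hRS hr)) (hS y hy) with h | h | h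
      · exact absurd (h ▸ hr) hyR
      · exact absurd (Finset.mem_image.2 ⟨r, hr, h.symm⟩) hcon
      · exact h
    have hsym2 : ∀ a b : V, a ⬝ᵥ (B *ᵥ b) = b ⬝ᵥ (B *ᵥ a) := by
      intro a b
      rw [Matrix.dotProduct_mulVec, ← Matrix.mulVec_transpose, hsymm.eq, dotProduct_comm]
    have hbig : insert y R ∈ S.powerset.filter P := by
      simp only [Finset.mem_filter, Finset.mem_powerset]
      refine ⟨Finset.insert_subset hy hRS, ?_⟩
      intro a ha b hb hab
      rw [Finset.mem_insert] at ha hb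
      rcases ha with rfl | ha <;> rcases hb with rfl | hb
      · exact absurd rfl hab
      · rw [hsym2]; exact hnot b hb
      · exact hnot a ha
      · exact hRP a ha b hb hab
    have := hRmax _ hbig
    rw [Finset.card_insert_of_notMem hyR] at this
    omega
  have h24 := card_le_24 R (fun y hy => hS y (hRS hy)) hRP
  have h3 := Finset.card_le_card hcov
  have h4 := Finset.card_union_le R (R.image (fun r => -r))
  have h5 : (R.image (fun r => -r)).card ≤ R.card := Finset.card_image_le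
  omega

include hsymm hpos heven h2 in
/-- The main counting theorem. -/
theorem main (h4 : {x : V | x ⬝ᵥ (B *ᵥ x) = 4}.ncard = 196560)
    (h6 : {x : V | x ⬝ᵥ (B *ᵥ x) = 6}.ncard = 16773120)
    (h8 : {x : V | x ⬝ᵥ (B *ᵥ x) = 8}.ncard = 398034000) (x : V) (hx : x ⬝ᵥ (B *ᵥ x) = 8) :
    {y : V | y ⬝ᵥ (B *ᵥ y) = 8 ∧ ∀ i, (2 : ℤ) ∣ (x - y) i}.ncard = 48 := by
  classical
  have hfin : ∀ n : ℤ, n ≠ 0 → {x : V | x ⬝ᵥ (B *ᵥ x) = n}.ncard ≠ 0 → {x : V | x ⬝ᵥ (B *ᵥ x) = n}.Finite :=
    fun n _ h => Set.finite_of_ncard_ne_zero h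
  have hf4 := hfin 4 (by norm_num) (by rw [h4]; norm_num)
  have hf6 := hfin 6 (by norm_num) (by rw [h6]; norm_num)
  have hf8 := hfin 8 (by norm_num) (by rw [h8]; norm_num)
  set A4 := hf4.toFinset with hA4
  set A6 := hf6.toFinset with hA6
  set A8 := hf8.toFinset with hA8
  have mem4 : ∀ y, y ∈ A4 ↔ N B y = 4 := fun y => by simp [hA4, N]
  have mem6 : ∀ y, y ∈ A6 ↔ N B y = 6 := fun y => by simp [hA6, N]
  have mem8 : ∀ y, y ∈ A8 ↔ N B y = 8 := fun y => by simp [hA8, N]
  have c4 : A4.card = 196560 := by rw [← h4, Set.ncard_eq_toFinset_card _ hf4]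
  have c6 : A6.card = 16773120 := by rw [← h6, Set.ncard_eq_toFinset_card _ hf6]
  have c8 : A8.card = 398034000 := by rw [← h8, Set.ncard_eq_toFinset_card _ hf8]
  set I4 := A4.image red with hI4
  set I6 := A6.image red with hI6
  set I8 := A8.image red with hI8
  have hE : ∀ {a b : V}, Cong a b → N B a + N B b < 16 → b = a ∨ b = -a :=
    fun hc hs => eq_or_neg hsymm hpos heven h2 hc hs
  -- fibres of size two
  have hfib2 : ∀ (n : ℤ) (A : Finset V), 0 < n → n < 8 → (∀ y, y ∈ A ↔ N B y = n) → ∀ c ∈ A.image red,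
      (A.filter fun y => red y = c).card = 2 := by
    intro n A hn0 hn8 hA c hc
    obtain ⟨y, hy, rfl⟩ := Finset.mem_image.1 hc
    have hyN := (hA y).1 hy
    have hy0 : y ≠ -y := by
      intro h
      have h3 : y = 0 := by
        have : y + y = 0 := by
          nth_rewrite 2 [h]
          simp
        funext i
        have h5 := congrFun this i
        simp only [Pi.add_apply, Pi.zero_apply] at h5 ⊢
        omega
      rw [h3] at hyN
      have h5 : N B (0 : V) = 0 := by simp [N]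
      omega
    rw [Finset.card_eq_two]
    refine ⟨y, -y, hy0, ?_⟩
    ext w
    simp only [Finset.mem_filter, Finset.mem_insert, Finset.mem_singleton]
    constructor
    · rintro ⟨hw, hwc⟩
      have hc2 : Cong y w := red_eq_iff.1 hwc.symm
      have hwN := (hA w).1 hw
      exact hE hc2 (by omega)
    · rintro (rfl | rfl)
      · exact ⟨hy, rfl⟩
      · refine ⟨(hA _).2 (by rw [N_neg]; exact hyN), ?_⟩
        exact red_eq_iff.2 (cong_symm (cong_neg y))
  have cI4 : I4.card = 98280 := by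
    have h3 : A4.card = ∑ c ∈ I4, (A4.filter fun y => red y = c).card := Finset.card_eq_sum_card_image red A4
    rw [Finset.sum_congr rfl (hfib2 4 A4 (by norm_num) (by norm_num) mem4), Finset.sum_const, smul_eq_mul, c4, ← hI4] at h3
    omega
  have cI6 : I6.card = 8386560 := by
    have h3 : A6.card = ∑ c ∈ I6, (A6.filter fun y => red y = c).card := Finset.card_eq_sum_card_image red A6
    rw [Finset.sum_congr rfl (hfib2 6 A6 (by norm_num) (by norm_num) mem6), Finset.sum_const, smul_eq_mul, c6, ← hI6] at h3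
    omega
  -- disjointness of images
  have hdis : ∀ (m n : ℤ) (A A' : Finset V), (∀ y, y ∈ A ↔ N B y = m) → (∀ y, y ∈ A' ↔ N B y = n) → m ≠ n →
      m + n < 16 → Disjoint (A.image red) (A'.image red) := by
    intro m n A A' hA hA' hmn hsum
    rw [Finset.disjoint_left]
    intro c hc hc'
    obtain ⟨y, hy, rfl⟩ := Finset.mem_image.1 hc
    obtain ⟨y', hy', he⟩ := Finset.mem_image.1 hc'
    have hc2 : Cong y y' := red_eq_iff.1 he.symm
    have h3 := (hA y).1 hy
    have h5 := (hA' y').1 hy'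
    rcases hE hc2 (by omega) with rfl | rfl
    · omega
    · rw [N_neg] at h5
      omega
  have h0 : ∀ (n : ℤ) (A : Finset V), 0 < n → n < 16 → (∀ y, y ∈ A ↔ N B y = n) → red (0 : V) ∉ A.image red := by
    intro n A hn hn' hA hc
    obtain ⟨y, hy, he⟩ := Finset.mem_image.1 hc
    have h3 := (hA y).1 hy
    have h5 : N B (0 : V) = 0 := by simp [N]
    rcases hE (red_eq_iff.1 he.symm) (by omega) with h | h
    · rw [h] at h3
      omega
    · have h7 : y = 0 := by simpa using h
      rw [h7] at h3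
      omega
  have hall : ({red (0 : V)} ∪ (I4 ∪ (I6 ∪ I8))).card = 1 + (I4.card + (I6.card + I8.card)) := by
    rw [Finset.card_union_of_disjoint, Finset.card_union_of_disjoint, Finset.card_union_of_disjoint]
    · simp
    · exact hdis 6 8 A6 A8 mem6 mem8 (by norm_num) (by norm_num)
    · rw [Finset.disjoint_union_right]
      exact ⟨hdis 4 6 A4 A6 mem4 mem6 (by norm_num) (by norm_num), hdis 4 8 A4 A8 mem4 mem8 (by norm_num) (by norm_num)⟩
    · rw [Finset.disjoint_singleton_left, Finset.mem_union, Finset.mem_union]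
      rintro (h | h | h)
      · exact h0 4 A4 (by norm_num) (by norm_num) mem4 h
      · exact h0 6 A6 (by norm_num) (by norm_num) mem6 h
      · exact h0 8 A8 (by norm_num) (by norm_num) mem8 h
  have hbound : ({red (0 : V)} ∪ (I4 ∪ (I6 ∪ I8))).card ≤ 16777216 := by
    have := Finset.card_le_univ ({red (0 : V)} ∪ (I4 ∪ (I6 ∪ I8)))
    have h5 : Fintype.card (Fin 24 → ZMod 2) = 16777216 := by
      simp [ZMod.card]
    omega
  have hfle : ∀ c ∈ I8, (A8.filter fun y => red y = c).card ≤ 48 := by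
    intro c _
    refine fiber_le hsymm hpos heven h2 _ (fun y hy => (mem8 y).1 (Finset.mem_filter.1 hy).1) ?_
    intro y hy y' hy'
    exact red_eq_iff.1 ((Finset.mem_filter.1 hy).2.trans (Finset.mem_filter.1 hy').2.symm)
  have hsum8 : A8.card = ∑ c ∈ I8, (A8.filter fun y => red y = c).card := Finset.card_eq_sum_card_image red A8
  have hI8le : I8.card ≤ 8292375 := by omega
  have hI8ge : 398034000 ≤ 48 * I8.card := by
    rw [c8] at hsum8
    rw [hsum8]
    calc ∑ c ∈ I8, (A8.filter fun y => red y = c).card ≤ ∑ c ∈ I8, 48 := Finset.sum_le_sum hfle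
      _ = 48 * I8.card := by rw [Finset.sum_const, smul_eq_mul, mul_comm]
  have hI8 : I8.card = 8292375 := by omega
  have hfeq : ∀ c ∈ I8, (A8.filter fun y => red y = c).card = 48 := by
    have hs : ∑ c ∈ I8, (A8.filter fun y => red y = c).card = ∑ c ∈ I8, 48 := by
      rw [← hsum8, c8, Finset.sum_const, smul_eq_mul, hI8]
    exact (Finset.sum_eq_sum_iff_of_le hfle).1 hs
  have hxm : x ∈ A8 := (mem8 x).2 hx
  have hc := hfeq (red x) (Finset.mem_image_of_mem _ hxm)
  have hset : {y : V | y ⬝ᵥ (B *ᵥ y) = 8 ∧ ∀ i, (2 : ℤ) ∣ (x - y) i} =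
      ((A8.filter fun y => red y = red x : Finset V) : Set V) := by
    ext y
    simp only [Set.mem_setOf_eq, Finset.coe_filter]
    constructor
    · rintro ⟨hy, hc2⟩
      exact ⟨(mem8 y).2 hy, red_eq_iff.2 (cong_symm hc2)⟩
    · rintro ⟨hy, he⟩
      exact ⟨(mem8 y).1 hy, cong_symm (red_eq_iff.1 he)⟩
  rw [hset, Set.ncard_coe_finset, hc]

end main2

end Cfsg.Agent.Lib.EvenLattice
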