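import Mathlib
import Cfsg.Agent.Lib.PLength
import Cfsg.Agent.Lib.FitSolv
import Cfsg.Agent.Lib.FitCore
import Cfsg.Agent.Lib.CharBurnside
import Cfsg.Agent.Lib.SchurZ
import Cfsg.Agent.Lib.H6PGroup

/-!
# Groups of exponent dividing `6`: `2`-length and `3`-length one
-/

set_option autoImplicit false
set_option linter.unusedVariables false
set_option linter.style.haveILetI false
set_option linter.unusedSectionVars false

namespace Cfsg.Agent.Lib.Exp6

open Cfsg Subgroup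
open scoped Pointwise commutatorElement

universe u

section Add

variable {A : Type*} [AddCommGroup A]

theorem key_add_aux (T1 T2 Z : A →+ A) (h3 : ∀ a : A, a + a + a = 0)
    (hT1 : ∀ a, T1 (T1 a) = a) (hT2 : ∀ a, T2 (T2 a) = a) (hcomm : ∀ a, T1 (T2 a) = T2 (T1 a))
    (hZ1 : ∀ a, Z (T1 a) = T2 (Z a)) (hZ2 : ∀ a, Z (T2 a) = T1 (T2 (Z a)))
    (hZZ : ∀ a, a + Z a + Z (Z a) = 0) (hZ3 : ∀ a, Z (Z (Z a)) = a) (w : A) :
    w - T1 w - T2 w + T1 (T2 w) = 0 := by
  set v := w - T1 w - T2 w + T1 (T2 w) with hv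
  have h1 : T1 v = -v := by
    rw [hv]
    simp only [map_add, map_sub, hT1]
    abel
  have h2 : T2 v = -v := by
    rw [hv]
    simp only [map_add, map_sub, hT2, ← hcomm]
    abel
  set a := Z v with ha
  set b := Z a with hb
  have h4 : T2 a = -a := by
    rw [ha, ← hZ1, h1, map_neg]
  have h5 : T1 (T2 a) = -a := by
    rw [ha, ← hZ2, h2, map_neg]
  have h6 : T1 a = a := by
    rw [h4, map_neg] at h5
    exact neg_injective h5
  have h7 : T2 b = b := by
    rw [hb, ← hZ1, h6]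
  have h8 : T1 (T2 b) = -b := by
    rw [hb, ← hZ2, h4, map_neg]
  have h9 : T1 b = -b := by
    rwa [h7] at h8
  have h10 : v + a + b = 0 := hZZ v
  have h11 : T1 (v + a + b) = 0 := by rw [h10, map_zero]
  rw [map_add, map_add, h1, h6, h9] at h11
  have h12 : a + a = 0 := by
    have : a + a = (v + a + b) + (-v + a + -b) := by abel
    rw [this, h10, h11, add_zero]
  have h13 : a = 0 := by
    have := h3 a
    rw [h12, zero_add] at this
    exact this
  have h14 : v = 0 := by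
    have := hZ3 v
    rw [← ha, h13, map_zero, map_zero] at this
    exact this.symm
  exact h14

theorem key_add (T1 T2 Z : A →+ A) (h3 : ∀ a : A, a + a + a = 0)
    (hT1 : ∀ a, T1 (T1 a) = a) (hT2 : ∀ a, T2 (T2 a) = a) (hcomm : ∀ a, T1 (T2 a) = T2 (T1 a))
    (hZ1 : ∀ a, Z (T1 a) = T2 (Z a)) (hZ2 : ∀ a, Z (T2 a) = T1 (T2 (Z a)))
    (hZZ : ∀ a, a + Z a + Z (Z a) = 0) (hZ3 : ∀ a, Z (Z (Z a)) = a) (w : A) :
    T2 w = w := by
  have e1 := key_add_aux T1 T2 Z h3 hT1 hT2 hcomm hZ1 hZ2 hZZ hZ3 w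
  have e2 := key_add_aux T2 (T1.comp T2) Z h3 hT2
    (fun a => by
      simp only [AddMonoidHom.comp_apply]
      rw [hcomm, hT1, hT2])
    (fun a => by
      simp only [AddMonoidHom.comp_apply]
      rw [hT2, ← hcomm, hT2])
    (fun a => by
      simp only [AddMonoidHom.comp_apply]
      exact hZ2 a)
    (fun a => by
      simp only [AddMonoidHom.comp_apply]
      rw [hZ1, hZ2])
    hZZ hZ3 w
  simp only [AddMonoidHom.comp_apply] at e2
  rw [← hcomm, hT2] at e2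
  have e3 : (w - T2 w) + (w - T2 w) = 0 := by
    have : (w - T2 w) + (w - T2 w) = (w - T1 w - T2 w + T1 (T2 w)) + (w - T2 w - T1 (T2 w) + T1 w) := by abel
    rw [this, e1, e2, add_zero]
  have e4 := h3 (w - T2 w)
  rw [e3, zero_add] at e4
  exact (sub_eq_zero.1 e4).symm

end Add

theorem key_conj {X : Type*} [Group X] (V : Subgroup X) [hVn : V.Normal]
    (hc : ∀ a ∈ V, ∀ b ∈ V, a * b = b * a) (h3 : ∀ a ∈ V, a ^ 3 = 1) (t₁ t₂ z : X)
    (ht1 : t₁ ^ 2 = 1) (ht2 : t₂ ^ 2 = 1) (hcomm : t₁ * t₂ = t₂ * t₁)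
    (hz1 : z * t₁ * z⁻¹ = t₂) (hz2 : z * t₂ * z⁻¹ = t₁ * t₂) (hz3 : z ^ 3 = 1)
    (hv : ∀ v ∈ V, (v * z) ^ 3 = 1) : ∀ v ∈ V, t₂ * v * t₂⁻¹ = v := by
  intro v hv0
  letI : CommGroup V := { (inferInstance : Group V) with
    mul_comm := fun a b => Subtype.ext (hc a a.2 b b.2) }
  let Tg : X → (Additive V →+ Additive V) := fun g => MonoidHom.toAdditive (MulAut.conjNormal g).toMonoidHom
  have hTg : ∀ (g : X) (a : V), ((Tg g (Additive.ofMul a)).toMul : X) = g * a * g⁻¹ := by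
    intro g a
    rfl
  have hext : ∀ (a b : Additive V), ((a.toMul : V) : X) = (b.toMul : V) → a = b := by
    intro a b h
    exact Additive.toMul.injective (Subtype.ext h)
  have hTgm : ∀ (g : X) (a : Additive V), (((Tg g a).toMul : V) : X) = g * (a.toMul : V) * g⁻¹ := by
    intro g a
    rfl
  have ht1' : t₁⁻¹ = t₁ := by
    rw [inv_eq_iff_mul_eq_one, ← pow_two, ht1]
  have ht2' : t₂⁻¹ = t₂ := by
    rw [inv_eq_iff_mul_eq_one, ← pow_two, ht2]
  have hzt1 : z * t₁ = t₂ * z := by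
    rw [← hz1]; group
  have hzt2 : z * t₂ = t₁ * t₂ * z := by
    rw [← hz2]; group
  have hfin := key_add (Tg t₁) (Tg t₂) (Tg z)
    (fun a => by
      apply hext
      have := h3 _ (a.toMul : V).2
      show ((a.toMul : V) : X) * (a.toMul : V) * (a.toMul : V) = 1
      rw [← this]
      simp only [pow_succ, pow_zero, one_mul])
    (fun a => by
      apply hext
      rw [hTgm, hTgm]
      rw [ht1']
      have : t₁ * (t₁ * ((a.toMul : V) : X) * t₁) * t₁ = (t₁ * t₁) * (a.toMul : V) * (t₁ * t₁) := by group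
      rw [this, ← pow_two, ht1]
      group)
    (fun a => by
      apply hext
      rw [hTgm, hTgm]
      rw [ht2']
      have : t₂ * (t₂ * ((a.toMul : V) : X) * t₂) * t₂ = (t₂ * t₂) * (a.toMul : V) * (t₂ * t₂) := by group
      rw [this, ← pow_two, ht2]
      group)
    (fun a => by
      apply hext
      rw [hTgm, hTgm, hTgm, hTgm]
      rw [ht1', ht2']
      have : t₁ * (t₂ * ((a.toMul : V) : X) * t₂) * t₁ = (t₁ * t₂) * (a.toMul : V) * (t₂ * t₁) := by group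
      have e2 : t₂ * (t₁ * ((a.toMul : V) : X) * t₁) * t₂ = (t₂ * t₁) * (a.toMul : V) * (t₁ * t₂) := by group
      rw [this, e2, ← hcomm])
    (fun a => by
      apply hext
      rw [hTgm, hTgm, hTgm, hTgm]
      have e1 : z * (t₁ * ((a.toMul : V) : X) * t₁⁻¹) * z⁻¹ = (z * t₁) * (a.toMul : V) * (z * t₁)⁻¹ := by group
      rw [e1, hzt1]
      group)
    (fun a => by
      apply hext
      rw [hTgm, hTgm, hTgm, hTgm, hTgm]
      have e1 : z * (t₂ * ((a.toMul : V) : X) * t₂⁻¹) * z⁻¹ = (z * t₂) * (a.toMul : V) * (z * t₂)⁻¹ := by group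
      rw [e1, hzt2]
      group)
    (fun a => by
      apply hext
      have e0 := hv _ (a.toMul : V).2
      show ((a.toMul : V) : X) * (z * (a.toMul : V) * z⁻¹) * (z * (z * (a.toMul : V) * z⁻¹) * z⁻¹) = 1
      have e1 : ((a.toMul : V) : X) * (z * (a.toMul : V) * z⁻¹) * (z * (z * (a.toMul : V) * z⁻¹) * z⁻¹)
          = ((((a.toMul : V) : X) * z) ^ 3) * (z ^ 3)⁻¹ := by
        simp only [pow_succ, pow_zero, one_mul]
        group
      rw [e1, e0, hz3]
      simp)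
    (fun a => by
      apply hext
      rw [hTgm, hTgm, hTgm]
      have e1 : z * (z * (z * ((a.toMul : V) : X) * z⁻¹) * z⁻¹) * z⁻¹ = (z ^ 3) * (a.toMul : V) * (z ^ 3)⁻¹ := by
        simp only [pow_succ, pow_zero, one_mul]
        group
      rw [e1, hz3]
      simp)
    (Additive.ofMul (⟨v, hv0⟩ : V))
  have := congrArg (fun a : Additive V => ((a.toMul : V) : X)) hfin
  exact this

section Main

variable {X : Type u} [Group X] [Finite X]

theorem solvable_of_exp6 (h : ∀ x : X, x ^ 6 = 1) : Group.IsSolvable X := by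
  have hne : Nat.card X ≠ 0 := Nat.card_pos.ne'
  obtain ⟨a, m, hm, he⟩ := Nat.exists_eq_pow_mul_and_not_dvd hne 2 (by norm_num)
  have hm0 : m ≠ 0 := by
    rintro rfl
    simp at hm
  obtain ⟨b, k, hk, he2⟩ := Nat.exists_eq_pow_mul_and_not_dvd hm0 3 (by norm_num)
  have hk1 : k = 1 := by
    by_contra hk1
    obtain ⟨q, hq, hqk⟩ := Nat.exists_prime_and_dvd hk1
    have hqm : q ∣ m := by rw [he2]; exact Dvd.dvd.mul_left hqk _
    have hqG : q ∣ Nat.card X := by rw [he]; exact Dvd.dvd.mul_left hqm _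
    haveI := Fact.mk hq
    obtain ⟨x, hx⟩ := exists_prime_orderOf_dvd_card' q hqG
    have h6 : q ∣ 6 := by
      rw [← hx]
      exact orderOf_dvd_of_pow_eq_one (h x)
    have hq6 : q ∣ 2 * 3 := h6
    rcases (Nat.Prime.dvd_mul hq).1 hq6 with h2 | h3
    · rw [(Nat.prime_dvd_prime_iff_eq hq Nat.prime_two).1 h2] at hqm
      exact hm hqm
    · rw [(Nat.prime_dvd_prime_iff_eq hq Nat.prime_three).1 h3] at hqk
      exact hk hqk
  exact Cfsg.Agent.Lib.CharBurnside.solvable_two_prime 2 3 Nat.prime_two Nat.prime_three _ X a b rfl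
    (by rw [he, he2, hk1, mul_one])

theorem pow2_of {x : X} (hx6 : x ^ 6 = 1) (k : ℕ) (hx : x ^ 2 ^ k = 1) : x ^ 2 = 1 := by
  have h1 := orderOf_dvd_of_pow_eq_one hx6
  have h2 := orderOf_dvd_of_pow_eq_one hx
  have h3 : Nat.Coprime (orderOf x) 3 :=
    Nat.Coprime.coprime_dvd_left h2 (Nat.Coprime.pow_left k (by norm_num))
  exact orderOf_dvd_iff_pow_eq_one.1 (h3.dvd_of_dvd_mul_right (by simpa using h1 : orderOf x ∣ 2 * 3))

theorem pow3_of {x : X} (hx6 : x ^ 6 = 1) (k : ℕ) (hx : x ^ 3 ^ k = 1) : x ^ 3 = 1 := by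
  have h1 := orderOf_dvd_of_pow_eq_one hx6
  have h2 := orderOf_dvd_of_pow_eq_one hx
  have h3 : Nat.Coprime (orderOf x) 2 :=
    Nat.Coprime.coprime_dvd_left h2 (Nat.Coprime.pow_left k (by norm_num))
  exact orderOf_dvd_iff_pow_eq_one.1 (h3.dvd_of_dvd_mul_right (by simpa using h1 : orderOf x ∣ 3 * 2))

theorem two_elems (h : ∀ x : X, x ^ 6 = 1) (hc : pPrimeCore 2 X = ⊥) (y : X) (hy : y ^ 2 = 1) :
    y ∈ pCore 2 X := by
  haveI := solvable_of_exp6 h
  haveI : Fact (Nat.Prime 2) := ⟨Nat.prime_two⟩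
  haveI hPn : (pCore 2 X).Normal := Cfsg.Agent.Lib.FitCore.pCore_normal 2
  have hPp : IsPGroup 2 (pCore 2 X) := Cfsg.Agent.Lib.FitCore.pCore_isPGroup 2
  apply Cfsg.Agent.Lib.FitSolv.centralizer_pCore_le 2 hc
  refine mem_centralizer_iff.2 ?_
  intro v hv
  have hv' : v ∈ pCore 2 X := hv
  have h1 : (v * y) ^ 2 ∈ pCore 2 X := by
    have e : (v * y) ^ 2 = v * (y * v * y⁻¹) * y ^ 2 := by
      simp only [pow_succ, pow_zero, one_mul]
      group
    rw [e, hy, mul_one]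
    exact mul_mem hv' (hPn.conj_mem v hv' y)
  obtain ⟨k, hk⟩ := hPp ⟨_, h1⟩
  have hk' : ((v * y) ^ 2) ^ 2 ^ k = 1 := congrArg Subtype.val hk
  have h2 : (v * y) ^ 2 = 1 := by
    apply pow2_of (h _) (k + 1)
    rw [pow_succ', pow_mul]
    exact hk'
  obtain ⟨k2, hk2⟩ := hPp ⟨v, hv'⟩
  have hk2' : v ^ 2 ^ k2 = 1 := congrArg Subtype.val hk2
  have h3 : v ^ 2 = 1 := pow2_of (h _) k2 hk2'
  -- `v y v y = 1`, `v v = 1`, `y y = 1`
  have e1 : v⁻¹ = v := by rw [inv_eq_iff_mul_eq_one, ← pow_two, h3]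
  have e2 : y⁻¹ = y := by rw [inv_eq_iff_mul_eq_one, ← pow_two, hy]
  have e3 : (v * y)⁻¹ = v * y := by rw [inv_eq_iff_mul_eq_one, ← pow_two, h2]
  rw [mul_inv_rev, e1, e2] at e3
  exact e3.symm

/-- Burnside: a coprime involution trivial on the abelianisation of a `3`-group is trivial. -/
theorem centralizes_of_abelianisation (P : Subgroup X) [hPn : P.Normal] (hPp : IsPGroup 3 P)
    (t : X) (ht : t ^ 2 = 1)
    (hact : ∀ v ∈ P, ∀ a ∈ zpowers t, ⁅v, a⁆ ∈ ⁅P, P⁆) :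
    ∀ v ∈ P, t * v = v * t := by
  classical
  haveI : Fact (Nat.Prime 3) := ⟨Nat.prime_three⟩
  haveI hnil : Group.IsNilpotent P := hPp.isNilpotent
  let A := zpowers t
  have hAN : A ≤ normalizer (P : Set X) := by
    rw [normalizer_eq_top]
    exact le_top
  have hAc : Nat.Coprime (Nat.card P) (Nat.card A) := by
    obtain ⟨n, hn⟩ := IsPGroup.iff_card.1 hPp
    rw [hn, Nat.card_zpowers]
    apply Nat.Coprime.pow_left
    have h1 : orderOf t ∣ 2 := orderOf_dvd_of_pow_eq_one ht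
    exact Nat.Coprime.coprime_dvd_right h1 (by norm_num)
  have hsup := Cfsg.Agent.Lib.SchurZ.commutator_sup_centralizer hAN hAc (Or.inl inferInstance)
  have hle1 : ⁅P, A⁆ ≤ ⁅P, P⁆ := by
    rw [commutator_le]
    intro v hv a ha
    exact hact v hv a ha
  let M : Subgroup P := (P ⊓ centralizer (A : Set X)).subgroupOf P
  have hMtop : M = ⊤ := by
    by_contra hM
    obtain ⟨C, hC, hMC⟩ := (eq_top_or_exists_le_coatom M).resolve_left hM
    have hfacts := Cfsg.Agent.Lib.H6PGroup.coatom_facts hPp hC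
    let C' : Subgroup X := C.map P.subtype
    have hKC : ⁅P, P⁆ ≤ C' := by
      rw [commutator_le]
      intro a ha b hb
      refine ⟨_, hfacts.2 ⟨a, ha⟩ ⟨b, hb⟩, ?_⟩
      simp [commutatorElement_def]
    have hFC : P ⊓ centralizer (A : Set X) ≤ C' := by
      intro w hw
      exact ⟨⟨w, hw.1⟩, hMC (by
        show (⟨w, hw.1⟩ : P) ∈ (P ⊓ centralizer (A : Set X)).subgroupOf P
        rw [mem_subgroupOf]
        exact hw), rfl⟩
    have hPC : P ≤ C' := by
      rw [← hsup]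
      exact sup_le (hle1.trans hKC) hFC
    apply hC.1
    rw [eq_top_iff]
    rintro ⟨w, hw⟩ -
    obtain ⟨u, hu, e⟩ := hPC hw
    have : u = ⟨w, hw⟩ := Subtype.ext e
    rwa [← this]
  intro v hv
  have h1 : (⟨v, hv⟩ : P) ∈ M := by rw [hMtop]; trivial
  have h2 : v ∈ P ⊓ centralizer (A : Set X) := by
    rw [mem_subgroupOf] at h1
    exact h1
  exact (mem_centralizer_iff.1 h2.2 t (mem_zpowers t))

theorem three_elems (h : ∀ x : X, x ^ 6 = 1) (hc : pPrimeCore 3 X = ⊥) (x : X) (hx : x ^ 3 = 1) :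
    x ∈ pCore 3 X := by
  classical
  haveI hsol := solvable_of_exp6 h
  haveI : Fact (Nat.Prime 3) := ⟨Nat.prime_three⟩
  haveI : Fact (Nat.Prime 2) := ⟨Nat.prime_two⟩
  let P := pCore 3 X
  haveI hPn : P.Normal := Cfsg.Agent.Lib.FitCore.pCore_normal 3
  have hPp : IsPGroup 3 P := Cfsg.Agent.Lib.FitCore.pCore_isPGroup 3
  have hCP : centralizer (P : Set X) ≤ P := Cfsg.Agent.Lib.FitSolv.centralizer_pCore_le 3 hc
  by_contra hxP
  let φ : X →* X ⧸ P := QuotientGroup.mk' P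
  have hφ : Function.Surjective φ := QuotientGroup.mk'_surjective P
  have hker : ∀ g, φ g = 1 ↔ g ∈ P := fun g => QuotientGroup.eq_one_iff g
  have hY6 : ∀ y : X ⧸ P, y ^ 6 = 1 := by
    intro y
    obtain ⟨g, rfl⟩ := hφ y
    rw [← map_pow, h, map_one]
  have hc2 : pPrimeCore 2 (X ⧸ P) = ⊥ := by
    let W := pPrimeCore 2 (X ⧸ P)
    haveI hWn : W.Normal := Cfsg.Agent.Lib.FitCore.pPrimeCore_normal 2
    have hWc : ¬ 2 ∣ Nat.card W := Cfsg.Agent.Lib.FitCore.not_dvd_card_pPrimeCore 2 Nat.prime_two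
    have hW3 : ∀ w ∈ W, w ^ 3 = 1 := by
      intro w hw
      have h1 : orderOf w ∣ Nat.card W := Subgroup.orderOf_dvd_natCard W hw
      have h2 : orderOf w ∣ 3 * 2 := orderOf_dvd_of_pow_eq_one (hY6 w)
      have h3 : Nat.Coprime (orderOf w) 2 := by
        refine Nat.Coprime.coprime_dvd_left h1 ?_
        exact ((Nat.Prime.coprime_iff_not_dvd Nat.prime_two).2 hWc).symm
      exact orderOf_dvd_iff_pow_eq_one.1 (h3.dvd_of_dvd_mul_right h2)
    let U := W.comap φ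
    haveI hUn : U.Normal := Subgroup.Normal.comap hWn φ
    have hUp : IsPGroup 3 U := by
      rintro ⟨u, hu⟩
      have e1 : φ (u ^ 3) = 1 := by
        rw [map_pow]
        exact hW3 _ hu
      have hP3 := (hker _).1 e1
      obtain ⟨k, hk⟩ := hPp ⟨u ^ 3, hP3⟩
      refine ⟨k + 1, Subtype.ext ?_⟩
      have hk' : (u ^ 3) ^ 3 ^ k = 1 := congrArg Subtype.val hk
      show u ^ 3 ^ (k + 1) = 1
      rw [pow_succ', pow_mul]
      exact hk'
    have hUP : U ≤ P := Cfsg.Agent.Lib.FitCore.le_pCore 3 U hUn hUp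
    rw [eq_bot_iff]
    intro w hw
    obtain ⟨u, rfl⟩ := hφ w
    rw [mem_bot]
    exact (hker u).2 (hUP hw)
  let F := pCore 2 (X ⧸ P)
  haveI hFn : F.Normal := Cfsg.Agent.Lib.FitCore.pCore_normal 2
  have hFp : IsPGroup 2 F := Cfsg.Agent.Lib.FitCore.pCore_isPGroup 2
  have hCF : centralizer (F : Set (X ⧸ P)) ≤ F := Cfsg.Agent.Lib.FitSolv.centralizer_pCore_le 2 hc2
  have hφx : φ x ≠ 1 := fun e => hxP ((hker x).1 e)
  have hφx3 : (φ x) ^ 3 = 1 := by rw [← map_pow, hx, map_one]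
  have hnF : φ x ∉ F := by
    intro hxF
    obtain ⟨k, hk⟩ := hFp ⟨φ x, hxF⟩
    have hk' : (φ x) ^ 2 ^ k = 1 := congrArg Subtype.val hk
    have h1 := orderOf_dvd_of_pow_eq_one hφx3
    have h2 := orderOf_dvd_of_pow_eq_one hk'
    have := Nat.eq_one_of_dvd_coprimes (Nat.Coprime.pow_right k (by norm_num : Nat.Coprime 3 2)) h1 h2
    exact hφx (orderOf_eq_one_iff.1 this)
  obtain ⟨a, ha, hax⟩ : ∃ a ∈ F, φ x * a ≠ a * φ x := by
    by_contra hcon
    push_neg at hcon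
    exact hnF (hCF (mem_centralizer_iff.2 (fun a ha => (hcon a ha).symm)))
  let T := F.comap φ
  haveI hTn : T.Normal := Subgroup.Normal.comap hFn φ
  obtain ⟨Q⟩ : Nonempty (Sylow 2 T) := inferInstance
  let Q' : Subgroup X := (Q : Subgroup T).map T.subtype
  let f : T →* F := (φ.comp T.subtype).codRestrict F (fun t => t.2)
  have hf : Function.Surjective f := by
    rintro ⟨y, hy⟩
    obtain ⟨g, rfl⟩ := hφ y
    exact ⟨⟨g, hy⟩, rfl⟩
  have hlift : ∀ y ∈ F, ∃ q ∈ Q', φ q = y := by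
    intro y hy
    let S := Q.mapSurjective hf
    have hS : (S : Subgroup F) = ⊤ := (S.is_maximal' (hFp.to_subgroup ⊤) le_top).symm
    have h1 : (⟨y, hy⟩ : F) ∈ (S : Subgroup F) := by rw [hS]; trivial
    rw [Sylow.coe_mapSurjective] at h1
    obtain ⟨t, ht, e⟩ := h1
    exact ⟨t, ⟨t, ht, rfl⟩, congrArg Subtype.val e⟩
  have hfr := Sylow.normalizer_sup_eq_top Q
  have hxsup : x ∈ normalizer (Q' : Set X) ⊔ T := by
    have : normalizer (Q' : Set X) ⊔ T = ⊤ := hfr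
    rw [this]; trivial
  rw [mem_sup_of_normal_right] at hxsup
  obtain ⟨n, hn, t, ht, hnt⟩ := hxsup
  obtain ⟨q0, hq0, hq0e⟩ := hlift (φ t) ht
  have hQ'N : Q' ≤ normalizer (Q' : Set X) := le_normalizer
  let n' := n * q0
  have hn' : n' ∈ normalizer (Q' : Set X) := mul_mem hn (hQ'N hq0)
  have hφn' : φ n' = φ x := by
    rw [← hnt, map_mul, map_mul, hq0e]
  let z := n' ^ 4
  have hzN : z ∈ normalizer (Q' : Set X) := pow_mem hn' 4
  have hφz : φ z = φ x := by
    show φ (n' ^ 4) = φ x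
    rw [map_pow, hφn']
    have : (φ x) ^ 4 = (φ x) ^ 3 * φ x := by rw [pow_succ]
    rw [this, hφx3, one_mul]
  have hz3 : z ^ 3 = 1 := by
    show (n' ^ 4) ^ 3 = 1
    rw [← pow_mul]
    have : 4 * 3 = 6 * 2 := by norm_num
    rw [this, pow_mul, h, one_pow]
  have hQ'2 : ∀ u ∈ Q', u ^ 2 = 1 := by
    intro u hu
    have hQp : IsPGroup 2 Q' := (Q.isPGroup').map T.subtype
    obtain ⟨k, hk⟩ := hQp ⟨u, hu⟩
    exact pow2_of (h u) k (congrArg Subtype.val hk)
  have hinv : ∀ u ∈ Q', u⁻¹ = u := by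
    intro u hu
    rw [inv_eq_iff_mul_eq_one, ← pow_two, hQ'2 u hu]
  have hQ'c : ∀ u ∈ Q', ∀ v ∈ Q', u * v = v * u := by
    intro u hu v hv
    have e := hinv (u * v) (mul_mem hu hv)
    rw [mul_inv_rev, hinv u hu, hinv v hv] at e
    exact e.symm
  obtain ⟨q, hq, hqa⟩ := hlift a ha
  have hconjN : ∀ u ∈ Q', z * u * z⁻¹ ∈ Q' := fun u hu => (mem_normalizer_iff.1 hzN u).1 hu
  let q₁ := z * q * z⁻¹
  let q₂ := z * q₁ * z⁻¹
  have hq₁ : q₁ ∈ Q' := hconjN q hq
  have hq₂ : q₂ ∈ Q' := hconjN q₁ hq₁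
  have hq3 : z * q₂ * z⁻¹ = q := by
    have e : z * q₂ * z⁻¹ = z ^ 3 * q * (z ^ 3)⁻¹ := by
      show z * (z * (z * q * z⁻¹) * z⁻¹) * z⁻¹ = _
      simp only [pow_succ, pow_zero, one_mul]
      group
    rw [e, hz3]
    simp
  have hne : q₁ ≠ q := by
    intro e
    apply hax
    rw [← hqa, ← hφz, ← map_mul, ← map_mul]
    congr 1
    have e' : z * q * z⁻¹ = q := e
    calc z * q = z * q * z⁻¹ * z := by group
      _ = q * z := by rw [e']
  let t₁ := q * q₁
  let t₂ := q₁ * q₂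
  have ht₁Q : t₁ ∈ Q' := mul_mem hq hq₁
  have ht₂Q : t₂ ∈ Q' := mul_mem hq₁ hq₂
  have ht₁ : t₁ ≠ 1 := by
    intro e
    have e' : q * q₁ = 1 := e
    have e2 : q₁ = q⁻¹ := (inv_eq_of_mul_eq_one_right e').symm
    rw [hinv q hq] at e2
    exact hne e2
  have hz1 : z * t₁ * z⁻¹ = t₂ := by
    show z * (q * q₁) * z⁻¹ = q₁ * q₂
    show z * (q * q₁) * z⁻¹ = (z * q * z⁻¹) * (z * q₁ * z⁻¹)
    group
  have hz2 : z * t₂ * z⁻¹ = t₁ * t₂ := by
    have e1 : z * t₂ * z⁻¹ = q₂ * q := by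
      rw [← hq3]
      show z * (q₁ * q₂) * z⁻¹ = (z * q₁ * z⁻¹) * (z * q₂ * z⁻¹)
      group
    have e2 : t₁ * t₂ = q * q₂ := by
      show q * q₁ * (q₁ * q₂) = q * q₂
      have : q * q₁ * (q₁ * q₂) = q * (q₁ * q₁) * q₂ := by group
      rw [this, ← pow_two, hQ'2 q₁ hq₁, mul_one]
    rw [e1, e2, hQ'c q₂ hq₂ q hq]
  -- the abelianisation
  let K : Subgroup X := ⁅P, P⁆
  haveI hKn : K.Normal := Subgroup.commutator_normal P P
  let π : X →* X ⧸ K := QuotientGroup.mk' K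
  have hπ : Function.Surjective π := QuotientGroup.mk'_surjective K
  have hπ1 : ∀ g, π g = 1 ↔ g ∈ K := fun g => QuotientGroup.eq_one_iff g
  let V : Subgroup (X ⧸ K) := P.map π
  haveI hVn : V.Normal := Subgroup.Normal.map hPn π hπ
  have hPexp : ∀ v ∈ P, v ^ 3 = 1 := by
    intro v hv
    obtain ⟨k, hk⟩ := hPp ⟨v, hv⟩
    exact pow3_of (h v) k (congrArg Subtype.val hk)
  have hVcomm : ∀ a ∈ V, ∀ b ∈ V, a * b = b * a := by
    rintro _ ⟨a, ha, rfl⟩ _ ⟨b, hb, rfl⟩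
    have h1 : ⁅a, b⁆ ∈ K := commutator_mem_commutator ha hb
    have h2 := (hπ1 _).2 h1
    rw [map_commutatorElement] at h2
    exact commutatorElement_eq_one_iff_mul_comm.1 h2
  have hVz : ∀ v ∈ V, (v * π z) ^ 3 = 1 := by
    rintro _ ⟨v, hv, rfl⟩
    rw [← map_mul, ← map_pow]
    have e1 : φ ((v * z) ^ 3) = 1 := by
      rw [map_pow, map_mul, (hker v).2 hv, one_mul, ← map_pow, hz3, map_one]
    obtain ⟨k, hk⟩ := hPp ⟨_, (hker _).1 e1⟩
    have hk' : ((v * z) ^ 3) ^ 3 ^ k = 1 := congrArg Subtype.val hk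
    rw [pow3_of (h _) (k + 1) (by rw [pow_succ', pow_mul]; exact hk'), map_one]
  have hkey := key_conj V hVcomm
    (by
      rintro _ ⟨v, hv, rfl⟩
      rw [← map_pow, hPexp v hv, map_one])
    (π t₁) (π t₂) (π z)
    (by rw [← map_pow, hQ'2 _ ht₁Q, map_one])
    (by rw [← map_pow, hQ'2 _ ht₂Q, map_one])
    (by rw [← map_mul, ← map_mul, hQ'c _ ht₁Q _ ht₂Q])
    (by rw [← map_inv, ← map_mul, ← map_mul, hz1])
    (by rw [← map_inv, ← map_mul, ← map_mul, ← map_mul, hz2])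
    (by rw [← map_pow, hz3, map_one])
    hVz
  have hact : ∀ v ∈ P, ∀ c ∈ zpowers t₂, ⁅v, c⁆ ∈ K := by
    intro v hv c hc
    let C' : Subgroup X := (centralizer (V : Set (X ⧸ K))).comap π
    have ht₂C : t₂ ∈ C' := by
      show π t₂ ∈ centralizer (V : Set (X ⧸ K))
      refine mem_centralizer_iff.2 ?_
      intro w hw
      have e := hkey w hw
      rw [mul_inv_eq_iff_eq_mul] at e
      exact e.symm
    have hcC : c ∈ C' := (zpowers_le.2 ht₂C) hc
    have h1 : π v ∈ (V : Set (X ⧸ K)) := ⟨v, hv, rfl⟩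
    have h2 := mem_centralizer_iff.1 (show π c ∈ centralizer (V : Set (X ⧸ K)) from hcC) _ h1
    rw [← hπ1, map_commutatorElement]
    exact commutatorElement_eq_one_iff_mul_comm.2 h2
  have hcent := centralizes_of_abelianisation P hPp t₂ (hQ'2 _ ht₂Q) hact
  have ht₂P : t₂ ∈ P := hCP (mem_centralizer_iff.2 (fun v hv => (hcent v hv).symm))
  have ht₂1 : t₂ = 1 := by
    have e1 := hPexp _ ht₂P
    have e2 := hQ'2 _ ht₂Q
    have e3 : t₂ ^ 3 = t₂ ^ 2 * t₂ := pow_succ _ _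
    rw [e1, e2, one_mul] at e3
    exact e3.symm
  apply ht₁
  have e : t₁ = z⁻¹ * t₂ * z := by
    rw [← hz1]; group
  rw [e, ht₂1]
  simp

theorem plength_of_sylow_le (p : ℕ) [hp : Fact p.Prime] (S : Sylow p X)
    (hS : (S : Subgroup X) ≤ pPrimePCore p X) : PLengthLE p 1 X := by
  haveI hTn : (pPrimePCore p X).Normal := Cfsg.Agent.Lib.PLength.pPrimePCore_normal
  have h0 : (upperPSeries p X 3).1 =
      (pPrimeCore p (X ⧸ (upperPSeries p X 2).1)).comap (QuotientGroup.mk' _) := by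
    conv_lhs => unfold upperPSeries
    simp [show Even 2 from ⟨1, rfl⟩]
  show (upperPSeries p X 3).1 = ⊤
  rw [h0, Cfsg.Agent.Lib.PLength.comap_pPrimeCore_congr Cfsg.Agent.Lib.PLength.upper_two]
  have hc : (Nat.card (X ⧸ pPrimePCore p X)).Coprime p := by
    have h1 : (pPrimePCore p X).index ∣ (S : Subgroup X).index := Subgroup.index_dvd_of_le hS
    have h2 : ¬ p ∣ (S : Subgroup X).index := S.not_dvd_index
    refine ((Nat.Prime.coprime_iff_not_dvd hp.out).2 ?_).symm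
    intro hd
    exact h2 (hd.trans h1)
  have htop : pPrimeCore p (X ⧸ pPrimePCore p X) = ⊤ := by
    rw [eq_top_iff]
    apply Cfsg.Agent.Lib.FitSolv.le_pPrimeCore p ⊤ inferInstance
    rwa [Subgroup.card_top]
  rw [htop, Subgroup.comap_top]

end Main

/-- Groups of exponent dividing `6` have `2`-length and `3`-length at most `1`. -/
theorem main {G : Type u} [Group G] [Finite G] (h : ∀ x : G, x ^ 6 = 1) :
    PLengthLE 2 1 G ∧ PLengthLE 3 1 G := by
  classical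
  haveI : Fact (Nat.Prime 3) := ⟨Nat.prime_three⟩
  haveI : Fact (Nat.Prime 2) := ⟨Nat.prime_two⟩
  constructor
  · obtain ⟨S⟩ : Nonempty (Sylow 2 G) := inferInstance
    apply plength_of_sylow_le 2 S
    intro s hs
    haveI hNn : (pPrimeCore 2 G).Normal := Cfsg.Agent.Lib.FitCore.pPrimeCore_normal 2
    rw [pPrimePCore, mem_comap]
    obtain ⟨k, hk⟩ := S.isPGroup' ⟨s, hs⟩
    have hs2 : s ^ 2 = 1 := pow2_of (h s) k (congrArg Subtype.val hk)
    apply two_elems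
    · intro y
      obtain ⟨g, rfl⟩ := QuotientGroup.mk'_surjective _ y
      rw [← map_pow, h, map_one]
    · exact Cfsg.Agent.Lib.FitSolv.pPrimeCore_quotient 2
    · rw [← map_pow, hs2, map_one]
  · obtain ⟨S⟩ : Nonempty (Sylow 3 G) := inferInstance
    apply plength_of_sylow_le 3 S
    intro s hs
    haveI hNn : (pPrimeCore 3 G).Normal := Cfsg.Agent.Lib.FitCore.pPrimeCore_normal 3
    rw [pPrimePCore, mem_comap]
    obtain ⟨k, hk⟩ := S.isPGroup' ⟨s, hs⟩
    have hs2 : s ^ 3 = 1 := pow3_of (h s) k (congrArg Subtype.val hk)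
    apply three_elems
    · intro y
      obtain ⟨g, rfl⟩ := QuotientGroup.mk'_surjective _ y
      rw [← map_pow, h, map_one]
    · exact Cfsg.Agent.Lib.FitSolv.pPrimeCore_quotient 3
    · rw [← map_pow, hs2, map_one]

end Cfsg.Agent.Lib.Exp6
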