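import Mathlib
import Cfsg.Agent.Lib.LargeExtra
import Cfsg.Agent.Lib.ExtraClass

/-! A hyperplane of an extraspecial 2-group is the centralizer of an element. -/

set_option autoImplicit false
set_option linter.all false

namespace Cfsg.Agent.Lib.ExtraHyper

open Cfsg.Agent.Lib.LargeExtra
open Cfsg.Agent.Lib.ExtraPlus (ES' ss)

theorem odd_exp {E : Type*} [Group E] [Fintype E] {z : E} (h : ES' z) {k : ℕ}
    (hk : Fintype.card E = 2 ^ k) : Odd k := by
  have hg := h.gauss
  rw [hk] at hg
  set T := ∑ x : E, ss x with hT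
  have h1 : T.natAbs * T.natAbs = 2 ^ (k + 1) := by
    zify
    rw [abs_mul_abs_self, hg]
    push_cast
    ring
  have h2 : T.natAbs ∣ 2 ^ (k + 1) := ⟨_, h1.symm⟩
  obtain ⟨i, -, hi⟩ := (Nat.dvd_prime_pow Nat.prime_two).1 h2
  rw [hi, ← pow_add] at h1
  have h3 := Nat.pow_right_injective (le_refl 2) h1
  exact ⟨i - 1, by omega⟩

variable {G : Type*} [Group G]

theorem toES' {Q R : Subgroup G} {z : G} (h : ES Q z) (hle : R ≤ Q) (hz : z ∈ R)
    (hcen : ∀ a ∈ R, (∀ b ∈ R, a * b = b * a) → a = 1 ∨ a = z) : ES' (⟨z, hz⟩ : R) := by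
  refine ⟨?_, ?_, ?_, ?_, ?_, ?_⟩
  · intro e
    exact h.ne_one (congrArg Subtype.val e)
  · exact Subtype.ext h.sq
  · intro g
    exact Subtype.ext (h.zcen g.1 (hle g.2)).symm
  · intro g hg
    rcases hcen g.1 g.2 (fun b hb => congrArg Subtype.val (hg ⟨b, hb⟩)) with e | e
    · left; exact Subtype.ext e
    · right; exact Subtype.ext e
  · intro x
    rcases h.pow2 x.1 (hle x.2) with e | e
    · left; exact Subtype.ext e
    · right; exact Subtype.ext e
  · intro x y
    rcases h.comm x.1 (hle x.2) y.1 (hle y.2) with e | e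
    · left; exact Subtype.ext e
    · right; exact Subtype.ext e

theorem card_pow {Q R : Subgroup G} [Finite R] {z : G} (h : ES Q z) (hle : R ≤ Q) : ∃ k : ℕ, Nat.card R = 2 ^ k := by
  haveI : Fact (Nat.Prime 2) := ⟨Nat.prime_two⟩
  have hp : IsPGroup 2 R := by
    intro x
    refine ⟨2, Subtype.ext ?_⟩
    have h1 : (x.1 * x.1) * (x.1 * x.1) = 1 := by
      rcases h.pow2 x.1 (hle x.2) with e | e
      · rw [e, one_mul]
      · rw [e, h.sq]
    show x.1 ^ (2 ^ 2) = 1
    have h2 : x.1 ^ (2 ^ 2) = (x.1 * x.1) * (x.1 * x.1) := by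
      simp [pow_succ, mul_assoc]
    rw [h2, h1]
  exact IsPGroup.iff_card.1 hp

theorem exists_central_of_index_two {Q Q₀ : Subgroup G} [Finite Q] {z : G} (h : ES Q z) (hle : Q₀ ≤ Q)
    (hz : z ∈ Q₀) (hidx : Q₀.relIndex Q = 2) :
    ∃ a ∈ Q₀, a ≠ 1 ∧ a ≠ z ∧ ∀ q ∈ Q₀, a * q = q * a := by
  classical
  by_contra hcon
  push Not at hcon
  have h1 : ES' (⟨z, h.mem⟩ : Q) := toES' h le_rfl h.mem h.cen
  have h0 : ES' (⟨z, hz⟩ : Q₀) := by
    apply toES' h hle hz
    intro a ha hb
    by_contra hne
    push Not at hne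
    obtain ⟨q, hq, hq2⟩ := hcon a ha hne.1 hne.2
    exact hq2 (hb q hq)
  haveI : Finite Q₀ := Finite.of_injective (Subgroup.inclusion hle) (Subgroup.inclusion_injective hle)
  haveI : Fintype Q := Fintype.ofFinite _
  haveI : Fintype Q₀ := Fintype.ofFinite _
  obtain ⟨a, ha⟩ := card_pow h (le_refl Q)
  obtain ⟨b, hb⟩ := card_pow h hle
  have hoa := odd_exp h1 (k := a) (by rw [← Nat.card_eq_fintype_card]; exact ha)
  have hob := odd_exp h0 (k := b) (by rw [← Nat.card_eq_fintype_card]; exact hb)
  have hc : Nat.card Q = 2 * Nat.card Q₀ := by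
    have h2 := Subgroup.card_mul_index (Q₀.subgroupOf Q)
    have h3 : Nat.card (Q₀.subgroupOf Q) = Nat.card Q₀ :=
      Nat.card_congr (Subgroup.subgroupOfEquivOfLe hle).toEquiv
    have h4 : (Q₀.subgroupOf Q).index = 2 := hidx
    rw [h3, h4] at h2
    rw [← h2, mul_comm]
  rw [ha, hb, ← pow_succ'] at hc
  have h3 := Nat.pow_right_injective (le_refl 2) hc
  rcases hoa with ⟨u, hu⟩
  rcases hob with ⟨v, hv⟩
  omega

/-- An involution acting on an extraspecial 2-group with a centralizer of index two acts as an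
inner automorphism. -/
theorem mem_sup_centralizer {Q : Subgroup G} [Finite Q] {z t : G} (h : ES Q z) (htt : t * t = 1)
    (htN : t ∈ Subgroup.normalizer (Q : Set G))
    (hi : (Subgroup.centralizer ({t} : Set G) ⊓ Q).relIndex Q = 2) :
    t ∈ Q ⊔ Subgroup.centralizer (Q : Set G) := by
  classical
  have htinv : t⁻¹ = t := inv_eq_of_mul_eq_one_left htt
  have hQt : ∀ y ∈ Q, t * y * t ∈ Q := by
    intro y hy
    have := (Subgroup.mem_normalizer_iff.mp htN y).mp hy
    rwa [htinv] at this
  have hcon : ∀ x y, t * (x * y) * t = (t * x * t) * (t * y * t) := by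
    intro x y
    calc t * (x * y) * t = t * x * (t * t) * y * t := by rw [htt]; group
      _ = _ := by group
  have hinvol : ∀ y, t * (t * y * t) * t = y := by
    intro y
    calc t * (t * y * t) * t = (t * t) * y * (t * t) := by group
      _ = y := by rw [htt]; group
  have htz : t * z * t = z := by
    have hw := hQt z h.mem
    have hb : ∀ b ∈ Q, (t * z * t) * b = b * (t * z * t) := by
      intro b hb
      have e2 := h.zcen _ (hQt b hb)
      have e3 := hcon z (t * b * t)
      rw [hinvol] at e3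
      have e4 := hcon (t * b * t) z
      rw [hinvol, e2] at e4
      exact e3.symm.trans e4
    rcases h.cen _ hw hb with e | e
    · exfalso
      apply h.ne_one
      have e3 := hinvol z
      rw [e] at e3
      simpa [htt] using e3.symm
    · exact e
  set Q₀ := Subgroup.centralizer ({t} : Set G) ⊓ Q with hQ₀
  have hmem : ∀ y, y ∈ Q₀ ↔ t * y * t = y ∧ y ∈ Q := by
    intro y
    rw [hQ₀, Subgroup.mem_inf, Subgroup.mem_centralizer_singleton_iff]
    constructor
    · rintro ⟨h1, h2⟩
      refine ⟨?_, h2⟩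
      rw [← h1, mul_assoc, htt, mul_one]
    · rintro ⟨h1, h2⟩
      refine ⟨?_, h2⟩
      calc y * t = (t * y * t) * t := by rw [h1]
        _ = t * y * (t * t) := by group
        _ = t * y := by rw [htt, mul_one]
  have hle : Q₀ ≤ Q := inf_le_right
  have hzQ₀ : z ∈ Q₀ := (hmem z).2 ⟨htz, h.mem⟩
  have hidx : (Q₀.subgroupOf Q).index = 2 := hi
  have hmul : ∀ u ∈ Q, ∀ v ∈ Q, u * v ∈ Q₀ ↔ (u ∈ Q₀ ↔ v ∈ Q₀) := by
    intro u hu v hv
    have := Subgroup.mul_mem_iff_of_index_two (a := (⟨u, hu⟩ : Q)) (b := (⟨v, hv⟩ : Q)) hidx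
    simpa [Subgroup.mem_subgroupOf] using this
  have hxz : ∀ x ∈ Q, x ∉ Q₀ → t * x * t = x * z := by
    intro x hx hxn
    have hxinv : x⁻¹ ∉ Q₀ := fun e => hxn (by simpa using Q₀.inv_mem e)
    set c := x⁻¹ * (t * x * t) with hc
    have hcQ : c ∈ Q := Q.mul_mem (Q.inv_mem hx) (hQt x hx)
    have htx : t * x * t = x * c := by rw [hc]; group
    have hc1 : c ≠ 1 := by
      intro e
      apply hxn
      rw [hmem]
      refine ⟨?_, hx⟩
      rw [htx, e, mul_one]
    have htc : t * c * t = c⁻¹ := by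
      have e : t * (t * x * t) * t = x := by
        calc t * (t * x * t) * t = (t * t) * x * (t * t) := by group
          _ = x := by rw [htt]; group
      have e2 : t * x⁻¹ * t = (t * x * t)⁻¹ := by
        simp only [mul_inv_rev, htinv]
        group
      rw [hc, hcon, e, e2]
      group
    have hcom : ∀ q ∈ Q₀, c * q = q * c := by
      intro q' hq'
      have hq'Q := hle hq'
      have hxq : x * q' ∉ Q₀ := by
        intro e
        have := (hmul x hx q' hq'Q).1 e
        exact hxn (this.2 hq')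
      have hq : x * q' * x⁻¹ ∈ Q₀ := by
        rw [hmul _ (Q.mul_mem hx hq'Q) _ (Q.inv_mem hx)]
        exact ⟨fun e => absurd e hxq, fun e => absurd e hxinv⟩
      have e1 := ((hmem _).1 hq).1
      have e2 := ((hmem _).1 hq').1
      have e3 : t * x⁻¹ * t = c⁻¹ * x⁻¹ := by
        have : t * x⁻¹ * t = (t * x * t)⁻¹ := by
          simp only [mul_inv_rev, htinv]
          group
        rw [this, htx]
        group
      rw [hcon, hcon, htx, e2, e3] at e1
      have e4 : x * (c * q' * c⁻¹) * x⁻¹ = x * q' * x⁻¹ := by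
        rw [← e1]
        group
      have e5 : c * q' * c⁻¹ = q' := by
        have e6 : x⁻¹ * (x * (c * q' * c⁻¹) * x⁻¹) * x = x⁻¹ * (x * q' * x⁻¹) * x := by rw [e4]
        simpa [mul_assoc] using e6
      calc c * q' = c * q' * c⁻¹ * c := by group
        _ = q' * c := by rw [e5]
    have hcQ₀ : c ∈ Q₀ := by
      by_contra hcn
      have hcen : ∀ b ∈ Q, c * b = b * c := by
        intro b hb
        by_cases hbQ : b ∈ Q₀
        · exact hcom b hbQ
        · have hcb : c * b ∈ Q₀ := by
            rw [hmul c hcQ b hb]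
            exact ⟨fun e => absurd e hcn, fun e => absurd e hbQ⟩
          have e1 := hcom _ hcb
          have e2 : c * b * c = c * (b * c) := by group
          rw [e2] at e1
          exact mul_left_cancel e1
      rcases h.cen c hcQ hcen with e | e
      · exact hc1 e
      · exact hcn (e ▸ hzQ₀)
    have hcc : c = c⁻¹ := by
      rw [← htc]
      exact ((hmem c).1 hcQ₀).1.symm
    have hxc : x * c = c * x := by
      have hxx : t * (x * x) * t = x * x := by
        rcases h.pow2 x hx with e | e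
        · rw [e, mul_one, htt]
        · rw [e, htz]
      rw [hcon, htx] at hxx
      have e1 : c * (x * c) = x := by
        have e2 : x * (c * (x * c)) = x * x := by
          rw [← hxx]
          group
        exact mul_left_cancel e2
      calc x * c = c⁻¹ * (c * (x * c)) := by group
        _ = c * x := by rw [e1, ← hcc]
    have hcen : ∀ b ∈ Q, c * b = b * c := by
      intro b hb
      by_cases hbQ : b ∈ Q₀
      · exact hcom b hbQ
      · have hxb : x * b ∈ Q₀ := by
          rw [hmul x hx b hb]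
          exact ⟨fun e => absurd e hxn, fun e => absurd e hbQ⟩
        have e1 := hcom _ hxb
        have e2 : c * (x * b) = x * (c * b) := by
          rw [← mul_assoc, ← hxc, mul_assoc]
        have e3 : x * b * c = x * (b * c) := by group
        rw [e2, e3] at e1
        exact mul_left_cancel e1
    rcases h.cen c hcQ hcen with e | e
    · exact absurd e hc1
    · rw [htx, e]
  have hQne : ∃ x ∈ Q, x ∉ Q₀ := by
    by_contra hne
    push Not at hne
    have h1 : Q₀.relIndex Q = 1 := Subgroup.relIndex_eq_one.mpr hne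
    have h2 : Q₀.relIndex Q = 2 := hi
    omega
  haveI : Finite Q := inferInstance
  obtain ⟨a, haQ₀, ha1, haz, hac⟩ := exists_central_of_index_two h hle hzQ₀ hi
  have haQ := hle haQ₀
  obtain ⟨y, hy, hya⟩ := exists_swap h haQ ha1 haz
  have hyn : y ∉ Q₀ := by
    intro e
    have := hac y e
    have e2 : B y a = 1 := B_eq_one_iff.mpr this.symm
    rw [e2] at hya
    exact h.ne_one hya.symm
  have hBx : ∀ x ∈ Q, x ∉ Q₀ → a⁻¹ * x * a = x * z := by
    intro x hx hxn
    have hq : x * y⁻¹ ∈ Q₀ := by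
      rw [hmul x hx _ (Q.inv_mem hy)]
      exact ⟨fun e => absurd e hxn, fun e => absurd (by simpa using Q₀.inv_mem e) hyn⟩
    have e1 : B (x * y⁻¹ * y) a = B (x * y⁻¹) a * B y a :=
      B_mul_left h (hle hq) hy haQ
    have e2 : B (x * y⁻¹) a = 1 := B_eq_one_iff.mpr (hac _ hq).symm
    rw [e2, one_mul, hya, inv_mul_cancel_right] at e1
    -- `x a x⁻¹ a⁻¹ = z`
    have e3 : x * a = z * (a * x) := by
      unfold B at e1
      have : x * a * x⁻¹ = z * a := mul_inv_eq_iff_eq_mul.mp e1
      have e4 := mul_inv_eq_iff_eq_mul.mp this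
      rw [e4]
      group
    have hzx := h.zcen x hx
    have hza := h.zcen a haQ
    calc a⁻¹ * x * a = a⁻¹ * (x * a) := by group
      _ = a⁻¹ * (z * (a * x)) := by rw [e3]
      _ = a⁻¹ * ((z * a) * x) := by group
      _ = a⁻¹ * ((a * z) * x) := by rw [hza]
      _ = z * x := by group
      _ = x * z := hzx.symm
  have hd : a⁻¹ * t ∈ Subgroup.centralizer (Q : Set G) := by
    rw [Subgroup.mem_centralizer_iff]
    intro b hb
    have hbQ : b ∈ Q := hb
    have hgoal : (a⁻¹ * t) * b * (a⁻¹ * t)⁻¹ = b := by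
      have e0 : (a⁻¹ * t) * b * (a⁻¹ * t)⁻¹ = a⁻¹ * (t * b * t) * a := by
        rw [mul_inv_rev, inv_inv, htinv]
        group
      rw [e0]
      by_cases hb0 : b ∈ Q₀
      · rw [((hmem b).1 hb0).1]
        have := hac b hb0
        calc a⁻¹ * b * a = a⁻¹ * (b * a) := by group
          _ = a⁻¹ * (a * b) := by rw [this]
          _ = b := by group
      · rw [hxz b hbQ hb0]
        have e1 := hBx b hbQ hb0
        have hza := h.zcen a haQ
        calc a⁻¹ * (b * z) * a = a⁻¹ * b * (z * a) := by group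
          _ = a⁻¹ * b * (a * z) := by rw [hza]
          _ = (a⁻¹ * b * a) * z := by group
          _ = (b * z) * z := by rw [e1]
          _ = b * (z * z) := by group
          _ = b := by rw [h.sq, mul_one]
    calc b * (a⁻¹ * t) = ((a⁻¹ * t) * b * (a⁻¹ * t)⁻¹) * (a⁻¹ * t) := by rw [hgoal]
      _ = (a⁻¹ * t) * b := by group
  have : t = a * (a⁻¹ * t) := by group
  rw [this]
  exact Subgroup.mul_mem_sup haQ hd

end Cfsg.Agent.Lib.ExtraHyper
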