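import Mathlib
import Cfsg.Prelude.Def_MonsterType
import Cfsg.Agent.Lib.LargeExtra

/-! Subgroups of extraspecial 2-groups that are extraspecial. -/

namespace Cfsg.Agent.Lib.LargeExtra

variable {G : Type*} [Group G]

/-- A nonabelian subgroup of an extraspecial 2-group whose centre is the centre of the big group is extraspecial. -/
theorem isExtraspecial_of_le {Q H : Subgroup G} [Finite H] {z : G} (hQ : ES Q z) (hH : H ≤ Q) {u v : G}
    (hu : u ∈ H) (hv : v ∈ H) (huv : B u v ≠ 1)
    (hcen : ∀ h ∈ H, (∀ k ∈ H, h * k = k * h) → h = 1 ∨ h = z) : Cfsg.IsExtraspecial 2 ↥H := by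
  classical
  haveI : Fact (Nat.Prime 2) := ⟨Nat.prime_two⟩
  have hBz : B u v = z := (hQ.comm u (hH hu) v (hH hv)).resolve_left huv
  have hzH : z ∈ H := by
    rw [← hBz]
    exact H.mul_mem (H.mul_mem (H.mul_mem hu hv) (H.inv_mem hu)) (H.inv_mem hv)
  have hcenter : ∀ w : H, w ∈ Subgroup.center H ↔ ((w : G) = 1 ∨ (w : G) = z) := by
    intro w
    constructor
    · intro hw
      apply hcen _ w.2
      intro k hk
      have := (Subgroup.mem_center_iff.mp hw) ⟨k, hk⟩
      exact (congrArg Subtype.val this).symm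
    · rintro (hw | hw)
      · have : w = 1 := Subtype.ext hw
        rw [this]
        exact Subgroup.one_mem _
      · rw [Subgroup.mem_center_iff]
        intro g
        apply Subtype.ext
        show (g : G) * w = w * g
        rw [hw]
        exact hQ.zcen _ (hH g.2)
  have hp : IsPGroup 2 H := by
    intro t
    refine ⟨2, ?_⟩
    have hp4 : ∀ u : G, u ^ (2 ^ 2) = (u * u) * (u * u) := by
      intro u
      rw [show (2 : ℕ) ^ 2 = 2 + 2 from rfl, pow_add, pow_two]
    apply Subtype.ext
    have h5 : ((t : G)) ^ (2 ^ 2) = 1 := by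
      rw [hp4]
      rcases hQ.pow2 _ (hH t.2) with h6 | h6
      · rw [h6, one_mul]
      · rw [h6]
        exact hQ.sq
    simpa using h5
  have hcard : Nat.card (Subgroup.center H) = 2 := by
    rw [Nat.card_eq_two_iff]
    refine ⟨1, ⟨⟨z, hzH⟩, (hcenter _).mpr (Or.inr rfl)⟩, ?_, ?_⟩
    · intro h
      have := congrArg (fun t : Subgroup.center H => ((t : H) : G)) h
      exact hQ.ne_one this.symm
    · ext w
      simp only [Set.mem_insert_iff, Set.mem_singleton_iff, Set.mem_univ, iff_true]
      rcases (hcenter w.1).mp w.2 with h1 | h1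
      · left
        exact Subtype.ext (Subtype.ext h1)
      · right
        exact Subtype.ext (Subtype.ext h1)
  have hzcen : (⟨u, hu⟩ : H) * ⟨v, hv⟩ * (⟨u, hu⟩ : H)⁻¹ * (⟨v, hv⟩ : H)⁻¹ = ⟨z, hzH⟩ := by
    apply Subtype.ext
    exact hBz
  refine ⟨⟨hp, ?_, ?_⟩, hcard⟩
  · apply le_antisymm
    · apply Cfsg.Agent.Lib.CoprimeAct.frattini_le_of_elementary (p := 2)
      · intro a b
        rw [hcenter]
        exact hQ.comm a (hH a.2) b (hH b.2)
      · intro a
        rw [hcenter]
        have := hQ.pow2 a (hH a.2)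
        rw [← pow_two] at this
        simpa using this
    · intro w hw
      rcases (hcenter w).mp hw with h1 | h1
      · have : w = 1 := Subtype.ext h1
        rw [this]
        exact Subgroup.one_mem _
      · have : w = ⟨z, hzH⟩ := Subtype.ext h1
        rw [this, ← hzcen]
        exact Cfsg.Agent.Lib.H6PGroup.comm_mem_frattini hp _ _
  · apply le_antisymm
    · show commutator H ≤ _
      rw [commutator_def, Subgroup.commutator_le]
      intro a _ b _
      rw [commutatorElement_def, hcenter]
      exact hQ.comm a (hH a.2) b (hH b.2)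
    · intro w hw
      rcases (hcenter w).mp hw with h1 | h1
      · have : w = 1 := Subtype.ext h1
        rw [this]
        exact Subgroup.one_mem _
      · have : w = ⟨z, hzH⟩ := Subtype.ext h1
        rw [this, ← hzcen]
        have := Subgroup.commutator_mem_commutator (Subgroup.mem_top (⟨u, hu⟩ : H)) (Subgroup.mem_top (⟨v, hv⟩ : H))
        rwa [commutatorElement_def] at this

end Cfsg.Agent.Lib.LargeExtra

namespace Cfsg.Agent.Lib.LargeExtra

variable {G H : Type*} [Group G] [Group H]

/-- The image of an elementwise extraspecial subgroup under an injective homomorphism. -/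
theorem ES.map {Q : Subgroup G} {z : G} (h : ES Q z) (f : G →* H) (hf : Function.Injective f) :
    ES (Q.map f) (f z) := by
  have hB : ∀ a b : G, B (f a) (f b) = f (B a b) := by
    intro a b
    unfold B
    simp
  refine ⟨⟨z, h.mem, rfl⟩, ?_, ?_, ?_, ?_, ?_, ?_⟩
  · intro h1
    exact h.ne_one (hf (by rw [h1, map_one]))
  · rw [← map_mul, h.sq, map_one]
  · rintro _ ⟨a, ha, rfl⟩ _ ⟨b, hb, rfl⟩
    rw [hB]
    rcases h.comm a ha b hb with h1 | h1
    · left; rw [h1, map_one]
    · right; rw [h1]
  · rintro _ ⟨a, ha, rfl⟩ hc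
    have h1 := h.cen a ha (by
      intro b hb
      apply hf
      rw [map_mul, map_mul]
      exact hc _ ⟨b, hb, rfl⟩)
    rcases h1 with h1 | h1
    · left; rw [h1, map_one]
    · right; rw [h1]
  · rintro _ ⟨a, ha, rfl⟩
    rw [← map_mul, ← map_mul, h.zcen a ha]
  · rintro _ ⟨a, ha, rfl⟩
    rw [← map_mul]
    rcases h.pow2 a ha with h1 | h1
    · left; rw [h1, map_one]
    · right; rw [h1]

/-- An extraspecial 2-group is nonabelian. -/
theorem ES.exists_noncomm {Q : Subgroup G} [Finite Q] {z : G} (h : ES Q z) (hcard : 2 < Nat.card Q) :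
    ∃ u ∈ Q, ∃ v ∈ Q, B u v ≠ 1 := by
  classical
  by_contra hcon
  push Not at hcon
  have hsub : ∀ q ∈ Q, q = 1 ∨ q = z := by
    intro q hq
    exact h.cen q hq (fun b hb => B_eq_one_iff.mp (hcon q hq b hb))
  have h1 : (Q : Set G).ncard ≤ (({1, z} : Finset G) : Set G).ncard := by
    apply Set.ncard_le_ncard
    · intro q hq
      simpa using hsub q hq
    · exact Finset.finite_toSet _
  rw [Set.ncard_coe_finset] at h1
  have h2 : ({1, z} : Finset G).card ≤ 2 := Finset.card_le_two
  rw [← Nat.card_coe_set_eq] at h1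
  have h3 : Nat.card (Q : Set G) = Nat.card Q := rfl
  omega

/-- Transfer of extraspecial along an injective homomorphism. -/
theorem isExtraspecial_map {Q : Subgroup G} [Finite Q] (hQ : Cfsg.IsExtraspecial 2 ↥Q) (f : G →* H)
    (hf : Function.Injective f) (hcard : 2 < Nat.card Q) : Cfsg.IsExtraspecial 2 ↥(Q.map f) := by
  obtain ⟨z, hES, -⟩ := exists_ES hQ
  have hES' := hES.map f hf
  obtain ⟨u, hu, v, hv, huv⟩ := hES.exists_noncomm hcard
  haveI : Finite (Q.map f) := by
    haveI : Finite (Q.map f) := (Set.finite_coe_iff.mpr (Set.Finite.image f (Set.toFinite (Q : Set G))))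
    infer_instance
  refine isExtraspecial_of_le hES' le_rfl ⟨u, hu, rfl⟩ ⟨v, hv, rfl⟩ ?_ hES'.cen
  have hB : B (f u) (f v) = f (B u v) := by
    unfold B
    simp
  rw [hB]
  intro h1
  exact huv (hf (by rw [h1, map_one]))

end Cfsg.Agent.Lib.LargeExtra
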