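import Mathlib

/-! Two-parts of `q - 1` and `n`-th roots of `-1` in a finite field of odd order. -/

namespace Cfsg.Agent.Lib.F2Part

variable {F : Type*} [Field F] [Fintype F]

theorem padic_two_pow_mul_odd (k : ℕ) {m : ℕ} (hm : Odd m) : padicValNat 2 (2 ^ k * m) = k := by
  have h2 : ¬ 2 ∣ m := by
    rw [← even_iff_two_dvd]
    exact Nat.not_even_iff_odd.2 hm
  have hm0 : m ≠ 0 := by rintro rfl; simp at hm
  rw [padicValNat.mul (pow_ne_zero _ two_ne_zero) hm0, padicValNat.prime_pow,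
    padicValNat.eq_zero_of_not_dvd h2, add_zero]

theorem neg_one_ne (hq : Odd (Fintype.card F)) : (-1 : F) ≠ 1 := by
  classical
  intro h
  have h2 : ringChar F = 2 := by
    have h3 : (2 : F) = 0 := by linear_combination -h
    exact (CharP.ringChar_of_prime_eq_zero Nat.prime_two (by exact_mod_cast h3))
  have := (FiniteField.even_card_iff_char_two (F := F)).1 h2
  rw [Nat.odd_iff] at hq
  omega

theorem eq_one_or_neg {x : F} (h : x ^ 2 = 1) : x = 1 ∨ x = -1 := by
  have : (x - 1) * (x + 1) = 0 := by linear_combination h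
  rcases mul_eq_zero.1 this with h | h
  · left; exact sub_eq_zero.1 h
  · right; exact eq_neg_of_add_eq_zero_left h

/-- Decomposition of `q - 1`. -/
theorem exists_decomp (hq : Odd (Fintype.card F)) :
    ∃ a N' : ℕ, 1 ≤ a ∧ Odd N' ∧ Fintype.card F - 1 = 2 ^ a * N' ∧ padicValNat 2 (Fintype.card F - 1) = a := by
  have h2 : 2 ≤ Fintype.card F := Fintype.one_lt_card
  obtain ⟨t, ht⟩ := hq
  have hN : Fintype.card F - 1 ≠ 0 := by omega
  obtain ⟨a, N', hN', hN2⟩ := Nat.exists_eq_two_pow_mul_odd hN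
  refine ⟨a, N', ?_, hN', hN2, ?_⟩
  · rcases Nat.eq_zero_or_pos a with h | h
    · exfalso
      subst h
      have h3 : Fintype.card F - 1 = N' := by simpa using hN2
      obtain ⟨u, hu⟩ := hN'
      omega
    · exact h
  · rw [hN2]; exact padic_two_pow_mul_odd a hN'

/-- A generator of the multiplicative group. -/
theorem exists_gen (hq : Odd (Fintype.card F)) :
    ∃ γ : F, γ ≠ 0 ∧ (∀ k : ℕ, γ ^ k = 1 ↔ (Fintype.card F - 1) ∣ k) ∧ γ ^ ((Fintype.card F - 1) / 2) = -1 := by
  classical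
  obtain ⟨g, hg⟩ := IsCyclic.exists_generator (α := Fˣ)
  have hord : orderOf g = Fintype.card F - 1 := by
    rw [orderOf_eq_card_of_forall_mem_zpowers hg, Nat.card_eq_fintype_card, Fintype.card_units]
  have hk : ∀ k : ℕ, (g : F) ^ k = 1 ↔ (Fintype.card F - 1) ∣ k := by
    intro k
    rw [← hord, orderOf_dvd_iff_pow_eq_one, ← Units.val_pow_eq_pow_val, Units.val_eq_one]
  refine ⟨g, g.ne_zero, hk, ?_⟩
  obtain ⟨t, ht⟩ := hq
  have h2 : 2 ≤ Fintype.card F := Fintype.one_lt_card
  have hN : (Fintype.card F - 1) = 2 * t := by omega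
  have h1 : ((g : F) ^ ((Fintype.card F - 1) / 2)) ^ 2 = 1 := by
    rw [← pow_mul, hN, Nat.mul_div_cancel_left _ (by norm_num), mul_comm, ← hN]
    exact (hk _).2 dvd_rfl
  rcases eq_one_or_neg h1 with h | h
  · exfalso
    have := (hk _).1 h
    rw [hN, Nat.mul_div_cancel_left _ (by norm_num)] at this
    have ht0 : 0 < t := by
      rcases Nat.eq_zero_or_pos t with h | h
      · subst h
        omega
      · exact h
    have := Nat.le_of_dvd ht0 this
    omega
  · exact h

/-- `-1` is an `n`-th power iff `v₂(n) < v₂(q-1)`. -/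
theorem exists_pow_eq_neg_one_iff (hq : Odd (Fintype.card F)) {n : ℕ} (hn : 1 ≤ n) :
    (∃ c : F, c ≠ 0 ∧ c ^ n = -1) ↔ padicValNat 2 n < padicValNat 2 (Fintype.card F - 1) := by
  classical
  obtain ⟨a, N', ha, hN', hN, hv⟩ := exists_decomp (F := F) hq
  obtain ⟨b, n', hn', hnd⟩ := Nat.exists_eq_two_pow_mul_odd (n := n) (by omega)
  have hvn : padicValNat 2 n = b := by rw [hnd]; exact padic_two_pow_mul_odd b hn'
  rw [hv, hvn]
  have hne := neg_one_ne (F := F) hq
  constructor
  · rintro ⟨c, hc, hcn⟩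
    by_contra hlt
    push Not at hlt
    apply hne
    have h1 : c ^ (Fintype.card F - 1) = 1 := FiniteField.pow_card_sub_one_eq_one c hc
    obtain ⟨d, rfl⟩ := Nat.exists_eq_add_of_le hlt
    have h2 : (c ^ n) ^ N' = (c ^ (Fintype.card F - 1)) ^ (2 ^ d * n') := by
      rw [hnd, hN, ← pow_mul, ← pow_mul]
      congr 1
      rw [pow_add]
      ring
    rw [hcn, hN'.neg_one_pow, h1, one_pow] at h2
    exact h2
  · intro hlt
    obtain ⟨γ, hγ, hk, hhalf⟩ := exists_gen (F := F) hq
    obtain ⟨d, hd⟩ := Nat.exists_eq_add_of_lt hlt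
    refine ⟨γ ^ (N' * 2 ^ d), pow_ne_zero _ hγ, ?_⟩
    have hmid : (Fintype.card F - 1) / 2 = 2 ^ (b + d) * N' := by
      have : Fintype.card F - 1 = 2 * (2 ^ (b + d) * N') := by
        rw [hN, hd]
        ring
      rw [this, Nat.mul_div_cancel_left _ (by norm_num)]
    rw [← pow_mul, hnd]
    have : N' * 2 ^ d * (2 ^ b * n') = ((Fintype.card F - 1) / 2) * n' := by
      rw [hmid, pow_add]
      ring
    rw [this, pow_mul, hhalf, hn'.neg_one_pow]

end Cfsg.Agent.Lib.F2Part
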