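import Mathlib
import Cfsg.Prelude
import Cfsg.Agent.Lib.BestOffStruct
import Cfsg.Agent.Lib.PComps
import Cfsg.Agent.Lib.CoprimeGen

/-! A group of automorphisms acting on the structure of failure of factorization: diagonal
subgroups inside the fixed points. -/

set_option autoImplicit false
set_option linter.all false

namespace Cfsg.Agent.Lib.FacAct

open Subgroup Cfsg Cfsg.Agent.Lib.BestOff Cfsg.Agent.Lib.BestOffPlane Cfsg.Agent.Lib.BestOffBridge
  Cfsg.Agent.Lib.BestOffMain Cfsg.Agent.Lib.BestOffE Cfsg.Agent.Lib.BestOffSplit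
  Cfsg.Agent.Lib.BestOffStruct
open scoped commutatorElement

universe u v

section diag

variable {Γ : Type*} {Y : Type*} [Group Γ] [Group Y] [Finite Y]

theorem noncommProd_perm {ι M : Type*} [Fintype ι] [Monoid M] (σ : Equiv.Perm ι) (f : ι → M)
    (c₁ : Set.Pairwise (↑(Finset.univ : Finset ι)) (Function.onFun Commute fun i => f (σ i)))
    (c₂ : Set.Pairwise (↑(Finset.univ : Finset ι)) (Function.onFun Commute f)) :
    Finset.univ.noncommProd (fun i => f (σ i)) c₁ = Finset.univ.noncommProd f c₂ := by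
  classical
  unfold Finset.noncommProd
  have h : (Finset.univ.val.map fun i => f (σ i)) = Finset.univ.val.map f := by
    have h1 : (Finset.univ.val.map fun i => f (σ i)) = (Finset.univ.val.map σ).map f := by
      rw [Multiset.map_map]
      rfl
    rw [h1, Multiset.map_univ_val_equiv]
  have key : ∀ (m₁ m₂ : Multiset M) (h : m₁ = m₂) (c₁ c₂), Multiset.noncommProd m₁ c₁ = Multiset.noncommProd m₂ c₂ := by
    rintro _ _ rfl _ _
    rfl
  exact key _ _ h _ _

theorem exists_diag (α : Y →* MulAut Γ) (St : Subgroup Y) (T : Subgroup Γ)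
    (htriv : ∀ y ∈ St, ∀ t ∈ T, α y t = t)
    (hcomm : ∀ y y' : Y, y⁻¹ * y' ∉ St → ∀ t ∈ T, ∀ t' ∈ T, Commute (α y t) (α y' t')) :
    ∃ Ψ : T →* Γ, (∀ s (t : T), α s (Ψ t) = Ψ t) ∧
      (∀ y (R : Subgroup Γ), (∀ y', y⁻¹ * y' ∉ St → ∀ t ∈ T, α y' t ∈ R) →
        ∀ t : T, (α y t)⁻¹ * Ψ t ∈ R) ∧
      (∀ (g : Γ →* Γ) (t t' : T), (∀ y, g (α y t) = α y t') → g (Ψ t) = Ψ t') := by
  classical
  haveI : Fintype (Y ⧸ St) := Fintype.ofFinite _
  obtain ⟨r, hr⟩ : ∃ r : Y ⧸ St → Y, ∀ i, ((r i : Y) : Y ⧸ St) = i :=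
    ⟨Quotient.out, fun i => QuotientGroup.out_eq' i⟩
  let ϕ : (Y ⧸ St) → (T →* Γ) := fun i => (α (r i)).toMonoidHom.comp T.subtype
  have hϕ : Pairwise fun i j => ∀ x y, Commute (ϕ i x) (ϕ j y) := by
    intro i j hij x y
    apply hcomm _ _ _ x x.2 y y.2
    intro hmem
    apply hij
    rw [← hr i, ← hr j]
    exact QuotientGroup.eq.mpr hmem
  let Ψ : T →* Γ := (MonoidHom.noncommPiCoprod ϕ hϕ).comp (Pi.monoidHom fun _ => MonoidHom.id T)
  have hval : ∀ t : T, Ψ t = Finset.univ.noncommProd (fun i => ϕ i t) (fun _ _ _ _ h => hϕ h _ _) :=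
    fun t => rfl
  have hdep : ∀ y y' : Y, ∀ t ∈ T, y⁻¹ * y' ∈ St → α y' t = α y t := by
    intro y y' t ht hm
    have h1 : y' = y * (y⁻¹ * y') := by group
    rw [h1, map_mul, MulAut.mul_apply, htriv _ hm t ht]
  refine ⟨Ψ, ?_, ?_, ?_⟩
  · intro s t
    let σ : Equiv.Perm (Y ⧸ St) := MulAction.toPerm s
    have hs : ∀ i, α s (ϕ i t) = ϕ (σ i) t := by
      intro i
      show α s (α (r i) t) = α (r (s • i)) t
      rw [← MulAut.mul_apply, ← map_mul]
      apply hdep _ _ _ t.2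
      have h1 : ((r (s • i) : Y) : Y ⧸ St) = s • ((r i : Y) : Y ⧸ St) := by
        rw [hr, hr]
      have h2 : ((r (s • i) : Y) : Y ⧸ St) = ((s * r i : Y) : Y ⧸ St) := by
        rw [h1]
        rfl
      exact QuotientGroup.eq.mp h2
    have hm := Finset.map_noncommProd Finset.univ (fun i => ϕ i t) (fun _ _ _ _ h => hϕ h _ _) ((α s).toMonoidHom)
    have hcongr : (fun i => (α s).toMonoidHom (ϕ i t)) = fun i => (fun j => ϕ j t) (σ i) := funext hs
    have hp := noncommProd_perm σ (fun j => ϕ j t) (by rw [← hcongr]; exact fun _ _ _ _ h => (hϕ h _ _).map (α s).toMonoidHom) (fun _ _ _ _ h => hϕ h _ _)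
    rw [hval]
    refine hm.trans ?_
    rw [← hp]
    apply Finset.noncommProd_congr rfl
    intro i _
    exact hs i
  · intro y R hR t
    have hi : ϕ ((y : Y) : Y ⧸ St) t = α y t := by
      show α (r _) t = α y t
      apply hdep _ _ _ t.2
      have h1 := hr ((y : Y) : Y ⧸ St)
      exact (QuotientGroup.eq.mp h1.symm)
    have he := Finset.mul_noncommProd_erase Finset.univ (Finset.mem_univ ((y : Y) : Y ⧸ St)) (fun i => ϕ i t) (fun _ _ _ _ h => hϕ h _ _)
    have hmem : (Finset.univ.erase ((y : Y) : Y ⧸ St)).noncommProd (fun i => ϕ i t)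
        (fun _ hx _ hy h => hϕ h _ _) ∈ R := by
      apply Subgroup.noncommProd_mem
      intro i hi'
      apply hR _ _ _ t.2
      intro hmem
      have h2 : ((y : Y) : Y ⧸ St) = ((r i : Y) : Y ⧸ St) := QuotientGroup.eq.mpr hmem
      rw [hr] at h2
      exact (Finset.mem_erase.mp hi').1 h2.symm
    have hΨ := (hval t).trans he.symm
    rw [hi] at hΨ
    rw [hΨ, inv_mul_cancel_left]
    exact hmem
  · intro g t t' hg
    have hm := Finset.map_noncommProd Finset.univ (fun i => ϕ i t) (fun _ _ _ _ h => hϕ h _ _) g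
    rw [hval, hval]
    refine hm.trans ?_
    apply Finset.noncommProd_congr rfl
    intro i _
    exact hg (r i)

end diag

section T

variable {L : Type u} [Group L] [Finite L] {p q : ℕ} [hp : Fact p.Prime] [hq' : Fact q.Prime]
variable {W : Type*} [AddCommGroup W] [Module (ZMod p) W]
variable {V H : Subgroup L} {Φ : W → L}

/-- The core inside the ambient group. -/
abbrev Cr (p : ℕ) (H : Subgroup L) : Subgroup L := (Cfsg.pPrimeCore p ↥H).map H.subtype

/-- The factor. -/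
abbrev Ef (p : ℕ) (H A : Subgroup L) : Subgroup L := ⁅Cr p H, A⁆ ⊔ A

/-- The subgroups of order `p`. -/
structure MinA (p : ℕ) (V H A : Subgroup L) : Prop where
  el : El p H A
  card : Nat.card A = p
  dl : dl V A = Nat.card V

theorem MinA.rel {A : Subgroup L} (hA : MinA p V H A) : (V ⊓ centralizer (A : Set L)).relIndex V = p := by
  have h1 := Subgroup.relIndex_mul_relIndex (⊥ : Subgroup L) (V ⊓ centralizer (A : Set L)) V bot_le inf_le_left
  rw [Subgroup.relIndex_bot_left, Subgroup.relIndex_bot_left] at h1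
  have h2 := hA.dl
  unfold Cfsg.Agent.Lib.BestOff.dl at h2
  rw [hA.card] at h2
  have hpos : 0 < Nat.card ↥(V ⊓ centralizer (A : Set L)) := Nat.card_pos
  have h3 : Nat.card ↥(V ⊓ centralizer (A : Set L)) * (V ⊓ centralizer (A : Set L)).relIndex V =
      Nat.card ↥(V ⊓ centralizer (A : Set L)) * p := by
    rw [h1, ← h2]
    ring
  exact Nat.eq_of_mul_eq_mul_left hpos h3

theorem MinA.fac (hB : Br V Φ) (hS : Setup p V H (Cr p H)) (hf : H ⊓ centralizer (V : Set L) = ⊥)
    (hS3 : H = ⨆ A : {A : Subgroup L // A ≤ H ∧ IsBestOffenderOn p V A}, (A : Subgroup L))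
    {A : Subgroup L} (hA : MinA p V H A) : (p = 2 ∨ p = 3) ∧ Fac p V H (Ef p H A) := by
  obtain ⟨h6, h7, h8, h9⟩ := min_of_card hS hA.el hA.dl hA.card
  exact fac_of_min hB hS hf hS3 h6 h7 h8 h9

/-- Two different factors. -/
theorem hne_of (hB : Br V Φ) (hS : Setup p V H (Cr p H)) (hf : H ⊓ centralizer (V : Set L) = ⊥)
    (hS3 : H = ⨆ A : {A : Subgroup L // A ≤ H ∧ IsBestOffenderOn p V A}, (A : Subgroup L))
    {A₁ A₂ : Subgroup L} (h₁ : MinA p V H A₁) (h₂ : MinA p V H A₂) (hne12 : Ef p H A₁ ≠ Ef p H A₂) :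
    Ef p H A₂ ≤ H ⊓ centralizer ((⁅V, Ef p H A₁⁆ : Subgroup L) : Set L) := by
  have hF₁ := (h₁.fac hB hS hf hS3).2
  have hF₂ := (h₂.fac hB hS hf hS3).2
  rcases dich_min hB hS h₁.el h₁.card h₁.rel h₂.el h₂.card h₂.rel with hl | hr
  · exfalso
    apply hne12
    have hle : Ef p H A₂ ≤ Ef p H A₁ := by
      refine sup_le ?_ hl
      rw [Subgroup.commutator_le]
      intro y hy a ha
      rw [commutatorElement_def]
      exact Subgroup.mul_mem _ (hF₁.conj_mem (hS.hKH hy) (hl ha)) (Subgroup.inv_mem _ (hl ha))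
    obtain ⟨i₁⟩ := hF₁.iso
    obtain ⟨i₂⟩ := hF₂.iso
    have hcard : Nat.card ↥(Ef p H A₁) ≤ Nat.card ↥(Ef p H A₂) := by
      rw [Nat.card_congr i₁.toEquiv, Nat.card_congr i₂.toEquiv]
    exact (Subgroup.eq_of_le_of_card_ge hle hcard).symm
  · refine sup_le ?_ hr
    rw [Subgroup.commutator_le]
    intro y hy a ha
    rw [commutatorElement_def]
    exact Subgroup.mul_mem _ (hF₁.M_normal hS.hHV (hS.hKH hy) (hr ha)) (Subgroup.inv_mem _ (hr ha))

/-- Transport by an automorphism. -/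
theorem map_core (f : L ≃* L) (hH : H.map f.toMonoidHom = H) : (Cr p H).map f.toMonoidHom = Cr p H := by
  classical
  have hmem : ∀ x ∈ H, f x ∈ H := by
    intro x hx
    rw [← hH]
    exact ⟨x, hx, rfl⟩
  let e : H ≃* H := (f.subgroupMap H).trans (MulEquiv.subgroupCongr hH)
  have he : ∀ x : H, ((e x : H) : L) = f x := fun x => rfl
  haveI hc : (Cfsg.pPrimeCore p ↥H).Characteristic := Cfsg.Agent.Lib.PComps.pPrimeCore_characteristic
  have h1 : ∀ x ∈ Cfsg.pPrimeCore p ↥H, e x ∈ Cfsg.pPrimeCore p ↥H := by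
    intro x hx
    have h2 := hc.fixed e.symm
    have h3 : e x ∈ (Cfsg.pPrimeCore p ↥H).comap e.symm.toMonoidHom := by
      rw [Subgroup.mem_comap]
      simpa using hx
    rwa [h2] at h3
  have hle : (Cr p H).map f.toMonoidHom ≤ Cr p H := by
    rintro _ ⟨_, ⟨x, hx, rfl⟩, rfl⟩
    exact ⟨e x, h1 x hx, rfl⟩
  apply Subgroup.eq_of_le_of_card_ge hle
  have h2 : Nat.card ↥((Cr p H).map f.toMonoidHom) = Nat.card ↥(Cr p H) :=
    Subgroup.card_map_of_injective f.injective
  exact h2.ge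

theorem map_El (f : L ≃* L) (hH : H.map f.toMonoidHom = H) {A : Subgroup L} (h : El p H A) :
    El p H (A.map f.toMonoidHom) := by
  refine ⟨?_, ?_, ?_⟩
  · rw [← hH]
    exact Subgroup.map_mono h.le
  · rintro _ ⟨x, hx, rfl⟩ _ ⟨y, hy, rfl⟩
    show f x * f y = f y * f x
    rw [← map_mul, ← map_mul, h.comm x hx y hy]
  · rintro _ ⟨x, hx, rfl⟩
    show (f x) ^ p = 1
    rw [← map_pow, h.exp x hx, map_one]

theorem map_dl (f : L ≃* L) (hV : V.map f.toMonoidHom = V) (A : Subgroup L) :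
    dl V (A.map f.toMonoidHom) = dl V A := by
  unfold Cfsg.Agent.Lib.BestOff.dl
  have h : V ⊓ centralizer ((A.map f.toMonoidHom : Subgroup L) : Set L) =
      (V ⊓ centralizer (A : Set L)).map f.toMonoidHom := by
    ext y
    constructor
    · rintro ⟨hy1, hy2⟩
      rw [← hV] at hy1
      obtain ⟨x, hx, rfl⟩ := hy1
      refine ⟨x, ⟨hx, mem_centralizer_iff.mpr fun a ha => ?_⟩, rfl⟩
      have h3 := mem_centralizer_iff.mp hy2 (f a) ⟨a, ha, rfl⟩
      apply f.injective
      rw [map_mul, map_mul]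
      exact h3
    · rintro ⟨x, ⟨hx1, hx2⟩, rfl⟩
      refine ⟨?_, mem_centralizer_iff.mpr ?_⟩
      · rw [← hV]
        exact ⟨x, hx1, rfl⟩
      · rintro _ ⟨a, ha, rfl⟩
        have h3 := mem_centralizer_iff.mp hx2 a ha
        show f a * f x = f x * f a
        rw [← map_mul, ← map_mul, h3]
  rw [h, Subgroup.card_map_of_injective f.injective, Subgroup.card_map_of_injective f.injective]

theorem map_MinA (f : L ≃* L) (hV : V.map f.toMonoidHom = V) (hH : H.map f.toMonoidHom = H) {A : Subgroup L}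
    (hA : MinA p V H A) : MinA p V H (A.map f.toMonoidHom) :=
  ⟨map_El f hH hA.el, by rw [Subgroup.card_map_of_injective f.injective, hA.card], by rw [map_dl f hV, hA.dl]⟩

theorem map_Ef (f : L ≃* L) (hH : H.map f.toMonoidHom = H) (A : Subgroup L) :
    (Ef p H A).map f.toMonoidHom = Ef p H (A.map f.toMonoidHom) := by
  unfold Ef
  rw [Subgroup.map_sup, Subgroup.map_commutator, map_core f hH]

variable {Y : Type v} [Group Y] [Finite Y]

/-- The main construction. -/
theorem exists_psi (hB : Br V Φ) (hS : Setup p V H (Cr p H)) (hf : H ⊓ centralizer (V : Set L) = ⊥)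
    (hS3 : H = ⨆ A : {A : Subgroup L // A ≤ H ∧ IsBestOffenderOn p V A}, (A : Subgroup L))
    (α : Y →* MulAut L) (hYV : ∀ y, V.map (α y).toMonoidHom = V) (hYH : ∀ y, H.map (α y).toMonoidHom = H)
    (hY : IsPGroup q Y) (hq : ¬ q ∣ Nat.card H) {A : Subgroup L} (hA : MinA p V H A) :
    ∃ (ψ : ↥(Ef p H A) →* L) (ψ' : ↥(⁅V, Ef p H A⁆ : Subgroup L) →* L),
      (∀ s e, α s (ψ e) = ψ e) ∧
      (∀ e : ↥(Ef p H A), (e : L)⁻¹ * ψ e ∈ H ⊓ centralizer ((⁅V, Ef p H A⁆ : Subgroup L) : Set L)) ∧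
      (∀ s w, α s (ψ' w) = ψ' w) ∧ (∀ w, ψ' w ∈ V) ∧ Function.Injective ψ' ∧
      (∀ (e : ↥(Ef p H A)) (w w' : ↥(⁅V, Ef p H A⁆ : Subgroup L)), (w' : L) = e * w * (e : L)⁻¹ →
        ψ e * ψ' w * (ψ e)⁻¹ = ψ' w') := by
  classical
  have hpp : p.Prime := Fact.out
  have hqp : q.Prime := Fact.out
  obtain ⟨h23, hF⟩ := hA.fac hB hS hf hS3
  obtain ⟨E, hE⟩ : ∃ E : Subgroup L, E = Ef p H A := ⟨_, rfl⟩
  rw [← hE] at hF ⊢
  -- `q` is not `2` or `3`
  have hqdvd : ∀ n : ℕ, n ∣ Nat.card E → q ≠ n := by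
    intro n hn hqn
    apply hq
    rw [hqn]
    exact hn.trans (Subgroup.card_dvd_of_le hF.le_H)
  obtain ⟨iE⟩ := hF.iso
  have hcE : (2 ∣ Nat.card E) ∧ (3 ∣ Nat.card E) := by
    rw [Nat.card_congr iE.toEquiv]
    rcases h23 with h | h
    · subst h
      rw [card_sl2_2]
      decide
    · subst h
      rw [card_sl2_3]
      decide
  have hq2 : q ≠ 2 := hqdvd 2 hcE.1
  have hq3 : q ≠ 3 := hqdvd 3 hcE.2
  -- the stabilizer
  let St : Subgroup Y :=
    { carrier := {y | E.map (α y).toMonoidHom = E}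
      one_mem' := by
        show E.map (α 1).toMonoidHom = E
        ext x
        simp
      mul_mem' := by
        intro a b ha hb
        have ha' : E.map (α a).toMonoidHom = E := ha
        have hb' : E.map (α b).toMonoidHom = E := hb
        show E.map (α (a * b)).toMonoidHom = E
        have h1 : (α (a * b)).toMonoidHom = (α a).toMonoidHom.comp (α b).toMonoidHom := by
          ext x
          simp
        rw [h1, ← Subgroup.map_map, hb', ha']
      inv_mem' := by
        intro a ha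
        have ha' : E.map (α a).toMonoidHom = E := ha
        show E.map (α a⁻¹).toMonoidHom = E
        have h1 : (α a⁻¹).toMonoidHom.comp (α a).toMonoidHom = MonoidHom.id L := by
          ext x
          simp
        conv_lhs => rw [← ha']
        rw [Subgroup.map_map, h1, Subgroup.map_id] }
  have hSt : ∀ y, y ∈ St ↔ E.map (α y).toMonoidHom = E := fun y => Iff.rfl
  have hStp : IsPGroup q St := hY.to_subgroup St
  -- factors
  have hEy : ∀ y, E.map (α y).toMonoidHom = Ef p H (A.map (α y).toMonoidHom) := by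
    intro y
    rw [hE]
    exact map_Ef _ (hYH y) A
  have hMy : ∀ y, MinA p V H (A.map (α y).toMonoidHom) := fun y => map_MinA _ (hYV y) (hYH y) hA
  have hFy : ∀ y, Fac p V H (E.map (α y).toMonoidHom) := by
    intro y
    rw [hEy]
    exact ((hMy y).fac hB hS hf hS3).2
  have hne' : ∀ y y', E.map (α y).toMonoidHom ≠ E.map (α y').toMonoidHom →
      E.map (α y').toMonoidHom ≤ H ⊓ centralizer ((⁅V, E.map (α y).toMonoidHom⁆ : Subgroup L) : Set L) := by
    intro y y' h
    rw [hEy, hEy] at h ⊢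
    exact hne_of hB hS hf hS3 (hMy y) (hMy y') h
  have hWy : ∀ y, (⁅V, E⁆ : Subgroup L).map (α y).toMonoidHom = ⁅V, E.map (α y).toMonoidHom⁆ := by
    intro y
    rw [Subgroup.map_commutator, hYV]
  have hdist : ∀ y y', y⁻¹ * y' ∉ St → E.map (α y).toMonoidHom ≠ E.map (α y').toMonoidHom := by
    intro y y' hn heq
    apply hn
    rw [hSt]
    have h1 : (α (y⁻¹ * y')).toMonoidHom = (α y⁻¹).toMonoidHom.comp (α y').toMonoidHom := by
      ext x
      simp
    have h2 : (α y⁻¹).toMonoidHom.comp (α y).toMonoidHom = MonoidHom.id L := by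
      ext x
      simp
    rw [h1, ← Subgroup.map_map, ← heq, Subgroup.map_map, h2, Subgroup.map_id]
  have hαV : ∀ y, ∀ v ∈ V, α y v ∈ V := by
    intro y v hv
    rw [← hYV y]
    exact ⟨v, hv, rfl⟩
  have hWV : (⁅V, E⁆ : Subgroup L) ≤ V := le_sup_left.trans hF.sup.le
  -- the stabilizer acts trivially on the plane
  have hinvW : ∀ y ∈ St, ∀ w ∈ (⁅V, E⁆ : Subgroup L), α y w ∈ (⁅V, E⁆ : Subgroup L) := by
    intro y hy w hw
    have h1 := hWy y
    rw [(hSt y).1 hy] at h1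
    rw [← h1]
    exact ⟨w, hw, rfl⟩
  have htrivW : ∀ y ∈ St, ∀ w ∈ (⁅V, E⁆ : Subgroup L), α y w = w := by
    obtain ⟨F₀, hF₀⟩ : ∃ F₀ : Subgroup L, F₀ = (⁅V, E⁆ : Subgroup L) ⊓ Cfsg.Agent.Lib.CoprimeGen.fixS α St := ⟨_, rfl⟩
    have hF₀W : F₀ ≤ (⁅V, E⁆ : Subgroup L) := by
      rw [hF₀]
      exact inf_le_left
    suffices hs : (⁅V, E⁆ : Subgroup L) ≤ F₀ by
      intro y hy w hw
      have := hs hw
      rw [hF₀] at this
      exact this.2 y hy
    by_contra hns
    obtain ⟨S, hSd⟩ : ∃ S : Set L, S = ((⁅V, E⁆ : Subgroup L) : Set L) \ (F₀ : Set L) := ⟨_, rfl⟩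
    have hSinv : ∀ b ∈ St, ∀ s ∈ S, α b s ∈ S := by
      intro b hb s hs
      rw [hSd] at hs ⊢
      refine ⟨hinvW b hb s hs.1, ?_⟩
      intro hmem
      apply hs.2
      rw [SetLike.mem_coe, hF₀] at hmem ⊢
      refine ⟨hs.1, ?_⟩
      have h1 := hmem.2
      have hfix : ∀ c ∈ St, α c (α b s) = α b s := h1
      have hss : α b s = s := by
        have h2 := hfix b⁻¹ (St.inv_mem hb)
        rw [← MulAut.mul_apply, ← map_mul, inv_mul_cancel, map_one, MulAut.one_apply] at h2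
        exact h2.symm
      intro c hc
      have h3 := hfix c hc
      rw [hss] at h3
      exact h3
    have hcS : ¬ q ∣ Nat.card S := by
      have hcard : Nat.card S + Nat.card F₀ = p ^ 2 := by
        rw [← hF.card, hSd]
        have h1 := Set.ncard_diff_add_ncard_of_subset (s := (F₀ : Set L)) (t := ((⁅V, E⁆ : Subgroup L) : Set L))
          (fun x hx => hF₀W hx) (Set.toFinite _)
        rw [Nat.card_coe_set_eq]
        have h2 : Nat.card ↥F₀ = (F₀ : Set L).ncard := Nat.card_coe_set_eq (F₀ : Set L)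
        have h3 : Nat.card ↥(⁅V, E⁆ : Subgroup L) = ((⁅V, E⁆ : Subgroup L) : Set L).ncard :=
          Nat.card_coe_set_eq _
        rw [h2, h3]
        exact h1
      have hdvd : Nat.card F₀ ∣ p ^ 2 := by
        rw [← hF.card]
        exact Subgroup.card_dvd_of_le hF₀W
      obtain ⟨i, hi, hci⟩ := (Nat.dvd_prime_pow hpp).1 hdvd
      have hi2 : i ≠ 2 := by
        rintro rfl
        apply hns
        exact (Subgroup.eq_of_le_of_card_ge hF₀W (by rw [hci, hF.card])).symm.le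
      have hi' : i = 0 ∨ i = 1 := by omega
      have h2' : ¬ q ∣ 2 := fun h => hq2 ((Nat.prime_dvd_prime_iff_eq hqp Nat.prime_two).1 h)
      have h3' : ¬ q ∣ 3 := fun h => hq3 ((Nat.prime_dvd_prime_iff_eq hqp Nat.prime_three).1 h)
      have h8' : ¬ q ∣ 8 := fun h => h2' (hqp.dvd_of_dvd_pow (show q ∣ 2 ^ 3 from h))
      have h6' : ¬ q ∣ 6 := by
        intro h
        have h1 : q ∣ 2 * 3 := h
        rcases (Nat.Prime.dvd_mul hqp).1 h1 with h | h
        · exact h2' h
        · exact h3' h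
      rw [hci] at hcard
      rcases h23 with h | h <;> rcases hi' with h' | h' <;> rw [h, h'] at hcard
      · have : Nat.card S = 3 := by omega
        rw [this]
        exact h3'
      · have : Nat.card S = 2 := by omega
        rw [this]
        exact h2'
      · have : Nat.card S = 8 := by omega
        rw [this]
        exact h8'
      · have : Nat.card S = 6 := by omega
        rw [this]
        exact h6'
    obtain ⟨s, hs, hsfix⟩ := Cfsg.Agent.Lib.CoprimeGen.exists_fixed_abstract α hStp S hSinv hcS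
    rw [hSd] at hs
    apply hs.2
    rw [SetLike.mem_coe, hF₀]
    exact ⟨hs.1, hsfix⟩
  have htrivE : ∀ y ∈ St, ∀ e ∈ E, α y e = e := by
    intro y hy e he
    have hE' : α y e ∈ E := by
      have h1 := (hSt y).1 hy
      rw [← h1]
      exact ⟨e, he, rfl⟩
    have hcomm : e⁻¹ * α y e ∈ centralizer ((⁅V, E⁆ : Subgroup L) : Set L) := by
      refine mem_centralizer_iff.mpr ?_
      intro w hw
      have h1 := hF.comm_stable hS.hHV (hF.le_H he) hw
      have h2 : α y (e * w * e⁻¹) = e * w * e⁻¹ := htrivW y hy _ h1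
      rw [map_mul, map_mul, map_inv, htrivW y hy w hw] at h2
      symm
      calc (e⁻¹ * α y e) * w = e⁻¹ * (α y e * w * (α y e)⁻¹) * α y e := by group
        _ = e⁻¹ * (e * w * e⁻¹) * α y e := by rw [h2]
        _ = w * (e⁻¹ * α y e) := by group
    have hmemM : e⁻¹ * α y e ∈ E ⊓ (H ⊓ centralizer ((⁅V, E⁆ : Subgroup L) : Set L)) :=
      ⟨E.mul_mem (E.inv_mem he) hE', ⟨hF.le_H (E.mul_mem (E.inv_mem he) hE'), hcomm⟩⟩
    rw [hF.inf2, Subgroup.mem_bot] at hmemM
    exact (inv_mul_eq_one.mp hmemM).symm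
  have hcommE : ∀ y y' : Y, y⁻¹ * y' ∉ St → ∀ t ∈ E, ∀ t' ∈ E, Commute (α y t) (α y' t') := by
    intro y y' hn t ht t' ht'
    have h1 := hne' y y' (hdist y y' hn)
    exact (hFy y).comm ⟨t, ht, rfl⟩ (h1 ⟨t', ht', rfl⟩)
  have hcommW : ∀ y y' : Y, y⁻¹ * y' ∉ St → ∀ t ∈ (⁅V, E⁆ : Subgroup L), ∀ t' ∈ (⁅V, E⁆ : Subgroup L),
      Commute (α y t) (α y' t') := by
    intro y y' _ t ht t' ht'
    exact hS.hVc _ (hαV y t (hWV ht)) _ (hαV y' t' (hWV ht'))
  obtain ⟨ψ, hψ1, hψ2, hψ3⟩ := exists_diag α St E htrivE hcommE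
  obtain ⟨ψ', hψ'1, hψ'2, hψ'3⟩ := exists_diag α St (⁅V, E⁆ : Subgroup L) htrivW hcommW
  have hα1 : ∀ x : L, α 1 x = x := by
    intro x
    simp
  have hE1 : E.map (α 1).toMonoidHom = E := (hSt 1).1 St.one_mem
  have hdecy : ∀ y (e : E), (α y e)⁻¹ * ψ e ∈
      H ⊓ centralizer ((⁅V, E.map (α y).toMonoidHom⁆ : Subgroup L) : Set L) := by
    intro y e
    apply hψ2 y
    intro y' hn t ht
    exact hne' y y' (hdist y y' hn) ⟨t, ht, rfl⟩
  refine ⟨ψ, ψ', hψ1, ?_, hψ'1, ?_, ?_, ?_⟩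
  · intro e
    have h1 := hdecy 1 e
    rw [hE1, hα1] at h1
    exact h1
  · intro w
    have h1 := hψ'2 1 V (fun y' _ t ht => hαV y' t (hWV ht)) w
    rw [hα1] at h1
    have h2 := V.mul_mem (hWV w.2) h1
    rwa [mul_inv_cancel_left] at h2
  · rw [injective_iff_map_eq_one]
    intro w hw
    have hR : ∀ y', (1 : Y)⁻¹ * y' ∉ St → ∀ t ∈ (⁅V, E⁆ : Subgroup L), α y' t ∈ V ⊓ centralizer (E : Set L) := by
      intro y' hn t ht
      have hne1 : E.map (α 1).toMonoidHom ≠ E.map (α y').toMonoidHom := hdist 1 y' hn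
      have h1 := hne' 1 y' hne1
      rw [hE1] at h1
      have h2 : α y' t ∈ (⁅V, E.map (α y').toMonoidHom⁆ : Subgroup L) := by
        rw [← hWy]
        exact ⟨t, ht, rfl⟩
      have h3 : (⁅V, E.map (α y').toMonoidHom⁆ : Subgroup L) ≤ ⁅V, H ⊓ centralizer ((⁅V, E⁆ : Subgroup L) : Set L)⁆ :=
        Subgroup.commutator_mono le_rfl h1
      exact hF.le (h3 h2)
    have h1 := hψ'2 1 _ hR w
    rw [hw, mul_one, hα1] at h1
    have h2 : (w : L) ∈ (⁅V, E⁆ : Subgroup L) ⊓ (V ⊓ centralizer (E : Set L)) := by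
      refine ⟨w.2, ?_⟩
      have h3 := Subgroup.inv_mem _ h1
      rwa [inv_inv] at h3
    rw [hF.inf, Subgroup.mem_bot] at h2
    exact Subtype.ext h2
  · intro e w w' hw'
    have hg := hψ'3 (MulAut.conj (ψ e)).toMonoidHom w w' ?_
    · exact hg
    intro y
    show ψ e * α y w * (ψ e)⁻¹ = α y w'
    have hm := hdecy y e
    obtain ⟨m, hmd⟩ : ∃ m, m = (α y e)⁻¹ * ψ e := ⟨_, rfl⟩
    rw [← hmd] at hm
    have hψe : ψ e = α y e * m := by
      rw [hmd]
      group
    have hw2 : α y w ∈ (⁅V, E.map (α y).toMonoidHom⁆ : Subgroup L) := by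
      rw [← hWy]
      exact ⟨w, w.2, rfl⟩
    have hcm := mem_centralizer_iff.mp hm.2 _ hw2
    rw [hw', map_mul, map_mul, map_inv, hψe]
    calc (α y e * m) * α y w * (α y e * m)⁻¹ = α y e * (m * α y w) * m⁻¹ * (α y e)⁻¹ := by group
      _ = α y e * (α y w * m) * m⁻¹ * (α y e)⁻¹ := by rw [hcm]
      _ = α y e * α y w * (α y e)⁻¹ := by group

end T

end Cfsg.Agent.Lib.FacAct
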