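import Mathlib
import Cfsg.Prelude
import Cfsg.Agent.Lib.BestOffStruct
import Cfsg.Agent.Lib.ThompsonBasic
import Cfsg.Agent.Lib.H6Hall
import Cfsg.Agent.Lib.H6PExp
import Cfsg.Agent.Lib.PCore
import Cfsg.Agent.Lib.PConstr
import Cfsg.Agent.Lib.UpperP

/-! Failure of factorization for a group acting on a normal elementary abelian subgroup: the
quotient by the centralizer is realised in a semidirect product, where the structure theorem
applies, and the result is pulled back. -/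

set_option autoImplicit false
set_option linter.all false

namespace Cfsg.Agent.Lib.FacFail

open Subgroup Cfsg SemidirectProduct
open scoped commutatorElement

universe u v

/-- Size of an image. -/
theorem card_map_mul {G : Type*} {Q : Type*} [Group G] [Group Q] [Finite G] (f : G →* Q) (B : Subgroup G) :
    Nat.card (B.map f) * Nat.card ↥(B ⊓ f.ker) = Nat.card B := by
  classical
  let g : B →* Q := f.comp B.subtype
  have h1 : g.range = B.map f := by
    rw [MonoidHom.range_comp, Subgroup.range_subtype]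
  have h2 : Nat.card g.ker = Nat.card ↥(B ⊓ f.ker) := by
    refine Nat.card_congr ⟨fun x => ⟨x.1.1, x.1.2, ?_⟩, fun x => ⟨⟨x.1, x.2.1⟩, ?_⟩, ?_, ?_⟩
    · exact MonoidHom.mem_ker.mp x.2
    · exact MonoidHom.mem_ker.mpr x.2.2
    · intro x; rfl
    · intro x; rfl
  have h3 := Subgroup.card_mul_index g.ker
  have h4 := Subgroup.index_ker g
  rw [h4, h1, h2] at h3
  rw [mul_comm]
  exact h3

section transfer

variable {G : Type u} {Q : Type u} [Group G] [Group Q] [Finite G] [Finite Q] {p : ℕ}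
variable {V : Subgroup G} {π : G →* Q} {φ : Q →* MulAut V}

theorem inl_comm_inr (v : V) (q : Q) :
    ((inl v : V ⋊[φ] Q) * inr q = inr q * inl v) ↔ φ q v = v := by
  constructor
  · intro h
    have := congrArg SemidirectProduct.left h
    simpa [SemidirectProduct.mul_left] using this.symm
  · intro h
    apply SemidirectProduct.ext
    · simp [SemidirectProduct.mul_left, h]
    · simp [SemidirectProduct.mul_right]

theorem mem_centr_hat (hφ : ∀ g (v : V), ((φ (π g) v : V) : G) = g * v * g⁻¹) (X : Subgroup G) (v : V) :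
    (inl v : V ⋊[φ] Q) ∈ centralizer (((X.map π).map inr : Subgroup (V ⋊[φ] Q)) : Set (V ⋊[φ] Q)) ↔
      (v : G) ∈ centralizer (X : Set G) := by
  rw [mem_centralizer_iff, mem_centralizer_iff]
  constructor
  · intro h x hx
    have h1 := h (inr (π x)) ⟨π x, ⟨x, hx, rfl⟩, rfl⟩
    have h2 := (inl_comm_inr (φ := φ) v (π x)).1 h1.symm
    have h3 := hφ x v
    rw [h2] at h3
    have h4 : (v : G) * x = x * v := by
      calc (v : G) * x = x * v * x⁻¹ * x := by rw [← h3]
        _ = x * v := by group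
    exact h4.symm
  · rintro h _ ⟨_, ⟨x, hx, rfl⟩, rfl⟩
    have h1 := h x hx
    have h2 : φ (π x) v = v := by
      apply Subtype.ext
      rw [hφ x v, h1]
      group
    exact ((inl_comm_inr (φ := φ) v (π x)).2 h2).symm

theorem card_cent_hat (hφ : ∀ g (v : V), ((φ (π g) v : V) : G) = g * v * g⁻¹) (X : Subgroup G) :
    Nat.card ↥((inl : V →* V ⋊[φ] Q).range ⊓
      centralizer (((X.map π).map inr : Subgroup (V ⋊[φ] Q)) : Set (V ⋊[φ] Q))) =
      Nat.card ↥(V ⊓ centralizer (X : Set G)) := by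
  have h : ((inl : V →* V ⋊[φ] Q).range ⊓
      centralizer (((X.map π).map inr : Subgroup (V ⋊[φ] Q)) : Set (V ⋊[φ] Q))) =
      ((V ⊓ centralizer (X : Set G)).subgroupOf V).map (inl : V →* V ⋊[φ] Q) := by
    ext y
    constructor
    · rintro ⟨⟨v, rfl⟩, hv⟩
      refine ⟨v, ?_, rfl⟩
      show (v : G) ∈ V ⊓ centralizer (X : Set G)
      exact ⟨v.2, (mem_centr_hat hφ X v).1 hv⟩
    · rintro ⟨v, hv, rfl⟩
      rw [SetLike.mem_coe, Subgroup.mem_subgroupOf] at hv
      exact ⟨⟨v, rfl⟩, (mem_centr_hat hφ X v).2 hv.2⟩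
  rw [h, Subgroup.card_map_of_injective inl_injective]
  exact Nat.card_congr (Subgroup.subgroupOfEquivOfLe inf_le_left).toEquiv

theorem bo_hat (hV : IsElementaryAbelian p V) (hφ : ∀ g (v : V), ((φ (π g) v : V) : G) = g * v * g⁻¹)
    (A : Subgroup G) (hA : A ∈ maxElementaryAbelianSubgroups p G) :
    IsBestOffenderOn p (inl : V →* V ⋊[φ] Q).range ((A.map π).map inr) := by
  have hbo := Cfsg.Agent.Lib.ThompsonBasic.max_best_offender V hV A hA
  refine ⟨fun B hB => ?_, ?_, ?_⟩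
  · obtain ⟨B₀, hB₀⟩ : ∃ B₀ : Subgroup G, B₀ = A ⊓ B.comap (inr.comp π) := ⟨_, rfl⟩
    have hB₁ : (B₀.map π).map inr = B := by
      apply le_antisymm
      · rintro _ ⟨_, ⟨x, hx, rfl⟩, rfl⟩
        rw [hB₀] at hx
        exact hx.2
      · intro y hy
        obtain ⟨_, ⟨a, ha, rfl⟩, rfl⟩ := hB hy
        exact ⟨_, ⟨a, by rw [hB₀]; exact ⟨ha, hy⟩, rfl⟩, rfl⟩
    rw [← hB₁, card_cent_hat hφ B₀, card_cent_hat hφ A]
    rw [Subgroup.card_map_of_injective inr_injective, Subgroup.card_map_of_injective inr_injective]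
    have h1 := card_map_mul π B₀
    have h2 := card_map_mul π A
    have hK : B₀ ⊓ π.ker = A ⊓ π.ker := by
      apply le_antisymm
      · rw [hB₀]
        exact inf_le_inf_right _ inf_le_left
      · rintro a ⟨ha, hk⟩
        refine ⟨?_, hk⟩
        rw [hB₀]
        refine ⟨ha, ?_⟩
        have hk' : π a = 1 := hk
        show inr (π a) ∈ B
        rw [hk', map_one]
        exact B.one_mem
    have h3 := hbo.1 B₀ (by rw [hB₀]; exact inf_le_left)
    rw [hK] at h1
    have hpos : 0 < Nat.card ↥(A ⊓ π.ker) := Nat.card_pos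
    apply Nat.le_of_mul_le_mul_right _ hpos
    calc Nat.card (B₀.map π) * Nat.card ↥(V ⊓ centralizer (B₀ : Set G)) * Nat.card ↥(A ⊓ π.ker)
        = (Nat.card (B₀.map π) * Nat.card ↥(A ⊓ π.ker)) * Nat.card ↥(V ⊓ centralizer (B₀ : Set G)) := by ring
      _ = Nat.card B₀ * Nat.card ↥(V ⊓ centralizer (B₀ : Set G)) := by rw [h1]
      _ ≤ Nat.card A * Nat.card ↥(V ⊓ centralizer (A : Set G)) := h3
      _ = (Nat.card (A.map π) * Nat.card ↥(A ⊓ π.ker)) * Nat.card ↥(V ⊓ centralizer (A : Set G)) := by rw [h2]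
      _ = Nat.card (A.map π) * Nat.card ↥(V ⊓ centralizer (A : Set G)) * Nat.card ↥(A ⊓ π.ker) := by ring
  · rw [Subgroup.commutator_le]
    rintro _ ⟨_, ⟨x, hx, rfl⟩, rfl⟩ _ ⟨_, ⟨y, hy, rfl⟩, rfl⟩
    have hc : x * y = y * x := by
      have := hA.1.1.is_comm.comm (⟨x, hx⟩ : A) ⟨y, hy⟩
      exact congrArg Subtype.val this
    have : ⁅(inr (π x) : V ⋊[φ] Q), (inr (π y) : V ⋊[φ] Q)⁆ = 1 := by
      rw [commutatorElement_eq_one_iff_mul_comm, ← map_mul, ← map_mul, ← map_mul, ← map_mul, hc]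
    rw [this]
    exact Subgroup.one_mem _
  · rintro _ ⟨_, ⟨x, hx, rfl⟩, rfl⟩
    have : (inr (π x) : V ⋊[φ] Q) ^ p = 1 := by
      rw [← map_pow, ← map_pow, hA.1.2 x hx, map_one, map_one]
    rw [this]
    exact Subgroup.one_mem _

end transfer

section pull

variable {G : Type*} {Q : Type*} {X : Type*} {T : Type*} [Group G] [Group Q] [Group X] [Group T]

/-- Pulling back a subgroup of the image. -/
theorem pull (π : G →* Q) (hπ : Function.Surjective π) (j : Q →* X) (hj : Function.Injective j)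
    (J : Subgroup G) (E : Subgroup X) (hE : E ≤ (J.map π).map j)
    (hN : (J.map π).map j ≤ normalizer (E : Set X)) (iso : Nonempty (E ≃* T))
    (C : Subgroup G) (hC : π.ker = C) :
    ∃ E' : Subgroup G, C ≤ E' ∧ E' ≤ J ⊔ C ∧ J ⊔ C ≤ normalizer (E' : Set G) ∧
      ∃ hn : (C.subgroupOf E').Normal, Nonempty ((↥E' ⧸ C.subgroupOf E') ≃* T) := by
  classical
  subst hC
  obtain ⟨E', hE'⟩ : ∃ E' : Subgroup G, E' = E.comap (j.comp π) := ⟨_, rfl⟩
  have hmem : ∀ x, x ∈ E' ↔ j (π x) ∈ E := by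
    intro x
    rw [hE']
    rfl
  have hsupmem : ∀ y ∈ J ⊔ π.ker, ∃ z ∈ J, π y = π z := by
    intro y hy
    have : y ∈ (J.map π).comap π := by
      have h2 : J ⊔ π.ker ≤ (J.map π).comap π := by
        rw [Subgroup.comap_map_eq]
      exact h2 hy
    obtain ⟨z, hz, hzy⟩ := this
    exact ⟨z, hz, hzy.symm⟩
  refine ⟨E', ?_, ?_, ?_, ?_⟩
  · intro c hc
    rw [hmem, MonoidHom.mem_ker.mp hc, map_one]
    exact E.one_mem
  · intro x hx
    rw [hmem] at hx
    obtain ⟨_, ⟨z, hz, rfl⟩, hzx⟩ := hE hx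
    have h1 : π z = π x := hj hzx
    have h2 : z⁻¹ * x ∈ π.ker := by
      rw [MonoidHom.mem_ker, map_mul, map_inv, h1, inv_mul_cancel]
    have h3 : x = z * (z⁻¹ * x) := by group
    rw [h3]
    exact mul_mem (mem_sup_left hz) (mem_sup_right h2)
  · intro y hy
    obtain ⟨z, hz, hzy⟩ := hsupmem y hy
    rw [mem_normalizer_iff]
    intro n
    have h1 := (mem_normalizer_iff.mp (hN ⟨π z, ⟨z, hz, rfl⟩, rfl⟩)) (j (π n))
    rw [hmem, hmem]
    have h2 : j (π (y * n * y⁻¹)) = j (π z) * j (π n) * (j (π z))⁻¹ := by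
      simp only [map_mul, map_inv, hzy]
    rw [h2]
    exact h1
  · let f : E' →* E := MonoidHom.codRestrict ((j.comp π).comp E'.subtype) E (fun x => (hmem x.1).1 x.2)
    have hf : Function.Surjective f := by
      rintro ⟨y, hy⟩
      obtain ⟨_, ⟨z, hz, rfl⟩, hzy⟩ := hE hy
      refine ⟨⟨z, (hmem z).2 (by rw [hzy]; exact hy)⟩, Subtype.ext hzy⟩
    have hk : π.ker.subgroupOf E' = f.ker := by
      ext x
      rw [Subgroup.mem_subgroupOf, MonoidHom.mem_ker, MonoidHom.mem_ker]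
      constructor
      · intro h
        apply Subtype.ext
        show j (π x.1) = 1
        rw [h, map_one]
      · intro h
        have h2 : j (π x.1) = 1 := congrArg Subtype.val h
        exact hj (by rw [h2, map_one])
    refine ⟨hk ▸ inferInstance, ?_⟩
    obtain ⟨i⟩ := iso
    exact ⟨(QuotientGroup.quotientMulEquivOfEq hk).trans
      ((QuotientGroup.quotientKerEquivOfSurjective f hf).trans i)⟩

end pull

section main

variable {G : Type u} [Group G] [Finite G] {p : ℕ} [hp : Fact p.Prime]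

/-- Failure of factorization: `J(G)` acts nontrivially on a normal elementary abelian `V`, with
no nontrivial normal `p`-subgroup in `G / C_G(V)`. -/
theorem main (V C : Subgroup G) [hVn : V.Normal] [hCn : C.Normal] (hC : C = centralizer (V : Set G))
    (hV : IsElementaryAbelian p V) (hsep : IsPSolvable p G)
    (hO : pCore p (G ⧸ C) = ⊥) (hJn : (thompsonSubgroup p G).Normal)
    (hJ : ¬ thompsonSubgroup p G ≤ C) :
    (p = 2 ∨ p = 3) ∧ ∃ E : Subgroup G, C ≤ E ∧
      E ≤ thompsonSubgroup p G ⊔ C ∧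
      thompsonSubgroup p G ⊔ C ≤ normalizer (E : Set G) ∧
      ∃ hn : (C.subgroupOf E).Normal,
        Nonempty ((↥E ⧸ C.subgroupOf E) ≃* Matrix.SpecialLinearGroup (Fin 2) (ZMod p)) := by
  classical
  obtain ⟨π, hπ⟩ : ∃ π : G →* G ⧸ C, π = QuotientGroup.mk' C := ⟨_, rfl⟩
  have hπs : Function.Surjective π := by
    rw [hπ]
    exact QuotientGroup.mk'_surjective C
  have hker : π.ker = C := by
    rw [hπ]
    exact QuotientGroup.ker_mk' C
  have hkc : ∀ g ∈ C, (MulAut.conjNormal g : MulAut V) = 1 := by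
    intro g hg
    rw [hC, mem_centralizer_iff] at hg
    ext v
    simp only [MulAut.conjNormal_apply, MulAut.one_apply]
    have := hg v v.2
    rw [← this]
    group
  obtain ⟨φ, hφ⟩ : ∃ φ : (G ⧸ C) →* MulAut V, ∀ g (v : V), ((φ (π g) v : V) : G) = g * v * g⁻¹ := by
    refine ⟨QuotientGroup.lift C (MulAut.conjNormal : G →* MulAut V) hkc, fun g v => ?_⟩
    rw [hπ]
    exact MulAut.conjNormal_apply g v
  have hφi : ∀ q, (∀ v, φ q v = v) → q = 1 := by
    intro q hq
    obtain ⟨g, rfl⟩ := hπs q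
    have hg : g ∈ C := by
      rw [hC, mem_centralizer_iff]
      intro v hv
      have h1 := hφ g ⟨v, hv⟩
      rw [hq] at h1
      have h2 : v = g * v * g⁻¹ := h1
      calc v * g = g * v * g⁻¹ * g := by rw [← h2]
        _ = g * v := by group
    rw [← hker] at hg
    exact hg
  haveI hXf : Finite (V ⋊[φ] (G ⧸ C)) := Finite.of_equiv _ SemidirectProduct.equivProd.symm
  obtain ⟨Vh, hVh⟩ : ∃ Vh : Subgroup (V ⋊[φ] (G ⧸ C)), Vh = (inl : V →* V ⋊[φ] (G ⧸ C)).range := ⟨_, rfl⟩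
  obtain ⟨J, hJd⟩ : ∃ J : Subgroup G, J = thompsonSubgroup p G := ⟨_, rfl⟩
  rw [← hJd] at hJ hJn ⊢
  obtain ⟨Hb, hHb⟩ : ∃ Hb : Subgroup (G ⧸ C), Hb = J.map π := ⟨_, rfl⟩
  obtain ⟨H, hH⟩ : ∃ H : Subgroup (V ⋊[φ] (G ⧸ C)), H = Hb.map inr := ⟨_, rfl⟩
  have hVe : IsElementaryAbelian p Vh := by
    constructor
    · refine ⟨⟨fun a b => ?_⟩⟩
      obtain ⟨a, ha⟩ := a
      obtain ⟨b, hb⟩ := b
      rw [hVh] at ha hb
      obtain ⟨u, rfl⟩ := ha
      obtain ⟨v, rfl⟩ := hb
      apply Subtype.ext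
      show inl u * inl v = inl v * inl u
      have h1 := hV.1.is_comm.comm u v
      rw [← map_mul, ← map_mul, h1]
    · rw [hVh]
      rintro _ ⟨v, rfl⟩
      rw [← map_pow]
      have h1 : v ^ p = 1 := Subtype.ext (hV.2 v v.2)
      rw [h1, map_one]
  have hVnn : Vh.Normal := by
    rw [hVh, SemidirectProduct.range_inl_eq_ker_rightHom]
    exact MonoidHom.normal_ker _
  have hHV : H ≤ normalizer (Vh : Set (V ⋊[φ] (G ⧸ C))) := by
    intro h _
    rw [mem_normalizer_iff]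
    intro n
    constructor
    · intro hn
      exact hVnn.conj_mem n hn h
    · intro hn
      have := hVnn.conj_mem _ hn h⁻¹
      simpa [mul_assoc] using this
  have hf : H ⊓ centralizer (Vh : Set (V ⋊[φ] (G ⧸ C))) = ⊥ := by
    rw [eq_bot_iff]
    rintro y ⟨hy, hc⟩
    rw [hH] at hy
    obtain ⟨q, -, rfl⟩ := hy
    have hq : q = 1 := by
      apply hφi
      intro v
      have h1 := (mem_centralizer_iff.mp hc) (inl v) (by rw [hVh]; exact ⟨v, rfl⟩)
      exact (inl_comm_inr (φ := φ) v q).1 h1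
    rw [hq, map_one]
    exact Subgroup.one_mem _
  have hsQ : IsPSolvable p (G ⧸ C) := Cfsg.Agent.Lib.PConstr.isPSolvable_of_surjective π hπs hsep
  have hsb : IsPSolvable p Hb := Cfsg.Agent.Lib.H6Hall.isPSolvable_subgroup p hsQ Hb
  obtain ⟨e, he⟩ : ∃ e : Hb ≃* H, True := by
    rw [hH]
    exact ⟨Hb.equivMapOfInjective inr inr_injective, trivial⟩
  have hsH : IsPSolvable p H := Cfsg.Agent.Lib.PConstr.isPSolvable_of_surjective e.toMonoidHom e.surjective hsb
  have hHbn : Hb.Normal := by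
    rw [hHb]
    exact hJn.map π hπs
  have hOb : pCore p Hb = ⊥ := by
    haveI : (pCore p Hb).Characteristic := by
      rw [Subgroup.characteristic_iff_map_eq]
      intro ϕ
      exact Cfsg.Agent.Lib.PCore.pCore_map_equiv ϕ
    have h1 : (pCore p Hb).map Hb.subtype ≤ pCore p (G ⧸ C) := by
      apply Cfsg.Agent.Lib.PCore.le_pCore
      · infer_instance
      · exact (Cfsg.Agent.Lib.PCore.isPGroup_pCore p Hb).map _
    rw [hO, le_bot_iff, Subgroup.map_eq_bot_iff_of_injective _ Hb.subtype_injective] at h1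
    exact h1
  have hOH : pCore p H = ⊥ := by
    rw [← Cfsg.Agent.Lib.PCore.pCore_map_equiv e, hOb, Subgroup.map_bot]
  have hS1 : centralizer (pPrimeCore p ↥H : Set ↥H) ≤ pPrimeCore p ↥H :=
    Cfsg.Agent.Lib.H6PExp.centralizer_pPrimeCore_le hsH hOH
  have hS3 : H = ⨆ A : {A : Subgroup (V ⋊[φ] (G ⧸ C)) // A ≤ H ∧ IsBestOffenderOn p Vh A}, (A : Subgroup (V ⋊[φ] (G ⧸ C))) := by
    apply le_antisymm
    · calc H = (J.map π).map inr := by rw [hH, hHb]
        _ ≤ _ := by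
          rw [Subgroup.map_le_iff_le_comap, Subgroup.map_le_iff_le_comap, hJd]
          refine sSup_le fun A hA => ?_
          rw [← Subgroup.map_le_iff_le_comap, ← Subgroup.map_le_iff_le_comap]
          have hAle : (A.map π).map inr ≤ H := by
            rw [hH, hHb, hJd]
            exact Subgroup.map_mono (Subgroup.map_mono (le_sSup hA))
          have hbo : IsBestOffenderOn p Vh ((A.map π).map inr) := by
            rw [hVh]
            exact bo_hat hV hφ A hA
          exact le_iSup (fun A : {A : Subgroup (V ⋊[φ] (G ⧸ C)) // A ≤ H ∧ IsBestOffenderOn p Vh A} => (A : Subgroup (V ⋊[φ] (G ⧸ C))))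
            ⟨(A.map π).map inr, hAle, hbo⟩
    · exact iSup_le fun A => A.2.1
  have hH1 : H ≠ ⊥ := by
    intro hb
    apply hJ
    rw [hH, Subgroup.map_eq_bot_iff_of_injective _ inr_injective, hHb] at hb
    rw [← hker, ← Subgroup.map_eq_bot_iff]
    exact hb
  obtain ⟨W, i1, i2, Φ, hB⟩ := Cfsg.Agent.Lib.BestOffMain.exists_model (p := p) Vh hVe
  letI := i1
  letI := i2
  have hSet := Cfsg.Agent.Lib.BestOff.setup_of (p := p) Vh H hVe hHV hf hS1
  obtain ⟨h23, hE, -⟩ := Cfsg.Agent.Lib.BestOffStruct.s0617 hB hSet hf hS3 hH1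
  refine ⟨h23, ?_⟩
  -- a nontrivial best offender
  have hex : ∃ A₀ : Subgroup (V ⋊[φ] (G ⧸ C)), A₀ ≤ H ∧ IsBestOffenderOn p Vh A₀ ∧ A₀ ≠ ⊥ := by
    by_contra hno
    push Not at hno
    apply hH1
    rw [hS3, iSup_eq_bot]
    rintro ⟨A, hA1, hA2⟩
    exact hno A hA1 hA2
  obtain ⟨A₀, hA₀1, hA₀2, hA₀3⟩ := hex
  have hA₀c : ⁅Vh, A₀⁆ ≠ ⊥ := by
    intro hb
    apply hA₀3
    rw [eq_bot_iff, ← hf]
    refine le_inf hA₀1 ?_
    rw [Subgroup.commutator_comm, Subgroup.commutator_eq_bot_iff_le_centralizer] at hb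
    exact hb
  obtain ⟨A, hAm⟩ := (Set.toFinite {B : Subgroup (V ⋊[φ] (G ⧸ C)) | B ≤ H ∧ IsBestOffenderOn p Vh B ∧ ⁅Vh, B⁆ ≠ ⊥}).exists_minimal ⟨A₀, hA₀1, hA₀2, hA₀c⟩
  obtain ⟨⟨hA1, hA2, hA3⟩, hAmin⟩ := hAm
  have hmin : ∀ B : Subgroup (V ⋊[φ] (G ⧸ C)), B ≤ A → IsBestOffenderOn p Vh B → ⁅Vh, B⁆ ≠ ⊥ → B = A := by
    intro B h1 h2 h3
    exact le_antisymm h1 (hAmin ⟨h1.trans hA1, h2, h3⟩ h1)
  obtain ⟨E, hEd⟩ : ∃ E : Subgroup (V ⋊[φ] (G ⧸ C)), E = ⁅((pPrimeCore p ↥H).map H.subtype), A⁆ ⊔ A := ⟨_, rfl⟩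
  obtain ⟨hEN, hEi, -⟩ := hE ⟨E, A, hA1, hA2, hA3, hmin, hEd⟩
  have hEH : E ≤ H := by
    rw [hEd]
    refine sup_le ?_ hA1
    rw [Subgroup.commutator_le]
    intro g hg a ha
    have hg' : g ∈ H := Subgroup.map_subtype_le _ hg
    have ha' := hA1 ha
    rw [commutatorElement_def]
    exact H.mul_mem (H.mul_mem (H.mul_mem hg' ha') (H.inv_mem hg')) (H.inv_mem ha')
  have hEN' : H ≤ normalizer (E : Set (V ⋊[φ] (G ⧸ C))) := hEN
  have hHeq : H = (J.map π).map inr := by rw [hH, hHb]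
  rw [hHeq] at hEH hEN'
  exact pull π hπs inr inr_injective J E hEH hEN' hEi C hker

theorem pCore_quot_eq_bot (C : Subgroup G) [hCn : C.Normal]
    (hD : ∀ D : Subgroup G, D.Normal → C ≤ D → (∃ k : ℕ, C.relIndex D = p ^ k) → D = C) :
    pCore p (G ⧸ C) = ⊥ := by
  have hPn := Cfsg.Agent.Lib.PCore.pCore_normal p (G ⧸ C)
  have hPp := Cfsg.Agent.Lib.PCore.isPGroup_pCore p (G ⧸ C)
  obtain ⟨π, hπ⟩ : ∃ π : G →* G ⧸ C, π = QuotientGroup.mk' _ := ⟨_, rfl⟩
  have hπs : Function.Surjective π := by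
    rw [hπ]
    exact QuotientGroup.mk'_surjective _
  have hker : π.ker = C := by
    rw [hπ]
    exact QuotientGroup.ker_mk' _
  have hDn : ((pCore p (G ⧸ C)).comap π).Normal := hPn.comap π
  have hle : C ≤ (pCore p (G ⧸ C)).comap π := by
    intro c hc
    have : π c = 1 := by
      rw [← MonoidHom.mem_ker, hker]
      exact hc
    show π c ∈ pCore p (G ⧸ C)
    rw [this]
    exact Subgroup.one_mem _
  have hidx : ∃ k : ℕ, C.relIndex ((pCore p (G ⧸ C)).comap π) = p ^ k := by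
    obtain ⟨k, hk⟩ := IsPGroup.iff_card.mp hPp
    refine ⟨k, ?_⟩
    have h1 : C.relIndex ((pCore p (G ⧸ C)).comap π) = ((⊥ : Subgroup (G ⧸ C)).comap π).relIndex ((pCore p (G ⧸ C)).comap π) := by
      have hC' : (⊥ : Subgroup (G ⧸ C)).comap π = C := by
        ext x
        rw [Subgroup.mem_comap, Subgroup.mem_bot, ← MonoidHom.mem_ker, hker]
      rw [hC']
    rw [h1, Subgroup.relIndex_comap, Subgroup.map_comap_eq_self_of_surjective hπs, Subgroup.relIndex_bot_left, hk]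
  have h := hD _ hDn hle hidx
  rw [eq_bot_iff]
  intro x hx
  obtain ⟨g, rfl⟩ := hπs x
  have hg : g ∈ (pCore p (G ⧸ C)).comap π := hx
  rw [h, ← hker] at hg
  exact hg

end main

end Cfsg.Agent.Lib.FacFail
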