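import Mathlib
import Cfsg.Prelude
import Cfsg.Agent.Lib.FacAct
import Cfsg.Agent.Lib.FacFail

/-! The semidirect product carrying an action of a coprime group. -/

set_option autoImplicit false
set_option linter.all false

namespace Cfsg.Agent.Lib.FacFix

open Subgroup Cfsg SemidirectProduct Cfsg.Agent.Lib.BestOff Cfsg.Agent.Lib.FacAct Cfsg.Agent.Lib.FacFail
open scoped commutatorElement

universe u v

variable {Γ : Type u} [Group Γ] [Finite Γ] {p q : ℕ} [hp : Fact p.Prime] [hq' : Fact q.Prime]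
variable {Y : Type v} [Group Y] [Finite Y]

/-- The interface of the semidirect product. -/
structure Pack (p q : ℕ) [Fact p.Prime] (κ : Y →* MulAut Γ) (V C J : Subgroup Γ) {L : Type u} [Group L] [Finite L]
    (Vh H : Subgroup L) (j : V →* L) (i : Γ →* L) (α : Y →* MulAut L) : Prop where
  hj : Function.Injective j
  hVh : Vh = j.range
  hH : H = J.map i
  hker : i.ker = C
  hconj : ∀ g (v v' : V), (v' : Γ) = g * v * g⁻¹ → i g * j v * (i g)⁻¹ = j v'
  hαj : ∀ y (v v' : V), (v' : Γ) = κ y v → α y (j v) = j v'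
  hαi : ∀ y g, α y (i g) = i (κ y g)
  hf : H ⊓ centralizer (Vh : Set L) = ⊥
  hS : Setup p Vh H (Cr p H)
  hS3 : H = ⨆ A : {A : Subgroup L // A ≤ H ∧ IsBestOffenderOn p Vh A}, (A : Subgroup L)
  hYV : ∀ y, Vh.map (α y).toMonoidHom = Vh
  hYH : ∀ y, H.map (α y).toMonoidHom = H
  hq : ¬ q ∣ Nat.card H
  hVe : IsElementaryAbelian p Vh

theorem exists_pack (V C J : Subgroup Γ) [hVn : V.Normal] [hCn : C.Normal] (hC : C = centralizer (V : Set Γ))
    (hV : IsElementaryAbelian p V) (hsep : IsPSolvable p Γ) (hO : pCore p (Γ ⧸ C) = ⊥)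
    (hJd : J = thompsonSubgroup p Γ) (hJn : J.Normal) (κ : Y →* MulAut Γ)
    (hκV : ∀ y, ∀ v ∈ V, κ y v ∈ V) (hκC : ∀ y, ∀ c ∈ C, κ y c ∈ C) (hκJ : ∀ y, ∀ c ∈ J, κ y c ∈ J)
    (hq : ¬ q ∣ Nat.card Γ) :
    ∃ (L : Type u) (iL : Group L) (fL : Finite L) (Vh H : Subgroup L) (j : V →* L) (i : Γ →* L)
      (α : Y →* MulAut L), Pack p q κ V C J Vh H j i α := by
  classical
  obtain ⟨π, hπ⟩ : ∃ π : Γ →* Γ ⧸ C, π = QuotientGroup.mk' C := ⟨_, rfl⟩
  have hπs : Function.Surjective π := by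
    rw [hπ]
    exact QuotientGroup.mk'_surjective C
  have hker : π.ker = C := by
    rw [hπ]
    exact QuotientGroup.ker_mk' C
  have hkc : ∀ g ∈ C, (MulAut.conjNormal g : MulAut V) = 1 := by
    intro g hg
    rw [hC, mem_centralizer_iff] at hg
    ext v
    simp only [MulAut.conjNormal_apply, MulAut.one_apply]
    have := hg v v.2
    rw [← this]
    group
  obtain ⟨φ, hφ⟩ : ∃ φ : (Γ ⧸ C) →* MulAut V, ∀ g (v : V), ((φ (π g) v : V) : Γ) = g * v * g⁻¹ := by
    refine ⟨QuotientGroup.lift C (MulAut.conjNormal : Γ →* MulAut V) hkc, fun g v => ?_⟩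
    rw [hπ]
    exact MulAut.conjNormal_apply g v
  have hφi : ∀ q, (∀ v, φ q v = v) → q = 1 := by
    intro q hq
    obtain ⟨g, rfl⟩ := hπs q
    have hg : g ∈ C := by
      rw [hC, mem_centralizer_iff]
      intro v hv
      have h1 := hφ g ⟨v, hv⟩
      rw [hq] at h1
      have h2 : v = g * v * g⁻¹ := h1
      calc v * g = g * v * g⁻¹ * g := by rw [← h2]
        _ = g * v := by group
    rw [← hker] at hg
    exact hg
  haveI hXf : Finite (V ⋊[φ] (Γ ⧸ C)) := Finite.of_equiv _ SemidirectProduct.equivProd.symm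
  -- the automorphisms
  have hVmap : ∀ y, V.map (κ y).toMonoidHom = V := by
    intro y
    apply le_antisymm
    · rintro _ ⟨v, hv, rfl⟩
      exact hκV y v hv
    · intro v hv
      refine ⟨κ y⁻¹ v, hκV _ v hv, ?_⟩
      show κ y (κ y⁻¹ v) = v
      rw [← MulAut.mul_apply, ← map_mul, mul_inv_cancel, map_one, MulAut.one_apply]
  have hCmap : ∀ y, C.map (κ y).toMonoidHom = C := by
    intro y
    apply le_antisymm
    · rintro _ ⟨v, hv, rfl⟩
      exact hκC y v hv
    · intro v hv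
      refine ⟨κ y⁻¹ v, hκC _ v hv, ?_⟩
      show κ y (κ y⁻¹ v) = v
      rw [← MulAut.mul_apply, ← map_mul, mul_inv_cancel, map_one, MulAut.one_apply]
  let vv : Y → (V ≃* V) := fun y => ((κ y).subgroupMap V).trans (MulEquiv.subgroupCongr (hVmap y))
  have hvv : ∀ y (v : V), ((vv y v : V) : Γ) = κ y v := fun y v => rfl
  let qq : Y → ((Γ ⧸ C) ≃* (Γ ⧸ C)) := fun y => QuotientGroup.congr C C (κ y) (hCmap y)
  have hqq : ∀ y g, qq y (π g) = π (κ y g) := by
    intro y g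
    rw [hπ]
    rfl
  have hcompat : ∀ y (g : Γ ⧸ C), (φ g).trans (vv y) = (vv y).trans (φ (qq y g)) := by
    intro y g
    obtain ⟨g₀, rfl⟩ := hπs g
    ext v
    show (κ y ((φ (π g₀) v : V) : Γ)) = ((φ (qq y (π g₀)) (vv y v) : V) : Γ)
    rw [hqq, hφ, hφ, hvv, map_mul, map_mul, map_inv]
  let α₀ : Y → MulAut (V ⋊[φ] (Γ ⧸ C)) := fun y => SemidirectProduct.congr (vv y) (qq y) (hcompat y)
  have hα₀l : ∀ y x, ((α₀ y x).left : V) = vv y x.left := fun y x => rfl
  have hα₀r : ∀ y x, ((α₀ y x).right : Γ ⧸ C) = qq y x.right := fun y x => rfl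
  let α : Y →* MulAut (V ⋊[φ] (Γ ⧸ C)) := MonoidHom.mk' α₀ (by
    intro a b
    ext x
    · show κ (a * b) (x.left : Γ) = κ a (κ b (x.left : Γ))
      rw [map_mul, MulAut.mul_apply]
    · show qq (a * b) x.right = qq a (qq b x.right)
      obtain ⟨g, hg⟩ := hπs x.right
      rw [← hg, hqq, hqq, hqq, map_mul, MulAut.mul_apply])
  have hαl : ∀ y (v : V), α y (inl v) = inl (vv y v) := by
    intro y v
    apply SemidirectProduct.ext
    · rfl
    · show qq y 1 = 1
      exact map_one _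
  have hαr : ∀ y g, α y (inr (π g)) = inr (π (κ y g)) := by
    intro y g
    apply SemidirectProduct.ext
    · show vv y 1 = 1
      exact map_one _
    · exact hqq y g
  obtain ⟨Vh, hVh⟩ : ∃ Vh : Subgroup (V ⋊[φ] (Γ ⧸ C)), Vh = (inl : V →* V ⋊[φ] (Γ ⧸ C)).range := ⟨_, rfl⟩
  obtain ⟨Hb, hHb⟩ : ∃ Hb : Subgroup (Γ ⧸ C), Hb = J.map π := ⟨_, rfl⟩
  obtain ⟨H, hH⟩ : ∃ H : Subgroup (V ⋊[φ] (Γ ⧸ C)), H = Hb.map inr := ⟨_, rfl⟩
  have hVe : IsElementaryAbelian p Vh := by
    constructor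
    · refine ⟨⟨fun a b => ?_⟩⟩
      obtain ⟨a, ha⟩ := a
      obtain ⟨b, hb⟩ := b
      rw [hVh] at ha hb
      obtain ⟨u, rfl⟩ := ha
      obtain ⟨v, rfl⟩ := hb
      apply Subtype.ext
      show inl u * inl v = inl v * inl u
      have h1 := hV.1.is_comm.comm u v
      rw [← map_mul, ← map_mul, h1]
    · rw [hVh]
      rintro _ ⟨v, rfl⟩
      rw [← map_pow]
      have h1 : v ^ p = 1 := Subtype.ext (hV.2 v v.2)
      rw [h1, map_one]
  have hVnn : Vh.Normal := by
    rw [hVh, SemidirectProduct.range_inl_eq_ker_rightHom]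
    exact MonoidHom.normal_ker _
  have hHV : H ≤ normalizer (Vh : Set (V ⋊[φ] (Γ ⧸ C))) := by
    intro h _
    rw [mem_normalizer_iff]
    intro n
    constructor
    · intro hn
      exact hVnn.conj_mem n hn h
    · intro hn
      have := hVnn.conj_mem _ hn h⁻¹
      simpa [mul_assoc] using this
  have hf : H ⊓ centralizer (Vh : Set (V ⋊[φ] (Γ ⧸ C))) = ⊥ := by
    rw [eq_bot_iff]
    rintro y ⟨hy, hc⟩
    rw [hH] at hy
    obtain ⟨q, -, rfl⟩ := hy
    have hq : q = 1 := by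
      apply hφi
      intro v
      have h1 := (mem_centralizer_iff.mp hc) (inl v) (by rw [hVh]; exact ⟨v, rfl⟩)
      exact (inl_comm_inr (φ := φ) v q).1 h1
    rw [hq, map_one]
    exact Subgroup.one_mem _
  have hsQ : IsPSolvable p (Γ ⧸ C) := Cfsg.Agent.Lib.PConstr.isPSolvable_of_surjective π hπs hsep
  have hsb : IsPSolvable p Hb := Cfsg.Agent.Lib.H6Hall.isPSolvable_subgroup p hsQ Hb
  obtain ⟨e, he⟩ : ∃ e : Hb ≃* H, True := by
    rw [hH]
    exact ⟨Hb.equivMapOfInjective inr inr_injective, trivial⟩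
  have hsH : IsPSolvable p H := Cfsg.Agent.Lib.PConstr.isPSolvable_of_surjective e.toMonoidHom e.surjective hsb
  have hHbn : Hb.Normal := by
    rw [hHb]
    exact hJn.map π hπs
  have hOb : pCore p Hb = ⊥ := by
    haveI : (pCore p Hb).Characteristic := by
      rw [Subgroup.characteristic_iff_map_eq]
      intro ϕ
      exact Cfsg.Agent.Lib.PCore.pCore_map_equiv ϕ
    have h1 : (pCore p Hb).map Hb.subtype ≤ pCore p (Γ ⧸ C) := by
      apply Cfsg.Agent.Lib.PCore.le_pCore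
      · infer_instance
      · exact (Cfsg.Agent.Lib.PCore.isPGroup_pCore p Hb).map _
    rw [hO, le_bot_iff, Subgroup.map_eq_bot_iff_of_injective _ Hb.subtype_injective] at h1
    exact h1
  have hOH : pCore p H = ⊥ := by
    rw [← Cfsg.Agent.Lib.PCore.pCore_map_equiv e, hOb, Subgroup.map_bot]
  have hS1 : centralizer (pPrimeCore p ↥H : Set ↥H) ≤ pPrimeCore p ↥H :=
    Cfsg.Agent.Lib.H6PExp.centralizer_pPrimeCore_le hsH hOH
  have hS3 : H = ⨆ A : {A : Subgroup (V ⋊[φ] (Γ ⧸ C)) // A ≤ H ∧ IsBestOffenderOn p Vh A}, (A : Subgroup (V ⋊[φ] (Γ ⧸ C))) := by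
    apply le_antisymm
    · calc H = (J.map π).map inr := by rw [hH, hHb]
        _ ≤ _ := by
          rw [Subgroup.map_le_iff_le_comap, Subgroup.map_le_iff_le_comap, hJd]
          refine sSup_le fun A hA => ?_
          rw [← Subgroup.map_le_iff_le_comap, ← Subgroup.map_le_iff_le_comap]
          have hAle : (A.map π).map inr ≤ H := by
            rw [hH, hHb, hJd]
            exact Subgroup.map_mono (Subgroup.map_mono (le_sSup hA))
          have hbo : IsBestOffenderOn p Vh ((A.map π).map inr) := by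
            rw [hVh]
            exact bo_hat hV hφ A hA
          exact le_iSup (fun A : {A : Subgroup (V ⋊[φ] (Γ ⧸ C)) // A ≤ H ∧ IsBestOffenderOn p Vh A} => (A : Subgroup (V ⋊[φ] (Γ ⧸ C))))
            ⟨(A.map π).map inr, hAle, hbo⟩
    · exact iSup_le fun A => A.2.1
  have hSet := Cfsg.Agent.Lib.BestOff.setup_of (p := p) Vh H hVe hHV hf hS1
  have hYV : ∀ y, Vh.map (α y).toMonoidHom = Vh := by
    have hle : ∀ y, Vh.map (α y).toMonoidHom ≤ Vh := by
      intro y
      rw [hVh]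
      rintro _ ⟨_, ⟨v, rfl⟩, rfl⟩
      exact ⟨vv y v, (hαl y v).symm⟩
    intro y
    apply le_antisymm (hle y)
    intro x hx
    refine ⟨α y⁻¹ x, hle y⁻¹ ⟨x, hx, rfl⟩, ?_⟩
    show α y (α y⁻¹ x) = x
    rw [← MulAut.mul_apply, ← map_mul, mul_inv_cancel, map_one, MulAut.one_apply]
  have hYH : ∀ y, H.map (α y).toMonoidHom = H := by
    have hle : ∀ y, H.map (α y).toMonoidHom ≤ H := by
      intro y
      rw [hH, hHb]
      rintro _ ⟨_, ⟨_, ⟨g, hg, rfl⟩, rfl⟩, rfl⟩
      exact ⟨_, ⟨_, hκJ y g hg, rfl⟩, (hαr y g).symm⟩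
    intro y
    apply le_antisymm (hle y)
    intro x hx
    refine ⟨α y⁻¹ x, hle y⁻¹ ⟨x, hx, rfl⟩, ?_⟩
    show α y (α y⁻¹ x) = x
    rw [← MulAut.mul_apply, ← map_mul, mul_inv_cancel, map_one, MulAut.one_apply]
  have hqH : ¬ q ∣ Nat.card H := by
    intro hd
    apply hq
    have h1 : Nat.card H = Nat.card Hb := (Nat.card_congr e.toEquiv).symm
    rw [h1, hHb] at hd
    have h2 := card_map_mul π J
    exact hd.trans (Dvd.intro _ h2 |>.trans (Subgroup.card_subgroup_dvd_card J))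
  refine ⟨V ⋊[φ] (Γ ⧸ C), inferInstance, hXf, Vh, H, inl, (inr : (Γ ⧸ C) →* V ⋊[φ] (Γ ⧸ C)).comp π, α, ?_⟩
  refine ⟨inl_injective, hVh, ?_, ?_, ?_, ?_, ?_, hf, hSet, hS3, hYV, hYH, hqH, hVe⟩
  · rw [hH, hHb, Subgroup.map_map]
  · ext x
    have h0 : π x = 1 ↔ x ∈ C := by rw [← MonoidHom.mem_ker, hker]
    rw [MonoidHom.mem_ker, ← h0]
    constructor
    · intro h
      exact inr_injective (by rw [map_one]; exact h)
    · intro h
      show inr (π x) = 1
      rw [h, map_one]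
  · intro g v v' h
    show inr (π g) * inl v * (inr (π g))⁻¹ = inl v'
    have h1 : φ (π g) v = v' := by
      apply Subtype.ext
      rw [hφ, h]
    rw [← h1, SemidirectProduct.inl_aut, map_inv]
  · intro y v v' h
    have h1 : vv y v = v' := by
      apply Subtype.ext
      rw [hvv, h]
    rw [hαl, h1]
  · intro y g
    exact hαr y g

end Cfsg.Agent.Lib.FacFix
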