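import Mathlib
import Cfsg.Prelude
import Cfsg.Agent.Lib.FacFix

/-! Consequences of the diagonal construction for a coprime action. -/

set_option autoImplicit false
set_option linter.all false

namespace Cfsg.Agent.Lib.FacDiag

open Subgroup Cfsg Cfsg.Agent.Lib.BestOff Cfsg.Agent.Lib.BestOffPlane Cfsg.Agent.Lib.BestOffBridge
  Cfsg.Agent.Lib.BestOffMain Cfsg.Agent.Lib.BestOffStruct Cfsg.Agent.Lib.FacAct Cfsg.Agent.Lib.FacFix
open Matrix
open scoped commutatorElement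

universe u v

section sl2

theorem dec3 [i : Fact (Nat.Prime 3)] : ∀ b : SpecialLinearGroup (Fin 2) (ZMod 3), b ≠ 1 → b ^ 3 = 1 →
    ∃ g, g * b = U 1 * g ∨ g * b = U 2 * g := by
  obtain ⟨h⟩ := i
  have e : h = Nat.prime_three := rfl
  subst e
  decide

theorem dec3' [i : Fact (Nat.Prime 3)] : ∃ g : SpecialLinearGroup (Fin 2) (ZMod 3),
    g * U 1 = Lw 1 * g ∨ g * U 2 = Lw 1 * g := by
  obtain ⟨h⟩ := i
  have e : h = Nat.prime_three := rfl
  subst e
  decide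

theorem dec3'' [i : Fact (Nat.Prime 3)] : (U (2 : ZMod 3)) = (U 1)⁻¹ ∧ (U (1 : ZMod 3)) = (U 2)⁻¹ := by
  obtain ⟨h⟩ := i
  have e : h = Nat.prime_three := rfl
  subst e
  decide

theorem dec2 [i : Fact (Nat.Prime 2)] : ∀ b : SpecialLinearGroup (Fin 2) (ZMod 2), b ≠ 1 → b ^ 2 = 1 →
    ∃ g, g * b = U 1 * g := by
  obtain ⟨h⟩ := i
  have e : h = Nat.prime_two := rfl
  subst e
  decide

theorem dec2' [i : Fact (Nat.Prime 2)] : ∃ g : SpecialLinearGroup (Fin 2) (ZMod 2),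
    g * U 1 = Lw 1 * g := by
  obtain ⟨h⟩ := i
  have e : h = Nat.prime_two := rfl
  subst e
  decide

theorem top_of {p : ℕ} [Fact p.Prime] (N : Subgroup (SpecialLinearGroup (Fin 2) (ZMod p)))
    (h1 : U 1 ∈ N) (h2 : Lw 1 ∈ N) : N = ⊤ := by
  rw [eq_top_iff]
  intro M _
  have h3 := sl2_gen (p := p) (μ := 1) one_ne_zero M
  have h4 : Subgroup.closure ({U 1, Lw 1} : Set (SpecialLinearGroup (Fin 2) (ZMod p))) ≤ N := by
    rw [Subgroup.closure_le]
    rintro x (rfl | hx)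
    · exact h1
    · rw [Set.mem_singleton_iff] at hx
      subst hx
      exact h2
  exact h4 h3

/-- The conjugates of a nontrivial element of order `p` generate `SL₂(p)`. -/
theorem sl2_conj_gen {p : ℕ} [hp : Fact p.Prime] (h23 : p = 2 ∨ p = 3)
    (b : SpecialLinearGroup (Fin 2) (ZMod p)) (hb : b ≠ 1) (hbp : b ^ p = 1)
    (N : Subgroup (SpecialLinearGroup (Fin 2) (ZMod p))) (hN : ∀ g, g * b * g⁻¹ ∈ N) : N = ⊤ := by
  rcases h23 with rfl | rfl
  · obtain ⟨g, hg⟩ := dec2 b hb hbp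
    have hc : ∀ h, h * U 1 * h⁻¹ ∈ N := by
      intro h
      have h1 : U 1 = g * b * g⁻¹ := by
        rw [hg]
        group
      rw [h1]
      have h2 := hN (h * g)
      have h3 : (h * g) * b * (h * g)⁻¹ = h * (g * b * g⁻¹) * h⁻¹ := by group
      rwa [h3] at h2
    obtain ⟨g', hg'⟩ := dec2'
    apply top_of
    · have := hc 1
      simpa using this
    · have h1 : Lw 1 = g' * U 1 * g'⁻¹ := by
        rw [hg']
        group
      rw [h1]
      exact hc g'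
  · obtain ⟨g, hg⟩ := dec3 b hb hbp
    obtain ⟨h₂₁, h₁₂⟩ := dec3''
    have hc1 : ∀ h, h * U 1 * h⁻¹ ∈ N := by
      intro h
      rcases hg with hg | hg
      · have h1 : U 1 = g * b * g⁻¹ := by
          rw [hg]
          group
        rw [h1]
        have h2 := hN (h * g)
        have h3 : (h * g) * b * (h * g)⁻¹ = h * (g * b * g⁻¹) * h⁻¹ := by group
        rwa [h3] at h2
      · have h1 : U 2 = g * b * g⁻¹ := by
          rw [hg]
          group
        have h2 := N.inv_mem (hN (h * g))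
        have h3 : ((h * g) * b * (h * g)⁻¹)⁻¹ = h * (g * b * g⁻¹)⁻¹ * h⁻¹ := by group
        rw [h3, ← h1, ← h₁₂] at h2
        exact h2
    have hc2 : ∀ h, h * U 2 * h⁻¹ ∈ N := by
      intro h
      have h2 := N.inv_mem (hc1 h)
      have h3 : (h * U 1 * h⁻¹)⁻¹ = h * (U 1)⁻¹ * h⁻¹ := by group
      rw [h3, ← h₂₁] at h2
      exact h2
    obtain ⟨g', hg'⟩ := dec3'
    apply top_of
    · have := hc1 1
      simpa using this
    · rcases hg' with hg' | hg'
      · have h1 : Lw 1 = g' * U 1 * g'⁻¹ := by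
          rw [hg']
          group
        rw [h1]
        exact hc1 g'
      · have h1 : Lw 1 = g' * U 2 * g'⁻¹ := by
          rw [hg']
          group
        rw [h1]
        exact hc2 g'

end sl2

section pack

variable {Γ : Type u} [Group Γ] [Finite Γ] {p q : ℕ} [hp : Fact p.Prime] [hq' : Fact q.Prime]
variable {Y : Type v} [Group Y] [Finite Y]
variable {κ : Y →* MulAut Γ} {V C J : Subgroup Γ} {L : Type u} [Group L] [Finite L]
  {Vh H : Subgroup L} {j : V →* L} {i : Γ →* L} {α : Y →* MulAut L}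

theorem lift (hP : Pack p q κ V C J Vh H j i α) (hY : IsPGroup q Y) (hqΓ : ¬ q ∣ Nat.card Γ) {g : Γ}
    (hfix : ∀ s, α s (i g) = i g) : ∃ g', i g' = i g ∧ ∀ s, κ s g' = g' := by
  classical
  obtain ⟨S, hS⟩ : ∃ S : Set Γ, S = {x | i x = i g} := ⟨_, rfl⟩
  have hmemS : ∀ x, x ∈ S ↔ i x = i g := by
    intro x
    rw [hS]
    rfl
  have hinv : ∀ b ∈ (⊤ : Subgroup Y), ∀ s ∈ S, κ b s ∈ S := by
    intro b _ s hs
    rw [hmemS] at hs ⊢
    rw [← hP.hαi, hs, hfix]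
  have hmemC : ∀ x, x ∈ C ↔ i x = 1 := by
    intro x
    rw [← hP.hker]
    rfl
  have hcard : Nat.card S = Nat.card C := by
    refine Nat.card_congr ⟨fun s => ⟨g⁻¹ * s.1, ?_⟩, fun c => ⟨g * c.1, ?_⟩, ?_, ?_⟩
    · rw [hmemC, map_mul, map_inv, (hmemS _).1 s.2, inv_mul_cancel]
    · rw [hmemS, map_mul, (hmemC _).1 c.2, mul_one]
    · intro s
      apply Subtype.ext
      show g * (g⁻¹ * s.1) = s.1
      group
    · intro c
      apply Subtype.ext
      show g⁻¹ * (g * c.1) = c.1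
      group
  have hc : ¬ q ∣ Nat.card S := by
    rw [hcard]
    intro h
    exact hqΓ (h.trans (Subgroup.card_subgroup_dvd_card C))
  obtain ⟨s, hs, hsfix⟩ := Cfsg.Agent.Lib.CoprimeGen.exists_fixed_abstract κ (hY.to_subgroup ⊤) S hinv hc
  exact ⟨s, (hmemS s).1 hs, fun y => hsfix y (Subgroup.mem_top y)⟩

variable {W : Type*} [AddCommGroup W] [Module (ZMod p) W] {Φ : W → L}

theorem gen (hP : Pack p q κ V C J Vh H j i α) (hB : Br Vh Φ) :
    H ≤ ⨆ A : {A : Subgroup L // MinA p Vh H A}, Ef p H A.1 := by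
  by_cases hH1 : H = ⊥
  · rw [hH1]
    exact bot_le
  · obtain ⟨-, -, -, hgen, -⟩ := s0617 hB hP.hS hP.hf hP.hS3 hH1
    refine hgen.symm.le.trans (iSup_le ?_)
    rintro ⟨_, A, h1, h2, h3, h4, rfl⟩
    obtain ⟨hEl, hc, -⟩ := min_data hP.hS hP.hf h1 h2 h3 h4
    have hd : dl Vh A = Nat.card Vh := by
      apply le_antisymm (hP.hS.dl_le hEl)
      have := h2.1 ⊥ bot_le
      rw [← dl_bot]
      exact this
    exact le_iSup (fun A : {A : Subgroup L // MinA p Vh H A} => Ef p H A.1) ⟨A, ⟨hEl, hc, hd⟩⟩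

/-- The statement S0621 at the level of the acting group. -/
theorem s0621_core (hP : Pack p q κ V C J Vh H j i α) (hY : IsPGroup q Y) (hqΓ : ¬ q ∣ Nat.card Γ)
    (hκV : ∀ y, ∀ v ∈ V, κ y v ∈ V) (hVn : V.Normal) (hC : C = centralizer (V : Set Γ)) (hne : H ≠ ⊥) :
    (p = 2 ∨ p = 3) ∧ ∃ W₀ D₀ : Subgroup Γ, W₀ ≤ V ∧ (∀ w ∈ W₀, ∀ y, κ y w = w) ∧ (∀ d ∈ D₀, ∀ y, κ y d = d) ∧
      Nat.card W₀ = p ^ 2 ∧ (∀ d ∈ D₀, ∀ x ∈ W₀, d * x * d⁻¹ ∈ W₀) ∧
      ∃ ρ : D₀ →* SpecialLinearGroup (Fin 2) (ZMod p), Function.Surjective ρ ∧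
        ∀ d : D₀, ρ d = 1 ↔ (d : Γ) ∈ centralizer (W₀ : Set Γ) := by
  classical
  obtain ⟨W', i1, i2, Φ', hB⟩ := exists_model (p := p) Vh hP.hVe
  letI := i1
  letI := i2
  -- a minimal subgroup
  have hex : ∃ A : Subgroup L, MinA p Vh H A := by
    by_contra hno
    push Not at hno
    apply hne
    rw [eq_bot_iff]
    refine (gen hP hB).trans (iSup_le ?_)
    rintro ⟨A, hA⟩
    exact (hno A hA).elim
  obtain ⟨A, hA⟩ := hex
  obtain ⟨h23, hF⟩ := hA.fac hB hP.hS hP.hf hP.hS3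
  have hψ := exists_psi hB hP.hS hP.hf hP.hS3 α hP.hYV hP.hYH hY hP.hq hA
  generalize hE : Ef p H A = E at hψ hF
  obtain ⟨ψ, ψ', h1, h2, h3, h4, h5, h6⟩ := hψ
  refine ⟨h23, ?_⟩
  have hψinj : Function.Injective ψ := by
    rw [injective_iff_map_eq_one]
    intro e he
    have h7 := h2 e
    rw [he, mul_one] at h7
    have h8 : (e : L) ∈ E ⊓ (H ⊓ centralizer ((⁅Vh, E⁆ : Subgroup L) : Set L)) := by
      refine ⟨e.2, ?_⟩
      have h9 := Subgroup.inv_mem _ h7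
      rwa [inv_inv] at h9
    rw [hF.inf2, Subgroup.mem_bot] at h8
    exact Subtype.ext h8
  have hψH : ∀ e, ψ e ∈ H := by
    intro e
    have h7 := H.mul_mem (hF.le_H e.2) (h2 e).1
    rwa [mul_inv_cancel_left] at h7
  have hRV : ∀ w, ∃ v : V, j v = ψ' w := by
    intro w
    have hle : Vh ≤ j.range := hP.hVh.le
    obtain ⟨v, hv⟩ := hle (h4 w)
    exact ⟨v, hv⟩
  obtain ⟨W₀, hW₀⟩ : ∃ W₀ : Subgroup Γ, W₀ = (ψ'.range.comap j).map V.subtype := ⟨_, rfl⟩
  have hW₀mem : ∀ x, x ∈ W₀ ↔ ∃ v : V, (v : Γ) = x ∧ ∃ w, ψ' w = j v := by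
    intro x
    rw [hW₀]
    constructor
    · rintro ⟨v, hv, rfl⟩
      exact ⟨v, rfl, hv⟩
    · rintro ⟨v, rfl, hv⟩
      exact ⟨v, hv, rfl⟩
  have hW₀V : W₀ ≤ V := by
    rw [hW₀]
    exact Subgroup.map_subtype_le _
  have hcard : Nat.card W₀ = p ^ 2 := by
    have h7 : Nat.card W₀ = Nat.card (ψ'.range.comap j) := by
      rw [hW₀]
      exact Subgroup.card_map_of_injective V.subtype_injective
    have h8 : (ψ'.range.comap j).map j = ψ'.range := by
      apply Subgroup.map_comap_eq_self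
      rintro _ ⟨w, rfl⟩
      obtain ⟨v, hv⟩ := hRV w
      exact ⟨v, hv⟩
    have h9 : Nat.card ((ψ'.range.comap j).map j) = Nat.card (ψ'.range.comap j) :=
      Subgroup.card_map_of_injective hP.hj
    rw [h8] at h9
    have h10 : Nat.card ψ'.range = Nat.card ↥(⁅Vh, E⁆ : Subgroup L) :=
      (Nat.card_congr (MonoidHom.ofInjective h5).toEquiv).symm
    rw [h7, ← h9, h10, hF.card]
  have hfixW : ∀ w ∈ W₀, ∀ y, κ y w = w := by
    intro x hx s
    obtain ⟨v, rfl, w, hw⟩ := (hW₀mem x).1 hx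
    have h7 := hP.hαj s v ⟨κ s v, hκV s v v.2⟩ rfl
    have h8 := h3 s w
    rw [hw, h7] at h8
    have h9 := hP.hj h8
    exact congrArg Subtype.val h9
  obtain ⟨D₀, hD₀⟩ : ∃ D₀ : Subgroup Γ, D₀ = Cfsg.Agent.Lib.CoprimeGen.fixS κ ⊤ ⊓ ψ.range.comap i := ⟨_, rfl⟩
  have hD₀mem : ∀ d, d ∈ D₀ ↔ (∀ s, κ s d = d) ∧ ∃ e, ψ e = i d := by
    intro d
    rw [hD₀]
    constructor
    · rintro ⟨hd1, hd2⟩
      exact ⟨fun s => hd1 s (Subgroup.mem_top s), hd2⟩
    · rintro ⟨hd1, hd2⟩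
      exact ⟨fun s _ => hd1 s, hd2⟩
  have hlift : ∀ e, ∃ g, g ∈ D₀ ∧ i g = ψ e := by
    intro e
    have h7 := hψH e
    rw [hP.hH] at h7
    obtain ⟨g₀, -, hg₀⟩ := h7
    have hg₀' : i g₀ = ψ e := hg₀
    obtain ⟨g, hg, hgf⟩ := lift hP hY hqΓ (g := g₀) (by
      intro s
      rw [hg₀']
      exact h1 s e)
    refine ⟨g, (hD₀mem g).2 ⟨hgf, e, ?_⟩, ?_⟩
    · rw [hg, hg₀']
    · rw [hg, hg₀']
  have hact : ∀ (d : Γ) (e : ↥E) (v : V) (w : ↥(⁅Vh, E⁆ : Subgroup L)), ψ e = i d → ψ' w = j v →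
      ∃ (v' : V) (w' : ↥(⁅Vh, E⁆ : Subgroup L)), (v' : Γ) = d * v * d⁻¹ ∧ (w' : L) = e * w * (e : L)⁻¹ ∧ ψ' w' = j v' := by
    intro d e v w hde hw
    refine ⟨⟨d * v * d⁻¹, hVn.conj_mem _ v.2 d⟩, ⟨e * w * (e : L)⁻¹, hF.comm_stable hP.hS.hHV (hF.le_H e.2) w.2⟩, rfl, rfl, ?_⟩
    have h7 := hP.hconj d v ⟨d * v * d⁻¹, hVn.conj_mem _ v.2 d⟩ rfl
    have h8 := h6 e w ⟨e * w * (e : L)⁻¹, hF.comm_stable hP.hS.hHV (hF.le_H e.2) w.2⟩ rfl
    rw [← h8, ← h7, hde, hw]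
  have hnorm : ∀ d ∈ D₀, ∀ x ∈ W₀, d * x * d⁻¹ ∈ W₀ := by
    intro d hd x hx
    obtain ⟨-, e, he⟩ := (hD₀mem d).1 hd
    obtain ⟨v, rfl, w, hw⟩ := (hW₀mem x).1 hx
    obtain ⟨v', w', hv', -, hw'⟩ := hact d e v w he hw
    exact (hW₀mem _).2 ⟨v', hv', w', hw'⟩
  -- the map to `SL₂(p)`
  obtain ⟨iE⟩ := hF.iso
  let r₀ : ψ.range ≃* E := (MonoidHom.ofInjective hψinj).symm
  have hr₀ : ∀ e : E, r₀ ⟨ψ e, ⟨e, rfl⟩⟩ = e := by
    intro e
    exact (MonoidHom.ofInjective hψinj).symm_apply_apply e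
  let f : D₀ →* ψ.range := MonoidHom.codRestrict (i.comp D₀.subtype) ψ.range (fun d => by
    obtain ⟨-, e, he⟩ := (hD₀mem d.1).1 d.2
    exact ⟨e, he⟩)
  have hf : ∀ d : D₀, ((f d : ψ.range) : L) = i d := fun d => rfl
  refine ⟨W₀, D₀, hW₀V, hfixW, fun d hd y => ((hD₀mem d).1 hd).1 y, hcard, hnorm,
    iE.toMonoidHom.comp (r₀.toMonoidHom.comp f), ?_, ?_⟩
  · intro g
    obtain ⟨d, hd, hde⟩ := hlift (iE.symm g)
    refine ⟨⟨d, hd⟩, ?_⟩
    have h7 : f ⟨d, hd⟩ = ⟨ψ (iE.symm g), ⟨_, rfl⟩⟩ := Subtype.ext hde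
    show iE (r₀ (f ⟨d, hd⟩)) = g
    rw [h7, hr₀, MulEquiv.apply_symm_apply]
  · intro d
    have h7 : (iE.toMonoidHom.comp (r₀.toMonoidHom.comp f)) d = 1 ↔ i d = 1 := by
      show iE (r₀ (f d)) = 1 ↔ i d = 1
      rw [map_eq_one_iff iE iE.injective, map_eq_one_iff r₀ r₀.injective]
      constructor
      · intro h
        have := congrArg Subtype.val h
        exact this
      · intro h
        exact Subtype.ext h
    rw [h7]
    constructor
    · intro hid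
      have h8 : (d : Γ) ∈ C := by
        rw [← hP.hker]
        exact hid
      rw [hC] at h8
      exact mem_centralizer_iff.mpr fun x hx => mem_centralizer_iff.mp h8 x (hW₀V hx)
    · intro hd
      obtain ⟨-, e, he⟩ := (hD₀mem d.1).1 d.2
      have h8 : e = 1 := by
        have h9 : (e : L) ∈ E ⊓ (H ⊓ centralizer ((⁅Vh, E⁆ : Subgroup L) : Set L)) := by
          refine ⟨e.2, hF.le_H e.2, mem_centralizer_iff.mpr ?_⟩
          intro w hw
          obtain ⟨v, hv⟩ := hRV ⟨w, hw⟩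
          obtain ⟨v', w', hv', hw', hj'⟩ := hact d.1 e v ⟨w, hw⟩ he hv.symm
          have hvW : (v : Γ) ∈ W₀ := (hW₀mem _).2 ⟨v, rfl, ⟨w, hw⟩, hv.symm⟩
          have h10 : (v' : Γ) = v := by
            rw [hv']
            have h11 := mem_centralizer_iff.mp hd _ hvW
            rw [← h11]
            group
          have h11 : v' = v := Subtype.ext h10
          rw [h11, hv] at hj'
          have h12 := h5 hj'
          have h13 : (w' : L) = w := congrArg Subtype.val h12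
          rw [h13] at hw'
          show w * (e : L) = e * w
          calc w * (e : L) = (e * w * (e : L)⁻¹) * e := by rw [← hw']
            _ = e * w := by group
        rw [hF.inf2, Subgroup.mem_bot] at h9
        exact Subtype.ext h9
      rw [← he, h8, map_one]

end pack

section K

variable {G : Type u} [Group G] [Finite G] {p q : ℕ} [hp : Fact p.Prime] [hq' : Fact q.Prime]

theorem exists_kappa (K X : Subgroup G) (hXK : X ≤ normalizer (K : Set G)) :
    ∃ κ : X →* MulAut K, ∀ (x : X) (k : K), ((κ x k : K) : G) = x * k * (x : G)⁻¹ := by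
  have hm : ∀ x ∈ X, ∀ k ∈ K, x * k * x⁻¹ ∈ K := fun x hx k hk =>
    (mem_normalizer_iff.1 (hXK hx) k).1 hk
  let κ₀ : X → MulAut K := fun x =>
    { toFun := fun k => ⟨(x : G) * (k : G) * (x : G)⁻¹, hm x x.2 k k.2⟩
      invFun := fun k => ⟨(x : G)⁻¹ * (k : G) * (x : G), by
        have := hm _ (X.inv_mem x.2) k k.2
        rwa [inv_inv] at this⟩
      left_inv := fun k => Subtype.ext (by
        show (x : G)⁻¹ * ((x : G) * (k : G) * (x : G)⁻¹) * (x : G) = k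
        group)
      right_inv := fun k => Subtype.ext (by
        show (x : G) * ((x : G)⁻¹ * (k : G) * (x : G)) * (x : G)⁻¹ = k
        group)
      map_mul' := fun a b => Subtype.ext (by
        show (x : G) * ((a : G) * (b : G)) * (x : G)⁻¹ = ((x : G) * (a : G) * (x : G)⁻¹) * ((x : G) * (b : G) * (x : G)⁻¹)
        group) }
  refine ⟨MonoidHom.mk' κ₀ ?_, fun x k => rfl⟩
  intro a b
  ext k
  show ((a * b : X) : G) * (k : G) * ((a * b : X) : G)⁻¹ = (a : G) * ((b : G) * (k : G) * (b : G)⁻¹) * (a : G)⁻¹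
  push_cast
  group

/-- The subgroup generated by the `Ω₁(Z(S))` is invariant under automorphisms. -/
theorem char_V {Γ : Type*} [Group Γ] [Finite Γ] (f : Γ ≃* Γ) {v : Γ}
    (hv : v ∈ ⨆ S : Sylow p Γ, omegaOne p ((S : Subgroup Γ) ⊓ centralizer ((S : Subgroup Γ) : Set Γ))) :
    f v ∈ ⨆ S : Sylow p Γ, omegaOne p ((S : Subgroup Γ) ⊓ centralizer ((S : Subgroup Γ) : Set Γ)) := by
  have hmap : (⨆ S : Sylow p Γ, omegaOne p ((S : Subgroup Γ) ⊓ centralizer ((S : Subgroup Γ) : Set Γ))).map f.toMonoidHom ≤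
      ⨆ S : Sylow p Γ, omegaOne p ((S : Subgroup Γ) ⊓ centralizer ((S : Subgroup Γ) : Set Γ)) := by
    rw [Subgroup.map_iSup]
    refine iSup_le fun S => ?_
    refine le_trans ?_ (le_iSup _ (f • S))
    unfold omegaOne
    rw [MonoidHom.map_closure]
    apply Subgroup.closure_mono
    rintro _ ⟨z, ⟨hz, hzp⟩, rfl⟩
    have hfS : ((f • S : Sylow p Γ) : Subgroup Γ) = (S : Subgroup Γ).map f.toMonoidHom := rfl
    refine ⟨?_, ?_⟩
    · obtain ⟨hz1, hz2⟩ := Subgroup.mem_inf.mp hz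
      rw [hfS]
      refine Subgroup.mem_inf.mpr ⟨⟨z, hz1, rfl⟩, ?_⟩
      refine mem_centralizer_iff.mpr ?_
      rintro _ ⟨s, hs, rfl⟩
      have h3 := mem_centralizer_iff.mp hz2 s hs
      show f s * f z = f z * f s
      rw [← map_mul, ← map_mul, h3]
    · show (f z) ^ p = 1
      rw [← map_pow, hzp, map_one]
  exact hmap ⟨v, hv, rfl⟩

/-- The full package for `K`, `X`. -/
theorem exists_all (K X : Subgroup G) (hXK : X ≤ normalizer (K : Set G)) (hX : IsElementaryAbelian q X)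
    (hq : ¬ q ∣ Nat.card K) (hsep : IsPSolvable p ↥K) (V : Subgroup ↥K) [hVn : V.Normal]
    (hVd : V = ⨆ S : Sylow p ↥K, omegaOne p ((S : Subgroup ↥K) ⊓ centralizer ((S : Subgroup ↥K) : Set ↥K)))
    (hVe : IsElementaryAbelian p V) (hO : pCore p (↥K ⧸ centralizer (V : Set ↥K)) = ⊥) :
    ∃ κ : X →* MulAut K, (∀ (x : X) (k : K), ((κ x k : K) : G) = x * k * (x : G)⁻¹) ∧
      (∀ y, ∀ v ∈ V, κ y v ∈ V) ∧ ∃ (L : Type u) (iL : Group L) (fL : Finite L) (Vh H : Subgroup L) (j : V →* L)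
        (i : ↥K →* L) (α : X →* MulAut L),
        Pack p q κ V (centralizer (V : Set ↥K)) (thompsonSubgroup p ↥K) Vh H j i α := by
  obtain ⟨κ, hκ⟩ := exists_kappa K X hXK
  have hκV : ∀ (f : ↥K ≃* ↥K), ∀ v ∈ V, f v ∈ V := by
    intro f v hv
    rw [hVd] at hv ⊢
    exact char_V f hv
  have hκC : ∀ y, ∀ c ∈ centralizer (V : Set ↥K), κ y c ∈ centralizer (V : Set ↥K) := by
    intro y c hc
    refine mem_centralizer_iff.mpr ?_
    intro v hv
    have h1 := hκV (κ y⁻¹) v hv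
    have h2 := mem_centralizer_iff.mp hc _ h1
    have h3 := congrArg (κ y) h2
    rw [map_mul, map_mul, ← MulAut.mul_apply, ← map_mul, mul_inv_cancel, map_one, MulAut.one_apply] at h3
    exact h3
  haveI hJc : (thompsonSubgroup p ↥K).Characteristic := Cfsg.Agent.Lib.ThompsonBasic.thompson_characteristic
  have hκJ : ∀ y, ∀ c ∈ thompsonSubgroup p ↥K, κ y c ∈ thompsonSubgroup p ↥K := by
    intro y c hc
    have h2 := hJc.fixed (κ y)⁻¹
    have h3 : κ y c ∈ (thompsonSubgroup p ↥K).comap ((κ y)⁻¹ : MulAut ↥K).toMonoidHom := by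
      rw [Subgroup.mem_comap]
      show (κ y)⁻¹ (κ y c) ∈ _
      rw [← MulAut.mul_apply, inv_mul_cancel, MulAut.one_apply]
      exact hc
    rwa [h2] at h3
  refine ⟨κ, hκ, fun y v hv => hκV (κ y) v hv, ?_⟩
  exact exists_pack V _ _ rfl hVe hsep hO rfl inferInstance κ (fun y v hv => hκV (κ y) v hv) hκC hκJ hq

/-- From the core statement to the ambient group. -/
theorem s0621_main (K X : Subgroup G) (hXK : X ≤ normalizer (K : Set G)) (hX : IsElementaryAbelian q X)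
    (hq : ¬ q ∣ Nat.card K) (hsep : IsPSolvable p ↥K) (V : Subgroup ↥K) [hVn : V.Normal]
    (hVd : V = ⨆ S : Sylow p ↥K, omegaOne p ((S : Subgroup ↥K) ⊓ centralizer ((S : Subgroup ↥K) : Set ↥K)))
    (hVe : IsElementaryAbelian p V) (hO : pCore p (↥K ⧸ centralizer (V : Set ↥K)) = ⊥)
    (hJ : ¬ thompsonSubgroup p ↥K ≤ centralizer (V : Set ↥K)) :
    (p = 2 ∨ p = 3) ∧ ∃ W D : Subgroup G, W ≤ K ⊓ centralizer (X : Set G) ∧ D ≤ K ⊓ centralizer (X : Set G) ∧
      IsElementaryAbelian p W ∧ Nat.card W = p ^ 2 ∧ D ≤ normalizer (W : Set G) ∧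
      ∃ hn : ((centralizer (W : Set G)).subgroupOf D).Normal,
        Nonempty ((↥D ⧸ (centralizer (W : Set G)).subgroupOf D) ≃* SpecialLinearGroup (Fin 2) (ZMod p)) := by
  classical
  obtain ⟨κ, hκ, hκV, L, iL, fL, Vh, H, j, i, α, hP⟩ := exists_all K X hXK hX hq hsep V hVd hVe hO
  letI := iL
  letI := fL
  have hY : IsPGroup q X := Cfsg.Agent.Lib.ThompsonBasic.ea_isPGroup hX
  have hne : H ≠ ⊥ := by
    intro hb
    apply hJ
    rw [hP.hH, Subgroup.map_eq_bot_iff, hP.hker] at hb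
    exact hb
  obtain ⟨h23, W₀, D₀, hW₀V, hfW, hfD, hcard, hnorm, ρ, hρs, hρ⟩ :=
    s0621_core hP hY hq hκV hVn rfl hne
  refine ⟨h23, W₀.map K.subtype, D₀.map K.subtype, ?_, ?_, ?_, ?_, ?_, ?_⟩
  · rintro _ ⟨w, hw, rfl⟩
    refine ⟨w.2, mem_centralizer_iff.mpr ?_⟩
    intro x hx
    have h1 := congrArg Subtype.val (hfW w hw ⟨x, hx⟩)
    rw [hκ] at h1
    show x * (w : G) = w * x
    calc x * (w : G) = (x * w * x⁻¹) * x := by group
      _ = w * x := by rw [h1]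
  · rintro _ ⟨w, hw, rfl⟩
    refine ⟨w.2, mem_centralizer_iff.mpr ?_⟩
    intro x hx
    have h1 := congrArg Subtype.val (hfD w hw ⟨x, hx⟩)
    rw [hκ] at h1
    show x * (w : G) = w * x
    calc x * (w : G) = (x * w * x⁻¹) * x := by group
      _ = w * x := by rw [h1]
  · exact Cfsg.Agent.Lib.ThompsonBasic.ea_map _ (Cfsg.Agent.Lib.ThompsonBasic.ea_of_le hVe hW₀V)
  · rw [Subgroup.card_map_of_injective K.subtype_injective, hcard]
  · rintro _ ⟨d, hd, rfl⟩
    rw [mem_normalizer_iff]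
    intro n
    constructor
    · rintro ⟨w, hw, rfl⟩
      exact ⟨_, hnorm d hd w hw, rfl⟩
    · rintro ⟨w, hw, hwn⟩
      have h1 := hnorm d⁻¹ (D₀.inv_mem hd) w hw
      refine ⟨_, h1, ?_⟩
      have hwn' : (w : G) = d * n * (d : G)⁻¹ := hwn
      have h2 : K.subtype (d⁻¹ * w * d⁻¹⁻¹) = (d : G)⁻¹ * w * (d : G) := by
        simp
      rw [h2, hwn']
      group
  · -- the isomorphism
    let e : D₀ ≃* D₀.map K.subtype := D₀.equivMapOfInjective K.subtype K.subtype_injective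
    have he : ∀ x : D₀, ((e x : D₀.map K.subtype) : G) = ((x : K) : G) := fun x => rfl
    let ρ' : D₀.map K.subtype →* SpecialLinearGroup (Fin 2) (ZMod p) := ρ.comp e.symm.toMonoidHom
    have hs : Function.Surjective ρ' := hρs.comp e.symm.surjective
    have hk : (centralizer ((W₀.map K.subtype : Subgroup G) : Set G)).subgroupOf (D₀.map K.subtype) = ρ'.ker := by
      ext x
      rw [Subgroup.mem_subgroupOf, MonoidHom.mem_ker]
      obtain ⟨d, rfl⟩ := e.surjective x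
      have h1 : ρ' (e d) = ρ d := by
        show ρ (e.symm (e d)) = ρ d
        rw [MulEquiv.symm_apply_apply]
      rw [h1, hρ, he]
      constructor
      · intro h
        refine mem_centralizer_iff.mpr ?_
        intro w hw
        have h2 := mem_centralizer_iff.mp h (w : G) ⟨w, hw, rfl⟩
        exact Subtype.ext h2
      · intro h
        refine mem_centralizer_iff.mpr ?_
        rintro _ ⟨w, hw, rfl⟩
        have h2 := mem_centralizer_iff.mp h w hw
        exact congrArg Subtype.val h2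
    have hn : ((centralizer ((W₀.map K.subtype : Subgroup G) : Set G)).subgroupOf (D₀.map K.subtype)).Normal := by
      rw [hk]
      infer_instance
    exact ⟨hn, ⟨(QuotientGroup.quotientMulEquivOfEq hk).trans (QuotientGroup.quotientKerEquivOfSurjective ρ' hs)⟩⟩

end K

end Cfsg.Agent.Lib.FacDiag
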