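import Mathlib
import Cfsg.Prelude
import Cfsg.Agent.Lib.FacFail
import Cfsg.Agent.Lib.ZJOmega

/-! `J(G)` moves `Ω₁(Z(J(C_G(V))))` only inside `V`. -/

set_option autoImplicit false
set_option linter.all false

namespace Cfsg.Agent.Lib.FacFailJ

open Subgroup Cfsg SemidirectProduct Cfsg.Agent.Lib.FacFail Cfsg.Agent.Lib.ThompsonBasic
open scoped commutatorElement

universe u

variable {G : Type u} [Group G] [Finite G] {p : ℕ} [hp : Fact p.Prime]

/-- An elementary abelian subgroup acts on `V` with at most the expected fixed points. -/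
theorem dl_quot_le (V C : Subgroup G) [hVn : V.Normal] [hCn : C.Normal] (hC : C = centralizer (V : Set G))
    (hV : IsElementaryAbelian p V) (hsep : IsPSolvable p G)
    (hO : pCore p (G ⧸ C) = ⊥) (A : Subgroup G) (hA : IsElementaryAbelian p A) :
    Nat.card A * Nat.card ↥(V ⊓ centralizer (A : Set G)) ≤ Nat.card V * Nat.card ↥(A ⊓ C) := by
  classical
  obtain ⟨π, hπ⟩ : ∃ π : G →* G ⧸ C, π = QuotientGroup.mk' C := ⟨_, rfl⟩
  have hπs : Function.Surjective π := by
    rw [hπ]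
    exact QuotientGroup.mk'_surjective C
  have hker : π.ker = C := by
    rw [hπ]
    exact QuotientGroup.ker_mk' C
  have hkc : ∀ g ∈ C, (MulAut.conjNormal g : MulAut V) = 1 := by
    intro g hg
    rw [hC, mem_centralizer_iff] at hg
    ext v
    simp only [MulAut.conjNormal_apply, MulAut.one_apply]
    have := hg v v.2
    rw [← this]
    group
  obtain ⟨φ, hφ⟩ : ∃ φ : (G ⧸ C) →* MulAut V, ∀ g (v : V), ((φ (π g) v : V) : G) = g * v * g⁻¹ := by
    refine ⟨QuotientGroup.lift C (MulAut.conjNormal : G →* MulAut V) hkc, fun g v => ?_⟩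
    rw [hπ]
    exact MulAut.conjNormal_apply g v
  have hφi : ∀ q, (∀ v, φ q v = v) → q = 1 := by
    intro q hq
    obtain ⟨g, rfl⟩ := hπs q
    have hg : g ∈ C := by
      rw [hC, mem_centralizer_iff]
      intro v hv
      have h1 := hφ g ⟨v, hv⟩
      rw [hq] at h1
      have h2 : v = g * v * g⁻¹ := h1
      calc v * g = g * v * g⁻¹ * g := by rw [← h2]
        _ = g * v := by group
    rw [← hker] at hg
    exact hg
  haveI hXf : Finite (V ⋊[φ] (G ⧸ C)) := Finite.of_equiv _ SemidirectProduct.equivProd.symm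
  obtain ⟨Vh, hVh⟩ : ∃ Vh : Subgroup (V ⋊[φ] (G ⧸ C)), Vh = (inl : V →* V ⋊[φ] (G ⧸ C)).range := ⟨_, rfl⟩
  obtain ⟨H, hH⟩ : ∃ H : Subgroup (V ⋊[φ] (G ⧸ C)), H = (⊤ : Subgroup (G ⧸ C)).map inr := ⟨_, rfl⟩
  have hVe : IsElementaryAbelian p Vh := by
    constructor
    · refine ⟨⟨fun a b => ?_⟩⟩
      obtain ⟨a, ha⟩ := a
      obtain ⟨b, hb⟩ := b
      rw [hVh] at ha hb
      obtain ⟨u, rfl⟩ := ha
      obtain ⟨v, rfl⟩ := hb
      apply Subtype.ext
      show inl u * inl v = inl v * inl u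
      have h1 := hV.1.is_comm.comm u v
      rw [← map_mul, ← map_mul, h1]
    · rw [hVh]
      rintro _ ⟨v, rfl⟩
      rw [← map_pow]
      have h1 : v ^ p = 1 := Subtype.ext (hV.2 v v.2)
      rw [h1, map_one]
  have hVnn : Vh.Normal := by
    rw [hVh, SemidirectProduct.range_inl_eq_ker_rightHom]
    exact MonoidHom.normal_ker _
  have hHV : H ≤ normalizer (Vh : Set (V ⋊[φ] (G ⧸ C))) := by
    intro h _
    rw [mem_normalizer_iff]
    intro n
    constructor
    · intro hn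
      exact hVnn.conj_mem n hn h
    · intro hn
      have := hVnn.conj_mem _ hn h⁻¹
      simpa [mul_assoc] using this
  have hf : H ⊓ centralizer (Vh : Set (V ⋊[φ] (G ⧸ C))) = ⊥ := by
    rw [eq_bot_iff]
    rintro y ⟨hy, hc⟩
    rw [hH] at hy
    obtain ⟨q, -, rfl⟩ := hy
    have hq : q = 1 := by
      apply hφi
      intro v
      have h1 := (mem_centralizer_iff.mp hc) (inl v) (by rw [hVh]; exact ⟨v, rfl⟩)
      exact (inl_comm_inr (φ := φ) v q).1 h1
    rw [hq, map_one]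
    exact Subgroup.one_mem _
  have hsQ : IsPSolvable p (G ⧸ C) := Cfsg.Agent.Lib.PConstr.isPSolvable_of_surjective π hπs hsep
  obtain ⟨e, he⟩ : ∃ e : (G ⧸ C) ≃* H, True := by
    rw [hH]
    exact ⟨(Subgroup.topEquiv.symm).trans ((⊤ : Subgroup (G ⧸ C)).equivMapOfInjective inr inr_injective), trivial⟩
  have hsH : IsPSolvable p H := Cfsg.Agent.Lib.PConstr.isPSolvable_of_surjective e.toMonoidHom e.surjective hsQ
  have hOH : pCore p H = ⊥ := by
    rw [← Cfsg.Agent.Lib.PCore.pCore_map_equiv e, hO, Subgroup.map_bot]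
  have hS1 : centralizer (pPrimeCore p ↥H : Set ↥H) ≤ pPrimeCore p ↥H :=
    Cfsg.Agent.Lib.H6PExp.centralizer_pPrimeCore_le hsH hOH
  have hSet := Cfsg.Agent.Lib.BestOff.setup_of (p := p) Vh H hVe hHV hf hS1
  have hEl : Cfsg.Agent.Lib.BestOff.El p H ((A.map π).map inr) := by
    refine ⟨?_, ?_, ?_⟩
    · rw [hH]
      exact Subgroup.map_mono le_top
    · rintro _ ⟨_, ⟨x, hx, rfl⟩, rfl⟩ _ ⟨_, ⟨y, hy, rfl⟩, rfl⟩
      have hc : x * y = y * x := congrArg Subtype.val (hA.1.is_comm.comm (⟨x, hx⟩ : A) ⟨y, hy⟩)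
      show (inr (π x) : V ⋊[φ] (G ⧸ C)) * inr (π y) = inr (π y) * inr (π x)
      rw [← map_mul, ← map_mul, ← map_mul, ← map_mul, hc]
    · rintro _ ⟨_, ⟨x, hx, rfl⟩, rfl⟩
      show (inr (π x) : V ⋊[φ] (G ⧸ C)) ^ p = 1
      rw [← map_pow, ← map_pow, hA.2 x hx, map_one, map_one]
  have hdl := hSet.dl_le hEl
  unfold Cfsg.Agent.Lib.BestOff.dl at hdl
  rw [hVh, card_cent_hat hφ A, Subgroup.card_map_of_injective inr_injective] at hdl
  have hcV : Nat.card (inl : V →* V ⋊[φ] (G ⧸ C)).range = Nat.card V :=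
    Nat.card_congr (MonoidHom.ofInjective inl_injective).toEquiv.symm
  rw [hcV] at hdl
  have h2 := card_map_mul π A
  rw [hker] at h2
  calc Nat.card A * Nat.card ↥(V ⊓ centralizer (A : Set G))
      = (Nat.card (A.map π) * Nat.card ↥(V ⊓ centralizer (A : Set G))) * Nat.card ↥(A ⊓ C) := by
        rw [← h2]; ring
    _ ≤ Nat.card V * Nat.card ↥(A ⊓ C) := Nat.mul_le_mul_right _ hdl

/-- The decomposition `W = V C_W(A)`. -/
theorem decomp (V C W : Subgroup G) [hVn : V.Normal] [hCn : C.Normal] (hC : C = centralizer (V : Set G))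
    (hV : IsElementaryAbelian p V) (hsep : IsPSolvable p G)
    (hO : pCore p (G ⧸ C) = ⊥) (hWe : IsElementaryAbelian p W) (hVW : V ≤ W) (hWC : W ≤ C)
    (hWcent : ∀ A' ∈ maxElementaryAbelianSubgroups p G, A' ≤ C → ∀ w ∈ W, ∀ a ∈ A', w * a = a * w)
    (A : Subgroup G) (hA : A ∈ maxElementaryAbelianSubgroups p G) :
    W ≤ V ⊔ (W ⊓ centralizer (A : Set G)) := by
  classical
  obtain ⟨D, hD⟩ : ∃ D : Subgroup G, D = A ⊓ C := ⟨_, rfl⟩
  obtain ⟨Z, hZ⟩ : ∃ Z : Subgroup G, Z = W ⊓ centralizer (A : Set G) := ⟨_, rfl⟩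
  obtain ⟨Y, hY⟩ : ∃ Y : Subgroup G, Y = W ⊓ centralizer (D : Set G) := ⟨_, rfl⟩
  have hDA : D ≤ A := by rw [hD]; exact inf_le_left
  have hb := dl_quot_le V C hC hV hsep hO A hA.1
  have hbo := (max_best_offender W hWe A hA).1 D hDA
  rw [← hD] at hb
  rw [← hY, ← hZ] at hbo
  have hVcomm : ∀ v ∈ V, ∀ c ∈ C, v * c = c * v := by
    intro v hv c hc
    rw [hC, mem_centralizer_iff] at hc
    exact hc v hv
  have hsupY : V ⊔ Z ≤ Y := by
    apply sup_le
    · intro v hv
      rw [hY]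
      refine ⟨hVW hv, ?_⟩
      refine mem_centralizer_iff.mpr ?_
      intro d hd
      have : d ∈ C := by
        rw [hD] at hd
        exact hd.2
      exact (hVcomm v hv d this).symm
    · intro z hz
      rw [hZ] at hz
      rw [hY]
      refine ⟨hz.1, ?_⟩
      exact Subgroup.centralizer_le (fun x hx => hDA hx) hz.2
  have hZn : Z ≤ normalizer (V : Set G) := by
    intro z _
    rw [mem_normalizer_iff]
    intro n
    constructor
    · intro hn
      exact hVn.conj_mem n hn z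
    · intro hn
      have := hVn.conj_mem _ hn z⁻¹
      simpa [mul_assoc] using this
  have hcard := card_sup_mul_card_inf V Z hZn
  have hinf : V ⊓ Z = V ⊓ centralizer (A : Set G) := by
    rw [hZ, ← inf_assoc, inf_eq_left.mpr hVW]
  rw [hinf] at hcard
  have hsy : Nat.card ↥(V ⊔ Z) ≤ Nat.card Y := Subgroup.card_le_of_le hsupY
  obtain ⟨a, ha⟩ : ∃ a, a = Nat.card A := ⟨_, rfl⟩
  obtain ⟨c, hc'⟩ : ∃ c, c = Nat.card ↥(V ⊓ centralizer (A : Set G)) := ⟨_, rfl⟩
  obtain ⟨z, hz'⟩ : ∃ z, z = Nat.card Z := ⟨_, rfl⟩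
  obtain ⟨v, hv'⟩ : ∃ v, v = Nat.card V := ⟨_, rfl⟩
  obtain ⟨d, hd'⟩ : ∃ d, d = Nat.card D := ⟨_, rfl⟩
  obtain ⟨s, hs'⟩ : ∃ s, s = Nat.card ↥(V ⊔ Z) := ⟨_, rfl⟩
  obtain ⟨y, hy'⟩ : ∃ y, y = Nat.card Y := ⟨_, rfl⟩
  rw [← ha, ← hc', ← hv', ← hd'] at hb
  rw [← hd', ← hy', ← ha, ← hz'] at hbo
  rw [← hs', ← hc', ← hv', ← hz'] at hcard
  rw [← hs', ← hy'] at hsy
  have hc0 : 0 < c := by rw [hc']; exact Nat.card_pos
  have hd0 : 0 < d := by rw [hd']; exact Nat.card_pos
  have hz0 : 0 < z := by rw [hz']; exact Nat.card_pos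
  have hmain1 : a * z * c ≤ d * s * c := by
    calc a * z * c = (a * c) * z := by ring
      _ ≤ (v * d) * z := Nat.mul_le_mul_right _ hb
      _ = d * (v * z) := by ring
      _ = d * (s * c) := by rw [hcard]
      _ = d * s * c := by ring
  have hmain2 : d * s * c ≤ d * y * c := Nat.mul_le_mul_right _ (Nat.mul_le_mul_left _ hsy)
  have hmain3 : d * y * c ≤ a * z * c := Nat.mul_le_mul_right _ hbo
  have hdy : d * y = a * z := by
    apply Nat.eq_of_mul_eq_mul_right hc0
    exact le_antisymm hmain3 (hmain1.trans hmain2)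
  have hsY : s = y := by
    have h1 : d * s * c = d * y * c := le_antisymm hmain2 (hmain3.trans hmain1)
    have h2 : d * s = d * y := Nat.eq_of_mul_eq_mul_right hc0 h1
    exact Nat.eq_of_mul_eq_mul_left hd0 h2
  have hYeq : V ⊔ Z = Y := by
    apply Subgroup.eq_of_le_of_card_ge hsupY
    rw [← hs', ← hy', hsY]
  -- the enlarged subgroup
  have hDe : IsElementaryAbelian p D := ea_of_le hA.1 hDA
  have hYW : Y ≤ W := by rw [hY]; exact inf_le_left
  have hYe : IsElementaryAbelian p Y := ea_of_le hWe hYW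
  have hYD : ∀ a ∈ Y, ∀ b ∈ D, a * b = b * a := by
    intro a ha b hb
    rw [hY] at ha
    have := mem_centralizer_iff.mp ha.2 b hb
    exact this.symm
  have hE := ea_sup hYe hDe hYD
  have hDn : D ≤ normalizer (Y : Set G) := by
    intro b hb
    rw [mem_normalizer_iff]
    intro h
    constructor
    · intro hh
      have h1 : b * h * b⁻¹ = h := by
        rw [← hYD h hh b hb]
        group
      rw [h1]
      exact hh
    · intro hh
      have h1 := hYD _ hh b hb
      have h2 : h = b * h * b⁻¹ := by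
        have h3 : b * h * b⁻¹ * b = b * (b * h * b⁻¹) := h1
        have h4 : b * h = b * (b * h * b⁻¹) := by
          rw [← h3]
          group
        exact mul_left_cancel h4
      rw [h2]
      exact hh
  have hc2 := card_sup_mul_card_inf Y D hDn
  have hinf2 : Y ⊓ D ≤ Z := by
    rintro x ⟨hx1, hx2⟩
    rw [hZ]
    refine ⟨hYW hx1, ?_⟩
    refine mem_centralizer_iff.mpr ?_
    intro b hb
    exact ea_comm hA.1 hb (hDA hx2)
  have hc3 : Nat.card ↥(Y ⊓ D) ≤ z := by
    rw [hz']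
    exact Subgroup.card_le_of_le hinf2
  have hge : a ≤ Nat.card ↥(Y ⊔ D) := by
    rw [← hy', ← hd'] at hc2
    apply Nat.le_of_mul_le_mul_right _ hz0
    calc a * z = y * d := by rw [← hdy]; ring
      _ = Nat.card ↥(Y ⊔ D) * Nat.card ↥(Y ⊓ D) := hc2.symm
      _ ≤ Nat.card ↥(Y ⊔ D) * z := Nat.mul_le_mul_left _ hc3
  have hmax : Y ⊔ D ∈ maxElementaryAbelianSubgroups p G := by
    refine ⟨hE, fun B hB => ?_⟩
    rw [ha] at hge
    exact (hA.2 B hB).trans hge
  have hle : Y ⊔ D ≤ C := by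
    apply sup_le (hYW.trans hWC)
    rw [hD]
    exact inf_le_right
  have hall := hWcent _ hmax hle
  intro w hw
  have : w ∈ Y := by
    rw [hY]
    refine ⟨hw, ?_⟩
    refine mem_centralizer_iff.mpr ?_
    intro b hb
    exact (hall w hw b (mem_sup_right hb)).symm
  rw [← hZ, hYeq]
  exact this

theorem omega_ea (Z : Subgroup G) (hZ : ∀ x ∈ Z, ∀ y ∈ Z, x * y = y * x) :
    IsElementaryAbelian p (omegaOne p Z) := by
  have hle := Cfsg.Agent.Lib.ZJOmega.omegaOne_le (X := G) p Z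
  have hcomm : ∀ x ∈ omegaOne p Z, ∀ y ∈ omegaOne p Z, x * y = y * x :=
    fun x hx y hy => hZ x (hle hx) y (hle hy)
  refine ea_of_comm hcomm ?_
  intro x hx
  have hx' := hx
  unfold omegaOne at hx'
  induction hx' using Subgroup.closure_induction with
  | mem z hz => exact hz.2
  | one => exact one_pow _
  | mul a b ha hb ih1 ih2 =>
    have ha' : a ∈ omegaOne p Z := ha
    have hb' : b ∈ omegaOne p Z := hb
    have hcm : Commute a b := hcomm a ha' b hb'
    rw [hcm.mul_pow, ih1 ha', ih2 hb', one_mul]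
  | inv a ha ih =>
    have ha' : a ∈ omegaOne p Z := ha
    rw [inv_pow, ih ha', inv_one]

/-- Statement S0619. -/
theorem s0619 (V C : Subgroup G) [hVn : V.Normal] [hCn : C.Normal] (hC : C = centralizer (V : Set G))
    (hV : IsElementaryAbelian p V) (hsep : IsPSolvable p G) (hO : pCore p (G ⧸ C) = ⊥) :
    ⁅omegaOne p (centerThompsonOf p C), thompsonSubgroup p G⁆ ≤ V := by
  classical
  obtain ⟨J, hJ⟩ : ∃ J : Subgroup G, J = thompsonSubgroupOf p C := ⟨_, rfl⟩
  have hJC : J ≤ C := by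
    rw [hJ]
    exact Subgroup.map_subtype_le _
  have hZd : centerThompsonOf p C = J ⊓ centralizer (J : Set G) := by
    rw [hJ]
    rfl
  obtain ⟨W, hW⟩ : ∃ W : Subgroup G, W = omegaOne p (centerThompsonOf p C) := ⟨_, rfl⟩
  rw [← hW]
  have hWZ : W ≤ J ⊓ centralizer (J : Set G) := by
    rw [hW, hZd]
    exact Cfsg.Agent.Lib.ZJOmega.omegaOne_le p _
  have hWe : IsElementaryAbelian p W := by
    rw [hW, hZd]
    apply omega_ea
    intro x hx y hy
    have := mem_centralizer_iff.mp hx.2 y hy.1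
    exact this.symm
  have hVcomm : ∀ v ∈ V, ∀ c ∈ C, v * c = c * v := by
    intro v hv c hc
    rw [hC, mem_centralizer_iff] at hc
    exact hc v hv
  have hVC : V ≤ C := by
    intro v hv
    rw [hC, mem_centralizer_iff]
    intro u hu
    exact ea_comm hV hu hv
  have hWC : W ≤ C := (hWZ.trans inf_le_left).trans hJC
  have hVW : V ≤ W := by
    intro v hv
    rw [hW, hZd]
    have hvC : (⟨v, hVC hv⟩ : C) ∈ thompsonSubgroup p C := by
      apply mem_thompson_of_centralizes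
      · rw [mem_centralizer_iff]
        intro c hc
        apply Subtype.ext
        exact (hVcomm v hv c.1 c.2).symm
      · apply Subtype.ext
        exact hV.2 v hv
    have hvJ : v ∈ J := by
      rw [hJ]
      exact ⟨⟨v, hVC hv⟩, hvC, rfl⟩
    unfold omegaOne
    apply Subgroup.subset_closure
    refine ⟨⟨hvJ, ?_⟩, hV.2 v hv⟩
    refine mem_centralizer_iff.mpr ?_
    intro c hc
    exact (hVcomm v hv c (hJC hc)).symm
  have hWcent : ∀ A' ∈ maxElementaryAbelianSubgroups p G, A' ≤ C → ∀ w ∈ W, ∀ a ∈ A', w * a = a * w := by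
    intro A' hA' hle w hw a ha
    have haJ : a ∈ J := by
      rw [hJ]
      exact le_thompsonOf hA' hle ha
    exact (mem_centralizer_iff.mp (hWZ hw).2 a haJ).symm
  obtain ⟨T, hT⟩ : ∃ T : Subgroup G, T = (centralizer ((W.map (QuotientGroup.mk' V)) : Set (G ⧸ V))).comap (QuotientGroup.mk' V) := ⟨_, rfl⟩
  have hAT : ∀ A ∈ maxElementaryAbelianSubgroups p G, A ≤ T := by
    intro A hA a ha
    have hdec := decomp V C W hC hV hsep hO hWe hVW hWC hWcent A hA
    rw [hT, Subgroup.mem_comap, mem_centralizer_iff]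
    rintro _ ⟨w, hw, rfl⟩
    have hw' : w ∈ ((V ⊔ (W ⊓ centralizer (A : Set G)) : Subgroup G) : Set G) := hdec hw
    rw [Subgroup.normal_mul] at hw'
    obtain ⟨v, hv, z, hz, rfl⟩ := Set.mem_mul.mp hw'
    have hv1 : QuotientGroup.mk' V v = 1 := by
      rw [← MonoidHom.mem_ker, QuotientGroup.ker_mk']
      exact hv
    have hz1 : z * a = a * z := by
      exact (mem_centralizer_iff.mp hz.2 a ha).symm
    show QuotientGroup.mk' V (v * z) * QuotientGroup.mk' V a = QuotientGroup.mk' V a * QuotientGroup.mk' V (v * z)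
    rw [map_mul, hv1, one_mul, ← map_mul, ← map_mul, hz1]
  have hJT : thompsonSubgroup p G ≤ T := sSup_le hAT
  rw [Subgroup.commutator_le]
  intro w hw g hg
  have h1 := hJT hg
  rw [hT, Subgroup.mem_comap, mem_centralizer_iff] at h1
  have h2 := h1 _ ⟨w, hw, rfl⟩
  rw [← QuotientGroup.ker_mk' V, MonoidHom.mem_ker, commutatorElement_def]
  simp only [map_mul, map_inv]
  have h3 : QuotientGroup.mk' V w * QuotientGroup.mk' V g = QuotientGroup.mk' V g * QuotientGroup.mk' V w := h2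
  rw [h3]
  group

end Cfsg.Agent.Lib.FacFailJ
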