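import Mathlib
import Cfsg.Prelude
import Cfsg.Agent.Lib.FacDiag
import Cfsg.Agent.Lib.SylowIdx

/-! Generation by the normalizer of `J(S)`, the centralizer of `Ω₁(Z(S))` and the fixed points. -/

set_option autoImplicit false
set_option linter.all false

namespace Cfsg.Agent.Lib.FacGen

open Subgroup Cfsg Cfsg.Agent.Lib.BestOff Cfsg.Agent.Lib.BestOffPlane Cfsg.Agent.Lib.BestOffBridge
  Cfsg.Agent.Lib.BestOffMain Cfsg.Agent.Lib.BestOffStruct Cfsg.Agent.Lib.FacAct Cfsg.Agent.Lib.FacFix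
  Cfsg.Agent.Lib.FacDiag
open Matrix
open scoped commutatorElement

universe u v

section pack

variable {Γ : Type u} [Group Γ] [Finite Γ] {p q : ℕ} [hp : Fact p.Prime] [hq' : Fact q.Prime]
variable {Y : Type v} [Group Y] [Finite Y]
variable {κ : Y →* MulAut Γ} {V C J : Subgroup Γ} {L : Type u} [Group L] [Finite L]
  {Vh H : Subgroup L} {j : V →* L} {i : Γ →* L} {α : Y →* MulAut L}

theorem s0620_core (hP : Pack p q κ V C J Vh H j i α) (hY : IsPGroup q Y) (hqΓ : ¬ q ∣ Nat.card Γ)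
    (hJn : J.Normal) (hCn : C.Normal) (S : Sylow p Γ) (M : Subgroup Γ) (hCM : C ≤ M)
    (hSM : (S : Subgroup Γ) ≤ M) (hFix : Cfsg.Agent.Lib.CoprimeGen.fixS κ ⊤ ≤ M) : J ≤ M := by
  classical
  obtain ⟨W', i1, i2, Φ', hB⟩ := exists_model (p := p) Vh hP.hVe
  letI := i1
  letI := i2
  have hpp : p.Prime := Fact.out
  have hmemC : ∀ x, x ∈ C ↔ i x = 1 := by
    intro x
    rw [← hP.hker]
    rfl
  have hEM : ∀ A, MinA p Vh H A → Ef p H A ≤ M.map i := by
    intro A hA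
    obtain ⟨h23, hF⟩ := hA.fac hB hP.hS hP.hf hP.hS3
    have hψ := exists_psi hB hP.hS hP.hf hP.hS3 α hP.hYV hP.hYH hY hP.hq hA
    have hAE : A ≤ Ef p H A := le_sup_right
    generalize hE : Ef p H A = E at hψ hF hAE ⊢
    obtain ⟨ψ, ψ', h1, h2, -, -, -, -⟩ := hψ
    have hψH : ∀ e, ψ e ∈ H := by
      intro e
      have h7 := H.mul_mem (hF.le_H e.2) (h2 e).1
      rwa [mul_inv_cancel_left] at h7
    have hAne : A ≠ ⊥ := by
      rintro rfl
      have := hA.card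
      rw [Subgroup.card_bot] at this
      exact hpp.one_lt.ne this
    obtain ⟨a₀, ha₀, ha₀1⟩ := (Subgroup.bot_or_exists_ne_one A).resolve_left hAne
    have ha₀p : a₀ ^ p = 1 := hA.el.exp a₀ ha₀
    have ha₀E : a₀ ∈ E := hAE ha₀
    have ha₀H : a₀ ∈ H := hF.le_H ha₀E
    obtain ⟨g, hgJ, hg⟩ := hP.hH.le ha₀H
    have hg' : i g = a₀ := hg
    have hord : orderOf g ≠ 0 := (orderOf_pos g).ne'
    obtain ⟨k, m, hm, hkm⟩ := Nat.exists_eq_pow_mul_and_not_dvd hord p hpp.ne_one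
    obtain ⟨g₁, hg₁d⟩ : ∃ g₁, g₁ = g ^ m := ⟨_, rfl⟩
    have hg₁ : g₁ ^ (p ^ k) = 1 := by
      rw [hg₁d, ← pow_mul, mul_comm, ← hkm, pow_orderOf_eq_one]
    obtain ⟨a₁, ha₁d⟩ : ∃ a₁, a₁ = a₀ ^ m := ⟨_, rfl⟩
    have hia₁ : i g₁ = a₁ := by
      rw [hg₁d, ha₁d, map_pow, hg']
    have ha₁1 : a₁ ≠ 1 := by
      rw [ha₁d]
      intro h
      have h2' := orderOf_dvd_of_pow_eq_one h
      haveI := hp
      rw [orderOf_eq_prime ha₀p ha₀1] at h2'
      exact hm h2'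
    have ha₁p : a₁ ^ p = 1 := by
      rw [ha₁d, ← pow_mul, mul_comm, pow_mul, ha₀p, one_pow]
    have ha₁E : a₁ ∈ E := by
      rw [ha₁d]
      exact E.pow_mem ha₀E m
    obtain ⟨N₂, hN₂⟩ : ∃ N₂ : Subgroup Γ, N₂ = J ⊔ C := ⟨_, rfl⟩
    haveI hN₂n : N₂.Normal := by
      rw [hN₂]
      infer_instance
    have hg₁N : g₁ ∈ N₂ := by
      rw [hN₂, hg₁d]
      exact mem_sup_left (J.pow_mem hgJ m)
    obtain ⟨R, hR⟩ := Cfsg.Agent.Lib.SylowIdx.exists_sylow_inf S N₂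
    obtain ⟨g₂, hg₂⟩ : ∃ g₂ : ↥N₂, (g₂ : Γ) = g₁ := ⟨⟨g₁, hg₁N⟩, rfl⟩
    have hpg : IsPGroup p (zpowers g₂) := by
      apply IsPGroup.iff_card.mpr
      rw [Nat.card_zpowers]
      have h3 : g₂ ^ (p ^ k) = 1 := Subtype.ext (by
        show ((g₂ ^ (p ^ k) : N₂) : Γ) = 1
        push_cast
        rw [hg₂, hg₁])
      obtain ⟨j', -, hj'⟩ := (Nat.dvd_prime_pow hpp).1 (orderOf_dvd_of_pow_eq_one h3)
      exact ⟨j', hj'⟩
    obtain ⟨T', hT'⟩ := hpg.exists_le_sylow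
    obtain ⟨h, hh⟩ := MulAction.exists_smul_eq ↥N₂ T' R
    have hRmap : (R : Subgroup ↥N₂) = (T' : Subgroup ↥N₂).map (MulAut.conj h).toMonoidHom := by
      rw [← hh]
      rfl
    have hmemR : h * g₂ * h⁻¹ ∈ (R : Subgroup ↥N₂) := by
      rw [hRmap]
      exact ⟨g₂, hT' (Subgroup.mem_zpowers g₂), rfl⟩
    rw [hR, Subgroup.mem_subgroupOf] at hmemR
    obtain ⟨x, hx⟩ : ∃ x : Γ, x = ((h * g₂ * h⁻¹ : ↥N₂) : Γ) := ⟨_, rfl⟩
    rw [← hx] at hmemR
    have hxd : x = (h : Γ) * g₁ * (h : Γ)⁻¹ := by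
      rw [hx, ← hg₂]
      rfl
    have hih : i h ∈ H := by
      have hle : N₂ ≤ H.comap i := by
        rw [hN₂]
        apply sup_le
        · intro y hy
          exact hP.hH.ge ⟨y, hy, rfl⟩
        · intro y hy
          show i y ∈ H
          rw [(hmemC y).1 hy]
          exact H.one_mem
      exact hle h.2
    obtain ⟨a, had⟩ : ∃ a, a = i x := ⟨_, rfl⟩
    have hae : a = i h * a₁ * (i h)⁻¹ := by
      rw [had, hxd, map_mul, map_mul, map_inv, hia₁]
    have haE : a ∈ E := by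
      rw [hae]
      exact hF.conj_mem hih ha₁E
    have ha1 : a ≠ 1 := by
      rw [hae]
      intro h3
      apply ha₁1
      have h4 : a₁ = (i h)⁻¹ * (i h * a₁ * (i h)⁻¹) * i h := by group
      rw [h4, h3]
      group
    have hap : a ^ p = 1 := by
      rw [hae, conj_pow, ha₁p]
      group
    have haM : a ∈ M.map i := ⟨x, hSM hmemR.1, had.symm⟩
    have hconj : ∀ e : E, (e : L) * a * (e : L)⁻¹ ∈ M.map i := by
      intro e
      obtain ⟨g₀, -, hg₀⟩ := hP.hH.le (hψH e)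
      have hg₀' : i g₀ = ψ e := hg₀
      obtain ⟨g', hg'1, hgf⟩ := lift hP hY hqΓ (g := g₀) (by
        intro s
        rw [hg₀']
        exact h1 s e)
      have hg'M : g' ∈ M := hFix (fun s _ => hgf s)
      have hψM : ψ e ∈ M.map i := ⟨g', hg'M, by
        show i g' = ψ e
        rw [hg'1, hg₀']⟩
      have h3 := (M.map i).mul_mem ((M.map i).mul_mem hψM haM) ((M.map i).inv_mem hψM)
      obtain ⟨m', hm'⟩ : ∃ m', m' = (e : L)⁻¹ * ψ e := ⟨_, rfl⟩
      have hm2 := h2 e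
      rw [← hm'] at hm2
      have hma := hF.comm haE hm2
      have hψe : ψ e = e * m' := by
        rw [hm']
        group
      have h4 : ψ e * a * (ψ e)⁻¹ = e * a * (e : L)⁻¹ := by
        rw [hψe]
        calc (e * m') * a * ((e : L) * m')⁻¹ = e * (m' * a) * m'⁻¹ * (e : L)⁻¹ := by group
          _ = e * (a * m') * m'⁻¹ * (e : L)⁻¹ := by rw [hma]
          _ = e * a * (e : L)⁻¹ := by group
      rwa [h4] at h3
    obtain ⟨iE⟩ := hF.iso
    have hb : iE ⟨a, haE⟩ ≠ 1 := by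
      intro h3
      rw [map_eq_one_iff iE iE.injective] at h3
      exact ha1 (congrArg Subtype.val h3)
    have hbp : (iE ⟨a, haE⟩) ^ p = 1 := by
      rw [← map_pow]
      have h3 : (⟨a, haE⟩ : E) ^ p = 1 := Subtype.ext hap
      rw [h3, map_one]
    have htop := sl2_conj_gen h23 _ hb hbp (((M.map i).subgroupOf E).map iE.toMonoidHom) (by
      intro g₃
      refine ⟨iE.symm g₃ * ⟨a, haE⟩ * (iE.symm g₃)⁻¹, ?_, ?_⟩
      · rw [SetLike.mem_coe, Subgroup.mem_subgroupOf]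
        exact hconj _
      · show iE (iE.symm g₃ * ⟨a, haE⟩ * (iE.symm g₃)⁻¹) = _
        rw [map_mul, map_mul, map_inv, MulEquiv.apply_symm_apply])
    intro y hy
    have h4 : iE ⟨y, hy⟩ ∈ ((M.map i).subgroupOf E).map iE.toMonoidHom := by
      rw [htop]
      exact Subgroup.mem_top _
    obtain ⟨e, he, hee⟩ := h4
    have h5 : e = ⟨y, hy⟩ := iE.injective hee
    rw [SetLike.mem_coe, Subgroup.mem_subgroupOf, h5] at he
    exact he
  have hHM : H ≤ M.map i := (gen hP hB).trans (iSup_le fun A => hEM A.1 A.2)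
  intro g hg
  have h3 : i g ∈ H := hP.hH.ge ⟨g, hg, rfl⟩
  obtain ⟨m, hm, hmg⟩ := hHM h3
  have hmg' : i m = i g := hmg
  have h5 : m⁻¹ * g ∈ C := by
    rw [hmemC, map_mul, map_inv, hmg', inv_mul_cancel]
  have h6 := M.mul_mem hm (hCM h5)
  rwa [mul_inv_cancel_left] at h6

end pack

section K

variable {G : Type u} [Group G] [Finite G] {p q : ℕ} [hp : Fact p.Prime] [hq' : Fact q.Prime]

theorem s0620_main (K X : Subgroup G) (hXK : X ≤ normalizer (K : Set G)) (hX : IsElementaryAbelian q X)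
    (hq : ¬ q ∣ Nat.card K) (hsep : IsPSolvable p ↥K) (V : Subgroup ↥K) [hVn : V.Normal]
    (hVd : V = ⨆ S : Sylow p ↥K, omegaOne p ((S : Subgroup ↥K) ⊓ centralizer ((S : Subgroup ↥K) : Set ↥K)))
    (hVe : IsElementaryAbelian p V) (hO : pCore p (↥K ⧸ centralizer (V : Set ↥K)) = ⊥) (S : Sylow p ↥K) :
    (normalizer (thompsonSubgroupOf p (S : Subgroup ↥K) : Set ↥K) ⊔
      centralizer (omegaOne p ((S : Subgroup ↥K) ⊓ centralizer ((S : Subgroup ↥K) : Set ↥K)) : Set ↥K) ⊔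
      (centralizer (X : Set G)).subgroupOf K) = ⊤ := by
  classical
  obtain ⟨κ, hκ, hκV, L, iL, fL, Vh, H, j, i, α, hP⟩ := exists_all K X hXK hX hq hsep V hVd hVe hO
  letI := iL
  letI := fL
  have hY : IsPGroup q X := Cfsg.Agent.Lib.ThompsonBasic.ea_isPGroup hX
  obtain ⟨M, hM⟩ : ∃ M : Subgroup ↥K, M = normalizer (thompsonSubgroupOf p (S : Subgroup ↥K) : Set ↥K) ⊔
      centralizer (omegaOne p ((S : Subgroup ↥K) ⊓ centralizer ((S : Subgroup ↥K) : Set ↥K)) : Set ↥K) ⊔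
      (centralizer (X : Set G)).subgroupOf K := ⟨_, rfl⟩
  rw [← hM]
  have h1M : normalizer (thompsonSubgroupOf p (S : Subgroup ↥K) : Set ↥K) ≤ M := by
    rw [hM]
    exact le_sup_left.trans le_sup_left
  have h2M : centralizer (omegaOne p ((S : Subgroup ↥K) ⊓ centralizer ((S : Subgroup ↥K) : Set ↥K)) : Set ↥K) ≤ M := by
    rw [hM]
    exact le_sup_right.trans le_sup_left
  have h3M : (centralizer (X : Set G)).subgroupOf K ≤ M := by
    rw [hM]
    exact le_sup_right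
  have hCM : centralizer (V : Set ↥K) ≤ M := by
    refine le_trans ?_ h2M
    apply Subgroup.centralizer_le
    rw [hVd]
    exact fun x hx => (le_iSup (fun S : Sylow p ↥K => omegaOne p ((S : Subgroup ↥K) ⊓ centralizer ((S : Subgroup ↥K) : Set ↥K))) S) hx
  have hSM : (S : Subgroup ↥K) ≤ M := by
    refine le_trans ?_ h1M
    exact Subgroup.le_normalizer.trans (Cfsg.Agent.Lib.ThompsonBasic.normalizer_thompsonOf _)
  have hFix : Cfsg.Agent.Lib.CoprimeGen.fixS κ ⊤ ≤ M := by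
    refine le_trans ?_ h3M
    intro g hg
    rw [Subgroup.mem_subgroupOf]
    refine mem_centralizer_iff.mpr ?_
    intro x hx
    have h1 := congrArg Subtype.val (hg ⟨x, hx⟩ (Subgroup.mem_top _))
    rw [hκ] at h1
    calc x * (g : G) = (x * g * x⁻¹) * x := by group
      _ = g * x := by rw [h1]
  haveI hJc : (thompsonSubgroup p ↥K).Characteristic := Cfsg.Agent.Lib.ThompsonBasic.thompson_characteristic
  haveI hJn : (thompsonSubgroup p ↥K).Normal := inferInstance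
  haveI hCn : (centralizer (V : Set ↥K)).Normal := normal_centralizer
  have hJM := s0620_core hP hY hq hJn hCn S M hCM hSM hFix
  -- Frattini
  obtain ⟨N₂, hN₂⟩ : ∃ N₂ : Subgroup ↥K, N₂ = thompsonSubgroup p ↥K ⊔ centralizer (V : Set ↥K) := ⟨_, rfl⟩
  haveI hN₂n : N₂.Normal := by
    rw [hN₂]
    infer_instance
  have hN₂M : N₂ ≤ M := by
    rw [hN₂]
    exact sup_le hJM hCM
  obtain ⟨R, hR⟩ := Cfsg.Agent.Lib.SylowIdx.exists_sylow_inf S N₂
  have hfr := Sylow.normalizer_sup_eq_top (N := N₂) R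
  have hRm : (R : Subgroup ↥N₂).map N₂.subtype = (S : Subgroup ↥K) ⊓ N₂ := by
    rw [hR]
    exact Subgroup.map_subgroupOf_eq_of_le inf_le_right
  have hJS : thompsonSubgroupOf p (S : Subgroup ↥K) ≤ (S : Subgroup ↥K) ⊓ N₂ := by
    refine le_inf (Subgroup.map_subtype_le _) ?_
    refine (Cfsg.Agent.Lib.ThompsonBasic.thompsonOf_sylow_le S).trans ?_
    rw [hN₂]
    exact le_sup_left
  have hJeq := Cfsg.Agent.Lib.ThompsonBasic.thompsonOf_eq_of_le (p := p) (inf_le_left : (S : Subgroup ↥K) ⊓ N₂ ≤ (S : Subgroup ↥K)) hJS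
  rw [eq_top_iff, ← hfr]
  apply sup_le _ hN₂M
  refine le_trans ?_ h1M
  rw [hRm]
  have h7 := Cfsg.Agent.Lib.ThompsonBasic.normalizer_thompsonOf (p := p) ((S : Subgroup ↥K) ⊓ N₂)
  rw [hJeq] at h7
  exact h7

end K

end Cfsg.Agent.Lib.FacGen
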