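import Mathlib

/-!
# Automorphisms of a finite field of characteristic two as a basis of additive maps
-/

set_option autoImplicit false
set_option linter.all false

namespace Cfsg.Agent.Lib.FieldAut

variable {F : Type*} [Field F] [Fintype F] [CharP F 2]

/-- The prime field acts. -/
noncomputable scoped instance fieldAutAlgebra : Algebra (ZMod 2) F := ZMod.algebra F 2

omit [Fintype F] [CharP F 2] in
theorem li_auts : LinearIndependent F (fun σ : F ≃+* F => ((σ : F →+* F) : F → F)) := by
  have h := linearIndependent_monoidHom F F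
  exact h.comp (fun σ : F ≃+* F => ((σ : F →* F))) (by
    intro σ τ e
    apply RingEquiv.ext
    intro x
    exact DFunLike.congr_fun e x)

theorem finite_auts : Finite (F ≃+* F) :=
  Finite.of_injective (fun σ : F ≃+* F => (σ : F → F)) DFunLike.coe_injective

/-- The automorphisms as prime-field-linear maps. -/
noncomputable def autLin (σ : F ≃+* F) : F →ₗ[ZMod 2] F := ((σ : F →+* F) : F →+ F).toZModLinearMap 2

theorem span_autLin [Fintype (F ≃+* F)] : Submodule.span F (Set.range (autLin (F := F))) = ⊤ := by
  have hli : LinearIndependent F (autLin (F := F)) := by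
    refine LinearIndependent.of_comp (LinearMap.ltoFun (ZMod 2) F F F) ?_
    exact li_auts
  haveI : Module.Finite (ZMod 2) F := Module.Finite.of_finite
  have h1 : Module.finrank F (F →ₗ[ZMod 2] F) = Module.finrank (ZMod 2) F :=
    Module.finrank_linearMap_self (ZMod 2) F F
  refine hli.span_eq_top_of_card_eq_finrank' ?_
  rw [h1]
  apply le_antisymm
  · rw [← h1]
    exact hli.fintype_card_le_finrank
  · rw [← IsGalois.card_aut_eq_finrank (ZMod 2) F, ← Nat.card_eq_fintype_card]
    refine Nat.card_le_card_of_injective (fun e : F ≃ₐ[ZMod 2] F => e.toRingEquiv) ?_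
    intro e e' h
    ext x
    exact congrArg (fun s : F ≃+* F => s x) h

theorem additive_comb [Fintype (F ≃+* F)] (f : F →+ F) :
    ∃ c : (F ≃+* F) → F, ∀ x, f x = ∑ σ, c σ * σ x := by
  have h : f.toZModLinearMap 2 ∈ Submodule.span F (Set.range (autLin (F := F))) := by
    rw [span_autLin]
    trivial
  obtain ⟨c, hc⟩ := (Submodule.mem_span_range_iff_exists_fun F).1 h
  refine ⟨c, fun x => ?_⟩
  have h2 := congrArg (fun l : F →ₗ[ZMod 2] F => l x) hc
  simp only [LinearMap.sum_apply, LinearMap.smul_apply, smul_eq_mul] at h2
  exact h2.symm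

/-- The coordinate functionals of a basis over the prime field, with values in `F`. -/
noncomputable def coordF {n : ℕ} (b : Module.Basis (Fin n) (ZMod 2) F) (i : Fin n) : F →+ F where
  toFun x := algebraMap (ZMod 2) F (b.repr x i)
  map_zero' := by simp
  map_add' x y := by simp

theorem coordF_mul_self {n : ℕ} (b : Module.Basis (Fin n) (ZMod 2) F) (i : Fin n) (x : F) :
    coordF b i x * coordF b i x = coordF b i x := by
  have h : ∀ t : ZMod 2, t * t = t := by decide
  show algebraMap (ZMod 2) F _ * algebraMap (ZMod 2) F _ = algebraMap (ZMod 2) F _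
  rw [← map_mul, h]

theorem additive_sum {n : ℕ} (b : Module.Basis (Fin n) (ZMod 2) F) (f : F →+ F) (I : Finset (Fin n)) (x : F) :
    f (∑ i ∈ I, b.repr x i • b i) = ∑ i ∈ I, coordF b i x * f (b i) := by
  rw [map_sum]
  refine Finset.sum_congr rfl fun i _ => ?_
  rw [ZMod.map_smul f, Algebra.smul_def]
  rfl

theorem biadditive_expand {n : ℕ} (b : Module.Basis (Fin n) (ZMod 2) F) (B : F →+ F →+ F) (x y : F) :
    B x y = ∑ i, coordF b i x * B (b i) y := by
  have h := additive_sum b ((AddMonoidHom.eval y).comp B) Finset.univ x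
  rw [b.sum_repr] at h
  exact h

/-- Bilinear forms as combinations. -/
theorem biadditive_comb [Fintype (F ≃+* F)] (B : F →+ F →+ F) :
    ∃ c : (F ≃+* F) × (F ≃+* F) → F, ∀ x y : F, B x y = ∑ p : (F ≃+* F) × (F ≃+* F), c p * (p.1 x * p.2 y) := by
  classical
  haveI : Module.Finite (ZMod 2) F := Module.Finite.of_finite
  let b := Module.finBasis (ZMod 2) F
  choose a ha using fun i : Fin (Module.finrank (ZMod 2) F) => additive_comb (coordF b i)
  choose d hd using fun i : Fin (Module.finrank (ZMod 2) F) => additive_comb (B (b i))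
  refine ⟨fun p => ∑ i, a i p.1 * d i p.2, fun x y => ?_⟩
  rw [biadditive_expand b]
  simp only [ha, hd, Finset.sum_mul_sum, Fintype.sum_prod_type, Finset.sum_mul]
  rw [Finset.sum_comm]
  refine Finset.sum_congr rfl fun σ _ => ?_
  rw [Finset.sum_comm]
  refine Finset.sum_congr rfl fun i _ => ?_
  rw [Finset.mul_sum]
  refine Finset.sum_congr rfl fun τ _ => ?_
  ring

/-- The span of the products of automorphisms. -/
noncomputable def prodSpan (F : Type*) [Field F] [Fintype (F ≃+* F)] : Submodule F (F → F) :=
  Submodule.span F (Set.range fun p : (F ≃+* F) × (F ≃+* F) => fun x : F => p.1 x * p.2 x)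

theorem prod_mem [Fintype (F ≃+* F)] (u v : F →+ F) : (fun x => u x * v x) ∈ prodSpan F := by
  classical
  obtain ⟨a, ha⟩ := additive_comb u
  obtain ⟨e, he⟩ := additive_comb v
  refine (Submodule.mem_span_range_iff_exists_fun F).2 ⟨fun p => a p.1 * e p.2, ?_⟩
  funext x
  simp only [Finset.sum_apply, Pi.smul_apply, smul_eq_mul, ha, he, Finset.sum_mul_sum, Fintype.sum_prod_type]
  refine Finset.sum_congr rfl fun σ _ => Finset.sum_congr rfl fun τ _ => ?_
  ring

/-- Quadratic maps lie in the span. -/
theorem quadratic_mem [Fintype (F ≃+* F)] (q : F → F)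
    (hq : ∀ x y z : F, q (x + y + z) + q (x + y) + q (x + z) + q (y + z) + q x + q y + q z = 0) :
    q ∈ prodSpan F := by
  classical
  haveI : Module.Finite (ZMod 2) F := Module.Finite.of_finite
  have h2' : (2 : F) = 0 := CharTwo.two_eq_zero
  have hq0 : q 0 = 0 := by
    have := hq 0 0 0
    simp only [add_zero] at this
    linear_combination this - 3 * q 0 * h2'
  let B₁ : F → F →+ F := fun x => AddMonoidHom.mk' (fun y => q (x + y) + q x + q y) (by
    intro y z
    have := hq x y z
    have e : x + (y + z) = x + y + z := (add_assoc _ _ _).symm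
    simp only [e]
    linear_combination this - (q (x + y) + q x + q y + q (x + z) + q z) * h2')
  let B : F →+ F →+ F := AddMonoidHom.mk' B₁ (by
    intro x y
    ext z
    show q (x + y + z) + q (x + y) + q z = (q (x + z) + q x + q z) + (q (y + z) + q y + q z)
    have := hq x y z
    linear_combination this - (q (x + z) + q x + q (y + z) + q y + q z) * h2')
  have hB : ∀ x y, B x y = q (x + y) + q x + q y := fun _ _ => rfl
  let b := Module.finBasis (ZMod 2) F
  have hBu : ∀ (t : ZMod 2) (e f : F), B (t • e) f = algebraMap (ZMod 2) F t * B e f := by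
    intro t e f
    have h := ZMod.map_smul ((AddMonoidHom.eval f).comp B) t e
    rw [Algebra.smul_def] at h
    exact h
  have hqu : ∀ (t : ZMod 2) (e : F), q (t • e) = algebraMap (ZMod 2) F t * q e := by
    intro t e
    have ht : ∀ t : ZMod 2, t = 0 ∨ t = 1 := by decide
    rcases ht t with rfl | rfl
    · simp [hq0]
    · simp
  have key : ∀ I : Finset (Fin (Module.finrank (ZMod 2) F)),
      (fun x => q (∑ i ∈ I, b.repr x i • b i)) ∈ prodSpan F := by
    intro I
    induction I using Finset.induction_on with
    | empty =>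
      have : (fun x => q (∑ i ∈ (∅ : Finset (Fin (Module.finrank (ZMod 2) F))), b.repr x i • b i)) = 0 := by
        funext x
        simp [hq0]
      rw [this]
      exact Submodule.zero_mem _
    | insert a I ha ih =>
      have e : (fun x => q (∑ i ∈ insert a I, b.repr x i • b i)) =
          (∑ i ∈ I, B (b a) (b i) • (fun x => coordF b a x * coordF b i x)) +
            (fun x => q (∑ i ∈ I, b.repr x i • b i)) +
            q (b a) • (fun x => coordF b a x * coordF b a x) := by
        funext x
        simp only [Pi.add_apply, Finset.sum_apply, Pi.smul_apply, smul_eq_mul]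
        rw [Finset.sum_insert ha]
        have h1 := hB (b.repr x a • b a) (∑ i ∈ I, b.repr x i • b i)
        have h3 := additive_sum b (B (b.repr x a • b a)) I x
        rw [h3] at h1
        have h4 : ∀ i ∈ I, coordF b i x * B (b.repr x a • b a) (b i) =
            B (b a) (b i) * (coordF b a x * coordF b i x) := by
          intro i _
          rw [hBu]
          show _ * (coordF b a x * _) = _
          ring
        rw [Finset.sum_congr rfl h4] at h1
        rw [coordF_mul_self]
        have h5 : q (b.repr x a • b a) = coordF b a x * q (b a) := hqu _ _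
        rw [h5] at h1
        linear_combination (-1 : F) * h1 - (q (∑ i ∈ I, b.repr x i • b i) + coordF b a x * q (b a)) * h2'
      rw [e]
      refine Submodule.add_mem _ (Submodule.add_mem _ ?_ ih) (Submodule.smul_mem _ _ (prod_mem _ _))
      exact Submodule.sum_mem _ fun i _ => Submodule.smul_mem _ _ (prod_mem _ _)
  have h := key Finset.univ
  have e : (fun x => q (∑ i, b.repr x i • b i)) = q := by
    funext x
    rw [b.sum_repr]
  rw [e] at h
  exact h

/-- Quadratic maps as combinations of products of automorphisms. -/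
theorem quadratic_comb [Fintype (F ≃+* F)] (q : F → F)
    (hq : ∀ x y z : F, q (x + y + z) + q (x + y) + q (x + z) + q (y + z) + q x + q y + q z = 0) :
    ∃ c : (F ≃+* F) × (F ≃+* F) → F, ∀ x : F, q x = ∑ p : (F ≃+* F) × (F ≃+* F), c p * (p.1 x * p.2 x) := by
  obtain ⟨c, hc⟩ := (Submodule.mem_span_range_iff_exists_fun F).1 (quadratic_mem q hq)
  refine ⟨c, fun x => ?_⟩
  have h := congrFun hc x
  simp only [Finset.sum_apply, Pi.smul_apply, smul_eq_mul] at h
  exact h.symm

end Cfsg.Agent.Lib.FieldAut
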