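import Mathlib

/-! A counting lemma for finite groups acting with few fixed points (the heart of Dickson's analysis of
subgroups of `PGL₂`): if every element has a fixed point, non-identity elements fix at most two points and
the stabiliser of `x₀` has at least four elements, all non-identity ones having `x₀` as only fixed point,
then `x₀` is fixed by the whole group. -/

set_option autoImplicit false
set_option linter.unusedSectionVars false
set_option linter.unusedVariables false

namespace Cfsg.Agent.Lib.FixCount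

open MulAction

variable {G Y : Type*} [Group G] [Finite G] [MulAction G Y]

/-- orbit-stabilizer with `ncard`. -/
theorem ncard_orbit_mul_card_stab (z : Y) :
    (orbit G z).ncard * Nat.card (stabilizer G z) = Nat.card G := by
  rw [← MulAction.index_stabilizer, Subgroup.index_mul_card]

theorem stab_card_of_mem_orbit {z z' : Y} (h : z' ∈ orbit G z) :
    Nat.card (stabilizer G z') = Nat.card (stabilizer G z) := by
  have h1 := ncard_orbit_mul_card_stab (G := G) z
  have h2 := ncard_orbit_mul_card_stab (G := G) z'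
  rw [MulAction.orbit_eq_iff.2 h] at h2
  have hpos : 0 < (orbit G z).ncard := by
    have hf : (orbit G z).Finite := Set.finite_range _
    rw [Set.ncard_pos hf]
    exact ⟨z, mem_orbit_self z⟩
  exact Nat.eq_of_mul_eq_mul_left hpos (h2.trans h1.symm)

theorem fix_count
    (ha : ∀ g : G, ∃ z : Y, g • z = z)
    (x₀ : Y)
    (hc : ∀ a : G, a • x₀ = x₀ → a ≠ 1 → ∀ z, a • z = z → z = x₀)
    (hb : ∀ g : G, g ≠ 1 → ∀ z₁ z₂ z₃ : Y, g • z₁ = z₁ → g • z₂ = z₂ → g • z₃ = z₃ →
      z₁ ≠ z₂ → z₁ ≠ z₃ → z₂ ≠ z₃ → False)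
    (hd : 4 ≤ Nat.card (stabilizer G x₀)) :
    ∀ g : G, g • x₀ = x₀ := by
  classical
  haveI : Fintype G := Fintype.ofFinite G
  -- orbits as finsets
  have horbf : ∀ z : Y, (orbit G z).Finite := fun z => Set.finite_range _
  let orb : Y → Finset Y := fun z => (horbf z).toFinset
  have mem_orb : ∀ z z', z' ∈ orb z ↔ z' ∈ orbit G z := fun z z' => by simp [orb]
  have card_orb : ∀ z, (orb z).card = (orbit G z).ncard := fun z =>
    (Set.ncard_eq_toFinset_card _ (horbf z)).symm
  let Gs : Finset G := Finset.univ.erase 1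
  have hGs : Gs.card + 1 = Nat.card G := by
    rw [Finset.card_erase_of_mem (Finset.mem_univ _), Nat.card_eq_fintype_card, Finset.card_univ]
    have : 0 < Fintype.card G := Fintype.card_pos
    omega
  -- number of non-identity elements fixing a point
  have hfixcount : ∀ z : Y, (Gs.filter (fun g => g • z = z)).card + 1 = Nat.card (stabilizer G z) := by
    intro z
    have e : ((Finset.univ.filter (fun g : G => g • z = z))).card = Nat.card (stabilizer G z) := by
      rw [Nat.card_eq_fintype_card, Fintype.card_subtype]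
      rfl
    rw [← e]
    have e2 : Gs.filter (fun g => g • z = z) = (Finset.univ.filter (fun g : G => g • z = z)).erase 1 := by
      ext g
      simp [Gs, Finset.mem_filter, Finset.mem_erase]
    rw [e2, Finset.card_erase_of_mem (by simp)]
    have : 0 < (Finset.univ.filter (fun g : G => g • z = z)).card :=
      Finset.card_pos.2 ⟨1, by simp⟩
    omega
  -- an element fixing a point of the orbit of x₀ and another point
  have hcon : ∀ g : G, g ≠ 1 → ∀ w ∈ orbit G x₀, g • w = w → ∀ z, g • z = z → z = w := by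
    intro g hg w hw hgw z hgz
    obtain ⟨h, rfl⟩ := hw
    have h' : (fun m => m • x₀) h = h • x₀ := rfl
    have h1 : (h⁻¹ * g * h) • x₀ = x₀ := by
      rw [mul_smul, mul_smul]
      change g • (h • x₀) = h • x₀ at hgw
      rw [hgw, inv_smul_smul]
    have h2 : h⁻¹ * g * h ≠ 1 := by
      intro h3
      apply hg
      have : g = h * (h⁻¹ * g * h) * h⁻¹ := by group
      rw [this, h3]
      group
    have h3 := hc _ h1 h2 (h⁻¹ • z) (by
      rw [mul_smul, mul_smul, smul_inv_smul, hgz])
    change z = h • x₀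
    rw [← h3, smul_inv_smul]
  set O := orb x₀ with hO
  set N := O.card with hN
  set A := Nat.card (stabilizer G x₀) with hA
  have hNA : N * A = Nat.card G := by
    rw [hN, hO, card_orb]
    exact ncard_orbit_mul_card_stab x₀
  have hNpos : 0 < N := Finset.card_pos.2 ⟨x₀, (mem_orb _ _).2 (mem_orbit_self x₀)⟩
  -- the double count on `O`
  have hcount1 : ∑ z ∈ O, (Gs.filter (fun g => g • z = z)).card =
      ∑ g ∈ Gs, (O.filter (fun z => g • z = z)).card :=
    Finset.sum_card_bipartiteAbove_eq_sum_card_bipartiteBelow (fun z g => g • z = z)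
  have hleft1 : ∑ z ∈ O, (Gs.filter (fun g => g • z = z)).card = N * (A - 1) := by
    rw [Finset.sum_const_nat (m := A - 1)]
    intro z hz
    have h5 := hfixcount z
    have h6 : Nat.card (stabilizer G z) = A := stab_card_of_mem_orbit ((mem_orb _ _).1 hz)
    omega
  let R : Finset G := Gs.filter (fun g => ∀ z ∈ O, g • z ≠ z)
  have hright1 : ∑ g ∈ Gs, (O.filter (fun z => g • z = z)).card + R.card = Gs.card := by
    rw [Finset.card_eq_sum_ones Gs, Finset.card_eq_sum_ones R]
    rw [show (∑ x ∈ R, 1) = ∑ g ∈ Gs, (if ∀ z ∈ O, g • z ≠ z then 1 else 0) by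
      rw [Finset.sum_filter]]
    rw [← Finset.sum_add_distrib]
    refine Finset.sum_congr rfl fun g hg => ?_
    have hg1 : g ≠ 1 := (Finset.mem_erase.1 hg).1
    by_cases h : ∀ z ∈ O, g • z ≠ z
    · rw [if_pos h]
      have : O.filter (fun z => g • z = z) = ∅ := by
        rw [Finset.filter_eq_empty_iff]
        intro z hz
        exact h z hz
      rw [this]
      simp
    · rw [if_neg h]
      push Not at h
      obtain ⟨w, hw, hgw⟩ := h
      have : O.filter (fun z => g • z = z) = {w} := by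
        ext z
        simp only [Finset.mem_filter, Finset.mem_singleton]
        constructor
        · rintro ⟨hz, hgz⟩
          exact hcon g hg1 w ((mem_orb _ _).1 hw) hgw z hgz
        · rintro rfl
          exact ⟨hw, hgw⟩
      rw [this]
      simp
  have hRcard : R.card + 1 = N := by
    rw [← hcount1, hleft1] at hright1
    have h5 : N * (A - 1) + N = N * A := by
      have : A = (A - 1) + 1 := by omega
      conv_rhs => rw [this, Nat.mul_add, Nat.mul_one]
    omega
  intro g
  by_cases hN1 : N = 1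
  · -- the orbit is a point
    have h1 : g • x₀ ∈ O := (mem_orb _ _).2 (mem_orbit x₀ g)
    have h2 : x₀ ∈ O := (mem_orb _ _).2 (mem_orbit_self x₀)
    exact Finset.card_le_one.1 (by omega) _ h1 _ h2
  exfalso
  have hRne : R.Nonempty := by
    rw [← Finset.card_pos]
    omega
  obtain ⟨γ, hγ⟩ := hRne
  have hγ' := Finset.mem_filter.1 hγ
  have hγ1 : γ ≠ 1 := (Finset.mem_erase.1 hγ'.1).1
  obtain ⟨z, hz⟩ := ha γ
  have hzO : z ∉ O := fun h => hγ'.2 z h hz
  -- count on the orbit of z
  set P := orb z with hP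
  set n := P.card with hn
  set k := Nat.card (stabilizer G z) with hk
  have hnk : n * k = Nat.card G := by
    rw [hn, hP, card_orb]
    exact ncard_orbit_mul_card_stab z
  have hk2 : 2 ≤ k := by
    have h1 := hfixcount z
    have h2 : 0 < (Gs.filter (fun g => g • z = z)).card :=
      Finset.card_pos.2 ⟨γ, Finset.mem_filter.2 ⟨hγ'.1, hz⟩⟩
    omega
  have hcount2 : ∑ z' ∈ P, (Gs.filter (fun g => g • z' = z')).card =
      ∑ g ∈ Gs, (P.filter (fun z' => g • z' = z')).card :=
    Finset.sum_card_bipartiteAbove_eq_sum_card_bipartiteBelow (fun z g => g • z = z)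
  have hleft2 : ∑ z' ∈ P, (Gs.filter (fun g => g • z' = z')).card = n * (k - 1) := by
    rw [Finset.sum_const_nat (m := k - 1)]
    intro z' hz'
    have h5 := hfixcount z'
    have h6 : Nat.card (stabilizer G z') = k := stab_card_of_mem_orbit ((mem_orb _ _).1 hz')
    omega
  have hright2 : ∑ g ∈ Gs, (P.filter (fun z' => g • z' = z')).card ≤ R.card * 2 := by
    have h1 : ∑ g ∈ Gs, (P.filter (fun z' => g • z' = z')).card =
        ∑ g ∈ R, (P.filter (fun z' => g • z' = z')).card := by
      symm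
      apply Finset.sum_subset (Finset.filter_subset _ _)
      intro g hg hgR
      have hg1 : g ≠ 1 := (Finset.mem_erase.1 hg).1
      rw [Finset.card_eq_zero, Finset.filter_eq_empty_iff]
      intro z' hz' hfix
      apply hgR
      refine Finset.mem_filter.2 ⟨hg, fun w hw hgw => ?_⟩
      have h2 := hcon g hg1 w ((mem_orb _ _).1 hw) hgw z' hfix
      subst h2
      apply hzO
      have h3 : z ∈ orbit G x₀ := by
        have h4 : z' ∈ orbit G z := (mem_orb _ _).1 hz'
        have h5 : z' ∈ orbit G x₀ := (mem_orb _ _).1 hw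
        have h6 := MulAction.orbit_eq_iff.2 h4
        have h7 := MulAction.orbit_eq_iff.2 h5
        rw [← h7, h6]
        exact mem_orbit_self z
      exact (mem_orb _ _).2 h3
    rw [h1]
    refine (Finset.sum_le_card_nsmul R _ 2 fun g hg => ?_).trans (by simp)
    have hg1 : g ≠ 1 := (Finset.mem_erase.1 (Finset.mem_filter.1 hg).1).1
    by_contra hlt
    push Not at hlt
    obtain ⟨a, b, c, ha', hb', hc', hab, hac, hbc⟩ := Finset.two_lt_card_iff.1 hlt
    exact hb g hg1 a b c (Finset.mem_filter.1 ha').2 (Finset.mem_filter.1 hb').2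
      (Finset.mem_filter.1 hc').2 hab hac hbc
  rw [← hcount2, hleft2] at hright2
  -- arithmetic
  have hG : N * A = n * k := hNA.trans hnk.symm
  have e1 : n * (k - 1) + n = n * k := by
    have : k = (k - 1) + 1 := by omega
    conv_rhs => rw [this, Nat.mul_add, Nat.mul_one]
  have e2 : 2 * n ≤ n * k := by
    rw [Nat.mul_comm]
    exact Nat.mul_le_mul_left n hk2
  have e3 : 4 * N ≤ N * A := by
    rw [Nat.mul_comm]
    exact Nat.mul_le_mul_left N hd
  omega

section Plane

variable {K : Type*} [Field K]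

/-- Lines of `K × K`. -/
def Ln (K : Type*) [Field K] : Type _ :=
  {ℓ : Submodule K (K × K) // ∃ v : K × K, v ≠ 0 ∧ ℓ = Submodule.span K {v}}

/-- The line of a non-zero vector. -/
def ln (v : K × K) (hv : v ≠ 0) : Ln K := ⟨Submodule.span K {v}, v, hv, rfl⟩

theorem ln_eq_of_det {u v : K × K} (hu : u ≠ 0) (hv : v ≠ 0) (h : u.1 * v.2 - u.2 * v.1 = 0) :
    ln u hu = ln v hv := by
  have key : ∀ {u v : K × K}, u ≠ 0 → u.1 * v.2 - u.2 * v.1 = 0 → v ∈ Submodule.span K {u} := by
    intro u v hu h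
    rw [Submodule.mem_span_singleton]
    by_cases h1 : u.1 = 0
    · have h2 : u.2 ≠ 0 := by
        intro h2
        exact hu (Prod.ext h1 h2)
      refine ⟨v.2 / u.2, Prod.ext ?_ ?_⟩
      · simp only [Prod.smul_fst, smul_eq_mul]
        rw [h1] at h ⊢
        have : v.1 = 0 := by
          have h3 : u.2 * v.1 = 0 := by linear_combination -h
          exact (mul_eq_zero.1 h3).resolve_left h2
        rw [this]
        simp
      · simp only [Prod.smul_snd, smul_eq_mul]
        field_simp
    · refine ⟨v.1 / u.1, Prod.ext ?_ ?_⟩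
      · simp only [Prod.smul_fst, smul_eq_mul]
        field_simp
      · simp only [Prod.smul_snd, smul_eq_mul]
        field_simp
        linear_combination -h
  apply Subtype.ext
  change Submodule.span K {u} = Submodule.span K {v}
  apply le_antisymm
  · rw [Submodule.span_singleton_le_iff_mem]
    exact key hv (by linear_combination -h)
  · rw [Submodule.span_singleton_le_iff_mem]
    exact key hu h

theorem det_eq_zero_of_ln_eq {u v : K × K} (hu : u ≠ 0) (hv : v ≠ 0) (h : ln u hu = ln v hv) :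
    u.1 * v.2 - u.2 * v.1 = 0 := by
  have h1 : v ∈ Submodule.span K {u} := by
    have := congrArg Subtype.val h
    change Submodule.span K {u} = Submodule.span K {v} at this
    rw [this]
    exact Submodule.mem_span_singleton_self v
  obtain ⟨c, rfl⟩ := Submodule.mem_span_singleton.1 h1
  simp only [Prod.smul_fst, Prod.smul_snd, smul_eq_mul]
  ring

/-- A linear map with three pairwise independent eigenvectors is a scalar. -/
theorem scalar_of_three (f : (K × K) →ₗ[K] (K × K)) {u v w : K × K} {α β γ : K}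
    (h1 : u.1 * v.2 - u.2 * v.1 ≠ 0) (h2 : w.1 * v.2 - w.2 * v.1 ≠ 0)
    (h3 : u.1 * w.2 - u.2 * w.1 ≠ 0)
    (hu : f u = α • u) (hv : f v = β • v) (hw : f w = γ • w) (e : K × K) :
    f e = α • e := by
  set D := u.1 * v.2 - u.2 * v.1 with hD
  have cramer : ∀ z : K × K, D • z =
      (z.1 * v.2 - z.2 * v.1) • u + (u.1 * z.2 - u.2 * z.1) • v := by
    intro z
    apply Prod.ext
    · simp only [Prod.smul_fst, Prod.fst_add, smul_eq_mul, hD]
      ring
    · simp only [Prod.smul_snd, Prod.snd_add, smul_eq_mul, hD]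
      ring
  have applied : ∀ z : K × K, D • f z =
      ((z.1 * v.2 - z.2 * v.1) * α) • u + ((u.1 * z.2 - u.2 * z.1) * β) • v := by
    intro z
    rw [← map_smul, cramer z, map_add, map_smul, map_smul, hu, hv, smul_smul, smul_smul]
  have hwD := applied w
  rw [hw, smul_smul, mul_comm D γ, ← smul_smul, cramer w, smul_add, smul_smul, smul_smul] at hwD
  -- independence
  have hind : ∀ a b : K, a • u + b • v = 0 → a = 0 ∧ b = 0 := by
    intro a b hab
    have h4 := congrArg Prod.fst hab
    have h5 := congrArg Prod.snd hab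
    simp only [Prod.fst_add, Prod.snd_add, Prod.smul_fst, Prod.smul_snd, smul_eq_mul, Prod.fst_zero,
      Prod.snd_zero] at h4 h5
    constructor
    · have : a * D = 0 := by
        rw [hD]
        linear_combination v.2 * h4 - v.1 * h5
      exact (mul_eq_zero.1 this).resolve_right h1
    · have : b * D = 0 := by
        rw [hD]
        linear_combination u.1 * h5 - u.2 * h4
      exact (mul_eq_zero.1 this).resolve_right h1
  have h6 := hind ((γ - α) * (w.1 * v.2 - w.2 * v.1)) ((γ - β) * (u.1 * w.2 - u.2 * w.1)) (by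
    have : ((γ - α) * (w.1 * v.2 - w.2 * v.1)) • u + ((γ - β) * (u.1 * w.2 - u.2 * w.1)) • v =
        ((γ * (w.1 * v.2 - w.2 * v.1)) • u + (γ * (u.1 * w.2 - u.2 * w.1)) • v) -
        (((w.1 * v.2 - w.2 * v.1) * α) • u + ((u.1 * w.2 - u.2 * w.1) * β) • v) := by
      simp only [sub_mul, sub_smul, mul_comm]
      abel
    rw [this, hwD, sub_self])
  have hαγ : γ = α := sub_eq_zero.1 ((mul_eq_zero.1 h6.1).resolve_right h2)
  have hβγ : γ = β := sub_eq_zero.1 ((mul_eq_zero.1 h6.2).resolve_right h3)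
  have h7 := applied e
  rw [← hβγ, hαγ] at h7
  have h8 : D • f e = D • (α • e) := by
    rw [h7, smul_comm D α e, cramer e, smul_add, smul_smul, smul_smul]
    simp only [mul_comm]
  exact smul_right_injective _ h1 h8

variable {G : Type*} [Group G] (ρ : G →* Module.End K (K × K))

theorem rho_inv_apply (g : G) (v : K × K) : ρ g⁻¹ (ρ g v) = v := by
  rw [← Module.End.mul_apply, ← map_mul, inv_mul_cancel, map_one]
  rfl

theorem rho_ne_zero (g : G) {v : K × K} (hv : v ≠ 0) : ρ g v ≠ 0 := by
  intro h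
  have := rho_inv_apply ρ g v
  rw [h, map_zero] at this
  exact hv this.symm

/-- The action of `G` on lines. -/
@[reducible] def lnAct : MulAction G (Ln K) where
  smul g ℓ := ⟨ℓ.1.map (ρ g), by
    obtain ⟨v, hv, e⟩ := ℓ.2
    exact ⟨ρ g v, rho_ne_zero ρ g hv, by rw [e, Submodule.map_span, Set.image_singleton]⟩⟩
  one_smul ℓ := by
    apply Subtype.ext
    change ℓ.1.map (ρ 1) = ℓ.1
    rw [map_one]
    exact Submodule.map_id _
  mul_smul g h ℓ := by
    apply Subtype.ext
    change ℓ.1.map (ρ (g * h)) = (ℓ.1.map (ρ h)).map (ρ g)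
    rw [map_mul]
    exact Submodule.map_comp _ _ _

theorem lnAct_smul_ln (g : G) (v : K × K) (hv : v ≠ 0) :
    letI := lnAct ρ
    g • ln v hv = ln (ρ g v) (rho_ne_zero ρ g hv) := by
  apply Subtype.ext
  change (Submodule.span K {v}).map (ρ g) = _
  rw [Submodule.map_span, Set.image_singleton]
  rfl

theorem ln_fixed_iff (g : G) (v : K × K) (hv : v ≠ 0) :
    letI := lnAct ρ
    g • ln v hv = ln v hv ↔ ∃ μ : K, ρ g v = μ • v := by
  rw [lnAct_smul_ln]
  constructor
  · intro h
    have h1 := det_eq_zero_of_ln_eq _ _ h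
    have h2 := rho_ne_zero ρ g hv
    by_cases h3 : v.1 = 0
    · have h4 : v.2 ≠ 0 := fun h4 => hv (Prod.ext h3 h4)
      refine ⟨(ρ g v).2 / v.2, Prod.ext ?_ ?_⟩
      · simp only [Prod.smul_fst, smul_eq_mul, h3, mul_zero]
        rw [h3] at h1
        have : (ρ g v).1 * v.2 = 0 := by linear_combination h1
        exact (mul_eq_zero.1 this).resolve_right h4
      · simp only [Prod.smul_snd, smul_eq_mul]
        field_simp
    · refine ⟨(ρ g v).1 / v.1, Prod.ext ?_ ?_⟩
      · simp only [Prod.smul_fst, smul_eq_mul]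
        field_simp
      · simp only [Prod.smul_snd, smul_eq_mul]
        field_simp
        linear_combination -h1
  · rintro ⟨μ, hμ⟩
    apply ln_eq_of_det
    rw [hμ]
    simp only [Prod.smul_fst, Prod.smul_snd, smul_eq_mul]
    ring

/-- The Dickson count in the plane. -/
theorem plane_fix [Finite G] [IsAlgClosed K]
    (hstab : ∀ (g : G) (μ : K), ρ g (0, 1) = μ • ((0, 1) : K × K) →
      ∃ c b : K, ∀ s t : K, ρ g (s, t) = c • ((s, t + b * s) : K × K))
    {g₁ g₂ : G} {c₁ c₂ b₁ b₂ : K}
    (h₁ : ∀ s t : K, ρ g₁ (s, t) = c₁ • ((s, t + b₁ * s) : K × K))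
    (h₂ : ∀ s t : K, ρ g₂ (s, t) = c₂ • ((s, t + b₂ * s) : K × K))
    (hb₁ : b₁ ≠ 0) (hb₂ : b₂ ≠ 0) (hb₁₂ : b₁ ≠ b₂) (hs : b₁ + b₂ ≠ 0) :
    ∀ g : G, ∃ μ : K, ρ g (0, 1) = μ • ((0, 1) : K × K) := by
  classical
  letI act := lnAct (G := G) ρ
  let φ := MulAction.toPermHom G (Ln K)
  let Gb : Subgroup (Equiv.Perm (Ln K)) := φ.range
  haveI : Finite Gb := by
    have : Finite φ.range := Set.finite_range φ |>.to_subtype
    exact this
  have hsmul : ∀ (g : G) (z : Ln K), (⟨φ g, ⟨g, rfl⟩⟩ : Gb) • z = g • z := fun g z => rfl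
  have hv01 : ((0, 1) : K × K) ≠ 0 := by
    intro h
    exact one_ne_zero (congrArg Prod.snd h)
  have hln : ∀ z : Ln K, ∃ v hv, z = ln v hv := by
    rintro ⟨ℓ, v, hv, rfl⟩
    exact ⟨v, hv, rfl⟩
  -- a group element acting by a scalar acts trivially
  have htriv : ∀ (g : G) (α : K), (∀ e, ρ g e = α • e) → φ g = 1 := by
    intro g α h
    apply Equiv.ext
    intro z
    obtain ⟨v, hv, rfl⟩ := hln z
    exact (ln_fixed_iff ρ g v hv).2 ⟨α, h v⟩
  let x₀ : Ln K := ln (0, 1) hv01
  have hc0 : ∀ a : G, a • x₀ = x₀ → φ a ≠ 1 → ∀ z, a • z = z → z = x₀ := by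
    intro a ha hne z hz
    obtain ⟨μ, hμ⟩ := (ln_fixed_iff ρ a _ hv01).1 ha
    obtain ⟨c, b, hcb⟩ := hstab a μ hμ
    have hb0 : b ≠ 0 := by
      rintro rfl
      apply hne
      refine htriv a c fun e => ?_
      have := hcb e.1 e.2
      simpa using this
    have hc0 : c ≠ 0 := by
      rintro rfl
      have h1 := hcb 1 0
      rw [zero_smul] at h1
      exact rho_ne_zero ρ a (v := (1, 0)) (fun h => one_ne_zero (congrArg Prod.fst h)) h1
    obtain ⟨v, hv, rfl⟩ := hln z
    obtain ⟨μ', hμ'⟩ := (ln_fixed_iff ρ a v hv).1 hz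
    have h1 := hcb v.1 v.2
    rw [show ((v.1, v.2) : K × K) = v from rfl, hμ'] at h1
    have h2 := congrArg Prod.fst h1
    have h3 := congrArg Prod.snd h1
    simp only [Prod.smul_fst, Prod.smul_snd, smul_eq_mul] at h2 h3
    have hv1 : v.1 = 0 := by
      by_contra hv1
      have h4 : μ' = c := mul_right_cancel₀ hv1 h2
      rw [h4] at h3
      have h5 : c * (b * v.1) = 0 := by linear_combination -h3
      exact (mul_ne_zero hc0 (mul_ne_zero hb0 hv1)) h5
    apply ln_eq_of_det
    simp [hv1]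
  have key := fix_count (G := Gb) (Y := Ln K) ?_ x₀ ?_ ?_ ?_
  · intro g
    have h1 := key ⟨φ g, ⟨g, rfl⟩⟩
    rw [hsmul] at h1
    exact (ln_fixed_iff ρ g _ hv01).1 h1
  · -- every element has a fixed point
    rintro ⟨_, g, rfl⟩
    obtain ⟨c, hc⟩ := Module.End.exists_eigenvalue (ρ g)
    obtain ⟨v, hv⟩ := hc.exists_hasEigenvector
    refine ⟨ln v hv.2, ?_⟩
    rw [hsmul]
    exact (ln_fixed_iff ρ g v hv.2).2 ⟨c, hv.apply_eq_smul⟩
  · rintro ⟨_, a, rfl⟩ h1 h2 z h3
    rw [hsmul] at h1 h3
    refine hc0 a h1 (fun h4 => h2 ?_) z h3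
    exact Subtype.ext h4
  · rintro ⟨_, g, rfl⟩ h1 z₁ z₂ z₃ h₁' h₂' h₃' h12 h13 h23
    rw [hsmul] at h₁' h₂' h₃'
    obtain ⟨u, hu, rfl⟩ := hln z₁
    obtain ⟨v, hv, rfl⟩ := hln z₂
    obtain ⟨w, hw, rfl⟩ := hln z₃
    obtain ⟨α, hα⟩ := (ln_fixed_iff ρ g u hu).1 h₁'
    obtain ⟨β, hβ⟩ := (ln_fixed_iff ρ g v hv).1 h₂'
    obtain ⟨γ, hγ⟩ := (ln_fixed_iff ρ g w hw).1 h₃'
    have d1 : u.1 * v.2 - u.2 * v.1 ≠ 0 := fun h => h12 (ln_eq_of_det hu hv h)
    have d2 : w.1 * v.2 - w.2 * v.1 ≠ 0 := fun h => h23 (ln_eq_of_det hv hw (by linear_combination -h))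
    have d3 : u.1 * w.2 - u.2 * w.1 ≠ 0 := fun h => h13 (ln_eq_of_det hu hw h)
    apply h1
    apply Subtype.ext
    exact htriv g α (scalar_of_three (ρ g) d1 d2 d3 hα hβ hγ)
  · -- the stabiliser has at least four elements
    let l10 : Ln K := ln (1, 0) (fun h => one_ne_zero (congrArg Prod.fst h))
    let ev : Gb → Ln K := fun g => g • l10
    have hpoint : ∀ (g : G) (c b : K), (∀ s t : K, ρ g (s, t) = c • ((s, t + b * s) : K × K)) →
        g • x₀ = x₀ := by
      intro g c b h
      refine (ln_fixed_iff ρ g _ hv01).2 ⟨c, ?_⟩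
      have := h 0 1
      simpa using this
    have hc₁ : c₁ ≠ 0 := by
      rintro rfl
      have h1 := h₁ 1 0
      rw [zero_smul] at h1
      exact rho_ne_zero ρ g₁ (v := (1, 0)) (fun h => one_ne_zero (congrArg Prod.fst h)) h1
    have hc₂ : c₂ ≠ 0 := by
      rintro rfl
      have h1 := h₂ 1 0
      rw [zero_smul] at h1
      exact rho_ne_zero ρ g₂ (v := (1, 0)) (fun h => one_ne_zero (congrArg Prod.fst h)) h1
    have h₁₂ : ∀ s t : K, ρ (g₁ * g₂) (s, t) = (c₁ * c₂) • ((s, t + (b₁ + b₂) * s) : K × K) := by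
      intro s t
      rw [map_mul, Module.End.mul_apply, h₂, map_smul, h₁, smul_smul, mul_comm]
      congr 2
      ring
    -- a parametrisation by four values of `b`
    let f : Fin 4 → MulAction.stabilizer Gb x₀ := ![
      ⟨⟨φ 1, ⟨1, rfl⟩⟩, by rw [MulAction.mem_stabilizer_iff, hsmul, one_smul]⟩,
      ⟨⟨φ g₁, ⟨g₁, rfl⟩⟩, by rw [MulAction.mem_stabilizer_iff, hsmul]; exact hpoint _ _ _ h₁⟩,
      ⟨⟨φ g₂, ⟨g₂, rfl⟩⟩, by rw [MulAction.mem_stabilizer_iff, hsmul]; exact hpoint _ _ _ h₂⟩,
      ⟨⟨φ (g₁ * g₂), ⟨g₁ * g₂, rfl⟩⟩, by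
        rw [MulAction.mem_stabilizer_iff, hsmul]; exact hpoint _ _ _ h₁₂⟩]
    let β : Fin 4 → K := ![0, b₁, b₂, b₁ + b₂]
    have hβ : Function.Injective β := by
      intro i j hij
      fin_cases i <;> fin_cases j <;> simp [β] at hij ⊢
      all_goals first
        | exact absurd hij.symm hb₁
        | exact absurd hij hb₁
        | exact absurd hij.symm hb₂
        | exact absurd hij hb₂
        | exact absurd hij hb₁₂
        | exact absurd hij.symm hb₁₂
        | exact absurd hij.symm hs
        | exact absurd hij hs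
    have hgen : ∀ (g : G) (c b : K), c ≠ 0 →
        (∀ s t : K, ρ g (s, t) = c • ((s, t + b * s) : K × K)) →
        ∀ (hw : ((1, b) : K × K) ≠ 0),
        g • l10 = ln (1, b) hw := by
      intro g c b hc h hw
      rw [lnAct_smul_ln]
      apply ln_eq_of_det
      have := h 1 0
      rw [this]
      simp only [Prod.smul_fst, Prod.smul_snd, smul_eq_mul]
      ring
    have hne1 : ∀ b : K, ((1, b) : K × K) ≠ 0 := fun b h => one_ne_zero (congrArg Prod.fst h)
    have hf : ∀ i, ev ((f i).1) = ln (1, β i) (hne1 _) := by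
      intro i
      fin_cases i
      · change (1 : G) • l10 = _
        rw [one_smul]
        apply ln_eq_of_det
        simp [β]
      · change g₁ • l10 = _
        exact hgen g₁ c₁ b₁ hc₁ h₁ _
      · change g₂ • l10 = _
        exact hgen g₂ c₂ b₂ hc₂ h₂ _
      · change (g₁ * g₂) • l10 = _
        exact hgen _ _ _ (mul_ne_zero hc₁ hc₂) h₁₂ _
    have hfinj : Function.Injective f := by
      intro i j hij
      apply hβ
      have h1 : ln (1, β i) (hne1 _) = ln (1, β j) (hne1 _) := by
        rw [← hf, ← hf, hij]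
      have h2 := det_eq_zero_of_ln_eq _ _ h1
      simp only [one_mul, mul_one] at h2
      exact (sub_eq_zero.1 h2).symm
    have := Nat.card_le_card_of_injective f hfinj
    simpa using this

end Plane

section Rep

open scoped MatrixGroups Matrix

/-- The two-dimensional representation given by coordinates `p₁, p₂` along `x, y`. -/
theorem exists_plane_rep {ι : Type} [Fintype ι] [DecidableEq ι] {F K : Type*} [Field F] [Field K]
    [Algebra F K] (G : Subgroup (GL ι F)) (p₁ p₂ : (ι → F) →ₗ[F] F) (x y : ι → F)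
    (h11 : p₁ x = 1) (h12 : p₁ y = 0) (h21 : p₂ x = 0) (h22 : p₂ y = 1)
    (hmul : ∀ m ∈ G, ∀ m' ∈ G, ∀ v, (v = x ∨ v = y) → ∀ p : (ι → F) →ₗ[F] F, (p = p₁ ∨ p = p₂) →
      p (((m * m' : GL ι F) : Matrix ι ι F) *ᵥ v) =
        p₁ ((m' : Matrix ι ι F) *ᵥ v) * p ((m : Matrix ι ι F) *ᵥ x) +
        p₂ ((m' : Matrix ι ι F) *ᵥ v) * p ((m : Matrix ι ι F) *ᵥ y)) :
    ∃ ρ : G →* Module.End K (K × K), ∀ (m : G) (s t : K), ρ m (s, t) =
      (algebraMap F K (p₁ (((m : GL ι F) : Matrix ι ι F) *ᵥ x)) * s +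
          algebraMap F K (p₁ (((m : GL ι F) : Matrix ι ι F) *ᵥ y)) * t,
        algebraMap F K (p₂ (((m : GL ι F) : Matrix ι ι F) *ᵥ x)) * s +
          algebraMap F K (p₂ (((m : GL ι F) : Matrix ι ι F) *ᵥ y)) * t) := by
  let inc : F →+* K := algebraMap F K
  let A : G → F := fun m => p₁ (((m : GL ι F) : Matrix ι ι F) *ᵥ x)
  let B : G → F := fun m => p₂ (((m : GL ι F) : Matrix ι ι F) *ᵥ x)
  let C : G → F := fun m => p₁ (((m : GL ι F) : Matrix ι ι F) *ᵥ y)
  let D : G → F := fun m => p₂ (((m : GL ι F) : Matrix ι ι F) *ᵥ y)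
  let mat : G → Module.End K (K × K) := fun m =>
    ((inc (A m) • LinearMap.fst K K K + inc (C m) • LinearMap.snd K K K).prod
      (inc (B m) • LinearMap.fst K K K + inc (D m) • LinearMap.snd K K K))
  have hmat : ∀ m s t, mat m (s, t) = (inc (A m) * s + inc (C m) * t, inc (B m) * s + inc (D m) * t) := by
    intro m s t
    simp [mat]
  have hA : ∀ m m' : G, A (m * m') = A m' * A m + B m' * C m := fun m m' =>
    hmul m m.2 m' m'.2 x (Or.inl rfl) p₁ (Or.inl rfl)
  have hB : ∀ m m' : G, B (m * m') = A m' * B m + B m' * D m := fun m m' =>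
    hmul m m.2 m' m'.2 x (Or.inl rfl) p₂ (Or.inr rfl)
  have hC : ∀ m m' : G, C (m * m') = C m' * A m + D m' * C m := fun m m' =>
    hmul m m.2 m' m'.2 y (Or.inr rfl) p₁ (Or.inl rfl)
  have hD : ∀ m m' : G, D (m * m') = C m' * B m + D m' * D m := fun m m' =>
    hmul m m.2 m' m'.2 y (Or.inr rfl) p₂ (Or.inr rfl)
  let ρ : G →* Module.End K (K × K) :=
    { toFun := mat
      map_one' := by
        apply LinearMap.ext
        rintro ⟨s, t⟩
        rw [hmat]
        have e1 : A 1 = 1 := by
          change p₁ (((1 : GL ι F) : Matrix ι ι F) *ᵥ x) = 1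
          simp [h11]
        have e2 : B 1 = 0 := by
          change p₂ (((1 : GL ι F) : Matrix ι ι F) *ᵥ x) = 0
          simp [h21]
        have e3 : C 1 = 0 := by
          change p₁ (((1 : GL ι F) : Matrix ι ι F) *ᵥ y) = 0
          simp [h12]
        have e4 : D 1 = 1 := by
          change p₂ (((1 : GL ι F) : Matrix ι ι F) *ᵥ y) = 1
          simp [h22]
        rw [e1, e2, e3, e4]
        simp
      map_mul' := by
        intro m m'
        apply LinearMap.ext
        rintro ⟨s, t⟩
        rw [Module.End.mul_apply, hmat, hmat, hmat, hA, hB, hC, hD]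
        simp only [map_add, map_mul]
        apply Prod.ext
        · simp only
          ring
        · simp only
          ring }
  exact ⟨ρ, hmat⟩

end Rep

end Cfsg.Agent.Lib.FixCount
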