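/-
Counting invertible block triangular matrices and the index of a standard parabolic subgroup.
-/
import Mathlib
import Cfsg.Prelude.Def_LinearParabolics

set_option autoImplicit false
set_option linter.all false

open scoped MatrixGroups Matrix
open Finset

namespace Cfsg.Agent.Lib.FlagCount

section General

variable {F : Type*} [Field F] {m α : Type*} [Fintype m] [DecidableEq m] [Fintype α] [LinearOrder α] (c : m → α)

/-- Assembling a block triangular matrix. -/
noncomputable def build (D : ∀ a, GL {i // c i = a} F) (o : {p : m × m // c p.1 < c p.2} → F) : Matrix m m F :=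
  fun i j => if h : c i = c j then ((D (c i) : GL _ F) : Matrix {k // c k = c i} {k // c k = c i} F) ⟨i, rfl⟩ ⟨j, h.symm⟩
    else if h2 : c i < c j then o ⟨(i, j), h2⟩ else 0

theorem build_bt (D : ∀ a, GL {i // c i = a} F) (o : {p : m × m // c p.1 < c p.2} → F) :
    (build c D o).BlockTriangular c := by
  intro i j hij
  have h1 : c i ≠ c j := ne_of_gt hij
  have h2 : ¬ c i < c j := not_lt.2 hij.le
  unfold build
  rw [dif_neg h1, dif_neg h2]

theorem build_block (D : ∀ a, GL {i // c i = a} F) (o : {p : m × m // c p.1 < c p.2} → F) (a : α) :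
    (build c D o).toSquareBlock c a = (D a : Matrix {i // c i = a} {i // c i = a} F) := by
  ext ⟨i, hi⟩ ⟨j, hj⟩
  subst hi
  show build c D o i j = _
  unfold build
  rw [dif_pos hj.symm]

theorem block_det_ne (g : GL m F) (hg : (g : Matrix m m F).BlockTriangular c) (a : α) :
    ((g : Matrix m m F).toSquareBlock c a).det ≠ 0 := by
  have h := hg.det_fintype
  have h1 : (g : Matrix m m F).det ≠ 0 := Matrix.GeneralLinearGroup.det_ne_zero g
  rw [h] at h1
  exact Finset.prod_ne_zero_iff.1 h1 a (Finset.mem_univ a)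

/-- Invertible block triangular matrices as pairs of diagonal blocks and free entries. -/
noncomputable def blockEquiv : {g : GL m F // (g : Matrix m m F).BlockTriangular c} ≃
    (∀ a, GL {i // c i = a} F) × ({p : m × m // c p.1 < c p.2} → F) where
  toFun g := (fun a => Matrix.GeneralLinearGroup.mkOfDetNeZero ((g.1 : Matrix m m F).toSquareBlock c a) (block_det_ne c g.1 g.2 a),
    fun p => (g.1 : Matrix m m F) p.1.1 p.1.2)
  invFun x := ⟨Matrix.GeneralLinearGroup.mkOfDetNeZero (build c x.1 x.2) (by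
      rw [(build_bt c x.1 x.2).det_fintype]
      apply Finset.prod_ne_zero_iff.2
      intro a _
      rw [build_block]
      exact Matrix.GeneralLinearGroup.det_ne_zero (x.1 a)), build_bt c x.1 x.2⟩
  left_inv g := by
    apply Subtype.ext
    apply Units.ext
    ext i j
    show build c _ _ i j = (g.1 : Matrix m m F) i j
    unfold build
    by_cases h : c i = c j
    · rw [dif_pos h]
      rfl
    · rw [dif_neg h]
      by_cases h2 : c i < c j
      · rw [dif_pos h2]
      · rw [dif_neg h2]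
        exact (g.2 (lt_of_le_of_ne (not_lt.1 h2) (Ne.symm h))).symm
  right_inv x := by
    obtain ⟨D, o⟩ := x
    refine Prod.ext ?_ ?_
    · funext a
      apply Units.ext
      exact build_block c D o a
    · funext p
      show build c D o p.1.1 p.1.2 = o p
      unfold build
      rw [dif_neg (ne_of_lt p.2), dif_pos p.2]

theorem card_bt [Fintype F] : Nat.card {g : GL m F // (g : Matrix m m F).BlockTriangular c} =
    (∏ a, Nat.card (GL {i // c i = a} F)) * Fintype.card F ^ Fintype.card {p : m × m // c p.1 < c p.2} := by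
  rw [Nat.card_congr (blockEquiv c), Nat.card_prod, Nat.card_pi, Nat.card_fun, Nat.card_eq_fintype_card (α := F),
    Nat.card_eq_fintype_card (α := {p : m × m // c p.1 < c p.2})]

theorem card_GL_sub [Fintype F] {k : ℕ} (ι : Type*) [Fintype ι] [DecidableEq ι] (hk : Fintype.card ι = k) :
    Nat.card (GL ι F) = ∏ i : Fin k, (Fintype.card F ^ k - Fintype.card F ^ (i : ℕ)) := by
  let e := Fintype.equivFinOfCardEq hk
  let E : GL ι F ≃* GL (Fin k) F := Units.mapEquiv (Matrix.reindexAlgEquiv F F e).toMulEquiv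
  rw [Nat.card_congr E.toEquiv, Matrix.card_GL_field]

end General

theorem G_range (r m : ℕ) : ∏ i ∈ range m, ((r + 1) ^ m - (r + 1) ^ i) =
    (r + 1) ^ (∑ i ∈ range m, i) * (r ^ m * ∏ j ∈ range m, ∑ l ∈ range (j + 1), (r + 1) ^ l) := by
  induction m with
  | zero => simp
  | succ m ih =>
    rw [Finset.prod_range_succ']
    have h1 : ∀ i, (r + 1) ^ (m + 1) - (r + 1) ^ (i + 1) = (r + 1) * ((r + 1) ^ m - (r + 1) ^ i) := by
      intro i
      rw [pow_succ' _ m, pow_succ' _ i, Nat.mul_sub]
    have h2 : (r + 1) ^ (m + 1) - (r + 1) ^ 0 = (∑ l ∈ range (m + 1), (r + 1) ^ l) * r := by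
      have := geom_sum_mul_add r (m + 1)
      rw [pow_zero, ← this, Nat.add_sub_cancel]
    have h3 : ∑ i ∈ range (m + 1), i = ∑ i ∈ range m, i + m := Finset.sum_range_succ _ _
    rw [Finset.prod_congr rfl (fun i _ => h1 i), Finset.prod_mul_distrib, Finset.prod_const, card_range, ih, h2,
      h3, Finset.prod_range_succ]
    ring

theorem G_eq (r m : ℕ) : ∏ i : Fin m, ((r + 1) ^ m - (r + 1) ^ (i : ℕ)) =
    (r + 1) ^ (∑ i ∈ range m, i) * (r ^ m * ∏ j ∈ range m, ∑ l ∈ range (j + 1), (r + 1) ^ l) := by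
  rw [Fin.prod_univ_eq_prod_range (fun i => (r + 1) ^ m - (r + 1) ^ i) m, G_range]

section Labels

variable {n : ℕ} (μ : Fin n → ℕ)

/-- Partial sums. -/
def PS (a : ℕ) : ℕ := ∑ k ∈ univ.filter (fun k : Fin n => (k : ℕ) < a), μ k

theorem PS_zero : PS μ 0 = 0 := by
  simp [PS]

theorem PS_succ (a : ℕ) (h : a < n) : PS μ (a + 1) = PS μ a + μ ⟨a, h⟩ := by
  have h1 : univ.filter (fun k : Fin n => (k : ℕ) < a + 1) = insert (⟨a, h⟩ : Fin n) (univ.filter (fun k : Fin n => (k : ℕ) < a)) := by
    ext k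
    simp only [mem_filter, mem_univ, true_and, mem_insert, Fin.ext_iff]
    omega
  unfold PS
  rw [h1, Finset.sum_insert (by simp), add_comm]

theorem PS_mono {a b : ℕ} (h : a ≤ b) : PS μ a ≤ PS μ b := by
  apply Finset.sum_le_sum_of_subset
  intro k hk
  simp only [mem_filter, mem_univ, true_and] at hk ⊢
  omega

theorem PS_top : PS μ n = ∑ k, μ k := by
  unfold PS
  congr 1
  ext k
  simp [k.2]

theorem S_eq (j : Fin n) : ∑ k ∈ univ.filter (fun k : Fin n => k ≤ j), μ k = PS μ (j + 1) := by
  unfold PS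
  congr 1
  ext k
  simp only [mem_filter, mem_univ, true_and, Fin.le_def]
  omega

theorem card_lt (a : ℕ) (h : a ≤ n) : (univ.filter (fun j : Fin n => (j : ℕ) < a)).card = a := by
  have h1 : (univ.filter (fun j : Fin n => (j : ℕ) < a)).map Fin.valEmbedding = range a := by
    ext x
    simp only [mem_map, mem_filter, mem_univ, true_and, Fin.valEmbedding_apply, mem_range]
    constructor
    · rintro ⟨j, hj, rfl⟩
      exact hj
    · intro hx
      exact ⟨⟨x, by omega⟩, hx, rfl⟩
  rw [← Finset.card_map Fin.valEmbedding, h1, card_range]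

theorem card_Ico' (lo hi : ℕ) (h : hi ≤ n) : (univ.filter (fun j : Fin n => lo ≤ (j : ℕ) ∧ (j : ℕ) < hi)).card = hi - lo := by
  have h1 : (univ.filter (fun j : Fin n => lo ≤ (j : ℕ) ∧ (j : ℕ) < hi)).map Fin.valEmbedding = Ico lo hi := by
    ext x
    simp only [mem_map, mem_filter, mem_univ, true_and, Fin.valEmbedding_apply, mem_Ico]
    constructor
    · rintro ⟨j, hj, rfl⟩
      exact hj
    · intro hx
      exact ⟨⟨x, by omega⟩, hx, rfl⟩
  rw [← Finset.card_map Fin.valEmbedding, h1, Nat.card_Ico]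

theorem label_eq (hμ : ∑ i, μ i = n) (a : ℕ) (h : a < n) (i : Fin n) (h1 : PS μ a ≤ i) (h2 : (i : ℕ) < PS μ (a + 1)) :
    Cfsg.compLabel μ i = a := by
  unfold Cfsg.compLabel
  have h3 : (univ.filter fun j : Fin n => (∑ k ∈ univ.filter (fun k : Fin n => k ≤ j), μ k) ≤ i.val) =
      univ.filter (fun j : Fin n => (j : ℕ) < a) := by
    ext j
    simp only [mem_filter, mem_univ, true_and, S_eq]
    constructor
    · intro h4
      by_contra h5
      have h6 : PS μ (a + 1) ≤ PS μ (j + 1) := PS_mono μ (by omega)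
      omega
    · intro h4
      have h6 : PS μ (j + 1) ≤ PS μ a := PS_mono μ (by omega)
      omega
  rw [h3, card_lt a h.le]

theorem exists_block (hμ : ∑ i, μ i = n) (i : Fin n) : ∃ (a : ℕ) (_ : a < n), PS μ a ≤ i ∧ (i : ℕ) < PS μ (a + 1) := by
  classical
  have hn : 0 < n := lt_of_le_of_lt (Nat.zero_le _) i.2
  have hex : ∃ a, (i : ℕ) < PS μ (a + 1) := ⟨n - 1, by
    have : n - 1 + 1 = n := by omega
    rw [this, PS_top, hμ]
    exact i.2⟩
  refine ⟨Nat.find hex, ?_, ?_, Nat.find_spec hex⟩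
  · have h1 : Nat.find hex ≤ n - 1 := Nat.find_min' hex (by
      have : n - 1 + 1 = n := by omega
      rw [this, PS_top, hμ]
      exact i.2)
    omega
  · by_cases h0 : Nat.find hex = 0
    · rw [h0, PS_zero]
      exact Nat.zero_le _
    · have h1 := Nat.find_min hex (m := Nat.find hex - 1) (by omega)
      have h2 : Nat.find hex - 1 + 1 = Nat.find hex := by omega
      rw [h2] at h1
      omega

theorem compLabel_lt (hμ : ∑ i, μ i = n) (i : Fin n) : Cfsg.compLabel μ i < n := by
  obtain ⟨a, ha, h1, h2⟩ := exists_block μ hμ i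
  rw [label_eq μ hμ a ha i h1 h2]
  exact ha

theorem card_fiber (hμ : ∑ i, μ i = n) (a : Fin n) :
    (univ.filter (fun i : Fin n => Cfsg.compLabel μ i = a)).card = μ a := by
  have h1 : univ.filter (fun i : Fin n => Cfsg.compLabel μ i = a) =
      univ.filter (fun j : Fin n => PS μ a ≤ (j : ℕ) ∧ (j : ℕ) < PS μ (a + 1)) := by
    ext i
    simp only [mem_filter, mem_univ, true_and]
    constructor
    · intro h2
      obtain ⟨b, hb, h3, h4⟩ := exists_block μ hμ i
      have h5 := label_eq μ hμ b hb i h3 h4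
      have h6 : b = a := by omega
      subst h6
      exact ⟨h3, h4⟩
    · rintro ⟨h2, h3⟩
      exact label_eq μ hμ a a.2 i h2 h3
  have h2 : PS μ (a + 1) ≤ n := by
    have h3 := PS_top μ
    have h4 := PS_mono μ (show (a : ℕ) + 1 ≤ n from a.2)
    omega
  rw [h1, card_Ico' _ _ h2, PS_succ μ a a.2]
  simp

end Labels

theorem index_formula {F : Type*} [Field F] [Fintype F] {q : ℕ} (hq : Fintype.card F = q) {n : ℕ} (μ : Fin n → ℕ) (hμ : ∑ i, μ i = n) :
    Nat.card (GL (Fin n) F ⧸ Cfsg.parabolicGL n F μ) * ∏ i : Fin n, ∏ j ∈ Finset.range (μ i), ∑ l ∈ Finset.range (j + 1), q ^ l =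
      ∏ j ∈ Finset.range n, ∑ l ∈ Finset.range (j + 1), q ^ l := by
  classical
  obtain ⟨r, rfl⟩ : ∃ r, q = r + 1 := ⟨q - 1, by
    have : 1 < Fintype.card F := Fintype.one_lt_card
    omega⟩
  have hr : 0 < r := by
    have : 1 < Fintype.card F := Fintype.one_lt_card
    omega
  let lab : Fin n → Fin n := fun i => ⟨Cfsg.compLabel μ i, compLabel_lt μ hμ i⟩
  have hmem : ∀ g : GL (Fin n) F, g ∈ Cfsg.parabolicGL n F μ ↔ (g : Matrix (Fin n) (Fin n) F).BlockTriangular lab := by
    intro g
    show (g : Matrix (Fin n) (Fin n) F).BlockTriangular (Cfsg.compLabel μ) ↔ _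
    constructor
    · intro h i j hij
      exact h hij
    · intro h i j hij
      exact h hij
  have hcard : Nat.card (Cfsg.parabolicGL n F μ) = Nat.card {g : GL (Fin n) F // (g : Matrix (Fin n) (Fin n) F).BlockTriangular lab} :=
    Nat.card_congr (Equiv.subtypeEquivRight hmem)
  have hfib : ∀ a : Fin n, Fintype.card {i // lab i = a} = μ a := by
    intro a
    rw [Fintype.card_subtype, ← card_fiber μ hμ a]
    congr 1
    ext i
    simp only [mem_filter, mem_univ, true_and, lab, Fin.ext_iff]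
  have hGL : ∀ a : Fin n, Nat.card (GL {i // lab i = a} F) =
      (r + 1) ^ (∑ i ∈ range (μ a), i) * (r ^ (μ a) * ∏ j ∈ range (μ a), ∑ l ∈ range (j + 1), (r + 1) ^ l) := by
    intro a
    rw [card_GL_sub _ (hfib a), hq, G_eq]
  let X := Fintype.card {p : Fin n × Fin n // lab p.1 < lab p.2}
  have hP : Nat.card (Cfsg.parabolicGL n F μ) = (r + 1) ^ (∑ a : Fin n, ∑ i ∈ range (μ a), i) *
      (r ^ n * ∏ a : Fin n, ∏ j ∈ range (μ a), ∑ l ∈ range (j + 1), (r + 1) ^ l) * (r + 1) ^ X := by
    rw [hcard, card_bt, hq, Finset.prod_congr rfl (fun a _ => hGL a), Finset.prod_mul_distrib, Finset.prod_mul_distrib,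
      Finset.prod_pow_eq_pow_sum, Finset.prod_pow_eq_pow_sum, hμ]
  have hG : Nat.card (GL (Fin n) F) = (r + 1) ^ (∑ i ∈ range n, i) * (r ^ n * ∏ j ∈ range n, ∑ l ∈ range (j + 1), (r + 1) ^ l) := by
    rw [Matrix.card_GL_field, hq, G_eq]
  -- the exponents
  have hswap : Fintype.card {p : Fin n × Fin n // lab p.1 < lab p.2} = Fintype.card {p : Fin n × Fin n // lab p.2 < lab p.1} :=
    Fintype.card_congr (Equiv.subtypeEquiv (Equiv.prodComm _ _) (by simp))
  have htri : n * n = Fintype.card {p : Fin n × Fin n // lab p.1 < lab p.2} + Fintype.card {p : Fin n × Fin n // lab p.1 = lab p.2} +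
      Fintype.card {p : Fin n × Fin n // lab p.2 < lab p.1} := by
    simp only [Fintype.card_subtype, Finset.card_filter]
    rw [← Finset.sum_add_distrib, ← Finset.sum_add_distrib]
    have h1 : ∀ p : Fin n × Fin n, ((if lab p.1 < lab p.2 then 1 else 0) + (if lab p.1 = lab p.2 then 1 else 0) + (if lab p.2 < lab p.1 then 1 else 0) : ℕ) = 1 := by
      intro p
      rcases lt_trichotomy (lab p.1) (lab p.2) with h | h | h
      · simp [h, ne_of_lt h, not_lt.2 h.le]
      · simp [h]
      · simp [h, ne_of_gt h, not_lt.2 h.le]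
    rw [Finset.sum_congr rfl (fun p _ => h1 p)]
    simp
  have heq : Fintype.card {p : Fin n × Fin n // lab p.1 = lab p.2} = ∑ a : Fin n, μ a * μ a := by
    let E : {p : Fin n × Fin n // lab p.1 = lab p.2} ≃ (a : Fin n) × ({i // lab i = a} × {i // lab i = a}) :=
      { toFun := fun p => ⟨lab p.1.1, (⟨p.1.1, rfl⟩, ⟨p.1.2, p.2.symm⟩)⟩
        invFun := fun x => ⟨(x.2.1.1, x.2.2.1), x.2.1.2.trans x.2.2.2.symm⟩
        left_inv := fun p => rfl
        right_inv := by
          rintro ⟨a, ⟨i, rfl⟩, ⟨j, hj⟩⟩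
          rfl }
    rw [Fintype.card_congr E, Fintype.card_sigma]
    apply Finset.sum_congr rfl
    intro a _
    rw [Fintype.card_prod, hfib a]
  have hsum : ∀ m : ℕ, (∑ i ∈ range m, i) * 2 + m = m * m := by
    intro m
    rw [Finset.sum_range_id_mul_two]
    cases m with
    | zero => simp
    | succ m =>
      simp only [Nat.add_sub_cancel]
      ring
  have hexp : (∑ a : Fin n, ∑ i ∈ range (μ a), i) + X = ∑ i ∈ range n, i := by
    have h1 : (∑ a : Fin n, ∑ i ∈ range (μ a), i) * 2 + ∑ a : Fin n, μ a = ∑ a : Fin n, μ a * μ a := by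
      rw [Finset.sum_mul, ← Finset.sum_add_distrib]
      exact Finset.sum_congr rfl (fun a _ => hsum (μ a))
    rw [hμ] at h1
    have h2 := hsum n
    have hX : X = Fintype.card {p : Fin n × Fin n // lab p.1 < lab p.2} := rfl
    omega
  have hI := Subgroup.card_mul_index (Cfsg.parabolicGL n F μ)
  rw [hP, hG] at hI
  have hI' : Nat.card (GL (Fin n) F ⧸ Cfsg.parabolicGL n F μ) = (Cfsg.parabolicGL n F μ).index := rfl
  rw [hI', ]
  set I := (Cfsg.parabolicGL n F μ).index
  have hpos : 0 < (r + 1) ^ (∑ i ∈ range n, i) * r ^ n := by positivity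
  apply Nat.eq_of_mul_eq_mul_left hpos
  rw [← hexp, pow_add] at hI ⊢
  nlinarith [hI]

end Cfsg.Agent.Lib.FlagCount
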