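import Mathlib
import Cfsg.Prelude.Def_LinearParabolics
import Cfsg.Prelude.Def_ParabolicCharacters

/-! Double cosets of parabolic subgroups of `GL_n` and of Young subgroups of `Sym(n)`. -/

set_option autoImplicit false
set_option linter.style.haveILetI false
set_option linter.unusedSectionVars false

namespace Cfsg.Agent.Lib.FlagOrbits

open Matrix Cfsg

section burnside
variable {G : Type*} [Group G] (H K : Subgroup G)

/-- The double coset relation. -/
def dcRel : Setoid G where
  r x y := ∃ h ∈ H, ∃ k ∈ K, y = h * x * k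
  iseqv :=
    { refl := fun x => ⟨1, H.one_mem, 1, K.one_mem, by simp⟩
      symm := by
        rintro x y ⟨h, hh, k, hk, rfl⟩
        exact ⟨h⁻¹, H.inv_mem hh, k⁻¹, K.inv_mem hk, by group⟩
      trans := by
        rintro x y z ⟨h, hh, k, hk, rfl⟩ ⟨h', hh', k', hk', rfl⟩
        exact ⟨h' * h, H.mul_mem hh' hh, k * k', K.mul_mem hk hk', by group⟩ }

/-- The orbit of the pair `(H, xK)`. -/
def dcToOrb : Quotient (dcRel H K) → MulAction.orbitRel.Quotient G ((G ⧸ H) × (G ⧸ K)) :=
  Quotient.lift (fun x : G => (Quotient.mk'' (((1 : G) : G ⧸ H), ((x : G) : G ⧸ K)) : MulAction.orbitRel.Quotient G ((G ⧸ H) × (G ⧸ K))))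
    (by
      rintro x y ⟨h, hh, k, hk, rfl⟩
      apply Quotient.sound'
      rw [MulAction.orbitRel_apply]
      refine ⟨h⁻¹, ?_⟩
      apply Prod.ext
      · change ((h⁻¹ * 1 : G) : G ⧸ H) = ((1 : G) : G ⧸ H)
        rw [QuotientGroup.eq]
        simpa using hh
      · change ((h⁻¹ * (h * x * k) : G) : G ⧸ K) = ((x : G) : G ⧸ K)
        rw [QuotientGroup.eq]
        have e : (h⁻¹ * (h * x * k))⁻¹ * x = k⁻¹ := by group
        rw [e]
        exact K.inv_mem hk)

theorem dcToOrb_bijective : Function.Bijective (dcToOrb H K) := by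
  constructor
  · intro a b
    induction a using Quotient.inductionOn with | _ x => ?_
    induction b using Quotient.inductionOn with | _ y => ?_
    intro h
    have h1 : (Quotient.mk'' (((1 : G) : G ⧸ H), ((x : G) : G ⧸ K)) : MulAction.orbitRel.Quotient G ((G ⧸ H) × (G ⧸ K))) =
        Quotient.mk'' (((1 : G) : G ⧸ H), ((y : G) : G ⧸ K)) := h
    have h2 := Quotient.exact' h1
    rw [MulAction.orbitRel_apply] at h2
    obtain ⟨g, hg⟩ := h2
    have h3 := congrArg Prod.fst hg
    have h4 := congrArg Prod.snd hg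
    change ((g * 1 : G) : G ⧸ H) = ((1 : G) : G ⧸ H) at h3
    change ((g * y : G) : G ⧸ K) = ((x : G) : G ⧸ K) at h4
    rw [QuotientGroup.eq] at h3 h4
    apply Quotient.sound
    refine ⟨g⁻¹, ?_, ((g * y)⁻¹ * x)⁻¹, K.inv_mem h4, by group⟩
    simpa using h3
  · intro o
    induction o using Quotient.inductionOn' with | _ p => ?_
    obtain ⟨a, b⟩ := p
    induction a using QuotientGroup.induction_on with | _ a => ?_
    induction b using QuotientGroup.induction_on with | _ b => ?_
    refine ⟨Quotient.mk _ (a⁻¹ * b), ?_⟩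
    change (Quotient.mk'' (((1 : G) : G ⧸ H), ((a⁻¹ * b : G) : G ⧸ K)) : MulAction.orbitRel.Quotient G ((G ⧸ H) × (G ⧸ K))) = _
    apply Quotient.sound'
    rw [MulAction.orbitRel_apply]
    refine ⟨a⁻¹, ?_⟩
    apply Prod.ext
    · change ((a⁻¹ * a : G) : G ⧸ H) = ((1 : G) : G ⧸ H)
      simp
    · rfl

theorem avg_fix [Fintype G] :
    (Nat.card G : ℂ)⁻¹ * ∑ g : G, fixedPointCharacter H g * fixedPointCharacter K g =
      (Nat.card (Quotient (dcRel H K)) : ℂ) := by
  classical
  have h1 := MulAction.sum_card_fixedBy_eq_card_orbits_mul_card_group G ((G ⧸ H) × (G ⧸ K))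
  have h2 : ∀ g : G, Fintype.card (MulAction.fixedBy ((G ⧸ H) × (G ⧸ K)) g) =
      Nat.card (MulAction.fixedBy (G ⧸ H) g) * Nat.card (MulAction.fixedBy (G ⧸ K) g) := by
    intro g
    rw [← Nat.card_prod, Nat.card_eq_fintype_card]
    refine Fintype.card_congr
      { toFun := fun p => (⟨p.1.1, congrArg Prod.fst p.2⟩, ⟨p.1.2, congrArg Prod.snd p.2⟩)
        invFun := fun p => ⟨(p.1.1, p.2.1), Prod.ext p.1.2 p.2.2⟩
        left_inv := fun p => rfl
        right_inv := fun p => rfl }
  have h3 : ((Nat.card (Quotient (dcRel H K)) : ℕ) : ℂ) =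
      (Fintype.card (MulAction.orbitRel.Quotient G ((G ⧸ H) × (G ⧸ K))) : ℂ) := by
    rw [Nat.card_congr (Equiv.ofBijective _ (dcToOrb_bijective H K)), Nat.card_eq_fintype_card]
  rw [h3]
  have hG : (Fintype.card G : ℂ) ≠ 0 := by exact_mod_cast Fintype.card_ne_zero
  rw [Nat.card_eq_fintype_card, inv_mul_eq_div, div_eq_iff hG]
  have h4 : ∑ g : G, fixedPointCharacter H g * fixedPointCharacter K g =
      ((∑ g : G, Fintype.card (MulAction.fixedBy ((G ⧸ H) × (G ⧸ K)) g) : ℕ) : ℂ) := by
    push_cast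
    apply Finset.sum_congr rfl
    intro g _
    rw [h2]
    simp [fixedPointCharacter]
  rw [h4, h1]
  push_cast
  ring

end burnside

section bruhat
variable {F : Type*} [Field F] {n : ℕ}

theorem L_entry (A : Matrix (Fin n) (Fin n) F) (v : Fin n → F) (r a b : Fin n) :
    ((1 + vecMulVec v (Pi.single r 1)) * A) a b = A a b + v a * A r b := by
  rw [Matrix.add_mul, Matrix.one_mul, Matrix.add_apply, Matrix.mul_apply]
  congr 1
  rw [Finset.sum_eq_single r]
  · simp [vecMulVec_apply]
  · intro c _ hc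
    simp [vecMulVec_apply, Pi.single_apply, hc]
  · simp

theorem R_entry (A : Matrix (Fin n) (Fin n) F) (ρ : Fin n → F) (c a b : Fin n) :
    (A * (1 + vecMulVec (Pi.single c 1) ρ)) a b = A a b + A a c * ρ b := by
  rw [Matrix.mul_add, Matrix.mul_one, Matrix.add_apply, Matrix.mul_apply]
  congr 1
  rw [Finset.sum_eq_single c]
  · simp [vecMulVec_apply]
  · intro d _ hd
    simp [vecMulVec_apply, Pi.single_apply, hd]
  · simp

theorem tr_apply (v φ : Fin n → F) (a b : Fin n) :
    (1 + vecMulVec v φ) a b = (1 : Matrix (Fin n) (Fin n) F) a b + v a * φ b := by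
  rw [Matrix.add_apply, vecMulVec_apply]

/-- An upper triangular matrix with non-zero diagonal, as an element of `GL`. -/
noncomputable def mkU (M : Matrix (Fin n) (Fin n) F) (h : ∀ i j, j < i → M i j = 0) (hd : ∀ i, M i i ≠ 0) :
    GL (Fin n) F :=
  Matrix.GeneralLinearGroup.mkOfDetNeZero M (by
    have h1 : M.BlockTriangular id := fun i j hij => h i j hij
    rw [Matrix.det_of_upperTriangular h1, Finset.prod_ne_zero_iff]
    exact fun i _ => hd i)

theorem mkU_mem (M : Matrix (Fin n) (Fin n) F) (h : ∀ i j, j < i → M i j = 0) (hd : ∀ i, M i i ≠ 0) :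
    mkU M h hd ∈ upperTriangularGL n F := fun i j hij => h i j hij

theorem mkU_coe (M : Matrix (Fin n) (Fin n) F) (h : ∀ i j, j < i → M i j = 0) (hd : ∀ i, M i i ≠ 0) :
    ((mkU M h hd : GL (Fin n) F) : Matrix (Fin n) (Fin n) F) = M := rfl

/-- The invariant of the elimination. -/
def Inv (A : Matrix (Fin n) (Fin n) F) (k : ℕ) : Prop :=
  ∀ c : Fin n, (c : ℕ) < k → ∃ r, A r c ≠ 0 ∧ (∀ i, i ≠ r → A i c = 0) ∧ (∀ j, j ≠ c → A r j = 0)

theorem step {g : GL (Fin n) F} {c₀ : Fin n}
    (hinv : Inv (g : Matrix (Fin n) (Fin n) F) (c₀ : ℕ)) :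
    ∃ L ∈ upperTriangularGL n F, ∃ R ∈ upperTriangularGL n F,
      Inv ((L * g * R : GL (Fin n) F) : Matrix (Fin n) (Fin n) F) ((c₀ : ℕ) + 1) := by
  classical
  let A : Matrix (Fin n) (Fin n) F := g
  have hinv' : Inv A (c₀ : ℕ) := hinv
  -- the lowest non-zero entry of the column
  have hcol : ∃ i, A i c₀ ≠ 0 := by
    by_contra hcon
    push Not at hcon
    have h1 : A.det = 0 := Matrix.det_eq_zero_of_column_eq_zero c₀ hcon
    have h2 := (Matrix.isUnit_iff_isUnit_det _).1 g.isUnit
    exact h2.ne_zero h1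
  let S : Finset (Fin n) := Finset.univ.filter fun i => A i c₀ ≠ 0
  have hS : S.Nonempty := by
    obtain ⟨i, hi⟩ := hcol
    exact ⟨i, Finset.mem_filter.2 ⟨Finset.mem_univ _, hi⟩⟩
  let r := S.max' hS
  have hr : A r c₀ ≠ 0 := (Finset.mem_filter.1 (S.max'_mem hS)).2
  have hlow : ∀ i, r < i → A i c₀ = 0 := by
    intro i hi
    by_contra hne
    exact absurd (S.le_max' i (Finset.mem_filter.2 ⟨Finset.mem_univ _, hne⟩)) (not_le.2 hi)
  set p := A r c₀ with hp
  have hp0 : p ≠ 0 := hr
  let v : Fin n → F := fun i => if i < r then -(A i c₀) / p else 0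
  let ρ : Fin n → F := fun j => if c₀ < j then -(A r j) / p else 0
  have hvr : ∀ i, ¬ i < r → v i = 0 := fun i h => by simp only [v, if_neg h]
  have hρc : ∀ j, ¬ c₀ < j → ρ j = 0 := fun j h => by simp only [ρ, if_neg h]
  let L : GL (Fin n) F := mkU (1 + vecMulVec v (Pi.single r 1))
    (by
      intro i j hij
      rw [tr_apply, Matrix.one_apply_ne hij.ne']
      by_cases hj : j = r
      · subst hj
        rw [hvr i (not_lt.2 hij.le), zero_mul, add_zero]
      · simp [Pi.single_apply, hj])
    (by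
      intro i
      rw [tr_apply, Matrix.one_apply_eq]
      by_cases hi : i = r
      · rw [hi, hvr r (lt_irrefl _), zero_mul, add_zero]
        exact one_ne_zero
      · simp [Pi.single_apply, hi])
  let R : GL (Fin n) F := mkU (1 + vecMulVec (Pi.single c₀ 1) ρ)
    (by
      intro i j hij
      rw [tr_apply, Matrix.one_apply_ne hij.ne']
      by_cases hi : i = c₀
      · subst hi
        rw [hρc j (not_lt.2 hij.le), mul_zero, add_zero]
      · simp [Pi.single_apply, hi])
    (by
      intro i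
      rw [tr_apply, Matrix.one_apply_eq]
      by_cases hi : i = c₀
      · subst hi
        rw [hρc i (lt_irrefl _), mul_zero, add_zero]
        exact one_ne_zero
      · simp [Pi.single_apply, hi])
  refine ⟨L, mkU_mem _ _ _, R, mkU_mem _ _ _, ?_⟩
  have hLc : ∀ a, A a c₀ + v a * p = if a = r then p else 0 := by
    intro a
    by_cases ha : a = r
    · rw [ha, if_pos rfl, hvr r (lt_irrefl _), zero_mul, add_zero]
    · rw [if_neg ha]
      rcases lt_or_gt_of_ne ha with h | h
      · simp only [v, if_pos h]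
        rw [div_mul_cancel₀ _ hp0]
        ring
      · rw [hlow a h, hvr a (not_lt.2 h.le), zero_mul, add_zero]
  have hf : ∀ a b, ((L * g * R : GL (Fin n) F) : Matrix (Fin n) (Fin n) F) a b =
      A a b + v a * A r b + if a = r then p * ρ b else 0 := by
    intro a b
    change (((1 + vecMulVec v (Pi.single r 1)) * A) * (1 + vecMulVec (Pi.single c₀ 1) ρ)) a b = _
    rw [R_entry, L_entry, L_entry, ← hp, hLc]
    by_cases ha : a = r
    · simp only [if_pos ha]
    · simp only [if_neg ha, zero_mul, add_zero]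
  -- the old columns
  intro c hc
  rcases Nat.lt_succ_iff_lt_or_eq.1 hc with hc | hc
  · obtain ⟨r', h1, h2, h3⟩ := hinv' c hc
    have hcc : c ≠ c₀ := fun e => hc.ne (by rw [e])
    have hrr : r ≠ r' := by
      intro e
      apply hp0
      change A r c₀ = 0
      rw [e]
      exact h3 c₀ hcc.symm
    have hvr' : v r' = 0 := by
      simp only [v]
      split_ifs
      · rw [h3 c₀ hcc.symm]
        simp
      · rfl
    refine ⟨r', ?_, ?_, ?_⟩
    · rw [hf, if_neg hrr.symm, h2 r hrr, mul_zero, add_zero, add_zero]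
      exact h1
    · intro i hi
      rw [hf, h2 i hi, h2 r hrr, mul_zero, add_zero, zero_add]
      have : ρ c = 0 := hρc c (fun h => absurd h (not_lt.2 (le_of_lt (by exact hc))))
      rw [this, mul_zero]
      simp
    · intro j hj
      rw [hf, h3 j hj, hvr', zero_mul, add_zero, zero_add, if_neg hrr.symm]
  · have hc' : c = c₀ := Fin.ext hc
    subst hc'
    refine ⟨r, ?_, ?_, ?_⟩
    · rw [hf, if_pos rfl, hρc c (lt_irrefl _), mul_zero, add_zero, hvr r (lt_irrefl _), zero_mul, add_zero]
      exact hr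
    · intro i hi
      rw [hf, if_neg hi]
      have := hLc i
      rw [if_neg hi] at this
      rw [← hp, this, add_zero]
    · intro j hj
      rw [hf, if_pos rfl, hvr r (lt_irrefl _), zero_mul, add_zero]
      rcases lt_or_gt_of_ne hj with h | h
      · obtain ⟨r', h1, h2, h3⟩ := hinv' j h
        have hrr : r ≠ r' := by
          intro e
          apply hp0
          change A r c = 0
          rw [e]
          exact h3 c h.ne'
        rw [h2 r hrr, hρc j (not_lt.2 h.le), mul_zero, add_zero]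
      · simp only [ρ, if_pos h]
        field_simp
        ring

theorem elim (g : GL (Fin n) F) (k : ℕ) (hk : k ≤ n) :
    ∃ u₁ ∈ upperTriangularGL n F, ∃ u₂ ∈ upperTriangularGL n F,
      Inv ((u₁ * g * u₂ : GL (Fin n) F) : Matrix (Fin n) (Fin n) F) k := by
  induction k with
  | zero =>
    refine ⟨1, Subgroup.one_mem _, 1, Subgroup.one_mem _, ?_⟩
    intro c hc
    omega
  | succ k ih =>
    obtain ⟨u₁, h₁, u₂, h₂, hinv⟩ := ih (by omega)
    obtain ⟨L, hL, R, hR, hinv'⟩ := step (c₀ := ⟨k, by omega⟩) hinv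
    refine ⟨L * u₁, Subgroup.mul_mem _ hL h₁, u₂ * R, Subgroup.mul_mem _ h₂ hR, ?_⟩
    have e : L * u₁ * g * (u₂ * R) = L * (u₁ * g * u₂) * R := by group
    rw [e]
    exact hinv'

end bruhat

section perm
variable {F : Type*} [Field F] {n : ℕ}

/-- Permutation matrices. -/
noncomputable def PMm : Equiv.Perm (Fin n) →* Matrix (Fin n) (Fin n) F where
  toFun σ := Matrix.of fun i j => if i = σ j then 1 else 0
  map_one' := by
    ext i j
    by_cases h : i = j <;> simp [Matrix.one_apply, h]
  map_mul' σ τ := by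
    ext i j
    rw [Matrix.mul_apply, Finset.sum_eq_single (τ j)]
    · by_cases h : i = σ (τ j) <;> simp [h]
    · intro k _ hk
      simp [hk]
    · simp

/-- Permutation matrices, in `GL`. -/
noncomputable def PM : Equiv.Perm (Fin n) →* GL (Fin n) F := (PMm (F := F)).toHomUnits

theorem PM_apply (σ : Equiv.Perm (Fin n)) (i j : Fin n) :
    ((PM σ : GL (Fin n) F) : Matrix (Fin n) (Fin n) F) i j = if i = σ j then 1 else 0 := rfl

theorem bruhat (g : GL (Fin n) F) :
    ∃ b₁ ∈ upperTriangularGL n F, ∃ σ : Equiv.Perm (Fin n), ∃ b₂ ∈ upperTriangularGL n F, g = b₁ * PM σ * b₂ := by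
  classical
  obtain ⟨u₁, h₁, u₂, h₂, hinv⟩ := elim g n le_rfl
  set A : GL (Fin n) F := u₁ * g * u₂ with hA
  have hex : ∀ c : Fin n, ∃ r, (A : Matrix (Fin n) (Fin n) F) r c ≠ 0 ∧
      (∀ i, i ≠ r → (A : Matrix (Fin n) (Fin n) F) i c = 0) ∧ (∀ j, j ≠ c → (A : Matrix (Fin n) (Fin n) F) r j = 0) :=
    fun c => hinv c c.2
  choose r hr1 hr2 hr3 using hex
  have hinj : Function.Injective r := by
    intro c c' h
    by_contra hne
    apply hr1 c'
    rw [← h]
    exact hr3 c c' (Ne.symm hne)
  let σ : Equiv.Perm (Fin n) := Equiv.ofBijective r (Finite.injective_iff_bijective.1 hinj)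
  let D : GL (Fin n) F := mkU (Matrix.diagonal fun c => (A : Matrix (Fin n) (Fin n) F) (r c) c)
    (fun i j hij => Matrix.diagonal_apply_ne _ hij.ne')
    (fun i => by
      rw [Matrix.diagonal_apply_eq]
      exact hr1 i)
  have hD : D ∈ upperTriangularGL n F := mkU_mem _ _ _
  have hAD : A = PM σ * D := by
    apply Units.ext
    ext i c
    change _ = (((PM σ : GL (Fin n) F) : Matrix (Fin n) (Fin n) F) * (Matrix.diagonal fun c => (A : Matrix (Fin n) (Fin n) F) (r c) c)) i c
    rw [Matrix.mul_diagonal, PM_apply]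
    by_cases hi : i = r c
    · have : i = σ c := hi
      rw [if_pos this, one_mul, hi]
    · have : ¬ i = σ c := hi
      rw [if_neg this, zero_mul]
      exact hr2 c i hi
  refine ⟨u₁⁻¹, Subgroup.inv_mem _ h₁, σ, D * u₂⁻¹, Subgroup.mul_mem _ hD (Subgroup.inv_mem _ h₂), ?_⟩
  calc g = u₁⁻¹ * A * u₂⁻¹ := by rw [hA]; group
    _ = _ := by rw [hAD]; group

/-- The coordinate projection on the indices satisfying `P`. -/
noncomputable def EE (F : Type*) [Field F] {n : ℕ} (P : Fin n → Prop) : Matrix (Fin n) (Fin n) F := by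
  classical
  exact Matrix.diagonal fun i => if P i then 1 else 0

theorem EE_mul (P : Fin n → Prop) (M : Matrix (Fin n) (Fin n) F) (i j : Fin n) :
    (EE F P * M) i j = (by classical exact (if P i then M i j else 0)) := by
  classical
  simp only [EE]
  rw [Matrix.diagonal_mul]
  split_ifs <;> simp

theorem mul_EE (P : Fin n → Prop) (M : Matrix (Fin n) (Fin n) F) (i j : Fin n) :
    (M * EE F P) i j = (by classical exact (if P j then M i j else 0)) := by
  classical
  simp only [EE]
  rw [Matrix.mul_diagonal]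
  split_ifs <;> simp

theorem rk_le (P Q : Fin n → Prop) (p q M : Matrix (Fin n) (Fin n) F)
    (hp : ∀ i k, P i → ¬ P k → p i k = 0) (hq : ∀ l j, Q j → ¬ Q l → q l j = 0) :
    (EE F P * (p * M * q) * EE F Q).rank ≤ (EE F P * M * EE F Q).rank := by
  classical
  have h1 : EE F P * p = EE F P * p * EE F P := by
    ext i k
    rw [mul_EE, EE_mul]
    by_cases hi : P i <;> by_cases hk : P k <;> simp [hi, hk, hp i k]
  have h2 : q * EE F Q = EE F Q * q * EE F Q := by
    ext l j
    rw [mul_EE, mul_EE, EE_mul]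
    by_cases hl : Q l <;> by_cases hj : Q j <;> simp [hl, hj, hq l j]
  have h3 : EE F P * (p * M * q) * EE F Q = (EE F P * p) * (EE F P * M * EE F Q) * (q * EE F Q) := by
    calc EE F P * (p * M * q) * EE F Q = (EE F P * p) * M * (q * EE F Q) := by
          simp only [Matrix.mul_assoc]
      _ = (EE F P * p * EE F P) * M * (EE F Q * q * EE F Q) := by rw [← h1, ← h2]
      _ = _ := by
          simp only [Matrix.mul_assoc]
  rw [h3]
  exact (Matrix.rank_mul_le_left _ _).trans (Matrix.rank_mul_le_right _ _)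

theorem rk_perm (P Q : Fin n → Prop) (σ : Equiv.Perm (Fin n)) [DecidablePred P] [DecidablePred Q] :
    (EE F P * ((PM σ : GL (Fin n) F) : Matrix (Fin n) (Fin n) F) * EE F Q).rank =
      (Finset.univ.filter fun j => Q j ∧ P (σ j)).card := by
  classical
  have h1 : EE F P * ((PM σ : GL (Fin n) F) : Matrix (Fin n) (Fin n) F) * EE F Q =
      ((PM σ : GL (Fin n) F) : Matrix (Fin n) (Fin n) F) * EE F (fun j => Q j ∧ P (σ j)) := by
    ext i j
    rw [mul_EE, EE_mul, mul_EE, PM_apply]
    by_cases hi : i = σ j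
    · subst hi
      by_cases hQ : Q j <;> by_cases hP : P (σ j) <;> simp [hQ, hP]
    · by_cases hQ : Q j <;> by_cases hP : P i <;> by_cases hP' : P (σ j) <;> simp [hQ, hP, hP', hi]
  rw [h1]
  have hu : IsUnit ((PM σ : GL (Fin n) F) : Matrix (Fin n) (Fin n) F).det :=
    (Matrix.isUnit_iff_isUnit_det _).1 (PM σ).isUnit
  rw [Matrix.rank_mul_eq_right_of_isUnit_det _ _ hu]
  simp only [EE]
  rw [Matrix.rank_diagonal, Fintype.card_subtype]
  congr 1
  ext j
  simp

end perm

section young
variable {F : Type*} [Field F] {n : ℕ}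

theorem compLabel_mono (μ : Fin n → ℕ) {i i' : Fin n} (h : i ≤ i') : compLabel μ i ≤ compLabel μ i' := by
  unfold compLabel
  apply Finset.card_le_card
  intro j hj
  rw [Finset.mem_filter] at hj ⊢
  exact ⟨hj.1, hj.2.trans h⟩

theorem upper_le (μ : Fin n → ℕ) : upperTriangularGL n F ≤ parabolicGL n F μ := by
  intro g hg i j hij
  apply hg
  by_contra h
  exact absurd (compLabel_mono μ (not_lt.1 h)) (not_le.2 hij)

theorem PM_young (μ : Fin n → ℕ) {y : Equiv.Perm (Fin n)} (hy : y ∈ youngSubgroup μ) :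
    (PM y : GL (Fin n) F) ∈ parabolicGL n F μ := by
  intro i j hij
  change ((PM y : GL (Fin n) F) : Matrix (Fin n) (Fin n) F) i j = 0
  rw [PM_apply, if_neg]
  intro h
  rw [h, hy j] at hij
  exact lt_irrefl _ hij

theorem count_le (ν μ : Fin n → ℕ) {σ τ : Equiv.Perm (Fin n)} {p q : GL (Fin n) F}
    (hp : p ∈ parabolicGL n F ν) (hq : q ∈ parabolicGL n F μ) (h : (PM τ : GL (Fin n) F) = p * PM σ * q) (a b : ℕ) :
    (Finset.univ.filter fun j => compLabel μ j < b ∧ a ≤ compLabel ν (τ j)).card ≤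
      (Finset.univ.filter fun j => compLabel μ j < b ∧ a ≤ compLabel ν (σ j)).card := by
  classical
  rw [← rk_perm (F := F) (fun i => a ≤ compLabel ν i) (fun j => compLabel μ j < b) τ,
    ← rk_perm (F := F) (fun i => a ≤ compLabel ν i) (fun j => compLabel μ j < b) σ, h]
  simp only [Units.val_mul]
  apply rk_le
  · intro i k hi hk
    apply hp
    exact lt_of_not_ge (fun h' => hk (hi.trans h'))
  · intro l j hj hl
    apply hq
    exact lt_of_lt_of_le hj (not_lt.1 hl)

theorem young_dc (c d : Fin n → ℕ) {σ τ : Equiv.Perm (Fin n)}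
    (h : ∀ a b, (Finset.univ.filter fun j => d j < b ∧ a ≤ c (σ j)).card =
      (Finset.univ.filter fun j => d j < b ∧ a ≤ c (τ j)).card) :
    ∃ y h' : Equiv.Perm (Fin n), (∀ i, c (y i) = c i) ∧ (∀ i, d (h' i) = d i) ∧ τ = y * σ * h' := by
  classical
  have key : ∀ (ρ : Equiv.Perm (Fin n)) (a b : ℕ),
      (Finset.univ.filter fun j => d j = b ∧ c (ρ j) = a).card +
        (Finset.univ.filter fun j => d j < b ∧ a ≤ c (ρ j)).card +
        (Finset.univ.filter fun j => d j < b + 1 ∧ a + 1 ≤ c (ρ j)).card =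
      (Finset.univ.filter fun j => d j < b + 1 ∧ a ≤ c (ρ j)).card +
        (Finset.univ.filter fun j => d j < b ∧ a + 1 ≤ c (ρ j)).card := by
    intro ρ a b
    simp only [Finset.card_filter]
    rw [← Finset.sum_add_distrib, ← Finset.sum_add_distrib, ← Finset.sum_add_distrib]
    apply Finset.sum_congr rfl
    intro j _
    split_ifs <;> omega
  have hT : ∀ a b, (Finset.univ.filter fun j => d j = b ∧ c (σ j) = a).card =
      (Finset.univ.filter fun j => d j = b ∧ c (τ j) = a).card := by
    intro a b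
    have h1 := key σ a b
    have h2 := key τ a b
    rw [h a b, h (a + 1) (b + 1), h a (b + 1), h (a + 1) b] at h1
    omega
  let f : Fin n → ℕ × ℕ := fun j => (d j, c (τ j))
  let g : Fin n → ℕ × ℕ := fun j => (d j, c (σ j))
  have hcard : ∀ x : ℕ × ℕ, Fintype.card {j // f j = x} = Fintype.card {j // g j = x} := by
    rintro ⟨b, a⟩
    rw [Fintype.card_subtype, Fintype.card_subtype]
    have e1 : (Finset.univ.filter fun j => f j = (b, a)) = Finset.univ.filter fun j => d j = b ∧ c (τ j) = a := by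
      ext j
      simp [f]
    have e2 : (Finset.univ.filter fun j => g j = (b, a)) = Finset.univ.filter fun j => d j = b ∧ c (σ j) = a := by
      ext j
      simp [g]
    rw [e1, e2, hT]
  let e : ∀ x, {j // f j = x} ≃ {j // g j = x} := fun x => Fintype.equivOfCardEq (hcard x)
  let h' : Equiv.Perm (Fin n) := Equiv.ofFiberEquiv e
  have hh' : ∀ j, g (h' j) = f j := Equiv.ofFiberEquiv_map e
  refine ⟨τ * h'⁻¹ * σ⁻¹, h', ?_, ?_, by group⟩
  · intro i
    have h1 := congrArg Prod.snd (hh' (h'⁻¹ (σ⁻¹ i)))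
    simp only [g, f] at h1
    have h2 : σ (h' (h'⁻¹ (σ⁻¹ i))) = i := by simp
    rw [h2] at h1
    exact h1.symm
  · intro i
    exact congrArg Prod.fst (hh' i)

/-- The map from double cosets of Young subgroups to double cosets of parabolic subgroups. -/
noncomputable def dcMap (ν μ : Fin n → ℕ) :
    Quotient (dcRel (youngSubgroup ν) (youngSubgroup μ)) → Quotient (dcRel (parabolicGL n F ν) (parabolicGL n F μ)) :=
  Quotient.lift (fun σ => Quotient.mk _ (PM σ)) (by
    rintro x y ⟨h, hh, k, hk, rfl⟩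
    apply Quotient.sound
    exact ⟨PM h, PM_young ν hh, PM k, PM_young μ hk, by simp only [map_mul]⟩)

theorem dcMap_bijective (ν μ : Fin n → ℕ) : Function.Bijective (dcMap (F := F) ν μ) := by
  constructor
  · intro a b
    induction a using Quotient.inductionOn with | _ σ => ?_
    induction b using Quotient.inductionOn with | _ τ => ?_
    intro h
    obtain ⟨p, hp, q, hq, e⟩ := Quotient.exact (show (Quotient.mk _ (PM σ) : Quotient (dcRel (parabolicGL n F ν) (parabolicGL n F μ))) = Quotient.mk _ (PM τ) from h)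
    have e' : (PM σ : GL (Fin n) F) = p⁻¹ * PM τ * q⁻¹ := by
      rw [e]
      group
    obtain ⟨y, h', hy, hh', ht⟩ := young_dc (compLabel ν) (compLabel μ) (σ := σ) (τ := τ) (fun a b =>
      le_antisymm (count_le ν μ (Subgroup.inv_mem _ hp) (Subgroup.inv_mem _ hq) e' a b)
        (count_le ν μ hp hq e a b))
    apply Quotient.sound
    exact ⟨y, hy, h', hh', ht⟩
  · intro o
    induction o using Quotient.inductionOn with | _ g => ?_
    obtain ⟨b₁, h₁, σ, b₂, h₂, rfl⟩ := bruhat g
    refine ⟨Quotient.mk _ σ, ?_⟩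
    apply Quotient.sound
    exact ⟨b₁, upper_le ν h₁, b₂, upper_le μ h₂, rfl⟩

theorem flag_inner [Fintype (GL (Fin n) F)] (ν μ : Fin n → ℕ) :
    (Nat.card (GL (Fin n) F) : ℂ)⁻¹ * ∑ g : GL (Fin n) F,
        fixedPointCharacter (parabolicGL n F ν) g * fixedPointCharacter (parabolicGL n F μ) g =
      (Nat.card (Equiv.Perm (Fin n)) : ℂ)⁻¹ * ∑ σ : Equiv.Perm (Fin n),
        fixedPointCharacter (youngSubgroup ν) σ * fixedPointCharacter (youngSubgroup μ) σ := by
  rw [avg_fix, avg_fix, ← Nat.card_congr (Equiv.ofBijective _ (dcMap_bijective (F := F) ν μ))]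

end young

end Cfsg.Agent.Lib.FlagOrbits
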