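import Mathlib
import Cfsg.Agent.Lib.FlagOrbits
import Cfsg.Agent.Lib.Bialt

/-! Double cosets of Young subgroups and contingency data. -/

set_option autoImplicit false
set_option linter.style.haveILetI false
set_option linter.unusedSectionVars false

namespace Cfsg.Agent.Lib.FlagTables

open Cfsg Cfsg.Agent.Lib.FlagOrbits Cfsg.Agent.Lib.Bialt

variable {n : ℕ}

/-- Partial sums. -/
def SSum (a : Fin n → ℕ) (m : ℕ) : ℕ := ∑ k ∈ Finset.univ.filter (fun k : Fin n => (k : ℕ) < m), a k

theorem SSum_mono (a : Fin n → ℕ) {m m' : ℕ} (h : m ≤ m') : SSum a m ≤ SSum a m' := by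
  apply Finset.sum_le_sum_of_subset
  intro k hk
  rw [Finset.mem_filter] at hk ⊢
  exact ⟨hk.1, lt_of_lt_of_le hk.2 h⟩

theorem SSum_succ (a : Fin n → ℕ) (x : Fin n) : SSum a ((x : ℕ) + 1) = SSum a x + a x := by
  classical
  have h1 : Finset.univ.filter (fun k : Fin n => (k : ℕ) < (x : ℕ) + 1) =
      insert x (Finset.univ.filter (fun k : Fin n => (k : ℕ) < x)) := by
    ext k
    simp only [Finset.mem_filter, Finset.mem_univ, true_and, Finset.mem_insert]
    rw [Nat.lt_succ_iff, le_iff_lt_or_eq]
    constructor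
    · rintro (h | h)
      · exact Or.inr h
      · exact Or.inl (Fin.ext h)
    · rintro (h | h)
      · exact Or.inr (by rw [h])
      · exact Or.inl h
  rw [SSum, h1, Finset.sum_insert (by simp), add_comm]
  rfl

theorem SSum_zero (a : Fin n → ℕ) : SSum a 0 = 0 := by
  simp [SSum]

theorem SSum_top (a : Fin n → ℕ) : SSum a n = ∑ i, a i := by
  simp [SSum]

theorem compLabel_sum (a : Fin n → ℕ) (j : Fin n) :
    ∑ k ∈ Finset.univ.filter (fun k : Fin n => k ≤ j), a k = SSum a ((j : ℕ) + 1) := by
  rw [SSum]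
  congr 1
  ext k
  simp only [Finset.mem_filter, Finset.mem_univ, true_and]
  rw [Nat.lt_succ_iff]
  rfl

theorem compLabel_eq (a : Fin n → ℕ) (i : Fin n) {x : ℕ} (hx : x < n) (h1 : SSum a x ≤ i) (h2 : (i : ℕ) < SSum a (x + 1)) :
    compLabel a i = x := by
  classical
  have h : (Finset.univ.filter fun j : Fin n => (∑ k ∈ Finset.univ.filter (fun k : Fin n => k ≤ j), a k) ≤ i.val) =
      Finset.univ.filter fun j : Fin n => (j : ℕ) < x := by
    ext j
    simp only [Finset.mem_filter, Finset.mem_univ, true_and, compLabel_sum]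
    constructor
    · intro hj
      by_contra hne
      have := SSum_mono a (show x + 1 ≤ (j : ℕ) + 1 by omega)
      omega
    · intro hj
      exact (SSum_mono a (show (j : ℕ) + 1 ≤ x by omega)).trans h1
  unfold compLabel
  rw [h]
  have e : (Finset.univ.filter fun j : Fin n => (j : ℕ) < x).card = (Finset.range x).card := by
    apply Finset.card_bij (fun (j : Fin n) _ => (j : ℕ))
    · intro j hj
      simpa using hj
    · intro j _ k _ h
      exact Fin.ext h
    · intro m hm
      rw [Finset.mem_range] at hm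
      exact ⟨⟨m, by omega⟩, by simpa using hm, rfl⟩
  rw [e, Finset.card_range]

theorem compLabel_spec (a : Fin n → ℕ) (ha : ∑ i, a i = n) (i : Fin n) :
    compLabel a i < n ∧ SSum a (compLabel a i) ≤ i ∧ (i : ℕ) < SSum a (compLabel a i + 1) := by
  classical
  have hex : ∃ m, (i : ℕ) < SSum a m := ⟨n, by rw [SSum_top, ha]; exact i.2⟩
  let m := Nat.find hex
  have hm : (i : ℕ) < SSum a m := Nat.find_spec hex
  have hm0 : m ≠ 0 := by
    intro h0
    rw [h0, SSum_zero] at hm
    omega
  have hmn : m ≤ n := Nat.find_min' hex (by rw [SSum_top, ha]; exact i.2)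
  have hmin : ¬ ((i : ℕ) < SSum a (m - 1)) := Nat.find_min hex (by omega)
  have e := compLabel_eq a i (x := m - 1) (by omega) (not_lt.1 hmin) (by
    rw [Nat.sub_add_cancel (by omega)]
    exact hm)
  rw [e]
  refine ⟨by omega, not_lt.1 hmin, ?_⟩
  rw [Nat.sub_add_cancel (by omega)]
  exact hm

theorem compLabel_iff (a : Fin n → ℕ) (ha : ∑ i, a i = n) (i : Fin n) (x : Fin n) :
    compLabel a i = x ↔ SSum a x ≤ i ∧ (i : ℕ) < SSum a ((x : ℕ) + 1) := by
  constructor
  · intro h
    have := compLabel_spec a ha i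
    rw [h] at this
    exact this.2
  · rintro ⟨h1, h2⟩
    exact compLabel_eq a i x.2 h1 h2

theorem card_compLabel (a : Fin n → ℕ) (ha : ∑ i, a i = n) (x : Fin n) :
    (Finset.univ.filter fun i : Fin n => compLabel a i = x).card = a x := by
  classical
  have hle : SSum a ((x : ℕ) + 1) ≤ n := by
    have := SSum_mono a (show (x : ℕ) + 1 ≤ n by have := x.2; omega)
    rwa [SSum_top, ha] at this
  have e : (Finset.univ.filter fun i : Fin n => compLabel a i = x).card =
      (Finset.Ico (SSum a x) (SSum a ((x : ℕ) + 1))).card := by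
    apply Finset.card_bij (fun (j : Fin n) _ => (j : ℕ))
    · intro j hj
      rw [Finset.mem_filter, compLabel_iff a ha] at hj
      exact Finset.mem_Ico.2 hj.2
    · intro j _ k _ h
      exact Fin.ext h
    · intro m hm
      rw [Finset.mem_Ico] at hm
      refine ⟨⟨m, by omega⟩, ?_, rfl⟩
      rw [Finset.mem_filter, compLabel_iff a ha]
      exact ⟨Finset.mem_univ _, hm⟩
  rw [e, Nat.card_Ico, SSum_succ]
  omega

/-- The table of a permutation. -/
noncomputable def Tab (a b : Fin n → ℕ) (σ : Equiv.Perm (Fin n)) : Fin n → (Fin n →₀ ℕ) :=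
  fun i => toF (fun j => (Finset.univ.filter fun t : Fin n => compLabel b t = j ∧ compLabel a (σ t) = i).card)

theorem Tab_apply (a b : Fin n → ℕ) (σ : Equiv.Perm (Fin n)) (i j : Fin n) :
    Tab a b σ i j = (Finset.univ.filter fun t : Fin n => compLabel b t = j ∧ compLabel a (σ t) = i).card := rfl

theorem Tab_row (a b : Fin n → ℕ) (ha : ∑ i, a i = n) (hb : ∑ i, b i = n) (σ : Equiv.Perm (Fin n)) (i : Fin n) :
    ∑ j, Tab a b σ i j = a i := by
  classical
  simp only [Tab_apply]
  have h1 : (Finset.univ.filter fun t : Fin n => compLabel a (σ t) = i).card = a i := by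
    rw [← card_compLabel a ha i]
    apply Finset.card_equiv σ
    intro t
    simp
  rw [← h1, Finset.card_eq_sum_card_fiberwise (f := fun t => (⟨compLabel b t, (compLabel_spec b hb t).1⟩ : Fin n))
    (t := Finset.univ) (fun _ _ => Finset.mem_univ _)]
  apply Finset.sum_congr rfl
  intro j _
  congr 1
  ext t
  simp only [Finset.mem_filter, Finset.mem_univ, true_and, Fin.ext_iff]
  exact and_comm

theorem Tab_col (a b : Fin n → ℕ) (ha : ∑ i, a i = n) (hb : ∑ i, b i = n) (σ : Equiv.Perm (Fin n)) (j : Fin n) :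
    ∑ i, Tab a b σ i j = b j := by
  classical
  simp only [Tab_apply]
  have h1 := card_compLabel b hb j
  rw [← h1, Finset.card_eq_sum_card_fiberwise (f := fun t => (⟨compLabel a (σ t), (compLabel_spec a ha (σ t)).1⟩ : Fin n))
    (t := Finset.univ) (fun _ _ => Finset.mem_univ _)]
  apply Finset.sum_congr rfl
  intro i _
  congr 1
  ext t
  simp only [Finset.mem_filter, Finset.mem_univ, true_and, Fin.ext_iff]

theorem mem_tabF (a b : Fin n → ℕ) (p : Fin n → (Fin n →₀ ℕ)) :
    p ∈ tabF a b ↔ (∀ i, ∑ j, p i j = a i) ∧ ∀ j, ∑ i, p i j = b j := by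
  classical
  unfold tabF
  rw [Finset.mem_filter, Fintype.mem_piFinset]
  constructor
  · rintro ⟨h1, h2⟩
    refine ⟨fun i => ?_, fun j => ?_⟩
    · have := h1 i
      rw [Finset.mem_finsuppAntidiag] at this
      exact this.1
    · have := DFunLike.congr_fun h2 j
      rw [Finsupp.finset_sum_apply] at this
      exact this
  · rintro ⟨h1, h2⟩
    refine ⟨fun i => ?_, ?_⟩
    · rw [Finset.mem_finsuppAntidiag]
      exact ⟨h1 i, Finset.subset_univ _⟩
    · ext j
      rw [Finsupp.finset_sum_apply]
      exact h2 j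

theorem Tab_mem (a b : Fin n → ℕ) (ha : ∑ i, a i = n) (hb : ∑ i, b i = n) (σ : Equiv.Perm (Fin n)) :
    Tab a b σ ∈ tabF a b :=
  (mem_tabF a b _).2 ⟨Tab_row a b ha hb σ, Tab_col a b ha hb σ⟩

theorem Tab_dc (a b : Fin n → ℕ) {σ τ : Equiv.Perm (Fin n)}
    (h : (dcRel (youngSubgroup a) (youngSubgroup b)).r σ τ) : Tab a b σ = Tab a b τ := by
  classical
  obtain ⟨y, hy, k, hk, rfl⟩ := h
  funext i
  ext j
  rw [Tab_apply, Tab_apply]
  apply Finset.card_equiv k⁻¹
  intro t
  have e1 : compLabel b (k⁻¹ t) = compLabel b t := (youngSubgroup b).inv_mem hk t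
  have e2 : compLabel a ((y * σ * k) (k⁻¹ t)) = compLabel a (σ t) := by
    have : (y * σ * k) (k⁻¹ t) = y (σ t) := by simp [Equiv.Perm.mul_apply]
    rw [this]
    exact hy (σ t)
  simp only [Finset.mem_filter, Finset.mem_univ, true_and, e1, e2]

theorem young_dc' (c d : Fin n → ℕ) {σ τ : Equiv.Perm (Fin n)}
    (hT : ∀ a b, (Finset.univ.filter fun j => d j = b ∧ c (σ j) = a).card =
      (Finset.univ.filter fun j => d j = b ∧ c (τ j) = a).card) :
    ∃ y h' : Equiv.Perm (Fin n), (∀ i, c (y i) = c i) ∧ (∀ i, d (h' i) = d i) ∧ τ = y * σ * h' := by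
  classical
  let f : Fin n → ℕ × ℕ := fun j => (d j, c (τ j))
  let g : Fin n → ℕ × ℕ := fun j => (d j, c (σ j))
  have hcard : ∀ x : ℕ × ℕ, Fintype.card {j // f j = x} = Fintype.card {j // g j = x} := by
    rintro ⟨b, a⟩
    rw [Fintype.card_subtype, Fintype.card_subtype]
    have e1 : (Finset.univ.filter fun j => f j = (b, a)) = Finset.univ.filter fun j => d j = b ∧ c (τ j) = a := by
      ext j
      simp [f]
    have e2 : (Finset.univ.filter fun j => g j = (b, a)) = Finset.univ.filter fun j => d j = b ∧ c (σ j) = a := by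
      ext j
      simp [g]
    rw [e1, e2, hT]
  let e : ∀ x, {j // f j = x} ≃ {j // g j = x} := fun x => Fintype.equivOfCardEq (hcard x)
  let h' : Equiv.Perm (Fin n) := Equiv.ofFiberEquiv e
  have hh' : ∀ j, g (h' j) = f j := Equiv.ofFiberEquiv_map e
  refine ⟨τ * h'⁻¹ * σ⁻¹, h', ?_, ?_, by group⟩
  · intro i
    have h1 := congrArg Prod.snd (hh' (h'⁻¹ (σ⁻¹ i)))
    simp only [g, f] at h1
    have h2 : σ (h' (h'⁻¹ (σ⁻¹ i))) = i := by simp
    rw [h2] at h1
    exact h1.symm
  · intro i
    exact congrArg Prod.fst (hh' i)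

theorem Tab_inj (a b : Fin n → ℕ) (ha : ∑ i, a i = n) (hb : ∑ i, b i = n) {σ τ : Equiv.Perm (Fin n)}
    (h : Tab a b σ = Tab a b τ) : (dcRel (youngSubgroup a) (youngSubgroup b)).r σ τ := by
  classical
  have hT : ∀ x y, (Finset.univ.filter fun j => compLabel b j = y ∧ compLabel a (σ j) = x).card =
      (Finset.univ.filter fun j => compLabel b j = y ∧ compLabel a (τ j) = x).card := by
    intro x y
    by_cases hx : x < n
    · by_cases hy : y < n
      · have := DFunLike.congr_fun (congrFun h ⟨x, hx⟩) ⟨y, hy⟩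
        exact this
      · rw [Finset.filter_false_of_mem, Finset.filter_false_of_mem]
        · rintro t - ⟨h1, -⟩
          have := (compLabel_spec b hb t).1
          omega
        · rintro t - ⟨h1, -⟩
          have := (compLabel_spec b hb t).1
          omega
    · rw [Finset.filter_false_of_mem, Finset.filter_false_of_mem]
      · rintro t - ⟨-, h1⟩
        have := (compLabel_spec a ha (τ t)).1
        omega
      · rintro t - ⟨-, h1⟩
        have := (compLabel_spec a ha (σ t)).1
        omega
  obtain ⟨y, k, hy, hk, e⟩ := young_dc' (compLabel a) (compLabel b) hT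
  exact ⟨y, hy, k, hk, e⟩

theorem card_sigma_filter {Q : Type*} [Fintype Q] (T : Q → ℕ) (P : Q → Prop) [DecidablePred P] :
    Fintype.card {z : Σ q : Q, Fin (T q) // P z.1} = ∑ q, if P q then T q else 0 := by
  classical
  rw [Fintype.card_subtype, Finset.card_filter, Fintype.sum_sigma]
  apply Finset.sum_congr rfl
  intro q _
  by_cases h : P q <;> simp [h]

theorem Tab_surj (a b : Fin n → ℕ) (ha : ∑ i, a i = n) (hb : ∑ i, b i = n) (p : Fin n → (Fin n →₀ ℕ))
    (hp : p ∈ tabF a b) : ∃ σ, Tab a b σ = p := by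
  classical
  obtain ⟨hrow, hcol⟩ := (mem_tabF a b p).1 hp
  let T : Fin n × Fin n → ℕ := fun q => p q.1 q.2
  let Z := Σ q : Fin n × Fin n, Fin (T q)
  have c1 : ∀ x : ℕ, Fintype.card {t : Fin n // compLabel b t = x} = Fintype.card {z : Z // (z.1.2 : ℕ) = x} := by
    intro x
    have e2 := card_sigma_filter T (fun q => (q.2 : ℕ) = x)
    rw [show Fintype.card {z : Z // (z.1.2 : ℕ) = x} = _ from e2, Fintype.card_subtype, Fintype.sum_prod_type]
    by_cases hx : x < n
    · have e3 := card_compLabel b hb ⟨x, hx⟩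
      rw [show (Finset.univ.filter fun t : Fin n => compLabel b t = x).card = b ⟨x, hx⟩ from e3, ← hcol]
      apply Finset.sum_congr rfl
      intro i _
      rw [Finset.sum_eq_single ⟨x, hx⟩]
      · simp [T]
      · intro j _ hj
        rw [if_neg]
        intro h
        exact hj (Fin.ext h)
      · simp
    · rw [Finset.filter_false_of_mem, Finset.card_empty]
      · symm
        apply Finset.sum_eq_zero
        intro i _
        apply Finset.sum_eq_zero
        intro j _
        rw [if_neg]
        have := j.2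
        intro h
        simp only at h
        omega
      · intro t _ h
        have := (compLabel_spec b hb t).1
        omega
  have c2 : ∀ x : ℕ, Fintype.card {t : Fin n // compLabel a t = x} = Fintype.card {z : Z // (z.1.1 : ℕ) = x} := by
    intro x
    have e2 := card_sigma_filter T (fun q => (q.1 : ℕ) = x)
    rw [show Fintype.card {z : Z // (z.1.1 : ℕ) = x} = _ from e2, Fintype.card_subtype, Fintype.sum_prod_type]
    by_cases hx : x < n
    · have e3 := card_compLabel a ha ⟨x, hx⟩
      rw [show (Finset.univ.filter fun t : Fin n => compLabel a t = x).card = a ⟨x, hx⟩ from e3, ← hrow]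
      symm
      rw [Finset.sum_eq_single ⟨x, hx⟩]
      · simp [T]
      · intro j _ hj
        apply Finset.sum_eq_zero
        intro i _
        rw [if_neg]
        intro h
        exact hj (Fin.ext h)
      · simp
    · rw [Finset.filter_false_of_mem, Finset.card_empty]
      · symm
        apply Finset.sum_eq_zero
        intro i _
        apply Finset.sum_eq_zero
        intro j _
        rw [if_neg]
        have := i.2
        intro h
        simp only at h
        omega
      · intro t _ h
        have := (compLabel_spec a ha t).1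
        omega
  let e₁ : Fin n ≃ Z := Equiv.ofFiberEquiv (f := compLabel b) (g := fun z : Z => (z.1.2 : ℕ)) (fun x => Fintype.equivOfCardEq (c1 x))
  let e₂ : Fin n ≃ Z := Equiv.ofFiberEquiv (f := compLabel a) (g := fun z : Z => (z.1.1 : ℕ)) (fun x => Fintype.equivOfCardEq (c2 x))
  have he₁ : ∀ t, ((e₁ t).1.2 : ℕ) = compLabel b t :=
    fun t => Equiv.ofFiberEquiv_map (f := compLabel b) (g := fun z : Z => (z.1.2 : ℕ)) _ t
  have he₂ : ∀ t, ((e₂ t).1.1 : ℕ) = compLabel a t :=
    fun t => Equiv.ofFiberEquiv_map (f := compLabel a) (g := fun z : Z => (z.1.1 : ℕ)) _ t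
  refine ⟨e₁.trans e₂.symm, ?_⟩
  funext i
  ext j
  rw [Tab_apply]
  have key : ∀ t : Fin n, (compLabel b t = j ∧ compLabel a ((e₁.trans e₂.symm) t) = i) ↔ (e₁ t).1 = (i, j) := by
    intro t
    have e3 : compLabel a ((e₁.trans e₂.symm) t) = ((e₁ t).1.1 : ℕ) := by
      rw [← he₂]
      simp
    rw [e3, ← he₁, Prod.ext_iff, Fin.ext_iff, Fin.ext_iff]
    exact and_comm
  have e4 := card_sigma_filter T (fun q => q = (i, j))
  rw [Finset.sum_ite_eq' Finset.univ (i, j) T, if_pos (Finset.mem_univ _)] at e4
  have e5 : Fintype.card {t : Fin n // (e₁ t).1 = (i, j)} = Fintype.card {z : Z // z.1 = (i, j)} :=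
    Fintype.card_congr (e₁.subtypeEquiv (fun _ => Iff.rfl))
  rw [show p i j = T (i, j) from rfl, ← e4, ← show Fintype.card {z : Z // z.1 = (i, j)} = _ from rfl, ← e5, Fintype.card_subtype]
  congr 1
  ext t
  simp only [Finset.mem_filter, Finset.mem_univ, true_and]
  exact key t

/-- The table map on double cosets. -/
noncomputable def tabMap (a b : Fin n → ℕ) (ha : ∑ i, a i = n) (hb : ∑ i, b i = n) :
    Quotient (dcRel (youngSubgroup a) (youngSubgroup b)) → {p // p ∈ tabF a b} :=
  Quotient.lift (fun σ => ⟨Tab a b σ, Tab_mem a b ha hb σ⟩) (by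
    intro x y h
    exact Subtype.ext (Tab_dc a b h))

theorem tabMap_bijective (a b : Fin n → ℕ) (ha : ∑ i, a i = n) (hb : ∑ i, b i = n) :
    Function.Bijective (tabMap a b ha hb) := by
  constructor
  · intro x y
    induction x using Quotient.inductionOn with | _ σ => ?_
    induction y using Quotient.inductionOn with | _ τ => ?_
    intro h
    apply Quotient.sound
    exact Tab_inj a b ha hb (congrArg Subtype.val h)
  · rintro ⟨p, hp⟩
    obtain ⟨σ, rfl⟩ := Tab_surj a b ha hb p hp
    exact ⟨Quotient.mk _ σ, rfl⟩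

theorem card_dc_young (a b : Fin n → ℕ) (ha : ∑ i, a i = n) (hb : ∑ i, b i = n) :
    Nat.card (Quotient (dcRel (youngSubgroup a) (youngSubgroup b))) = (tabF a b).card := by
  classical
  rw [Nat.card_congr (Equiv.ofBijective _ (tabMap_bijective a b ha hb)), Nat.card_eq_fintype_card, Fintype.card_coe]

/-- The inner product of two flag permutation characters. -/
theorem inner_flag {F : Type*} [Field F] [Fintype (GL (Fin n) F)] (a b : Fin n → ℕ) (ha : ∑ i, a i = n) (hb : ∑ i, b i = n) :
    (Nat.card (GL (Fin n) F) : ℂ)⁻¹ * ∑ g : GL (Fin n) F,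
        fixedPointCharacter (parabolicGL n F a) g * fixedPointCharacter (parabolicGL n F b) g =
      ((tabF a b).card : ℂ) := by
  rw [avg_fix, ← Nat.card_congr (Equiv.ofBijective _ (dcMap_bijective (F := F) a b)), card_dc_young a b ha hb]

end Cfsg.Agent.Lib.FlagTables
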