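import Mathlib

/-! Consequences of the focal subgroup transfer for a subgroup `H` whose index is prime to `|H/H*|`
(helper4). -/

namespace Cfsg.Agent.Lib.FocalGen

open scoped commutatorElement IsMulCommutative

variable {G : Type*} [Group G] [Finite G] (H : Subgroup G)

theorem pow_index_injective (hcop : Nat.Coprime H.index (Nat.card (H ⧸ H.focalSubgroupOf)))
    {y : H ⧸ H.focalSubgroupOf} (hy : y ^ H.index = 1) : y = 1 := by
  have h1 : orderOf y ∣ H.index := orderOf_dvd_of_pow_eq_one hy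
  have h2 : orderOf y ∣ Nat.card (H ⧸ H.focalSubgroupOf) := orderOf_dvd_natCard y
  exact orderOf_eq_one_iff.mp (Nat.eq_one_of_dvd_coprimes hcop h1 h2)

theorem ker_inf (hcop : Nat.Coprime H.index (Nat.card (H ⧸ H.focalSubgroupOf))) :
    H.transferFocal.ker ⊓ H = H.focalSubgroup := by
  apply le_antisymm
  · rintro x ⟨hx, hxH⟩
    have h1 : H.transferFocal ((⟨x, hxH⟩ : H) : G) = 1 := hx
    rw [Subgroup.transferFocal_eq_pow] at h1
    have h2 := pow_index_injective H hcop h1
    have h3 : (⟨x, hxH⟩ : H) ∈ H.focalSubgroupOf := (QuotientGroup.eq_one_iff _).mp h2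
    exact h3
  · intro x hx
    have hxH : x ∈ H := H.focalSubgroup_le hx
    refine ⟨?_, hxH⟩
    have h1 : ((⟨x, hxH⟩ : H) : H ⧸ H.focalSubgroupOf) = 1 := (QuotientGroup.eq_one_iff _).mpr hx
    show H.transferFocal ((⟨x, hxH⟩ : H) : G) = 1
    rw [Subgroup.transferFocal_eq_pow, h1, one_pow]

theorem focal_eq_inf (hcop : Nat.Coprime H.index (Nat.card (H ⧸ H.focalSubgroupOf))) :
    H.focalSubgroup = commutator G ⊓ H := by
  apply le_antisymm
  · exact le_inf H.focalSubgroup_le_commutator H.focalSubgroup_le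
  · rintro x ⟨hx, hxH⟩
    rw [← ker_inf H hcop]
    refine ⟨?_, hxH⟩
    exact Abelianization.commutator_subset_ker H.transferFocal hx

theorem ker_sup (hcop : Nat.Coprime H.index (Nat.card (H ⧸ H.focalSubgroupOf))) :
    H.transferFocal.ker ⊔ H = ⊤ := by
  classical
  rw [eq_top_iff]
  intro g _
  let f : H ⧸ H.focalSubgroupOf → H ⧸ H.focalSubgroupOf := fun y => y ^ H.index
  have hinj : Function.Injective f := by
    intro a b hab
    have h1 : (a / b) ^ H.index = 1 := by
      rw [div_pow]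
      exact div_eq_one.mpr hab
    exact div_eq_one.mp (pow_index_injective H hcop h1)
  have hsurj := Finite.injective_iff_surjective.mp hinj
  obtain ⟨y, hy⟩ := hsurj (H.transferFocal g)
  obtain ⟨x, rfl⟩ := QuotientGroup.mk_surjective y
  have h1 : H.transferFocal ((x : H) : G) = H.transferFocal g := by
    rw [Subgroup.transferFocal_eq_pow]
    exact hy
  have h2 : g * ((x : H) : G)⁻¹ ∈ H.transferFocal.ker := by
    rw [MonoidHom.mem_ker, map_mul, map_inv, h1, mul_inv_cancel]
  have h3 : g = (g * ((x : H) : G)⁻¹) * x := by group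
  rw [h3]
  exact Subgroup.mul_mem _ ((le_sup_left : _ ≤ H.transferFocal.ker ⊔ H) h2)
    ((le_sup_right : _ ≤ H.transferFocal.ker ⊔ H) x.2)

theorem coprime_of_sylow {p : ℕ} [Fact p.Prime] (P : Sylow p G) :
    Nat.Coprime (P : Subgroup G).index (Nat.card ((P : Subgroup G) ⧸ (P : Subgroup G).focalSubgroupOf)) := by
  have hq : IsPGroup p ((P : Subgroup G) ⧸ (P : Subgroup G).focalSubgroupOf) :=
    P.isPGroup'.of_surjective (QuotientGroup.mk' _) (QuotientGroup.mk'_surjective _)
  obtain ⟨k, hk⟩ := IsPGroup.iff_card.mp hq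
  rw [hk]
  apply Nat.Coprime.pow_right
  exact ((Nat.Prime.coprime_iff_not_dvd Fact.out).mpr P.not_dvd_index).symm

end Cfsg.Agent.Lib.FocalGen
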