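import Mathlib
import Cfsg.Prelude
import Cfsg.Agent.Lib.NormalPP
import Cfsg.Agent.Lib.PGroupBasic
import Cfsg.Agent.Lib.H6OddNormal

set_option autoImplicit false
set_option linter.all false

namespace Cfsg.Agent.Lib.FpfOdd

open Subgroup Finset

variable {P E : Type*} [Group P] [AddCommGroup E] [DistribMulAction P E]

/-- The norm of `g`. -/
def Nm (p : ℕ) (g : P) : E →+ E :=
  ∑ j ∈ Finset.range p, DistribMulAction.toAddMonoidHom E (g ^ j)

theorem Nm_apply (p : ℕ) (g : P) (e : E) : Nm p g e = ∑ j ∈ Finset.range p, (g ^ j) • e := by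
  simp [Nm, AddMonoidHom.finset_sum_apply]

theorem Nm_fix {p : ℕ} {g : P} (hg : g ^ p = 1) (e : E) : g • Nm p g e = Nm p g e := by
  rw [Nm_apply, Finset.smul_sum]
  have h1 : ∀ j : ℕ, g • (g ^ j • e) = g ^ (j + 1) • e := by
    intro j
    rw [smul_smul, pow_succ']
  simp_rw [h1]
  have h2 := Finset.sum_range_succ (fun j => g ^ j • e) p
  have h3 := Finset.sum_range_succ' (fun j => g ^ j • e) p
  simp only [hg, pow_zero, one_smul] at h2 h3
  exact add_right_cancel (h3.symm.trans h2)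

theorem pow_smul_of_fix {g : P} {e : E} (h : g • e = e) (j : ℕ) : (g ^ j) • e = e := by
  induction j with
  | zero => simp
  | succ n ih => rw [pow_succ, mul_smul, h, ih]

theorem Nm_of_fix {p : ℕ} {g : P} {e : E} (h : g • e = e) : Nm p g e = p • e := by
  rw [Nm_apply]
  simp_rw [pow_smul_of_fix h]
  simp

theorem Nm_comm {p : ℕ} {g h : P} (hgh : g * h = h * g) (e : E) : h • Nm p g e = Nm p g (h • e) := by
  rw [Nm_apply, Nm_apply, Finset.smul_sum]
  refine Finset.sum_congr rfl fun j _ => ?_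
  rw [smul_smul, smul_smul]
  have : Commute h (g ^ j) := (Commute.symm hgh).pow_right j
  rw [this.eq]

variable [Finite P]

theorem stab_eq
    (hconst : ∀ a b : E, a ≠ 0 → b ≠ 0 →
      Nat.card (MulAction.stabilizer P a) = Nat.card (MulAction.stabilizer P b))
    {a b : E} (ha : a ≠ 0) (hb : b ≠ 0) (hab : a + b ≠ 0)
    (h : ∀ g : P, g • (a + b) = a + b → g • a = a ∧ g • b = b) :
    ∀ g : P, g • a = a → g • b = b := by
  have hle : MulAction.stabilizer P (a + b) ≤ MulAction.stabilizer P a := fun g hg =>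
    (h g (MulAction.mem_stabilizer_iff.mp hg)).1
  have heq : MulAction.stabilizer P (a + b) = MulAction.stabilizer P a :=
    Subgroup.eq_of_le_of_card_ge hle (by rw [hconst a (a + b) ha hab])
  intro g hg
  have : g ∈ MulAction.stabilizer P (a + b) := by
    rw [heq]
    exact MulAction.mem_stabilizer_iff.mpr hg
  exact (h g (MulAction.mem_stabilizer_iff.mp this)).2

variable [FaithfulSMul P E]

theorem exists_moved {c : P} (hc1 : c ≠ 1) : ∃ v : E, c • v ≠ v := by
  by_contra hno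
  push Not at hno
  apply hc1
  apply FaithfulSMul.eq_of_smul_eq_smul (α := E)
  intro m
  rw [one_smul]
  exact hno m

theorem central_fpf {p : ℕ} (p' : ℕ) (hinv : ∀ e : E, p' • (p • e) = e)
    (hconst : ∀ a b : E, a ≠ 0 → b ≠ 0 →
      Nat.card (MulAction.stabilizer P a) = Nat.card (MulAction.stabilizer P b))
    {c : P} (hc : ∀ g : P, g * c = c * g) (hcp : c ^ p = 1) (hc1 : c ≠ 1) (a : E)
    (ha : c • a = a) : a = 0 := by
  by_contra ha0
  obtain ⟨v, hv⟩ := exists_moved (E := E) hc1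
  have hN : c • Nm p c v = Nm p c v := Nm_fix hcp v
  set b : E := v - p' • Nm p c v with hb
  have hcb : c • b ≠ b := by
    intro h
    apply hv
    rw [hb, smul_sub, smul_comm c p', hN] at h
    exact sub_left_injective h
  have hNb : Nm p c b = 0 := by
    rw [hb, map_sub, map_nsmul, Nm_of_fix hN, hinv, sub_self]
  have hb0 : b ≠ 0 := by
    intro h
    apply hcb
    rw [h, smul_zero]
  have hab : a + b ≠ 0 := by
    intro h
    apply hcb
    have : b = -a := eq_neg_of_add_eq_zero_right h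
    rw [this, smul_neg, ha]
  have hs : ∀ h : P, h • (a + b) = a + b → h • a = a ∧ h • b = b := by
    intro h hh
    rw [smul_add] at hh
    have hd2 : h • a - a = b - h • b := by
      rw [sub_eq_sub_iff_add_eq_add, hh, add_comm]
    have hcd : c • (h • a - a) = h • a - a := by
      rw [smul_sub, ha, smul_smul, ← hc h, mul_smul, ha]
    have h1 : Nm p c (h • a - a) = p • (h • a - a) := Nm_of_fix hcd
    have h2 : Nm p c (h • a - a) = 0 := by
      rw [hd2, map_sub, ← Nm_comm (hc h).symm, hNb, smul_zero, sub_zero]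
    have h3 : p • (h • a - a) = 0 := h1 ▸ h2
    have h4 : h • a - a = 0 := by
      rw [← hinv (h • a - a), h3, smul_zero]
    have h5 : h • a = a := sub_eq_zero.mp h4
    refine ⟨h5, ?_⟩
    rw [h5] at hh
    exact add_left_cancel hh
  exact hcb (stab_eq hconst ha0 hb0 hab hs c ha)

theorem main_noncyc {p : ℕ} (hp : p.Prime) (hp2 : p ≠ 2) (p' : ℕ) (hinv : ∀ e : E, p' • (p • e) = e)
    (hconst : ∀ a b : E, a ≠ 0 → b ≠ 0 →
      Nat.card (MulAction.stabilizer P a) = Nat.card (MulAction.stabilizer P b))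
    {z y : P} (hz : ∀ g : P, g * z = z * g) (hzp : z ^ p = 1) (hz1 : z ≠ 1) (hyp : y ^ p = 1)
    (hyz : y ∉ zpowers z) (hconj : ∀ h : P, h * y * h⁻¹ * y⁻¹ ∈ zpowers z) (hE : Nontrivial E) :
    False := by
  classical
  haveI : Fact p.Prime := ⟨hp⟩
  have hcen : ∀ c ∈ zpowers z, ∀ g : P, g * c = c * g := by
    rintro _ ⟨k, rfl⟩ g
    exact ((show Commute g z from hz g).zpow_right k).eq
  have hexp : ∀ c ∈ zpowers z, c ^ p = 1 := by
    rintro _ ⟨k, rfl⟩
    show (z ^ k) ^ p = 1
    rw [← zpow_natCast, ← zpow_mul, mul_comm, zpow_mul, zpow_natCast, hzp, one_zpow]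
  have hfpf : ∀ c ∈ zpowers z, c ≠ 1 → ∀ a : E, c • a = a → a = 0 := fun c hc hc1 a ha =>
    central_fpf p' hinv hconst (hcen c hc) (hexp c hc) hc1 a ha
  have hNm0 : ∀ (g c : P), c ∈ zpowers z → c ≠ 1 → ∀ e : E, g • e = e → Nm p (g * c) e = 0 := by
    intro g c hc hc1 e he
    have h1 : Nm p (g * c) e = Nm p c e := by
      rw [Nm_apply, Nm_apply]
      refine Finset.sum_congr rfl fun j _ => ?_
      have hcom : Commute g c := hcen c hc g
      rw [hcom.mul_pow, (hcom.pow_pow j j).eq, mul_smul, pow_smul_of_fix he]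
    rw [h1]
    exact hfpf c hc hc1 _ (Nm_fix (hexp c hc) e)
  have hpinj : ∀ e e' : E, p • e = p • e' → e = e' := by
    intro e e' h
    rw [← hinv e, h, hinv]
  have hp0 : ∀ e : E, e ≠ 0 → p • e ≠ 0 := by
    intro e he h
    apply he
    rw [← hinv e, h, smul_zero]
  have hzy : ∀ i : ℕ, (y * z ^ i) ^ p = 1 := by
    intro i
    have hcom : Commute y (z ^ i) := ((show Commute y z from hz y).pow_right i)
    rw [hcom.mul_pow, hyp, ← pow_mul, mul_comm, pow_mul, hzp, one_pow, one_mul]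
  have hord : orderOf z = p := orderOf_eq_prime hzp hz1
  -- the fundamental sum
  have hsum : ∀ e : E, ∑ i ∈ Finset.range p, Nm p (y * z ^ i) e = p • e := by
    intro e
    simp_rw [Nm_apply]
    rw [Finset.sum_comm]
    rw [Finset.sum_eq_single 0]
    · simp
    · intro j hj hj0
      have hjp : j < p := Finset.mem_range.mp hj
      have hzj : z ^ j ≠ 1 := by
        intro h
        have := orderOf_le_of_pow_eq_one (Nat.pos_of_ne_zero hj0) h
        omega
      have hpc : z ^ j ∈ zpowers z := npow_mem_zpowers z j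
      have h1 : ∀ i : ℕ, (y * z ^ i) ^ j • e = y ^ j • ((z ^ j) ^ i • e) := by
        intro i
        have hcom : Commute y (z ^ i) := ((show Commute y z from hz y).pow_right i)
        rw [hcom.mul_pow, mul_smul, ← pow_mul, ← pow_mul, mul_comm]
      simp_rw [h1]
      rw [← Finset.smul_sum, ← Nm_apply]
      rw [hfpf _ hpc hzj _ (Nm_fix (hexp _ hpc) e), smul_zero]
    · intro h
      exact absurd (Finset.mem_range.mpr hp.pos) h
  -- two nonzero fixed vectors
  obtain ⟨e0, he0⟩ := exists_ne (0 : E)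
  have hs0 : ∑ i ∈ Finset.range p, Nm p (y * z ^ i) e0 ≠ 0 := by
    rw [hsum]
    exact hp0 _ he0
  obtain ⟨i₀, hi₀, hai₀⟩ := Finset.exists_ne_zero_of_sum_ne_zero hs0
  have hi₀p : i₀ < p := Finset.mem_range.mp hi₀
  have hg1 : y * z ^ i₀ ≠ 1 := by
    intro h
    apply hyz
    have : y = (z ^ i₀)⁻¹ := eq_inv_of_mul_eq_one_left h
    rw [this]
    exact (zpowers z).inv_mem (npow_mem_zpowers z i₀)
  obtain ⟨v, hv⟩ := exists_moved (E := E) hg1
  obtain ⟨i₁, hi₁, hi₁ne, hai₁⟩ : ∃ i₁ ∈ Finset.range p, i₁ ≠ i₀ ∧ Nm p (y * z ^ i₁) v ≠ 0 := by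
    by_contra hno
    push Not at hno
    have h1 : ∑ i ∈ Finset.range p, Nm p (y * z ^ i) v = Nm p (y * z ^ i₀) v := by
      apply Finset.sum_eq_single i₀
      · intro b hb hb0
        exact hno b hb hb0
      · intro h
        exact absurd hi₀ h
    rw [hsum] at h1
    apply hv
    have h2 : (y * z ^ i₀) • (p • v) = p • v := by
      rw [h1]
      exact Nm_fix (hzy i₀) v
    apply hpinj
    rw [← h2, smul_comm]
  have hi₁p : i₁ < p := Finset.mem_range.mp hi₁
  set g := y * z ^ i₀ with hg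
  set g' := y * z ^ i₁ with hg'
  set a₁ := Nm p g e0 with ha₁
  set a₂ := Nm p g' v with ha₂
  have hga₁ : g • a₁ = a₁ := Nm_fix (hzy i₀) e0
  have hga₂ : g' • a₂ = a₂ := Nm_fix (hzy i₁) v
  -- c = g⁻¹ g'
  have hcmem : g⁻¹ * g' ∈ zpowers z := by
    have : g⁻¹ * g' = (z ^ i₀)⁻¹ * z ^ i₁ := by
      rw [hg, hg']; group
    rw [this]
    exact (zpowers z).mul_mem ((zpowers z).inv_mem (npow_mem_zpowers z i₀)) (npow_mem_zpowers z i₁)
  have hc1 : g⁻¹ * g' ≠ 1 := by
    intro h
    have h1 : g' = g := (inv_mul_eq_one.mp h).symm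
    have h2 : z ^ i₁ = z ^ i₀ := mul_left_cancel h1
    have h3 : i₁ = i₀ := by
      apply pow_injOn_Iio_orderOf (x := z)
      · show i₁ < orderOf z
        rw [hord]; exact hi₁p
      · show i₀ < orderOf z
        rw [hord]; exact hi₀p
      · exact h2
    exact hi₁ne h3
  have hgg' : g' = g * (g⁻¹ * g') := by group
  have hg'g : g = g' * (g⁻¹ * g')⁻¹ := by group
  have hc1' : (g⁻¹ * g')⁻¹ ≠ 1 := by
    intro h
    exact hc1 (inv_eq_one.mp h)
  have hNg'a₁ : Nm p g' a₁ = 0 := by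
    conv_lhs => rw [hgg']
    exact hNm0 g _ hcmem hc1 a₁ hga₁
  have hNga₂ : Nm p g a₂ = 0 := by
    conv_lhs => rw [hg'g]
    exact hNm0 g' _ ((zpowers z).inv_mem hcmem) hc1' a₂ hga₂
  have hNga₁ : Nm p g a₁ = p • a₁ := Nm_of_fix hga₁
  have hNg'a₂ : Nm p g' a₂ = p • a₂ := Nm_of_fix hga₂
  -- conjugation
  have hclaim : ∀ h : P, h • (a₁ + a₂) = a₁ + a₂ → h • a₁ = a₁ ∧ h • a₂ = a₂ := by
    intro h hh
    rw [smul_add] at hh
    set κ := h * y * h⁻¹ * y⁻¹ with hκ
    have hκmem : κ ∈ zpowers z := hconj h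
    have hconjg : ∀ i : ℕ, h * (y * z ^ i) * h⁻¹ = (y * z ^ i) * κ := by
      intro i
      have h1 : h * (y * z ^ i) * h⁻¹ = (h * y * h⁻¹) * z ^ i := by
        have hcom : h * z ^ i = z ^ i * h := ((show Commute h z from hz h).pow_right i).eq
        calc h * (y * z ^ i) * h⁻¹ = h * y * (z ^ i * h⁻¹) := by group
          _ = h * y * (h⁻¹ * z ^ i) := by
            have : z ^ i * h⁻¹ = h⁻¹ * z ^ i := by
              rw [eq_inv_mul_iff_mul_eq, ← mul_assoc, hcom, mul_assoc, mul_inv_cancel, mul_one]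
            rw [this]
          _ = _ := by group
      have h2 : h * y * h⁻¹ = κ * y := by rw [hκ]; group
      rw [h1, h2]
      have h3 := hcen κ hκmem
      calc κ * y * z ^ i = (y * κ) * z ^ i := by rw [h3 y]
        _ = y * (κ * z ^ i) := by group
        _ = y * (z ^ i * κ) := by rw [h3 (z ^ i)]
        _ = _ := by group
    have hb₁ : (g * κ) • (h • a₁) = h • a₁ := by
      rw [hg, ← hconjg i₀, smul_smul]
      have : h * (y * z ^ i₀) * h⁻¹ * h = h * (y * z ^ i₀) := by group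
      rw [this, mul_smul, ← hg, hga₁]
    have hb₂ : (g' * κ) • (h • a₂) = h • a₂ := by
      rw [hg', ← hconjg i₁, smul_smul]
      have : h * (y * z ^ i₁) * h⁻¹ * h = h * (y * z ^ i₁) := by group
      rw [this, mul_smul, ← hg', hga₂]
    have happ : ∀ f : P, Nm p f (h • a₁) + Nm p f (h • a₂) = Nm p f a₁ + Nm p f a₂ := by
      intro f
      rw [← map_add, ← map_add, hh]
    by_cases hκ1 : κ = 1
    · rw [hκ1, mul_one] at hb₁ hb₂
      have hNgb₁ : Nm p g (h • a₁) = p • (h • a₁) := Nm_of_fix hb₁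
      have hNg'b₂ : Nm p g' (h • a₂) = p • (h • a₂) := Nm_of_fix hb₂
      have hNg'b₁ : Nm p g' (h • a₁) = 0 := by
        conv_lhs => rw [hgg']
        exact hNm0 g _ hcmem hc1 _ hb₁
      have hNgb₂ : Nm p g (h • a₂) = 0 := by
        conv_lhs => rw [hg'g]
        exact hNm0 g' _ ((zpowers z).inv_mem hcmem) hc1' _ hb₂
      have e1 := happ g
      rw [hNgb₁, hNgb₂, hNga₁, hNga₂, add_zero, add_zero] at e1
      have e2 := happ g'
      rw [hNg'b₁, hNg'b₂, hNg'a₁, hNg'a₂, zero_add, zero_add] at e2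
      exact ⟨hpinj _ _ e1, hpinj _ _ e2⟩
    · exfalso
      have hκ1' : κ⁻¹ ≠ 1 := fun e => hκ1 (inv_eq_one.mp e)
      have hκi : κ⁻¹ ∈ zpowers z := (zpowers z).inv_mem hκmem
      have hNgb₁ : Nm p g (h • a₁) = 0 := by
        have : g = (g * κ) * κ⁻¹ := by group
        conv_lhs => rw [this]
        exact hNm0 (g * κ) κ⁻¹ hκi hκ1' _ hb₁
      have hNg'b₂ : Nm p g' (h • a₂) = 0 := by
        have : g' = (g' * κ) * κ⁻¹ := by group
        conv_lhs => rw [this]
        exact hNm0 (g' * κ) κ⁻¹ hκi hκ1' _ hb₂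
      have ha₁0 : a₁ ≠ 0 := hai₀
      have ha₂0 : a₂ ≠ 0 := hai₁
      have e1 := happ g
      rw [hNgb₁, hNga₁, hNga₂, zero_add, add_zero] at e1
      have e2 := happ g'
      rw [hNg'b₂, hNg'a₁, hNg'a₂, zero_add, add_zero] at e2
      -- then `g' κ = g`
      have hE1 : g' * κ = g := by
        by_contra hne
        have hmem : (g' * κ)⁻¹ * g ∈ zpowers z := by
          have : (g' * κ)⁻¹ * g = κ⁻¹ * (g⁻¹ * g')⁻¹ := by group
          rw [this]
          exact (zpowers z).mul_mem hκi ((zpowers z).inv_mem hcmem)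
        have hne1 : (g' * κ)⁻¹ * g ≠ 1 := by
          intro e
          exact hne (inv_mul_eq_one.mp e)
        have h0 := hNm0 (g' * κ) _ hmem hne1 _ hb₂
        rw [mul_inv_cancel_left] at h0
        rw [h0] at e1
        exact hp0 _ ha₁0 e1.symm
      have hE2 : g * κ = g' := by
        by_contra hne
        have hmem : (g * κ)⁻¹ * g' ∈ zpowers z := by
          have : (g * κ)⁻¹ * g' = κ⁻¹ * (g⁻¹ * g') := by group
          rw [this]
          exact (zpowers z).mul_mem hκi hcmem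
        have hne1 : (g * κ)⁻¹ * g' ≠ 1 := by
          intro e
          exact hne (inv_mul_eq_one.mp e)
        have h0 := hNm0 (g * κ) _ hmem hne1 _ hb₁
        rw [mul_inv_cancel_left] at h0
        rw [h0] at e2
        exact hp0 _ ha₂0 e2.symm
      have hκ2 : κ ^ 2 = 1 := by
        have h1 : g * κ * κ = g := by rw [hE2, hE1]
        have h2 : g * (κ * κ) = g * 1 := by rw [mul_one, ← mul_assoc, h1]
        rw [pow_two]
        exact mul_left_cancel h2
      have hκp := hexp κ hκmem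
      have hdvd2 := orderOf_dvd_of_pow_eq_one hκ2
      have hdvdp := orderOf_dvd_of_pow_eq_one hκp
      have hco : Nat.Coprime 2 p := (Nat.coprime_primes Nat.prime_two hp).mpr (Ne.symm hp2)
      have h1 : orderOf κ ∣ 1 := by
        have := Nat.dvd_gcd hdvd2 hdvdp
        rwa [hco] at this
      apply hκ1
      exact orderOf_eq_one_iff.mp (Nat.dvd_one.mp h1)
  have ha₁0 : a₁ ≠ 0 := hai₀
  have ha₂0 : a₂ ≠ 0 := hai₁
  have hnofix : ¬ (g • a₂ = a₂) := by
    intro h
    apply ha₂0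
    apply hfpf _ hcmem hc1
    rw [mul_smul, hga₂]
    have : g⁻¹ • g • a₂ = a₂ := inv_smul_smul g a₂
    rwa [h] at this
  have hab : a₁ + a₂ ≠ 0 := by
    intro h
    apply hnofix
    have : a₂ = -a₁ := eq_neg_of_add_eq_zero_right h
    rw [this, smul_neg, hga₁]
  exact hnofix (stab_eq hconst ha₁0 ha₂0 hab hclaim g hga₁)

end Cfsg.Agent.Lib.FpfOdd
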