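import Mathlib
import Cfsg.Agent.Lib.Carter
import Cfsg.Agent.Lib.FrobC
import Cfsg.Agent.Lib.TypeP
import Cfsg.Agent.S0035
import Cfsg.Agent.S0039
import Cfsg.Agent.S0042

/-!
# Conjugacy of Frobenius complements
-/

set_option autoImplicit false
set_option linter.style.haveILetI false
set_option linter.unusedSectionVars false
set_option linter.unusedVariables false

namespace Cfsg.Agent.Lib.FrobConj

open Cfsg
open scoped Pointwise

universe u

variable {G : Type u} [Group G] [Finite G]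

/-- A nilpotent normal subgroup of a Frobenius group lies in the kernel. -/
theorem le_kernel (H N : Subgroup G) [hNn : N.Normal] (hNs : (N : Set G) = frobeniusKernel H)
    (hN : N ≠ ⊥) (hfpf : ∀ h ∈ H, h ≠ 1 → N ⊓ Subgroup.centralizer {h} = ⊥)
    (M : Subgroup G) [hMn : M.Normal] (hM : Group.IsNilpotent M) : M ≤ N := by
  classical
  intro x hx
  by_contra hxN
  have hxK : x ∉ frobeniusKernel H := by
    rw [← hNs]
    exact hxN
  have hx1 : x ≠ 1 := fun e => hxK (Or.inl e)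
  have h1 : ∃ g : G, x ∈ MulAut.conj g • H := by
    by_contra hcon
    push_neg at hcon
    exact hxK (Or.inr hcon)
  obtain ⟨g, hg⟩ := h1
  rw [Cfsg.Agent.Lib.Carter.cj_eq_smul, Cfsg.Agent.Lib.Carter.mem_cj] at hg
  let h := g⁻¹ * x * g
  have hhH : h ∈ H := hg
  have hh1 : h ≠ 1 := by
    intro e
    apply hx1
    have e2 : x = g * h * g⁻¹ := by
      show x = g * (g⁻¹ * x * g) * g⁻¹
      group
    rw [e2, e]
    group
  have hhM : h ∈ M := by
    have := hMn.conj_mem x hx g⁻¹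
    have e : g⁻¹ * x * g⁻¹⁻¹ = h := by
      show _ = g⁻¹ * x * g
      rw [inv_inv]
    rwa [e] at this
  obtain ⟨k, hk, hk1⟩ := (Subgroup.bot_or_exists_ne_one N).resolve_left hN
  have hHN : H ≤ Subgroup.normalizer (N : Set G) := by
    intro y _
    exact Subgroup.mem_normalizer_iff.2 (fun y' => ⟨fun hy => hNn.conj_mem y' hy y, fun hy => by
      have := hNn.conj_mem _ hy y⁻¹
      have e : y⁻¹ * (y * y' * y⁻¹) * y⁻¹⁻¹ = y' := by group
      rwa [e] at this⟩)
  have hcop := Cfsg.Agent.Lib.FrobC.coprime_of_fpf H N hHN hfpf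
  let z := k * h * k⁻¹ * h⁻¹
  have hzN : z ∈ N := by
    have e : z = k * (h * k⁻¹ * h⁻¹) := by
      show k * h * k⁻¹ * h⁻¹ = _
      group
    rw [e]
    exact N.mul_mem hk (hNn.conj_mem _ (N.inv_mem hk) _)
  have hzM : z ∈ M := M.mul_mem (hMn.conj_mem _ hhM _) (M.inv_mem hhM)
  have hz1 : z ≠ 1 := by
    intro e
    have e1 : k * h * k⁻¹ = h := mul_inv_eq_one.1 e
    have e2 : k * h = h * k := mul_inv_eq_iff_eq_mul.1 e1
    have h2 : k ∈ N ⊓ Subgroup.centralizer {h} := by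
      refine ⟨hk, Subgroup.mem_centralizer_iff.2 ?_⟩
      intro y hy
      rw [Set.mem_singleton_iff] at hy
      subst hy
      exact e2.symm
    rw [hfpf h hhH hh1, Subgroup.mem_bot] at h2
    exact hk1 h2
  have hc : (orderOf (⟨z, hzM⟩ : M)).Coprime (orderOf (⟨h, hhM⟩ : M)) := by
    rw [Subgroup.orderOf_mk, Subgroup.orderOf_mk]
    have h1 : orderOf z ∣ Nat.card N := by
      have := orderOf_dvd_natCard (⟨z, hzN⟩ : N)
      rwa [Subgroup.orderOf_mk] at this
    have h2 : orderOf h ∣ Nat.card H := by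
      have := orderOf_dvd_natCard (⟨h, hhH⟩ : H)
      rwa [Subgroup.orderOf_mk] at this
    exact Nat.Coprime.coprime_dvd_left h1 (Nat.Coprime.coprime_dvd_right h2 hcop.symm)
  haveI := hM
  have hcomm := Cfsg.Agent.Lib.TypeP.nilp_comm_coprime _ (⟨z, hzM⟩ : M) rfl (⟨h, hhM⟩ : M) hc
  have hcomm' : z * h = h * z := congrArg Subtype.val hcomm
  have h2 : z ∈ N ⊓ Subgroup.centralizer {h} := by
    refine ⟨hzN, Subgroup.mem_centralizer_iff.2 ?_⟩
    intro y hy
    rw [Set.mem_singleton_iff] at hy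
    subst hy
    exact hcomm'.symm
  rw [hfpf h hhH hh1, Subgroup.mem_bot] at h2
  exact hz1 h2

/-- Frobenius complements of a finite group are conjugate. -/
theorem conj (H H₀ : Subgroup G) (hH : IsFrobeniusComplement H) (hH₀ : IsFrobeniusComplement H₀) :
    ∃ g : G, MulAut.conj g • H₀ = H := by
  classical
  have setup : ∀ H : Subgroup G, IsFrobeniusComplement H → ∃ N : Subgroup G, N.Normal ∧
      (N : Set G) = frobeniusKernel H ∧ Group.IsNilpotent N ∧ Subgroup.IsComplement' N H ∧ N ≠ ⊥ ∧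
      ∀ h ∈ H, h ≠ 1 → N ⊓ Subgroup.centralizer {h} = ⊥ := by
    intro H hH
    obtain ⟨N, hNs, hNn, hc⟩ := Cfsg.Agent.S0035.result H hH
    obtain ⟨N', hNs', hNn', hnil⟩ := Cfsg.Agent.S0042.result H hH
    have e : N' = N := SetLike.coe_injective (hNs'.trans hNs.symm)
    rw [e] at hnil
    have hN : N ≠ ⊥ := by
      rintro rfl
      apply hH.2.1
      have := hc.sup_eq_top
      rwa [bot_sup_eq] at this
    exact ⟨N, hNn, hNs, hnil, hc, hN, (Cfsg.Agent.S0039.result N H hc hN hH.1).1 hH⟩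
  obtain ⟨N, hNn, hNs, hnil, hc, hN, hfpf⟩ := setup H hH
  obtain ⟨N₀, hNn₀, hNs₀, hnil₀, hc₀, hN₀, hfpf₀⟩ := setup H₀ hH₀
  haveI := hNn
  haveI := hNn₀
  have h1 : N₀ ≤ N := le_kernel H N hNs hN hfpf N₀ hnil₀
  have h2 : N ≤ N₀ := le_kernel H₀ N₀ hNs₀ hN₀ hfpf₀ N hnil
  have e : N₀ = N := le_antisymm h1 h2
  subst e
  have hcard : Nat.card H = Nat.card H₀ := by
    have a1 := hc.card_mul_card
    have a2 := hc₀.card_mul_card
    rw [← a2] at a1
    exact Nat.eq_of_mul_eq_mul_left Nat.card_pos a1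
  have hHN : H₀ ≤ Subgroup.normalizer (N₀ : Set G) := by
    intro y _
    exact Subgroup.mem_normalizer_iff.2 (fun y' => ⟨fun hy => hNn₀.conj_mem y' hy y, fun hy => by
      have := hNn₀.conj_mem _ hy y⁻¹
      have e : y⁻¹ * (y * y' * y⁻¹) * y⁻¹⁻¹ = y' := by group
      rwa [e] at this⟩)
  have hcop := (Cfsg.Agent.Lib.FrobC.coprime_of_fpf H₀ N₀ hHN hfpf₀).symm
  obtain ⟨g, hg⟩ := Cfsg.Agent.Lib.SchurZ.sz_conj N₀ H₀ H (Or.inl (by haveI := hnil₀; infer_instance))
    hc₀.sup_eq_top hcop hcard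
  exact ⟨g, by rw [Cfsg.Agent.Lib.Carter.cj_eq_smul]; exact hg⟩

end Cfsg.Agent.Lib.FrobConj
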