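import Cfsg.Agent.Lib.GlauFpf
import Cfsg.Agent.Lib.GlaubM
import Cfsg.Agent.Lib.CharLift
import Cfsg.Agent.Lib.CharCliff

/-!
# Fully ramified sections of Frobenius quotients

Factorisation of characters above an extendible irreducible character, the coset sum over a
Frobenius kernel, and the congruence on the ramification degree.
-/

set_option autoImplicit false
set_option linter.all false

namespace Cfsg.Agent.Lib.FrobRam

open Cfsg Cfsg.Agent.Lib.CharOps Cfsg.Agent.Lib.CharIrr Cfsg.Agent.Lib.CharAb Cfsg.Agent.Lib.CharGal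
  Cfsg.Agent.Lib.GlauCyc Cfsg.Agent.Lib.CharInflate Cfsg.Agent.Lib.CharKernel
open scoped ComplexConjugate

universe u

section Factor

variable {X : Type u} [Group X] [Fintype X] (N : Subgroup X) [hN : N.Normal] [Fintype N]

/-- A character whose restriction is a multiple of the restriction of `ψ`, with the latter
irreducible, is `ψ` times the inflation of a character of the quotient. -/
theorem gallagher_factor {ψ ξ : X → ℂ} (hψ : IsCharacter X ψ) (hres : IsIrrCharacter N (fun n : N => ψ n))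
    (hξ : IsCharacter X ξ) {e : ℂ} (he : ∀ n : N, ξ n = e * ψ n) :
    ∃ b : X ⧸ N → ℂ, IsCharacter (X ⧸ N) b ∧ ∀ x, ξ x = ψ x * b (x : X ⧸ N) := by
  classical
  have hψirr : IsIrrCharacter X ψ := by
    have h1 := isIrr_mul_inflate N hψ hres ⟨fun _ => 1, Cfsg.Agent.Lib.CharIso.isIrr_one⟩
    have h2 : (fun g : X => ψ g * (⟨fun _ => 1, Cfsg.Agent.Lib.CharIso.isIrr_one⟩ : IrrCharacter (X ⧸ N)).1 (g : X ⧸ N)) = ψ := by
      funext g
      simp
    rwa [show (fun g : X => ψ g * ((⟨fun _ => 1, Cfsg.Agent.Lib.CharIso.isIrr_one⟩ : IrrCharacter (X ⧸ N)) : X ⧸ N → ℂ) (g : X ⧸ N)) = ψ from h2] at h1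
  have hn : ∀ β : IrrCharacter (X ⧸ N), ∃ k : ℕ, classInner ξ (fun g => ψ g * (β : X ⧸ N → ℂ) (g : X ⧸ N)) = k :=
    fun β => exists_nat_classInner hξ (isCharacter_mul hψ (IsIrrCharacter.isCharacter' (isIrr_inflate N β.2)))
  choose c hc using hn
  let b : X ⧸ N → ℂ := ∑ β : IrrCharacter (X ⧸ N), ((c β : ℂ)) • (β : X ⧸ N → ℂ)
  have hb : IsCharacter (X ⧸ N) b := by
    apply isCharacter_sum
    intro β _
    exact isCharacter_nsmul (IsIrrCharacter.isCharacter' β.2) (c β)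
  refine ⟨b, hb, ?_⟩
  let φ : IrrCharacter (X ⧸ N) → X → ℂ := fun β g => ψ g * (β : X ⧸ N → ℂ) (g : X ⧸ N)
  have hφirr : ∀ β, IsIrrCharacter X (φ β) := fun β => isIrr_mul_inflate N hψ hres β
  have hbexp : (fun x : X => ψ x * b (x : X ⧸ N)) = ∑ β : IrrCharacter (X ⧸ N), (c β : ℂ) • φ β := by
    funext x
    simp only [b, φ, Finset.sum_apply, Pi.smul_apply, smul_eq_mul, Finset.mul_sum]
    refine Finset.sum_congr rfl fun β _ => ?_
    ring
  have hr : IsClassFunction X (fun x : X => ξ x - ψ x * b (x : X ⧸ N)) := by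
    intro g x
    have h1 := IsCharacter.isClassFunction' hξ g x
    have h2 := IsCharacter.isClassFunction' hψ g x
    have h3 := IsCharacter.isClassFunction' hb (g : X ⧸ N) (x : X ⧸ N)
    simp only
    rw [h1, h2]
    rw [show ((x * g * x⁻¹ : X) : X ⧸ N) = (x : X ⧸ N) * (g : X ⧸ N) * (x : X ⧸ N)⁻¹ from rfl, h3]
  have h0 : (fun x : X => ξ x - ψ x * b (x : X ⧸ N)) = 0 := by
    apply eq_zero_of_classInner hr
    intro τ hτ
    have hsplit : (fun x : X => ξ x - ψ x * b (x : X ⧸ N)) = ξ + (-1 : ℂ) • (fun x : X => ψ x * b (x : X ⧸ N)) := by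
      funext x
      simp [sub_eq_add_neg]
    rw [hsplit, classInner_add_left, classInner_smul_left, hbexp, classInner_sum_left]
    simp only [classInner_smul_left]
    by_cases hex : ∃ β₀, τ = φ β₀
    · obtain ⟨β₀, rfl⟩ := hex
      rw [Finset.sum_eq_single β₀]
      · rw [classInner_irr (hφirr β₀) (hφirr β₀), if_pos rfl, hc β₀]
        simp [φ]
      · intro β _ hβ
        rw [classInner_irr (hφirr β) (hφirr β₀), if_neg, mul_zero]
        intro h
        exact hβ (gallagher_inj N hψ hres β β₀ h)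
      · intro h
        exact absurd (Finset.mem_univ _) h
    · have h1 : ∀ β, classInner (φ β) τ = 0 := by
        intro β
        rw [classInner_irr (hφirr β) hτ, if_neg]
        intro h
        exact hex ⟨β, h.symm⟩
      have h2 : classInner ξ τ = 0 := by
        by_contra hne
        obtain ⟨θ', hθ', hθ'2⟩ := exists_constituent_restrict N hτ
        have h3 := Cfsg.Agent.Lib.GlaubM.over_trans hξ N.subtype ⟨τ, hτ⟩ ⟨θ', hθ'⟩ hne hθ'2
        have h4 : (fun x : N => ξ (N.subtype x)) = e • (fun n : N => ψ n) := by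
          funext n
          exact he n
        rw [h4, classInner_smul_left] at h3
        have h5 : classInner (fun n : N => ψ n) θ' ≠ 0 := right_ne_zero_of_mul h3
        rw [classInner_irr hres hθ'] at h5
        have h6 : (fun n : N => ψ n) = θ' := by
          by_contra h7
          exact h5 (if_neg h7)
        rw [← h6] at hθ'2
        obtain ⟨β, hβ⟩ := gallagher_surj N hψirr hres hτ hθ'2
        exact hex ⟨β, hβ⟩
      rw [h2]
      simp [h1]
  intro x
  have h1 := congrFun h0 x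
  simp only [Pi.zero_apply] at h1
  exact sub_eq_zero.mp h1

end Factor

section Frob

variable {Γ : Type u} [Group Γ] [Fintype Γ]

/-- The coset sum of a class function over the Frobenius kernel. -/
theorem frob_sum (G N : Subgroup Γ) [hG : G.Normal] [hN : N.Normal] [Fintype G] [Fintype N] (hNG : N ≤ G) (y : Γ)
    (hfrob : ∀ g : Γ, g ∈ G → y * g * y⁻¹ * g⁻¹ ∈ N → g ∈ N) {F : Γ → ℂ} (hF : ∀ a b, F (a * b * a⁻¹) = F b) :
    ∑ g : G, F (y * g) = (N.relIndex G : ℂ) * ∑ n : N, F (y * n) := by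
  classical
  let N' : Subgroup G := N.subgroupOf G
  letI : Fintype (G ⧸ N') := Fintype.ofFinite _
  let s : G ⧸ N' → G := fun q => Quotient.out q
  have hs : ∀ q : G ⧸ N', ((s q : G) : G ⧸ N') = q := fun q => QuotientGroup.out_eq' q
  have hmem : ∀ (q : G ⧸ N') (n : N), y⁻¹ * (s q : Γ) * y * n * (s q : Γ)⁻¹ ∈ G := by
    intro q n
    apply G.mul_mem (G.mul_mem _ (hNG n.2)) (G.inv_mem (s q).2)
    have := hG.conj_mem _ (s q).2 y⁻¹
    simpa using this
  let Φ : (G ⧸ N') × N → G := fun p => ⟨y⁻¹ * (s p.1 : Γ) * y * p.2 * (s p.1 : Γ)⁻¹, hmem p.1 p.2⟩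
  have hinj : Function.Injective Φ := by
    rintro ⟨q, n⟩ ⟨q', n'⟩ h
    have h1 : y⁻¹ * (s q : Γ) * y * n * (s q : Γ)⁻¹ = y⁻¹ * (s q' : Γ) * y * n' * (s q' : Γ)⁻¹ := congrArg Subtype.val h
    have hq : q = q' := by
      set t : Γ := (s q' : Γ)⁻¹ * (s q : Γ) with ht
      have htG : t ∈ G := G.mul_mem (G.inv_mem (s q').2) (s q).2
      have h2 : y * t * y⁻¹ * t⁻¹ ∈ N := by
        have h3 : t * y * n * t⁻¹ = y * n' := by
          have h4 : (s q : Γ) * y * n * (s q : Γ)⁻¹ = (s q' : Γ) * y * n' * (s q' : Γ)⁻¹ := by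
            have := congrArg (fun z => y * z) h1
            simpa [mul_assoc] using this
          rw [ht]
          simp only [mul_inv_rev, inv_inv]
          calc (s q' : Γ)⁻¹ * (s q : Γ) * y * n * ((s q : Γ)⁻¹ * (s q' : Γ))
              = (s q' : Γ)⁻¹ * ((s q : Γ) * y * n * (s q : Γ)⁻¹) * (s q' : Γ) := by group
            _ = (s q' : Γ)⁻¹ * ((s q' : Γ) * y * n' * (s q' : Γ)⁻¹) * (s q' : Γ) := by rw [h4]
            _ = y * n' := by group
        have h5 : t * y * t⁻¹ * y⁻¹ = y * (n' * (t * (n : Γ)⁻¹ * t⁻¹)) * y⁻¹ := by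
          have h6 : t * y = y * n' * t * (n : Γ)⁻¹ := by
            have h7 : t * y * n = y * n' * t := by
              calc t * y * n = t * y * n * t⁻¹ * t := by group
                _ = y * n' * t := by rw [h3]
            calc t * y = t * y * n * (n : Γ)⁻¹ := by group
              _ = y * n' * t * (n : Γ)⁻¹ := by rw [h7]
          rw [h6]
          group
        have h8 : t * y * t⁻¹ * y⁻¹ ∈ N := by
          rw [h5]
          apply hN.conj_mem
          apply N.mul_mem n'.2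
          exact hN.conj_mem _ (N.inv_mem n.2) t
        have h9 := N.inv_mem h8
        have h10 : (t * y * t⁻¹ * y⁻¹)⁻¹ = y * t * y⁻¹ * t⁻¹ := by group
        rwa [h10] at h9
      have h11 : t ∈ N := hfrob t htG h2
      have h12 : (s q' : G)⁻¹ * s q ∈ N' := by
        show (((s q' : G)⁻¹ * s q : G) : Γ) ∈ N
        simpa [ht] using h11
      rw [← hs q, ← hs q']
      exact (QuotientGroup.eq.2 h12).symm
    subst hq
    have h13 : (n : Γ) = n' := by
      have h14 : y⁻¹ * (s q : Γ) * y * n = y⁻¹ * (s q : Γ) * y * n' := mul_right_cancel h1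
      exact mul_left_cancel h14
    rw [Subtype.ext h13]
  have hcard : Fintype.card ((G ⧸ N') × N) = Fintype.card G := by
    rw [Fintype.card_prod, ← Nat.card_eq_fintype_card, ← Nat.card_eq_fintype_card, ← Nat.card_eq_fintype_card]
    have h1 : Nat.card (G ⧸ N') = N.relIndex G := rfl
    rw [h1, mul_comm]
    have h2 := Subgroup.card_mul_index N'
    have h3 : Nat.card N' = Nat.card N := Nat.card_congr (Subgroup.subgroupOfEquivOfLe hNG).toEquiv
    rw [← h3]
    exact h2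
  have hbij : Function.Bijective Φ := (Fintype.bijective_iff_injective_and_card Φ).2 ⟨hinj, hcard⟩
  rw [← hbij.sum_comp (fun g : G => F (y * g)), Fintype.sum_prod_type]
  have h2 : ∀ (q : G ⧸ N') (n : N), F (y * (Φ (q, n) : G)) = F (y * n) := by
    intro q n
    show F (y * (y⁻¹ * (s q : Γ) * y * n * (s q : Γ)⁻¹)) = _
    rw [show y * (y⁻¹ * (s q : Γ) * y * n * (s q : Γ)⁻¹) = (s q : Γ) * (y * n) * (s q : Γ)⁻¹ by group, hF]
  simp only [h2]
  rw [Finset.sum_const, Finset.card_univ, ← Nat.card_eq_fintype_card, nsmul_eq_mul]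
  rfl

end Frob

/-- Extension across a cyclic quotient. -/
theorem ext_of_cyclic {X : Type*} [Group X] [Finite X] (N : Subgroup X) [hN : N.Normal] (hcyc : IsCyclic (X ⧸ N))
    (ϑ : N → ℂ) (hϑ : IsIrrCharacter N ϑ)
    (hinv : ∀ (g : X) (n : N), ϑ ⟨g * n * g⁻¹, hN.conj_mem (n : X) n.2 g⟩ = ϑ n) :
    ∃ χ : X → ℂ, IsIrrCharacter X χ ∧ ∀ n : N, χ n = ϑ n := by
  obtain ⟨d, ρ, hρ, rfl⟩ := hϑ
  haveI := hρ
  obtain ⟨σ, hσ⟩ := Cfsg.Agent.Lib.CharLift.extends_of_cyclic N ρ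
    (Cfsg.Agent.Lib.CharLift.piL_surjective N ρ hinv) hcyc
  obtain ⟨h1, h2⟩ := Cfsg.Agent.Lib.CharLift.isIrr_of_extension N ρ σ hσ
  exact ⟨_, h1, h2⟩

section Main

variable {Γ : Type u} [Group Γ] [Fintype Γ]

/-- Restriction of a fully ramified constituent. -/
theorem ram_restrict (G N : Subgroup Γ) [hG : G.Normal] [hN : N.Normal] [Fintype G] [Fintype N] (hNG : N ≤ G)
    (θ : IrrCharacter N) (hinv : ∀ (x : Γ) (n : N), (θ : N → ℂ) ⟨x * n * x⁻¹, hN.conj_mem n n.2 x⟩ = (θ : N → ℂ) n)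
    (χ : IrrCharacter G) (e : ℕ)
    (hram : Cfsg.indFun (N.subgroupOf G) (fun n : N.subgroupOf G => (θ : N → ℂ) ⟨(n : G), n.2⟩) = fun g => (e : ℂ) * (χ : G → ℂ) g) :
    e ≠ 0 ∧ ∀ n : N, (χ : G → ℂ) ⟨n, hNG n.2⟩ = (e : ℂ) * (θ : N → ℂ) n := by
  classical
  let N₁ : Subgroup G := N.subgroupOf G
  letI : Fintype N₁ := Fintype.ofFinite _
  let θ₁ : N₁ → ℂ := fun n => (θ : N → ℂ) ⟨(n : G), n.2⟩
  have hθ₁ : IsIrrCharacter N₁ θ₁ :=
    Cfsg.Agent.Lib.CharCliff.isIrr_comp_mulEquiv (Subgroup.subgroupOfEquivOfLe hNG) θ.2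
  have hk0 : (N₁.index : ℂ) ≠ 0 := by exact_mod_cast Subgroup.index_ne_zero_of_finite
  have hind : ∀ n : N₁, Cfsg.indFun N₁ θ₁ (n : G) = (N₁.index : ℂ) * θ₁ n := by
    intro n
    rw [indFun_apply]
    have h1 : ∀ x : G, extendByZero N₁ θ₁ (x⁻¹ * (n : G) * x) = θ₁ n := by
      intro x
      have h2 : x⁻¹ * (n : G) * x ∈ N₁ := by
        have := (inferInstance : N₁.Normal).conj_mem _ n.2 x⁻¹
        simpa using this
      rw [extendByZero_of_mem N₁ θ₁ h2]
      have h3 := hinv ((x⁻¹ : G) : Γ) ⟨((n : G) : Γ), n.2⟩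
      show (θ : N → ℂ) ⟨((x⁻¹ * (n : G) * x : G) : Γ), h2⟩ = (θ : N → ℂ) ⟨((n : G) : Γ), n.2⟩
      rw [← h3]
      congr 2
      simp
    simp only [h1]
    rw [Finset.sum_const, Finset.card_univ, ← Nat.card_eq_fintype_card, nsmul_eq_mul]
    have h4 := Subgroup.card_mul_index N₁
    have hN0 : (Nat.card N₁ : ℂ) ≠ 0 := by exact_mod_cast Nat.card_pos.ne'
    rw [← h4]
    push_cast
    field_simp
  have hrel : ∀ n : N₁, (e : ℂ) * (χ : G → ℂ) n = (N₁.index : ℂ) * θ₁ n := by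
    intro n
    rw [← hind n, hram]
  have hθ1 : θ₁ 1 ≠ 0 := degree_ne_zero hθ₁
  have he0 : (e : ℂ) ≠ 0 := by
    intro h0
    have h1 := hrel 1
    rw [h0, zero_mul] at h1
    exact (mul_ne_zero hk0 hθ1) h1.symm
  have hfrob := frobenius_reciprocity N₁ θ₁ (IsCharacter.isClassFunction' (IsIrrCharacter.isCharacter' χ.2))
  rw [hram] at hfrob
  have h2 : (fun g : G => (e : ℂ) * (χ : G → ℂ) g) = (e : ℂ) • (χ : G → ℂ) := rfl
  rw [h2, classInner_smul_left, classInner_irr χ.2 χ.2, if_pos rfl, mul_one] at hfrob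
  have h3 : (fun h : N₁ => (χ : G → ℂ) h) = ((N₁.index : ℂ) / (e : ℂ)) • θ₁ := by
    funext n
    have := hrel n
    simp only [Pi.smul_apply, smul_eq_mul]
    field_simp
    linear_combination this
  rw [h3, classInner_smul_right, classInner_irr hθ₁ hθ₁, if_pos rfl, mul_one, map_div₀, Complex.conj_natCast, Complex.conj_natCast] at hfrob
  have h4 : (N₁.index : ℂ) = (e : ℂ) * (e : ℂ) := by
    field_simp at hfrob
    rw [← hfrob]
    ring
  refine ⟨fun h => he0 (by simp [h]), fun n => ?_⟩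
  have h5 := hrel ⟨⟨n, hNG n.2⟩, n.2⟩
  rw [h4] at h5
  exact mul_left_cancel₀ he0 (by rw [h5]; ring)

/-- A fully ramified constituent is invariant. -/
theorem ram_invariant (G N : Subgroup Γ) [hG : G.Normal] [hN : N.Normal] [Fintype G] [Fintype N] (hNG : N ≤ G)
    (θ : IrrCharacter N) (hinv : ∀ (x : Γ) (n : N), (θ : N → ℂ) ⟨x * n * x⁻¹, hN.conj_mem n n.2 x⟩ = (θ : N → ℂ) n)
    (χ : IrrCharacter G) (e : ℕ)
    (hram : Cfsg.indFun (N.subgroupOf G) (fun n : N.subgroupOf G => (θ : N → ℂ) ⟨(n : G), n.2⟩) = fun g => (e : ℂ) * (χ : G → ℂ) g)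
    (x : Γ) (g : G) : (χ : G → ℂ) ⟨x * g * x⁻¹, hG.conj_mem g g.2 x⟩ = (χ : G → ℂ) g := by
  classical
  obtain ⟨he, hres⟩ := ram_restrict G N hNG θ hinv χ e hram
  let N₁ : Subgroup G := N.subgroupOf G
  letI : Fintype N₁ := Fintype.ofFinite _
  let θ₁ : N₁ → ℂ := fun n => (θ : N → ℂ) ⟨(n : G), n.2⟩
  have hθ₁ : IsIrrCharacter N₁ θ₁ :=
    Cfsg.Agent.Lib.CharCliff.isIrr_comp_mulEquiv (Subgroup.subgroupOfEquivOfLe hNG) θ.2
  have he0 : (e : ℂ) ≠ 0 := by exact_mod_cast he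
  let σ : G ≃* G := MulAut.conjNormal x
  have hσ : ∀ g : G, ((σ g : G) : Γ) = x * g * x⁻¹ := fun g => MulAut.conjNormal_apply x g
  let χx : G → ℂ := fun g => (χ : G → ℂ) (σ g)
  have hχx : IsIrrCharacter G χx := Cfsg.Agent.Lib.CharCliff.isIrr_comp_mulEquiv σ χ.2
  have hfrob := frobenius_reciprocity N₁ θ₁ (IsCharacter.isClassFunction' (IsIrrCharacter.isCharacter' hχx))
  rw [hram] at hfrob
  have h2 : (fun g : G => (e : ℂ) * (χ : G → ℂ) g) = (e : ℂ) • (χ : G → ℂ) := rfl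
  rw [h2, classInner_smul_left] at hfrob
  have h3 : (fun h : N₁ => χx h) = (e : ℂ) • θ₁ := by
    funext n
    show (χ : G → ℂ) (σ n) = (e : ℂ) * (θ : N → ℂ) ⟨(n : G), n.2⟩
    have h4 : (x * ((n : G) : Γ) * x⁻¹) ∈ N := hN.conj_mem _ n.2 x
    have h5 : σ n = ⟨((⟨x * ((n : G) : Γ) * x⁻¹, h4⟩ : N) : Γ), hNG h4⟩ := Subtype.ext (hσ n)
    rw [h5, hres]
    congr 1
    exact hinv x ⟨((n : G) : Γ), n.2⟩
  rw [h3, classInner_smul_right, classInner_irr hθ₁ hθ₁, if_pos rfl, mul_one, Complex.conj_natCast] at hfrob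
  have h6 : classInner (χ : G → ℂ) χx = 1 := by
    apply mul_left_cancel₀ he0
    rw [hfrob, mul_one]
  rw [classInner_irr χ.2 hχx] at h6
  have h7 : (χ : G → ℂ) = χx := by
    by_contra h8
    rw [if_neg h8] at h6
    exact zero_ne_one h6
  have h9 := congrFun h7 g
  have h10 : (χ : G → ℂ) ⟨x * g * x⁻¹, hG.conj_mem g g.2 x⟩ = χx g := by
    show _ = (χ : G → ℂ) (σ g)
    congr 1
  rw [h10]
  exact h9.symm

theorem index_dvd (G N : Subgroup Γ) [hG : G.Normal] [hN : N.Normal] [Fintype G] [Fintype N] (hNG : N ≤ G)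
    (hGlt : G ≠ ⊤) (hcyc : IsCyclic (Γ ⧸ G))
    (hfrob : ∀ x : Γ, x ∉ G → ∀ g : Γ, g ∈ G → x * g * x⁻¹ * g⁻¹ ∈ N → g ∈ N) (θ : IrrCharacter N)
    (hinv : ∀ (x : Γ) (n : N), (θ : N → ℂ) ⟨x * n * x⁻¹, hN.conj_mem n n.2 x⟩ = (θ : N → ℂ) n)
    (χ : IrrCharacter G) (e : ℕ)
    (hram : Cfsg.indFun (N.subgroupOf G) (fun n : N.subgroupOf G => (θ : N → ℂ) ⟨(n : G), n.2⟩) = fun g => (e : ℂ) * (χ : G → ℂ) g) :
    (G.index : ℤ) ∣ (e : ℤ) - 1 ∨ (G.index : ℤ) ∣ (e : ℤ) + 1 := by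
  classical
  obtain ⟨he, hres⟩ := ram_restrict G N hNG θ hinv χ e hram
  have hχinv := ram_invariant G N hNG θ hinv χ e hram
  obtain ⟨χh, hχh, hχhres⟩ := ext_of_cyclic G hcyc (χ : G → ℂ) χ.2 hχinv
  have hχhc := IsIrrCharacter.isCharacter' hχh
  have hχres' : IsIrrCharacter G (fun g : G => χh g) := by
    have : (fun g : G => χh g) = (χ : G → ℂ) := funext hχhres
    rw [this]
    exact χ.2
  -- the generator
  obtain ⟨q, hq⟩ := hcyc
  obtain ⟨x, rfl⟩ := QuotientGroup.mk_surjective q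
  have hord : orderOf (x : Γ ⧸ G) = G.index := by
    rw [orderOf_eq_card_of_forall_mem_zpowers hq]
    rfl
  have hidx2 : 2 ≤ G.index := by
    have h1 : G.index ≠ 0 := Subgroup.index_ne_zero_of_finite
    have h2 : G.index ≠ 1 := fun h => hGlt (Subgroup.index_eq_one.1 h)
    omega
  have hzG : ∀ i : ℤ, x ^ i ∈ G → (G.index : ℤ) ∣ i := by
    intro i hi
    rw [← hord, orderOf_dvd_iff_zpow_eq_one]
    rw [← QuotientGroup.mk_zpow]
    exact (QuotientGroup.eq_one_iff _).2 hi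
  have hxG : x ∉ G := by
    intro h
    have h1 := hzG 1 (by simpa using h)
    have h2 : (G.index : ℤ) ∣ 1 := h1
    have h3 := Int.le_of_dvd one_pos h2
    omega
  have hxm : x ^ (G.index : ℤ) ∈ N := by
    have h1 : x ^ (G.index : ℤ) ∈ G := by
      rw [zpow_natCast]
      exact Subgroup.pow_index_mem G x
    apply hfrob x hxG _ h1
    have h2 : x * x ^ (G.index : ℤ) * x⁻¹ * (x ^ (G.index : ℤ))⁻¹ = 1 := by
      have h3 : Commute x (x ^ (G.index : ℤ)) := (Commute.refl x).zpow_right _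
      rw [h3.eq]
      group
    rw [h2]
    exact N.one_mem
  have hzN : ∀ i : ℤ, x ^ i ∈ G → x ^ i ∈ N := by
    intro i hi
    obtain ⟨k, rfl⟩ := hzG i hi
    rw [zpow_mul]
    exact N.zpow_mem hxm k
  -- the subgroup `H`
  let H : Subgroup Γ := Subgroup.zpowers x ⊔ N
  have hNH : N ≤ H := le_sup_right
  have hxH : x ∈ H := (le_sup_left : Subgroup.zpowers x ≤ H) (Subgroup.mem_zpowers x)
  have hHG : ∀ y ∈ H, y ∈ G → y ∈ N := by
    intro y hy hyG
    obtain ⟨a, ha, n, hn, rfl⟩ := Subgroup.mem_sup_of_normal_right.1 hy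
    obtain ⟨i, rfl⟩ := ha
    have h1 : x ^ i ∈ G := by
      have := G.mul_mem hyG (G.inv_mem (hNG hn))
      simpa using this
    exact N.mul_mem (hzN i h1) hn
  letI : Fintype H := Fintype.ofFinite _
  let N₂ : Subgroup H := N.subgroupOf H
  haveI hN₂ : N₂.Normal := inferInstance
  letI : Fintype N₂ := Fintype.ofFinite _
  let f : H →* Γ ⧸ G := (QuotientGroup.mk' G).comp H.subtype
  have hfN : ∀ n ∈ N₂, f n = 1 := fun n hn => (QuotientGroup.eq_one_iff _).2 (hNG hn)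
  let g : H ⧸ N₂ →* Γ ⧸ G := QuotientGroup.lift N₂ f hfN
  have hginj : Function.Injective g := by
    rw [injective_iff_map_eq_one]
    intro q hq'
    obtain ⟨h, rfl⟩ := QuotientGroup.mk_surjective q
    have h1 : ((h : Γ) : Γ ⧸ G) = 1 := hq'
    rw [QuotientGroup.eq_one_iff] at h1
    exact (QuotientGroup.eq_one_iff _).2 (hHG h h.2 h1)
  have hgsurj : Function.Surjective g := by
    intro q
    obtain ⟨i, rfl⟩ := hq q
    have hi : x ^ i ∈ H := H.zpow_mem hxH i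
    refine ⟨((⟨x ^ i, hi⟩ : H) : H ⧸ N₂), ?_⟩
    show ((x ^ i : Γ) : Γ ⧸ G) = _
    rw [QuotientGroup.mk_zpow]
  have hQcard : Nat.card (H ⧸ N₂) = G.index := by
    rw [Nat.card_congr (Equiv.ofBijective g ⟨hginj, hgsurj⟩)]
    rfl
  have hQcyc : IsCyclic (H ⧸ N₂) := by
    haveI : IsCyclic (Γ ⧸ G) := ⟨(x : Γ ⧸ G), hq⟩
    exact isCyclic_of_injective g hginj
  have hQab : ∀ a b : H ⧸ N₂, a * b = b * a := by
    obtain ⟨g₀, hg₀⟩ := hQcyc
    intro a b
    obtain ⟨i, rfl⟩ := hg₀ a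
    obtain ⟨j, rfl⟩ := hg₀ b
    exact (Commute.refl g₀).zpow_zpow i j
  letI : Fintype (H ⧸ N₂) := Fintype.ofFinite _
  -- the extension of `θ`
  let θ₂ : N₂ → ℂ := fun n => (θ : N → ℂ) ⟨(n : H), n.2⟩
  have hθ₂ : IsIrrCharacter N₂ θ₂ :=
    Cfsg.Agent.Lib.CharCliff.isIrr_comp_mulEquiv (Subgroup.subgroupOfEquivOfLe hNH) θ.2
  obtain ⟨ϑ, hϑ, hϑres⟩ := ext_of_cyclic N₂ hQcyc θ₂ hθ₂ (fun h n => hinv (h : Γ) ⟨((n : H) : Γ), n.2⟩)
  have hϑc := IsIrrCharacter.isCharacter' hϑ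
  have hϑres' : IsIrrCharacter N₂ (fun n : N₂ => ϑ n) := by
    have : (fun n : N₂ => ϑ n) = θ₂ := funext hϑres
    rw [this]
    exact hθ₂
  -- the factorisation
  have hξc : IsCharacter H (fun h : H => χh h) := isCharacter_restrict H hχhc
  have hξres : ∀ n : N₂, χh ((n : H) : Γ) = (e : ℂ) * ϑ n := by
    intro n
    rw [hϑres n]
    have h1 := hχhres ⟨((n : H) : Γ), hNG n.2⟩
    have h2 := hres ⟨((n : H) : Γ), n.2⟩
    simp only at h1 h2
    rw [h1, h2]
  obtain ⟨b, hb, hfac⟩ := gallagher_factor N₂ hϑc hϑres' hξc hξres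
  -- the value at the identity
  have hb1 : b 1 = e := by
    have h1 := hfac 1
    have h2 := hξres 1
    have h3 : (((1 : H) : H ⧸ N₂)) = 1 := rfl
    rw [h3] at h1
    have h4 : ϑ ((1 : H)) ≠ 0 := by
      have := degree_ne_zero hϑ
      exact this
    apply mul_left_cancel₀ h4
    have h5 : χh ((1 : H) : Γ) = χh (((1 : N₂) : H) : Γ) := rfl
    rw [← h1, h5, h2]
    show _ = ϑ 1 * (e : ℂ)
    rw [mul_comm]
    rfl
  -- absolute value one
  have hbnorm : ∀ y : H ⧸ N₂, y ≠ 1 → b y * conj (b y) = 1 := by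
    intro y hy
    obtain ⟨h, rfl⟩ := QuotientGroup.mk_surjective y
    have hhN : (h : Γ) ∉ N := fun h1 => hy ((QuotientGroup.eq_one_iff _).2 h1)
    have hhG : (h : Γ) ∉ G := fun h1 => hhN (hHG h h.2 h1)
    have hsum1 := coset_norm G hχhc hχres' (h : Γ)
    have hF : ∀ a c : Γ, χh (a * c * a⁻¹) * conj (χh (a * c * a⁻¹)) = χh c * conj (χh c) := by
      intro a c
      rw [IsCharacter.isClassFunction' hχhc]
    have hsum2 := frob_sum G N hNG (h : Γ) (hfrob (h : Γ) hhG) (F := fun z => χh z * conj (χh z)) hF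
    rw [hsum1] at hsum2
    have hsum3 := coset_norm N₂ hϑc hϑres' h
    have hequiv : ∑ n : N, χh ((h : Γ) * n) * conj (χh ((h : Γ) * n)) =
        ∑ u : N₂, χh ((h * u : H) : Γ) * conj (χh ((h * u : H) : Γ)) := by
      symm
      exact Fintype.sum_equiv (Subgroup.subgroupOfEquivOfLe hNH).toEquiv _ _ (fun u => rfl)
    have hterm : ∀ u : N₂, χh ((h * u : H) : Γ) * conj (χh ((h * u : H) : Γ)) =
        (b (h : H ⧸ N₂) * conj (b (h : H ⧸ N₂))) * (ϑ (h * u : H) * conj (ϑ (h * u : H))) := by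
      intro u
      have h1 := hfac (h * u)
      have h2 : ((h * u : H) : H ⧸ N₂) = (h : H ⧸ N₂) := QuotientGroup.mk_mul_of_mem _ u.2
      rw [h2] at h1
      show χh ((h * u : H) : Γ) * _ = _
      have h3 : χh ((h * u : H) : Γ) = ϑ (h * u : H) * b (h : H ⧸ N₂) := h1
      rw [h3, map_mul]
      ring
    rw [hequiv] at hsum2
    simp only [hterm] at hsum2
    rw [← Finset.mul_sum] at hsum2
    have hsum3' : ∑ u : N₂, ϑ (h * u : H) * conj (ϑ (h * u : H)) = Nat.card N₂ := hsum3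
    rw [hsum3'] at hsum2
    have hcardN : Nat.card N₂ = Nat.card N := Nat.card_congr (Subgroup.subgroupOfEquivOfLe hNH).toEquiv
    have hcardG : Nat.card G = N.relIndex G * Nat.card N := by
      have h2 := Subgroup.card_mul_index (N.subgroupOf G)
      have h3 : Nat.card (N.subgroupOf G) = Nat.card N := Nat.card_congr (Subgroup.subgroupOfEquivOfLe hNG).toEquiv
      rw [h3] at h2
      rw [← h2, mul_comm]
      rfl
    rw [hcardN, hcardG] at hsum2
    have hr0 : ((N.relIndex G : ℕ) : ℂ) ≠ 0 := by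
      have : N.relIndex G ≠ 0 := by
        intro h0
        rw [h0, zero_mul] at hcardG
        exact Nat.card_pos.ne' hcardG
      exact_mod_cast this
    have hN0 : (Nat.card N : ℂ) ≠ 0 := by exact_mod_cast Nat.card_pos.ne'
    push_cast at hsum2
    have h5 : ((N.relIndex G : ℂ) * (Nat.card N : ℂ)) * (b (h : H ⧸ N₂) * conj (b (h : H ⧸ N₂))) = ((N.relIndex G : ℂ) * (Nat.card N : ℂ)) * 1 := by
      rw [mul_one]
      conv_rhs => rw [hsum2]
      ring
    exact mul_left_cancel₀ (mul_ne_zero hr0 hN0) h5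
  obtain ⟨μ₀, ε, t, hε, -, hone, -⟩ := Cfsg.Agent.Lib.GlauFpf.linear_form hQab (by rw [hQcard]; exact hidx2) hb hbnorm
  rw [hb1, hQcard] at hone
  have h6 : (e : ℤ) = (G.index : ℤ) * t + ε := by
    exact_mod_cast hone
  rcases hε with rfl | rfl
  · left
    exact ⟨t, by rw [h6]; ring⟩
  · right
    exact ⟨t, by rw [h6]; ring⟩

end Main

end Cfsg.Agent.Lib.FrobRam
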