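import Mathlib
import Cfsg.Prelude.Def_Solvable

/-!
Frobenius groups as semidirect products with a fixed-point-free action.
-/

set_option autoImplicit false
set_option linter.all false

namespace Cfsg.Agent.Lib.FrobSemi

open scoped Pointwise
open SemidirectProduct

section Semi

variable {V C : Type*} [Group V] [Group C] (φ : C →* MulAut V)

theorem inl_mem_conj_iff_aux (hfp : ∀ c v, φ c v = v → c = 1 ∨ v = 1) (g : V ⋊[φ] C)
    (hg : g ∉ (inr : C →* V ⋊[φ] C).range) :
    (inr : C →* V ⋊[φ] C).range ⊓ (MulAut.conj g • (inr : C →* V ⋊[φ] C).range) = ⊥ := by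
  rw [eq_bot_iff]
  rintro x ⟨⟨h₁, rfl⟩, hx⟩
  have hx' : inr h₁ ∈ MulAut.conj g • (inr : C →* V ⋊[φ] C).range := hx
  rw [Subgroup.mem_pointwise_smul_iff_inv_smul_mem] at hx'
  replace hx := hx'
  obtain ⟨h₂, hh₂⟩ := hx
  simp only [MulAut.smul_def, MulAut.conj_inv_apply] at hh₂
  have hv : g.left ≠ 1 := by
    intro h1
    apply hg
    refine ⟨g.right, ?_⟩
    ext
    · simp [h1]
    · simp
  have e : (inr h₁ : V ⋊[φ] C) * g = g * inr h₂ := by
    rw [hh₂]; group
  have el := congrArg SemidirectProduct.left e
  have er := congrArg SemidirectProduct.right e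
  simp only [SemidirectProduct.mul_left, SemidirectProduct.mul_right, SemidirectProduct.left_inr,
    SemidirectProduct.right_inr, one_mul, map_one, MulAut.one_apply, mul_one] at el er
  have hfix : φ h₁ g.left = g.left := by simpa [mul_one] using el
  rcases hfp _ _ hfix with h | h
  · rw [h, map_one]; exact Subgroup.one_mem _
  · exact absurd h hv

theorem complement_of_fpf [Nontrivial V] [Nontrivial C]
    (hfp : ∀ c v, φ c v = v → c = 1 ∨ v = 1) :
    Cfsg.IsFrobeniusComplement (inr : C →* V ⋊[φ] C).range := by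
  refine ⟨?_, ?_, fun g hg => inl_mem_conj_iff_aux φ hfp g hg⟩
  · intro h
    obtain ⟨c, hc⟩ := exists_ne (1 : C)
    have : (inr c : V ⋊[φ] C) ∈ (inr : C →* V ⋊[φ] C).range := ⟨c, rfl⟩
    rw [h, Subgroup.mem_bot] at this
    exact hc (inr_injective (this.trans (map_one _).symm))
  · intro h
    obtain ⟨v, hv⟩ := exists_ne (1 : V)
    have : (inl v : V ⋊[φ] C) ∈ (inr : C →* V ⋊[φ] C).range := by rw [h]; trivial
    obtain ⟨c, hc⟩ := this
    have := congrArg SemidirectProduct.left hc
    simp at this
    exact hv this.symm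

theorem kernel_of_fpf [Finite V] (hfp : ∀ c v, φ c v = v → c = 1 ∨ v = 1) :
    Cfsg.frobeniusKernel (inr : C →* V ⋊[φ] C).range = ((inl : V →* V ⋊[φ] C).range : Set _) := by
  ext x
  simp only [Cfsg.frobeniusKernel, Set.mem_setOf_eq, SetLike.mem_coe]
  constructor
  · rintro (rfl | hx)
    · exact Subgroup.one_mem _
    · -- `x = v * c`
      by_cases hc : x.right = 1
      · refine ⟨x.left, ?_⟩
        ext
        · simp
        · simp [hc]
      · exfalso
        -- `w ↦ w * (φ c w)⁻¹` is bijective
        set c := x.right with hcdef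
        let f : V → V := fun w => w * (φ c w)⁻¹
        have hinj : Function.Injective f := by
          intro w w' h
          have h1 : w'⁻¹ * w = (φ c w') ⁻¹ * φ c w := by
            have h2 : w * (φ c w)⁻¹ = w' * (φ c w')⁻¹ := h
            calc w'⁻¹ * w = w'⁻¹ * (w * (φ c w)⁻¹) * φ c w := by group
              _ = w'⁻¹ * (w' * (φ c w')⁻¹) * φ c w := by rw [h2]
              _ = _ := by group
          have h3 : φ c (w'⁻¹ * w) = w'⁻¹ * w := by
            rw [map_mul, map_inv, h1]
          rcases hfp _ _ h3 with h4 | h4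
          · exact absurd h4 hc
          · exact (inv_mul_eq_one.1 h4).symm
        have hsurj : Function.Surjective f := Finite.injective_iff_surjective.1 hinj
        obtain ⟨w, hw⟩ := hsurj x.left
        apply hx (inl w)
        rw [Subgroup.mem_pointwise_smul_iff_inv_smul_mem]
        refine ⟨c, ?_⟩
        simp only [MulAut.smul_def, MulAut.conj_inv_apply]
        ext
        · simp only [SemidirectProduct.mul_left, SemidirectProduct.left_inr, SemidirectProduct.left_inl,
            SemidirectProduct.right_inl, SemidirectProduct.inv_left, SemidirectProduct.mul_right,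
            map_one, MulAut.one_apply, map_inv, inv_one, one_mul, mul_one, hcdef]
          have hw' : w * (φ c w)⁻¹ = x.left := hw
          rw [← hw']
          simp [← hcdef, mul_assoc]
        · simp [hcdef]
  · rintro ⟨v, rfl⟩
    by_cases hv : v = 1
    · left; rw [hv, map_one]
    · right
      intro g hg
      rw [Subgroup.mem_pointwise_smul_iff_inv_smul_mem] at hg
      obtain ⟨h, hh⟩ := hg
      simp only [MulAut.smul_def, MulAut.conj_inv_apply] at hh
      have e : (inl v : V ⋊[φ] C) = g * inr h * g⁻¹ := by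
        rw [hh]; group
      have er := congrArg SemidirectProduct.right e
      simp at er
      have : h = 1 := by
        have h5 : g.right * h * g.right⁻¹ = 1 := er.symm
        have h6 : g.right * h = g.right := by
          rw [mul_inv_eq_one] at h5; exact h5
        simpa using h6
      subst this
      rw [map_one] at hh
      apply hv
      have h7 : (inl v : V ⋊[φ] C) = 1 := by
        rw [e]; simp
      exact inl_injective (h7.trans (map_one _).symm)

end Semi

/-- The existence statement. -/
theorem exists_of_fpf {V C : Type} [Group V] [Group C] [Finite V] [Finite C] [Nontrivial V]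
    [Nontrivial C] (φ : C →* MulAut V) (hfp : ∀ c v, φ c v = v → c = 1 ∨ v = 1) :
    ∃ (L : Type) (_ : Group L) (_ : Finite L) (H : Subgroup L), Cfsg.IsFrobeniusComplement H ∧
      Nonempty (C ≃* H) ∧ Nat.card (Cfsg.frobeniusKernel H) = Nat.card V := by
  refine ⟨V ⋊[φ] C, inferInstance, Finite.of_equiv _ SemidirectProduct.equivProd.symm,
    (inr : C →* V ⋊[φ] C).range, complement_of_fpf φ hfp,
    ⟨MonoidHom.ofInjective inr_injective⟩, ?_⟩
  rw [kernel_of_fpf φ hfp]
  exact (Nat.card_congr (MonoidHom.ofInjective (inl_injective (φ := φ))).toEquiv).symm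

/-- The multiplicative automorphism attached to an additive one. -/
def mulOf {W : Type*} [AddCommGroup W] (f : W ≃+ W) : MulAut (Multiplicative W) :=
  AddEquiv.toMultiplicative f

@[simp] theorem mulOf_apply {W : Type*} [AddCommGroup W] (f : W ≃+ W) (w : W) :
    mulOf f (Multiplicative.ofAdd w) = Multiplicative.ofAdd (f w) := rfl

/-- A homomorphism out of a dicyclic group. -/
theorem quat_lift {R : Type*} [Group R] (n : ℕ) [NeZero n] (A X : R) (hA : A ^ (2 * n) = 1)
    (hX : X ^ 2 = A ^ n) (hAX : A * X * A = X) :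
    ∃ f : QuaternionGroup n →* R, (∀ i, f (QuaternionGroup.a i) = A ^ i.val) ∧
      ∀ i, f (QuaternionGroup.xa i) = X * A ^ i.val := by
  classical
  haveI : NeZero (2 * n) := ⟨by have := NeZero.ne n; omega⟩
  let E : ZMod (2 * n) → R := fun i => A ^ i.val
  have hEadd : ∀ i j, E (i + j) = E i * E j := by
    intro i j
    show A ^ (i + j).val = A ^ i.val * A ^ j.val
    rw [ZMod.val_add, ← pow_add, ← pow_eq_pow_mod _ hA]
  have hE0 : E 0 = 1 := by simp [E]
  have hEneg : ∀ i, E (-i) = (E i)⁻¹ := by
    intro i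
    rw [eq_inv_iff_mul_eq_one, ← hEadd]
    simp [hE0]
  have hEn : E (n : ZMod (2 * n)) = A ^ n := by
    show A ^ (n : ZMod (2 * n)).val = A ^ n
    rw [ZMod.val_natCast, Nat.mod_eq_of_lt]
    have := NeZero.pos n
    omega
  have hconj : ∀ k : ℕ, A ^ k * X = X * (A⁻¹) ^ k := by
    have h1 : A * X = X * A⁻¹ := by
      rw [eq_mul_inv_iff_mul_eq]; exact hAX
    intro k
    induction k with
    | zero => simp
    | succ k ih =>
      rw [pow_succ, mul_assoc, h1, ← mul_assoc, ih, mul_assoc, ← pow_succ]
  have hEX : ∀ i, E i * X = X * E (-i) := by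
    intro i
    rw [hEneg]
    show A ^ i.val * X = X * (A ^ i.val)⁻¹
    rw [hconj, inv_pow]
  let g : QuaternionGroup n → R := fun x =>
    match x with
    | QuaternionGroup.a i => E i
    | QuaternionGroup.xa i => X * E i
  have hg : ∀ x y, g (x * y) = g x * g y := by
    rintro (i | i) (j | j)
    · rw [QuaternionGroup.a_mul_a]
      exact hEadd i j
    · rw [QuaternionGroup.a_mul_xa]
      show X * E (j - i) = E i * (X * E j)
      rw [← mul_assoc, hEX, mul_assoc, ← hEadd]
      congr 2
      ring
    · rw [QuaternionGroup.xa_mul_a]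
      show X * E (i + j) = X * E i * E j
      rw [hEadd, mul_assoc]
    · rw [QuaternionGroup.xa_mul_xa]
      show E ((n : ZMod (2 * n)) + j - i) = X * E i * (X * E j)
      have e1 : (n : ZMod (2 * n)) + j - i = (n : ZMod (2 * n)) + (-i + j) := by ring
      rw [e1, hEadd, hEadd, hEn, ← hX, mul_assoc X (E i), ← mul_assoc (E i), hEX, sq]
      group
  exact ⟨MonoidHom.mk' g hg, fun i => rfl, fun i => rfl⟩

/-- A unit of given order in a prime field. -/
theorem exists_unit_order (n : ℕ) (hn : n ≠ 0) :
    ∃ (p : ℕ) (_ : Fact p.Prime) (ζ : (ZMod p)ˣ), orderOf ζ = n := by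
  obtain ⟨p, hp, -, hmod⟩ := Nat.exists_prime_gt_modEq_one (k := n) 1 hn
  haveI : Fact p.Prime := ⟨hp⟩
  refine ⟨p, inferInstance, ?_⟩
  obtain ⟨g, hg⟩ := IsCyclic.exists_generator (α := (ZMod p)ˣ)
  have hord : orderOf g = p - 1 := by
    rw [orderOf_eq_card_of_forall_mem_zpowers hg, Nat.card_eq_fintype_card, ZMod.card_units p]
  have hdvd : n ∣ p - 1 := by
    have h1 : 1 ≤ p := hp.one_lt.le
    exact (Nat.modEq_iff_dvd' h1).1 hmod.symm
  obtain ⟨t, ht⟩ := hdvd
  have ht0 : t ≠ 0 := by
    rintro rfl
    have := hp.two_le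
    omega
  refine ⟨g ^ t, ?_⟩
  rw [orderOf_pow_of_dvd ht0 ⟨n, by rw [hord, ht, mul_comm]⟩, hord, ht]
  exact Nat.mul_div_cancel _ (Nat.pos_of_ne_zero ht0)

/-- Multiplication by units. -/
def unitMul (k : Type*) [Ring k] : kˣ →* MulAut (Multiplicative k) where
  toFun u := mulOf
    { toFun := fun x => (u : k) * x
      invFun := fun x => ((u⁻¹ : kˣ) : k) * x
      left_inv := fun x => by simp
      right_inv := fun x => by simp
      map_add' := fun x y => mul_add _ _ _ }
  map_one' := by
    ext x
    show Multiplicative.ofAdd (((1 : kˣ) : k) * Multiplicative.toAdd x) = x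
    simp
  map_mul' u v := by
    ext x
    show Multiplicative.ofAdd (((u * v : kˣ) : k) * Multiplicative.toAdd x) =
      Multiplicative.ofAdd ((u : k) * ((v : k) * Multiplicative.toAdd x))
    simp [mul_assoc]

theorem unitMul_apply {k : Type*} [Ring k] (u : kˣ) (x : k) :
    unitMul k u (Multiplicative.ofAdd x) = Multiplicative.ofAdd ((u : k) * x) := rfl

end Cfsg.Agent.Lib.FrobSemi
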