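import Mathlib
import Cfsg.Agent.Lib.FrobSemi

/-!
Universe reduction for Frobenius groups.
-/

set_option autoImplicit false
set_option linter.all false

namespace Cfsg.Agent.Lib.FrobSmall

universe u v

/-- A finite group is isomorphic to one in the lowest universe. -/
theorem exists_small_group (V : Type u) [Group V] [Finite V] :
    ∃ (V' : Type) (_ : Group V') (_ : Finite V'), Nonempty (V' ≃* V) := by
  let e : V ≃ Fin (Nat.card V) := Finite.equivFin V
  letI : Group (Fin (Nat.card V)) := e.symm.group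
  exact ⟨Fin (Nat.card V), inferInstance, inferInstance, ⟨e.symm.mulEquiv⟩⟩

/-- The existence statement in arbitrary universes. -/
theorem exists_of_fpf_univ {V : Type u} {C : Type v} [Group V] [Group C] [Finite V] [Finite C]
    [Nontrivial V] [Nontrivial C] (φ : C →* MulAut V) (hfp : ∀ c v, φ c v = v → c = 1 ∨ v = 1) :
    ∃ (L : Type) (_ : Group L) (_ : Finite L) (H : Subgroup L), Cfsg.IsFrobeniusComplement H ∧
      Nonempty (C ≃* H) ∧ Nat.card (Cfsg.frobeniusKernel H) = Nat.card V := by
  obtain ⟨V', iV, fV, ⟨eV⟩⟩ := exists_small_group V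
  obtain ⟨C', iC, fC, ⟨eC⟩⟩ := exists_small_group C
  haveI : Nontrivial V' := eV.toEquiv.nontrivial
  haveI : Nontrivial C' := eC.toEquiv.nontrivial
  let φ' : C' →* MulAut V' :=
    (MulAut.congr eV.symm).toMonoidHom.comp (φ.comp eC.toMonoidHom)
  have hfp' : ∀ c v, φ' c v = v → c = 1 ∨ v = 1 := by
    intro c v hv
    have h1 : eV.symm (φ (eC c) (eV v)) = v := hv
    have h2 : φ (eC c) (eV v) = eV v := by
      have h3 := congrArg eV h1
      rwa [MulEquiv.apply_symm_apply] at h3
    rcases hfp _ _ h2 with h | h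
    · left; exact eC.injective (by rw [h, map_one])
    · right; exact eV.injective (by rw [h, map_one])
  obtain ⟨L, i1, i2, H, h1, ⟨e⟩, h3⟩ := Cfsg.Agent.Lib.FrobSemi.exists_of_fpf φ' hfp'
  exact ⟨L, i1, i2, H, h1, ⟨eC.symm.trans e⟩, h3.trans (Nat.card_congr eV.toEquiv)⟩

end Cfsg.Agent.Lib.FrobSmall
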