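import Cfsg.Agent.Lib.FusionSubnormal
import Cfsg.Agent.Lib.FusionConstrainedSub

/-!
Images of normal subgroups under surjective morphisms; the system of a central quotient of a group
with constrained system is constrained.
-/

set_option autoImplicit false

namespace Cfsg.Agent.Lib.FusionCentralQuot

open Cfsg Cfsg.FusionSystem Cfsg.Agent.Lib.FusionNormal Cfsg.Agent.Lib.FusionBasic
  Cfsg.Agent.Lib.FusionSat Cfsg.Agent.Lib.FusionAut Cfsg.Agent.Lib.SylowIn
  Cfsg.Agent.Lib.FusionConstrainedSub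

section image

variable {Ω Ω' : Type*} [Group Ω] [Group Ω'] {S : Subgroup Ω} {S' : Subgroup Ω'}

/-- Images of normal subgroups under surjective morphisms are normal. -/
theorem isNormal_image {F : FusionSystem S} {F' : FusionSystem S'} {α : S →* Ω'}
    (hα : F.IsSurjectiveMorphism F' α) {Q : Subgroup Ω} (hQ : F.IsNormal Q) :
    F'.IsNormal (imageAlong α Q) := by
  have hrange : ∀ y ∈ S', ∃ x : S, α x = y := by
    intro y hy
    rw [← hα.2.1] at hy
    exact hy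
  have hQim : imageAlong α Q ≤ S' := by
    rintro _ ⟨x, -, rfl⟩
    exact hα.1.1 x
  refine ⟨hQim, fun P' φ' hφ' => ?_⟩
  have hP'S : P' ≤ S' := source_le F' hφ'
  obtain ⟨φ, hφ, hP1, hφS, hP2, hind⟩ := hα.2.2 P' hP'S φ' hφ'
  obtain ⟨ψ, hψ, hagree, hmap⟩ := hQ.2 _ φ hφ
  rw [map_subgroupOf_sup_eq_iff] at hmap
  obtain ⟨ψ', hψ', hsupS, hψS, hsup2, hind2⟩ := hα.1.2 _ ψ hψ
  have hle : P' ⊔ imageAlong α Q ≤ imageAlong α (preimageAlong α P' ⊔ Q) := by
    refine sup_le ?_ ?_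
    · intro y hy
      obtain ⟨x, rfl⟩ := hrange y (hP'S hy)
      have hx : (x : Ω) ∈ preimageAlong α P' := ⟨x, hy, rfl⟩
      exact ⟨x, Subgroup.mem_sup_left hx, rfl⟩
    · rintro _ ⟨x, hx, rfl⟩
      exact ⟨x, Subgroup.mem_sup_right hx, rfl⟩
  refine ⟨ψ'.comp (Subgroup.inclusion hle), restrict_mem F' hψ' hle, fun y => ?_, ?_⟩
  · obtain ⟨x, hx⟩ := hrange y (hP'S y.2)
    have hxP : (x : Ω) ∈ preimageAlong α P' := ⟨x, by
      show α x ∈ P'
      rw [hx]
      exact y.2, rfl⟩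
    have h1 := hind ⟨x, hxP⟩
    have h2 := hind2 ⟨x, Subgroup.mem_sup_left hxP⟩
    have h3 := hagree ⟨x, hxP⟩
    have h4 : (⟨ψ ⟨x, Subgroup.mem_sup_left hxP⟩, hψS _⟩ : S) = ⟨φ ⟨x, hxP⟩, hφS _⟩ :=
      Subtype.ext h3
    rw [h4, ← h1] at h2
    have h5 : φ' ⟨α ⟨(⟨x, hxP⟩ : preimageAlong α P'), hP1 hxP⟩, hP2 ⟨x, hxP⟩⟩ = φ' y := by
      congr 1
      exact Subtype.ext hx
    rw [h5] at h2
    rw [← h2]
    show ψ' _ = ψ' _
    congr 1
    exact Subtype.ext hx.symm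
  · rw [map_subgroupOf_sup_eq_iff]
    constructor
    · rintro _ ⟨x, hx, rfl⟩
      have hx' : (x : Ω) ∈ Q := hx
      have h2 := hind2 ⟨x, Subgroup.mem_sup_right hx'⟩
      show ψ' _ ∈ _
      have h3 : ψ' (Subgroup.inclusion hle ⟨α x, Subgroup.mem_sup_right ⟨x, hx, rfl⟩⟩) =
          α ⟨ψ ⟨x, Subgroup.mem_sup_right hx'⟩, hψS _⟩ := h2
      rw [h3]
      exact ⟨_, hmap.1 _ hx', rfl⟩
    · rintro _ ⟨x, hx, rfl⟩
      have hx' : (x : Ω) ∈ Q := hx
      obtain ⟨q, hq, e⟩ := hmap.2 _ hx'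
      have hqS : q ∈ S := hQ.1 hq
      have hq1 : (⟨q, hqS⟩ : S) ∈ Q.subgroupOf S := hq
      refine ⟨α ⟨q, hqS⟩, ⟨⟨q, hqS⟩, hq1, rfl⟩, ?_⟩
      have h2 := hind2 ⟨q, Subgroup.mem_sup_right hq⟩
      have h3 : (⟨ψ ⟨q, Subgroup.mem_sup_right hq⟩, hψS _⟩ : S) = x := Subtype.ext e
      rw [h3] at h2
      exact h2

end image

section stab

variable {Ω : Type*} [Group Ω] {S : Subgroup Ω} {p : ℕ} [Fact p.Prime]

/-- A strongly closed `M` acting on the chain `V ≤ Q` lies in every centric radical subgroup. -/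
theorem le_of_stab_chain [Finite S] (hS : IsPGroup p S) {F : FusionSystem S} {Q V U M : Subgroup Ω}
    (hQs : F.StronglyClosed Q) (hVs : F.StronglyClosed V) (hVQ : V ≤ Q)
    (hQc : ∀ x ∈ S, x ∈ Subgroup.centralizer (Q : Set Ω) → x ∈ Q)
    (hMs : F.StronglyClosed M) (hMV : ∀ m ∈ M, ∀ v ∈ V, m * v = v * m)
    (hMQ : ∀ m ∈ M, ∀ q ∈ Q, q⁻¹ * (m * q * m⁻¹) ∈ V)
    (hUc : F.IsCentric U) (hUr : F.IsRadical p U) (hQU : Q ≤ U) : M ≤ U := by
  have hUS := hUc.1
  haveI hfinU : Finite U := finite_of_le hUS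
  have hUp : IsPGroup p U := hS.to_le hUS
  have hpp : p.Prime := Fact.out
  let C' : ℕ → Subgroup U := fun t =>
    if t = 0 then ⊥ else if t = 1 then V.subgroupOf U else Q.subgroupOf U
  have hC0 : C' 0 = ⊥ := if_pos rfl
  have hC1 : C' 1 = V.subgroupOf U := by
    show (if (1 : ℕ) = 0 then _ else _) = _
    rw [if_neg (by omega), if_pos rfl]
  have hC2 : C' 2 = Q.subgroupOf U := by
    show (if (2 : ℕ) = 0 then _ else _) = _
    rw [if_neg (by omega), if_neg (by omega)]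
  have hC'mono : ∀ i < 2, C' i ≤ C' (i + 1) := by
    intro i hi
    obtain rfl | rfl : i = 0 ∨ i = 1 := by omega
    · rw [hC0]
      exact bot_le
    · rw [hC1, hC2]
      exact Subgroup.comap_mono hVQ
  have hC'inv : ∀ t, t ≤ 2 → ∀ α ∈ F.autGroup U, ∀ x ∈ C' t, α x ∈ C' t := by
    intro t ht α hα x hx
    obtain rfl | rfl | rfl : t = 0 ∨ t = 1 ∨ t = 2 := by omega
    · rw [hC0] at hx ⊢
      rw [Subgroup.mem_bot] at hx ⊢
      rw [hx, map_one]
    · rw [hC1] at hx ⊢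
      exact StronglyClosed.map_autGroup_mem hVs hUS hα x hx
    · rw [hC2] at hx ⊢
      exact StronglyClosed.map_autGroup_mem hQs hUS hα x hx
  refine le_of_stab hS hUc hUr hMs.1 (StronglyClosed.le_normalizer hMs) 0 (fun _ => ⊤) ?_ rfl ?_
    (stabSubmonoid C' 2 hC'mono) ?_ ?_ ?_
  · intro i hi
    omega
  · intro i _ α _ x _
    trivial
  · intro α hα β hβ i hi y hy
    have hz : α⁻¹ y ∈ C' (i + 1) :=
      hC'inv (i + 1) (by omega) α⁻¹ (Subgroup.inv_mem _ hα) y hy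
    have hb := hβ i hi _ hz
    have hαb := hC'inv i (by omega) α hα _ hb
    have e : y⁻¹ * (α * β * α⁻¹) y = α ((α⁻¹ y)⁻¹ * β (α⁻¹ y)) := by
      simp [MulAut.mul_apply]
    rw [e]
    exact hαb
  · intro β hβA hβ _
    haveI : Finite (MulAut U) := mulAut_finite
    obtain ⟨a, c, hc1, hc2⟩ := Nat.exists_eq_pow_mul_and_not_dvd (orderOf_pos β).ne' p hpp.ne_one
    have hcop0 : c.Coprime p := ((Nat.Prime.coprime_iff_not_dvd hpp).mpr hc1).symm
    refine ⟨a, fun b _ => ?_⟩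
    set γ := β ^ (p ^ a) with hγ
    have hγord : orderOf γ = c := by
      rw [hγ, orderOf_pow' _ (pow_ne_zero _ hpp.ne_zero), hc2]
      rw [Nat.gcd_eq_right (Dvd.intro _ rfl)]
      exact Nat.mul_div_cancel_left _ (pow_pos hpp.pos _)
    have hγst : γ ∈ stabSubmonoid C' 2 hC'mono := Submonoid.pow_mem _ hβ _
    have hγord' : (orderOf γ).Coprime p := hγord ▸ hcop0
    obtain ⟨k', hk'⟩ := pow_fix_of_chain hUp γ C' 2 hC'mono hγst 0 (by
      intro y hy
      rw [hC0, Subgroup.mem_bot] at hy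
      rw [hy, map_one])
    have hfixQ : ∀ y ∈ Q.subgroupOf U, γ y = y := by
      intro y hy
      have h1 : (γ ^ (p ^ k')) • y = y := hk' y (by rw [hC2]; exact hy)
      have h2 : (γ ^ (orderOf γ)) • y = y := by
        rw [pow_orderOf_eq_one, one_smul]
      exact fix_of_pow_fix' h2 h1 (Nat.Coprime.pow_right _ hγord')
    have hst : ∀ y ∈ (⊤ : Subgroup U), y⁻¹ * γ y ∈ Q.subgroupOf U := by
      intro y _
      rw [Subgroup.mem_subgroupOf]
      apply hQc _ (hUS (U.mul_mem (U.inv_mem y.2) (γ y).2))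
      rw [Subgroup.mem_centralizer_iff]
      intro q hq
      have hqU : q ∈ U := hQU hq
      have hyq : (y : Ω) * q * (y : Ω)⁻¹ ∈ Q :=
        (Subgroup.mem_normalizer_iff.mp (StronglyClosed.le_normalizer hQs (hUS y.2)) q).mp hq
      have h3 : γ (y * ⟨q, hqU⟩ * y⁻¹) = y * ⟨q, hqU⟩ * y⁻¹ :=
        hfixQ (y * ⟨q, hqU⟩ * y⁻¹) hyq
      have h4 : γ ⟨q, hqU⟩ = ⟨q, hqU⟩ := hfixQ ⟨q, hqU⟩ hq
      rw [map_mul, map_mul, map_inv, h4] at h3
      have h5 := congrArg Subtype.val h3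
      have h6 : ((γ y : U) : Ω) * q * ((γ y : U) : Ω)⁻¹ = (y : Ω) * q * (y : Ω)⁻¹ := h5
      show q * ((y : Ω)⁻¹ * ((γ y : U) : Ω)) = (y : Ω)⁻¹ * ((γ y : U) : Ω) * q
      have h7 : ((γ y : U) : Ω) * q = (y : Ω) * q * (y : Ω)⁻¹ * ((γ y : U) : Ω) := by
        rw [← h6]; group
      calc q * ((y : Ω)⁻¹ * ((γ y : U) : Ω))
          = (y : Ω)⁻¹ * ((y : Ω) * q * (y : Ω)⁻¹ * ((γ y : U) : Ω)) := by group
        _ = (y : Ω)⁻¹ * (((γ y : U) : Ω) * q) := by rw [h7]
        _ = _ := by group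
    obtain ⟨m, hm⟩ := pow_fix_of_stab hUp γ le_top hst 0 (by
      intro y hy
      simpa using hfixQ y hy)
    have h1 : (γ ^ (p ^ m)) • b = b := hm b trivial
    have h2 : (γ ^ (orderOf γ)) • b = b := by
      rw [pow_orderOf_eq_one, one_smul]
    exact fix_of_pow_fix' h2 h1 (Nat.Coprime.pow_right _ hγord')
  · intro r hr hrn
    constructor
    · intro i hi y hy
      obtain rfl | rfl : i = 0 ∨ i = 1 := by omega
      · rw [hC1] at hy
        rw [hC0, Subgroup.mem_bot]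
        apply Subtype.ext
        show (y : Ω)⁻¹ * (r * y * r⁻¹) = 1
        rw [hMV r hr y hy]
        group
      · rw [hC2] at hy
        rw [hC1, Subgroup.mem_subgroupOf]
        exact hMQ r hr y hy
    · intro i hi
      omega

end stab

section quot

variable {L : Type*} [Group L] [Finite L] {p : ℕ} [Fact p.Prime]

/-- A `p`-element of `L` whose image lies in the image of a Sylow subgroup lies in it. -/
theorem mem_of_image (T : Sylow p L) (Z : Subgroup L) [hZn : Z.Normal] (hZ : Z ≤ Subgroup.center L) {y : L}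
    (hy : ∃ k : ℕ, y ^ (p ^ k) = 1) (hm : QuotientGroup.mk' Z y ∈ (T : Subgroup L).map (QuotientGroup.mk' Z)) :
    y ∈ (T : Subgroup L) := by
  obtain ⟨t, ht, e⟩ := hm
  have hz : t⁻¹ * y ∈ Z := by
    have : (QuotientGroup.mk' Z) t = QuotientGroup.mk' Z y := e
    exact QuotientGroup.eq.mp this
  set z := t⁻¹ * y with hzdef
  have hzc : z ∈ Subgroup.center L := hZ hz
  have hyz : y = t * z := by rw [hzdef]; group
  obtain ⟨k, hk⟩ := hy
  obtain ⟨k2, hk2⟩ := (T.isPGroup') ⟨t, ht⟩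
  have ht2 : t ^ (p ^ k2) = 1 := congrArg Subtype.val hk2
  have hcomm : Commute t z := Subgroup.mem_center_iff.mp hzc t
  have hzp : z ^ (p ^ (k + k2)) = 1 := by
    have h1 : (t * z) ^ (p ^ (k + k2)) = 1 := by
      rw [← hyz, pow_add, pow_mul, hk, one_pow]
    rw [hcomm.mul_pow] at h1
    have h2 : t ^ (p ^ (k + k2)) = 1 := by
      rw [add_comm, pow_add, pow_mul, ht2, one_pow]
    rwa [h2, one_mul] at h1
  -- the cyclic group generated by `z` is a normal `p`-subgroup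
  haveI hN : (Subgroup.zpowers z).Normal := by
    refine ⟨?_⟩
    rintro _ ⟨i, rfl⟩ g
    have hc : g * z ^ i = z ^ i * g :=
      Subgroup.mem_center_iff.mp (Subgroup.zpow_mem _ hzc i) g
    show g * z ^ i * g⁻¹ ∈ Subgroup.zpowers z
    rw [hc, mul_inv_cancel_right]
    exact ⟨i, rfl⟩
  have hNp : IsPGroup p (Subgroup.zpowers z) := by
    rw [IsPGroup.iff_card]
    have h3 : orderOf z ∣ p ^ (k + k2) := orderOf_dvd_of_pow_eq_one hzp
    obtain ⟨j, -, hj⟩ := (Nat.dvd_prime_pow Fact.out).mp h3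
    exact ⟨j, by rw [Nat.card_zpowers, hj]⟩
  have hzT : z ∈ (T : Subgroup L) := hNp.le_sylow_of_normal T (Subgroup.mem_zpowers z)
  rw [hyz]
  exact (T : Subgroup L).mul_mem ht hzT

/-- The morphism from a group to a central quotient, on Sylow subgroups. -/
theorem isSurjectiveMorphism_quot (T : Sylow p L) (Z : Subgroup L) [hZn : Z.Normal]
    (hZ : Z ≤ Subgroup.center L) :
    (groupFusionSystem (T : Subgroup L)).IsSurjectiveMorphism
      (groupFusionSystem ((T : Subgroup L).map (QuotientGroup.mk' Z)))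
      ((QuotientGroup.mk' Z).comp (T : Subgroup L).subtype) := by
  set π := QuotientGroup.mk' Z with hπ
  set α : ↥(T : Subgroup L) →* L ⧸ Z := π.comp (T : Subgroup L).subtype with hα
  have hαT : ∀ t, α t ∈ (T : Subgroup L).map π := fun t => ⟨t, t.2, rfl⟩
  have hsurj : Function.Surjective π := QuotientGroup.mk'_surjective Z
  refine ⟨⟨hαT, ?_⟩, ?_, ?_⟩
  · rintro P φ ⟨hP, hφ, g, hg⟩
    have himg : ∀ x : imageAlong α P, ∃ (t : L) (ht : t ∈ P), π t = x := by
      rintro ⟨_, t, ht, rfl⟩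
      exact ⟨t, ht, rfl⟩
    refine ⟨conjHom _ (π g), ⟨?_, ?_, π g, fun x => rfl⟩, hP, hφ, ?_, ?_⟩
    · rintro _ ⟨t, -, rfl⟩
      exact hαT t
    · intro x
      obtain ⟨t, ht, e⟩ := himg x
      show π g * (x : L ⧸ Z) * (π g)⁻¹ ∈ _
      rw [← e, ← map_inv, ← map_mul, ← map_mul]
      have h1 := hφ ⟨t, ht⟩
      rw [hg] at h1
      exact ⟨_, h1, rfl⟩
    · intro x
      exact ⟨⟨x, hP x.2⟩, x.2, rfl⟩
    · intro x
      show π g * π (x : L) * (π g)⁻¹ = π (φ x)
      rw [hg, map_mul, map_mul, map_inv]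
  · ext y
    constructor
    · rintro ⟨s, rfl⟩
      exact hαT s
    · rintro ⟨t, ht, rfl⟩
      exact ⟨⟨t, ht⟩, rfl⟩
  · rintro P' hP' φ' ⟨-, hφ', g', hg'⟩
    obtain ⟨g, rfl⟩ := hsurj g'
    have hle : preimageAlong α P' ≤ T := by
      rintro _ ⟨s, -, rfl⟩
      exact s.2
    have hmem : ∀ x : preimageAlong α P', π (x : L) ∈ P' := by
      rintro ⟨_, s, hs, rfl⟩
      exact hs
    have hval : ∀ x : preimageAlong α P', g * (x : L) * g⁻¹ ∈ (T : Subgroup L) := by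
      intro x
      apply mem_of_image T Z hZ
      · obtain ⟨k, hk⟩ := (T.isPGroup') ⟨(x : L), hle x.2⟩
        refine ⟨k, ?_⟩
        rw [conj_pow]
        have : (x : L) ^ (p ^ k) = 1 := congrArg Subtype.val hk
        rw [this]
        group
      · have h1 := hφ' ⟨_, hmem x⟩
        rw [hg'] at h1
        have h2 : π g * π (x : L) * (π g)⁻¹ = π (g * (x : L) * g⁻¹) := by
          rw [map_mul, map_mul, map_inv]
        rw [← hπ] at *
        rw [← h2]
        exact h1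
    refine ⟨conjHom _ g, ⟨hle, hval, g, fun x => rfl⟩, hle, hval, hmem, ?_⟩
    intro x
    rw [hg']
    show π g * π (x : L) * (π g)⁻¹ = π (g * (x : L) * g⁻¹)
    rw [map_mul, map_mul, map_inv]

/-- The system of a central quotient of a group with constrained system is constrained. -/
theorem isConstrained_quot (T : Sylow p L) (Z : Subgroup L) [hZn : Z.Normal]
    (hZ : Z ≤ Subgroup.center L) (hF : (groupFusionSystem (T : Subgroup L)).IsConstrained p) :
    (groupFusionSystem ((T : Subgroup L).map (QuotientGroup.mk' Z))).IsConstrained p := by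
  have hsurj : Function.Surjective (QuotientGroup.mk' Z) := QuotientGroup.mk'_surjective Z
  have hα := isSurjectiveMorphism_quot T Z hZ
  obtain ⟨hsat, Q₀, hQ₀n, hQ₀c⟩ := hF
  set F := groupFusionSystem (T : Subgroup L) with hFdef
  set π := QuotientGroup.mk' Z with hπ
  have hQn : F.IsNormal F.core := isNormal_core F
  have hQ₀Q : Q₀ ≤ F.core := IsNormal.le_core hQ₀n
  set Q := F.core with hQdef
  have hTS : IsPGroup p (T : Subgroup L) := T.isPGroup'
  have hQs := IsNormal.stronglyClosed hQn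
  have hQc : ∀ x ∈ (T : Subgroup L), x ∈ Subgroup.centralizer (Q : Set L) → x ∈ Q := by
    intro x hxS hx
    apply hQ₀Q
    have h1 : F.IsConj Q₀ Q₀ := isConj_refl F hQ₀c.1
    apply hQ₀c.2 Q₀ h1
    exact ⟨hxS, Subgroup.centralizer_le (by exact_mod_cast hQ₀Q) hx⟩
  set V := (T : Subgroup L) ⊓ Z with hVdef
  have hVcen : ∀ v ∈ V, ∀ g : L, g * v = v * g := fun v hv g =>
    Subgroup.mem_center_iff.mp (hZ hv.2) g
  have hVs : F.StronglyClosed V := by
    refine ⟨inf_le_left, fun R hR φ hφ x => ?_⟩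
    obtain ⟨-, -, g, hg⟩ := hφ
    rw [hg, hVcen _ (hR x.2) g, mul_inv_cancel_right]
    exact hR x.2
  have hVn : F.IsNormal V := isNormal_of_stronglyClosed_of_le hTS hsat hVs fun U hUc hUr => by
    refine le_of_central_chain hTS hUc hUr hVs 1 ![⊥, V] rfl rfl ?_ ?_ ?_
    · intro i j hij
      fin_cases i <;> fin_cases j <;> simp_all
    · intro i
      fin_cases i
      show ⁅V, V⁆ ≤ ⊥
      rw [Subgroup.commutator_le]
      intro a ha b hb
      rw [commutatorElement_def, Subgroup.mem_bot, hVcen b hb a]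
      group
    · intro i
      fin_cases i
      exact weaklyClosed_bot F
  have hVQ : V ≤ Q := IsNormal.le_core hVn
  set D : Subgroup L := (T : Subgroup L) ⊓
    (Subgroup.centralizer ((Q.map π : Subgroup (L ⧸ Z)) : Set (L ⧸ Z))).comap π with hDdef
  have hDcomm : ∀ x ∈ D, ∀ q ∈ Q, π x * π q = π q * π x := by
    intro x hx q hq
    exact (Subgroup.mem_centralizer_iff.mp hx.2 (π q) ⟨q, hq, rfl⟩).symm
  have hDs : F.StronglyClosed D := by
    refine ⟨inf_le_left, fun R hR φ hφ x => ?_⟩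
    obtain ⟨ψ, ⟨-, -, g, hg⟩, hagree, hmap⟩ := hQn.2 R φ hφ
    rw [map_subgroupOf_sup_eq_iff] at hmap
    have hφT : φ x ∈ (T : Subgroup L) := (F.le_of_mem hφ).2 x
    refine ⟨hφT, ?_⟩
    show π (φ x) ∈ Subgroup.centralizer _
    rw [Subgroup.mem_centralizer_iff]
    rintro _ ⟨q, hq, rfl⟩
    obtain ⟨q', hq', e⟩ := hmap.2 q hq
    have h1 := hg ⟨q', Subgroup.mem_sup_right hq'⟩
    rw [e] at h1
    have h2 := hg (Subgroup.inclusion le_sup_left x)
    rw [hagree x] at h2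
    have h3 := hDcomm x (hR x.2) q' hq'
    have h4 : φ x = g * (x : L) * g⁻¹ := h2
    have h5 : q = g * q' * g⁻¹ := h1
    rw [h4, h5]
    simp only [map_mul, map_inv]
    calc π g * π q' * (π g)⁻¹ * (π g * π (x : L) * (π g)⁻¹)
        = π g * (π q' * π (x : L)) * (π g)⁻¹ := by group
      _ = π g * (π (x : L) * π q') * (π g)⁻¹ := by rw [h3]
      _ = _ := by group
  have hMQ : ∀ m ∈ D, ∀ q ∈ Q, q⁻¹ * (m * q * m⁻¹) ∈ V := by
    intro m hm q hq
    have hqT : q ∈ (T : Subgroup L) := hQn.1 hq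
    have hmT : m ∈ (T : Subgroup L) := hm.1
    refine ⟨(T : Subgroup L).mul_mem ((T : Subgroup L).inv_mem hqT)
      ((T : Subgroup L).mul_mem ((T : Subgroup L).mul_mem hmT hqT) ((T : Subgroup L).inv_mem hmT)), ?_⟩
    have h1 := hDcomm m hm q hq
    have h2 : π (q⁻¹ * (m * q * m⁻¹)) = 1 := by
      simp only [map_mul, map_inv]
      rw [h1]
      group
    exact (QuotientGroup.eq_one_iff _).mp h2
  have hDn : F.IsNormal D := isNormal_of_stronglyClosed_of_le hTS hsat hDs fun U hUc hUr =>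
    le_of_stab_chain hTS hQs hVs hVQ hQc hDs (fun m _ v hv => hVcen v hv m) hMQ hUc hUr
      (Cfsg.Agent.Lib.FusionNormal.IsNormal.le_of_centric_radical hTS hQn hUc hUr)
  have hDQ : D ≤ Q := IsNormal.le_core hDn
  have hn := isNormal_image hα hQn
  have hsat' : (groupFusionSystem ((T : Subgroup L).map π)).IsSaturated p :=
    Cfsg.Agent.S5076.result p (T.mapSurjective hsurj)
  refine ⟨hsat', _, hn, hn.1, ?_⟩
  rintro R ⟨φ, hφ, rfl⟩
  rw [(StronglyClosed.weaklyClosed (IsNormal.stronglyClosed hn)).2 φ hφ]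
  rintro _ ⟨⟨x, hxT, rfl⟩, hx2⟩
  have hxD : x ∈ D := by
    refine ⟨hxT, ?_⟩
    show π x ∈ Subgroup.centralizer _
    rw [Subgroup.mem_centralizer_iff]
    rintro _ ⟨q, hq, rfl⟩
    have hq1 : π q ∈ imageAlong ((QuotientGroup.mk' Z).comp (T : Subgroup L).subtype) Q :=
      ⟨⟨q, hQn.1 hq⟩, hq, rfl⟩
    exact Subgroup.mem_centralizer_iff.mp hx2 (π q) hq1
  exact ⟨⟨x, hxT⟩, hDQ hxD, rfl⟩

end quot

end Cfsg.Agent.Lib.FusionCentralQuot
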