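import Cfsg.Agent.Lib.FusionPIdx
import Cfsg.Agent.Lib.FusionNormSat
import Cfsg.Prelude.Def_TwoFusion

/-!
Fusion systems over a direct product of two strongly closed subgroups.
-/

set_option autoImplicit false
set_option linter.all false

namespace Cfsg.Agent.Lib.FusionDirect

open Cfsg Cfsg.FusionSystem Cfsg.Agent.Lib.FusionBasic Cfsg.Agent.Lib.FusionAut
  Cfsg.Agent.Lib.FusionSat Cfsg.Agent.Lib.FusionAlperin Cfsg.Agent.Lib.FusionNormal
  Cfsg.Agent.Lib.FusionHyp Cfsg.Agent.Lib.FusionStrong Cfsg.Agent.Lib.FusionPIdx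

open scoped Pointwise

variable {Ω : Type*} [Group Ω] {p : ℕ} [Fact p.Prime]

/-- The full subsystem on a strongly closed subgroup with a centralizing complement is saturated. -/
theorem sat_full {U T : Subgroup Ω} [Finite U] (hU : IsPGroup p U) {C : FusionSystem U} (hC : C.IsSaturated p)
    (hT : C.StronglyClosed T)
    (hZ : ∀ g ∈ U, ∃ a ∈ T, ∃ z ∈ U, g = a * z ∧ z ∈ Subgroup.centralizer (T : Set Ω))
    {R : FusionSystem T} (hR : ∀ P : Subgroup Ω, P ≤ T → R.Hom P = C.Hom P) : R.IsSaturated p := by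
  intro P hP
  obtain ⟨Q, ⟨φ, hφ, hr⟩, hQn⟩ := exists_isConj_fullyNormalized C (hP.trans hT.1)
  have hQT : Q ≤ T := by
    rw [← hr]
    rintro _ ⟨x, rfl⟩
    exact hT.2 P hP φ hφ x
  obtain ⟨hA, hRec⟩ := IsSaturated.fullyNormalized hU hC hQn
  refine ⟨Q, ⟨φ, by rw [hR P hP]; exact hφ, hr⟩, ?_, hQT, ?_⟩
  · have e1 : R.autGroup Q = C.autGroup Q := by
      unfold autGroup
      rw [hR Q hQT]
    have e2 : autInducedBy T Q = autInducedBy U Q := by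
      ext α
      rw [mem_autInducedBy_iff, mem_autInducedBy_iff]
      constructor
      · rintro ⟨g, hg, h⟩
        exact ⟨g, hT.1 hg, h⟩
      · rintro ⟨g, hg, h⟩
        obtain ⟨a, ha, z, -, rfl, hz⟩ := hZ g hg
        refine ⟨a, ha, fun x => ?_⟩
        rw [h]
        have h1 : (x : Ω) * z = z * x := Subgroup.mem_centralizer_iff.1 hz _ (hQT x.2)
        calc a * z * (x : Ω) * (a * z)⁻¹ = a * (z * x) * z⁻¹ * a⁻¹ := by group
          _ = a * (x * z) * z⁻¹ * a⁻¹ := by rw [h1]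
          _ = a * x * a⁻¹ := by group
    refine ⟨hQT, ?_⟩
    rw [e1, e2]
    exact hA.2
  · intro P' φ' hφ' hr'
    have hP'T : P' ≤ T := source_le R hφ'
    have hφ'C : φ' ∈ C.Hom P' := by
      rw [← hR P' hP'T]
      exact hφ'
    obtain ⟨ψ, hψ, eψ⟩ := hRec.2 P' φ' hφ'C hr'
    have hle : extender T P' φ' ≤ extender U P' φ' := by
      intro g hg
      obtain ⟨h1, h2, h, hh, e⟩ := mem_extender_iff.1 hg
      exact mem_extender_iff.2 ⟨hT.1 h1, h2, h, hT.1 hh, e⟩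
    have hleT : extender T P' φ' ≤ T := (extender_le_normalizerIn T P' φ').trans inf_le_left
    have hres := restrict_mem C hψ hle
    refine ⟨ψ.comp (Subgroup.inclusion hle), by rw [hR _ hleT]; exact hres, fun x hP hN => ?_⟩
    exact eψ x hP (hle hN)

/-- Automorphisms of a strongly closed subgroup with enough centralizer extend to `S`. -/
theorem aut_extends {S T : Subgroup Ω} [Finite S] (hS : IsPGroup p S) {F : FusionSystem S} (hF : F.IsSaturated p)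
    (hT : F.StronglyClosed T) (hcov : S ≤ T ⊔ centralizerIn S T) {α : MulAut T} (hα : α ∈ F.autGroup T) :
    ∃ γ : MulAut S, γ ∈ F.autGroup S ∧ ∀ x : T, ((γ ⟨x, hT.1 x.2⟩ : S) : Ω) = ((α x : T) : Ω) := by
  have hTS := hT.1
  haveI : Finite T := finite_of_le hTS
  have hfn : F.IsFullyNormalized T := ⟨hTS, fun Q hQ => by
    obtain ⟨φ, hφ, rfl⟩ := hQ
    rw [(StronglyClosed.weaklyClosed hT).2 φ hφ]⟩
  obtain ⟨-, hrec⟩ := IsSaturated.fullyNormalized hS hF hfn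
  have hφ : T.subtype.comp α.toMonoidHom ∈ F.Hom T := (mem_autGroup_iff F hTS).1 hα
  have hr : (T.subtype.comp α.toMonoidHom).range = T := by
    ext y
    constructor
    · rintro ⟨x, rfl⟩
      exact (α x).2
    · intro hy
      refine ⟨α.symm ⟨y, hy⟩, ?_⟩
      show ((α (α.symm ⟨y, hy⟩) : T) : Ω) = y
      simp
  obtain ⟨ψ, hψ, eψ⟩ := hrec.2 T _ hφ hr
  have hext : S ≤ extender S T (T.subtype.comp α.toMonoidHom) :=
    hcov.trans (sup_le (le_extender hTS _ (map_mem_S F hφ)) (centralizerIn_le_extender S T _))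
  have hψ' := restrict_mem F hψ hext
  have hrange : (ψ.comp (Subgroup.inclusion hext)).range = S := by
    refine Subgroup.eq_of_le_of_card_ge ?_ (card_range_eq F hψ').ge
    rintro _ ⟨x, rfl⟩
    exact map_mem_S F hψ' x
  refine ⟨isoOfRange hψ' hrange, isoOfRange_mem_autGroup hψ' hrange, fun x => ?_⟩
  exact eψ x x.2 (hext (hTS x.2))

section Main

variable {S : Subgroup Ω}

theorem direct_main [Finite S] (hS : IsPGroup p S) (F : FusionSystem S) (hF : F.IsSaturated p)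
    (S₁ S₂ : Subgroup Ω) (hprod : IsInternalDirectProduct S₁ S₂ S) (h₁ : F.StronglyClosed S₁)
    (h₂ : F.StronglyClosed S₂) (R R' : FusionSystem S₁) (hR : ∀ P : Subgroup Ω, P ≤ S₁ → R.Hom P = F.Hom P)
    (hR' : ∀ P : Subgroup Ω, P ≤ S₁ → R'.Hom P = F.centralizerHom S₂ P) :
    R.IsSaturated p ∧ R'.IsSaturated p ∧ R'.IsNormalIn F p ∧ R'.IsNormalIn R p ∧ R.IsWeaklyNormalIn F p := by
  obtain ⟨h1le, h2le, hcomm, hinf, hsup⟩ := hprod
  have hTn₂ := StronglyClosed.le_normalizer h₂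
  have hdec : ∀ g ∈ S, ∃ a ∈ S₁, ∃ b ∈ S₂, g = a * b := by
    intro g hg
    have h1 : S₁ ≤ Subgroup.normalizer (S₂ : Set Ω) := h1le.trans hTn₂
    have h2 : g ∈ ((S₁ : Set Ω) * (S₂ : Set Ω)) := by
      rw [← Subgroup.coe_mul_of_left_le_normalizer_right S₁ S₂ h1, hsup]
      exact hg
    obtain ⟨a, ha, b, hb, rfl⟩ := h2
    exact ⟨a, ha, b, hb, rfl⟩
  have hc12 : ∀ b ∈ S₂, b ∈ Subgroup.centralizer (S₁ : Set Ω) := fun b hb =>
    Subgroup.mem_centralizer_iff.2 fun h hh => hcomm h hh b hb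
  have hc21 : ∀ a ∈ S₁, a ∈ Subgroup.centralizer (S₂ : Set Ω) := fun a ha =>
    Subgroup.mem_centralizer_iff.2 fun h hh => (hcomm a ha h hh).symm
  have hRsat : R.IsSaturated p := sat_full hS hF h₁ (fun g hg => by
    obtain ⟨a, ha, b, hb, rfl⟩ := hdec g hg
    exact ⟨a, ha, b, h2le hb, rfl, hc12 b hb⟩) hR
  have hCE := isCentralizerSystem_centralizerSystem F S₂ h2le
  have hfc₂ : F.IsFullyCentralized S₂ := ⟨h2le, fun Q hQ => by
    obtain ⟨φ, hφ, rfl⟩ := hQ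
    rw [(StronglyClosed.weaklyClosed h₂).2 φ hφ]⟩
  have hCsat := Cfsg.Agent.Lib.FusionNormSat.isSaturated_centralizerSystem hS hF hfc₂ hCE
  have hS₁C : S₁ ≤ centralizerIn S S₂ := fun a ha => ⟨h1le ha, hc21 a ha⟩
  have hCsc : (centralizerSystem F S₂ h2le).StronglyClosed S₁ :=
    ⟨hS₁C, fun R₀ hR₀ φ hφ x => h₁.2 R₀ hR₀ φ hφ.1 x⟩
  have hR'C : ∀ P : Subgroup Ω, P ≤ S₁ → R'.Hom P = (centralizerSystem F S₂ h2le).Hom P :=
    fun P hP => (hR' P hP).trans (hCE P).symm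
  haveI hCfin : Finite (centralizerIn S S₂) := finite_of_le (inf_le_left : centralizerIn S S₂ ≤ S)
  have hCp : IsPGroup p (centralizerIn S S₂) := hS.to_le (inf_le_left : centralizerIn S S₂ ≤ S)
  have hR'sat : R'.IsSaturated p := sat_full hCp hCsat hCsc (fun g hg => by
    obtain ⟨a, ha, b, hb, rfl⟩ := hdec g hg.1
    refine ⟨a, ha, b, ⟨h2le hb, ?_⟩, rfl, hc12 b hb⟩
    have h3 : a⁻¹ * (a * b) ∈ Subgroup.centralizer (S₂ : Set Ω) :=
      Subgroup.mul_mem _ (Subgroup.inv_mem _ (hc21 a ha)) hg.2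
    simpa using h3) hR'C
  have hR'F : R'.IsSubsystemOf F := by
    intro P φ hφ
    have hPT : P ≤ S₁ := source_le R' hφ
    rw [hR' P hPT] at hφ
    exact hφ.1
  have hcov₁ : S ≤ S₁ ⊔ centralizerIn S S₁ := by
    intro g hg
    obtain ⟨a, ha, b, hb, rfl⟩ := hdec g hg
    exact Subgroup.mul_mem _ (Subgroup.mem_sup_left ha) (Subgroup.mem_sup_right ⟨h2le hb, hc12 b hb⟩)
  have hcov₂ : S ≤ S₂ ⊔ centralizerIn S S₂ := by
    intro g hg
    obtain ⟨a, ha, b, hb, rfl⟩ := hdec g hg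
    have e : a * b = b * a := hcomm a ha b hb
    rw [e]
    exact Subgroup.mul_mem _ (Subgroup.mem_sup_left hb) (Subgroup.mem_sup_right ⟨h1le ha, hc21 a ha⟩)
  -- invariance
  have hInv : InvT F R' := by
    intro P hPT φ hφ α hα
    have hφc : φ ∈ F.centralizerHom S₂ P := by
      rw [← hR' P hPT]
      exact hφ
    obtain ⟨hφF, hPC, hvC, ψ, hψ, hψ1, hψ2⟩ := hφc
    obtain ⟨γ, hγ, eγ⟩ := aut_extends hS hF h₁ hcov₁ hα
    have hδ : S.subtype.comp γ.toMonoidHom ∈ F.Hom S := (mem_autGroup_iff F le_rfl).1 hγ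
    have hδi : S.subtype.comp (γ⁻¹).toMonoidHom ∈ F.Hom S := (mem_autGroup_iff F le_rfl).1 (inv_mem hγ)
    have hYS₁ : (P.subgroupOf S₁).map (S₁.subtype.comp α.toMonoidHom) ≤ S₁ := img_le α P
    have hWS : (P.subgroupOf S₁).map (S₁.subtype.comp α.toMonoidHom) ⊔ S₂ ≤ S := sup_le (hYS₁.trans h1le) h2le
    have ha₁ := restrict_mem F hδi hWS
    have hval1 : ∀ (t : S₁) (ht : (t : Ω) ∈ P), ((γ⁻¹ ⟨((α t : S₁) : Ω), h1le (α t).2⟩ : S) : Ω) = t := by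
      intro t ht
      have h3 : (⟨((α t : S₁) : Ω), h1le (α t).2⟩ : S) = γ ⟨t, h1le t.2⟩ := Subtype.ext (eγ t).symm
      rw [h3]
      show ((γ.symm (γ ⟨t, h1le t.2⟩) : S) : Ω) = t
      simp
    have hS₂inv : ∀ s : S₂, ((γ⁻¹ ⟨s, h2le s.2⟩ : S) : Ω) ∈ S₂ := by
      intro s
      exact h₂.2 S₂ le_rfl _ (restrict_mem F hδi h2le) s
    have hv1 : ∀ w, ((S.subtype.comp (γ⁻¹).toMonoidHom).comp (Subgroup.inclusion hWS)) w ∈ P ⊔ S₂ := by
      refine sup_values_mem _ (fun y hy => ?_) (fun s hs => ?_)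
      · obtain ⟨t, ht, rfl⟩ := mem_img.1 hy
        refine Subgroup.mem_sup_left ?_
        have := hval1 t ht
        show ((γ⁻¹ ⟨((α t : S₁) : Ω), _⟩ : S) : Ω) ∈ P
        rw [this]
        exact ht
      · exact Subgroup.mem_sup_right (hS₂inv ⟨s, hs⟩)
    obtain ⟨a₂, ha₂, ea₂⟩ := exists_comp F ha₁ hψ hv1
    obtain ⟨a₃, ha₃, ea₃⟩ := exists_comp F ha₂ hδ (map_mem_S F ha₂)
    have hχF := restrict_mem F ha₃ (le_sup_left :
      (P.subgroupOf S₁).map (S₁.subtype.comp α.toMonoidHom) ≤ (P.subgroupOf S₁).map (S₁.subtype.comp α.toMonoidHom) ⊔ S₂)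
    have hφS₁ : ∀ x : P, φ x ∈ S₁ := fun x => h₁.2 P hPT φ hφF x
    have hval : ∀ (x : P) (hy : ((α ⟨x, hPT x.2⟩ : S₁) : Ω) ∈ (P.subgroupOf S₁).map (S₁.subtype.comp α.toMonoidHom)),
        (a₃.comp (Subgroup.inclusion le_sup_left)) ⟨_, hy⟩ = ((α ⟨φ x, hφS₁ x⟩ : S₁) : Ω) := by
      intro x hy
      show a₃ ⟨((α ⟨x, hPT x.2⟩ : S₁) : Ω), _⟩ = _
      rw [ea₃]
      have e1 : a₂ ⟨((α ⟨x, hPT x.2⟩ : S₁) : Ω), Subgroup.mem_sup_left hy⟩ = φ x := by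
        rw [ea₂, ← hψ1 x]
        congr 1
        apply Subtype.ext
        exact hval1 ⟨x, hPT x.2⟩ x.2
      have e2 : (⟨a₂ ⟨((α ⟨x, hPT x.2⟩ : S₁) : Ω), Subgroup.mem_sup_left hy⟩, map_mem_S F ha₂ _⟩ : S) =
          ⟨φ x, h1le (hφS₁ x)⟩ := Subtype.ext e1
      rw [e2]
      exact eγ ⟨φ x, hφS₁ x⟩
    refine ⟨a₃.comp (Subgroup.inclusion le_sup_left), ?_, fun x hφx hαx => hval x hαx⟩
    rw [hR' _ hYS₁]
    refine ⟨hχF, hYS₁.trans hS₁C, ?_, a₃, ha₃, fun y => rfl, fun s => ?_⟩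
    · rintro ⟨y, hy⟩
      obtain ⟨t, ht, rfl⟩ := mem_img.1 hy
      have e3 := hval ⟨t, ht⟩ hy
      have e4 : (a₃.comp (Subgroup.inclusion le_sup_left)) ⟨_, hy⟩ = ((α ⟨φ ⟨t, ht⟩, hφS₁ _⟩ : S₁) : Ω) := e3
      rw [e4]
      exact hS₁C (α _).2
    · rw [ea₃]
      have e1 : a₂ (Subgroup.inclusion le_sup_right s) = ((γ⁻¹ ⟨s, h2le s.2⟩ : S) : Ω) := by
        rw [ea₂]
        exact hψ2 ⟨_, hS₂inv s⟩
      have e2 : (⟨a₂ (Subgroup.inclusion le_sup_right s), map_mem_S F ha₂ _⟩ : S) = γ⁻¹ ⟨s, h2le s.2⟩ :=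
        Subtype.ext e1
      rw [e2]
      show ((γ (γ.symm ⟨s, h2le s.2⟩) : S) : Ω) = s
      simp
  -- Frattini for fully normalized targets
  have hfr1 : ∀ (P : Subgroup Ω), P ≤ S₁ → ∀ φ ∈ F.Hom P, F.IsFullyNormalized φ.range → Fr F R' φ := by
    intro P hPT φ hφ hfn
    obtain ⟨-, hrec⟩ := IsSaturated.fullyNormalized hS hF hfn
    obtain ⟨ψ, hψ, eψ⟩ := hrec.2 P φ hφ rfl
    have hPS : P ≤ S := hPT.trans h1le
    have hS₂P : S₂ ≤ centralizerIn S P := fun b hb => ⟨h2le hb, Subgroup.mem_centralizer_iff.2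
      fun h hh => hcomm h (hPT hh) b hb⟩
    have hext : P ⊔ S₂ ≤ extender S P φ :=
      sup_le (le_extender hPS φ (map_mem_S F hφ)) (hS₂P.trans (centralizerIn_le_extender S P φ))
    have hψ₁ := restrict_mem F hψ hext
    have hβ₀ := restrict_mem F hψ₁ (le_sup_right : S₂ ≤ P ⊔ S₂)
    have hr := (StronglyClosed.weaklyClosed h₂).2 _ hβ₀
    have hb := isoOfRange_mem_autGroup hβ₀ hr
    obtain ⟨γ, hγ, eγ⟩ := aut_extends hS hF h₂ hcov₂ hb
    have hinvS₁ : ∀ (ρ : F.autGroup S) (x : S₁), ((ρ.1 (Subgroup.inclusion h1le x) : S) : Ω) ∈ S₁ := by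
      intro ρ x
      exact h₁.2 S₁ le_rfl _ (restrict_mem F ((mem_autGroup_iff F le_rfl).1 ρ.2) h1le) x
    have hδi : S.subtype.comp (γ⁻¹).toMonoidHom ∈ F.Hom S := (mem_autGroup_iff F le_rfl).1 (inv_mem hγ)
    obtain ⟨ψ₀, hψ₀, eψ₀⟩ := exists_comp F hψ₁ hδi (map_mem_S F hψ₁)
    have hφ₀F := restrict_mem F hψ₀ (le_sup_left : P ≤ P ⊔ S₂)
    have hψ₁P : ∀ x : P, (ψ.comp (Subgroup.inclusion hext)) (Subgroup.inclusion le_sup_left x) = φ x :=
      fun x => eψ x x.2 _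
    have hφ₀val : ∀ x : P, (ψ₀.comp (Subgroup.inclusion le_sup_left)) x = ((γ⁻¹ ⟨φ x, map_mem_S F hφ x⟩ : S) : Ω) := by
      intro x
      show ψ₀ (Subgroup.inclusion le_sup_left x) = _
      rw [eψ₀]
      show ((γ⁻¹ ⟨(ψ.comp (Subgroup.inclusion hext)) (Subgroup.inclusion le_sup_left x), _⟩ : S) : Ω) = _
      congr 3
      exact hψ₁P x
    have hφS₁ : ∀ x : P, φ x ∈ S₁ := fun x => h₁.2 P hPT φ hφ x
    have hφ₀S₁ : ∀ x : P, (ψ₀.comp (Subgroup.inclusion le_sup_left)) x ∈ S₁ := by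
      intro x
      rw [hφ₀val]
      exact h₁.2 S₁ le_rfl _ (restrict_mem F hδi h1le) ⟨φ x, hφS₁ x⟩
    have hmem : ψ₀.comp (Subgroup.inclusion (le_sup_left : P ≤ P ⊔ S₂)) ∈ R'.Hom P := by
      rw [hR' P hPT]
      refine ⟨hφ₀F, hPT.trans hS₁C, fun x => hS₁C (hφ₀S₁ x), ψ₀, hψ₀, fun x => rfl, fun s => ?_⟩
      rw [eψ₀]
      have e1 : (⟨(ψ.comp (Subgroup.inclusion hext)) (Subgroup.inclusion le_sup_right s), map_mem_S F hψ₁ _⟩ : S) =
          γ ⟨s, h2le s.2⟩ := Subtype.ext (eγ s).symm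
      rw [e1]
      show ((γ.symm (γ ⟨s, h2le s.2⟩) : S) : Ω) = s
      simp
    let α := resHom le_rfl h1le hinvS₁ ⟨γ, hγ⟩
    refine ⟨α.1, α.2, _, hmem, fun x hx => ?_⟩
    show φ x = ((γ ⟨(ψ₀.comp (Subgroup.inclusion le_sup_left)) x, h1le hx⟩ : S) : Ω)
    have e2 : (⟨(ψ₀.comp (Subgroup.inclusion le_sup_left)) x, h1le hx⟩ : S) = γ⁻¹ ⟨φ x, map_mem_S F hφ x⟩ :=
      Subtype.ext (hφ₀val x)
    rw [e2]
    show φ x = ((γ (γ.symm ⟨φ x, map_mem_S F hφ x⟩) : S) : Ω)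
    simp
  -- Frattini in general
  have hfr : ∀ (P : Subgroup Ω), P ≤ S₁ → ∀ φ ∈ F.Hom P, Fr F R' φ := by
    intro P hPT φ hφ
    have hrS₁ : φ.range ≤ S₁ := by
      rintro _ ⟨x, rfl⟩
      exact h₁.2 P hPT φ hφ x
    obtain ⟨Q, ⟨τ, hτ, hτr⟩, hQn⟩ := exists_isConj_fullyNormalized F (range_le F hφ)
    have hv : ∀ x : P, φ x ∈ φ.range := fun x => ⟨x, rfl⟩
    obtain ⟨θ, hθ, eθ⟩ := exists_comp F hφ hτ hv
    have hθr : θ.range = Q := by
      ext y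
      constructor
      · rintro ⟨x, rfl⟩
        rw [eθ, ← hτr]
        exact ⟨_, rfl⟩
      · intro hy
        rw [← hτr] at hy
        obtain ⟨⟨_, x, rfl⟩, rfl⟩ := hy
        exact ⟨x, eθ x⟩
    have h3 : Fr F R' θ := hfr1 P hPT θ hθ (hθr ▸ hQn)
    have h4 : Fr F R' τ := hfr1 φ.range hrS₁ τ hτ (hτr ▸ hQn)
    obtain ⟨ι, hι, h11, h12, h13⟩ := exists_inverse F hτ hτr
    have h5 : Fr F R' ι := fr_inv h1le hInv hτr h11 h4
    have hv2 : ∀ x : P, θ x ∈ Q := fun x => hθr ▸ ⟨x, rfl⟩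
    refine fr_comp h1le hInv hv2 (fun x => ?_) h3 h5
    have e1 : (⟨θ x, hv2 x⟩ : Q) = ⟨τ ⟨φ x, hv x⟩, hτr ▸ ⟨_, rfl⟩⟩ := Subtype.ext (eθ x)
    rw [e1, h11]
  refine ⟨hRsat, hR'sat, ⟨⟨hR'sat, hF, hR'F, h₁, hInv, fun P hP φ hφ => hfr P hP φ hφ⟩, ?_⟩, ⟨⟨hR'sat, hRsat, ?_, ?_, ?_, ?_⟩, ?_⟩,
    hRsat, hF, ?_, h₁, ?_, ?_⟩
  · -- the extension condition in `F`
    intro α hα
    have hα' := (mem_autGroup_iff R' le_rfl).1 hα
    rw [hR' S₁ le_rfl] at hα'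
    obtain ⟨-, -, -, ψ, hψ, hψ1, hψ2⟩ := hα'
    have hVle : S₁ ⊔ centralizerIn S S₁ ≤ S₁ ⊔ S₂ :=
      sup_le le_sup_left (by rw [hsup]; exact inf_le_left)
    have hVS : S₁ ⊔ centralizerIn S S₁ ≤ S := hVle.trans (le_of_eq hsup)
    haveI : Finite ↥(S₁ ⊔ centralizerIn S S₁) := finite_of_le hVS
    have hψ' := restrict_mem F hψ hVle
    have hrange : (ψ.comp (Subgroup.inclusion hVle)).range = S₁ ⊔ centralizerIn S S₁ := by
      refine Subgroup.eq_of_le_of_card_ge ?_ (card_range_eq F hψ').ge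
      rintro _ ⟨x, rfl⟩
      exact hcov₁ (map_mem_S F hψ' x)
    refine ⟨isoOfRange hψ' hrange, isoOfRange_mem_autGroup hψ' hrange, fun x => hψ1 x, fun c hc => ?_⟩
    obtain ⟨a, ha, b, hb, hcab⟩ := hdec c hc.1
    have hcz : (c : Ω) ∈ Subgroup.centralizer (S₁ : Set Ω) := hc.2
    have haz : a ∈ Subgroup.centralizer (S₁ : Set Ω) := by
      have h3 : (c : Ω) * b⁻¹ ∈ Subgroup.centralizer (S₁ : Set Ω) :=
        Subgroup.mul_mem _ hcz (Subgroup.inv_mem _ (hc12 b hb))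
      rw [hcab] at h3
      simpa using h3
    have hval : ψ (Subgroup.inclusion hVle c) = ((α ⟨a, ha⟩ : S₁) : Ω) * b := by
      have e1 : Subgroup.inclusion hVle c = Subgroup.inclusion le_sup_left (⟨a, ha⟩ : S₁) *
          Subgroup.inclusion le_sup_right (⟨b, hb⟩ : S₂) := Subtype.ext hcab
      rw [e1, map_mul, hψ1 ⟨a, ha⟩, hψ2 ⟨b, hb⟩]
      rfl
    have hαz : ((α ⟨a, ha⟩ : S₁) : Ω) ∈ Subgroup.centralizer (S₁ : Set Ω) := by
      rw [Subgroup.mem_centralizer_iff]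
      intro t ht
      obtain ⟨u, hu⟩ := α.surjective ⟨t, ht⟩
      have ht' : t = ((α u : S₁) : Ω) := by rw [hu]
      have e2 : u * ⟨a, ha⟩ = ⟨a, ha⟩ * u := Subtype.ext (Subgroup.mem_centralizer_iff.1 haz _ u.2)
      have e3 := congrArg (fun z => ((α z : S₁) : Ω)) e2
      simp only [map_mul] at e3
      rw [ht']
      exact e3
    have hgoal : (c : Ω)⁻¹ * ((isoOfRange hψ' hrange c : ↥(S₁ ⊔ centralizerIn S S₁)) : Ω) =
        a⁻¹ * ((α ⟨a, ha⟩ : S₁) : Ω) := by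
      rw [isoOfRange_apply]
      show (c : Ω)⁻¹ * ψ (Subgroup.inclusion hVle c) = _
      rw [hval, hcab]
      have h4 : ((α ⟨a, ha⟩ : S₁) : Ω) * b = b * ((α ⟨a, ha⟩ : S₁) : Ω) := hcomm _ (α ⟨a, ha⟩).2 b hb
      rw [h4, hcomm a ha b hb]
      group
    rw [hgoal]
    exact ⟨S₁.mul_mem (S₁.inv_mem ha) (α ⟨a, ha⟩).2, Subgroup.mul_mem _ (Subgroup.inv_mem _ haz) hαz⟩
  · -- `R'` in `R`
    intro P φ hφ
    have hPT : P ≤ S₁ := source_le R' hφ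
    rw [hR P hPT]
    exact hR'F P hφ
  · exact ⟨le_rfl, fun R₀ _ φ hφ x => map_mem_S R hφ x⟩
  · intro P hPT φ hφ α hα
    have e : R.autGroup S₁ = F.autGroup S₁ := by
      unfold autGroup
      rw [hR S₁ le_rfl]
    exact hInv P hPT φ hφ α (e ▸ hα)
  · intro P hPT φ hφ
    have e : R.autGroup S₁ = F.autGroup S₁ := by
      unfold autGroup
      rw [hR S₁ le_rfl]
    rw [hR P hPT] at hφ
    obtain ⟨α, hα, φ₀, h₀, e₀⟩ := hfr P hPT φ hφ
    exact ⟨α, e.symm ▸ hα, φ₀, h₀, e₀⟩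
  · -- extension in `R`
    intro α hα
    have hVle : S₁ ⊔ centralizerIn S₁ S₁ ≤ S₁ := sup_le le_rfl inf_le_left
    haveI hfinS₁ : Finite S₁ := finite_of_le h1le
    haveI : Finite ↥(S₁ ⊔ centralizerIn S₁ S₁) := finite_of_le (hVle.trans h1le)
    have hαR : S₁.subtype.comp α.toMonoidHom ∈ R.Hom S₁ := by
      rw [hR S₁ le_rfl]
      exact hR'F _ ((mem_autGroup_iff R' le_rfl).1 hα)
    have hm := restrict_mem R hαR hVle
    have hrange : ((S₁.subtype.comp α.toMonoidHom).comp (Subgroup.inclusion hVle)).range =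
        S₁ ⊔ centralizerIn S₁ S₁ := by
      refine Subgroup.eq_of_le_of_card_ge ?_ (card_range_eq R hm).ge
      rintro _ ⟨x, rfl⟩
      exact Subgroup.mem_sup_left (α _).2
    refine ⟨isoOfRange hm hrange, isoOfRange_mem_autGroup hm hrange, fun x => rfl, fun c hc => ?_⟩
    have hcS : (c : Ω) ∈ S₁ := hc.1
    have hcz : (c : Ω) ∈ Subgroup.centralizer (S₁ : Set Ω) := hc.2
    have hαz : ((α ⟨c, hcS⟩ : S₁) : Ω) ∈ Subgroup.centralizer (S₁ : Set Ω) := by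
      rw [Subgroup.mem_centralizer_iff]
      intro t ht
      obtain ⟨u, hu⟩ := α.surjective ⟨t, ht⟩
      have ht' : t = ((α u : S₁) : Ω) := by rw [hu]
      have e2 : u * ⟨c, hcS⟩ = ⟨c, hcS⟩ * u := Subtype.ext (Subgroup.mem_centralizer_iff.1 hcz _ u.2)
      have e3 := congrArg (fun z => ((α z : S₁) : Ω)) e2
      simp only [map_mul] at e3
      rw [ht']
      exact e3
    refine ⟨S₁.mul_mem (S₁.inv_mem hcS) (α ⟨c, hcS⟩).2, Subgroup.mul_mem _ (Subgroup.inv_mem _ hcz) hαz⟩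
  · -- `R` in `F`
    intro P φ hφ
    have hPT : P ≤ S₁ := source_le R hφ
    rw [hR P hPT] at hφ
    exact hφ
  · -- invariance of `R`
    intro P hPT φ hφ α hα
    rw [hR P hPT] at hφ
    have hδ := (mem_autGroup_iff F h1le).1 hα
    have hδi := (mem_autGroup_iff F h1le).1 (inv_mem hα)
    have hYS₁ : (P.subgroupOf S₁).map (S₁.subtype.comp α.toMonoidHom) ≤ S₁ := img_le α P
    have ha₁ := restrict_mem F hδi hYS₁
    have hval1 : ∀ (t : S₁), ((α⁻¹ (α t) : S₁) : Ω) = t := by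
      intro t
      show ((α.symm (α t) : S₁) : Ω) = t
      simp
    have hv1 : ∀ y, ((S₁.subtype.comp (α⁻¹).toMonoidHom).comp (Subgroup.inclusion hYS₁)) y ∈ P := by
      rintro ⟨y, hy⟩
      obtain ⟨t, ht, rfl⟩ := mem_img.1 hy
      show ((α⁻¹ (α t) : S₁) : Ω) ∈ P
      rw [hval1]
      exact ht
    obtain ⟨a₂, ha₂, ea₂⟩ := exists_comp F ha₁ hφ hv1
    have hv2 : ∀ y, a₂ y ∈ S₁ := fun y => by
      rw [ea₂]
      exact h₁.2 P hPT φ hφ _
    obtain ⟨a₃, ha₃, ea₃⟩ := exists_comp F ha₂ hδ hv2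
    refine ⟨a₃, by rw [hR _ hYS₁]; exact ha₃, fun x hφx hαx => ?_⟩
    rw [ea₃]
    have e1 : a₂ ⟨_, hαx⟩ = φ x := by
      rw [ea₂]
      congr 1
      apply Subtype.ext
      exact hval1 ⟨x, hPT x.2⟩
    have e2 : (⟨a₂ ⟨_, hαx⟩, hv2 _⟩ : S₁) = ⟨φ x, hφx⟩ := Subtype.ext e1
    rw [e2]
    rfl
  · -- Frattini for `R`
    intro P hPT φ hφ
    refine ⟨1, one_mem _, φ, by rw [hR P hPT]; exact hφ, fun x hx => rfl⟩

end Main

end Cfsg.Agent.Lib.FusionDirect
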