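import Cfsg.Agent.Lib.FusionHypQuot
import Cfsg.Agent.Lib.FusionCentric
import Cfsg.Agent.Lib.FusionGen

/-!
Subsystems of index prime to `p`: the Alperin argument with induction hypothesis, the Frattini
decomposition `φ = α ∘ φ₀`, and the consequences.
-/

set_option autoImplicit false
set_option linter.all false

namespace Cfsg.Agent.Lib.FusionPPrime

open Cfsg Cfsg.FusionSystem Cfsg.Agent.Lib.FusionBasic Cfsg.Agent.Lib.FusionAut
  Cfsg.Agent.Lib.FusionSat Cfsg.Agent.Lib.FusionAlperin Cfsg.Agent.Lib.FusionNormal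
  Cfsg.Agent.Lib.FusionHyp Cfsg.Agent.Lib.FusionStrong Cfsg.Agent.Lib.PResidual
  Cfsg.Agent.Lib.FusionPIdx Cfsg.Agent.Lib.FusionHypQuot Cfsg.Agent.Lib.SylowIn

variable {Ω : Type*} [Group Ω] {S : Subgroup Ω} {p : ℕ} [Fact p.Prime]

/-- Alperin--Goldschmidt fusion theorem. -/
theorem alperin_strong [Finite S] (hS : IsPGroup p S) {F : FusionSystem S} (hF : F.IsSaturated p)
    (E : FusionSystem S)
    (hE : ∀ P : Subgroup Ω, (P = S ∨ F.IsEssential p P) → (∀ Q : Subgroup Ω, P < Q → F.Hom Q ⊆ E.Hom Q) →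
      F.autGroup P ≤ E.autGroup P) :
    ∀ P, F.Hom P ⊆ E.Hom P := by
  -- strong induction on `|S| - |P|`
  have key : ∀ n : ℕ, ∀ P : Subgroup Ω, Nat.card S - Nat.card P = n → F.Hom P ⊆ E.Hom P := by
    intro n
    induction n using Nat.strong_induction_on with
    | _ n ih =>
      intro P hn φ hφ
      have hPS : P ≤ S := source_le F hφ
      have hfinP : Finite P := finite_of_le hPS
      have hIH : ∀ Q : Subgroup Ω, Q ≤ S → Nat.card P < Nat.card Q → F.Hom Q ⊆ E.Hom Q := by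
        intro Q hQS hc
        have hc2 : Nat.card Q ≤ Nat.card S := Subgroup.card_le_of_le hQS
        exact ih (Nat.card S - Nat.card Q) (by omega) Q rfl
      by_cases hPeq : P = S
      · subst hPeq
        have hr : φ.range = P := by
          have h1 : φ.range ≤ P := range_le F hφ
          refine Subgroup.eq_of_le_of_card_ge h1 ?_
          rw [card_range_eq F hφ]
        let e : P ≃* P := isoOfRange hφ hr
        have he : e ∈ F.autGroup P := by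
          rw [mem_autGroup_iff F le_rfl]
          exact hom_of_eq hφ fun x => rfl
        have he' := hE P (Or.inl rfl) (fun Q hQ χ hχ => absurd (source_le F hχ) (not_le_of_gt hQ)) he
        have := (mem_autGroup_iff E le_rfl).mp he'
        exact hom_of_eq this fun x => rfl
      · have hPlt : P < S := lt_of_le_of_ne hPS hPeq
        -- choose a fully normalized conjugate `R`
        obtain ⟨R, hPR, hRn⟩ := exists_isConj_fullyNormalized F hPS
        have hQS : φ.range ≤ S := range_le F hφ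
        have hQcard : Nat.card φ.range = Nat.card P := card_range_eq F hφ
        have hRcard : Nat.card P = Nat.card R := card_eq_of_isConj F hPR
        have hQlt : φ.range < S := by
          refine lt_of_le_of_ne hQS fun he => hPeq ?_
          refine Subgroup.eq_of_le_of_card_ge hPS ?_
          rw [← he, hQcard]
        have hRlt : R < S := by
          have hRS : R ≤ S := hRn.1
          refine lt_of_le_of_ne hRS fun he => hPeq ?_
          refine Subgroup.eq_of_le_of_card_ge hPS ?_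
          rw [← he, hRcard]
        -- `χ₁ : P → R` in `E`
        have hlift : ∀ {A : Subgroup Ω}, A < S → F.IsConj A R → Nat.card A = Nat.card P →
            ∃ χ ∈ E.Hom A, χ.range = R ∧ χ ∈ F.Hom A := by
          intro A hAS hAR hcA
          obtain ⟨χ, hχ, hv, h1, h2⟩ := IsSaturated.exists_normalizer_map hS hF hRn hAR
          have hlt := lt_normalizerIn hS hAS
          have hAN := hlt.le
          have hfinA : Finite A := finite_of_le hAS.le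
          have hfinN : Finite (normalizerIn S A) := finite_of_le inf_le_left
          have hE1 : χ ∈ E.Hom (normalizerIn S A) := by
            have hcc : Nat.card P < Nat.card (normalizerIn S A) := by
              rw [← hcA]
              exact Nat.lt_of_le_of_ne (Subgroup.card_le_of_le hAN)
                (fun he => hlt.ne (Subgroup.eq_of_le_of_card_ge hAN he.ge))
            have hcc2 : Nat.card (normalizerIn S A) ≤ Nat.card S :=
              Subgroup.card_le_of_le inf_le_left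
            exact ih (Nat.card S - Nat.card (normalizerIn S A)) (by omega) _ rfl hχ
          refine ⟨χ.comp (Subgroup.inclusion hAN), restrict_mem E hE1 hAN, ?_, restrict_mem F hχ hAN⟩
          ext y
          constructor
          · rintro ⟨x, rfl⟩
            exact h1 x x.2 _
          · intro hy
            obtain ⟨x, hx, hN, e⟩ := h2 y hy
            exact ⟨⟨x, hx⟩, e⟩
        obtain ⟨χ₁, hχ₁E, hχ₁r, hχ₁F⟩ := hlift hPlt hPR rfl
        obtain ⟨χ₂, hχ₂E, hχ₂r, hχ₂F⟩ := hlift hQlt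
          (isConj_trans F (isConj_symm F (isConj_range F hφ)) hPR) hQcard
        -- the automorphism `α = χ₂ φ χ₁⁻¹`
        obtain ⟨ι, hι, h11, h12, h13⟩ := exists_inverse F hχ₁F hχ₁r
        have hv1 : ∀ y : R, ι y ∈ P := h12
        obtain ⟨a₁, ha₁, ea₁⟩ := exists_comp F hι hφ hv1
        have hv2 : ∀ y : R, a₁ y ∈ φ.range := by
          intro y
          rw [ea₁]
          exact ⟨_, rfl⟩
        obtain ⟨a₂, ha₂, ea₂⟩ := exists_comp F ha₁ hχ₂F hv2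
        have hχ₂R : ∀ z : φ.range, χ₂ z ∈ R := fun z => hχ₂r ▸ ⟨z, rfl⟩
        have ha₂r : a₂.range = R := by
          ext y
          constructor
          · rintro ⟨x, rfl⟩
            rw [ea₂]
            exact hχ₂R _
          · intro hy
            have hy' : y ∈ χ₂.range := by rw [hχ₂r]; exact hy
            obtain ⟨⟨_, w, rfl⟩, rfl⟩ := hy'
            have hw : χ₁ w ∈ R := hχ₁r ▸ ⟨w, rfl⟩
            refine ⟨⟨χ₁ w, hw⟩, ?_⟩
            have e1 : a₁ ⟨χ₁ w, hw⟩ = φ w := by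
              rw [ea₁]
              congr 1
              exact Subtype.ext (h11 w hw)
            rw [ea₂]
            congr 1
            exact Subtype.ext e1
        let α : R ≃* R := isoOfRange ha₂ ha₂r
        have hαF : α ∈ F.autGroup R := by
          rw [mem_autGroup_iff F hRlt.le]
          exact hom_of_eq ha₂ fun x => rfl
        have hαE : α ∈ E.autGroup R := by
          rcases essential_dichotomy hS hF hRlt hRn with ⟨-, hH⟩ | ⟨hess, -⟩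
          · rw [← hH] at hαF
            have hle : extendingAut F R ≤ E.autGroup R := by
              rw [extendingAut, Subgroup.closure_le]
              rintro β ⟨Q, hRQ, ψ, hψ, hβ⟩
              have hQS' : Q ≤ S := source_le F hψ
              have hfinQ : Finite Q := finite_of_le hQS'
              have hcQ : Nat.card P < Nat.card Q := by
                rw [hRcard]
                exact Nat.lt_of_le_of_ne (Subgroup.card_le_of_le hRQ.le)
                  (fun he => hRQ.ne (Subgroup.eq_of_le_of_card_ge hRQ.le he.ge))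
              have hψE := hIH Q hQS' hcQ hψ
              show β ∈ E.autGroup R
              rw [mem_autGroup_iff E hRlt.le]
              exact hom_of_eq (restrict_mem E hψE hRQ.le) fun x => (hβ x).symm
            exact hle hαF
          · refine hE R (Or.inr hess) (fun Q hRQ χ hχ => ?_) hαF
            have hQS' : Q ≤ S := source_le F hχ
            have hfinQ : Finite Q := finite_of_le hQS'
            have hcQ : Nat.card P < Nat.card Q := by
              rw [hRcard]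
              exact Nat.lt_of_le_of_ne (Subgroup.card_le_of_le hRQ.le)
                (fun he => hRQ.ne (Subgroup.eq_of_le_of_card_ge hRQ.le he.ge))
            exact hIH Q hQS' hcQ hχ
        have hαE' := (mem_autGroup_iff E hRlt.le).mp hαE
        obtain ⟨κ, hκ, hκ1, hκ2, hκ3⟩ := exists_inverse E hχ₂E hχ₂r
        have hv3 : ∀ x : P, χ₁ x ∈ R := fun x => hχ₁r ▸ ⟨x, rfl⟩
        obtain ⟨b₁, hb₁, eb₁⟩ := exists_comp E hχ₁E hαE' hv3
        have hv4 : ∀ x : P, b₁ x ∈ R := by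
          intro x
          rw [eb₁]
          exact (α ⟨χ₁ x, hv3 x⟩).2
        obtain ⟨b₂, hb₂, eb₂⟩ := exists_comp E hb₁ hκ hv4
        refine hom_of_eq hb₂ fun x => ?_
        rw [eb₂]
        have e1 : a₁ ⟨χ₁ x, hv3 x⟩ = φ x := by
          rw [ea₁]
          congr 1
          exact Subtype.ext (h11 x (hv3 x))
        have e2 : b₁ x = χ₂ ⟨φ x, ⟨x, rfl⟩⟩ := by
          rw [eb₁]
          show a₂ ⟨χ₁ x, hv3 x⟩ = _
          rw [ea₂]
          congr 1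
          exact Subtype.ext e1
        have e3 : (⟨b₁ x, hv4 x⟩ : R) = ⟨χ₂ ⟨φ x, ⟨x, rfl⟩⟩, hχ₂R _⟩ := Subtype.ext e2
        rw [e3]
        exact (hκ1 ⟨φ x, ⟨x, rfl⟩⟩ _).symm
  exact fun P => key _ P rfl


section Main

variable {F E : FusionSystem S}

/-- The maps all of whose `Aut_F(S)`-conjugates lie in `E`. -/
def PrZ (F E : FusionSystem S) {R : Subgroup Ω} (φ : R →* Ω) : Prop :=
  ∀ hRT : R ≤ S, ∀ α ∈ F.autGroup S,
    ∃ χ ∈ E.Hom ((R.subgroupOf S).map (S.subtype.comp α.toMonoidHom)),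
      ∀ (x : R) (hφx : φ x ∈ S)
        (hαx : ((α ⟨x, hRT x.2⟩ : S) : Ω) ∈ (R.subgroupOf S).map (S.subtype.comp α.toMonoidHom)),
        χ ⟨(α ⟨x, hRT x.2⟩ : S), hαx⟩ = ((α ⟨φ x, hφx⟩ : S) : Ω)

theorem PrZ.conj (F E : FusionSystem S) {R : Subgroup Ω} {g : Ω} (hR : R ≤ S) (hg : g ∈ S) :
    PrZ F E (conjHom R g) := by
  intro hRT α hα
  refine ⟨conjHom _ ((α ⟨g, hg⟩ : S) : Ω), E.conj_mem (img_le α R) (α ⟨g, hg⟩).2, fun x hφx hαx => ?_⟩
  show ((α ⟨g, hg⟩ : S) : Ω) * ((α ⟨x, hRT x.2⟩ : S) : Ω) * ((α ⟨g, hg⟩ : S) : Ω)⁻¹ = _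
  have e : (⟨conjHom R g x, hφx⟩ : S) = ⟨g, hg⟩ * ⟨x, hRT x.2⟩ * ⟨g, hg⟩⁻¹ := rfl
  rw [e, map_mul, map_mul, map_inv]
  rfl

theorem PrZ.comp {P Q : Subgroup Ω} {φ : P →* Ω} {ψ : Q →* Ω} (hφ : φ ∈ F.Hom P) (hψ : ψ ∈ F.Hom Q)
    (h : ∀ x : P, φ x ∈ Q) (h1 : PrZ F E φ) (h2 : PrZ F E ψ) : PrZ F E (ψ.comp (φ.codRestrict Q h)) := by
  intro hPT α hα
  have hQT : Q ≤ S := source_le F hψ
  obtain ⟨χ₁, hχ₁, e₁⟩ := h1 hPT α hα
  obtain ⟨χ₂, hχ₂, e₂⟩ := h2 hQT α hα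
  have hφT : ∀ x : P, φ x ∈ S := fun x => map_mem_S F hφ x
  have hψT : ∀ x : Q, ψ x ∈ S := fun x => map_mem_S F hψ x
  have hval : ∀ y : (P.subgroupOf S).map (S.subtype.comp α.toMonoidHom),
      χ₁ y ∈ (Q.subgroupOf S).map (S.subtype.comp α.toMonoidHom) := by
    rintro ⟨y, hy⟩
    obtain ⟨t, ht, rfl⟩ := mem_img.1 hy
    have e := e₁ ⟨t, ht⟩ (hφT _) hy
    have e' : χ₁ ⟨_, hy⟩ = ((α ⟨φ ⟨t, ht⟩, hφT _⟩ : S) : Ω) := e
    rw [e']
    exact mem_img.2 ⟨_, h _, rfl⟩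
  obtain ⟨χ, hχ, eχ⟩ := exists_comp E hχ₁ hχ₂ hval
  refine ⟨χ, hχ, fun x hφx hαx => ?_⟩
  rw [eχ]
  have e3 := e₁ x (hφT x) hαx
  have hm : ((α ⟨φ x, hφT x⟩ : S) : Ω) ∈ (Q.subgroupOf S).map (S.subtype.comp α.toMonoidHom) :=
    mem_img.2 ⟨_, h _, rfl⟩
  have e4 : (⟨χ₁ ⟨_, hαx⟩, hval ⟨_, hαx⟩⟩ : ↥((Q.subgroupOf S).map (S.subtype.comp α.toMonoidHom))) =
      ⟨_, hm⟩ := Subtype.ext e3
  rw [e4]
  exact e₂ ⟨φ x, h x⟩ (hψT _) hm

theorem PrZ.inv {P : Subgroup Ω} {φ : P →* Ω} (hφ : φ ∈ F.Hom P) (h1 : PrZ F E φ) {ψ : φ.range →* Ω}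
    (e : ∀ x : P, ψ ⟨φ x, ⟨x, rfl⟩⟩ = (x : Ω)) : PrZ F E ψ := by
  intro hRT α hα
  have hPT : P ≤ S := source_le F hφ
  have hφT : ∀ x : P, φ x ∈ S := fun x => map_mem_S F hφ x
  obtain ⟨χ, hχ, eχ⟩ := h1 hPT α hα
  have hr : χ.range = (φ.range.subgroupOf S).map (S.subtype.comp α.toMonoidHom) := by
    ext y
    constructor
    · rintro ⟨⟨z, hz⟩, rfl⟩
      obtain ⟨t, ht, rfl⟩ := mem_img.1 hz
      have e' : χ ⟨_, hz⟩ = ((α ⟨φ ⟨t, ht⟩, hφT _⟩ : S) : Ω) := eχ ⟨t, ht⟩ (hφT _) hz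
      rw [e']
      exact mem_img.2 ⟨_, ⟨_, rfl⟩, rfl⟩
    · intro hy
      obtain ⟨t, ⟨x, hx⟩, rfl⟩ := mem_img.1 hy
      have hm : ((α ⟨x, hPT x.2⟩ : S) : Ω) ∈ (P.subgroupOf S).map (S.subtype.comp α.toMonoidHom) :=
        mem_img.2 ⟨_, x.2, rfl⟩
      refine ⟨⟨_, hm⟩, ?_⟩
      rw [eχ x (hφT x) hm]
      have : (⟨φ x, hφT x⟩ : S) = t := Subtype.ext hx
      rw [this]
  obtain ⟨ι, hι, h11, h12, h13⟩ := exists_inverse E hχ hr
  refine ⟨ι, hι, ?_⟩
  rintro ⟨y, ⟨x, rfl⟩⟩ hφx hαx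
  have hm : ((α ⟨x, hPT x.2⟩ : S) : Ω) ∈ (P.subgroupOf S).map (S.subtype.comp α.toMonoidHom) :=
    mem_img.2 ⟨_, x.2, rfl⟩
  have e1 := eχ x (hφT x) hm
  have h2 := h11 ⟨_, hm⟩ (by rw [← hr]; exact ⟨_, rfl⟩)
  have e2 : (⟨χ ⟨_, hm⟩, (by rw [← hr]; exact ⟨_, rfl⟩)⟩ :
      ↥((φ.range.subgroupOf S).map (S.subtype.comp α.toMonoidHom))) = ⟨_, hαx⟩ := Subtype.ext e1
  rw [e2] at h2
  rw [h2]
  have e3 : (⟨ψ ⟨φ x, ⟨x, rfl⟩⟩, hφx⟩ : S) = ⟨x, hPT x.2⟩ := Subtype.ext (e x)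
  rw [e3]

/-- The `Aut_F(S)`-invariant part of `E`. -/
def coreSys (F E : FusionSystem S) : FusionSystem S :=
  subsystemOf F (fun {R} φ => PrZ F E φ) (fun {R g} hR hg => PrZ.conj F E hR hg)
    (fun hφ hψ h h1 h2 => PrZ.comp hφ hψ h h1 h2) (fun hφ h1 ψ _ e => PrZ.inv hφ h1 e)

/-- A named-target form. -/
theorem PrZ.target {R Y : Subgroup Ω} {φ : R →* Ω} (h : PrZ F E φ) (hRS : R ≤ S) (hv : ∀ x : R, φ x ∈ S)
    {α : MulAut S} (hα : α ∈ F.autGroup S) (hY : ∀ y, y ∈ Y ↔ ∃ x : R, ((α ⟨x, hRS x.2⟩ : S) : Ω) = y) :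
    ∃ χ ∈ E.Hom Y, ∀ (x : R) (hx : ((α ⟨x, hRS x.2⟩ : S) : Ω) ∈ Y),
      χ ⟨((α ⟨x, hRS x.2⟩ : S) : Ω), hx⟩ = ((α ⟨φ x, hv x⟩ : S) : Ω) := by
  have e : Y = (R.subgroupOf S).map (S.subtype.comp α.toMonoidHom) := by
    ext y
    rw [hY, mem_img]
    constructor
    · rintro ⟨x, rfl⟩
      exact ⟨⟨x, hRS x.2⟩, x.2, rfl⟩
    · rintro ⟨t, ht, rfl⟩
      exact ⟨⟨t, ht⟩, rfl⟩
  subst e
  obtain ⟨χ, hχ, eχ⟩ := h hRS α hα
  exact ⟨χ, hχ, fun x hx => eχ x (hv x) hx⟩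

theorem invT_coreSys (hEF : E.IsSubsystemOf F) : InvT F (coreSys F E) := by
  intro P hPT φ hφ β hβ
  obtain ⟨hφF, hφZ⟩ := hφ
  have hφS : ∀ x : P, φ x ∈ S := fun x => map_mem_S F hφF x
  obtain ⟨χ, hχ, eχ⟩ := hφZ hPT β hβ
  refine ⟨χ, ⟨hEF _ hχ, ?_⟩, eχ⟩
  intro hRT α hα
  have hY : ∀ y, y ∈ (((P.subgroupOf S).map (S.subtype.comp β.toMonoidHom)).subgroupOf S).map
      (S.subtype.comp α.toMonoidHom) ↔ ∃ x : P, (((α * β) ⟨x, hPT x.2⟩ : S) : Ω) = y := by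
    intro y
    rw [mem_img]
    constructor
    · rintro ⟨t, ht, rfl⟩
      obtain ⟨u, hu, e⟩ := mem_img.1 ht
      refine ⟨⟨u, hu⟩, ?_⟩
      show ((α (β _) : S) : Ω) = _
      congr 2
      exact Subtype.ext e
    · rintro ⟨x, rfl⟩
      exact ⟨β ⟨x, hPT x.2⟩, mem_img.2 ⟨_, x.2, rfl⟩, rfl⟩
  obtain ⟨χ₂, hχ₂, eχ₂⟩ := PrZ.target hφZ hPT hφS (mul_mem hα hβ) hY
  refine ⟨χ₂, hχ₂, ?_⟩
  rintro ⟨y, hy⟩ hφx hαx
  obtain ⟨t, ht, rfl⟩ := mem_img.1 hy
  have hαx' : (((α * β) ⟨t, hPT ht⟩ : S) : Ω) ∈ (((P.subgroupOf S).map (S.subtype.comp β.toMonoidHom)).subgroupOf S).map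
      (S.subtype.comp α.toMonoidHom) := hαx
  have e1 := eχ₂ ⟨t, ht⟩ hαx'
  have e2 : χ ⟨_, hy⟩ = ((β ⟨φ ⟨t, ht⟩, hφS _⟩ : S) : Ω) := eχ ⟨t, ht⟩ (hφS _) hy
  exact e1.trans (by
    show ((α (β ⟨φ ⟨t, ht⟩, hφS _⟩) : S) : Ω) = _
    congr 2
    exact Subtype.ext e2.symm)

theorem isCentric_img {P : Subgroup Ω} (hP : F.IsCentric P) {α : MulAut S} (hα : α ∈ F.autGroup S) :
    F.IsCentric ((P.subgroupOf S).map (S.subtype.comp α.toMonoidHom)) := by
  have hm := restrict_mem F ((mem_autGroup_iff F le_rfl).1 hα) hP.1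
  have hr : ((S.subtype.comp α.toMonoidHom).comp (Subgroup.inclusion hP.1)).range =
      (P.subgroupOf S).map (S.subtype.comp α.toMonoidHom) := by
    ext y
    rw [mem_img]
    constructor
    · rintro ⟨x, rfl⟩
      exact ⟨⟨x, hP.1 x.2⟩, x.2, rfl⟩
    · rintro ⟨t, ht, rfl⟩
      exact ⟨⟨t, ht⟩, rfl⟩
  refine ⟨img_le α P, fun Q hQ => hP.2 Q (isConj_trans F ⟨_, hm, hr⟩ hQ)⟩

/-- `p`-elements of the automizers of centric subgroups lie in the invariant part. -/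
theorem mem_coreSys_of_centric [Finite S]
    (hEF : E.IsSubsystemOf F)
    (h : ∀ P : Subgroup Ω, F.IsCentric P →
      (Subgroup.closure {α : ↥(F.autGroup P) | ∃ k : ℕ, orderOf α = p ^ k}).map (F.autGroup P).subtype ≤ E.autGroup P)
    {Q : Subgroup Ω} (hQ : F.IsCentric Q) (ρ : F.autGroup Q) (hρ : ∃ k : ℕ, orderOf ρ = p ^ k) :
    ρ.1 ∈ (coreSys F E).autGroup Q := by
  have hQS : Q ≤ S := hQ.1
  rw [mem_autGroup_iff _ hQS]
  refine ⟨(mem_autGroup_iff F hQS).1 ρ.2, ?_⟩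
  intro hRT α hα
  let θ : Q →* Ω := (S.subtype.comp α.toMonoidHom).comp (Subgroup.inclusion hQ.1)
  have hθ : θ ∈ F.Hom Q := restrict_mem F ((mem_autGroup_iff F le_rfl).1 hα) hQS
  have hr : θ.range = (Q.subgroupOf S).map (S.subtype.comp α.toMonoidHom) := by
    ext y
    constructor
    · rintro ⟨x, rfl⟩
      exact mem_img.2 ⟨⟨x, hQS x.2⟩, x.2, rfl⟩
    · intro hy
      obtain ⟨t, ht, rfl⟩ := mem_img.1 hy
      exact ⟨⟨t, ht⟩, rfl⟩
  let ρ'' := autGroupCongr hθ hr ρ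
  have hρ'' : ∃ k : ℕ, orderOf ρ'' = p ^ k := by
    obtain ⟨k, hk⟩ := hρ
    have h1 : orderOf ρ'' ∣ p ^ k := hk ▸ orderOf_map_dvd _ _
    obtain ⟨j, -, hj⟩ := (Nat.dvd_prime_pow (Fact.out : p.Prime)).1 h1
    exact ⟨j, hj⟩
  have hmem : (ρ'' : MulAut _) ∈ E.autGroup _ :=
    h _ (isCentric_img hQ hα) ⟨ρ'', Subgroup.subset_closure hρ'', rfl⟩
  have hmem2 := (mem_autGroup_iff E (img_le α Q)).1 hmem
  refine ⟨_, hmem2, fun x hφx hαx => ?_⟩
  have h1 := autGroupCongr_apply hθ hr ρ x hαx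
  have h2 := congrArg Subtype.val h1
  exact h2

theorem coreSys_sub (P : Subgroup Ω) : (coreSys F E).Hom P ⊆ E.Hom P := by
  rintro φ ⟨hφF, hφZ⟩
  have hPS : P ≤ S := source_le F hφF
  obtain ⟨χ, hχ, eχ⟩ := PrZ.target (Y := P) hφZ hPS (fun x => map_mem_S F hφF x) (one_mem _)
    (fun y => ⟨fun hy => ⟨⟨y, hy⟩, rfl⟩, by rintro ⟨x, rfl⟩; exact x.2⟩)
  exact hom_of_eq hχ (fun x => (eχ x x.2).symm)

/-- The Frattini decomposition over the invariant part. -/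
theorem frattini_core [Finite S] (hS : IsPGroup p S) (hF : F.IsSaturated p) (hEF : E.IsSubsystemOf F)
    (h : ∀ P : Subgroup Ω, F.IsCentric P →
      (Subgroup.closure {α : ↥(F.autGroup P) | ∃ k : ℕ, orderOf α = p ^ k}).map (F.autGroup P).subtype ≤ E.autGroup P)
    {P : Subgroup Ω} {φ : P →* Ω} (hφ : φ ∈ F.Hom P) : Fr F (coreSys F E) φ := by
  have hInv := invT_coreSys hEF
  let D : FusionSystem S := subsystemOf F (fun {R} φ => Fr F (coreSys F E) φ)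
    (fun {R g} hR hg => Fr.of_E ((coreSys F E).conj_mem hR hg))
    (fun _ _ hv h1 h2 => fr_comp le_rfl hInv hv (fun _ => rfl) h1 h2)
    (fun {P φ} _ h1 ψ _ e => fr_inv le_rfl hInv (Q := φ.range) rfl (fun x _ => e x) h1)
  have key := alperin_strong hS hF D (fun P hP hIH α hα => ?_) P hφ
  · exact key.2
  have hPS : P ≤ S := by
    rcases hP with rfl | h1
    · exact le_rfl
    · exact h1.1.1
  rw [mem_autGroup_iff D hPS]
  refine ⟨(mem_autGroup_iff F hPS).1 hα, ?_⟩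
  rcases hP with rfl | hess
  · exact Fr.of_aut le_rfl hα (fun x => rfl)
  have hc := hess.1
  have hfn := hess.2.1
  obtain ⟨hauto, hrec⟩ := IsSaturated.fullyNormalized hS hF hfn
  have hlt := Cfsg.Agent.Lib.FusionGen.lt_of_isEssential hS hF hess
  haveI hfinP : Finite P := finite_of_le hPS
  haveI hfinA : Finite (MulAut P) := mulAut_finite
  obtain ⟨-, R, hR⟩ := hauto
  let O : Subgroup (F.autGroup P) := Subgroup.closure {α : ↥(F.autGroup P) | ∃ k : ℕ, orderOf α = p ^ k}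
  haveI hON : O.Normal := by
    refine ⟨fun n hn g => ?_⟩
    induction hn using Subgroup.closure_induction with
    | mem x hx =>
      refine Subgroup.subset_closure ?_
      obtain ⟨k, hk⟩ := hx
      refine ⟨k, ?_⟩
      rw [← hk]
      exact (MulAut.conj g).orderOf_eq x
    | one =>
      simp
    | mul a b _ _ ha hb =>
      have e : g * (a * b) * g⁻¹ = (g * a * g⁻¹) * (g * b * g⁻¹) := by group
      rw [e]
      exact mul_mem ha hb
    | inv a _ ha =>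
      have e : g * a⁻¹ * g⁻¹ = (g * a * g⁻¹)⁻¹ := by group
      rw [e]
      exact inv_mem ha
  have hRO : (R : Subgroup (F.autGroup P)) ≤ O := by
    intro r hr
    refine Subgroup.subset_closure ?_
    obtain ⟨k, hk⟩ := R.isPGroup' ⟨r, hr⟩
    have h1 : r ^ p ^ k = 1 := congrArg Subtype.val hk
    obtain ⟨j, -, hj⟩ := (Nat.dvd_prime_pow (Fact.out : p.Prime)).1 (orderOf_dvd_of_pow_eq_one h1)
    exact ⟨j, hj⟩
  have hfr := Sylow.normalizer_sup_eq_top' (N := O) R hRO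
  have h9 : (⟨α, hα⟩ : F.autGroup P) ∈ (⊤ : Subgroup (F.autGroup P)) := trivial
  rw [← hfr] at h9
  have hαmem := SetLike.mem_coe.2 h9
  rw [Subgroup.mul_normal] at hαmem
  obtain ⟨n, hn, o, ho, hno⟩ := hαmem
  have hno' : α = n.1 * o.1 := (congrArg Subtype.val hno).symm
  -- the element normalizing the Sylow subgroup
  have hφn : P.subtype.comp n.1.toMonoidHom ∈ F.Hom P := (mem_autGroup_iff F hPS).1 n.2
  have hrn : (P.subtype.comp n.1.toMonoidHom).range = P := by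
    ext y
    constructor
    · rintro ⟨x, rfl⟩
      exact (n.1 x).2
    · intro hy
      refine ⟨n.1.symm ⟨y, hy⟩, ?_⟩
      show ((n.1 (n.1.symm ⟨y, hy⟩) : P) : Ω) = y
      simp
  obtain ⟨ψ, hψ, eψ⟩ := hrec.2 P _ hφn hrn
  have hle2 : normalizerIn S P ≤ extender S P (P.subtype.comp n.1.toMonoidHom) := by
    intro g hg
    refine mem_extender_iff.2 ⟨hg.1, hg.2, ?_⟩
    let cg : MulAut P := conjAut P ⟨g, hg.2⟩
    have hcA : cg ∈ autInducedBy S P := conjAut_mem_autInducedBy hg.1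
    have hcG : cg ∈ F.autGroup P := autInducedBy_le_autGroup F hPS hcA
    have hcR : (⟨cg, hcG⟩ : F.autGroup P) ∈ (R : Subgroup (F.autGroup P)) := by
      rw [hR]
      exact hcA
    have h1 := (Subgroup.mem_normalizer_iff.1 hn _).1 hcR
    rw [hR] at h1
    obtain ⟨k, hk, ek⟩ := mem_autInducedBy_iff.1 (Subgroup.mem_subgroupOf.1 h1)
    refine ⟨k, hk, fun x hx => ?_⟩
    have e1 := ek (n.1 x)
    have e2 : (⟨g * (x : Ω) * g⁻¹, hx⟩ : P) = cg x := Subtype.ext (conjAut_apply P ⟨g, hg.2⟩ x).symm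
    show ((n.1 ⟨g * (x : Ω) * g⁻¹, hx⟩ : P) : Ω) = k * ((n.1 x : P) : Ω) * k⁻¹
    rw [e2, ← e1]
    show _ = ((n.1 (cg (n.1⁻¹ (n.1 x))) : P) : Ω)
    congr 3
    show x = n.1.symm (n.1 x)
    simp
  have hψ' := restrict_mem F hψ hle2
  have hNP : P ≤ normalizerIn S P := (lt_normalizerIn hS hlt).le
  have hfrn : Fr F (coreSys F E) (P.subtype.comp n.1.toMonoidHom) := by
    have h1 := (hIH _ (lt_normalizerIn hS hlt) hψ').2
    refine Fr.restrict hNP (fun x => ?_) h1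
    exact (eψ x x.2 (hle2 (hNP x.2))).symm
  have hOle : O ≤ ((coreSys F E).autGroup P).comap (F.autGroup P).subtype := by
    rw [Subgroup.closure_le]
    intro g hg
    exact mem_coreSys_of_centric hEF h hc g hg
  have hfro : Fr F (coreSys F E) (P.subtype.comp o.1.toMonoidHom) :=
    Fr.of_E ((mem_autGroup_iff _ hPS).1 (hOle ho))
  refine fr_comp le_rfl hInv (Q := P) (φ := P.subtype.comp o.1.toMonoidHom)
    (ψ := P.subtype.comp n.1.toMonoidHom) (fun x => (o.1 x).2) (fun x => ?_) hfro hfrn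
  rw [hno']
  rfl

theorem frattini_gen [Finite S] (hS : IsPGroup p S) (hF : F.IsSaturated p) (hEF : E.IsSubsystemOf F)
    (h : ∀ P : Subgroup Ω, F.IsCentric P →
      (Subgroup.closure {α : ↥(F.autGroup P) | ∃ k : ℕ, orderOf α = p ^ k}).map (F.autGroup P).subtype ≤ E.autGroup P)
    {P : Subgroup Ω} {φ : P →* Ω} (hφ : φ ∈ F.Hom P) : Fr F E φ := by
  obtain ⟨α, hα, φ₀, h₀, e⟩ := frattini_core hS hF hEF h hφ
  exact ⟨α, hα, φ₀, coreSys_sub P h₀, e⟩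

/-- Every `p`-element of `Aut_F(P)` lies in `Aut_E(P)`. -/
theorem mem_autGroup_of_pow [Finite S] (hS : IsPGroup p S) (hF : F.IsSaturated p) (hEF : E.IsSubsystemOf F)
    (h : ∀ P : Subgroup Ω, F.IsCentric P →
      (Subgroup.closure {α : ↥(F.autGroup P) | ∃ k : ℕ, orderOf α = p ^ k}).map (F.autGroup P).subtype ≤ E.autGroup P)
    {P : Subgroup Ω} (hP : P ≤ S) (ρ : F.autGroup P) (hρ : ∃ k : ℕ, orderOf ρ = p ^ k) :
    ρ.1 ∈ E.autGroup P := by
  obtain ⟨R, ⟨τ, hτ, hτr⟩, hRn⟩ := exists_isConj_fullyNormalized F hP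
  obtain ⟨hauto, -⟩ := IsSaturated.fullyNormalized hS hF hRn
  have hRS : R ≤ S := hRn.1
  haveI hfinR : Finite R := finite_of_le hRS
  haveI hfinA : Finite (MulAut R) := mulAut_finite
  let ρ' := autGroupCongr hτ hτr ρ
  obtain ⟨k, hk⟩ := hρ
  have hρ'k : ρ'.1 ^ (p ^ k) = 1 := by
    have h1 : ρ ^ p ^ k = 1 := by
      rw [← hk, pow_orderOf_eq_one]
    have h2 : ρ' ^ p ^ k = 1 := by
      show (autGroupCongr hτ hτr ρ) ^ p ^ k = 1
      rw [← map_pow, h1, map_one]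
    exact congrArg Subtype.val h2
  obtain ⟨σ, hσ, hσc⟩ := Cfsg.Agent.Lib.FusionCentric.exists_conj_autInducedBy hauto ρ'.2 hρ'k
  obtain ⟨g, hg, eg⟩ := mem_autInducedBy_iff.1 hσc
  -- the map `θ = σ τ`
  have hτv : ∀ x : P, τ x ∈ R := fun x => hτr ▸ ⟨x, rfl⟩
  obtain ⟨θ, hθ, eθ⟩ := exists_comp F hτ ((mem_autGroup_iff F hRS).1 hσ) hτv
  have heθ : ∀ x : P, θ ((ρ.1 x : P)) = g * θ x * g⁻¹ := by
    intro x
    have h1 := eg (σ ⟨τ x, hτv x⟩)
    have h2 : (σ * ρ'.1 * σ⁻¹) (σ ⟨τ x, hτv x⟩) = σ (ρ'.1 ⟨τ x, hτv x⟩) := by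
      show σ (ρ'.1 (σ.symm (σ ⟨τ x, hτv x⟩))) = _
      simp
    rw [h2] at h1
    have h3 := autGroupCongr_apply hτ hτr ρ x (hτv x)
    have h4 : ρ'.1 ⟨τ x, hτv x⟩ = ⟨τ (ρ.1 x), hτv _⟩ := h3
    rw [h4] at h1
    rw [eθ, eθ]
    exact h1
  obtain ⟨β, hβ, θ₀, hθ₀, eβ⟩ := frattini_gen hS hF hEF h hθ
  have hθ₀S : ∀ x : P, θ₀ x ∈ S := fun x => map_mem_S E hθ₀ x
  let g' : S := β.symm ⟨g, hg⟩
  have hβg : β g' = ⟨g, hg⟩ := by simp [g']
  have hval : ∀ x : P, θ₀ (ρ.1 x) = (g' : Ω) * θ₀ x * (g' : Ω)⁻¹ := by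
    intro x
    have h1 := heθ x
    rw [eβ _ (hθ₀S _), eβ x (hθ₀S _)] at h1
    have h2 : β ⟨θ₀ (ρ.1 x), hθ₀S _⟩ = β (g' * ⟨θ₀ x, hθ₀S x⟩ * g'⁻¹) := by
      apply Subtype.ext
      rw [h1, map_mul, map_mul, map_inv, hβg]
      rfl
    have h3 := β.injective h2
    exact congrArg Subtype.val h3
  obtain ⟨ι, hι, h11, h12, h13⟩ := exists_inverse E hθ₀ (Q := θ₀.range) rfl
  have hv : ∀ y : θ₀.range, conjHom θ₀.range (g' : Ω) y ∈ θ₀.range := by
    rintro ⟨_, x, rfl⟩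
    show (g' : Ω) * θ₀ x * (g' : Ω)⁻¹ ∈ θ₀.range
    rw [← hval]
    exact ⟨_, rfl⟩
  have hc := E.conj_mem (range_le E hθ₀) g'.2
  obtain ⟨c₁, hc₁, ec₁⟩ := exists_comp E hc hι hv
  have hv2 : ∀ x : P, θ₀ x ∈ θ₀.range := fun x => ⟨x, rfl⟩
  obtain ⟨c₂, hc₂, ec₂⟩ := exists_comp E hθ₀ hc₁ hv2
  rw [mem_autGroup_iff E hP]
  refine hom_of_eq hc₂ fun x => ?_
  rw [ec₂, ec₁]
  have e1 : (⟨conjHom θ₀.range (g' : Ω) ⟨θ₀ x, hv2 x⟩, hv _⟩ : θ₀.range) = ⟨θ₀ (ρ.1 x), ⟨_, rfl⟩⟩ :=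
    Subtype.ext (hval x).symm
  rw [e1]
  exact (h11 (ρ.1 x) _).symm

/-- Centricity. -/
theorem isCentric_iff [Finite S] (hS : IsPGroup p S) (hF : F.IsSaturated p) (hEF : E.IsSubsystemOf F)
    (h : ∀ P : Subgroup Ω, F.IsCentric P →
      (Subgroup.closure {α : ↥(F.autGroup P) | ∃ k : ℕ, orderOf α = p ^ k}).map (F.autGroup P).subtype ≤ E.autGroup P)
    (P : Subgroup Ω) : E.IsCentric P ↔ F.IsCentric P := by
  constructor
  · rintro ⟨hPS, hc⟩
    refine ⟨hPS, ?_⟩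
    rintro _ ⟨φ, hφ, rfl⟩ z ⟨hzS, hzc⟩
    obtain ⟨α, hα, φ₀, h₀, e⟩ := frattini_gen hS hF hEF h hφ
    have hS₀ : ∀ x : P, φ₀ x ∈ S := fun x => map_mem_S E h₀ x
    have h1 := hc φ₀.range ⟨φ₀, h₀, rfl⟩
    let z' : S := α.symm ⟨z, hzS⟩
    have hαz : α z' = ⟨z, hzS⟩ := by simp [z']
    have hz' : (z' : Ω) ∈ centralizerIn S φ₀.range := by
      refine ⟨z'.2, ?_⟩
      show _ ∈ Subgroup.centralizer (φ₀.range : Set Ω)
      rw [Subgroup.mem_centralizer_iff]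
      rintro _ ⟨x, rfl⟩
      have h2 := Subgroup.mem_centralizer_iff.1 hzc (φ x) ⟨x, rfl⟩
      rw [e x (hS₀ x)] at h2
      have h3 : α (⟨φ₀ x, hS₀ x⟩ * z') = α (z' * ⟨φ₀ x, hS₀ x⟩) := by
        apply Subtype.ext
        rw [map_mul, map_mul, hαz]
        exact h2
      have h4 := α.injective h3
      exact congrArg Subtype.val h4
    obtain ⟨x, hx⟩ := h1 hz'
    refine ⟨x, ?_⟩
    rw [e x (hS₀ x)]
    have h5 : (⟨φ₀ x, hS₀ x⟩ : S) = z' := Subtype.ext hx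
    rw [h5, hαz]
  · rintro ⟨hPS, hc⟩
    refine ⟨hPS, ?_⟩
    rintro Q ⟨φ, hφ, hr⟩
    exact hc Q ⟨φ, hEF _ hφ, hr⟩

end Main

end Cfsg.Agent.Lib.FusionPPrime
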