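import Cfsg.Agent.Lib.FusionConstrainedSub
import Cfsg.Agent.Lib.FusionSubgroup
import Cfsg.Agent.Lib.FusionAlperin
import Cfsg.Agent.S5118

/-!
Constrainedness passes along injective surjective morphisms, and to the fusion systems of subnormal
subgroups.
-/

set_option autoImplicit false

namespace Cfsg.Agent.Lib.FusionSubnormal

open Cfsg Cfsg.FusionSystem Cfsg.Agent.Lib.FusionNormal Cfsg.Agent.Lib.FusionBasic
  Cfsg.Agent.Lib.FusionSat Cfsg.Agent.Lib.FusionAut Cfsg.Agent.Lib.SylowIn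

section transport

variable {Ω₁ Ω₂ : Type*} [Group Ω₁] [Group Ω₂] {S₁ : Subgroup Ω₁} {S₂ : Subgroup Ω₂}

/-- Normal subgroups pull back along an injective surjective morphism. -/
theorem isNormal_preimage [Finite S₁] {F₁ : FusionSystem S₁} {F₂ : FusionSystem S₂} {α : S₁ →* Ω₂}
    (hα : F₁.IsSurjectiveMorphism F₂ α) (hinj : Function.Injective α) {Q₂ : Subgroup Ω₂}
    (hQ₂ : F₂.IsNormal Q₂) : F₁.IsNormal (preimageAlong α Q₂) := by
  have hQ₁S : preimageAlong α Q₂ ≤ S₁ := by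
    rintro _ ⟨x, -, rfl⟩
    exact x.2
  have hmemQ : ∀ (x : Ω₁) (hx : x ∈ S₁), x ∈ preimageAlong α Q₂ ↔ α ⟨x, hx⟩ ∈ Q₂ := by
    intro x hx
    constructor
    · rintro ⟨y, hy, rfl⟩
      exact hy
    · intro h
      exact ⟨⟨x, hx⟩, h, rfl⟩
  have hrange : ∀ y ∈ S₂, ∃ x : S₁, α x = y := by
    intro y hy
    rw [← hα.2.1] at hy
    exact hy
  refine ⟨hQ₁S, fun P φ hφ => ?_⟩
  have hPS : P ≤ S₁ := source_le F₁ hφ
  obtain ⟨φ', hφ', hP1, hφS, hP', hind⟩ := hα.1.2 P φ hφ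
  obtain ⟨ψ₂, hψ₂, hagree, hmap⟩ := hQ₂.2 _ φ' hφ'
  rw [map_subgroupOf_sup_eq_iff] at hmap
  have hsup : imageAlong α P ⊔ Q₂ ≤ S₂ := by
    refine sup_le ?_ hQ₂.1
    rintro _ ⟨x, -, rfl⟩
    exact hα.1.1 x
  obtain ⟨ψ₁, hψ₁, hP2, hψS, hP2', hind2⟩ := hα.2.2 _ hsup ψ₂ hψ₂
  have hle : P ⊔ preimageAlong α Q₂ ≤ preimageAlong α (imageAlong α P ⊔ Q₂) := by
    refine sup_le ?_ ?_
    · intro x hx
      refine ⟨⟨x, hPS hx⟩, ?_, rfl⟩
      exact Subgroup.mem_sup_left ⟨⟨x, hPS hx⟩, hx, rfl⟩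
    · rintro _ ⟨y, hy, rfl⟩
      exact ⟨y, Subgroup.mem_sup_right hy, rfl⟩
  refine ⟨ψ₁.comp (Subgroup.inclusion hle), restrict_mem F₁ hψ₁ hle, fun x => ?_, ?_⟩
  · -- agreement on `P`
    have h1 := hind2 ⟨x, hle (Subgroup.mem_sup_left x.2)⟩
    have h2 := hind x
    have h3 := hagree ⟨α ⟨x, hP1 x.2⟩, hP' x⟩
    have h4 : ψ₂ (Subgroup.inclusion le_sup_left ⟨α ⟨x, hP1 x.2⟩, hP' x⟩) =
        α ⟨φ x, hφS x⟩ := h3.trans h2
    have h5 : α ⟨ψ₁ ⟨x, hle (Subgroup.mem_sup_left x.2)⟩, hψS _⟩ = α ⟨φ x, hφS x⟩ := by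
      rw [← h1, ← h4]
      rfl
    exact congrArg Subtype.val (hinj h5)
  · rw [map_subgroupOf_sup_eq_iff]
    constructor
    · intro x hx
      have hxS := hQ₁S hx
      have h1 := hind2 ⟨x, hle (Subgroup.mem_sup_right hx)⟩
      refine (hmemQ _ (hψS _)).mpr ?_
      have hx2 : α ⟨x, hP2 (hle (Subgroup.mem_sup_right hx))⟩ ∈ Q₂ := (hmemQ x _).mp hx
      have h2 := hmap.1 _ hx2
      have h3 : α ⟨ψ₁ ⟨x, hle (Subgroup.mem_sup_right hx)⟩, hψS _⟩ ∈ Q₂ := by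
        rw [← h1]
        exact h2
      exact h3
    · intro y hy
      have hyS := hQ₁S hy
      have hy2 : α ⟨y, hyS⟩ ∈ Q₂ := (hmemQ y hyS).mp hy
      obtain ⟨q, hq, e⟩ := hmap.2 _ hy2
      obtain ⟨x, rfl⟩ := hrange q (hQ₂.1 hq)
      have hxQ : (x : Ω₁) ∈ preimageAlong α Q₂ := (hmemQ _ x.2).mpr hq
      refine ⟨x, hxQ, ?_⟩
      have h1 := hind2 ⟨x, hle (Subgroup.mem_sup_right hxQ)⟩
      have h2 : α ⟨ψ₁ ⟨x, hle (Subgroup.mem_sup_right hxQ)⟩, hψS _⟩ = α ⟨y, hyS⟩ := by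
        rw [← h1, ← e]
      exact congrArg Subtype.val (hinj h2)

/-- Constrainedness passes back along an injective surjective morphism. -/
theorem isConstrained_of_surj_inj [Finite S₁] {p : ℕ} {F₁ : FusionSystem S₁} {F₂ : FusionSystem S₂}
    {α : S₁ →* Ω₂} (hα : F₁.IsSurjectiveMorphism F₂ α) (hinj : Function.Injective α)
    (hsat : F₁.IsSaturated p) (h₂ : F₂.IsConstrained p) : F₁.IsConstrained p := by
  obtain ⟨-, Q₂, hQn, hQc⟩ := h₂
  have hn := isNormal_preimage hα hinj hQn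
  refine ⟨hsat, _, hn, hn.1, ?_⟩
  rintro R ⟨φ, hφ, rfl⟩
  rw [(StronglyClosed.weaklyClosed (IsNormal.stronglyClosed hn)).2 φ hφ]
  intro x hx
  have hxS : x ∈ S₁ := hx.1
  have hcent : α ⟨x, hxS⟩ ∈ centralizerIn S₂ Q₂ := by
    refine ⟨hα.1.1 _, Subgroup.mem_centralizer_iff.mpr ?_⟩
    intro q hq
    have hqS := hQn.1 hq
    rw [← hα.2.1] at hqS
    obtain ⟨y, rfl⟩ := hqS
    have hyQ : (y : Ω₁) ∈ preimageAlong α Q₂ := ⟨y, hq, rfl⟩
    have h1 := Subgroup.mem_centralizer_iff.mp hx.2 y hyQ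
    have h2 : y * ⟨x, hxS⟩ = ⟨x, hxS⟩ * y := Subtype.ext h1
    rw [← map_mul, ← map_mul, h2]
  have h3 := hQc.2 Q₂ (isConj_refl F₂ hQc.1) hcent
  exact ⟨⟨x, hxS⟩, h3, rfl⟩

end transport

section subnormal

variable {G : Type*} [Group G]

/-- The inclusion of a subgroup into a bigger one carries the fusion system. -/
theorem isSurjectiveMorphism_inclusion (S H K : Subgroup G) (hHK : H ≤ K) :
    (groupFusionSystem (S.subgroupOf H)).IsSurjectiveMorphism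
      (fusionSystemOfSubgroup (H.subgroupOf K) (S.subgroupOf K ⊓ H.subgroupOf K) inf_le_right)
      ((Subgroup.inclusion hHK).comp (S.subgroupOf H).subtype) := by
  set α : ↥(S.subgroupOf H) →* ↥K := (Subgroup.inclusion hHK).comp (S.subgroupOf H).subtype with hα
  have hαval : ∀ s, ((α s : K) : G) = ((s : H) : G) := fun _ => rfl
  have hαT : ∀ s, α s ∈ S.subgroupOf K ⊓ H.subgroupOf K := fun s => ⟨s.2, (s : H).2⟩
  have hTR : ∀ x : H, ((x : G) ∈ S) → x ∈ S.subgroupOf H := fun _ h => h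
  refine ⟨⟨hαT, ?_⟩, ?_, ?_⟩
  · rintro P φ ⟨hP, hφ, g, hg⟩
    have hgK : (⟨g, hHK g.2⟩ : K) ∈ H.subgroupOf K := g.2
    refine ⟨conjHom _ (⟨g, hHK g.2⟩ : K), ⟨?_, ?_, ⟨g, hHK g.2⟩, hgK, fun x => rfl⟩, hP, hφ, ?_, ?_⟩
    · rintro _ ⟨s, -, rfl⟩
      exact hαT s
    · rintro ⟨_, s, hs, rfl⟩
      have hs' : (s : H) ∈ P := hs
      have h1 := hφ ⟨s, hs'⟩
      have h3 : (φ ⟨s, hs'⟩ : H) = g * (s : H) * g⁻¹ := hg ⟨s, hs'⟩
      rw [h3] at h1
      refine ⟨h1, ?_⟩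
      show ((g : G) * ((s : H) : G) * (g : G)⁻¹) ∈ H
      exact H.mul_mem (H.mul_mem g.2 (s : H).2) (H.inv_mem g.2)
    · intro x
      exact ⟨⟨(x : H), hP x.2⟩, x.2, rfl⟩
    · intro x
      apply Subtype.ext
      show (g : G) * ((x : H) : G) * (g : G)⁻¹ = ((φ x : H) : G)
      rw [hg x]
      rfl
  · ext y
    constructor
    · rintro ⟨s, rfl⟩
      exact hαT s
    · intro hy
      have hyH : (y : G) ∈ H := hy.2
      exact ⟨⟨⟨y, hyH⟩, hy.1⟩, rfl⟩
  · rintro P' hP' φ' ⟨-, hφ', g, hgH, hg⟩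
    have hgH' : (g : G) ∈ H := hgH
    have hmem : ∀ x : preimageAlong α P', (x : H) ∈ S.subgroupOf H := by
      rintro ⟨_, s, -, rfl⟩
      exact s.2
    have hmem' : ∀ x : preimageAlong α P', (⟨((x : H) : G), hHK (x : H).2⟩ : K) ∈ P' := by
      rintro ⟨_, s, hs, rfl⟩
      exact hs
    have hval : ∀ x : preimageAlong α P',
        (⟨g, hgH'⟩ : H) * (x : H) * (⟨g, hgH'⟩ : H)⁻¹ ∈ S.subgroupOf H := by
      intro x
      apply hTR
      have h1 := (hφ' ⟨_, hmem' x⟩).1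
      rw [hg] at h1
      exact h1
    refine ⟨conjHom _ (⟨g, hgH'⟩ : H), ⟨?_, ?_, ⟨g, hgH'⟩, fun x => rfl⟩, ?_, ?_, ?_, ?_⟩
    · intro x hx
      exact hmem ⟨x, hx⟩
    · exact hval
    · intro x hx
      exact hmem ⟨x, hx⟩
    · exact hval
    · intro x
      exact hmem' x
    · intro x
      rw [hg]
      apply Subtype.ext
      rfl

/-- The system over `S ∩ K` of a subnormal subgroup `K`. -/
theorem sylow_and_constrained_of_isSubnormal [Finite G] {p : ℕ} [Fact p.Prime] (S : Sylow p G)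
    (hF : (groupFusionSystem (S : Subgroup G)).IsConstrained p) (H : Subgroup G) (hH : H.IsSubnormal) :
    (∃ R : Sylow p H, (R : Subgroup H) = (S : Subgroup G).subgroupOf H) ∧
      (groupFusionSystem ((S : Subgroup G).subgroupOf H)).IsConstrained p := by
  induction hH with
  | top =>
    have hR : IsSylowIn p (S : Subgroup G) ⊤ := Cfsg.Agent.Lib.FusionSubgroup.isSylowIn_top S
    obtain ⟨R, hR⟩ := hR
    refine ⟨⟨R, hR⟩, ?_⟩
    have h1 := Cfsg.Agent.Lib.FusionSubgroup.isSurjectiveMorphism_subgroup ⊤ (S : Subgroup G) le_top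
      ((S : Subgroup G).subgroupOf ⊤) rfl
    have h2 : fusionSystemOfSubgroup ⊤ (S : Subgroup G) le_top = groupFusionSystem (S : Subgroup G) := by
      apply Cfsg.Agent.Lib.FusionAlperin.fusionSystem_ext
      intro P
      ext φ
      constructor
      · rintro ⟨h3, h4, g, -, hg⟩
        exact ⟨h3, h4, g, hg⟩
      · rintro ⟨h3, h4, g, hg⟩
        exact ⟨h3, h4, g, trivial, hg⟩
    rw [h2] at h1
    have h3 := Cfsg.Agent.S5076.result p R
    rw [hR] at h3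
    exact isConstrained_of_surj_inj h1
      (fun a b hab => Subtype.ext (Subtype.ext hab)) h3 hF
  | step H K hle hSubn hN ih =>
    obtain ⟨⟨RK, hRK⟩, hCK⟩ := ih
    haveI := hN
    have hRH : ∃ R : Sylow p H, (R : Subgroup H) = (S : Subgroup G).subgroupOf H := by
      have hK : IsSylowIn p ((S : Subgroup G) ⊓ K) K := by
        refine ⟨RK, ?_⟩
        rw [hRK, Subgroup.inf_subgroupOf_right]
      have h1 := hK.inf_of_normal inf_le_right hle (by
        intro x hx m hm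
        have h2 := hN.conj_mem ⟨m, hle hm⟩ hm ⟨x, hx⟩
        exact h2)
      obtain ⟨R, hR⟩ := h1
      refine ⟨R, ?_⟩
      rw [hR]
      ext x
      constructor
      · intro h
        exact h.1.1
      · intro h
        exact ⟨⟨h, hle x.2⟩, x.2⟩
    refine ⟨hRH, ?_⟩
    obtain ⟨R, hR⟩ := hRH
    have h1 := Cfsg.Agent.S5118.result p RK (H.subgroupOf K)
    rw [hRK] at h1
    have hSK : IsPGroup p ((S : Subgroup G).subgroupOf K) := hRK ▸ RK.isPGroup'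
    have h2 := Cfsg.Agent.Lib.FusionConstrainedSub.isConstrained_of_isNormalIn hSK hCK h1
    have h3 := Cfsg.Agent.S5076.result p R
    rw [hR] at h3
    exact isConstrained_of_surj_inj (isSurjectiveMorphism_inclusion _ H K hle)
      (fun a b hab => Subtype.ext (Subtype.ext (congrArg (fun z : K => (z : G)) hab))) h3 h2

end subnormal

end Cfsg.Agent.Lib.FusionSubnormal
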