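import Mathlib
import Cfsg.Agent.Lib.H2Basic

/-!
# Finite odd order subgroups of `SL₂` in characteristic `p`: uniqueness of the Sylow `p`-subgroup
-/

set_option autoImplicit false
set_option linter.all false

namespace Cfsg.Agent.Lib.GL2Odd

open Matrix

section matrices

variable {F : Type*} [Field F]

/-- The `2 × 2` determinant of two vectors. -/
def wedge (u v : Fin 2 → F) : F := u 0 * v 1 - u 1 * v 0

theorem mulVec_zero' (A : Matrix (Fin 2) (Fin 2) F) (v : Fin 2 → F) :
    (A.mulVec v) 0 = A 0 0 * v 0 + A 0 1 * v 1 := by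
  simp [Matrix.mulVec, dotProduct, Fin.sum_univ_two]

theorem mulVec_one' (A : Matrix (Fin 2) (Fin 2) F) (v : Fin 2 → F) :
    (A.mulVec v) 1 = A 1 0 * v 0 + A 1 1 * v 1 := by
  simp [Matrix.mulVec, dotProduct, Fin.sum_univ_two]

theorem exists_smul_of_wedge_eq_zero {u v : Fin 2 → F} (hu : u ≠ 0) (h : wedge u v = 0) :
    ∃ c : F, v = c • u := by
  unfold wedge at h
  by_cases h0 : u 0 = 0
  · have h1 : u 1 ≠ 0 := by
      intro h1
      apply hu
      funext i
      fin_cases i <;> simp [h0, h1]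
    refine ⟨v 1 / u 1, ?_⟩
    funext i
    fin_cases i
    · simp only [Fin.zero_eta, Pi.smul_apply, smul_eq_mul, h0, mul_zero]
      rw [h0] at h
      have : u 1 * v 0 = 0 := by linear_combination -h
      exact (mul_eq_zero.1 this).resolve_left h1
    · simp only [Fin.mk_one, Pi.smul_apply, smul_eq_mul]
      field_simp
  · refine ⟨v 0 / u 0, ?_⟩
    funext i
    fin_cases i
    · simp only [Fin.zero_eta, Pi.smul_apply, smul_eq_mul]
      field_simp
    · simp only [Fin.mk_one, Pi.smul_apply, smul_eq_mul]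
      field_simp
      linear_combination h

theorem eq_zero_of_wedge_ne_zero (U : Matrix (Fin 2) (Fin 2) F) {e f : Fin 2 → F}
    (he : U.mulVec e = 0) (hf : U.mulVec f = 0) (h : wedge e f ≠ 0) : U = 0 := by
  unfold wedge at h
  have e0 := congrFun he 0
  have e1 := congrFun he 1
  have f0 := congrFun hf 0
  have f1 := congrFun hf 1
  rw [mulVec_zero'] at e0 f0
  rw [mulVec_one'] at e1 f1
  simp only [Pi.zero_apply] at e0 e1 f0 f1
  have h00 : U 0 0 = 0 := by
    have : U 0 0 * (e 0 * f 1 - e 1 * f 0) = 0 := by linear_combination f 1 * e0 - e 1 * f0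
    exact (mul_eq_zero.1 this).resolve_right h
  have h01 : U 0 1 = 0 := by
    have : U 0 1 * (e 0 * f 1 - e 1 * f 0) = 0 := by linear_combination e 0 * f0 - f 0 * e0
    exact (mul_eq_zero.1 this).resolve_right h
  have h10 : U 1 0 = 0 := by
    have : U 1 0 * (e 0 * f 1 - e 1 * f 0) = 0 := by linear_combination f 1 * e1 - e 1 * f1
    exact (mul_eq_zero.1 this).resolve_right h
  have h11 : U 1 1 = 0 := by
    have : U 1 1 * (e 0 * f 1 - e 1 * f 0) = 0 := by linear_combination e 0 * f1 - f 0 * e1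
    exact (mul_eq_zero.1 this).resolve_right h
  ext i j
  fin_cases i <;> fin_cases j <;> simp [h00, h01, h10, h11]

theorem cayley (A : Matrix (Fin 2) (Fin 2) F) : A * A = A.trace • A - A.det • 1 := by
  rw [Matrix.trace_fin_two, Matrix.det_fin_two]
  ext i j
  fin_cases i <;> fin_cases j <;>
    simp [Matrix.mul_apply, Fin.sum_univ_two] <;> ring

/-- The commutant of a non-scalar matrix is generated by it. -/
theorem commutant (A B : Matrix (Fin 2) (Fin 2) F) (hns : ¬ ∃ c : F, A = c • 1) (h : B * A = A * B) :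
    ∃ α β : F, B = α • 1 + β • A := by
  have h00 := congrFun (congrFun h 0) 0
  have h01 := congrFun (congrFun h 0) 1
  have h10 := congrFun (congrFun h 1) 0
  have h11 := congrFun (congrFun h 1) 1
  simp only [Matrix.mul_apply, Fin.sum_univ_two] at h00 h01 h10 h11
  by_cases hb : A 0 1 = 0
  · by_cases hc : A 1 0 = 0
    · by_cases had : A 0 0 = A 1 1
      · exfalso
        apply hns
        refine ⟨A 0 0, ?_⟩
        ext i j
        fin_cases i <;> fin_cases j <;> simp [hb, hc, had]
      · have had' : A 0 0 - A 1 1 ≠ 0 := sub_ne_zero.2 had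
        refine ⟨B 0 0 - (B 0 0 - B 1 1) / (A 0 0 - A 1 1) * A 0 0, (B 0 0 - B 1 1) / (A 0 0 - A 1 1), ?_⟩
        rw [hb] at h01 h00
        rw [hc] at h10 h00 h11
        have hy : B 0 1 = 0 := by
          have : B 0 1 * (A 0 0 - A 1 1) = 0 := by linear_combination -h01
          exact (mul_eq_zero.1 this).resolve_right had'
        have hz : B 1 0 = 0 := by
          have : B 1 0 * (A 0 0 - A 1 1) = 0 := by linear_combination h10
          exact (mul_eq_zero.1 this).resolve_right had'
        ext i j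
        fin_cases i <;> fin_cases j
        · simp
        · simp [hb, hy]
        · simp [hc, hz]
        · simp
          field_simp
          ring
    · refine ⟨B 0 0 - B 1 0 / A 1 0 * A 0 0, B 1 0 / A 1 0, ?_⟩
      ext i j
      fin_cases i <;> fin_cases j
      · simp
      · simp
        field_simp
        linear_combination h00
      · simp
        field_simp
      · simp
        field_simp
        linear_combination h10
  · refine ⟨B 0 0 - B 0 1 / A 0 1 * A 0 0, B 0 1 / A 0 1, ?_⟩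
    ext i j
    fin_cases i <;> fin_cases j
    · simp
    · simp
      field_simp
    · simp
      field_simp
      linear_combination -h00
    · simp
      field_simp
      linear_combination -h01

theorem trace_add_smul (A : Matrix (Fin 2) (Fin 2) F) (α β : F) :
    (α • (1 : Matrix (Fin 2) (Fin 2) F) + β • A).trace = 2 * α + β * A.trace := by
  rw [Matrix.trace_add, Matrix.trace_smul, Matrix.trace_smul, Matrix.trace_one]
  simp
  ring

theorem det_add_smul (A : Matrix (Fin 2) (Fin 2) F) (α β : F) :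
    (α • (1 : Matrix (Fin 2) (Fin 2) F) + β • A).det = α ^ 2 + α * β * A.trace + β ^ 2 * A.det := by
  rw [Matrix.det_fin_two, Matrix.trace_fin_two, Matrix.det_fin_two]
  simp
  ring

/-- Two conjugate elements of the same commutative subalgebra of `SL₂` are equal or inverse. -/
theorem eq_or_inv_of_same_algebra (w w' : Matrix (Fin 2) (Fin 2) F) (α β : F)
    (hd : w.det = 1) (hd' : w'.det = 1) (ht : w'.trace = w.trace) (ht2 : w.trace ^ 2 ≠ 4)
    (h2 : (2 : F) ≠ 0) (h : w' = α • 1 + β • w) : w' = w ∨ w' * w = 1 := by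
  set τ := w.trace with hτ
  have E1 : 2 * α + β * τ - τ = 0 := by
    have := trace_add_smul w α β
    rw [← h, ht] at this
    linear_combination -this
  have E2 : α ^ 2 + α * β * τ + β ^ 2 * 1 - 1 = 0 := by
    have := det_add_smul w α β
    rw [← h, hd', hd] at this
    linear_combination -this
  have key : (1 - β) * (1 + β) * (τ ^ 2 - 4) = 0 := by
    linear_combination 4 * E2 - (2 * α + τ * (1 - β) + 2 * β * τ) * E1
  have h4 : τ ^ 2 - 4 ≠ 0 := sub_ne_zero.2 ht2
  rcases mul_eq_zero.1 ((mul_eq_zero.1 key).resolve_right h4) with hb | hb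
  · left
    have hβ : β = 1 := by linear_combination -hb
    subst hβ
    have hα : α = 0 := by
      have : 2 * α = 0 := by linear_combination E1
      exact (mul_eq_zero.1 this).resolve_left h2
    rw [h, hα]
    simp
  · right
    have hβ : β = -1 := by linear_combination hb
    subst hβ
    have hα : α = τ := by
      have : 2 * (α - τ) = 0 := by linear_combination E1
      exact sub_eq_zero.1 ((mul_eq_zero.1 this).resolve_left h2)
    rw [h, hα]
    have hc := cayley w
    rw [hd] at hc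
    rw [add_mul, smul_mul_assoc, smul_mul_assoc, one_mul, hc, ← hτ]
    simp [smul_sub]

theorem unipotent_pow (A : Matrix (Fin 2) (Fin 2) F) (hA : (A - 1) * (A - 1) = 0) (n : ℕ) :
    A ^ n = 1 + (n : F) • (A - 1) := by
  induction n with
  | zero => simp
  | succ n ih =>
    rw [pow_succ, ih]
    have hA' : A * A = A + A - 1 := by
      have : (A - 1) * (A - 1) = A * A - A - A + 1 := by noncomm_ring
      rw [this] at hA
      have h2 : A * A = (A * A - A - A + 1) + A + A - 1 := by abel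
      rw [hA, zero_add] at h2
      exact h2
    have e1 : (1 + (n : F) • (A - 1)) * A = A + (n : F) • (A - 1) := by
      rw [add_mul, one_mul, smul_mul_assoc, sub_mul, one_mul, hA']
      congr 2
      abel
    rw [e1]
    push_cast
    rw [add_smul, one_smul]
    abel

end matrices

section group

variable {F : Type*} [Field F] {p : ℕ} [hpp : Fact p.Prime] [hch : CharP F p]
variable {Γ : Type*} [Group Γ] [Finite Γ]

theorem odd_sq_eq_one (hodd : Odd (Nat.card Γ)) {g : Γ} (h : g ^ 2 = 1) : g = 1 := by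
  have h1 : orderOf g ∣ 2 := orderOf_dvd_of_pow_eq_one h
  have h2 : orderOf g ∣ Nat.card Γ := orderOf_dvd_natCard g
  have h3 : Nat.Coprime 2 (Nat.card Γ) := Nat.coprime_two_left.2 hodd
  exact orderOf_eq_one_iff.1 (Nat.eq_one_of_dvd_coprimes h3 h1 h2)

theorem odd_comm_of_sq (hodd : Odd (Nat.card Γ)) {y w : Γ} (h : y ^ 2 * w = w * y ^ 2) :
    y * w = w * y := by
  obtain ⟨k, hk⟩ := hodd
  have h1 : y ^ (2 * k + 1) = 1 := by
    rw [← hk]
    exact pow_card_eq_one'
  have h2 : y = (y ^ 2) ^ (k + 1) := by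
    rw [← pow_mul]
    have : 2 * (k + 1) = (2 * k + 1) + 1 := by ring
    rw [this, pow_succ, h1, one_mul]
  have h3 : Commute (y ^ 2) w := h
  rw [h2]
  exact (h3.pow_left (k + 1))

variable (m : Γ →* Matrix (Fin 2) (Fin 2) F)

theorem m_inv_mul (g : Γ) : m g⁻¹ * m g = 1 := by
  rw [← map_mul, inv_mul_cancel, map_one]

theorem m_mul_inv (g : Γ) : m g * m g⁻¹ = 1 := by
  rw [← map_mul, mul_inv_cancel, map_one]

theorem mulVec_mul (g h : Γ) (e : Fin 2 → F) : (m (g * h)).mulVec e = (m g).mulVec ((m h).mulVec e) := by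
  rw [map_mul, Matrix.mulVec_mulVec]

theorem mulVec_inv_mul (g : Γ) (e : Fin 2 → F) : (m g⁻¹).mulVec ((m g).mulVec e) = e := by
  rw [Matrix.mulVec_mulVec, m_inv_mul, Matrix.one_mulVec]

theorem mulVec_mul_inv (g : Γ) (e : Fin 2 → F) : (m g).mulVec ((m g⁻¹).mulVec e) = e := by
  rw [Matrix.mulVec_mulVec, m_mul_inv, Matrix.one_mulVec]

theorem mulVec_ne_zero (g : Γ) {e : Fin 2 → F} (he : e ≠ 0) : (m g).mulVec e ≠ 0 := by
  intro h
  apply he
  rw [← mulVec_inv_mul m g e, h, Matrix.mulVec_zero]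

variable (hm : Function.Injective m) (hdet : ∀ g, (m g).det = 1) (hodd : Odd (Nat.card Γ))
  (hp : p ≠ 2)

include hch hp in
theorem two_ne_zero' : (2 : F) ≠ 0 := by
  intro h
  have h1 : ((2 : ℕ) : F) = 0 := by exact_mod_cast h
  have h2 := (CharP.cast_eq_zero_iff F p 2).1 h1
  exact hp ((Nat.prime_dvd_prime_iff_eq hpp.out Nat.prime_two).1 h2)

include hm hdet hodd hp hch in
theorem nonscalar {g : Γ} (hg : g ≠ 1) : ¬ ∃ c : F, m g = c • 1 := by
  rintro ⟨c, hc⟩
  have h2 : (2 : F) ≠ 0 := two_ne_zero' hp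
  have hd := hdet g
  rw [hc, Matrix.det_fin_two] at hd
  simp at hd
  have hc2 : c ^ 2 = 1 := by linear_combination hd
  have h1 : m (g ^ 2) = 1 := by
    rw [map_pow, hc, smul_pow, hc2]
    simp
  have h3 : g ^ 2 = 1 := hm (by rw [h1, map_one])
  exact hg (odd_sq_eq_one hodd h3)

/-- An element fixing a nonzero vector satisfies `g ^ p = 1`. -/
theorem pow_eq_one_of_trace (g : Γ) (hm : Function.Injective m) (hdet : ∀ g, (m g).det = 1) (ht : (m g).trace = 2) : g ^ p = 1 := by
  have hc := cayley (m g)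
  rw [ht, hdet g] at hc
  have h1 : (m g - 1) * (m g - 1) = 0 := by
    have : (m g - 1) * (m g - 1) = m g * m g - m g - m g + 1 := by noncomm_ring
    rw [this, hc, two_smul, one_smul]
    abel
  have h2 := unipotent_pow (m g) h1 p
  rw [CharP.cast_eq_zero F p, zero_smul, add_zero, ← map_pow] at h2
  exact hm (by rw [h2, map_one])

theorem trace_of_fix {g : Γ} {e : Fin 2 → F} (he : e ≠ 0) (h : (m g).mulVec e = e) (hdet : ∀ g, (m g).det = 1) :
    (m g).trace = 2 := by
  have hc := cayley (m g)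
  rw [hdet g] at hc
  have h1 : (m g * m g).mulVec e = e := by
    rw [← Matrix.mulVec_mulVec, h, h]
  rw [hc, Matrix.sub_mulVec, Matrix.smul_mulVec, Matrix.smul_mulVec, h, one_smul, Matrix.one_mulVec] at h1
  have h3 : ((m g).trace - 2) • e = 0 := by
    have e2 : ((m g).trace - 2) • e = (m g).trace • e - e - e := by
      rw [sub_smul, two_smul]
      abel
    rw [e2, h1, sub_self]
  rcases smul_eq_zero.1 h3 with h4 | h4
  · linear_combination h4
  · exact absurd h4 he

theorem sylow_fixed_vector (hm : Function.Injective m) (hdet : ∀ g, (m g).det = 1)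
    (hpΓ : p ∣ Nat.card Γ) (S : Sylow p Γ) :
    ∃ e : Fin 2 → F, e ≠ 0 ∧ ∀ g, g ∈ (S : Subgroup Γ) ↔ (m g).mulVec e = e := by
  classical
  have hS1 : (S : Subgroup Γ) ≠ ⊥ := S.ne_bot_of_dvd_card hpΓ
  haveI : Nontrivial (S : Subgroup Γ) := (Subgroup.nontrivial_iff_ne_bot _).2 hS1
  haveI := S.isPGroup'.center_nontrivial
  obtain ⟨z, hz⟩ := exists_ne (1 : Subgroup.center (S : Subgroup Γ))
  set z₀ : Γ := (((z : Subgroup.center (S : Subgroup Γ)) : (S : Subgroup Γ)) : Γ) with hz₀def
  have hz₀ : z₀ ≠ 1 := by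
    intro h
    apply hz
    apply Subtype.ext
    apply Subtype.ext
    exact h
  obtain ⟨k, hk⟩ := S.isPGroup' ((z : Subgroup.center (S : Subgroup Γ)) : (S : Subgroup Γ))
  have hk' : z₀ ^ p ^ k = 1 := by
    have := congrArg (Subtype.val) hk
    simpa using this
  set U : Matrix (Fin 2) (Fin 2) F := m z₀ - 1 with hU
  have hU0 : U ≠ 0 := by
    intro h
    apply hz₀
    apply hm
    rw [map_one]
    exact sub_eq_zero.1 h
  have hUp : U ^ p ^ k = 0 := by
    rw [hU, sub_pow_char_pow_of_commute p k (Commute.one_right _), ← map_pow, hk', map_one, one_pow, sub_self]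
  have hdetU : U.det = 0 := by
    have h1 : U.det ^ p ^ k = 0 := by
      rw [← Matrix.det_pow, hUp, Matrix.det_zero]
    exact pow_eq_zero_iff (pow_ne_zero _ hpp.out.ne_zero) |>.1 h1
  obtain ⟨e, he, hUe⟩ := Matrix.exists_mulVec_eq_zero_iff.2 hdetU
  have hker : ∀ f : Fin 2 → F, U.mulVec f = 0 → ∃ c : F, f = c • e := by
    intro f hf
    apply exists_smul_of_wedge_eq_zero he
    by_contra h
    exact hU0 (eq_zero_of_wedge_ne_zero U hUe hf h)
  have hfix : ∀ s ∈ (S : Subgroup Γ), (m s).mulVec e = e := by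
    intro s hs
    have hcomm : s * z₀ = z₀ * s := by
      have h1 := (Subgroup.mem_center_iff.1 z.2) ⟨s, hs⟩
      have h2 := congrArg Subtype.val h1
      exact h2
    have h1 : U.mulVec ((m s).mulVec e) = 0 := by
      have h2 : U * m s = m s * U := by
        rw [hU, sub_mul, mul_sub, one_mul, mul_one, ← map_mul, ← map_mul, hcomm]
      rw [Matrix.mulVec_mulVec, h2, ← Matrix.mulVec_mulVec, hUe, Matrix.mulVec_zero]
    obtain ⟨χ, hχ⟩ := hker _ h1
    obtain ⟨j, hj⟩ := S.isPGroup' ⟨s, hs⟩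
    have hj' : s ^ p ^ j = 1 := by
      have := congrArg (Subtype.val) hj
      simpa using this
    have hpow : ∀ n : ℕ, (m (s ^ n)).mulVec e = χ ^ n • e := by
      intro n
      induction n with
      | zero => simp
      | succ n ih =>
        rw [pow_succ, map_mul, ← Matrix.mulVec_mulVec, hχ, Matrix.mulVec_smul, ih, smul_smul, pow_succ']
    have h3 := hpow (p ^ j)
    rw [hj', map_one, Matrix.one_mulVec] at h3
    have h4 : (χ ^ p ^ j - 1) • e = 0 := by
      rw [sub_smul, ← h3, one_smul, sub_self]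
    have h5 : χ ^ p ^ j = 1 := by
      rcases smul_eq_zero.1 h4 with h | h
      · exact sub_eq_zero.1 h
      · exact absurd h he
    have h6 : χ = 1 := by
      have h7 : (χ - 1) ^ p ^ j = 0 := by
        rw [sub_pow_char_pow_of_commute p j (Commute.one_right _), h5, one_pow, sub_self]
      exact sub_eq_zero.1 (pow_eq_zero_iff (pow_ne_zero _ hpp.out.ne_zero) |>.1 h7)
    rw [hχ, h6, one_smul]
  let T : Subgroup Γ :=
    { carrier := {g | (m g).mulVec e = e}
      mul_mem' := by
        intro a b ha hb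
        change (m (a * b)).mulVec e = e
        rw [mulVec_mul, hb, ha]
      one_mem' := by
        change (m 1).mulVec e = e
        rw [map_one, Matrix.one_mulVec]
      inv_mem' := by
        intro a ha
        change (m a⁻¹).mulVec e = e
        have h : (m a⁻¹).mulVec ((m a).mulVec e) = e := mulVec_inv_mul m a e
        rwa [ha] at h }
  have hTp : IsPGroup p T := by
    intro g
    refine ⟨1, ?_⟩
    apply Subtype.ext
    have h1 : (m (g : Γ)).trace = 2 := trace_of_fix m he g.2 hdet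
    have h2 := pow_eq_one_of_trace (p := p) m (g : Γ) hm hdet h1
    simpa using h2
  have hST : (S : Subgroup Γ) ≤ T := fun s hs => hfix s hs
  have hTS : T = S := S.is_maximal' hTp hST
  refine ⟨e, he, fun g => ?_⟩
  rw [← hTS]
  rfl

/-- The eigenvector criterion for conjugation. -/
theorem eigen_of_conj {e : Fin 2 → F} (he : e ≠ 0) {T : Matrix (Fin 2) (Fin 2) F} (ht1 : T ≠ 1)
    (hte : T.mulVec e = e) (G G' : Matrix (Fin 2) (Fin 2) F) (hGG' : G * G' = 1)
    (hG'G : G' * G = 1) (h : (G * T * G').mulVec e = e) :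
    ∃ μ : F, μ ≠ 0 ∧ G.mulVec e = μ • e := by
  have h1 : T.mulVec (G'.mulVec e) = G'.mulVec e := by
    have h2 : G'.mulVec ((G * T * G').mulVec e) = G'.mulVec e := by rw [h]
    rw [Matrix.mulVec_mulVec] at h2
    have e3 : G' * (G * T * G') = T * G' := by
      rw [Matrix.mul_assoc G, ← Matrix.mul_assoc G', hG'G, Matrix.one_mul]
    rw [e3] at h2
    rw [Matrix.mulVec_mulVec]
    exact h2
  have hU : (T - 1) ≠ 0 := sub_ne_zero.2 ht1
  have hw : wedge e (G'.mulVec e) = 0 := by
    by_contra hn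
    apply hU
    apply eq_zero_of_wedge_ne_zero (T - 1) (e := e) (f := G'.mulVec e) _ _ hn
    · rw [Matrix.sub_mulVec, hte, Matrix.one_mulVec, sub_self]
    · rw [Matrix.sub_mulVec, h1, Matrix.one_mulVec, sub_self]
  obtain ⟨c, hc⟩ := exists_smul_of_wedge_eq_zero he hw
  have h3 : e = c • G.mulVec e := by
    have h4 : G.mulVec (G'.mulVec e) = e := by
      rw [Matrix.mulVec_mulVec, hGG', Matrix.one_mulVec]
    rw [hc, Matrix.mulVec_smul] at h4
    exact h4.symm
  have hc0 : c ≠ 0 := by
    rintro rfl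
    rw [zero_smul] at h3
    exact he h3
  refine ⟨c⁻¹, inv_ne_zero hc0, ?_⟩
  rw [h3, smul_smul, inv_mul_cancel₀ hc0, one_smul, ← h3]

theorem mem_normalizer_of_eigen {S : Subgroup Γ} {e : Fin 2 → F}
    (hS : ∀ g, g ∈ S ↔ (m g).mulVec e = e) {g : Γ} {μ : F} (hμ : μ ≠ 0) (hg : (m g).mulVec e = μ • e) :
    g ∈ Subgroup.normalizer (S : Set Γ) := by
  apply Cfsg.Agent.Lib.H2Basic.mem_normalizer_of_conj_le
  intro s hs
  rw [hS] at hs ⊢
  have h1 : (m g⁻¹).mulVec e = μ⁻¹ • e := by
    have h2 := mulVec_inv_mul m g e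
    rw [hg, Matrix.mulVec_smul] at h2
    have h3 : (m g⁻¹).mulVec e = μ⁻¹ • (μ • (m g⁻¹).mulVec e) := by
      rw [smul_smul, inv_mul_cancel₀ hμ, one_smul]
    rw [h3, h2]
  rw [mulVec_mul, mulVec_mul, h1, Matrix.mulVec_smul, hs, Matrix.mulVec_smul, hg, smul_smul,
    inv_mul_cancel₀ hμ, one_smul]

theorem wedge_mulVec (U : Matrix (Fin 2) (Fin 2) F) (f h : Fin 2 → F) :
    wedge (U.mulVec f) (U.mulVec h) = U.det * wedge f h := by
  unfold wedge
  rw [mulVec_zero', mulVec_zero', mulVec_one', mulVec_one', Matrix.det_fin_two]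
  ring

theorem wedge_smul_smul (a b : F) (f h : Fin 2 → F) :
    wedge (a • f) (b • h) = a * b * wedge f h := by
  unfold wedge
  simp
  ring

theorem scalar_of_three (A : Matrix (Fin 2) (Fin 2) F) (e₁ e₂ e₃ : Fin 2 → F) (μ₁ μ₂ μ₃ : F)
    (h₁ : A.mulVec e₁ = μ₁ • e₁) (h₂ : A.mulVec e₂ = μ₂ • e₂) (h₃ : A.mulVec e₃ = μ₃ • e₃)
    (h12 : wedge e₁ e₂ ≠ 0) (h13 : wedge e₁ e₃ ≠ 0) (h23 : wedge e₂ e₃ ≠ 0) :
    ∃ c : F, A = c • 1 := by
  set U := A - μ₁ • (1 : Matrix (Fin 2) (Fin 2) F) with hU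
  have hUe : ∀ (e : Fin 2 → F) (μ : F), A.mulVec e = μ • e → U.mulVec e = (μ - μ₁) • e := by
    intro e μ h
    rw [hU, Matrix.sub_mulVec, Matrix.smul_mulVec, Matrix.one_mulVec, h, sub_smul]
  have hU1 : U.mulVec e₁ = 0 := by
    rw [hUe e₁ μ₁ h₁, sub_self, zero_smul]
  have he₁ : e₁ ≠ 0 := by
    rintro rfl
    apply h12
    simp [wedge]
  have hdet : U.det = 0 := Matrix.exists_mulVec_eq_zero_iff.1 ⟨e₁, he₁, hU1⟩
  have h4 := wedge_mulVec U e₂ e₃
  rw [hdet, zero_mul, hUe e₂ μ₂ h₂, hUe e₃ μ₃ h₃, wedge_smul_smul] at h4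
  have h5 : (μ₂ - μ₁) * (μ₃ - μ₁) = 0 := (mul_eq_zero.1 h4).resolve_right h23
  have hU0 : U = 0 := by
    rcases mul_eq_zero.1 h5 with h | h
    · apply eq_zero_of_wedge_ne_zero U hU1 _ h12
      rw [hUe e₂ μ₂ h₂, h, zero_smul]
    · apply eq_zero_of_wedge_ne_zero U hU1 _ h13
      rw [hUe e₃ μ₃ h₃, h, zero_smul]
  exact ⟨μ₁, sub_eq_zero.1 hU0⟩

/-- The key commutation statement inside the centralizer of an element. -/
theorem key_comm (hm : Function.Injective m) (hdet : ∀ g, (m g).det = 1) (hodd : Odd (Nat.card Γ))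
    (hp : p ≠ 2) {w : Γ} (hw1 : w ≠ 1) (hw4 : (m w).trace ^ 2 ≠ 4) {v v₀ y : Γ}
    (hv : v * w = w * v) (hv₀ : v₀ * w = w * v₀) (hv₀1 : v₀ ≠ 1) (hy : y * v * y⁻¹ = v₀) :
    y * w = w * y := by
  have h2 : (2 : F) ≠ 0 := two_ne_zero' hp
  set w' := y * w * y⁻¹ with hw'
  have hw'v : w' * v₀ = v₀ * w' := by
    rw [hw', ← hy]
    calc y * w * y⁻¹ * (y * v * y⁻¹) = y * (w * v) * y⁻¹ := by group
      _ = y * (v * w) * y⁻¹ := by rw [hv]
      _ = _ := by group
  have hns0 := nonscalar m hm hdet hodd hp hv₀1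
  obtain ⟨α, β, h1⟩ := commutant (m v₀) (m w) hns0 (by rw [← map_mul, ← map_mul, hv₀])
  obtain ⟨α', β', h3⟩ := commutant (m v₀) (m w') hns0 (by rw [← map_mul, ← map_mul, hw'v])
  have hβ : β ≠ 0 := by
    rintro rfl
    apply nonscalar m hm hdet hodd hp hw1
    exact ⟨α, by simpa using h1⟩
  have h4 : m w' = (α' - β' * β⁻¹ * α) • 1 + (β' * β⁻¹) • m w := by
    have e1 : m v₀ = β⁻¹ • (m w - α • 1) := by
      rw [h1, add_sub_cancel_left, smul_smul, inv_mul_cancel₀ hβ, one_smul]
    rw [h3, e1, smul_smul, smul_sub, smul_smul, sub_smul]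
    abel
  have htr : (m w').trace = (m w).trace := by
    rw [hw', map_mul, map_mul, Matrix.trace_mul_comm, ← Matrix.mul_assoc, m_inv_mul, Matrix.one_mul]
  rcases eq_or_inv_of_same_algebra (m w) (m w') _ _ (hdet w) (hdet w') htr hw4 h2 h4 with h5 | h5
  · have h6 : w' = w := hm h5
    rw [hw'] at h6
    exact mul_inv_eq_iff_eq_mul.1 h6
  · have h6 : w' * w = 1 := hm (by rw [map_mul, h5, map_one])
    have h7 : w' = w⁻¹ := eq_inv_of_mul_eq_one_left h6
    have h8 : y ^ 2 * w = w * y ^ 2 := by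
      have h9 : y * w * y⁻¹ = w⁻¹ := h7
      have h10 : y * w⁻¹ * y⁻¹ = w := by
        have e : y * w⁻¹ * y⁻¹ = (y * w * y⁻¹)⁻¹ := by group
        rw [e, h9, inv_inv]
      calc y ^ 2 * w = y * (y * w * y⁻¹) * y := by simp [sq, mul_assoc]
        _ = y * w⁻¹ * y := by rw [h9]
        _ = (y * w⁻¹ * y⁻¹) * y ^ 2 := by simp [sq, mul_assoc]
        _ = w * y ^ 2 := by rw [h10]
    have h9 := odd_comm_of_sq hodd h8
    exfalso
    have h10 : w' = w := by
      rw [hw', h9]
      group
    rw [h10] at h6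
    apply hw1
    apply odd_sq_eq_one hodd
    rw [sq]
    exact h6

theorem trace_sq_ne_four_of_no_fixed (hm : Function.Injective m) (hdet : ∀ g, (m g).det = 1)
    (hodd : Odd (Nat.card Γ)) (hp : p ≠ 2) {w : Γ} (hw : ∀ S : Sylow p Γ, w ∈ (S : Subgroup Γ) → False) :
    (m w).trace ^ 2 ≠ 4 := by
  have h2 : (2 : F) ≠ 0 := two_ne_zero' hp
  intro h
  have h4 : ((m w).trace - 2) * ((m w).trace + 2) = 0 := by linear_combination h
  rcases mul_eq_zero.1 h4 with h5 | h5
  · have h6 : (m w).trace = 2 := sub_eq_zero.1 h5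
    have h7 : w ^ p = 1 := pow_eq_one_of_trace m w hm hdet h6
    have h8 : IsPGroup p (Subgroup.zpowers w) := by
      intro x
      obtain ⟨x, hx⟩ := x
      obtain ⟨i, rfl⟩ := Subgroup.mem_zpowers_iff.1 hx
      refine ⟨1, ?_⟩
      apply Subtype.ext
      simp only [pow_one, Subgroup.coe_pow, Subgroup.coe_one]
      rw [← zpow_natCast, ← _root_.zpow_mul, mul_comm, _root_.zpow_mul, zpow_natCast, h7, _root_.one_zpow]
    obtain ⟨S, hS⟩ := h8.exists_le_sylow
    exact hw S (hS (Subgroup.mem_zpowers w))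
  · have h6 : (m w).trace = -2 := by linear_combination h5
    set A := - m w with hA
    have h7 : A.trace = 2 := by
      rw [hA, Matrix.trace_neg, h6]
      ring
    have h8 : A.det = 1 := by
      rw [hA, Matrix.det_neg]
      simp [hdet w]
    have hc := cayley A
    rw [h7, h8] at hc
    have h9 : (A - 1) * (A - 1) = 0 := by
      have : (A - 1) * (A - 1) = A * A - A - A + 1 := by noncomm_ring
      rw [this, hc, two_smul, one_smul]
      abel
    have h10 := unipotent_pow A h9 p
    rw [CharP.cast_eq_zero F p, zero_smul, add_zero, hA, neg_pow, (hpp.out.odd_of_ne_two hp).neg_one_pow] at h10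
    have h11 : m (w ^ p) = -1 := by
      rw [map_pow]
      have : (-1 : Matrix (Fin 2) (Fin 2) F) * m w ^ p = - (m w ^ p) := by simp
      rw [this] at h10
      exact neg_eq_iff_eq_neg.1 h10
    have h12 : (w ^ p) ^ 2 = 1 := by
      apply hm
      rw [map_pow, h11, map_one]
      simp
    have h13 : w ^ p = 1 := odd_sq_eq_one hodd h12
    rw [h13, map_one] at h11
    have h14 := congrFun (congrFun h11 0) 0
    simp at h14
    apply h2
    linear_combination h14

/-- The main counting: there is at most one Sylow `p`-subgroup. -/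
theorem sylow_unique (hm : Function.Injective m) (hdet : ∀ g, (m g).det = 1)
    (hodd : Odd (Nat.card Γ)) (hp : p ≠ 2) (hpΓ : p ∣ Nat.card Γ) : Nat.card (Sylow p Γ) = 1 := by
  classical
  letI := Fintype.ofFinite Γ
  letI := Fintype.ofFinite (Sylow p Γ)
  have h2 : (2 : F) ≠ 0 := two_ne_zero' hp
  have hvec := sylow_fixed_vector (p := p) m hm hdet hpΓ
  choose ev hev0 hev using hvec
  have hp3 : 3 ≤ p := by
    have := hpp.out.two_le
    omega
  -- nontrivial elements of Sylow subgroups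
  have hnt : ∀ S : Sylow p Γ, ∃ t ∈ (S : Subgroup Γ), t ≠ 1 := fun S =>
    (Subgroup.bot_or_exists_ne_one _).resolve_left (S.ne_bot_of_dvd_card hpΓ)
  have hnm1 : ∀ t : Γ, t ≠ 1 → m t ≠ 1 := by
    intro t ht h
    apply ht
    apply hm
    rw [h, map_one]
  -- the eigenvector description
  have heig1 : ∀ (S : Sylow p Γ) (g : Γ), g • S = S → ∃ μ : F, μ ≠ 0 ∧ (m g).mulVec (ev S) = μ • ev S := by
    intro S g hg
    obtain ⟨t, ht, ht1⟩ := hnt S
    have hgn := Sylow.smul_eq_iff_mem_normalizer.1 hg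
    have h1 : g * t * g⁻¹ ∈ (S : Subgroup Γ) := (Subgroup.mem_normalizer_iff.1 hgn t).1 ht
    apply eigen_of_conj (hev0 S) (hnm1 t ht1) ((hev S t).1 ht) (m g) (m g⁻¹) (m_mul_inv m g) (m_inv_mul m g)
    have h3 := (hev S _).1 h1
    rwa [map_mul, map_mul] at h3
  have heig2 : ∀ (S : Sylow p Γ) (g : Γ) (μ : F), μ ≠ 0 → (m g).mulVec (ev S) = μ • ev S → g • S = S := by
    intro S g μ hμ h
    exact Sylow.smul_eq_iff_mem_normalizer.2 (mem_normalizer_of_eigen m (hev S) hμ h)
  have hwedge : ∀ S S' : Sylow p Γ, S ≠ S' → wedge (ev S) (ev S') ≠ 0 := by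
    intro S S' hne h
    apply hne
    obtain ⟨c, hc⟩ := exists_smul_of_wedge_eq_zero (hev0 S) h
    have hc0 : c ≠ 0 := by
      rintro rfl
      rw [zero_smul] at hc
      exact hev0 S' hc
    apply Sylow.ext
    ext g
    rw [hev S, hev S', hc, Matrix.mulVec_smul]
    constructor
    · intro h1
      rw [h1]
    · intro h1
      have h2 : c⁻¹ • (c • (m g *ᵥ ev S)) = c⁻¹ • (c • ev S) := congrArg (fun x => c⁻¹ • x) h1
      rwa [smul_smul, smul_smul, inv_mul_cancel₀ hc0, one_smul, one_smul] at h2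
  -- fixed points
  let fix : Γ → ℕ := fun g => Fintype.card (MulAction.fixedBy (Sylow p Γ) g)
  have hfix_le : ∀ g : Γ, g ≠ 1 → fix g ≤ 2 := by
    intro g hg
    by_contra hcon
    push Not at hcon
    obtain ⟨a, b, c, hab, hac, hbc⟩ := Fintype.two_lt_card_iff.1 hcon
    obtain ⟨μ₁, -, h₁⟩ := heig1 a g a.2
    obtain ⟨μ₂, -, h₂⟩ := heig1 b g b.2
    obtain ⟨μ₃, -, h₃⟩ := heig1 c g c.2
    exact nonscalar m hm hdet hodd hp hg
      (scalar_of_three (m g) _ _ _ _ _ _ h₁ h₂ h₃
        (hwedge _ _ (fun h => hab (Subtype.ext h)))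
        (hwedge _ _ (fun h => hac (Subtype.ext h)))
        (hwedge _ _ (fun h => hbc (Subtype.ext h))))
  have hfix_zero : ∀ g : Γ, fix g = 0 → ∀ S : Sylow p Γ, g • S ≠ S := by
    intro g hg S hS
    have : IsEmpty (MulAction.fixedBy (Sylow p Γ) g) := Fintype.card_eq_zero_iff.1 hg
    exact this.false ⟨S, hS⟩
  -- Burnside
  have hburn : ∑ g : Γ, fix g = Fintype.card Γ := by
    have h := MulAction.sum_card_fixedBy_eq_card_orbits_mul_card_group Γ (Sylow p Γ)
    have h1 : Fintype.card (Quotient (MulAction.orbitRel Γ (Sylow p Γ))) = 1 := by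
      obtain ⟨S₀⟩ : Nonempty (Sylow p Γ) := inferInstance
      rw [Fintype.card_eq_one_iff]
      refine ⟨Quotient.mk _ S₀, fun q => ?_⟩
      induction q using Quotient.inductionOn with
      | h S =>
        apply Quotient.sound
        show MulAction.orbitRel Γ (Sylow p Γ) S S₀
        rw [MulAction.orbitRel_apply]
        obtain ⟨g, hg⟩ := MulAction.exists_smul_eq Γ S₀ S
        exact ⟨g, hg⟩
    rw [h1, one_mul] at h
    exact h
  set k := Fintype.card (Sylow p Γ) with hk
  set n := Fintype.card Γ with hn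
  have hfix1 : fix 1 = k := by
    simp only [fix, MulAction.fixedBy_one_eq_univ]
    exact Fintype.card_congr (Equiv.subtypeUnivEquiv (fun S => Set.mem_univ S))
  have hsum : n = k + ∑ g ∈ (Finset.univ : Finset Γ).erase 1, fix g := by
    rw [← hburn, ← hfix1]
    exact (Finset.add_sum_erase _ fix (Finset.mem_univ (1 : Γ))).symm
  have hcardne : ((Finset.univ : Finset Γ).erase 1).card = n - 1 := by
    rw [Finset.card_erase_of_mem (Finset.mem_univ _), Finset.card_univ]
  have hnpos : 1 ≤ n := Fintype.card_pos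
  -- conclusion
  rw [Nat.card_eq_fintype_card]
  by_contra hk1
  have hk2 : 2 ≤ k := by
    have h1 : 0 < k := Fintype.card_pos
    omega
  set Fp : Finset Γ := (Finset.univ : Finset Γ).filter (fun g => g ≠ 1 ∧ fix g = 0) with hFp
  have hFpsub : Fp ⊆ (Finset.univ : Finset Γ).erase 1 := by
    intro g hg
    simp only [hFp, Finset.mem_filter, Finset.mem_univ, true_and] at hg
    exact Finset.mem_erase.2 ⟨hg.1, Finset.mem_univ _⟩
  have hFpne : Fp.Nonempty := by
    by_contra hcon
    rw [Finset.not_nonempty_iff_eq_empty] at hcon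
    have h1 : ∀ g ∈ (Finset.univ : Finset Γ).erase 1, 1 ≤ fix g := by
      intro g hg
      by_contra h
      have h3 : g ∈ Fp := by
        simp only [hFp, Finset.mem_filter, Finset.mem_univ, true_and]
        exact ⟨(Finset.mem_erase.1 hg).1, by omega⟩
      rw [hcon] at h3
      exact Finset.notMem_empty _ h3
    have h4 : n - 1 ≤ ∑ g ∈ (Finset.univ : Finset Γ).erase 1, fix g := by
      have h5 := Finset.card_nsmul_le_sum _ fix 1 h1
      rw [hcardne, smul_eq_mul, mul_one] at h5
      exact h5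
    omega
  obtain ⟨w, hw⟩ := hFpne
  simp only [hFp, Finset.mem_filter, Finset.mem_univ, true_and] at hw
  obtain ⟨hw1, hw0⟩ := hw
  have hwfree := hfix_zero w hw0
  have hw4 : (m w).trace ^ 2 ≠ 4 := by
    apply trace_sq_ne_four_of_no_fixed m hm hdet hodd hp
    intro S hS
    exact hwfree S (Sylow.smul_eq_iff_mem_normalizer.2 (Subgroup.le_normalizer hS))
  -- the centralizer
  set A : Finset Γ := (Finset.univ : Finset Γ).filter (fun v => v * w = w * v) with hA
  have hAmem : ∀ v, v ∈ A ↔ v * w = w * v := by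
    intro v
    simp [hA]
  have hA3 : 3 ≤ A.card := by
    have h1 : 2 < A.card := by
      rw [Finset.two_lt_card]
      refine ⟨1, (hAmem _).2 (by simp), w, (hAmem _).2 rfl, w⁻¹, (hAmem _).2 (by simp), hw1.symm, ?_, ?_⟩
      · intro h
        apply hw1
        exact inv_eq_one.1 h.symm
      · intro h
        apply hw1
        apply odd_sq_eq_one hodd
        rw [sq]
        nth_rw 1 [h]
        simp
    exact h1
  set As : Finset Γ := A.erase 1 with hAs
  have hAscard : As.card = A.card - 1 := by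
    rw [hAs, Finset.card_erase_of_mem ((hAmem 1).2 (by simp))]
  have hAsmem : ∀ v, v ∈ As ↔ v ≠ 1 ∧ v * w = w * v := by
    intro v
    rw [hAs, Finset.mem_erase, hAmem]
  -- elements of the centralizer have no fixed points
  have hfree : ∀ v ∈ As, ∀ S : Sylow p Γ, v • S ≠ S := by
    intro v hv S hS
    obtain ⟨hv1, hvw⟩ := (hAsmem v).1 hv
    obtain ⟨μ, hμ, he⟩ := heig1 S v hS
    set U := m v - μ • (1 : Matrix (Fin 2) (Fin 2) F) with hU
    have hU1 : U.mulVec (ev S) = 0 := by
      rw [hU, Matrix.sub_mulVec, Matrix.smul_mulVec, Matrix.one_mulVec, he, sub_self]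
    have hU2 : U.mulVec ((m w).mulVec (ev S)) = 0 := by
      have h3 : U * m w = m w * U := by
        rw [hU, sub_mul, mul_sub, ← map_mul, ← map_mul, hvw, smul_mul_assoc, mul_smul_comm, one_mul, mul_one]
      rw [Matrix.mulVec_mulVec, h3, ← Matrix.mulVec_mulVec, hU1, Matrix.mulVec_zero]
    have hw0' : wedge (ev S) ((m w).mulVec (ev S)) = 0 := by
      by_contra hcon
      have h4 := eq_zero_of_wedge_ne_zero U hU1 hU2 hcon
      exact nonscalar m hm hdet hodd hp hv1 ⟨μ, sub_eq_zero.1 h4⟩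
    obtain ⟨c, hc⟩ := exists_smul_of_wedge_eq_zero (hev0 S) hw0'
    have hc0 : c ≠ 0 := by
      rintro rfl
      rw [zero_smul] at hc
      exact mulVec_ne_zero m w (hev0 S) hc
    exact hwfree S (heig2 S w c hc0 hc)
  have hconjfree : ∀ x v, v ∈ As → x * v * x⁻¹ ∈ Fp := by
    intro x v hv
    simp only [hFp, Finset.mem_filter, Finset.mem_univ, true_and]
    refine ⟨?_, ?_⟩
    · intro h
      apply ((hAsmem v).1 hv).1
      have h3 : v = x⁻¹ * (x * v * x⁻¹) * x := by group
      rw [h3, h]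
      group
    · apply Fintype.card_eq_zero_iff.2
      refine ⟨fun S => ?_⟩
      obtain ⟨S, hS⟩ := S
      have hS' : (x * v * x⁻¹) • S = S := hS
      apply hfree v hv (x⁻¹ • S)
      rw [← mul_smul]
      have e1 : v * x⁻¹ = x⁻¹ * (x * v * x⁻¹) := by group
      rw [e1, mul_smul, hS']
  -- the count
  have hcount : n * (A.card - 1) ≤ A.card * Fp.card := by
    have h1 : (((Finset.univ : Finset Γ) ×ˢ As)).card = n * (A.card - 1) := by
      rw [Finset.card_product, Finset.card_univ, hAscard]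
    rw [← h1]
    apply Finset.card_le_mul_card_image_of_maps_to
      (f := fun q : Γ × Γ => q.1 * q.2 * q.1⁻¹)
    · rintro ⟨x, v⟩ hq
      exact hconjfree x v (Finset.mem_product.1 hq).2
    · intro b _
      by_cases hne : (((Finset.univ : Finset Γ) ×ˢ As).filter (fun q : Γ × Γ => q.1 * q.2 * q.1⁻¹ = b)).Nonempty
      · obtain ⟨⟨x₀, v₀⟩, h₀⟩ := hne
        simp only [Finset.mem_filter, Finset.mem_product, Finset.mem_univ, true_and] at h₀
        obtain ⟨hv₀, hb₀⟩ := h₀
        apply Finset.card_le_card_of_injOn (fun q : Γ × Γ => x₀⁻¹ * q.1)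
        · rintro ⟨x, v⟩ hq
          simp only [Finset.coe_filter, Finset.mem_product, Finset.mem_univ, true_and, Set.mem_setOf_eq] at hq
          obtain ⟨hv, hb⟩ := hq
          obtain ⟨hv1, hvw⟩ := (hAsmem v).1 hv
          obtain ⟨hv₀1, hv₀w⟩ := (hAsmem v₀).1 hv₀
          have hy : (x₀⁻¹ * x) * v * (x₀⁻¹ * x)⁻¹ = v₀ := by
            have e1 : (x₀⁻¹ * x) * v * (x₀⁻¹ * x)⁻¹ = x₀⁻¹ * (x * v * x⁻¹) * x₀ := by group
            rw [e1, hb, ← hb₀]
            group
          have := key_comm m hm hdet hodd hp hw1 hw4 hvw hv₀w hv₀1 hy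
          exact (hAmem _).2 this
        · rintro ⟨x, v⟩ hq ⟨x', v'⟩ hq' h
          simp only [Finset.coe_filter, Finset.mem_product, Finset.mem_univ, true_and, Set.mem_setOf_eq] at hq hq'
          have hx : x = x' := mul_left_cancel h
          subst hx
          have h3 : x * v * x⁻¹ = x * v' * x⁻¹ := by rw [hq.2, hq'.2]
          have h4 : v = v' := by
            have h5 := mul_right_cancel h3
            exact mul_left_cancel h5
          rw [h4]
      · rw [Finset.not_nonempty_iff_eq_empty] at hne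
        rw [hne]
        simp
  have h23 : 2 * n ≤ 3 * Fp.card := by
    obtain ⟨b, hb⟩ := Nat.exists_eq_add_of_le hA3
    rw [hb] at hcount
    have h5 : 3 + b - 1 = b + 2 := by omega
    rw [h5] at hcount
    by_contra hcon
    push Not at hcon
    have h6 : (3 * Fp.card + 1) * (b + 3) ≤ 2 * n * (b + 3) := Nat.mul_le_mul_right _ hcon
    nlinarith
  -- the upper bound of the sum
  have hup : ∑ g ∈ (Finset.univ : Finset Γ).erase 1, fix g ≤ 2 * (n - 1 - Fp.card) := by
    rw [← Finset.sum_sdiff hFpsub]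
    have h1 : ∑ g ∈ Fp, fix g = 0 := by
      apply Finset.sum_eq_zero
      intro g hg
      simp only [hFp, Finset.mem_filter, Finset.mem_univ, true_and] at hg
      exact hg.2
    rw [h1, add_zero]
    have h3 : (((Finset.univ : Finset Γ).erase 1) \ Fp).card = n - 1 - Fp.card := by
      rw [Finset.card_sdiff_of_subset hFpsub, hcardne]
    rw [← h3, mul_comm, ← smul_eq_mul]
    apply Finset.sum_le_card_nsmul
    intro g hg
    exact hfix_le g (Finset.mem_erase.1 (Finset.mem_sdiff.1 hg).1).1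
  -- the stabilizer is large
  obtain ⟨S₀⟩ : Nonempty (Sylow p Γ) := inferInstance
  have hn3k : 3 * k ≤ n := by
    have h1 : Nat.card (Sylow p Γ) = (Subgroup.normalizer (S₀ : Set Γ)).index := S₀.card_eq_index_normalizer
    rw [Nat.card_eq_fintype_card] at h1
    have h3 : (Subgroup.normalizer (S₀ : Set Γ)).index * Nat.card (Subgroup.normalizer (S₀ : Set Γ)) = n := by
      rw [Subgroup.index_mul_card, Nat.card_eq_fintype_card]
    have h4 : Nat.card (S₀ : Subgroup Γ) ∣ Nat.card (Subgroup.normalizer (S₀ : Set Γ)) :=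
      Subgroup.card_dvd_of_le Subgroup.le_normalizer
    have h5 : p ∣ Nat.card (S₀ : Subgroup Γ) := by
      obtain ⟨j, hj⟩ := IsPGroup.iff_card.1 S₀.isPGroup'
      have hj0 : j ≠ 0 := by
        rintro rfl
        rw [pow_zero] at hj
        exact S₀.ne_bot_of_dvd_card hpΓ (Subgroup.card_eq_one.1 hj)
      rw [hj]
      exact dvd_pow_self p hj0
    have h6 : 3 ≤ Nat.card (Subgroup.normalizer (S₀ : Set Γ)) := by
      have h7 : 0 < Nat.card (Subgroup.normalizer (S₀ : Set Γ)) := Nat.card_pos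
      exact hp3.trans (Nat.le_of_dvd h7 (h5.trans h4))
    rw [← h3, ← h1, mul_comm]
    exact Nat.mul_le_mul_left _ h6
  have hFple : Fp.card ≤ n - 1 := by
    rw [← hcardne]
    exact Finset.card_le_card hFpsub
  omega

end group

end Cfsg.Agent.Lib.GL2Odd
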