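/-
Semisimple elements of `GL_n` over a finite field.
-/
import Mathlib

set_option autoImplicit false
set_option linter.all false

open scoped MatrixGroups
open Polynomial Module

namespace Cfsg.Agent.Lib.GLSemi

variable {F : Type*} [Field F] [Fintype F] {p : ℕ} [Fact p.Prime] [CharP F p] {n : ℕ}

/-- An element of order prime to the characteristic acts semisimply. -/
theorem isSemisimple_toLin (x : GL (Fin n) F) (hx : (orderOf x).Coprime p) :
    Module.End.IsSemisimple (Matrix.toLin' x.1 : Module.End F (Fin n → F)) := by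
  classical
  let L : Module.End F (Fin n → F) := Matrix.toLin' x.1
  have hLpow : ∀ k : ℕ, L ^ k = Matrix.toLin' ((x ^ k : GL (Fin n) F) : Matrix (Fin n) (Fin n) F) := by
    intro k
    induction k with
    | zero => simp; rfl
    | succ k ih =>
      rw [pow_succ, pow_succ, ih, Units.val_mul, Matrix.toLin'_mul]
      rfl
  have hN0 : ((orderOf x : ℕ) : F) ≠ 0 := by
    intro h
    rw [CharP.cast_eq_zero_iff F p] at h
    have h3 := Nat.Coprime.eq_one_of_dvd hx.symm h
    exact (Fact.out : p.Prime).one_lt.ne' h3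
  refine Module.End.isSemisimple_of_squarefree_aeval_eq_zero (p := X ^ orderOf x - 1) ?_ ?_
  · have := separable_X_pow_sub_C (1 : F) hN0 one_ne_zero
    rw [C_1] at this
    exact this.squarefree
  · rw [map_sub, map_pow, aeval_X, map_one]
    show L ^ orderOf x - 1 = 0
    rw [hLpow, pow_orderOf_eq_one, Units.val_one, Matrix.toLin'_one]
    exact sub_eq_zero.2 rfl

/-- The determinant is surjective on the centraliser of a semisimple element. -/
theorem exists_centralizer_det (hn : 0 < n) (x : GL (Fin n) F) (hx : (orderOf x).Coprime p) (d : F) (hd : d ≠ 0) :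
    ∃ c : GL (Fin n) F, c * x = x * c ∧ (c : Matrix (Fin n) (Fin n) F).det = d := by
  classical
  let L : Module.End F (Fin n → F) := Matrix.toLin' x.1
  have hss : L.IsSemisimple := isSemisimple_toLin x hx
  haveI : IsSemisimpleModule F[X] (AEval' L) := hss
  haveI : Nonempty (Fin n) := ⟨⟨0, hn⟩⟩
  haveI : Nontrivial (Fin n → F) := inferInstance
  haveI : Nontrivial (AEval' L) := (AEval'.of L).symm.toEquiv.nontrivial
  haveI : Finite (AEval' L) := Finite.of_equiv _ (AEval'.of L).toEquiv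
  obtain ⟨S, hS⟩ := IsSemisimpleModule.exists_simple_submodule F[X] (AEval' L)
  obtain ⟨S', hc⟩ := exists_isCompl S
  obtain ⟨I, hI, ⟨e⟩⟩ := isSimpleModule_iff_quot_maximal.1 hS
  haveI := hI
  letI : Field (F[X] ⧸ I) := Ideal.Quotient.field I
  haveI : Finite (F[X] ⧸ I) := Finite.of_equiv _ e.toEquiv
  haveI : Module.Finite F (F[X] ⧸ I) := Module.Finite.of_finite
  haveI : Module.Finite F S' := Module.Finite.of_finite
  haveI : Module.Free F S' := Module.Free.of_divisionRing F S'
  obtain ⟨k, hk⟩ := FiniteField.norm_surjective F (F[X] ⧸ I) d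
  let E : AEval' L ≃ₗ[F[X]] (F[X] ⧸ I) × S' :=
    (Submodule.prodEquivOfIsCompl S S' hc).symm.trans (e.prodCongr (LinearEquiv.refl _ _))
  let T : ((F[X] ⧸ I) × S') →ₗ[F[X]] ((F[X] ⧸ I) × S') := (LinearMap.mulLeft F[X] k).prodMap LinearMap.id
  let cM : AEval' L →ₗ[F[X]] AEval' L := E.symm.toLinearMap ∘ₗ T ∘ₗ E.toLinearMap
  let ψ : (Fin n → F) ≃ₗ[F] (F[X] ⧸ I) × S' := (AEval'.of L).trans (E.restrictScalars F)
  let TF : ((F[X] ⧸ I) × S') →ₗ[F] ((F[X] ⧸ I) × S') := (LinearMap.mulLeft F k).prodMap LinearMap.id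
  let cV : (Fin n → F) →ₗ[F] (Fin n → F) := (AEval'.of L).symm.toLinearMap ∘ₗ (cM.restrictScalars F) ∘ₗ (AEval'.of L).toLinearMap
  have hcV : cV = (ψ.symm.toLinearMap) ∘ₗ TF ∘ₗ ψ.toLinearMap := rfl
  have hdet : LinearMap.det cV = d := by
    have h1 := LinearMap.det_conj (M := (F[X] ⧸ I) × S') (N := Fin n → F) TF ψ.symm
    rw [hcV]
    refine h1.trans ?_
    rw [LinearMap.det_prodMap, LinearMap.det_id, mul_one, ← hk, Algebra.norm_apply]
    rfl
  have hcomm : cV ∘ₗ L = L ∘ₗ cV := by
    apply LinearMap.ext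
    intro v
    show (AEval'.of L).symm (cM (AEval'.of L (L v))) = L ((AEval'.of L).symm (cM (AEval'.of L v)))
    rw [← AEval'.X_smul_of, map_smul, AEval'.of_symm_X_smul]
  let C : Matrix (Fin n) (Fin n) F := LinearMap.toMatrix' cV
  have hC : C.det = d := by
    show (LinearMap.toMatrix' cV).det = d
    rw [LinearMap.det_toMatrix', hdet]
  refine ⟨Matrix.GeneralLinearGroup.mkOfDetNeZero C (by rw [hC]; exact hd), ?_, hC⟩
  apply Units.ext
  apply Matrix.toLin'.injective
  show Matrix.toLin' (C * x.1) = Matrix.toLin' (x.1 * C)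
  rw [Matrix.toLin'_mul, Matrix.toLin'_mul, Matrix.toLin'_toMatrix']
  exact hcomm

/-- A semisimple element is conjugate under `SL` to each of its `GL`-conjugates. -/
theorem exists_det_one_conj (x g : GL (Fin n) F) (hx : (orderOf x).Coprime p) :
    ∃ h : GL (Fin n) F, (h : Matrix (Fin n) (Fin n) F).det = 1 ∧ h * x * h⁻¹ = g * x * g⁻¹ := by
  rcases Nat.eq_zero_or_pos n with rfl | hn
  · refine ⟨1, by simp, ?_⟩
    apply Units.ext
    ext i
    exact i.elim0
  · have hd : (g : Matrix (Fin n) (Fin n) F).det ≠ 0 := by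
      have := g.isUnit.map (Matrix.detMonoidHom)
      exact this.ne_zero
    obtain ⟨c, hc, hdc⟩ := exists_centralizer_det hn x hx _ hd
    refine ⟨g * c⁻¹, ?_, ?_⟩
    · have h1 : ((g * c⁻¹ : GL (Fin n) F) : Matrix (Fin n) (Fin n) F).det * (c : Matrix (Fin n) (Fin n) F).det = (g : Matrix (Fin n) (Fin n) F).det := by
        rw [← Matrix.det_mul, ← Units.val_mul, inv_mul_cancel_right]
      rw [hdc] at h1
      exact mul_right_cancel₀ hd (by rw [h1, one_mul])
    · have h3 : c⁻¹ * x * c = x := by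
        rw [mul_assoc, ← hc, inv_mul_cancel_left]
      calc g * c⁻¹ * x * (g * c⁻¹)⁻¹ = g * (c⁻¹ * x * c) * g⁻¹ := by group
        _ = g * x * g⁻¹ := by rw [h3]

end Cfsg.Agent.Lib.GLSemi
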