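/-
Semisimple conjugacy classes of `GL_n` over a finite field: they are determined by the
characteristic polynomial, and each monic polynomial with non-zero constant term occurs.
-/
import Mathlib
import Cfsg.Agent.Lib.GLSemi

set_option autoImplicit false
set_option linter.all false

open scoped MatrixGroups
open Polynomial Module

universe u

namespace Cfsg.Agent.Lib.GLClass

section Modules

variable {F : Type u} [Field F] [Finite F]

section One

variable (M : Type u) [AddCommGroup M] [Module F M] [Module F[X] M] [IsScalarTower F F[X] M]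

/-- The action of the variable as a linear endomorphism. -/
noncomputable def Xact : Module.End F M := (LinearMap.lsmul F[X] M X).restrictScalars F

theorem Xact_apply (m : M) : Xact (F := F) M m = (X : F[X]) • m := rfl

variable [Finite M]

/-- The characteristic polynomial of the action of the variable. -/
noncomputable def charp : F[X] := (Xact (F := F) M).charpoly

theorem charp_monic : (charp (F := F) M).Monic := LinearMap.charpoly_monic _

theorem charp_natDegree : (charp (F := F) M).natDegree = Module.finrank F M :=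
  LinearMap.charpoly_natDegree _

end One

variable {M M' : Type u} [AddCommGroup M] [Module F M] [Module F[X] M] [IsScalarTower F F[X] M] [Finite M]
  [AddCommGroup M'] [Module F M'] [Module F[X] M'] [IsScalarTower F F[X] M'] [Finite M']

theorem charp_congr (e : M ≃ₗ[F[X]] M') : charp (F := F) M = charp (F := F) M' := by
  let e' : M ≃ₗ[F] M' := e.restrictScalars F
  have h1 : e'.conj (Xact (F := F) M) = Xact (F := F) M' := by
    apply LinearMap.ext
    intro m
    show e ((X : F[X]) • e.symm m) = (X : F[X]) • m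
    rw [map_smul, LinearEquiv.apply_symm_apply]
  unfold charp
  rw [← h1, LinearEquiv.charpoly_conj]

theorem charp_prod : charp (F := F) (M × M') = charp (F := F) M * charp (F := F) M' := by
  unfold charp
  rw [← LinearMap.charpoly_prodMap]
  rfl

theorem finite_quot {P : F[X]} (hm : P.Monic) : Finite (F[X] ⧸ Ideal.span {P}) := by
  have pb := AdjoinRoot.powerBasis hm.ne_zero
  haveI : Module.Finite F (AdjoinRoot P) := pb.finite
  exact Module.finite_of_finite F (M := AdjoinRoot P)

theorem charp_adjoin {P : F[X]} (hm : P.Monic) [Finite (F[X] ⧸ Ideal.span {P})] :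
    charp (F := F) (F[X] ⧸ Ideal.span {P}) = P := by
  have hP0 := hm.ne_zero
  let pb := AdjoinRoot.powerBasis hP0
  haveI : Module.Finite F (AdjoinRoot P) := pb.finite
  have h1 : (Algebra.leftMulMatrix pb.basis pb.gen).charpoly = minpoly F pb.gen := charpoly_leftMulMatrix pb
  have h2 : pb.gen = AdjoinRoot.root P := rfl
  rw [h2, AdjoinRoot.minpoly_root hP0, hm.leadingCoeff, inv_one, C_1, mul_one] at h1
  have h3 : (LinearMap.toMatrix pb.basis pb.basis (Algebra.lmul F (AdjoinRoot P) (AdjoinRoot.root P))).charpoly = P := h1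
  rw [LinearMap.charpoly_toMatrix] at h3
  refine Eq.trans ?_ h3
  unfold charp
  congr 1

theorem maximal_eq_span (I : Ideal F[X]) (hI : I.IsMaximal) : ∃ P : F[X], P.Monic ∧ Irreducible P ∧ I = Ideal.span {P} := by
  obtain ⟨g, rfl⟩ : ∃ g, I = Ideal.span {g} := (IsPrincipalIdealRing.principal I).principal
  have hg0 : g ≠ 0 := by
    rintro rfl
    exact Ring.ne_bot_of_isMaximal_of_not_isField hI (Polynomial.not_isField F) (by simp)
  have hprime : Prime g := (Ideal.span_singleton_prime hg0).1 hI.isPrime
  have hassoc : Associated g (g * C g.leadingCoeff⁻¹) :=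
    associated_mul_unit_right _ _ (isUnit_C.2 (IsUnit.mk0 _ (inv_ne_zero (leadingCoeff_ne_zero.2 hg0))))
  refine ⟨g * C g.leadingCoeff⁻¹, monic_mul_leadingCoeff_inv hg0, hassoc.irreducible hprime.irreducible, ?_⟩
  exact Ideal.span_singleton_eq_span_singleton.2 hassoc

include F in
/-- A non-zero semisimple module has a simple summand. -/
theorem exists_decomp [IsSemisimpleModule F[X] M] [Nontrivial M] : ∃ (P : F[X]) (S T : Submodule F[X] M), P.Monic ∧ Irreducible P ∧ IsCompl S T ∧
    Nonempty (S ≃ₗ[F[X]] (F[X] ⧸ Ideal.span {P})) := by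
  obtain ⟨S, hS⟩ := IsSemisimpleModule.exists_simple_submodule F[X] M
  obtain ⟨T, hc⟩ := exists_isCompl S
  obtain ⟨I, hI, ⟨e⟩⟩ := isSimpleModule_iff_quot_maximal.1 hS
  obtain ⟨P, hm, hi, rfl⟩ := maximal_eq_span I hI
  exact ⟨P, S, T, hm, hi, hc, ⟨e⟩⟩

theorem charp_of_compl {S T : Submodule F[X] M} (hc : IsCompl S T) :
    charp (F := F) M = charp (F := F) S * charp (F := F) T := by
  rw [← charp_prod]
  exact (charp_congr (Submodule.prodEquivOfIsCompl S T hc)).symm

theorem charp_eq_one_of_subsingleton [Subsingleton M] : charp (F := F) M = 1 := by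
  apply (Polynomial.Monic.natDegree_eq_zero (charp_monic (F := F) M)).1
  rw [charp_natDegree]
  exact finrank_zero_of_subsingleton

/-- An irreducible factor of the characteristic polynomial gives a simple submodule. -/
theorem exists_sub_of_dvd {P : F[X]} (hm : P.Monic) (hi : Irreducible P) : ∀ (d : ℕ) (M : Type u) [AddCommGroup M] [Module F M]
    [Module F[X] M] [IsScalarTower F F[X] M] [Finite M] [IsSemisimpleModule F[X] M],
    (charp (F := F) M).natDegree = d → P ∣ charp (F := F) M →
      ∃ S : Submodule F[X] M, Nonempty (S ≃ₗ[F[X]] (F[X] ⧸ Ideal.span {P})) := by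
  intro d
  induction d using Nat.strong_induction_on with
  | _ d ih =>
    intro M _ _ _ _ _ _ hd hdvd
    by_cases hnt : Nontrivial M
    · obtain ⟨P₀, S, T, hm₀, hi₀, hc, ⟨e⟩⟩ := exists_decomp (F := F) (M := M)
      haveI : Finite (F[X] ⧸ Ideal.span {P₀}) := finite_quot hm₀
      have hcp : charp (F := F) M = P₀ * charp (F := F) T := by
        rw [charp_of_compl hc, charp_congr e, charp_adjoin hm₀]
      rw [hcp] at hdvd
      rcases hi.prime.dvd_or_dvd hdvd with h | h
      · have h3 : P = P₀ := Polynomial.eq_of_monic_of_associated hm hm₀ ((hi.dvd_irreducible_iff_associated hi₀).1 h)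
        subst h3
        exact ⟨S, ⟨e⟩⟩
      · have hdeg : (charp (F := F) T).natDegree < d := by
          rw [← hd, hcp, natDegree_mul hm₀.ne_zero (charp_monic (F := F) T).ne_zero]
          have := hi₀.natDegree_pos
          omega
        obtain ⟨S₁, ⟨e₁⟩⟩ := ih _ hdeg T rfl h
        exact ⟨S₁.map T.subtype, ⟨(Submodule.equivMapOfInjective T.subtype (Submodule.injective_subtype T) S₁).symm.trans e₁⟩⟩
    · exfalso
      haveI : Subsingleton M := not_nontrivial_iff_subsingleton.1 hnt
      rw [charp_eq_one_of_subsingleton] at hdvd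
      exact hi.not_isUnit (isUnit_of_dvd_one hdvd)

/-- Semisimple modules are determined by the characteristic polynomial. -/
theorem iso_of_charp : ∀ (d : ℕ) (M M' : Type u) [AddCommGroup M] [Module F M]
    [Module F[X] M] [IsScalarTower F F[X] M] [Finite M] [IsSemisimpleModule F[X] M]
    [AddCommGroup M'] [Module F M'] [Module F[X] M'] [IsScalarTower F F[X] M'] [Finite M'] [IsSemisimpleModule F[X] M'],
    (charp (F := F) M).natDegree = d → charp (F := F) M = charp (F := F) M' → Nonempty (M ≃ₗ[F[X]] M') := by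
  intro d
  induction d using Nat.strong_induction_on with
  | _ d ih =>
    intro M M' _ _ _ _ _ _ _ _ _ _ _ _ hd heq
    by_cases hnt : Nontrivial M
    · obtain ⟨P, S, T, hm, hi, hc, ⟨e⟩⟩ := exists_decomp (F := F) (M := M)
      haveI : Finite (F[X] ⧸ Ideal.span {P}) := finite_quot hm
      have hcp : charp (F := F) M = P * charp (F := F) T := by
        rw [charp_of_compl hc, charp_congr e, charp_adjoin hm]
      obtain ⟨S', ⟨e'⟩⟩ := exists_sub_of_dvd (F := F) hm hi _ M' rfl (by rw [← heq, hcp]; exact dvd_mul_right _ _)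
      obtain ⟨T', hc'⟩ := exists_isCompl S'
      have hcp' : charp (F := F) M' = P * charp (F := F) T' := by
        rw [charp_of_compl hc', charp_congr e', charp_adjoin hm]
      have hTT : charp (F := F) T = charp (F := F) T' := by
        apply mul_left_cancel₀ hm.ne_zero
        rw [← hcp, ← hcp', heq]
      have hdeg : (charp (F := F) T).natDegree < d := by
        rw [← hd, hcp, natDegree_mul hm.ne_zero (charp_monic (F := F) T).ne_zero]
        have := hi.natDegree_pos
        omega
      obtain ⟨e₁⟩ := ih _ hdeg T T' rfl hTT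
      exact ⟨(Submodule.prodEquivOfIsCompl S T hc).symm.trans ((e.prodCongr e₁).trans
        ((e'.symm.prodCongr (LinearEquiv.refl _ _)).trans (Submodule.prodEquivOfIsCompl S' T' hc')))⟩
    · haveI : Subsingleton M := not_nontrivial_iff_subsingleton.1 hnt
      have h1 : charp (F := F) M' = 1 := by
        rw [← heq, charp_eq_one_of_subsingleton]
      have h3 : Module.finrank F M' = 0 := by
        rw [← charp_natDegree (F := F) M', h1, natDegree_one]
      haveI : Subsingleton M' := Module.finrank_zero_iff.1 h3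
      exact ⟨LinearEquiv.ofSubsingleton _ _⟩

end Modules

section Elements

instance instFiniteAEvalGL {F M : Type*} [Field F] [AddCommGroup M] [Module F M] [Finite M] (L : Module.End F M) :
    Finite (AEval' L) := Finite.of_equiv _ (AEval'.of L).toEquiv

variable {F : Type u} [Field F] [Fintype F] {p : ℕ} [Fact p.Prime] [CharP F p] {n : ℕ}

/-- Semisimple elements of `GL` with the same characteristic polynomial are conjugate. -/
theorem conj_of_charpoly (x y : GL (Fin n) F) (hx : (orderOf x).Coprime p) (hy : (orderOf y).Coprime p)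
    (h : (x : Matrix (Fin n) (Fin n) F).charpoly = (y : Matrix (Fin n) (Fin n) F).charpoly) : IsConj x y := by
  classical
  have key : ∀ z : GL (Fin n) F, charp (F := F) (AEval' (Matrix.toLin' z.1 : Module.End F (Fin n → F))) =
      (z : Matrix (Fin n) (Fin n) F).charpoly := by
    intro z
    let L : Module.End F (Fin n → F) := Matrix.toLin' z.1
    have h1 : (AEval'.of L).conj L = Xact (F := F) (AEval' L) := by
      apply LinearMap.ext
      intro m
      show (AEval'.of L) (L ((AEval'.of L).symm m)) = (X : F[X]) • m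
      rw [← AEval'.X_smul_of, LinearEquiv.apply_symm_apply]
    show (Xact (F := F) (AEval' L)).charpoly = _
    rw [← h1, LinearEquiv.charpoly_conj]
    exact Matrix.charpoly_toLin' _
  let Lx : Module.End F (Fin n → F) := Matrix.toLin' x.1
  let Ly : Module.End F (Fin n → F) := Matrix.toLin' y.1
  haveI : IsSemisimpleModule F[X] (AEval' Lx) := Cfsg.Agent.Lib.GLSemi.isSemisimple_toLin x hx
  haveI : IsSemisimpleModule F[X] (AEval' Ly) := Cfsg.Agent.Lib.GLSemi.isSemisimple_toLin y hy
  obtain ⟨e⟩ := iso_of_charp (F := F) _ (AEval' Lx) (AEval' Ly) rfl (by rw [key x, key y, h])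
  let φ : (Fin n → F) ≃ₗ[F] (Fin n → F) := ((AEval'.of Lx).trans (e.restrictScalars F)).trans (AEval'.of Ly).symm
  have hcomm : ∀ v, φ (Lx v) = Ly (φ v) := by
    intro v
    show (AEval'.of Ly).symm (e (AEval'.of Lx (Lx v))) = Ly ((AEval'.of Ly).symm (e (AEval'.of Lx v)))
    rw [← AEval'.X_smul_of, map_smul, AEval'.of_symm_X_smul]
  let c : GL (Fin n) F :=
    ⟨LinearMap.toMatrix' φ.toLinearMap, LinearMap.toMatrix' φ.symm.toLinearMap, by
      rw [← LinearMap.toMatrix'_comp]
      simp, by
      rw [← LinearMap.toMatrix'_comp]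
      simp⟩
  rw [isConj_iff]
  refine ⟨c, ?_⟩
  rw [mul_inv_eq_iff_eq_mul]
  apply Units.ext
  apply Matrix.toLin'.injective
  show Matrix.toLin' (LinearMap.toMatrix' φ.toLinearMap * x.1) = Matrix.toLin' (y.1 * LinearMap.toMatrix' φ.toLinearMap)
  rw [Matrix.toLin'_mul, Matrix.toLin'_mul, Matrix.toLin'_toMatrix']
  apply LinearMap.ext
  exact hcomm

theorem smul_pow_eq {R M : Type*} [Semiring R] [AddCommMonoid M] [Module R M] {a : R} (h : ∀ m : M, a • m = m) (k : ℕ)
    (m : M) : a ^ k • m = m := by
  induction k with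
  | zero => simp
  | succ k ih => rw [pow_succ, mul_smul, h, ih]

/-- A module with a given characteristic polynomial on which the variable has order prime to `p`. -/
theorem exists_model : ∀ (d : ℕ) (f : F[X]), f.Monic → f.natDegree = d → f.coeff 0 ≠ 0 →
    ∃ (M : Type u) (_ : AddCommGroup M) (_ : Module F M) (_ : Module F[X] M) (_ : IsScalarTower F F[X] M) (_ : Finite M) (N : ℕ),
      charp (F := F) M = f ∧ N.Coprime p ∧ ∀ m : M, ((X : F[X]) ^ N) • m = m := by
  intro d
  induction d using Nat.strong_induction_on with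
  | _ d ih =>
    intro f hf hd h0
    by_cases hd0 : d = 0
    · subst hd0
      have h1 : f = 1 := (Polynomial.Monic.natDegree_eq_zero hf).1 hd
      refine ⟨PUnit, inferInstance, inferInstance, inferInstance, inferInstance, inferInstance, 1, ?_, Nat.coprime_one_left p, fun m => rfl⟩
      rw [h1]
      exact charp_eq_one_of_subsingleton
    · have hnu : ¬ IsUnit f := by
        intro hu
        have := natDegree_eq_zero_of_isUnit hu
        omega
      obtain ⟨P, hm, hi, f₁, rfl⟩ := exists_monic_irreducible_factor f hnu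
      have hf₁ : f₁.Monic := hm.of_mul_monic_left hf
      have hdeg : f₁.natDegree < d := by
        rw [← hd, natDegree_mul hm.ne_zero hf₁.ne_zero]
        have := hi.natDegree_pos
        omega
      rw [mul_coeff_zero] at h0
      obtain ⟨M₁, _, _, _, _, _, N₁, hc, hN, hact⟩ := ih _ hdeg f₁ hf₁ rfl (right_ne_zero_of_mul h0)
      haveI : Finite (F[X] ⧸ Ideal.span {P}) := finite_quot hm
      haveI : Fact (Irreducible P) := ⟨hi⟩
      haveI : Finite (AdjoinRoot P) := inferInstanceAs (Finite (F[X] ⧸ Ideal.span {P}))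
      letI : Fintype (AdjoinRoot P) := Fintype.ofFinite _
      have hr0 : AdjoinRoot.root P ≠ 0 := by
        rw [← AdjoinRoot.mk_X, Ne, AdjoinRoot.mk_eq_zero]
        intro hdvd
        have h3 : Associated P X := (hi.dvd_irreducible_iff_associated irreducible_X).1 hdvd
        have h4 : P = X := Polynomial.eq_of_monic_of_associated hm monic_X h3
        apply left_ne_zero_of_mul h0
        rw [h4, coeff_X_zero]
      have hrpow := FiniteField.pow_card_sub_one_eq_one (AdjoinRoot.root P) hr0
      haveI : CharP (AdjoinRoot P) p := charP_of_injective_algebraMap (algebraMap F (AdjoinRoot P)).injective p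
      have hdvd : p ∣ Fintype.card (AdjoinRoot P) := by
        rw [← CharP.cast_eq_zero_iff (AdjoinRoot P) p]
        exact FiniteField.cast_card_eq_zero _
      have hcop : (Fintype.card (AdjoinRoot P) - 1).Coprime p := by
        apply Nat.Coprime.symm
        rw [(Fact.out : p.Prime).coprime_iff_not_dvd]
        intro h3
        have h4 : 0 < Fintype.card (AdjoinRoot P) := Fintype.card_pos
        have h5 := (Nat.dvd_sub hdvd h3)
        have h6 : Fintype.card (AdjoinRoot P) - (Fintype.card (AdjoinRoot P) - 1) = 1 := by omega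
        rw [h6] at h5
        exact (Fact.out : p.Prime).one_lt.ne' (Nat.dvd_one.1 h5)
      refine ⟨(F[X] ⧸ Ideal.span {P}) × M₁, inferInstance, inferInstance, inferInstance, inferInstance, inferInstance,
        (Fintype.card (AdjoinRoot P) - 1) * N₁, ?_, Nat.Coprime.mul_left hcop hN, ?_⟩
      · rw [charp_prod, charp_adjoin hm, hc]
      · rintro ⟨a, b⟩
        refine Prod.ext ?_ ?_
        · show ((X : F[X]) ^ ((Fintype.card (AdjoinRoot P) - 1) * N₁)) • a = a
          have h5 : ((X : F[X]) ^ (Fintype.card (AdjoinRoot P) - 1)) • a = a := by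
            obtain ⟨g, rfl⟩ := Ideal.Quotient.mk_surjective a
            have h6 : (AdjoinRoot.mk P ((X : F[X]) ^ (Fintype.card (AdjoinRoot P) - 1))) = 1 := by
              rw [map_pow, AdjoinRoot.mk_X]
              exact hrpow
            have h7 : (((X : F[X]) ^ (Fintype.card (AdjoinRoot P) - 1)) • (Ideal.Quotient.mk (Ideal.span {P}) g)) =
                (AdjoinRoot.mk P ((X : F[X]) ^ (Fintype.card (AdjoinRoot P) - 1))) * (AdjoinRoot.mk P g) := rfl
            rw [h7, h6, one_mul]
            rfl
          rw [pow_mul]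
          exact smul_pow_eq (fun m => by
            obtain ⟨g, rfl⟩ := Ideal.Quotient.mk_surjective m
            have h6 : (AdjoinRoot.mk P ((X : F[X]) ^ (Fintype.card (AdjoinRoot P) - 1))) = 1 := by
              rw [map_pow, AdjoinRoot.mk_X]
              exact hrpow
            have h7 : (((X : F[X]) ^ (Fintype.card (AdjoinRoot P) - 1)) • (Ideal.Quotient.mk (Ideal.span {P}) g)) =
                (AdjoinRoot.mk P ((X : F[X]) ^ (Fintype.card (AdjoinRoot P) - 1))) * (AdjoinRoot.mk P g) := rfl
            rw [h7, h6, one_mul]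
            rfl) N₁ a
        · show ((X : F[X]) ^ ((Fintype.card (AdjoinRoot P) - 1) * N₁)) • b = b
          rw [mul_comm, pow_mul]
          exact smul_pow_eq hact _ b

/-- Every monic polynomial with non-zero constant term is the characteristic polynomial of a semisimple element. -/
theorem exists_element (f : F[X]) (hf : f.Monic) (hd : f.natDegree = n) (h0 : f.coeff 0 ≠ 0) :
    ∃ x : GL (Fin n) F, (x : Matrix (Fin n) (Fin n) F).charpoly = f ∧ (orderOf x).Coprime p := by
  classical
  obtain ⟨M, _, _, _, _, _, N, hc, hN, hact⟩ := exists_model (p := p) _ f hf rfl h0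
  have hfin : Module.finrank F M = n := by
    rw [← charp_natDegree (F := F) M, hc, hd]
  let φ : M ≃ₗ[F] (Fin n → F) := LinearEquiv.ofFinrankEq _ _ (by rw [hfin, Module.finrank_fin_fun])
  let L : Module.End F (Fin n → F) := φ.conj (Xact (F := F) M)
  have hL : L.charpoly = f := by
    rw [← hc]
    exact LinearEquiv.charpoly_conj φ _
  let A : Matrix (Fin n) (Fin n) F := LinearMap.toMatrix' L
  have hA : A.charpoly = f := by
    rw [← Matrix.charpoly_toLin', Matrix.toLin'_toMatrix']
    exact hL
  have hLpow : ∀ k : ℕ, ∀ v, (L ^ k) v = φ (((X : F[X]) ^ k) • φ.symm v) := by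
    intro k
    induction k with
    | zero =>
      intro v
      simp
    | succ k ih =>
      intro v
      rw [pow_succ, Module.End.mul_apply, ih]
      have : L v = φ ((X : F[X]) • φ.symm v) := rfl
      rw [this, LinearEquiv.symm_apply_apply, pow_succ, mul_smul]
  have hLN : L ^ N = 1 := by
    apply LinearMap.ext
    intro v
    rw [hLpow, hact, LinearEquiv.apply_symm_apply]
    rfl
  have hApow : ∀ k : ℕ, A ^ k = LinearMap.toMatrix' (L ^ k) := by
    intro k
    induction k with
    | zero => simp
    | succ k ih =>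
      rw [pow_succ, pow_succ, ih]
      exact (LinearMap.toMatrix'_mul _ _).symm
  have hAN : A ^ N = 1 := by
    rw [hApow, hLN]
    exact LinearMap.toMatrix'_one
  have hN0 : N ≠ 0 := by
    rintro rfl
    have h3 : Nat.gcd 0 p = 1 := hN
    rw [Nat.gcd_zero_left] at h3
    exact (Fact.out : p.Prime).one_lt.ne' h3
  let x : GL (Fin n) F := ⟨A, A ^ (N - 1), by
      rw [← pow_succ', Nat.sub_add_cancel (Nat.pos_of_ne_zero hN0), hAN], by
      rw [← pow_succ, Nat.sub_add_cancel (Nat.pos_of_ne_zero hN0), hAN]⟩
  refine ⟨x, hA, ?_⟩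
  have hxN : x ^ N = 1 := by
    apply Units.ext
    show A ^ N = 1
    exact hAN
  exact Nat.Coprime.coprime_dvd_left (orderOf_dvd_of_pow_eq_one hxN) hN

end Elements

section Count

variable {F : Type u} [Field F] [Fintype F]

/-- Counting monic polynomials with a condition on the constant term. -/
theorem card_monic (k : ℕ) (C' : F → Prop) :
    Nat.card {f : F[X] // f.Monic ∧ f.natDegree = k + 1 ∧ C' (f.coeff 0)} =
      Nat.card {c : F // C' c} * Fintype.card F ^ k := by
  classical
  have h1 : Nat.card {f : F[X] // f.Monic ∧ f.natDegree = k + 1 ∧ C' (f.coeff 0)} =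
      Nat.card ({c : F // C' c} × (Fin k → F)) := by
    refine Nat.card_congr (Equiv.ofBijective (fun f => (⟨f.1.coeff 0, f.2.2.2⟩, fun i => f.1.coeff ((i : ℕ) + 1))) ⟨?_, ?_⟩)
    · rintro ⟨f, hf, hd, hC⟩ ⟨g, hg, hd', hC'⟩ h
      apply Subtype.ext
      show f = g
      have h2 : f.coeff 0 = g.coeff 0 := congrArg Subtype.val (congrArg Prod.fst h)
      have h3 : ∀ i : Fin k, f.coeff ((i : ℕ) + 1) = g.coeff ((i : ℕ) + 1) := fun i => congrFun (congrArg Prod.snd h) i
      ext j
      rcases Nat.lt_trichotomy j (k + 1) with hj | hj | hj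
      · rcases j with _ | j
        · exact h2
        · exact h3 ⟨j, by omega⟩
      · subst hj
        have := hf.coeff_natDegree
        have h5 := hg.coeff_natDegree
        rw [hd] at this
        rw [hd'] at h5
        rw [this, h5]
      · rw [coeff_eq_zero_of_natDegree_lt (by omega), coeff_eq_zero_of_natDegree_lt (by omega)]
    · rintro ⟨⟨c, hc⟩, a⟩
      let b : Fin (k + 1) → F := Fin.cons c a
      let g : degreeLT F (k + 1) := (degreeLTEquiv F (k + 1)).symm b
      have hg : ∀ i : Fin (k + 1), (g : F[X]).coeff i = b i := by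
        intro i
        have := congrFun ((degreeLTEquiv F (k + 1)).apply_symm_apply b) i
        exact this
      have hdeg : (g : F[X]).degree < ((k + 1 : ℕ) : WithBot ℕ) := mem_degreeLT.1 g.2
      have hcoeff0 : (X ^ (k + 1) + (g : F[X])).coeff 0 = c := by
        rw [coeff_add, coeff_X_pow, if_neg (by omega), zero_add]
        exact hg 0
      have hdg : (X ^ (k + 1) + (g : F[X])).degree = ((k + 1 : ℕ) : WithBot ℕ) := by
        rw [degree_add_eq_left_of_degree_lt (by rw [degree_X_pow]; exact hdeg), degree_X_pow]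
      refine ⟨⟨X ^ (k + 1) + (g : F[X]), monic_X_pow_add hdeg, natDegree_eq_of_degree_eq_some hdg, by rw [hcoeff0]; exact hc⟩, ?_⟩
      refine Prod.ext (Subtype.ext hcoeff0) ?_
      funext i
      show (X ^ (k + 1) + (g : F[X])).coeff ((i : ℕ) + 1) = a i
      rw [coeff_add, coeff_X_pow, if_neg (by omega), zero_add]
      exact hg i.succ
  rw [h1, Nat.card_prod, Nat.card_fun]
  simp [Nat.card_eq_fintype_card]

end Count

section Classes

variable {F : Type u} [Field F] [Fintype F] {p : ℕ} [Fact p.Prime] [CharP F p] {n : ℕ}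

theorem toGL_injective' : Function.Injective (Matrix.SpecialLinearGroup.toGL : Matrix.SpecialLinearGroup (Fin n) F →* GL (Fin n) F) := by
  intro a b h
  apply Subtype.ext
  exact congrArg Units.val h

theorem orderOf_toGL (g : Matrix.SpecialLinearGroup (Fin n) F) :
    orderOf (Matrix.SpecialLinearGroup.toGL g : GL (Fin n) F) = orderOf g :=
  orderOf_injective _ toGL_injective' g

/-- Semisimple elements of `SL` with the same characteristic polynomial are conjugate in `SL`. -/
theorem sl_conj (g h : Matrix.SpecialLinearGroup (Fin n) F) (hg : (orderOf g).Coprime p) (hh : (orderOf h).Coprime p)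
    (hc : (g : Matrix (Fin n) (Fin n) F).charpoly = (h : Matrix (Fin n) (Fin n) F).charpoly) : IsConj g h := by
  let g' : GL (Fin n) F := Matrix.SpecialLinearGroup.toGL g
  let h' : GL (Fin n) F := Matrix.SpecialLinearGroup.toGL h
  have hg' : (orderOf g').Coprime p := by rw [orderOf_toGL]; exact hg
  have hh' : (orderOf h').Coprime p := by rw [orderOf_toGL]; exact hh
  obtain ⟨c, hc'⟩ := isConj_iff.1 (conj_of_charpoly (p := p) g' h' hg' hh' hc)
  obtain ⟨t, ht, ht'⟩ := Cfsg.Agent.Lib.GLSemi.exists_det_one_conj g' c hg'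
  rw [isConj_iff]
  obtain ⟨s, hs⟩ : ∃ s : Matrix.SpecialLinearGroup (Fin n) F, (Matrix.SpecialLinearGroup.toGL s : GL (Fin n) F) = t :=
    ⟨⟨t.1, ht⟩, Units.ext rfl⟩
  refine ⟨s, ?_⟩
  apply toGL_injective'
  rw [map_mul, map_mul, map_inv, hs]
  show t * g' * t⁻¹ = h'
  rw [ht', hc']

theorem charpoly_coeff_zero (g : GL (Fin n) F) :
    (g : Matrix (Fin n) (Fin n) F).charpoly.coeff 0 ≠ 0 := by
  intro h0
  have h1 := Matrix.det_eq_sign_charpoly_coeff (g : Matrix (Fin n) (Fin n) F)
  rw [h0, mul_zero] at h1
  have := g.isUnit.map (Matrix.detMonoidHom)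
  exact this.ne_zero h1

/-- Semisimple classes of `GL` correspond to polynomials. -/
theorem card_classes_GL : Nat.card {c : ConjClasses (GL (Fin n) F) // ∃ g : GL (Fin n) F, ConjClasses.mk g = c ∧ (orderOf g).Coprime p} =
    Nat.card {f : F[X] // f.Monic ∧ f.natDegree = n ∧ f.coeff 0 ≠ 0} := by
  classical
  have hex : ∀ f : {f : F[X] // f.Monic ∧ f.natDegree = n ∧ f.coeff 0 ≠ 0}, ∃ x : GL (Fin n) F,
      (x : Matrix (Fin n) (Fin n) F).charpoly = f.1 ∧ (orderOf x).Coprime p :=
    fun f => exists_element (p := p) f.1 f.2.1 f.2.2.1 f.2.2.2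
  choose x hx1 hx2 using hex
  symm
  refine Nat.card_congr (Equiv.ofBijective (fun f => ⟨ConjClasses.mk (x f), x f, rfl, hx2 f⟩) ⟨?_, ?_⟩)
  · intro f f' h
    have h1 : ConjClasses.mk (x f) = ConjClasses.mk (x f') := congrArg Subtype.val h
    obtain ⟨c, hc⟩ := isConj_iff.1 (ConjClasses.mk_eq_mk_iff_isConj.1 h1)
    apply Subtype.ext
    rw [← hx1 f, ← hx1 f', ← hc]
    have := Matrix.charpoly_units_conj (c : (Matrix (Fin n) (Fin n) F)ˣ) (x f : Matrix (Fin n) (Fin n) F)
    rw [Units.val_mul, Units.val_mul, Matrix.coe_units_inv]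
    exact this.symm
  · rintro ⟨c, g, rfl, hg⟩
    refine ⟨⟨(g : Matrix (Fin n) (Fin n) F).charpoly, Matrix.charpoly_monic _, by
      rw [Matrix.charpoly_natDegree_eq_dim, Fintype.card_fin], charpoly_coeff_zero g⟩, ?_⟩
    apply Subtype.ext
    exact ConjClasses.mk_eq_mk_iff_isConj.2 (conj_of_charpoly (p := p) _ _ (hx2 _) hg (hx1 _))

/-- Semisimple classes of `SL` correspond to polynomials. -/
theorem card_classes_SL : Nat.card {c : ConjClasses (Matrix.SpecialLinearGroup (Fin n) F) //
      ∃ g : Matrix.SpecialLinearGroup (Fin n) F, ConjClasses.mk g = c ∧ (orderOf g).Coprime p} =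
    Nat.card {f : F[X] // f.Monic ∧ f.natDegree = n ∧ f.coeff 0 = (-1) ^ n} := by
  classical
  have hsq : ((-1 : F) ^ n) * ((-1 : F) ^ n) = 1 := by
    rw [← mul_pow]
    simp
  have hex : ∀ f : {f : F[X] // f.Monic ∧ f.natDegree = n ∧ f.coeff 0 = (-1) ^ n}, ∃ x : Matrix.SpecialLinearGroup (Fin n) F,
      (x : Matrix (Fin n) (Fin n) F).charpoly = f.1 ∧ (orderOf x).Coprime p := by
    intro f
    have h0 : f.1.coeff 0 ≠ 0 := by
      rw [f.2.2.2]
      exact pow_ne_zero _ (by simp)
    obtain ⟨g, hg, hg'⟩ := exists_element (p := p) f.1 f.2.1 f.2.2.1 h0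
    have hdet : (g : Matrix (Fin n) (Fin n) F).det = 1 := by
      rw [Matrix.det_eq_sign_charpoly_coeff, hg, f.2.2.2, Fintype.card_fin, hsq]
    obtain ⟨s, hs⟩ : ∃ s : Matrix.SpecialLinearGroup (Fin n) F, (Matrix.SpecialLinearGroup.toGL s : GL (Fin n) F) = g :=
      ⟨⟨g.1, hdet⟩, Units.ext rfl⟩
    refine ⟨s, ?_, ?_⟩
    · have h7 : (s : Matrix (Fin n) (Fin n) F) = ((Matrix.SpecialLinearGroup.toGL s : GL (Fin n) F) : Matrix (Fin n) (Fin n) F) := rfl
      rw [h7, hs]
      exact hg
    · rw [← orderOf_toGL, hs]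
      exact hg'
  choose x hx1 hx2 using hex
  symm
  refine Nat.card_congr (Equiv.ofBijective (fun f => ⟨ConjClasses.mk (x f), x f, rfl, hx2 f⟩) ⟨?_, ?_⟩)
  · intro f f' h
    have h1 : ConjClasses.mk (x f) = ConjClasses.mk (x f') := congrArg Subtype.val h
    obtain ⟨c, hc⟩ := isConj_iff.1 (ConjClasses.mk_eq_mk_iff_isConj.1 h1)
    apply Subtype.ext
    rw [← hx1 f, ← hx1 f', ← hc]
    have := Matrix.charpoly_units_conj (Matrix.SpecialLinearGroup.toGL c : (Matrix (Fin n) (Fin n) F)ˣ) (x f : Matrix (Fin n) (Fin n) F)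
    have h6 : (Matrix.SpecialLinearGroup.toGL (c * x f * c⁻¹) : GL (Fin n) F) =
        Matrix.SpecialLinearGroup.toGL c * Matrix.SpecialLinearGroup.toGL (x f) * (Matrix.SpecialLinearGroup.toGL c)⁻¹ := by
      rw [map_mul, map_mul, map_inv]
    have h7 : ((c * x f * c⁻¹ : Matrix.SpecialLinearGroup (Fin n) F) : Matrix (Fin n) (Fin n) F) =
        ((Matrix.SpecialLinearGroup.toGL (c * x f * c⁻¹) : GL (Fin n) F) : Matrix (Fin n) (Fin n) F) := rfl
    rw [h7, h6, Units.val_mul, Units.val_mul, Matrix.coe_units_inv]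
    exact this.symm
  · rintro ⟨c, g, rfl, hg⟩
    have hc0 : (g : Matrix (Fin n) (Fin n) F).charpoly.coeff 0 = (-1) ^ n := by
      have h1 := Matrix.det_eq_sign_charpoly_coeff (g : Matrix (Fin n) (Fin n) F)
      rw [g.2, Fintype.card_fin] at h1
      have h3 : ((-1 : F) ^ n) * (1 : F) = (-1) ^ n * ((-1) ^ n * (g : Matrix (Fin n) (Fin n) F).charpoly.coeff 0) := by
        rw [← h1]
      rw [← mul_assoc, hsq, one_mul, mul_one] at h3
      exact h3.symm
    refine ⟨⟨(g : Matrix (Fin n) (Fin n) F).charpoly, Matrix.charpoly_monic _, by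
      rw [Matrix.charpoly_natDegree_eq_dim, Fintype.card_fin], hc0⟩, ?_⟩
    apply Subtype.ext
    exact ConjClasses.mk_eq_mk_iff_isConj.2 (sl_conj (p := p) _ _ (hx2 _) hg (hx1 _))

end Classes

end Cfsg.Agent.Lib.GLClass
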