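import Cfsg.Agent.Lib.GLPrimeOrd
import Cfsg.Agent.Lib.SLn
import Mathlib

/-!
Sylow subgroups of `GL` for large primes.
-/

set_option linter.all false

open scoped MatrixGroups
open Polynomial

noncomputable section

namespace Cfsg.Agent.Lib.GLSylowLarge

open Cfsg.Agent.Lib

section numeric

variable {q r : ℕ} [hr : Fact r.Prime]

theorem not_dvd_of_not_order (hq : 2 ≤ q) {i : ℕ} (hi : ¬ orderOf (q : ZMod r) ∣ i) : ¬ r ∣ q ^ i - 1 := by
  intro h
  apply hi
  apply orderOf_dvd_of_pow_eq_one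
  have h1 : 1 ≤ q ^ i := Nat.one_le_pow _ _ (by omega)
  have h2 := (ZMod.natCast_eq_zero_iff (q ^ i - 1) r).2 h
  rw [Nat.cast_sub h1, Nat.cast_pow, Nat.cast_one, sub_eq_zero] at h2
  exact h2

theorem order_pos' (hrq : ¬ r ∣ q) : 0 < orderOf (q : ZMod r) := by
  have hne : (q : ZMod r) ≠ 0 := by
    rwa [Ne, ZMod.natCast_eq_zero_iff]
  have h := orderOf_dvd_of_pow_eq_one (ZMod.pow_card_sub_one_eq_one hne)
  apply Nat.pos_of_dvd_of_pos h
  have := (Fact.out : r.Prime).two_le
  omega

theorem val_multiple (hq : 2 ≤ q) (hrq : ¬ r ∣ q) {j : ℕ} (hj1 : 1 ≤ j) (hjr : j < r) :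
    padicValNat r (q ^ (orderOf (q : ZMod r) * j) - 1) = padicValNat r (q ^ orderOf (q : ZMod r) - 1) := by
  set d := orderOf (q : ZMod r) with hd
  have hdpos : 0 < d := order_pos' hrq
  set Q := q ^ d with hQ
  have hQ2 : 2 ≤ Q := le_trans hq (Nat.le_self_pow hdpos.ne' q)
  have hgeom := geom_sum_mul_add (Q - 1) j
  have hQ1 : Q - 1 + 1 = Q := by omega
  rw [hQ1] at hgeom
  set S := ∑ i ∈ Finset.range j, Q ^ i with hS
  have h1 : q ^ (d * j) - 1 = S * (Q - 1) := by
    rw [pow_mul, ← hQ, ← hgeom]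
    simp
  have hSmod : ((S : ℕ) : ZMod r) = j := by
    have h2 : ((Q : ℕ) : ZMod r) = 1 := by
      rw [hQ, Nat.cast_pow, hd]
      exact pow_orderOf_eq_one _
    rw [hS, Nat.cast_sum]
    simp [h2]
  have hSr : ¬ r ∣ S := by
    rw [← ZMod.natCast_eq_zero_iff, hSmod, ZMod.natCast_eq_zero_iff]
    exact Nat.not_dvd_of_pos_of_lt (by omega) hjr
  have hS0 : S ≠ 0 := by
    intro h
    rw [h] at hSr
    exact hSr (dvd_zero _)
  rw [h1, padicValNat.mul hS0 (by omega), padicValNat.eq_zero_of_not_dvd hSr, zero_add]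

theorem val_cyclotomic (hq : 2 ≤ q) (hrq : ¬ r ∣ q) :
    padicValNat r ((cyclotomic (orderOf (q : ZMod r)) ℤ).eval (q : ℤ)).natAbs =
      padicValNat r (q ^ orderOf (q : ZMod r) - 1) := by
  set d := orderOf (q : ZMod r) with hd
  have hdpos : 0 < d := order_pos' hrq
  have hrp : r.Prime := Fact.out
  have h1 := prod_cyclotomic_eq_X_pow_sub_one hdpos ℤ
  have h2 := congrArg (eval (q : ℤ)) h1
  rw [eval_prod] at h2
  have hd_mem : d ∈ d.divisors := Nat.mem_divisors_self d hdpos.ne'
  rw [← Finset.mul_prod_erase _ _ hd_mem] at h2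
  simp only [eval_sub, eval_pow, eval_X, eval_one] at h2
  set A := (cyclotomic d ℤ).eval (q : ℤ) with hA
  set W := ∏ e ∈ d.divisors.erase d, (cyclotomic e ℤ).eval (q : ℤ) with hW
  have hq1 : 1 ≤ q ^ d := Nat.one_le_pow _ _ (by omega)
  have hQ2 : 2 ≤ q ^ d := le_trans hq (Nat.le_self_pow hdpos.ne' q)
  have h3 : (A * W).natAbs = q ^ d - 1 := by
    rw [h2]
    have h4 : ((q : ℤ) ^ d - 1) = ((q ^ d - 1 : ℕ) : ℤ) := by
      push_cast [Nat.cast_sub hq1]
      ring
    rw [h4, Int.natAbs_natCast]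
  have hWr : ¬ (r : ℤ) ∣ W := by
    intro h
    obtain ⟨e, he, hre⟩ := (Prime.dvd_finset_prod_iff (Nat.prime_iff_prime_int.1 hrp) _).1 h
    obtain ⟨hed, hed2⟩ := Finset.mem_erase.1 he
    have hediv := Nat.dvd_of_mem_divisors hed2
    have h4 : (cyclotomic e ℤ).eval (q : ℤ) ∣ (q : ℤ) ^ e - 1 := by
      have := eval_dvd (cyclotomic.dvd_X_pow_sub_one e ℤ) (x := (q : ℤ))
      simpa using this
    have h5 : (r : ℤ) ∣ (q : ℤ) ^ e - 1 := hre.trans h4
    have h6 : ((q : ℕ) : ZMod r) ^ e = 1 := by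
      have := (ZMod.intCast_zmod_eq_zero_iff_dvd _ r).2 h5
      push_cast at this
      exact sub_eq_zero.1 this
    have h7 : d ∣ e := orderOf_dvd_of_pow_eq_one h6
    exact hed (Nat.dvd_antisymm hediv h7)
  have hprod0 : A * W ≠ 0 := by
    intro h
    rw [h] at h3
    simp at h3
    omega
  have hA0 : A.natAbs ≠ 0 := Int.natAbs_ne_zero.2 (left_ne_zero_of_mul hprod0)
  have hW0 : W.natAbs ≠ 0 := Int.natAbs_ne_zero.2 (right_ne_zero_of_mul hprod0)
  rw [← h3, Int.natAbs_mul, padicValNat.mul hA0 hW0,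
    padicValNat.eq_zero_of_not_dvd (fun h => hWr (Int.natCast_dvd.2 h)), add_zero]

theorem val_general {n : ℕ} (hq : 2 ≤ q) (hrq : ¬ r ∣ q) (hrn : n < r) {i : ℕ} (hi1 : 1 ≤ i) (hin : i ≤ n) :
    padicValNat r (q ^ i - 1) = if orderOf (q : ZMod r) ∣ i then
      padicValNat r (q ^ orderOf (q : ZMod r) - 1) else 0 := by
  split_ifs with h
  · obtain ⟨j, rfl⟩ := h
    have hdpos := order_pos' (q := q) (r := r) hrq
    apply val_multiple hq hrq
    · by_contra h0
      have : j = 0 := by omega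
      subst this
      omega
    · have : j ≤ orderOf (q : ZMod r) * j := Nat.le_mul_of_pos_left j hdpos
      omega
  · exact padicValNat.eq_zero_of_not_dvd (not_dvd_of_not_order hq h)

/-- Sum of valuations over a range. -/
theorem sum_val {n : ℕ} (hq : 2 ≤ q) (hrq : ¬ r ∣ q) (hrn : n < r) :
    ∑ i : Fin n, padicValNat r (q ^ n - q ^ (i : ℕ)) =
      padicValNat r (q ^ orderOf (q : ZMod r) - 1) * (n / orderOf (q : ZMod r)) := by
  have hq0 : 0 < q := by omega
  have h1 : ∀ i : Fin n, padicValNat r (q ^ n - q ^ (i : ℕ)) = padicValNat r (q ^ (n - i) - 1) := by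
    intro i
    have hi := i.2
    have h2 : q ^ n - q ^ (i : ℕ) = q ^ (i : ℕ) * (q ^ (n - i) - 1) := by
      rw [Nat.mul_sub, mul_one, ← pow_add]
      congr 2
      omega
    have hQ2 : 2 ≤ q ^ (n - (i : ℕ)) := le_trans hq (Nat.le_self_pow (by omega) q)
    have hrp : r.Prime := Fact.out
    rw [h2, padicValNat.mul (pow_ne_zero _ (by omega)) (by omega),
      padicValNat.eq_zero_of_not_dvd (fun h => hrq (hrp.dvd_of_dvd_pow h)), zero_add]
  rw [Finset.sum_congr rfl (fun i _ => h1 i)]
  rw [Fin.sum_univ_eq_sum_range (fun i => padicValNat r (q ^ (n - i) - 1)) n]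
  have h2 : ∑ i ∈ Finset.range n, padicValNat r (q ^ (n - i) - 1) =
      ∑ j ∈ Finset.range n, padicValNat r (q ^ (j + 1) - 1) := by
    rw [← Finset.sum_range_reflect (fun j => padicValNat r (q ^ (j + 1) - 1)) n]
    apply Finset.sum_congr rfl
    intro j hj
    have hj' := Finset.mem_range.1 hj
    congr 3
    omega
  rw [h2]
  have h3 : ∀ j ∈ Finset.range n, padicValNat r (q ^ (j + 1) - 1) =
      if orderOf (q : ZMod r) ∣ j + 1 then padicValNat r (q ^ orderOf (q : ZMod r) - 1) else 0 := by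
    intro j hj
    have hj' := Finset.mem_range.1 hj
    exact val_general (n := n) hq hrq hrn (by omega) (by omega)
  rw [Finset.sum_congr rfl h3, ← Finset.sum_filter, Finset.sum_const, Nat.card_multiples, smul_eq_mul, mul_comm]

end numeric

section constr

variable {F : Type*} [Field F] [Fintype F]

theorem exists_irr {r : ℕ} [hr : Fact r.Prime] (hrF : (r : F) ≠ 0) (hqr : ((Fintype.card F : ℕ) : ZMod r) ≠ 0) :
    ∃ P : F[X], Irreducible P ∧ P.natDegree = orderOf ((Fintype.card F : ℕ) : ZMod r) := by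
  have hrp : r.Prime := Fact.out
  have h1 := mul_geom_sum (X : F[X]) r
  set Y := ∑ i ∈ Finset.range r, (X : F[X]) ^ i with hY
  have hm1 : (X - 1 : F[X]).Monic := by simpa using monic_X_sub_C (1 : F)
  have hbm : (X ^ r - 1 : F[X]).Monic := by
    have := monic_X_pow_sub_C (1 : F) hrp.ne_zero
    rwa [C_1] at this
  have hY0 : Y ≠ 0 := by
    intro h
    rw [h, mul_zero] at h1
    exact hbm.ne_zero h1.symm
  have hdeg : 1 + Y.natDegree = r := by
    have h2 := congrArg natDegree h1
    rw [hm1.natDegree_mul' hY0] at h2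
    have h3 : (X - 1 : F[X]).natDegree = 1 := by simpa using natDegree_X_sub_C (1 : F)
    have h4 : (X ^ r - 1 : F[X]).natDegree = r := by
      have := natDegree_X_pow_sub_C (n := r) (r := (1 : F))
      rwa [C_1] at this
    rw [h3, h4] at h2
    exact h2
  have hne : Y.natDegree ≠ 0 := by
    have := hrp.two_le
    omega
  obtain ⟨P₀, hP₀, hP₀d⟩ := exists_irreducible_of_natDegree_ne_zero hne
  have hlc : P₀.leadingCoeff ≠ 0 := leadingCoeff_ne_zero.2 hP₀.ne_zero
  set P := P₀ * C P₀.leadingCoeff⁻¹ with hP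
  have hPm : P.Monic := monic_mul_leadingCoeff_inv hP₀.ne_zero
  have hunit : IsUnit (C P₀.leadingCoeff⁻¹ : F[X]) := isUnit_C.2 (inv_ne_zero hlc).isUnit
  have hPi : Irreducible P := (irreducible_mul_isUnit hunit).2 hP₀
  have hPd : P ∣ Y := (hunit.mul_right_dvd).2 hP₀d
  have hPb : P ∣ X ^ r - 1 := hPd.trans (Dvd.intro_left _ h1)
  have hne1 : P ≠ X - 1 := by
    intro h
    rw [h] at hPd
    have h2 := eval_dvd hPd (x := (1 : F))
    have h3 : eval (1 : F) (X - 1 : F[X]) = 0 := by simp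
    rw [h3, zero_dvd_iff] at h2
    rw [hY] at h2
    simp [eval_finset_sum] at h2
    exact hrF h2
  exact ⟨P, hPi, GLPrimeOrd.natDegree_factor hrp hqr rfl hPi hPm hPb hne1⟩

/-- Block embedding. -/
theorem exists_embed {K : Type*} [Field K] [Algebra F K] [Finite K] {d : ℕ} (k n : ℕ)
    (hfr : Module.finrank F K = d) (hn : k * d ≤ n) :
    ∃ Ψ : (Fin k → Kˣ) →* GL (Fin n) F, Function.Injective Ψ := by
  classical
  haveI : Module.Finite F K := Module.Finite.of_finite
  let b : Module.Basis (Fin d) F K := Module.finBasisOfFinrankEq F K hfr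
  let L := Algebra.leftMulMatrix b
  have hL : Function.Injective L := Algebra.leftMulMatrix_injective b
  let A := (Fin d × Fin k) ⊕ Fin (n - k * d)
  have hcard : Fintype.card A = n := by
    simp only [A, Fintype.card_sum, Fintype.card_prod, Fintype.card_fin]
    rw [mul_comm d k]
    omega
  let e : A ≃ Fin n := Fintype.equivFinOfCardEq hcard
  let f : (Fin k → Kˣ) →* Matrix (Fin n) (Fin n) F :=
    { toFun := fun a => Matrix.reindex e e
        (Matrix.fromBlocks (Matrix.blockDiagonal (fun j => L (a j))) 0 0 1)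
      map_one' := by
        have h1 : (fun j : Fin k => L (((1 : Fin k → Kˣ) j : Kˣ) : K)) = 1 := by
          funext j
          simp
        rw [h1, Matrix.blockDiagonal_one, Matrix.fromBlocks_one, Matrix.reindex_apply, Matrix.submatrix_one_equiv]
      map_mul' := by
        intro a c
        have h2 : (fun j => L (((a * c) j : Kˣ) : K)) = (fun j => L (a j) * L (c j)) := by
          funext j
          simp [map_mul]
        simp only [Matrix.reindex_apply]
        rw [Matrix.submatrix_mul_equiv, Matrix.fromBlocks_multiply, h2, Matrix.blockDiagonal_mul]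
        simp }
  refine ⟨f.toHomUnits, ?_⟩
  intro a a' h
  have h1 : f a = f a' := by
    have := congrArg Units.val h
    simpa [MonoidHom.coe_toHomUnits] using this
  have h2 := (Matrix.reindex e e).injective h1
  have h3 := (Matrix.fromBlocks_inj.1 h2).1
  have h4 := Matrix.blockDiagonal_injective h3
  funext j
  exact Units.ext (hL (congrFun h4 j))

theorem factorization_card_GL (n r : ℕ) [Fact r.Prime] (hrn : n < r) (hrq : ¬ r ∣ Fintype.card F) :
    (Nat.card (GL (Fin n) F)).factorization r =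
      padicValNat r (Fintype.card F ^ orderOf ((Fintype.card F : ℕ) : ZMod r) - 1) *
        (n / orderOf ((Fintype.card F : ℕ) : ZMod r)) := by
  have hrp : r.Prime := Fact.out
  have hq2 : 2 ≤ Fintype.card F := Fintype.one_lt_card
  rw [Matrix.card_GL_field, Nat.factorization_prod]
  · rw [Finset.sum_apply', ← sum_val hq2 hrq hrn]
    apply Finset.sum_congr rfl
    intro i _
    rw [Nat.factorization_def _ hrp]
  · intro i _
    have := Nat.pow_lt_pow_right hq2 i.2
    omega

/-- The main theorem for `GL`. -/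
theorem sylow_GL {q : ℕ} (hq : Fintype.card F = q) (n r : ℕ) [Fact r.Prime] (hrn : n < r) (hrq : ¬ r ∣ q)
    (P : Sylow r (GL (Fin n) F)) :
    Nonempty (↥(P : Subgroup (GL (Fin n) F)) ≃*
      (Fin (n / orderOf (q : ZMod r)) →
        Multiplicative (ZMod (r ^ padicValNat r ((cyclotomic (orderOf (q : ZMod r)) ℤ).eval (q : ℤ)).natAbs)))) := by
  classical
  subst hq
  have hrp : r.Prime := Fact.out
  have hq2 : 2 ≤ Fintype.card F := Fintype.one_lt_card
  have hdpos : 0 < orderOf ((Fintype.card F : ℕ) : ZMod r) := order_pos' hrq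
  have hν' := val_cyclotomic (q := Fintype.card F) (r := r) hq2 hrq
  have hfact := factorization_card_GL (F := F) n r hrn hrq
  generalize hd : orderOf ((Fintype.card F : ℕ) : ZMod r) = d at *
  rw [← hν'] at hfact
  generalize hνdef : padicValNat r ((cyclotomic d ℤ).eval ((Fintype.card F : ℕ) : ℤ)).natAbs = ν at *
  haveI hN : NeZero (r ^ ν) := ⟨pow_ne_zero _ hrp.ne_zero⟩
  have hqr : ((Fintype.card F : ℕ) : ZMod r) ≠ 0 := by
    rwa [Ne, ZMod.natCast_eq_zero_iff]
  have hrF : (r : F) ≠ 0 := by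
    obtain ⟨p, hp⟩ := CharP.exists F
    intro h
    rw [CharP.cast_eq_zero_iff F p] at h
    haveI := Fact.mk (CharP.char_is_prime F p)
    obtain ⟨k, hp', hk⟩ := FiniteField.card F p
    have h1 : p = r := (Nat.prime_dvd_prime_iff_eq hp' hrp).1 h
    apply hrq
    rw [hk, h1]
    exact dvd_pow_self r k.ne_zero
  obtain ⟨P₀, hP₀, hP₀d⟩ := exists_irr hrF hqr
  rw [hd] at hP₀d
  haveI : Fact (Irreducible P₀) := ⟨hP₀⟩
  haveI : Module.Finite F (AdjoinRoot P₀) := (AdjoinRoot.powerBasis hP₀.ne_zero).finite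
  haveI : Finite (AdjoinRoot P₀) := Module.finite_of_finite F
  letI : Fintype (AdjoinRoot P₀) := Fintype.ofFinite _
  have hfr : Module.finrank F (AdjoinRoot P₀) = d := by
    rw [(AdjoinRoot.powerBasis hP₀.ne_zero).finrank, AdjoinRoot.powerBasis_dim, hP₀d]
  have hcardK : Fintype.card (AdjoinRoot P₀) = Fintype.card F ^ d := by
    rw [Module.card_eq_pow_finrank (K := F), hfr]
  obtain ⟨g, hg⟩ := IsCyclic.exists_ofOrder_eq_natCard (α := (AdjoinRoot P₀)ˣ)
  have hcardU : Nat.card (AdjoinRoot P₀)ˣ = Fintype.card F ^ d - 1 := by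
    rw [Nat.card_eq_fintype_card, Fintype.card_units, hcardK]
  have hdvd : r ^ ν ∣ Fintype.card F ^ d - 1 := by
    rw [hν']
    exact pow_padicValNat_dvd
  obtain ⟨c, hc⟩ := hdvd
  have hQ2 : 2 ≤ Fintype.card F ^ d := le_trans hq2 (Nat.le_self_pow hdpos.ne' _)
  have hc0 : c ≠ 0 := by
    rintro rfl
    omega
  have hζ : orderOf (g ^ c) = r ^ ν := by
    rw [orderOf_pow_of_dvd hc0 ⟨r ^ ν, by rw [hg, hcardU, hc, mul_comm]⟩, hg, hcardU, hc]
    exact Nat.mul_div_cancel _ (Nat.pos_of_ne_zero hc0)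
  have hcardC : Nat.card (Subgroup.zpowers (g ^ c)) = r ^ ν := by
    rw [Nat.card_zpowers, hζ]
  let e₁ : Multiplicative (ZMod (r ^ ν)) ≃* Subgroup.zpowers (g ^ c) :=
    (AddEquiv.toMultiplicative (ZMod.ringEquivCongr hcardC.symm).toAddEquiv).trans
      (zmodCyclicMulEquiv inferInstance)
  let f₁ : Multiplicative (ZMod (r ^ ν)) →* (AdjoinRoot P₀)ˣ :=
    (Subgroup.zpowers (g ^ c)).subtype.comp e₁.toMonoidHom
  have hf₁ : Function.Injective f₁ := (Subgroup.subtype_injective _).comp e₁.injective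
  obtain ⟨Ψ, hΨ⟩ := exists_embed (F := F) (K := AdjoinRoot P₀) (n / d) n hfr (Nat.div_mul_le_self n d)
  let Θ := Ψ.comp (f₁.compLeft (Fin (n / d)))
  have hΘ : Function.Injective Θ := hΨ.comp (Function.Injective.comp_left hf₁)
  have hcardH : Nat.card Θ.range = r ^ (Nat.card (GL (Fin n) F)).factorization r := by
    rw [← Nat.card_congr (MonoidHom.ofInjective hΘ).toEquiv, Nat.card_fun, Nat.card_fin]
    have h1 : Nat.card (Multiplicative (ZMod (r ^ ν))) = r ^ ν := by
      rw [Nat.card_congr Multiplicative.toAdd, Nat.card_zmod]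
    rw [h1, hfact, pow_mul]
  let S : Sylow r (GL (Fin n) F) := Sylow.ofCard Θ.range hcardH
  have e₂ : ↥(S : Subgroup (GL (Fin n) F)) ≃* Θ.range := MulEquiv.refl _
  exact ⟨(P.equiv S).trans (e₂.trans (MonoidHom.ofInjective hΘ).symm)⟩

/-- Monomial embedding into `SL`. -/
def diagHom (m : ℕ) : (Fin m → Fˣ) →* Matrix.SpecialLinearGroup (Fin (m + 1)) F where
  toFun a := ⟨Matrix.diagonal (fun i => ((Fin.cons ((∏ j, a j)⁻¹) a : Fin (m + 1) → Fˣ) i : F)), by
    rw [Matrix.det_diagonal, Fin.prod_univ_succ]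
    simp only [Fin.cons_zero, Fin.cons_succ]
    rw [← Units.coe_prod, ← Units.val_mul, inv_mul_cancel, Units.val_one]⟩
  map_one' := by
    apply Subtype.ext
    show Matrix.diagonal _ = 1
    rw [← Matrix.diagonal_one]
    congr 1
    funext i
    refine Fin.cases ?_ (fun j => ?_) i
    · simp
    · simp
  map_mul' := by
    intro a b
    apply Subtype.ext
    show Matrix.diagonal _ = Matrix.diagonal _ * Matrix.diagonal _
    rw [Matrix.diagonal_mul_diagonal]
    congr 1
    funext i
    refine Fin.cases ?_ (fun j => ?_) i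
    · simp only [Fin.cons_zero, Pi.mul_apply, Finset.prod_mul_distrib, mul_inv, Units.val_mul]
    · simp

theorem diagHom_injective (m : ℕ) : Function.Injective (diagHom (F := F) m) := by
  intro a b h
  funext j
  have h2 : ∀ c : Fin m → Fˣ, ((diagHom (F := F) m c : Matrix.SpecialLinearGroup (Fin (m + 1)) F) :
      Matrix (Fin (m + 1)) (Fin (m + 1)) F) j.succ j.succ = (c j : F) := by
    intro c
    show Matrix.diagonal _ _ _ = _
    rw [Matrix.diagonal_apply_eq]
    simp
  exact Units.ext (by rw [← h2 a, ← h2 b, h])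

/-- The main theorem for `SL`. -/
theorem sylow_SL {q : ℕ} (hq : Fintype.card F = q) (n r : ℕ) [Fact r.Prime] (hrn : n < r) (hrq : ¬ r ∣ q)
    (P : Sylow r (Matrix.SpecialLinearGroup (Fin n) F)) :
    Nonempty (↥(P : Subgroup (Matrix.SpecialLinearGroup (Fin n) F)) ≃*
      (Fin ((Finset.Icc 2 n).filter (fun i => orderOf (q : ZMod r) ∣ i)).card →
        Multiplicative (ZMod (r ^ padicValNat r ((cyclotomic (orderOf (q : ZMod r)) ℤ).eval (q : ℤ)).natAbs)))) := by
  classical
  subst hq
  have hrp : r.Prime := Fact.out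
  have hq2 : 2 ≤ Fintype.card F := Fintype.one_lt_card
  rcases Nat.eq_zero_or_pos n with rfl | hn
  · have hf : ((Finset.Icc 2 0).filter (fun i => orderOf ((Fintype.card F : ℕ) : ZMod r) ∣ i)).card = 0 := by
      simp
    rw [hf]
    haveI : Subsingleton (Matrix.SpecialLinearGroup (Fin 0) F) :=
      ⟨fun a b => Subtype.ext (Subsingleton.elim _ _)⟩
    exact ⟨⟨⟨fun _ => 1, fun _ => 1, fun x => Subsingleton.elim _ _, fun x => Subsingleton.elim _ _⟩,
      fun _ _ => Subsingleton.elim _ _⟩⟩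
  haveI : Nonempty (Fin n) := ⟨⟨0, hn⟩⟩
  have hcardGL := SLn.card_GL_eq (ι := Fin n) (F := F)
  have hSL0 : Nat.card (Matrix.SpecialLinearGroup (Fin n) F) ≠ 0 := Nat.card_pos.ne'
  have hfactGL : (Nat.card (GL (Fin n) F)).factorization r =
      (Nat.card (Matrix.SpecialLinearGroup (Fin n) F)).factorization r + (Fintype.card F - 1).factorization r := by
    rw [hcardGL, Nat.factorization_mul hSL0 (by omega), Finsupp.add_apply]
  have hfact := factorization_card_GL (F := F) n r hrn hrq
  by_cases hd1 : orderOf ((Fintype.card F : ℕ) : ZMod r) = 1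
  · -- the split case
    obtain ⟨m, rfl⟩ : ∃ m, n = m + 1 := ⟨n - 1, by omega⟩
    have hν' := val_cyclotomic (q := Fintype.card F) (r := r) hq2 hrq
    rw [hd1] at hν' hfact ⊢
    simp only [pow_one, Nat.div_one, one_dvd, Finset.filter_true] at hν' hfact ⊢
    have hcardIcc : ((Finset.Icc 2 (m + 1)).filter (fun i => 1 ∣ i)).card = m := by
      rw [Finset.filter_true_of_mem (fun i _ => one_dvd i), Nat.card_Icc]
      omega
    rw [hcardIcc]
    generalize hνdef : padicValNat r ((cyclotomic 1 ℤ).eval ((Fintype.card F : ℕ) : ℤ)).natAbs = ν at *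
    haveI hN : NeZero (r ^ ν) := ⟨pow_ne_zero _ hrp.ne_zero⟩
    obtain ⟨g, hg⟩ := IsCyclic.exists_ofOrder_eq_natCard (α := Fˣ)
    have hcardU : Nat.card Fˣ = Fintype.card F - 1 := by
      rw [Nat.card_eq_fintype_card, Fintype.card_units]
    have hdvd : r ^ ν ∣ Fintype.card F - 1 := by
      rw [hν']
      exact pow_padicValNat_dvd
    obtain ⟨c, hc⟩ := hdvd
    have hc0 : c ≠ 0 := by
      rintro rfl
      omega
    have hζ : orderOf (g ^ c) = r ^ ν := by
      rw [orderOf_pow_of_dvd hc0 ⟨r ^ ν, by rw [hg, hcardU, hc, mul_comm]⟩, hg, hcardU, hc]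
      exact Nat.mul_div_cancel _ (Nat.pos_of_ne_zero hc0)
    have hcardC : Nat.card (Subgroup.zpowers (g ^ c)) = r ^ ν := by
      rw [Nat.card_zpowers, hζ]
    let e₁ : Multiplicative (ZMod (r ^ ν)) ≃* Subgroup.zpowers (g ^ c) :=
      (AddEquiv.toMultiplicative (ZMod.ringEquivCongr hcardC.symm).toAddEquiv).trans
        (zmodCyclicMulEquiv inferInstance)
    let f₁ : Multiplicative (ZMod (r ^ ν)) →* Fˣ :=
      (Subgroup.zpowers (g ^ c)).subtype.comp e₁.toMonoidHom
    have hf₁ : Function.Injective f₁ := (Subgroup.subtype_injective _).comp e₁.injective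
    let Θ := (diagHom (F := F) m).comp (f₁.compLeft (Fin m))
    have hΘ : Function.Injective Θ := (diagHom_injective m).comp (Function.Injective.comp_left hf₁)
    have hvalq : (Fintype.card F - 1).factorization r = ν := by
      rw [Nat.factorization_def _ hrp, hν']
    have hcardH : Nat.card Θ.range = r ^ (Nat.card (Matrix.SpecialLinearGroup (Fin (m + 1)) F)).factorization r := by
      rw [← Nat.card_congr (MonoidHom.ofInjective hΘ).toEquiv, Nat.card_fun, Nat.card_fin]
      have h1 : Nat.card (Multiplicative (ZMod (r ^ ν))) = r ^ ν := by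
        rw [Nat.card_congr Multiplicative.toAdd, Nat.card_zmod]
      rw [h1, ← pow_mul]
      congr 1
      rw [hfact, hvalq, ← hν', mul_add, mul_one] at hfactGL
      omega
    let S : Sylow r (Matrix.SpecialLinearGroup (Fin (m + 1)) F) := Sylow.ofCard Θ.range hcardH
    have e₂ : ↥(S : Subgroup (Matrix.SpecialLinearGroup (Fin (m + 1)) F)) ≃* Θ.range := MulEquiv.refl _
    exact ⟨(P.equiv S).trans (e₂.trans (MonoidHom.ofInjective hΘ).symm)⟩
  · -- the nonsplit case
    have hdpos : 0 < orderOf ((Fintype.card F : ℕ) : ZMod r) := order_pos' hrq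
    have hfilter : (Finset.Icc 2 n).filter (fun i => orderOf ((Fintype.card F : ℕ) : ZMod r) ∣ i) =
        (Finset.Ioc 0 n).filter (fun i => orderOf ((Fintype.card F : ℕ) : ZMod r) ∣ i) := by
      ext i
      simp only [Finset.mem_filter, Finset.mem_Icc, Finset.mem_Ioc]
      constructor
      · rintro ⟨⟨h1, h2⟩, h3⟩
        exact ⟨⟨by omega, h2⟩, h3⟩
      · rintro ⟨⟨h1, h2⟩, h3⟩
        refine ⟨⟨?_, h2⟩, h3⟩
        by_contra h4
        have h5 : i = 1 := by omega
        subst h5
        exact hd1 (Nat.dvd_one.1 h3)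
    rw [hfilter, Nat.Ioc_filter_dvd_card_eq_div]
    have hrq1 : ¬ r ∣ Fintype.card F - 1 := by
      intro h
      apply hd1
      have h1 : 1 ≤ Fintype.card F := by omega
      have h2 := (ZMod.natCast_eq_zero_iff (Fintype.card F - 1) r).2 h
      rw [Nat.cast_sub h1, Nat.cast_one, sub_eq_zero] at h2
      rw [h2, orderOf_one]
    have hv0 : (Fintype.card F - 1).factorization r = 0 := by
      rw [Nat.factorization_def _ hrp]
      exact padicValNat.eq_zero_of_not_dvd hrq1
    have hinj := Matrix.SpecialLinearGroup.toGL_injective (n := Fin n) (R := F)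
    have hcardP' : Nat.card ((P : Subgroup _).map (Matrix.SpecialLinearGroup.toGL (n := Fin n) (R := F))) =
        r ^ (Nat.card (GL (Fin n) F)).factorization r := by
      rw [Subgroup.card_map_of_injective hinj, P.card_eq_multiplicity, hfactGL, hv0, add_zero]
    let S : Sylow r (GL (Fin n) F) := Sylow.ofCard _ hcardP'
    obtain ⟨e⟩ := sylow_GL (F := F) rfl n r hrn hrq S
    have e₂ : ↥(S : Subgroup (GL (Fin n) F)) ≃*
        ((P : Subgroup _).map (Matrix.SpecialLinearGroup.toGL (n := Fin n) (R := F))) := MulEquiv.refl _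
    exact ⟨((P : Subgroup _).equivMapOfInjective _ hinj).trans (e₂.symm.trans e)⟩

end constr

end Cfsg.Agent.Lib.GLSylowLarge
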