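/-
Every square matrix over a finite field is similar to its transpose.
-/
import Mathlib

set_option autoImplicit false
set_option linter.all false

open scoped MatrixGroups Matrix
open Polynomial Module

universe u

namespace Cfsg.Agent.Lib.GLTranspose

variable {F : Type u} [Field F]

/-- The top coefficient functional on a quotient of the polynomial ring. -/
noncomputable def tau {f : F[X]} (hf : f.Monic) : AdjoinRoot f →ₗ[F] F :=
  (Polynomial.lcoeff F (f.natDegree - 1)) ∘ₗ (AdjoinRoot.modByMonicHom hf)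

theorem tau_nondeg {f : F[X]} (hf : f.Monic) (r : AdjoinRoot f) (hr : r ≠ 0) : ∃ s, tau hf (r * s) ≠ 0 := by
  obtain ⟨g, rfl⟩ := AdjoinRoot.mk_surjective r
  have hr' : AdjoinRoot.mk f (AdjoinRoot.modByMonicHom hf (AdjoinRoot.mk f g)) = AdjoinRoot.mk f g :=
    AdjoinRoot.mk_leftInverse hf _
  have hg' : AdjoinRoot.modByMonicHom hf (AdjoinRoot.mk f g) = g %ₘ f := AdjoinRoot.modByMonicHom_mk hf g
  rw [hg'] at hr'
  generalize hgg : g %ₘ f = g' at hr'
  have hg0 : g' ≠ 0 := by
    intro h
    rw [h, map_zero] at hr'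
    exact hr hr'.symm
  have hdeg : g'.degree < f.degree := by
    rw [← hgg]
    exact degree_modByMonic_lt g hf
  have hlt : g'.natDegree < f.natDegree := natDegree_lt_natDegree hg0 hdeg
  refine ⟨AdjoinRoot.mk f (X ^ (f.natDegree - 1 - g'.natDegree)), ?_⟩
  rw [← hr', ← map_mul]
  have h3 : AdjoinRoot.modByMonicHom hf (AdjoinRoot.mk f (g' * X ^ (f.natDegree - 1 - g'.natDegree))) = g' * X ^ (f.natDegree - 1 - g'.natDegree) := by
    rw [AdjoinRoot.modByMonicHom_mk, (modByMonic_eq_self_iff hf), degree_mul, degree_X_pow, degree_eq_natDegree hg0,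
      degree_eq_natDegree hf.ne_zero]
    norm_cast
    omega
  show lcoeff F _ (AdjoinRoot.modByMonicHom hf _) ≠ 0
  rw [h3, lcoeff_apply, coeff_mul_X_pow', if_pos (by omega)]
  have : f.natDegree - 1 - (f.natDegree - 1 - g'.natDegree) = g'.natDegree := by omega
  rw [this]
  exact leadingCoeff_ne_zero.2 hg0

/-- A commutative algebra model gives a symmetric form for which the matrix is self-adjoint. -/
theorem exists_gram_of_ring {ι : Type*} [Fintype ι] [DecidableEq ι] (A : Matrix ι ι F) {K : Type*} [CommRing K] [Algebra F K]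
    (E : (ι → F) ≃ₗ[F] K) (x : K) (hE : ∀ v, E (A *ᵥ v) = x * E v) (τ : K →ₗ[F] F)
    (hτ : ∀ r, r ≠ 0 → ∃ s, τ (r * s) ≠ 0) : ∃ G : GL ι F, G.1 * A = Aᵀ * G.1 := by
  let B : LinearMap.BilinForm F (ι → F) := LinearMap.mk₂ F (fun u v => τ (E u * E v))
    (fun a b c => by rw [map_add, add_mul, map_add])
    (fun c a b => by rw [map_smul, smul_mul_assoc, map_smul])
    (fun a b c => by rw [map_add, mul_add, map_add])
    (fun c a b => by rw [map_smul, mul_smul_comm, map_smul])
  have hB : ∀ u v, B u v = τ (E u * E v) := fun u v => rfl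
  let G : Matrix ι ι F := LinearMap.BilinForm.toMatrix' B
  have hcomm : G * A = Aᵀ * G := by
    have h1 := LinearMap.BilinForm.toMatrix'_compRight B (Matrix.toLin' A)
    have h3 := LinearMap.BilinForm.toMatrix'_compLeft B (Matrix.toLin' A)
    rw [LinearMap.toMatrix'_toLin'] at h1 h3
    have h4 : B.compRight (Matrix.toLin' A) = B.compLeft (Matrix.toLin' A) := by
      apply LinearMap.ext
      intro u
      apply LinearMap.ext
      intro v
      show B u (Matrix.toLin' A v) = B (Matrix.toLin' A u) v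
      rw [hB, hB, Matrix.toLin'_apply, Matrix.toLin'_apply, hE, hE, mul_left_comm, mul_assoc]
    show LinearMap.BilinForm.toMatrix' B * A = Aᵀ * LinearMap.BilinForm.toMatrix' B
    rw [← h1, ← h3, h4]
  have hinj : Function.Injective G.mulVec := by
    show Function.Injective G.mulVecLin
    rw [injective_iff_map_eq_zero]
    intro v hv
    have hv' : G *ᵥ v = 0 := hv
    by_contra hne
    have hEv : E v ≠ 0 := fun h => hne (E.injective (by rw [h, map_zero]))
    obtain ⟨s, hs⟩ := hτ _ hEv
    apply hs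
    have h5 : Matrix.toBilin' G (E.symm s) v = 0 := by
      rw [Matrix.toBilin'_apply', hv', dotProduct_zero]
    have h6 : Matrix.toBilin' G = B := Matrix.toBilin'_toMatrix' B
    rw [h6, hB, LinearEquiv.apply_symm_apply, mul_comm] at h5
    exact h5
  have hunit : IsUnit G := (Matrix.mulVec_injective_iff_isUnit).1 hinj
  refine ⟨hunit.unit, ?_⟩
  rw [hunit.unit_spec]
  exact hcomm

theorem X_smul_quot {f : F[X]} (w : F[X] ⧸ Ideal.span {f}) :
    (X : F[X]) • w = @HMul.hMul (AdjoinRoot f) (AdjoinRoot f) (AdjoinRoot f) _ (AdjoinRoot.root f) w := by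
  obtain ⟨g, rfl⟩ := Ideal.Quotient.mk_surjective w
  rfl

/-- Every square matrix over a finite field is similar to its transpose. -/
theorem exists_transpose_conj [Finite F] {ι : Type*} [Fintype ι] [DecidableEq ι] (A : Matrix ι ι F) :
    ∃ G : GL ι F, G.1 * A = Aᵀ * G.1 := by
  classical
  let L : Module.End F (ι → F) := Matrix.toLin' A
  have hT : Module.IsTorsion F[X] (AEval' L) := Module.AEval.isTorsion_of_finiteDimensional F (ι → F) L
  obtain ⟨κ, _, p, hp, e, ⟨E₁⟩⟩ := Module.equiv_directSum_of_isTorsion hT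
  have hne : ∀ i, p i ^ e i ≠ 0 := fun i => pow_ne_zero _ (hp i).ne_zero
  let f : κ → F[X] := fun i => p i ^ e i * C (p i ^ e i).leadingCoeff⁻¹
  have hf : ∀ i, (f i).Monic := fun i => monic_mul_leadingCoeff_inv (hne i)
  have hspan : ∀ i, (Submodule.span F[X] {p i ^ e i}) = Ideal.span {f i} := by
    intro i
    refine Ideal.span_singleton_eq_span_singleton.2 ?_
    exact associated_mul_unit_right _ _ (isUnit_C.2 (IsUnit.mk0 _ (inv_ne_zero (leadingCoeff_ne_zero.2 (hne i)))))
  let E₂ : AEval' L ≃ₗ[F[X]] (Π i, F[X] ⧸ Ideal.span {f i}) :=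
    E₁.trans ((DirectSum.linearEquivFunOnFintype F[X] κ _).trans
      (LinearEquiv.piCongrRight (fun i => Submodule.quotEquivOfEq _ _ (hspan i))))
  let E : (ι → F) ≃ₗ[F] (Π i, AdjoinRoot (f i)) := (AEval'.of L).trans (E₂.restrictScalars F)
  have hE : ∀ v, E (A *ᵥ v) = (fun i => AdjoinRoot.root (f i)) * E v := by
    intro v
    have h1 : E₂ (AEval'.of L (L v)) = (X : F[X]) • E₂ (AEval'.of L v) := by
      rw [← AEval'.X_smul_of, map_smul]
    funext i
    have h3 := congrFun h1 i
    refine h3.trans ?_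
    exact X_smul_quot _
  let τ : (Π i, AdjoinRoot (f i)) →ₗ[F] F := ∑ i, (tau (hf i)).comp (LinearMap.proj i)
  refine exists_gram_of_ring A E _ hE τ ?_
  intro r hr
  obtain ⟨i, hi⟩ := Function.ne_iff.1 hr
  obtain ⟨s₀, hs₀⟩ := tau_nondeg (hf i) (r i) hi
  refine ⟨Pi.single i s₀, ?_⟩
  have h5 : τ (r * Pi.single i s₀) = tau (hf i) (r i * s₀) := by
    show (∑ j, (tau (hf j)).comp (LinearMap.proj j)) _ = _
    rw [LinearMap.sum_apply, Finset.sum_eq_single i]
    · show tau (hf i) ((r * Pi.single i s₀ : Π i, AdjoinRoot (f i)) i) = _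
      rw [Pi.mul_apply, Pi.single_eq_same]
    · intro j _ hj
      show tau (hf j) ((r * Pi.single i s₀ : Π i, AdjoinRoot (f i)) j) = 0
      rw [Pi.mul_apply, Pi.single_eq_of_ne hj, mul_zero, map_zero]
    · simp
  rw [h5]
  exact hs₀

end Cfsg.Agent.Lib.GLTranspose
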