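/-
The norm map of a finite commutative ring with an involution having an invertible
"difference" is surjective on fixed units.
-/
import Mathlib
import Cfsg.Agent.Lib.FormClass

set_option autoImplicit false
set_option linter.all false

namespace Cfsg.Agent.Lib.NormRing

universe u

section Comm

variable {S : Type u} [CommRing S]

theorem norm_of_one_add (σ : S →+* S) (hσ2 : ∀ a, σ (σ a) = a) {ω : S} (hω : ω + σ ω = 1) :
    ∀ (k : ℕ) (x : S), σ x = x → (x - 1) ^ k = 0 → ∃ r, σ r * r = x := by
  intro k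
  induction k using Nat.strong_induction_on with
  | _ k ih =>
    intro x hx hk
    rcases Nat.lt_or_ge k 2 with hk2 | hk2
    · interval_cases k
      · have hs : (1 : S) = 0 := by simpa using hk
        exact ⟨0, by rw [mul_zero]; linear_combination (-x) * hs⟩
      · refine ⟨1, ?_⟩
        have : x - 1 = 0 := by simpa using hk
        rw [map_one, one_mul]
        linear_combination -this
    · set y := x - 1 with hy
      have hyn : IsNilpotent y := ⟨k, hk⟩
      have hσy : σ y = y := by simp [hy, hx]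
      set r₁ := 1 + ω * y with hr₁
      set c := σ ω * ω with hc
      have hσc : σ c = c := by simp [hc, hσ2, mul_comm]
      have hn : σ r₁ * r₁ = x + c * y ^ 2 := by
        simp only [hr₁, map_add, map_one, map_mul, hσy]
        have : x = 1 + y := by simp [hy]
        rw [this, hc]
        linear_combination y * hω
      set n₁ := x + c * y ^ 2 with hn₁
      have hunit : IsUnit n₁ := by
        have h1 : n₁ = 1 + (y + c * y ^ 2) := by
          rw [hn₁, hy]; ring
        rw [h1]
        apply IsNilpotent.isUnit_one_add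
        have h2 : y + c * y ^ 2 = y * (1 + c * y) := by ring
        rw [h2]
        exact (Commute.all _ _).isNilpotent_mul_right hyn
      obtain ⟨v, hv⟩ : ∃ v, n₁ * v = 1 := hunit.exists_right_inv
      have hσn : σ n₁ = n₁ := by simp [hn₁, hx, hσc, hσy]
      have hσv : σ v = v := by
        have h1 : n₁ * σ v = 1 := by rw [← hσn, ← map_mul, hv, map_one]
        calc σ v = (v * n₁) * σ v := by rw [mul_comm v, hv, one_mul]
          _ = v * (n₁ * σ v) := mul_assoc ..
          _ = v := by rw [h1, mul_one]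
      have hx' : x * v - 1 = (- c * v) * y ^ 2 := by
        rw [hn₁] at hv
        linear_combination hv
      have hk' : (x * v - 1) ^ ((k + 1) / 2) = 0 := by
        rw [hx', mul_pow, ← pow_mul]
        have h3 : k ≤ 2 * ((k + 1) / 2) := by omega
        rw [pow_eq_zero_of_le h3 hk, mul_zero]
      obtain ⟨r', hr'⟩ := ih ((k + 1) / 2) (by omega) (x * v) (by simp [hx, hσv]) hk'
      refine ⟨r' * r₁, ?_⟩
      rw [map_mul]
      calc σ r' * σ r₁ * (r' * r₁) = (σ r' * r') * (σ r₁ * r₁) := by ring
        _ = x * v * n₁ := by rw [hr', hn]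
        _ = x := by rw [mul_assoc, mul_comm v, hv, mul_one]

theorem exists_pow_idem [Finite S] (a : S) : ∃ n : ℕ, 0 < n ∧ a ^ n * a ^ n = a ^ n := by
  obtain ⟨i, j, hij, he⟩ := Finite.exists_ne_map_eq_of_infinite (fun n : ℕ => a ^ n)
  wlog hlt : i < j generalizing i j
  · exact this j i hij.symm he.symm (lt_of_le_of_ne (not_lt.1 hlt) hij.symm)
  have he' : a ^ i = a ^ j := he
  obtain ⟨d, rfl⟩ : ∃ d, j = i + d := ⟨j - i, by omega⟩
  have hd : 0 < d := by omega
  have h1 : ∀ m, i ≤ m → a ^ (m + d) = a ^ m := by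
    intro m hm
    obtain ⟨l, rfl⟩ : ∃ l, m = i + l := ⟨m - i, by omega⟩
    have : i + l + d = (i + d) + l := by ring
    rw [this, pow_add, ← he', ← pow_add]
  have h2 : ∀ k m, i ≤ m → a ^ (m + k * d) = a ^ m := by
    intro k
    induction k with
    | zero => intro m _; simp
    | succ k ih =>
      intro m hm
      have : m + (k + 1) * d = (m + k * d) + d := by ring
      rw [this, h1 _ (by omega), ih m hm]
  refine ⟨(i + 1) * d, by positivity, ?_⟩
  rw [← pow_add, h2 (i + 1) _ ?_]
  nlinarith

theorem local_case [Finite S] (σ : S →+* S) (hσ2 : ∀ a, σ (σ a) = a) (θ : S)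
    (hθ : IsUnit (θ - σ θ)) (h : S) (hu : IsUnit h) (hσh : σ h = h)
    (hid : ∀ e : S, e * e = e → e = 0 ∨ e = 1) : ∃ r, σ r * r = h := by
  classical
  by_cases hs : Subsingleton S
  · exact ⟨h, Subsingleton.elim _ _⟩
  haveI : Nontrivial S := not_subsingleton_iff_nontrivial.1 hs
  have hdich : ∀ a : S, IsUnit a ∨ IsNilpotent a := by
    intro a
    obtain ⟨n, hn, hidem⟩ := exists_pow_idem a
    rcases hid _ hidem with h0 | h1
    · exact Or.inr ⟨n, h0⟩
    · exact Or.inl (IsUnit.of_pow_eq_one h1 hn.ne')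
  have hIσ : nilradical S ≤ (nilradical S).comap σ := by
    intro x hx
    rw [Ideal.mem_comap, mem_nilradical]
    exact (mem_nilradical.1 hx).map σ
  have hmax : (nilradical S).IsMaximal := by
    rw [Ideal.isMaximal_iff]
    refine ⟨fun h1 => not_isNilpotent_one (mem_nilradical.1 h1), ?_⟩
    intro J x _ hx hxJ
    rcases hdich x with hxu | hxn
    · rw [Ideal.eq_top_of_isUnit_mem J hxJ hxu]
      trivial
    · exact absurd (mem_nilradical.2 hxn) hx
  letI : Field (S ⧸ nilradical S) := Ideal.Quotient.field _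
  haveI : Finite (S ⧸ nilradical S) := Finite.of_surjective _ (Ideal.Quotient.mk_surjective (I := nilradical S))
  let mk := Ideal.Quotient.mk (nilradical S)
  let σ' : (S ⧸ nilradical S) →+* (S ⧸ nilradical S) := Ideal.quotientMap (nilradical S) σ hIσ
  have hσ'mk : ∀ x, σ' (mk x) = mk (σ x) := fun x => Ideal.quotientMap_mk
  have hσ'2 : ∀ a, σ' (σ' a) = a := by
    intro a
    obtain ⟨b, rfl⟩ := Ideal.Quotient.mk_surjective a
    show σ' (σ' (mk b)) = mk b
    rw [hσ'mk, hσ'mk, hσ2]
  have hσ'ne : σ' ≠ RingHom.id _ := by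
    intro h0
    have h1 : mk (θ - σ θ) = 0 := by
      have h2 := congrArg (fun f => f (mk θ)) h0
      simp only [RingHom.id_apply, hσ'mk] at h2
      rw [map_sub, h2, sub_self]
    have h3 : IsUnit (mk (θ - σ θ)) := hθ.map mk
    rw [h1] at h3
    exact not_isUnit_zero h3
  obtain ⟨l, hl⟩ := Cfsg.Agent.Lib.FormClass.norm_surj (σ := σ') hσ'ne hσ'2 (mk h) (by rw [hσ'mk, hσh])
  obtain ⟨r₀, rfl⟩ := Ideal.Quotient.mk_surjective l
  have hl' : mk (r₀ * σ r₀ - h) = 0 := by
    rw [map_sub, map_mul, sub_eq_zero]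
    show mk r₀ * mk (σ r₀) = mk h
    rw [← hσ'mk]
    exact hl
  have hnil : IsNilpotent (r₀ * σ r₀ - h) := by
    rw [← mem_nilradical]
    exact Ideal.Quotient.eq_zero_iff_mem.1 hl'
  have hr₀ : IsUnit r₀ := by
    rcases hdich r₀ with h1 | h1
    · exact h1
    · exfalso
      have h2 : IsNilpotent (r₀ * σ r₀) := (Commute.all _ _).isNilpotent_mul_right h1
      have h3 : IsNilpotent h := by
        have h4 : h = r₀ * σ r₀ - (r₀ * σ r₀ - h) := by ring
        rw [h4]
        exact (Commute.all _ _).isNilpotent_sub h2 hnil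
      exact (not_isNilpotent_one (R := S)) (by
        obtain ⟨v, hv⟩ := hu.exists_right_inv
        rw [← hv]
        exact (Commute.all _ _).isNilpotent_mul_right h3)
  set m := σ r₀ * r₀ with hm
  have hmu : IsUnit m := (hr₀.map σ).mul hr₀
  obtain ⟨w, hw⟩ := hmu.exists_right_inv
  have hσm : σ m = m := by simp [hm, hσ2, mul_comm]
  have hσw : σ w = w := by
    have h1 : m * σ w = 1 := by rw [← hσm, ← map_mul, hw, map_one]
    calc σ w = (w * m) * σ w := by rw [mul_comm w, hw, one_mul]
      _ = w * (m * σ w) := mul_assoc ..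
      _ = w := by rw [h1, mul_one]
  obtain ⟨z, hz⟩ := hθ.exists_right_inv
  have hσz : σ z = - z := by
    have h1 : (θ - σ θ) * (- σ z) = 1 := by
      have h2 := congrArg σ hz
      rw [map_mul, map_sub, hσ2, map_one] at h2
      linear_combination h2
    calc σ z = (z * (θ - σ θ)) * σ z := by rw [mul_comm z, hz, one_mul]
      _ = - (z * ((θ - σ θ) * (- σ z))) := by ring
      _ = - z := by rw [h1, mul_one]
  have hω : θ * z + σ (θ * z) = 1 := by
    rw [map_mul, hσz]
    linear_combination hz
  have hxnil : IsNilpotent (h * w - 1) := by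
    have h1 : h * w - 1 = - ((r₀ * σ r₀ - h) * w) := by
      rw [hm] at hw
      linear_combination hw
    rw [h1]
    exact ((Commute.all _ _).isNilpotent_mul_right hnil).neg
  obtain ⟨k, hk⟩ := hxnil
  obtain ⟨r', hr'⟩ := norm_of_one_add σ hσ2 hω k (h * w) (by simp [hσh, hσw]) hk
  refine ⟨r' * r₀, ?_⟩
  rw [map_mul]
  calc σ r' * σ r₀ * (r' * r₀) = (σ r' * r') * m := by rw [hm]; ring
    _ = h * (m * w) := by rw [hr']; ring
    _ = h := by rw [hw, mul_one]

theorem split_lemma (σ : S →+* S) {e h r₁ r₂ : S} (he : e * e = e) (hσe : σ e = e)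
    (h₁ : σ r₁ * r₁ - h ∈ Ideal.span {e}) (h₂ : σ r₂ * r₂ - h ∈ Ideal.span {1 - e}) :
    ∃ r, σ r * r = h := by
  obtain ⟨a, ha⟩ := Ideal.mem_span_singleton'.1 h₁
  obtain ⟨b, hb⟩ := Ideal.mem_span_singleton'.1 h₂
  refine ⟨(1 - e) * r₁ + e * r₂, ?_⟩
  simp only [map_add, map_mul, map_sub, map_one, hσe]
  linear_combination (2 * h + a * (e - 1) - b * e - (σ r₁ * r₂ + σ r₂ * r₁)) * he - (1 - e) ^ 2 * ha - e ^ 2 * hb

end Comm

theorem norm_surj_ring : ∀ (m : ℕ) (S : Type u) [CommRing S] [Finite S] (σ : S →+* S)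
    (hσ2 : ∀ a, σ (σ a) = a) (θ : S) (hθ : IsUnit (θ - σ θ)) (h : S) (hu : IsUnit h) (hσh : σ h = h),
    Nat.card S = m → ∃ r, σ r * r = h := by
  intro m
  induction m using Nat.strong_induction_on with
  | _ m ih =>
    intro S _ _ σ hσ2 θ hθ h hu hσh hm
    classical
    have key : ∀ I : Ideal S, I ≠ ⊥ → I ≤ I.comap σ → ∃ r, σ r * r - h ∈ I := by
      intro I hI hIσ
      let mk := Ideal.Quotient.mk I
      let σ' : (S ⧸ I) →+* (S ⧸ I) := Ideal.quotientMap I σ hIσ
      have hσ'mk : ∀ x, σ' (mk x) = mk (σ x) := fun x => Ideal.quotientMap_mk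
      have hσ'2 : ∀ a, σ' (σ' a) = a := by
        intro a
        obtain ⟨b, rfl⟩ := Ideal.Quotient.mk_surjective a
        show σ' (σ' (mk b)) = mk b
        rw [hσ'mk, hσ'mk, hσ2]
      haveI : Finite (S ⧸ I) := Finite.of_surjective _ (Ideal.Quotient.mk_surjective (I := I))
      have hcard : Nat.card (S ⧸ I) < m := by
        rw [← hm]
        haveI := Fintype.ofFinite S
        haveI := Fintype.ofFinite (S ⧸ I)
        rw [Nat.card_eq_fintype_card, Nat.card_eq_fintype_card]
        apply Fintype.card_lt_of_surjective_not_injective mk Ideal.Quotient.mk_surjective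
        intro hinj
        apply hI
        rw [eq_bot_iff]
        intro x hx
        rw [Submodule.mem_bot]
        apply hinj
        rw [map_zero]
        exact Ideal.Quotient.eq_zero_iff_mem.2 hx
      obtain ⟨r', hr'⟩ := ih _ hcard (S ⧸ I) σ' hσ'2 (mk θ)
        (by
          have := hθ.map mk
          rwa [map_sub, ← hσ'mk] at this)
        (mk h) (hu.map mk) (by rw [hσ'mk, hσh]) rfl
      obtain ⟨r, rfl⟩ := Ideal.Quotient.mk_surjective r'
      refine ⟨r, ?_⟩
      rw [← Ideal.Quotient.eq_zero_iff_mem, map_sub, map_mul, sub_eq_zero]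
      show mk (σ r) * mk r = mk h
      rw [← hσ'mk]
      exact hr'
    have hst : ∀ a : S, σ a = a → Ideal.span {a} ≤ (Ideal.span {a}).comap σ := by
      intro a ha
      rw [Ideal.span_le]
      rintro x hx
      rw [Set.mem_singleton_iff] at hx
      subst hx
      show σ x ∈ Ideal.span {x}
      rw [ha]
      exact Ideal.mem_span_singleton_self x
    have split : ∀ e : S, e * e = e → σ e = e → e ≠ 0 → e ≠ 1 → ∃ r, σ r * r = h := by
      intro e he hσe he0 he1
      obtain ⟨r₁, hr₁⟩ := key (Ideal.span {e}) (by simpa [Ideal.span_singleton_eq_bot] using he0) (hst e hσe)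
      obtain ⟨r₂, hr₂⟩ := key (Ideal.span {1 - e})
        (by
          rw [Ne, Ideal.span_singleton_eq_bot, sub_eq_zero]
          exact fun h' => he1 h'.symm)
        (hst _ (by simp [hσe]))
      exact split_lemma σ he hσe hr₁ hr₂
    by_cases hid : ∀ e : S, e * e = e → e = 0 ∨ e = 1
    · exact local_case σ hσ2 θ hθ h hu hσh hid
    push Not at hid
    obtain ⟨e, he, he0, he1⟩ := hid
    have hσe' : σ e * σ e = σ e := by rw [← map_mul, he]
    by_cases hf0 : e * σ e = 0
    · by_cases hg : e + σ e = 1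
      · refine ⟨h * e + σ e, ?_⟩
        simp only [map_add, map_mul, hσh, hσ2]
        linear_combination (h ^ 2 + 1) * hf0 + h * hσe' + h * he + h * hg
      · apply split (e + σ e)
        · linear_combination he + hσe' + 2 * hf0
        · simp [hσ2, add_comm]
        · intro h0
          apply he0
          have : σ e = - e := by linear_combination h0
          rw [this] at hf0
          linear_combination -hf0 - he
        · exact hg
    · by_cases hf1 : e * σ e = 1
      · exfalso
        apply he1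
        linear_combination (-e) * hf1 + hf1 + σ e * he
      · apply split (e * σ e)
        · linear_combination (σ e * σ e) * he + e * hσe'
        · simp [hσ2, mul_comm]
        · exact hf0
        · exact hf1

/-- The version inside a commutative subring of a possibly noncommutative finite ring. -/
theorem norm_in_subring {R : Type u} [Ring R] [Finite R] (T : Subring R)
    (hc : ∀ a ∈ T, ∀ b ∈ T, a * b = b * a) (st : R →+ R) (hst1 : st 1 = 1)
    (hstm : ∀ a b, st (a * b) = st b * st a) (hst2 : ∀ a, st (st a) = a)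
    (hT : ∀ a ∈ T, st a ∈ T) {θ z : R} (hθ : θ ∈ T) (hz : z ∈ T) (hθz : (θ - st θ) * z = 1)
    {h w : R} (hh : h ∈ T) (hw : w ∈ T) (hhw : h * w = 1) (hst : st h = h) :
    ∃ r ∈ T, st r * r = h := by
  letI inst : CommRing T :=
    { (inferInstance : Ring T) with
      mul_comm := fun a b => Subtype.ext (hc a.1 a.2 b.1 b.2) }
  let σ : T →+* T :=
    { toFun := fun a => ⟨st a.1, hT a.1 a.2⟩
      map_one' := Subtype.ext hst1
      map_zero' := Subtype.ext (map_zero st)
      map_mul' := fun a b => Subtype.ext (by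
        show st (a.1 * b.1) = st a.1 * st b.1
        rw [hstm, hc _ (hT _ b.2) _ (hT _ a.2)])
      map_add' := fun a b => Subtype.ext (map_add st a.1 b.1) }
  have hθ' : IsUnit ((⟨θ, hθ⟩ : T) - σ ⟨θ, hθ⟩) :=
    IsUnit.of_mul_eq_one (⟨z, hz⟩ : T) (Subtype.ext hθz)
  have hh' : IsUnit (⟨h, hh⟩ : T) := IsUnit.of_mul_eq_one (⟨w, hw⟩ : T) (Subtype.ext hhw)
  obtain ⟨r, hr⟩ := norm_surj_ring _ T σ (fun a => Subtype.ext (hst2 a.1)) ⟨θ, hθ⟩ hθ' ⟨h, hh⟩ hh'
    (Subtype.ext hst) rfl
  exact ⟨r.1, r.2, congrArg Subtype.val hr⟩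

/-- The bicommutant of a set. -/
def biC {R : Type u} [Ring R] (s : Set R) : Subring R where
  carrier := {x | ∀ y, (∀ a ∈ s, Commute y a) → Commute x y}
  mul_mem' := fun ha hb y hy => (ha y hy).mul_left (hb y hy)
  one_mem' := fun y _ => Commute.one_left y
  add_mem' := fun ha hb y hy => (ha y hy).add_left (hb y hy)
  zero_mem' := fun y _ => Commute.zero_left y
  neg_mem' := fun ha y hy => (ha y hy).neg_left

theorem mem_biC {R : Type u} [Ring R] {s : Set R} {x : R} :
    x ∈ biC s ↔ ∀ y, (∀ a ∈ s, Commute y a) → Commute x y := Iff.rfl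

theorem biC_comm {R : Type u} [Ring R] {s : Set R} (hs : ∀ a ∈ s, ∀ b ∈ s, Commute a b) :
    ∀ a ∈ biC s, ∀ b ∈ biC s, a * b = b * a := by
  intro a ha b hb
  exact ha b (fun c hc => hb c (fun d hd => hs c hc d hd))

theorem self_mem_biC {R : Type u} [Ring R] {s : Set R} {a : R} (ha : a ∈ s) : a ∈ biC s :=
  fun y hy => (hy a ha).symm

theorem inv_mem_biC {R : Type u} [Ring R] {s : Set R} {a b : R} (ha : a ∈ biC s)
    (h1 : a * b = 1) (h2 : b * a = 1) : b ∈ biC s := by
  intro y hy
  have h := ha y hy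
  show b * y = y * b
  calc b * y = b * (y * (a * b)) := by rw [h1, mul_one]
    _ = b * (y * a * b) := by rw [mul_assoc]
    _ = b * (a * y * b) := by rw [h.eq.symm]
    _ = (b * a) * (y * b) := by simp only [mul_assoc]
    _ = y * b := by rw [h2, one_mul]

end Cfsg.Agent.Lib.NormRing
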