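/-
Conjugacy in the general unitary group is controlled by the general linear group.
-/
import Mathlib
import Cfsg.Agent.Lib.NormRing
import Cfsg.Agent.Lib.UnitaryHerm

set_option autoImplicit false
set_option linter.all false

namespace Cfsg.Agent.Lib.GUConj

open Cfsg Matrix
open Cfsg.Agent.Lib.NormRing

variable {K : Type*} [Field K] {q n : ℕ}

/-- The conjugate transpose. -/
def St (σ : K ≃+* K) : Matrix (Fin n) (Fin n) K →+ Matrix (Fin n) (Fin n) K where
  toFun X := (X.map σ)ᵀ
  map_zero' := by ext; simp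
  map_add' X Y := by ext; simp

theorem St_apply (σ : K ≃+* K) (X : Matrix (Fin n) (Fin n) K) : St σ X = (X.map σ)ᵀ := rfl

theorem St_one (σ : K ≃+* K) : St σ (1 : Matrix (Fin n) (Fin n) K) = 1 := by
  ext i j
  simp [St_apply, Matrix.one_apply, apply_ite σ, eq_comm]

theorem St_mul (σ : K ≃+* K) (X Y : Matrix (Fin n) (Fin n) K) : St σ (X * Y) = St σ Y * St σ X := by
  rw [St_apply, St_apply, St_apply, ← Matrix.transpose_mul]
  congr 1
  ext i j
  simp [Matrix.mul_apply, map_sum]

theorem St_St (σ : K ≃+* K) (hσ2 : ∀ a, σ (σ a) = a) (X : Matrix (Fin n) (Fin n) K) :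
    St σ (St σ X) = X := by
  ext i j
  simp [St_apply, hσ2]

theorem St_smul_one (σ : K ≃+* K) (c : K) : St σ (c • (1 : Matrix (Fin n) (Fin n) K)) = σ c • 1 := by
  ext i j
  simp [St_apply, Matrix.one_apply, apply_ite σ, eq_comm]

theorem mem_GU_iff_St [Fintype K] (hF : Fintype.card K = q ^ 2) {σ : K ≃+* K} (hσ : ∀ x, σ x = x ^ q)
    (g : GL (Fin n) K) : g ∈ GU n K q ↔ St σ g.1 * g.1 = 1 := by
  have hq := Cfsg.Agent.Lib.UnitaryHerm.q_two_le hF
  have hq0 : q ≠ 0 := by omega
  have hσ2 : ∀ a, σ (σ a) = a := by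
    intro a
    rw [hσ, hσ, Cfsg.Agent.Lib.UnitaryHerm.pow_q_q hF]
  set A : Matrix (Fin n) (Fin n) K := g.1 with hA
  have hmap : ∀ X Y : Matrix (Fin n) (Fin n) K, (X * Y).map σ = X.map σ * Y.map σ := by
    intro X Y
    ext i j
    simp [Matrix.mul_apply, map_sum]
  have hmapone : (1 : Matrix (Fin n) (Fin n) K).map σ = 1 := by
    ext i j
    simp [Matrix.one_apply, apply_ite σ]
  have hmm : ∀ X : Matrix (Fin n) (Fin n) K, (X.map σ).map σ = X := by
    intro X
    ext i j
    simp [hσ2]
  have hmt : ∀ X : Matrix (Fin n) (Fin n) K, (Xᵀ).map σ = (X.map σ)ᵀ := fun X => rfl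
  have equiv : Aᵀ * A.map σ = 1 ↔ St σ A * A = 1 := by
    constructor
    · intro h
      have h1 : A.map σ * Aᵀ = 1 := mul_eq_one_comm.1 h
      have h2 := congrArg (fun X => X.map σ) h1
      simp only [hmap, hmm, hmt, hmapone] at h2
      rw [St_apply]
      exact mul_eq_one_comm.1 h2
    · intro h
      have h1 : A * (A.map σ)ᵀ = 1 := mul_eq_one_comm.1 h
      have h2 := congrArg (fun X => X.map σ) h1
      simp only [hmap, hmt, hmm, hmapone] at h2
      exact mul_eq_one_comm.1 h2
  rw [← equiv]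
  constructor
  · intro hg
    ext i j
    have h1 := hg (Pi.single i 1) (Pi.single j 1)
    have h2 : hermForm n K q (A *ᵥ Pi.single i 1) (A *ᵥ Pi.single j 1) =
        (Aᵀ * A.map σ) i j := by
      simp only [hermForm, Matrix.mul_apply, Matrix.transpose_apply, Matrix.mulVec_single_one]
      refine Finset.sum_congr rfl fun k _ => ?_
      simp [hσ]
    have h1' : hermForm n K q (A *ᵥ Pi.single i 1) (A *ᵥ Pi.single j 1) =
        hermForm n K q (Pi.single i 1) (Pi.single j 1) := h1
    rw [← h2, h1']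
    simp only [hermForm, Matrix.one_apply]
    by_cases hij : i = j
    · subst hij
      rw [Finset.sum_eq_single i]
      · simp [hq0]
      · intro k _ hk
        simp [Pi.single_eq_of_ne hk]
      · simp
    · rw [if_neg hij]
      apply Finset.sum_eq_zero
      intro k _
      by_cases hk : k = i
      · subst hk
        simp [Pi.single_eq_of_ne hij, hq0]
      · simp [Pi.single_eq_of_ne hk]
  · intro h u v
    show hermForm n K q (A *ᵥ u) (A *ᵥ v) = hermForm n K q u v
    have h1 : ∀ w : Fin n → K, (A.map σ) *ᵥ (σ ∘ w) = σ ∘ (A *ᵥ w) := by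
      intro w
      ext i
      have := RingHom.map_mulVec (σ : K →+* K) A w i
      simp only [Function.comp]
      exact this.symm
    have h2 : ∀ x y : Fin n → K, hermForm n K q x y = x ⬝ᵥ (σ ∘ y) := by
      intro x y
      simp [hermForm, dotProduct, hσ]
    rw [h2, h2, ← h1, ← Matrix.vecMul_transpose, ← Matrix.dotProduct_mulVec, Matrix.mulVec_mulVec, h,
      Matrix.one_mulVec]

theorem exists_GU_conj [Fintype K] (hF : Fintype.card K = q ^ 2) (A B g : GL (Fin n) K)
    (hA : A ∈ GU n K q) (hB : B ∈ GU n K q) (hg : g * A * g⁻¹ = B) :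
    ∃ g' ∈ GU n K q, g' * A * g'⁻¹ = B := by
  obtain ⟨σ, hσ⟩ := Cfsg.Agent.Lib.UnitaryHerm.exists_sigma hF
  have hσ2 : ∀ a, σ (σ a) = a := by
    intro a
    rw [hσ, hσ, Cfsg.Agent.Lib.UnitaryHerm.pow_q_q hF]
  set a : Matrix (Fin n) (Fin n) K := A.1 with ha
  set b : Matrix (Fin n) (Fin n) K := B.1 with hb
  set G : Matrix (Fin n) (Fin n) K := g.1 with hG
  set Gi : Matrix (Fin n) (Fin n) K := (g⁻¹).1 with hGi
  have hGGi : G * Gi = 1 := g.mul_inv
  have hGiG : Gi * G = 1 := g.inv_mul
  have hGa : G * a = b * G := by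
    have h1 : G * a * Gi = b := congrArg Units.val hg
    calc G * a = G * a * (Gi * G) := by rw [hGiG, mul_one]
      _ = (G * a * Gi) * G := by simp only [mul_assoc]
      _ = b * G := by rw [h1]
  let S : Matrix (Fin n) (Fin n) K →+ Matrix (Fin n) (Fin n) K := St σ
  have hS1 : S 1 = 1 := St_one σ
  have hSm : ∀ X Y, S (X * Y) = S Y * S X := St_mul σ
  have hS2 : ∀ X, S (S X) = X := St_St σ hσ2
  have hsa : S a * a = 1 := (mem_GU_iff_St hF hσ A).1 hA
  have hsb : S b * b = 1 := (mem_GU_iff_St hF hσ B).1 hB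
  have has : a * S a = 1 := mul_eq_one_comm.1 hsa
  set h := S G * G with hh
  have hStar : S G * b = a * S G := by
    have h1 : S a * S G = S G * S b := by
      rw [← hSm, ← hSm, hGa]
    calc S G * b = (a * S a) * S G * b := by rw [has, one_mul]
      _ = a * (S a * S G) * b := by simp only [mul_assoc]
      _ = a * (S G * S b) * b := by rw [h1]
      _ = a * S G * (S b * b) := by simp only [mul_assoc]
      _ = a * S G := by rw [hsb, mul_one]
  have hcomm : Commute h a := by
    show S G * G * a = a * (S G * G)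
    calc S G * G * a = S G * (G * a) := by rw [mul_assoc]
      _ = S G * (b * G) := by rw [hGa]
      _ = (S G * b) * G := by rw [mul_assoc]
      _ = a * S G * G := by rw [hStar]
      _ = a * (S G * G) := by rw [mul_assoc]
  have hSh : S h = h := by
    rw [hh, hSm, hS2]
  set w := Gi * S Gi with hw
  have hhw : h * w = 1 := by
    calc h * w = S G * (G * Gi) * S Gi := by rw [hh, hw]; simp only [mul_assoc]
      _ = S (Gi * G) := by rw [hGGi, mul_one, hSm]
      _ = 1 := by rw [hGiG, hS1]
  have hwh : w * h = 1 := mul_eq_one_comm.1 hhw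
  have hsing : ∀ x ∈ ({h} : Set (Matrix (Fin n) (Fin n) K)), ∀ y ∈ ({h} : Set (Matrix (Fin n) (Fin n) K)), Commute x y := by
    rintro x rfl y rfl
    exact Commute.refl _
  have hc := biC_comm hsing
  have hT : ∀ x ∈ biC ({h} : Set (Matrix (Fin n) (Fin n) K)), S x ∈ biC ({h} : Set (Matrix (Fin n) (Fin n) K)) := by
    intro x hx y hy
    have hyh : y * h = h * y := hy h rfl
    have h1 : Commute x (S y) := hx (S y) (by
      rintro c rfl
      show S y * h = h * S y
      calc S y * h = S y * S h := by rw [hSh]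
        _ = S (h * y) := (hSm _ _).symm
        _ = S (y * h) := by rw [hyh]
        _ = S h * S y := hSm _ _
        _ = h * S y := by rw [hSh])
    have h2 : S (x * S y) = S (S y * x) := congrArg S h1.eq
    rw [hSm, hSm, hS2] at h2
    exact h2.symm
  have hmemh : h ∈ biC ({h} : Set (Matrix (Fin n) (Fin n) K)) := self_mem_biC rfl
  have hmemw : w ∈ biC ({h} : Set (Matrix (Fin n) (Fin n) K)) := inv_mem_biC hmemh hhw hwh
  have hscal : ∀ c : K, c • (1 : Matrix (Fin n) (Fin n) K) ∈ biC ({h} : Set (Matrix (Fin n) (Fin n) K)) := by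
    intro c y _
    exact (Commute.one_left y).smul_left c
  obtain ⟨ε, hε⟩ : ∃ ε : K, σ ε ≠ ε := by
    by_contra hcon
    push Not at hcon
    have := (Cfsg.Agent.Lib.UnitaryHerm.hermForm_isUnitary (n := 0) hF hσ).ne_refl
    apply this
    ext x
    exact hcon x
  have hd : ε - σ ε ≠ 0 := sub_ne_zero.2 (Ne.symm hε)
  have hθz : (ε • (1 : Matrix (Fin n) (Fin n) K) - S (ε • 1)) * ((ε - σ ε)⁻¹ • 1) = 1 := by
    have : S (ε • (1 : Matrix (Fin n) (Fin n) K)) = σ ε • 1 := St_smul_one σ ε
    rw [this, ← sub_smul, smul_mul_smul_comm, mul_one, mul_inv_cancel₀ hd, one_smul]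
  obtain ⟨r, hrT, hr⟩ := norm_in_subring (biC ({h} : Set (Matrix (Fin n) (Fin n) K))) hc S hS1 hSm hS2 hT
    (hscal ε) (hscal _) hθz hmemh hmemw hhw hSh
  set s := w * S r with hs
  have hsr : s * r = 1 := by
    rw [hs, mul_assoc, hr, hwh]
  have hrs : r * s = 1 := mul_eq_one_comm.1 hsr
  have hra : Commute r a := hrT a (by
    rintro c rfl
    exact hcomm.symm)
  have hsa' : s * a = a * s := by
    calc s * a = s * (a * (r * s)) := by rw [hrs, mul_one]
      _ = s * (a * r * s) := by rw [mul_assoc a]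
      _ = s * (r * a * s) := by rw [hra.eq.symm]
      _ = (s * r) * (a * s) := by simp only [mul_assoc]
      _ = a * s := by rw [hsr, one_mul]
  let g' : GL (Fin n) K := ⟨G * s, r * Gi,
    by
      calc G * s * (r * Gi) = G * (s * r) * Gi := by simp only [mul_assoc]
        _ = 1 := by rw [hsr, mul_one, hGGi],
    by
      calc r * Gi * (G * s) = r * (Gi * G) * s := by simp only [mul_assoc]
        _ = 1 := by rw [hGiG, mul_one, hrs]⟩
  refine ⟨g', ?_, ?_⟩
  · rw [mem_GU_iff_St hF hσ]
    show S (G * s) * (G * s) = 1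
    rw [hSm]
    calc S s * S G * (G * s) = S s * (S G * G) * s := by simp only [mul_assoc]
      _ = S s * (S r * r) * s := by rw [hr]
      _ = (S s * S r) * (r * s) := by simp only [mul_assoc]
      _ = 1 := by rw [← hSm, hrs, hS1, mul_one]
  · apply Units.ext
    show G * s * a * (r * Gi) = b
    calc G * s * a * (r * Gi) = G * (s * a) * (r * Gi) := by simp only [mul_assoc]
      _ = G * (a * s) * (r * Gi) := by rw [hsa']
      _ = G * a * (s * r) * Gi := by simp only [mul_assoc]
      _ = b * G * Gi := by rw [hsr, mul_one, hGa]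
      _ = b := by rw [mul_assoc, hGGi, mul_one]

end Cfsg.Agent.Lib.GUConj
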