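import Mathlib
import Cfsg.Prelude.Def_LieClassical
import Cfsg.Agent.Lib.LawFam

set_option autoImplicit false

/-!
Embeddings of the unitary group `GU_m(q)` into classical groups over the subfield of order `q`:
transfer of matrices along an `F`-linear identification `F^A ≃ K^J`.
-/

namespace Cfsg.Agent.Lib.GUEmbed

open Matrix

section setup
variable {K F : Type*} [Field K] [Field F] [Fintype K] [Fintype F]

/-- the subfield of order `q` -/
theorem exists_setup {q : ℕ} (hK : Fintype.card K = q ^ 2) (hF : Fintype.card F = q) :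
    ∃ (φ : K →+* K) (ι : F →+* K), (∀ x, φ x = x ^ q) ∧ (∀ x, φ (φ x) = x) ∧ (∀ x, φ (ι x) = ι x)
      ∧ (∀ x, φ x = x → ∃ y, ι y = x) ∧ (∃ w, φ w ≠ w) := by
  classical
  have hq : 2 ≤ q := by
    rw [← hF]; exact Fintype.one_lt_card
  obtain ⟨φ, hφ⟩ := Cfsg.Agent.Lib.LawFam.exists_frob hK
  have h2 : ∀ x, φ (φ x) = x := by
    intro x
    rw [hφ, hφ, ← pow_mul, ← sq, ← hK, FiniteField.pow_card]
  let F₀ : Subfield K := RingHom.eqLocusField φ (RingHom.id K)
  have hmem : ∀ x : K, x ^ q = x → x ∈ F₀ := fun x hx => by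
    show φ x = x
    rw [hφ, hx]
  have hc1 := Cfsg.Agent.Lib.LawFam.card_fixed hK hq F₀ hmem
  have hc2 : Nat.card F₀ ≤ q := by
    let P : Polynomial K := Polynomial.X ^ q - Polynomial.X
    have hdeg : P.natDegree = q := by
      rw [Polynomial.natDegree_sub_eq_left_of_natDegree_lt]
      · simp
      · simp; omega
    have hP : P ≠ 0 := by
      intro h
      rw [h] at hdeg
      simp at hdeg
      omega
    have h1 : Nat.card F₀ = (F₀ : Set K).ncard := Nat.card_coe_set_eq (F₀ : Set K)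
    rw [h1]
    have h3 : (F₀ : Set K) ⊆ (P.roots.toFinset : Set K) := by
      intro x hx
      have hx' : φ x = x := hx
      rw [Finset.mem_coe, Multiset.mem_toFinset, Polynomial.mem_roots hP]
      simp only [P, Polynomial.IsRoot, Polynomial.eval_sub, Polynomial.eval_pow, Polynomial.eval_X]
      rw [← hφ, hx', sub_self]
    calc (F₀ : Set K).ncard ≤ (P.roots.toFinset : Set K).ncard := Set.ncard_le_ncard h3 (Set.toFinite _)
      _ = P.roots.toFinset.card := Set.ncard_coe_finset _
      _ ≤ Multiset.card P.roots := Multiset.toFinset_card_le _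
      _ ≤ P.natDegree := Polynomial.card_roots' _
      _ = q := hdeg
  haveI : Fintype F₀ := Fintype.ofFinite _
  have hc : Fintype.card F = Fintype.card F₀ := by
    rw [hF, ← Nat.card_eq_fintype_card]
    omega
  let e : F ≃+* F₀ := FiniteField.ringEquivOfCardEq hc
  let ι : F →+* K := F₀.subtype.comp (e : F →+* F₀)
  have hι : ∀ x, φ (ι x) = ι x := fun x => (e x).2
  have hsurj : ∀ x, φ x = x → ∃ y, ι y = x := by
    intro x hx
    refine ⟨e.symm ⟨x, hx⟩, ?_⟩
    show ((e (e.symm ⟨x, hx⟩) : F₀) : K) = x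
    rw [RingEquiv.apply_symm_apply]
  refine ⟨φ, ι, hφ, h2, hι, hsurj, ?_⟩
  by_contra hcon
  push_neg at hcon
  have hsurj2 : Function.Surjective ι := fun x => hsurj x (hcon x)
  have h3 : Fintype.card K ≤ Fintype.card F := Fintype.card_le_of_surjective _ hsurj2
  rw [hK, hF] at h3
  nlinarith

/-- the data for the coordinates -/
theorem exists_all {q : ℕ} (hK : Fintype.card K = q ^ 2) (hF : Fintype.card F = q) :
    ∃ (φ : K →+* K) (ι : F →+* K) (δ s ζ f : K), (∀ x, φ x = x ^ q) ∧ (∀ x, φ (φ x) = x)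
      ∧ (∀ x, φ (ι x) = ι x) ∧ (∀ x, φ x = x → ∃ y, ι y = x)
      ∧ δ ≠ 0 ∧ φ δ = -δ ∧ s * φ s = -1 ∧ ζ * φ ζ = 1 ∧ ζ ≠ 1 ∧ δ * (φ f - f) = 1 := by
  obtain ⟨φ, ι, hφ, h2, hι, hsurj, w, hw⟩ := exists_setup hK hF
  have hq : 2 ≤ q := by
    rw [← hF]; exact Fintype.one_lt_card
  obtain ⟨δ, s, ζ, hδ0, hδ, hs, hζ, hζ1⟩ := Cfsg.Agent.Lib.LawFam.exists_data hK hq
  have hδ' : φ δ = -δ := by rw [hφ, hδ]
  have hs' : s * φ s = -1 := by rw [hφ, hs]
  have hζ' : ζ * φ ζ = 1 := by rw [hφ, hζ]
  have hw' : φ w - w ≠ 0 := sub_ne_zero.2 hw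
  have ht0 : δ * (φ w - w) ≠ 0 := mul_ne_zero hδ0 hw'
  have hφt : φ (δ * (φ w - w)) = δ * (φ w - w) := by
    rw [map_mul, map_sub, h2, hδ']; ring
  refine ⟨φ, ι, δ, s, ζ, w / (δ * (φ w - w)), hφ, h2, hι, hsurj, hδ0, hδ', hs', hζ', hζ1, ?_⟩
  rw [map_div₀, hφt, ← sub_div, ← mul_div_assoc, div_self ht0]

end setup

section transfer

variable {K F : Type*} [Field K] [Field F] [Algebra F K]
variable {A J : Type*} [Fintype A] [DecidableEq A] [Fintype J] [DecidableEq J]

/-- Matrices over `K` as matrices over `F`. -/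
noncomputable def transferMat (ρ : (A → F) ≃ₗ[F] (J → K)) : Matrix J J K →* Matrix A A F where
  toFun B := LinearMap.toMatrix' (ρ.symm.toLinearMap ∘ₗ (B.mulVecLin.restrictScalars F) ∘ₗ ρ.toLinearMap)
  map_one' := by
    have : (ρ.symm.toLinearMap ∘ₗ ((1 : Matrix J J K).mulVecLin.restrictScalars F) ∘ₗ ρ.toLinearMap)
        = LinearMap.id := by
      apply LinearMap.ext
      intro v
      simp
    rw [this, LinearMap.toMatrix'_id]
  map_mul' B C := by
    rw [← LinearMap.toMatrix'_comp]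
    congr 1
    apply LinearMap.ext
    intro v
    simp [Matrix.mulVec_mulVec]

theorem transferMat_mulVec (ρ : (A → F) ≃ₗ[F] (J → K)) (B : Matrix J J K) (v : A → F) :
    ρ (transferMat ρ B *ᵥ v) = B *ᵥ ρ v := by
  show ρ (LinearMap.toMatrix' (ρ.symm.toLinearMap ∘ₗ (B.mulVecLin.restrictScalars F) ∘ₗ ρ.toLinearMap) *ᵥ v) = _
  rw [LinearMap.toMatrix'_mulVec]
  simp

/-- Transfer on unit groups. -/
theorem exists_transfer (ρ : (A → F) ≃ₗ[F] (J → K)) :
    ∃ Φ : GL J K →* GL A F, Function.Injective Φ ∧ ∀ g v, ρ ((Φ g).1 *ᵥ v) = g.1 *ᵥ ρ v := by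
  refine ⟨Units.map (transferMat ρ : Matrix J J K →* Matrix A A F), ?_, ?_⟩
  · intro g h hgh
    apply Units.ext
    apply Matrix.ext_of_mulVec_single
    intro j
    have h1 : transferMat ρ g.1 = transferMat ρ h.1 := congrArg Units.val hgh
    have h2 := transferMat_mulVec ρ g.1 (ρ.symm (Pi.single j 1))
    have h3 := transferMat_mulVec ρ h.1 (ρ.symm (Pi.single j 1))
    rw [h1, h3] at h2
    simpa using h2.symm
  · intro g v
    exact transferMat_mulVec ρ g.1 v

theorem exists_equiv [Fintype K] [Fintype F] {q : ℕ} (hK : Fintype.card K = q ^ 2) (hF : Fintype.card F = q)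
    (hc : Fintype.card A = 2 * Fintype.card J) (ρ₀ : (A → F) →ₗ[F] (J → K)) (h : Function.Injective ρ₀) :
    ∃ ρ : (A → F) ≃ₗ[F] (J → K), ∀ v, ρ v = ρ₀ v := by
  classical
  have hb : Function.Bijective ρ₀ := by
    rw [Fintype.bijective_iff_injective_and_card]
    refine ⟨h, ?_⟩
    rw [Fintype.card_fun, Fintype.card_fun, hK, hF, hc, pow_mul]
  exact ⟨LinearEquiv.ofBijective ρ₀ hb, fun v => rfl⟩

end transfer

section forms

variable {K F : Type*} [Field K] [Field F] [Algebra F K]

/-- coordinates on `K`. -/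
theorem coord_inj {φ : K →+* K} {δ f : K} (hι : ∀ x : F, φ (algebraMap F K x) = algebraMap F K x)
    (hf : δ * (φ f - f) = 1) {a b : F} (h : algebraMap F K a + algebraMap F K b * f = 0) :
    a = 0 ∧ b = 0 := by
  have h1 : φ (algebraMap F K a + algebraMap F K b * f) = 0 := by rw [h, map_zero]
  rw [map_add, map_mul, hι, hι] at h1
  have hb : algebraMap F K b = 0 := by
    linear_combination (δ * (h1 - h)) - algebraMap F K b * hf
  have hb0 : b = 0 := by simpa using hb
  subst hb0
  simp only [map_zero, zero_mul, add_zero] at h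
  exact ⟨by simpa using h, rfl⟩


variable {A : Type*} [Fintype A] [DecidableEq A]

/-- the symplectic coordinates -/
noncomputable def symρ (f : K) : (A ⊕ A → F) →ₗ[F] (A → K) where
  toFun v := fun i => algebraMap F K (v (Sum.inl i)) + algebraMap F K (v (Sum.inr i)) * f
  map_add' a b := by
    funext i
    simp only [Pi.add_apply, map_add]
    ring
  map_smul' c a := by
    funext i
    show algebraMap F K (c * a (Sum.inl i)) + algebraMap F K (c * a (Sum.inr i)) * f = c • _
    rw [Algebra.smul_def, map_mul, map_mul]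
    ring

theorem symρ_apply (f : K) (v : A ⊕ A → F) (i : A) :
    symρ f v i = algebraMap F K (v (Sum.inl i)) + algebraMap F K (v (Sum.inr i)) * f := rfl

theorem symρ_injective {φ : K →+* K} {δ f : K} (hι : ∀ x : F, φ (algebraMap F K x) = algebraMap F K x)
    (hf : δ * (φ f - f) = 1) : Function.Injective (symρ (F := F) (A := A) f) := by
  rw [injective_iff_map_eq_zero]
  intro v hv
  have key : ∀ i, v (Sum.inl i) = 0 ∧ v (Sum.inr i) = 0 := fun i => coord_inj hι hf (congrFun hv i)
  funext i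
  rcases i with i | i
  · exact (key i).1
  · exact (key i).2

/-- the symplectic pairing in coordinates -/
theorem sym_formula {φ : K →+* K} {δ f : K} (hι : ∀ x : F, φ (algebraMap F K x) = algebraMap F K x)
    (hf : δ * (φ f - f) = 1) (x y x' y' : F) :
    δ * ((algebraMap F K x + algebraMap F K y * f) * φ (algebraMap F K x' + algebraMap F K y' * f)
        - (algebraMap F K x' + algebraMap F K y' * f) * φ (algebraMap F K x + algebraMap F K y * f))
      = algebraMap F K (x * y' - y * x') := by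
  simp only [map_add, map_mul, hι, map_sub]
  linear_combination (algebraMap F K x * algebraMap F K y' - algebraMap F K y * algebraMap F K x') * hf

/-- the hyperbolic block -/
theorem hyp_formula {φ : K →+* K} {δ s ζ β f : K} (hι : ∀ x : F, φ (algebraMap F K x) = algebraMap F K x)
    (hδ : φ δ = -δ) (hs : s * φ s = -1) (hζ : ζ * φ ζ = 1) (hβ : β * (1 - ζ) = δ)
    (hf : δ * (φ f - f) = 1) (x₀ x₁ : K) :
    (x₀ + β * x₁) * φ (x₀ + β * x₁) + (s * x₀ + s * ζ * β * x₁) * φ (s * x₀ + s * ζ * β * x₁)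
      = δ * (x₁ * φ x₀ - x₀ * φ x₁) := by
  have hβ' : φ β * (1 - φ ζ) = -δ := by
    have := congrArg φ hβ
    rwa [map_mul, map_sub, map_one, hδ] at this
  simp only [map_add, map_mul]
  linear_combination (x₁ * φ x₀) * hβ + (x₀ * φ x₁) * hβ' + (x₀ * φ x₀ + φ ζ * φ β * x₀ * φ x₁ + ζ * β * x₁ * φ x₀ + ζ * φ ζ * β * φ β * x₁ * φ x₁) * hs
    + (β * φ β * x₁ * φ x₁ * (-1)) * hζ

end forms

section hyp

variable {K F : Type*} [Field K] [Field F] [Algebra F K]
variable {A B : Type*} [Fintype A] [DecidableEq A] [Fintype B] [DecidableEq B]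

/-- first coordinate of a block -/
noncomputable def x0 (e : A ≃ B ⊕ B) (f : K) (v : A ⊕ A → F) (j : B) : K :=
  algebraMap F K (v (Sum.inr (e.symm (Sum.inr j)))) + algebraMap F K (v (Sum.inr (e.symm (Sum.inl j)))) * f

/-- second coordinate of a block -/
noncomputable def x1 (e : A ≃ B ⊕ B) (f : K) (v : A ⊕ A → F) (j : B) : K :=
  algebraMap F K (v (Sum.inl (e.symm (Sum.inl j)))) + algebraMap F K (-(v (Sum.inl (e.symm (Sum.inr j))))) * f

/-- hyperbolic coordinates. -/
noncomputable def hypρ (e : A ≃ B ⊕ B) (β s ζ f : K) : (A ⊕ A → F) →ₗ[F] (A → K) where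
  toFun v := fun a => Sum.elim (fun j => x0 e f v j + β * x1 e f v j)
    (fun j => s * x0 e f v j + s * ζ * β * x1 e f v j) (e a)
  map_add' a b := by
    funext i
    dsimp only [Pi.add_apply]
    generalize e i = u
    rcases u with j | j <;> simp only [Sum.elim_inl, Sum.elim_inr, Pi.add_apply, x0, x1, map_add, map_neg, neg_add] <;> ring
  map_smul' c a := by
    funext i
    dsimp only [Pi.smul_apply, RingHom.id_apply]
    generalize e i = u
    rcases u with j | j <;> simp only [Sum.elim_inl, Sum.elim_inr, Pi.smul_apply, RingHom.id_apply, x0, x1, smul_eq_mul,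
      map_mul, map_neg, Algebra.smul_def (R := F) (A := K), mul_neg] <;> ring

variable {φ : K →+* K} {δ s ζ β f : K}

theorem hypρ_injective (hι : ∀ x : F, φ (algebraMap F K x) = algebraMap F K x)
    (hs : s * φ s = -1) (hδ0 : δ ≠ 0) (hβ : β * (1 - ζ) = δ)
    (hf : δ * (φ f - f) = 1) (e : A ≃ B ⊕ B) : Function.Injective (hypρ (F := F) e β s ζ f) := by
  rw [injective_iff_map_eq_zero]
  intro v hv
  have hs0 : s ≠ 0 := by
    rintro rfl
    simp at hs
  have key : ∀ j, x0 e f v j = 0 ∧ x1 e f v j = 0 := by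
    intro j
    have h1 : x0 e f v j + β * x1 e f v j = 0 := by
      have := congrFun hv (e.symm (Sum.inl j))
      simpa [hypρ] using this
    have h2 : s * x0 e f v j + s * ζ * β * x1 e f v j = 0 := by
      have := congrFun hv (e.symm (Sum.inr j))
      simpa [hypρ] using this
    have h3 : x0 e f v j + ζ * β * x1 e f v j = 0 := by
      apply mul_left_cancel₀ hs0
      rw [mul_zero, ← h2]; ring
    have h4 : δ * x1 e f v j = 0 := by
      rw [← hβ]
      linear_combination h1 - h3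
    have h5 : x1 e f v j = 0 := (mul_eq_zero.1 h4).resolve_left hδ0
    refine ⟨?_, h5⟩
    rw [h5, mul_zero, add_zero] at h1
    exact h1
  have key2 : ∀ a : A, v (Sum.inl a) = 0 ∧ v (Sum.inr a) = 0 := by
    intro a
    obtain ⟨u, rfl⟩ := e.symm.surjective a
    rcases u with j | j
    · exact ⟨(coord_inj hι hf (key j).2).1, (coord_inj hι hf (key j).1).2⟩
    · refine ⟨?_, (coord_inj hι hf (key j).1).1⟩
      exact neg_eq_zero.1 (coord_inj hι hf (key j).2).2
  funext i
  rcases i with i | i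
  · exact (key2 i).1
  · exact (key2 i).2

theorem hypρ_norm (hι : ∀ x : F, φ (algebraMap F K x) = algebraMap F K x) (hδ : φ δ = -δ) (hs : s * φ s = -1)
    (hζ : ζ * φ ζ = 1) (hβ : β * (1 - ζ) = δ)
    (hf : δ * (φ f - f) = 1) (e : A ≃ B ⊕ B) (v : A ⊕ A → F) :
    ∑ a, hypρ e β s ζ f v a * φ (hypρ e β s ζ f v a) = algebraMap F K (∑ a, v (Sum.inl a) * v (Sum.inr a)) := by
  have h1 : ∀ a, hypρ e β s ζ f v a = Sum.elim (fun j => x0 e f v j + β * x1 e f v j)
    (fun j => s * x0 e f v j + s * ζ * β * x1 e f v j) (e a) := fun a => rfl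
  simp only [h1]
  rw [Equiv.sum_comp e (fun u => Sum.elim (fun j => x0 e f v j + β * x1 e f v j)
    (fun j => s * x0 e f v j + s * ζ * β * x1 e f v j) u * φ (Sum.elim (fun j => x0 e f v j + β * x1 e f v j)
    (fun j => s * x0 e f v j + s * ζ * β * x1 e f v j) u))]
  rw [← Equiv.sum_comp e.symm (fun a => v (Sum.inl a) * v (Sum.inr a))]
  rw [Fintype.sum_sum_type, Fintype.sum_sum_type, map_add, map_sum, map_sum, ← Finset.sum_add_distrib,
    ← Finset.sum_add_distrib]
  refine Finset.sum_congr rfl fun j _ => ?_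
  simp only [Sum.elim_inl, Sum.elim_inr]
  rw [hyp_formula hι hδ hs hζ hβ hf]
  have := sym_formula hι hf (v (Sum.inl (e.symm (Sum.inl j)))) (-(v (Sum.inl (e.symm (Sum.inr j)))))
    (v (Sum.inr (e.symm (Sum.inr j)))) (v (Sum.inr (e.symm (Sum.inl j))))
  rw [x0, x1, this, ← map_add]
  congr 1
  ring

end hyp

section final
open Cfsg

variable {K F : Type*} [Field K] [Field F] [Algebra F K]

theorem herm_self {q : ℕ} {φ : K →+* K} (hφ : ∀ x, φ x = x ^ q) (m : ℕ) (u w : Fin m → K) :
    hermForm m K q u w = ∑ i, u i * φ (w i) := by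
  simp only [hermForm, hφ]

/-- embedding into the isometry group, from an identification of `F^A` with `K^m` -/
theorem exists_iso_embed {A : Type} [Fintype A] [DecidableEq A] {q m : ℕ}
    (ρ : (A → F) ≃ₗ[F] (Fin m → K)) (Q : (A → F) → F)
    (hQ : ∀ v, algebraMap F K (Q v) = hermForm m K q (ρ v) (ρ v)) :
    ∃ ψ : ↥(GU m K q) →* ↥(isometryGroup F Q), Function.Injective ψ := by
  classical
  obtain ⟨Φ, hΦ, hΦ2⟩ := exists_transfer ρ
  have hpres : ∀ g : GU m K q, ∀ v, Q ((Φ g.1).1 *ᵥ v) = Q v := by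
    intro g v
    apply (algebraMap F K).injective
    rw [hQ, hQ, hΦ2]
    exact g.2 (ρ v) (ρ v)
  refine ⟨(Φ.comp (GU m K q).subtype).codRestrict (isometryGroup F Q) (fun g u _ => hpres g u), ?_⟩
  intro a b hab
  apply Subtype.ext
  apply hΦ
  exact congrArg Subtype.val hab

end final

end Cfsg.Agent.Lib.GUEmbed
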