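import Cfsg.Agent.Lib.FlagCount
import Cfsg.Prelude.Def_JordanBlocks
import Mathlib

/-!
The centraliser in `GL` of a unipotent matrix of given Jordan type.
-/

set_option linter.all false

open scoped MatrixGroups
open Finset

noncomputable section

namespace Cfsg.Agent.Lib.JordanCent

variable {F : Type*} [Field F] {t : ℕ} (d : Fin t → ℕ)

/-- Index type. -/
abbrev Idx : Type := (k : Fin t) × Fin (d k)

/-- The nilpotent part. -/
def NN : Matrix (Idx d) (Idx d) F := fun p r => if p.1 = r.1 ∧ (p.2 : ℕ) = (r.2 : ℕ) + 1 then 1 else 0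

theorem jordan_eq : Cfsg.jordanTypeMatrix d F = 1 + NN d := by
  ext ⟨a, x⟩ ⟨b, y⟩
  rw [Matrix.add_apply]
  unfold Cfsg.jordanTypeMatrix
  rw [Matrix.blockDiagonal'_apply]
  by_cases hab : a = b
  · subst hab
    rw [dif_pos rfl]
    simp only [Cfsg.jordanBlock, Matrix.of_apply, NN, cast_eq, true_and]
    by_cases hxy : x = y
    · subst hxy
      simp
    · have h1 : (x : ℕ) ≠ y := fun h => hxy (Fin.ext h)
      have h2 : (⟨a, x⟩ : Idx d) ≠ ⟨a, y⟩ := by
        intro h
        exact hxy (eq_of_heq (Sigma.mk.inj h).2)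
      rw [Matrix.one_apply_ne h2, zero_add, if_neg h1]
  · rw [dif_neg hab]
    have h2 : (⟨a, x⟩ : Idx d) ≠ ⟨b, y⟩ := by
      intro h
      exact hab (Sigma.mk.inj h).1
    rw [Matrix.one_apply_ne h2]
    simp [NN, hab]

theorem comm_iff (M : Matrix (Idx d) (Idx d) F) :
    M * Cfsg.jordanTypeMatrix d F = Cfsg.jordanTypeMatrix d F * M ↔ M * NN d = NN d * M := by
  rw [jordan_eq, mul_add, add_mul, mul_one, one_mul]
  exact add_right_inj M

theorem mul_NN (M : Matrix (Idx d) (Idx d) F) (p : Idx d) (k : Fin t) (j : Fin (d k)) :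
    (M * NN d : Matrix (Idx d) (Idx d) F) p ⟨k, j⟩ = if h : (j : ℕ) + 1 < d k then M p ⟨k, ⟨j + 1, h⟩⟩ else 0 := by
  rw [Matrix.mul_apply]
  split_ifs with h
  · rw [Finset.sum_eq_single (⟨k, ⟨j + 1, h⟩⟩ : Idx d)]
    · simp [NN]
    · rintro ⟨a, x⟩ _ hne
      have : NN d (⟨a, x⟩ : Idx d) ⟨k, j⟩ = (0 : F) := by
        unfold NN
        rw [if_neg]
        rintro ⟨h1, h2⟩
        simp only at h1 h2
        subst h1
        exact hne (by
          congr 1
          exact Fin.ext h2)
      rw [this, mul_zero]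
    · simp
  · apply Finset.sum_eq_zero
    rintro ⟨a, x⟩ _
    have : NN d (⟨a, x⟩ : Idx d) ⟨k, j⟩ = (0 : F) := by
      unfold NN
      rw [if_neg]
      rintro ⟨h1, h2⟩
      simp only at h1 h2
      subst h1
      have := x.2
      omega
    rw [this, mul_zero]

theorem NN_mul (M : Matrix (Idx d) (Idx d) F) (l : Fin t) (i : Fin (d l)) (r : Idx d) :
    (NN d * M : Matrix (Idx d) (Idx d) F) ⟨l, i⟩ r = if h : 0 < (i : ℕ) then M ⟨l, ⟨i - 1, by have := i.2; omega⟩⟩ r else 0 := by
  rw [Matrix.mul_apply]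
  split_ifs with h
  · rw [Finset.sum_eq_single (⟨l, ⟨i - 1, by have := i.2; omega⟩⟩ : Idx d)]
    · have : NN d (⟨l, i⟩ : Idx d) ⟨l, ⟨i - 1, by have := i.2; omega⟩⟩ = (1 : F) := by
        unfold NN
        rw [if_pos]
        simp only [true_and]
        omega
      rw [this, one_mul]
    · rintro ⟨a, x⟩ _ hne
      have : NN d (⟨l, i⟩ : Idx d) ⟨a, x⟩ = (0 : F) := by
        unfold NN
        rw [if_neg]
        rintro ⟨h1, h2⟩
        simp only at h1 h2
        subst h1
        exact hne (by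
          congr 1
          apply Fin.ext
          simp only
          omega)
      rw [this, zero_mul]
    · simp
  · apply Finset.sum_eq_zero
    rintro ⟨a, x⟩ _
    have : NN d (⟨l, i⟩ : Idx d) ⟨a, x⟩ = (0 : F) := by
      unfold NN
      rw [if_neg]
      rintro ⟨h1, h2⟩
      simp only at h1 h2
      omega
    rw [this, zero_mul]

/-- Extension by zero of the entries. -/
def ent (M : Matrix (Idx d) (Idx d) F) (l k : Fin t) (i j : ℕ) : F :=
  if h : i < d l ∧ j < d k then M ⟨l, ⟨i, h.1⟩⟩ ⟨k, ⟨j, h.2⟩⟩ else 0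

theorem ent_of (M : Matrix (Idx d) (Idx d) F) (l k : Fin t) (i : Fin (d l)) (j : Fin (d k)) :
    ent d M l k i j = M ⟨l, i⟩ ⟨k, j⟩ := by
  unfold ent
  rw [dif_pos ⟨i.2, j.2⟩]

theorem ent_of' (M : Matrix (Idx d) (Idx d) F) (l k : Fin t) {i j : ℕ} (hi : i < d l) (hj : j < d k) :
    ent d M l k i j = M ⟨l, ⟨i, hi⟩⟩ ⟨k, ⟨j, hj⟩⟩ := by
  unfold ent
  rw [dif_pos ⟨hi, hj⟩]

theorem ent_out (M : Matrix (Idx d) (Idx d) F) (l k : Fin t) {i j : ℕ} (h : ¬ (i < d l ∧ j < d k)) :
    ent d M l k i j = 0 := by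
  unfold ent
  rw [dif_neg h]

variable {d}

theorem rel_of_comm {M : Matrix (Idx d) (Idx d) F} (hM : M * NN d = NN d * M) (l k : Fin t) {i j : ℕ}
    (hi : i < d l) (hj : j < d k) :
    ent d M l k i (j + 1) = if 1 ≤ i then ent d M l k (i - 1) j else 0 := by
  have h1 := congrFun (congrFun hM ⟨l, ⟨i, hi⟩⟩) ⟨k, ⟨j, hj⟩⟩
  rw [mul_NN, NN_mul] at h1
  simp only at h1
  have hL : (if h : j + 1 < d k then M ⟨l, ⟨i, hi⟩⟩ ⟨k, ⟨j + 1, h⟩⟩ else 0) = ent d M l k i (j + 1) := by
    by_cases hj1 : j + 1 < d k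
    · rw [dif_pos hj1, ent_of' d M l k hi hj1]
    · rw [dif_neg hj1, ent_out d M l k (fun h => hj1 h.2)]
  have hR : (if h : 0 < i then M ⟨l, ⟨i - 1, by omega⟩⟩ ⟨k, ⟨j, hj⟩⟩ else 0) =
      if 1 ≤ i then ent d M l k (i - 1) j else 0 := by
    by_cases hi1 : 0 < i
    · rw [dif_pos hi1, if_pos (by omega : 1 ≤ i), ent_of' d M l k (by omega) hj]
    · rw [dif_neg hi1, if_neg (by omega)]
  rw [← hL, ← hR]
  exact h1

theorem struct_of_comm {M : Matrix (Idx d) (Idx d) F} (hM : M * NN d = NN d * M) (l k : Fin t) (j : ℕ) :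
    ∀ i, i < d l → j < d k → ent d M l k i j = if j ≤ i then ent d M l k (i - j) 0 else 0 := by
  induction j with
  | zero =>
    intro i _ _
    simp
  | succ j ih =>
    intro i hi hj
    rw [rel_of_comm hM l k hi (by omega : j < d k)]
    by_cases hi1 : 1 ≤ i
    · rw [if_pos hi1, ih (i - 1) (by omega) (by omega)]
      by_cases h2 : j ≤ i - 1
      · rw [if_pos h2, if_pos (by omega)]
        congr 1
        omega
      · rw [if_neg h2, if_neg (by omega)]
    · rw [if_neg hi1, if_neg (by omega)]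

theorem vanish_of_comm (hd : ∀ k, 1 ≤ d k) {M : Matrix (Idx d) (Idx d) F} (hM : M * NN d = NN d * M) (l k : Fin t) {s : ℕ}
    (hs : s + d k < d l) : ent d M l k s 0 = 0 := by
  have h1 := hd k
  have h2 := rel_of_comm hM l k (i := s + d k) (j := d k - 1) hs (by omega)
  rw [ent_out d M l k (i := s + d k) (j := d k - 1 + 1) (fun h => by have := h.2; omega), if_pos (by omega)] at h2
  rw [struct_of_comm hM l k (d k - 1) _ (by omega) (by omega), if_pos (by omega)] at h2
  have h3 : s + d k - 1 - (d k - 1) = s := by omega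
  rw [h3] at h2
  exact h2.symm

variable (d)

/-- Matrices from their free entries. -/
def mk (c : Fin t → Fin t → ℕ → F) : Matrix (Idx d) (Idx d) F := fun p r =>
  if (r.2 : ℕ) ≤ (p.2 : ℕ) ∧ d p.1 ≤ (p.2 : ℕ) - (r.2 : ℕ) + d r.1 then c p.1 r.1 ((p.2 : ℕ) - (r.2 : ℕ)) else 0

variable {d}

theorem mk_comm (c : Fin t → Fin t → ℕ → F) : mk d c * NN d = NN d * mk d c := by
  ext ⟨l, i⟩ ⟨k, j⟩
  rw [mul_NN, NN_mul]
  have hi := i.2
  have hj := j.2
  by_cases h1 : (j : ℕ) + 1 < d k
  · rw [dif_pos h1]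
    by_cases h2 : 0 < (i : ℕ)
    · rw [dif_pos h2]
      simp only [mk]
      by_cases h3 : (j : ℕ) + 1 ≤ i ∧ d l ≤ (i : ℕ) - ((j : ℕ) + 1) + d k
      · rw [if_pos h3, if_pos (by omega)]
        congr 1
        omega
      · rw [if_neg h3, if_neg (by omega)]
    · rw [dif_neg h2]
      simp only [mk]
      rw [if_neg (by omega)]
  · rw [dif_neg h1]
    by_cases h2 : 0 < (i : ℕ)
    · rw [dif_pos h2]
      simp only [mk]
      rw [if_neg (by omega)]
    · rw [dif_neg h2]

theorem eq_mk (hd : ∀ k, 1 ≤ d k) {M : Matrix (Idx d) (Idx d) F} (hM : M * NN d = NN d * M)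
    {c : Fin t → Fin t → ℕ → F} (hc : ∀ l k i, i < d l → d l ≤ i + d k → c l k i = ent d M l k i 0) :
    mk d c = M := by
  ext ⟨l, i⟩ ⟨k, j⟩
  have hi := i.2
  have hj := j.2
  have h1 := struct_of_comm hM l k j i hi hj
  rw [ent_of] at h1
  rw [h1]
  simp only [mk]
  by_cases h2 : (j : ℕ) ≤ i
  · rw [if_pos h2]
    by_cases h3 : d l ≤ (i : ℕ) - (j : ℕ) + d k
    · rw [if_pos ⟨h2, h3⟩]
      exact hc l k _ (by omega) h3
    · rw [if_neg (fun h => h3 h.2)]
      exact (vanish_of_comm hd hM l k (by omega)).symm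
  · rw [if_neg (fun h => h2 h.1), if_neg h2]

/-- The action on the top. -/
def tau (M : Matrix (Idx d) (Idx d) F) : Matrix (Fin t) (Fin t) F := fun l k => ent d M l k 0 0

theorem tau_mul (hd : ∀ k, 1 ≤ d k) {M : Matrix (Idx d) (Idx d) F} (hM : M * NN d = NN d * M)
    (M' : Matrix (Idx d) (Idx d) F) : tau (M * M') = tau M * tau M' := by
  ext l k
  have hl : 0 < d l := hd l
  have hk : 0 < d k := hd k
  rw [Matrix.mul_apply]
  show ent d (M * M') l k 0 0 = _
  rw [ent_of' d (M * M') l k hl hk, Matrix.mul_apply, Fintype.sum_sigma]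
  apply Finset.sum_congr rfl
  intro s _
  have hs : 0 < d s := hd s
  rw [Finset.sum_eq_single (⟨0, hs⟩ : Fin (d s))]
  · show _ = ent d M l s 0 0 * ent d M' s k 0 0
    rw [ent_of' d M l s hl hs, ent_of' d M' s k hs hk]
  · intro y _ hy
    have hy0 : (y : ℕ) ≠ 0 := fun h => hy (Fin.ext h)
    obtain ⟨y', hy'⟩ := Nat.exists_eq_succ_of_ne_zero hy0
    have h1 := rel_of_comm hM l s (i := 0) (j := y') hl (by have := y.2; omega)
    rw [if_neg (by omega)] at h1
    have h2 : M ⟨l, ⟨0, hl⟩⟩ ⟨s, y⟩ = 0 := by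
      have h3 := ent_of d M l s ⟨0, hl⟩ y
      rw [← h3, hy']
      exact h1
    rw [h2, zero_mul]
  · simp

theorem tau_one (hd : ∀ k, 1 ≤ d k) : tau (1 : Matrix (Idx d) (Idx d) F) = 1 := by
  ext l k
  have hl : 0 < d l := hd l
  have hk : 0 < d k := hd k
  show ent d 1 l k 0 0 = _
  rw [ent_of' d 1 l k hl hk]
  by_cases hlk : l = k
  · subst hlk
    simp
  · rw [Matrix.one_apply_ne hlk, Matrix.one_apply_ne]
    intro h
    exact hlk (Sigma.mk.inj h).1

theorem isUnit_of_tau (hd : ∀ k, 1 ≤ d k) {M : Matrix (Idx d) (Idx d) F} (hM : M * NN d = NN d * M)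
    {B : Matrix (Fin t) (Fin t) F} (hB : tau M * B = 1) : IsUnit M := by
  classical
  rw [← Matrix.mulVec_surjective_iff_isUnit]
  have hMw : ∀ (b : Fin t → F) (m : ℕ) (l : Fin t) (i : Fin (d l)),
      M.mulVec (fun r : Idx d => if (r.2 : ℕ) = m then b r.1 else 0) ⟨l, i⟩ = ∑ s, ent d M l s i m * b s := by
    intro b m l i
    rw [Matrix.mulVec, dotProduct, Fintype.sum_sigma]
    apply Finset.sum_congr rfl
    intro s _
    by_cases hm : m < d s
    · rw [Finset.sum_eq_single (⟨m, hm⟩ : Fin (d s))]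
      · simp only [if_true]
        rw [ent_of' d M l s i.2 hm]
      · intro y _ hy
        have : (y : ℕ) ≠ m := fun h => hy (Fin.ext h)
        simp [this]
      · simp
    · rw [ent_out d M l s (fun h => hm h.2), zero_mul]
      apply Finset.sum_eq_zero
      intro y _
      have : (y : ℕ) ≠ m := by
        have := y.2
        omega
      simp [this]
  obtain ⟨K, hK⟩ : ∃ K, ∀ l, d l ≤ K := ⟨Finset.univ.sup d, fun l => Finset.le_sup (Finset.mem_univ l)⟩
  have key : ∀ e m, K ≤ m + e → ∀ v : Idx d → F, (∀ (l : Fin t) (i : Fin (d l)), (i : ℕ) < m → v ⟨l, i⟩ = 0) →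
      ∃ w, M.mulVec w = v := by
    intro e
    induction e with
    | zero =>
      intro m hm v hv
      refine ⟨0, ?_⟩
      rw [Matrix.mulVec_zero]
      funext ⟨l, i⟩
      have h1 := hK l
      have h2 := i.2
      exact (hv l i (by omega)).symm
    | succ e ih =>
      intro m hm v hv
      let u : Fin t → F := fun l => if h : m < d l then v ⟨l, ⟨m, h⟩⟩ else 0
      let b : Fin t → F := B.mulVec u
      let w₀ : Idx d → F := fun r => if (r.2 : ℕ) = m then b r.1 else 0
      obtain ⟨w₁, hw₁⟩ := ih (m + 1) (by omega) (v - M.mulVec w₀) (by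
        intro l i hi
        rw [Pi.sub_apply, hMw b m l i]
        by_cases him : (i : ℕ) = m
        · have h1 : ∀ s, ent d M l s i m = tau M l s := by
            intro s
            show _ = ent d M l s 0 0
            by_cases hms : m < d s
            · rw [struct_of_comm hM l s m i i.2 hms, if_pos (by omega), him, Nat.sub_self]
            · rw [ent_out d M l s (fun h => hms h.2)]
              have h2 := i.2
              exact (vanish_of_comm hd hM l s (by omega)).symm
          have h3 : ∑ s, ent d M l s i m * b s = u l := by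
            rw [Finset.sum_congr rfl (fun s _ => by rw [h1 s])]
            have h4 : (tau M).mulVec b = u := by
              simp only [b]
              rw [Matrix.mulVec_mulVec, hB, Matrix.one_mulVec]
            exact congrFun h4 l
          rw [h3]
          simp only [u]
          have h5 : m < d l := by
            have := i.2
            omega
          rw [dif_pos h5, sub_eq_zero]
          congr 2
          exact Fin.ext him
        · have h1 : (i : ℕ) < m := by omega
          rw [hv l i h1, zero_sub, neg_eq_zero]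
          apply Finset.sum_eq_zero
          intro s _
          by_cases hms : m < d s
          · rw [struct_of_comm hM l s m i i.2 hms, if_neg (by omega), zero_mul]
          · rw [ent_out d M l s (fun h => hms h.2), zero_mul])
      refine ⟨w₀ + w₁, ?_⟩
      rw [Matrix.mulVec_add, hw₁]
      simp
  intro v
  exact key K 0 (by omega) v (fun l i hi => absurd hi (by omega))

variable (d)

/-- Free coordinates of positive depth. -/
abbrev T1 : Type := (l : Fin t) × (k : Fin t) × {i : Fin (d l) // 1 ≤ (i : ℕ) ∧ d l ≤ (i : ℕ) + d k}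

/-- Data for a matrix. -/
def raw (B : Matrix (Fin t) (Fin t) F) (c' : T1 d → F) : Fin t → Fin t → ℕ → F := fun l k i =>
  if i = 0 then B l k else if h : i < d l ∧ 1 ≤ i ∧ d l ≤ i + d k then c' ⟨l, k, ⟨⟨i, h.1⟩, h.2⟩⟩ else 0

/-- Labels by block size. -/
def lab {D : ℕ} (hD : ∀ k, d k ≤ D) : Fin t → Fin (D + 1) := fun k => ⟨d k, Nat.lt_succ_of_le (hD k)⟩

variable {d}

theorem ent_mk0 (c : Fin t → Fin t → ℕ → F) (l k : Fin t) {i : ℕ} (hi : i < d l) (hk : 0 < d k) :
    ent d (mk d c) l k i 0 = if d l ≤ i + d k then c l k i else 0 := by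
  rw [ent_of' d _ l k hi hk]
  simp only [mk, Nat.sub_zero, Nat.zero_le, true_and]

theorem tau_raw (hd : ∀ k, 1 ≤ d k) {D : ℕ} (hD : ∀ k, d k ≤ D) {B : Matrix (Fin t) (Fin t) F}
    (hB : B.BlockTriangular (lab d hD)) (c' : T1 d → F) : tau (mk d (raw d B c')) = B := by
  ext l k
  show ent d _ l k 0 0 = _
  rw [ent_mk0 _ l k (hd l) (hd k)]
  simp only [raw, if_true, Nat.zero_add]
  by_cases h : d l ≤ d k
  · rw [if_pos h]
  · rw [if_neg h]
    exact (hB (show lab d hD k < lab d hD l from by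
      show d k < d l
      omega)).symm

theorem card_eq (hd : ∀ k, 1 ≤ d k) {D : ℕ} (hD : ∀ k, d k ≤ D) :
    Nat.card {g : GL (Idx d) F // (g : Matrix (Idx d) (Idx d) F) * Cfsg.jordanTypeMatrix d F =
        Cfsg.jordanTypeMatrix d F * (g : Matrix (Idx d) (Idx d) F)} =
      Nat.card ({B : GL (Fin t) F // (B : Matrix (Fin t) (Fin t) F).BlockTriangular (lab d hD)} × (T1 d → F)) := by
  classical
  have hunit : ∀ x : {B : GL (Fin t) F // (B : Matrix (Fin t) (Fin t) F).BlockTriangular (lab d hD)} × (T1 d → F),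
      IsUnit (mk d (raw d (x.1.1 : Matrix (Fin t) (Fin t) F) x.2)) := by
    intro x
    refine isUnit_of_tau hd (mk_comm _) (B := ((x.1.1⁻¹ : GL (Fin t) F) : Matrix (Fin t) (Fin t) F)) ?_
    rw [tau_raw hd hD x.1.2]
    exact Units.mul_inv x.1.1
  symm
  refine Nat.card_congr (Equiv.ofBijective (fun x => ⟨(hunit x).unit, ?_⟩) ⟨?_, ?_⟩)
  · rw [comm_iff]
    exact mk_comm _
  · intro x y h
    have h1 : mk d (raw d (x.1.1 : Matrix (Fin t) (Fin t) F) x.2) = mk d (raw d (y.1.1 : Matrix (Fin t) (Fin t) F) y.2) := by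
      have := congrArg (fun g => (g.1 : Matrix (Idx d) (Idx d) F)) h
      simpa using this
    have h2 := congrArg tau h1
    rw [tau_raw hd hD x.1.2, tau_raw hd hD y.1.2] at h2
    refine Prod.ext (Subtype.ext (Units.ext h2)) ?_
    funext ⟨l, k, ⟨i, hi⟩⟩
    have h3 := congrArg (fun M => ent d M l k i 0) h1
    rw [ent_mk0 _ l k i.2 (hd k), ent_mk0 _ l k i.2 (hd k), if_pos hi.2, if_pos hi.2] at h3
    have hi0 : (i : ℕ) ≠ 0 := by
      have := hi.1
      omega
    simp only [raw, if_neg hi0, dif_pos (show (i : ℕ) < d l ∧ 1 ≤ (i : ℕ) ∧ d l ≤ (i : ℕ) + d k from ⟨i.2, hi⟩)] at h3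
    exact h3
  · rintro ⟨g, hg⟩
    have hM : (g : Matrix (Idx d) (Idx d) F) * NN d = NN d * (g : Matrix (Idx d) (Idx d) F) := (comm_iff d _).1 hg
    have h1 : tau (g : Matrix (Idx d) (Idx d) F) * tau ((g⁻¹ : GL (Idx d) F) : Matrix (Idx d) (Idx d) F) = 1 := by
      rw [← tau_mul hd hM, ← Units.val_mul, mul_inv_cancel, Units.val_one, tau_one hd]
    have h2 : IsUnit (tau (g : Matrix (Idx d) (Idx d) F)) := (Matrix.isUnit_iff_isUnit_det _).2 (Matrix.isUnit_det_of_right_inverse h1)
    have h3 : (h2.unit : Matrix (Fin t) (Fin t) F).BlockTriangular (lab d hD) := by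
      intro l k hlk
      have h4 : d k < d l := hlk
      rw [IsUnit.unit_spec]
      exact vanish_of_comm hd hM l k (by omega)
    refine ⟨(⟨h2.unit, h3⟩, fun z => ent d (g : Matrix (Idx d) (Idx d) F) z.1 z.2.1 z.2.2.1 0), ?_⟩
    apply Subtype.ext
    apply Units.ext
    show mk d (raw d (h2.unit : Matrix (Fin t) (Fin t) F) _) = (g : Matrix (Idx d) (Idx d) F)
    apply eq_mk hd hM
    intro l k i hi hik
    by_cases hi0 : i = 0
    · subst hi0
      simp only [raw, if_true]
      rw [IsUnit.unit_spec]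
      rfl
    · simp only [raw, if_neg hi0]
      rw [dif_pos ⟨hi, by omega, hik⟩]

variable (d)

theorem card_T1 : Fintype.card (T1 d) = ∑ l, ∑ k, (d l - max 1 (d l - d k)) := by
  classical
  rw [Fintype.card_sigma]
  apply Finset.sum_congr rfl
  intro l _
  rw [Fintype.card_sigma]
  apply Finset.sum_congr rfl
  intro k _
  rw [Fintype.card_subtype]
  have h := FlagCount.card_Ico' (n := d l) (max 1 (d l - d k)) (d l) le_rfl
  rw [← h]
  congr 1
  ext i
  simp only [Finset.mem_filter, Finset.mem_univ, true_and]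
  have := i.2
  omega

theorem sum_fiber (f : ℕ → ℕ) : ∑ l, f (d l) =
    ∑ i ∈ Finset.range (Finset.univ.sup d + 1), (Finset.univ.filter (fun k : Fin t => d k = i)).card * f i := by
  rw [← Finset.sum_fiberwise_of_maps_to (s := Finset.univ) (t := Finset.range (Finset.univ.sup d + 1)) (g := d)
    (fun l _ => Finset.mem_range.2 (Nat.lt_succ_of_le (Finset.le_sup (Finset.mem_univ l)))) (fun l => f (d l))]
  apply Finset.sum_congr rfl
  intro i _
  rw [Finset.sum_congr rfl (fun l hl => by rw [(Finset.mem_filter.1 hl).2]), Finset.sum_const, smul_eq_mul]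

theorem sum_fiber2 (h : ℕ → ℕ → ℕ) : ∑ l, ∑ k, h (d l) (d k) =
    ∑ i ∈ Finset.range (Finset.univ.sup d + 1), ∑ j ∈ Finset.range (Finset.univ.sup d + 1),
      (Finset.univ.filter (fun k : Fin t => d k = i)).card * (Finset.univ.filter (fun k : Fin t => d k = j)).card * h i j := by
  have h1 : ∀ x, ∑ k, h x (d k) = ∑ j ∈ Finset.range (Finset.univ.sup d + 1),
      (Finset.univ.filter (fun k : Fin t => d k = j)).card * h x j := fun x => sum_fiber d (h x)
  rw [Finset.sum_congr rfl (fun l _ => h1 (d l)), sum_fiber d (fun x => ∑ j ∈ Finset.range (Finset.univ.sup d + 1),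
      (Finset.univ.filter (fun k : Fin t => d k = j)).card * h x j)]
  apply Finset.sum_congr rfl
  intro i _
  rw [Finset.mul_sum]
  apply Finset.sum_congr rfl
  intro j _
  ring

variable {d}

theorem exponent_eq (hd : ∀ k, 1 ≤ d k) :
    ∑ l, ∑ k, ((if d l < d k then 1 else 0) + (d l - max 1 (d l - d k))) =
    2 * (∑ i ∈ Finset.range (Finset.univ.sup d + 1), ∑ j ∈ Finset.range (Finset.univ.sup d + 1),
      if i < j then i * (Finset.univ.filter (fun k : Fin t => d k = i)).card * (Finset.univ.filter (fun k : Fin t => d k = j)).card else 0) +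
      ∑ i ∈ Finset.range (Finset.univ.sup d + 1), (i - 1) * (Finset.univ.filter (fun k : Fin t => d k = i)).card ^ 2 := by
  classical
  set a : ℕ → ℕ := fun i => (Finset.univ.filter (fun k : Fin t => d k = i)).card with ha
  have ha0 : a 0 = 0 := by
    simp only [ha, Finset.card_eq_zero, Finset.filter_eq_empty_iff, Finset.mem_univ, forall_true_left]
    intro k h
    have := hd k
    omega
  set R := Finset.range (Finset.univ.sup d + 1) with hR
  have key := sum_fiber2 d (fun x y => (if x < y then 1 else 0) + (x - max 1 (x - y)))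
  rw [key]
  have hpt : ∀ i j, a i * a j * ((if i < j then 1 else 0) + (i - max 1 (i - j))) =
      (if i < j then i * a i * a j else 0) + (if j < i then j * a j * a i else 0) +
        (if i = j then (i - 1) * a i ^ 2 else 0) := by
    intro i j
    by_cases hi : i = 0
    · subst hi
      rcases Nat.eq_zero_or_pos j with rfl | hj
      · simp [ha0]
      · simp [ha0, hj, hj.ne]
    by_cases hj : j = 0
    · subst hj
      have : 0 < i := Nat.pos_of_ne_zero hi
      simp [ha0, hi, this]
    rcases lt_trichotomy i j with h | h | h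
    · rw [if_pos h, if_pos h, if_neg (by omega), if_neg (by omega)]
      have h1 : i - max 1 (i - j) = i - 1 := by omega
      have h2 : 1 + (i - 1) = i := by omega
      rw [h1, h2]
      ring
    · subst h
      simp only [lt_irrefl, if_false, if_true, zero_add, add_zero]
      have h1 : i - max 1 (i - i) = i - 1 := by omega
      rw [h1]
      ring
    · rw [if_neg (by omega), if_neg (by omega), if_pos h, if_neg (by omega)]
      have h1 : i - max 1 (i - j) = j := by omega
      rw [h1]
      ring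
  rw [Finset.sum_congr rfl (fun i _ => Finset.sum_congr rfl (fun j _ => hpt i j))]
  simp only [Finset.sum_add_distrib]
  have h3 : ∑ i ∈ R, ∑ j ∈ R, (if j < i then j * a j * a i else 0) =
      ∑ i ∈ R, ∑ j ∈ R, (if i < j then i * a i * a j else 0) := by
    rw [Finset.sum_comm]
  have h4 : ∑ i ∈ R, ∑ j ∈ R, (if i = j then (i - 1) * a i ^ 2 else 0) = ∑ i ∈ R, (i - 1) * a i ^ 2 := by
    apply Finset.sum_congr rfl
    intro i hi
    rw [Finset.sum_ite_eq, if_pos hi]
  rw [h3, h4, two_mul]

theorem main [Fintype F] {q : ℕ} (hF : Fintype.card F = q) (hd : ∀ k, 1 ≤ d k) :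
    Nat.card {g : GL ((k : Fin t) × Fin (d k)) F // (g : Matrix ((k : Fin t) × Fin (d k)) ((k : Fin t) × Fin (d k)) F) * Cfsg.jordanTypeMatrix d F = Cfsg.jordanTypeMatrix d F * (g : Matrix ((k : Fin t) × Fin (d k)) ((k : Fin t) × Fin (d k)) F)} =
      q ^ (2 * (∑ i ∈ Finset.range (Finset.univ.sup d + 1), ∑ j ∈ Finset.range (Finset.univ.sup d + 1), if i < j then i * (Finset.univ.filter (fun k : Fin t => d k = i)).card * (Finset.univ.filter (fun k : Fin t => d k = j)).card else 0) + ∑ i ∈ Finset.range (Finset.univ.sup d + 1), (i - 1) * (Finset.univ.filter (fun k : Fin t => d k = i)).card ^ 2) * ∏ i ∈ Finset.range (Finset.univ.sup d + 1), ∏ j : Fin ((Finset.univ.filter (fun k : Fin t => d k = i)).card), (q ^ (Finset.univ.filter (fun k : Fin t => d k = i)).card - q ^ (j : ℕ)) := by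
  classical
  subst hF
  have hD : ∀ k, d k ≤ Finset.univ.sup d := fun k => Finset.le_sup (Finset.mem_univ k)
  rw [card_eq hd hD, Nat.card_prod, FlagCount.card_bt (lab d hD), Nat.card_fun, Nat.card_eq_fintype_card (α := F),
    Nat.card_eq_fintype_card (α := T1 d)]
  have hprod : ∏ a : Fin (Finset.univ.sup d + 1), Nat.card (GL {i // lab d hD i = a} F) =
      ∏ i ∈ Finset.range (Finset.univ.sup d + 1), ∏ j : Fin ((Finset.univ.filter (fun k : Fin t => d k = i)).card),
        (Fintype.card F ^ (Finset.univ.filter (fun k : Fin t => d k = i)).card - Fintype.card F ^ (j : ℕ)) := by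
    rw [← Fin.prod_univ_eq_prod_range (fun i => ∏ j : Fin ((Finset.univ.filter (fun k : Fin t => d k = i)).card),
        (Fintype.card F ^ (Finset.univ.filter (fun k : Fin t => d k = i)).card - Fintype.card F ^ (j : ℕ)))]
    apply Finset.prod_congr rfl
    intro a _
    apply FlagCount.card_GL_sub
    rw [Fintype.card_subtype]
    congr 1
    ext k
    simp [lab, Fin.ext_iff]
  have hexp : Fintype.card {p : Fin t × Fin t // lab d hD p.1 < lab d hD p.2} + Fintype.card (T1 d) =
      2 * (∑ i ∈ Finset.range (Finset.univ.sup d + 1), ∑ j ∈ Finset.range (Finset.univ.sup d + 1), if i < j then i * (Finset.univ.filter (fun k : Fin t => d k = i)).card * (Finset.univ.filter (fun k : Fin t => d k = j)).card else 0) + ∑ i ∈ Finset.range (Finset.univ.sup d + 1), (i - 1) * (Finset.univ.filter (fun k : Fin t => d k = i)).card ^ 2 := by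
    rw [card_T1, Fintype.card_subtype, ← exponent_eq hd, Finset.card_filter, Fintype.sum_prod_type, ← Finset.sum_add_distrib]
    apply Finset.sum_congr rfl
    intro l _
    rw [← Finset.sum_add_distrib]
    apply Finset.sum_congr rfl
    intro k _
    rfl
  rw [hprod, ← hexp, pow_add]
  ring

end Cfsg.Agent.Lib.JordanCent
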