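import Cfsg.Agent.Lib.RegUnip
import Mathlib

/-!
Regular unipotent elements of the symplectic group in odd characteristic.
-/

set_option linter.all false

open scoped MatrixGroups Matrix
open Matrix

noncomputable section

namespace Cfsg.Agent.Lib.SpRegUnip

section cyclic

variable {F : Type*} [Field F] {ι : Type*} [Fintype ι] [DecidableEq ι] {n : ℕ}

/-- Polynomial expressions in a matrix. -/
def pol (L : Matrix ι ι F) (c : Fin n → F) : Matrix ι ι F := ∑ k : Fin n, c k • L ^ (k : ℕ)

theorem pol_commute (L : Matrix ι ι F) (c : Fin n → F) {g : Matrix ι ι F} (h : Commute g L) :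
    Commute g (pol L c) := by
  unfold pol
  apply Commute.sum_right
  intro k _
  exact (h.pow_right _).smul_right _

theorem pol_mulVec (L : Matrix ι ι F) (c : Fin n → F) (v : ι → F) :
    (pol L c).mulVec v = ∑ k : Fin n, c k • (L ^ (k : ℕ)).mulVec v := by
  unfold pol
  rw [Matrix.sum_mulVec]
  apply Finset.sum_congr rfl
  intro k _
  rw [Matrix.smul_mulVec]

theorem pow_pred_ne_zero (hcard : Fintype.card ι = n) (hn : 0 < n) {L : Matrix ι ι F} (h1 : L ^ n = 0)
    (h2 : L.rank = n - 1) : L ^ (n - 1) ≠ 0 := by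
  intro h0
  let e : ι ≃ Fin n := Fintype.equivFinOfCardEq hcard
  let L' : Matrix (Fin n) (Fin n) F := Matrix.reindexAlgEquiv F F e L
  have hp : ∀ k, L' ^ k = Matrix.reindexAlgEquiv F F e (L ^ k) := fun k => (map_pow _ _ _).symm
  have h1' : L' ^ n = 0 := by rw [hp, h1, map_zero]
  have h2' : L'.rank = n - 1 := by
    show (Matrix.reindex e e L).rank = n - 1
    rw [Matrix.rank_reindex, h2]
  obtain ⟨P, hP⟩ := RegUnip.exists_cyclic hn L' h1' h2'
  have h3 : L' ^ (n - 1) = 0 := by rw [hp, h0, map_zero]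
  have h4 : ∀ k, L' ^ k * (P : Matrix (Fin n) (Fin n) F) = (P : Matrix (Fin n) (Fin n) F) * RegUnip.N0 F n ^ k := by
    intro k
    induction k with
    | zero => simp
    | succ k ih =>
      rw [pow_succ, mul_assoc, hP, ← mul_assoc, ih, mul_assoc, pow_succ]
  have h5 := h4 (n - 1)
  rw [h3, zero_mul] at h5
  have h6 : RegUnip.N0 F n ^ (n - 1) = 0 := by
    have := congrArg (fun M => ((P⁻¹ : GL (Fin n) F) : Matrix (Fin n) (Fin n) F) * M) h5
    simp only [mul_zero] at this
    rw [← mul_assoc, ← Units.val_mul, inv_mul_cancel, Units.val_one, one_mul] at this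
    exact this.symm
  have h7 := congrFun (congrFun h6 ⟨n - 1, by omega⟩) ⟨0, hn⟩
  rw [RegUnip.N0_pow_apply] at h7
  simp at h7

theorem exists_vec {L : Matrix ι ι F} (h : L ≠ 0) : ∃ v : ι → F, L.mulVec v ≠ 0 := by
  by_contra hc
  push Not at hc
  apply h
  ext i j
  have h1 := congrFun (hc (Pi.single j 1)) i
  simpa using h1

/-- Regular nilpotent matrices have a cyclic vector. -/
theorem exists_cyclic_vec (hcard : Fintype.card ι = n) (hn : 0 < n) {L : Matrix ι ι F} (h1 : L ^ n = 0)
    (h2 : L.rank = n - 1) : ∃ v : ι → F, (L ^ (n - 1)).mulVec v ≠ 0 := exists_vec (pow_pred_ne_zero hcard hn h1 h2)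

theorem indep_of_top (hn : 0 < n) {L : Matrix ι ι F} (h1 : L ^ n = 0) {v : ι → F}
    (hv : (L ^ (n - 1)).mulVec v ≠ 0) (c : Fin n → F) (h : (pol L c).mulVec v = 0) : c = 0 := by
  classical
  by_contra hc
  have hex : ∃ k : ℕ, ∃ h : k < n, c ⟨k, h⟩ ≠ 0 := by
    by_contra hno
    push Not at hno
    apply hc
    funext k
    exact hno k k.2
  let j := Nat.find hex
  obtain ⟨hj, hcj⟩ := Nat.find_spec hex
  have hmin : ∀ k (hk : k < n), k < j → c ⟨k, hk⟩ = 0 := by
    intro k hk hlt
    by_contra h0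
    exact Nat.find_min hex hlt ⟨hk, h0⟩
  have h2 := congrArg (fun w => (L ^ (n - 1 - j)).mulVec w) h
  simp only [Matrix.mulVec_zero] at h2
  rw [pol_mulVec, Matrix.mulVec_sum, Finset.sum_eq_single (⟨j, hj⟩ : Fin n)] at h2
  · rw [Matrix.mulVec_smul, Matrix.mulVec_mulVec, ← pow_add] at h2
    have h3 : n - 1 - j + j = n - 1 := by omega
    simp only at h2
    rw [h3] at h2
    rcases smul_eq_zero.1 h2 with h4 | h4
    · exact hcj h4
    · exact hv h4
  · intro k _ hk
    by_cases hlt : (k : ℕ) < j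
    · rw [hmin k k.2 hlt]
      simp
    · have hgt : j < (k : ℕ) := by
        have : (k : ℕ) ≠ j := fun h => hk (Fin.ext h)
        omega
      rw [Matrix.mulVec_smul, Matrix.mulVec_mulVec, ← pow_add]
      have h3 : n - 1 - j + (k : ℕ) = n + ((k : ℕ) - j - 1) := by
        have := k.2
        omega
      rw [h3, pow_add, h1, zero_mul, Matrix.zero_mulVec, smul_zero]
  · simp

theorem span_of_top (hcard : Fintype.card ι = n) (hn : 0 < n) {L : Matrix ι ι F} (h1 : L ^ n = 0) {v : ι → F}
    (hv : (L ^ (n - 1)).mulVec v ≠ 0) (w : ι → F) : ∃ c : Fin n → F, (pol L c).mulVec v = w := by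
  let T : (Fin n → F) →ₗ[F] (ι → F) :=
    { toFun := fun c => (pol L c).mulVec v
      map_add' := by
        intro a b
        rw [pol_mulVec, pol_mulVec, pol_mulVec, ← Finset.sum_add_distrib]
        apply Finset.sum_congr rfl
        intro k _
        rw [Pi.add_apply, add_smul]
      map_smul' := by
        intro a b
        rw [pol_mulVec, pol_mulVec, RingHom.id_apply, Finset.smul_sum]
        apply Finset.sum_congr rfl
        intro k _
        rw [Pi.smul_apply, smul_eq_mul, mul_smul] }
  have hinj : Function.Injective T := by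
    rw [← LinearMap.ker_eq_bot, LinearMap.ker_eq_bot']
    intro c hc
    exact indep_of_top hn h1 hv c hc
  have hdim : Module.finrank F (Fin n → F) = Module.finrank F (ι → F) := by
    simp [hcard]
  exact (LinearMap.injective_iff_surjective_of_finrank_eq_finrank hdim).1 hinj w

/-- The commutant of a regular nilpotent matrix. -/
theorem commutant (hcard : Fintype.card ι = n) (hn : 0 < n) {L : Matrix ι ι F} (h1 : L ^ n = 0)
    (h2 : L.rank = n - 1) {g : Matrix ι ι F} (hg : Commute g L) : ∃ c : Fin n → F, g = pol L c := by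
  obtain ⟨v, hv⟩ := exists_cyclic_vec hcard hn h1 h2
  obtain ⟨c, hc⟩ := span_of_top hcard hn h1 hv (g.mulVec v)
  refine ⟨c, ?_⟩
  have hall : ∀ w, g.mulVec w = (pol L c).mulVec w := by
    intro w
    obtain ⟨b, rfl⟩ := span_of_top hcard hn h1 hv w
    have h3 : Commute g (pol L b) := pol_commute L b hg
    have h4 : Commute (pol L c) (pol L b) :=
      pol_commute L b (pol_commute L c (Commute.refl L)).symm
    rw [Matrix.mulVec_mulVec, Matrix.mulVec_mulVec, h3.eq, h4.eq, ← Matrix.mulVec_mulVec, ← Matrix.mulVec_mulVec, hc]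
  exact Matrix.toLin'.injective (LinearMap.ext fun w => by simpa using hall w)

theorem pol_sub (L : Matrix ι ι F) (c d : Fin n → F) : pol L (c - d) = pol L c - pol L d := by
  unfold pol
  rw [← Finset.sum_sub_distrib]
  apply Finset.sum_congr rfl
  intro k _
  rw [Pi.sub_apply, sub_smul]

theorem pol_inj (hn : 0 < n) {L : Matrix ι ι F} (h1 : L ^ n = 0) {v : ι → F}
    (hv : (L ^ (n - 1)).mulVec v ≠ 0) {c d : Fin n → F} (h : pol L c = pol L d) : c = d := by
  have h2 : pol L (c - d) = 0 := by rw [pol_sub, h, sub_self]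
  have h3 := indep_of_top hn h1 hv (c - d) (by rw [h2, Matrix.zero_mulVec])
  exact sub_eq_zero.1 h3

theorem isNilpotent_pol (hn : 0 < n) {L : Matrix ι ι F} (h1 : L ^ n = 0) (c : Fin n → F)
    (h0 : c ⟨0, hn⟩ = 0) : IsNilpotent (pol L c) := by
  unfold pol
  apply Commute.isNilpotent_sum
  · intro k _
    by_cases hk : (k : ℕ) = 0
    · have : k = ⟨0, hn⟩ := Fin.ext hk
      rw [this, h0, zero_smul]
      exact IsNilpotent.zero
    · refine ⟨n, ?_⟩
      rw [smul_pow, ← pow_mul, mul_comm, pow_mul, h1, zero_pow hk, smul_zero]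
  · intro i j _ _
    exact ((Commute.refl L).pow_pow _ _).smul_left _ |>.smul_right _

theorem isNilpotent_pol_sub (hn : 0 < n) {L : Matrix ι ι F} (h1 : L ^ n = 0) (c : Fin n → F) :
    IsNilpotent (pol L c - c ⟨0, hn⟩ • (1 : Matrix ι ι F)) := by
  have h2 : pol L c - c ⟨0, hn⟩ • (1 : Matrix ι ι F) = pol L (Function.update c ⟨0, hn⟩ 0) := by
    have h3 : pol L c - pol L (Function.update c ⟨0, hn⟩ 0) = c ⟨0, hn⟩ • (1 : Matrix ι ι F) := by
      rw [← pol_sub]
      unfold pol
      rw [Finset.sum_eq_single (⟨0, hn⟩ : Fin n)]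
      · simp
      · intro k _ hk
        simp [Function.update_of_ne hk]
      · simp
    rw [← h3]
    abel
  rw [h2]
  exact isNilpotent_pol hn h1 _ (by simp)

end cyclic

section abstractRing

variable {R : Type*} [CommRing R]

theorem nil_add {x y : R} (hx : IsNilpotent x) (hy : IsNilpotent y) : IsNilpotent (x + y) :=
  (Commute.all x y).isNilpotent_add hx hy

theorem nil_mul {x : R} (hx : IsNilpotent x) (y : R) : IsNilpotent (x * y) := by
  rw [mul_comm]
  exact (Commute.all y x).isNilpotent_mul_left hx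

/-- An element congruent to a unit modulo nilpotents is a unit. -/
theorem unit_of_nil {x u : R} (hu : IsUnit u) (hx : IsNilpotent (x - u)) : IsUnit x := by
  have := IsNilpotent.isUnit_add_left_of_commute hx hu (Commute.all _ _)
  simpa using this

theorem unit_add_one (h2 : IsUnit (2 : R)) {x : R} (hx : IsNilpotent (x - 1)) : IsUnit (x + 1) := by
  apply unit_of_nil h2
  have : x + 1 - 2 = x - 1 := by ring
  rwa [this]

theorem not_nil_two [Nontrivial R] (h2 : IsUnit (2 : R)) : ¬ IsNilpotent (2 : R) := by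
  intro h
  exact h2.not_isNilpotent h  

/-- The Cayley transform. -/
def cay (a : R) : R := (1 + a) * Ring.inverse (1 - a)

theorem cay_spec {a : R} (ha : IsNilpotent a) : cay a * (1 - a) = 1 + a := by
  unfold cay
  rw [mul_assoc, Ring.inverse_mul_cancel _ ha.isUnit_one_sub, mul_one]

theorem cay_sub_one {a : R} (ha : IsNilpotent a) : IsNilpotent (cay a - 1) := by
  have h1 : (cay a - 1) = 2 * a * Ring.inverse (1 - a) := by
    have h2 := cay_spec ha
    have h3 : (cay a - 1) * (1 - a) = (2 * a * Ring.inverse (1 - a)) * (1 - a) := by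
      rw [mul_assoc (2 * a), Ring.inverse_mul_cancel _ ha.isUnit_one_sub]
      linear_combination h2
    exact ha.isUnit_one_sub.mul_left_inj.1 h3
  rw [h1]
  apply nil_mul
  rw [mul_comm]
  exact nil_mul ha _

theorem cay_norm (σ : R →+* R) {a : R} (ha : IsNilpotent a) (hs : σ a = -a) :
    σ (cay a) * cay a = 1 := by
  have h1 := cay_spec ha
  have h2 : σ (cay a) * (1 + a) = 1 - a := by
    have := congrArg σ h1
    simp only [map_mul, map_sub, map_add, map_one, hs] at this
    linear_combination this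
  have h3 : IsUnit ((1 + a) * (1 - a)) :=
    (by simpa using ha.isUnit_one_add : IsUnit (1 + a)).mul ha.isUnit_one_sub
  apply h3.mul_left_inj.1
  linear_combination (cay a * (1 - a)) * h2 + (1 - a) * h1

theorem cay_inj (h2 : IsUnit (2 : R)) {a b : R} (ha : IsNilpotent a) (hb : IsNilpotent b)
    (h : cay a = cay b) : a = b := by
  have h1 := cay_spec ha
  have h3 := cay_spec hb
  rw [← h] at h3
  have h4 : IsUnit (cay a + 1) := unit_add_one h2 (cay_sub_one ha)
  apply h4.mul_right_inj.1
  linear_combination h3 - h1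

/-- The inverse Cayley transform. -/
theorem exists_cay (σ : R →+* R) (h2 : IsUnit (2 : R)) {g : R} (hn : IsNilpotent (g - 1))
    (hg : σ g * g = 1) : ∃ a : R, IsNilpotent a ∧ σ a = -a ∧ cay a = g := by
  have hu := unit_add_one h2 hn
  obtain ⟨a, ha⟩ : ∃ a, a * (g + 1) = g - 1 := ⟨(g - 1) * Ring.inverse (g + 1), by
    rw [mul_assoc, Ring.inverse_mul_cancel _ hu, mul_one]⟩
  have han : IsNilpotent a := by
    have : a = (g - 1) * Ring.inverse (g + 1) := by
      apply hu.mul_left_inj.1
      rw [ha, mul_assoc, Ring.inverse_mul_cancel _ hu, mul_one]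
    rw [this]
    exact nil_mul hn _
  refine ⟨a, han, ?_, ?_⟩
  · have h3 := congrArg σ ha
    simp only [map_mul, map_sub, map_add, map_one] at h3
    have h4 : (σ a + a) * (g + 1) = 0 := by
      linear_combination g * h3 + ha + (1 - σ a) * hg
    have h5 := hu.mul_left_inj.1 (h4.trans (zero_mul _).symm)
    linear_combination h5
  · apply han.isUnit_one_sub.mul_left_inj.1
    rw [cay_spec han]
    linear_combination ha

/-- Counting norm-one elements through the Cayley transform. -/
theorem cayley_card [Finite R] [Nontrivial R] (σ : R →+* R) (h2 : IsUnit (2 : R))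
    (hloc : ∀ g : R, σ g * g = 1 → IsNilpotent (g - 1) ∨ IsNilpotent (g + 1)) :
    Nat.card {g : R // σ g * g = 1} = 2 * Nat.card {a : R // IsNilpotent a ∧ σ a = -a} := by
  let Φ : Bool × {a : R // IsNilpotent a ∧ σ a = -a} → {g : R // σ g * g = 1} := fun p =>
    ⟨(if p.1 then 1 else -1) * cay p.2.1, by
      have := cay_norm σ p.2.2.1 p.2.2.2
      cases p.1
      · simp only [if_false, Bool.false_eq_true, map_mul, map_neg, map_one]
        linear_combination this
      · simp only [if_true, map_mul, map_one]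
        linear_combination this⟩
  have hinj : Function.Injective Φ := by
    rintro ⟨b, ⟨a, ha, hs⟩⟩ ⟨b', ⟨a', ha', hs'⟩⟩ h
    have h3 := congrArg Subtype.val h
    simp only [Φ] at h3
    have hc := cay_sub_one ha
    have hc' := cay_sub_one ha'
    have hno : ¬ (cay a = - cay a') := by
      intro h4
      apply not_nil_two h2
      have h5 := nil_add hc hc'
      have h6 : cay a - 1 + (cay a' - 1) = - 2 := by rw [h4]; ring
      rw [h6] at h5
      simpa using h5.neg
    cases b <;> cases b' <;> simp only [if_false, if_true, Bool.false_eq_true] at h3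
    · have : a = a' := cay_inj h2 ha ha' (by linear_combination -h3)
      subst this
      rfl
    · exact absurd (by linear_combination -h3) hno
    · exact absurd (by linear_combination h3) hno
    · have : a = a' := cay_inj h2 ha ha' (by linear_combination h3)
      subst this
      rfl
  have hsurj : Function.Surjective Φ := by
    rintro ⟨g, hg⟩
    rcases hloc g hg with h3 | h3
    · obtain ⟨a, ha, hs, hc⟩ := exists_cay σ h2 h3 hg
      refine ⟨⟨true, ⟨a, ha, hs⟩⟩, Subtype.ext ?_⟩
      simp only [Φ, if_true, one_mul, hc]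
    · obtain ⟨a, ha, hs, hc⟩ := exists_cay σ h2 (g := -g) (by
        have : -g - 1 = -(g + 1) := by ring
        rw [this]
        exact h3.neg) (by simpa using hg)
      refine ⟨⟨false, ⟨a, ha, hs⟩⟩, Subtype.ext ?_⟩
      simp only [Φ, if_false, Bool.false_eq_true, hc]
      ring
  rw [← Nat.card_congr (Equiv.ofBijective Φ ⟨hinj, hsurj⟩), Nat.card_prod]
  simp

/-- Square roots of elements congruent to one. -/
theorem exists_norm_eq [Finite R] (σ : R →+* R) (h2 : IsUnit (2 : R)) {r : R} (hr : IsNilpotent (r - 1))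
    (hs : σ r = r) : ∃ x : R, IsNilpotent (x - 1) ∧ σ x = x ∧ σ x * x = r := by
  have hW : ∀ x : {x : R // IsNilpotent (x - 1)}, IsNilpotent (x.1 * x.1 - 1) := by
    intro x
    have : x.1 * x.1 - 1 = (x.1 - 1) * (x.1 + 1) := by ring
    rw [this]
    exact nil_mul x.2 _
  let sq : {x : R // IsNilpotent (x - 1)} → {x : R // IsNilpotent (x - 1)} := fun x => ⟨x.1 * x.1, hW x⟩
  have hu : ∀ x y : R, IsNilpotent (x - 1) → IsNilpotent (y - 1) → x * x = y * y → x = y := by
    intro x y hx hy h
    have h3 : IsUnit (x + y) := by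
      apply unit_of_nil h2
      have : x + y - 2 = (x - 1) + (y - 1) := by ring
      rw [this]
      exact nil_add hx hy
    have h4 : (x - y) * (x + y) = 0 * (x + y) := by linear_combination h
    have := h3.mul_left_inj.1 h4
    exact sub_eq_zero.1 this
  have hinj : Function.Injective sq := by
    intro x y h
    exact Subtype.ext (hu x.1 y.1 x.2 y.2 (congrArg Subtype.val h))
  obtain ⟨x, hx⟩ := (Finite.injective_iff_surjective.1 hinj) ⟨r, hr⟩
  have hx' : x.1 * x.1 = r := congrArg Subtype.val hx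
  have hσn : IsNilpotent (σ x.1 - 1) := by
    have : σ x.1 - 1 = σ (x.1 - 1) := by simp
    rw [this]
    exact x.2.map σ
  have hσ : σ x.1 = x.1 := by
    apply hu _ _ hσn x.2
    rw [← map_mul, hx', hs]
  exact ⟨x.1, x.2, hσ, by rw [hσ, hx']⟩

/-- Uniqueness given the skew part. -/
theorem eq_of_skew (σ : R →+* R) (h2 : IsUnit (2 : R)) {x y : R} (hx : σ x * x = 1) (hy : σ y * y = 1)
    (hxn : IsNilpotent (x - 1)) (hyn : IsNilpotent (y - 1)) (h : x - σ x = y - σ y) : x = y := by
  have h3 : IsUnit (x * y + 1) := by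
    apply unit_add_one h2
    have : x * y - 1 = (x - 1) * y + (y - 1) := by ring
    rw [this]
    exact nil_add (nil_mul hxn _) hyn
  have h4 : (x - y) * (x * y + 1) = 0 * (x * y + 1) := by
    linear_combination x * y * h + y * hx - x * hy
  exact sub_eq_zero.1 (h3.mul_left_inj.1 h4)

end abstractRing

section symp

variable {F : Type*} [Field F] {m : ℕ}

abbrev Ix (m : ℕ) := Fin m ⊕ Fin m

/-- The adjoint for the symplectic form. -/
def st (A : Matrix (Ix m) (Ix m) F) : Matrix (Ix m) (Ix m) F :=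
  -(J (Fin m) F * Aᵀ * J (Fin m) F)

theorem st_add (A B : Matrix (Ix m) (Ix m) F) : st (A + B) = st A + st B := by
  unfold st
  rw [Matrix.transpose_add, mul_add, add_mul, neg_add]

theorem st_neg (A : Matrix (Ix m) (Ix m) F) : st (-A) = - st A := by
  unfold st
  rw [Matrix.transpose_neg, mul_neg, neg_mul]

theorem st_sub (A B : Matrix (Ix m) (Ix m) F) : st (A - B) = st A - st B := by
  rw [sub_eq_add_neg, st_add, st_neg, sub_eq_add_neg]

theorem st_zero : st (0 : Matrix (Ix m) (Ix m) F) = 0 := by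
  unfold st
  simp

theorem st_smul (c : F) (A : Matrix (Ix m) (Ix m) F) : st (c • A) = c • st A := by
  unfold st
  simp [Matrix.transpose_smul]

theorem st_one : st (1 : Matrix (Ix m) (Ix m) F) = 1 := by
  unfold st
  rw [Matrix.transpose_one, mul_one, J_squared, neg_neg]

theorem st_mul (A B : Matrix (Ix m) (Ix m) F) : st (A * B) = st B * st A := by
  unfold st
  rw [Matrix.transpose_mul, neg_mul_neg]
  have h := J_squared (Fin m) F
  have h1 : J (Fin m) F * Bᵀ * J (Fin m) F * (J (Fin m) F * Aᵀ * J (Fin m) F)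
      = J (Fin m) F * Bᵀ * (J (Fin m) F * J (Fin m) F) * Aᵀ * J (Fin m) F := by
    simp only [mul_assoc]
  rw [h1, h]
  simp [mul_assoc]

theorem st_pow (A : Matrix (Ix m) (Ix m) F) (k : ℕ) : st (A ^ k) = st A ^ k := by
  induction k with
  | zero => simp [st_one]
  | succ k ih => rw [pow_succ, st_mul, ih, pow_succ']

theorem st_st (A : Matrix (Ix m) (Ix m) F) : st (st A) = A := by
  unfold st
  simp only [Matrix.transpose_neg, Matrix.transpose_mul, Matrix.transpose_transpose, J_transpose,
    mul_neg, neg_mul, neg_neg]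
  have h := J_squared (Fin m) F
  have h1 : J (Fin m) F * (J (Fin m) F * (A * J (Fin m) F)) * J (Fin m) F
      = (J (Fin m) F * J (Fin m) F) * A * (J (Fin m) F * J (Fin m) F) := by
    simp only [mul_assoc]
  first
    | (rw [h1, h]; simp)
    | (simp only [mul_assoc] at h1 ⊢; rw [h1]; simp only [← mul_assoc]; rw [h]; simp)

theorem st_sum {α : Type*} (s : Finset α) (f : α → Matrix (Ix m) (Ix m) F) :
    st (∑ i ∈ s, f i) = ∑ i ∈ s, st (f i) := by
  classical
  induction s using Finset.induction_on with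
  | empty => simp [st_zero]
  | insert a s ha ih => rw [Finset.sum_insert ha, Finset.sum_insert ha, st_add, ih]

theorem mem_sp_iff (A : Matrix (Ix m) (Ix m) F) :
    A ∈ Matrix.symplecticGroup (Fin m) F ↔ st A * A = 1 := by
  rw [SymplecticGroup.mem_iff']
  have h := J_squared (Fin m) F
  constructor
  · intro hA
    unfold st
    have h1 : -(J (Fin m) F * Aᵀ * J (Fin m) F) * A = -(J (Fin m) F * (Aᵀ * J (Fin m) F * A)) := by
      simp only [mul_assoc, neg_mul]
    rw [h1, hA, h, neg_neg]
  · intro hA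
    have h1 : J (Fin m) F * (st A * A) = J (Fin m) F := by rw [hA, mul_one]
    unfold st at h1
    have h3 : J (Fin m) F * (-(J (Fin m) F * Aᵀ * J (Fin m) F) * A)
        = -((J (Fin m) F * J (Fin m) F) * (Aᵀ * J (Fin m) F * A)) := by
      simp only [mul_assoc, neg_mul, mul_neg]
    rw [h3, h] at h1
    simpa using h1

theorem card_Ix (m : ℕ) : Fintype.card (Ix m) = 2 * m := by
  simp [Fintype.card_sum, two_mul]

/-- Skew regular nilpotent matrices. -/
structure Reg (L : Matrix (Ix m) (Ix m) F) : Prop where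
  pow : L ^ (2 * m) = 0
  rank : L.rank = 2 * m - 1
  skew : st L = -L

theorem st_pol {L : Matrix (Ix m) (Ix m) F} (h : st L = -L) {n : ℕ} (c : Fin n → F) :
    st (pol L c) = pol L (fun k => (-1) ^ (k : ℕ) * c k) := by
  unfold pol
  rw [st_sum]
  apply Finset.sum_congr rfl
  intro k _
  rw [st_smul, st_pow, h, mul_smul]
  rcases Nat.even_or_odd (k : ℕ) with hk | hk
  · rw [hk.neg_pow, hk.neg_one_pow, one_smul]
  · rw [hk.neg_pow, hk.neg_one_pow, neg_one_smul, smul_neg]

theorem pol_neg (L : Matrix (Ix m) (Ix m) F) {n : ℕ} (c : Fin n → F) : pol L (-c) = - pol L c := by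
  unfold pol
  rw [← Finset.sum_neg_distrib]
  apply Finset.sum_congr rfl
  intro k _
  rw [Pi.neg_apply, neg_smul]

theorem Reg.commute (hm : 1 ≤ m) {L x y : Matrix (Ix m) (Ix m) F} (h : Reg L) (hx : Commute x L)
    (hy : Commute y L) : Commute x y := by
  obtain ⟨c, rfl⟩ := commutant (card_Ix m) (by omega) h.pow h.rank hx
  exact (pol_commute L c hy).symm

/-- The commutant of `L`. -/
def Rr (L : Matrix (Ix m) (Ix m) F) : Subalgebra F (Matrix (Ix m) (Ix m) F) :=
  Subalgebra.centralizer F {L}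

theorem mem_Rr {L x : Matrix (Ix m) (Ix m) F} : x ∈ Rr L ↔ Commute x L := by
  unfold Rr
  rw [Subalgebra.mem_centralizer_iff]
  simp only [Set.mem_singleton_iff, forall_eq]
  exact eq_comm

/-- For regular `L` its commutant is commutative. -/
@[reducible] def commR (hm : 1 ≤ m) {L : Matrix (Ix m) (Ix m) F} (h : Reg L) : CommRing (Rr L) :=
  { (inferInstance : Ring (Rr L)) with
    mul_comm := fun x y => Subtype.ext (Reg.commute hm h (mem_Rr.1 x.2) (mem_Rr.1 y.2)) }

theorem st_comm {L x : Matrix (Ix m) (Ix m) F} (h : st L = -L) (hx : Commute x L) : Commute (st x) L := by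
  show st x * L = L * st x
  have h1 : st (x * L) = st (L * x) := by rw [hx.eq]
  rw [st_mul, st_mul, h] at h1
  simpa using h1.symm

/-- The adjoint as a ring endomorphism of the commutant. -/
def sig (hm : 1 ≤ m) {L : Matrix (Ix m) (Ix m) F} (h : Reg L) : Rr L →+* Rr L where
  toFun x := ⟨st x.1, mem_Rr.2 (st_comm h.skew (mem_Rr.1 x.2))⟩
  map_one' := Subtype.ext st_one
  map_mul' x y := Subtype.ext (by
    show st (x.1 * y.1) = st x.1 * st y.1
    rw [st_mul]
    exact Reg.commute hm h (st_comm h.skew (mem_Rr.1 y.2)) (st_comm h.skew (mem_Rr.1 x.2)))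
  map_zero' := Subtype.ext st_zero
  map_add' x y := Subtype.ext (st_add _ _)

theorem nil_iff_val {L : Matrix (Ix m) (Ix m) F} (x : Rr L) : IsNilpotent x ↔ IsNilpotent x.1 := by
  constructor
  · rintro ⟨k, hk⟩
    refine ⟨k, ?_⟩
    have := congrArg Subtype.val hk
    simpa using this
  · rintro ⟨k, hk⟩
    exact ⟨k, Subtype.ext (by simpa using hk)⟩

theorem two_ne_of_odd [Fintype F] {q : ℕ} (hF : Fintype.card F = q) (hq : Odd q) : (2 : F) ≠ 0 := by
  intro h
  obtain ⟨p, hp⟩ := CharP.exists F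
  haveI := hp
  obtain ⟨n, hprime, hcard⟩ := FiniteField.card F p
  have h1 : ((2 : ℕ) : F) = 0 := by exact_mod_cast h
  rw [CharP.cast_eq_zero_iff F p] at h1
  have hpp : p = 2 := (Nat.prime_dvd_prime_iff_eq hprime Nat.prime_two).1 h1
  rw [hF, hpp] at hcard
  rw [hcard] at hq
  exact (Nat.not_odd_iff_even.2 (Nat.even_pow.2 ⟨even_two, n.2.ne'⟩)) hq

theorem reg_of_unip (h2 : (2 : F) ≠ 0) {U : Matrix (Ix m) (Ix m) F}
    (hU : U ∈ Matrix.symplecticGroup (Fin m) F) (hnil : (U - 1) ^ (2 * m) = 0)
    (hreg : (U - 1).rank = 2 * m - 1) : Reg (U - st U) := by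
  have h1 : st U * U = 1 := (mem_sp_iff U).1 hU
  have h1' : U * st U = 1 := mul_eq_one_comm.1 h1
  have hc : Commute U (st U) := h1'.trans h1.symm
  have hN : IsNilpotent (U - 1) := ⟨_, hnil⟩
  have c1 : Commute (U - 1) U := (Commute.refl U).sub_left (Commute.one_left U)
  have c2 : Commute (U - 1) 1 := Commute.one_right _
  have c3 : Commute (U - 1) (st U) := hc.sub_left (Commute.one_left _)
  have hu : IsUnit (U + 1) := by
    have h3 : IsUnit ((2 : F) • (1 : Matrix (Ix m) (Ix m) F)) := by
      rw [← Algebra.algebraMap_eq_smul_one]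
      exact (isUnit_iff_ne_zero.2 h2).map _
    have h4 := IsNilpotent.isUnit_add_left_of_commute hN h3 (by
      show Commute (U - 1) ((2 : F) • (1 : Matrix (Ix m) (Ix m) F))
      exact c2.smul_right _)
    have h5 : (2 : F) • (1 : Matrix (Ix m) (Ix m) F) + (U - 1) = U + 1 := by
      rw [two_smul]
      abel
    rwa [h5] at h4
  have hw : IsUnit ((U + 1) * st U) := hu.mul (isUnit_iff_exists_inv.2 ⟨U, h1⟩)
  have hL : U - st U = (U - 1) * ((U + 1) * st U) := by
    have h3 : (U - 1) * ((U + 1) * st U) = U * (U * st U) - st U := by noncomm_ring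
    rw [h3, h1', mul_one]
  refine ⟨?_, ?_, ?_⟩
  · rw [hL, ((c1.add_right c2).mul_right c3).mul_pow, hnil, zero_mul]
  · rw [hL, Matrix.rank_mul_eq_left_of_isUnit_det _ _ ((Matrix.isUnit_iff_isUnit_det _).1 hw)]
    exact hreg
  · rw [st_sub, st_st]
    abel

theorem loc_val (h2 : (2 : F) ≠ 0) (hm : 1 ≤ m) {L g : Matrix (Ix m) (Ix m) F} (h : Reg L)
    (hg : Commute g L) (hn : st g * g = 1) : IsNilpotent (g - 1) ∨ IsNilpotent (g + 1) := by
  haveI : Nonempty (Ix m) := ⟨Sum.inl ⟨0, hm⟩⟩
  have hpos : 0 < 2 * m := by omega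
  obtain ⟨c, rfl⟩ := commutant (card_Ix m) hpos h.pow h.rank hg
  set A := pol L c with hA
  set t := c ⟨0, hpos⟩ with ht
  have hx : IsNilpotent (A - t • (1 : Matrix (Ix m) (Ix m) F)) := isNilpotent_pol_sub hpos h.pow c
  have hy : IsNilpotent (st A - t • (1 : Matrix (Ix m) (Ix m) F)) := by
    rw [hA, st_pol h.skew]
    have := isNilpotent_pol_sub hpos h.pow (fun k => (-1) ^ (k : ℕ) * c k)
    simpa using this
  have hoL : Commute (t • (1 : Matrix (Ix m) (Ix m) F)) L := (Commute.one_left L).smul_left t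
  have hxL : Commute (A - t • (1 : Matrix (Ix m) (Ix m) F)) L := hg.sub_left hoL
  have hyL : Commute (st A - t • (1 : Matrix (Ix m) (Ix m) F)) L := (st_comm h.skew hg).sub_left hoL
  have hid : (1 - t * t) • (1 : Matrix (Ix m) (Ix m) F) =
      (st A - t • (1 : Matrix (Ix m) (Ix m) F)) * (A - t • (1 : Matrix (Ix m) (Ix m) F))
        + t • (A - t • (1 : Matrix (Ix m) (Ix m) F)) + t • (st A - t • (1 : Matrix (Ix m) (Ix m) F)) := by
    simp only [sub_mul, mul_sub, smul_mul_assoc, mul_smul_comm, one_mul, mul_one, smul_smul, hn]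
    module
  have hnil : IsNilpotent ((1 - t * t) • (1 : Matrix (Ix m) (Ix m) F)) := by
    rw [hid]
    have h1 := (Reg.commute hm h hyL hxL).isNilpotent_mul_left hx
    have h3 := hx.smul t
    have h4 := hy.smul t
    exact (Reg.commute hm h ((hyL.mul_left hxL).add_left (hxL.smul_left t)) (hyL.smul_left t)).isNilpotent_add
      ((Reg.commute hm h (hyL.mul_left hxL) (hxL.smul_left t)).isNilpotent_add h1 h3) h4
  obtain ⟨k, hk⟩ := hnil
  rw [smul_pow, one_pow] at hk
  have h0 : (1 - t * t) ^ k = 0 := by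
    rcases smul_eq_zero.1 hk with h3 | h3
    · exact h3
    · exact absurd h3 one_ne_zero
  have h0' : (1 - t) * (1 + t) = 0 := by
    have h5 : 1 - t * t = 0 := by
      by_contra hne
      exact pow_ne_zero k hne h0
    linear_combination h5
  rcases mul_eq_zero.1 h0' with h3 | h3
  · left
    have : t = 1 := by linear_combination -h3
    rw [this, one_smul] at hx
    exact hx
  · right
    have : t = -1 := by linear_combination h3
    rw [this] at hx
    simpa using hx

/-- The Sp-part of the count: norm-one elements of the commutant. -/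
theorem card_norm_one [Finite F] (h2 : (2 : F) ≠ 0) (hm : 1 ≤ m) {L : Matrix (Ix m) (Ix m) F} (h : Reg L) :
    Nat.card {g : Rr L // st g.1 * g.1 = 1} =
      2 * Nat.card {a : Rr L // IsNilpotent a.1 ∧ st a.1 = -a.1} := by
  haveI : Nonempty (Ix m) := ⟨Sum.inl ⟨0, hm⟩⟩
  haveI : Finite (Rr L) := inferInstance
  haveI : Nontrivial (Rr L) := inferInstance
  have h2R : @IsUnit (Rr L) _ (2 : Rr L) := by
    have h3 : (2 : Rr L) = algebraMap F (Rr L) 2 := by
      rw [map_ofNat]
    rw [h3]
    exact (isUnit_iff_ne_zero.2 h2).map _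
  have key := @cayley_card (Rr L) (commR hm h) _ _ (sig hm h) h2R (by
    intro g hg
    have h3 := loc_val h2 hm h (mem_Rr.1 g.2) (congrArg Subtype.val hg)
    rcases h3 with h3 | h3
    · left
      exact (nil_iff_val _).2 h3
    · right
      exact (nil_iff_val _).2 h3)
  refine (Nat.card_congr (Equiv.subtypeEquivRight ?_)).trans
    (key.trans (congrArg (2 * ·) (Nat.card_congr (Equiv.subtypeEquivRight ?_))))
  · intro g
    exact ⟨fun h3 => Subtype.ext h3, fun h3 => congrArg Subtype.val h3⟩
  · intro a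
    exact ⟨fun h3 => ⟨(nil_iff_val _).1 h3.1, congrArg Subtype.val h3.2⟩,
      fun h3 => ⟨(nil_iff_val _).2 h3.1, Subtype.ext h3.2⟩⟩

/-- Odd polynomials. -/
def oddc (e : Fin m → F) : Fin (2 * m) → F := fun k =>
  if hk : k.1 % 2 = 1 then e ⟨k.1 / 2, by have := k.2; omega⟩ else 0

theorem oddc_odd (e : Fin m → F) (j : Fin m) : oddc e ⟨2 * j.1 + 1, by have := j.2; omega⟩ = e j := by
  unfold oddc
  have h1 : (2 * j.1 + 1) % 2 = 1 := by omega
  rw [dif_pos h1]
  congr 1
  apply Fin.ext
  show (2 * j.1 + 1) / 2 = j.1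
  omega

theorem oddc_skew (e : Fin m → F) (k : Fin (2 * m)) : (-1) ^ (k : ℕ) * oddc e k = - oddc e k := by
  unfold oddc
  by_cases hk : k.1 % 2 = 1
  · rw [dif_pos hk, (Nat.odd_iff.2 hk).neg_one_pow]
    ring
  · rw [dif_neg hk]
    simp

theorem pol_odd_skew {L : Matrix (Ix m) (Ix m) F} (h : st L = -L) (e : Fin m → F) :
    st (pol L (oddc e)) = - pol L (oddc e) := by
  rw [st_pol h, ← pol_neg]
  congr 1
  funext k
  exact oddc_skew e k

theorem isNilpotent_pol_odd (hm : 1 ≤ m) {L : Matrix (Ix m) (Ix m) F} (h : L ^ (2 * m) = 0) (e : Fin m → F) :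
    IsNilpotent (pol L (oddc e)) :=
  isNilpotent_pol (by omega) h _ (by simp [oddc])

theorem exists_odd_of_skew (h2 : (2 : F) ≠ 0) (hm : 1 ≤ m) {L : Matrix (Ix m) (Ix m) F} (h : Reg L)
    {a : Matrix (Ix m) (Ix m) F} (ha : Commute a L) (hs : st a = -a) :
    ∃ e : Fin m → F, a = pol L (oddc e) := by
  have hpos : 0 < 2 * m := by omega
  obtain ⟨c, rfl⟩ := commutant (card_Ix m) hpos h.pow h.rank ha
  obtain ⟨v, hv⟩ := exists_cyclic_vec (card_Ix m) hpos h.pow h.rank
  have h1 : (fun k : Fin (2 * m) => (-1) ^ (k : ℕ) * c k) = -c := by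
    apply pol_inj hpos h.pow hv
    rw [← st_pol h.skew, hs, pol_neg]
  have h3 : ∀ k : Fin (2 * m), k.1 % 2 = 0 → c k = 0 := by
    intro k hk
    have h4 := congrFun h1 k
    simp only [Pi.neg_apply] at h4
    rw [(Nat.even_iff.2 hk).neg_one_pow, one_mul] at h4
    have h5 : 2 * c k = 0 := by linear_combination h4
    exact (mul_eq_zero.1 h5).resolve_left h2
  refine ⟨fun j => c ⟨2 * j.1 + 1, by have := j.2; omega⟩, ?_⟩
  congr 1
  funext k
  unfold oddc
  by_cases hk : k.1 % 2 = 1
  · rw [dif_pos hk]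
    congr 1
    apply Fin.ext
    show k.1 = 2 * (k.1 / 2) + 1
    omega
  · rw [dif_neg hk]
    exact h3 k (by omega)

theorem card_skew [Fintype F] (h2 : (2 : F) ≠ 0) (hm : 1 ≤ m) {L : Matrix (Ix m) (Ix m) F} (h : Reg L) :
    Nat.card {a : Rr L // IsNilpotent a.1 ∧ st a.1 = -a.1} = Fintype.card F ^ m := by
  have hpos : 0 < 2 * m := by omega
  obtain ⟨v, hv⟩ := exists_cyclic_vec (card_Ix m) hpos h.pow h.rank
  let T : (Fin m → F) → {a : Rr L // IsNilpotent a.1 ∧ st a.1 = -a.1} := fun e =>
    ⟨⟨pol L (oddc e), mem_Rr.2 (pol_commute L _ (Commute.refl L)).symm⟩,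
      isNilpotent_pol_odd hm h.pow e, pol_odd_skew h.skew e⟩
  have hinj : Function.Injective T := by
    intro e e' he
    have h1 : pol L (oddc e) = pol L (oddc e') := congrArg (fun x => x.1.1) he
    have h3 := pol_inj hpos h.pow hv h1
    funext j
    rw [← oddc_odd e j, h3, oddc_odd]
  have hsurj : Function.Surjective T := by
    rintro ⟨⟨a, ha⟩, han, has⟩
    obtain ⟨e, he⟩ := exists_odd_of_skew h2 hm h (mem_Rr.1 ha) has
    refine ⟨e, Subtype.ext (Subtype.ext ?_)⟩
    exact he.symm
  rw [← Nat.card_congr (Equiv.ofBijective T ⟨hinj, hsurj⟩)]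
  simp [Nat.card_eq_fintype_card]

/-- Elements of Sp commuting with `u` are the norm-one elements of the commutant of `L`. -/
theorem card_cent_eq (hm : 1 ≤ m) (u : Matrix.symplecticGroup (Fin m) F)
    (h : Reg ((u : Matrix (Ix m) (Ix m) F) - st (u : Matrix (Ix m) (Ix m) F))) :
    Nat.card ↥(Subgroup.centralizer ({u} : Set ↥(Matrix.symplecticGroup (Fin m) F))) =
      Nat.card {g : Rr ((u : Matrix (Ix m) (Ix m) F) - st (u : Matrix (Ix m) (Ix m) F)) // st g.1 * g.1 = 1} := by
  set U : Matrix (Ix m) (Ix m) F := (u : Matrix (Ix m) (Ix m) F) with hU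
  have h1 : st U * U = 1 := (mem_sp_iff U).1 u.2
  have h1' : U * st U = 1 := mul_eq_one_comm.1 h1
  have hinvc : ∀ X : Matrix (Ix m) (Ix m) F, Commute X U → Commute X (st U) := by
    intro X hX
    show X * st U = st U * X
    calc X * st U = (st U * U) * (X * st U) := by rw [h1, one_mul]
      _ = st U * (U * X) * st U := by simp only [mul_assoc]
      _ = st U * (X * U) * st U := by rw [hX.eq]
      _ = st U * X * (U * st U) := by simp only [mul_assoc]
      _ = st U * X := by rw [h1', mul_one]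
  have hUL : Commute U (U - st U) := (Commute.refl U).sub_right (hinvc U (Commute.refl U))
  let f : ↥(Subgroup.centralizer ({u} : Set ↥(Matrix.symplecticGroup (Fin m) F))) →
      {g : Rr (U - st U) // st g.1 * g.1 = 1} := fun x =>
    ⟨⟨x.1.1, mem_Rr.2 (by
      have hx : Commute (x.1.1) U := by
        have := Subgroup.mem_centralizer_iff.1 x.2 u (Set.mem_singleton u)
        exact (congrArg Subtype.val this).symm
      exact hx.sub_right (hinvc _ hx))⟩, (mem_sp_iff _).1 x.1.2⟩
  have hinj : Function.Injective f := by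
    intro x y hxy
    have : x.1.1 = y.1.1 := congrArg (fun z => z.1.1) hxy
    exact Subtype.ext (Subtype.ext this)
  have hsurj : Function.Surjective f := by
    rintro ⟨⟨g, hg⟩, hgn⟩
    refine ⟨⟨⟨g, (mem_sp_iff g).2 hgn⟩, Subgroup.mem_centralizer_iff.2 ?_⟩, rfl⟩
    intro y hy
    rw [Set.mem_singleton_iff.1 hy]
    apply Subtype.ext
    exact (Reg.commute hm h (mem_Rr.1 hg) hUL).eq.symm
  exact Nat.card_congr (Equiv.ofBijective f ⟨hinj, hsurj⟩)

/-- The order of the centraliser of a regular unipotent element. -/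
theorem card_centralizer [Fintype F] {q : ℕ} (hF : Fintype.card F = q) (hq : Odd q) (hm : 1 ≤ m)
    (u : Matrix.symplecticGroup (Fin m) F)
    (hnil : ((u : Matrix (Ix m) (Ix m) F) - 1) ^ (2 * m) = 0)
    (hreg : ((u : Matrix (Ix m) (Ix m) F) - 1).rank = 2 * m - 1) :
    Nat.card ↥(Subgroup.centralizer ({u} : Set ↥(Matrix.symplecticGroup (Fin m) F))) = 2 * q ^ m := by
  have h2 := two_ne_of_odd hF hq
  have h := reg_of_unip h2 u.2 hnil hreg
  rw [card_cent_eq hm u h, card_norm_one h2 hm h, card_skew h2 hm h, hF]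

end symp

end Cfsg.Agent.Lib.SpRegUnip
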