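import Cfsg.Agent.Lib.JordanNil
import Cfsg.Agent.Lib.JordanCent
import Cfsg.Agent.Lib.SpRegUnip
import Cfsg.Agent.Lib.FormClass
import Cfsg.Prelude.Def_JordanBlocks
import Mathlib

/-!
Jordan types and bilinear forms: general tools.
-/

set_option linter.all false

open scoped MatrixGroups Matrix
open Matrix

noncomputable section

namespace Cfsg.Agent.Lib.JordanForm

open Cfsg.Agent.Lib.JordanNil

universe u v w

section general

variable {F : Type u} [Field F] {ι : Type*} [Fintype ι] [DecidableEq ι] {ι' : Type*} [Fintype ι'] [DecidableEq ι']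

theorem isJordan_reindex {κ : Type v} {e : κ → ℕ} (E : ι ≃ ι') {N : Matrix ι ι F}
    (h : IsJordan F (Matrix.toLin' N) e) : IsJordan F (Matrix.toLin' (N.submatrix E.symm E.symm)) e := by
  refine h.of_conj (LinearEquiv.funCongrLeft F F E) ?_
  intro v
  funext i
  show ((N.submatrix E.symm E.symm).mulVec v) (E i) = (N.mulVec (v ∘ E)) i
  rw [Matrix.submatrix_mulVec_equiv]
  simp

theorem IsJordan.of_cnt' {V : Type*} [AddCommGroup V] [Module F V] {κ : Type v} [Fintype κ] {κ' : Type w} [Fintype κ']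
    {e : κ → ℕ} {e' : κ' → ℕ} {L : Module.End F V} (h : IsJordan F L e)
    (hc : ∀ s, 1 ≤ s → cnt e s = cnt e' s) : IsJordan F L e' := by
  obtain ⟨φ, hφ⟩ := h
  obtain ⟨Θ, hΘ⟩ := exists_intertwine e e' F hc
  refine ⟨φ.trans Θ.symm, ?_⟩
  intro v
  show Θ.symm (φ (L v)) = Lop F e' (Θ.symm (φ v))
  rw [hφ]
  apply Θ.injective
  rw [hΘ, LinearEquiv.apply_symm_apply, LinearEquiv.apply_symm_apply]

theorem isConj_of_isJordan {κ : Type v} [Fintype κ] {κ' : Type w} [Fintype κ'] {e : κ → ℕ} {e' : κ' → ℕ}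
    {U U' : Matrix ι ι F} (hJ : IsJordan F (Matrix.toLin' (U - 1)) e) (hJ' : IsJordan F (Matrix.toLin' (U' - 1)) e')
    (hc : ∀ s, 1 ≤ s → cnt e s = cnt e' s) : IsConj U U' := by
  obtain ⟨Ψ, hΨ⟩ := IsJordan.of_cnt' hJ' (fun s hs => (hc s hs).symm)
  obtain ⟨φ, hφ⟩ := hJ
  -- compare through the same model
  let Γ : (ι → F) ≃ₗ[F] (ι → F) := φ.trans Ψ.symm
  have hΓ : ∀ v, Γ ((U - 1).mulVec v) = (U' - 1).mulVec (Γ v) := by
    intro v
    show Ψ.symm (φ (Matrix.toLin' (U - 1) v)) = _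
    rw [hφ]
    apply Ψ.injective
    rw [LinearEquiv.apply_symm_apply]
    have := hΨ (Γ v)
    show _ = Ψ (Matrix.toLin' (U' - 1) (Γ v))
    rw [this]
    show _ = Lop F e (Ψ (Ψ.symm (φ v)))
    rw [LinearEquiv.apply_symm_apply]
  let c : (Matrix ι ι F)ˣ :=
    ⟨LinearMap.toMatrix' Γ.toLinearMap, LinearMap.toMatrix' Γ.symm.toLinearMap, by
      rw [← LinearMap.toMatrix'_comp]
      simp, by
      rw [← LinearMap.toMatrix'_comp]
      simp⟩
  refine ⟨c, ?_⟩
  show (c : Matrix ι ι F) * U = U' * c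
  have h1 : (c : Matrix ι ι F) * (U - 1) = (U' - 1) * c := by
    apply Matrix.toLin'.injective
    rw [Matrix.toLin'_mul, Matrix.toLin'_mul]
    show Matrix.toLin' (LinearMap.toMatrix' Γ.toLinearMap) ∘ₗ _ = _ ∘ₗ Matrix.toLin' (LinearMap.toMatrix' Γ.toLinearMap)
    rw [Matrix.toLin'_toMatrix']
    apply LinearMap.ext
    exact hΓ
  rw [mul_sub, sub_mul, mul_one, one_mul] at h1
  exact (sub_left_inj.1 h1)

theorem isJordan_of_isConj {κ : Type v} {e : κ → ℕ} {U U' : Matrix ι ι F} (h : IsConj U U')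
    (hJ : IsJordan F (Matrix.toLin' (U - 1)) e) : IsJordan F (Matrix.toLin' (U' - 1)) e := by
  obtain ⟨c, hc⟩ := h
  have hc' : (c : Matrix ι ι F) * U = U' * c := hc
  let Φ : (ι → F) ≃ₗ[F] (ι → F) :=
    LinearEquiv.ofLinear (Matrix.toLin' ((c⁻¹ : (Matrix ι ι F)ˣ) : Matrix ι ι F))
      (Matrix.toLin' ((c : (Matrix ι ι F)ˣ) : Matrix ι ι F))
      (by rw [← Matrix.toLin'_mul, Units.inv_mul, Matrix.toLin'_one])
      (by rw [← Matrix.toLin'_mul, Units.mul_inv, Matrix.toLin'_one])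
  refine hJ.of_conj Φ ?_
  intro v
  show ((c⁻¹ : (Matrix ι ι F)ˣ) : Matrix ι ι F) *ᵥ ((U' - 1) *ᵥ v) = (U - 1) *ᵥ (((c⁻¹ : (Matrix ι ι F)ˣ) : Matrix ι ι F) *ᵥ v)
  rw [Matrix.mulVec_mulVec, Matrix.mulVec_mulVec]
  congr 1
  have h1 : ((c⁻¹ : (Matrix ι ι F)ˣ) : Matrix ι ι F) * U' = U * ((c⁻¹ : (Matrix ι ι F)ˣ) : Matrix ι ι F) := by
    calc ((c⁻¹ : (Matrix ι ι F)ˣ) : Matrix ι ι F) * U'
        = ((c⁻¹ : (Matrix ι ι F)ˣ) : Matrix ι ι F) * (U' * ((c : Matrix ι ι F) * ((c⁻¹ : (Matrix ι ι F)ˣ) : Matrix ι ι F))) := by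
          rw [Units.mul_inv, mul_one]
      _ = ((c⁻¹ : (Matrix ι ι F)ˣ) : Matrix ι ι F) * ((U' * c) * ((c⁻¹ : (Matrix ι ι F)ˣ) : Matrix ι ι F)) := by
          simp only [mul_assoc]
      _ = ((c⁻¹ : (Matrix ι ι F)ˣ) : Matrix ι ι F) * (((c : Matrix ι ι F) * U) * ((c⁻¹ : (Matrix ι ι F)ˣ) : Matrix ι ι F)) := by
          rw [hc']
      _ = (((c⁻¹ : (Matrix ι ι F)ˣ) : Matrix ι ι F) * (c : Matrix ι ι F)) * U * ((c⁻¹ : (Matrix ι ι F)ˣ) : Matrix ι ι F) := by
          simp only [mul_assoc]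
      _ = _ := by rw [Units.inv_mul, one_mul]
  rw [mul_sub, h1, sub_mul, mul_one, one_mul]

/-- A regular nilpotent matrix has one Jordan block. -/
theorem exists_single {n : ℕ} (hcard : Fintype.card ι = n) (hn : 0 < n) {L : Matrix ι ι F} (h1 : L ^ n = 0)
    (h2 : L.rank = n - 1) :
    ∃ (κ : Type u) (_ : Fintype κ) (e : κ → ℕ), IsJordan F (Matrix.toLin' L) e ∧ ∑ i, e i = n ∧
      ∀ s, 1 ≤ s → cnt e s = if s = n then 1 else 0 := by
  have hpow : ∀ k, Matrix.toLin' L ^ k = Matrix.toLin' (L ^ k) := fun k => (Matrix.toLin'_pow _ _).symm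
  have hnil : IsNilpotent (Matrix.toLin' L) := ⟨n, by rw [hpow, h1, map_zero]⟩
  obtain ⟨κ, hκ, e, hJ⟩ := exists_isJordan (Matrix.toLin' L) hnil
  refine ⟨κ, hκ, e, hJ, ?_, ?_⟩
  · rw [hJ.sum_eq_finrank]
    simp [hcard]
  have hsum : ∑ i, e i = n := by
    rw [hJ.sum_eq_finrank]
    simp [hcard]
  have hle : ∀ i, e i ≤ n := (hJ.pow_eq_zero_iff n).1 (by rw [hpow, h1, map_zero])
  have hex : ∃ i₀, e i₀ = n := by
    by_contra hno
    push Not at hno
    have h3 : ∀ i, e i ≤ n - 1 := by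
      intro i
      have := hle i
      have := hno i
      omega
    have h4 := (hJ.pow_eq_zero_iff (n - 1)).2 h3
    rw [hpow] at h4
    apply SpRegUnip.pow_pred_ne_zero hcard hn h1 h2
    exact Matrix.toLin'.injective (by rw [h4, map_zero])
  obtain ⟨i₀, hi₀⟩ := hex
  classical
  have hother : ∀ i, i ≠ i₀ → e i = 0 := by
    intro i hi
    by_contra h0
    have h3 : ∑ j ∈ ({i₀, i} : Finset κ), e j ≤ ∑ j, e j :=
      Finset.sum_le_sum_of_subset (Finset.subset_univ _)
    rw [Finset.sum_pair (Ne.symm hi), hsum, hi₀] at h3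
    omega
  intro s hs
  unfold cnt
  split_ifs with hsn
  · subst hsn
    rw [Nat.card_eq_one_iff_unique]
    refine ⟨⟨?_⟩, ⟨i₀, hi₀⟩⟩
    rintro ⟨a, ha⟩ ⟨b, hb⟩
    apply Subtype.ext
    by_contra hab
    have h5 : a ≠ i₀ ∨ b ≠ i₀ := by
      by_contra h6
      push Not at h6
      exact hab (h6.1.trans h6.2.symm)
    rcases h5 with h5 | h5
    · have := hother a h5
      omega
    · have := hother b h5
      omega
  · haveI : IsEmpty {i // e i = s} := ⟨by
      rintro ⟨a, ha⟩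
      by_cases h5 : a = i₀
      · subst h5
        omega
      · have := hother a h5
        omega⟩
    exact Nat.card_of_isEmpty

/-- Direct sums of Jordan forms. -/
def sumIdx {κ₁ : Type v} {κ₂ : Type w} (e₁ : κ₁ → ℕ) (e₂ : κ₂ → ℕ) : Idx e₁ ⊕ Idx e₂ ≃ Idx (Sum.elim e₁ e₂) where
  toFun x := match x with
    | Sum.inl y => ⟨(Sum.inl y.1.1, y.1.2), y.2⟩
    | Sum.inr y => ⟨(Sum.inr y.1.1, y.1.2), y.2⟩
  invFun x := match x with
    | ⟨(Sum.inl a, j), h⟩ => Sum.inl ⟨(a, j), h⟩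
    | ⟨(Sum.inr a, j), h⟩ => Sum.inr ⟨(a, j), h⟩
  left_inv x := by
    rcases x with y | y <;> rfl
  right_inv x := by
    rcases x with ⟨⟨a | a, j⟩, h⟩ <;> rfl

theorem isJordan_sum {ι₁ : Type*} [Fintype ι₁] [DecidableEq ι₁] {ι₂ : Type*} [Fintype ι₂] [DecidableEq ι₂]
    {κ₁ : Type v} {κ₂ : Type w} {e₁ : κ₁ → ℕ} {e₂ : κ₂ → ℕ} {N₁ : Matrix ι₁ ι₁ F} {N₂ : Matrix ι₂ ι₂ F}
    (h₁ : IsJordan F (Matrix.toLin' N₁) e₁) (h₂ : IsJordan F (Matrix.toLin' N₂) e₂) :
    IsJordan F (Matrix.toLin' (fromBlocks N₁ 0 0 N₂)) (Sum.elim e₁ e₂) := by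
  obtain ⟨φ₁, hφ₁⟩ := h₁
  obtain ⟨φ₂, hφ₂⟩ := h₂
  let A : ((ι₁ ⊕ ι₂) → F) ≃ₗ[F] (ι₁ → F) × (ι₂ → F) := LinearEquiv.sumArrowLequivProdArrow ι₁ ι₂ F F
  let B : ((Idx e₁ ⊕ Idx e₂) → F) ≃ₗ[F] (Idx e₁ → F) × (Idx e₂ → F) := LinearEquiv.sumArrowLequivProdArrow _ _ F F
  let Ψ : ((ι₁ ⊕ ι₂) → F) ≃ₗ[F] (Idx (Sum.elim e₁ e₂) → F) :=
    A.trans ((φ₁.prodCongr φ₂).trans (B.symm.trans (LinearEquiv.funCongrLeft F F (sumIdx e₁ e₂).symm)))
  have hΨ₁ : ∀ (v : (ι₁ ⊕ ι₂) → F) (y : Idx e₁), Ψ v (sumIdx e₁ e₂ (Sum.inl y)) = φ₁ (v ∘ Sum.inl) y := by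
    intro v y
    show (B.symm (φ₁ (v ∘ Sum.inl), φ₂ (v ∘ Sum.inr))) ((sumIdx e₁ e₂).symm (sumIdx e₁ e₂ (Sum.inl y))) = _
    rw [Equiv.symm_apply_apply]
    rfl
  have hΨ₂ : ∀ (v : (ι₁ ⊕ ι₂) → F) (y : Idx e₂), Ψ v (sumIdx e₁ e₂ (Sum.inr y)) = φ₂ (v ∘ Sum.inr) y := by
    intro v y
    show (B.symm (φ₁ (v ∘ Sum.inl), φ₂ (v ∘ Sum.inr))) ((sumIdx e₁ e₂).symm (sumIdx e₁ e₂ (Sum.inr y))) = _
    rw [Equiv.symm_apply_apply]
    rfl
  refine ⟨Ψ, ?_⟩
  intro v
  have hv : ∀ i, (Matrix.toLin' (fromBlocks N₁ 0 0 N₂) v) i =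
      (Sum.elim (N₁.mulVec (v ∘ Sum.inl)) (N₂.mulVec (v ∘ Sum.inr))) i := by
    intro i
    rw [Matrix.toLin'_apply, Matrix.fromBlocks_mulVec]
    simp
  have hv₁ : (Matrix.toLin' (fromBlocks N₁ 0 0 N₂) v) ∘ Sum.inl = Matrix.toLin' N₁ (v ∘ Sum.inl) := by
    funext i
    exact hv (Sum.inl i)
  have hv₂ : (Matrix.toLin' (fromBlocks N₁ 0 0 N₂) v) ∘ Sum.inr = Matrix.toLin' N₂ (v ∘ Sum.inr) := by
    funext i
    exact hv (Sum.inr i)
  funext x
  obtain ⟨y, rfl⟩ := (sumIdx e₁ e₂).surjective x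
  rcases y with y | y
  · rw [hΨ₁, hv₁, hφ₁, Lop_apply, Lop_apply]
    by_cases h0 : y.1.2 = 0
    · rw [dif_pos h0, dif_pos (by exact h0)]
    · rw [dif_neg h0, dif_neg (by exact h0)]
      have := hΨ₁ v ⟨(y.1.1, y.1.2 - 1), by have := y.2; simp only; omega⟩
      exact this.symm
  · rw [hΨ₂, hv₂, hφ₂, Lop_apply, Lop_apply]
    by_cases h0 : y.1.2 = 0
    · rw [dif_pos h0, dif_pos (by exact h0)]
    · rw [dif_neg h0, dif_neg (by exact h0)]
      have := hΨ₂ v ⟨(y.1.1, y.1.2 - 1), by have := y.2; simp only; omega⟩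
      exact this.symm

theorem cnt_sum {κ₁ : Type v} {κ₂ : Type w} [Fintype κ₁] [Fintype κ₂] (e₁ : κ₁ → ℕ) (e₂ : κ₂ → ℕ) (s : ℕ) :
    cnt (Sum.elim e₁ e₂) s = cnt e₁ s + cnt e₂ s := by
  unfold cnt
  rw [← Nat.card_sum]
  refine Nat.card_congr ?_
  exact
    { toFun := fun x => match x with
        | ⟨Sum.inl a, h⟩ => Sum.inl ⟨a, h⟩
        | ⟨Sum.inr a, h⟩ => Sum.inr ⟨a, h⟩
      invFun := fun x => match x with
        | Sum.inl a => ⟨Sum.inl a.1, a.2⟩
        | Sum.inr a => ⟨Sum.inr a.1, a.2⟩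
      left_inv := by
        rintro ⟨a | a, h⟩ <;> rfl
      right_inv := by
        rintro (a | a) <;> rfl }

/-- The Jordan form of the model matrix. -/
theorem isJordan_type {t : ℕ} (d : Fin t → ℕ) :
    IsJordan F (Matrix.toLin' (Cfsg.jordanTypeMatrix d F - 1)) d := by
  have h1 : Cfsg.jordanTypeMatrix d F - 1 = JordanCent.NN d := by
    rw [JordanCent.jordan_eq, add_sub_cancel_left]
  rw [h1]
  refine ⟨LinearEquiv.funCongrLeft F F (idxEquiv (e := d)), ?_⟩
  intro v
  funext x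
  obtain ⟨⟨k, j⟩, hj⟩ := x
  have hj' : j < d k := hj
  show (Matrix.toLin' (JordanCent.NN d) v) ⟨k, ⟨j, hj⟩⟩ = _
  rw [Matrix.toLin'_apply, Lop_apply]
  simp only [Matrix.mulVec, dotProduct]
  by_cases h0 : j = 0
  · rw [dif_pos h0]
    apply Finset.sum_eq_zero
    rintro ⟨a, b⟩ _
    simp [JordanCent.NN, h0]
  · rw [dif_neg h0]
    rw [Finset.sum_eq_single (⟨k, ⟨j - 1, by omega⟩⟩ : (k : Fin t) × Fin (d k))]
    · have h3 : (j : ℕ) = j - 1 + 1 := by omega
      simp only [JordanCent.NN, true_and, if_pos h3.symm, one_mul]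
      rw [if_pos]
      · simp
        rfl
      · omega
    · rintro ⟨a, b⟩ _ hab
      have h3 : ¬ (k = a ∧ j = (b : ℕ) + 1) := by
        rintro ⟨rfl, h4⟩
        apply hab
        congr 1
        apply Fin.ext
        show (b : ℕ) = j - 1
        omega
      simp [JordanCent.NN, h3]
    · simp

/-- Alternating matrices have even rank. -/
theorem rank_even_of_alt {M : Matrix ι ι F} (hM : ∀ x, x ⬝ᵥ M.mulVec x = 0) : Even M.rank := by
  let B : LinearMap.BilinForm F (ι → F) := Matrix.toBilin' M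
  have hB : ∀ x y, B x y = x ⬝ᵥ M.mulVec y := fun x y => Matrix.toBilin'_apply' M x y
  have hA : B.IsAlt := fun x => by rw [hB]; exact hM x
  have hneg : ∀ a b, B b a = - B a b := fun a b => by rw [← hA.neg_eq a b]
  set R : Submodule F (ι → F) := LinearMap.ker B with hR
  obtain ⟨W, hW⟩ := Submodule.exists_isCompl R
  have hRr : ∀ r ∈ R, ∀ v, B r v = 0 := by
    intro r hr v
    have : B r = 0 := hr
    rw [this]
    rfl
  have hN : FormClass.NondegOn B W := by
    intro w hw hall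
    have h1 : w ∈ R := by
      show B w = 0
      apply LinearMap.ext
      intro v
      obtain ⟨r, hr, y, hy, rfl⟩ := Submodule.mem_sup.1 (show v ∈ R ⊔ W by rw [hW.sup_eq_top]; trivial)
      rw [map_add, hall y hy, add_zero, hneg, hRr r hr, neg_zero]
      rfl
    have h2 := hW.inf_eq_bot
    have h3 : w ∈ R ⊓ W := ⟨h1, hw⟩
    rw [h2] at h3
    exact (Submodule.mem_bot F).1 h3
  obtain ⟨m, e, f, hm, -⟩ := FormClass.alt_symplectic hA _ W rfl hN
  have hker : R = LinearMap.ker M.mulVecLin := by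
    ext x
    rw [LinearMap.mem_ker (f := M.mulVecLin), Matrix.mulVecLin_apply]
    constructor
    · intro hx
      funext i
      have h1 := hRr x hx (Pi.single i 1)
      rw [hneg, hB] at h1
      simpa using h1
    · intro hx
      show B x = 0
      apply LinearMap.ext
      intro y
      rw [hneg, hB, hx]
      simp
  have h1 := Submodule.finrank_add_eq_of_isCompl hW
  have h3 := LinearMap.finrank_range_add_finrank_ker M.mulVecLin
  rw [← hker] at h3
  have h4 : M.rank = Module.finrank F W := by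
    show Module.finrank F (LinearMap.range M.mulVecLin) = _
    omega
  rw [h4, ← hm]
  exact even_two_mul m

/-- Even powers of `A - 1` have even rank, for an isometry of an alternating form. -/
theorem rank_pow_even {G A : Matrix ι ι F} (hG : IsUnit G.det) (halt : ∀ x, x ⬝ᵥ G.mulVec x = 0)
    (hA : Aᵀ * G * A = G) (k : ℕ) : Even ((A - 1) ^ (2 * k)).rank := by
  have hdetA : IsUnit A.det := by
    have h1 : (Aᵀ * G * A).det = G.det := by rw [hA]
    rw [Matrix.det_mul, Matrix.det_mul, Matrix.det_transpose] at h1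
    have h3 : A.det ≠ 0 := by
      intro h0
      rw [h0] at h1
      simp at h1
      exact hG.ne_zero h1.symm
    exact isUnit_iff_ne_zero.2 h3
  set s := A⁻¹ with hs
  have hsA : s * A = 1 := Matrix.nonsing_inv_mul A hdetA
  have hAs : A * s = 1 := Matrix.mul_nonsing_inv A hdetA
  set N := A - 1 with hN
  have hAG : Aᵀ * G = G * s := by
    calc Aᵀ * G = Aᵀ * G * (A * s) := by rw [hAs, mul_one]
      _ = (Aᵀ * G * A) * s := by simp only [mul_assoc]
      _ = G * s := by rw [hA]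
  have hw : s * N = 1 - s := by
    rw [hN, mul_sub, hsA, mul_one]
  have hNG : Nᵀ * G = G * (-s * N) := by
    rw [hN, Matrix.transpose_sub, Matrix.transpose_one, sub_mul, one_mul, hAG, neg_mul, hw, mul_neg, mul_sub, mul_one]
    abel
  have hcsN : Commute s N := by
    show s * N = N * s
    rw [hw, hN, sub_mul, hAs, one_mul]
  have hpow : ∀ j : ℕ, (Nᵀ) ^ j * G = G * (-s * N) ^ j := by
    intro j
    induction j with
    | zero => simp
    | succ j ih =>
      rw [pow_succ', mul_assoc, ih, ← mul_assoc, hNG, mul_assoc, pow_succ']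
  have hM : (N ^ k)ᵀ * G * N ^ k = G * ((-s) ^ k * (N ^ (2 * k))) := by
    rw [Matrix.transpose_pow, hpow, mul_assoc, two_mul, pow_add]
    congr 1
    have : Commute (-s) N := hcsN.neg_left
    rw [this.mul_pow, mul_assoc]
  have hunit : IsUnit (G * (-s) ^ k).det := by
    rw [Matrix.det_mul, Matrix.det_pow, Matrix.det_neg]
    apply hG.mul
    apply IsUnit.pow
    apply IsUnit.mul
    · apply IsUnit.pow
      exact (isUnit_neg_one)
    · rw [hs]
      exact (Matrix.isUnit_nonsing_inv_det_iff).2 hdetA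
  have heq : ((N ^ k)ᵀ * G * N ^ k).rank = (N ^ (2 * k)).rank := by
    rw [hM, ← mul_assoc, Matrix.rank_mul_eq_right_of_isUnit_det _ _ hunit]
  rw [← heq]
  apply rank_even_of_alt
  intro x
  rw [← Matrix.mulVec_mulVec, ← Matrix.mulVec_mulVec, Matrix.dotProduct_mulVec x (N ^ k)ᵀ, Matrix.vecMul_transpose]
  exact halt _

/-- Ranks of powers from the Jordan type. -/
theorem rank_add_sum [Finite F] {κ : Type v} [Fintype κ] {e : κ → ℕ} {N : Matrix ι ι F}
    (hJ : IsJordan F (Matrix.toLin' N) e) (k : ℕ) :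
    (N ^ k).rank + ∑ i, min (e i) k = Fintype.card ι := by
  have h1 := hJ.card_ker k
  have h2 : Nat.card {v : ι → F // (Matrix.toLin' N ^ k) v = 0} = Nat.card (LinearMap.ker (N ^ k).mulVecLin) := by
    refine Nat.card_congr (Equiv.subtypeEquivRight ?_)
    intro v
    rw [← Matrix.toLin'_pow, LinearMap.mem_ker, Matrix.mulVecLin_apply, Matrix.toLin'_apply]
  rw [h2, Module.natCard_eq_pow_finrank (K := F)] at h1
  have hF : 1 < Nat.card F := Finite.one_lt_card
  have h3 := Nat.pow_right_injective hF h1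
  have h4 := LinearMap.finrank_range_add_finrank_ker (N ^ k).mulVecLin
  rw [h3] at h4
  have h5 : Module.finrank F (ι → F) = Fintype.card ι := by simp
  rw [h5] at h4
  exact h4

/-- The parity of the number of blocks of a given size. -/
theorem cnt_even {κ : Type v} [Fintype κ] (e : κ → ℕ) (s : ℕ) (hs : 1 ≤ s)
    (h1 : Even (∑ i, min (e i) (s - 1))) (h2 : Even (∑ i, min (e i) (s + 1))) : Even (cnt e s) := by
  have h3 := cnt_formula e s hs
  obtain ⟨a, ha⟩ := h1
  obtain ⟨b, hb⟩ := h2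
  rw [ha, hb] at h3
  generalize (∑ i, min (e i) s) = S at h3
  refine ⟨S - a - b, ?_⟩
  omega

end general

section helpers

variable {F : Type u} [Field F]

theorem fromBlocks_sub_one {ι₁ : Type*} [Fintype ι₁] [DecidableEq ι₁] {ι₂ : Type*} [Fintype ι₂] [DecidableEq ι₂]
    (A : Matrix ι₁ ι₁ F) (D : Matrix ι₂ ι₂ F) :
    fromBlocks A 0 0 D - 1 = fromBlocks (A - 1) 0 0 (D - 1) := by
  have h : (1 : Matrix (ι₁ ⊕ ι₂) (ι₁ ⊕ ι₂) F) = fromBlocks 1 0 0 1 := Matrix.fromBlocks_one.symm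
  rw [h, sub_eq_add_neg, Matrix.fromBlocks_neg, Matrix.fromBlocks_add]
  simp [sub_eq_add_neg]

theorem submatrix_sub_one {ι : Type*} [Fintype ι] [DecidableEq ι] {ι' : Type*} [Fintype ι'] [DecidableEq ι']
    (M : Matrix ι ι F) (E : ι' ≃ ι) : (M - 1).submatrix E E = M.submatrix E E - 1 := by
  ext i j
  have h := congrFun (congrFun (Matrix.submatrix_one_equiv (α := F) E) i) j
  simp only [Matrix.submatrix_apply] at h
  simp only [Matrix.submatrix_apply, Matrix.sub_apply, h]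

end helpers

section sp

variable {F : Type u} [Field F]

open SpRegUnip (Ix card_Ix)

theorem J_alt {l : Type*} [Fintype l] [DecidableEq l] (x : l ⊕ l → F) : x ⬝ᵥ (J l F).mulVec x = 0 := by
  unfold J
  rw [Matrix.fromBlocks_mulVec]
  simp [dotProduct, Fintype.sum_sum_type, Matrix.neg_mulVec, mul_comm]

/-- The antidiagonal. -/
def RR (F : Type u) [Field F] (a : ℕ) : Matrix (Fin a) (Fin a) F := fun i j => if (i : ℕ) + j + 1 = a then 1 else 0

/-- The subantidiagonal. -/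
def BB (F : Type u) [Field F] (a : ℕ) : Matrix (Fin a) (Fin a) F := fun i j => if (i : ℕ) + j = a then 1 else 0

theorem RR_transpose (a : ℕ) : (RR F a)ᵀ = RR F a := by
  ext i j
  simp only [Matrix.transpose_apply, RR]
  rw [add_comm (j : ℕ)]

theorem BB_transpose (a : ℕ) : (BB F a)ᵀ = BB F a := by
  ext i j
  simp only [Matrix.transpose_apply, BB]
  rw [add_comm (j : ℕ)]

/-- The lower factor. -/
def Low {a : ℕ} (C : Matrix (Fin a) (Fin a) F) : Matrix (Ix a) (Ix a) F := fromBlocks 1 0 C 1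

/-- The upper factor. -/
def Up {a : ℕ} (C : Matrix (Fin a) (Fin a) F) : Matrix (Ix a) (Ix a) F := fromBlocks 1 C 0 1

theorem Low_mem {a : ℕ} {C : Matrix (Fin a) (Fin a) F} (h : Cᵀ = C) : Low C ∈ Matrix.symplecticGroup (Fin a) F := by
  rw [SymplecticGroup.mem_iff]
  unfold Low J
  rw [Matrix.fromBlocks_transpose, Matrix.fromBlocks_multiply, Matrix.fromBlocks_multiply]
  simp [h]

theorem Up_mem {a : ℕ} {C : Matrix (Fin a) (Fin a) F} (h : Cᵀ = C) : Up C ∈ Matrix.symplecticGroup (Fin a) F := by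
  rw [SymplecticGroup.mem_iff]
  unfold Up J
  rw [Matrix.fromBlocks_transpose, Matrix.fromBlocks_multiply, Matrix.fromBlocks_multiply]
  simp [h]

/-- The regular unipotent element of `Sp_{2a}`. -/
def TT (F : Type u) [Field F] (a : ℕ) : Matrix (Ix a) (Ix a) F := Low (RR F a) * Up (BB F a)

theorem TT_eq (a : ℕ) : TT F a = fromBlocks 1 (BB F a) (RR F a) (RR F a * BB F a + 1) := by
  unfold TT Low Up
  rw [Matrix.fromBlocks_multiply]
  simp

theorem TT_mem (a : ℕ) : TT F a ∈ Matrix.symplecticGroup (Fin a) F :=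
  (Matrix.symplecticGroup (Fin a) F).mul_mem (Low_mem (RR_transpose a)) (Up_mem (BB_transpose a))

theorem TT_sub (a : ℕ) : TT F a - 1 = fromBlocks 0 (BB F a) (RR F a) (RR F a * BB F a) := by
  rw [TT_eq, sub_eq_iff_eq_add, ← Matrix.fromBlocks_one, Matrix.fromBlocks_add]
  simp

/-- A grading showing nilpotence. -/
def wt {a : ℕ} : Ix a → ℕ
  | Sum.inl i => 2 * (i : ℕ)
  | Sum.inr j => 2 * (a - 1 - (j : ℕ)) + 1

theorem wt_lt {a : ℕ} (x : Ix a) : wt x < 2 * a := by
  rcases x with i | j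
  · have := i.2
    show 2 * (i : ℕ) < 2 * a
    omega
  · have := j.2
    show 2 * (a - 1 - (j : ℕ)) + 1 < 2 * a
    omega

theorem pow_eq_zero_of_wt {ι : Type*} [Fintype ι] [DecidableEq ι] {N : Matrix ι ι F} {w : ι → ℕ} {n : ℕ}
    (hw : ∀ x, w x < n) (h : ∀ x y, w x ≤ w y → N x y = 0) : N ^ n = 0 := by
  have key : ∀ k x y, w x < w y + k → (N ^ k) x y = 0 := by
    intro k
    induction k with
    | zero =>
      intro x y hxy
      have hne : x ≠ y := by
        rintro rfl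
        omega
      simp [Matrix.one_apply_ne hne]
    | succ k ih =>
      intro x y hxy
      rw [pow_succ', Matrix.mul_apply]
      apply Finset.sum_eq_zero
      intro z _
      by_cases hz : w x ≤ w z
      · rw [h x z hz, zero_mul]
      · rw [ih z y (by omega), mul_zero]
  ext x y
  rw [key n x y (by have := hw x; omega)]
  rfl

theorem TT_pow (a : ℕ) : (TT F a - 1) ^ (2 * a) = 0 := by
  apply pow_eq_zero_of_wt (w := wt) wt_lt
  intro x y hxy
  rw [TT_sub]
  rcases x with i | i <;> rcases y with j | j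
  · rfl
  · show BB F a i j = 0
    have h1 : wt (Sum.inl i : Ix a) = 2 * (i : ℕ) := rfl
    have h2 : wt (Sum.inr j : Ix a) = 2 * (a - 1 - (j : ℕ)) + 1 := rfl
    rw [h1, h2] at hxy
    have := i.2
    have := j.2
    unfold BB
    rw [if_neg (by omega)]
  · show RR F a i j = 0
    have h1 : wt (Sum.inr i : Ix a) = 2 * (a - 1 - (i : ℕ)) + 1 := rfl
    have h2 : wt (Sum.inl j : Ix a) = 2 * (j : ℕ) := rfl
    rw [h1, h2] at hxy
    have := i.2
    have := j.2
    unfold RR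
    rw [if_neg (by omega)]
  · show (RR F a * BB F a) i j = 0
    have h1 : wt (Sum.inr i : Ix a) = 2 * (a - 1 - (i : ℕ)) + 1 := rfl
    have h2 : wt (Sum.inr j : Ix a) = 2 * (a - 1 - (j : ℕ)) + 1 := rfl
    rw [h1, h2] at hxy
    have := i.2
    have := j.2
    rw [Matrix.mul_apply]
    apply Finset.sum_eq_zero
    intro l _
    unfold RR BB
    by_cases h3 : (i : ℕ) + l + 1 = a
    · rw [if_neg (show ¬ (l : ℕ) + j = a by omega), mul_zero]
    · rw [if_neg h3, zero_mul]

theorem RR_mulVec (a : ℕ) (v : Fin a → F) (k : Fin a) (l : Fin a) (h : (k : ℕ) + l + 1 = a) :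
    (RR F a).mulVec v k = v l := by
  simp only [Matrix.mulVec, dotProduct]
  rw [Finset.sum_eq_single l]
  · simp [RR, h]
  · intro j _ hj
    have h1 : (k : ℕ) + j + 1 ≠ a := by
      intro h2
      apply hj
      apply Fin.ext
      omega
    simp [RR, h1]
  · simp

theorem BB_mulVec (a : ℕ) (v : Fin a → F) (k : Fin a) (l : Fin a) (h : (k : ℕ) + l = a) :
    (BB F a).mulVec v k = v l := by
  simp only [Matrix.mulVec, dotProduct]
  rw [Finset.sum_eq_single l]
  · simp [BB, h]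
  · intro j _ hj
    have h1 : (k : ℕ) + j ≠ a := by
      intro h2
      apply hj
      apply Fin.ext
      omega
    simp [BB, h1]
  · simp

theorem BB_mulVec_zero (a : ℕ) (v : Fin a → F) (k : Fin a) (h : (k : ℕ) = 0) : (BB F a).mulVec v k = 0 := by
  simp only [Matrix.mulVec, dotProduct]
  apply Finset.sum_eq_zero
  intro j _
  have h1 : (k : ℕ) + j ≠ a := by
    have := j.2
    omega
  simp [BB, h1]

theorem TT_ker (a : ℕ) (ha : 1 ≤ a) (x : Ix a → F) :
    (TT F a - 1).mulVec x = 0 ↔ (∀ i, x (Sum.inl i) = 0) ∧ ∀ j : Fin a, (j : ℕ) ≠ 0 → x (Sum.inr j) = 0 := by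
  have hBB0 : ∀ y : Fin a → F, (BB F a).mulVec y = 0 ↔ ∀ j : Fin a, (j : ℕ) ≠ 0 → y j = 0 := by
    intro y
    constructor
    · intro h j hj
      have h1 := congrFun h ⟨a - j, by have := j.2; omega⟩
      rw [BB_mulVec a y _ j (by show a - (j : ℕ) + j = a; have := j.2; omega)] at h1
      exact h1
    · intro h
      funext k
      by_cases hk : (k : ℕ) = 0
      · exact BB_mulVec_zero a y k hk
      · rw [BB_mulVec a y k ⟨a - k, by have := k.2; omega⟩ (by show (k : ℕ) + (a - k) = a; have := k.2; omega)]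
        apply h
        show a - (k : ℕ) ≠ 0
        have := k.2
        omega
  have hRR0 : ∀ y : Fin a → F, (RR F a).mulVec y = 0 → y = 0 := by
    intro y h
    funext l
    have h1 := congrFun h ⟨a - 1 - l, by have := l.2; omega⟩
    rw [RR_mulVec a y _ l (by show a - 1 - (l : ℕ) + l + 1 = a; have := l.2; omega)] at h1
    exact h1
  rw [TT_sub, Matrix.fromBlocks_mulVec]
  constructor
  · intro h
    have h1 : (BB F a).mulVec (x ∘ Sum.inr) = 0 := by
      funext k
      have := congrFun h (Sum.inl k)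
      simpa using this
    have h3 : (RR F a).mulVec (x ∘ Sum.inl) = 0 := by
      funext k
      have := congrFun h (Sum.inr k)
      simp only [Sum.elim_inr, Pi.add_apply, ← Matrix.mulVec_mulVec, h1, Matrix.mulVec_zero, Pi.zero_apply, add_zero] at this
      exact this
    constructor
    · intro i
      exact congrFun (hRR0 _ h3) i
    · exact (hBB0 _).1 h1
  · rintro ⟨h1, h3⟩
    have h4 : x ∘ Sum.inl = 0 := by
      funext i
      exact h1 i
    have h5 : (BB F a).mulVec (x ∘ Sum.inr) = 0 := (hBB0 _).2 h3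
    rw [h4]
    funext k
    rcases k with k | k
    · simpa using congrFun h5 k
    · simp [← Matrix.mulVec_mulVec, h5]

theorem TT_rank (a : ℕ) (ha : 1 ≤ a) : (TT F a - 1).rank = 2 * a - 1 := by
  let z : Fin a := ⟨0, ha⟩
  let w : Ix a → F := Pi.single (Sum.inr z) 1
  have hw : w ≠ 0 := by
    intro h
    have := congrFun h (Sum.inr z)
    simp [w] at this
  have hker : LinearMap.ker (TT F a - 1).mulVecLin = Submodule.span F {w} := by
    ext x
    rw [LinearMap.mem_ker, Matrix.mulVecLin_apply, TT_ker a ha, Submodule.mem_span_singleton]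
    constructor
    · rintro ⟨h1, h3⟩
      refine ⟨x (Sum.inr z), ?_⟩
      funext i
      cases i with
      | inl i =>
        rw [h1]
        simp [w]
      | inr i =>
        by_cases hi : (i : ℕ) = 0
        · have : i = z := Fin.ext hi
          subst this
          simp [w]
        · have h4 : i ≠ z := fun h => hi (by rw [h])
          rw [h3 i hi]
          simp [w, Pi.single_eq_of_ne (fun h : Sum.inr i = Sum.inr z => h4 (Sum.inr.inj h))]
    · rintro ⟨c, rfl⟩
      constructor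
      · intro i
        simp [w]
      · intro i hi
        have h4 : i ≠ z := fun h => hi (by rw [h])
        simp [w, Pi.single_eq_of_ne (fun h : Sum.inr i = Sum.inr z => h4 (Sum.inr.inj h))]
  have h1 := LinearMap.finrank_range_add_finrank_ker (TT F a - 1).mulVecLin
  rw [hker, finrank_span_singleton hw] at h1
  have h3 : Module.finrank F (Ix a → F) = 2 * a := by
    simp [Fintype.card_sum, two_mul]
  rw [h3] at h1
  show Module.finrank F (LinearMap.range (TT F a - 1).mulVecLin) = 2 * a - 1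
  omega

/-- The paired block: a Jordan block and its inverse transpose. -/
def PP (F : Type u) [Field F] (j : ℕ) : Matrix (Ix j) (Ix j) F :=
  fromBlocks (1 + RegUnip.N0 F j) 0 0 ((1 + RegUnip.N0 F j)⁻¹)ᵀ

theorem pair_mem {j : ℕ} (B : Matrix (Fin j) (Fin j) F) (hB : IsUnit B.det) :
    fromBlocks B 0 0 (B⁻¹)ᵀ ∈ Matrix.symplecticGroup (Fin j) F := by
  rw [SymplecticGroup.mem_iff]
  unfold J
  rw [Matrix.fromBlocks_transpose, Matrix.fromBlocks_multiply, Matrix.fromBlocks_multiply]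
  have h1 : B * B⁻¹ = 1 := Matrix.mul_nonsing_inv _ hB
  have h3 : (B⁻¹)ᵀ * Bᵀ = 1 := by
    rw [← Matrix.transpose_mul, h1, Matrix.transpose_one]
  simp [h1, h3]

theorem PP_mem (j : ℕ) : PP F j ∈ Matrix.symplecticGroup (Fin j) F := by
  have hB : IsUnit (1 + RegUnip.N0 F j).det := by
    rw [RegUnip.det_u0]
    exact isUnit_one
  exact pair_mem _ hB

theorem PP_good (j : ℕ) (hj : 1 ≤ j) : ∃ (κ : Type u) (_ : Fintype κ) (e : κ → ℕ),
    IsJordan F (Matrix.toLin' (PP F j - 1)) e ∧ ∑ i, e i = j + j ∧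
      ∀ s, 1 ≤ s → cnt e s = (if s = j then 1 else 0) + (if s = j then 1 else 0) := by
  have hB : IsUnit (1 + RegUnip.N0 F j).det := by
    rw [RegUnip.det_u0]
    exact isUnit_one
  set B := 1 + RegUnip.N0 F j with hBdef
  set s := B⁻¹ with hs
  have hsB : s * B = 1 := Matrix.nonsing_inv_mul B hB
  have hBs : B * s = 1 := Matrix.mul_nonsing_inv B hB
  have hN : B - 1 = RegUnip.N0 F j := by rw [hBdef, add_sub_cancel_left]
  have hD : s - 1 = -(s * RegUnip.N0 F j) := by
    rw [← hN, mul_sub, hsB, mul_one]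
    abel
  have hcomm : Commute s (RegUnip.N0 F j) := by
    show s * RegUnip.N0 F j = RegUnip.N0 F j * s
    rw [← hN, mul_sub, hsB, sub_mul, hBs, mul_one, one_mul]
  have hC : sᵀ - 1 = (s - 1)ᵀ := by
    rw [Matrix.transpose_sub, Matrix.transpose_one]
  have hC1 : (sᵀ - 1) ^ j = 0 := by
    rw [hC, ← Matrix.transpose_pow, hD, neg_pow, hcomm.mul_pow, RegUnip.N0_pow_self]
    simp
  have hC2 : (sᵀ - 1).rank = j - 1 := by
    have hu : IsUnit (-s).det := by
      rw [Matrix.det_neg]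
      exact (isUnit_neg_one.pow _).mul ((Matrix.isUnit_nonsing_inv_det_iff).2 hB)
    rw [hC, Matrix.rank_transpose, hD, ← neg_mul, Matrix.rank_mul_eq_right_of_isUnit_det _ _ hu,
      RegUnip.rank_N0 (by omega)]
  obtain ⟨κ₁, h₁, e₁, hJ₁, hs₁, hc₁⟩ := exists_single (F := F) (Fintype.card_fin j) (by omega)
    (RegUnip.N0_pow_self (F := F) (n := j)) (RegUnip.rank_N0 (by omega))
  obtain ⟨κ₂, h₂, e₂, hJ₂, hs₂, hc₂⟩ := exists_single (F := F) (Fintype.card_fin j) (by omega) hC1 hC2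
  refine ⟨κ₁ ⊕ κ₂, inferInstance, Sum.elim e₁ e₂, ?_, ?_, ?_⟩
  · have h3 : PP F j - 1 = fromBlocks (RegUnip.N0 F j) 0 0 (sᵀ - 1) := by
      show fromBlocks B 0 0 sᵀ - 1 = _
      rw [fromBlocks_sub_one, hN]
    rw [h3]
    exact isJordan_sum hJ₁ hJ₂
  · rw [Fintype.sum_sum_type]
    simp only [Sum.elim_inl, Sum.elim_inr]
    rw [hs₁, hs₂]
  · intro t ht
    rw [cnt_sum, hc₁ t ht, hc₂ t ht]

/-- Reindexing `Sum` of `Sum`. -/
def tauS (l₁ l₂ : Type*) : ((l₁ ⊕ l₂) ⊕ (l₁ ⊕ l₂)) ≃ ((l₁ ⊕ l₁) ⊕ (l₂ ⊕ l₂)) := Equiv.sumSumSumComm l₁ l₂ l₁ l₂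

theorem J_sum (l₁ l₂ : Type*) [Fintype l₁] [DecidableEq l₁] [Fintype l₂] [DecidableEq l₂] :
    J (l₁ ⊕ l₂) F = (fromBlocks (J l₁ F) 0 0 (J l₂ F)).submatrix (tauS l₁ l₂) (tauS l₁ l₂) := by
  ext x y
  rcases x with (a | a) | (a | a) <;> rcases y with (b | b) | (b | b) <;>
    simp [J, tauS, Matrix.one_apply]

theorem dsum_mem {l₁ l₂ : Type*} [Fintype l₁] [DecidableEq l₁] [Fintype l₂] [DecidableEq l₂]
    {A₁ : Matrix (l₁ ⊕ l₁) (l₁ ⊕ l₁) F} {A₂ : Matrix (l₂ ⊕ l₂) (l₂ ⊕ l₂) F}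
    (h₁ : A₁ ∈ Matrix.symplecticGroup l₁ F) (h₂ : A₂ ∈ Matrix.symplecticGroup l₂ F) :
    (fromBlocks A₁ 0 0 A₂).submatrix (tauS l₁ l₂) (tauS l₁ l₂) ∈ Matrix.symplecticGroup (l₁ ⊕ l₂) F := by
  rw [SymplecticGroup.mem_iff, J_sum, Matrix.transpose_submatrix, Matrix.submatrix_mul_equiv,
    Matrix.submatrix_mul_equiv, Matrix.fromBlocks_transpose, Matrix.fromBlocks_multiply, Matrix.fromBlocks_multiply]
  rw [SymplecticGroup.mem_iff] at h₁ h₂
  simp [h₁, h₂]

/-- Symplectic elements with a given Jordan type. -/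
def Good (F : Type u) [Field F] (μ : Multiset ℕ) : Prop :=
  ∃ (l : Type) (_ : Fintype l) (_ : DecidableEq l) (A : Matrix (l ⊕ l) (l ⊕ l) F) (κ : Type u) (_ : Fintype κ)
    (e : κ → ℕ), A ∈ Matrix.symplecticGroup l F ∧ IsJordan F (Matrix.toLin' (A - 1)) e ∧ ∑ i, e i = μ.sum ∧
      ∀ s, 1 ≤ s → cnt e s = μ.count s

theorem Good.add {μ₁ μ₂ : Multiset ℕ} (h₁ : Good F μ₁) (h₂ : Good F μ₂) : Good F (μ₁ + μ₂) := by
  obtain ⟨l₁, _, _, A₁, κ₁, _, e₁, hA₁, hJ₁, hs₁, hc₁⟩ := h₁
  obtain ⟨l₂, _, _, A₂, κ₂, _, e₂, hA₂, hJ₂, hs₂, hc₂⟩ := h₂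
  refine ⟨l₁ ⊕ l₂, inferInstance, inferInstance, (fromBlocks A₁ 0 0 A₂).submatrix (tauS l₁ l₂) (tauS l₁ l₂),
    κ₁ ⊕ κ₂, inferInstance, Sum.elim e₁ e₂, dsum_mem hA₁ hA₂, ?_, ?_, ?_⟩
  · have h3 : (fromBlocks A₁ 0 0 A₂).submatrix (tauS l₁ l₂) (tauS l₁ l₂) - 1 =
        (fromBlocks (A₁ - 1) 0 0 (A₂ - 1)).submatrix (tauS l₁ l₂) (tauS l₁ l₂) := by
      rw [← fromBlocks_sub_one, submatrix_sub_one (fromBlocks A₁ 0 0 A₂) (tauS l₁ l₂)]
    rw [h3]
    exact isJordan_reindex (tauS l₁ l₂).symm (isJordan_sum hJ₁ hJ₂)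
  · rw [Fintype.sum_sum_type, Multiset.sum_add]
    simp only [Sum.elim_inl, Sum.elim_inr]
    rw [hs₁, hs₂]
  · intro s hs
    rw [cnt_sum, hc₁ s hs, hc₂ s hs, Multiset.count_add]

theorem good_zero : Good F (0 : Multiset ℕ) := by
  have h0 : (1 : Matrix (Empty ⊕ Empty) (Empty ⊕ Empty) F) - 1 = 0 := sub_self _
  have hnil : IsNilpotent (Matrix.toLin' ((1 : Matrix (Empty ⊕ Empty) (Empty ⊕ Empty) F) - 1)) := by
    rw [h0, map_zero]
    exact IsNilpotent.zero
  obtain ⟨κ, hκ, e, hJ⟩ := exists_isJordan _ hnil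
  have hsum : ∑ i, e i = 0 := by
    rw [hJ.sum_eq_finrank]
    simp
  refine ⟨Empty, inferInstance, inferInstance, 1, κ, hκ, e, one_mem _, hJ, hsum, ?_⟩
  intro s hs
  have h1 : ∀ i, e i = 0 := fun i => (Finset.sum_eq_zero_iff.1 hsum) i (Finset.mem_univ i)
  unfold cnt
  haveI : IsEmpty {i // e i = s} := ⟨by
    rintro ⟨a, ha⟩
    have := h1 a
    omega⟩
  rw [Nat.card_of_isEmpty]
  simp

theorem good_even (a : ℕ) (ha : 1 ≤ a) : Good F {2 * a} := by
  obtain ⟨κ, hκ, e, hJ, hs, hc⟩ := exists_single (F := F) (card_Ix a) (by omega) (TT_pow a) (TT_rank a ha)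
  refine ⟨Fin a, inferInstance, inferInstance, TT F a, κ, hκ, e, TT_mem a, hJ, ?_, ?_⟩
  · rw [hs]
    simp
  · intro s h
    rw [hc s h, Multiset.count_singleton]

theorem good_pair (j : ℕ) (hj : 1 ≤ j) : Good F ({j} + {j}) := by
  obtain ⟨κ, hκ, e, hJ, hs, hc⟩ := PP_good (F := F) j hj
  refine ⟨Fin j, inferInstance, inferInstance, PP F j, κ, hκ, e, PP_mem j, hJ, ?_, ?_⟩
  · rw [hs]
    simp
  · intro s h
    rw [hc s h, Multiset.count_add, Multiset.count_singleton]

theorem good_of_parity : ∀ (n : ℕ) (μ : Multiset ℕ), Multiset.card μ = n → (∀ x ∈ μ, 1 ≤ x) →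
    (∀ j, Odd j → Even (μ.count j)) → Good F μ := by
  intro n
  induction n using Nat.strong_induction_on with
  | _ n ih =>
    intro μ hn hpos hpar
    by_cases hμ : μ = 0
    · rw [hμ]
      exact good_zero
    obtain ⟨x, hx⟩ := Multiset.exists_mem_of_ne_zero hμ
    obtain ⟨μ', rfl⟩ := Multiset.exists_cons_of_mem hx
    have hx1 := hpos x (Multiset.mem_cons_self x μ')
    rcases Nat.even_or_odd x with hxe | hxo
    · obtain ⟨a, rfl⟩ := hxe
      have h1 : Good F μ' := by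
        apply ih (Multiset.card μ') (by rw [← hn, Multiset.card_cons]; omega) μ' rfl
        · intro y hy
          exact hpos y (Multiset.mem_cons_of_mem hy)
        · intro j hj
          have := hpar j hj
          rw [Multiset.count_cons_of_ne] at this
          · exact this
          · rintro rfl
            exact (Nat.not_even_iff_odd.2 hj) ⟨a, rfl⟩
      have h2 : Good F {a + a} := by
        rw [← two_mul]
        exact good_even a (by omega)
      have := h2.add h1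
      rwa [Multiset.singleton_add] at this
    · have hc := hpar x hxo
      rw [Multiset.count_cons_self] at hc
      have hpos' : 0 < μ'.count x := by
        by_contra h0
        have h00 : μ'.count x = 0 := by omega
        rw [h00] at hc
        simp at hc
      obtain ⟨μ'', rfl⟩ := Multiset.exists_cons_of_mem (Multiset.count_pos.1 hpos')
      have hcard : Multiset.card μ'' + 2 = n := by
        rw [← hn, Multiset.card_cons, Multiset.card_cons]
      have h1 : Good F μ'' := by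
        apply ih (Multiset.card μ'') (by omega) μ'' rfl
        · intro y hy
          exact hpos y (Multiset.mem_cons_of_mem (Multiset.mem_cons_of_mem hy))
        · intro j hj
          have := hpar j hj
          by_cases hjx : j = x
          · subst hjx
            rw [Multiset.count_cons_self, Multiset.count_cons_self] at this
            have h5 : μ''.count j + 1 + 1 = μ''.count j + 2 := rfl
            rw [h5] at this
            exact (Nat.even_add.1 this).2 (by decide)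
          · rw [Multiset.count_cons_of_ne hjx, Multiset.count_cons_of_ne hjx] at this
            exact this
      have h2 := (good_pair (F := F) x hx1).add h1
      have h3 : ({x} : Multiset ℕ) + {x} + μ'' = x ::ₘ x ::ₘ μ'' := by
        rw [Multiset.singleton_add, Multiset.cons_add, Multiset.singleton_add]
      rwa [h3] at h2

end sp

section main

variable {F : Type u} [Field F] [Fintype F]

open SpRegUnip (Ix card_Ix)

/-- Transport of symplectic membership along a bijection. -/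
theorem sp_reindex {l l' : Type*} [Fintype l] [DecidableEq l] [Fintype l'] [DecidableEq l'] (τ : l ≃ l')
    {A : Matrix (l ⊕ l) (l ⊕ l) F} (hA : A ∈ Matrix.symplecticGroup l F) :
    A.submatrix (Equiv.sumCongr τ τ).symm (Equiv.sumCongr τ τ).symm ∈ Matrix.symplecticGroup l' F := by
  have hJ : J l' F = (J l F).submatrix (Equiv.sumCongr τ τ).symm (Equiv.sumCongr τ τ).symm := by
    ext x y
    rcases x with a | a <;> rcases y with b | b <;> simp [J, Matrix.one_apply]
  rw [SymplecticGroup.mem_iff, hJ, Matrix.transpose_submatrix, Matrix.submatrix_mul_equiv, Matrix.submatrix_mul_equiv]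
  rw [SymplecticGroup.mem_iff] at hA
  rw [hA]

theorem card_filter_eq {t : ℕ} (d : Fin t → ℕ) (j : ℕ) :
    (Finset.univ.filter (fun k : Fin t => d k = j)).card = cnt d j := by
  unfold cnt
  rw [Nat.card_eq_fintype_card, Fintype.card_subtype]

/-- Jordan types in the symplectic group. -/
theorem sp_types {m t : ℕ} (d : Fin t → ℕ) (hd : ∀ k, 1 ≤ d k) (hsum : ∑ k, d k = 2 * m) :
    (∃ e : ((k : Fin t) × Fin (d k)) ≃ (Fin m ⊕ Fin m), ∃ A : Matrix.symplecticGroup (Fin m) F,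
      IsConj (Matrix.reindex e e (Cfsg.jordanTypeMatrix d F)) (A : Matrix (Fin m ⊕ Fin m) (Fin m ⊕ Fin m) F)) ↔
      ∀ j : ℕ, Odd j → Even (Finset.univ.filter (fun k : Fin t => d k = j)).card := by
  have hreidx : ∀ (E : ((k : Fin t) × Fin (d k)) ≃ (Fin m ⊕ Fin m)),
      IsJordan F (Matrix.toLin' (Matrix.reindex E E (Cfsg.jordanTypeMatrix d F) - 1)) d := by
    intro E
    have h3 : Matrix.reindex E E (Cfsg.jordanTypeMatrix d F) - 1 =
        (Cfsg.jordanTypeMatrix d F - 1).submatrix E.symm E.symm := by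
      rw [Matrix.reindex_apply, submatrix_sub_one _ E.symm]
    rw [h3]
    exact isJordan_reindex E (isJordan_type d)
  constructor
  · rintro ⟨E, A, hconj⟩ j hj
    have hJ := isJordan_of_isConj hconj (hreidx E)
    rw [card_filter_eq]
    obtain ⟨k, rfl⟩ := hj
    have heven : ∀ i, Even (∑ x, min (d x) (2 * i)) := by
      intro i
      have h1 := rank_add_sum hJ (2 * i)
      have h2 := rank_pow_even (isUnit_det_J (Fin m) F) J_alt (SymplecticGroup.mem_iff'.1 A.2) i
      rw [card_Ix] at h1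
      by_contra hne
      have h3 := Nat.not_even_iff_odd.1 hne
      have h4 : Odd ((((A : Matrix (Fin m ⊕ Fin m) (Fin m ⊕ Fin m) F) - 1) ^ (2 * i)).rank + ∑ x, min (d x) (2 * i)) := h2.add_odd h3
      rw [h1] at h4
      exact (Nat.not_odd_iff_even.2 (even_two_mul m)) h4
    apply cnt_even d (2 * k + 1) (by omega)
    · exact heven k
    · have := heven (k + 1)
      rwa [show 2 * (k + 1) = 2 * k + 1 + 1 by ring] at this
  · intro hpar
    set μ : Multiset ℕ := Finset.univ.val.map d with hμ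
    have hcount : ∀ j, μ.count j = cnt d j := fun j => (cnt_eq_count d j).symm
    have hgood : Good F μ := by
      apply good_of_parity _ μ rfl
      · intro x hx
        obtain ⟨k, -, rfl⟩ := Multiset.mem_map.1 hx
        exact hd k
      · intro j hj
        rw [hcount, ← card_filter_eq]
        exact hpar j hj
    obtain ⟨l, _, _, A, κ, _, e, hA, hJ, hs, hc⟩ := hgood
    have hμsum : μ.sum = 2 * m := by
      rw [← hsum]
      rfl
    have hcard : Fintype.card l = m := by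
      have h1 := hJ.sum_eq_finrank
      rw [hs, hμsum] at h1
      have h2 : Module.finrank F (l ⊕ l → F) = Fintype.card l + Fintype.card l := by
        simp [Fintype.card_sum]
      rw [h2] at h1
      omega
    let τ : l ≃ Fin m := Fintype.equivFinOfCardEq hcard
    let σ : l ⊕ l ≃ Fin m ⊕ Fin m := Equiv.sumCongr τ τ
    have hA' := sp_reindex τ hA
    have hJ' : IsJordan F (Matrix.toLin' (A.submatrix σ.symm σ.symm - 1)) e := by
      have h3 : A.submatrix σ.symm σ.symm - 1 = (A - 1).submatrix σ.symm σ.symm := by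
        rw [submatrix_sub_one _ σ.symm]
      rw [h3]
      exact isJordan_reindex σ hJ
    have hcardS : Fintype.card ((k : Fin t) × Fin (d k)) = Fintype.card (Fin m ⊕ Fin m) := by
      rw [card_Ix, Fintype.card_sigma, ← hsum]
      simp
    let E : ((k : Fin t) × Fin (d k)) ≃ (Fin m ⊕ Fin m) := Fintype.equivOfCardEq hcardS
    refine ⟨E, ⟨A.submatrix σ.symm σ.symm, hA'⟩, ?_⟩
    apply isConj_of_isJordan (hreidx E) hJ'
    intro s hs1
    rw [hc s hs1, hcount]

end main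

end Cfsg.Agent.Lib.JordanForm
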