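/-
Regular unipotent elements of the special linear group.
-/
import Mathlib

set_option autoImplicit false
set_option linter.all false

open scoped Matrix MatrixGroups

namespace Cfsg.Agent.Lib.RegUnip

variable {F : Type*} [Field F] {n : ℕ}

/-- The nilpotent Jordan block. -/
def N0 (F : Type*) [Field F] (n : ℕ) : Matrix (Fin n) (Fin n) F :=
  fun i j => if (i : ℕ) = j + 1 then 1 else 0

theorem mul_N0_apply (M : Matrix (Fin n) (Fin n) F) (i j : Fin n) (h : (j : ℕ) + 1 < n) :
    (M * N0 F n) i j = M i ⟨j + 1, h⟩ := by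
  rw [Matrix.mul_apply, Finset.sum_eq_single ⟨j + 1, h⟩]
  · simp [N0]
  · intro k _ hk
    have h1 : (k : ℕ) ≠ j + 1 := fun h' => hk (Fin.ext h')
    simp [N0, h1]
  · simp

theorem mul_N0_last (M : Matrix (Fin n) (Fin n) F) (i j : Fin n) (h : ¬ (j : ℕ) + 1 < n) :
    (M * N0 F n) i j = 0 := by
  rw [Matrix.mul_apply]
  apply Finset.sum_eq_zero
  intro k _
  have h1 : (k : ℕ) ≠ j + 1 := by have := k.2; omega
  simp [N0, h1]

theorem N0_mul_succ (M : Matrix (Fin n) (Fin n) F) (i j : Fin n) (h : (i : ℕ) + 1 < n) :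
    (N0 F n * M) ⟨i + 1, h⟩ j = M i j := by
  rw [Matrix.mul_apply, Finset.sum_eq_single i]
  · simp [N0]
  · intro k _ hk
    have h1 : (i : ℕ) ≠ k := fun h' => hk (Fin.ext h'.symm)
    simp [N0, h1]
  · simp

theorem N0_mul_zero (M : Matrix (Fin n) (Fin n) F) (i j : Fin n) (h : (i : ℕ) = 0) :
    (N0 F n * M) i j = 0 := by
  rw [Matrix.mul_apply]
  apply Finset.sum_eq_zero
  intro k _
  have h1 : (i : ℕ) ≠ k + 1 := by omega
  simp [N0, h1]

theorem N0_mulVec_succ (v : Fin n → F) (i : Fin n) (h : (i : ℕ) + 1 < n) :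
    (N0 F n *ᵥ v) ⟨i + 1, h⟩ = v i := by
  simp only [Matrix.mulVec, dotProduct]
  rw [Finset.sum_eq_single i]
  · simp [N0]
  · intro k _ hk
    have h1 : (i : ℕ) ≠ k := fun h' => hk (Fin.ext h'.symm)
    simp [N0, h1]
  · simp

theorem N0_mulVec_zero (v : Fin n → F) (i : Fin n) (h : (i : ℕ) = 0) :
    (N0 F n *ᵥ v) i = 0 := by
  simp only [Matrix.mulVec, dotProduct]
  apply Finset.sum_eq_zero
  intro k _
  have h1 : (i : ℕ) ≠ k + 1 := by omega
  simp [N0, h1]

theorem N0_pow_apply (k : ℕ) (i j : Fin n) :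
    (N0 F n ^ k) i j = if (i : ℕ) = j + k then 1 else 0 := by
  induction k generalizing i j with
  | zero =>
    simp [Matrix.one_apply, Fin.ext_iff]
  | succ k ih =>
    rw [pow_succ']
    by_cases hi : (i : ℕ) = 0
    · rw [N0_mul_zero _ i j hi, if_neg (by omega)]
    · have h1 : (i : ℕ) - 1 < n := by have := i.2; omega
      have h2 : ((⟨(i : ℕ) - 1, h1⟩ : Fin n) : ℕ) + 1 < n := by
        have := i.2
        show (i : ℕ) - 1 + 1 < n
        omega
      have h3 : i = ⟨((⟨(i : ℕ) - 1, h1⟩ : Fin n) : ℕ) + 1, h2⟩ := Fin.ext (by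
        show (i : ℕ) = (i : ℕ) - 1 + 1
        omega)
      rw [h3, N0_mul_succ, ih]
      show (if (i : ℕ) - 1 = j + k then (1 : F) else 0) = if (i : ℕ) - 1 + 1 = j + (k + 1) then 1 else 0
      split_ifs <;> first | rfl | (exfalso; omega)

theorem N0_pow_self : N0 F n ^ n = 0 := by
  ext i j
  rw [N0_pow_apply, if_neg (by have := i.2; omega)]
  rfl

theorem rank_N0 (hn : 0 < n) : (N0 F n).rank = n - 1 := by
  let z : Fin n := ⟨0, hn⟩
  let f : Module.Dual F (Fin n → F) := LinearMap.proj z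
  have hf : f ≠ 0 := by
    intro h
    have h1 : f (fun _ => 1) = 0 := by rw [h]; rfl
    simp [f] at h1
  have h1 := Module.Dual.finrank_ker_add_one_of_ne_zero hf
  have h2 : LinearMap.range (N0 F n).mulVecLin = LinearMap.ker f := by
    ext w
    simp only [LinearMap.mem_range, LinearMap.mem_ker]
    constructor
    · rintro ⟨v, rfl⟩
      exact N0_mulVec_zero v z rfl
    · intro hw
      refine ⟨fun j => if h : (j : ℕ) + 1 < n then w ⟨j + 1, h⟩ else 0, ?_⟩
      funext i
      by_cases hi : (i : ℕ) = 0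
      · have h3 : i = z := Fin.ext hi
        rw [Matrix.mulVecLin_apply, N0_mulVec_zero _ i hi, h3]
        exact hw.symm
      · have h4 : (i : ℕ) - 1 < n := by have := i.2; omega
        have h5 : ((⟨(i : ℕ) - 1, h4⟩ : Fin n) : ℕ) + 1 < n := by
          have := i.2
          show (i : ℕ) - 1 + 1 < n
          omega
        have h6 : i = ⟨((⟨(i : ℕ) - 1, h4⟩ : Fin n) : ℕ) + 1, h5⟩ := Fin.ext (by
          show (i : ℕ) = (i : ℕ) - 1 + 1
          omega)
        rw [Matrix.mulVecLin_apply, h6, N0_mulVec_succ]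
        simp only [dif_pos h5]
  show Module.finrank F (LinearMap.range (N0 F n).mulVecLin) = n - 1
  rw [h2]
  rw [Module.finrank_fin_fun] at h1
  omega

theorem finrank_comap_le {V : Type*} [AddCommGroup V] [Module F V] [FiniteDimensional F V]
    (L : V →ₗ[F] V) (S : Submodule F V) :
    Module.finrank F (S.comap L) ≤ Module.finrank F S + Module.finrank F (LinearMap.ker L) := by
  have h := LinearMap.finrank_range_add_finrank_ker (L.domRestrict (S.comap L))
  have h1 : Module.finrank F (LinearMap.range (L.domRestrict (S.comap L))) ≤ Module.finrank F S := by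
    apply Submodule.finrank_mono
    rintro _ ⟨x, rfl⟩
    exact x.2
  have h2 : Module.finrank F (LinearMap.ker (L.domRestrict (S.comap L))) ≤ Module.finrank F (LinearMap.ker L) := by
    let ι : LinearMap.ker (L.domRestrict (S.comap L)) →ₗ[F] LinearMap.ker L :=
      LinearMap.codRestrict _ ((S.comap L).subtype ∘ₗ (LinearMap.ker (L.domRestrict (S.comap L))).subtype)
        (fun x => by
          show L (((x : LinearMap.ker (L.domRestrict (S.comap L))) : S.comap L) : V) = 0
          exact LinearMap.mem_ker.1 x.2)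
    apply LinearMap.finrank_le_finrank_of_injective (f := ι)
    intro x y hxy
    apply Subtype.ext
    apply Subtype.ext
    have h9 := congrArg Subtype.val hxy
    exact h9
  omega

/-- A nilpotent matrix of rank `n - 1` is conjugate to the Jordan block. -/
theorem exists_cyclic (hn : 0 < n) (N : Matrix (Fin n) (Fin n) F) (h1 : N ^ n = 0) (h2 : N.rank = n - 1) :
    ∃ P : GL (Fin n) F, N * (P : Matrix (Fin n) (Fin n) F) = (P : Matrix (Fin n) (Fin n) F) * N0 F n := by
  classical
  have hker : Module.finrank F (LinearMap.ker N.mulVecLin) = 1 := by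
    have := LinearMap.finrank_range_add_finrank_ker N.mulVecLin
    have h3 : Module.finrank F (LinearMap.range N.mulVecLin) = n - 1 := h2
    rw [Module.finrank_fin_fun] at this
    omega
  have hk : ∀ k, Module.finrank F (LinearMap.ker (N ^ k).mulVecLin) ≤ k := by
    intro k
    induction k with
    | zero =>
      have : LinearMap.ker (N ^ 0).mulVecLin = ⊥ := by
        ext v
        simp
      rw [this]
      simp
    | succ k ih =>
      have h3 : LinearMap.ker (N ^ (k + 1)).mulVecLin = (LinearMap.ker (N ^ k).mulVecLin).comap N.mulVecLin := by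
        ext v
        simp [pow_succ, Matrix.mulVec_mulVec]
      rw [h3]
      have := finrank_comap_le N.mulVecLin (LinearMap.ker (N ^ k).mulVecLin)
      omega
  have hne : N ^ (n - 1) ≠ 0 := by
    intro h3
    have h4 := hk (n - 1)
    rw [h3] at h4
    have h5 : LinearMap.ker (0 : Matrix (Fin n) (Fin n) F).mulVecLin = ⊤ := by
      ext v
      simp
    rw [h5, finrank_top, Module.finrank_fin_fun] at h4
    omega
  obtain ⟨v, hv⟩ : ∃ v, N ^ (n - 1) *ᵥ v ≠ 0 := by
    by_contra h3
    push Not at h3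
    apply hne
    apply Matrix.mulVec_injective
    funext v
    rw [h3 v]
    simp
  let w : ℕ → Fin n → F := fun k => N ^ k *ᵥ v
  have hw0 : ∀ k, n ≤ k → w k = 0 := by
    intro k hk'
    show N ^ k *ᵥ v = 0
    obtain ⟨l, rfl⟩ := Nat.exists_eq_add_of_le hk'
    rw [pow_add, h1]
    simp
  have hwS : ∀ a k, N ^ a *ᵥ w k = w (a + k) := by
    intro a k
    show N ^ a *ᵥ (N ^ k *ᵥ v) = N ^ (a + k) *ᵥ v
    rw [Matrix.mulVec_mulVec, pow_add]
  have hli : LinearIndependent F (fun i : Fin n => w i) := by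
    rw [Fintype.linearIndependent_iff]
    intro c hc
    have key : ∀ i : ℕ, ∀ h : i < n, c ⟨i, h⟩ = 0 := by
      intro i
      induction i using Nat.strong_induction_on with
      | _ i ih =>
        intro h
        have h3 := congrArg (fun x => N ^ (n - 1 - i) *ᵥ x) hc
        simp only [Matrix.mulVec_zero, Matrix.mulVec_sum, Matrix.mulVec_smul] at h3
        rw [Finset.sum_eq_single (⟨i, h⟩ : Fin n)] at h3
        · rw [hwS] at h3
          have h4 : n - 1 - i + i = n - 1 := by omega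
          simp only at h3
          rw [h4] at h3
          exact (smul_eq_zero.1 h3).resolve_right hv
        · intro j _ hj
          by_cases hji : (j : ℕ) < i
          · have : c j = 0 := ih j hji j.2
            rw [this, zero_smul]
          · rw [hwS, hw0 _ (by
              have : (j : ℕ) ≠ i := fun h' => hj (Fin.ext h')
              omega), smul_zero]
        · simp
    intro i
    exact key i i.2
  let P0 : Matrix (Fin n) (Fin n) F := Matrix.of fun i j => w j i
  have hP : IsUnit P0 := by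
    apply Matrix.linearIndependent_cols_iff_isUnit.1
    exact hli
  obtain ⟨P, hP'⟩ := hP
  refine ⟨P, ?_⟩
  rw [hP']
  ext i j
  have h3 : (N * P0) i j = w (1 + j) i := by
    rw [← hwS, pow_one]
    rfl
  rw [h3]
  by_cases hj : (j : ℕ) + 1 < n
  · rw [mul_N0_apply _ i j hj]
    show w (1 + j) i = w (j + 1) i
    rw [add_comm]
  · rw [mul_N0_last _ i j hj, hw0 _ (by omega)]
    rfl

theorem det_u0 : (1 + N0 F n).det = 1 := by
  rw [Matrix.det_of_isLowerTriangular]
  · apply Finset.prod_eq_one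
    intro i _
    simp [N0]
  · intro i j (hij : i < j)
    have h1 : (i : ℕ) ≠ j + 1 := by
      have : (i : ℕ) < j := hij
      omega
    have h2 : i ≠ j := ne_of_lt hij
    simp [N0, h1, h2]

/-- The regular unipotent model. -/
def U0 (F : Type*) [Field F] (n : ℕ) : GL (Fin n) F :=
  Matrix.SpecialLinearGroup.toGL ⟨1 + N0 F n, det_u0⟩

theorem U0_val : ((U0 F n : GL (Fin n) F) : Matrix (Fin n) (Fin n) F) = 1 + N0 F n := rfl

theorem det_U0 : Matrix.GeneralLinearGroup.det (U0 F n) = 1 := by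
  ext
  exact det_u0

/-- Conjugates of the model, in the special linear group. -/
def conjS (g : GL (Fin n) F) : Matrix.SpecialLinearGroup (Fin n) F :=
  ⟨((g * U0 F n * g⁻¹ : GL (Fin n) F) : Matrix (Fin n) (Fin n) F), by
    have h := congrArg Units.val (show Matrix.GeneralLinearGroup.det (g * U0 F n * g⁻¹) = 1 by
      simp [det_U0])
    exact h⟩

theorem toGL_conjS (g : GL (Fin n) F) :
    Matrix.SpecialLinearGroup.toGL (conjS g) = g * U0 F n * g⁻¹ := Units.ext rfl

theorem conjS_sub_one (g : GL (Fin n) F) :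
    ((conjS g : Matrix.SpecialLinearGroup (Fin n) F) : Matrix (Fin n) (Fin n) F) - 1 =
      (g : Matrix (Fin n) (Fin n) F) * N0 F n * ((g⁻¹ : GL (Fin n) F) : Matrix (Fin n) (Fin n) F) := by
  show ((g * U0 F n * g⁻¹ : GL (Fin n) F) : Matrix (Fin n) (Fin n) F) - 1 = _
  rw [Units.val_mul, Units.val_mul, U0_val, mul_add, add_mul, mul_one, Units.mul_inv, add_sub_cancel_left]

theorem conjS_pow (g : GL (Fin n) F) :
    (((conjS g : Matrix.SpecialLinearGroup (Fin n) F) : Matrix (Fin n) (Fin n) F) - 1) ^ n = 0 := by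
  rw [conjS_sub_one, Units.conj_pow, N0_pow_self]
  simp

theorem conjS_rank (hn : 0 < n) (g : GL (Fin n) F) :
    (((conjS g : Matrix.SpecialLinearGroup (Fin n) F) : Matrix (Fin n) (Fin n) F) - 1).rank = n - 1 := by
  rw [conjS_sub_one]
  have h1 : IsUnit ((g⁻¹ : GL (Fin n) F) : Matrix (Fin n) (Fin n) F).det :=
    (Matrix.isUnit_iff_isUnit_det _).1 (Units.isUnit _)
  have h2 : IsUnit ((g : GL (Fin n) F) : Matrix (Fin n) (Fin n) F).det :=
    (Matrix.isUnit_iff_isUnit_det _).1 (Units.isUnit _)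
  rw [Matrix.rank_mul_eq_left_of_isUnit_det _ _ h1, Matrix.rank_mul_eq_right_of_isUnit_det _ _ h2, rank_N0 hn]

/-- An element commuting with the model has determinant an `n`-th power. -/
theorem det_of_commute (hn : 0 < n) (c : GL (Fin n) F) (hc : c * U0 F n = U0 F n * c) :
    ∃ a : Fˣ, Matrix.GeneralLinearGroup.det c = a ^ n := by
  let M : Matrix (Fin n) (Fin n) F := c
  have h1 : M * N0 F n = N0 F n * M := by
    have h2 := congrArg Units.val hc
    rw [Units.val_mul, Units.val_mul, U0_val, mul_add, add_mul, mul_one, one_mul] at h2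
    exact add_left_cancel h2
  have h0 : ∀ (j : ℕ) (hj : j + 1 < n), M ⟨0, hn⟩ ⟨j + 1, hj⟩ = 0 := by
    intro j hj
    have h2 := congrFun (congrFun h1 ⟨0, hn⟩) ⟨j, by omega⟩
    rw [mul_N0_apply _ _ _ hj, N0_mul_zero _ _ _ rfl] at h2
    exact h2
  have hs : ∀ (i j : ℕ) (hi : i + 1 < n) (hj : j + 1 < n), M ⟨i + 1, hi⟩ ⟨j + 1, hj⟩ = M ⟨i, by omega⟩ ⟨j, by omega⟩ := by
    intro i j hi hj
    have h2 := congrFun (congrFun h1 ⟨i + 1, hi⟩) ⟨j, by omega⟩
    rw [mul_N0_apply _ _ _ hj] at h2
    have h3 := N0_mul_succ M ⟨i, by omega⟩ ⟨j, by omega⟩ hi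
    exact h2.trans h3
  have hu : ∀ (i : ℕ) (hi : i < n) (j : ℕ) (hj : j < n), i < j → M ⟨i, hi⟩ ⟨j, hj⟩ = 0 := by
    intro i
    induction i with
    | zero =>
      intro hi j hj hij
      obtain ⟨j', rfl⟩ : ∃ j', j = j' + 1 := ⟨j - 1, by omega⟩
      exact h0 j' hj
    | succ i ih =>
      intro hi j hj hij
      obtain ⟨j', rfl⟩ : ∃ j', j = j' + 1 := ⟨j - 1, by omega⟩
      rw [hs i j' hi hj]
      exact ih _ _ _ (by omega)
  have hd : ∀ (i : ℕ) (hi : i < n), M ⟨i, hi⟩ ⟨i, hi⟩ = M ⟨0, hn⟩ ⟨0, hn⟩ := by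
    intro i
    induction i with
    | zero => intro hi; rfl
    | succ i ih =>
      intro hi
      rw [hs i i hi hi]
      exact ih _
  have hdet : M.det = (M ⟨0, hn⟩ ⟨0, hn⟩) ^ n := by
    rw [Matrix.det_of_isLowerTriangular]
    · rw [Finset.prod_congr rfl (fun (i : Fin n) _ => hd (i : ℕ) i.2), Finset.prod_const, Finset.card_univ, Fintype.card_fin]
    · intro i j (hij : i < j)
      exact hu (i : ℕ) i.2 (j : ℕ) j.2 hij
  have hne : M ⟨0, hn⟩ ⟨0, hn⟩ ≠ 0 := by
    intro h2
    rw [h2, zero_pow (by omega)] at hdet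
    exact Matrix.GeneralLinearGroup.det_ne_zero c hdet
  refine ⟨Units.mk0 _ hne, ?_⟩
  ext
  simpa using hdet

variable [Fintype F]

/-- Counting the regular unipotent classes. -/
theorem card_reg (hn : 0 < n) :
    Nat.card {C : ConjClasses (Matrix.SpecialLinearGroup (Fin n) F) // ∃ u : Matrix.SpecialLinearGroup (Fin n) F,
      ConjClasses.mk u = C ∧ ((u : Matrix (Fin n) (Fin n) F) - 1) ^ n = 0 ∧ ((u : Matrix (Fin n) (Fin n) F) - 1).rank = n - 1} =
      Nat.gcd n (Fintype.card F - 1) := by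
  classical
  haveI : Nonempty (Fin n) := ⟨⟨0, hn⟩⟩
  let B : Subgroup Fˣ := (powMonoidHom n : Fˣ →* Fˣ).range
  let ρ : GL (Fin n) F → Fˣ ⧸ B := fun g => QuotientGroup.mk (Matrix.GeneralLinearGroup.det g)
  let T := {C : ConjClasses (Matrix.SpecialLinearGroup (Fin n) F) // ∃ u : Matrix.SpecialLinearGroup (Fin n) F,
      ConjClasses.mk u = C ∧ ((u : Matrix (Fin n) (Fin n) F) - 1) ^ n = 0 ∧ ((u : Matrix (Fin n) (Fin n) F) - 1).rank = n - 1}
  let ψ : GL (Fin n) F → T := fun g => ⟨ConjClasses.mk (conjS g), conjS g, rfl, conjS_pow g, conjS_rank hn g⟩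
  have hψ : Function.Surjective ψ := by
    rintro ⟨_, u, rfl, h1, h2⟩
    obtain ⟨P, hP⟩ := exists_cyclic hn _ h1 h2
    refine ⟨P, Subtype.ext (congrArg ConjClasses.mk (Subtype.ext ?_))⟩
    show ((P * U0 F n * P⁻¹ : GL (Fin n) F) : Matrix (Fin n) (Fin n) F) = u
    have h3 : ((u : Matrix (Fin n) (Fin n) F) - 1) = (P : Matrix (Fin n) (Fin n) F) * N0 F n * ((P⁻¹ : GL (Fin n) F) : Matrix (Fin n) (Fin n) F) := by
      rw [← hP, mul_assoc, Units.mul_inv, mul_one]
    rw [Units.val_mul, Units.val_mul, U0_val, mul_add, add_mul, mul_one, Units.mul_inv, ← h3]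
    simp
  have hρ : Function.Surjective ρ := by
    intro x
    obtain ⟨a, rfl⟩ := QuotientGroup.mk_surjective x
    obtain ⟨g, rfl⟩ := Matrix.GeneralLinearGroup.det_surjective (n := Fin n) a
    exact ⟨g, rfl⟩
  have hiff : ∀ g h, ψ g = ψ h ↔ ρ g = ρ h := by
    intro g h
    constructor
    · intro H
      have H1 : ConjClasses.mk (conjS g) = ConjClasses.mk (conjS h) := congrArg Subtype.val H
      obtain ⟨s, hs⟩ := isConj_iff.1 (ConjClasses.mk_eq_mk_iff_isConj.1 H1)
      have H2 := congrArg Matrix.SpecialLinearGroup.toGL hs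
      simp only [map_mul, map_inv, toGL_conjS] at H2
      set S : GL (Fin n) F := Matrix.SpecialLinearGroup.toGL s with hS
      have hdetS : Matrix.GeneralLinearGroup.det S = 1 := by
        ext
        exact s.2
      have hc : (h⁻¹ * S * g) * U0 F n = U0 F n * (h⁻¹ * S * g) := by
        calc (h⁻¹ * S * g) * U0 F n = h⁻¹ * (S * (g * U0 F n * g⁻¹) * S⁻¹) * S * g := by group
          _ = h⁻¹ * (h * U0 F n * h⁻¹) * S * g := by rw [H2]
          _ = U0 F n * (h⁻¹ * S * g) := by group
      obtain ⟨a, ha⟩ := det_of_commute hn _ hc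
      simp only [map_mul, map_inv, hdetS, mul_one] at ha
      refine QuotientGroup.eq.2 ⟨a⁻¹, ?_⟩
      show (a⁻¹) ^ n = _
      rw [inv_pow, ← ha, mul_inv_rev, inv_inv]
    · intro H
      obtain ⟨a, ha⟩ := QuotientGroup.eq.1 H
      have ha' : a ^ n = (Matrix.GeneralLinearGroup.det g)⁻¹ * Matrix.GeneralLinearGroup.det h := ha
      let A : GL (Fin n) F := Matrix.GeneralLinearGroup.scalar (Fin n) a
      let S : GL (Fin n) F := h * A⁻¹ * g⁻¹
      have hdetS : Matrix.GeneralLinearGroup.det S = 1 := by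
        simp only [S, A, map_mul, map_inv, Matrix.GeneralLinearGroup.det_scalar, Fintype.card_fin, ha', mul_inv_rev, inv_inv]
        rw [mul_comm (Matrix.GeneralLinearGroup.det h)]
        simp [mul_comm]
      let s : Matrix.SpecialLinearGroup (Fin n) F := ⟨S.1, congrArg Units.val hdetS⟩
      have hs : Matrix.SpecialLinearGroup.toGL s = S := Units.ext rfl
      refine Subtype.ext (ConjClasses.mk_eq_mk_iff_isConj.2 (isConj_iff.2 ⟨s, ?_⟩))
      apply Matrix.SpecialLinearGroup.toGL_injective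
      simp only [map_mul, map_inv, toGL_conjS, hs]
      have hA : A * U0 F n = U0 F n * A := Matrix.GeneralLinearGroup.scalar_commute a _
      have hA' : A⁻¹ * U0 F n * A = U0 F n := by rw [mul_assoc, ← hA, inv_mul_cancel_left]
      calc S * (g * U0 F n * g⁻¹) * S⁻¹ = h * (A⁻¹ * U0 F n * A) * h⁻¹ := by
            simp only [S]; group
        _ = h * U0 F n * h⁻¹ := by rw [hA']
  have hcard : Nat.card T = Nat.card (Fˣ ⧸ B) := by
    refine Nat.card_congr (Equiv.ofBijective (fun t => ρ (Function.surjInv hψ t)) ⟨?_, ?_⟩)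
    · intro t₁ t₂ h12
      have h3 := (hiff _ _).2 h12
      rwa [Function.surjInv_eq hψ, Function.surjInv_eq hψ] at h3
    · intro x
      obtain ⟨g, rfl⟩ := hρ x
      refine ⟨ψ g, ?_⟩
      show ρ (Function.surjInv hψ (ψ g)) = ρ g
      apply (hiff _ _).1
      rw [Function.surjInv_eq hψ]
  show Nat.card T = _
  rw [hcard]
  have h5 : Nat.card (Fˣ ⧸ B) = B.index := rfl
  rw [h5]
  have h6 := IsCyclic.index_powMonoidHom_range (G := Fˣ) n
  have h7 : B.index = (Nat.card Fˣ).gcd n := h6
  rw [h7, Nat.card_eq_fintype_card, Fintype.card_units, Nat.gcd_comm]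

end Cfsg.Agent.Lib.RegUnip
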