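/-
Every unipotent Jordan type occurs in the general unitary group.
-/
import Mathlib
import Cfsg.Agent.Lib.GUConj
import Cfsg.Agent.Lib.JordanForm
import Cfsg.Agent.Lib.RegUnip
import Cfsg.Agent.Lib.UnitaryBase

set_option autoImplicit false
set_option linter.all false

open scoped Matrix
open Matrix

namespace Cfsg.Agent.Lib.GUJordan

open Cfsg
open Cfsg.Agent.Lib.JordanNil Cfsg.Agent.Lib.JordanForm Cfsg.Agent.Lib.GUConj Cfsg.Agent.Lib.RegUnip

universe u

variable {K : Type u} [Field K] {q k : ℕ}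

theorem St_smul (σ : K ≃+* K) (a : K) (X : Matrix (Fin k) (Fin k) K) : St σ (a • X) = σ a • St σ X := by
  ext i j
  simp [St_apply]

/-- Orthonormal bases for a hermitian matrix. -/
theorem exists_orthonormal [Fintype K] (hF : Fintype.card K = q ^ 2) {σ : K ≃+* K} (hσ : ∀ x, σ x = x ^ q)
    (H : Matrix (Fin k) (Fin k) K) (hH : St σ H = H) {HI : Matrix (Fin k) (Fin k) K} (hHI : H * HI = 1) :
    ∃ P : Matrix (Fin k) (Fin k) K, St σ P * H * P = 1 := by
  have hσ2 : ∀ a, σ (σ a) = a := by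
    intro a
    rw [hσ, hσ, Cfsg.Agent.Lib.UnitaryHerm.pow_q_q hF]
  let σ' : K →+* K := (σ : K →+* K)
  let B : (Fin k → K) →ₛₗ[σ'] (Fin k → K) →ₗ[K] K :=
    LinearMap.mk₂'ₛₗ σ' (RingHom.id K) (fun x y => (fun i => σ (x i)) ⬝ᵥ (H *ᵥ y))
      (by
        intro x x' y
        have : (fun i => σ ((x + x') i)) = (fun i => σ (x i)) + (fun i => σ (x' i)) := by
          funext i; simp
        simp only [this, add_dotProduct])
      (by
        intro c x y
        have : (fun i => σ ((c • x) i)) = σ c • (fun i => σ (x i)) := by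
          funext i; simp
        simp only [this, smul_dotProduct]
        rfl)
      (by
        intro x y y'
        simp only [Matrix.mulVec_add, dotProduct_add])
      (by
        intro c x y
        simp only [Matrix.mulVec_smul, dotProduct_smul]
        rfl)
  have hB : ∀ x y, B x y = (fun i => σ (x i)) ⬝ᵥ (H *ᵥ y) := fun x y => rfl
  have hH' : ∀ i j, σ (H i j) = H j i := by
    intro i j
    have := congrFun (congrFun hH j) i
    simpa [St_apply] using this
  have hS : ∀ x y, σ' (B x y) = B y x := by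
    intro x y
    show σ (B x y) = B y x
    rw [hB, hB]
    simp only [dotProduct, Matrix.mulVec, map_sum, map_mul, hσ2, hH']
    simp only [Finset.mul_sum]
    rw [Finset.sum_comm]
    refine Finset.sum_congr rfl fun i _ => Finset.sum_congr rfl fun j _ => ?_
    ring
  have hne : σ' ≠ RingHom.id K := by
    intro h0
    have := (Cfsg.Agent.Lib.UnitaryHerm.hermForm_isUnitary (n := 0) hF hσ).ne_refl
    apply this
    ext x
    exact congrArg (fun f => f x) h0
  have hnd : Cfsg.Agent.Lib.FormClass.NondegOn B (⊤ : Submodule K (Fin k → K)) := by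
    intro w _ hw
    funext i
    have h1 := hw (HI *ᵥ Pi.single i 1) trivial
    rw [hB, Matrix.mulVec_mulVec, hHI, Matrix.one_mulVec] at h1
    have h2 : σ (w i) = 0 := by simpa using h1
    simpa using h2
  obtain ⟨v, -, hv⟩ := Cfsg.Agent.Lib.FormClass.herm_orthonormal (B := B) hne hσ2 hS k ⊤ (by simp) hnd
  refine ⟨Matrix.of (fun i j => v j i), ?_⟩
  ext i j
  have h3 := hv i j
  rw [hB] at h3
  rw [mul_assoc, Matrix.one_apply, ← h3]
  simp [Matrix.mul_apply, St_apply, dotProduct, Matrix.mulVec]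

/-- Conjugating a power. -/
theorem conj_pow' {R : Type*} [Ring R] {P Pi : R} (h : P * Pi = 1) (h' : Pi * P = 1) (M : R) (m : ℕ) :
    (Pi * M * P) ^ m = Pi * M ^ m * P := by
  induction m with
  | zero => simp [h']
  | succ m ih =>
    rw [pow_succ, ih, pow_succ]
    calc Pi * M ^ m * P * (Pi * M * P) = Pi * M ^ m * (P * Pi) * M * P := by simp only [mul_assoc]
      _ = Pi * (M ^ m * M) * P := by rw [h]; simp only [mul_one, mul_assoc]

/-- The hermitian matrix of a block. -/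
def HH (c : K) (k : ℕ) : Matrix (Fin k) (Fin k) K :=
  fun i j => if (i : ℕ) + j + 1 = k then (-1) ^ (i : ℕ) * c else 0

def HI (c : K) (k : ℕ) : Matrix (Fin k) (Fin k) K :=
  fun i j => if (i : ℕ) + j + 1 = k then (-1) ^ (j : ℕ) * c⁻¹ else 0

theorem sign_sq (j : ℕ) : ((-1 : K) ^ j) * (-1) ^ j = 1 := by
  rw [← mul_pow]; simp

theorem HH_mul (c : K) (hc : c ≠ 0) (k : ℕ) : HH c k * HI c k = 1 := by
  ext i j
  rw [Matrix.mul_apply, Finset.sum_eq_single (Fin.rev i)]
  · have h1 : (i : ℕ) + (Fin.rev i : ℕ) + 1 = k := by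
      rw [Fin.val_rev]; have := i.2; omega
    have h1' : (Fin.rev i : ℕ) + i + 1 = k := by omega
    simp only [HH, HI]
    rw [if_pos h1]
    by_cases hij : i = j
    · subst hij
      rw [if_pos h1', Matrix.one_apply_eq]
      calc (-1 : K) ^ (i : ℕ) * c * ((-1) ^ (i : ℕ) * c⁻¹) = ((-1) ^ (i : ℕ) * (-1) ^ (i : ℕ)) * (c * c⁻¹) := by ring
        _ = 1 := by rw [sign_sq, mul_inv_cancel₀ hc, one_mul]
    · have h2 : ¬ ((Fin.rev i : ℕ) + (j : ℕ) + 1 = k) := by
        intro h3
        apply hij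
        apply Fin.ext
        omega
      rw [if_neg h2, mul_zero, Matrix.one_apply_ne hij]
  · intro l _ hl
    have h2 : ¬ ((i : ℕ) + (l : ℕ) + 1 = k) := by
      intro h3
      apply hl
      apply Fin.ext
      rw [Fin.val_rev]
      have := i.2
      omega
    simp [HH, h2]
  · simp

theorem St_HH {σ : K ≃+* K} {c : K} (hc : σ c = (-1) ^ (k - 1) * c) : St σ (HH c k) = HH c k := by
  ext i j
  simp only [St_apply, Matrix.transpose_apply, Matrix.map_apply, HH]
  by_cases h : (i : ℕ) + j + 1 = k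
  · have h' : (j : ℕ) + i + 1 = k := by omega
    rw [if_pos h, if_pos h', map_mul, hc, map_pow, map_neg, map_one]
    have h2 : k - 1 = (j : ℕ) + i := by omega
    rw [h2, pow_add]
    have := sign_sq (K := K) (j : ℕ)
    linear_combination ((-1) ^ (i : ℕ) * c) * this
  · have h' : ¬ ((j : ℕ) + i + 1 = k) := by omega
    rw [if_neg h, if_neg h', map_zero]

theorem N0_map (σ : K ≃+* K) : (N0 K k).map σ = N0 K k := by
  ext i j
  simp only [Matrix.map_apply, N0]
  split_ifs <;> simp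

theorem St_N0 (σ : K ≃+* K) : St σ (N0 K k) = (N0 K k)ᵀ := by
  rw [St_apply, N0_map]

theorem skew_N0 (c : K) : (N0 K k)ᵀ * HH c k = - (HH c k * N0 K k) := by
  ext i j
  have h1 : ((N0 K k)ᵀ * HH c k) i j = ((HH c k)ᵀ * N0 K k) j i := by
    have h : ((N0 K k)ᵀ * HH c k) = ((HH c k)ᵀ * N0 K k)ᵀ := by
      rw [Matrix.transpose_mul, Matrix.transpose_transpose]
    rw [h, Matrix.transpose_apply]
  rw [h1, Matrix.neg_apply]
  by_cases h : (i : ℕ) + j + 2 = k
  · have hi : (i : ℕ) + 1 < k := by omega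
    have hj : (j : ℕ) + 1 < k := by omega
    rw [mul_N0_apply _ _ _ hi, mul_N0_apply _ _ _ hj]
    have e1 : (i : ℕ) + 1 + (j : ℕ) + 1 = k := by omega
    have e2 : (i : ℕ) + ((j : ℕ) + 1) + 1 = k := by omega
    simp only [Matrix.transpose_apply, HH]
    rw [if_pos e1, if_pos e2, pow_succ]
    ring
  · have h3 : ((HH c k)ᵀ * N0 K k) j i = 0 := by
      by_cases hi : (i : ℕ) + 1 < k
      · rw [mul_N0_apply _ _ _ hi]
        have e1 : ¬ ((i : ℕ) + 1 + (j : ℕ) + 1 = k) := by omega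
        simp only [Matrix.transpose_apply, HH]
        rw [if_neg e1]
      · rw [mul_N0_last _ _ _ (by omega)]
    have h4 : (HH c k * N0 K k) i j = 0 := by
      by_cases hj : (j : ℕ) + 1 < k
      · rw [mul_N0_apply _ _ _ hj]
        have e1 : ¬ ((i : ℕ) + ((j : ℕ) + 1) + 1 = k) := by omega
        simp only [HH]
        rw [if_neg e1]
      · rw [mul_N0_last _ _ _ (by omega)]
    rw [h3, h4, neg_zero]

/-- A regular unipotent element of the unitary group. -/
theorem single_block [Fintype K] (hF : Fintype.card K = q ^ 2) {σ : K ≃+* K} (hσ : ∀ x, σ x = x ^ q)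
    (k : ℕ) (hk : 1 ≤ k) :
    ∃ U : Matrix (Fin k) (Fin k) K, St σ U * U = 1 ∧ (U - 1) ^ k = 0 ∧ (U - 1).rank = k - 1 := by
  have hσ2 : ∀ a, σ (σ a) = a := by
    intro a
    rw [hσ, hσ, Cfsg.Agent.Lib.UnitaryHerm.pow_q_q hF]
  have hf := Cfsg.Agent.Lib.UnitaryHerm.hermForm_isUnitary (n := 1) hF hσ
  obtain ⟨ω, hω⟩ := Cfsg.Agent.Lib.UnitaryBase.exists_trace_eq hf (c := 1) (map_one σ)
  obtain ⟨c, hc0, hc⟩ : ∃ c : K, c ≠ 0 ∧ σ c = (-1) ^ (k - 1) * c := by
    rcases Nat.even_or_odd (k - 1) with h | h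
    · exact ⟨1, one_ne_zero, by rw [h.neg_one_pow, map_one, one_mul]⟩
    · obtain ⟨d, hd0, hd⟩ := Cfsg.Agent.Lib.UnitaryBase.exists_tr0 hf
      exact ⟨d, hd0, by rw [h.neg_one_pow]; linear_combination hd⟩
  set H := HH c k with hH
  have hHS : St σ H = H := St_HH hc
  obtain ⟨P, hP⟩ := exists_orthonormal hF hσ H hHS (HH_mul c hc0 k)
  set N := N0 K k with hN
  have hNS : St σ N = Nᵀ := St_N0 σ
  have hsk : Nᵀ * H = - (H * N) := skew_N0 c
  set x : Matrix (Fin k) (Fin k) K := 1 + ω • N with hx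
  set y : Matrix (Fin k) (Fin k) K := 1 - σ ω • N with hy
  have hSx : St σ x * H = H * y := by
    rw [hx, hy, map_add, St_one, St_smul, hNS, add_mul, one_mul, Matrix.smul_mul, hsk, mul_sub, mul_one,
      Matrix.mul_smul]
    simp [sub_eq_add_neg]
  have hSy : St σ y * H = H * x := by
    rw [hx, hy, map_sub, St_one, St_smul, hNS, hσ2, sub_mul, one_mul, Matrix.smul_mul, hsk, mul_add, mul_one,
      Matrix.mul_smul]
    simp [sub_eq_add_neg]
  have hnil : IsNilpotent (σ ω • N) := by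
    refine ⟨k, ?_⟩
    rw [smul_pow, hN, N0_pow_self, smul_zero]
  obtain ⟨u, hu⟩ : IsUnit y := hnil.isUnit_one_sub
  set w : Matrix (Fin k) (Fin k) K := ((u⁻¹ : (Matrix (Fin k) (Fin k) K)ˣ) : Matrix (Fin k) (Fin k) K) with hw
  have hyw : y * w = 1 := by rw [← hu]; exact u.mul_inv
  have hwy : w * y = 1 := by rw [← hu]; exact u.inv_mul
  have hNy : N * y = y * N := by
    rw [hy, mul_sub, sub_mul, mul_one, one_mul, Matrix.mul_smul, Matrix.smul_mul]
  have hxy : x * y = y * x := by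
    rw [hx, add_mul, one_mul, mul_add, mul_one, Matrix.smul_mul, hNy, Matrix.mul_smul]
  have hNw : N * w = w * N := by
    calc N * w = (w * y) * (N * w) := by rw [hwy, one_mul]
      _ = w * (y * N) * w := by simp only [mul_assoc]
      _ = w * (N * y) * w := by rw [hNy]
      _ = w * N * (y * w) := by simp only [mul_assoc]
      _ = w * N := by rw [hyw, mul_one]
  set U := x * w with hU
  have hU1 : U - 1 = N * w := by
    have h1 : x - y = N := by
      rw [hx, hy]
      have : (1 + ω • N) - (1 - σ ω • N) = (ω + σ ω) • N := by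
        rw [add_smul]; abel
      rw [this, hω, one_smul]
    rw [hU, ← hyw, ← sub_mul, h1]
  have hUH : St σ U * H * U = H := by
    rw [hU, St_mul]
    calc St σ w * St σ x * H * (x * w) = St σ w * (St σ x * H) * (x * w) := by simp only [mul_assoc]
      _ = St σ w * (H * y) * (x * w) := by rw [hSx]
      _ = St σ w * H * ((y * x) * w) := by simp only [mul_assoc]
      _ = St σ w * H * (x * (y * w)) := by rw [← hxy]; simp only [mul_assoc]
      _ = St σ w * (H * x) := by rw [hyw, mul_one, mul_assoc]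
      _ = St σ w * (St σ y * H) := by rw [hSy]
      _ = St σ (y * w) * H := by rw [St_mul]; simp only [mul_assoc]
      _ = H := by rw [hyw, St_one, one_mul]
  set Pi := St σ P * H with hPi
  have hPiP : Pi * P = 1 := hP
  have hPPi : P * Pi = 1 := mul_eq_one_comm.1 hPiP
  have hSPi : St σ Pi = H * P := by
    rw [hPi, St_mul, St_St σ hσ2, hHS]
  refine ⟨Pi * U * P, ?_, ?_, ?_⟩
  · rw [St_mul, St_mul, hSPi]
    calc St σ P * (St σ U * (H * P)) * (Pi * U * P)
        = St σ P * (St σ U * H * (P * Pi) * U) * P := by simp only [mul_assoc]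
      _ = St σ P * (St σ U * H * U) * P := by rw [hPPi, mul_one]
      _ = 1 := by rw [hUH]; exact hP
  · have h1 : Pi * U * P - 1 = Pi * (N * w) * P := by
      rw [← hU1, mul_sub, sub_mul, mul_one, hPiP]
    rw [h1, conj_pow' hPPi hPiP, (show Commute N w from hNw).mul_pow, hN, N0_pow_self]
    simp
  · have h1 : Pi * U * P - 1 = Pi * (N * w) * P := by
      rw [← hU1, mul_sub, sub_mul, mul_one, hPiP]
    rw [h1, Matrix.rank_mul_eq_left_of_isUnit_det _ _ (Matrix.isUnit_det_of_right_inverse hPPi),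
      Matrix.rank_mul_eq_right_of_isUnit_det _ _ (Matrix.isUnit_det_of_right_inverse hPiP),
      Matrix.rank_mul_eq_left_of_isUnit_det _ _ (Matrix.isUnit_det_of_right_inverse hwy), hN, rank_N0 (by omega)]

/-- Unitary matrices with a given Jordan type. -/
def GoodU (σ : K ≃+* K) (μ : Multiset ℕ) : Prop :=
  ∃ (l : Type) (_ : Fintype l) (_ : DecidableEq l) (U : Matrix l l K) (κ : Type u) (_ : Fintype κ) (e : κ → ℕ),
    (U.map σ)ᵀ * U = 1 ∧ IsJordan K (Matrix.toLin' (U - 1)) e ∧ ∑ i, e i = μ.sum ∧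
      ∀ s, 1 ≤ s → cnt e s = μ.count s

theorem GoodU.add {σ : K ≃+* K} {μ₁ μ₂ : Multiset ℕ} (h₁ : GoodU σ μ₁) (h₂ : GoodU σ μ₂) : GoodU σ (μ₁ + μ₂) := by
  obtain ⟨l₁, _, _, A₁, κ₁, _, e₁, hA₁, hJ₁, hs₁, hc₁⟩ := h₁
  obtain ⟨l₂, _, _, A₂, κ₂, _, e₂, hA₂, hJ₂, hs₂, hc₂⟩ := h₂
  refine ⟨l₁ ⊕ l₂, inferInstance, inferInstance, fromBlocks A₁ 0 0 A₂,
    κ₁ ⊕ κ₂, inferInstance, Sum.elim e₁ e₂, ?_, ?_, ?_, ?_⟩
  · rw [Matrix.fromBlocks_map, Matrix.fromBlocks_transpose, Matrix.fromBlocks_multiply]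
    simp [hA₁, hA₂]
  · rw [fromBlocks_sub_one]
    exact isJordan_sum hJ₁ hJ₂
  · rw [Fintype.sum_sum_type, Multiset.sum_add]
    simp only [Sum.elim_inl, Sum.elim_inr]
    rw [hs₁, hs₂]
  · intro s hs
    rw [cnt_sum, hc₁ s hs, hc₂ s hs, Multiset.count_add]

theorem goodU_zero (σ : K ≃+* K) : GoodU σ (0 : Multiset ℕ) := by
  have h0 : (1 : Matrix Empty Empty K) - 1 = 0 := sub_self _
  have hnil : IsNilpotent (Matrix.toLin' ((1 : Matrix Empty Empty K) - 1)) := by
    rw [h0, map_zero]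
    exact IsNilpotent.zero
  obtain ⟨κ, hκ, e, hJ⟩ := exists_isJordan _ hnil
  have hsum : ∑ i, e i = 0 := by
    rw [hJ.sum_eq_finrank]
    simp
  refine ⟨Empty, inferInstance, inferInstance, 1, κ, hκ, e, Subsingleton.elim _ _, hJ, hsum, ?_⟩
  intro s hs
  have h1 : ∀ i, e i = 0 := fun i => (Finset.sum_eq_zero_iff.1 hsum) i (Finset.mem_univ i)
  unfold cnt
  haveI : IsEmpty {i // e i = s} := ⟨by
    rintro ⟨a, ha⟩
    have := h1 a
    omega⟩
  rw [Nat.card_of_isEmpty]
  simp

theorem goodU_single [Fintype K] (hF : Fintype.card K = q ^ 2) {σ : K ≃+* K} (hσ : ∀ x, σ x = x ^ q)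
    (k : ℕ) (hk : 1 ≤ k) : GoodU σ {k} := by
  obtain ⟨U, hU, h1, h2⟩ := single_block hF hσ k hk
  obtain ⟨κ, hκ, e, hJ, hs, hc⟩ := exists_single (ι := Fin k) (by simp) hk h1 h2
  refine ⟨Fin k, inferInstance, inferInstance, U, κ, hκ, e, hU, hJ, by simpa using hs, ?_⟩
  intro s hs1
  rw [hc s hs1, Multiset.count_singleton]

theorem goodU_all [Fintype K] (hF : Fintype.card K = q ^ 2) {σ : K ≃+* K} (hσ : ∀ x, σ x = x ^ q)
    (μ : Multiset ℕ) (hμ : ∀ x ∈ μ, 1 ≤ x) : GoodU σ μ := by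
  induction μ using Multiset.induction with
  | empty => exact goodU_zero σ
  | cons a s ih =>
    rw [← Multiset.singleton_add]
    exact (goodU_single hF hσ a (hμ a (Multiset.mem_cons_self a s))).add
      (ih (fun x hx => hμ x (Multiset.mem_cons_of_mem hx)))

/-- Each unipotent type occurs in the unitary group. -/
theorem exists_GU_rel [Fintype K] {n : ℕ} (hF : Fintype.card K = q ^ 2) (μ : Nat.Partition n) :
    ∃ g : GL (Fin n) K, g ∈ GU n K q ∧ Rel g μ := by
  obtain ⟨σ, hσ⟩ := Cfsg.Agent.Lib.UnitaryHerm.exists_sigma hF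
  obtain ⟨l, _, _, U, κ, _, e, hU, hJ, hs, hc⟩ := goodU_all hF hσ μ.parts (fun x hx => μ.parts_pos hx)
  have hcard : Fintype.card l = n := by
    have h1 := hJ.sum_eq_finrank
    rw [hs, μ.parts_sum] at h1
    simpa using h1.symm
  let τ : l ≃ Fin n := Fintype.equivFinOfCardEq hcard
  set U' : Matrix (Fin n) (Fin n) K := U.submatrix τ.symm τ.symm with hU'
  have hS : St σ U' * U' = 1 := by
    have h1 : St σ U' = ((U.map σ)ᵀ).submatrix τ.symm τ.symm := by
      ext i j
      simp [St_apply, hU']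
    rw [h1, hU', Matrix.submatrix_mul_equiv, hU, Matrix.submatrix_one_equiv]
  let g : GL (Fin n) K := ⟨U', St σ U', mul_eq_one_comm.1 hS, hS⟩
  refine ⟨g, (mem_GU_iff_St hF hσ g).2 hS, κ, inferInstance, e, ?_, fun s hs1 => hc s hs1⟩
  have h3 : (g : Matrix (Fin n) (Fin n) K) - 1 = (U - 1).submatrix τ.symm τ.symm := by
    rw [submatrix_sub_one _ τ.symm]
  show IsJordan K (Matrix.toLin' ((g : Matrix (Fin n) (Fin n) K) - 1)) e
  rw [h3]
  exact isJordan_reindex τ hJ

end Cfsg.Agent.Lib.GUJordan
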