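/-
Hilbert's Theorem 90 in finite rings; matrices similar to their conjugate inverse transpose
preserve a nondegenerate hermitian form.
-/
import Mathlib
import Cfsg.Agent.Lib.GUJordan

set_option autoImplicit false
set_option linter.all false

open scoped Matrix
open Matrix

namespace Cfsg.Agent.Lib.GUSimilar

open Cfsg Cfsg.Agent.Lib.NormRing Cfsg.Agent.Lib.GUConj Cfsg.Agent.Lib.GUJordan

universe u

/-- Hilbert's Theorem 90 for a finite commutative ring with an involution having an invertible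
difference. -/
theorem hilbert90 {S : Type u} [CommRing S] [Finite S] (σ : S →+* S) (hσ2 : ∀ a, σ (σ a) = a)
    {θ E : S} (hθ : IsUnit (θ - σ θ)) (hE : E * σ E = 1) : ∃ c, IsUnit (c + E * σ c) := by
  obtain ⟨n, hn, hid⟩ := exists_pow_idem (1 + E)
  set u₀ := 1 + E with hu₀
  set f := u₀ ^ n with hf
  have hσu : σ u₀ = σ E * u₀ := by
    rw [hu₀, map_add, map_one]
    linear_combination -hE
  have hσf : σ f = f := by
    have h1 : σ f = σ E ^ n * f := by
      rw [hf, map_pow, hσu, mul_pow]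
    have h2 : f * σ f = σ f := by
      rw [h1, ← mul_assoc, mul_comm f, mul_assoc, hid]
    have h3 := congrArg σ h2
    rw [map_mul, hσ2] at h3
    rw [← h2]
    rw [mul_comm] at h3
    exact h3
  obtain ⟨dinv, hdinv⟩ := hθ.exists_right_inv
  set d := θ - σ θ with hd
  set g := 1 - f with hg
  have hσg : σ g = g := by rw [hg, map_sub, map_one, hσf]
  have hgf : g * f = 0 := by rw [hg, sub_mul, one_mul, hid, sub_self]
  have hgg : g * g = g := by
    rw [hg]
    linear_combination hid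
  refine ⟨1 + g * θ, ?_⟩
  have hu : 1 + g * θ + E * σ (1 + g * θ) = (f * u₀ + g * d) + (g * u₀) * (1 + σ θ) := by
    simp only [map_add, map_one, map_mul, hσg]
    rw [hd, hg, hu₀]
    ring
  rw [hu]
  have hnil : IsNilpotent (g * u₀ * (1 + σ θ)) := by
    apply (Commute.all _ _).isNilpotent_mul_right
    refine ⟨n, ?_⟩
    have hgk : ∀ k : ℕ, g ^ (k + 1) = g := by
      intro k
      induction k with
      | zero => simp
      | succ k ih => rw [pow_succ, ih, hgg]
    have hgn : g ^ n = g := by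
      obtain ⟨k, hk⟩ : ∃ k, n = k + 1 := ⟨n - 1, by omega⟩
      rw [hk]
      exact hgk k
    rw [mul_pow, hgn, ← hf, hgf]
  have ha : IsUnit (f * u₀ + g * d) := by
    refine IsUnit.of_mul_eq_one (f * u₀ ^ (n - 1) + g * dinv) ?_
    have h1 : u₀ * u₀ ^ (n - 1) = f := by
      rw [hf, ← pow_succ']
      congr 1
      omega
    have hfg : f * g = 0 := by rw [mul_comm, hgf]
    calc (f * u₀ + g * d) * (f * u₀ ^ (n - 1) + g * dinv)
        = (f * f) * (u₀ * u₀ ^ (n - 1)) + (f * g) * (u₀ * dinv) + (g * f) * (d * u₀ ^ (n - 1)) + (g * g) * (d * dinv) := by ring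
      _ = 1 := by rw [h1, hid, hid, hfg, hgf, hgg, hdinv, hg]; ring
  exact hnil.isUnit_add_left_of_commute ha (Commute.all _ _)

/-- The version inside a commutative subring. -/
theorem hilbert90_in_subring {R : Type u} [Ring R] [Finite R] (T : Subring R)
    (hc : ∀ a ∈ T, ∀ b ∈ T, a * b = b * a) (st : R →+ R) (hst1 : st 1 = 1)
    (hstm : ∀ a ∈ T, ∀ b ∈ T, st (a * b) = st b * st a) (hst2 : ∀ a ∈ T, st (st a) = a)
    (hT : ∀ a ∈ T, st a ∈ T) {θ z E : R} (hθ : θ ∈ T) (hz : z ∈ T) (hθz : (θ - st θ) * z = 1)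
    (hE : E ∈ T) (hEE : E * st E = 1) :
    ∃ c ∈ T, ∃ v ∈ T, (c + E * st c) * v = 1 := by
  letI inst : CommRing T :=
    { (inferInstance : Ring T) with
      mul_comm := fun a b => Subtype.ext (hc a.1 a.2 b.1 b.2) }
  let σ : T →+* T :=
    { toFun := fun a => ⟨st a.1, hT a.1 a.2⟩
      map_one' := Subtype.ext hst1
      map_zero' := Subtype.ext (map_zero st)
      map_mul' := fun a b => Subtype.ext (by
        show st (a.1 * b.1) = st a.1 * st b.1
        rw [hstm _ a.2 _ b.2, hc _ (hT _ b.2) _ (hT _ a.2)])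
      map_add' := fun a b => Subtype.ext (map_add st a.1 b.1) }
  have hθ' : IsUnit ((⟨θ, hθ⟩ : T) - σ ⟨θ, hθ⟩) :=
    IsUnit.of_mul_eq_one (⟨z, hz⟩ : T) (Subtype.ext hθz)
  obtain ⟨c, hc'⟩ := hilbert90 σ (fun a => Subtype.ext (hst2 a.1 a.2)) hθ'
    (E := ⟨E, hE⟩) (Subtype.ext hEE)
  obtain ⟨v, hv⟩ := hc'.exists_right_inv
  exact ⟨c.1, c.2, v.1, v.2, congrArg Subtype.val hv⟩

variable {K : Type u} [Field K] [Fintype K] {q n : ℕ}

/-- A matrix preserving a nondegenerate sesquilinear form preserves a nondegenerate hermitian form. -/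
theorem exists_herm (hF : Fintype.card K = q ^ 2) {σ : K ≃+* K} (hσ : ∀ x, σ x = x ^ q)
    (A Ai P PI : Matrix (Fin n) (Fin n) K) (hAi : A * Ai = 1) (hPI : P * PI = 1) (hAP : St σ A * P * A = P) :
    ∃ H HI : Matrix (Fin n) (Fin n) K, St σ H = H ∧ H * HI = 1 ∧ St σ A * H * A = H := by
  classical
  have hσ2 : ∀ a, σ (σ a) = a := by
    intro a
    rw [hσ, hσ, Cfsg.Agent.Lib.UnitaryHerm.pow_q_q hF]
  have hSS : ∀ X : Matrix (Fin n) (Fin n) K, St σ (St σ X) = X := St_St σ hσ2
  have hIP : PI * P = 1 := mul_eq_one_comm.1 hPI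
  obtain ⟨PS, hPS⟩ : ∃ PS, PS = St σ P := ⟨_, rfl⟩
  obtain ⟨PSI, hPSI⟩ : ∃ PSI, PSI = St σ PI := ⟨_, rfl⟩
  have hPSPSI : PS * PSI = 1 := by rw [hPS, hPSI, ← St_mul, hIP, St_one]
  have hPSIPS : PSI * PS = 1 := mul_eq_one_comm.1 hPSPSI
  obtain ⟨E, hE⟩ : ∃ E, E = PI * PS := ⟨_, rfl⟩
  obtain ⟨Ei, hEi⟩ : ∃ Ei, Ei = PSI * P := ⟨_, rfl⟩
  have hEEi : E * Ei = 1 := by
    rw [hE, hEi]
    calc PI * PS * (PSI * P) = PI * (PS * PSI) * P := by simp only [mul_assoc]
      _ = 1 := by rw [hPSPSI, mul_one, hIP]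
  have hEiE : Ei * E = 1 := mul_eq_one_comm.1 hEEi
  let τ : Matrix (Fin n) (Fin n) K →+ Matrix (Fin n) (Fin n) K :=
    { toFun := fun X => PI * St σ X * P
      map_zero' := by simp
      map_add' := fun X Y => by simp [mul_add, add_mul] }
  have hτ : ∀ X, τ X = PI * St σ X * P := fun X => rfl
  have hτ1 : τ 1 = 1 := by rw [hτ, St_one, mul_one, hIP]
  have hτm : ∀ a b, τ (a * b) = τ b * τ a := by
    intro a b
    rw [hτ, hτ, hτ, St_mul]
    calc PI * (St σ b * St σ a) * P = PI * St σ b * (P * PI) * St σ a * P := by rw [hPI, mul_one]; simp only [mul_assoc]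
      _ = _ := by simp only [mul_assoc]
  have hττ : ∀ X, τ (τ X) = E * X * Ei := by
    intro X
    rw [hτ, hτ, St_mul, St_mul, hSS, hE, hEi, hPS, hPSI]
    simp only [mul_assoc]
  have hτE : τ E = Ei := by
    rw [hτ, hE, St_mul, hPS, hSS, hEi, hPSI]
    calc PI * (P * St σ PI) * P = (PI * P) * St σ PI * P := by simp only [mul_assoc]
      _ = _ := by rw [hIP, one_mul]
  have hτEi : τ Ei = E := by
    rw [hτ, hEi, St_mul, hPSI, hSS, hE, hPS]
    calc PI * (St σ P * PI) * P = PI * St σ P * (PI * P) := by simp only [mul_assoc]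
      _ = _ := by rw [hIP, mul_one]
  let S₀ : Set (Matrix (Fin n) (Fin n) K) := {E, Ei}
  have hcommEEi : Commute E Ei := by
    show E * Ei = Ei * E
    rw [hEEi, hEiE]
  have hs : ∀ a ∈ S₀, ∀ b ∈ S₀, Commute a b := by
    rintro a (rfl | rfl) b (rfl | rfl)
    · exact Commute.refl _
    · exact hcommEEi
    · exact hcommEEi.symm
    · exact Commute.refl _
  let T : Subring (Matrix (Fin n) (Fin n) K) := biC S₀
  have hcT : ∀ a ∈ T, ∀ b ∈ T, a * b = b * a := biC_comm hs
  have hET : E ∈ T := self_mem_biC (by simp [S₀])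
  have hEiT : Ei ∈ T := self_mem_biC (by simp [S₀])
  -- elements commuting with `E`
  have hττc : ∀ y, (∀ a ∈ S₀, Commute y a) → τ (τ y) = y := by
    intro y hy
    rw [hττ]
    have h1 : Commute y E := hy _ (by simp [S₀])
    calc E * y * Ei = y * (E * Ei) := by rw [← h1.eq]; simp only [mul_assoc]
      _ = y := by rw [hEEi, mul_one]
  have hτc : ∀ y, (∀ a ∈ S₀, Commute y a) → ∀ a ∈ S₀, Commute (τ y) a := by
    intro y hy a ha
    rcases ha with rfl | rfl
    · have h1 : Commute y Ei := hy _ (by simp [S₀])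
      have h2 := congrArg τ h1.eq
      rw [hτm, hτm, hτEi] at h2
      exact h2.symm
    · have h1 : Commute y E := hy _ (by simp [S₀])
      have h2 := congrArg τ h1.eq
      rw [hτm, hτm, hτE] at h2
      exact h2.symm
  have hTτ : ∀ x ∈ T, τ x ∈ T := by
    intro x hx y hy
    have h1 : Commute x (τ y) := hx _ (hτc y hy)
    have h2 := congrArg τ h1.eq
    rw [hτm, hτm, hττc y hy] at h2
    exact h2.symm
  have hττT : ∀ x ∈ T, τ (τ x) = x := by
    intro x hx
    rw [hττ]
    calc E * x * Ei = x * (E * Ei) := by rw [hcT _ hET _ hx]; simp only [mul_assoc]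
      _ = x := by rw [hEEi, mul_one]
  -- a scalar with nontrivial conjugate
  have hf := Cfsg.Agent.Lib.UnitaryHerm.hermForm_isUnitary (n := 1) hF hσ
  obtain ⟨ω, hω⟩ : ∃ ω, σ ω ≠ ω := by
    by_contra hall
    push Not at hall
    exact hf.ne_refl (RingEquiv.ext hall)
  have hsc : ∀ c : K, c • (1 : Matrix (Fin n) (Fin n) K) ∈ T := by
    intro c y _
    exact (Commute.one_left y).smul_left c
  have hτsc : ∀ c : K, τ (c • (1 : Matrix (Fin n) (Fin n) K)) = σ c • 1 := by
    intro c
    rw [hτ, St_smul_one, Matrix.mul_smul, mul_one, Matrix.smul_mul, hIP]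
  have hθz : ((ω • (1 : Matrix (Fin n) (Fin n) K)) - τ (ω • 1)) * ((ω - σ ω)⁻¹ • 1) = 1 := by
    rw [hτsc, ← sub_smul, smul_mul_smul_comm, mul_one, mul_inv_cancel₀ (sub_ne_zero.2 hω.symm), one_smul]
  obtain ⟨c, hcT', v, hvT, hv⟩ := hilbert90_in_subring T hcT τ hτ1 (fun a _ b _ => hτm a b) hττT hTτ
    (hsc ω) (hsc _) hθz hET (by rw [hτE, hEEi])
  -- commutation with `A`
  have hSAP : St σ A * PS * A = PS := by
    have h1 := congrArg (St σ) hAP
    rw [St_mul, St_mul, hSS] at h1
    rw [← mul_assoc] at h1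
    rw [hPS]
    exact h1
  have hAiA : Ai * A = 1 := mul_eq_one_comm.1 hAi
  have hAPI : A * PI * St σ A = PI := by
    have h1 : A * PI * St σ A * P = 1 := by
      calc A * PI * St σ A * P = A * PI * St σ A * P * (A * Ai) := by rw [hAi, mul_one]
        _ = A * PI * (St σ A * P * A) * Ai := by simp only [mul_assoc]
        _ = A * (PI * P) * Ai := by rw [hAP]; simp only [mul_assoc]
        _ = 1 := by rw [hIP, mul_one, hAi]
    calc A * PI * St σ A = A * PI * St σ A * (P * PI) := by rw [hPI, mul_one]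
      _ = (A * PI * St σ A * P) * PI := by simp only [mul_assoc]
      _ = PI := by rw [h1, one_mul]
  have hAE : Commute A E := by
    show A * E = E * A
    calc A * E = A * PI * PS := by rw [hE, mul_assoc]
      _ = A * PI * (St σ A * PS * A) := by rw [hSAP]
      _ = (A * PI * St σ A) * PS * A := by simp only [mul_assoc]
      _ = E * A := by rw [hAPI, hE]
  have hAEi : Commute A Ei := by
    show A * Ei = Ei * A
    calc A * Ei = (Ei * E) * A * Ei := by rw [hEiE, one_mul]
      _ = Ei * (E * A) * Ei := by simp only [mul_assoc]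
      _ = Ei * (A * E) * Ei := by rw [hAE.eq]
      _ = Ei * A * (E * Ei) := by simp only [mul_assoc]
      _ = Ei * A := by rw [hEEi, mul_one]
  have hcA : Commute c A := hcT' A (by
    rintro a (rfl | rfl)
    · exact hAE
    · exact hAEi)
  obtain ⟨H, hH⟩ : ∃ H, H = P * c + St σ c * PS := ⟨_, rfl⟩
  have hHS : St σ H = H := by
    rw [hH, map_add, St_mul, St_mul, hSS, add_comm, hPS, hSS]
  have hHu : H = P * (c + E * τ c) := by
    have h1 : E * τ c = τ c * E := hcT _ hET _ (hTτ _ hcT')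
    rw [mul_add, h1, hH, hτ, hE]
    congr 1
    calc St σ c * PS = (P * PI) * St σ c * ((P * PI) * PS) := by rw [hPI, one_mul, one_mul]
      _ = _ := by simp only [mul_assoc]
  refine ⟨H, v * PI, hHS, ?_, ?_⟩
  · rw [hHu]
    calc P * (c + E * τ c) * (v * PI) = P * ((c + E * τ c) * v) * PI := by simp only [mul_assoc]
      _ = 1 := by rw [hv, mul_one, hPI]
  · rw [hH]
    have e1 : St σ A * (P * c) * A = P * c := by
      calc St σ A * (P * c) * A = St σ A * P * (c * A) := by simp only [mul_assoc]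
        _ = St σ A * P * (A * c) := by rw [hcA.eq]
        _ = (St σ A * P * A) * c := by simp only [mul_assoc]
        _ = P * c := by rw [hAP]
    have e2 : St σ A * (St σ c * PS) * A = St σ c * PS := by
      have h1 : St σ A * St σ c = St σ c * St σ A := by
        rw [← St_mul, ← St_mul, hcA.eq]
      calc St σ A * (St σ c * PS) * A = (St σ A * St σ c) * PS * A := by simp only [mul_assoc]
        _ = St σ c * (St σ A * PS * A) := by rw [h1]; simp only [mul_assoc]
        _ = St σ c * PS := by rw [hSAP]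
    rw [mul_add, add_mul, e1, e2]

/-- Matrices similar to their conjugate inverse transpose lie in the general unitary group up to
conjugacy. -/
theorem exists_conj_GU (hF : Fintype.card K = q ^ 2) {σ : K ≃+* K} (hσ : ∀ x, σ x = x ^ q)
    (A : GL (Fin n) K) (P PI : Matrix (Fin n) (Fin n) K) (hPI : P * PI = 1) (hAP : St σ A.1 * P * A.1 = P) :
    ∃ B : ↥(GU n K q), IsConj A (B : GL (Fin n) K) := by
  classical
  have hσ2 : ∀ a, σ (σ a) = a := by
    intro a
    rw [hσ, hσ, Cfsg.Agent.Lib.UnitaryHerm.pow_q_q hF]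
  obtain ⟨H, HI, hHS, hHI, hHA⟩ := exists_herm hF hσ A.1 (A⁻¹).1 P PI A.mul_inv hPI hAP
  obtain ⟨C, hC⟩ := exists_orthonormal hF hσ H hHS hHI
  set D := St σ C * H with hD
  have hDC : D * C = 1 := hC
  have hCD : C * D = 1 := mul_eq_one_comm.1 hDC
  let g : GL (Fin n) K := ⟨D, C, hDC, hCD⟩
  let b : GL (Fin n) K := g * A * g⁻¹
  have hbv : b.1 = D * A.1 * C := rfl
  have hb : b ∈ GU n K q := by
    rw [mem_GU_iff_St hF hσ, hbv]
    have h1 : St σ D = H * C := by
      rw [hD, St_mul, St_St σ hσ2, hHS]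
    rw [St_mul, St_mul, h1]
    calc St σ C * (St σ A.1 * (H * C)) * (D * A.1 * C)
        = St σ C * St σ A.1 * H * (C * D) * A.1 * C := by simp only [mul_assoc]
      _ = St σ C * (St σ A.1 * H * A.1) * C := by rw [hCD, mul_one]; simp only [mul_assoc]
      _ = 1 := by rw [hHA, hC]
  exact ⟨⟨b, hb⟩, isConj_iff.2 ⟨g, rfl⟩⟩

end Cfsg.Agent.Lib.GUSimilar
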