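import Cfsg.Agent.Lib.SpRegUnip
import Mathlib

/-!
Conjugacy classes of regular unipotent elements of the symplectic group in odd characteristic.
-/

set_option linter.all false

open scoped MatrixGroups Matrix
open Matrix

noncomputable section

namespace Cfsg.Agent.Lib.SpRegUnip2

open Cfsg.Agent.Lib.SpRegUnip

variable {F : Type*} [Field F] {m : ℕ}

/-- The symplectic form on vectors. -/
def fm (x y : Ix m → F) : F := x ⬝ᵥ (J (Fin m) F).mulVec y

theorem fm_adj (A : Matrix (Ix m) (Ix m) F) (x y : Ix m → F) :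
    fm (A.mulVec x) y = fm x ((st A).mulVec y) := by
  unfold fm
  have h : J (Fin m) F * st A = Aᵀ * J (Fin m) F := by
    unfold st
    have h1 := J_squared (Fin m) F
    calc J (Fin m) F * -(J (Fin m) F * Aᵀ * J (Fin m) F)
        = -((J (Fin m) F * J (Fin m) F) * (Aᵀ * J (Fin m) F)) := by
          simp only [mul_neg, mul_assoc]
      _ = Aᵀ * J (Fin m) F := by rw [h1]; simp
  rw [Matrix.mulVec_mulVec, h, ← Matrix.mulVec_mulVec, Matrix.dotProduct_mulVec x Aᵀ,
    Matrix.vecMul_transpose]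

theorem fm_anti (x y : Ix m → F) : fm x y = - fm y x := by
  unfold fm
  rw [Matrix.dotProduct_mulVec, ← Matrix.mulVec_transpose, J_transpose, Matrix.neg_mulVec,
    dotProduct_comm, dotProduct_neg]

theorem fm_add_left (x x' y : Ix m → F) : fm (x + x') y = fm x y + fm x' y := by
  unfold fm
  rw [add_dotProduct]

theorem fm_add_right (x y y' : Ix m → F) : fm x (y + y') = fm x y + fm x y' := by
  unfold fm
  rw [Matrix.mulVec_add, dotProduct_add]

theorem fm_smul_left (c : F) (x y : Ix m → F) : fm (c • x) y = c * fm x y := by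
  unfold fm
  rw [smul_dotProduct, smul_eq_mul]

theorem fm_smul_right (c : F) (x y : Ix m → F) : fm x (c • y) = c * fm x y := by
  unfold fm
  rw [Matrix.mulVec_smul, dotProduct_smul, smul_eq_mul]

theorem fm_zero_left (y : Ix m → F) : fm 0 y = 0 := by
  unfold fm
  simp

theorem fm_zero_right (x : Ix m → F) : fm x 0 = 0 := by
  unfold fm
  simp

theorem fm_neg_right (x y : Ix m → F) : fm x (-y) = - fm x y := by
  unfold fm
  rw [Matrix.mulVec_neg, dotProduct_neg]

theorem fm_sum_left {α : Type*} (s : Finset α) (f : α → Ix m → F) (y : Ix m → F) :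
    fm (∑ i ∈ s, f i) y = ∑ i ∈ s, fm (f i) y := by
  classical
  induction s using Finset.induction_on with
  | empty => simp [fm_zero_left]
  | insert a s ha ih => rw [Finset.sum_insert ha, Finset.sum_insert ha, fm_add_left, ih]

theorem fm_sum_right {α : Type*} (s : Finset α) (f : α → Ix m → F) (x : Ix m → F) :
    fm x (∑ i ∈ s, f i) = ∑ i ∈ s, fm x (f i) := by
  classical
  induction s using Finset.induction_on with
  | empty => simp [fm_zero_right]
  | insert a s ha ih => rw [Finset.sum_insert ha, Finset.sum_insert ha, fm_add_right, ih]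

theorem fm_nondeg {x : Ix m → F} (h : ∀ y, fm x y = 0) : x = 0 := by
  funext i
  have h1 := h ((-(J (Fin m) F)).mulVec (Pi.single i 1))
  unfold fm at h1
  rw [Matrix.mulVec_mulVec, mul_neg, J_squared, neg_neg, Matrix.one_mulVec] at h1
  simpa using h1

theorem fm_pol_right {n : ℕ} (L : Matrix (Ix m) (Ix m) F) (c : Fin n → F) (x y : Ix m → F) :
    fm x ((pol L c).mulVec y) = ∑ k : Fin n, c k * fm x ((L ^ (k : ℕ)).mulVec y) := by
  rw [pol_mulVec, fm_sum_right]
  apply Finset.sum_congr rfl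
  intro k _
  rw [fm_smul_right]

theorem fm_pol_left {n : ℕ} (L : Matrix (Ix m) (Ix m) F) (c : Fin n → F) (x y : Ix m → F) :
    fm ((pol L c).mulVec x) y = ∑ k : Fin n, c k * fm ((L ^ (k : ℕ)).mulVec x) y := by
  rw [pol_mulVec, fm_sum_left]
  apply Finset.sum_congr rfl
  intro k _
  rw [fm_smul_left]

/-- The coefficients of the form along the orbit of `v`. -/
def aa (L : Matrix (Ix m) (Ix m) F) (v : Ix m → F) (k : ℕ) : F := fm v ((L ^ k).mulVec v)

theorem st_pow_skew {L : Matrix (Ix m) (Ix m) F} (h : st L = -L) (k : ℕ) :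
    st (L ^ k) = (-1 : F) ^ k • L ^ k := by
  rw [st_pow, h]
  rcases Nat.even_or_odd k with hk | hk
  · rw [hk.neg_pow, hk.neg_one_pow, one_smul]
  · rw [hk.neg_pow, hk.neg_one_pow, neg_one_smul]

theorem fm_pow_left {L : Matrix (Ix m) (Ix m) F} (h : st L = -L) (k : ℕ) (x y : Ix m → F) :
    fm ((L ^ k).mulVec x) y = (-1) ^ k * fm x ((L ^ k).mulVec y) := by
  rw [fm_adj, st_pow_skew h, Matrix.smul_mulVec, fm_smul_right]

theorem fm_pow_pow {L : Matrix (Ix m) (Ix m) F} (h : st L = -L) (i j : ℕ) (v : Ix m → F) :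
    fm ((L ^ i).mulVec v) ((L ^ j).mulVec v) = (-1) ^ i * aa L v (i + j) := by
  rw [fm_pow_left h]
  unfold aa
  rw [Matrix.mulVec_mulVec, pow_add]

theorem aa_even (h2 : (2 : F) ≠ 0) {L : Matrix (Ix m) (Ix m) F} (h : st L = -L) (v : Ix m → F) {k : ℕ}
    (hk : Even k) : aa L v k = 0 := by
  have h1 := fm_pow_left h k v v
  rw [hk.neg_one_pow, one_mul, fm_anti] at h1
  unfold aa
  have h3 : 2 * fm v ((L ^ k).mulVec v) = 0 := by linear_combination -h1
  exact (mul_eq_zero.1 h3).resolve_left h2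

theorem aa_large {L : Matrix (Ix m) (Ix m) F} {n : ℕ} (h : L ^ n = 0) (v : Ix m → F) {k : ℕ} (hk : n ≤ k) :
    aa L v k = 0 := by
  unfold aa
  rw [pow_eq_zero_of_le hk h, Matrix.zero_mulVec, fm_zero_right]

theorem aa_smul (L : Matrix (Ix m) (Ix m) F) (s : F) (v : Ix m → F) (k : ℕ) :
    aa L (s • v) k = s * s * aa L v k := by
  unfold aa
  rw [Matrix.mulVec_smul, fm_smul_left, fm_smul_right, mul_assoc]

theorem aa_mulVec {L x : Matrix (Ix m) (Ix m) F} (hx : Commute x L) (v : Ix m → F) (k : ℕ) :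
    aa L (x.mulVec v) k = fm v ((st x * x * L ^ k).mulVec v) := by
  unfold aa
  rw [fm_adj, Matrix.mulVec_mulVec, Matrix.mulVec_mulVec, mul_assoc, mul_assoc, ((hx.pow_right k).eq).symm]

theorem pol_single {n : ℕ} (L : Matrix (Ix m) (Ix m) F) (k : Fin n) :
    pol L (Pi.single k (1 : F)) = L ^ (k : ℕ) := by
  unfold pol
  rw [Finset.sum_eq_single k]
  · simp
  · intro j _ hj
    simp [Pi.single_eq_of_ne hj]
  · simp

theorem pol_mul_top {n : ℕ} (hn : 0 < n) {L : Matrix (Ix m) (Ix m) F} (h : L ^ n = 0) (c : Fin n → F) :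
    pol L c * L ^ (n - 1) = c ⟨0, hn⟩ • L ^ (n - 1) := by
  unfold pol
  rw [Finset.sum_mul, Finset.sum_eq_single (⟨0, hn⟩ : Fin n)]
  · simp
  · intro k _ hk
    have h1 : (k : ℕ) ≠ 0 := fun h0 => hk (Fin.ext h0)
    rw [smul_mul_assoc, ← pow_add, pow_eq_zero_of_le (by omega) h, smul_zero]
  · simp

/-- Cyclic vectors are detected by the top coefficient. -/
theorem aa_top_ne {L : Matrix (Ix m) (Ix m) F} (h : Reg L) {v : Ix m → F} (hm : 1 ≤ m)
    (hv : (L ^ (2 * m - 1)).mulVec v ≠ 0) : aa L v (2 * m - 1) ≠ 0 := by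
  intro h0
  apply hv
  apply fm_nondeg
  intro y
  obtain ⟨c, rfl⟩ := span_of_top (card_Ix m) (by omega) h.pow hv y
  rw [fm_pol_right]
  apply Finset.sum_eq_zero
  intro k _
  rw [fm_pow_pow h.skew]
  by_cases hk : (k : ℕ) = 0
  · rw [hk, add_zero, h0]
    simp
  · rw [aa_large h.pow v (by omega : 2 * m ≤ 2 * m - 1 + (k : ℕ))]
    simp

theorem cyclic_of_aa {L : Matrix (Ix m) (Ix m) F} {v : Ix m → F} (h : aa L v (2 * m - 1) ≠ 0) :
    (L ^ (2 * m - 1)).mulVec v ≠ 0 := by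
  intro h0
  apply h
  unfold aa
  rw [h0, fm_zero_right]

/-- Any values along a cyclic orbit are represented by the form. -/
theorem exists_rep {L : Matrix (Ix m) (Ix m) F} (h : Reg L) (hm : 1 ≤ m) {v : Ix m → F}
    (hv : (L ^ (2 * m - 1)).mulVec v ≠ 0) (a : Fin (2 * m) → F) :
    ∃ z : Ix m → F, ∀ k : Fin (2 * m), fm z ((L ^ (k : ℕ)).mulVec v) = a k := by
  let T : (Ix m → F) →ₗ[F] (Fin (2 * m) → F) :=
    { toFun := fun z k => fm z ((L ^ (k : ℕ)).mulVec v)
      map_add' := by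
        intro x y
        funext k
        exact fm_add_left _ _ _
      map_smul' := by
        intro c x
        funext k
        exact fm_smul_left _ _ _ }
  have hinj : Function.Injective T := by
    rw [← LinearMap.ker_eq_bot, LinearMap.ker_eq_bot']
    intro z hz
    apply fm_nondeg
    intro y
    obtain ⟨c, rfl⟩ := span_of_top (card_Ix m) (by omega) h.pow hv y
    rw [fm_pol_right]
    apply Finset.sum_eq_zero
    intro k _
    have h1 : fm z ((L ^ (k : ℕ)).mulVec v) = 0 := congrFun hz k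
    rw [h1, mul_zero]
  have hdim : Module.finrank F (Ix m → F) = Module.finrank F (Fin (2 * m) → F) := by
    simp [card_Ix m, Fintype.card_sum, two_mul]
  obtain ⟨z, hz⟩ := (LinearMap.injective_iff_surjective_of_finrank_eq_finrank hdim).1 hinj a
  exact ⟨z, fun k => congrFun hz k⟩

/-- Wrapper: square roots in the commutant. -/
theorem exists_norm_val [Finite F] (h2 : (2 : F) ≠ 0) (hm : 1 ≤ m) {L r : Matrix (Ix m) (Ix m) F} (h : Reg L)
    (hr : Commute r L) (hn : IsNilpotent (r - 1)) (hs : st r = r) :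
    ∃ x : Matrix (Ix m) (Ix m) F, Commute x L ∧ IsNilpotent (x - 1) ∧ st x = x ∧ st x * x = r := by
  haveI : Nonempty (Ix m) := ⟨Sum.inl ⟨0, hm⟩⟩
  haveI : Finite (Rr L) := inferInstance
  have h2R : @IsUnit (Rr L) _ (2 : Rr L) := by
    have h3 : (2 : Rr L) = algebraMap F (Rr L) 2 := by
      rw [map_ofNat]
    rw [h3]
    exact (isUnit_iff_ne_zero.2 h2).map _
  obtain ⟨x, hx1, hx2, hx3⟩ := @exists_norm_eq (Rr L) (commR hm h) _ (sig hm h) h2R
    ⟨r, mem_Rr.2 hr⟩ ((nil_iff_val _).2 hn) (Subtype.ext hs)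
  exact ⟨x.1, mem_Rr.1 x.2, (nil_iff_val _).1 hx1, congrArg Subtype.val hx2, congrArg Subtype.val hx3⟩

/-- Wrapper: uniqueness given the skew part. -/
theorem eq_of_skew_val (h2 : (2 : F) ≠ 0) (hm : 1 ≤ m) {L x y : Matrix (Ix m) (Ix m) F} (h : Reg L)
    (hx : Commute x L) (hy : Commute y L) (hxs : st x * x = 1) (hys : st y * y = 1)
    (hxn : IsNilpotent (x - 1)) (hyn : IsNilpotent (y - 1)) (hs : x - st x = y - st y) : x = y := by
  haveI : Nonempty (Ix m) := ⟨Sum.inl ⟨0, hm⟩⟩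
  have h2R : @IsUnit (Rr L) _ (2 : Rr L) := by
    have h3 : (2 : Rr L) = algebraMap F (Rr L) 2 := by
      rw [map_ofNat]
    rw [h3]
    exact (isUnit_iff_ne_zero.2 h2).map _
  have := @eq_of_skew (Rr L) (commR hm h) (sig hm h) h2R ⟨x, mem_Rr.2 hx⟩ ⟨y, mem_Rr.2 hy⟩
    (Subtype.ext hxs) (Subtype.ext hys) ((nil_iff_val _).2 hxn) ((nil_iff_val _).2 hyn) (Subtype.ext hs)
  exact congrArg Subtype.val this

/-- Changing the cyclic vector to normalise all coefficients. -/
theorem exists_conj_vec [Finite F] (h2 : (2 : F) ≠ 0) (hm : 1 ≤ m) {L L' : Matrix (Ix m) (Ix m) F}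
    (h : Reg L) (h' : Reg L') {v v₁ : Ix m → F} (hv : (L ^ (2 * m - 1)).mulVec v ≠ 0)
    (hv₁ : (L' ^ (2 * m - 1)).mulVec v₁ ≠ 0) (ht : aa L v (2 * m - 1) = aa L' v₁ (2 * m - 1)) :
    ∃ v₂ : Ix m → F, ∀ k, aa L' v₂ k = aa L v k := by
  have hpos : 0 < 2 * m := by omega
  obtain ⟨z, hz⟩ := exists_rep h' hm hv₁ (fun k => aa L v k)
  obtain ⟨c, hc⟩ := span_of_top (card_Ix m) hpos h'.pow hv₁ z
  set r := pol L' c with hr
  have hrL : Commute r L' := (pol_commute L' c (Commute.refl L')).symm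
  have hz' : ∀ k : Fin (2 * m), fm (r.mulVec v₁) ((L' ^ (k : ℕ)).mulVec v₁) = aa L v k := by
    intro k
    rw [hc]
    exact hz k
  -- the adjoint of `r`
  have hadj : ∀ y, fm ((st r).mulVec v₁) y = fm v₁ (r.mulVec y) := by
    intro y
    rw [fm_adj, st_st]
  have hk1 : ∀ k : ℕ, fm v₁ (r.mulVec ((L' ^ k).mulVec v₁)) = -((-1) ^ k * fm (r.mulVec v₁) ((L' ^ k).mulVec v₁)) := by
    intro k
    rw [fm_anti, Matrix.mulVec_mulVec, (hrL.pow_right k).eq, ← Matrix.mulVec_mulVec, fm_pow_left h'.skew]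
  have h3 : ∀ k : Fin (2 * m), fm ((st r).mulVec v₁) ((L' ^ (k : ℕ)).mulVec v₁) =
      fm (r.mulVec v₁) ((L' ^ (k : ℕ)).mulVec v₁) := by
    intro k
    rw [hadj, hk1, hz']
    rcases Nat.even_or_odd (k : ℕ) with hk | hk
    · rw [aa_even h2 h.skew v hk]
      simp
    · rw [hk.neg_one_pow]
      ring
  have h4 : ∀ y, fm ((st r).mulVec v₁) y = fm (r.mulVec v₁) y := by
    intro y
    obtain ⟨d, rfl⟩ := span_of_top (card_Ix m) hpos h'.pow hv₁ y
    rw [fm_pol_right, fm_pol_right]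
    apply Finset.sum_congr rfl
    intro k _
    rw [h3]
  have h5 : (st r).mulVec v₁ = r.mulVec v₁ := by
    apply sub_eq_zero.1
    apply fm_nondeg
    intro y
    rw [sub_eq_add_neg, fm_add_left, fm_anti (-(r.mulVec v₁)), fm_neg_right, neg_neg, fm_anti y, h4]
    ring
  have hsr : st r = r := by
    rw [hr, st_pol h'.skew]
    have h6 : (fun k : Fin (2 * m) => (-1) ^ (k : ℕ) * c k) - c = 0 := by
      apply indep_of_top hpos h'.pow hv₁
      rw [pol_sub, Matrix.sub_mulVec, ← st_pol h'.skew, ← hr, h5, sub_self]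
    rw [sub_eq_zero.1 h6]
  have hc0 : c ⟨0, hpos⟩ = 1 := by
    have h7 := hz' ⟨2 * m - 1, by omega⟩
    simp only at h7
    rw [fm_adj, hsr, Matrix.mulVec_mulVec, hr, pol_mul_top hpos h'.pow, Matrix.smul_mulVec, fm_smul_right] at h7
    have h8 : aa L' v₁ (2 * m - 1) ≠ 0 := aa_top_ne h' hm hv₁
    have h9 : c ⟨0, hpos⟩ * aa L' v₁ (2 * m - 1) = aa L' v₁ (2 * m - 1) := by
      rw [← ht]
      rw [ht]
      exact h7.trans ht
    exact mul_right_cancel₀ h8 (h9.trans (one_mul _).symm)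
  have hnil : IsNilpotent (r - 1) := by
    have := isNilpotent_pol_sub hpos h'.pow c
    rw [hc0, one_smul] at this
    exact this
  obtain ⟨x, hxc, hxn, hxs, hxr⟩ := exists_norm_val h2 hm h' hrL hnil hsr
  refine ⟨x.mulVec v₁, ?_⟩
  intro k
  by_cases hk : k < 2 * m
  · rw [aa_mulVec hxc, hxr, ← Matrix.mulVec_mulVec, ← hadj, h4]
    exact hz' ⟨k, hk⟩
  · rw [aa_large h'.pow _ (by omega), aa_large h.pow _ (by omega)]

/-- The evaluation map along the orbit of `v`. -/
def evL (L : Matrix (Ix m) (Ix m) F) (v : Ix m → F) : (Fin (2 * m) → F) →ₗ[F] (Ix m → F) where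
  toFun c := (pol L c).mulVec v
  map_add' a b := by
    rw [pol_mulVec, pol_mulVec, pol_mulVec, ← Finset.sum_add_distrib]
    apply Finset.sum_congr rfl
    intro k _
    rw [Pi.add_apply, add_smul]
  map_smul' a b := by
    rw [pol_mulVec, pol_mulVec, RingHom.id_apply, Finset.smul_sum]
    apply Finset.sum_congr rfl
    intro k _
    rw [Pi.smul_apply, smul_eq_mul, mul_smul]

theorem evL_bij {L : Matrix (Ix m) (Ix m) F} (h : Reg L) (hm : 1 ≤ m) {v : Ix m → F}
    (hv : (L ^ (2 * m - 1)).mulVec v ≠ 0) : Function.Bijective (evL L v) := by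
  constructor
  · rw [← LinearMap.ker_eq_bot, LinearMap.ker_eq_bot']
    intro c hc
    exact indep_of_top (by omega) h.pow hv c hc
  · intro w
    exact span_of_top (card_Ix m) (by omega) h.pow hv w

theorem fm_pol_pol {L : Matrix (Ix m) (Ix m) F} (h : st L = -L) (c d : Fin (2 * m) → F) (v : Ix m → F) :
    fm ((pol L c).mulVec v) ((pol L d).mulVec v) =
      ∑ i : Fin (2 * m), c i * ∑ j : Fin (2 * m), d j * ((-1) ^ (i : ℕ) * aa L v ((i : ℕ) + (j : ℕ))) := by
  rw [fm_pol_left]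
  apply Finset.sum_congr rfl
  intro i _
  rw [fm_pol_right]
  congr 1
  apply Finset.sum_congr rfl
  intro j _
  rw [fm_pow_pow h]

theorem mem_sp_of_iso {g : Matrix (Ix m) (Ix m) F}
    (h : ∀ x y, fm (g.mulVec x) (g.mulVec y) = fm x y) : g ∈ Matrix.symplecticGroup (Fin m) F := by
  rw [SymplecticGroup.mem_iff']
  ext i j
  have h1 : ∀ M : Matrix (Ix m) (Ix m) F, M i j = (Pi.single i (1 : F)) ⬝ᵥ M.mulVec (Pi.single j 1) := by
    intro M
    simp
  rw [h1 (gᵀ * J (Fin m) F * g), h1 (J (Fin m) F)]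
  have h3 := h (Pi.single i 1) (Pi.single j 1)
  unfold fm at h3
  rw [← h3, ← Matrix.mulVec_mulVec, ← Matrix.mulVec_mulVec, Matrix.dotProduct_mulVec _ gᵀ,
    Matrix.vecMul_transpose]

theorem mulVec_ext {A B : Matrix (Ix m) (Ix m) F} (h : ∀ w, A.mulVec w = B.mulVec w) : A = B :=
  Matrix.toLin'.injective (LinearMap.ext fun w => by simpa using h w)

/-- Equal coefficients give an intertwining symplectic matrix. -/
theorem exists_g {L L' : Matrix (Ix m) (Ix m) F} (h : Reg L) (h' : Reg L') (hm : 1 ≤ m) {v v₂ : Ix m → F}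
    (hv : (L ^ (2 * m - 1)).mulVec v ≠ 0) (hv₂ : (L' ^ (2 * m - 1)).mulVec v₂ ≠ 0)
    (hk : ∀ k, aa L' v₂ k = aa L v k) :
    ∃ g : Matrix (Ix m) (Ix m) F, g ∈ Matrix.symplecticGroup (Fin m) F ∧ g * L = L' * g := by
  let E := LinearEquiv.ofBijective (evL L v) (evL_bij h hm hv)
  let E₂ := LinearEquiv.ofBijective (evL L' v₂) (evL_bij h' hm hv₂)
  let G : (Ix m → F) →ₗ[F] (Ix m → F) := E₂.toLinearMap ∘ₗ E.symm.toLinearMap
  let g : Matrix (Ix m) (Ix m) F := LinearMap.toMatrix' G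
  have hg : ∀ c : Fin (2 * m) → F, g.mulVec ((pol L c).mulVec v) = (pol L' c).mulVec v₂ := by
    intro c
    have h1 : (pol L c).mulVec v = E c := rfl
    show g.mulVec ((pol L c).mulVec v) = E₂ c
    rw [h1, LinearMap.toMatrix'_mulVec]
    simp [G]
  have hgk : ∀ k : ℕ, g.mulVec ((L ^ k).mulVec v) = (L' ^ k).mulVec v₂ := by
    intro k
    by_cases hk2 : k < 2 * m
    · have := hg (Pi.single ⟨k, hk2⟩ 1)
      rwa [pol_single, pol_single] at this
    · rw [pow_eq_zero_of_le (by omega) h.pow, pow_eq_zero_of_le (by omega) h'.pow]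
      simp
  refine ⟨g, mem_sp_of_iso ?_, ?_⟩
  · intro x y
    obtain ⟨c, rfl⟩ := span_of_top (card_Ix m) (by omega) h.pow hv x
    obtain ⟨d, rfl⟩ := span_of_top (card_Ix m) (by omega) h.pow hv y
    rw [hg, hg, fm_pol_pol h'.skew, fm_pol_pol h.skew]
    simp only [hk]
  · apply mulVec_ext
    intro w
    obtain ⟨c, rfl⟩ := span_of_top (card_Ix m) (by omega) h.pow hv w
    rw [← Matrix.mulVec_mulVec, ← Matrix.mulVec_mulVec, hg, pol_mulVec, pol_mulVec, Matrix.mulVec_sum,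
      Matrix.mulVec_sum, Matrix.mulVec_sum]
    apply Finset.sum_congr rfl
    intro k _
    have hterm : g.mulVec (L.mulVec ((L ^ (k : ℕ)).mulVec v)) = L'.mulVec ((L' ^ (k : ℕ)).mulVec v₂) := by
      rw [Matrix.mulVec_mulVec _ L, ← pow_succ', hgk, Matrix.mulVec_mulVec _ L', ← pow_succ']
    rw [Matrix.mulVec_smul, Matrix.mulVec_smul, Matrix.mulVec_smul, hterm]

/-- Transport by an invertible similitude. -/
theorem transport (h2 : (2 : F) ≠ 0) (hm : 1 ≤ m) {A B U : Matrix (Ix m) (Ix m) F} {c : F} (hc : c ≠ 0)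
    (hAB : A * B = 1) (hBA : B * A = 1) (hst : st A = c • B)
    (hU : U ∈ Matrix.symplecticGroup (Fin m) F) (hnil : (U - 1) ^ (2 * m) = 0)
    (hreg : (U - 1).rank = 2 * m - 1) {v : Ix m → F} (hv : ((U - st U) ^ (2 * m - 1)).mulVec v ≠ 0) :
    A * U * B ∈ Matrix.symplecticGroup (Fin m) F ∧ (A * U * B - 1) ^ (2 * m) = 0 ∧
      (A * U * B - 1).rank = 2 * m - 1 ∧
      ((A * U * B - st (A * U * B)) ^ (2 * m - 1)).mulVec (A.mulVec v) ≠ 0 ∧
      aa (A * U * B - st (A * U * B)) (A.mulVec v) (2 * m - 1) = c * aa (U - st U) v (2 * m - 1) := by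
  have hstB : st B = c⁻¹ • A := by
    have h1 : st (st A) = A := st_st A
    rw [hst, st_smul] at h1
    rw [← h1, smul_smul, inv_mul_cancel₀ hc, one_smul]
  have hY : ∀ Y : Matrix (Ix m) (Ix m) F, st (A * Y * B) = A * st Y * B := by
    intro Y
    rw [st_mul, st_mul, hstB, hst]
    simp only [smul_mul_assoc, mul_smul_comm, smul_smul, inv_mul_cancel₀ hc, mul_inv_cancel₀ hc, one_smul, mul_assoc]
  have hpow : ∀ (Y : Matrix (Ix m) (Ix m) F) (k : ℕ), (A * Y * B) ^ k = A * Y ^ k * B := by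
    intro Y k
    induction k with
    | zero => simp [hAB]
    | succ k ih =>
      rw [pow_succ, ih, pow_succ]
      calc A * Y ^ k * B * (A * Y * B) = A * Y ^ k * (B * A) * Y * B := by simp only [mul_assoc]
        _ = A * (Y ^ k * Y) * B := by rw [hBA]; simp only [mul_assoc, mul_one]
  have hs : st U * U = 1 := (mem_sp_iff U).1 hU
  have hL : A * U * B - st (A * U * B) = A * (U - st U) * B := by
    rw [hY, mul_sub, sub_mul]
  have hS : st (A * U * B) * (A * U * B) = 1 := by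
    rw [hY]
    calc A * st U * B * (A * U * B) = A * st U * (B * A) * U * B := by simp only [mul_assoc]
      _ = A * (st U * U) * B := by rw [hBA]; simp only [mul_assoc, mul_one]
      _ = 1 := by rw [hs, mul_one, hAB]
  have hsub : A * U * B - 1 = A * (U - 1) * B := by
    rw [mul_sub, sub_mul, mul_one, hAB]
  have hmem : A * U * B ∈ Matrix.symplecticGroup (Fin m) F := (mem_sp_iff _).2 hS
  have hp : (A * U * B - 1) ^ (2 * m) = 0 := by
    rw [hsub, hpow, hnil, mul_zero, zero_mul]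
  have hr : (A * U * B - 1).rank = 2 * m - 1 := by
    rw [hsub, Matrix.rank_mul_eq_left_of_isUnit_det _ _ (Matrix.isUnit_det_of_right_inverse hBA),
      Matrix.rank_mul_eq_right_of_isUnit_det _ _ (Matrix.isUnit_det_of_right_inverse hAB)]
    exact hreg
  have haa : aa (A * U * B - st (A * U * B)) (A.mulVec v) (2 * m - 1) = c * aa (U - st U) v (2 * m - 1) := by
    unfold aa
    rw [hL, hpow, fm_adj, Matrix.mulVec_mulVec, Matrix.mulVec_mulVec, hst, ← fm_smul_right]
    congr 1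
    have h3 : c • B * (A * (U - st U) ^ (2 * m - 1) * B) * A = c • (U - st U) ^ (2 * m - 1) := by
      rw [smul_mul_assoc, smul_mul_assoc]
      congr 1
      calc B * (A * (U - st U) ^ (2 * m - 1) * B) * A = (B * A) * (U - st U) ^ (2 * m - 1) * (B * A) := by
            simp only [mul_assoc]
        _ = _ := by rw [hBA]; simp
    rw [h3, Matrix.smul_mulVec]
  refine ⟨hmem, hp, hr, ?_, haa⟩
  apply cyclic_of_aa
  rw [haa]
  exact mul_ne_zero hc (aa_top_ne (reg_of_unip h2 hU hnil hreg) hm hv)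

/-- Equal invariants give a conjugating element. -/
theorem conj_of_eq [Finite F] (h2 : (2 : F) ≠ 0) (hm : 1 ≤ m) {U U' : Matrix (Ix m) (Ix m) F}
    (hU : U ∈ Matrix.symplecticGroup (Fin m) F) (hnil : (U - 1) ^ (2 * m) = 0)
    (hreg : (U - 1).rank = 2 * m - 1)
    (hU' : U' ∈ Matrix.symplecticGroup (Fin m) F) (hnil' : (U' - 1) ^ (2 * m) = 0)
    (hreg' : (U' - 1).rank = 2 * m - 1) {v v' : Ix m → F}
    (hv : ((U - st U) ^ (2 * m - 1)).mulVec v ≠ 0) (hv' : ((U' - st U') ^ (2 * m - 1)).mulVec v' ≠ 0)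
    (ht : aa (U - st U) v (2 * m - 1) = aa (U' - st U') v' (2 * m - 1)) :
    ∃ g : Matrix (Ix m) (Ix m) F, g ∈ Matrix.symplecticGroup (Fin m) F ∧ g * U = U' * g := by
  have h := reg_of_unip h2 hU hnil hreg
  have h' := reg_of_unip h2 hU' hnil' hreg'
  obtain ⟨v₂, hk⟩ := exists_conj_vec h2 hm h h' hv hv' ht
  have hv₂ : ((U' - st U') ^ (2 * m - 1)).mulVec v₂ ≠ 0 := by
    apply cyclic_of_aa
    rw [hk]
    exact aa_top_ne h hm hv
  obtain ⟨g, hg, hgL⟩ := exists_g h h' hm hv hv₂ hk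
  refine ⟨g, hg, ?_⟩
  have hs : st g * g = 1 := (mem_sp_iff g).1 hg
  have hs' : g * st g = 1 := mul_eq_one_comm.1 hs
  have hsU : st U * U = 1 := (mem_sp_iff U).1 hU
  have hsU' : st U' * U' = 1 := (mem_sp_iff U').1 hU'
  have hUc : Commute U (st U) := (mul_eq_one_comm.1 hsU).trans hsU.symm
  have hUc' : Commute U' (st U') := (mul_eq_one_comm.1 hsU').trans hsU'.symm
  have hLc : Commute U (U - st U) := (Commute.refl U).sub_right hUc
  have hLc' : Commute U' (U' - st U') := (Commute.refl U').sub_right hUc'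
  -- the conjugate
  have hsX : st (g * U * st g) = g * st U * st g := by
    rw [st_mul, st_mul, st_st, mul_assoc]
  have hX1 : st (g * U * st g) * (g * U * st g) = 1 := by
    rw [hsX]
    calc g * st U * st g * (g * U * st g) = g * st U * (st g * g) * U * st g := by simp only [mul_assoc]
      _ = g * (st U * U) * st g := by rw [hs]; simp only [mul_assoc, mul_one]
      _ = 1 := by rw [hsU, mul_one, hs']
  have hsub : g * U * st g - 1 = g * (U - 1) * st g := by
    rw [mul_sub, sub_mul, mul_one, hs']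
  have hXn : IsNilpotent (g * U * st g - 1) := by
    refine ⟨2 * m, ?_⟩
    have hpow : ∀ k : ℕ, (g * (U - 1) * st g) ^ k = g * (U - 1) ^ k * st g := by
      intro k
      induction k with
      | zero => simp [hs']
      | succ k ih =>
        rw [pow_succ, ih, pow_succ]
        calc g * (U - 1) ^ k * st g * (g * (U - 1) * st g)
            = g * (U - 1) ^ k * (st g * g) * (U - 1) * st g := by simp only [mul_assoc]
          _ = g * ((U - 1) ^ k * (U - 1)) * st g := by rw [hs]; simp only [mul_assoc, mul_one]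
    rw [hsub, hpow, hnil, mul_zero, zero_mul]
  have hgL' : g * (U - st U) * st g = U' - st U' := by
    rw [hgL, mul_assoc, hs', mul_one]
  have hgLs : st g * (U' - st U') = (U - st U) * st g := by
    calc st g * (U' - st U') = st g * ((U' - st U') * (g * st g)) := by rw [hs', mul_one]
      _ = st g * ((U' - st U') * g) * st g := by simp only [mul_assoc]
      _ = st g * (g * (U - st U)) * st g := by rw [hgL]
      _ = (st g * g) * (U - st U) * st g := by simp only [mul_assoc]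
      _ = (U - st U) * st g := by rw [hs, one_mul]
  have hXc : Commute (g * U * st g) (U' - st U') := by
    show g * U * st g * (U' - st U') = (U' - st U') * (g * U * st g)
    calc g * U * st g * (U' - st U') = g * U * (st g * (U' - st U')) := by simp only [mul_assoc]
      _ = g * (U * (U - st U)) * st g := by rw [hgLs]; simp only [mul_assoc]
      _ = g * ((U - st U) * U) * st g := by rw [hLc.eq]
      _ = (g * (U - st U)) * U * st g := by simp only [mul_assoc]
      _ = (U' - st U') * g * U * st g := by rw [hgL]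
      _ = (U' - st U') * (g * U * st g) := by simp only [mul_assoc]
  have hXeq : g * U * st g = U' := by
    apply eq_of_skew_val h2 hm h' hXc hLc' hX1 hsU' hXn ⟨2 * m, hnil'⟩
    rw [hsX, ← hgL', mul_sub, sub_mul]
  rw [← hXeq]
  calc g * U = g * U * (st g * g) := by rw [hs, mul_one]
    _ = g * U * st g * g := by simp only [mul_assoc]

/-- Cyclic vectors of the same operator: the invariant changes by a square. -/
theorem tau_square {L : Matrix (Ix m) (Ix m) F} (h : Reg L) (hm : 1 ≤ m) {v v₁ : Ix m → F}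
    (hv : (L ^ (2 * m - 1)).mulVec v ≠ 0) :
    ∃ s : F, aa L v₁ (2 * m - 1) = s * s * aa L v (2 * m - 1) := by
  have hpos : 0 < 2 * m := by omega
  obtain ⟨c, rfl⟩ := span_of_top (card_Ix m) hpos h.pow hv v₁
  refine ⟨c ⟨0, hpos⟩, ?_⟩
  rw [aa_mulVec (pol_commute L c (Commute.refl L)).symm, mul_assoc (st (pol L c)), pol_mul_top hpos h.pow,
    mul_smul_comm, st_pol h.skew, pol_mul_top hpos h.pow, smul_smul, Matrix.smul_mulVec, fm_smul_right]
  simp
  left
  rfl

/-- Cayley transform of a skew regular nilpotent matrix. -/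
theorem exists_unip (h2 : (2 : F) ≠ 0) (hm : 1 ≤ m) {L : Matrix (Ix m) (Ix m) F} (h : Reg L) :
    ∃ U : Matrix (Ix m) (Ix m) F, U ∈ Matrix.symplecticGroup (Fin m) F ∧ (U - 1) ^ (2 * m) = 0 ∧
      (U - 1).rank = 2 * m - 1 := by
  let a : Rr L := ⟨L, mem_Rr.2 (Commute.refl L)⟩
  have han : @IsNilpotent (Rr L) _ _ a := (nil_iff_val a).2 ⟨_, h.pow⟩
  have hs : sig hm h a = -a := Subtype.ext h.skew
  let c : Rr L := @cay (Rr L) (commR hm h) a
  have hc1 : st c.1 * c.1 = 1 := congrArg Subtype.val (@cay_norm (Rr L) (commR hm h) (sig hm h) a han hs)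
  have hc2 : c.1 * (1 - L) = 1 + L := congrArg Subtype.val (@cay_spec (Rr L) (commR hm h) a han)
  have hcomm : Commute c.1 L := mem_Rr.1 c.2
  have hLn : IsNilpotent L := ⟨_, h.pow⟩
  have hunit : IsUnit (1 - L) := hLn.isUnit_one_sub
  have hc3 : (c.1 - 1) * (1 - L) = L * ((2 : F) • (1 : Matrix (Ix m) (Ix m) F)) := by
    rw [sub_mul, hc2, one_mul, mul_smul_comm, mul_one, two_smul]
    abel
  have h2u : IsUnit ((2 : F) • (1 : Matrix (Ix m) (Ix m) F)) := by
    rw [← Algebra.algebraMap_eq_smul_one]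
    exact (isUnit_iff_ne_zero.2 h2).map _
  refine ⟨c.1, (mem_sp_iff _).2 hc1, ?_, ?_⟩
  · have hcom : Commute (c.1 - 1) (1 - L) :=
      ((Commute.one_right _).sub_right (hcomm.sub_left (Commute.one_left _)))
    have h3 : ((c.1 - 1) * (1 - L)) ^ (2 * m) = 0 := by
      rw [hc3, ((Commute.one_right L).smul_right (2 : F)).mul_pow, h.pow, zero_mul]
    rw [hcom.mul_pow] at h3
    exact ((hunit.pow _).mul_left_eq_zero).1 h3
  · have h3 := Matrix.rank_mul_eq_left_of_isUnit_det (1 - L) (c.1 - 1) ((Matrix.isUnit_iff_isUnit_det _).1 hunit)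
    rw [hc3, Matrix.rank_mul_eq_left_of_isUnit_det _ _ ((Matrix.isUnit_iff_isUnit_det _).1 h2u), h.rank] at h3
    exact h3.symm

/-- Diagonal scalars on the two blocks. -/
def dd (a b : F) : Matrix (Ix m) (Ix m) F :=
  fromBlocks (a • (1 : Matrix (Fin m) (Fin m) F)) 0 0 (b • (1 : Matrix (Fin m) (Fin m) F))

theorem dd_mul (a b a' b' : F) : (dd a b : Matrix (Ix m) (Ix m) F) * dd a' b' = dd (a * a') (b * b') := by
  unfold dd
  rw [Matrix.fromBlocks_multiply]
  simp [smul_smul, mul_comm]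

theorem dd_one : (dd 1 1 : Matrix (Ix m) (Ix m) F) = 1 := by
  unfold dd
  simp

theorem st_dd (a b : F) : st (dd a b : Matrix (Ix m) (Ix m) F) = dd b a := by
  unfold st dd J
  rw [Matrix.fromBlocks_transpose, Matrix.fromBlocks_multiply, Matrix.fromBlocks_multiply,
    Matrix.fromBlocks_neg]
  simp

theorem smul_dd (c a b : F) : c • (dd a b : Matrix (Ix m) (Ix m) F) = dd (c * a) (c * b) := by
  unfold dd
  rw [Matrix.fromBlocks_smul]
  simp [smul_smul]

/-- The skew regular nilpotent model. -/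
def L0 (F : Type*) [Field F] (m : ℕ) (hm : 1 ≤ m) : Matrix (Ix m) (Ix m) F :=
  fromBlocks (RegUnip.N0 F m) (Matrix.single (⟨0, hm⟩ : Fin m) (⟨0, hm⟩ : Fin m) (1 : F)) 0 (-(RegUnip.N0 F m)ᵀ)

theorem L0_skew (hm : 1 ≤ m) : st (L0 F m hm) = -(L0 F m hm) := by
  unfold st L0 J
  rw [Matrix.fromBlocks_transpose, Matrix.fromBlocks_multiply, Matrix.fromBlocks_multiply,
    Matrix.fromBlocks_neg, Matrix.fromBlocks_neg]
  simp [Matrix.transpose_single]

theorem L0_pow (hm : 1 ≤ m) : L0 F m hm ^ (2 * m) = 0 := by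
  have hp : ∀ k, ∃ X, L0 F m hm ^ k =
      fromBlocks (RegUnip.N0 F m ^ k) X 0 ((-(RegUnip.N0 F m)ᵀ) ^ k) := by
    intro k
    induction k with
    | zero => exact ⟨0, by simp⟩
    | succ k ih =>
      obtain ⟨X, hX⟩ := ih
      refine ⟨RegUnip.N0 F m ^ k * Matrix.single (⟨0, hm⟩ : Fin m) (⟨0, hm⟩ : Fin m) (1 : F)
        + X * (-(RegUnip.N0 F m)ᵀ), ?_⟩
      rw [pow_succ, hX]
      unfold L0
      rw [Matrix.fromBlocks_multiply]
      simp [pow_succ]
  obtain ⟨X, hX⟩ := hp m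
  have h1 : RegUnip.N0 F m ^ m = 0 := RegUnip.N0_pow_self
  have h3 : (-(RegUnip.N0 F m)ᵀ) ^ m = 0 := by
    rw [neg_pow, ← Matrix.transpose_pow, h1]
    simp
  rw [two_mul, pow_add, hX, h1, h3, Matrix.fromBlocks_multiply]
  simp

theorem N0_T_mulVec (v : Fin m → F) (i : Fin m) (h : (i : ℕ) + 1 < m) :
    ((RegUnip.N0 F m)ᵀ).mulVec v i = v ⟨i + 1, h⟩ := by
  simp only [Matrix.mulVec, dotProduct, Matrix.transpose_apply]
  rw [Finset.sum_eq_single (⟨i + 1, h⟩ : Fin m)]
  · simp [RegUnip.N0]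
  · intro k _ hk
    have h1 : (k : ℕ) ≠ i + 1 := fun h' => hk (Fin.ext h')
    simp [RegUnip.N0, h1]
  · simp

theorem N0_T_mulVec_last (v : Fin m → F) (i : Fin m) (h : ¬ (i : ℕ) + 1 < m) :
    ((RegUnip.N0 F m)ᵀ).mulVec v i = 0 := by
  simp only [Matrix.mulVec, dotProduct, Matrix.transpose_apply]
  apply Finset.sum_eq_zero
  intro k _
  have h1 : (k : ℕ) ≠ i + 1 := by have := k.2; omega
  simp [RegUnip.N0, h1]

theorem L0_ker (hm : 1 ≤ m) (x : Ix m → F) :
    (L0 F m hm).mulVec x = 0 ↔ (∀ i, x (Sum.inr i) = 0) ∧ ∀ i : Fin m, (i : ℕ) + 1 < m → x (Sum.inl i) = 0 := by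
  have hE : ∀ (y : Fin m → F) (i : Fin m), (Matrix.single (⟨0, hm⟩ : Fin m) (⟨0, hm⟩ : Fin m) (1 : F)).mulVec y i
      = if (i : ℕ) = 0 then y ⟨0, hm⟩ else 0 := by
    intro y i
    rw [Matrix.single_mulVec]
    by_cases hi : (i : ℕ) = 0
    · have : i = ⟨0, hm⟩ := Fin.ext hi
      simp [this]
    · have : i ≠ ⟨0, hm⟩ := fun h => hi (by rw [h])
      simp [hi, Function.update_of_ne this]
  unfold L0
  rw [Matrix.fromBlocks_mulVec]
  constructor
  · intro h
    have hl : ∀ i, (RegUnip.N0 F m).mulVec (x ∘ Sum.inl) i +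
        (Matrix.single (⟨0, hm⟩ : Fin m) (⟨0, hm⟩ : Fin m) (1 : F)).mulVec (x ∘ Sum.inr) i = 0 := by
      intro i
      exact congrFun h (Sum.inl i)
    have hr : ∀ i, ((RegUnip.N0 F m)ᵀ).mulVec (x ∘ Sum.inr) i = 0 := by
      intro i
      have := congrFun h (Sum.inr i)
      simp only [Sum.elim_inr, Pi.add_apply, Matrix.zero_mulVec, Pi.zero_apply, zero_add, Matrix.neg_mulVec,
        Pi.neg_apply, neg_eq_zero] at this
      exact this
    have h0 : x (Sum.inr ⟨0, hm⟩) = 0 := by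
      have := hl ⟨0, hm⟩
      rw [RegUnip.N0_mulVec_zero _ _ rfl, hE, zero_add] at this
      simpa using this
    constructor
    · intro i
      by_cases hi : (i : ℕ) = 0
      · have : i = ⟨0, hm⟩ := Fin.ext hi
        rw [this, h0]
      · have h3 : (i : ℕ) - 1 + 1 < m := by have := i.2; omega
        have h4 := hr ⟨(i : ℕ) - 1, by have := i.2; omega⟩
        rw [N0_T_mulVec _ _ h3] at h4
        have h5 : (⟨(i : ℕ) - 1 + 1, h3⟩ : Fin m) = i := Fin.ext (by show (i : ℕ) - 1 + 1 = i; omega)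
        rw [h5] at h4
        exact h4
    · intro i hi
      have h4 := hl ⟨(i : ℕ) + 1, hi⟩
      rw [RegUnip.N0_mulVec_succ _ _ hi, hE] at h4
      simpa using h4
  · rintro ⟨h1, h3⟩
    have hz : x ∘ Sum.inr = 0 := by
      funext i
      exact h1 i
    rw [hz]
    funext i
    cases i with
    | inl i =>
      simp only [Sum.elim_inl, Pi.add_apply, Matrix.mulVec_zero, Pi.zero_apply, add_zero]
      by_cases hi : (i : ℕ) = 0
      · exact RegUnip.N0_mulVec_zero _ _ hi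
      · have h4 : (i : ℕ) - 1 + 1 < m := by have := i.2; omega
        have h5 : (⟨(i : ℕ) - 1 + 1, h4⟩ : Fin m) = i := Fin.ext (by show (i : ℕ) - 1 + 1 = i; omega)
        have h6 := RegUnip.N0_mulVec_succ (F := F) (x ∘ Sum.inl) ⟨(i : ℕ) - 1, by have := i.2; omega⟩ h4
        rw [h5] at h6
        rw [h6]
        exact h3 _ h4
    | inr i => simp

theorem L0_rank (hm : 1 ≤ m) : (L0 F m hm).rank = 2 * m - 1 := by
  let y : Fin m := ⟨m - 1, by omega⟩
  let w : Ix m → F := Pi.single (Sum.inl y) 1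
  have hw : w ≠ 0 := by
    intro h
    have := congrFun h (Sum.inl y)
    simp [w] at this
  have hker : LinearMap.ker (L0 F m hm).mulVecLin = Submodule.span F {w} := by
    ext x
    rw [LinearMap.mem_ker, Matrix.mulVecLin_apply, L0_ker, Submodule.mem_span_singleton]
    constructor
    · rintro ⟨h1, h3⟩
      refine ⟨x (Sum.inl y), ?_⟩
      funext i
      cases i with
      | inl i =>
        by_cases hi : i = y
        · subst hi
          simp [w]
        · have h4 : (i : ℕ) ≠ m - 1 := fun h => hi (Fin.ext h)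
          rw [h3 i (by have := i.2; omega)]
          simp [w, Pi.single_eq_of_ne (fun h : Sum.inl i = Sum.inl y => hi (Sum.inl.inj h))]
      | inr i =>
        rw [h1]
        simp [w]
    · rintro ⟨c, rfl⟩
      constructor
      · intro i
        simp [w]
      · intro i hi
        have h4 : i ≠ y := by
          intro h
          rw [h] at hi
          have : (y : ℕ) = m - 1 := rfl
          omega
        simp [w, Pi.single_eq_of_ne (fun h : Sum.inl i = Sum.inl y => h4 (Sum.inl.inj h))]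
  have h1 := LinearMap.finrank_range_add_finrank_ker (L0 F m hm).mulVecLin
  rw [hker, finrank_span_singleton hw] at h1
  have h3 : Module.finrank F (Ix m → F) = 2 * m := by
    simp [Fintype.card_sum, two_mul]
  rw [h3] at h1
  show Module.finrank F (LinearMap.range (L0 F m hm).mulVecLin) = 2 * m - 1
  omega

theorem reg_L0 (hm : 1 ≤ m) : Reg (L0 F m hm) := ⟨L0_pow hm, L0_rank hm, L0_skew hm⟩

abbrev SpG (m : ℕ) (F : Type*) [Field F] := ↥(Matrix.symplecticGroup (Fin m) F)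

/-- Being regular unipotent. -/
def RegU (u : SpG m F) : Prop :=
  ((u : Matrix (Ix m) (Ix m) F) - 1) ^ (2 * m) = 0 ∧ ((u : Matrix (Ix m) (Ix m) F) - 1).rank = 2 * m - 1

/-- The skew operator of an element. -/
def Lu (u : SpG m F) : Matrix (Ix m) (Ix m) F := (u : Matrix (Ix m) (Ix m) F) - st (u : Matrix (Ix m) (Ix m) F)

/-- The invariant of an element. -/
def Tau (u : SpG m F) (t : F) : Prop :=
  ∃ v : Ix m → F, ((Lu u) ^ (2 * m - 1)).mulVec v ≠ 0 ∧ aa (Lu u) v (2 * m - 1) = t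

theorem Tau.ne (h2 : (2 : F) ≠ 0) (hm : 1 ≤ m) {u : SpG m F} (hu : RegU u) {t : F} (h : Tau u t) : t ≠ 0 := by
  obtain ⟨v, hv, rfl⟩ := h
  exact aa_top_ne (reg_of_unip h2 u.2 hu.1 hu.2) hm hv

theorem exists_tau (h2 : (2 : F) ≠ 0) (hm : 1 ≤ m) {u : SpG m F} (hu : RegU u) : ∃ t, Tau u t := by
  have hR := reg_of_unip h2 u.2 hu.1 hu.2
  obtain ⟨v, hv⟩ := exists_cyclic_vec (card_Ix m) (by omega) hR.pow hR.rank
  exact ⟨_, v, hv, rfl⟩

theorem tau_conj (h2 : (2 : F) ≠ 0) (hm : 1 ≤ m) {a b : SpG m F} (hab : IsConj a b) (hu : RegU a) {t : F}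
    (h : Tau a t) : Tau b t := by
  obtain ⟨v, hv, rfl⟩ := h
  obtain ⟨g, hg⟩ := isConj_iff.1 hab
  have hb : (b : Matrix (Ix m) (Ix m) F) = (g : Matrix (Ix m) (Ix m) F) * a * ((g⁻¹ : SpG m F) : Matrix (Ix m) (Ix m) F) :=
    (congrArg Subtype.val hg).symm
  have h1 : ((g : Matrix (Ix m) (Ix m) F)) * ((g⁻¹ : SpG m F) : Matrix (Ix m) (Ix m) F) = 1 :=
    congrArg Subtype.val (mul_inv_cancel g)
  have h3 : ((g⁻¹ : SpG m F) : Matrix (Ix m) (Ix m) F) * (g : Matrix (Ix m) (Ix m) F) = 1 :=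
    congrArg Subtype.val (inv_mul_cancel g)
  have h4 : st (g : Matrix (Ix m) (Ix m) F) = (1 : F) • ((g⁻¹ : SpG m F) : Matrix (Ix m) (Ix m) F) := by
    rw [one_smul]
    have h5 : st (g : Matrix (Ix m) (Ix m) F) * g = 1 := (mem_sp_iff _).1 g.2
    calc st (g : Matrix (Ix m) (Ix m) F)
        = st (g : Matrix (Ix m) (Ix m) F) * ((g : Matrix (Ix m) (Ix m) F) * ((g⁻¹ : SpG m F) : Matrix (Ix m) (Ix m) F)) := by
          rw [h1, mul_one]
      _ = _ := by rw [← mul_assoc, h5, one_mul]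
  obtain ⟨-, -, -, h6, h7⟩ := transport h2 hm one_ne_zero h1 h3 h4 a.2 hu.1 hu.2 hv
  refine ⟨(g : Matrix (Ix m) (Ix m) F).mulVec v, ?_, ?_⟩
  · unfold Lu
    rw [hb]
    exact h6
  · unfold Lu
    rw [hb, h7, one_mul]

theorem tau_eq_square (h2 : (2 : F) ≠ 0) (hm : 1 ≤ m) {u : SpG m F} (hu : RegU u) {t t' : F}
    (h : Tau u t) (h' : Tau u t') : ∃ s : F, t' = s * s * t := by
  obtain ⟨v, hv, rfl⟩ := h
  obtain ⟨v', hv', rfl⟩ := h'
  exact tau_square (reg_of_unip h2 u.2 hu.1 hu.2) hm hv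

theorem conj_of_tau [Finite F] (h2 : (2 : F) ≠ 0) (hm : 1 ≤ m) {a b : SpG m F} (ha : RegU a) (hb : RegU b) {t t' s : F}
    (ht : Tau a t) (ht' : Tau b t') (hs0 : s ≠ 0) (hts : t = s * s * t') : IsConj a b := by
  obtain ⟨v, hv, rfl⟩ := ht
  obtain ⟨w, hw, rfl⟩ := ht'
  have hwb : ((Lu b) ^ (2 * m - 1)).mulVec (s • w) ≠ 0 := by
    rw [Matrix.mulVec_smul]
    exact smul_ne_zero hs0 hw
  obtain ⟨g, hg, hgU⟩ := conj_of_eq h2 hm a.2 ha.1 ha.2 b.2 hb.1 hb.2 hv hwb (by
    rw [aa_smul]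
    exact hts)
  apply isConj_iff.2
  refine ⟨⟨g, hg⟩, ?_⟩
  apply mul_inv_eq_iff_eq_mul.2
  exact Subtype.ext hgU

/-- Two representatives with invariants differing by a non-square. -/
theorem exists_two [Fintype F] (h2 : (2 : F) ≠ 0) (hrc : ringChar F ≠ 2) (hm : 1 ≤ m) :
    ∃ (u₀ u₁ : SpG m F) (c t₀ : F), ¬ IsSquare c ∧ RegU u₀ ∧ RegU u₁ ∧ Tau u₀ t₀ ∧ Tau u₁ (c * t₀) := by
  obtain ⟨U₀, hU₀, hnil₀, hreg₀⟩ := exists_unip h2 hm (reg_L0 (F := F) hm)
  have hR₀ := reg_of_unip h2 hU₀ hnil₀ hreg₀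
  obtain ⟨v₀, hv₀⟩ := exists_cyclic_vec (card_Ix m) (by omega) hR₀.pow hR₀.rank
  obtain ⟨c, hcns⟩ := FiniteField.exists_nonsquare hrc
  have hc0 : c ≠ 0 := by
    rintro rfl
    exact hcns IsSquare.zero
  have hAB : (dd c 1 : Matrix (Ix m) (Ix m) F) * dd c⁻¹ 1 = 1 := by
    rw [dd_mul, mul_inv_cancel₀ hc0, mul_one, dd_one]
  have hBA : (dd c⁻¹ 1 : Matrix (Ix m) (Ix m) F) * dd c 1 = 1 := by
    rw [dd_mul, inv_mul_cancel₀ hc0, mul_one, dd_one]
  have hstd : st (dd c 1 : Matrix (Ix m) (Ix m) F) = c • dd c⁻¹ 1 := by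
    rw [st_dd, smul_dd, mul_inv_cancel₀ hc0, mul_one]
  obtain ⟨hU₁, hnil₁, hreg₁, hv₁, ht₁⟩ := transport h2 hm hc0 hAB hBA hstd hU₀ hnil₀ hreg₀ hv₀
  exact ⟨⟨U₀, hU₀⟩, ⟨_, hU₁⟩, c, _, hcns, ⟨hnil₀, hreg₀⟩, ⟨hnil₁, hreg₁⟩, ⟨v₀, hv₀, rfl⟩, ⟨_, hv₁, ht₁⟩⟩

theorem sq_cases [Fintype F] {t t₀ c : F} (ht : t ≠ 0) (ht₀ : t₀ ≠ 0) (hc : ¬ IsSquare c) (h2 : ringChar F ≠ 2) :
    (∃ s, s ≠ 0 ∧ t = s * s * t₀) ∨ (∃ s, s ≠ 0 ∧ t = s * s * (c * t₀)) := by
  classical
  have hc0 : c ≠ 0 := by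
    rintro rfl
    exact hc IsSquare.zero
  by_cases hsq : IsSquare (t / t₀)
  · left
    obtain ⟨s, hs⟩ := hsq
    refine ⟨s, ?_, ?_⟩
    · rintro rfl
      rw [zero_mul] at hs
      exact div_ne_zero ht ht₀ hs
    · rw [← hs]
      field_simp
  · right
    have hsq2 : IsSquare (t / t₀ * c) := by
      have h5 : quadraticChar F (t / t₀ * c) = 1 := by
        rw [map_mul, quadraticChar_neg_one_iff_not_isSquare.2 hsq,
          quadraticChar_neg_one_iff_not_isSquare.2 hc]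
        norm_num
      exact (quadraticChar_one_iff_isSquare (mul_ne_zero (div_ne_zero ht ht₀) hc0)).1 h5
    obtain ⟨w, hw⟩ := hsq2
    have hw0 : w ≠ 0 := by
      rintro rfl
      rw [zero_mul] at hw
      exact mul_ne_zero (div_ne_zero ht ht₀) hc0 hw
    refine ⟨w / c, div_ne_zero hw0 hc0, ?_⟩
    have h6 : w / c * (w / c) * (c * t₀) = (w * w) / c * t₀ := by
      field_simp
    rw [h6, ← hw]
    field_simp

theorem not_sq_of {t₀ c s : F} (ht₀ : t₀ ≠ 0) (h3 : t₀ = s * s * (c * t₀)) : IsSquare c := by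
  have hs0 : s ≠ 0 := by
    rintro rfl
    apply ht₀
    rw [h3]
    ring
  have h4 : c = s⁻¹ * s⁻¹ := by
    field_simp
    have h5 : (s * s * c - 1) * t₀ = 0 := by linear_combination -h3
    have h6 := (mul_eq_zero.1 h5).resolve_right ht₀
    linear_combination h6
  exact ⟨_, h4⟩

/-- The number of classes of regular unipotent elements. -/
theorem card_classes [Fintype F] {q : ℕ} (hF : Fintype.card F = q) (hq : Odd q) (hm : 1 ≤ m) :
    Nat.card {C : ConjClasses ↥(Matrix.symplecticGroup (Fin m) F) //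
      ∃ u : Matrix.symplecticGroup (Fin m) F, ConjClasses.mk u = C ∧
        ((u : Matrix (Ix m) (Ix m) F) - 1) ^ (2 * m) = 0 ∧
        ((u : Matrix (Ix m) (Ix m) F) - 1).rank = 2 * m - 1} = 2 := by
  classical
  have h2 := two_ne_of_odd hF hq
  have hrc : ringChar F ≠ 2 := by
    intro hc
    apply h2
    have := ringChar.spec F 2
    have h3 : ((2 : ℕ) : F) = 0 := by
      rw [this, hc]
    exact_mod_cast h3
  obtain ⟨u₀, u₁, c, t₀, hcns, hu₀, hu₁, ht₀, ht₁⟩ := exists_two h2 hrc hm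
  have ht₀' := ht₀.ne h2 hm hu₀
  have hne : ConjClasses.mk u₀ ≠ ConjClasses.mk u₁ := by
    intro h
    have h3 := tau_conj h2 hm (ConjClasses.mk_eq_mk_iff_isConj.1 h) hu₀ ht₀
    obtain ⟨s, hs⟩ := tau_eq_square h2 hm hu₁ ht₁ h3
    exact hcns (not_sq_of ht₀' hs)
  apply Nat.card_eq_two_iff.2
  refine ⟨⟨ConjClasses.mk u₀, u₀, rfl, hu₀.1, hu₀.2⟩, ⟨ConjClasses.mk u₁, u₁, rfl, hu₁.1, hu₁.2⟩, ?_, ?_⟩
  · intro h
    exact hne (congrArg Subtype.val h)
  · ext ⟨C, u, hC, hn, hr⟩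
    simp only [Set.mem_insert_iff, Set.mem_singleton_iff, Set.mem_univ, iff_true]
    subst hC
    have hu : RegU u := ⟨hn, hr⟩
    obtain ⟨t, ht⟩ := exists_tau h2 hm hu
    rcases sq_cases (ht.ne h2 hm hu) ht₀' hcns hrc with ⟨s, hs0, hs⟩ | ⟨s, hs0, hs⟩
    · left
      exact Subtype.ext (ConjClasses.mk_eq_mk_iff_isConj.2 (conj_of_tau h2 hm hu hu₀ ht ht₀ hs0 hs))
    · right
      exact Subtype.ext (ConjClasses.mk_eq_mk_iff_isConj.2 (conj_of_tau h2 hm hu hu₁ ht ht₁ hs0 hs))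

end Cfsg.Agent.Lib.SpRegUnip2
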