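/-
Semisimple elements of the symplectic group: conjugacy in `Sp` and in `GL`.
-/
import Mathlib
import Cfsg.Agent.Lib.NormRing
import Cfsg.Agent.Lib.SpRegUnip2
import Cfsg.Agent.Lib.JordanForm

set_option autoImplicit false
set_option linter.all false

open scoped Matrix
open Matrix

namespace Cfsg.Agent.Lib.SpSemi

open Cfsg.Agent.Lib.SpRegUnip Cfsg.Agent.Lib.SpRegUnip2 Cfsg.Agent.Lib.NormRing

universe u

theorem norm_mod_idem {S : Type u} [CommRing S] [Finite S] (σ : S →+* S) (hσ2 : ∀ a, σ (σ a) = a) {e θ z h : S}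
    (he : e * e = e) (hσe : σ e = e) (hθz : (θ - σ θ) * z = 1 - e) (hu : IsUnit h) (hσh : σ h = h) :
    ∃ r, σ r * r = (1 - e) * h + e := by
  classical
  have hIσ : Ideal.span {e} ≤ (Ideal.span {e}).comap σ := by
    rw [Ideal.span_le]
    rintro x hx
    rw [Set.mem_singleton_iff] at hx
    subst hx
    show σ x ∈ Ideal.span {x}
    rw [hσe]
    exact Ideal.mem_span_singleton_self x
  let mk := Ideal.Quotient.mk (Ideal.span {e})
  let σ' : (S ⧸ Ideal.span {e}) →+* (S ⧸ Ideal.span {e}) := Ideal.quotientMap (Ideal.span {e}) σ hIσ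
  have hσ'mk : ∀ x, σ' (mk x) = mk (σ x) := fun x => Ideal.quotientMap_mk
  have hσ'2 : ∀ a, σ' (σ' a) = a := by
    intro a
    obtain ⟨b, rfl⟩ := Ideal.Quotient.mk_surjective a
    show σ' (σ' (mk b)) = mk b
    rw [hσ'mk, hσ'mk, hσ2]
  haveI : Finite (S ⧸ Ideal.span {e}) := Finite.of_surjective _ (Ideal.Quotient.mk_surjective (I := Ideal.span {e}))
  have hek : mk e = 0 := Ideal.Quotient.eq_zero_iff_mem.2 (Ideal.mem_span_singleton_self e)
  have hθ' : IsUnit (mk θ - σ' (mk θ)) := by
    apply IsUnit.of_mul_eq_one (mk z)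
    rw [hσ'mk, ← map_sub, ← map_mul, hθz, map_sub, map_one, hek, sub_zero]
  obtain ⟨r', hr'⟩ := norm_surj_ring _ (S ⧸ Ideal.span {e}) σ' hσ'2 (mk θ) hθ' (mk h) (hu.map mk)
    (by rw [hσ'mk, hσh]) rfl
  obtain ⟨r₁, rfl⟩ := Ideal.Quotient.mk_surjective r'
  have hmem : σ r₁ * r₁ - h ∈ Ideal.span {e} := by
    rw [← Ideal.Quotient.eq_zero_iff_mem, map_sub, map_mul, sub_eq_zero]
    show mk (σ r₁) * mk r₁ = mk h
    rw [← hσ'mk]
    exact hr'
  obtain ⟨b, hb⟩ := Ideal.mem_span_singleton'.1 hmem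
  refine ⟨r₁ * (1 - e) + e, ?_⟩
  simp only [map_add, map_mul, map_sub, map_one, hσe]
  linear_combination (σ r₁ * r₁ - σ r₁ - r₁ + 1 - b) * he - (1 - e) * hb

theorem norm_in_subring_idem {R : Type u} [Ring R] [Finite R] (T : Subring R)
    (hc : ∀ a ∈ T, ∀ b ∈ T, a * b = b * a) (st : R →+ R) (hst1 : st 1 = 1)
    (hstm : ∀ a b, st (a * b) = st b * st a) (hst2 : ∀ a, st (st a) = a)
    (hT : ∀ a ∈ T, st a ∈ T) {e θ z h w : R} (he : e ∈ T) (hee : e * e = e) (hste : st e = e)
    (hθ : θ ∈ T) (hz : z ∈ T) (hθz : (θ - st θ) * z = 1 - e)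
    (hh : h ∈ T) (hw : w ∈ T) (hhw : h * w = 1) (hst : st h = h) :
    ∃ r ∈ T, st r * r = (1 - e) * h + e := by
  letI inst : CommRing T :=
    { (inferInstance : Ring T) with
      mul_comm := fun a b => Subtype.ext (hc a.1 a.2 b.1 b.2) }
  let σ : T →+* T :=
    { toFun := fun a => ⟨st a.1, hT a.1 a.2⟩
      map_one' := Subtype.ext hst1
      map_zero' := Subtype.ext (map_zero st)
      map_mul' := fun a b => Subtype.ext (by
        show st (a.1 * b.1) = st a.1 * st b.1
        rw [hstm, hc _ (hT _ b.2) _ (hT _ a.2)])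
      map_add' := fun a b => Subtype.ext (map_add st a.1 b.1) }
  have hh' : IsUnit (⟨h, hh⟩ : T) := IsUnit.of_mul_eq_one (⟨w, hw⟩ : T) (Subtype.ext hhw)
  obtain ⟨r, hr⟩ := norm_mod_idem σ (fun a => Subtype.ext (hst2 a.1)) (e := ⟨e, he⟩) (θ := ⟨θ, hθ⟩) (z := ⟨z, hz⟩)
    (h := ⟨h, hh⟩) (Subtype.ext hee) (Subtype.ext hste) (Subtype.ext hθz) hh' (Subtype.ext hst)
  exact ⟨r.1, r.2, congrArg Subtype.val hr⟩

variable {F : Type u} [Field F] {m : ℕ}

section avg

variable {ι : Type*} [Fintype ι] [DecidableEq ι]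

/-- The average of the powers. -/
def avg (d : ℕ) (C : Matrix ι ι F) : Matrix ι ι F := ((d : F)⁻¹) • ∑ i ∈ Finset.range d, C ^ i

def avgW (d : ℕ) (C : Matrix ι ι F) : Matrix ι ι F := ((d : F)⁻¹) • ∑ i ∈ Finset.range d, (i : F) • C ^ i

theorem sum_shift {d : ℕ} {C : Matrix ι ι F} (h : C ^ d = 1) :
    ∑ i ∈ Finset.range d, C ^ (i + 1) = ∑ i ∈ Finset.range d, C ^ i := by
  have h1 := Finset.sum_range_succ (fun i => C ^ i) d
  have h2 := Finset.sum_range_succ' (fun i => C ^ i) d
  simp only [pow_zero] at h2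
  rw [h1, h] at h2
  exact (add_right_cancel h2).symm

theorem mul_avg {d : ℕ} {C : Matrix ι ι F} (h : C ^ d = 1) : C * avg d C = avg d C := by
  unfold avg
  rw [Matrix.mul_smul, Finset.mul_sum]
  simp only [← pow_succ']
  rw [sum_shift h]

theorem avg_mul {d : ℕ} {C : Matrix ι ι F} (h : C ^ d = 1) : avg d C * C = avg d C := by
  unfold avg
  rw [Matrix.smul_mul, Finset.sum_mul]
  simp only [← pow_succ]
  rw [sum_shift h]

theorem avg_left {d : ℕ} (hd : (d : F) ≠ 0) {C X : Matrix ι ι F} (h : X * C = X) : X * avg d C = X := by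
  have h1 : ∀ i : ℕ, X * C ^ i = X := by
    intro i
    induction i with
    | zero => simp
    | succ i ih => rw [pow_succ, ← mul_assoc, ih, h]
  unfold avg
  rw [Matrix.mul_smul, Finset.mul_sum]
  simp only [h1]
  rw [Finset.sum_const, Finset.card_range, ← Nat.cast_smul_eq_nsmul F, smul_smul, inv_mul_cancel₀ hd, one_smul]

theorem avg_right {d : ℕ} (hd : (d : F) ≠ 0) {C X : Matrix ι ι F} (h : C * X = X) : avg d C * X = X := by
  have h1 : ∀ i : ℕ, C ^ i * X = X := by
    intro i
    induction i with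
    | zero => simp
    | succ i ih => rw [pow_succ', mul_assoc, ih, h]
  unfold avg
  rw [Matrix.smul_mul, Finset.sum_mul]
  simp only [h1]
  rw [Finset.sum_const, Finset.card_range, ← Nat.cast_smul_eq_nsmul F, smul_smul, inv_mul_cancel₀ hd, one_smul]

theorem avg_idem {d : ℕ} (hd : (d : F) ≠ 0) {C : Matrix ι ι F} (h : C ^ d = 1) : avg d C * avg d C = avg d C :=
  avg_right hd (mul_avg h)

theorem aux_sum (C : Matrix ι ι F) (n : ℕ) :
    (C - 1) * ∑ i ∈ Finset.range n, (i : F) • C ^ i = (n : F) • C ^ n - ∑ j ∈ Finset.range n, C ^ (j + 1) := by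
  induction n with
  | zero => simp
  | succ n ih =>
    rw [Finset.sum_range_succ, mul_add, ih, Finset.sum_range_succ, Matrix.mul_smul, sub_mul, one_mul, ← pow_succ']
    push_cast
    rw [add_smul, one_smul, smul_sub]
    abel

theorem sub_one_mul_avgW {d : ℕ} (hd : (d : F) ≠ 0) {C : Matrix ι ι F} (h : C ^ d = 1) :
    (C - 1) * avgW d C = 1 - avg d C := by
  unfold avgW avg
  rw [Matrix.mul_smul, aux_sum, h, sum_shift h, smul_sub, smul_smul, inv_mul_cancel₀ hd, one_smul]

end avg

section st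

theorem st_avg {d : ℕ} (hd : (d : F) ≠ 0) {C : Matrix (Ix m) (Ix m) F} (h : C ^ d = 1)
    (hC : st C * C = 1) : st (avg d C) = avg d C := by
  have h1 : st (avg d C) = avg d (st C) := by
    unfold avg
    rw [st_smul, st_sum]
    simp only [st_pow]
  have hs : st C ^ d = 1 := by rw [← st_pow, h, st_one]
  have h2 : avg d (st C) * C = avg d (st C) := by
    calc avg d (st C) * C = (avg d (st C) * st C) * C := by rw [avg_mul hs]
      _ = avg d (st C) * (st C * C) := mul_assoc ..
      _ = avg d (st C) := by rw [hC, mul_one]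
  have h3 : st C * avg d C = avg d C := by
    calc st C * avg d C = st C * (C * avg d C) := by rw [mul_avg h]
      _ = (st C * C) * avg d C := (mul_assoc ..).symm
      _ = avg d C := by rw [hC, one_mul]
  rw [h1]
  calc avg d (st C) = avg d (st C) * avg d C := (avg_left hd h2).symm
    _ = avg d C := avg_right hd h3

/-- Transferring between the form and the form twisted by `h` on an orthogonal summand. -/
theorem exists_R {π h Hi : Matrix (Ix m) (Ix m) F} [Fintype F] (hπ : π * π = π) (hπst : st π = π) (hc : h * π = π * h)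
    (hHi : h * Hi = 1) (halt : ∀ x, fm x (h *ᵥ x) = 0) :
    ∃ R : Matrix (Ix m) (Ix m) F, R * π = R ∧ π * R = R ∧ st R * R = π * h := by
  classical
  have hπv : ∀ v : Ix m → F, π *ᵥ (π *ᵥ v) = π *ᵥ v := by
    intro v
    rw [Matrix.mulVec_mulVec, hπ]
  let W : Submodule F (Ix m → F) :=
    { carrier := {x | π *ᵥ x = x}
      add_mem' := by
        intro a b ha hb
        show π *ᵥ (a + b) = a + b
        rw [Matrix.mulVec_add, show π *ᵥ a = a from ha, show π *ᵥ b = b from hb]
      zero_mem' := by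
        show π *ᵥ 0 = 0
        simp
      smul_mem' := by
        intro c a ha
        show π *ᵥ (c • a) = c • a
        rw [Matrix.mulVec_smul, show π *ᵥ a = a from ha] }
  have hW : ∀ x : W, π *ᵥ (x : Ix m → F) = x := fun x => x.2
  have hfmπ : ∀ (x : W) (v : Ix m → F), fm (x : Ix m → F) (π *ᵥ v) = fm (x : Ix m → F) v := by
    intro x v
    rw [← hπst, ← fm_adj, hW]
  let B₁ : LinearMap.BilinForm F W := LinearMap.mk₂ F (fun x y : W => fm (x : Ix m → F) (y : Ix m → F))
    (fun x x' y => fm_add_left _ _ _) (fun c x y => fm_smul_left _ _ _)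
    (fun x y y' => fm_add_right _ _ _) (fun c x y => fm_smul_right _ _ _)
  let B₂ : LinearMap.BilinForm F W := LinearMap.mk₂ F (fun x y : W => fm (x : Ix m → F) (h *ᵥ (y : Ix m → F)))
    (fun x x' y => fm_add_left _ _ _) (fun c x y => fm_smul_left _ _ _)
    (fun x y y' => by
      show fm (x : Ix m → F) (h *ᵥ ((y : Ix m → F) + y')) = _
      rw [Matrix.mulVec_add, fm_add_right])
    (fun c x y => by
      show fm (x : Ix m → F) (h *ᵥ (c • (y : Ix m → F))) = _
      rw [Matrix.mulVec_smul, fm_smul_right]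
      rfl)
  have hB₁ : ∀ x y : W, B₁ x y = fm (x : Ix m → F) (y : Ix m → F) := fun x y => rfl
  have hB₂ : ∀ x y : W, B₂ x y = fm (x : Ix m → F) (h *ᵥ (y : Ix m → F)) := fun x y => rfl
  have hA₁ : B₁.IsAlt := fun x => Cfsg.Agent.Lib.JordanForm.J_alt (x : Ix m → F)
  have hA₂ : B₂.IsAlt := fun x => halt (x : Ix m → F)
  have hnd₁ : ∀ x : W, (∀ y : W, B₁ x y = 0) → x = 0 := by
    intro x hx
    apply Subtype.ext
    apply fm_nondeg
    intro v
    rw [← hfmπ]
    exact hx ⟨π *ᵥ v, hπv v⟩
  have hnd₂ : ∀ x : W, (∀ y : W, B₂ x y = 0) → x = 0 := by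
    intro x hx
    apply Subtype.ext
    apply fm_nondeg
    intro v
    rw [← hfmπ]
    have h1 := hx ⟨π *ᵥ (Hi *ᵥ v), hπv _⟩
    rw [hB₂] at h1
    have h2 : h *ᵥ (π *ᵥ (Hi *ᵥ v)) = π *ᵥ v := by
      rw [Matrix.mulVec_mulVec, Matrix.mulVec_mulVec, hc, mul_assoc, hHi, mul_one]
    rwa [show ((⟨π *ᵥ (Hi *ᵥ v), hπv _⟩ : W) : Ix m → F) = π *ᵥ (Hi *ᵥ v) from rfl, h2] at h1
  obtain ⟨m₁, k₁, b₁, h₁₁, h₁₂, h₁₃, h₁₄⟩ := Cfsg.Agent.Lib.FormClass.alt_classify hA₁
  obtain ⟨m₂, k₂, b₂, h₂₁, h₂₂, h₂₃, h₂₄⟩ := Cfsg.Agent.Lib.FormClass.alt_classify hA₂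
  have hk₁ : k₁ = 0 := by
    by_contra h0
    have hj : (⟨0, by omega⟩ : Fin k₁) = ⟨0, by omega⟩ := rfl
    have := hnd₁ (b₁ (Sum.inr ⟨0, by omega⟩)) (fun y => h₁₄ _ y)
    exact b₁.ne_zero _ this
  have hk₂ : k₂ = 0 := by
    by_contra h0
    have := hnd₂ (b₂ (Sum.inr ⟨0, by omega⟩)) (fun y => h₂₄ _ y)
    exact b₂.ne_zero _ this
  subst hk₁
  subst hk₂
  have hm : m₁ = m₂ := by
    have h1 := Module.finrank_eq_card_basis b₁
    have h2 := Module.finrank_eq_card_basis b₂
    simp only [Fintype.card_sum, Fintype.card_fin] at h1 h2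
    omega
  subst hm
  let Φ : W ≃ₗ[F] W := b₂.equiv b₁ (Equiv.refl _)
  have hΦ : ∀ i, Φ (b₂ i) = b₁ i := fun i => by
    simp [Φ, Module.Basis.equiv_apply]
  have hB : ∀ x y : W, B₁ (Φ x) (Φ y) = B₂ x y := by
    have h3 : B₁.compl₁₂ Φ.toLinearMap Φ.toLinearMap = B₂ := by
      apply LinearMap.ext_basis b₂ b₂
      intro i j
      show B₁ (Φ (b₂ i)) (Φ (b₂ j)) = B₂ (b₂ i) (b₂ j)
      rw [hΦ, hΦ]
      rcases i with (a | a) | a
      · rcases j with (c | c) | c
        · rw [h₁₂, h₂₂]
        · rw [h₁₁, h₂₁]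
        · exact c.elim0
      · rcases j with (c | c) | c
        · rw [← hA₁.neg_eq, ← hA₂.neg_eq, h₁₁, h₂₁]
        · rw [h₁₃, h₂₃]
        · exact c.elim0
      · exact a.elim0
    intro x y
    rw [← h3]
    rfl
  let π' : (Ix m → F) →ₗ[F] W := (Matrix.toLin' π).codRestrict W (fun v => hπv v)
  have hπ' : ∀ v, ((π' v : W) : Ix m → F) = π *ᵥ v := fun v => rfl
  let L : (Ix m → F) →ₗ[F] (Ix m → F) := W.subtype ∘ₗ Φ.toLinearMap ∘ₗ π'
  let R : Matrix (Ix m) (Ix m) F := LinearMap.toMatrix' L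
  have hR : ∀ v, R *ᵥ v = ((Φ (π' v) : W) : Ix m → F) := fun v => LinearMap.toMatrix'_mulVec L v
  refine ⟨R, ?_, ?_, ?_⟩
  · apply Cfsg.Agent.Lib.SpRegUnip2.mulVec_ext
    intro v
    rw [← Matrix.mulVec_mulVec, hR, hR]
    have : π' (π *ᵥ v) = π' v := Subtype.ext (hπv v)
    rw [this]
  · apply Cfsg.Agent.Lib.SpRegUnip2.mulVec_ext
    intro v
    rw [← Matrix.mulVec_mulVec, hR]
    exact hW _
  · apply Cfsg.Agent.Lib.SpRegUnip2.mulVec_ext
    intro y
    have key : ∀ x, fm x ((st R * R) *ᵥ y) = fm x ((π * h) *ᵥ y) := by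
      intro x
      rw [← Matrix.mulVec_mulVec, ← fm_adj, hR, hR]
      have h4 : fm ((Φ (π' x) : W) : Ix m → F) ((Φ (π' y) : W) : Ix m → F) = B₂ (π' x) (π' y) := hB _ _
      rw [h4, hB₂, hπ', hπ', fm_adj, hπst, Matrix.mulVec_mulVec, Matrix.mulVec_mulVec, mul_assoc π, hc,
        ← mul_assoc, hπ]
    rw [← sub_eq_zero]
    apply fm_nondeg
    intro x
    rw [fm_anti, sub_eq_add_neg, fm_add_right, fm_neg_right, key x]
    simp

end st

section main

/-- Splitting the part where `A` has square one. -/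
theorem split_pi (A o : Matrix (Ix m) (Ix m) F) {d : ℕ} (hAd : A ^ d = 1) (hA : st A * A = 1) (hoo : o * o = o)
    (hst : st o = o) (hcomm : o * A = A * o) (hou : o * (A * A) = o) (h2 : (2 : F) = 0 → Odd d)
    (T : Subring (Matrix (Ix m) (Ix m) F)) (hoT : o ∈ T) (hAT : A ∈ T)
    (hsc : ∀ c : F, c • (1 : Matrix (Ix m) (Ix m) F) ∈ T) :
    ∃ p ∈ T, ∃ n ∈ T, p * p = p ∧ n * n = n ∧ p * n = 0 ∧ n * p = 0 ∧ p + n = o ∧ st p = p ∧ st n = n ∧
      A * p = p ∧ A * n = - n := by
  by_cases h20 : (2 : F) = 0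
  · obtain ⟨k, hk⟩ := h2 h20
    refine ⟨o, hoT, 0, T.zero_mem, hoo, by simp, by simp, by simp, by simp, hst, st_zero, ?_, by simp⟩
    have h3 : ∀ j : ℕ, (A * A) ^ j * o = o := by
      intro j
      induction j with
      | zero => simp
      | succ j ih =>
        rw [pow_succ, mul_assoc]
        have : (A * A) * o = o := by
          rw [mul_assoc, ← hcomm, ← mul_assoc, ← hcomm, mul_assoc, hou]
        rw [this, ih]
    have h4 : A ^ d = A * (A * A) ^ k := by
      rw [hk, ← pow_two, ← pow_mul, pow_succ']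
    calc A * o = A * ((A * A) ^ k * o) := by rw [h3]
      _ = A ^ d * o := by rw [h4, mul_assoc]
      _ = o := by rw [hAd, one_mul]
  · have hAS : A * st A = 1 := mul_eq_one_comm.1 hA
    obtain ⟨t, ht⟩ : ∃ t, t = o * A := ⟨_, rfl⟩
    have htt : t * t = o := by
      calc t * t = o * (A * o) * A := by rw [ht]; simp only [mul_assoc]
        _ = o * (o * A) * A := by rw [hcomm]
        _ = (o * o) * (A * A) := by simp only [mul_assoc]
        _ = o := by rw [hoo, hou]
    have hot : o * t = t := by rw [ht, ← mul_assoc, hoo]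
    have hto : t * o = t := by rw [ht, mul_assoc, ← hcomm, ← mul_assoc, hoo]
    have hAo : A * o = t := by rw [ht, hcomm]
    have hAt : A * t = o := by
      rw [ht, ← mul_assoc, ← hcomm, mul_assoc, hou]
    have hst_t : st t = t := by
      rw [ht, st_mul, hst]
      have h3 : st A * o = o * st A := by
        have := congrArg st hcomm
        rwa [st_mul, st_mul, hst] at this
      rw [h3]
      calc o * st A = (o * (A * A)) * st A := by rw [hou]
        _ = (o * A) * (A * st A) := by simp only [mul_assoc]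
        _ = o * A := by rw [hAS, mul_one]
    have htT : t ∈ T := by
      rw [ht]
      exact T.mul_mem hoT hAT
    have hsm : ∀ (c : F) (x : Matrix (Ix m) (Ix m) F), x ∈ T → c • x ∈ T := by
      intro c x hx
      have : c • x = (c • (1 : Matrix (Ix m) (Ix m) F)) * x := by
        rw [Matrix.smul_mul, one_mul]
      rw [this]
      exact T.mul_mem (hsc c) hx
    have hh : (2 : F)⁻¹ * 2 = 1 := inv_mul_cancel₀ h20
    have hhh : (2 : F)⁻¹ + 2⁻¹ = 1 := by
      have : (2 : F)⁻¹ + 2⁻¹ = (2 : F)⁻¹ * 2 := by ring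
      rw [this, hh]
    have e1 : (o + t) * (o + t) = (2 : F) • (o + t) := by
      rw [add_mul, mul_add, mul_add, hoo, hot, hto, htt, two_smul]
      abel
    have e2 : (o - t) * (o - t) = (2 : F) • (o - t) := by
      rw [sub_mul, mul_sub, mul_sub, hoo, hot, hto, htt, two_smul]
      abel
    have e3 : (o + t) * (o - t) = 0 := by
      rw [add_mul, mul_sub, mul_sub, hoo, hot, hto, htt]
      abel
    have e4 : (o - t) * (o + t) = 0 := by
      rw [sub_mul, mul_add, mul_add, hoo, hot, hto, htt]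
      abel
    refine ⟨(2 : F)⁻¹ • (o + t), hsm _ _ (T.add_mem hoT htT), (2 : F)⁻¹ • (o - t), hsm _ _ (T.sub_mem hoT htT), ?_, ?_, ?_, ?_, ?_, ?_, ?_, ?_, ?_⟩
    · rw [Matrix.smul_mul, Matrix.mul_smul, e1, smul_smul, smul_smul, mul_assoc, hh, mul_one]
    · rw [Matrix.smul_mul, Matrix.mul_smul, e2, smul_smul, smul_smul, mul_assoc, hh, mul_one]
    · rw [Matrix.smul_mul, Matrix.mul_smul, e3]
      simp
    · rw [Matrix.smul_mul, Matrix.mul_smul, e4]
      simp
    · rw [← smul_add]
      have : o + t + (o - t) = (2 : F) • o := by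
        rw [two_smul]
        abel
      rw [this, smul_smul, hh, one_smul]
    · rw [st_smul, st_add, hst, hst_t]
    · rw [st_smul, st_sub, hst, hst_t]
    · rw [Matrix.mul_smul, mul_add, hAo, hAt, add_comm]
    · rw [Matrix.mul_smul, mul_sub, hAo, hAt, ← smul_neg, neg_sub]

/-- The norm equation in the commutant, from the decomposition. -/
theorem exists_total [Fintype F] (A h Hi : Matrix (Ix m) (Ix m) F) {d : ℕ} (hd : (d : F) ≠ 0) (hAd : A ^ d = 1)
    (h2 : (2 : F) = 0 → Odd d) (hA : st A * A = 1) (hst : st h = h) (hc : Commute h A) (hHi : h * Hi = 1)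
    (halt : ∀ x, fm x (h *ᵥ x) = 0) :
    ∃ R : Matrix (Ix m) (Ix m) F, st R * R = h ∧ Commute R A := by
  classical
  have hAS : A * st A = 1 := mul_eq_one_comm.1 hA
  have hHi' : Hi * h = 1 := mul_eq_one_comm.1 hHi
  set u := A * A with hu
  have huA : Commute A A := Commute.refl A
  have hud : u ^ d = 1 := by
    rw [hu, huA.mul_pow, hAd, one_mul]
  have hsu : st u * u = 1 := by
    rw [hu, st_mul]
    calc st A * st A * (A * A) = st A * (st A * A) * A := by simp only [mul_assoc]
      _ = 1 := by rw [hA, mul_one, hA]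
  set o := avg d u with ho
  have huo : u * o = o := mul_avg hud
  have hou : o * u = o := avg_mul hud
  have hoo : o * o = o := avg_idem hd hud
  have host : st o = o := st_avg hd hud hsu
  have hw : (u - 1) * avgW d u = 1 - o := sub_one_mul_avgW hd hud
  -- the commutative subring
  let S : Set (Matrix (Ix m) (Ix m) F) := {A, st A, h}
  have hAsA : Commute A (st A) := by
    show A * st A = st A * A
    rw [hAS, hA]
  have hsAh : Commute h (st A) := by
    have h3 := congrArg st hc.eq
    rw [st_mul, st_mul, hst] at h3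
    exact h3.symm
  have hs : ∀ a ∈ S, ∀ b ∈ S, Commute a b := by
    rintro a (rfl | rfl | rfl) b (rfl | rfl | rfl)
    · exact Commute.refl _
    · exact hAsA
    · exact hc.symm
    · exact hAsA.symm
    · exact Commute.refl _
    · exact hsAh.symm
    · exact hc
    · exact hsAh
    · exact Commute.refl _
  let T : Subring (Matrix (Ix m) (Ix m) F) := biC S
  have hcT : ∀ a ∈ T, ∀ b ∈ T, a * b = b * a := biC_comm hs
  have hAT : A ∈ T := self_mem_biC (by simp [S])
  have hsAT : st A ∈ T := self_mem_biC (by simp [S])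
  have hhT : h ∈ T := self_mem_biC (by simp [S])
  have hHiT : Hi ∈ T := inv_mem_biC hhT hHi hHi'
  have hsc : ∀ c : F, c • (1 : Matrix (Ix m) (Ix m) F) ∈ T := by
    intro c y _
    exact (Commute.one_left y).smul_left c
  have hsm : ∀ (c : F) (x : Matrix (Ix m) (Ix m) F), x ∈ T → c • x ∈ T := by
    intro c x hx
    have : c • x = (c • (1 : Matrix (Ix m) (Ix m) F)) * x := by
      rw [Matrix.smul_mul, one_mul]
    rw [this]
    exact T.mul_mem (hsc c) hx
  have huT : u ∈ T := T.mul_mem hAT hAT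
  have hoT : o ∈ T := by
    apply hsm
    exact T.sum_mem (fun i _ => T.pow_mem huT i)
  have hwT : avgW d u ∈ T := by
    apply hsm
    exact T.sum_mem (fun i _ => hsm _ _ (T.pow_mem huT i))
  have hTst : ∀ x ∈ T, st x ∈ T := by
    intro x hx y hy
    have h3 : Commute x (st y) := hx (st y) (by
      intro a ha
      rcases ha with ha | ha | ha
      · rw [ha]
        have h5 : Commute y (st A) := hy _ (by simp [S])
        have h6 := congrArg st h5.eq
        rw [st_mul, st_mul, st_st] at h6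
        exact h6.symm
      · rw [show a = st A from ha]
        have h5 : Commute y A := hy _ (by simp [S])
        have h6 := congrArg st h5.eq
        rw [st_mul, st_mul] at h6
        exact h6.symm
      · rw [show a = h from ha]
        have h5 : Commute y h := hy _ (by simp [S])
        have h6 := congrArg st h5.eq
        rw [st_mul, st_mul, hst] at h6
        exact h6.symm)
    have h4 := congrArg st h3.eq
    rw [st_mul, st_mul, st_st] at h4
    exact h4.symm
  let stH : Matrix (Ix m) (Ix m) F →+ Matrix (Ix m) (Ix m) F :=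
    { toFun := st, map_zero' := st_zero, map_add' := st_add }
  have hθz : (A - stH A) * (A * avgW d u) = 1 - o := by
    show (A - st A) * (A * avgW d u) = 1 - o
    rw [← mul_assoc, sub_mul, hA, ← hu]
    exact hw
  obtain ⟨r, hrT, hr⟩ := norm_in_subring_idem T hcT stH st_one st_mul st_st hTst hoT hoo host hAT
    (T.mul_mem hAT hwT) hθz hhT hHiT hHi hst
  have hoA : o * A = A * o := hcT _ hoT _ hAT
  have hrA : Commute r A := hrT A (fun a ha => hs _ (by simp [S]) _ ha)
  obtain ⟨p, hpT, n, hnT, hpp, hnn, hpn, hnp, hpno, hstp, hstn, hAp, hAn⟩ := split_pi A o hAd hA hoo host hoA hou h2 T hoT hAT hsc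
  have hph : h * p = p * h := (hcT _ hpT _ hhT).symm
  have hnh : h * n = n * h := (hcT _ hnT _ hhT).symm
  obtain ⟨a, hap, hpa, hsa⟩ := exists_R hpp hstp hph hHi halt
  obtain ⟨b, hbn, hnb, hsb⟩ := exists_R hnn hstn hnh hHi halt
  have hpA : p * A = p := by rw [hcT _ hpT _ hAT, hAp]
  have hnA : n * A = - n := by rw [hcT _ hnT _ hAT, hAn]
  set q := 1 - o with hq
  have hstq : st q = q := by rw [hq, st_sub, st_one, host]
  have hqq : q * q = q := by
    rw [hq, sub_mul, one_mul, mul_sub, mul_one, hoo, sub_self, sub_zero]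
  have hqo : q * o = 0 := by rw [hq, sub_mul, one_mul, hoo, sub_self]
  have hoq : o * q = 0 := by rw [hq, mul_sub, mul_one, hoo, sub_self]
  have hop : o * p = p := by rw [← hpno, add_mul, hpp, hnp, add_zero]
  have hon : o * n = n := by rw [← hpno, add_mul, hpn, hnn, zero_add]
  have hpo : p * o = p := by rw [← hpno, mul_add, hpp, hpn, add_zero]
  have hno : n * o = n := by rw [← hpno, mul_add, hnp, hnn, zero_add]
  have hqp : q * p = 0 := by rw [hq, sub_mul, one_mul, hop, sub_self]
  have hpq : p * q = 0 := by rw [hq, mul_sub, mul_one, hpo, sub_self]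
  have hqn : q * n = 0 := by rw [hq, sub_mul, one_mul, hon, sub_self]
  have hnq : n * q = 0 := by rw [hq, mul_sub, mul_one, hno, sub_self]
  have hsa1 : st a * p = st a := by
    have := congrArg st hpa
    rwa [st_mul, hstp] at this
  have hsb1 : st b * n = st b := by
    have := congrArg st hnb
    rwa [st_mul, hstn] at this
  have hqa : q * a = 0 := by rw [← hpa, ← mul_assoc, hqp, zero_mul]
  have hqb : q * b = 0 := by rw [← hnb, ← mul_assoc, hqn, zero_mul]
  have haq : a * q = 0 := by rw [← hap, mul_assoc, hpq, mul_zero]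
  have hbq : b * q = 0 := by rw [← hbn, mul_assoc, hnq, mul_zero]
  have hsaq : st a * q = 0 := by rw [← hsa1, mul_assoc, hpq, mul_zero]
  have hsbq : st b * q = 0 := by rw [← hsb1, mul_assoc, hnq, mul_zero]
  have hsab : st a * b = 0 := by
    rw [← hsa1, ← hnb]
    calc st a * p * (n * b) = st a * (p * n) * b := by simp only [mul_assoc]
      _ = 0 := by rw [hpn, mul_zero, zero_mul]
  have hsba : st b * a = 0 := by
    rw [← hsb1, ← hpa]
    calc st b * n * (p * a) = st b * (n * p) * a := by simp only [mul_assoc]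
      _ = 0 := by rw [hnp, mul_zero, zero_mul]
  have hoa : o * a = a := by rw [← hpa, ← mul_assoc, hop]
  have hob : o * b = b := by rw [← hnb, ← mul_assoc, hon]
  have hao : a * o = a := by rw [← hap, mul_assoc, hpo]
  have hbo : b * o = b := by rw [← hbn, mul_assoc, hno]
  set R₀ := q + a + b with hR₀
  have hR₀st : st R₀ * R₀ = q + o * h := by
    rw [hR₀, st_add, st_add, hstq]
    simp only [add_mul, mul_add]
    rw [hqq, hqa, hqb, hsaq, hsa, hsab, hsbq, hsba, hsb, ← hpno, add_mul]
    abel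
  have hqh : h * q = q * h := (hcT _ (T.sub_mem T.one_mem hoT) _ hhT).symm
  have hZ : (1 - o) * h + o = q * h + o := rfl
  have hZR : (q * h + o) * R₀ = q * h + a + b := by
    rw [hR₀]
    simp only [add_mul, mul_add]
    have e1 : q * h * q = q * h := by rw [mul_assoc, hqh, ← mul_assoc, hqq]
    have e2 : q * h * a = 0 := by rw [← hqh, mul_assoc, hqa, mul_zero]
    have e3 : q * h * b = 0 := by rw [← hqh, mul_assoc, hqb, mul_zero]
    rw [e1, e2, e3, hoq, hoa, hob]
    abel
  have hRZ : R₀ * (q * h + o) = q * h + a + b := by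
    rw [hR₀]
    simp only [add_mul, mul_add]
    rw [← mul_assoc, ← mul_assoc, ← mul_assoc, hqq, hqo, haq, hao, hbq, hbo]
    simp
    abel
  have hcommZ : (q * h + o) * R₀ = R₀ * (q * h + o) := by rw [hZR, hRZ]
  have hfinal : (q + o * h) * (q * h + o) = h := by
    simp only [add_mul, mul_add]
    have e1 : o * h * (q * h) = 0 := by
      rw [mul_assoc, ← mul_assoc h, hqh, mul_assoc, ← mul_assoc o, hoq, zero_mul]
    have e2 : o * h * o = o * h := by
      rw [mul_assoc, (hcT _ hhT _ hoT), ← mul_assoc, hoo]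
    rw [← mul_assoc q q h, hqq, hqo, e1, e2, hq]
    noncomm_ring
  refine ⟨r * R₀, ?_, ?_⟩
  · rw [st_mul]
    calc st R₀ * st r * (r * R₀) = st R₀ * (st r * r * R₀) := by simp only [mul_assoc]
      _ = st R₀ * ((q * h + o) * R₀) := by rw [show st r * r = q * h + o from hr]
      _ = (st R₀ * R₀) * (q * h + o) := by rw [hcommZ]; simp only [mul_assoc]
      _ = h := by rw [hR₀st, hfinal]
  · apply hrA.mul_left
    have h1 : Commute q A := hcT _ (T.sub_mem T.one_mem hoT) _ hAT
    have h2' : Commute a A := by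
      show a * A = A * a
      calc a * A = a * (p * A) := by rw [← mul_assoc, hap]
        _ = a := by rw [hpA, hap]
        _ = p * a := hpa.symm
        _ = (A * p) * a := by rw [hAp]
        _ = A * a := by rw [mul_assoc, hpa]
    have h3 : Commute b A := by
      show b * A = A * b
      calc b * A = b * (n * A) := by rw [← mul_assoc, hbn]
        _ = - b := by rw [hnA, mul_neg, hbn]
        _ = - (n * b) := by rw [hnb]
        _ = (A * n) * b := by rw [hAn, neg_mul]
        _ = A * b := by rw [mul_assoc, hnb]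
    exact (h1.add_left h2').add_left h3

/-- Elements of order prime to the characteristic conjugate in `GL` are conjugate in `Sp`. -/
theorem sp_conj [Fintype F] {p : ℕ} [Fact p.Prime] [CharP F p] (A B : Matrix.symplecticGroup (Fin m) F)
    (hA : (orderOf A).Coprime p) (h : IsConj (A : Matrix (Ix m) (Ix m) F) (B : Matrix (Ix m) (Ix m) F)) : IsConj A B := by
  classical
  have hp := (Fact.out : p.Prime)
  obtain ⟨c, hc⟩ := h
  set a : Matrix (Ix m) (Ix m) F := A.1 with ha
  set b : Matrix (Ix m) (Ix m) F := B.1 with hb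
  set G : Matrix (Ix m) (Ix m) F := c.1 with hG
  set Gi : Matrix (Ix m) (Ix m) F := (c⁻¹).1 with hGi
  have hGGi : G * Gi = 1 := c.mul_inv
  have hGiG : Gi * G = 1 := c.inv_mul
  have hGa : G * a = b * G := hc
  have hsa : st a * a = 1 := (mem_sp_iff a).1 A.2
  have hsb : st b * b = 1 := (mem_sp_iff b).1 B.2
  have has : a * st a = 1 := mul_eq_one_comm.1 hsa
  set h := st G * G with hh
  have hStar : st G * b = a * st G := by
    have h1 : st a * st G = st G * st b := by
      rw [← st_mul, ← st_mul, hGa]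
    calc st G * b = (a * st a) * st G * b := by rw [has, one_mul]
      _ = a * (st a * st G) * b := by simp only [mul_assoc]
      _ = a * (st G * st b) * b := by rw [h1]
      _ = a * st G * (st b * b) := by simp only [mul_assoc]
      _ = a * st G := by rw [hsb, mul_one]
  have hcomm : Commute h a := by
    show st G * G * a = a * (st G * G)
    calc st G * G * a = st G * (G * a) := by rw [mul_assoc]
      _ = st G * (b * G) := by rw [hGa]
      _ = (st G * b) * G := by rw [mul_assoc]
      _ = a * st G * G := by rw [hStar]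
      _ = a * (st G * G) := by rw [mul_assoc]
  have hSh : st h = h := by
    rw [hh, st_mul, st_st]
  set w := Gi * st Gi with hw
  have hhw : h * w = 1 := by
    calc h * w = st G * (G * Gi) * st Gi := by rw [hh, hw]; simp only [mul_assoc]
      _ = st (Gi * G) := by rw [hGGi, mul_one, st_mul]
      _ = 1 := by rw [hGiG, st_one]
  have hwh : w * h = 1 := mul_eq_one_comm.1 hhw
  have halt : ∀ x, fm x (h *ᵥ x) = 0 := by
    intro x
    rw [hh, ← Matrix.mulVec_mulVec, ← fm_adj]
    exact Cfsg.Agent.Lib.JordanForm.J_alt _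
  set d := orderOf A with hd
  have hAd : a ^ d = 1 := by
    have h1 : A ^ d = 1 := pow_orderOf_eq_one A
    have h2 := congrArg Subtype.val h1
    simpa using h2
  have hdne : (d : F) ≠ 0 := by
    intro h0
    have h1 := (CharP.cast_eq_zero_iff F p d).1 h0
    have h2 : p ∣ Nat.gcd d p := Nat.dvd_gcd h1 dvd_rfl
    rw [hA] at h2
    exact hp.one_lt.ne' (Nat.dvd_one.1 h2)
  have h2odd : (2 : F) = 0 → Odd d := by
    intro h20
    have h1 : ((2 : ℕ) : F) = 0 := by exact_mod_cast h20
    have h3 := (CharP.cast_eq_zero_iff F p 2).1 h1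
    have h4 : p = 2 := (Nat.prime_dvd_prime_iff_eq hp Nat.prime_two).1 h3
    rw [h4] at hA
    exact Nat.Coprime.odd_of_right hA
  obtain ⟨R, hR, hRA⟩ := exists_total a h w hdne hAd h2odd hsa hSh hcomm hhw halt
  set s := w * st R with hs
  have hsR : s * R = 1 := by
    rw [hs, mul_assoc, hR, hwh]
  have hRs : R * s = 1 := mul_eq_one_comm.1 hsR
  have hsa' : s * a = a * s := by
    calc s * a = s * (a * (R * s)) := by rw [hRs, mul_one]
      _ = s * (a * R * s) := by rw [mul_assoc a]
      _ = s * (R * a * s) := by rw [hRA.eq.symm]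
      _ = (s * R) * (a * s) := by simp only [mul_assoc]
      _ = a * s := by rw [hsR, one_mul]
  have hmem : G * s ∈ Matrix.symplecticGroup (Fin m) F := by
    rw [mem_sp_iff, st_mul]
    calc st s * st G * (G * s) = st s * (st G * G) * s := by simp only [mul_assoc]
      _ = st s * (st R * R) * s := by rw [hR]
      _ = (st s * st R) * (R * s) := by simp only [mul_assoc]
      _ = 1 := by rw [← st_mul, hRs, st_one, mul_one]
  let c' : Matrix.symplecticGroup (Fin m) F := ⟨G * s, hmem⟩
  refine isConj_iff.2 ⟨c', ?_⟩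
  rw [mul_inv_eq_iff_eq_mul]
  apply Subtype.ext
  show G * s * a = b * (G * s)
  calc G * s * a = G * (s * a) := mul_assoc ..
    _ = G * (a * s) := by rw [hsa']
    _ = (G * a) * s := (mul_assoc ..).symm
    _ = b * G * s := by rw [hGa]
    _ = b * (G * s) := mul_assoc ..

end main

end Cfsg.Agent.Lib.SpSemi
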