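/-
Characteristic polynomials of semisimple symplectic matrices.
-/
import Mathlib
import Cfsg.Agent.Lib.GUSimilar
import Cfsg.Agent.Lib.SpSemi
import Cfsg.Agent.Lib.GLClass
import Cfsg.Agent.Lib.JordanForm

set_option autoImplicit false
set_option linter.all false

open scoped Matrix
open Matrix

namespace Cfsg.Agent.Lib.SpCount

open Cfsg.Agent.Lib.NormRing Cfsg.Agent.Lib.GUSimilar

universe u

variable {F : Type u} [Field F] [Fintype F] {ι : Type} [Fintype ι] [DecidableEq ι]

/-- A matrix preserving a nondegenerate bilinear form and with `A - A⁻¹` invertible preserves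
a nondegenerate alternating form. -/
theorem exists_alt (A Ai P PI z : Matrix ι ι F) (hAi : A * Ai = 1) (hPI : P * PI = 1) (hAP : Aᵀ * P * A = P)
    (hz : (A - Ai) * z = 1) :
    ∃ H HI : Matrix ι ι F, (∀ x, x ⬝ᵥ (H *ᵥ x) = 0) ∧ H * HI = 1 ∧ Aᵀ * H * A = H := by
  classical
  have hIP : PI * P = 1 := mul_eq_one_comm.1 hPI
  have hAiA : Ai * A = 1 := mul_eq_one_comm.1 hAi
  obtain ⟨PS, hPS⟩ : ∃ PS, PS = Pᵀ := ⟨_, rfl⟩
  obtain ⟨PSI, hPSI⟩ : ∃ PSI, PSI = PIᵀ := ⟨_, rfl⟩
  have hPSPSI : PS * PSI = 1 := by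
    rw [hPS, hPSI, ← Matrix.transpose_mul, hIP, Matrix.transpose_one]
  have hPSIPS : PSI * PS = 1 := mul_eq_one_comm.1 hPSPSI
  obtain ⟨E, hE⟩ : ∃ E, E = PI * PS := ⟨_, rfl⟩
  obtain ⟨Ei, hEi⟩ : ∃ Ei, Ei = PSI * P := ⟨_, rfl⟩
  have hEEi : E * Ei = 1 := by
    rw [hE, hEi]
    calc PI * PS * (PSI * P) = PI * (PS * PSI) * P := by simp only [mul_assoc]
      _ = 1 := by rw [hPSPSI, mul_one, hIP]
  have hEiE : Ei * E = 1 := mul_eq_one_comm.1 hEEi
  let τ : Matrix ι ι F →+ Matrix ι ι F :=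
    { toFun := fun X => PI * Xᵀ * P
      map_zero' := by simp
      map_add' := fun X Y => by simp [mul_add, add_mul, Matrix.transpose_add] }
  have hτ : ∀ X, τ X = PI * Xᵀ * P := fun X => rfl
  have hτ1 : τ 1 = 1 := by rw [hτ, Matrix.transpose_one, mul_one, hIP]
  have hτm : ∀ a b, τ (a * b) = τ b * τ a := by
    intro a b
    rw [hτ, hτ, hτ, Matrix.transpose_mul]
    calc PI * (bᵀ * aᵀ) * P = PI * bᵀ * (P * PI) * aᵀ * P := by rw [hPI, mul_one]; simp only [mul_assoc]
      _ = _ := by simp only [mul_assoc]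
  have hττ : ∀ X, τ (τ X) = E * X * Ei := by
    intro X
    rw [hτ, hτ, Matrix.transpose_mul, Matrix.transpose_mul, Matrix.transpose_transpose, hE, hEi, hPS, hPSI]
    simp only [mul_assoc]
  have hτE : τ E = Ei := by
    rw [hτ, hE, Matrix.transpose_mul, hPS, Matrix.transpose_transpose, hEi, hPSI]
    calc PI * (P * PIᵀ) * P = (PI * P) * PIᵀ * P := by simp only [mul_assoc]
      _ = _ := by rw [hIP, one_mul]
  have hτEi : τ Ei = E := by
    rw [hτ, hEi, Matrix.transpose_mul, hPSI, Matrix.transpose_transpose, hE, hPS]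
    calc PI * (Pᵀ * PI) * P = PI * Pᵀ * (PI * P) := by simp only [mul_assoc]
      _ = _ := by rw [hIP, mul_one]
  have hSAP : Aᵀ * PS * A = PS := by
    have h1 := congrArg Matrix.transpose hAP
    rw [Matrix.transpose_mul, Matrix.transpose_mul, Matrix.transpose_transpose] at h1
    rw [← mul_assoc] at h1
    rw [hPS]
    exact h1
  have hAPI : A * PI * Aᵀ = PI := by
    have h1 : A * PI * Aᵀ * P = 1 := by
      calc A * PI * Aᵀ * P = A * PI * Aᵀ * P * (A * Ai) := by rw [hAi, mul_one]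
        _ = A * PI * (Aᵀ * P * A) * Ai := by simp only [mul_assoc]
        _ = A * (PI * P) * Ai := by rw [hAP]; simp only [mul_assoc]
        _ = 1 := by rw [hIP, mul_one, hAi]
    calc A * PI * Aᵀ = A * PI * Aᵀ * (P * PI) := by rw [hPI, mul_one]
      _ = (A * PI * Aᵀ * P) * PI := by simp only [mul_assoc]
      _ = PI := by rw [h1, one_mul]
  have hAE : Commute A E := by
    show A * E = E * A
    calc A * E = A * PI * PS := by rw [hE, mul_assoc]
      _ = A * PI * (Aᵀ * PS * A) := by rw [hSAP]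
      _ = (A * PI * Aᵀ) * PS * A := by simp only [mul_assoc]
      _ = E * A := by rw [hAPI, hE]
  have hinvc : ∀ {a b x : Matrix ι ι F}, a * b = 1 → b * a = 1 → Commute x a → Commute x b := by
    intro a b x h1 h2 hc
    show x * b = b * x
    calc x * b = (b * a) * x * b := by rw [h2, one_mul]
      _ = b * (a * x) * b := by simp only [mul_assoc]
      _ = b * (x * a) * b := by rw [hc.eq]
      _ = b * x * (a * b) := by simp only [mul_assoc]
      _ = b * x := by rw [h1, mul_one]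
  have hAEi : Commute A Ei := hinvc hEEi hEiE hAE
  have hAiE : Commute Ai E := (hinvc hAi hAiA hAE.symm).symm
  have hAiEi : Commute Ai Ei := (hinvc hAi hAiA hAEi.symm).symm
  have hAAi : Commute A Ai := by
    show A * Ai = Ai * A
    rw [hAi, hAiA]
  have hτA : τ A = Ai := by
    have h1 : τ A * A = 1 := by
      rw [hτ]
      calc PI * Aᵀ * P * A = PI * (Aᵀ * P * A) := by simp only [mul_assoc]
        _ = 1 := by rw [hAP, hIP]
    calc τ A = τ A * (A * Ai) := by rw [hAi, mul_one]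
      _ = (τ A * A) * Ai := (mul_assoc ..).symm
      _ = Ai := by rw [h1, one_mul]
  have hτAi : τ Ai = A := by
    have h1 := hττ A
    rw [hτA] at h1
    rw [h1, ← hAE.eq, mul_assoc, hEEi, mul_one]
  let S₀ : Set (Matrix ι ι F) := {E, Ei, A, Ai}
  have hcommEEi : Commute E Ei := by
    show E * Ei = Ei * E
    rw [hEEi, hEiE]
  have hs : ∀ a ∈ S₀, ∀ b ∈ S₀, Commute a b := by
    rintro a (rfl | rfl | rfl | rfl) b (rfl | rfl | rfl | rfl)
    · exact Commute.refl _
    · exact hcommEEi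
    · exact hAE.symm
    · exact hAiE.symm
    · exact hcommEEi.symm
    · exact Commute.refl _
    · exact hAEi.symm
    · exact hAiEi.symm
    · exact hAE
    · exact hAEi
    · exact Commute.refl _
    · exact hAAi
    · exact hAiE
    · exact hAiEi
    · exact hAAi.symm
    · exact Commute.refl _
  let T : Subring (Matrix ι ι F) := biC S₀
  have hcT : ∀ a ∈ T, ∀ b ∈ T, a * b = b * a := biC_comm hs
  have hET : E ∈ T := self_mem_biC (by simp [S₀])
  have hEiT : Ei ∈ T := self_mem_biC (by simp [S₀])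
  have hAT : A ∈ T := self_mem_biC (by simp [S₀])
  have hAiT : Ai ∈ T := self_mem_biC (by simp [S₀])
  have hττc : ∀ y, (∀ a ∈ S₀, Commute y a) → τ (τ y) = y := by
    intro y hy
    rw [hττ]
    have h1 : Commute y E := hy _ (by simp [S₀])
    calc E * y * Ei = y * (E * Ei) := by rw [← h1.eq]; simp only [mul_assoc]
      _ = y := by rw [hEEi, mul_one]
  have hτc : ∀ y, (∀ a ∈ S₀, Commute y a) → ∀ a ∈ S₀, Commute (τ y) a := by
    intro y hy a ha
    rcases ha with rfl | rfl | rfl | rfl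
    · have h1 : Commute y Ei := hy _ (by simp [S₀])
      have h2 := congrArg τ h1.eq
      rw [hτm, hτm, hτEi] at h2
      exact h2.symm
    · have h1 : Commute y E := hy _ (by simp [S₀])
      have h2 := congrArg τ h1.eq
      rw [hτm, hτm, hτE] at h2
      exact h2.symm
    · have h1 : Commute y Ai := hy _ (by simp [S₀])
      have h2 := congrArg τ h1.eq
      rw [hτm, hτm, hτAi] at h2
      exact h2.symm
    · have h1 : Commute y A := hy _ (by simp [S₀])
      have h2 := congrArg τ h1.eq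
      rw [hτm, hτm, hτA] at h2
      exact h2.symm
  have hTτ : ∀ x ∈ T, τ x ∈ T := by
    intro x hx y hy
    have h1 : Commute x (τ y) := hx _ (hτc y hy)
    have h2 := congrArg τ h1.eq
    rw [hτm, hτm, hττc y hy] at h2
    exact h2.symm
  have hττT : ∀ x ∈ T, τ (τ x) = x := by
    intro x hx
    rw [hττ]
    calc E * x * Ei = x * (E * Ei) := by rw [hcT _ hET _ hx]; simp only [mul_assoc]
      _ = x := by rw [hEEi, mul_one]
  have hzT : z ∈ T := by
    have hzl : z * (A - Ai) = 1 := mul_eq_one_comm.1 hz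
    exact inv_mem_biC (T.sub_mem hAT hAiT) hz hzl
  have hθz : (A - τ A) * z = 1 := by rw [hτA, hz]
  have hEE : (-E) * τ (-E) = 1 := by
    rw [map_neg, hτE, neg_mul_neg, hEEi]
  obtain ⟨c, hcT', v, hvT, hv⟩ := hilbert90_in_subring T hcT τ hτ1 (fun a _ b _ => hτm a b) hττT hTτ
    hAT hzT hθz (T.neg_mem hET) hEE
  have hcA : Commute c A := hcT' A (by
    intro a ha
    exact hs A (by simp [S₀]) a ha)
  obtain ⟨H, hH⟩ : ∃ H, H = P * c - cᵀ * PS := ⟨_, rfl⟩
  have hHu : H = P * (c + (-E) * τ c) := by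
    have h1 : E * τ c = τ c * E := hcT _ hET _ (hTτ _ hcT')
    rw [neg_mul, mul_add, mul_neg, h1, hH, hτ, hE, sub_eq_add_neg]
    congr 2
    calc cᵀ * PS = (P * PI) * cᵀ * ((P * PI) * PS) := by rw [hPI, one_mul, one_mul]
      _ = _ := by simp only [mul_assoc]
  refine ⟨H, v * PI, ?_, ?_, ?_⟩
  · intro x
    have h1 : cᵀ * PS = (P * c)ᵀ := by rw [Matrix.transpose_mul, hPS]
    rw [hH, h1, Matrix.sub_mulVec, dotProduct_sub, Matrix.dotProduct_mulVec x (P * c)ᵀ, Matrix.vecMul_transpose,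
      dotProduct_comm, sub_self]
  · rw [hHu]
    calc P * (c + (-E) * τ c) * (v * PI) = P * ((c + (-E) * τ c) * v) * PI := by simp only [mul_assoc]
      _ = 1 := by rw [hv, mul_one, hPI]
  · rw [hH]
    have e1 : Aᵀ * (P * c) * A = P * c := by
      calc Aᵀ * (P * c) * A = Aᵀ * P * (c * A) := by simp only [mul_assoc]
        _ = Aᵀ * P * (A * c) := by rw [hcA.eq]
        _ = (Aᵀ * P * A) * c := by simp only [mul_assoc]
        _ = P * c := by rw [hAP]
    have e2 : Aᵀ * (cᵀ * PS) * A = cᵀ * PS := by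
      have h1 : Aᵀ * cᵀ = cᵀ * Aᵀ := by
        rw [← Matrix.transpose_mul, ← Matrix.transpose_mul, hcA.eq]
      calc Aᵀ * (cᵀ * PS) * A = (Aᵀ * cᵀ) * PS * A := by simp only [mul_assoc]
        _ = cᵀ * (Aᵀ * PS * A) := by rw [h1]; simp only [mul_assoc]
        _ = cᵀ * PS := by rw [hSAP]
    rw [mul_sub, sub_mul, e1, e2]

open Cfsg.Agent.Lib.SpRegUnip Cfsg.Agent.Lib.SpRegUnip2 in
/-- Transport to the standard symplectic form. -/
theorem exists_sp_conj {n : ℕ} (A Ai P PI z : Matrix (Ix n) (Ix n) F) (hAi : A * Ai = 1) (hPI : P * PI = 1)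
    (hAP : Aᵀ * P * A = P) (hz : (A - Ai) * z = 1) :
    ∃ R Ri : Matrix (Ix n) (Ix n) F, R * Ri = 1 ∧ R * A * Ri ∈ Matrix.symplecticGroup (Fin n) F := by
  classical
  obtain ⟨H, HI, halt, hHI, hAH⟩ := exists_alt A Ai P PI z hAi hPI hAP hz
  have hIH : HI * H = 1 := mul_eq_one_comm.1 hHI
  obtain ⟨J', hJ'⟩ : ∃ J', J' = J (Fin n) F := ⟨_, rfl⟩
  have hJJ : J' * J' = -1 := by rw [hJ']; exact J_squared _ _
  obtain ⟨h, hh⟩ : ∃ h, h = -(J' * H) := ⟨_, rfl⟩
  have hJh : J' * h = H := by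
    rw [hh, mul_neg, ← mul_assoc, hJJ]
    simp
  obtain ⟨Hi, hHi⟩ : ∃ Hi, Hi = HI * J' := ⟨_, rfl⟩
  have hhHi : h * Hi = 1 := by
    rw [hh, hHi]
    calc -(J' * H) * (HI * J') = -(J' * (H * HI) * J') := by simp only [mul_assoc, neg_mul]
      _ = 1 := by rw [hHI, mul_one, hJJ, neg_neg]
  have hHih : Hi * h = 1 := mul_eq_one_comm.1 hhHi
  have halt' : ∀ x, fm x (h *ᵥ x) = 0 := by
    intro x
    unfold fm
    rw [← hJ', Matrix.mulVec_mulVec, hJh]
    exact halt x
  obtain ⟨R, -, -, hR⟩ := Cfsg.Agent.Lib.SpSemi.exists_R (π := 1) (h := h) (Hi := Hi) (one_mul 1) st_one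
    (by rw [one_mul, mul_one]) hhHi halt'
  rw [one_mul] at hR
  obtain ⟨Ri, hRi⟩ : ∃ Ri, Ri = Hi * st R := ⟨_, rfl⟩
  have hRiR : Ri * R = 1 := by
    rw [hRi, mul_assoc, hR, hHih]
  have hRRi : R * Ri = 1 := mul_eq_one_comm.1 hRiR
  refine ⟨R, Ri, hRRi, ?_⟩
  rw [mem_sp_iff, st_mul, st_mul]
  have hsAh : st A * h * A = h := by
    unfold st
    rw [← hJ', hh]
    calc -(J' * Aᵀ * J') * -(J' * H) * A = J' * Aᵀ * (J' * J') * H * A := by
          simp only [mul_assoc, neg_mul, mul_neg, neg_neg]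
      _ = -(J' * (Aᵀ * H * A)) := by rw [hJJ]; simp only [mul_assoc, neg_mul, mul_neg, mul_one, one_mul]
      _ = -(J' * H) := by rw [hAH]
  calc st Ri * (st A * st R) * (R * A * Ri) = st Ri * (st A * (st R * R) * A) * Ri := by simp only [mul_assoc]
    _ = st Ri * h * Ri := by rw [hR, hsAh]
    _ = st Ri * (st R * R) * Ri := by rw [hR]
    _ = st (R * Ri) * (R * Ri) := by rw [st_mul]; simp only [mul_assoc]
    _ = 1 := by rw [hRRi, st_one, one_mul]

theorem cp_sub {α β : Type*} [Fintype α] [DecidableEq α] [Fintype β] [DecidableEq β] (e : α ≃ β) (M : Matrix β β F) :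
    (M.submatrix e e).charpoly = M.charpoly := by
  have h := Matrix.charpoly_reindex e.symm M
  simpa [Matrix.reindex] using h

theorem pow_sub {α β : Type*} [Fintype α] [DecidableEq α] [Fintype β] [DecidableEq β] (e : α ≃ β) (M : Matrix β β F) (k : ℕ) :
    (M.submatrix e e) ^ k = (M ^ k).submatrix e e := by
  induction k with
  | zero => simp
  | succ k ih => rw [pow_succ, ih, pow_succ, Matrix.submatrix_mul_equiv]

theorem pow_blocks {α β : Type*} [Fintype α] [DecidableEq α] [Fintype β] [DecidableEq β] (a : Matrix α α F) (b : Matrix β β F) (k : ℕ) :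
    (fromBlocks a 0 0 b) ^ k = fromBlocks (a ^ k) 0 0 (b ^ k) := by
  induction k with
  | zero => simp
  | succ k ih => rw [pow_succ, ih, Matrix.fromBlocks_multiply]; simp [pow_succ]

variable {p : ℕ} [Fact p.Prime] [CharP F p]

open Cfsg.Agent.Lib.SpRegUnip in
theorem conj_ix {n : ℕ} (X Xi Y Yi : Matrix (Ix n) (Ix n) F) (hX : X * Xi = 1) (hY : Y * Yi = 1) {N M : ℕ}
    (hN : N.Coprime p) (hM : M.Coprime p) (hXN : X ^ N = 1) (hYM : Y ^ M = 1) (h : X.charpoly = Y.charpoly) :
    ∃ c ci : Matrix (Ix n) (Ix n) F, c * ci = 1 ∧ c * X = Y * c := by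
  classical
  let e : Ix n ≃ Fin (n + n) := finSumFinEquiv
  let ρ := Matrix.reindexAlgEquiv F F e
  let u : GL (Fin (n + n)) F := ⟨ρ X, ρ Xi, by rw [← map_mul, hX, map_one], by rw [← map_mul, mul_eq_one_comm.1 hX, map_one]⟩
  let v : GL (Fin (n + n)) F := ⟨ρ Y, ρ Yi, by rw [← map_mul, hY, map_one], by rw [← map_mul, mul_eq_one_comm.1 hY, map_one]⟩
  have hu : u ^ N = 1 := by
    apply Units.ext
    show (ρ X) ^ N = 1
    rw [← map_pow, hXN, map_one]
  have hv : v ^ M = 1 := by
    apply Units.ext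
    show (ρ Y) ^ M = 1
    rw [← map_pow, hYM, map_one]
  have hchu : (u : Matrix (Fin (n + n)) (Fin (n + n)) F).charpoly = X.charpoly := Matrix.charpoly_reindex e _
  have hchv : (v : Matrix (Fin (n + n)) (Fin (n + n)) F).charpoly = Y.charpoly := Matrix.charpoly_reindex e _
  have hconj := Cfsg.Agent.Lib.GLClass.conj_of_charpoly (p := p) u v
    (Nat.Coprime.coprime_dvd_left (orderOf_dvd_of_pow_eq_one hu) hN)
    (Nat.Coprime.coprime_dvd_left (orderOf_dvd_of_pow_eq_one hv) hM) (by rw [hchu, hchv, h])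
  obtain ⟨c, hc⟩ := isConj_iff.1 hconj
  have hc2 : (c : Matrix (Fin (n + n)) (Fin (n + n)) F) * ρ X = ρ Y * (c : Matrix (Fin (n + n)) (Fin (n + n)) F) := by
    have h1 : c * u = v * c := by rw [← hc]; group
    exact congrArg Units.val h1
  refine ⟨ρ.symm c.1, ρ.symm (c⁻¹).1, ?_, ?_⟩
  · rw [← map_mul, c.mul_inv, map_one]
  · apply ρ.injective
    rw [map_mul, map_mul, AlgEquiv.apply_symm_apply]
    exact hc2

open Cfsg.Agent.Lib.SpRegUnip in
theorem exists_ix {n : ℕ} (f : Polynomial F) (hf : f.Monic) (hd : f.natDegree = n + n) (h0 : f.coeff 0 ≠ 0) :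
    ∃ (X Xi : Matrix (Ix n) (Ix n) F) (N : ℕ), X * Xi = 1 ∧ X.charpoly = f ∧ N.Coprime p ∧ X ^ N = 1 := by
  classical
  obtain ⟨x, hx, hxo⟩ := Cfsg.Agent.Lib.GLClass.exists_element (p := p) f hf hd h0
  let e : Ix n ≃ Fin (n + n) := finSumFinEquiv
  let ρ := Matrix.reindexAlgEquiv F F e
  refine ⟨ρ.symm x.1, ρ.symm (x⁻¹).1, orderOf x, ?_, ?_, hxo, ?_⟩
  · rw [← map_mul, x.mul_inv, map_one]
  · rw [← hx]
    exact Matrix.charpoly_reindex e.symm _
  · rw [← map_pow, ← Units.val_pow_eq_pow_val, pow_orderOf_eq_one, Units.val_one, map_one]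

open Polynomial Cfsg.Agent.Lib.SpRegUnip in
/-- Elements with given characteristic polynomial without eigenvalues `±1`. -/
theorem exists_sp_of_coprime {n : ℕ} (f : F[X]) (hm : f.Monic) (hd : f.natDegree = n + n) (hrev : f.reverse = f)
    (hc : IsCoprime f (X ^ 2 - 1)) :
    ∃ g : Matrix (Ix n) (Ix n) F, g ∈ Matrix.symplecticGroup (Fin n) F ∧ g.charpoly = f ∧ ∃ N : ℕ, N.Coprime p ∧ g ^ N = 1 := by
  classical
  have h0 : f.coeff 0 = 1 := by
    rw [← hrev, Polynomial.coeff_zero_reverse]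
    exact hm.leadingCoeff
  obtain ⟨A, Ai, N, hAi, hch, hN, hAN⟩ := exists_ix (p := p) f hm hd (by rw [h0]; exact one_ne_zero)
  have hAiA : Ai * A = 1 := mul_eq_one_comm.1 hAi
  have hAc : Commute Ai A := by
    show Ai * A = A * Ai
    rw [hAi, hAiA]
  have hAiN : Ai ^ N = 1 := by
    calc Ai ^ N = Ai ^ N * A ^ N := by rw [hAN, mul_one]
      _ = (Ai * A) ^ N := (hAc.mul_pow N).symm
      _ = 1 := by rw [hAiA, one_pow]
  have hBN : Aiᵀ ^ N = 1 := by
    rw [← Matrix.transpose_pow, hAiN, Matrix.transpose_one]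
  have hBB : Aiᵀ * Aᵀ = 1 := by
    rw [← Matrix.transpose_mul, hAi, Matrix.transpose_one]
  have hdet : A.det = 1 := by
    rw [Matrix.det_eq_sign_charpoly_coeff, hch, h0]
    simp [Fintype.card_sum]
  have hinv : A⁻¹ = Ai := Matrix.inv_eq_right_inv hAi
  have hcpi : Ai.charpoly = f := by
    have h1 := Matrix.charpoly_inv A ((Matrix.isUnit_iff_isUnit_det A).2 (by rw [hdet]; exact isUnit_one))
    rw [hinv, ← Matrix.reverse_charpoly, hch, hrev] at h1
    rw [h1]
    have h2 : Ring.inverse A.det = 1 := by rw [hdet]; simp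
    rw [h2]
    simp [Fintype.card_sum]
  have hcpB : Aiᵀ.charpoly = f := by
    rw [Matrix.charpoly_transpose, hcpi]
  obtain ⟨c, ci, hcci, hcA⟩ := conj_ix (p := p) A Ai Aiᵀ Aᵀ hAi hBB hN hN hAN hBN (by rw [hch, hcpB])
  have hAP : Aᵀ * c * A = c := by
    calc Aᵀ * c * A = Aᵀ * (c * A) := mul_assoc ..
      _ = (Aᵀ * Aiᵀ) * c := by rw [hcA, mul_assoc]
      _ = c := by rw [← Matrix.transpose_mul, hAiA, Matrix.transpose_one, one_mul]
  obtain ⟨u, v, huv⟩ := hc
  have hv : aeval A v * (A ^ 2 - 1) = 1 := by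
    have h1 := congrArg (aeval A) huv
    rw [map_add, map_mul, map_mul, map_one, map_sub, map_pow, aeval_X, map_one] at h1
    have h2 : aeval A f = 0 := by
      rw [← hch]
      exact Matrix.aeval_self_charpoly A
    rwa [h2, mul_zero, zero_add] at h1
  have hv' : (A ^ 2 - 1) * aeval A v = 1 := mul_eq_one_comm.1 hv
  have hz : (A - Ai) * (A * aeval A v) = 1 := by
    rw [← mul_assoc, sub_mul, hAiA, ← pow_two]
    exact hv'
  obtain ⟨R, Ri, hRRi, hg⟩ := exists_sp_conj A Ai c ci _ hAi hcci hAP hz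
  refine ⟨R * A * Ri, hg, ?_, N, hN, ?_⟩
  · let U : (Matrix (Ix n) (Ix n) F)ˣ := ⟨R, Ri, hRRi, mul_eq_one_comm.1 hRRi⟩
    have := Matrix.charpoly_units_conj U A
    have h3 : R⁻¹ = Ri := Matrix.inv_eq_right_inv hRRi
    rw [← hch, ← h3]
    exact this
  · let U : (Matrix (Ix n) (Ix n) F)ˣ := ⟨R, Ri, hRRi, mul_eq_one_comm.1 hRRi⟩
    have h1 := Units.conj_pow U A N
    have h2 : (R * A * Ri) ^ N = R * A ^ N * Ri := h1
    rw [h2, hAN, mul_one, hRRi]

open Polynomial in
theorem rev_X_sub (ε : F) (hε : ε * ε = 1) : reverse (X - C ε) = C (-ε) * (X - C ε) := by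
  ext k
  rw [coeff_reverse, natDegree_X_sub_C, coeff_C_mul]
  rcases k with _ | _ | k
  · simp [revAt_le, coeff_X, coeff_C, hε]
  · simp [revAt_le, coeff_X, coeff_C]
  · have h : revAt 1 (k + 2) = k + 2 := revAt_eq_self_of_lt (by omega)
    rw [h]
    simp [coeff_X, coeff_C]

open Polynomial in
/-- Odd degree palindromic polynomials in characteristic two vanish at one. -/
theorem eval_one_of_odd (h2 : (2 : F) = 0) (g : F[X]) (hg : reverse g = g) (hd : Odd g.natDegree) : eval 1 g = 0 := by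
  classical
  rw [eval_eq_sum_range]
  simp only [one_pow, mul_one]
  set d := g.natDegree with hdd
  have hsym : ∀ i ∈ Finset.range (d + 1), g.coeff i = g.coeff (d - i) := by
    intro i hi
    have hi' : i ≤ d := Nat.lt_succ_iff.1 (Finset.mem_range.1 hi)
    conv_lhs => rw [← hg, coeff_reverse, revAt_le (by rwa [← hdd])]
  refine Finset.sum_involution (fun i _ => d - i) ?_ ?_ ?_ ?_
  · intro i hi
    rw [← hsym i hi, ← two_mul, h2, zero_mul]
  · intro i hi _ h
    obtain ⟨k, hk⟩ := hd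
    have hi' : i ≤ d := Nat.lt_succ_iff.1 (Finset.mem_range.1 hi)
    omega
  · intro i hi
    exact Finset.mem_range.2 (by omega)
  · intro i hi
    have hi' : i ≤ d := Nat.lt_succ_iff.1 (Finset.mem_range.1 hi)
    omega

open Polynomial in
/-- Splitting off a square factor `(X - ε)²` of a palindromic polynomial. -/
theorem pal_factor (ε : F) (hε : ε * ε = 1) {n : ℕ} (f : F[X]) (hm : f.Monic) (hd : f.natDegree = n + n)
    (hrev : f.reverse = f) (hdvd : (X - C ε) ∣ f) :
    ∃ f₂ : F[X], f = (X - C ε) ^ 2 * f₂ ∧ f₂.Monic ∧ f₂.natDegree + 2 = n + n ∧ f₂.reverse = f₂ := by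
  classical
  have hne : (X - C ε : F[X]) ≠ 0 := X_sub_C_ne_zero ε
  obtain ⟨f₁, hf₁⟩ := hdvd
  have hf₁0 : f₁ ≠ 0 := by
    rintro rfl
    rw [mul_zero] at hf₁
    rw [hf₁] at hm
    exact not_monic_zero hm
  have h1 : f₁ = C (-ε) * reverse f₁ := by
    apply mul_left_cancel₀ hne
    rw [← hf₁]
    conv_lhs => rw [← hrev, hf₁, reverse_mul_of_domain, rev_X_sub ε hε]
    ring
  have hd₁ : f₁.natDegree + 1 = n + n := by
    rw [← hd, hf₁, natDegree_mul hne hf₁0, natDegree_X_sub_C]
    ring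
  have hodd : Odd f₁.natDegree := ⟨n - 1, by omega⟩
  have hroot : eval ε f₁ = 0 := by
    by_cases h2 : (2 : F) = 0
    · have hε1 : ε = 1 := by
        have h3 : (ε - 1) * (ε - 1) = 0 := by linear_combination hε - ε * h2 + h2
        have h4 := mul_self_eq_zero.1 h3
        exact sub_eq_zero.1 h4
      subst hε1
      have hneg : (-1 : F) = 1 := by linear_combination -h2
      have hg : reverse f₁ = f₁ := by
        conv_rhs => rw [h1, hneg]
        simp
      exact eval_one_of_odd h2 f₁ hg hodd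
    · letI : Invertible ε := ⟨ε, hε, hε⟩
      have h3 := eval₂_reverse_mul_pow (RingHom.id F) ε f₁
      have hinv : ⅟ε = ε := rfl
      rw [hinv] at h3
      simp only [eval₂_id] at h3
      obtain ⟨k, hk⟩ := hodd
      have h4 : ε ^ f₁.natDegree = ε := by
        rw [hk, pow_succ, pow_mul, sq, hε, one_pow, one_mul]
      rw [h4] at h3
      have h5 := congrArg (eval ε) h1
      rw [eval_mul, eval_C] at h5
      have h6 : 2 * eval ε f₁ = 0 := by
        linear_combination h5 - h3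
      exact (mul_eq_zero.1 h6).resolve_left h2
  obtain ⟨f₂, hf₂⟩ := dvd_iff_isRoot.2 hroot
  have hf₂0 : f₂ ≠ 0 := by
    rintro rfl
    rw [mul_zero] at hf₂
    exact hf₁0 hf₂
  have hf : f = (X - C ε) ^ 2 * f₂ := by
    rw [hf₁, hf₂]
    ring
  refine ⟨f₂, hf, ?_, ?_, ?_⟩
  · rw [hf] at hm
    exact Monic.of_mul_monic_left ((monic_X_sub_C ε).pow 2) hm
  · rw [← hd, hf, natDegree_mul (pow_ne_zero 2 hne) hf₂0, natDegree_pow, natDegree_X_sub_C]
    ring
  · symm
    apply mul_left_cancel₀ hne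
    have h7 : C (-ε) * C (-ε) = (1 : F[X]) := by
      rw [← C_mul, neg_mul_neg, hε, C_1]
    calc (X - C ε) * f₂ = f₁ := hf₂.symm
      _ = C (-ε) * reverse f₁ := h1
      _ = C (-ε) * (C (-ε) * (X - C ε) * reverse f₂) := by rw [hf₂, reverse_mul_of_domain, rev_X_sub ε hε]
      _ = (C (-ε) * C (-ε)) * ((X - C ε) * reverse f₂) := by ring
      _ = (X - C ε) * reverse f₂ := by rw [h7, one_mul]

open Polynomial Cfsg.Agent.Lib.SpRegUnip in
theorem block_step {n' : ℕ} (ε : F) (hε : ε * ε = 1) (g : Matrix (Ix n') (Ix n') F)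
    (hg : g ∈ Matrix.symplecticGroup (Fin n') F) :
    ∃ g' : Matrix (Ix (n' + 1)) (Ix (n' + 1)) F, g' ∈ Matrix.symplecticGroup (Fin (n' + 1)) F ∧
      g'.charpoly = (X - C ε) ^ 2 * g.charpoly ∧ ∀ k : ℕ, ε ^ k = 1 → g ^ k = 1 → g' ^ k = 1 := by
  classical
  let τ : Fin 1 ⊕ Fin n' ≃ Fin (n' + 1) := Fintype.equivOfCardEq (by simp [add_comm])
  let g₁ : Matrix (Ix 1) (Ix 1) F := ε • 1
  have hg₁ : g₁ ∈ Matrix.symplecticGroup (Fin 1) F := by
    rw [SymplecticGroup.mem_iff]
    show ε • (1 : Matrix (Ix 1) (Ix 1) F) * J (Fin 1) F * (ε • (1 : Matrix (Ix 1) (Ix 1) F))ᵀ = _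
    rw [Matrix.transpose_smul, Matrix.transpose_one, Matrix.smul_mul, one_mul, Matrix.mul_smul, mul_one, smul_smul,
      hε, one_smul]
  have h1 := Cfsg.Agent.Lib.JordanForm.dsum_mem hg₁ hg
  have h2 := Cfsg.Agent.Lib.JordanForm.sp_reindex τ h1
  refine ⟨_, h2, ?_, ?_⟩
  · rw [cp_sub, cp_sub, Matrix.charpoly_fromBlocks_zero₁₂]
    congr 1
    show (ε • (1 : Matrix (Ix 1) (Ix 1) F)).charpoly = _
    have h3 : Matrix.charmatrix (ε • (1 : Matrix (Ix 1) (Ix 1) F)) = (X - C ε) • (1 : Matrix (Ix 1) (Ix 1) F[X]) := by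
      ext i j
      by_cases hij : i = j
      · subst hij
        simp [Matrix.charmatrix_apply, Matrix.one_apply]
      · simp [Matrix.charmatrix_apply, Matrix.one_apply, hij]
    rw [Matrix.charpoly, h3, Matrix.det_smul, Matrix.det_one, mul_one]
    simp
  · intro k hk hgk
    rw [pow_sub, pow_sub, pow_blocks, hgk]
    have h3 : g₁ ^ k = 1 := by
      show (ε • (1 : Matrix (Ix 1) (Ix 1) F)) ^ k = 1
      rw [_root_.smul_pow, one_pow, hk, one_smul]
    rw [h3, Matrix.fromBlocks_one]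
    simp

open Polynomial Cfsg.Agent.Lib.SpRegUnip in
/-- Every palindromic polynomial of degree `2n` is the characteristic polynomial of a semisimple
symplectic matrix. -/
theorem exists_sp : ∀ (n : ℕ) (f : F[X]), f.Monic → f.natDegree = n + n → f.reverse = f →
    ∃ g : Matrix (Ix n) (Ix n) F, g ∈ Matrix.symplecticGroup (Fin n) F ∧ g.charpoly = f ∧
      ∃ N : ℕ, N.Coprime p ∧ g ^ N = 1 := by
  classical
  have hp : p.Prime := Fact.out
  intro n
  induction n with
  | zero =>
    intro f hm hd hrev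
    have h1 : f = 1 := eq_one_of_monic_natDegree_zero hm hd
    refine exists_sp_of_coprime (p := p) f hm hd hrev ?_
    rw [h1]
    exact isCoprime_one_left
  | succ n' ih =>
    intro f hm hd hrev
    by_cases h1 : (X - C (1 : F)) ∣ f
    · obtain ⟨f₂, hf, hm₂, hd₂, hrev₂⟩ := pal_factor 1 (one_mul 1) f hm hd hrev h1
      obtain ⟨g, hg, hch, N, hN, hgN⟩ := ih f₂ hm₂ (by omega) hrev₂
      obtain ⟨g', hg', hch', hpk⟩ := block_step 1 (one_mul 1) g hg
      exact ⟨g', hg', by rw [hch', hch, ← hf], N, hN, hpk N (one_pow _) hgN⟩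
    by_cases h2 : (X - C (-1 : F)) ∣ f
    · obtain ⟨f₂, hf, hm₂, hd₂, hrev₂⟩ := pal_factor (-1) (by simp) f hm hd hrev h2
      obtain ⟨g, hg, hch, N, hN, hgN⟩ := ih f₂ hm₂ (by omega) hrev₂
      obtain ⟨g', hg', hch', hpk⟩ := block_step (-1) (by simp) g hg
      have hp2 : p ≠ 2 := by
        intro h
        subst h
        have h3 : (-1 : F) = 1 := by
          have h4 : ((2 : ℕ) : F) = 0 := CharP.cast_eq_zero F 2
          have h5 : (2 : F) = 0 := by exact_mod_cast h4
          linear_combination -h5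
        rw [h3] at h2
        exact h1 h2
      refine ⟨g', hg', by rw [hch', hch, ← hf], 2 * N, ?_, hpk (2 * N) (by simp) (by rw [mul_comm, pow_mul, hgN, one_pow])⟩
      exact Nat.Coprime.mul_left ((Nat.coprime_primes Nat.prime_two hp).2 hp2.symm) hN
    · refine exists_sp_of_coprime (p := p) f hm hd hrev ?_
      have h3 : (X ^ 2 - 1 : F[X]) = (X - C 1) * (X - C (-1)) := by
        rw [C_1, C_neg, C_1]
        ring
      rw [h3]
      apply IsCoprime.mul_right
      · exact ((irreducible_X_sub_C (1 : F)).coprime_iff_not_dvd.2 h1).symm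
      · exact ((irreducible_X_sub_C (-1 : F)).coprime_iff_not_dvd.2 h2).symm

open Polynomial Cfsg.Agent.Lib.SpRegUnip in
/-- Characteristic polynomials of symplectic matrices are palindromic. -/
theorem charpoly_pal {n : ℕ} (g : Matrix (Ix n) (Ix n) F) (hg : g ∈ Matrix.symplecticGroup (Fin n) F) :
    g.charpoly.reverse = g.charpoly := by
  classical
  have hst : st g * g = 1 := (mem_sp_iff g).1 hg
  have hinv : g⁻¹ = st g := Matrix.inv_eq_left_inv hst
  have hdet : g.det = 1 := SymplecticGroup.det_eq_one hg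
  have hJJ : J (Fin n) F * J (Fin n) F = -1 := J_squared _ _
  let U : (Matrix (Ix n) (Ix n) F)ˣ := ⟨J (Fin n) F, - J (Fin n) F, by rw [mul_neg, hJJ, neg_neg], by rw [neg_mul, hJJ, neg_neg]⟩
  have h1 : g⁻¹.charpoly = g.charpoly := by
    have h2 := Matrix.charpoly_units_conj U gᵀ
    have h3 : (J (Fin n) F)⁻¹ = - J (Fin n) F := Matrix.inv_eq_right_inv (by rw [mul_neg, hJJ, neg_neg])
    rw [Matrix.charpoly_transpose] at h2
    rw [← h2, hinv]
    unfold st
    congr 1
    show -(J (Fin n) F * gᵀ * J (Fin n) F) = J (Fin n) F * gᵀ * (J (Fin n) F)⁻¹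
    rw [h3, mul_neg]
  have h2 := Matrix.charpoly_inv g ((Matrix.isUnit_iff_isUnit_det g).2 (by rw [hdet]; exact isUnit_one))
  rw [h1, ← Matrix.reverse_charpoly] at h2
  have h3 : Ring.inverse g.det = 1 := by rw [hdet]; simp
  rw [h3] at h2
  simp only [Fintype.card_sum, Fintype.card_fin, map_one, mul_one] at h2
  have h4 : (-1 : F[X]) ^ (n + n) = 1 := by
    rw [← two_mul, pow_mul]
    simp
  rw [h4, one_mul] at h2
  exact h2.symm

open Polynomial in
/-- Palindromic monic polynomials of degree `2n` are parametrised by `n` coefficients. -/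
theorem card_pal (n : ℕ) :
    Nat.card {f : F[X] // f.Monic ∧ f.natDegree = n + n ∧ f.reverse = f} = Fintype.card F ^ n := by
  classical
  have hsym : ∀ f : F[X], f.natDegree = n + n → f.reverse = f → ∀ k, k ≤ n + n → f.coeff k = f.coeff (n + n - k) := by
    intro f hd hrev k hk
    conv_lhs => rw [← hrev, coeff_reverse, hd, revAt_le hk]
  let Φ : {f : F[X] // f.Monic ∧ f.natDegree = n + n ∧ f.reverse = f} → (Fin n → F) :=
    fun f i => f.1.coeff (i + 1)
  have hb : Function.Bijective Φ := by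
    constructor
    · rintro ⟨f, hfm, hfd, hfr⟩ ⟨g, hgm, hgd, hgr⟩ hΦ
      apply Subtype.ext
      show f = g
      have hlow : ∀ k, 1 ≤ k → k ≤ n → f.coeff k = g.coeff k := by
        intro k h1 h2
        have h3 := congrFun hΦ ⟨k - 1, by omega⟩
        have h4 : k - 1 + 1 = k := by omega
        simpa [Φ, h4] using h3
      have h0 : ∀ h : F[X], h.Monic → h.natDegree = n + n → h.reverse = h → h.coeff 0 = 1 := by
        intro h hm hd hrev
        rw [hsym h hd hrev 0 (by omega), Nat.sub_zero, ← hd]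
        exact hm.coeff_natDegree
      have htop : ∀ h : F[X], h.Monic → h.natDegree = n + n → h.coeff (n + n) = 1 := by
        intro h hm hd
        rw [← hd]
        exact hm.coeff_natDegree
      ext k
      by_cases hk0 : k = 0
      · rw [hk0, h0 f hfm hfd hfr, h0 g hgm hgd hgr]
      by_cases hk1 : k ≤ n
      · exact hlow k (by omega) hk1
      by_cases hk2 : k < n + n
      · rw [hsym f hfd hfr k (by omega), hsym g hgd hgr k (by omega)]
        exact hlow _ (by omega) (by omega)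
      by_cases hk3 : k = n + n
      · rw [hk3, htop f hfm hfd, htop g hgm hgd]
      · rw [coeff_eq_zero_of_natDegree_lt (by omega), coeff_eq_zero_of_natDegree_lt (by omega)]
    · intro a
      let a' : ℕ → F := fun j => if h : j < n then a ⟨j, h⟩ else 0
      let c : ℕ → F := fun k => if k = 0 ∨ k = n + n then 1 else if k ≤ n then a' (k - 1)
        else if k < n + n then a' (n + n - k - 1) else 0
      let f : F[X] := ∑ k ∈ Finset.range (n + n + 1), monomial k (c k)
      have hc : ∀ k, f.coeff k = c k := by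
        intro k
        simp only [f, finset_sum_coeff, coeff_monomial, Finset.sum_ite_eq', Finset.mem_range]
        split_ifs with h
        · rfl
        · have h1 : ¬ (k = 0 ∨ k = n + n) := by omega
          have h2 : ¬ k ≤ n := by omega
          have h3 : ¬ k < n + n := by omega
          simp [c, h1, h2, h3]
      have hctop : c (n + n) = 1 := by simp [c]
      have hdle : f.natDegree ≤ n + n := by
        rw [natDegree_le_iff_coeff_eq_zero]
        intro N hN
        rw [hc]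
        have h1 : ¬ (N = 0 ∨ N = n + n) := by omega
        have h2 : ¬ N ≤ n := by omega
        have h3 : ¬ N < n + n := by omega
        simp [c, h1, h2, h3]
      have hmon : f.Monic := monic_of_natDegree_le_of_coeff_eq_one _ hdle (by rw [hc, hctop])
      have hd : f.natDegree = n + n := natDegree_eq_of_le_of_coeff_ne_zero hdle (by rw [hc, hctop]; exact one_ne_zero)
      have hrev : f.reverse = f := by
        ext k
        rw [coeff_reverse, hd, hc]
        by_cases hk : k ≤ n + n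
        · rw [revAt_le hk, hc]
          simp only [c]
          split_ifs <;> first | rfl | omega | (congr 1; omega)
        · rw [revAt_eq_self_of_lt (by omega), hc]
      refine ⟨⟨f, hmon, hd, hrev⟩, ?_⟩
      funext i
      show f.coeff (i + 1) = a i
      rw [hc]
      have hi := i.2
      have h1 : ¬ ((i : ℕ) + 1 = 0 ∨ (i : ℕ) + 1 = n + n) := by omega
      have h2 : (i : ℕ) + 1 ≤ n := by omega
      have h3 : (i : ℕ) < n := hi
      simp only [c]
      rw [if_neg h1, if_pos h2]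
      simp [a', h3]
  rw [Nat.card_eq_of_bijective Φ hb]
  simp

open Polynomial Cfsg.Agent.Lib.SpRegUnip in
theorem charpoly_of_conj {n : ℕ} {g h : ↥(Matrix.symplecticGroup (Fin n) F)} (hc : IsConj g h) :
    (g : Matrix (Ix n) (Ix n) F).charpoly = (h : Matrix (Ix n) (Ix n) F).charpoly := by
  obtain ⟨c, hc⟩ := isConj_iff.1 hc
  let U : (Matrix (Ix n) (Ix n) F)ˣ := ⟨c.1, (c⁻¹).1, congrArg Subtype.val (mul_inv_cancel c),
    congrArg Subtype.val (inv_mul_cancel c)⟩
  have h2 := Matrix.charpoly_units_conj U (g : Matrix (Ix n) (Ix n) F)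
  have h3 : (c.1)⁻¹ = (c⁻¹).1 := Matrix.inv_eq_right_inv U.mul_inv
  have h4 : (h : Matrix (Ix n) (Ix n) F) = c.1 * g.1 * (c⁻¹).1 := by
    rw [← hc]
    rfl
  have h5 : ((U : Matrix (Ix n) (Ix n) F))⁻¹ = (c⁻¹).1 := h3
  rw [h5] at h2
  rw [h4]
  exact h2.symm

end Cfsg.Agent.Lib.SpCount
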