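/-
Classes of elements of prime order of the symplectic groups.
-/
import Mathlib
import Cfsg.Agent.Lib.DualPoly
import Cfsg.Agent.Lib.SpCount
import Cfsg.Agent.S2389

set_option autoImplicit false
set_option linter.all false

open Polynomial

namespace Cfsg.Agent.Lib.SpPrimeOrd

open Cfsg.Agent.Lib.DualPoly

universe u

variable {F : Type u} [Field F]

/-- Characteristic polynomial of a root of unity. -/
theorem charpoly_dvd_pow' {ι : Type*} [Fintype ι] [DecidableEq ι] {r : ℕ} (A : Matrix ι ι F) (hA : A ^ r = 1) :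
    A.charpoly ∣ (X ^ r - 1) ^ (Fintype.card ι) := by
  have hc : Commute (Matrix.scalar ι (X : F[X])) (C.mapMatrix A) :=
    Matrix.scalar_commute _ (fun r => Commute.all _ _) _
  have h := hc.geom_sum₂_mul r
  have h2 : (Matrix.scalar ι (X : F[X])) ^ r - (C.mapMatrix A) ^ r =
      Matrix.scalar ι (X ^ r - 1 : F[X]) := by
    rw [← map_pow, ← map_pow, hA, map_one, map_sub, map_pow, map_one]
  rw [h2] at h
  have h3 := congrArg Matrix.det h
  rw [Matrix.det_mul] at h3
  have h4 : (Matrix.scalar ι (X ^ r - 1 : F[X])).det = (X ^ r - 1) ^ (Fintype.card ι) := by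
    rw [Matrix.scalar_apply, Matrix.det_diagonal]
    simp
  rw [h4] at h3
  have h5 : A.charpoly = ((Matrix.scalar ι) X - C.mapMatrix A).det := rfl
  rw [h5]
  exact Dvd.intro_left _ h3

theorem eval_rev (x : F) (hx : x * x = 1) (f : F[X]) : eval x (reverse f) * x ^ f.natDegree = eval x f := by
  letI : Invertible x := ⟨x, hx, hx⟩
  have h3 := eval₂_reverse_mul_pow (RingHom.id F) x f
  have hinv : ⅟x = x := rfl
  rw [hinv] at h3
  simpa only [eval₂_id] using h3

/-- Self-dual polynomials over `F` with factors dividing `X ^ r - 1`, `r` odd. -/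
theorem rev_of_dual [Fintype F] {r : ℕ} (hr : Odd r) :
    ∀ (d : ℕ) (f : F[X]), f.Monic → f.natDegree = d → (∀ Q, Irreducible Q → Q ∣ f → Q ∣ X ^ r - 1) →
      dual (RingEquiv.refl F) f = f → reverse f = C ((-1) ^ d) * f := by
  classical
  intro d
  induction d using Nat.strong_induction_on with
  | _ d ih =>
    intro f hf hd hQ hfd
    have hdualv : dual (RingEquiv.refl F) f = C (f.coeff 0)⁻¹ * reverse f := by
      unfold dual
      congr 1
      have : ((RingEquiv.refl F : F ≃+* F) : F →+* F) = RingHom.id F := rfl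
      rw [this, Polynomial.map_id]
    have hf0 : f.coeff 0 ≠ 0 := by
      intro h
      have h1 : (X : F[X]) ∣ f := X_dvd_iff.2 h
      have h2 : (X : F[X]) ∣ X ^ r - 1 := hQ _ irreducible_X h1
      have h3 := X_dvd_iff.1 h2
      have hr0 : r ≠ 0 := fun h => by simp [h] at hr
      simp [coeff_X_pow, hr0.symm] at h3
    have hrevf : reverse f = C (f.coeff 0) * f := by
      rw [hdualv] at hfd
      calc reverse f = C (f.coeff 0) * (C (f.coeff 0)⁻¹ * reverse f) := by
            rw [← mul_assoc, ← C_mul, mul_inv_cancel₀ hf0]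
            simp
        _ = C (f.coeff 0) * f := by rw [hfd]
    by_cases h1 : (X - C (1 : F)) ∣ f
    · obtain ⟨g, rfl⟩ := h1
      have hX : (X - C (1 : F)).Monic := monic_X_sub_C 1
      have hgm : g.Monic := Monic.of_mul_monic_left hX hf
      have hdeg := hX.natDegree_mul hgm
      rw [natDegree_X_sub_C] at hdeg
      have hd' : (X - 1 : F[X]) = X - C 1 := by simp
      have hdX : dual (RingEquiv.refl F) (X - C (1 : F)) = X - C 1 := by
        rw [← hd']
        exact dual_X_sub_one _
      have hg : dual (RingEquiv.refl F) g = g := by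
        rw [dual_mul, hdX] at hfd
        exact mul_left_cancel₀ hX.ne_zero hfd
      have h2 := ih g.natDegree (by omega) g hgm rfl (fun Q hQi hQg => hQ Q hQi (hQg.trans (dvd_mul_left _ _))) hg
      rw [reverse_mul_of_domain, Cfsg.Agent.Lib.SpCount.rev_X_sub (1 : F) (one_mul 1), h2]
      have hdd : d = 1 + g.natDegree := by omega
      rw [hdd, pow_add, C_mul]
      simp
      ring
    · have hev : eval 1 f ≠ 0 := by
        intro h
        exact h1 (dvd_iff_isRoot.2 h)
      have h2 := eval_rev (1 : F) (one_mul 1) f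
      rw [one_pow, mul_one, hrevf, eval_mul, eval_C] at h2
      have hc1 : f.coeff 0 = 1 := by
        have h3 : (f.coeff 0 - 1) * eval 1 f = 0 := by linear_combination h2
        have h4 := (mul_eq_zero.1 h3).resolve_right hev
        exact sub_eq_zero.1 h4
      rw [hrevf, hc1]
      by_cases h20 : (2 : F) = 0
      · have hneg : (-1 : F) = 1 := by linear_combination -h20
        rw [hneg, one_pow]
      · have hev2 : Even d := by
          by_contra hodd
          have hodd' : Odd d := Nat.not_even_iff_odd.1 hodd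
          have h5 := eval_rev (-1 : F) (by simp) f
          rw [hd, hodd'.neg_one_pow, hrevf, hc1, C_1, one_mul] at h5
          have h6 : eval (-1) f = 0 := by
            have h7 : 2 * eval (-1) f = 0 := by linear_combination -h5
            exact (mul_eq_zero.1 h7).resolve_left h20
          have h8 : (X - C (-1 : F)) ∣ f := dvd_iff_isRoot.2 h6
          have h9 := hQ _ (irreducible_X_sub_C (-1 : F)) h8
          have h10 := dvd_iff_isRoot.1 h9
          rw [IsRoot.def] at h10
          simp [hr.neg_one_pow] at h10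
          apply h20
          linear_combination -h10
        rw [hev2.neg_one_pow]

variable [Fintype F] {p : ℕ} [Fact p.Prime] [CharP F p]

/-- Conjugacy classes of order `r` correspond to self-dual polynomials. -/
theorem card_classes_sp (m r : ℕ) (hr : r.Prime) (hr2 : r ≠ 2) (hrp : r ≠ p) :
    Nat.card {C : ConjClasses ↥(Matrix.symplecticGroup (Fin m) F) // ∃ g : Matrix.symplecticGroup (Fin m) F, ConjClasses.mk g = C ∧ orderOf g = r} =
      Nat.card {f : F[X] // f.Monic ∧ f.natDegree = m + m ∧ (∀ Q, Irreducible Q → Q ∣ f → Q ∣ X ^ r - 1) ∧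
        dual (RingEquiv.refl F) f = f ∧ f ≠ (X - 1) ^ (m + m)} := by
  classical
  have hrodd : Odd r := hr.odd_of_ne_two hr2
  have hb0 : (X ^ r - 1 : F[X]) ≠ 0 := by
    have := monic_X_pow_sub_C (1 : F) hr.ne_zero
    rw [C_1] at this
    exact this.ne_zero
  have hone : (((1 : ↥(Matrix.symplecticGroup (Fin m) F)) : Matrix (Fin m ⊕ Fin m) (Fin m ⊕ Fin m) F)).charpoly = (X - 1) ^ (m + m) := by
    show (1 : Matrix (Fin m ⊕ Fin m) (Fin m ⊕ Fin m) F).charpoly = _
    rw [Matrix.charpoly_one]
    simp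
  have hex : ∀ f : {f : F[X] // f.Monic ∧ f.natDegree = m + m ∧ (∀ Q, Irreducible Q → Q ∣ f → Q ∣ X ^ r - 1) ∧
      dual (RingEquiv.refl F) f = f ∧ f ≠ (X - 1) ^ (m + m)}, ∃ g : ↥(Matrix.symplecticGroup (Fin m) F),
      (g : Matrix (Fin m ⊕ Fin m) (Fin m ⊕ Fin m) F).charpoly = f.1 ∧ orderOf g = r := by
    rintro ⟨f, hf, hd, hQ, hdual, hne⟩
    have hrev : f.reverse = f := by
      rw [rev_of_dual hrodd _ f hf hd hQ hdual, ← two_mul, pow_mul]
      simp
    obtain ⟨g, hg, hch, N, hN, hgN⟩ := Cfsg.Agent.Lib.SpCount.exists_sp (p := p) m f hf hd hrev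
    have hNp : ((N : ℕ) : F) ≠ 0 := by
      intro h
      rw [CharP.cast_eq_zero_iff F p] at h
      have h1 := Nat.Coprime.eq_one_of_dvd hN.symm h
      exact (Fact.out : p.Prime).one_lt.ne' h1
    have hsep : (X ^ N - C (1 : F)).Separable := separable_X_pow_sub_C 1 hNp one_ne_zero
    have hM1 : minpoly F g ∣ X ^ N - C 1 := minpoly.dvd F _ (by simp [hgN])
    have hsq : Squarefree (minpoly F g) := hsep.squarefree.squarefree_of_dvd hM1
    have hM2 : minpoly F g ∣ f := hch ▸ Matrix.minpoly_dvd_charpoly _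
    have hM3 : minpoly F g ∣ X ^ r - 1 :=
      Cfsg.Agent.Lib.GLPrimeOrd.dvd_of_squarefree hb0 hsq (fun Q h1 h2 => hQ Q h1 (h2.trans hM2))
    have h4 : aeval g (X ^ r - 1 : F[X]) = 0 := by
      obtain ⟨c, hc⟩ := hM3
      rw [hc, map_mul, minpoly.aeval, zero_mul]
    have h5 : g ^ r = 1 := by
      simpa [sub_eq_zero] using h4
    have h6 : (⟨g, hg⟩ : ↥(Matrix.symplecticGroup (Fin m) F)) ^ r = 1 := Subtype.ext h5
    have h7 := orderOf_dvd_of_pow_eq_one h6
    rcases (Nat.dvd_prime hr).1 h7 with h8 | h8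
    · exfalso
      have h9 : (⟨g, hg⟩ : ↥(Matrix.symplecticGroup (Fin m) F)) = 1 := orderOf_eq_one_iff.1 h8
      apply hne
      rw [← hch]
      have h10 : g = 1 := congrArg Subtype.val h9
      rw [h10, Matrix.charpoly_one]
      simp
    · exact ⟨⟨g, hg⟩, hch, h8⟩
  choose x hx1 hx2 using hex
  have hcop : ∀ y : ↥(Matrix.symplecticGroup (Fin m) F), orderOf y = r → (orderOf y).Coprime p := by
    intro y hy
    rw [hy]
    exact (Nat.coprime_primes hr Fact.out).2 hrp
  symm
  refine Nat.card_congr (Equiv.ofBijective (fun f => ⟨ConjClasses.mk (x f), x f, rfl, hx2 f⟩) ⟨?_, ?_⟩)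
  · intro f f' h
    have h1 : ConjClasses.mk (x f) = ConjClasses.mk (x f') := congrArg Subtype.val h
    have h2 := Cfsg.Agent.Lib.SpCount.charpoly_of_conj (ConjClasses.mk_eq_mk_iff_isConj.1 h1)
    rw [hx1, hx1] at h2
    exact Subtype.ext h2
  · rintro ⟨c, g, rfl, hg⟩
    have hgr : (g : Matrix (Fin m ⊕ Fin m) (Fin m ⊕ Fin m) F) ^ r = 1 := by
      have h1 : g ^ r = 1 := by rw [← hg]; exact pow_orderOf_eq_one g
      exact congrArg Subtype.val h1
    have hpal := Cfsg.Agent.Lib.SpCount.charpoly_pal g.1 g.2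
    have hmon : (g : Matrix (Fin m ⊕ Fin m) (Fin m ⊕ Fin m) F).charpoly.Monic := Matrix.charpoly_monic _
    refine ⟨⟨(g : Matrix (Fin m ⊕ Fin m) (Fin m ⊕ Fin m) F).charpoly, hmon, by
      rw [Matrix.charpoly_natDegree_eq_dim]; simp, ?_, ?_, ?_⟩, ?_⟩
    · intro Q hQ hQd
      exact hQ.prime.dvd_of_dvd_pow (hQd.trans (charpoly_dvd_pow' _ hgr))
    · have h0 : (g : Matrix (Fin m ⊕ Fin m) (Fin m ⊕ Fin m) F).charpoly.coeff 0 = 1 := by
        rw [← hpal, coeff_zero_reverse]
        exact hmon.leadingCoeff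
      unfold dual
      rw [h0]
      have : ((RingEquiv.refl F : F ≃+* F) : F →+* F) = RingHom.id F := rfl
      rw [this, Polynomial.map_id, hpal]
      simp
    · intro h
      have h1 : IsConj g 1 := Cfsg.Agent.S2389.result p m g 1 (hcop g hg) (by simp) (by rw [h, hone])
      have h2 : g = 1 := isConj_one_right.1 h1.symm
      rw [h2, orderOf_one] at hg
      exact hr.one_lt.ne hg
    · apply Subtype.ext
      exact ConjClasses.mk_eq_mk_iff_isConj.2 (Cfsg.Agent.S2389.result p m _ _ (hcop _ (hx2 _)) (hcop _ hg) (hx1 _))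

/-- Which elements have `-1` as a power. -/
theorem neg_one_iff {r : ℕ} (hr : r.Prime) (hr2 : r ≠ 2) {u : ZMod r} (hu : u ≠ 0) :
    (∃ j : ℕ, u ^ j = -1) ↔ Even (orderOf u) := by
  haveI : Fact r.Prime := ⟨hr⟩
  have hord : 0 < orderOf u := by
    apply Nat.pos_of_dvd_of_pos (orderOf_dvd_of_pow_eq_one (ZMod.pow_card_sub_one_eq_one hu))
    have := hr.two_le
    omega
  have hne : (-1 : ZMod r) ≠ 1 := by
    intro h
    have h1 : ((2 : ℕ) : ZMod r) = 0 := by
      push_cast
      linear_combination -h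
    rw [ZMod.natCast_eq_zero_iff] at h1
    exact hr2 ((Nat.prime_dvd_prime_iff_eq hr Nat.prime_two).1 h1)
  constructor
  · rintro ⟨j, hj⟩
    by_contra hodd
    have hodd' : Odd (orderOf u) := Nat.not_even_iff_odd.1 hodd
    have h1 : u ^ (2 * j) = 1 := by
      rw [mul_comm, pow_mul, hj]
      simp
    have h2 := orderOf_dvd_of_pow_eq_one h1
    have h3 : orderOf u ∣ j := (Nat.Coprime.dvd_mul_left (Nat.coprime_two_right.2 hodd')).1 h2
    have h4 : u ^ j = 1 := orderOf_dvd_iff_pow_eq_one.1 h3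
    rw [h4] at hj
    exact hne hj.symm
  · rintro ⟨k, hk⟩
    refine ⟨k, ?_⟩
    have h1 : u ^ k * u ^ k = 1 := by
      rw [← pow_add, ← hk, pow_orderOf_eq_one]
    rcases mul_self_eq_one_iff.1 h1 with h2 | h2
    · exfalso
      have h3 := orderOf_dvd_of_pow_eq_one h2
      have h4 := Nat.le_of_dvd (by omega) h3
      omega
    · exact h2

end Cfsg.Agent.Lib.SpPrimeOrd
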