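/-
Classes of elements of prime order of the general unitary groups.
-/
import Mathlib
import Cfsg.Agent.Lib.DualPoly
import Cfsg.Agent.Lib.SpPrimeOrd
import Cfsg.Agent.Lib.GUSimilar

set_option autoImplicit false
set_option linter.all false

open Polynomial

namespace Cfsg.Agent.Lib.GUPrimeOrd

open Cfsg Cfsg.Agent.Lib.DualPoly Cfsg.Agent.Lib.GUConj

universe u

variable {K : Type u} [Field K] {q n : ℕ}

/-- The characteristic polynomial of the conjugate transpose of the inverse. -/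
theorem charpoly_St_inv (σ : K ≃+* K) (M Mi : Matrix (Fin n) (Fin n) K) (h : M * Mi = 1) :
    (St σ Mi).charpoly = dual σ M.charpoly := by
  classical
  have hinv : M⁻¹ = Mi := Matrix.inv_eq_right_inv h
  have hu : IsUnit M := IsUnit.of_mul_eq_one _ h
  have h1 := Matrix.charpoly_inv M hu
  rw [hinv, ← Matrix.reverse_charpoly] at h1
  have hdet : IsUnit M.det := (Matrix.isUnit_iff_isUnit_det M).1 hu
  have h0 : M.charpoly.coeff 0 = (-1) ^ (Fintype.card (Fin n)) * M.det := by
    rw [Matrix.det_eq_sign_charpoly_coeff, ← mul_assoc, ← mul_pow]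
    simp
  have hSt : (St σ Mi).charpoly = Mi.charpoly.map (σ : K →+* K) := by
    rw [St_apply, Matrix.charpoly_transpose]
    exact Matrix.charpoly_map Mi (σ : K →+* K)
  rw [hSt, h1]
  unfold dual
  rw [h0]
  simp only [Polynomial.map_mul, Polynomial.map_pow, Polynomial.map_neg, Polynomial.map_one, map_C]
  have h2 : Ring.inverse M.det = M.det⁻¹ := Ring.inverse_eq_inv _
  rw [h2]
  rw [Fintype.card_fin]
  have hs : ((-1 : K) ^ n) * ((-1 : K) ^ n) = 1 := by
    rw [← mul_pow]
    simp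
  have h3 : (σ ((-1) ^ n * M.det))⁻¹ = (-1) ^ n * σ M.det⁻¹ := by
    rw [map_mul, map_pow, map_neg, map_one, map_inv₀, mul_inv]
    congr 1
    exact (eq_inv_of_mul_eq_one_left hs).symm
  rw [h3, C_mul, C_pow, C_neg, C_1]
  simp only [RingEquiv.coe_toRingHom]

variable [Fintype K] {p : ℕ} [Fact p.Prime] [CharP K p]

/-- Conjugacy classes of order `r` of the general unitary group correspond to self-dual polynomials. -/
theorem card_classes_GU (hK : Fintype.card K = q ^ 2) {σ : K ≃+* K} (hσ : ∀ x, σ x = x ^ q) (r : ℕ) (hr : r.Prime) (hrp : r ≠ p) :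
    Nat.card {C : ConjClasses ↥(GU n K q) // ∃ g : ↥(GU n K q), ConjClasses.mk g = C ∧ orderOf g = r} =
      Nat.card {f : K[X] // f.Monic ∧ f.natDegree = n ∧ (∀ Q, Irreducible Q → Q ∣ f → Q ∣ X ^ r - 1) ∧
        dual σ f = f ∧ f ≠ (X - 1) ^ n} := by
  classical
  have hσ2 : ∀ a, σ (σ a) = a := by
    intro a
    rw [hσ, hσ, Cfsg.Agent.Lib.UnitaryHerm.pow_q_q hK]
  have hb0 : (X ^ r - 1 : K[X]) ≠ 0 := by
    have := monic_X_pow_sub_C (1 : K) hr.ne_zero
    rw [C_1] at this
    exact this.ne_zero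
  have hone : (((1 : GL (Fin n) K) : Matrix (Fin n) (Fin n) K)).charpoly = (X - 1) ^ n := by
    rw [Units.val_one, Matrix.charpoly_one, Fintype.card_fin]
  have hconj : ∀ x y : ↥(GU n K q), (orderOf x).Coprime p → (orderOf y).Coprime p →
      ((x : GL (Fin n) K) : Matrix (Fin n) (Fin n) K).charpoly = ((y : GL (Fin n) K) : Matrix (Fin n) (Fin n) K).charpoly → IsConj x y := by
    intro x y hx hy h
    have h1 := Cfsg.Agent.Lib.GLClass.conj_of_charpoly (p := p) (x : GL (Fin n) K) (y : GL (Fin n) K)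
      (by rwa [Subgroup.orderOf_coe]) (by rwa [Subgroup.orderOf_coe]) h
    obtain ⟨c, hc⟩ := isConj_iff.1 h1
    obtain ⟨g, hg, hg2⟩ := exists_GU_conj hK (x : GL (Fin n) K) y c x.2 y.2 hc
    refine isConj_iff.2 ⟨⟨g, hg⟩, ?_⟩
    apply Subtype.ext
    exact hg2
  have hex : ∀ f : {f : K[X] // f.Monic ∧ f.natDegree = n ∧ (∀ Q, Irreducible Q → Q ∣ f → Q ∣ X ^ r - 1) ∧
        dual σ f = f ∧ f ≠ (X - 1) ^ n}, ∃ x : ↥(GU n K q),
      ((x : GL (Fin n) K) : Matrix (Fin n) (Fin n) K).charpoly = f.1 ∧ orderOf x = r := by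
    rintro ⟨f, hf, hd, hQ, hdual, hne⟩
    have h0 : f.coeff 0 ≠ 0 := by
      intro h
      have h1 : (X : K[X]) ∣ f := X_dvd_iff.2 h
      have h2 : (X : K[X]) ∣ X ^ r - 1 := hQ _ irreducible_X h1
      have h3 := X_dvd_iff.1 h2
      simp [coeff_X_pow, hr.ne_zero.symm] at h3
    obtain ⟨x, hx1, hx2⟩ := Cfsg.Agent.Lib.GLClass.exists_element (p := p) f hf hd h0
    -- the dual element
    let y : GL (Fin n) K := ⟨St σ (x⁻¹).1, St σ x.1, by
      rw [← St_mul, show x.1 * (x⁻¹).1 = 1 from x.mul_inv, St_one], by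
      rw [← St_mul, show (x⁻¹).1 * x.1 = 1 from x.inv_mul, St_one]⟩
    have hy1 : (y : Matrix (Fin n) (Fin n) K).charpoly = f := by
      show (St σ (x⁻¹).1).charpoly = f
      rw [charpoly_St_inv σ x.1 (x⁻¹).1 x.mul_inv, hx1, hdual]
    have hyN : y ^ orderOf x = 1 := by
      apply Units.ext
      show (St σ (x⁻¹).1) ^ orderOf x = 1
      have h1 : (x⁻¹).1 ^ orderOf x = 1 := by
        rw [← Units.val_pow_eq_pow_val, inv_pow, pow_orderOf_eq_one, inv_one, Units.val_one]
      have h2 : ∀ k : ℕ, (St σ (x⁻¹).1) ^ k = St σ ((x⁻¹).1 ^ k) := by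
        intro k
        induction k with
        | zero => simp [St_one]
        | succ k ih => rw [pow_succ, ih, pow_succ', St_mul]
      rw [h2, h1, St_one]
    have hy2 : (orderOf y).Coprime p := Nat.Coprime.coprime_dvd_left (orderOf_dvd_of_pow_eq_one hyN) hx2
    have h1 := Cfsg.Agent.Lib.GLClass.conj_of_charpoly (p := p) x y hx2 hy2 (by rw [hx1, hy1])
    obtain ⟨c, hc⟩ := isConj_iff.1 h1
    have hc2 : c.1 * x.1 = y.1 * c.1 := by
      have h2 : c * x = y * c := by rw [← hc]; group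
      exact congrArg Units.val h2
    have hAP : St σ x.1 * c.1 * x.1 = c.1 := by
      calc St σ x.1 * c.1 * x.1 = St σ x.1 * (c.1 * x.1) := mul_assoc ..
        _ = (St σ x.1 * St σ (x⁻¹).1) * c.1 := by rw [hc2, mul_assoc]
        _ = c.1 := by rw [← St_mul, show (x⁻¹).1 * x.1 = 1 from x.inv_mul, St_one, one_mul]
    obtain ⟨B, hB⟩ := Cfsg.Agent.Lib.GUSimilar.exists_conj_GU hK hσ x c.1 (c⁻¹).1 c.mul_inv hAP
    obtain ⟨d, hd'⟩ := isConj_iff.1 hB
    have hBch : ((B : GL (Fin n) K) : Matrix (Fin n) (Fin n) K).charpoly = f := by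
      rw [← hd', ← hx1]
      have := Matrix.charpoly_units_conj (d : (Matrix (Fin n) (Fin n) K)ˣ) (x : Matrix (Fin n) (Fin n) K)
      rw [Units.val_mul, Units.val_mul, Matrix.coe_units_inv]
      exact this
    have hBo : (orderOf B).Coprime p := by
      rw [← Subgroup.orderOf_coe, ← hd']
      rw [← MulAut.conj_apply, MulEquiv.orderOf_eq]
      exact hx2
    have hNp : ((orderOf B : ℕ) : K) ≠ 0 := by
      intro h
      rw [CharP.cast_eq_zero_iff K p] at h
      have h1 := Nat.Coprime.eq_one_of_dvd hBo.symm h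
      exact (Fact.out : p.Prime).one_lt.ne' h1
    have hsep : (X ^ orderOf B - C (1 : K)).Separable := separable_X_pow_sub_C 1 hNp one_ne_zero
    have hpowB : ((B : GL (Fin n) K) : Matrix (Fin n) (Fin n) K) ^ orderOf B = 1 := by
      rw [← Units.val_pow_eq_pow_val, ← Subgroup.coe_pow, pow_orderOf_eq_one]
      rfl
    have hM1 : minpoly K ((B : GL (Fin n) K) : Matrix (Fin n) (Fin n) K) ∣ X ^ orderOf B - C 1 := minpoly.dvd K _ (by
      simp [hpowB])
    have hsq : Squarefree (minpoly K ((B : GL (Fin n) K) : Matrix (Fin n) (Fin n) K)) := hsep.squarefree.squarefree_of_dvd hM1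
    have hM2 : minpoly K ((B : GL (Fin n) K) : Matrix (Fin n) (Fin n) K) ∣ f := hBch ▸ Matrix.minpoly_dvd_charpoly _
    have hM3 : minpoly K ((B : GL (Fin n) K) : Matrix (Fin n) (Fin n) K) ∣ X ^ r - 1 :=
      Cfsg.Agent.Lib.GLPrimeOrd.dvd_of_squarefree hb0 hsq (fun Q h1 h2 => hQ Q h1 (h2.trans hM2))
    have h4 : aeval ((B : GL (Fin n) K) : Matrix (Fin n) (Fin n) K) (X ^ r - 1 : K[X]) = 0 := by
      obtain ⟨c, hc⟩ := hM3
      rw [hc, map_mul, minpoly.aeval, zero_mul]
    have h5 : ((B : GL (Fin n) K) : Matrix (Fin n) (Fin n) K) ^ r = 1 := by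
      simpa [sub_eq_zero] using h4
    have h6 : B ^ r = 1 := by
      apply Subtype.ext
      apply Units.ext
      exact h5
    have h7 := orderOf_dvd_of_pow_eq_one h6
    rcases (Nat.dvd_prime hr).1 h7 with h8 | h8
    · exfalso
      have h9 : B = 1 := orderOf_eq_one_iff.1 h8
      apply hne
      rw [← hBch, h9]
      exact hone
    · exact ⟨B, hBch, h8⟩
  choose x hx1 hx2 using hex
  have hcop : ∀ y : ↥(GU n K q), orderOf y = r → (orderOf y).Coprime p := by
    intro y hy
    rw [hy]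
    exact (Nat.coprime_primes hr Fact.out).2 hrp
  symm
  refine Nat.card_congr (Equiv.ofBijective (fun f => ⟨ConjClasses.mk (x f), x f, rfl, hx2 f⟩) ⟨?_, ?_⟩)
  · intro f f' h
    have h1 : ConjClasses.mk (x f) = ConjClasses.mk (x f') := congrArg Subtype.val h
    obtain ⟨c, hc⟩ := isConj_iff.1 (ConjClasses.mk_eq_mk_iff_isConj.1 h1)
    apply Subtype.ext
    rw [← hx1 f, ← hx1 f', ← hc]
    have := Matrix.charpoly_units_conj ((c : GL (Fin n) K) : (Matrix (Fin n) (Fin n) K)ˣ) ((x f : GL (Fin n) K) : Matrix (Fin n) (Fin n) K)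
    rw [show (((c * x f * c⁻¹ : ↥(GU n K q)) : GL (Fin n) K) : Matrix (Fin n) (Fin n) K) =
      ((c : GL (Fin n) K) : Matrix (Fin n) (Fin n) K) * ((x f : GL (Fin n) K) : Matrix (Fin n) (Fin n) K) * (((c : GL (Fin n) K)⁻¹ : GL (Fin n) K) : Matrix (Fin n) (Fin n) K) from rfl,
      Matrix.coe_units_inv]
    exact this.symm
  · rintro ⟨c, g, rfl, hg⟩
    have hgr : ((g : GL (Fin n) K) : Matrix (Fin n) (Fin n) K) ^ r = 1 := by
      have h1 : g ^ r = 1 := by rw [← hg]; exact pow_orderOf_eq_one g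
      rw [← Units.val_pow_eq_pow_val, ← Subgroup.coe_pow, h1]
      rfl
    refine ⟨⟨((g : GL (Fin n) K) : Matrix (Fin n) (Fin n) K).charpoly, Matrix.charpoly_monic _, by
      rw [Matrix.charpoly_natDegree_eq_dim, Fintype.card_fin], ?_, ?_, ?_⟩, ?_⟩
    · intro Q hQ hQd
      exact hQ.prime.dvd_of_dvd_pow (hQd.trans (Cfsg.Agent.Lib.SpPrimeOrd.charpoly_dvd_pow' _ hgr))
    · have h1 : St σ ((g⁻¹ : ↥(GU n K q)) : GL (Fin n) K).1 = (g : GL (Fin n) K).1 := by
        have h2 := (mem_GU_iff_St hK hσ (g : GL (Fin n) K)).1 g.2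
        have h3 : ((g⁻¹ : ↥(GU n K q)) : GL (Fin n) K).1 = St σ (g : GL (Fin n) K).1 :=
          (Matrix.inv_eq_left_inv h2 ▸ (Matrix.inv_eq_right_inv (show (g : GL (Fin n) K).1 * ((g⁻¹ : ↥(GU n K q)) : GL (Fin n) K).1 = 1 from
            (g : GL (Fin n) K).mul_inv)).symm)
        rw [h3, St_St σ hσ2]
      rw [← charpoly_St_inv σ (g : GL (Fin n) K).1 ((g⁻¹ : ↥(GU n K q)) : GL (Fin n) K).1 (g : GL (Fin n) K).mul_inv, h1]
    · intro h
      have h1 : IsConj g 1 := hconj g 1 (hcop g hg) (by simp) (by rw [h]; exact hone.symm)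
      have h2 : g = 1 := isConj_one_right.1 h1.symm
      rw [h2, orderOf_one] at hg
      exact hr.one_lt.ne hg
    · apply Subtype.ext
      exact ConjClasses.mk_eq_mk_iff_isConj.2 (hconj _ _ (hcop _ (hx2 _)) (hcop _ hg) (hx1 _))

/-- The Frobenius map on extensions. -/
theorem exists_tau (p' : ℕ) [Fact p'.Prime] [CharP K p'] (hK : Fintype.card K = q ^ 2) {σ : K ≃+* K} (hσ : ∀ x, σ x = x ^ q)
    (L : Type u) [Field L] [Algebra K L] :
    ∃ τ : L →+* L, (∀ x, τ x = x ^ q) ∧ ∀ a, τ (algebraMap K L a) = algebraMap K L (σ a) := by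
  classical
  have hp : p'.Prime := Fact.out
  obtain ⟨k, hpk, hk⟩ := FiniteField.card K p'
  have hdvd : q ∣ p' ^ (k : ℕ) := by
    rw [← hk, hK]
    exact dvd_pow_self q two_ne_zero
  obtain ⟨l, -, rfl⟩ := (Nat.dvd_prime_pow hp).1 hdvd
  haveI : CharP L p' := charP_of_injective_algebraMap (algebraMap K L).injective p'
  haveI : ExpChar L p' := ExpChar.prime hp
  refine ⟨iterateFrobenius L p' l, fun x => iterateFrobenius_def p' l x, fun a => ?_⟩
  rw [iterateFrobenius_def, hσ, map_pow]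

/-- The main count. -/
theorem card_prime_order_GU (hK : Fintype.card K = q ^ 2) {r i b s : ℕ} (hr : r.Prime) (hr2 : r ≠ 2) (hrp : r ≠ p)
    (hi : i = orderOf (q : ZMod r)) (hb : b = if Odd i then i else i / 2) (hs : s * b = r - 1) :
    Nat.card {C : ConjClasses ↥(GU n K q) // ∃ g : ↥(GU n K q), ConjClasses.mk g = C ∧ orderOf g = r} =
      if i % 4 = 2 then Nat.choose (2 * n / i + s) s - 1 else Nat.choose (n / (2 * b) + s / 2) (s / 2) - 1 := by
  classical
  haveI : Fact r.Prime := ⟨hr⟩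
  obtain ⟨σ, hσ⟩ := Cfsg.Agent.Lib.UnitaryHerm.exists_sigma hK
  have hσ2 : ∀ a, σ (σ a) = a := by
    intro a
    rw [hσ, hσ, Cfsg.Agent.Lib.UnitaryHerm.pow_q_q hK]
  have hrF : (r : K) ≠ 0 := by
    intro h
    rw [CharP.cast_eq_zero_iff K p] at h
    exact hrp ((Nat.prime_dvd_prime_iff_eq Fact.out hr).1 h).symm
  have hqr : ((Fintype.card K : ℕ) : ZMod r) ≠ 0 := by
    intro h
    rw [ZMod.natCast_eq_zero_iff] at h
    obtain ⟨k, hp, hk⟩ := FiniteField.card K p
    rw [hk] at h
    exact hrp ((Nat.prime_dvd_prime_iff_eq hr Fact.out).1 (hr.dvd_of_dvd_pow h))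
  have hQ : ((Fintype.card K : ℕ) : ZMod r) = (q : ZMod r) ^ 2 := by
    rw [hK]
    push_cast
    ring
  have hu0 : (q : ZMod r) ≠ 0 := by
    intro h
    apply hqr
    rw [hQ, h]
    simp
  have hipos : 0 < i := by
    rw [hi]
    apply Nat.pos_of_dvd_of_pos (orderOf_dvd_of_pow_eq_one (ZMod.pow_card_sub_one_eq_one hu0))
    have := hr.two_le
    omega
  have hbord : b = orderOf ((Fintype.card K : ℕ) : ZMod r) := by
    rw [hQ, orderOf_pow' _ two_ne_zero, ← hi, hb]
    split_ifs with h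
    · rw [Nat.Coprime.gcd_eq_one (Nat.coprime_two_right.2 h)]
      simp
    · have h2 : Even i := Nat.not_odd_iff_even.1 h
      rw [Nat.gcd_eq_right h2.two_dvd]
  rw [card_classes_GU (p := p) hK hσ r hr hrp]
  have hτ := exists_tau p hK hσ
  have hne : (-1 : ZMod r) ≠ 1 := by
    intro h
    have h1 : ((2 : ℕ) : ZMod r) = 0 := by
      push_cast
      linear_combination -h
    rw [ZMod.natCast_eq_zero_iff] at h1
    exact hr2 ((Nat.prime_dvd_prime_iff_eq hr Nat.prime_two).1 h1)
  by_cases h4 : i % 4 = 2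
  · rw [if_pos h4]
    have hall : ∀ P : K[X], Irreducible P → P.Monic → P ∣ X ^ r - 1 → P ≠ X - 1 → dual σ P = P := by
      intro P h1 h2 h3 h5
      apply (dual_eq_iff σ hσ2 (e := q) hτ hr hqr hbord h1 h2 h3 h5).2
      obtain ⟨i', hi'⟩ : ∃ i', i = 2 * (2 * i' + 1) := ⟨(i - 2) / 4, by omega⟩
      have h6 : (q : ZMod r) ^ (2 * i' + 1) = -1 := by
        have h7 : Even (orderOf (q : ZMod r)) := by
          rw [← hi, hi']
          exact even_two_mul _
        have h8 : (q : ZMod r) ^ (2 * i' + 1) * (q : ZMod r) ^ (2 * i' + 1) = 1 := by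
          rw [← pow_add, show 2 * i' + 1 + (2 * i' + 1) = i by omega, hi]
          exact pow_orderOf_eq_one _
        rcases mul_self_eq_one_iff.1 h8 with h9 | h9
        · exfalso
          have h10 := orderOf_dvd_of_pow_eq_one h9
          rw [← hi] at h10
          have h11 := Nat.le_of_dvd (by omega) h10
          omega
        · exact h9
      refine ⟨i' + 1, ?_⟩
      rw [hQ, ← pow_mul, show 2 * (i' + 1) = (2 * i' + 1) + 1 by ring, pow_succ, h6]
      ring
    rw [card_dual_all σ hr hrF hqr hbord hs hall]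
    have hb2 : i = 2 * b := by
      rw [hb]
      have h7 : ¬ Odd i := by
        intro h
        obtain ⟨c, hc⟩ := h
        omega
      rw [if_neg h7]
      omega
    rw [hb2, Nat.mul_div_mul_left _ _ (by norm_num : 0 < 2)]
  · rw [if_neg h4]
    have hnone : ∀ P : K[X], Irreducible P → P.Monic → P ∣ X ^ r - 1 → P ≠ X - 1 → dual σ P ≠ P := by
      intro P h1 h2 h3 h5 h6
      obtain ⟨j, hj⟩ := (dual_eq_iff σ hσ2 (e := q) hτ hr hqr hbord h1 h2 h3 h5).1 h6
      rw [hQ, ← pow_mul] at hj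
      apply h4
      have hm : (q : ZMod r) ^ (2 * j + (2 * i - 1)) = -1 := by
        rw [pow_add, hj]
        have h7 : (q : ZMod r) * (q : ZMod r) ^ (2 * i - 1) = 1 := by
          rw [← pow_succ', show 2 * i - 1 + 1 = i * 2 by omega, pow_mul, hi, pow_orderOf_eq_one, one_pow]
        linear_combination -h7
      set m := 2 * j + (2 * i - 1) with hmdef
      have hmodd : Odd m := ⟨j + i - 1, by omega⟩
      have h8 : (q : ZMod r) ^ (2 * m) = 1 := by
        rw [mul_comm, pow_mul, hm]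
        simp
      have h9 : i ∣ 2 * m := by
        rw [hi]
        exact orderOf_dvd_of_pow_eq_one h8
      have h10 : ¬ i ∣ m := by
        intro h
        have h11 : (q : ZMod r) ^ m = 1 := by
          rw [hi] at h
          exact orderOf_dvd_iff_pow_eq_one.1 h
        rw [h11] at hm
        exact hne hm.symm
      obtain ⟨c, hc⟩ := h9
      rcases Nat.even_or_odd' c with ⟨c', rfl | rfl⟩
      · exact absurd ⟨c', by nlinarith⟩ h10
      · -- i (2c'+1) = 2 m, m odd
        have h12 : i * (2 * c' + 1) % 4 = 2 := by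
          rw [← hc]
          obtain ⟨t, ht⟩ := hmodd
          omega
        have h13 : i % 2 = 0 := by
          by_contra h14
          have h15 : i * (2 * c' + 1) % 2 = 1 := by
            rw [Nat.mul_mod]
            have : i % 2 = 1 := by omega
            rw [this]
            have : (2 * c' + 1) % 2 = 1 := by omega
            rw [this]
          omega
        obtain ⟨a, ha⟩ : ∃ a, i = 2 * a := ⟨i / 2, by omega⟩
        rw [ha] at h12 ⊢
        have h16 : 2 * a * (2 * c' + 1) = 2 * (a * (2 * c' + 1)) := by ring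
        rw [h16] at h12
        have h17 : (a * (2 * c' + 1)) % 2 = 1 := by omega
        have h18 : a % 2 = 1 := by
          by_contra h19
          have h20 : a % 2 = 0 := by omega
          rw [Nat.mul_mod, h20] at h17
          simp at h17
        omega
    exact card_dual_none σ hσ2 hr hrF hqr hbord hs hnone

end Cfsg.Agent.Lib.GUPrimeOrd
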