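/-
Regular unipotent classes of the special unitary group.
-/
import Mathlib
import Cfsg.Agent.Lib.GUJordan
import Cfsg.Agent.Lib.GUQuot
import Cfsg.Agent.Lib.SLn

set_option autoImplicit false
set_option linter.all false

open scoped Matrix
open Matrix

namespace Cfsg.Agent.Lib.GURegU

open Cfsg
open Cfsg.Agent.Lib.GUConj Cfsg.Agent.Lib.GUJordan Cfsg.Agent.Lib.RegUnip

universe u

variable {K : Type u} [Field K] {q n : ℕ}

/-- A matrix commuting with the model has a triangular shape. -/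
theorem det_comm_N0 (hn : 0 < n) (M : Matrix (Fin n) (Fin n) K) (h1 : M * N0 K n = N0 K n * M) :
    M.det = (M ⟨0, hn⟩ ⟨0, hn⟩) ^ n := by
  have h0 : ∀ (j : ℕ) (hj : j + 1 < n), M ⟨0, hn⟩ ⟨j + 1, hj⟩ = 0 := by
    intro j hj
    have h2 := congrFun (congrFun h1 ⟨0, hn⟩) ⟨j, by omega⟩
    rw [mul_N0_apply _ _ _ hj, N0_mul_zero _ _ _ rfl] at h2
    exact h2
  have hs : ∀ (i j : ℕ) (hi : i + 1 < n) (hj : j + 1 < n), M ⟨i + 1, hi⟩ ⟨j + 1, hj⟩ = M ⟨i, by omega⟩ ⟨j, by omega⟩ := by
    intro i j hi hj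
    have h2 := congrFun (congrFun h1 ⟨i + 1, hi⟩) ⟨j, by omega⟩
    rw [mul_N0_apply _ _ _ hj] at h2
    have h3 := N0_mul_succ M ⟨i, by omega⟩ ⟨j, by omega⟩ hi
    exact h2.trans h3
  have hu : ∀ (i : ℕ) (hi : i < n) (j : ℕ) (hj : j < n), i < j → M ⟨i, hi⟩ ⟨j, hj⟩ = 0 := by
    intro i
    induction i with
    | zero =>
      intro hi j hj hij
      obtain ⟨j', rfl⟩ : ∃ j', j = j' + 1 := ⟨j - 1, by omega⟩
      exact h0 j' hj
    | succ i ih =>
      intro hi j hj hij
      obtain ⟨j', rfl⟩ : ∃ j', j = j' + 1 := ⟨j - 1, by omega⟩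
      rw [hs i j' hi hj]
      exact ih _ _ _ (by omega)
  have hd : ∀ (i : ℕ) (hi : i < n), M ⟨i, hi⟩ ⟨i, hi⟩ = M ⟨0, hn⟩ ⟨0, hn⟩ := by
    intro i
    induction i with
    | zero => intro hi; rfl
    | succ i ih =>
      intro hi
      rw [hs i i hi hi]
      exact ih _
  rw [Matrix.det_of_isLowerTriangular]
  · rw [Finset.prod_congr rfl (fun (i : Fin n) _ => hd (i : ℕ) i.2), Finset.prod_const, Finset.card_univ, Fintype.card_fin]
  · intro i j (hij : i < j)
    exact hu (i : ℕ) i.2 (j : ℕ) j.2 hij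

/-- The eigenvalue of a unitary element commuting with the model has norm one. -/
theorem norm_of_commute [Fintype K] (hF : Fintype.card K = q ^ 2) {σ : K ≃+* K} (hσ : ∀ x, σ x = x ^ q)
    (hn : 0 < n) (c P Pi : Matrix (Fin n) (Fin n) K) (hcu : St σ c * c = 1) (hP : P * Pi = 1)
    (hP' : Pi * P = 1) (hcomm : (Pi * c * P) * N0 K n = N0 K n * (Pi * c * P)) :
    c.det = ((Pi * c * P) ⟨0, hn⟩ ⟨0, hn⟩) ^ n ∧ ((Pi * c * P) ⟨0, hn⟩ ⟨0, hn⟩) ^ (q + 1) = 1 := by
  set M := Pi * c * P with hM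
  set a := M ⟨0, hn⟩ ⟨0, hn⟩ with ha
  have hdetconj : ∀ X : Matrix (Fin n) (Fin n) K, (Pi * X * P).det = X.det := by
    intro X
    rw [Matrix.det_mul, Matrix.det_mul, mul_comm Pi.det, mul_assoc, mul_comm Pi.det, ← Matrix.det_mul, hP, Matrix.det_one, mul_one]
  have hshift : ∀ t : K, (c - t • 1).det = (a - t) ^ n := by
    intro t
    have h1 : Pi * (c - t • 1) * P = M - t • 1 := by
      rw [mul_sub, sub_mul, hM, mul_smul_comm, smul_mul_assoc, mul_one, hP']
    rw [← hdetconj, h1]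
    have h2 : (M - t • 1) * N0 K n = N0 K n * (M - t • 1) := by
      rw [sub_mul, mul_sub, hcomm, smul_mul_assoc, mul_smul_comm, one_mul, mul_one]
    rw [det_comm_N0 hn _ h2]
    congr 1
    simp [ha]
  have hdet : c.det = a ^ n := by
    have := hshift 0
    simpa using this
  refine ⟨hdet, ?_⟩
  have hcdet : c.det ≠ 0 := by
    intro h0
    have h1 := congrArg Matrix.det hcu
    rw [Matrix.det_mul, h0, mul_zero, Matrix.det_one] at h1
    exact zero_ne_one h1
  have ha0 : a ≠ 0 := by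
    intro h0
    rw [hdet, h0, zero_pow (by omega)] at hcdet
    exact hcdet rfl
  have hσa : σ a ≠ 0 := by simpa using ha0
  have hX : (c - a • 1).det = 0 := by
    rw [hshift, sub_self, zero_pow (by omega)]
  have hSX : (St σ c - σ a • 1).det = 0 := by
    have h1 : St σ c - σ a • 1 = St σ (c - a • 1) := by
      rw [map_sub, St_smul_one]
    rw [h1, St_apply, Matrix.det_transpose]
    have := RingHom.map_det (σ : K →+* K) (c - a • 1)
    have h2 : (σ : K →+* K).mapMatrix (c - a • 1) = (c - a • 1).map σ := rfl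
    rw [← h2, ← this, hX]
    simp
  have hcS : c * St σ c = 1 := mul_eq_one_comm.1 hcu
  have hY : (c - (σ a)⁻¹ • 1).det = 0 := by
    have h1 : c * (St σ c - σ a • 1) = (- σ a) • (c - (σ a)⁻¹ • 1) := by
      rw [mul_sub, hcS, mul_smul_comm, mul_one, smul_sub, smul_smul]
      have : - σ a * (σ a)⁻¹ = -1 := by field_simp
      rw [this, neg_smul, neg_smul, one_smul]
      abel
    have h2 := congrArg Matrix.det h1
    rw [Matrix.det_mul, hSX, mul_zero, Matrix.det_smul] at h2
    have h3 : (- σ a) ^ Fintype.card (Fin n) ≠ 0 := pow_ne_zero _ (neg_ne_zero.2 hσa)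
    exact ((mul_eq_zero.1 h2.symm).resolve_left h3)
  rw [hshift] at hY
  have h4 : a - (σ a)⁻¹ = 0 := eq_zero_of_pow_eq_zero hY
  have h5 : a * σ a = 1 := by
    field_simp at h4
    linear_combination h4
  rw [hσ] at h5
  rw [pow_succ]
  linear_combination h5

/-- The determinant on the unitary group. -/
noncomputable def dU [Fintype K] (hF : Fintype.card K = q ^ 2) : GU n K q →* rootsOfUnity (q + 1) K :=
  ((Matrix.GeneralLinearGroup.det : GL (Fin n) K →* Kˣ).comp (GU n K q).subtype).codRestrict _ (fun g => by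
    obtain ⟨σ, hσ⟩ := Cfsg.Agent.Lib.UnitaryHerm.exists_sigma hF
    rw [mem_rootsOfUnity]
    ext
    exact Cfsg.Agent.Lib.GUQuot.det_pow_of_mem hF hσ g.2)

theorem dU_val [Fintype K] (hF : Fintype.card K = q ^ 2) (g : GU n K q) :
    ((dU hF g : Kˣ) : K) = (g.1 : Matrix (Fin n) (Fin n) K).det := rfl

/-- From the special unitary group. -/
noncomputable def fromSU : SU n K q →* GU n K q :=
  MonoidHom.mk' (fun s => ⟨Matrix.SpecialLinearGroup.toGL s.1, fun u v => s.2 u v⟩) (fun a b => Subtype.ext (map_mul _ _ _))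

theorem fromSU_val (s : SU n K q) : (((fromSU s).1 : GL (Fin n) K) : Matrix (Fin n) (Fin n) K) = ((s.1 : Matrix.SpecialLinearGroup (Fin n) K) : Matrix (Fin n) (Fin n) K) := rfl

theorem fromSU_injective : Function.Injective (fromSU (n := n) (K := K) (q := q)) := by
  intro a b h
  apply Subtype.ext
  apply Subtype.ext
  exact congrArg (fun x : GU n K q => ((x.1 : GL (Fin n) K) : Matrix (Fin n) (Fin n) K)) h

/-- To the special unitary group. -/
noncomputable def toSU [Fintype K] (hF : Fintype.card K = q ^ 2) (x : GU n K q) (hx : dU hF x = 1) : SU n K q :=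
  ⟨⟨(x.1 : Matrix (Fin n) (Fin n) K), by
      have := congrArg (fun y : rootsOfUnity (q + 1) K => ((y : Kˣ) : K)) hx
      simpa [dU_val] using this⟩, fun u v => x.2 u v⟩

theorem fromSU_toSU [Fintype K] (hF : Fintype.card K = q ^ 2) (x : GU n K q) (hx : dU hF x = 1) :
    fromSU (toSU hF x hx) = x := by
  apply Subtype.ext
  apply Units.ext
  rfl

theorem dU_fromSU [Fintype K] (hF : Fintype.card K = q ^ 2) (s : SU n K q) : dU hF (fromSU s) = 1 := by
  apply Subtype.ext
  apply Units.ext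
  show ((s.1 : Matrix.SpecialLinearGroup (Fin n) K) : Matrix (Fin n) (Fin n) K).det = 1
  exact s.1.2

theorem card_reg_SU [Fintype K] (hF : Fintype.card K = q ^ 2) (hn : 0 < n) :
    Nat.card {C : ConjClasses ↥(SU n K q) // ∃ u : ↥(SU n K q), ConjClasses.mk u = C ∧
      (((u : GL (Fin n) K) : Matrix (Fin n) (Fin n) K) - 1) ^ n = 0 ∧
      (((u : GL (Fin n) K) : Matrix (Fin n) (Fin n) K) - 1).rank = n - 1} = Nat.gcd n (q + 1) := by
  classical
  obtain ⟨σ, hσ⟩ := Cfsg.Agent.Lib.UnitaryHerm.exists_sigma hF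
  have hσ2 : ∀ a, σ (σ a) = a := by
    intro a
    rw [hσ, hσ, Cfsg.Agent.Lib.UnitaryHerm.pow_q_q hF]
  obtain ⟨U, hU, h1, h2⟩ := single_block hF hσ n hn
  let u₀ : GL (Fin n) K := ⟨U, St σ U, mul_eq_one_comm.1 hU, hU⟩
  have hu₀ : u₀ ∈ GU n K q := (mem_GU_iff_St hF hσ u₀).2 hU
  obtain ⟨P, hP⟩ := exists_cyclic hn (U - 1) h1 h2
  have hPu : P⁻¹ * u₀ * P = U0 K n := by
    apply Units.ext
    show ((P⁻¹ : GL (Fin n) K) : Matrix (Fin n) (Fin n) K) * U * (P : Matrix (Fin n) (Fin n) K) = 1 + N0 K n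
    have h3 : U * (P : Matrix (Fin n) (Fin n) K) = (P : Matrix (Fin n) (Fin n) K) * (1 + N0 K n) := by
      rw [mul_add, mul_one, ← hP, sub_mul, one_mul]
      abel
    rw [mul_assoc, h3, ← mul_assoc, P.inv_mul, one_mul]
  let w₀ : GU n K q := ⟨u₀, hu₀⟩
  have hdet₀ : Matrix.GeneralLinearGroup.det u₀ = 1 := by
    have h3 := congrArg Matrix.GeneralLinearGroup.det hPu
    rw [det_U0, map_mul, map_mul, map_inv, mul_comm _ (Matrix.GeneralLinearGroup.det u₀), mul_assoc,
      inv_mul_cancel, mul_one] at h3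
    exact h3
  have hdw₀ : dU hF w₀ = 1 := by
    apply Subtype.ext
    exact hdet₀
  let D := rootsOfUnity (q + 1) K
  let B : Subgroup D := (powMonoidHom n : D →* D).range
  let ρ : GU n K q → D ⧸ B := fun g => QuotientGroup.mk (dU hF g)
  have hdconj : ∀ g : GU n K q, dU hF (g * w₀ * g⁻¹) = 1 := by
    intro g
    rw [map_mul, map_mul, map_inv, hdw₀, mul_one, mul_inv_cancel]
  let conjS : GU n K q → SU n K q := fun g => toSU hF (g * w₀ * g⁻¹) (hdconj g)
  have hconjS : ∀ g, fromSU (conjS g) = g * w₀ * g⁻¹ := fun g => fromSU_toSU hF _ _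
  have hreg : ∀ g : GU n K q, (((conjS g : GL (Fin n) K) : Matrix (Fin n) (Fin n) K) - 1) ^ n = 0 ∧
      (((conjS g : GL (Fin n) K) : Matrix (Fin n) (Fin n) K) - 1).rank = n - 1 := by
    intro g
    have h3 : ((conjS g : GL (Fin n) K) : Matrix (Fin n) (Fin n) K) - 1 =
        (g.1 : Matrix (Fin n) (Fin n) K) * (U - 1) * ((g⁻¹).1 : Matrix (Fin n) (Fin n) K) := by
      have h4 : ((conjS g : GL (Fin n) K) : Matrix (Fin n) (Fin n) K) =
          (g.1 : Matrix (Fin n) (Fin n) K) * U * ((g⁻¹).1 : Matrix (Fin n) (Fin n) K) := rfl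
      rw [h4, mul_sub, sub_mul, mul_one]
      have h5 : (g.1 : Matrix (Fin n) (Fin n) K) * ((g⁻¹).1 : Matrix (Fin n) (Fin n) K) = 1 := g.1.mul_inv
      rw [h5]
    have h5 : (g.1 : Matrix (Fin n) (Fin n) K) * ((g⁻¹).1 : Matrix (Fin n) (Fin n) K) = 1 := g.1.mul_inv
    have h6 : ((g⁻¹).1 : Matrix (Fin n) (Fin n) K) * (g.1 : Matrix (Fin n) (Fin n) K) = 1 := g.1.inv_mul
    rw [h3]
    constructor
    · rw [conj_pow' h6 h5, h1]
      simp
    · rw [Matrix.rank_mul_eq_left_of_isUnit_det _ _ (Matrix.isUnit_det_of_right_inverse h6),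
        Matrix.rank_mul_eq_right_of_isUnit_det _ _ (Matrix.isUnit_det_of_right_inverse h5), h2]
  let T := {C : ConjClasses ↥(SU n K q) // ∃ u : ↥(SU n K q), ConjClasses.mk u = C ∧
      (((u : GL (Fin n) K) : Matrix (Fin n) (Fin n) K) - 1) ^ n = 0 ∧
      (((u : GL (Fin n) K) : Matrix (Fin n) (Fin n) K) - 1).rank = n - 1}
  let ψ : GU n K q → T := fun g => ⟨ConjClasses.mk (conjS g), conjS g, rfl, (hreg g).1, (hreg g).2⟩
  have hψ : Function.Surjective ψ := by
    rintro ⟨_, u, rfl, h3, h4⟩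
    obtain ⟨P', hP'⟩ := exists_cyclic hn _ h3 h4
    have hconj : (P' * P⁻¹) * u₀ * (P' * P⁻¹)⁻¹ = (u : GL (Fin n) K) := by
      have h5 : P' * U0 K n * P'⁻¹ = (u : GL (Fin n) K) := by
        apply Units.ext
        have h6 : ((u : GL (Fin n) K) : Matrix (Fin n) (Fin n) K) * (P' : Matrix (Fin n) (Fin n) K) =
            (P' : Matrix (Fin n) (Fin n) K) * (1 + N0 K n) := by
          rw [mul_add, mul_one, ← hP', sub_mul, one_mul]
          abel
        show (P' : Matrix (Fin n) (Fin n) K) * (1 + N0 K n) * ((P'⁻¹ : GL (Fin n) K) : Matrix (Fin n) (Fin n) K) = _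
        rw [← h6, mul_assoc, P'.mul_inv, mul_one]
      rw [← h5, ← hPu]
      group
    obtain ⟨g', hg', he⟩ := exists_GU_conj hF u₀ (u : GL (Fin n) K) (P' * P⁻¹) hu₀ (fromSU u).2 hconj
    refine ⟨⟨g', hg'⟩, Subtype.ext (congrArg ConjClasses.mk ?_)⟩
    apply fromSU_injective
    rw [hconjS]
    exact Subtype.ext he
  have hρ : Function.Surjective ρ := by
    intro x
    obtain ⟨a, rfl⟩ := QuotientGroup.mk_surjective x
    let d : Fin n → K := fun i => if (i : ℕ) = 0 then ((a : Kˣ) : K) else 1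
    have hd : ∀ i, d i ≠ 0 := by
      intro i
      simp only [d]
      split_ifs
      · exact Units.ne_zero _
      · exact one_ne_zero
    have hpow : ∀ i, d i ^ (q + 1) = 1 := by
      intro i
      simp only [d]
      split_ifs
      · have h3 := (mem_rootsOfUnity _ _).1 a.2
        have h4 := congrArg Units.val h3
        simpa using h4
      · simp
    refine ⟨⟨Cfsg.Agent.Lib.GUQuot.diagGL d hd, Cfsg.Agent.Lib.GUQuot.diagGL_mem d hd hpow⟩, ?_⟩
    show QuotientGroup.mk _ = QuotientGroup.mk _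
    congr 1
    apply Subtype.ext
    apply Units.ext
    show (Matrix.diagonal d).det = ((a : Kˣ) : K)
    rw [Matrix.det_diagonal, Finset.prod_eq_single (⟨0, hn⟩ : Fin n)]
    · simp [d]
    · intro i _ hi
      have : (i : ℕ) ≠ 0 := fun h0 => hi (Fin.ext h0)
      simp [d, this]
    · simp
  have hiff : ∀ g h, ψ g = ψ h ↔ ρ g = ρ h := by
    intro g h
    constructor
    · intro H
      have H1 : ConjClasses.mk (conjS g) = ConjClasses.mk (conjS h) := congrArg Subtype.val H
      obtain ⟨s, hs⟩ := isConj_iff.1 (ConjClasses.mk_eq_mk_iff_isConj.1 H1)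
      have H2 := congrArg fromSU hs
      simp only [map_mul, map_inv, hconjS] at H2
      set S : GU n K q := fromSU s with hS
      have hdS : dU hF S = 1 := dU_fromSU hF s
      have hc : (h⁻¹ * S * g) * w₀ = w₀ * (h⁻¹ * S * g) := by
        calc (h⁻¹ * S * g) * w₀ = h⁻¹ * (S * (g * w₀ * g⁻¹) * S⁻¹) * S * g := by group
          _ = h⁻¹ * (h * w₀ * h⁻¹) * S * g := by rw [H2]
          _ = w₀ * (h⁻¹ * S * g) := by group
      set c : GU n K q := h⁻¹ * S * g with hcdef
      -- conjugate `c` into the model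
      have hcu : St σ (c.1 : Matrix (Fin n) (Fin n) K) * (c.1 : Matrix (Fin n) (Fin n) K) = 1 :=
        (mem_GU_iff_St hF hσ c.1).1 c.2
      have hcomm : (((P⁻¹ : GL (Fin n) K) : Matrix (Fin n) (Fin n) K) * (c.1 : Matrix (Fin n) (Fin n) K) * (P : Matrix (Fin n) (Fin n) K)) * N0 K n =
          N0 K n * (((P⁻¹ : GL (Fin n) K) : Matrix (Fin n) (Fin n) K) * (c.1 : Matrix (Fin n) (Fin n) K) * (P : Matrix (Fin n) (Fin n) K)) := by
        have h3 : (P⁻¹ * c.1 * P) * U0 K n = U0 K n * (P⁻¹ * c.1 * P) := by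
          rw [← hPu]
          have h4 : c.1 * u₀ = u₀ * c.1 := congrArg Subtype.val hc
          calc P⁻¹ * c.1 * P * (P⁻¹ * u₀ * P) = P⁻¹ * (c.1 * u₀) * P := by group
            _ = P⁻¹ * (u₀ * c.1) * P := by rw [h4]
            _ = P⁻¹ * u₀ * P * (P⁻¹ * c.1 * P) := by group
        have h4 := congrArg Units.val h3
        simp only [Units.val_mul] at h4
        rw [U0_val, mul_add, add_mul, mul_one, one_mul] at h4
        exact add_left_cancel h4
      obtain ⟨h5, h6⟩ := norm_of_commute hF hσ hn (c.1 : Matrix (Fin n) (Fin n) K) (P : Matrix (Fin n) (Fin n) K)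
        ((P⁻¹ : GL (Fin n) K) : Matrix (Fin n) (Fin n) K) hcu P.mul_inv P.inv_mul hcomm
      set a0 := (((P⁻¹ : GL (Fin n) K) : Matrix (Fin n) (Fin n) K) * (c.1 : Matrix (Fin n) (Fin n) K) * (P : Matrix (Fin n) (Fin n) K)) ⟨0, hn⟩ ⟨0, hn⟩ with ha0
      have ha0ne : a0 ≠ 0 := by
        intro h0
        rw [h0, zero_pow (by omega)] at h6
        exact zero_ne_one h6
      let a1 : Kˣ := Units.mk0 a0 ha0ne
      have ha1 : a1 ∈ rootsOfUnity (q + 1) K := by
        rw [mem_rootsOfUnity]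
        ext
        simpa [a1] using h6
      let a : D := ⟨a1, ha1⟩
      have ha : dU hF c = a ^ n := by
        apply Subtype.ext
        apply Units.ext
        show (c.1 : Matrix (Fin n) (Fin n) K).det = a0 ^ n
        exact h5
      have h7 : dU hF c = (dU hF h)⁻¹ * dU hF g := by
        rw [hcdef, map_mul, map_mul, map_inv, hdS, mul_one]
      refine QuotientGroup.eq.2 ⟨a⁻¹, ?_⟩
      show (a⁻¹) ^ n = _
      rw [inv_pow, ← ha, h7, _root_.mul_inv_rev, inv_inv]
    · intro H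
      obtain ⟨a, ha⟩ := QuotientGroup.eq.1 H
      have ha' : a ^ n = (dU hF g)⁻¹ * dU hF h := ha
      let A' : GL (Fin n) K := Matrix.GeneralLinearGroup.scalar (Fin n) (a : Kˣ)
      have hA'val : (A' : Matrix (Fin n) (Fin n) K) = ((a : Kˣ) : K) • 1 := by
        ext i j
        simp [A', Matrix.GeneralLinearGroup.coe_scalar, Matrix.scalar_apply, Matrix.diagonal_apply, Matrix.one_apply]
      have hapow : ((a : Kˣ) : K) * σ ((a : Kˣ) : K) = 1 := by
        have h3 := (mem_rootsOfUnity _ _).1 a.2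
        have h4 : (((a : Kˣ) : K)) ^ (q + 1) = 1 := by
          have h5 := congrArg Units.val h3
          simpa using h5
        rw [hσ, mul_comm, ← pow_succ]
        exact h4
      have hA'mem : A' ∈ GU n K q := by
        rw [mem_GU_iff_St hF hσ, hA'val, St_smul_one, smul_mul_smul_comm, mul_one, mul_comm, hapow, one_smul]
      let A : GU n K q := ⟨A', hA'mem⟩
      have hdA : dU hF A = a ^ n := by
        apply Subtype.ext
        show Matrix.GeneralLinearGroup.det A' = ((a ^ n : D) : Kˣ)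
        rw [Matrix.GeneralLinearGroup.det_scalar, Fintype.card_fin]
        rfl
      let S : GU n K q := h * A⁻¹ * g⁻¹
      have hdS : dU hF S = 1 := by
        simp only [S, map_mul, map_inv, hdA, ha', _root_.mul_inv_rev, inv_inv]
        rw [mul_comm (dU hF h)]
        simp [mul_comm]
      refine Subtype.ext (ConjClasses.mk_eq_mk_iff_isConj.2 (isConj_iff.2 ⟨toSU hF S hdS, ?_⟩))
      apply fromSU_injective
      simp only [map_mul, map_inv, hconjS, fromSU_toSU]
      have hA : A * w₀ = w₀ * A := by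
        apply Subtype.ext
        exact Matrix.GeneralLinearGroup.scalar_commute (a : Kˣ) _
      have hA' : A⁻¹ * w₀ * A = w₀ := by rw [mul_assoc, ← hA, inv_mul_cancel_left]
      calc S * (g * w₀ * g⁻¹) * S⁻¹ = h * (A⁻¹ * w₀ * A) * h⁻¹ := by
            simp only [S]; group
        _ = h * w₀ * h⁻¹ := by rw [hA']
  have hcard : Nat.card T = Nat.card (D ⧸ B) := by
    refine Nat.card_congr (Equiv.ofBijective (fun t => ρ (Function.surjInv hψ t)) ⟨?_, ?_⟩)
    · intro t₁ t₂ h12
      have h3 := (hiff _ _).2 h12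
      rwa [Function.surjInv_eq hψ, Function.surjInv_eq hψ] at h3
    · intro x
      obtain ⟨g, rfl⟩ := hρ x
      refine ⟨ψ g, ?_⟩
      show ρ (Function.surjInv hψ (ψ g)) = ρ g
      apply (hiff _ _).1
      rw [Function.surjInv_eq hψ]
  show Nat.card T = _
  rw [hcard]
  have h5 : Nat.card (D ⧸ B) = B.index := rfl
  rw [h5]
  have h6 := IsCyclic.index_powMonoidHom_range (G := D) n
  have h7 : B.index = (Nat.card D).gcd n := h6
  have hq := Cfsg.Agent.Lib.UnitaryHerm.q_two_le hF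
  have hD : Nat.card D = q + 1 := by
    have h8 := Cfsg.Agent.Lib.SLn.card_rootsOfUnity' (F := K) (q + 1)
    show Nat.card (rootsOfUnity (q + 1) K) = _
    rw [h8, hF]
    apply Nat.gcd_eq_right
    obtain ⟨r, rfl⟩ : ∃ r, q = r + 1 := ⟨q - 1, by omega⟩
    refine ⟨r, ?_⟩
    have : (r + 1) ^ 2 - 1 = (r + 1 + 1) * r := by
      have : (r + 1) ^ 2 = (r + 1 + 1) * r + 1 := by ring
      omega
    exact this
  rw [h7, hD, Nat.gcd_comm]

end Cfsg.Agent.Lib.GURegU
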