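import Cfsg.Agent.S0839
import Cfsg.Agent.Lib.Transvection
import Cfsg.Agent.S2579
import Cfsg.Agent.Lib.SylowTI

/-! Counting transvections in `GL_n(q)`: all are conjugate in `GL_n(q)`, and there are
`(q^n - 1)(q^(n-1) - 1)/(q - 1)` of them. -/

set_option autoImplicit false
set_option linter.unusedSectionVars false

namespace Cfsg.Agent.Lib.TransvCount

open Matrix Module

variable {F : Type*} [Field F] {ι : Type} [Fintype ι] [DecidableEq ι]

/-- factorisation of a transvection -/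
theorem exists_factor (t : Matrix ι ι F) (ht : Cfsg.IsTransvection t) :
    ∃ a b : ι → F, a ≠ 0 ∧ b ≠ 0 ∧ b ⬝ᵥ a = 0 ∧ t = 1 + Matrix.vecMulVec a b := by
  classical
  obtain ⟨hrank, hsq⟩ := ht
  set N : Matrix ι ι F := t - 1 with hN
  obtain ⟨a, b, hab⟩ : ∃ a b : ι → F, N = Matrix.vecMulVec a b := by
    have h1 : Module.finrank F (LinearMap.range N.mulVecLin) = 1 := hrank
    obtain ⟨⟨a, ha⟩, ha0, hall⟩ := finrank_eq_one_iff'.1 h1
    have hcol : ∀ j, ∃ c : F, c • a = N.mulVecLin (Pi.single j 1) := by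
      intro j
      obtain ⟨c, hc⟩ := hall ⟨N.mulVecLin (Pi.single j 1), LinearMap.mem_range_self _ _⟩
      exact ⟨c, congrArg Subtype.val hc⟩
    choose b hb using hcol
    refine ⟨a, b, ?_⟩
    ext i j
    have h2 := congrFun (hb j) i
    simp only [Pi.smul_apply, smul_eq_mul, Matrix.mulVecLin_apply, Matrix.mulVec_single_one,
      Matrix.col_apply] at h2
    rw [← h2, Matrix.vecMulVec_apply, mul_comm]
  have hN0 : N ≠ 0 := by
    intro h0
    rw [h0, Matrix.rank_zero] at hrank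
    exact zero_ne_one hrank
  have hb0 : b ≠ 0 := by
    rintro rfl
    apply hN0
    rw [hab]
    ext i j
    simp [Matrix.vecMulVec_apply]
  have ha0 : a ≠ 0 := by
    rintro rfl
    apply hN0
    rw [hab]
    ext i j
    simp [Matrix.vecMulVec_apply]
  have hdot : b ⬝ᵥ a = 0 := by
    rw [hab, Matrix.vecMulVec_mul_vecMulVec] at hsq
    rcases Matrix.vecMulVec_eq_zero.1 hsq with h2 | h2
    · exact absurd h2 ha0
    · rcases smul_eq_zero.1 h2 with h3 | h3
      · exact h3
      · exact absurd h3 hb0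
  refine ⟨a, b, ha0, hb0, hdot, ?_⟩
  rw [← hab, hN]; abel

/-- the converse -/
theorem isTransvection_of (a b : ι → F) (ha : a ≠ 0) (hb : b ≠ 0) (hd : b ⬝ᵥ a = 0) :
    Cfsg.IsTransvection (1 + Matrix.vecMulVec a b) := by
  classical
  constructor
  · rw [add_sub_cancel_left]
    apply le_antisymm (Matrix.rank_vecMulVec_le a b)
    have hne : Matrix.vecMulVec a b ≠ 0 := Matrix.vecMulVec_ne_zero ha hb
    by_contra hlt
    have h0 : (Matrix.vecMulVec a b).rank = 0 := by omega
    have h1 : LinearMap.range (Matrix.vecMulVec a b).mulVecLin = ⊥ :=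
      Submodule.finrank_eq_zero.mp h0
    apply hne
    ext i j
    have h2 : (Matrix.vecMulVec a b).mulVecLin (Pi.single j 1) ∈ LinearMap.range (Matrix.vecMulVec a b).mulVecLin :=
      LinearMap.mem_range_self _ _
    rw [h1, Submodule.mem_bot] at h2
    have h3 := congrFun h2 i
    simpa using h3
  · rw [add_sub_cancel_left, Matrix.vecMulVec_mul_vecMulVec, hd]
    simp

/-- The element `1 + a bᵀ`. -/
def trv (a b : ι → F) (h : b ⬝ᵥ a = 0) : GL ι F where
  val := 1 + Matrix.vecMulVec a b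
  inv := 1 - Matrix.vecMulVec a b
  val_inv := by
    rw [Matrix.add_mul, Matrix.mul_sub, Matrix.mul_sub, Matrix.vecMulVec_mul_vecMulVec, h]
    simp
  inv_val := by
    rw [Matrix.sub_mul, Matrix.mul_add, Matrix.mul_add, Matrix.vecMulVec_mul_vecMulVec, h]
    simp

theorem det_trv (a b : ι → F) (h : b ⬝ᵥ a = 0) :
    (1 + Matrix.vecMulVec a b : Matrix ι ι F).det = 1 := by
  rw [Matrix.vecMulVec_eq Unit, Matrix.det_one_add_replicateCol_mul_replicateRow, h, add_zero]

/-- any transvection is `GL`-conjugate to a standard one -/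
theorem conj_std {k : ℕ} (t : GL (Fin (k + 2)) F) (ht : Cfsg.IsTransvection (t : Matrix (Fin (k + 2)) (Fin (k + 2)) F)) :
    ∃ (g : GL (Fin (k + 2)) F) (v : Fin (k + 2) → F), v 0 = 0 ∧ v ≠ 0 ∧
      ((g⁻¹ * t * g : GL (Fin (k + 2)) F) : Matrix (Fin (k + 2)) (Fin (k + 2)) F) = Cfsg.Agent.S2579.MM v := by
  classical
  obtain ⟨a, b, ha, hb, hd, hab⟩ := exists_factor _ ht
  have hdet : (t : Matrix (Fin (k + 2)) (Fin (k + 2)) F).det = 1 := by
    rw [hab]; exact det_trv a b hd
  let t' : Matrix.SpecialLinearGroup (Fin (k + 2)) F := ⟨t, hdet⟩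
  obtain ⟨g, v, hv0, hv⟩ := Cfsg.Agent.S0839.result k t' ht
  refine ⟨Matrix.SpecialLinearGroup.toGL g, v, hv0, ?_, ?_⟩
  · rintro rfl
    have h0 : (g⁻¹ * t' * g : Matrix.SpecialLinearGroup (Fin (k + 2)) F) = 1 := by
      apply Subtype.ext
      rw [hv]
      simp [Matrix.vecMulVec]
      rfl
    have hu1 : t' = 1 := by
      have : t' = g * (g⁻¹ * t' * g) * g⁻¹ := by group
      rw [this, h0]; group
    have h1 := ht.1
    have h2 : (t : Matrix (Fin (k + 2)) (Fin (k + 2)) F) = 1 := congrArg Subtype.val hu1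
    rw [h2] at h1
    simp at h1
  · have e1 : ((Matrix.SpecialLinearGroup.toGL g)⁻¹ * t * Matrix.SpecialLinearGroup.toGL g : GL (Fin (k + 2)) F) =
        Matrix.SpecialLinearGroup.toGL (g⁻¹ * t' * g) := by
      apply Units.ext
      simp only [map_mul, map_inv]
      rfl
    rw [e1]
    exact hv

/-- two standard transvections are `GL`-conjugate -/
theorem conj_std2 {k : ℕ} (v v' : Fin (k + 2) → F) (hv0 : v 0 = 0) (hv'0 : v' 0 = 0) (hv : v ≠ 0) (hv' : v' ≠ 0) :
    ∃ c : GL (Fin (k + 2)) F, (c : Matrix _ _ F) * Cfsg.Agent.S2579.MM v = Cfsg.Agent.S2579.MM v' * (c : Matrix _ _ F) := by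
  classical
  by_cases hind : v ∉ Submodule.span F {v'} ∧ v' ∉ Submodule.span F {v}
  · obtain ⟨c, hc⟩ := Cfsg.Agent.S2579.step v v' hv0 hv'0 hind.1 hind.2
    exact ⟨Matrix.SpecialLinearGroup.toGL c, hc⟩
  · -- scalar multiple
    obtain ⟨c, hc0, hcv⟩ : ∃ c : F, c ≠ 0 ∧ v' = c • v := by
      have hdep : v ∈ Submodule.span F {v'} ∨ v' ∈ Submodule.span F {v} := by tauto
      rcases hdep with h | h
      · obtain ⟨a, rfl⟩ := Submodule.mem_span_singleton.mp h
        have ha : a ≠ 0 := by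
          rintro rfl
          exact hv (zero_smul _ _)
        exact ⟨a⁻¹, inv_ne_zero ha, by rw [smul_smul, inv_mul_cancel₀ ha, one_smul]⟩
      · obtain ⟨a, rfl⟩ := Submodule.mem_span_singleton.mp h
        have ha : a ≠ 0 := by
          rintro rfl
          exact hv' (zero_smul _ _)
        exact ⟨a, ha, rfl⟩
    let d : Fin (k + 2) → F := fun i => if i = 0 then 1 else c
    let di : Fin (k + 2) → F := fun i => if i = 0 then 1 else c⁻¹
    have hd1 : Matrix.diagonal d * Matrix.diagonal di = 1 := by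
      rw [Matrix.diagonal_mul_diagonal, ← Matrix.diagonal_one]
      congr 1
      ext i
      by_cases hi : i = 0 <;> simp [d, di, hi, hc0]
    have hd2 : Matrix.diagonal di * Matrix.diagonal d = 1 := by
      rw [Matrix.diagonal_mul_diagonal, ← Matrix.diagonal_one]
      congr 1
      ext i
      by_cases hi : i = 0 <;> simp [d, di, hi, hc0]
    refine ⟨⟨Matrix.diagonal d, Matrix.diagonal di, hd1, hd2⟩, ?_⟩
    show Matrix.diagonal d * Cfsg.Agent.S2579.MM v = Cfsg.Agent.S2579.MM v' * Matrix.diagonal d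
    apply Cfsg.Agent.Lib.Transvection.matrix_ext_mulVec
    intro x
    rw [← Matrix.mulVec_mulVec, ← Matrix.mulVec_mulVec, Cfsg.Agent.S2579.mm_mulVec, Cfsg.Agent.S2579.mm_mulVec]
    ext i
    simp only [Matrix.mulVec_add, Matrix.mulVec_smul, Matrix.mulVec_diagonal, Pi.add_apply, Pi.smul_apply, smul_eq_mul, hcv]
    have h0 : d 0 = 1 := by simp [d]
    rw [h0]
    by_cases hi : i = 0
    · subst hi; simp [hv0, d]
    · simp [d, hi]
      ring

/-- any two transvections are `GL`-conjugate -/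
theorem isConj_of_transvection {k : ℕ} (s t : GL (Fin (k + 2)) F)
    (hs : Cfsg.IsTransvection (s : Matrix (Fin (k + 2)) (Fin (k + 2)) F))
    (ht : Cfsg.IsTransvection (t : Matrix (Fin (k + 2)) (Fin (k + 2)) F)) : IsConj s t := by
  obtain ⟨g1, v1, hv10, hv1, h1⟩ := conj_std s hs
  obtain ⟨g2, v2, hv20, hv2, h2⟩ := conj_std t ht
  obtain ⟨c, hc⟩ := conj_std2 v1 v2 hv10 hv20 hv1 hv2
  have hconj1 : IsConj s (g1⁻¹ * s * g1) := isConj_iff.mpr ⟨g1⁻¹, by group⟩
  have hconj2 : IsConj t (g2⁻¹ * t * g2) := isConj_iff.mpr ⟨g2⁻¹, by group⟩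
  have hconj3 : IsConj (g1⁻¹ * s * g1) (g2⁻¹ * t * g2) := by
    rw [isConj_iff]
    refine ⟨c, ?_⟩
    have : c * (g1⁻¹ * s * g1) = (g2⁻¹ * t * g2) * c := by
      apply Units.ext
      rw [Units.val_mul, Units.val_mul _ c, h1, h2]
      exact hc
    rw [this]; group
  exact (hconj1.trans hconj3).trans hconj2.symm

/-- conjugates of transvections are transvections -/
theorem isTransvection_conj (g t : GL ι F) (ht : Cfsg.IsTransvection (t : Matrix ι ι F)) :
    Cfsg.IsTransvection ((g * t * g⁻¹ : GL ι F) : Matrix ι ι F) := by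
  obtain ⟨hr, hs⟩ := ht
  have e : ((g * t * g⁻¹ : GL ι F) : Matrix ι ι F) - 1 = (g : Matrix ι ι F) * ((t : Matrix ι ι F) - 1) * ((g⁻¹ : GL ι F) : Matrix ι ι F) := by
    rw [Matrix.mul_sub, Matrix.sub_mul, Matrix.mul_one, Units.val_mul, Units.val_mul, Units.mul_inv]
  constructor
  · rw [e]
    rw [Matrix.rank_mul_eq_left_of_isUnit_det, Matrix.rank_mul_eq_right_of_isUnit_det]
    · exact hr
    · exact (Matrix.isUnit_iff_isUnit_det _).mp g.isUnit
    · exact (Matrix.isUnit_iff_isUnit_det _).mp (g⁻¹).isUnit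
  · rw [e]
    calc (g : Matrix ι ι F) * ((t : Matrix ι ι F) - 1) * ((g⁻¹ : GL ι F) : Matrix ι ι F) * ((g : Matrix ι ι F) * ((t : Matrix ι ι F) - 1) * ((g⁻¹ : GL ι F) : Matrix ι ι F))
        = (g : Matrix ι ι F) * ((t : Matrix ι ι F) - 1) * (((g⁻¹ : GL ι F) : Matrix ι ι F) * (g : Matrix ι ι F)) * ((t : Matrix ι ι F) - 1) * ((g⁻¹ : GL ι F) : Matrix ι ι F) := by
          simp only [Matrix.mul_assoc]
      _ = (g : Matrix ι ι F) * (((t : Matrix ι ι F) - 1) * ((t : Matrix ι ι F) - 1)) * ((g⁻¹ : GL ι F) : Matrix ι ι F) := by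
          rw [Units.inv_mul]; simp only [Matrix.mul_assoc, Matrix.mul_one]
      _ = 0 := by rw [hs]; simp

/-- the set of transvections has size the index of the centralizer of any one of them -/
theorem card_T_mul_card_centralizer {k : ℕ} [Fintype F] (t : GL (Fin (k + 2)) F)
    (ht : Cfsg.IsTransvection (t : Matrix (Fin (k + 2)) (Fin (k + 2)) F)) :
    Nat.card {g : GL (Fin (k + 2)) F // Cfsg.IsTransvection (g : Matrix (Fin (k + 2)) (Fin (k + 2)) F)} *
      Nat.card ↥(Subgroup.centralizer ({t} : Set (GL (Fin (k + 2)) F))) = Nat.card (GL (Fin (k + 2)) F) := by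
  classical
  letI : Fintype (GL (Fin (k + 2)) F) := Fintype.ofFinite _
  have h1 := Cfsg.Agent.Lib.SylowTI.card_class t
  have h2 : Nat.card {g : GL (Fin (k + 2)) F // Cfsg.IsTransvection (g : Matrix (Fin (k + 2)) (Fin (k + 2)) F)} =
      (Finset.univ.image (fun g : GL (Fin (k + 2)) F => g * t * g⁻¹)).card := by
    rw [Nat.card_eq_fintype_card]
    apply Fintype.card_of_subtype
    intro g
    simp only [Finset.mem_image, Finset.mem_univ, true_and]
    constructor
    · rintro ⟨h, rfl⟩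
      exact isTransvection_conj h t ht
    · intro hg
      obtain ⟨c, hc⟩ := isConj_iff.mp (isConj_of_transvection t g ht hg)
      exact ⟨c, hc⟩
  rw [h2, h1]
  exact Subgroup.index_mul_card _

/-- Fibres of `(a, b) ↦ a bᵀ`. -/
theorem vecMulVec_eq_iff (a b a' b' : ι → F) (ha : a ≠ 0) (hb : b ≠ 0)
    (h : Matrix.vecMulVec a' b' = Matrix.vecMulVec a b) : ∃ c : F, c ≠ 0 ∧ a' = c • a ∧ b' = c⁻¹ • b := by
  classical
  obtain ⟨j, hj⟩ := Function.ne_iff.mp hb
  obtain ⟨i, hi⟩ := Function.ne_iff.mp ha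
  have hj' : b j ≠ 0 := hj
  have hi' : a i ≠ 0 := hi
  have hij : a' i * b' j = a i * b j := by
    have := congrFun (congrFun h i) j
    simpa [Matrix.vecMulVec_apply] using this
  have hai : a' i ≠ 0 := by
    intro h0
    rw [h0, zero_mul] at hij
    exact mul_ne_zero hi' hj' hij.symm
  have hbj : b' j ≠ 0 := by
    intro h0
    rw [h0, mul_zero] at hij
    exact mul_ne_zero hi' hj' hij.symm
  refine ⟨a' i / a i, div_ne_zero hai hi', ?_, ?_⟩
  · ext x
    have := congrFun (congrFun h x) j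
    simp only [Matrix.vecMulVec_apply] at this
    simp only [Pi.smul_apply, smul_eq_mul]
    have e : b j = a' i * b' j / a i := by rw [hij]; field_simp
    rw [e] at this
    field_simp at this ⊢
    linear_combination this
  · ext x
    have := congrFun (congrFun h i) x
    simp only [Matrix.vecMulVec_apply] at this
    simp only [Pi.smul_apply, smul_eq_mul, inv_div]
    field_simp
    linear_combination this

/-- The count of pairs. -/
theorem card_pairs {n : ℕ} [Fintype F] {q : ℕ} (hF : Fintype.card F = q) (hn : 1 ≤ n) :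
    Nat.card {p : (Fin n → F) × (Fin n → F) // p.1 ≠ 0 ∧ p.2 ≠ 0 ∧ p.2 ⬝ᵥ p.1 = 0} = (q ^ n - 1) * (q ^ (n - 1) - 1) := by
  classical
  have hfib : ∀ b : {b : Fin n → F // b ≠ 0}, Nat.card {a : Fin n → F // a ≠ 0 ∧ (b : Fin n → F) ⬝ᵥ a = 0} = q ^ (n - 1) - 1 := by
    rintro ⟨b, hb⟩
    let φ : (Fin n → F) →ₗ[F] F :=
      { toFun := fun a => b ⬝ᵥ a
        map_add' := fun x y => by simp [dotProduct_add]
        map_smul' := fun c x => by simp [dotProduct_smul] }
    have hφ : φ ≠ 0 := by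
      intro h0
      apply hb
      ext j
      have := congrArg (fun f => f (Pi.single j 1)) h0
      simpa [φ] using this
    have hker := Module.Dual.finrank_ker_add_one_of_ne_zero (f := φ) hφ
    rw [Module.finrank_fin_fun] at hker
    have hKcard : Fintype.card (LinearMap.ker φ) = q ^ (n - 1) := by
      have := Module.card_eq_pow_finrank (K := F) (V := LinearMap.ker φ)
      rw [this, hF]
      congr 1
      omega
    have e : {a : Fin n → F // a ≠ 0 ∧ b ⬝ᵥ a = 0} ≃ {x : LinearMap.ker φ // x ≠ 0} :=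
      { toFun := fun a => ⟨⟨a.1, LinearMap.mem_ker.mpr a.2.2⟩, fun h => a.2.1 (congrArg Subtype.val h)⟩
        invFun := fun x => ⟨x.1.1, fun h => x.2 (Subtype.ext h), LinearMap.mem_ker.mp x.1.2⟩
        left_inv := fun a => rfl
        right_inv := fun x => rfl }
    rw [Nat.card_congr e, Nat.card_eq_fintype_card, Fintype.card_subtype_compl, hKcard]
    simp
  have e : {p : (Fin n → F) × (Fin n → F) // p.1 ≠ 0 ∧ p.2 ≠ 0 ∧ p.2 ⬝ᵥ p.1 = 0} ≃
      Σ b : {b : Fin n → F // b ≠ 0}, {a : Fin n → F // a ≠ 0 ∧ (b : Fin n → F) ⬝ᵥ a = 0} :=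
    { toFun := fun p => ⟨⟨p.1.2, p.2.2.1⟩, ⟨p.1.1, p.2.1, p.2.2.2⟩⟩
      invFun := fun x => ⟨(x.2.1, x.1.1), x.2.2.1, x.1.2, x.2.2.2⟩
      left_inv := fun p => rfl
      right_inv := fun x => rfl }
  rw [Nat.card_congr e, Nat.card_sigma]
  simp only [hfib]
  rw [Finset.sum_const, smul_eq_mul, Finset.card_univ, ← Nat.card_eq_fintype_card]
  congr 1
  rw [Nat.card_eq_fintype_card, Fintype.card_subtype_compl]
  simp [hF]

/-- The relation between transvections and pairs. -/
theorem card_pairs_eq {n : ℕ} [Fintype F] {q : ℕ} (hF : Fintype.card F = q) :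
    Nat.card {p : (Fin n → F) × (Fin n → F) // p.1 ≠ 0 ∧ p.2 ≠ 0 ∧ p.2 ⬝ᵥ p.1 = 0} =
      Nat.card {g : GL (Fin n) F // Cfsg.IsTransvection (g : Matrix (Fin n) (Fin n) F)} * (q - 1) := by
  classical
  let P := {p : (Fin n → F) × (Fin n → F) // p.1 ≠ 0 ∧ p.2 ≠ 0 ∧ p.2 ⬝ᵥ p.1 = 0}
  let T := {g : GL (Fin n) F // Cfsg.IsTransvection (g : Matrix (Fin n) (Fin n) F)}
  let π : P → T := fun p => ⟨trv p.1.1 p.1.2 p.2.2.2, isTransvection_of _ _ p.2.1 p.2.2.1 p.2.2.2⟩
  have hfib : ∀ t : T, Nat.card {p : P // π p = t} = q - 1 := by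
    intro t
    obtain ⟨a, b, ha, hb, hd, hab⟩ := exists_factor _ t.2
    -- equivalence with the units
    let Ψ : Fˣ → {p : P // π p = t} := fun c =>
      ⟨⟨((c : F) • a, ((c⁻¹ : Fˣ) : F) • b), by
          refine ⟨smul_ne_zero c.ne_zero ha, smul_ne_zero (c⁻¹).ne_zero hb, ?_⟩
          simp only [smul_dotProduct, dotProduct_smul, hd, smul_zero]⟩, by
        apply Subtype.ext
        apply Units.ext
        show 1 + Matrix.vecMulVec ((c : F) • a) (((c⁻¹ : Fˣ) : F) • b) = (t.1 : Matrix (Fin n) (Fin n) F)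
        rw [hab, Matrix.smul_vecMulVec, Matrix.vecMulVec_smul, smul_smul]
        simp⟩
    have hinj : Function.Injective Ψ := by
      intro c c' h
      have h1 : (c : F) • a = (c' : F) • a := congrArg (fun x => x.1.1.1) h
      obtain ⟨i, hi⟩ := Function.ne_iff.mp ha
      have hi' : a i ≠ 0 := hi
      have h2 := congrFun h1 i
      simp only [Pi.smul_apply, smul_eq_mul] at h2
      exact Units.ext (mul_right_cancel₀ hi' h2)
    have hsurj : Function.Surjective Ψ := by
      rintro ⟨p, hp⟩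
      have h1 : (1 + Matrix.vecMulVec p.1.1 p.1.2 : Matrix (Fin n) (Fin n) F) = t.1 := by
        have := congrArg (fun x : T => (x.1 : Matrix (Fin n) (Fin n) F)) hp
        exact this
      rw [hab] at h1
      have h2 := add_left_cancel h1
      obtain ⟨c, hc, h3, h4⟩ := vecMulVec_eq_iff a b p.1.1 p.1.2 ha hb h2
      refine ⟨Units.mk0 c hc, ?_⟩
      apply Subtype.ext
      apply Subtype.ext
      apply Prod.ext
      · exact h3.symm
      · exact h4.symm
    rw [← Nat.card_congr (Equiv.ofBijective Ψ ⟨hinj, hsurj⟩)]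
    rw [Nat.card_units, Nat.card_eq_fintype_card, hF]
  have e := Equiv.sigmaFiberEquiv π
  rw [← Nat.card_congr e]
  letI : Fintype T := Fintype.ofFinite _
  rw [Nat.card_sigma]
  simp only [hfib]
  rw [Finset.sum_const, smul_eq_mul, Finset.card_univ, Nat.card_eq_fintype_card]

end Cfsg.Agent.Lib.TransvCount
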