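/-
Transvections of the special unitary group are conjugate.
-/
import Mathlib
import Cfsg.Agent.Lib.GURegU
import Cfsg.Agent.Lib.TransvCount

set_option autoImplicit false
set_option linter.all false

open scoped Matrix
open Matrix

namespace Cfsg.Agent.Lib.GUTransv

open Cfsg
open Cfsg.Agent.Lib.GUConj Cfsg.Agent.Lib.GURegU Cfsg.Agent.Lib.UnitaryBase

universe u

variable {K : Type u} [Field K] {q n : ℕ}

/-- A hyperplane of the unitary space of dimension at least three contains an anisotropic vector. -/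
theorem exists_aniso_hyper [Fintype K] (hF : Fintype.card K = q ^ 2) {σ : K ≃+* K} (hσ : ∀ x, σ x = x ^ q)
    (hn : 3 ≤ n) (b : Fin n → K) (hb : b ≠ 0) : ∃ y, b ⬝ᵥ y = 0 ∧ hermForm n K q y y ≠ 0 := by
  classical
  by_contra hcon
  push Not at hcon
  have hf := Cfsg.Agent.Lib.UnitaryHerm.hermForm_isUnitary (n := n) hF hσ
  set f := hermForm n K q with hfdef
  have hfd : ∀ x y, f x y = x ⬝ᵥ (fun i => σ (y i)) := by
    intro x y
    simp [hfdef, hermForm, dotProduct, hσ]
  obtain ⟨ε, hε⟩ : ∃ ε : K, σ ε ≠ ε := by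
    by_contra hc
    push Not at hc
    exact hf.ne_refl (RingEquiv.ext fun x => hc x)
  have polar : ∀ u v, b ⬝ᵥ u = 0 → b ⬝ᵥ v = 0 → f u v = 0 := by
    intro u v hu hv
    have key : ∀ c, c * f v u + σ c * f u v = 0 := by
      intro c
      have h1 := hcon (u + c • v) (by rw [dotProduct_add, dotProduct_smul, hu, hv]; simp)
      rw [hf.add_left, f_add_right hf, f_add_right hf, hf.smul_left, hf.smul_left, f_smul_right hf, f_smul_right hf,
        hcon u hu, hcon v hv] at h1
      linear_combination h1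
    have h1 := key 1
    rw [map_one, one_mul, one_mul] at h1
    have h2 := key ε
    have h3 : (σ ε - ε) * f u v = 0 := by linear_combination h2 - ε * h1
    exact (mul_eq_zero.1 h3).resolve_left (sub_ne_zero.2 hε)
  obtain ⟨i, hi⟩ := Function.ne_iff.1 hb
  have hi' : b i ≠ 0 := hi
  set z : Fin n → K := (b i)⁻¹ • Pi.single i 1 with hz
  have hbz : b ⬝ᵥ z = 1 := by
    rw [hz, dotProduct_smul]
    simp [hi']
  have hcoord : ∀ u, b ⬝ᵥ u = 0 → ∀ j, σ (u j) = b j * f z u := by
    intro u hu j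
    have h1 : b ⬝ᵥ ((Pi.single j 1 : Fin n → K) - (b j) • z) = 0 := by
      rw [dotProduct_sub, dotProduct_smul, hbz]
      simp
    have h2 := polar _ u h1 hu
    rw [f_sub_left hf, hf.smul_left] at h2
    have h3 : f (Pi.single j 1) u = σ (u j) := by
      rw [hfd]
      simp
    rw [h3] at h2
    linear_combination h2
  have hcard : 1 < (Finset.univ.erase i).card := by
    rw [Finset.card_erase_of_mem (Finset.mem_univ i), Finset.card_univ, Fintype.card_fin]
    omega
  obtain ⟨j, hj, l, hl, hjl⟩ := Finset.one_lt_card.1 hcard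
  have hji : j ≠ i := (Finset.mem_erase.1 hj).1
  have hli : l ≠ i := (Finset.mem_erase.1 hl).1
  let mk : Fin n → Fin n → K := fun a => (Pi.single a 1 : Fin n → K) - (b a / b i) • (Pi.single i 1 : Fin n → K)
  have hmk : ∀ a, b ⬝ᵥ mk a = 0 := by
    intro a
    simp only [mk]
    rw [dotProduct_sub, dotProduct_smul]
    simp [hi']
  have h1 := hcoord (mk j) (hmk j) j
  have h2 := hcoord (mk l) (hmk l) j
  have h3 := hcoord (mk l) (hmk l) l
  have e1 : mk j j = 1 := by simp [mk, Pi.single_eq_of_ne hji]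
  have e2 : mk l j = 0 := by simp [mk, Pi.single_eq_of_ne hjl, Pi.single_eq_of_ne hji]
  have e3 : mk l l = 1 := by simp [mk, Pi.single_eq_of_ne hli]
  rw [e1, map_one] at h1
  rw [e2, map_zero] at h2
  rw [e3, map_one] at h3
  have hbj : b j ≠ 0 := by
    intro h0
    rw [h0, zero_mul] at h1
    exact one_ne_zero h1
  have h4 : f z (mk l) = 0 := (mul_eq_zero.1 h2.symm).resolve_left hbj
  rw [h4, mul_zero] at h3
  exact one_ne_zero h3

theorem mulVec_add_vecMulVec (a b v : Fin n → K) : (1 + vecMulVec a b) *ᵥ v = v + (b ⬝ᵥ v) • a := by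
  rw [Matrix.add_mulVec, Matrix.one_mulVec]
  congr 1
  ext i
  simp only [Matrix.mulVec, dotProduct, vecMulVec_apply, Pi.smul_apply, smul_eq_mul]
  rw [Finset.sum_mul]
  apply Finset.sum_congr rfl
  intro j _
  ring

/-- An element of the unitary group commuting with a transvection and having a given determinant. -/
theorem exists_comm_det [Fintype K] (hF : Fintype.card K = q ^ 2) {σ : K ≃+* K} (hσ : ∀ x, σ x = x ^ q)
    (hn : 3 ≤ n) (a b : Fin n → K) (hb : b ≠ 0) (s : GL (Fin n) K)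
    (hs : (s : Matrix (Fin n) (Fin n) K) = 1 + vecMulVec a b) (hsU : s ∈ GU n K q) (d : Kˣ) (hd : (d : K) ^ (q + 1) = 1) :
    ∃ c : GL (Fin n) K, c ∈ GU n K q ∧ c * s = s * c ∧ Matrix.GeneralLinearGroup.det c = d := by
  classical
  have hσ2 : ∀ a, σ (σ a) = a := by
    intro a
    rw [hσ, hσ, Cfsg.Agent.Lib.UnitaryHerm.pow_q_q hF]
  have hf := Cfsg.Agent.Lib.UnitaryHerm.hermForm_isUnitary (n := n) hF hσ
  obtain ⟨y, hby, hyy⟩ := exists_aniso_hyper hF hσ hn b hb
  set f := hermForm n K q with hfdef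
  have hfd : ∀ x y, f x y = x ⬝ᵥ (fun i => σ (y i)) := by
    intro x y
    simp [hfdef, hermForm, dotProduct, hσ]
  set d₀ := f y y with hd₀
  set w : Fin n → K := fun i => σ (y i) with hw
  have hwy : w ⬝ᵥ y = d₀ := by
    rw [hd₀, hfd, dotProduct_comm]
  set E : Matrix (Fin n) (Fin n) K := vecMulVec y w with hE
  set β : K := ((d : K) - 1) / d₀ with hβ
  have hSE : St σ E = E := by
    ext i j
    simp [St_apply, hE, vecMulVec_apply, hw, hσ2, mul_comm]
  have hEE : E * E = d₀ • E := by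
    rw [hE, vecMulVec_mul_vecMulVec, hwy, vecMulVec_smul]
  have hσd₀ : σ d₀ = d₀ := f_self_fix hf y
  have hdd : σ (d : K) * (d : K) = 1 := by
    rw [hσ, ← pow_succ]
    exact hd
  have hβd : β * d₀ = (d : K) - 1 := by
    rw [hβ]
    field_simp
  have hσβd : σ β * d₀ = σ (d : K) - 1 := by
    have h1 := congrArg σ hβd
    rw [map_mul, hσd₀, map_sub, map_one] at h1
    exact h1
  have hcoef : σ β + β + σ β * β * d₀ = 0 := by
    have h1 : (σ β + β + σ β * β * d₀) * d₀ = 0 := by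
      have h2 : (σ β + β + σ β * β * d₀) * d₀ = σ β * d₀ + β * d₀ + (σ β * d₀) * (β * d₀) := by ring
      rw [h2, hβd, hσβd]
      linear_combination hdd
    exact (mul_eq_zero.1 h1).resolve_right hyy
  set C : Matrix (Fin n) (Fin n) K := 1 + β • E with hC
  have hSC : St σ C = 1 + σ β • E := by
    rw [hC, map_add, St_one, Cfsg.Agent.Lib.GUJordan.St_smul, hSE]
  have hu : St σ C * C = 1 := by
    rw [hSC, hC]
    have h1 : (1 + σ β • E) * (1 + β • E) = 1 + (σ β + β + σ β * β * d₀) • E := by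
      rw [add_mul, mul_add, mul_add, one_mul, one_mul, mul_one, smul_mul_smul_comm, hEE, smul_smul, add_smul, add_smul]
      abel
    rw [h1, hcoef, zero_smul, add_zero]
  let c : GL (Fin n) K := ⟨C, St σ C, mul_eq_one_comm.1 hu, hu⟩
  refine ⟨c, (mem_GU_iff_St hF hσ c).2 hu, ?_, ?_⟩
  · obtain ⟨i, hi⟩ := Function.ne_iff.1 hb
    have hi' : b i ≠ 0 := hi
    set z : Fin n → K := (b i)⁻¹ • Pi.single i 1 with hz
    have hbz : b ⬝ᵥ z = 1 := by
      rw [hz, dotProduct_smul]
      simp [hi']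
    have hwa : w ⬝ᵥ a = 0 := by
      have h1 : f ((s : Matrix (Fin n) (Fin n) K) *ᵥ z) ((s : Matrix (Fin n) (Fin n) K) *ᵥ y) = f z y := hsU z y
      rw [hs, mulVec_add_vecMulVec, mulVec_add_vecMulVec, hby, hbz, zero_smul, add_zero, one_smul, hf.add_left] at h1
      have h2 : f a y = 0 := by linear_combination h1
      rw [hfd] at h2
      rw [dotProduct_comm]
      exact h2
    apply Units.ext
    show C * (s : Matrix (Fin n) (Fin n) K) = (s : Matrix (Fin n) (Fin n) K) * C
    have hNE : vecMulVec a b * E = 0 := by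
      rw [hE, vecMulVec_mul_vecMulVec, hby, zero_smul]
      ext i j
      simp [vecMulVec_apply]
    have hEN : E * vecMulVec a b = 0 := by
      rw [hE, vecMulVec_mul_vecMulVec, hwa, zero_smul]
      ext i j
      simp [vecMulVec_apply]
    rw [hs, hC]
    simp only [add_mul, mul_add, one_mul, mul_one, smul_mul_assoc, mul_smul_comm, hNE, hEN, smul_zero, add_zero]
    abel
  · apply Units.ext
    show C.det = (d : K)
    have h1 : C = 1 + replicateCol Unit (β • y) * replicateRow Unit w := by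
      rw [hC, hE, ← vecMulVec_eq, smul_vecMulVec]
    rw [h1, det_one_add_replicateCol_mul_replicateRow, dotProduct_smul, hwy, smul_eq_mul, hβd]
    ring

theorem su_transv_conj [Fintype K] (hF : Fintype.card K = q ^ 2) (hn : 3 ≤ n) (s t : SU n K q)
    (hs : IsTransvection (((s : GL (Fin n) K) : Matrix (Fin n) (Fin n) K)))
    (ht : IsTransvection (((t : GL (Fin n) K) : Matrix (Fin n) (Fin n) K))) : IsConj s t := by
  classical
  obtain ⟨k, rfl⟩ : ∃ k, n = k + 2 := ⟨n - 2, by omega⟩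
  obtain ⟨σ, hσ⟩ := Cfsg.Agent.Lib.UnitaryHerm.exists_sigma hF
  obtain ⟨g, hg⟩ := isConj_iff.1 (Cfsg.Agent.Lib.TransvCount.isConj_of_transvection (s : GL (Fin (k + 2)) K) (t : GL (Fin (k + 2)) K) hs ht)
  obtain ⟨g', hg', he⟩ := exists_GU_conj hF (s : GL (Fin (k + 2)) K) (t : GL (Fin (k + 2)) K) g (fromSU s).2 (fromSU t).2 hg
  obtain ⟨a, b, _, hb, _, hab⟩ := Cfsg.Agent.Lib.TransvCount.exists_factor _ hs
  have hd : ((Matrix.GeneralLinearGroup.det g' : Kˣ) : K) ^ (q + 1) = 1 :=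
    Cfsg.Agent.Lib.GUQuot.det_pow_of_mem hF hσ hg'
  obtain ⟨c, hcU, hcs, hcd⟩ := exists_comm_det hF hσ hn a b hb (s : GL (Fin (k + 2)) K) hab (fromSU s).2 _ hd
  let x : GU (k + 2) K q := ⟨g', hg'⟩ * (⟨c, hcU⟩ : GU (k + 2) K q)⁻¹
  have hx : dU hF x = 1 := by
    apply Subtype.ext
    show Matrix.GeneralLinearGroup.det (g' * c⁻¹) = 1
    rw [map_mul, map_inv, hcd, mul_inv_cancel]
  refine isConj_iff.2 ⟨toSU hF x hx, ?_⟩
  apply fromSU_injective
  simp only [map_mul, map_inv, fromSU_toSU]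
  apply Subtype.ext
  show (g' * c⁻¹) * (s : GL (Fin (k + 2)) K) * (g' * c⁻¹)⁻¹ = (t : GL (Fin (k + 2)) K)
  rw [← he]
  have h1 : c⁻¹ * (s : GL (Fin (k + 2)) K) * c = (s : GL (Fin (k + 2)) K) := by
    rw [mul_assoc, hcs.symm, inv_mul_cancel_left]
  calc (g' * c⁻¹) * (s : GL (Fin (k + 2)) K) * (g' * c⁻¹)⁻¹ = g' * (c⁻¹ * (s : GL (Fin (k + 2)) K) * c) * g'⁻¹ := by group
    _ = g' * (s : GL (Fin (k + 2)) K) * g'⁻¹ := by rw [h1]

end Cfsg.Agent.Lib.GUTransv
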