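import Cfsg.Agent.Lib.CharCop
import Cfsg.Agent.Lib.SchurZ
import Cfsg.Agent.Lib.CharGalois2
import Cfsg.Agent.Lib.CharIso

/-!
# The Glauberman correspondence for a cyclic group of operators
-/

set_option autoImplicit false
set_option linter.all false

namespace Cfsg.Agent.Lib.GlauCyc

open Cfsg Cfsg.Agent.Lib.CharOps Cfsg.Agent.Lib.CharIrr Cfsg.Agent.Lib.CharDet Cfsg.Agent.Lib.CharDet2
  Cfsg.Agent.Lib.CharDet3 Cfsg.Agent.Lib.CharAb Cfsg.Agent.Lib.CharGal Cfsg.Agent.Lib.CharBlockDefect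
open scoped ComplexConjugate

universe u

section CosetFormula

variable {Γ : Type u} [Group Γ] [Fintype Γ] (G : Subgroup Γ) [hG : G.Normal] (x : Γ)
  (hcop : (Nat.card G).Coprime (orderOf x))
include hcop

theorem exists_crt : ∃ a : ℕ, Nat.card G ∣ a ∧ x ^ a = x := by
  obtain ⟨a, h0, h1⟩ := Nat.chineseRemainder hcop 0 1
  refine ⟨a, (Nat.modEq_zero_iff_dvd.mp h0), ?_⟩
  have h2 : x ^ a = x ^ 1 := pow_eq_pow_iff_modEq.mpr h1
  rwa [pow_one] at h2

theorem inf_zpowers_eq_bot : G ⊓ Subgroup.zpowers x = ⊥ := by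
  apply Subgroup.inf_eq_bot_of_coprime
  rw [Nat.card_zpowers]
  exact hcop

/-- Elements of the form `c x` with `c` in `G` commuting with `x` determine `c` and `x`. -/
theorem conj_parts (C : Subgroup Γ) (hC : ∀ c, c ∈ C ↔ c ∈ G ∧ c * x = x * c)
    {c c₀ h : Γ} (hc : c ∈ C) (hc₀ : c₀ ∈ C) (hh : h ∈ G) (he : h * (c * x) * h⁻¹ = c₀ * x) :
    h ∈ C ∧ h * c * h⁻¹ = c₀ := by
  obtain ⟨a, ha, hxa⟩ := exists_crt G x hcop
  have hkey : ∀ d ∈ C, (d * x) ^ a = x := by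
    intro d hd
    obtain ⟨h1, h2⟩ := (hC d).mp hd
    have hcm : Commute d x := h2
    rw [hcm.mul_pow, hxa]
    have h3 : orderOf d ∣ a := (Subgroup.orderOf_dvd_natCard G h1).trans ha
    rw [orderOf_dvd_iff_pow_eq_one.mp h3, one_mul]
  have h1 : h * x * h⁻¹ = x := by
    have h2 := congrArg (· ^ a) he
    simp only [conj_pow, hkey c hc, hkey c₀ hc₀] at h2
    exact h2
  have h2 : h * x = x * h := by
    calc h * x = h * x * h⁻¹ * h := by group
      _ = x * h := by rw [h1]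
  refine ⟨(hC h).mpr ⟨hh, h2⟩, ?_⟩
  have h3 : h * c * h⁻¹ * x = c₀ * x := by
    rw [← he]
    calc h * c * h⁻¹ * x = h * c * (h⁻¹ * x) := by group
      _ = h * c * (x * h⁻¹) := by
        congr 1
        have hcm : Commute h x := h2
        exact hcm.inv_left
      _ = h * (c * x) * h⁻¹ := by group
  exact mul_right_cancel h3

theorem pow_form {y : Γ} (hy : y ∈ G) (k : ℕ) : ∃ y' ∈ G, (y * x) ^ k = y' * x ^ k := by
  induction k with
  | zero => exact ⟨1, G.one_mem, by simp⟩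
  | succ k ih =>
    obtain ⟨y', hy', h⟩ := ih
    refine ⟨y' * (x ^ k * y * (x ^ k)⁻¹), G.mul_mem hy' (hG.conj_mem y hy _), ?_⟩
    rw [pow_succ, h, pow_succ]
    group

/-- Every element of the coset `G x` is conjugate to an element `c x` with `c` in `G` commuting with `x`. -/
theorem exists_conj_form (C : Subgroup Γ) (hC : ∀ c, c ∈ C ↔ c ∈ G ∧ c * x = x * c)
    {y : Γ} (hy : y ∈ G) : ∃ g ∈ G, ∃ c ∈ C, y * x = g * (c * x) * g⁻¹ := by
  classical
  obtain ⟨a, ha, hxa⟩ := exists_crt G x hcop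
  have hinf := inf_zpowers_eq_bot G x hcop
  set w := y * x with hw
  set u := w ^ a with hu
  obtain ⟨y₁, hy₁, hu1⟩ := pow_form G x hcop hy a
  rw [hxa] at hu1
  have hu1' : u = y₁ * x := hu1
  have hun : u ^ orderOf x = 1 := by
    obtain ⟨y₂, hy₂, h2⟩ := pow_form G x hcop hy (orderOf x)
    rw [pow_orderOf_eq_one, mul_one] at h2
    obtain ⟨q, hq⟩ := ha
    have h3 : orderOf y₂ ∣ Nat.card G := Subgroup.orderOf_dvd_natCard G hy₂
    have h4 : y₂ ^ Nat.card G = 1 := orderOf_dvd_iff_pow_eq_one.mp h3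
    rw [hu, ← pow_mul, hq]
    calc w ^ (Nat.card G * q * orderOf x) = (w ^ orderOf x) ^ (Nat.card G * q) := by
          rw [← pow_mul]
          congr 1
          ring
      _ = 1 := by
        rw [hw, h2, pow_mul, h4, one_pow]
  have hord : orderOf u = orderOf x := by
    apply Nat.dvd_antisymm (orderOf_dvd_of_pow_eq_one hun)
    obtain ⟨y₃, hy₃, h3⟩ := pow_form G x hcop hy₁ (orderOf u)
    rw [← hu1', pow_orderOf_eq_one] at h3
    have h4 : x ^ orderOf u ∈ G ⊓ Subgroup.zpowers x := by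
      refine ⟨?_, Subgroup.npow_mem_zpowers _ _⟩
      have h5 : x ^ orderOf u = y₃⁻¹ := by
        exact eq_inv_of_mul_eq_one_right h3.symm
      rw [h5]
      exact G.inv_mem hy₃
    rw [hinf, Subgroup.mem_bot] at h4
    exact orderOf_dvd_of_pow_eq_one h4
  have hsolv : Group.IsSolvable (Subgroup.zpowers x) := by
    apply isSolvable_of_comm
    rintro ⟨_, i, rfl⟩ ⟨_, j, rfl⟩
    apply Subtype.ext
    exact (Commute.refl x).zpow_zpow i j
  obtain ⟨g, hg, hmap⟩ := Cfsg.Agent.Lib.SchurZ.sz_conj_ambient G (Subgroup.zpowers x) (Subgroup.zpowers u)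
    (by
      intro z _
      rw [Subgroup.mem_normalizer_iff]
      intro h
      constructor
      · exact fun hh => hG.conj_mem h hh z
      · intro hh
        have h1 := hG.conj_mem _ hh z⁻¹
        simpa [mul_assoc] using h1)
    (by
      rw [Subgroup.zpowers_le, hu1']
      exact Subgroup.mul_mem _ (Subgroup.mem_sup_left hy₁) (Subgroup.mem_sup_right (Subgroup.mem_zpowers x)))
    (by rw [Nat.card_zpowers, Nat.card_zpowers, hord])
    (by
      rw [Nat.card_zpowers]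
      exact hcop)
    (Or.inr hsolv)
  have hum : u ∈ (Subgroup.zpowers x).map (MulAut.conj g).toMonoidHom := by
    rw [hmap]
    exact Subgroup.mem_zpowers u
  obtain ⟨t, ht, htu⟩ := hum
  have htu' : g * t * g⁻¹ = u := htu
  have htx : t = x := by
    have h1 : x * t⁻¹ ∈ G ⊓ Subgroup.zpowers x := by
      refine ⟨?_, Subgroup.mul_mem _ (Subgroup.mem_zpowers x) (Subgroup.inv_mem _ ht)⟩
      have h2 : x * t⁻¹ = y₁⁻¹ * (g * (t * g⁻¹ * t⁻¹)) := by
        have h3 : y₁ * x = g * t * g⁻¹ := by rw [← hu1', htu']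
        have h4 : x = y₁⁻¹ * (g * t * g⁻¹) := by
          rw [← h3]
          group
        rw [h4]
        group
      rw [h2]
      exact G.mul_mem (G.inv_mem hy₁) (G.mul_mem hg (hG.conj_mem _ (G.inv_mem hg) t))
    rw [hinf, Subgroup.mem_bot] at h1
    exact (mul_inv_eq_one.mp h1).symm
  subst htx
  have hcomm : w * u = u * w := by
    rw [hu]
    exact (Commute.pow_right (Commute.refl w) a)
  have hcomm2 : (g⁻¹ * w * g) * t = t * (g⁻¹ * w * g) := by
    have h1 : w * (g * t * g⁻¹) = (g * t * g⁻¹) * w := by rw [htu']; exact hcomm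
    calc (g⁻¹ * w * g) * t = g⁻¹ * (w * (g * t * g⁻¹)) * g := by group
      _ = g⁻¹ * ((g * t * g⁻¹) * w) * g := by rw [h1]
      _ = t * (g⁻¹ * w * g) := by group
  refine ⟨g, hg, (g⁻¹ * w * g) * t⁻¹, (hC _).mpr ⟨?_, ?_⟩, ?_⟩
  · have h1 : g⁻¹ * w * g * t⁻¹ = g⁻¹ * (y * (t * g * t⁻¹)) := by
      rw [hw]
      group
    rw [h1]
    exact G.mul_mem (G.inv_mem hg) (G.mul_mem hy (hG.conj_mem _ hg t))
  · calc g⁻¹ * w * g * t⁻¹ * t = g⁻¹ * w * g := by group
      _ = (g⁻¹ * w * g) * t * t⁻¹ := by group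
      _ = t * (g⁻¹ * w * g) * t⁻¹ := by rw [hcomm2]
      _ = t * (g⁻¹ * w * g * t⁻¹) := by group
  · group

/-- **The coset formula.** -/
theorem sum_coset_formula [Fintype G] (C : Subgroup Γ) [Fintype C] (hC : ∀ c, c ∈ C ↔ c ∈ G ∧ c * x = x * c)
    (f : Γ → ℂ) (hf : IsClassFunction Γ f) :
    (Nat.card C : ℂ) * ∑ g : G, f (g * x) = (Nat.card G : ℂ) * ∑ c : C, f (c * x) := by
  classical
  have hCG : ∀ c ∈ C, c ∈ G := fun c hc => ((hC c).mp hc).1
  have hmem : ∀ p : G × C, (p.1 : Γ) * ((p.2 : Γ) * x) * (p.1 : Γ)⁻¹ * x⁻¹ ∈ G := by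
    intro p
    have h1 : (p.1 : Γ) * ((p.2 : Γ) * x) * (p.1 : Γ)⁻¹ * x⁻¹ = (p.1 : Γ) * (p.2 : Γ) * (x * (p.1 : Γ)⁻¹ * x⁻¹) := by group
    rw [h1]
    exact G.mul_mem (G.mul_mem p.1.2 (hCG _ p.2.2)) (hG.conj_mem _ (G.inv_mem p.1.2) x)
  let Ψ : G × C → G := fun p => ⟨_, hmem p⟩
  have hΨ : ∀ p, ((Ψ p : G) : Γ) * x = (p.1 : Γ) * ((p.2 : Γ) * x) * (p.1 : Γ)⁻¹ := by
    intro p
    show (p.1 : Γ) * ((p.2 : Γ) * x) * (p.1 : Γ)⁻¹ * x⁻¹ * x = _
    group
  have hfib : ∀ y : G, (Finset.univ.filter (fun p => Ψ p = y)).card = Nat.card C := by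
    intro y
    obtain ⟨g₀, hg₀, c₀, hc₀, he⟩ := exists_conj_form G x hcop C hC y.2
    rw [Nat.card_eq_fintype_card, ← Finset.card_univ]
    symm
    refine Finset.card_bij (fun h _ => ((⟨g₀ * h, G.mul_mem hg₀ (hCG _ h.2)⟩ : G), (⟨(h : Γ)⁻¹ * c₀ * h, C.mul_mem (C.mul_mem (C.inv_mem h.2) hc₀) h.2⟩ : C))) ?_ ?_ ?_
    · intro h _
      refine Finset.mem_filter.mpr ⟨Finset.mem_univ _, ?_⟩
      apply Subtype.ext
      have h1 : ((Ψ ((⟨g₀ * h, G.mul_mem hg₀ (hCG _ h.2)⟩ : G), (⟨(h : Γ)⁻¹ * c₀ * h, C.mul_mem (C.mul_mem (C.inv_mem h.2) hc₀) h.2⟩ : C))) : G) * x = (y : Γ) * x := by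
        rw [hΨ, he]
        have h2 : (h : Γ) * x = x * h := ((hC _).mp h.2).2
        have h3 : x * (h : Γ)⁻¹ = (h : Γ)⁻¹ * x := by
          have hcm : Commute (h : Γ) x := h2
          exact hcm.inv_left.symm
        simp only [mul_inv_rev]
        calc (g₀ * (h : Γ)) * (((h : Γ)⁻¹ * c₀ * h) * x) * ((h : Γ)⁻¹ * g₀⁻¹)
            = g₀ * c₀ * ((h : Γ) * x) * (h : Γ)⁻¹ * g₀⁻¹ := by group
          _ = g₀ * c₀ * (x * h) * (h : Γ)⁻¹ * g₀⁻¹ := by rw [h2]
          _ = g₀ * (c₀ * x) * g₀⁻¹ := by group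
      exact mul_right_cancel h1
    · intro h₁ _ h₂ _ h
      have h3 := congrArg (fun p : G × C => ((p.1 : G) : Γ)) h
      simp only at h3
      exact Subtype.ext (mul_left_cancel h3)
    · rintro ⟨g, c⟩ hp
      have hp' := (Finset.mem_filter.mp hp).2
      have h1 : (g : Γ) * ((c : Γ) * x) * (g : Γ)⁻¹ = g₀ * (c₀ * x) * g₀⁻¹ := by
        rw [← he]
        have h9 := hΨ (g, c)
        rw [hp'] at h9
        exact h9.symm
      have h2 : (g₀⁻¹ * g) * ((c : Γ) * x) * (g₀⁻¹ * g)⁻¹ = c₀ * x := by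
        calc (g₀⁻¹ * g) * ((c : Γ) * x) * (g₀⁻¹ * g)⁻¹ = g₀⁻¹ * ((g : Γ) * ((c : Γ) * x) * (g : Γ)⁻¹) * g₀ := by group
          _ = c₀ * x := by
            rw [h1]
            group
      obtain ⟨h3, h4⟩ := conj_parts G x hcop C hC c.2 hc₀ (G.mul_mem (G.inv_mem hg₀) g.2) h2
      refine ⟨⟨_, h3⟩, Finset.mem_univ _, ?_⟩
      apply Prod.ext
      · apply Subtype.ext
        show g₀ * (g₀⁻¹ * g) = g
        group
      · apply Subtype.ext
        show (g₀⁻¹ * g)⁻¹ * c₀ * (g₀⁻¹ * g) = c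
        rw [← h4]
        group
  have hleft : ∑ p : G × C, f (((Ψ p : G) : Γ) * x) = (Nat.card G : ℂ) * ∑ c : C, f (c * x) := by
    rw [Fintype.sum_prod_type]
    have h1 : ∀ g : G, ∑ c : C, f (((Ψ (g, c) : G) : Γ) * x) = ∑ c : C, f (c * x) := by
      intro g
      refine Finset.sum_congr rfl fun c _ => ?_
      rw [hΨ]
      have h2 := hf ((c : Γ) * x) (g : Γ)
      exact h2
    simp only [h1, Finset.sum_const, Finset.card_univ, nsmul_eq_mul]
    rw [Nat.card_eq_fintype_card]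
  have hright : ∑ p : G × C, f (((Ψ p : G) : Γ) * x) = (Nat.card C : ℂ) * ∑ g : G, f (g * x) := by
    rw [← Finset.sum_fiberwise Finset.univ Ψ, Finset.mul_sum]
    refine Finset.sum_congr rfl fun y _ => ?_
    rw [Finset.sum_congr rfl (fun p hp => by
      rw [(Finset.mem_filter.mp hp).2]), Finset.sum_const, hfib, nsmul_eq_mul]
  rw [← hright, hleft]

end CosetFormula

section Coset

variable {G : Type u} [Group G] [Fintype G] (N : Subgroup G) [hN : N.Normal] [Fintype N] [Fintype (G ⧸ N)]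

/-- The coset sum of a product of two functions. -/
noncomputable def cosetFn (ψ ψ' : G → ℂ) (q : G ⧸ N) : ℂ :=
  ∑ u : N, ψ (Quotient.out q * u) * conj (ψ' (Quotient.out q * u))

theorem cosetFn_mk (ψ ψ' : G → ℂ) (x : G) :
    cosetFn N ψ ψ' (x : G ⧸ N) = ∑ u : N, ψ (x * u) * conj (ψ' (x * u)) := by
  have h1 : x⁻¹ * Quotient.out (x : G ⧸ N) ∈ N := QuotientGroup.eq.mp (QuotientGroup.out_eq' (x : G ⧸ N)).symm
  unfold cosetFn
  refine Fintype.sum_equiv (Equiv.mulLeft (⟨_, h1⟩ : N)) _ _ fun u => ?_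
  simp [mul_assoc]

theorem isClass_cosetFn {ψ ψ' : G → ℂ} (hψ : IsClassFunction G ψ) (hψ' : IsClassFunction G ψ') :
    IsClassFunction (G ⧸ N) (cosetFn N ψ ψ') := by
  intro q r
  obtain ⟨x, rfl⟩ := QuotientGroup.mk_surjective q
  obtain ⟨y, rfl⟩ := QuotientGroup.mk_surjective r
  rw [← QuotientGroup.mk_inv, ← QuotientGroup.mk_mul, ← QuotientGroup.mk_mul, cosetFn_mk, cosetFn_mk]
  refine Fintype.sum_equiv (MulAut.conjNormal y⁻¹).toEquiv _ _ fun u => ?_
  have h1 : y * x * y⁻¹ * (u : G) = y * (x * ((MulAut.conjNormal y⁻¹ u : N) : G)) * y⁻¹ := by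
    rw [MulAut.conjNormal_apply]
    group
  simp only [MulEquiv.toEquiv_eq_coe, EquivLike.coe_coe, h1]
  rw [hψ, hψ']

theorem classInner_cosetFn (ψ ψ' : G → ℂ) (β : G ⧸ N → ℂ) :
    classInner (cosetFn N ψ ψ') β = (Nat.card N : ℂ) * classInner ψ (fun g => ψ' g * β (g : G ⧸ N)) := by
  classical
  have hN0 : (Nat.card N : ℂ) ≠ 0 := by exact_mod_cast Nat.card_pos.ne'
  have hQ0 : (Nat.card (G ⧸ N) : ℂ) ≠ 0 := by exact_mod_cast Nat.card_pos.ne'
  have hcard : (Nat.card G : ℂ) = (Nat.card (G ⧸ N) : ℂ) * (Nat.card N : ℂ) := by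
    rw [← Subgroup.index_eq_card]
    have := Subgroup.card_mul_index N
    rw [mul_comm] at this
    exact_mod_cast this.symm
  unfold classInner
  rw [Cfsg.Agent.Lib.CharInflate.sum_by_cosets' N, hcard]
  have h1 : ∀ c : G ⧸ N, ∑ u : N, ψ (Quotient.out c * u) * conj (ψ' (Quotient.out c * u) * β ((Quotient.out c * (u : G) : G) : G ⧸ N)) =
      cosetFn N ψ ψ' c * conj (β c) := by
    intro c
    unfold cosetFn
    rw [Finset.sum_mul]
    refine Finset.sum_congr rfl fun u _ => ?_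
    have h2 : ((Quotient.out c * (u : G) : G) : G ⧸ N) = c := by
      rw [QuotientGroup.mk_mul_of_mem _ u.2, QuotientGroup.out_eq']
    rw [h2, map_mul]
    ring
  simp only [h1]
  field_simp

/-- The coset sum of the squared norm of an extension of an irreducible character. -/
theorem coset_norm {ψ : G → ℂ} (hψ : IsCharacter G ψ) (hres : IsIrrCharacter N (fun n : N => ψ n)) (x : G) :
    ∑ u : N, ψ (x * u) * conj (ψ (x * u)) = Nat.card N := by
  classical
  have hcl := IsCharacter.isClassFunction' hψ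
  let β₁ : IrrCharacter (G ⧸ N) := ⟨fun _ => 1, Cfsg.Agent.Lib.CharIso.isIrr_one⟩
  let r : G ⧸ N → ℂ := cosetFn N ψ ψ - (Nat.card N : ℂ) • (β₁ : G ⧸ N → ℂ)
  have hr : IsClassFunction (G ⧸ N) r := by
    intro q t
    simp only [r, Pi.sub_apply, Pi.smul_apply, isClass_cosetFn N hcl hcl q t]
    rfl
  have h0 : r = 0 := by
    apply eq_zero_of_classInner hr
    intro ξ hξ
    have h1 : classInner r ξ = classInner (cosetFn N ψ ψ) ξ - (Nat.card N : ℂ) * classInner (β₁ : G ⧸ N → ℂ) ξ := by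
      simp only [r]
      rw [sub_eq_add_neg, classInner_add_left, ← neg_smul, classInner_smul_left]
      ring
    have h2 := gallagher_orth N hψ hres β₁ ⟨ξ, hξ⟩
    have h3 : (fun g => ψ g * (β₁ : G ⧸ N → ℂ) (g : G ⧸ N)) = ψ := by
      funext g
      simp [β₁]
    rw [h3] at h2
    rw [h1, classInner_cosetFn, h2, classInner_irr β₁.2 hξ]
    by_cases h : β₁ = ⟨ξ, hξ⟩
    · have h4 : (β₁ : G ⧸ N → ℂ) = ξ := congrArg Subtype.val h
      rw [if_pos h, if_pos h4]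
      ring
    · have h4 : ¬ (β₁ : G ⧸ N → ℂ) = ξ := fun h5 => h (Subtype.ext h5)
      rw [if_neg h, if_neg h4]
      ring
  have h1 := congrFun h0 (x : G ⧸ N)
  simp only [r, Pi.sub_apply, Pi.smul_apply, smul_eq_mul, Pi.zero_apply, sub_eq_zero] at h1
  rw [cosetFn_mk] at h1
  rw [h1]
  simp [β₁]

/-- Coset orthogonality of extensions of distinct irreducible characters. -/
theorem coset_orth {ψ ψ' : G → ℂ} (hψ : IsIrrCharacter G ψ) (hψ' : IsIrrCharacter G ψ')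
    (hres : IsIrrCharacter N (fun n : N => ψ n)) (hres' : IsIrrCharacter N (fun n : N => ψ' n))
    (hne : (fun n : N => ψ n) ≠ (fun n : N => ψ' n)) (x : G) :
    ∑ u : N, ψ (x * u) * conj (ψ' (x * u)) = 0 := by
  classical
  have hcl := IsCharacter.isClassFunction' (IsIrrCharacter.isCharacter' hψ)
  have hcl' := IsCharacter.isClassFunction' (IsIrrCharacter.isCharacter' hψ')
  have h0 : cosetFn N ψ ψ' = 0 := by
    apply eq_zero_of_classInner (isClass_cosetFn N hcl hcl')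
    intro ξ hξ
    rw [classInner_cosetFn]
    have h2 := isIrr_mul_inflate N (IsIrrCharacter.isCharacter' hψ') hres' ⟨ξ, hξ⟩
    rw [classInner_irr hψ h2, if_neg, mul_zero]
    intro he
    have h3 : (fun n : N => ψ n) = (ξ 1) • (fun n : N => ψ' n) := by
      funext n
      rw [he]
      have h4 : (((n : G)) : G ⧸ N) = 1 := (QuotientGroup.eq_one_iff (n : G)).mpr n.2
      simp only [h4, Pi.smul_apply, smul_eq_mul]
      ring
    have h5 := classInner_irr hres hres'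
    rw [if_neg hne] at h5
    rw [h3, classInner_smul_left, classInner_irr hres' hres', if_pos rfl, mul_one] at h5
    exact degree_ne_zero hξ h5
  have h1 := congrFun h0 (x : G ⧸ N)
  rw [cosetFn_mk] at h1
  exact h1

end Coset

section Det

theorem detChar_pow' {Q : Type u} [Group Q] [Finite Q] {ψ ψ' : Q → ℂ} (hψ : IsCharacter Q ψ) (hψ' : IsCharacter Q ψ')
    (K : ℕ) (h : ∀ x, ψ' x = ψ (x ^ K)) (x : Q) : detChar ψ' x = (detChar ψ x) ^ K := by
  classical
  let Z : Subgroup Q := Subgroup.zpowers x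
  have hcz : ∀ a b : Z, (a : Q) * b = b * a := by
    rintro ⟨_, i, rfl⟩ ⟨_, j, rfl⟩
    exact (Commute.refl x).zpow_zpow i j
  let f : Z →* Q :=
    { toFun := fun z => (z : Q) ^ K
      map_one' := by simp
      map_mul' := fun a b => by
        have hc : Commute (a : Q) b := hcz a b
        rw [Subgroup.coe_mul, hc.mul_pow] }
  have h1 := detChar_comp Z.subtype hψ' (⟨x, Subgroup.mem_zpowers x⟩ : Z)
  have h2 := detChar_comp f hψ (⟨x, Subgroup.mem_zpowers x⟩ : Z)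
  have h3 : (fun y : Z => ψ' (Z.subtype y)) = fun y : Z => ψ (f y) := by
    funext y
    exact h y
  rw [h3, h2] at h1
  have h4 : f ⟨x, Subgroup.mem_zpowers x⟩ = x ^ K := rfl
  rw [h4] at h1
  have h5 : detChar ψ' x = detChar ψ (x ^ K) := h1.symm
  rw [h5, ← detHom_apply hψ, ← detHom_apply hψ, map_pow, Units.val_pow_eq_pow_val]

/-- The power map by an exponent congruent to one modulo the order of a normal Hall subgroup
preserves the canonical extension. -/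
theorem pow_fix {Γ : Type u} [Group Γ] [Fintype Γ] (G : Subgroup Γ) [hG : G.Normal] [Fintype G]
    {ψ : Γ → ℂ} (hψ : IsIrrCharacter Γ ψ) (hres : IsIrrCharacter G (fun n : G => ψ n))
    (hdet : G.index.Coprime (detOrder ψ)) (hidx : (Nat.card G).Coprime G.index)
    (K : ℕ) (hK1 : K ≡ 1 [MOD Nat.card G]) (hK2 : K.Coprime (Nat.card Γ)) (x : Γ) : ψ (x ^ K) = ψ x := by
  classical
  have hψ' := IsIrrCharacter.isCharacter' hψ
  have hres' := IsIrrCharacter.isCharacter' hres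
  let θ : G → ℂ := fun n => ψ n
  have hirr' := Cfsg.Agent.Lib.CharGalois2.isIrr_pow hψ hK2
  have hinv : ∀ (g : Γ) (n : G), θ ⟨g * n * g⁻¹, hG.conj_mem (n : Γ) n.2 g⟩ = θ n := fun g n =>
    IsCharacter.isClassFunction' hψ' _ _
  have hd : θ 1 = (charDegree θ : ℂ) := (charDegree_cast hres').symm
  obtain ⟨χ₀, -, hu⟩ := canonical_ext G θ hres hinv (charDegree θ) hd (Nat.Coprime.mul_right
    (Nat.Coprime.coprime_dvd_right (Cfsg.Agent.Lib.CharCop.detOrder_dvd_card hres') hidx.symm)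
    (Nat.Coprime.coprime_dvd_right (charDegree_dvd_card hres) hidx.symm))
  have h1 : ψ = χ₀ := hu ψ hψ (fun _ => rfl) hdet
  have h2 : (fun y => ψ (y ^ K)) = χ₀ := by
    apply hu _ hirr'
    · intro n
      show ψ ((n : Γ) ^ K) = ψ n
      have h3 : orderOf (n : Γ) ∣ Nat.card G := Subgroup.orderOf_dvd_natCard G n.2
      have h4 : (n : Γ) ^ K = (n : Γ) ^ 1 := pow_eq_pow_iff_modEq.mpr (hK1.of_dvd h3)
      rw [h4, pow_one]
    · have h3 : detChar (fun y => ψ (y ^ K)) = (detChar ψ) ^ K := by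
        funext y
        rw [detChar_pow' hψ' (IsIrrCharacter.isCharacter' hirr') K (fun _ => rfl) y]
        rfl
      show G.index.Coprime (orderOf (detChar (fun y => ψ (y ^ K))))
      rw [h3]
      exact Nat.Coprime.coprime_dvd_right (orderOf_pow_dvd _) hdet
  have h3 := congrFun (h2.trans h1.symm) x
  exact h3

end Det

section Main

variable {Γ : Type u} [Group Γ] [Fintype Γ] (G S C : Subgroup Γ) [hG : G.Normal] [Fintype G] [Fintype S] [Fintype C]

/-- The coefficient of an irreducible character of `C` in the function `c ↦ ψ (c t)`. -/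
noncomputable def coef (ψ : Γ → ℂ) (β : C → ℂ) (t : Γ) : ℂ := classInner (fun c : C => ψ (c * t)) β

variable {C} in
theorem isClass_shift {ψ : Γ → ℂ} (hψ : IsClassFunction Γ ψ) {t : Γ} (ht : ∀ c ∈ C, c * t = t * c) :
    IsClassFunction C (fun c : C => ψ (c * t)) := by
  intro a b
  show ψ (((b * a * b⁻¹ : C) : Γ) * t) = ψ (a * t)
  have h1 : ((b * a * b⁻¹ : C) : Γ) * t = (b : Γ) * ((a : Γ) * t) * (b : Γ)⁻¹ := by
    have h2 : t * (b : Γ)⁻¹ = (b : Γ)⁻¹ * t := by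
      have hcm : Commute (b : Γ) t := ht b b.2
      exact hcm.inv_left.symm
    simp only [Subgroup.coe_mul, Subgroup.coe_inv]
    calc (b : Γ) * a * (b : Γ)⁻¹ * t = (b : Γ) * a * ((b : Γ)⁻¹ * t) := by group
      _ = (b : Γ) * a * (t * (b : Γ)⁻¹) := by rw [h2]
      _ = _ := by group
  rw [h1, hψ]

variable {C} in
theorem expand_coef {ψ : Γ → ℂ} (hψ : IsClassFunction Γ ψ) {t : Γ} (ht : ∀ c ∈ C, c * t = t * c) (c : C) :
    ψ (c * t) = ∑ β : IrrCharacter C, coef C ψ (β : C → ℂ) t * (β : C → ℂ) c := by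
  have h1 := congrFun (classFunction_expand (isClass_shift hψ ht)) c
  rw [Finset.sum_apply] at h1
  exact h1

variable {G S C}

/-- The coefficients are characters of `S`. -/
theorem isCharacter_coef (hcomm : ∀ c ∈ C, ∀ t ∈ S, c * t = t * c) {ψ : Γ → ℂ} (hψ : IsCharacter Γ ψ)
    {β : C → ℂ} (hβ : IsCharacter C β) : IsCharacter S (fun t : S => coef C ψ β t) := by
  classical
  have hcl := IsCharacter.isClassFunction' hψ
  apply isCharacter_of_nat_inner
  · intro a b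
    show coef C ψ β ((b * a * b⁻¹ : S) : Γ) = coef C ψ β a
    unfold coef
    congr 1
    funext c
    have h1 : (c : Γ) * ((b * a * b⁻¹ : S) : Γ) = (b : Γ) * ((c : Γ) * a) * (b : Γ)⁻¹ := by
      have h2 : (c : Γ) * (b : Γ) = b * c := hcomm c c.2 b b.2
      simp only [Subgroup.coe_mul, Subgroup.coe_inv]
      calc (c : Γ) * (b * a * (b : Γ)⁻¹) = ((c : Γ) * b) * a * (b : Γ)⁻¹ := by group
        _ = (b * (c : Γ)) * a * (b : Γ)⁻¹ := by rw [h2]
        _ = _ := by group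
    rw [h1, hcl]
  · intro μ hμ
    let φ : C × S →* Γ :=
      { toFun := fun p => (p.1 : Γ) * p.2
        map_one' := by simp
        map_mul' := fun a b => by
          simp only [Prod.fst_mul, Prod.snd_mul, Subgroup.coe_mul]
          have h2 : (a.2 : Γ) * b.1 = b.1 * a.2 := (hcomm b.1 b.1.2 a.2 a.2.2).symm
          calc (a.1 : Γ) * b.1 * (a.2 * b.2) = (a.1 : Γ) * (b.1 * a.2) * b.2 := by group
            _ = (a.1 : Γ) * (a.2 * b.1) * b.2 := by rw [h2]
            _ = _ := by group }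
    have h1 : IsCharacter (C × S) (fun p => ψ (φ p)) := isCharacter_comp φ hψ
    have h2 : IsCharacter (C × S) (fun p : C × S => β p.1 * μ p.2) :=
      isCharacter_mul (isCharacter_comp (MonoidHom.fst C S) hβ)
        (isCharacter_comp (MonoidHom.snd C S) (IsIrrCharacter.isCharacter' hμ))
    obtain ⟨n, hn⟩ := exists_nat_classInner h1 h2
    refine ⟨n, ?_⟩
    rw [← hn]
    unfold classInner coef classInner
    rw [Fintype.sum_prod_type, Nat.card_prod, Finset.sum_comm, Finset.mul_sum, Finset.mul_sum]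
    refine Finset.sum_congr rfl fun t _ => ?_
    show (Nat.card S : ℂ)⁻¹ * (((Nat.card C : ℂ)⁻¹ * ∑ g : C, ψ (g * t) * conj (β g)) * conj (μ t)) =
      ((Nat.card C * Nat.card S : ℕ) : ℂ)⁻¹ * ∑ x : C, ψ (φ (x, t)) * conj (β x * μ t)
    have h4 : ∀ x : C, ψ (φ (x, t)) * conj (β x * μ t) = (ψ (x * t) * conj (β x)) * conj (μ t) := fun x => by
      rw [map_mul]
      show ψ (x * t) * _ = _
      ring
    simp only [h4]
    rw [← Finset.sum_mul]
    push_cast
    rw [mul_inv]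
    ring

/-- The coset formula for the coefficient functions. -/
theorem inner_shift {y : Γ} (hcopy : (Nat.card G).Coprime (orderOf y))
    (hy : ∀ c, c ∈ C ↔ c ∈ G ∧ c * y = y * c) {ψ ψ' : Γ → ℂ} (hψ : IsClassFunction Γ ψ) (hψ' : IsClassFunction Γ ψ') :
    classInner (fun c : C => ψ (c * y)) (fun c : C => ψ' (c * y)) =
      (Nat.card G : ℂ)⁻¹ * ∑ u : G, ψ (y * u) * conj (ψ' (y * u)) := by
  have hf : IsClassFunction Γ (fun x => ψ x * conj (ψ' x)) := by
    intro g h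
    show ψ (h * g * h⁻¹) * conj (ψ' (h * g * h⁻¹)) = _
    rw [hψ, hψ']
  have h1 := sum_coset_formula G y hcopy C hy _ hf
  have h2 : ∑ g : G, (fun x => ψ x * conj (ψ' x)) (g * y) = ∑ u : G, ψ (y * u) * conj (ψ' (y * u)) := by
    refine Finset.sum_congr rfl fun g _ => ?_
    have h3 : y * (g : Γ) = y * (g * y) * y⁻¹ := by group
    rw [h3, hψ, hψ']
  rw [h2] at h1
  have hC0 : (Nat.card C : ℂ) ≠ 0 := by exact_mod_cast Nat.card_pos.ne'
  have hG0 : (Nat.card G : ℂ) ≠ 0 := by exact_mod_cast Nat.card_pos.ne'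
  unfold classInner
  have h3 : ∑ g : C, ψ (g * y) * conj (ψ' (g * y)) = (Nat.card C : ℂ) * (Nat.card G : ℂ)⁻¹ * ∑ u : G, ψ (y * u) * conj (ψ' (y * u)) := by
    rw [mul_comm (Nat.card C : ℂ), mul_assoc, h1]
    field_simp
  rw [h3]
  field_simp

/-- The data of a cyclic (or any) group of operators of coprime order. -/
structure Setup (G S C : Subgroup Γ) : Prop where
  hcop : (Nat.card G).Coprime (Nat.card S)
  hcard : Nat.card Γ = Nat.card G * Nat.card S
  hC : ∀ c, c ∈ C ↔ c ∈ G ∧ ∀ t ∈ S, c * t = t * c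

theorem Setup.hCG (D : Setup G S C) : ∀ c ∈ C, c ∈ G := fun c hc => ((D.hC c).mp hc).1

theorem Setup.hcomm (D : Setup G S C) : ∀ c ∈ C, ∀ t ∈ S, c * t = t * c := fun c hc => ((D.hC c).mp hc).2

theorem Setup.hidx (D : Setup G S C) : G.index = Nat.card S := by
  have h1 := Subgroup.card_mul_index G
  rw [D.hcard] at h1
  exact Nat.eq_of_mul_eq_mul_left Nat.card_pos h1

theorem Setup.coprime_order (D : Setup G S C) {y : Γ} (hy : y ∈ S) : (Nat.card G).Coprime (orderOf y) :=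
  Nat.Coprime.coprime_dvd_right (Subgroup.orderOf_dvd_natCard S hy) D.hcop

/-- The coefficient functions at coprime powers agree. -/
theorem Setup.coef_pow (D : Setup G S C) {ψ : Γ → ℂ}
    (hfix : ∀ K : ℕ, K ≡ 1 [MOD Nat.card G] → K.Coprime (Nat.card Γ) → ∀ x, ψ (x ^ K) = ψ x)
    (β : C → ℂ) {y : Γ} (hy : y ∈ S) {m : ℕ} (hm : m.Coprime (Nat.card S)) :
    coef C ψ β (y ^ m) = coef C ψ β y := by
  obtain ⟨K, h1, h2⟩ := Nat.chineseRemainder D.hcop 1 m
  have hK1 : K.Coprime (Nat.card G) := by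
    unfold Nat.Coprime
    rw [h1.gcd_eq, Nat.gcd_one_left]
  have hK2 : K.Coprime (Nat.card S) := by
    unfold Nat.Coprime
    rw [h2.gcd_eq]
    exact hm
  have hKc : K.Coprime (Nat.card Γ) := by
    rw [D.hcard]
    exact Nat.Coprime.mul_right hK1 hK2
  have h3 : y ^ K = y ^ m := pow_eq_pow_iff_modEq.mpr (h2.of_dvd (Subgroup.orderOf_dvd_natCard S hy))
  unfold coef
  congr 1
  funext c
  have h4 : (c : Γ) ^ K = c := by
    have h5 : (c : Γ) ^ K = (c : Γ) ^ 1 :=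
      pow_eq_pow_iff_modEq.mpr (h1.of_dvd (Subgroup.orderOf_dvd_natCard G (D.hCG c c.2)))
    rw [h5, pow_one]
  have h6 : Commute (c : Γ) y := D.hcomm c c.2 y hy
  have h7 : ((c : Γ) * y) ^ K = c * y ^ m := by
    rw [h6.mul_pow, h4, h3]
  rw [← h7]
  exact hfix K h1 hKc _

/-- The coefficients are rational integers. -/
theorem Setup.coef_int (D : Setup G S C) {ψ : Γ → ℂ} (hψ : IsCharacter Γ ψ)
    (hfix : ∀ K : ℕ, K ≡ 1 [MOD Nat.card G] → K.Coprime (Nat.card Γ) → ∀ x, ψ (x ^ K) = ψ x)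
    {β : C → ℂ} (hβ : IsCharacter C β) {y : Γ} (hy : y ∈ S) : ∃ z : ℤ, coef C ψ β y = z := by
  classical
  obtain ⟨n, ρ, hρ⟩ := isCharacter_coef D.hcomm hψ hβ
  have hn : Nat.card S ≠ 0 := Nat.card_pos.ne'
  have hval : ∀ t : S, ρ.character t = coef C ψ β t := fun t => congrFun hρ t
  let x : Cfsg.Agent.Lib.CharGalois.cyc (Nat.card S) := ⟨ρ.character ⟨y, hy⟩, Cfsg.Agent.Lib.CharGalois.character_mem ρ _⟩
  have hfixσ : ∀ σ : Cfsg.Agent.Lib.CharGalois.cyc (Nat.card S) →ₐ[ℚ] ℂ, σ x = x.1 := by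
    intro σ
    obtain ⟨m, hm, hσ⟩ := Cfsg.Agent.Lib.CharGalois.exists_coprime hn σ
    rw [Cfsg.Agent.Lib.CharGalois.algHom_character ρ _ m σ hσ]
    show ρ.character (⟨y, hy⟩ ^ m) = ρ.character ⟨y, hy⟩
    rw [hval, hval]
    exact D.coef_pow hfix β hy hm
  obtain ⟨q, hq⟩ := Cfsg.Agent.Lib.CharGalois.exists_rat_of_fixed hn x hfixσ
  have hint : IsIntegral ℤ x.1 := Cfsg.Agent.Lib.CharCore.isIntegral_character ρ _
  rw [hq] at hint
  have h1 : IsIntegral ℤ q := by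
    have : IsIntegral ℤ ((algebraMap ℚ ℂ) q) := hint
    exact (isIntegral_algebraMap_iff (algebraMap ℚ ℂ).injective).mp this
  obtain ⟨w, rfl⟩ := IsIntegrallyClosed.isIntegral_iff.mp h1
  refine ⟨w, ?_⟩
  rw [← hval ⟨y, hy⟩]
  show x.1 = _
  rw [hq]
  simp

theorem sum_sq_int {ι : Type*} [Fintype ι] (z : ι → ℤ) (h : ∑ i, z i ^ 2 = 1) :
    ∃ i₀, (z i₀ = 1 ∨ z i₀ = -1) ∧ ∀ i, i ≠ i₀ → z i = 0 := by
  classical
  have hex : ∃ i₀, z i₀ ≠ 0 := by
    by_contra hcon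
    push Not at hcon
    simp [hcon] at h
  obtain ⟨i₀, hi₀⟩ := hex
  have h1 : z i₀ ^ 2 ≥ 1 := by
    have := sq_pos_of_ne_zero hi₀
    omega
  have h2 : ∑ i ∈ Finset.univ.erase i₀, z i ^ 2 + z i₀ ^ 2 = 1 := by
    rw [Finset.sum_erase_add _ _ (Finset.mem_univ _), h]
  have h3 : 0 ≤ ∑ i ∈ Finset.univ.erase i₀, z i ^ 2 := Finset.sum_nonneg fun i _ => sq_nonneg _
  have h4 : z i₀ ^ 2 = 1 := by omega
  have h5 : ∑ i ∈ Finset.univ.erase i₀, z i ^ 2 = 0 := by omega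
  refine ⟨i₀, ?_, fun i hi => ?_⟩
  · have h6 : (z i₀ - 1) * (z i₀ + 1) = 0 := by linear_combination h4
    rcases mul_eq_zero.mp h6 with h7 | h7
    · left
      omega
    · right
      omega
  · have h6 := (Finset.sum_eq_zero_iff_of_nonneg (fun i _ => sq_nonneg (z i))).mp h5 i (Finset.mem_erase.mpr ⟨hi, Finset.mem_univ _⟩)
    exact pow_eq_zero_iff (by norm_num) |>.mp h6

/-- At an element `y` whose centralizer in `G` is `C`, exactly one coefficient is nonzero, with value a sign. -/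
theorem Setup.exists_coef (D : Setup G S C) {ψ : Γ → ℂ} (hψ : IsCharacter Γ ψ)
    (hres : IsIrrCharacter G (fun n : G => ψ n))
    (hfix : ∀ K : ℕ, K ≡ 1 [MOD Nat.card G] → K.Coprime (Nat.card Γ) → ∀ x, ψ (x ^ K) = ψ x)
    {y : Γ} (hyS : y ∈ S) (hy : ∀ c, c ∈ C ↔ c ∈ G ∧ c * y = y * c) :
    ∃ β₀ : IrrCharacter C, ∃ ε : ℤ, (ε = 1 ∨ ε = -1) ∧ coef C ψ (β₀ : C → ℂ) y = ε ∧
      ∀ β : IrrCharacter C, β ≠ β₀ → coef C ψ (β : C → ℂ) y = 0 := by
  classical
  have hcl := IsCharacter.isClassFunction' hψ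
  have ht : ∀ c ∈ C, c * y = y * c := fun c hc => ((hy c).mp hc).2
  have hint : ∀ β : IrrCharacter C, ∃ z : ℤ, coef C ψ (β : C → ℂ) y = z := fun β =>
    D.coef_int hψ hfix (IsIrrCharacter.isCharacter' β.2) hyS
  choose z hz using hint
  have h1 : classInner (fun c : C => ψ (c * y)) (fun c : C => ψ (c * y)) = 1 := by
    rw [inner_shift (D.coprime_order hyS) hy hcl hcl, coset_norm G hψ hres y]
    have hG0 : (Nat.card G : ℂ) ≠ 0 := by exact_mod_cast Nat.card_pos.ne'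
    field_simp
  rw [Cfsg.Agent.Lib.Glaub.inner_parseval (isClass_shift hcl ht)] at h1
  have h2 : ∑ β : IrrCharacter C, z β ^ 2 = 1 := by
    have h3 : ∀ β : IrrCharacter C, classInner (fun c : C => ψ (c * y)) (β : C → ℂ) * conj (classInner (fun c : C => ψ (c * y)) (β : C → ℂ)) = ((z β ^ 2 : ℤ) : ℂ) := by
      intro β
      have h4 : classInner (fun c : C => ψ (c * y)) (β : C → ℂ) = z β := hz β
      rw [h4, map_intCast]
      push_cast
      ring
    simp only [h3] at h1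
    exact_mod_cast h1
  obtain ⟨β₀, h3, h4⟩ := sum_sq_int z h2
  refine ⟨β₀, z β₀, h3, hz β₀, fun β hβ => ?_⟩
  rw [hz, h4 β hβ]
  simp

theorem Setup.gen_centralizer (D : Setup G S C) {s : Γ} (hs : Subgroup.zpowers s = S) :
    ∀ c, c ∈ C ↔ c ∈ G ∧ c * s = s * c := by
  intro c
  rw [D.hC]
  constructor
  · rintro ⟨h1, h2⟩
    exact ⟨h1, h2 s (hs ▸ Subgroup.mem_zpowers s)⟩
  · rintro ⟨h1, h2⟩
    refine ⟨h1, fun t ht => ?_⟩
    rw [← hs] at ht
    obtain ⟨i, rfl⟩ := ht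
    have hcm : Commute c s := h2
    exact hcm.zpow_right i

theorem Setup.gen_power {s s₀ : Γ} (hs : Subgroup.zpowers s = S) (hs₀ : Subgroup.zpowers s₀ = S) :
    ∃ m : ℕ, m.Coprime (Nat.card S) ∧ s = s₀ ^ m := by
  have h1 : s ∈ Subgroup.zpowers s₀ := by
    rw [hs₀, ← hs]
    exact Subgroup.mem_zpowers s
  rw [← mem_powers_iff_mem_zpowers] at h1
  obtain ⟨m, rfl⟩ := h1
  refine ⟨m, ?_, rfl⟩
  have h2 : orderOf (s₀ ^ m) = orderOf s₀ := by
    rw [← Nat.card_zpowers, ← Nat.card_zpowers, hs, hs₀]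
  rw [orderOf_pow] at h2
  have h3 := (Nat.div_eq_self).mp h2
  rcases h3 with h3 | h3
  · exact absurd h3 (orderOf_pos s₀).ne'
  · rw [← hs₀, Nat.card_zpowers, Nat.Coprime, Nat.gcd_comm]
    exact h3

theorem char_zero_of_one {K : Type*} [Group K] {f : K → ℂ} (hf : IsCharacter K f) (h : f 1 = 0) (x : K) : f x = 0 := by
  obtain ⟨n, ρ, rfl⟩ := hf
  rw [Representation.char_one] at h
  have h1 : Module.finrank ℂ (Fin n → ℂ) = 0 := by exact_mod_cast h
  rw [Module.finrank_fin_fun] at h1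
  subst h1
  have h2 : ρ x = 0 := LinearMap.ext fun v => Subsingleton.elim _ _
  unfold Representation.character
  rw [h2, map_zero]

/-- **Main existence theorem.** -/
theorem Setup.main (D : Setup G S C) {s₀ : Γ} (hs₀ : Subgroup.zpowers s₀ = S) {ψ : Γ → ℂ} (hψ : IsCharacter Γ ψ)
    (hres : IsIrrCharacter G (fun n : G => ψ n))
    (hfix : ∀ K : ℕ, K ≡ 1 [MOD Nat.card G] → K.Coprime (Nat.card Γ) → ∀ x, ψ (x ^ K) = ψ x) :
    ∃ β₀ : IrrCharacter C, ∃ ε : ℤ, (ε = 1 ∨ ε = -1) ∧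
      (∀ (c : C) (s : Γ), Subgroup.zpowers s = S → ψ (c * s) = (ε : ℂ) * (β₀ : C → ℂ) c) ∧
      coef C ψ (β₀ : C → ℂ) 1 ≠ 0 := by
  classical
  have hs₀S : s₀ ∈ S := hs₀ ▸ Subgroup.mem_zpowers s₀
  obtain ⟨β₀, ε, hε, h1, h2⟩ := D.exists_coef hψ hres hfix hs₀S (D.gen_centralizer hs₀)
  refine ⟨β₀, ε, hε, fun c s hs => ?_, ?_⟩
  · obtain ⟨m, hm, rfl⟩ := Setup.gen_power hs hs₀
    have hcl := IsCharacter.isClassFunction' hψ
    have hsS : s₀ ^ m ∈ S := hs ▸ Subgroup.mem_zpowers _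
    rw [expand_coef hcl (fun c hc => D.hcomm c hc _ hsS) c, Finset.sum_eq_single β₀]
    · rw [D.coef_pow hfix _ hs₀S hm, h1]
    · intro β _ hβ
      rw [D.coef_pow hfix _ hs₀S hm, h2 β hβ, zero_mul]
    · intro h
      exact absurd (Finset.mem_univ _) h
  · intro h0
    have hc := isCharacter_coef D.hcomm hψ (IsIrrCharacter.isCharacter' β₀.2)
    have h3 := char_zero_of_one hc h0 ⟨s₀, hs₀S⟩
    have h4 : coef C ψ (β₀ : C → ℂ) s₀ = 0 := h3
    rw [h1] at h4
    rcases hε with rfl | rfl <;> simp at h4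

/-- Uniqueness of the character and the sign. -/
theorem corr_unique {f : C → ℂ} {β β' : IrrCharacter C} {ε ε' : ℤ} (hε : ε = 1 ∨ ε = -1) (hε' : ε' = 1 ∨ ε' = -1)
    (h : ∀ c, f c = (ε : ℂ) * (β : C → ℂ) c) (h' : ∀ c, f c = (ε' : ℂ) * (β' : C → ℂ) c) : β = β' ∧ ε = ε' := by
  have h1 : (ε : ℂ) * (β : C → ℂ) 1 = (ε' : ℂ) * (β' : C → ℂ) 1 := by
    rw [← h, h']
  rw [apply_one_eq_deg, apply_one_eq_deg] at h1
  have h2 : ε * (deg β : ℤ) = ε' * (deg β' : ℤ) := by exact_mod_cast h1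
  have hd := deg_pos β
  have hd' := deg_pos β'
  have hεε : ε = ε' := by
    rcases hε with rfl | rfl <;> rcases hε' with rfl | rfl <;> first | rfl | omega
  subst hεε
  refine ⟨?_, rfl⟩
  apply Subtype.ext
  funext c
  have h3 : (ε : ℂ) ≠ 0 := by
    rcases hε with rfl | rfl <;> simp
  exact mul_left_cancel₀ h3 ((h c).symm.trans (h' c))

/-- Distinct irreducible characters of `G` have distinct characters of `C` under the correspondence. -/
theorem Setup.corr_inj (D : Setup G S C) {s₀ : Γ} (hs₀ : Subgroup.zpowers s₀ = S) {ψ ψ' : Γ → ℂ}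
    (hψ : IsIrrCharacter Γ ψ) (hψ' : IsIrrCharacter Γ ψ')
    (hres : IsIrrCharacter G (fun n : G => ψ n)) (hres' : IsIrrCharacter G (fun n : G => ψ' n))
    {β : IrrCharacter C} {ε ε' : ℤ} (hε : ε = 1 ∨ ε = -1) (hε' : ε' = 1 ∨ ε' = -1)
    (h : ∀ c : C, ψ (c * s₀) = (ε : ℂ) * (β : C → ℂ) c) (h' : ∀ c : C, ψ' (c * s₀) = (ε' : ℂ) * (β : C → ℂ) c) :
    (fun n : G => ψ n) = (fun n : G => ψ' n) := by
  classical
  by_contra hne
  have hs₀S : s₀ ∈ S := hs₀ ▸ Subgroup.mem_zpowers s₀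
  have hcl := IsCharacter.isClassFunction' (IsIrrCharacter.isCharacter' hψ)
  have hcl' := IsCharacter.isClassFunction' (IsIrrCharacter.isCharacter' hψ')
  have h1 := inner_shift (D.coprime_order hs₀S) (D.gen_centralizer hs₀) hcl hcl'
  rw [coset_orth G hψ hψ' hres hres' hne s₀, mul_zero] at h1
  have h2 : (fun c : C => ψ (c * s₀)) = (ε : ℂ) • (β : C → ℂ) := funext h
  have h3 : (fun c : C => ψ' (c * s₀)) = (ε' : ℂ) • (β : C → ℂ) := funext h'
  rw [h2, h3, classInner_smul_left, classInner_smul_right, classInner_irr β.2 β.2, if_pos rfl, mul_one] at h1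
  rcases hε with rfl | rfl <;> rcases hε' with rfl | rfl <;> simp at h1

end Main

section Top

variable {Γ : Type u} [Group Γ] [Fintype Γ] (G S : Subgroup Γ) (C : Subgroup Γ)

theorem normal_of_top (hnorm : ∀ s ∈ S, ∀ g ∈ G, s * g * s⁻¹ ∈ G) (htop : G ⊔ S = ⊤) : G.Normal := by
  rw [← Subgroup.normalizer_eq_top_iff, eq_top_iff, ← htop]
  refine sup_le Subgroup.le_normalizer ?_
  intro s hs
  rw [Subgroup.mem_normalizer_iff]
  intro h
  constructor
  · exact fun hh => hnorm s hs h hh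
  · intro hh
    have h1 := hnorm s⁻¹ (S.inv_mem hs) _ hh
    simpa [mul_assoc] using h1

theorem setup_of [hG : G.Normal] (hcop : (Nat.card G).Coprime (Nat.card S)) (htop : G ⊔ S = ⊤)
    (hC : C = G ⊓ Subgroup.centralizer (S : Set Γ)) : Setup G S C := by
  have hinf : G ⊓ S = ⊥ := Subgroup.inf_eq_bot_of_coprime hcop
  have hdec : ∀ m : Γ, ∃ k ∈ G, ∃ h : S, m = k * (S.subtype h) := by
    intro m
    have h1 : m ∈ ((G ⊔ S : Subgroup Γ) : Set Γ) := by
      rw [htop]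
      trivial
    rw [Subgroup.normal_mul] at h1
    obtain ⟨a, ha, b, hb, hab⟩ := Set.mem_mul.mp h1
    exact ⟨a, ha, ⟨b, hb⟩, hab.symm⟩
  have hSG : ∀ h : S, S.subtype h ∈ G → h = 1 := by
    intro h hh
    have h1 : (h : Γ) ∈ G ⊓ S := ⟨hh, h.2⟩
    rw [hinf, Subgroup.mem_bot] at h1
    exact Subtype.ext h1
  have hi := Cfsg.Agent.Lib.CharCop.index_eq_card_of_retraction S.subtype G hdec hSG
  refine ⟨hcop, ?_, ?_⟩
  · have h1 := Subgroup.card_mul_index G
    rw [hi] at h1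
    exact h1.symm
  · intro c
    rw [hC, Subgroup.mem_inf, Subgroup.mem_centralizer_iff]
    constructor
    · rintro ⟨h1, h2⟩
      exact ⟨h1, fun t ht => (h2 t ht).symm⟩
    · rintro ⟨h1, h2⟩
      exact ⟨h1, fun t ht => (h2 t ht).symm⟩

variable {G S} in
theorem inv_all [hG : G.Normal] [Fintype G] (htop : G ⊔ S = ⊤) (χ : IrrCharacter G)
    (hinv : ∀ s ∈ S, ∀ g g' : G, (g' : Γ) = s * g * s⁻¹ → (χ : G → ℂ) g' = (χ : G → ℂ) g) (x : Γ) (n : G) :
    (χ : G → ℂ) ⟨x * n * x⁻¹, hG.conj_mem (n : Γ) n.2 x⟩ = (χ : G → ℂ) n := by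
  have h1 : x ∈ ((G ⊔ S : Subgroup Γ) : Set Γ) := by
    rw [htop]
    trivial
  rw [Subgroup.normal_mul] at h1
  obtain ⟨k, hk, t, ht, rfl⟩ := Set.mem_mul.mp h1
  have hcl := IsCharacter.isClassFunction' (IsIrrCharacter.isCharacter' χ.2)
  have h2 := hinv t ht n ⟨t * n * t⁻¹, hG.conj_mem (n : Γ) n.2 t⟩ rfl
  have e : (⟨(k * t) * n * (k * t)⁻¹, hG.conj_mem (n : Γ) n.2 (k * t)⟩ : G) =
      ⟨k, hk⟩ * ⟨t * n * t⁻¹, hG.conj_mem (n : Γ) n.2 t⟩ * (⟨k, hk⟩ : G)⁻¹ := by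
    apply Subtype.ext
    simp only [Subgroup.coe_mul, Subgroup.coe_inv]
    group
  rw [e, hcl, h2]

variable {G S C} in
theorem exists_canonical [hG : G.Normal] [Fintype G] [Fintype S] [Fintype C] (D : Setup G S C) (htop : G ⊔ S = ⊤) (χ : IrrCharacter G)
    (hinv : ∀ s ∈ S, ∀ g g' : G, (g' : Γ) = s * g * s⁻¹ → (χ : G → ℂ) g' = (χ : G → ℂ) g) :
    ∃ χh : IrrCharacter Γ, (∀ g : G, (χh : Γ → ℂ) g = (χ : G → ℂ) g) ∧ (detOrder (χh : Γ → ℂ)).Coprime (Nat.card S) := by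
  have hχ' := IsIrrCharacter.isCharacter' χ.2
  have hidx : (Nat.card G).Coprime G.index := by
    rw [D.hidx]
    exact D.hcop
  obtain ⟨χ₀, ⟨h1, h2, h3⟩, -⟩ := canonical_ext G (χ : G → ℂ) χ.2 (inv_all htop χ hinv) (charDegree (χ : G → ℂ))
    (charDegree_cast hχ').symm (Nat.Coprime.mul_right
      (Nat.Coprime.coprime_dvd_right (Cfsg.Agent.Lib.CharCop.detOrder_dvd_card hχ') hidx.symm)
      (Nat.Coprime.coprime_dvd_right (charDegree_dvd_card χ.2) hidx.symm))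
  refine ⟨⟨χ₀, h1⟩, h2, ?_⟩
  show (detOrder χ₀).Coprime (Nat.card S)
  rw [h3]
  exact Nat.Coprime.coprime_dvd_left (Cfsg.Agent.Lib.CharCop.detOrder_dvd_card hχ') D.hcop

theorem exists_generator_of_cyclic (S : Subgroup Γ) (hcyc : IsCyclic S) : ∃ s₀ : Γ, Subgroup.zpowers s₀ = S := by
  obtain ⟨g, hg⟩ := hcyc.exists_generator
  refine ⟨g, ?_⟩
  ext t
  constructor
  · rintro ⟨i, rfl⟩
    exact S.zpow_mem g.2 i
  · intro ht
    obtain ⟨i, hi⟩ := hg ⟨t, ht⟩
    refine ⟨i, ?_⟩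
    have h1 := congrArg Subtype.val hi
    simpa using h1

theorem solvable_of_cyclic (S : Subgroup Γ) (hcyc : IsCyclic S) : Group.IsSolvable S := by
  obtain ⟨g, hg⟩ := hcyc.exists_generator
  apply isSolvable_of_comm
  intro a b
  obtain ⟨i, rfl⟩ := hg a
  obtain ⟨j, rfl⟩ := hg b
  exact (Commute.refl g).zpow_zpow i j

end Top

end Cfsg.Agent.Lib.GlauCyc
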