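import Cfsg.Agent.Lib.GlauCyc

/-!
# The Glauberman correspondence for fixed point free cyclic operators
-/

set_option autoImplicit false
set_option linter.all false

namespace Cfsg.Agent.Lib.GlauFpf

open Cfsg Cfsg.Agent.Lib.CharOps Cfsg.Agent.Lib.CharIrr Cfsg.Agent.Lib.CharDet Cfsg.Agent.Lib.CharDet2
  Cfsg.Agent.Lib.CharDet3 Cfsg.Agent.Lib.CharAb Cfsg.Agent.Lib.CharGal Cfsg.Agent.Lib.CharBlockDefect
  Cfsg.Agent.Lib.GlauCyc
open scoped ComplexConjugate

universe u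

section Congr

theorem sum_pow_prime_congr {R ι : Type*} [CommRing R] {p : ℕ} (hp : p.Prime) (s : Finset ι) (f : ι → R) :
    ∃ r, (∑ i ∈ s, f i) ^ p = ∑ i ∈ s, f i ^ p + p * r := by
  classical
  induction s using Finset.induction_on with
  | empty =>
    refine ⟨0, ?_⟩
    simp [hp.ne_zero]
  | insert a s ha ih =>
    obtain ⟨r, hr⟩ := ih
    obtain ⟨r', hr'⟩ := exists_add_pow_prime_eq hp (f a) (∑ i ∈ s, f i)
    refine ⟨r + f a * (∑ i ∈ s, f i) * r', ?_⟩
    rw [Finset.sum_insert ha, Finset.sum_insert ha, hr', hr]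
    ring

/-- Character values satisfy the Frobenius congruence. -/
theorem char_pow_congr {Q : Type u} [Group Q] [Finite Q] {f : Q → ℂ} (hf : IsCharacter Q f) {p : ℕ} (hp : p.Prime) (z : Q) :
    ∃ w : ℂ, IsIntegral ℤ w ∧ f z ^ p = f (z ^ p) + p * w := by
  classical
  obtain ⟨n, ρ, rfl⟩ := hf
  obtain ⟨ι, _, b, μ, h1, h2⟩ := Cfsg.Agent.Lib.CharCore.exists_eigenbasis_rep ρ z
  have h3 : ρ.character z = ∑ i, μ i := Cfsg.Agent.Lib.CharCore.trace_eq_sum_of_eigenbasis b μ (ρ z) h1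
  have h4 : ∀ (m : ℕ) i, ρ (z ^ m) (b i) = (μ i ^ m) • b i := by
    intro m i
    induction m with
    | zero => simp
    | succ m ih =>
      rw [pow_succ, map_mul, Module.End.mul_apply, h1, map_smul, ih, smul_smul, pow_succ]
      ring_nf
  have h5 : ρ.character (z ^ p) = ∑ i, μ i ^ p := Cfsg.Agent.Lib.CharCore.trace_eq_sum_of_eigenbasis b _ (ρ (z ^ p)) (h4 p)
  have hint : ∀ i, IsIntegral ℤ (μ i) := fun i =>
    IsIntegral.of_pow Nat.card_pos (by
      rw [h2 i]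
      exact isIntegral_one)
  let R := integralClosure ℤ ℂ
  obtain ⟨r, hr⟩ := sum_pow_prime_congr (R := R) hp Finset.univ (fun i => (⟨μ i, hint i⟩ : R))
  refine ⟨(r : ℂ), r.2, ?_⟩
  rw [h3, h5]
  have h6 := congrArg (Subtype.val) hr
  push_cast at h6
  exact h6

theorem int_pow_congr {Q : Type u} [Group Q] [Finite Q] {f : Q → ℂ} (hf : IsCharacter Q f) {p : ℕ} (hp : p.Prime) (z : Q)
    {a b : ℤ} (ha : f z = a) (hb : f (z ^ p) = b) : (p : ℤ) ∣ a ^ p - b := by
  obtain ⟨w, hw, h⟩ := char_pow_congr hf hp z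
  rw [ha, hb] at h
  have hp0 : (p : ℂ) ≠ 0 := by exact_mod_cast hp.ne_zero
  have hw2 : w = (((a ^ p - b : ℤ) : ℚ) / (p : ℚ) : ℚ) := by
    push_cast
    rw [h]
    field_simp
    ring
  rw [hw2] at hw
  have h1 : IsIntegral ℤ (((a ^ p - b : ℤ) : ℚ) / (p : ℚ) : ℚ) := by
    have : IsIntegral ℤ ((algebraMap ℚ ℂ) (((a ^ p - b : ℤ) : ℚ) / (p : ℚ))) := hw
    exact (isIntegral_algebraMap_iff (algebraMap ℚ ℂ).injective).mp this
  obtain ⟨y, hy⟩ := IsIntegrallyClosed.isIntegral_iff.mp h1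
  refine ⟨y, ?_⟩
  have hp0' : (p : ℚ) ≠ 0 := by exact_mod_cast hp.ne_zero
  have h2 : (y : ℚ) = ((a ^ p - b : ℤ) : ℚ) / (p : ℚ) := by simpa using hy
  field_simp at h2
  have h3 : ((a ^ p - b : ℤ) : ℚ) = ((p * y : ℤ) : ℚ) := by
    push_cast
    push_cast at h2
    linarith
  exact_mod_cast h3

end Congr

section Combi

theorem exists_near {L : Type*} [Fintype L] (u : L → ℤ) (hn : 2 ≤ Fintype.card L)
    (h : (Fintype.card L : ℤ) * ∑ i, u i ^ 2 = (∑ i, u i) ^ 2 + Fintype.card L - 1) :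
    ∃ t : ℤ, ∑ i, (u i - t) ^ 2 = 1 := by
  classical
  set n : ℤ := (Fintype.card L : ℤ) with hndef
  set m : ℤ := ∑ i, u i with hm
  have hn2 : 2 ≤ n := by
    rw [hndef]
    exact_mod_cast hn
  have hE : ∀ t : ℤ, n * ∑ i, (u i - t) ^ 2 = (m - n * t) ^ 2 + n - 1 := by
    intro t
    have h1 : ∑ i, (u i - t) ^ 2 = ∑ i, u i ^ 2 - 2 * t * m + n * t ^ 2 := by
      have h2 : ∀ i, (u i - t) ^ 2 = u i ^ 2 - 2 * t * u i + t ^ 2 := fun i => by ring
      simp only [h2, Finset.sum_add_distrib, Finset.sum_sub_distrib, Finset.sum_const, Finset.card_univ, ← Finset.mul_sum, nsmul_eq_mul]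
      rfl
    rw [h1]
    linear_combination h
  set t₀ := m / n with ht₀
  set s := m % n with hs
  have hm2 : m = n * t₀ + s := (Int.mul_ediv_add_emod m n).symm
  have hs0 : 0 ≤ s := Int.emod_nonneg _ (by omega)
  have hs1 : s < n := Int.emod_lt_of_pos _ (by omega)
  have hge : s ≤ ∑ i, (u i - t₀) ^ 2 := by
    have h1 : s = ∑ i, (u i - t₀) := by
      rw [Finset.sum_sub_distrib, Finset.sum_const, Finset.card_univ, nsmul_eq_mul, ← hm, ← hndef, hm2]
      ring
    rw [h1]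
    apply Finset.sum_le_sum
    intro i _
    have h2 : ∀ w : ℤ, w ≤ w ^ 2 := by
      intro w
      rcases le_or_gt w 0 with h3 | h3
      · nlinarith [sq_nonneg w]
      · nlinarith
    exact h2 _
  have h1 := hE t₀
  have h2 : m - n * t₀ = s := by
    rw [hm2]
    ring
  rw [h2] at h1
  set E := ∑ i, (u i - t₀) ^ 2 with hEdef
  have h3 : n * s ≤ s ^ 2 + n - 1 := by
    have h4 : n * s ≤ n * E := mul_le_mul_of_nonneg_left hge (by omega)
    linarith
  have h0 : s ≠ 0 := by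
    intro h5
    rw [h5] at h1
    have h6 : n * E = n - 1 := by linarith
    rcases le_or_gt E 0 with h7 | h7
    · nlinarith
    · nlinarith
  have hcases : s = 1 ∨ s = n - 1 := by
    by_contra hcon
    push Not at hcon
    have h5 : 2 ≤ s := by omega
    have h6 : s ≤ n - 2 := by omega
    nlinarith
  rcases hcases with h5 | h5
  · refine ⟨t₀, ?_⟩
    have h6 : n * E = n := by
      rw [h1, h5]
      ring
    have h7 : n * (E - 1) = 0 := by linarith
    rcases mul_eq_zero.mp h7 with h8 | h8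
    · omega
    · omega
  · refine ⟨t₀ + 1, ?_⟩
    have h6 := hE (t₀ + 1)
    have h7 : m - n * (t₀ + 1) = -1 := by
      rw [hm2, h5]
      ring
    rw [h7] at h6
    have h8 : n * (∑ i, (u i - (t₀ + 1)) ^ 2 - 1) = 0 := by linarith
    rcases mul_eq_zero.mp h8 with h9 | h9
    · omega
    · omega

/-- A character of an abelian group of absolute value one off the identity is a signed linear
character off the identity. -/
theorem linear_form {Q : Type u} [Group Q] [Fintype Q] (hab : ∀ a b : Q, a * b = b * a) (h2 : 2 ≤ Nat.card Q)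
    {a : Q → ℂ} (ha : IsCharacter Q a) (h1 : ∀ y, y ≠ 1 → a y * conj (a y) = 1) :
    ∃ (μ₀ : IrrCharacter Q) (ε t : ℤ), (ε = 1 ∨ ε = -1) ∧ (∀ y, y ≠ 1 → a y = (ε : ℂ) * (μ₀ : Q → ℂ) y) ∧
      a 1 = (Nat.card Q : ℂ) * t + ε ∧ 0 ≤ t := by
  classical
  have hdeg : ∀ μ : IrrCharacter Q, (μ : Q → ℂ) 1 = 1 := (commutative_iff_apply_one).mp hab
  have hcardL : Fintype.card (IrrCharacter Q) = Nat.card Q := by
    rw [← Nat.card_eq_fintype_card, card_irr, card_classes_eq_card_iff.mpr hab]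
  have hn : ∀ μ : IrrCharacter Q, ∃ n : ℕ, classInner a (μ : Q → ℂ) = n := fun μ =>
    exists_nat_classInner ha (IsIrrCharacter.isCharacter' μ.2)
  choose u hu using hn
  have hexp := classFunction_expand (IsCharacter.isClassFunction' ha)
  have hval : ∀ y, a y = ∑ μ : IrrCharacter Q, (u μ : ℂ) * (μ : Q → ℂ) y := by
    intro y
    conv_lhs => rw [hexp]
    rw [Finset.sum_apply]
    refine Finset.sum_congr rfl fun μ _ => ?_
    rw [Pi.smul_apply, hu, smul_eq_mul]
  have hone : a 1 = ((∑ μ, u μ : ℕ) : ℂ) := by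
    rw [hval]
    push_cast
    refine Finset.sum_congr rfl fun μ _ => ?_
    rw [hdeg, mul_one]
  have hnorm : classInner a a = ∑ μ : IrrCharacter Q, ((u μ : ℂ)) ^ 2 := by
    rw [Cfsg.Agent.Lib.Glaub.inner_parseval (IsCharacter.isClassFunction' ha)]
    refine Finset.sum_congr rfl fun μ _ => ?_
    rw [hu, Complex.conj_natCast]
    ring
  have hQ0 : (Nat.card Q : ℂ) ≠ 0 := by exact_mod_cast Nat.card_pos.ne'
  have hsum : ∑ y : Q, a y * conj (a y) = a 1 * conj (a 1) + ((Nat.card Q : ℂ) - 1) := by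
    rw [← Finset.add_sum_erase _ _ (Finset.mem_univ (1 : Q))]
    congr 1
    rw [Finset.sum_congr rfl (fun y hy => h1 y (Finset.ne_of_mem_erase hy)), Finset.sum_const, Finset.card_erase_of_mem (Finset.mem_univ _),
      Finset.card_univ, ← Nat.card_eq_fintype_card]
    have h3 : 1 ≤ Nat.card Q := Nat.card_pos
    rw [nsmul_eq_mul, mul_one, Nat.cast_sub h3, Nat.cast_one]
  have hmain : (Fintype.card (IrrCharacter Q) : ℤ) * ∑ μ, (u μ : ℤ) ^ 2 = (∑ μ, (u μ : ℤ)) ^ 2 + Fintype.card (IrrCharacter Q) - 1 := by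
    have h3 : (Nat.card Q : ℂ) * ∑ μ : IrrCharacter Q, ((u μ : ℂ)) ^ 2 = ((∑ μ, u μ : ℕ) : ℂ) ^ 2 + (Nat.card Q : ℂ) - 1 := by
      rw [← hnorm, ← hone]
      unfold classInner
      rw [hsum, ← mul_assoc, mul_inv_cancel₀ hQ0, one_mul, hone, Complex.conj_natCast]
      ring
    rw [hcardL]
    have h4 : ((Nat.card Q : ℤ) * ∑ μ, (u μ : ℤ) ^ 2 : ℂ) = (((∑ μ, (u μ : ℤ)) ^ 2 + Nat.card Q - 1 : ℤ) : ℂ) := by
      push_cast
      push_cast at h3
      exact h3
    exact_mod_cast h4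
  have hcardL2 : 2 ≤ Fintype.card (IrrCharacter Q) := by
    rw [hcardL]
    exact h2
  obtain ⟨t, ht⟩ := exists_near (fun μ => (u μ : ℤ)) hcardL2 hmain
  obtain ⟨μ₀, hε, hz⟩ := sum_sq_int (fun μ => (u μ : ℤ) - t) ht
  have hsumchar : ∀ y, y ≠ 1 → ∑ μ : IrrCharacter Q, (μ : Q → ℂ) y = 0 := by
    intro y hy
    have h3 := column_orthogonality y 1
    rw [if_neg (fun h4 => hy (by
      have := isConj_comm.mp h4
      exact (isConj_one_right.mp this)))] at h3
    rw [← h3]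
    refine Finset.sum_congr rfl fun μ _ => ?_
    rw [hdeg, map_one, mul_one]
  have hut : ∀ μ, (u μ : ℂ) = t + (((u μ : ℤ) - t : ℤ) : ℂ) := by
    intro μ
    push_cast
    ring
  refine ⟨μ₀, (u μ₀ : ℤ) - t, t, hε, fun y hy => ?_, ?_, ?_⟩
  · rw [hval]
    simp only [hut]
    simp only [add_mul]
    rw [Finset.sum_add_distrib, ← Finset.mul_sum, hsumchar y hy, mul_zero, zero_add, Finset.sum_eq_single μ₀]
    · intro μ _ hμ
      rw [hz μ hμ]
      simp
    · intro h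
      exact absurd (Finset.mem_univ _) h
  · rw [hval]
    simp only [hdeg, mul_one]
    simp only [hut]
    rw [Finset.sum_add_distrib, Finset.sum_const, Finset.card_univ, hcardL, nsmul_eq_mul, Finset.sum_eq_single μ₀]
    · intro μ _ hμ
      rw [hz μ hμ]
      simp
    · intro h
      exact absurd (Finset.mem_univ _) h
  · obtain ⟨μ₁, hμ₁⟩ : ∃ μ₁, μ₁ ≠ μ₀ := by
      by_contra hcon
      push Not at hcon
      have h3 : Fintype.card (IrrCharacter Q) ≤ 1 := Fintype.card_le_one_iff.mpr fun a b => by rw [hcon a, hcon b]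
      omega
    have h3 := hz μ₁ hμ₁
    have h4 : (u μ₁ : ℤ) = t := by
      omega
    rw [← h4]
    exact Int.natCast_nonneg _

end Combi

section Fpf

variable {Γ : Type u} [Group Γ] [Fintype Γ] {G S C : Subgroup Γ} [hG : G.Normal] [Fintype G] [Fintype S] [Fintype C]

theorem nonvanish (D : Setup G S C) {s₀ : Γ} (hs₀ : Subgroup.zpowers s₀ = S) {ψ : Γ → ℂ} (hψ : IsCharacter Γ ψ)
    (hres : IsIrrCharacter G (fun n : G => ψ n))
    (hfix : ∀ K : ℕ, K ≡ 1 [MOD Nat.card G] → K.Coprime (Nat.card Γ) → ∀ x, ψ (x ^ K) = ψ x)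
    (hfpf : ∀ y ∈ S, y ≠ 1 → ∀ c, c ∈ C ↔ c ∈ G ∧ c * y = y * c) (β : IrrCharacter C)
    (hgen : coef C ψ (β : C → ℂ) s₀ ≠ 0) (k : ℕ) (hk : s₀ ^ k ≠ 1) :
    (coef C ψ (β : C → ℂ) (s₀ ^ k) = 1 ∨ coef C ψ (β : C → ℂ) (s₀ ^ k) = -1) ∧
      ∀ β' : IrrCharacter C, β' ≠ β → coef C ψ (β' : C → ℂ) (s₀ ^ k) = 0 := by
  classical
  have hs₀S : s₀ ∈ S := hs₀ ▸ Subgroup.mem_zpowers s₀
  have hmem : ∀ k : ℕ, s₀ ^ k ∈ S := fun k => S.pow_mem hs₀S k
  have step : ∀ y ∈ S, y ≠ 1 → coef C ψ (β : C → ℂ) y ≠ 0 →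
      (coef C ψ (β : C → ℂ) y = 1 ∨ coef C ψ (β : C → ℂ) y = -1) ∧
      ∀ β' : IrrCharacter C, β' ≠ β → coef C ψ (β' : C → ℂ) y = 0 := by
    intro y hy hy1 hne
    obtain ⟨β₁, ε, hε, h1, h2⟩ := D.exists_coef hψ hres hfix hy (hfpf y hy hy1)
    have h3 : β = β₁ := by
      by_contra h4
      exact hne (h2 β h4)
    subst h3
    refine ⟨?_, h2⟩
    rw [h1]
    rcases hε with rfl | rfl <;> simp
  induction k using Nat.strong_induction_on with
  | _ k IH =>
  have hk0 : k ≠ 0 := by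
    rintro rfl
    exact hk (pow_zero _)
  by_cases hk1 : k = 1
  · subst hk1
    rw [pow_one] at hk ⊢
    exact step s₀ hs₀S hk hgen
  · refine step _ (hmem k) hk ?_
    have hp := Nat.minFac_prime hk1
    obtain ⟨k', hk'⟩ := Nat.minFac_dvd k
    set p := k.minFac with hpdef
    have hk'0 : k' ≠ 0 := by
      rintro rfl
      exact hk0 (by simpa using hk')
    have hlt : k' < k := by
      rw [hk']
      have := hp.two_le
      nlinarith [Nat.pos_of_ne_zero hk'0]
    have hsk : s₀ ^ k = (s₀ ^ k') ^ p := by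
      rw [← pow_mul, hk', mul_comm]
    have hne : s₀ ^ k' ≠ 1 := by
      intro h1
      apply hk
      rw [hsk, h1, one_pow]
    obtain ⟨h1, -⟩ := IH k' hlt hne
    have hch := isCharacter_coef D.hcomm hψ (IsIrrCharacter.isCharacter' β.2)
    obtain ⟨z₁, hz₁⟩ := D.coef_int hψ hfix (IsIrrCharacter.isCharacter' β.2) (hmem k)
    intro h0
    rw [h0] at hz₁
    have hz0 : z₁ = 0 := by
      have : (z₁ : ℂ) = 0 := hz₁.symm
      exact_mod_cast this
    subst hz0
    have hpow : ∀ a : ℤ, coef C ψ (β : C → ℂ) (s₀ ^ k') = a → (p : ℤ) ∣ a ^ p - 0 := by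
      intro a ha
      refine int_pow_congr hch hp (⟨s₀ ^ k', hmem k'⟩ : S) ha ?_
      show coef C ψ (β : C → ℂ) ((s₀ ^ k') ^ p) = ((0 : ℤ) : ℂ)
      rw [← hsk, h0]
      simp
    have hp1 : ¬ (p : ℤ) ∣ 1 := by
      intro h2
      have h3 := Int.eq_one_of_dvd_one (by positivity) h2
      have h4 : p = 1 := by exact_mod_cast h3
      exact hp.ne_one h4
    rcases h1 with h1 | h1
    · have h2 := hpow 1 (by simpa using h1)
      simp at h2
      exact hp1 h2
    · have h2 := hpow (-1) (by simpa using h1)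
      rcases Nat.even_or_odd p with h3 | h3
      · rw [h3.neg_pow] at h2
        simp at h2
        exact hp1 h2
      · rw [h3.neg_pow] at h2
        simp at h2
        exact hp1 h2

/-- **The main theorem for fixed point free operators.** -/
theorem fpf_main (D : Setup G S C) {s₀ : Γ} (hs₀ : Subgroup.zpowers s₀ = S) {ψ : Γ → ℂ} (hψ : IsCharacter Γ ψ)
    (hres : IsIrrCharacter G (fun n : G => ψ n))
    (hfix : ∀ K : ℕ, K ≡ 1 [MOD Nat.card G] → K.Coprime (Nat.card Γ) → ∀ x, ψ (x ^ K) = ψ x)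
    (hfpf : ∀ y ∈ S, y ≠ 1 → ∀ c, c ∈ C ↔ c ∈ G ∧ c * y = y * c) (β : IrrCharacter C)
    (hgen : coef C ψ (β : C → ℂ) s₀ ≠ 0) (h2 : 2 ≤ Nat.card S) :
    ∃ ε : ℤ, (ε = 1 ∨ ε = -1) ∧
      (∃ μ : S → ℂ, IsCharacter S μ ∧ μ 1 = 1 ∧ (∀ x : S, μ x * μ x = 1) ∧
        ∀ (c : C) (x : S), x ≠ 1 → ψ ((c : Γ) * x) = (ε : ℂ) * (β : C → ℂ) c * μ x) ∧
      ∃ ϑ : C → ℂ, IsCharacter C ϑ ∧ ∀ c : C, ψ ((c : Γ) * (1 : Γ)) = (Nat.card S : ℂ) * ϑ c + (ε : ℂ) * (β : C → ℂ) c := by
  classical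
  have hs₀S : s₀ ∈ S := hs₀ ▸ Subgroup.mem_zpowers s₀
  have hcl := IsCharacter.isClassFunction' hψ
  have hall : ∀ y : S, y ≠ 1 → (coef C ψ (β : C → ℂ) y = 1 ∨ coef C ψ (β : C → ℂ) y = -1) ∧
      ∀ β' : IrrCharacter C, β' ≠ β → coef C ψ (β' : C → ℂ) y = 0 := by
    intro y hy
    have hy1 : (y : Γ) ≠ 1 := fun h => hy (Subtype.ext h)
    have hyS : (y : Γ) ∈ Subgroup.zpowers s₀ := by
      rw [hs₀]
      exact y.2
    rw [← mem_powers_iff_mem_zpowers] at hyS
    obtain ⟨k, hk⟩ := hyS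
    simp only at hk
    rw [← hk] at hy1 ⊢
    exact nonvanish D hs₀ hψ hres hfix hfpf β hgen k hy1
  have hab : ∀ a b : S, a * b = b * a := by
    rintro ⟨a, ha⟩ ⟨b, hb⟩
    apply Subtype.ext
    show a * b = b * a
    rw [← hs₀] at ha hb
    obtain ⟨i, rfl⟩ := ha
    obtain ⟨j, rfl⟩ := hb
    exact (Commute.refl s₀).zpow_zpow i j
  have hch : ∀ β' : C → ℂ, IsCharacter C β' → IsCharacter S (fun t : S => coef C ψ β' t) := fun β' h =>
    isCharacter_coef D.hcomm hψ h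
  have hnorm1 : ∀ y : S, y ≠ 1 → (fun t : S => coef C ψ (β : C → ℂ) t) y * conj ((fun t : S => coef C ψ (β : C → ℂ) t) y) = 1 := by
    intro y hy
    simp only
    rcases (hall y hy).1 with h | h <;> rw [h] <;> simp
  obtain ⟨μ₀, ε, t, hε, hform, hone, ht0⟩ := linear_form hab h2 (hch _ (IsIrrCharacter.isCharacter' β.2)) hnorm1
  have hdeg : ∀ μ : IrrCharacter S, (μ : S → ℂ) 1 = 1 := (commutative_iff_apply_one).mp hab
  have hε0 : (ε : ℂ) * (ε : ℂ) = 1 := by
    rcases hε with rfl | rfl <;> simp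
  refine ⟨ε, hε, ⟨(μ₀ : S → ℂ), IsIrrCharacter.isCharacter' μ₀.2, hdeg μ₀, fun x => ?_, fun c x hx => ?_⟩, ?_⟩
  · by_cases hx : x = 1
    · rw [hx, hdeg]
      simp
    · have h1 := hform x hx
      have h3 : (coef C ψ (β : C → ℂ) x) * (coef C ψ (β : C → ℂ) x) = 1 := by
        rcases (hall x hx).1 with h | h <;> rw [h] <;> simp
      rw [h1] at h3
      calc (μ₀ : S → ℂ) x * (μ₀ : S → ℂ) x = ((ε : ℂ) * (ε : ℂ)) * ((μ₀ : S → ℂ) x * (μ₀ : S → ℂ) x) := by
            rw [hε0, one_mul]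
        _ = 1 := by
            rw [← h3]
            ring
  · rw [expand_coef hcl (fun c hc => D.hcomm c hc _ x.2) c, Finset.sum_eq_single β]
    · have h1 := hform x hx
      rw [h1]
      ring
    · intro β' _ hβ'
      rw [(hall x hx).2 β' hβ', zero_mul]
    · intro h
      exact absurd (Finset.mem_univ _) h
  · -- the multiples
    have hS0 : (Nat.card S : ℂ) ≠ 0 := by exact_mod_cast Nat.card_pos.ne'
    have hmult : ∀ β' : IrrCharacter C, β' ≠ β → ∃ k : ℕ, coef C ψ (β' : C → ℂ) 1 = (Nat.card S : ℂ) * k := by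
      intro β' hβ'
      obtain ⟨k, hk⟩ := exists_nat_classInner (hch _ (IsIrrCharacter.isCharacter' β'.2)) (isCharacter_one (G := S))
      refine ⟨k, ?_⟩
      rw [← hk]
      unfold classInner
      rw [Finset.sum_eq_single (1 : S)]
      · simp only [map_one, mul_one, OneMemClass.coe_one]
        field_simp
      · intro y _ hy
        show coef C ψ (β' : C → ℂ) y * (starRingEnd ℂ) 1 = 0
        rw [(hall y hy).2 β' hβ']
        simp
      · intro h
        exact absurd (Finset.mem_univ _) h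
    choose! kk hkk using hmult
    obtain ⟨t', rfl⟩ := Int.eq_ofNat_of_zero_le ht0
    let w : IrrCharacter C → ℕ := fun β' => if β' = β then t' else kk β'
    refine ⟨∑ β' : IrrCharacter C, (w β' : ℂ) • (β' : C → ℂ), ?_, fun c => ?_⟩
    · apply isCharacter_sum
      intro β' _
      exact isCharacter_nsmul (IsIrrCharacter.isCharacter' β'.2) (w β')
    · have hone' : coef C ψ (β : C → ℂ) 1 = (Nat.card S : ℂ) * (t' : ℂ) + (ε : ℂ) := by
        have h1 := hone
        rw [show ((1 : S) : Γ) = 1 from rfl] at h1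
        rw [h1]
        push_cast
        rfl
      rw [expand_coef hcl (fun c hc => by simp) c]
      rw [Finset.sum_apply, Finset.mul_sum]
      have h3 : ∑ β' : IrrCharacter C, coef C ψ (β' : C → ℂ) 1 * (β' : C → ℂ) c =
          ∑ β' : IrrCharacter C, ((Nat.card S : ℂ) * ((w β' : ℂ) • (β' : C → ℂ)) c + (if β' = β then (ε : ℂ) * (β' : C → ℂ) c else 0)) := by
        refine Finset.sum_congr rfl fun β' _ => ?_
        by_cases h : β' = β
        · subst h
          simp only [w, if_true, Pi.smul_apply, smul_eq_mul]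
          rw [hone']
          ring
        · simp only [w, if_neg h, Pi.smul_apply, smul_eq_mul, add_zero]
          rw [hkk β' h]
          ring
      rw [h3, Finset.sum_add_distrib, Finset.sum_ite_eq' Finset.univ β]
      simp

end Fpf

end Cfsg.Agent.Lib.GlauFpf
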