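import Cfsg.Agent.Lib.GlaubM

/-!
# The value formula for the Glauberman correspondence and compatibility with normal subgroups
-/

set_option autoImplicit false
set_option linter.all false

namespace Cfsg.Agent.Lib.GlaubF

open Cfsg Cfsg.Agent.Lib.CharOps Cfsg.Agent.Lib.CharIrr Cfsg.Agent.Lib.Glaub Cfsg.Agent.Lib.Glaub2
  Cfsg.Agent.Lib.GlaubL Cfsg.Agent.Lib.GlaubM
open scoped ComplexConjugate

universe u

section Arith

theorem dich_zero {I : Type*} [Fintype I] {p : ℕ} (hI : Fintype.card I = p) (hp : 2 ≤ p) (u : I → ℤ)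
    (hD : (p : ℤ) * ∑ i, u i ^ 2 - (∑ i, u i) ^ 2 = 0) : ∃ a : ℤ, ∀ i, u i = a := by
  classical
  have hp0 : (0 : ℤ) < p := by exact_mod_cast (by omega : 0 < p)
  set S := ∑ i, u i with hS
  set r := S % (p : ℤ) with hr
  set c := S / (p : ℤ) with hc
  have hSr : S = p * c + r := (Int.mul_ediv_add_emod S p).symm
  have hr0 : 0 ≤ r := Int.emod_nonneg _ hp0.ne'
  have hr1 : r < p := Int.emod_lt_of_pos _ hp0
  let v : I → ℤ := fun i => u i - c
  have hsumv : ∑ i, v i = r := by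
    simp only [v, Finset.sum_sub_distrib, Finset.sum_const, Finset.card_univ, hI, nsmul_eq_mul]
    rw [← hS, hSr]
    ring
  have hsq : ∑ i, u i ^ 2 = ∑ i, v i ^ 2 + 2 * c * r + (p : ℤ) * c ^ 2 := by
    have h1 : ∀ i, u i ^ 2 = v i ^ 2 + 2 * c * v i + c ^ 2 := by
      intro i
      simp only [v]
      ring
    simp only [h1, Finset.sum_add_distrib, Finset.sum_const, Finset.card_univ, hI, nsmul_eq_mul]
    rw [← Finset.mul_sum, hsumv]
  have hD' : (p : ℤ) * ∑ i, v i ^ 2 - r ^ 2 = 0 := by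
    rw [← hD, hsq, hSr]
    ring
  have hge : r ≤ ∑ i, v i ^ 2 := by
    rw [← hsumv]
    refine Finset.sum_le_sum fun i _ => ?_
    have := sq_nonneg (v i)
    nlinarith [Int.le_self_sq (v i)]
  have hr00 : r = 0 := by
    by_contra h
    have h1 : 1 ≤ r := by omega
    have h2 : (p : ℤ) * r ≤ (p : ℤ) * ∑ i, v i ^ 2 := mul_le_mul_of_nonneg_left hge hp0.le
    nlinarith
  rw [hr00] at hD'
  have h3 : ∑ i, v i ^ 2 = 0 := by
    have : (p : ℤ) * ∑ i, v i ^ 2 = 0 := by linarith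
    exact (mul_eq_zero.1 this).resolve_left hp0.ne'
  have h4 : ∀ i, v i = 0 := by
    intro i
    have := (Finset.sum_eq_zero_iff_of_nonneg (fun i _ => sq_nonneg (v i))).1 h3 i (Finset.mem_univ i)
    exact pow_eq_zero_iff (two_ne_zero) |>.1 this
  refine ⟨c, fun i => ?_⟩
  have := h4 i
  simp only [v] at this
  linarith

theorem dich_eq {I : Type*} [Fintype I] [DecidableEq I] {p : ℕ} (hI : Fintype.card I = p) (hp : 2 ≤ p) (u : I → ℤ)
    (hD : (p : ℤ) * ∑ i, u i ^ 2 - (∑ i, u i) ^ 2 = (p : ℤ) - 1) :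
    ∃ a ε : ℤ, (ε = 1 ∨ ε = -1) ∧ ∃ i₀, ∀ i, u i = a + if i = i₀ then ε else 0 := by
  classical
  have hp0 : (0 : ℤ) < p := by exact_mod_cast (by omega : 0 < p)
  have hp2 : (2 : ℤ) ≤ p := by exact_mod_cast hp
  set S := ∑ i, u i with hS
  set r := S % (p : ℤ) with hr
  set c := S / (p : ℤ) with hc
  have hSr : S = p * c + r := (Int.mul_ediv_add_emod S p).symm
  have hr0 : 0 ≤ r := Int.emod_nonneg _ hp0.ne'
  have hr1 : r < p := Int.emod_lt_of_pos _ hp0
  let v : I → ℤ := fun i => u i - c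
  have hsumv : ∑ i, v i = r := by
    simp only [v, Finset.sum_sub_distrib, Finset.sum_const, Finset.card_univ, hI, nsmul_eq_mul]
    rw [← hS, hSr]
    ring
  have hsq : ∑ i, u i ^ 2 = ∑ i, v i ^ 2 + 2 * c * r + (p : ℤ) * c ^ 2 := by
    have h1 : ∀ i, u i ^ 2 = v i ^ 2 + 2 * c * v i + c ^ 2 := by
      intro i
      simp only [v]
      ring
    simp only [h1, Finset.sum_add_distrib, Finset.sum_const, Finset.card_univ, hI, nsmul_eq_mul]
    rw [← Finset.mul_sum, hsumv]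
  have hD' : (p : ℤ) * ∑ i, v i ^ 2 - r ^ 2 = (p : ℤ) - 1 := by
    rw [← hD, hsq, hSr]
    ring
  have hge : r ≤ ∑ i, v i ^ 2 := by
    rw [← hsumv]
    refine Finset.sum_le_sum fun i _ => ?_
    have := sq_nonneg (v i)
    nlinarith [Int.le_self_sq (v i)]
  have hr00 : r ≠ 0 := by
    intro h
    rw [h] at hD'
    have h1 : (p : ℤ) ∣ 1 := by
      refine ⟨1 - ∑ i, v i ^ 2, ?_⟩
      linarith
    have h2 := Int.le_of_dvd one_pos h1
    omega
  have hr1' : 1 ≤ r := by omega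
  have hr2 : r ≤ p - 1 := by omega
  -- the slack
  have hslack : ∑ i, v i ^ 2 = r := by
    by_contra hne
    have h1 : r + 1 ≤ ∑ i, v i ^ 2 := by omega
    have h2 : (p : ℤ) * (r + 1) ≤ (p : ℤ) * ∑ i, v i ^ 2 := mul_le_mul_of_nonneg_left h1 hp0.le
    nlinarith [mul_nonneg (sub_nonneg.2 hr1') (sub_nonneg.2 hr2)]
  have hrp : (r - 1) * (p - 1 - r) = 0 := by
    rw [hslack] at hD'
    linarith
  have h01 : ∀ i, v i = 0 ∨ v i = 1 := by
    have h1 : ∑ i, (v i ^ 2 - v i) = 0 := by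
      rw [Finset.sum_sub_distrib, hslack, hsumv, sub_self]
    have h2 := (Finset.sum_eq_zero_iff_of_nonneg (fun i _ => by
      have := Int.le_self_sq (v i)
      linarith)).1 h1
    intro i
    have h3 := h2 i (Finset.mem_univ i)
    have h4 : v i * (v i - 1) = 0 := by linarith
    rcases mul_eq_zero.1 h4 with h5 | h5
    · left; exact h5
    · right; linarith
  rcases mul_eq_zero.1 hrp with hr3 | hr3
  · -- exactly one entry equal to one
    have hr4 : r = 1 := by linarith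
    have hex : ∃ i₀, v i₀ = 1 := by
      by_contra hno
      push_neg at hno
      have h5 : ∑ i, v i = 0 := Finset.sum_eq_zero fun i _ => (h01 i).resolve_right (hno i)
      omega
    obtain ⟨i₀, hi₀⟩ := hex
    refine ⟨c, 1, Or.inl rfl, i₀, fun i => ?_⟩
    by_cases hi : i = i₀
    · subst hi
      rw [if_pos rfl]
      simp only [v] at hi₀
      linarith
    · rw [if_neg hi]
      have h5 : v i = 0 := by
        rcases h01 i with h6 | h6
        · exact h6
        · exfalso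
          have h7 : ∑ j ∈ ({i, i₀} : Finset I), v j ≤ ∑ j, v j :=
            Finset.sum_le_sum_of_subset_of_nonneg (Finset.subset_univ _) (fun j _ _ => by
              rcases h01 j with h8 | h8 <;> omega)
          rw [Finset.sum_pair hi, h6, hi₀, hsumv] at h7
          omega
      simp only [v] at h5
      linarith
  · -- exactly one entry equal to zero
    have hr4 : r = p - 1 := by linarith
    have hex : ∃ i₀, v i₀ = 0 := by
      by_contra hno
      push_neg at hno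
      have h5 : ∑ i, v i = (p : ℤ) := by
        rw [Finset.sum_congr rfl (fun i _ => (h01 i).resolve_left (hno i))]
        simp [hI]
      omega
    obtain ⟨i₀, hi₀⟩ := hex
    refine ⟨c + 1, -1, Or.inr rfl, i₀, fun i => ?_⟩
    by_cases hi : i = i₀
    · subst hi
      rw [if_pos rfl]
      simp only [v] at hi₀
      linarith
    · rw [if_neg hi]
      have h5 : v i = 1 := by
        rcases h01 i with h6 | h6
        · exfalso
          -- two zero entries make the sum too small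
          have h7 : ∑ j, v j ≤ ∑ j ∈ (Finset.univ.erase i).erase i₀, 1 := by
            rw [← Finset.add_sum_erase _ _ (Finset.mem_univ i), h6, zero_add,
              ← Finset.add_sum_erase _ _ (Finset.mem_erase.2 ⟨fun h => hi h.symm, Finset.mem_univ i₀⟩), hi₀, zero_add]
            refine Finset.sum_le_sum fun j _ => ?_
            rcases h01 j with h8 | h8 <;> omega
          have h8 : ((Finset.univ.erase i).erase i₀).card = p - 2 := by
            rw [Finset.card_erase_of_mem (Finset.mem_erase.2 ⟨fun h => hi h.symm, Finset.mem_univ i₀⟩),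
              Finset.card_erase_of_mem (Finset.mem_univ i), Finset.card_univ, hI]
            omega
          rw [Finset.sum_const, h8, hsumv] at h7
          have h9 : (((p - 2 : ℕ) : ℤ)) = (p : ℤ) - 2 := by
            rw [Nat.cast_sub hp]
            rfl
          simp only [nsmul_eq_mul, mul_one] at h7
          omega
        · exact h6
      simp only [v] at h5
      linarith

end Arith

section Base

variable {Y : Type u} [Group Y] [Fintype Y] {N : Subgroup Y} [hN : N.Normal] [Fintype N] {s : Y} {p : ℕ}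
  {C : Type u} [Group C] [Fintype C] {ι : C →* N}

theorem sum_irr_Q {q : Subgroup.zpowers s} (hq : q ≠ 1) :
    ∑ μ : IrrCharacter (Subgroup.zpowers s), (μ : Subgroup.zpowers s → ℂ) q = 0 := by
  classical
  have h := column_orthogonality q 1
  rw [if_neg (fun h' => hq (isConj_one_left.1 h'))] at h
  simpa [degree_one_of_comm (comm_zpowers (s := s))] using h

theorem gd_value (D : GD N s p ι) (ψ : IrrCharacter Y) (u : IrrCharacter C → IrrCharacter (Subgroup.zpowers s) → ℕ)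
    (hu : ∀ (β : IrrCharacter C) (μ : IrrCharacter (Subgroup.zpowers s)), mult ((ψ : Y → ℂ) ∘ D.kap) (β : C → ℂ) μ = u β μ)
    (c : C) (q : Subgroup.zpowers s) :
    (ψ : Y → ℂ) (((ι c : N) : Y) * q) =
      ∑ β : IrrCharacter C, (∑ μ : IrrCharacter (Subgroup.zpowers s), (u β μ : ℂ) * (μ : Subgroup.zpowers s → ℂ) q) * (β : C → ℂ) c := by
  classical
  have hcl := IsCharacter.isClassFunction' (IsIrrCharacter.isCharacter' ψ.2)
  have hΨ : IsClassFunction (C × Subgroup.zpowers s) ((ψ : Y → ℂ) ∘ D.kap) := by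
    intro x g
    simp only [Function.comp, map_mul, map_inv]
    exact hcl _ _
  have h1 := congrFun (classFunction_expand (secF_isClass hΨ q)) c
  simp only [Finset.sum_apply, Pi.smul_apply, smul_eq_mul] at h1
  refine h1.trans (Finset.sum_congr rfl fun β _ => ?_)
  congr 1
  have h2 := secA_expand (comm_zpowers (s := s)) ((ψ : Y → ℂ) ∘ D.kap) (β : C → ℂ) q
  simp only [hu] at h2
  exact h2

/-- The value formula for the correspondence with an operator of prime order. -/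
theorem gd_formula (D : GD N s p ι) (χ : IrrCharacter N) (hinv : SInv N s (χ : N → ℂ)) :
    ∃ ψ : IrrCharacter Y, (∀ n : N, (ψ : Y → ℂ) n = (χ : N → ℂ) n) ∧ ∃ β₀ : IrrCharacter C,
      Corr p (fun c : C => (χ : N → ℂ) (ι c)) β₀ ∧ ∃ ε : ℤ, (ε = 1 ∨ ε = -1) ∧
      ∃ μ₀ : IrrCharacter (Subgroup.zpowers s), ∀ (c : C) (q : Subgroup.zpowers s), q ≠ 1 →
        (ψ : Y → ℂ) (((ι c : N) : Y) * q) = (ε : ℂ) * (μ₀ : Subgroup.zpowers s → ℂ) q * (β₀ : C → ℂ) c := by
  classical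
  haveI : Fact p.Prime := ⟨D.hp⟩
  have hp2 : 2 ≤ p := D.hp.two_le
  obtain ⟨ψ, hψ⟩ := Cfsg.Agent.Lib.BlockPair.exists_irr_over N.subtype N.subtype_injective χ
  have hψ' : classInner (fun n : N => (ψ : Y → ℂ) n) (χ : N → ℂ) ≠ 0 := hψ
  have hψc := IsIrrCharacter.isCharacter' ψ.2
  obtain ⟨e, he⟩ := exists_nat_classInner (isCharacter_restrict N hψc) (IsIrrCharacter.isCharacter' χ.2)
  have hres := D.restrict_eq hinv ψ hψ'
  rw [he] at hres
  have hres' : ∀ n : N, (ψ : Y → ℂ) n = (e : ℂ) * (χ : N → ℂ) n := fun n => by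
    have := congrFun hres n
    simpa using this
  have he0 : e ≠ 0 := by
    rintro rfl
    exact hψ' (by simpa using he)
  -- the multiplicities
  have hcl := IsCharacter.isClassFunction' hψc
  have hΨc : IsCharacter (C × Subgroup.zpowers s) ((ψ : Y → ℂ) ∘ D.kap) := isCharacter_comp D.kap hψc
  have hm : ∀ (β : IrrCharacter C) (μ : IrrCharacter (Subgroup.zpowers s)), ∃ n : ℕ, mult ((ψ : Y → ℂ) ∘ D.kap) (β : C → ℂ) μ = n :=
    fun β μ => mult_nat hΨc (IsIrrCharacter.isCharacter' β.2) (IsIrrCharacter.isCharacter' μ.2)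
  choose u hu' using hm
  have hu : ∀ β : IrrCharacter C, classInner (fun c : C => (ψ : Y → ℂ) ((ι c : N) : Y)) (β : C → ℂ) = ((∑ μ, u β μ : ℕ) : ℂ) := by
    intro β
    have h1 := secA_one (comm_zpowers (s := s)) ((ψ : Y → ℂ) ∘ D.kap) (β : C → ℂ)
    simp only [hu'] at h1
    have h2 : secA ((ψ : Y → ℂ) ∘ D.kap) (β : C → ℂ) 1 = classInner (fun c : C => (ψ : Y → ℂ) ((ι c : N) : Y)) (β : C → ℂ) := by
      rw [secA]
      congr 1
      funext c
      simp [GD.kap_apply]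
    rw [← h2, h1]
    push_cast
    rfl
  have hkey : (p : ℂ) * (((∑ β, ∑ μ, u β μ * u β μ : ℕ) : ℂ)) - ((∑ β, (∑ μ, u β μ) * (∑ μ, u β μ) : ℕ) : ℂ) =
        (p : ℂ) * classInner (ψ : Y → ℂ) (ψ : Y → ℂ) - classInner (fun n : N => (ψ : Y → ℂ) n) (fun n : N => (ψ : Y → ℂ) n) := by
    have hkey := D.key (ψ := (ψ : Y → ℂ)) (ψ' := (ψ : Y → ℂ)) hcl hcl
    rw [← hkey]
    simp only [hu', Complex.conj_natCast, ← Nat.cast_sum, map_natCast]
    push_cast
    rfl
  have hnorm : classInner (fun n : N => (ψ : Y → ℂ) n) (fun n : N => (ψ : Y → ℂ) n) = (e : ℂ) ^ 2 := by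
    rw [hres, classInner_smul_left, classInner_smul_right, classInner_irr χ.2 χ.2, if_pos rfl]
    simp
    ring
  rw [hnorm, classInner_irr ψ.2 ψ.2, if_pos rfl, mul_one] at hkey
  -- integers
  let V : IrrCharacter C → IrrCharacter (Subgroup.zpowers s) → ℤ := fun β μ => (u β μ : ℤ)
  let Dq : IrrCharacter C → ℤ := fun β => (p : ℤ) * ∑ μ, V β μ ^ 2 - (∑ μ, V β μ) ^ 2
  have hDsum : ∑ β, Dq β = (p : ℤ) - (e : ℤ) ^ 2 := by
    have h1 : ((∑ β, Dq β : ℤ) : ℂ) = (((p : ℤ) - (e : ℤ) ^ 2 : ℤ) : ℂ) := by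
      push_cast
      rw [← hkey]
      simp only [Dq, V]
      push_cast
      rw [Finset.sum_sub_distrib, ← Finset.mul_sum]
      simp only [pow_two]
    exact_mod_cast h1
  have hdich : ∀ β, Dq β = 0 ∨ (p : ℤ) - 1 ≤ Dq β := fun β => dich D.card_irrQ hp2 (V β)
  have hp1 : (1 : ℤ) ≤ (p : ℤ) - 1 := by
    have : (2 : ℤ) ≤ p := by exact_mod_cast hp2
    omega
  have hnn : ∀ β, 0 ≤ Dq β := fun β => by
    rcases hdich β with h | h
    · rw [h]
    · omega
  have hle : ∀ β, Dq β ≤ (p : ℤ) - (e : ℤ) ^ 2 := fun β => by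
    rw [← hDsum]
    exact Finset.single_le_sum (f := Dq) (fun x _ => hnn x) (Finset.mem_univ β)
  by_cases hall : ∀ β, Dq β = 0
  · exfalso
    rw [Finset.sum_eq_zero (fun β _ => hall β)] at hDsum
    have h2 : p = e ^ 2 := by
      have : (p : ℤ) = (e : ℤ) ^ 2 := by omega
      exact_mod_cast this
    have h3 := D.hp
    rw [h2, pow_two] at h3
    rcases (Nat.prime_mul_iff.1 h3) with ⟨h4, h5⟩ | ⟨h4, h5⟩
    · rw [h5] at h4
      exact Nat.not_prime_one h4
    · rw [h5] at h4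
      exact Nat.not_prime_one h4
  push_neg at hall
  obtain ⟨β₀, hβ₀⟩ := hall
  have hβ₀1 := (hdich β₀).resolve_left hβ₀
  have he1 : e = 1 := by
    have h1 := hle β₀
    have h2 : (e : ℤ) ^ 2 ≤ 1 := by omega
    have h3 : 1 ≤ e := Nat.pos_of_ne_zero he0
    have h4 : e ^ 2 ≤ 1 := by exact_mod_cast h2
    nlinarith
  subst he1
  have hsum1 : ∑ β, Dq β = Dq β₀ + ∑ β ∈ Finset.univ.erase β₀, Dq β := (Finset.add_sum_erase _ _ (Finset.mem_univ β₀)).symm
  have hrest : ∀ β, β ≠ β₀ → Dq β = 0 := by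
    intro β hβ
    by_contra h0
    have h1 := (hdich β).resolve_left h0
    have h2 : Dq β ≤ ∑ x ∈ Finset.univ.erase β₀, Dq x :=
      Finset.single_le_sum (f := Dq) (fun x _ => hnn x) (Finset.mem_erase.2 ⟨hβ, Finset.mem_univ β⟩)
    push_cast at hDsum
    omega
  have hDβ₀ : Dq β₀ = (p : ℤ) - 1 := by
    rw [Finset.sum_eq_zero (fun x hx => hrest x (Finset.ne_of_mem_erase hx)), add_zero] at hsum1
    rw [← hsum1, hDsum]
    push_cast
    ring
  refine ⟨ψ, ?_, β₀, ?_, ?_⟩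
  · intro n
    rw [hres']
    simp
  · intro β m hm
    have h1 : (fun c : C => (χ : N → ℂ) (ι c)) = (fun c : C => (ψ : Y → ℂ) ((ι c : N) : Y)) := by
      funext c
      rw [hres' (ι c)]
      simp
    rw [h1, hu β] at hm
    have hm' : ∑ μ, u β μ = m := by exact_mod_cast hm
    have hm2 : ∑ μ, V β μ = (m : ℤ) := by
      rw [← hm']
      push_cast
      rfl
    constructor
    · rintro rfl
      have h2 : Dq β = (p : ℤ) * ∑ μ, V β μ ^ 2 - (m : ℤ) ^ 2 := by
        show (p : ℤ) * ∑ μ, V β μ ^ 2 - (∑ μ, V β μ) ^ 2 = _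
        rw [hm2]
      rw [hDβ₀] at h2
      exact ⟨∑ μ, V β μ ^ 2 - 1, by linarith⟩
    · intro hne
      have h2 : Dq β = (p : ℤ) * ∑ μ, V β μ ^ 2 - (m : ℤ) ^ 2 := by
        show (p : ℤ) * ∑ μ, V β μ ^ 2 - (∑ μ, V β μ) ^ 2 = _
        rw [hm2]
      rw [hrest β hne] at h2
      have h3 : (p : ℤ) ∣ (m : ℤ) ^ 2 := ⟨∑ μ, V β μ ^ 2, by linarith⟩
      have h4 : p ∣ m ^ 2 := by exact_mod_cast h3
      exact D.hp.dvd_of_dvd_pow h4
  · obtain ⟨a, ε, hε, μ₀, hV⟩ := dich_eq D.card_irrQ hp2 (V β₀) hDβ₀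
    refine ⟨ε, hε, μ₀, fun c q hq => ?_⟩
    rw [gd_value D ψ u hu' c q, ← Finset.add_sum_erase _ _ (Finset.mem_univ β₀)]
    have hz : ∑ x ∈ Finset.univ.erase β₀, (∑ μ, (u x μ : ℂ) * (μ : Subgroup.zpowers s → ℂ) q) * (x : C → ℂ) c = 0 := by
      refine Finset.sum_eq_zero fun β hβ => ?_
      have hne := Finset.ne_of_mem_erase hβ
      obtain ⟨a, ha⟩ := dich_zero D.card_irrQ hp2 (V β) (hrest β hne)
      have h1 : ∀ μ, (u β μ : ℂ) = (a : ℂ) := by
        intro μ
        have h2 := ha μ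
        have h3 : ((u β μ : ℤ) : ℂ) = ((a : ℤ) : ℂ) := congrArg _ h2
        push_cast at h3
        exact h3
      simp only [h1]
      rw [← Finset.mul_sum, sum_irr_Q hq, mul_zero, zero_mul]
    rw [hz, add_zero]
    congr 1
    have h1 : ∀ μ, (u β₀ μ : ℂ) = (a : ℂ) + (if μ = μ₀ then (ε : ℂ) else 0) := by
      intro μ
      have h2 := hV μ
      have h3 : ((u β₀ μ : ℤ) : ℂ) = ((a + if μ = μ₀ then ε else 0 : ℤ) : ℂ) := congrArg _ h2
      push_cast at h3
      exact h3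
    simp only [h1, add_mul, ite_mul, zero_mul]
    rw [Finset.sum_add_distrib, ← Finset.mul_sum, sum_irr_Q hq, mul_zero, zero_add, Finset.sum_ite_eq' Finset.univ μ₀]
    simp

end Base

section Coset

variable {Y : Type u} [Group Y] [Fintype Y]

theorem sum_coset_zero (N₀ : Subgroup Y) [hN : N₀.Normal] [Fintype N₀] {Φ : Y → ℂ} (hΦ : IsCharacter Y Φ)
    (h0 : ∑ n : N₀, Φ n = 0) (y : Y) : ∑ n : N₀, Φ ((n : Y) * y) = 0 := by
  classical
  have hexp := classFunction_expand (IsCharacter.isClassFunction' hΦ)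
  choose m hm using fun ζ : IrrCharacter Y => exists_nat_classInner hΦ (IsIrrCharacter.isCharacter' ζ.2)
  have hone : IsCharacter N₀ (fun _ => (1 : ℂ)) := IsIrrCharacter.isCharacter' Cfsg.Agent.Lib.CharIso.isIrr_one
  choose a ha using fun ζ : IrrCharacter Y =>
    exists_nat_classInner (isCharacter_restrict N₀ (IsIrrCharacter.isCharacter' ζ.2)) hone
  have hN0 : (Nat.card N₀ : ℂ) ≠ 0 := by exact_mod_cast Nat.card_pos.ne'
  have hA : ∀ ζ : IrrCharacter Y, ∑ n : N₀, (ζ : Y → ℂ) n = (Nat.card N₀ : ℂ) * (a ζ : ℂ) := by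
    intro ζ
    rw [← ha ζ, classInner, ← mul_assoc, mul_inv_cancel₀ hN0, one_mul]
    simp
  have hΦval : ∀ x, Φ x = ∑ ζ : IrrCharacter Y, (m ζ : ℂ) * (ζ : Y → ℂ) x := by
    intro x
    conv_lhs => rw [hexp]
    simp [hm]
  have h1 : ∑ n : N₀, Φ n = (Nat.card N₀ : ℂ) * ((∑ ζ, m ζ * a ζ : ℕ) : ℂ) := by
    simp only [hΦval]
    rw [Finset.sum_comm]
    push_cast
    rw [Finset.mul_sum]
    refine Finset.sum_congr rfl fun ζ _ => ?_
    rw [← Finset.mul_sum, hA ζ]
    ring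
  rw [h1] at h0
  have h2 : ∑ ζ, m ζ * a ζ = 0 := by
    have := (mul_eq_zero.1 h0).resolve_left hN0
    exact_mod_cast this
  have h3 : ∀ ζ, m ζ * a ζ = 0 := fun ζ => (Finset.sum_eq_zero_iff.1 h2) ζ (Finset.mem_univ ζ)
  simp only [hΦval]
  rw [Finset.sum_comm]
  refine Finset.sum_eq_zero fun ζ _ => ?_
  rw [← Finset.mul_sum]
  rcases Nat.mul_eq_zero.1 (h3 ζ) with h4 | h4
  · rw [h4]
    simp
  · -- the sum over the coset vanishes
    let f : Y → ℂ := fun g => if g ∈ N₀ then 1 else 0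
    have hf : IsClassFunction Y f := by
      intro g h
      simp only [f]
      have : h * g * h⁻¹ ∈ N₀ ↔ g ∈ N₀ := by
        constructor
        · intro h1
          have := hN.conj_mem _ h1 h⁻¹
          simpa [mul_assoc] using this
        · intro h1
          exact hN.conj_mem _ h1 h
      simp only [this]
    have hsum : ∀ F : Y → ℂ, ∑ g, f g * F g = ∑ n : N₀, F n := by
      intro F
      simp only [f, ite_mul, one_mul, zero_mul]
      rw [← Finset.sum_filter]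
      symm
      apply Finset.sum_bij (fun (n : N₀) _ => (n : Y))
      · intro n _
        simp
      · intro a _ b _ h
        exact Subtype.ext h
      · intro g hg
        exact ⟨⟨g, (Finset.mem_filter.mp hg).2⟩, Finset.mem_univ _, rfl⟩
      · intro _ _
        rfl
    have h5 := Cfsg.Agent.Lib.CharCentral.sum_mul_irr ζ.2 hf y
    rw [hsum, hsum (ζ : Y → ℂ)] at h5
    have hd : (ζ : Y → ℂ) 1 ≠ 0 := by
      rw [Cfsg.Agent.Lib.CharAb.apply_one_eq_deg]
      exact_mod_cast (Cfsg.Agent.Lib.CharAb.deg_pos ζ).ne'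
    rw [hA ζ, h4] at h5
    simp only [Nat.cast_zero, mul_zero, zero_mul] at h5
    rw [(mul_eq_zero.1 h5).resolve_right hd, mul_zero]

end Coset

section Compat

variable {Y Y₀ C C₀ : Type u} [Group Y] [Fintype Y] [Group Y₀] [Fintype Y₀] {N : Subgroup Y} [hN : N.Normal] [Fintype N]
  {N₀ : Subgroup Y₀} [hN₀ : N₀.Normal] [Fintype N₀] {s₀ : Y₀} {p : ℕ} [Group C] [Fintype C] [Group C₀] [Fintype C₀]
  {ι₀ : C₀ →* N₀}

/-- Compatibility with a normal subgroup, the abstract form. -/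
theorem gd_compat (D₀ : GD N₀ s₀ p ι₀) (j : Y₀ →* Y) (hjN : ∀ n : N₀, j n ∈ N) {ι : C →* N} (j₀ : C₀ →* C)
    (hj₀ : ∀ c, j ((ι₀ c : N₀) : Y₀) = ((ι (j₀ c) : N) : Y))
    (ψ : IrrCharacter Y) (ξ : IrrCharacter Y₀) (χ : IrrCharacter N) (θ : IrrCharacter N₀)
    (hψ : ∀ n : N, (ψ : Y → ℂ) n = (χ : N → ℂ) n) (hξ : ∀ n : N₀, (ξ : Y₀ → ℂ) n = (θ : N₀ → ℂ) n)
    (β : IrrCharacter C) (θ₁ : IrrCharacter C₀) (κ κ₀ : ℂ) (hκ : κ ≠ 0) (hκ₀ : κ₀ ≠ 0)
    (hfψ : ∀ c, (ψ : Y → ℂ) (((ι c : N) : Y) * j s₀) = κ * (β : C → ℂ) c)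
    (hfξ : ∀ c, (ξ : Y₀ → ℂ) (((ι₀ c : N₀) : Y₀) * s₀) = κ₀ * (θ₁ : C₀ → ℂ) c)
    (hin : classInner (fun c => (β : C → ℂ) (j₀ c)) (θ₁ : C₀ → ℂ) ≠ 0) :
    classInner (fun n : N₀ => (χ : N → ℂ) ⟨j n, hjN n⟩) (θ : N₀ → ℂ) ≠ 0 := by
  classical
  intro h0
  apply hin
  have hN₀0 : (Nat.card N₀ : ℂ) ≠ 0 := by exact_mod_cast Nat.card_pos.ne'
  have hC₀0 : (Nat.card C₀ : ℂ) ≠ 0 := by exact_mod_cast Nat.card_pos.ne'
  let Φ : Y₀ → ℂ := fun y => (ψ : Y → ℂ) (j y) * conj ((ξ : Y₀ → ℂ) y)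
  have hΦ : IsCharacter Y₀ Φ := isCharacter_mul (isCharacter_comp j (IsIrrCharacter.isCharacter' ψ.2))
    (isCharacter_conj (IsIrrCharacter.isCharacter' ξ.2))
  have h1 : ∑ n : N₀, Φ n = 0 := by
    have h2 : ∑ n : N₀, Φ n = ∑ n : N₀, (χ : N → ℂ) ⟨j n, hjN n⟩ * conj ((θ : N₀ → ℂ) n) := by
      refine Finset.sum_congr rfl fun n _ => ?_
      simp only [Φ]
      rw [hξ n]
      congr 1
      exact hψ ⟨j n, hjN n⟩
    rw [h2]
    rw [classInner] at h0
    exact (mul_eq_zero.1 h0).resolve_left (inv_ne_zero hN₀0)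
  have h2 := sum_coset_zero N₀ hΦ h1 s₀
  let q₀ : Subgroup.zpowers s₀ := ⟨s₀, Subgroup.mem_zpowers s₀⟩
  have hq : q₀ ≠ 1 := by
    intro h
    have h3 : s₀ = 1 := congrArg Subtype.val h
    have h4 := D₀.hs
    rw [h3, orderOf_one] at h4
    exact D₀.hp.one_lt.ne h4
  have hcl₁ := IsCharacter.isClassFunction' (IsIrrCharacter.isCharacter' ψ.2)
  have hcl₂ := IsCharacter.isClassFunction' (IsIrrCharacter.isCharacter' ξ.2)
  have h3 := D₀.sum_coset hq (F := Φ) (by
    intro g y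
    simp only [Φ, map_mul, map_inv]
    rw [hcl₁, hcl₂])
  have h4 : ∀ c : C₀, Φ (((ι₀ c : N₀) : Y₀) * q₀) = κ * conj κ₀ * ((β : C → ℂ) (j₀ c) * conj ((θ₁ : C₀ → ℂ) c)) := by
    intro c
    show (ψ : Y → ℂ) (j (((ι₀ c : N₀) : Y₀) * s₀)) * conj ((ξ : Y₀ → ℂ) (((ι₀ c : N₀) : Y₀) * s₀)) = _
    rw [map_mul, hj₀, hfψ, hfξ, map_mul]
    ring
  have h5 : ∑ n : N₀, Φ ((n : Y₀) * q₀) = 0 := h2
  rw [h5, mul_zero] at h3
  simp only [h4] at h3
  rw [← Finset.mul_sum] at h3
  have h6 := h3.symm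
  have h7 := (mul_eq_zero.1 h6).resolve_left hN₀0
  have hκκ : κ * conj κ₀ ≠ 0 := mul_ne_zero hκ (by simpa using hκ₀)
  have h8 := (mul_eq_zero.1 h7).resolve_left hκκ
  rw [classInner, h8, mul_zero]

end Compat

section Semi

variable {G Z : Type u} [Group G] [Fintype G] [Group Z] [Fintype Z]

/-- Finiteness of the semidirect product. -/
noncomputable def semiFintype (φ : Z →* MulAut G) : Fintype (G ⋊[φ] Z) :=
  Fintype.ofEquiv (G × Z) SemidirectProduct.equivProd.symm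

attribute [local instance] semiFintype

/-- The base of the semidirect product. -/
abbrev inlR (φ : Z →* MulAut G) : Subgroup (G ⋊[φ] Z) := (SemidirectProduct.inl : G →* G ⋊[φ] Z).range

theorem inlR_normal (φ : Z →* MulAut G) : (inlR φ).Normal := by
  have : inlR φ = (SemidirectProduct.rightHom : (G ⋊[φ] Z) →* Z).ker := SemidirectProduct.range_inl_eq_ker_rightHom
  rw [this]
  exact MonoidHom.normal_ker _

attribute [local instance] inlR_normal

/-- Finiteness of the base. -/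
noncomputable def inlRFintype (φ : Z →* MulAut G) : Fintype (inlR φ) := Fintype.ofFinite _

attribute [local instance] inlRFintype

/-- The isomorphism with the base. -/
noncomputable def inlEquiv (φ : Z →* MulAut G) : G ≃* inlR φ := MonoidHom.ofInjective SemidirectProduct.inl_injective

theorem inlEquiv_apply (φ : Z →* MulAut G) (g : G) : ((inlEquiv φ g : inlR φ) : G ⋊[φ] Z) = SemidirectProduct.inl g := rfl

variable {C : Type u} [Group C] [Fintype C] {p : ℕ}

theorem gd_semi (hp : p.Prime) (φ : Z →* MulAut G) (z' : Z) (hz' : orderOf z' = p) (hgen : ∀ t : Z, ∃ k : ℕ, t = z' ^ k)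
    (hcop : ¬ p ∣ Nat.card G) (κ : C →* G) (hinj : Function.Injective κ) (hfix : ∀ c, φ z' (κ c) = κ c)
    (hrange : ∀ g, φ z' g = g → ∃ c, κ c = g) :
    GD (inlR φ) (SemidirectProduct.inr z' : G ⋊[φ] Z) p ((inlEquiv φ).toMonoidHom.comp κ) := by
  classical
  let s : G ⋊[φ] Z := SemidirectProduct.inr z'
  let inl' : G →* (G ⋊[φ] Z) := SemidirectProduct.inl
  have hinlinj : Function.Injective inl' := SemidirectProduct.inl_injective
  have hconj : ∀ g : G, inl' (φ z' g) = s * inl' g * s⁻¹ := by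
    intro g
    have := SemidirectProduct.inl_aut (φ := φ) z' g
    rw [map_inv] at this
    exact this
  refine ⟨hp, ?_, ?_, ?_, ?_, ?_, ?_⟩
  · have : orderOf s = orderOf z' := orderOf_injective _ SemidirectProduct.inr_injective z'
    rw [this, hz']
  · rw [Nat.card_congr (inlEquiv φ).toEquiv.symm]
    exact hcop
  · intro y
    refine ⟨inl' y.left, ⟨y.left, rfl⟩, ?_⟩
    obtain ⟨k, hk⟩ := hgen y.right
    refine ⟨k, ?_⟩
    have h2 : s ^ k = SemidirectProduct.inr y.right := by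
      rw [hk, map_pow]
    rw [h2]
    exact (SemidirectProduct.inl_left_mul_inr_right y).symm
  · intro a b hab
    exact hinj (hinlinj (congrArg (fun x : inlR φ => (x : G ⋊[φ] Z)) hab))
  · intro c
    have h1 := hconj (κ c)
    rw [hfix c] at h1
    show inl' (κ c) * s = s * inl' (κ c)
    rw [eq_mul_inv_iff_mul_eq] at h1
    exact h1
  · intro n hn
    obtain ⟨g, rfl⟩ := (inlEquiv φ).surjective n
    have h1 := hconj g
    have h2 : inl' g * s = s * inl' g := hn
    have h3 : inl' (φ z' g) = inl' g := by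
      rw [h1, ← h2]
      group
    obtain ⟨c, rfl⟩ := hrange g (hinlinj h3)
    exact ⟨c, rfl⟩

theorem sinv_of_invZ (φ : Z →* MulAut G) (z' : Z) (χ : IrrCharacter G) (hχ : InvZ (φ z') (χ : G → ℂ)) :
    SInv (inlR φ) (SemidirectProduct.inr z' : G ⋊[φ] Z) (BlockPair.irrComp (inlEquiv φ).symm χ : inlR φ → ℂ) := by
  intro n
  obtain ⟨g, rfl⟩ := (inlEquiv φ).surjective n
  have key : (⟨(SemidirectProduct.inr z' : G ⋊[φ] Z) * ((inlEquiv φ g : inlR φ) : G ⋊[φ] Z) * (SemidirectProduct.inr z')⁻¹,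
      (inlR_normal φ).conj_mem _ (inlEquiv φ g).2 _⟩ : inlR φ) = inlEquiv φ (φ z' g) := by
    apply Subtype.ext
    have := SemidirectProduct.inl_aut (φ := φ) z' g
    rw [map_inv] at this
    exact this.symm
  rw [key]
  show (χ : G → ℂ) ((inlEquiv φ).symm (inlEquiv φ (φ z' g))) = (χ : G → ℂ) ((inlEquiv φ).symm (inlEquiv φ g))
  rw [MulEquiv.symm_apply_apply, MulEquiv.symm_apply_apply]
  exact hχ g

/-- The Glauberman correspondence for a group acting through a cyclic group of prime order. -/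
theorem glau_semi (hp : p.Prime) (φ : Z →* MulAut G) (z' : Z) (hz' : orderOf z' = p) (hgen : ∀ t : Z, ∃ k : ℕ, t = z' ^ k)
    (hcop : ¬ p ∣ Nat.card G) (κ : C →* G) (hinj : Function.Injective κ) (hfix : ∀ c, φ z' (κ c) = κ c)
    (hrange : ∀ g, φ z' g = g → ∃ c, κ c = g) : GlauQ p (InvZ (φ z')) κ := by
  have D := gd_semi hp φ z' hz' hgen hcop κ hinj hfix hrange
  refine base_transfer (φ z') (inlEquiv φ) ?_ κ D
  intro g
  have := SemidirectProduct.inl_aut (φ := φ) z' g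
  rw [map_inv] at this
  exact this

theorem semi_formula (hp : p.Prime) (φ : Z →* MulAut G) (z' : Z) (hz' : orderOf z' = p) (hgen : ∀ t : Z, ∃ k : ℕ, t = z' ^ k)
    (hcop : ¬ p ∣ Nat.card G) (κ : C →* G) (hinj : Function.Injective κ) (hfix : ∀ c, φ z' (κ c) = κ c)
    (hrange : ∀ g, φ z' g = g → ∃ c, κ c = g) (χ : IrrCharacter G) (hχ : InvZ (φ z') (χ : G → ℂ)) :
    ∃ ψ : IrrCharacter (G ⋊[φ] Z), (∀ g : G, (ψ : G ⋊[φ] Z → ℂ) (SemidirectProduct.inl g) = (χ : G → ℂ) g) ∧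
      ∃ β₀ : IrrCharacter C, Corr p (fun c => (χ : G → ℂ) (κ c)) β₀ ∧ ∃ k : ℂ, k ≠ 0 ∧ ∀ c,
        (ψ : G ⋊[φ] Z → ℂ) (SemidirectProduct.inl (κ c) * SemidirectProduct.inr z') = k * (β₀ : C → ℂ) c := by
  classical
  have D := gd_semi hp φ z' hz' hgen hcop κ hinj hfix hrange
  have hval : ∀ x : C, ((BlockPair.irrComp (inlEquiv φ).symm χ : inlR φ → ℂ) ((inlEquiv φ).toMonoidHom.comp κ x)) = (χ : G → ℂ) (κ x) := by
    intro x
    show (χ : G → ℂ) ((inlEquiv φ).symm (inlEquiv φ (κ x))) = _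
    rw [MulEquiv.symm_apply_apply]
  obtain ⟨ψ, h1, β₀, h2, ε, hε, μ₀, h3⟩ := gd_formula D _ (sinv_of_invZ φ z' χ hχ)
  refine ⟨ψ, ?_, β₀, ?_, (ε : ℂ) * (μ₀ : Subgroup.zpowers (SemidirectProduct.inr z' : G ⋊[φ] Z) → ℂ) ⟨_, Subgroup.mem_zpowers _⟩, ?_, ?_⟩
  · intro g
    have := h1 (inlEquiv φ g)
    rw [inlEquiv_apply] at this
    rw [this]
    show (χ : G → ℂ) ((inlEquiv φ).symm (inlEquiv φ g)) = _
    rw [MulEquiv.symm_apply_apply]
  · simpa only [hval] using h2
  · apply mul_ne_zero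
    · rcases hε with rfl | rfl <;> simp
    · intro h0
      have h4 := Cfsg.Agent.Lib.CharCliff.norm_eq_one_of_degree_one (IsIrrCharacter.isCharacter' μ₀.2)
        (degree_one_of_comm comm_zpowers μ₀) ⟨_, Subgroup.mem_zpowers _⟩
      rw [h0] at h4
      simp at h4
  · intro c
    have hne : (⟨SemidirectProduct.inr z', Subgroup.mem_zpowers _⟩ : Subgroup.zpowers (SemidirectProduct.inr z' : G ⋊[φ] Z)) ≠ 1 := by
      intro h
      have h5 : (SemidirectProduct.inr z' : G ⋊[φ] Z) = 1 := congrArg Subtype.val h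
      have h6 := D.hs
      rw [h5, orderOf_one] at h6
      exact hp.one_lt.ne h6
    have h7 := h3 c _ hne
    exact h7

end Semi

section CompatZ

variable {G N C C₀ : Type u} [Group G] [Fintype G] [Group N] [Fintype N] [Group C] [Fintype C] [Group C₀] [Fintype C₀]
  {p : ℕ}

attribute [local instance] semiFintype inlR_normal inlRFintype

theorem card_dvd_of_inj {A B : Type*} [Group A] [Group B] [Finite B] (f : A →* B) (hf : Function.Injective f) :
    Nat.card A ∣ Nat.card B := Subgroup.card_dvd_of_injective f hf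

/-- Compatibility of the correspondence for one operator of prime order with an invariant subgroup. -/
theorem compat_z (hp : p.Prime) (z : MulAut G) (hz : orderOf z = p) (hcop : ¬ p ∣ Nat.card G) (ι : N →* G)
    (hι : Function.Injective ι) (zN : MulAut N) (hzN : ∀ x, ι (zN x) = z (ι x)) (κ : C →* G) (hinj : Function.Injective κ)
    (hfix : ∀ c, z (κ c) = κ c) (hrange : ∀ g, z g = g → ∃ c, κ c = g) (κ₀ : C₀ →* N) (hinj₀ : Function.Injective κ₀)
    (hfix₀ : ∀ c, zN (κ₀ c) = κ₀ c) (hrange₀ : ∀ g, zN g = g → ∃ c, κ₀ c = g) (j₀ : C₀ →* C)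
    (hj₀ : ∀ c, κ (j₀ c) = ι (κ₀ c)) (χ : IrrCharacter G) (hχ : InvZ z (χ : G → ℂ)) (θ : IrrCharacter N)
    (hθ : InvZ zN (θ : N → ℂ)) (β : IrrCharacter C) (θ₁ : IrrCharacter C₀)
    (hβ : Corr p (fun c => (χ : G → ℂ) (κ c)) β) (hθ₁ : Corr p (fun c => (θ : N → ℂ) (κ₀ c)) θ₁)
    (hin : classInner (fun c => (β : C → ℂ) (j₀ c)) (θ₁ : C₀ → ℂ) ≠ 0) :
    classInner (fun x => (χ : G → ℂ) (ι x)) (θ : N → ℂ) ≠ 0 := by
  classical
  let Z : Subgroup (MulAut G) := Subgroup.zpowers z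
  letI : Fintype Z := Fintype.ofFinite _
  let φ : Z →* MulAut G := Z.subtype
  let z' : Z := ⟨z, Subgroup.mem_zpowers z⟩
  have hτ : ∀ (t : Z) (x : N), φ t (ι x) ∈ ι.range := by
    rintro ⟨t, k, rfl⟩ x
    show (z ^ k) (ι x) ∈ ι.range
    have key : ∀ (k : ℤ) (x : N), (z ^ k) (ι x) = ι ((zN ^ k) x) := by
      intro k x
      have h1 : ∀ (n : ℕ) (x : N), (z ^ n) (ι x) = ι ((zN ^ n) x) := by
        intro n
        induction n with
        | zero => intro x; rfl
        | succ n ih =>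
          intro x
          rw [pow_succ', pow_succ', MulAut.mul_apply, MulAut.mul_apply, ih, hzN]
      have h2 : ∀ x : N, (z⁻¹) (ι x) = ι (zN⁻¹ x) := by
        intro x
        have h3 := hzN (zN⁻¹ x)
        rw [MulAut.apply_inv_self] at h3
        rw [h3, MulAut.inv_apply_self]
      have h2' : ∀ (n : ℕ) (x : N), (z⁻¹ ^ n) (ι x) = ι ((zN⁻¹ ^ n) x) := by
        intro n
        induction n with
        | zero => intro x; rfl
        | succ n ih =>
          intro x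
          rw [pow_succ', pow_succ', MulAut.mul_apply, MulAut.mul_apply, ih, h2]
      cases k with
      | ofNat n => simpa using h1 n x
      | negSucc n =>
        have h3 := h2' (n + 1) x
        simpa [zpow_negSucc, inv_pow] using h3
    rw [key]
    exact ⟨_, rfl⟩
  let φN : Z →* MulAut N := liftAut ι hι φ hτ
  have hφN : ∀ (t : Z) (x : N), ι (φN t x) = φ t (ι x) := fun t x => liftAut_spec ι hι φ hτ t x
  have hφN' : φN z' = zN := by
    ext x
    apply hι
    rw [hφN, hzN]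
    rfl
  have hz' : orderOf z' = p := by
    rw [← hz]
    exact Subgroup.orderOf_mk z _
  have hgen : ∀ t : Z, ∃ k : ℕ, t = z' ^ k := by
    rintro ⟨t, ht⟩
    obtain ⟨k, hk⟩ := mem_powers_iff_mem_zpowers.2 ht
    exact ⟨k, Subtype.ext hk.symm⟩
  have hcopN : ¬ p ∣ Nat.card N := fun h => hcop (h.trans (card_dvd_of_inj ι hι))
  obtain ⟨ψ, hψ, β₀, hβ₀, k, hk, hval⟩ := semi_formula hp φ z' hz' hgen hcop κ hinj hfix hrange χ hχ
  have hfix₀' : ∀ c, φN z' (κ₀ c) = κ₀ c := by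
    rw [hφN']
    exact hfix₀
  have hrange₀' : ∀ g, φN z' g = g → ∃ c, κ₀ c = g := by
    rw [hφN']
    exact hrange₀
  have hθ' : InvZ (φN z') (θ : N → ℂ) := by
    rw [hφN']
    exact hθ
  obtain ⟨ξ, hξ, θ₀, hθ₀, k₀, hk₀, hval₀⟩ := semi_formula hp φN z' hz' hgen hcopN κ₀ hinj₀ hfix₀' hrange₀' θ hθ'
  have e1 : β₀ = β := Corr.unique hp (isCharacter_comp κ (IsIrrCharacter.isCharacter' χ.2)) hβ₀ hβ
  have e2 : θ₀ = θ₁ := Corr.unique hp (isCharacter_comp κ₀ (IsIrrCharacter.isCharacter' θ.2)) hθ₀ hθ₁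
  subst e1
  subst e2
  let j : (N ⋊[φN] Z) →* (G ⋊[φ] Z) := SemidirectProduct.map ι (MonoidHom.id Z) (by
    intro t
    ext x
    exact hφN t x)
  have hjl : ∀ x : N, j (SemidirectProduct.inl x) = SemidirectProduct.inl (ι x) := fun x => SemidirectProduct.map_inl _ _ _ x
  have hjr : ∀ t : Z, j (SemidirectProduct.inr t) = SemidirectProduct.inr t := fun t => SemidirectProduct.map_inr _ _ _ t
  have D₀ := gd_semi hp φN z' hz' hgen hcopN κ₀ hinj₀ hfix₀' hrange₀'
  have hjN : ∀ n : inlR φN, j n ∈ inlR φ := by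
    rintro ⟨_, x, rfl⟩
    exact ⟨ι x, (hjl x).symm⟩
  have h := gd_compat D₀ j hjN (ι := (inlEquiv φ).toMonoidHom.comp κ) j₀ (by
      intro c
      show j (SemidirectProduct.inl (κ₀ c)) = SemidirectProduct.inl (κ (j₀ c))
      rw [hjl, hj₀])
    ψ ξ (BlockPair.irrComp (inlEquiv φ).symm χ) (BlockPair.irrComp (inlEquiv φN).symm θ)
    (by
      intro n
      obtain ⟨g, rfl⟩ := (inlEquiv φ).surjective n
      rw [inlEquiv_apply, hψ]
      show _ = (χ : G → ℂ) ((inlEquiv φ).symm (inlEquiv φ g))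
      rw [MulEquiv.symm_apply_apply])
    (by
      intro n
      obtain ⟨g, rfl⟩ := (inlEquiv φN).surjective n
      rw [inlEquiv_apply, hξ]
      show _ = (θ : N → ℂ) ((inlEquiv φN).symm (inlEquiv φN g))
      rw [MulEquiv.symm_apply_apply])
    β₀ θ₀ k k₀ hk hk₀
    (by
      intro c
      show (ψ : G ⋊[φ] Z → ℂ) (SemidirectProduct.inl (κ c) * j (SemidirectProduct.inr z')) = _
      rw [hjr]
      exact hval c)
    (by
      intro c
      exact hval₀ c)
    hin
  intro h0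
  apply h
  rw [← Cfsg.Agent.Lib.CharCliff.classInner_comp_mulEquiv (inlEquiv φN)]
  convert h0 using 2
  · funext x
    have h1 : (⟨j ((inlEquiv φN x : inlR φN) : N ⋊[φN] Z), hjN _⟩ : inlR φ) = inlEquiv φ (ι x) := by
      apply Subtype.ext
      exact hjl x
    rw [h1]
    show (χ : G → ℂ) ((inlEquiv φ).symm (inlEquiv φ (ι x))) = _
    rw [MulEquiv.symm_apply_apply]
  · funext x
    show (θ : N → ℂ) ((inlEquiv φN).symm (inlEquiv φN x)) = _
    rw [MulEquiv.symm_apply_apply]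

end CompatZ

end Cfsg.Agent.Lib.GlaubF
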