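import Mathlib
import Cfsg.Agent.Lib.GolayClass
import Cfsg.Agent.Lib.GolayObjs
import Cfsg.Agent.Lib.GolayEnumF

/-!
# Centralizers of some elements of `M24`
-/

set_option autoImplicit false
set_option maxHeartbeats 0
set_option linter.style.haveILetI false
set_option linter.constructorNameAsVariable false

open scoped Pointwise

namespace Cfsg.Agent.Lib.GolayCent

open Cfsg Cfsg.Agent.Lib.GolayCode Cfsg.Agent.Lib.GolayFacts Cfsg.Agent.Lib.GolayPerm
  Cfsg.Agent.Lib.GolayChain Cfsg.Agent.Lib.GolayTrans Cfsg.Agent.Lib.GolayDecomp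
  Cfsg.Agent.Lib.GolayOrbit Cfsg.Agent.Lib.GolayFix Cfsg.Agent.Lib.GolayEnum
  Cfsg.Agent.Lib.GolayClassData Cfsg.Agent.Lib.GolayClass Cfsg.Agent.Lib.GolayObjs Cfsg.Agent.Lib.GolayEnumF
  Cfsg.Agent.Lib.GolayFam

/-- An element of order `7`. -/
def r7 : ℕ := 0x32cf5b5c79dd54ac112498a488c41
/-- Its powers. -/
def pows7 : List ℕ := [0x32cf5b5c79dd54ac112498a488c41,0xd193aaae95820fb1e4d418a474462,0x13e8bb4008a84f3625aa918a4bba23,0x1cdf561c32b092ba2150698a405dd1,0x8ae76a244d60d157ca07518a4082ee,0x7556c7a06aa46569b4e9818a410417]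
/-- Two elements of the centralizer. -/
def a7 : ℕ := 0x24f254dd66dd688568f610a688c41
/-- Two elements of the centralizer. -/
def b7 : ℕ := 0x3b2cf5c5409c1d4adc43094c46c909
/-- The pattern of `rZ0`. -/
def pats0 : List (ℕ × ℕ) := [(0, 1), (1, 0), (2, 3), (3, 2), (4, 6), (6, 4)]
/-- The pattern of `rA`. -/
def patsA : List (ℕ × ℕ) := [(0, 0), (1, 1), (2, 2), (3, 4), (4, 6), (5, 5), (6, 3)]
/-- The pattern of `rB`. -/
def patsB : List (ℕ × ℕ) := [(0, 1), (1, 2), (2, 0), (3, 4), (4, 5), (5, 3)]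
/-- The pattern of `r7`. -/
def pats7 : List (ℕ × ℕ) := [(0, 1), (1, 2), (2, 3), (3, 4), (5, 5), (6, 6)]
/-- A conjugate of `rZ0` which interchanges base points. -/
def r0a : ℕ := 0x156941e11535c6abe93932c320457
/-- The conjugating element. -/
def c0 : ℕ := 0x9414f7542468a68180b1bd98b35127
/-- The pairs of `r0a`, by levels. -/
def plist0 : List (List (ℕ × ℕ)) := [[], [(23, 0), (0, 23)], [], [(1, 2), (2, 1)], [], [(3, 4), (4, 3)], [(0, 23), (1, 2), (2, 1), (3, 4), (4, 3), (5, 22), (6, 12), (7, 18), (8, 19), (9, 20), (10, 15), (11, 21), (12, 6), (13, 14), (14, 13), (15, 10), (16, 17), (17, 16), (18, 7), (19, 8), (20, 9), (21, 11), (22, 5), (23, 0)]]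
/-- The sextet fixed by the centralizer of `r0a`. -/
def S0L : List ℕ := [196632, 266432, 1049094, 2623744, 4218912, 8422401]
/-- The points of the first tetrad. -/
def pts0 : List ℕ := [3, 4, 16, 17]
/-- The trio of `r7`. -/
def T0L : List ℕ := [337856, 7903248, 8536111]

/-- The elements with `c x = y c`. -/
def cosetC (x y : ℕ) (pats : List (ℕ × ℕ)) : List ℕ :=
  (enumL (keepC y pats)).filter fun c => commN c x y

theorem mem_cosetC {x y : ℕ} {pats : List (ℕ × ℕ)} (hx : Ok x) (hy : Ok y) (hp : patOK x pats = true)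
    {g : Equiv.Perm GolayPt} (hg : g ∈ M24) (hc : g * pN x = pN y * g) : ∃ e ∈ cosetC x y pats, g = pN e := by
  obtain ⟨e, he, rfl⟩ := enum_complete hg (fun i u hu h => keepC_sound hx hy hp hc hu h)
  obtain ⟨hok, -⟩ := enum_sound he
  exact ⟨e, List.mem_filter.mpr ⟨he, commN_of_comm hok hx hy hc⟩, rfl⟩

theorem cosetC_sound {x y : ℕ} {pats : List (ℕ × ℕ)} (hx : Ok x) (hy : Ok y) {e : ℕ}
    (he : e ∈ cosetC x y pats) : Ok e ∧ pN e ∈ M24 ∧ pN e * pN x = pN y * pN e := by
  obtain ⟨h1, h2⟩ := List.mem_filter.mp he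
  obtain ⟨hok, hm⟩ := enum_sound h1
  exact ⟨hok, hm, comm_of_commN hok hx hy h2⟩

attribute [local irreducible] cosetC

theorem conj_comm_iff (k c t : Equiv.Perm GolayPt) :
    (k * c * k⁻¹) * (k * t * k⁻¹) = (k * t * k⁻¹) * (k * c * k⁻¹) ↔ c * t = t * c := by
  have h1 : (k * c * k⁻¹) * (k * t * k⁻¹) = k * (c * t) * k⁻¹ := by group
  have h2 : (k * t * k⁻¹) * (k * c * k⁻¹) = k * (t * c) * k⁻¹ := by group
  rw [h1, h2]
  constructor
  · intro h
    exact mul_left_cancel (mul_right_cancel h)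
  · intro h
    rw [h]

theorem card_conj_eq {k : Equiv.Perm GolayPt} (hk : k ∈ M24) (P Q : Equiv.Perm GolayPt → Prop)
    (h : ∀ g, P g ↔ Q (k * g * k⁻¹)) :
    Nat.card {g : Equiv.Perm GolayPt // g ∈ M24 ∧ P g} = Nat.card {g : Equiv.Perm GolayPt // g ∈ M24 ∧ Q g} := by
  refine Nat.card_congr ⟨fun g => ⟨k * g.1 * k⁻¹, conj_mem hk g.2.1, (h _).mp g.2.2⟩,
    fun g => ⟨k⁻¹ * g.1 * k, ?_, ?_⟩, ?_, ?_⟩
  · have := conj_mem (inv_mem hk) g.2.1
    simpa using this
  · rw [h]
    have : k * (k⁻¹ * g.1 * k) * k⁻¹ = g.1 := by group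
    rw [this]
    exact g.2.2
  · intro g
    apply Subtype.ext
    show k⁻¹ * (k * g.1 * k⁻¹) * k = g.1
    group
  · intro g
    apply Subtype.ext
    show k * (k⁻¹ * g.1 * k) * k⁻¹ = g.1
    group

/-! ### The fixed-point-free involution -/

/-- The element fixes the sextet, by the image of a tetrad. -/
def tetChk (c : ℕ) : Bool := S0L.any fun b => pts0.all fun p => b.testBit (imgN c p)

/-- The checks on the centralizer. -/
def chk0 (L : List ℕ) : Bool :=
  Nat.beq L.length 7680 && distinctL L && L.all (fun c => Nat.blt c (32 ^ 24)) &&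
    allBelow (fun q => L.any fun c => Nat.beq (imgN c 23) q) 24 && L.all tetChk

theorem chk0_ok : forceL (cosetF r0a r0a plist0) chk0 = true := by decide +kernel

theorem S0L_ok : (sextetB S0L && goodL S0L) = true := by decide +kernel

theorem plist0_ok : plistOK r0a plist0 = true := by decide +kernel

theorem conj0_ok : (isAutN r0a && isAutN c0 && Nat.beq (compN c0 rZ0) (compN r0a c0)) = true := by decide +kernel

theorem pts0_ok : ∀ p ∈ pts0, p < 24 := by decide +kernel

theorem pts0_spec : ∀ p < 24, (S0L.headD 0).testBit p = true → p ∈ pts0 := by decide +kernel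

theorem pts0_head : (S0L.headD 0) ∈ S0L := by decide +kernel

theorem pts0_card : ∀ b ∈ S0L, (supFin b).card = 4 := by
  intro b hb
  have h := S0L_ok
  simp only [Bool.and_eq_true] at h
  have h1 := h.1
  simp only [sextetB, Bool.and_eq_true, List.all_eq_true] at h1
  have h2 := h1.1.2 b hb
  rw [card_supFin, ← GolayFast.hwF_eq]
  simpa using h2

theorem fixed_of_tet {e : ℕ} (he : Ok e) (hm : pN e ∈ M24) (hS : objOf S0L ∈ sextets) (h : tetChk e = true) :
    pN e • objOf S0L = objOf S0L := by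
  classical
  obtain ⟨b, hb, hbe⟩ := List.any_eq_true.mp h
  have hsub : pN e • supFin (S0L.headD 0) ⊆ supFin b := by
    intro q hq
    obtain ⟨p, hp, rfl⟩ := Finset.mem_smul_finset.mp hq
    have hp1 : (S0L.headD 0).testBit (ptIdx p) = true := mem_supFin.mp hp
    have hp2 := pts0_spec (ptIdx p) (ptIdx_lt p) hp1
    have hp3 := List.all_eq_true.mp hbe _ hp2
    rw [mem_supFin]
    show b.testBit (ptIdx (pN e p)) = true
    rw [ptIdx_pN he]
    exact hp3
  have heq : pN e • supFin (S0L.headD 0) = supFin b := by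
    apply Finset.eq_of_subset_of_card_le hsub
    rw [Finset.card_smul_finset, pts0_card _ pts0_head, pts0_card _ hb]
  have h1 : supFin b ∈ objOf S0L := mem_objOf.mpr ⟨b, hb, rfl⟩
  have h2 : supFin b ∈ pN e • objOf S0L := by
    rw [← heq]
    exact Finset.smul_mem_smul_finset (mem_objOf.mpr ⟨_, pts0_head, rfl⟩)
  exact sextet_unique (smul_mem_sextets hm hS) hS h2 h1

theorem idxPt_23 : idxPt 23 = (none : GolayPt) := rfl

attribute [local irreducible] cosetF

/-- The statement on the fixed-point-free involutions. -/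
theorem main5607 (t : Equiv.Perm GolayPt) (ht : t ∈ M24) (h₂ : orderOf t = 2) (h₀ : ∀ p, t p ≠ p) :
    Nat.card {c : Equiv.Perm GolayPt // c ∈ M24 ∧ c * t = t * c} = 7680 ∧
    (∀ p q : GolayPt, ∃ c ∈ M24, c * t = t * c ∧ c p = q) ∧
    ∃ S ∈ sextets, t • S = S ∧ ∀ c ∈ M24, c * t = t * c → c • S = S := by
  have hconj := conj0_ok
  simp only [Bool.and_eq_true] at hconj
  obtain ⟨⟨hra, hca⟩, hcr⟩ := hconj
  have hr0 : Ok r0a := isAutN_ok hra
  have hcOk : Ok c0 := isAutN_ok hca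
  have hc0m : pN c0 ∈ M24 := isAutN_mem hca
  have hcr' : pN c0 * pN rZ0 * (pN c0)⁻¹ = pN r0a := by
    have h1 := congrArg pN (Nat.eq_of_beq_eq_true hcr)
    rw [pN_comp hcOk (isAutN_ok rZ0_ok), pN_comp hr0 hcOk] at h1
    rw [h1]
    group
  obtain ⟨k, hk, hkt⟩ : ∃ k ∈ M24, k * t * k⁻¹ = pN r0a := by
    rcases invol_conj ht h₂ with ⟨-, c, hc, he⟩ | ⟨h8, -⟩
    · refine ⟨pN c0 * c, mul_mem hc0m hc, ?_⟩
      rw [← hcr', ← he]
      group
    · exfalso
      rw [fix_iff.mpr h₀] at h8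
      omega
  have hL := chk0_ok
  rw [forceL_eq] at hL
  simp only [chk0, Bool.and_eq_true, List.all_eq_true] at hL
  obtain ⟨⟨⟨⟨hl, hd⟩, hlt⟩, hcov⟩, hfix⟩ := hL
  have hcomm : ∀ c, c * t = t * c ↔ (k * c * k⁻¹) * pN r0a = pN r0a * (k * c * k⁻¹) := by
    intro c
    rw [← hkt, conj_comm_iff]
  have hmem : ∀ g ∈ M24, g * pN r0a = pN r0a * g → ∃ e ∈ cosetF r0a r0a plist0, g = pN e :=
    fun g hg hc => mem_cosetF hr0 hr0 plist0_ok hg hc
  have hS0 : objOf S0L ∈ sextets := by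
    have h := S0L_ok
    simp only [Bool.and_eq_true] at h
    exact objOf_mem_sextets h.1 h.2
  refine ⟨?_, ?_, ?_⟩
  · rw [card_conj_eq hk _ (fun g => g * pN r0a = pN r0a * g) hcomm]
    rw [card_of_list (L := cosetF r0a r0a plist0) ?_ hmem (nodup_of_distinctL hd) ?_]
    · exact Nat.eq_of_beq_eq_true hl
    · intro e he
      obtain ⟨h1, h2, h3⟩ := cosetF_sound hr0 hr0 he
      exact ⟨h1, h2, h3⟩
    · intro e he
      simpa using Nat.blt_eq.mp (hlt e he)
  · have hbase : ∀ q : GolayPt, ∃ g ∈ M24, g * pN r0a = pN r0a * g ∧ g none = q := by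
      intro q
      have h1 := allBelow_spec hcov (ptIdx q) (ptIdx_lt q)
      obtain ⟨c, hc, hce⟩ := List.any_eq_true.mp h1
      obtain ⟨h2, h3, h4⟩ := cosetF_sound hr0 hr0 hc
      refine ⟨pN c, h3, h4, ?_⟩
      have h5 := pN_idxPt h2 (i := 23) (by norm_num)
      rw [idxPt_23] at h5
      rw [h5, Nat.eq_of_beq_eq_true hce, idxPt_ptIdx]
    intro p q
    obtain ⟨g1, hg1, hc1, he1⟩ := hbase (k p)
    obtain ⟨g2, hg2, hc2, he2⟩ := hbase (k q)
    have hg : g2 * g1⁻¹ ∈ M24 := mul_mem hg2 (inv_mem hg1)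
    have hgc : (g2 * g1⁻¹) * pN r0a = pN r0a * (g2 * g1⁻¹) := by
      have h1 : g1⁻¹ * pN r0a = pN r0a * g1⁻¹ := by
        rw [inv_mul_eq_iff_eq_mul, ← mul_assoc, hc1]
        group
      rw [mul_assoc, h1, ← mul_assoc, hc2, mul_assoc]
    refine ⟨k⁻¹ * (g2 * g1⁻¹) * k, ?_, ?_, ?_⟩
    · have := conj_mem (inv_mem hk) hg
      simpa using this
    · rw [hcomm]
      have : k * (k⁻¹ * (g2 * g1⁻¹) * k) * k⁻¹ = g2 * g1⁻¹ := by group
      rw [this]
      exact hgc
    · simp only [Equiv.Perm.mul_apply]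
      rw [← he1]
      simp [he2]
  · have hfixed : ∀ c ∈ M24, c * t = t * c → c • (k⁻¹ • objOf S0L) = k⁻¹ • objOf S0L := by
      intro c hc hct
      obtain ⟨e, he, hee⟩ := hmem _ (conj_mem hk hc) ((hcomm c).mp hct)
      obtain ⟨h1, hm1, -⟩ := cosetF_sound hr0 hr0 he
      have h2 := fixed_of_tet h1 hm1 hS0 (hfix e he)
      rw [← hee] at h2
      have h3 : c • k⁻¹ • objOf S0L = k⁻¹ • (k * c * k⁻¹) • objOf S0L := by
        have h4 : c * k⁻¹ = k⁻¹ * (k * c * k⁻¹) := by group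
        rw [smul_smul, smul_smul, h4]
      rw [h3, h2]
    exact ⟨k⁻¹ • objOf S0L, smul_mem_sextets (inv_mem hk) hS0, hfixed t ht rfl, hfixed⟩

/-! ### Commuting elements of orders `3` and `2` -/

theorem patsA_ok : patOK rA patsA = true := by decide +kernel

theorem patsB_ok : patOK rB patsB = true := by decide +kernel

theorem centA_chk : (cosetC rA rA patsA).all (fun e => !(Nat.beq (compN e e) idN) || Nat.beq e idN || Nat.beq (fixN e) 8) = true := by
  decide +kernel

theorem centB_chk : (cosetC rB rB patsB).all (fun e => !(Nat.beq (compN e e) idN) || Nat.beq e idN || Nat.beq (fixN e) 0) = true := by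
  decide +kernel

theorem sq_case {s c : Equiv.Perm GolayPt} {e : ℕ} (h₂ : orderOf s = 2) (he : Ok e) (h : c * s * c⁻¹ = pN e) :
    Nat.beq (compN e e) idN = true ∧ Nat.beq e idN = false ∧ (fixF s).card = fixN e := by
  have hsq : s * s = 1 := by
    have := pow_orderOf_eq_one s
    rw [h₂, pow_two] at this
    exact this
  have hne : s ≠ 1 := by
    intro h1
    rw [h1, orderOf_one] at h₂
    omega
  refine ⟨?_, ?_, ?_⟩
  · have h1 : pN (compN e e) = pN idN := by
      rw [pN_comp he he, pN_idN, ← h]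
      have : c * s * c⁻¹ * (c * s * c⁻¹) = c * (s * s) * c⁻¹ := by group
      rw [this, hsq]
      group
    have := pN_inj (he.comp he) ok_idN (compN_lt _ _) idN_lt h1
    simp [this]
  · by_contra hc
    have h1 : e = idN := Nat.eq_of_beq_eq_true (by simpa using hc)
    rw [h1, pN_idN] at h
    apply hne
    have : s = c⁻¹ * (c * s * c⁻¹) * c := by group
    rw [this, h]
    group
  · rw [← card_fixF_pN he, ← h, card_fixF_conj]

/-- Commuting elements of orders `3` and `2`. -/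
theorem main5608 (x s : Equiv.Perm GolayPt) (hx : x ∈ M24) (hs : s ∈ M24) (h₃ : orderOf x = 3) (h₂ : orderOf s = 2)
    (hc : Commute x s) : ((fixF x).card = 6 ∧ (fixF s).card = 8) ∨ ((fixF x).card = 0 ∧ (fixF s).card = 0) := by
  rcases ord3_conj hx h₃ with ⟨h0, c, hc', he⟩ | ⟨h6, c, hc', he⟩
  · right
    refine ⟨h0, ?_⟩
    have hr : Ok rB := isAutN_ok rB_ok
    have h1 : (c * s * c⁻¹) * pN rB = pN rB * (c * s * c⁻¹) := by
      rw [← he, conj_comm_iff]
      exact hc.eq.symm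
    obtain ⟨e, hem, hee⟩ := mem_cosetC hr hr patsB_ok (conj_mem hc' hs) h1
    obtain ⟨hok, -, -⟩ := cosetC_sound hr hr hem
    obtain ⟨h2, h3, h4⟩ := sq_case h₂ hok hee
    have h5 := List.all_eq_true.mp centB_chk e hem
    simp only [h2, h3, Bool.not_true, Bool.false_or] at h5
    rw [h4, Nat.eq_of_beq_eq_true h5]
  · left
    refine ⟨h6, ?_⟩
    have hr : Ok rA := isAutN_ok rA_ok
    have h1 : (c * s * c⁻¹) * pN rA = pN rA * (c * s * c⁻¹) := by
      rw [← he, conj_comm_iff]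
      exact hc.eq.symm
    obtain ⟨e, hem, hee⟩ := mem_cosetC hr hr patsA_ok (conj_mem hc' hs) h1
    obtain ⟨hok, -, -⟩ := cosetC_sound hr hr hem
    obtain ⟨h2, h3, h4⟩ := sq_case h₂ hok hee
    have h5 := List.all_eq_true.mp centA_chk e hem
    simp only [h2, h3, Bool.not_true, Bool.false_or] at h5
    rw [h4, Nat.eq_of_beq_eq_true h5]

end Cfsg.Agent.Lib.GolayCent
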