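import Cfsg.Agent.Lib.SteinerAut

/-!
# Uniqueness of the binary doubly even self-dual code of length 24 without words of weight 4
-/

set_option autoImplicit false
set_option linter.constructorNameAsVariable false
set_option linter.unusedSectionVars false
set_option maxRecDepth 10000

namespace Cfsg.Agent.Lib.GolayCodeUnique

open Cfsg Cfsg.Agent.Lib.GolayCode Cfsg.Agent.Lib.GolayFacts Cfsg.Agent.Lib.GolayFast
  Cfsg.Agent.Lib.GolayFastData Cfsg.Agent.Lib.SteinerAut Finset

abbrev V := Fin 24 → ZMod 2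

/-- The indicator of a set. -/
def ind (s : Finset (Fin 24)) : V := fun i => if i ∈ s then 1 else 0

theorem ind_symmDiff (s t : Finset (Fin 24)) : ind (symmDiff s t) = ind s + ind t := by
  funext i
  simp only [ind, Pi.add_apply, Finset.mem_symmDiff]
  by_cases h1 : i ∈ s <;> by_cases h2 : i ∈ t <;> simp [h1, h2] <;> decide

theorem norm_ind (s : Finset (Fin 24)) : hammingNorm (ind s) = s.card := by
  rw [hammingNorm]
  congr 1
  ext i
  simp [ind]

theorem ind_supp (v : V) : ind (Finset.univ.filter fun i => v i ≠ 0) = v := by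
  funext i
  simp only [ind, Finset.mem_filter, Finset.mem_univ, true_and]
  have key : ∀ x : ZMod 2, (if x ≠ 0 then (1 : ZMod 2) else 0) = x := by decide
  exact key (v i)

theorem ind_inj {s t : Finset (Fin 24)} (h : ind s = ind t) : s = t := by
  ext i
  have h1 := congrFun h i
  simp only [ind] at h1
  by_cases h2 : i ∈ s <;> by_cases h3 : i ∈ t <;> simp [h2, h3] at h1 ⊢

theorem sum_ind (s : Finset (Fin 24)) : ∑ i, ind s i = (s.card : ZMod 2) := by
  simp only [ind]
  rw [Finset.sum_ite_mem, Finset.univ_inter, Finset.sum_const, nsmul_eq_mul, mul_one]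

theorem add_self_V (v : V) : v + v = 0 := by
  funext i
  exact CharTwo.add_self_eq_zero (v i)

variable (C : Submodule (ZMod 2) V) (hdim : Module.finrank (ZMod 2) C = 12)
  (h4 : ∀ w ∈ C, 4 ∣ hammingNorm w) (hno4 : ∀ w ∈ C, hammingNorm w ≠ 4)

include h4 hno4 in
theorem small_zero {w : V} (hw : w ∈ C) (h : hammingNorm w < 8) : w = 0 := by
  have h1 := h4 w hw
  have h2 := hno4 w hw
  have h3 : hammingNorm w = 0 := by omega
  exact hammingNorm_eq_zero.mp h3

include h4 hno4 in
theorem inter_five {b c : Finset (Fin 24)} (hb : b.card = 8) (hc : c.card = 8) (hbC : ind b ∈ C) (hcC : ind c ∈ C)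
    (h5 : 5 ≤ (b ∩ c).card) : b = c := by
  have h1 : ind (symmDiff b c) ∈ C := by
    rw [ind_symmDiff]
    exact C.add_mem hbC hcC
  have h2 := card_symmDiff_add b c
  have h3 : (symmDiff b c).card + 2 * (b ∩ c).card = b.card + c.card := h2
  have h6 := small_zero C h4 hno4 h1 (by rw [norm_ind]; omega)
  have h7 : symmDiff b c = ∅ := by
    apply ind_inj
    rw [h6]
    funext i
    simp [ind]
  exact symmDiff_eq_bot.mp h7

/-- A bijection exchanging a property and its negation halves the cardinality. -/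
theorem card_half {X : Type*} [Fintype X] (p : X → Prop) [DecidablePred p] (g : X → X)
    (hg : Function.Involutive g) (hp : ∀ x, p (g x) ↔ ¬ p x) :
    2 * (Finset.univ.filter p).card = Fintype.card X := by
  have h1 := Finset.card_filter_add_card_filter_not (s := (Finset.univ : Finset X)) p
  have h2 : (Finset.univ.filter p).card = (Finset.univ.filter fun x => ¬ p x).card := by
    refine Finset.card_bij (fun x _ => g x) ?_ ?_ ?_
    · intro x hx
      simp only [Finset.mem_filter, Finset.mem_univ, true_and] at hx ⊢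
      exact fun h => (hp x).mp h hx
    · intro a _ b _ h
      exact hg.injective h
    · intro y hy
      simp only [Finset.mem_filter, Finset.mem_univ, true_and] at hy
      refine ⟨g y, ?_, hg y⟩
      simp only [Finset.mem_filter, Finset.mem_univ, true_and]
      exact (hp y).mpr hy
  rw [Finset.card_univ] at h1
  omega

/-- The odd vectors. -/
def OO : Finset V := Finset.univ.filter fun v => ∑ i, v i = 1

def e0 : V := ind {0}

theorem sum_e0 : ∑ i, e0 i = 1 := by
  rw [e0, sum_ind]
  simp

theorem card_OO : OO.card = 2 ^ 23 := by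
  have h1 := card_half (X := V) (fun v => ∑ i, v i = 1) (fun v => v + e0)
    (fun v => by simp only [add_assoc, add_self_V, add_zero]) (fun v => by
      simp only [Pi.add_apply, Finset.sum_add_distrib, sum_e0]
      have key : ∀ x : ZMod 2, x + 1 = 1 ↔ ¬ x = 1 := by decide
      exact key _)
  have h2 : Fintype.card V = 2 ^ 24 := by
    rw [Fintype.card_fun, ZMod.card, Fintype.card_fin]
  rw [h2] at h1
  unfold OO
  generalize (Finset.univ.filter fun v : V => ∑ i, v i = 1).card = x at h1 ⊢
  omega

/-- Leaders: sets of size 1 or 3. -/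
def WW : Finset (Finset (Fin 24)) := Finset.powersetCard 1 Finset.univ ∪ Finset.powersetCard 3 Finset.univ

theorem card_WW : WW.card = 2048 := by
  rw [WW, Finset.card_union_of_disjoint, Finset.card_powersetCard, Finset.card_powersetCard]
  · simp only [Finset.card_univ, Fintype.card_fin]
    decide
  · rw [Finset.disjoint_left]
    intro x hx hy
    have h1 := (Finset.mem_powersetCard.mp hx).2
    have h2 := (Finset.mem_powersetCard.mp hy).2
    omega

theorem mem_WW {s : Finset (Fin 24)} : s ∈ WW ↔ s.card = 1 ∨ s.card = 3 := by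
  simp [WW, Finset.mem_powersetCard]

open Classical in
/-- The code as a finite set. -/
noncomputable def CF (C : Submodule (ZMod 2) V) : Finset V := Finset.univ.filter (· ∈ C)

include hdim in
theorem card_CF : (CF C).card = 4096 := by
  classical
  have h1 : Fintype.card C = 2 ^ 12 := by
    have := Module.card_eq_pow_finrank (K := ZMod 2) (V := C)
    rw [this, hdim, ZMod.card]
  have h2 : (CF C).card = Fintype.card C := by
    rw [Fintype.card_subtype]
    rfl
  rw [h2, h1]
  norm_num

include h4 hno4 in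
theorem sum_code {c : V} (hc : c ∈ C) : ∑ i, c i = 0 := by
  have h1 := ind_supp c
  rw [← h1, sum_ind]
  have h2 := h4 c hc
  rw [hammingNorm] at h2
  obtain ⟨k, hk⟩ := h2
  rw [show (Finset.univ.filter fun i => c i ≠ 0).card = 4 * k from hk]
  have : ((4 * k : ℕ) : ZMod 2) = 0 := by
    rw [ZMod.natCast_eq_zero_iff]
    exact Dvd.intro_left _ (by ring : 2 * k * 2 = 4 * k) |>.trans (dvd_refl _)
  exact this

theorem surj_of_inj {X Y : Type*} [DecidableEq Y] (A : Finset X) (B : Finset Y) (F : X → Y)
    (hinj : Set.InjOn F (A : Set X)) (hmap : ∀ x ∈ A, F x ∈ B) (hcard : B.card ≤ A.card) :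
    ∀ y ∈ B, ∃ x ∈ A, F x = y := by
  have h1 : A.image F = B := by
    apply Finset.eq_of_subset_of_card_le
    · exact Finset.image_subset_iff.mpr hmap
    · rw [Finset.card_image_of_injOn hinj]
      exact hcard
  intro y hy
  rw [← h1] at hy
  obtain ⟨x, hx, he⟩ := Finset.mem_image.mp hy
  exact ⟨x, hx, he⟩

include h4 hno4 in
theorem mem_OO_of {s : Finset (Fin 24)} (hs : s ∈ WW) {c : V} (hc : c ∈ C) : ind s + c ∈ OO := by
  rw [OO, Finset.mem_filter]
  refine ⟨Finset.mem_univ _, ?_⟩
  simp only [Pi.add_apply, Finset.sum_add_distrib]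
  rw [sum_code C h4 hno4 hc, sum_ind, add_zero]
  rcases mem_WW.mp hs with h | h <;> rw [h] <;> decide

include h4 hno4 in
theorem exists_leader_aux (W : Finset (Finset (Fin 24))) (Cs O : Finset V) (hW : ∀ s ∈ W, s.card ≤ 3)
    (hCs : ∀ c, c ∈ Cs ↔ c ∈ C) (hO : ∀ s ∈ W, ∀ c ∈ Cs, ind s + c ∈ O) (hcard : O.card ≤ W.card * Cs.card)
    {v : V} (hv : v ∈ O) : ∃ s ∈ W, ∃ c ∈ C, v = ind s + c := by
  classical
  let F : Finset (Fin 24) × V → V := fun p => ind p.1 + p.2
  have hinj : Set.InjOn F ((W ×ˢ Cs : Finset _) : Set _) := by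
    rintro ⟨s, c⟩ hp ⟨t, d⟩ hq he
    simp only [Finset.coe_product, Set.mem_prod, Finset.mem_coe] at hp hq
    obtain ⟨hs, hc⟩ := hp
    obtain ⟨ht, hd⟩ := hq
    have hc := (hCs c).mp hc
    have hd := (hCs d).mp hd
    have he' : ind s + c = ind t + d := he
    have h1 : ind (symmDiff s t) = c + d := by
      rw [ind_symmDiff]
      have h2 : ind s + ind t + (c + d) = (ind s + c) + (ind t + d) := by abel
      have h3 : ind s + ind t + (c + d) = 0 := by
        rw [h2, he', add_self_V]
      have h5 : ind s + ind t = ind s + ind t + (c + d) + (c + d) := by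
        rw [add_assoc _ (c + d) (c + d), add_self_V, add_zero]
      rw [h5, h3, zero_add]
    have h2 : ind (symmDiff s t) ∈ C := by
      rw [h1]
      exact C.add_mem hc hd
    have h3 : (symmDiff s t).card ≤ s.card + t.card := by
      have := card_symmDiff_add s t
      have h6 : (symmDiff s t).card + 2 * (s ∩ t).card = s.card + t.card := this
      omega
    have hs3 := hW s hs
    have ht3 := hW t ht
    have h6 := small_zero C h4 hno4 h2 (by rw [norm_ind]; omega)
    have h7 : symmDiff s t = ∅ := by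
      apply ind_inj
      rw [h6]
      funext i
      simp [ind]
    have h8 : s = t := symmDiff_eq_bot.mp h7
    subst h8
    have h9 : c = d := add_left_cancel he'
    rw [h9]
  have hc : O.card ≤ (W ×ˢ Cs).card := by
    rw [Finset.card_product]
    exact hcard
  have hmap : ∀ p ∈ W ×ˢ Cs, F p ∈ O := by
    intro p hp
    obtain ⟨h1, h2⟩ := Finset.mem_product.mp hp
    exact hO _ h1 _ h2
  obtain ⟨p, hp, he⟩ := surj_of_inj _ _ F hinj hmap hc v hv
  obtain ⟨h1, h2⟩ := Finset.mem_product.mp hp
  exact ⟨p.1, h1, p.2, (hCs _).mp h2, he.symm⟩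

include hdim h4 hno4 in
/-- Every odd vector is a leader plus a code word. -/
theorem exists_leader {v : V} (hv : ∑ i, v i = 1) : ∃ s ∈ WW, ∃ c ∈ C, v = ind s + c := by
  classical
  have hc : OO.card ≤ WW.card * (CF C).card := by
    rw [card_WW, card_CF C hdim, card_OO]
    norm_num
  have hv' : v ∈ OO := by
    rw [OO, Finset.mem_filter]
    exact ⟨Finset.mem_univ _, hv⟩
  refine exists_leader_aux C h4 hno4 WW (CF C) OO (fun s hs => ?_) (fun c => ?_) (fun s hs c hc => ?_) hc hv'
  · rcases mem_WW.mp hs with h | h <;> omega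
  · rw [CF, Finset.mem_filter]
    exact ⟨fun h => h.2, fun h => ⟨Finset.mem_univ _, h⟩⟩
  · refine mem_OO_of C h4 hno4 hs ?_
    rw [CF, Finset.mem_filter] at hc
    exact hc.2

/-- The blocks of the code. -/
def BB (C : Submodule (ZMod 2) V) : Set (Finset (Fin 24)) := {b | b.card = 8 ∧ ind b ∈ C}

include hdim h4 hno4 in
theorem steiner_BB : IsSteinerSystem 5 8 (BB C) := by
  refine ⟨fun b hb => hb.1, fun S hS => ?_⟩
  have hsum : ∑ i, ind S i = 1 := by
    rw [sum_ind, hS]
    decide
  obtain ⟨T, hT, c, hc, he⟩ := exists_leader C hdim h4 hno4 hsum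
  have h1 : c = ind (symmDiff S T) := by
    rw [ind_symmDiff, he]
    have : ind T + c + ind T = c + (ind T + ind T) := by abel
    rw [this, add_self_V, add_zero]
  have h2 : ind (symmDiff S T) ∈ C := h1 ▸ hc
  have h3 := h4 _ h2
  have h5 := hno4 _ h2
  rw [norm_ind] at h3 h5
  have h6 := card_symmDiff_add S T
  have h7 : (symmDiff S T).card + 2 * (S ∩ T).card = S.card + T.card := h6
  have h8 : (S ∩ T).card ≤ T.card := Finset.card_le_card Finset.inter_subset_right
  have hT' := mem_WW.mp hT
  have h9 : (symmDiff S T).card = 8 ∧ (S ∩ T).card = 0 := by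
    rw [hS] at h7
    rcases hT' with hT' | hT' <;> rw [hT'] at h7 h8
    · obtain ⟨k, hk⟩ := h3
      omega
    · obtain ⟨k, hk⟩ := h3
      omega
  have hdis : S ∩ T = ∅ := Finset.card_eq_zero.mp h9.2
  have hsub : S ⊆ symmDiff S T := by
    intro x hx
    rw [Finset.mem_symmDiff]
    refine Or.inl ⟨hx, fun hx2 => ?_⟩
    have : x ∈ S ∩ T := Finset.mem_inter.mpr ⟨hx, hx2⟩
    rw [hdis] at this
    simp at this
  refine ⟨symmDiff S T, ⟨⟨h9.1, h2⟩, hsub⟩, ?_⟩
  rintro b ⟨⟨hb1, hb2⟩, hb3⟩
  apply inter_five C h4 hno4 hb1 h9.1 hb2 h2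
  rw [← hS]
  exact Finset.card_le_card (Finset.subset_inter hb3 hsub)

include hdim h4 hno4 in
theorem main : ∃ e : Fin 24 ≃ GolayPt, ∀ w : GolayPt → ZMod 2, w ∈ golayCode ↔ (fun i => w (e i)) ∈ C := by
  classical
  obtain ⟨e, he⟩ := exists_equiv0 (α := Fin 24) (by simp) (steiner_BB C hdim h4 hno4)
  refine ⟨e.symm, ?_⟩
  let L : (GolayPt → ZMod 2) ≃ₗ[ZMod 2] V := LinearEquiv.funCongrLeft (ZMod 2) (ZMod 2) e.symm
  have hL : ∀ w i, L w i = w (e.symm i) := fun _ _ => rfl
  have hQ : ∀ m, L (dec m) = ind ((supFin m).image e) := by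
    intro m
    funext i
    rw [hL]
    simp only [ind, dec, Finset.mem_image, mem_supFin]
    by_cases h : m.testBit (ptIdx (e.symm i)) = true
    · rw [if_pos h, if_pos ⟨e.symm i, h, by simp⟩]
    · rw [if_neg h, if_neg]
      rintro ⟨p, hp, rfl⟩
      apply h
      simpa using hp
  have Qx : ∀ a b, L (dec a) ∈ C → L (dec b) ∈ C → L (dec (a ^^^ b)) ∈ C := by
    intro a b ha hb
    rw [dec_xor, map_add]
    exact C.add_mem ha hb
  have Qz : L (dec 0) ∈ C := by
    rw [dec_zero, map_zero]
    exact C.zero_mem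
  have Qo : ∀ m ∈ octadsL, L (dec m) ∈ C := by
    intro m hm
    rw [hQ]
    have h1 : (supFin m).image e ∈ BB C := by
      rw [← he]
      exact ⟨_, mem_octads_iff_L.mpr ⟨m, hm, rfl⟩, rfl⟩
    exact h1.2
  have Ql : ∀ l : List ℕ, (∀ m ∈ l, m ∈ octadsL) → L (dec (xorL l)) ∈ C := by
    intro l
    induction l with
    | nil =>
      intro _
      exact Qz
    | cons x l ih =>
      intro hl
      exact Qx _ _ (Qo x (hl x List.mem_cons_self)) (ih fun m hm => hl m (List.mem_cons_of_mem _ hm))
  have Qb : ∀ j < 12, L (dec (bas j)) ∈ C := by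
    intro j hj
    have h1 := List.all_eq_true.mp bas1Dec_ok j (List.mem_range.mpr hj)
    simp only [Bool.and_eq_true, beq_iff_eq, List.all_eq_true, List.contains_iff_mem] at h1
    rw [← h1.1]
    exact Ql _ fun m hm => (h1.2 m hm).1
  have Qs : ∀ n ≤ 12, ∀ k, L (dec (spanAux n k)) ∈ C := by
    intro n
    induction n with
    | zero =>
      intro _ k
      exact Qz
    | succ n ih =>
      intro hn k
      rw [spanAux]
      refine Qx _ _ ?_ (ih (by omega) k)
      split_ifs
      · exact Qb n (by omega)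
      · exact Qz
  have hle : golayCode.map (L : (GolayPt → ZMod 2) →ₗ[ZMod 2] V) ≤ C := by
    rintro _ ⟨w, hw, rfl⟩
    obtain ⟨k, _, rfl⟩ := mem_golayCode_iff.mp hw
    exact Qs 12 le_rfl k
  have hfin : Module.finrank (ZMod 2) (golayCode.map (L : (GolayPt → ZMod 2) →ₗ[ZMod 2] V)) =
      Module.finrank (ZMod 2) C := by
    rw [hdim, LinearEquiv.finrank_map_eq, finrank_golayCode]
  have heq := Submodule.eq_of_le_of_finrank_eq hle hfin
  intro w
  show w ∈ golayCode ↔ L w ∈ C
  rw [← heq]
  constructor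
  · intro h
    exact ⟨w, h, rfl⟩
  · rintro ⟨w', hw', he'⟩
    have : w' = w := L.injective he'
    rwa [← this]

end Cfsg.Agent.Lib.GolayCodeUnique
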