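import Mathlib
import Cfsg.Agent.Lib.GolayObjs
import Cfsg.Agent.Lib.GolayClass

/-!
# The numbers of fixed objects of the representatives of the classes of elements of order 2 and 3
-/

set_option autoImplicit false

namespace Cfsg.Agent.Lib.GolayCounts

open Cfsg.Agent.Lib.GolayObjs Cfsg.Agent.Lib.GolayClassData

theorem cO8 : cntO rZ8 = 71 := by decide +kernel
theorem cT8 : cntT rZ8 = 99 := by decide +kernel
theorem cS8 : cntS rZ8 = 91 := by decide +kernel
theorem cO0 : cntO rZ0 = 15 := by decide +kernel
theorem cT0 : cntT rZ0 = 75 := by decide +kernel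
theorem cS0 : cntS rZ0 = 51 := by decide +kernel
theorem cOA : cntO rA = 21 := by decide +kernel
theorem cTA : cntT rA = 15 := by decide +kernel
theorem cSA : cntS rA = 16 := by decide +kernel
theorem cDA : cntD rA = 20 := by decide +kernel
theorem cTB : cntT rB = 15 := by decide +kernel
theorem cSB : cntS rB = 7 := by decide +kernel

end Cfsg.Agent.Lib.GolayCounts
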