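import Mathlib
import Cfsg.Prelude.Def_Sporadic_a
import Cfsg.Prelude.Def_SporadicCombinatorics
import Cfsg.Agent.Lib.GolayEqvD

/-!
# Linear maps of the code preserving the weights up to complement come from the code group
-/

set_option autoImplicit false
set_option maxHeartbeats 1000000
set_option linter.style.haveILetI false
set_option linter.constructorNameAsVariable false

open scoped Pointwise

namespace Cfsg.Agent.Lib.GolayEqv

open Cfsg Cfsg.Agent.Lib Cfsg.Agent.Lib.GolayCode Cfsg.Agent.Lib.GolayFacts Cfsg.Agent.Lib.GolayPerm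
  Cfsg.Agent.Lib.GolayChain Cfsg.Agent.Lib.GolayTrans Cfsg.Agent.Lib.GolayDecomp
  Cfsg.Agent.Lib.GolayOrbit Cfsg.Agent.Lib.GolayFix Cfsg.Agent.Lib.GolayEnum
  Cfsg.Agent.Lib.GolayKit Cfsg.Agent.Lib.GolayM12 Cfsg.Agent.Lib.GolayObjs
  Cfsg.Agent.Lib.GolayFam Cfsg.Agent.Lib.GolaySets Cfsg.Agent.Lib.GolayFast Cfsg.Agent.Lib.GolayFastData
  Cfsg.Agent.Lib.GolayWords

theorem allBelow_of {f : ℕ → Bool} {n : ℕ} (h : ∀ k < n, f k = true) : allBelow f n = true := by
  induction n with
  | zero => rfl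
  | succ n ih =>
    simp only [allBelow, Bool.and_eq_true]
    exact ⟨h n (by omega), ih (fun k hk => h k (by omega))⟩

/-- The word of an octad of the chain. -/
def O (i : ℕ) : GolayPt → ZMod 2 := dec (o i)

theorem O_mem {i : ℕ} (hi : i < 11) : O i ∈ golayCode :=
  dec_mem_of_isCode (List.all_eq_true.mp o_code i (List.mem_range.mpr hi))

/-- The weight up to complement of a word. -/
def wclW (u : GolayPt → ZMod 2) : ℕ := min (support₂ u).card (24 - (support₂ u).card)

theorem wclW_add_one (u : GolayPt → ZMod 2) : wclW (u + 1) = wclW u := by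
  have h := card_support_add_one u
  unfold wclW
  omega

theorem wclW_dec (m : ℕ) : wclW (dec m) = wclM m := by
  unfold wclW wclM
  rw [support_dec, card_supFin, hwF_eq]

theorem wclW_map (g : Equiv.Perm GolayPt) (u : GolayPt → ZMod 2) : wclW (mapWord g u) = wclW u := by
  unfold wclW
  rw [support_mapWord, Finset.card_smul_finset]

theorem one_one : (1 : GolayPt → ZMod 2) + 1 = 0 := by
  funext p
  show (1 : ZMod 2) + 1 = 0
  decide

/-- Equality up to the all-ones word. -/
def Eqv (u v : GolayPt → ZMod 2) : Prop := u = v ∨ u = v + 1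

theorem Eqv.add {u v u' v' : GolayPt → ZMod 2} (h : Eqv u v) (h' : Eqv u' v') : Eqv (u + u') (v + v') := by
  rcases h with rfl | rfl <;> rcases h' with rfl | rfl
  · exact Or.inl rfl
  · refine Or.inr ?_
    abel
  · refine Or.inr ?_
    abel
  · refine Or.inl ?_
    have : v + 1 + (v' + 1) = v + v' + (1 + 1) := by abel
    rw [this, one_one, add_zero]

theorem Eqv.trans {u v w : GolayPt → ZMod 2} (h : Eqv u v) (h' : Eqv v w) : Eqv u w := by
  rcases h with rfl | rfl <;> rcases h' with rfl | rfl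
  · exact Or.inl rfl
  · exact Or.inr rfl
  · exact Or.inr rfl
  · refine Or.inl ?_
    rw [add_assoc, one_one, add_zero]

theorem Eqv.symm {u v : GolayPt → ZMod 2} (h : Eqv u v) : Eqv v u := by
  rcases h with rfl | rfl
  · exact Or.inl rfl
  · refine Or.inr ?_
    rw [add_assoc, one_one, add_zero]

theorem mapWord_one_eq (g : Equiv.Perm GolayPt) : mapWord g 1 = 1 := rfl

theorem Eqv.map {u v : GolayPt → ZMod 2} (g : Equiv.Perm GolayPt) (h : Eqv u v) : Eqv (mapWord g u) (mapWord g v) := by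
  rcases h with rfl | rfl
  · exact Or.inl rfl
  · exact Or.inr rfl

/-- The conditions on a map of the code. -/
structure GoodT (T : (GolayPt → ZMod 2) → (GolayPt → ZMod 2)) : Prop where
  mem : ∀ a ∈ golayCode, T a ∈ golayCode
  add : ∀ a ∈ golayCode, ∀ b ∈ golayCode, T (a + b) = T a + T b
  one : T 1 = 1
  wcl : ∀ a ∈ golayCode, wclW (T a) = wclW a

theorem GoodT.zero {T : (GolayPt → ZMod 2) → (GolayPt → ZMod 2)} (hT : GoodT T) : T 0 = 0 := by
  have h := hT.add 0 (Submodule.zero_mem _) 0 (Submodule.zero_mem _)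
  rw [add_zero] at h
  exact left_eq_add.mp h

theorem GoodT.map {T : (GolayPt → ZMod 2) → (GolayPt → ZMod 2)} (hT : GoodT T) {g : Equiv.Perm GolayPt} (hg : g ∈ M24) :
    GoodT (fun c => mapWord g (T c)) where
  mem a ha := mapWord_mem_of_mem_M24 hg (hT.mem a ha)
  add a ha b hb := by
    show mapWord g (T (a + b)) = _
    rw [hT.add a ha b hb]
    rfl
  one := by
    show mapWord g (T 1) = 1
    rw [hT.one]
    rfl
  wcl a ha := by
    show wclW (mapWord g (T a)) = _
    rw [wclW_map, hT.wcl a ha]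

theorem dec_zero : dec 0 = 0 := by
  funext p
  simp [dec]

theorem eqv_xsum {T : (GolayPt → ZMod 2) → (GolayPt → ZMod 2)} (hT : GoodT T) (k : ℕ)
    (hE : ∀ i < k, Eqv (T (O i)) (O i)) (hk : k ≤ 11) (s : ℕ) :
    Eqv (T (dec (xsum k s))) (dec (xsum k s)) ∧ dec (xsum k s) ∈ golayCode := by
  induction k with
  | zero =>
    simp only [xsum, dec_zero, hT.zero]
    exact ⟨Or.inl rfl, Submodule.zero_mem _⟩
  | succ k ih =>
    obtain ⟨h1, h2⟩ := ih (fun i hi => hE i (by omega)) (by omega)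
    rw [xsum]
    by_cases hb : s.testBit k = true
    · simp only [hb, if_true, dec_xor]
      have h3 : O k ∈ golayCode := O_mem (by omega)
      refine ⟨?_, Submodule.add_mem _ h3 h2⟩
      show Eqv (T (O k + _)) (O k + _)
      rw [hT.add _ h3 _ h2]
      exact (hE k (by omega)).add h1
    · rw [if_neg hb, Nat.zero_xor]
      exact ⟨h1, h2⟩

/-- The statement at a level of the chain. -/
def LL (k : ℕ) : Prop :=
  ∀ T : (GolayPt → ZMod 2) → (GolayPt → ZMod 2), GoodT T → (∀ i < k, Eqv (T (O i)) (O i)) →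
    ∃ σ ∈ M24, ∀ c ∈ golayCode, Eqv (T c) (mapWord σ c)

theorem LL_11 : LL 11 := by
  intro T hT hE
  refine ⟨1, one_mem _, ?_⟩
  have hB : ∀ n < 12, Eqv (T (dec (bas n))) (dec (bas n)) ∧ dec (bas n) ∈ golayCode := by
    intro n hn
    have h1 := allBelow_spec bas_ok n hn
    simp only at h1
    have h2 := Nat.eq_of_beq_eq_true h1
    obtain ⟨h3, h4⟩ := eqv_xsum hT 11 hE le_rfl (basReps.getD n (0, false)).1
    cases hb : (basReps.getD n (0, false)).2 with
    | false =>
      rw [hb] at h2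
      simp only [cond_false] at h2
      rw [h2]
      exact ⟨h3, h4⟩
    | true =>
      rw [hb] at h2
      simp only [cond_true] at h2
      rw [h2, dec_xor, dec_oneMask]
      refine ⟨?_, Submodule.add_mem _ h4 one_mem_code⟩
      rw [hT.add _ h4 _ one_mem_code, hT.one]
      exact h3.add (Or.inl rfl)
  have hS : ∀ n, n ≤ 12 → ∀ k, Eqv (T (dec (spanAux n k))) (dec (spanAux n k)) ∧ dec (spanAux n k) ∈ golayCode := by
    intro n
    induction n with
    | zero =>
      intro _ k
      simp only [spanAux, dec_zero, hT.zero]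
      exact ⟨Or.inl rfl, Submodule.zero_mem _⟩
    | succ n ih =>
      intro hn k
      obtain ⟨h1, h2⟩ := ih (by omega) k
      rw [spanAux]
      by_cases hb : k.testBit n = true
      · simp only [hb, if_true, dec_xor]
        obtain ⟨h3, h4⟩ := hB n (by omega)
        refine ⟨?_, Submodule.add_mem _ h4 h2⟩
        rw [hT.add _ h4 _ h2]
        exact h3.add h1
      · rw [if_neg hb, Nat.zero_xor]
        exact ⟨h1, h2⟩
  intro c hc
  obtain ⟨k, hk, rfl⟩ := mem_golayCode_iff.mp hc
  rw [mapWord_one]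
  exact (hS 12 le_rfl k).1

theorem LL_step {k : ℕ} (hk : k < 11) (IH : LL (k + 1)) : LL k := by
  intro T hT hE
  have hOk := O_mem hk
  obtain ⟨j, hj, hyj⟩ := mem_golayCode_iff.mp (hT.mem _ hOk)
  have hc : cand k (spanMask j) = true := by
    unfold cand
    apply allBelow_of
    intro s _
    obtain ⟨h1, h2⟩ := eqv_xsum hT k hE (by omega) s
    have h3 := hT.wcl (O k + dec (xsum k s)) (Submodule.add_mem _ hOk h2)
    rw [hT.add _ hOk _ h2, hyj] at h3
    have h4 : wclW (dec (spanMask j) + dec (xsum k s)) = wclW (O k + dec (xsum k s)) := by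
      rcases h1 with h1 | h1
      · rw [h1] at h3
        exact h3
      · rw [h1, ← add_assoc, wclW_add_one] at h3
        exact h3
    rw [← dec_xor, wclW_dec] at h4
    have h5 : O k + dec (xsum k s) = dec (o k ^^^ xsum k s) := (dec_xor _ _).symm
    rw [h5, wclW_dec] at h4
    simp only [h4, Nat.beq_refl]
  obtain ⟨hw, hl⟩ := chk_of k hk
  have h1 := allBelow_spec hl j hj
  simp only [hc, Bool.not_true, Bool.false_or] at h1
  obtain ⟨p, hp, hpe⟩ := List.any_eq_true.mp h1
  have hpk := List.all_eq_true.mp hw p hp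
  simp only [wpOK, Bool.and_eq_true, List.all_eq_true, List.mem_range] at hpk
  obtain ⟨⟨hA, hI⟩, hF⟩ := hpk
  have hOw := isAutN_ok hA
  have hwm : pN p.1 ∈ M24 := isAutN_mem hA
  have hwO : Eqv (T (O k)) (mapWord (pN p.1) (O k)) := by
    have h2 : mapWord (pN p.1) (O k) = dec p.2 := by
      rw [O, mapWord_pN hOw, Nat.eq_of_beq_eq_true hI]
    rw [h2, hyj]
    simp only [Bool.or_eq_true] at hpe
    rcases hpe with h3 | h3
    · rw [Nat.eq_of_beq_eq_true h3]
      exact Or.inl rfl
    · rw [Nat.eq_of_beq_eq_true h3, dec_xor, dec_oneMask]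
      exact Or.inr (by rw [add_assoc, one_one, add_zero])
  have hwi : ∀ i < k, Eqv (mapWord (pN p.1)⁻¹ (O i)) (O i) := by
    intro i hi
    have h2 := hF i hi
    simp only [Bool.or_eq_true] at h2
    have h3 : Eqv (mapWord (pN p.1) (O i)) (O i) := by
      rw [O, mapWord_pN hOw]
      rcases h2 with h3 | h3
      · rw [Nat.eq_of_beq_eq_true h3]
        exact Or.inl rfl
      · rw [Nat.eq_of_beq_eq_true h3, dec_xor, dec_oneMask]
        exact Or.inr rfl
    have h4 := h3.map (pN p.1)⁻¹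
    rw [mapWord_inv_mapWord] at h4
    exact h4.symm
  have hT' := hT.map (inv_mem hwm)
  obtain ⟨σ, hσ, hS⟩ := IH _ hT' (by
    intro i hi
    by_cases hik : i < k
    · exact ((hE i hik).map (pN p.1)⁻¹).trans (hwi i hik)
    · obtain rfl : i = k := by omega
      have h4 := hwO.map (pN p.1)⁻¹
      rw [mapWord_inv_mapWord] at h4
      exact h4)
  refine ⟨pN p.1 * σ, mul_mem hwm hσ, ?_⟩
  intro c hc
  have h4 := (hS c hc).map (pN p.1)
  rw [mapWord_mapWord_inv, ← mapWord_mul] at h4
  exact h4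

theorem LL_all : ∀ n, n ≤ 11 → LL (11 - n) := by
  intro n
  induction n with
  | zero => exact fun _ => LL_11
  | succ n ih =>
    intro hn
    have h1 := ih (by omega)
    have h2 : 11 - (n + 1) + 1 = 11 - n := by omega
    exact LL_step (by omega) (h2 ▸ h1)

/-- The statement on a map of the code. -/
theorem main_map {x : ↥golayCode ≃ₗ[ZMod 2] ↥golayCode}
    (h1 : ∀ e : ↥golayCode, (e : (GolayPt → ZMod 2)) = (fun _ => (1 : ZMod 2)) → x e = e)
    (horb : ∀ c : ↥golayCode, ∃ σ ∈ M24, ((x c : ↥golayCode) : (GolayPt → ZMod 2)) = (fun p => (c : (GolayPt → ZMod 2)) (σ.symm p)) ∨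
      ((x c : ↥golayCode) : (GolayPt → ZMod 2)) = (fun p => (c : (GolayPt → ZMod 2)) (σ.symm p)) + fun _ => (1 : ZMod 2)) :
    ∃ σ ∈ M24, ∀ c : ↥golayCode, ((x c : ↥golayCode) : (GolayPt → ZMod 2)) = (fun p => (c : (GolayPt → ZMod 2)) (σ.symm p)) ∨
      ((x c : ↥golayCode) : (GolayPt → ZMod 2)) = (fun p => (c : (GolayPt → ZMod 2)) (σ.symm p)) + fun _ => (1 : ZMod 2) := by
  classical
  let T : (GolayPt → ZMod 2) → (GolayPt → ZMod 2) := fun a => if h : a ∈ golayCode then (x ⟨a, h⟩ : ↥golayCode).1 else 0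
  have hTa : ∀ a (ha : a ∈ golayCode), T a = (x ⟨a, ha⟩ : ↥golayCode).1 := fun a ha => dif_pos ha
  have hG : GoodT T := by
    refine ⟨?_, ?_, ?_, ?_⟩
    · intro a ha
      rw [hTa a ha]
      exact (x ⟨a, ha⟩).2
    · intro a ha b hb
      rw [hTa a ha, hTa b hb, hTa _ (Submodule.add_mem _ ha hb)]
      have h2 : (⟨a + b, Submodule.add_mem _ ha hb⟩ : ↥golayCode) = ⟨a, ha⟩ + ⟨b, hb⟩ := rfl
      rw [h2, map_add]
      rfl
    · rw [hTa 1 one_mem_code, h1 ⟨1, one_mem_code⟩ rfl]
    · intro a ha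
      rw [hTa a ha]
      obtain ⟨σ, hσ, h2⟩ := horb ⟨a, ha⟩
      rcases h2 with h2 | h2
      · rw [h2]
        exact wclW_map σ a
      · rw [h2]
        have h3 : (fun p => (⟨a, ha⟩ : ↥golayCode).1 (σ.symm p)) + (fun _ => (1 : ZMod 2)) = mapWord σ a + 1 := rfl
        rw [h3, wclW_add_one]
        exact wclW_map σ a
  obtain ⟨σ, hσ, h2⟩ := LL_all 11 le_rfl T hG (by
    intro i hi
    omega)
  refine ⟨σ, hσ, ?_⟩
  intro c
  have h3 := h2 c.1 c.2
  rw [hTa c.1 c.2] at h3
  exact h3

end Cfsg.Agent.Lib.GolayEqv
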