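import Mathlib

/-! Generators of the stabilizers (generated). -/

set_option autoImplicit false

namespace Cfsg.Agent.Lib.GolayFamGens

set_option maxRecDepth 1000000 in
/-- Generated data. -/
def S0Lg : List ℕ :=
[147496,268544,1082880,2621632,4268048,8388615]

set_option maxRecDepth 1000000 in
/-- Generated data. -/
def T0L : List ℕ :=
[5279,1009728,15762208]

set_option maxRecDepth 1000000 in
/-- Generated data. -/
def DPL : List ℕ :=
[340831,16436384]

set_option maxRecDepth 1000000 in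
/-- Generated data. -/
def gensS : List (List ℕ) :=
[[3,14,5,9,6,10,22,4,1,18,12,0,2,7,15,11,19,20,23,16,8,13,21,17],
   [20,10,9,13,23,16,18,12,14,19,6,17,5,1,22,21,0,4,3,8,7,11,2,15]]

set_option maxRecDepth 1000000 in
/-- Generated data. -/
def gensT : List (List ℕ) :=
[[16,17,14,11,18,10,9,6,2,4,19,15,13,23,5,1,22,21,20,8,7,3,12,0],
   [12,2,0,10,4,17,15,1,14,16,7,22,3,9,23,18,20,21,8,5,19,6,11,13]]

set_option maxRecDepth 1000000 in
/-- Generated data. -/
def gensO : List (List ℕ) :=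
[[1,3,23,14,18,0,12,13,20,16,11,8,22,15,17,21,6,5,7,9,10,19,4,2],
   [2,14,23,5,20,3,8,15,12,4,7,22,6,19,17,11,16,0,10,13,9,21,18,1]]

set_option maxRecDepth 1000000 in
/-- Generated data. -/
def gensD : List (List ℕ) :=
[[11,23,20,7,14,8,22,16,21,5,3,4,17,19,0,18,15,6,10,1,2,12,13,9],
   [11,7,21,22,23,1,10,9,14,20,3,16,19,5,13,4,17,12,15,18,6,0,8,2]]

end Cfsg.Agent.Lib.GolayFamGens
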