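import Mathlib
import Cfsg.Prelude.Def_Sporadic_a
import Cfsg.Prelude.Def_SporadicCombinatorics
import Cfsg.Agent.Lib.GolaySextet

/-!
# Decompositions of sextets, trios and octads into orbits: generic part
-/

set_option autoImplicit false
set_option linter.style.haveILetI false
set_option linter.constructorNameAsVariable false

open scoped Pointwise

namespace Cfsg.Agent.Lib.GolayFam

open Cfsg Cfsg.Agent.Lib.GolayCode Cfsg.Agent.Lib.GolayFacts Cfsg.Agent.Lib.GolayPerm
  Cfsg.Agent.Lib.GolayChain Cfsg.Agent.Lib.GolayTrans Cfsg.Agent.Lib.GolayOrbit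
  Cfsg.Agent.Lib.GolayKit Cfsg.Agent.Lib.GolayM12 Cfsg.Agent.Lib.GolayFast
  Cfsg.Agent.Lib.GolayFastData Cfsg.Agent.Lib.GolaySets Cfsg.Agent.Lib.GolayMax Cfsg.Agent.Lib.GolayOrbits

/-- The summary of the classes: roots and sizes. -/
def clsSummary (Cs : List Cls) : List (List ℕ × ℕ) := Cs.map fun c => (c.2.1, c.2.2.length)

/-- Decompositions of a family of families. -/
theorem parts_obj {b : List ℕ} (hb : goodL b = true) {H : Subgroup (Equiv.Perm GolayPt)}
    (hbase : ∀ h ∈ H, h • objOf b = objOf b) {gens : List (List ℕ)}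
    (hgens : ∀ π ∈ gens, validPerm π = true ∧ inRange π = true ∧ toPerm π ∈ H)
    {Fam : Set (Finset (Finset GolayPt))} (hfin : Fam.Finite) (hHF : ∀ h ∈ H, ∀ y ∈ Fam, h • y ∈ Fam)
    {fam : List ℕ → Bool} (hfam : ∀ l, fam l = true → goodL l = true → objOf l ∈ Fam)
    {Cs : List Cls} (hC : Cs.all (clsChk sameObj gens fam (fun _ => true) (pairL b)) = true)
    (hV : (Cs.map (·.1)).Nodup) (hN : (Cs.map fun c => c.2.2.length).sum = Fam.ncard) :
    Parts H Fam ((clsSummary Cs).map fun e => (objOf e.1, e.2)) := by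
  rw [clsSummary, List.map_map]
  refine parts_of_classes (sem := objOf) (fun π l hv hr => smul_objOf hv hr l) (same := sameObj)
    (fun a c h => objOf_eq_of_same h) hgens hfin hHF hfam
    (fun a c _ ha _ hc h => eq_of_objOf_eq ha hc h) (inv := pairF (objOf b)) ?_ (invL := pairL b)
    (fun l _ hl => pairF_objOf hb hl) hC hV hN
  intro h hh y
  conv_lhs => rw [← hbase h hh]
  exact pairF_smul h _ _

/-- Well-formed octads. -/
def octB (l : List ℕ) : Bool := l.length == 1 && isOctad (l.headD 0)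

theorem objOf_single (m : ℕ) : objOf [m] = {supFin m} := by
  simp [objOf]

/-- The lists of length one. -/
theorem eq_single_of_octB {l : List ℕ} (h : octB l = true) : l = [l.headD 0] := by
  simp only [octB, Bool.and_eq_true, beq_iff_eq] at h
  match l, h.1 with
  | [a], _ => rfl

/-- Decompositions of the octads. -/
theorem parts_oct {b : List ℕ} (hb : goodL b = true) {H : Subgroup (Equiv.Perm GolayPt)} (hHM : H ≤ M24)
    (hbase : ∀ h ∈ H, h • objOf b = objOf b) {gens : List (List ℕ)}
    (hgens : ∀ π ∈ gens, validPerm π = true ∧ inRange π = true ∧ toPerm π ∈ H)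
    {Cs : List Cls} (hC : Cs.all (clsChk (fun a c => a == c) gens octB (fun l => l.length == 1) (pairL b)) = true)
    (hV : (Cs.map (·.1)).Nodup) (hN : (Cs.map fun c => c.2.2.length).sum = 759) :
    Parts H octads ((clsSummary Cs).map fun e => (supFin (e.1.headD 0), e.2)) := by
  classical
  rw [clsSummary, List.map_map]
  have hfin : octads.Finite := by
    apply Set.finite_of_ncard_ne_zero
    rw [ncard_octads]
    norm_num
  refine parts_of_classes (sem := fun l => supFin (l.headD 0)) ?_ (same := fun a c => a == c) ?_ hgens hfin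
    (fun h hh y hy => smul_mem_octads (hHM hh) hy) (fam := octB) (shape := fun l => l.length == 1) ?_ ?_ (inv := fun y => pairF (objOf b) {y}) ?_
    (invL := pairL b) ?_ hC hV (by rw [hN, ncard_octads])
  · intro π l hv hr
    cases l with
    | nil =>
      simp only [List.headD_nil, List.map_nil]
      rw [smul_supFin hv hr]
      congr 1
      rw [permMask]
      have : ∀ (ρ : List ℕ) (m : ℕ), m = 0 → permMaskL ρ m 0 = 0 := by
        intro ρ
        induction ρ with
        | nil => simp [permMaskL]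
        | cons a ρ ih =>
          intro m hm
          subst hm
          simp [permMaskL, ih]
      exact this π 0 rfl
    | cons a l =>
      simp only [List.headD_cons, List.map_cons]
      exact smul_supFin hv hr a
  · intro a c h
    have : a = c := by simpa using h
    rw [this]
  · intro l hl _
    simp only [octB, Bool.and_eq_true, beq_iff_eq] at hl
    exact supFin_mem_octads hl.2
  · intro a c ha hag hc hcg h
    have ea : a = [a.headD 0] := by
      match a, (by simpa using ha : a.length = 1) with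
      | [x], _ => rfl
    have ec : c = [c.headD 0] := by
      match c, (by simpa using hc : c.length = 1) with
      | [x], _ => rfl
    have h1 : a.headD 0 ∈ a := by
      rw [ea]
      simp
    have h2 : c.headD 0 ∈ c := by
      rw [ec]
      simp
    have h3 := supFin_injOn (goodL_lt hag h1) (goodL_lt hcg h2) h
    rw [ea, ec, h3]
  · intro h hh y
    conv_lhs => rw [← hbase h hh]
    have h1 : ({h • y} : Finset (Finset GolayPt)) = h • {y} := by
      rw [Finset.smul_finset_singleton]
    rw [h1]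
    exact pairF_smul h _ _
  · intro l hl hlg
    have h1 : ({supFin (l.headD 0)} : Finset (Finset GolayPt)) = objOf l := by
      conv_rhs => rw [eq_single_of_octB hl]
      rw [objOf_single]
    rw [h1]
    exact pairF_objOf hb hlg

/-- The check of a chunk of rows. -/
def chunkChk (same : List ℕ → List ℕ → Bool) (gens : List (List ℕ)) (shape : List ℕ → Bool) (c : Cls) (k m : ℕ) : Bool :=
  ((c.2.2.drop k).take m).all (rowAll same gens shape c)

theorem chunk_step {same : List ℕ → List ℕ → Bool} {gens : List (List ℕ)} {shape : List ℕ → Bool} {c : Cls} {k m : ℕ}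
    (h1 : chunkChk same gens shape c k m = true) (h2 : (c.2.2.drop (k + m)).all (rowAll same gens shape c) = true) :
    (c.2.2.drop k).all (rowAll same gens shape c) = true := by
  rw [← List.take_append_drop m (c.2.2.drop k), List.all_append, Bool.and_eq_true]
  exact ⟨h1, by rwa [List.drop_drop]⟩

theorem chunk_end {same : List ℕ → List ℕ → Bool} {gens : List (List ℕ)} {shape : List ℕ → Bool} {c : Cls} {k : ℕ}
    (h : c.2.2.length ≤ k) : (c.2.2.drop k).all (rowAll same gens shape c) = true := by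
  rw [List.drop_eq_nil_of_le h]
  rfl

theorem clsChk_of {same : List ℕ → List ℕ → Bool} {gens : List (List ℕ)} {fam shape : List ℕ → Bool}
    {invL : List ℕ → ℕ} {c : Cls} (h1 : clsHead fam invL c = true)
    (h2 : (c.2.2.drop 0).all (rowAll same gens shape c) = true) : clsChk same gens fam shape invL c = true := by
  rw [clsChk, h1, Bool.true_and]
  exact h2

/-- The orbit of the stabilizer of a point is trivial. -/
theorem orbS_stabZ_self {Z : Type*} [MulAction (Equiv.Perm GolayPt) Z] (z : Z) : orbS (stabZ z) z = {z} := by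
  ext y
  constructor
  · rintro ⟨g, hg, rfl⟩
    rw [Set.mem_singleton_iff]
    exact (mem_stabZ.mp hg).2
  · intro h
    rw [Set.mem_singleton_iff] at h
    rw [h]
    exact self_mem_orbS _ _

/-- The check of the generators. -/
def stabChk (b : List ℕ) (gens : List (List ℕ)) : Bool :=
  gens.all fun π => isAut π && sameObj (b.map (permMask π)) b

theorem hgens_of_stabChk {b : List ℕ} {gens : List (List ℕ)} (h : stabChk b gens = true) :
    ∀ π ∈ gens, validPerm π = true ∧ inRange π = true ∧ toPerm π ∈ stabZ (objOf b) := by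
  intro π hπ
  have h1 := List.all_eq_true.mp h π hπ
  simp only [Bool.and_eq_true] at h1
  refine ⟨isAut_valid h1.1, isAut_inRange h1.1, mem_stabZ.mpr ⟨toPerm_mem_M24 h1.1, ?_⟩⟩
  rw [smul_objOf (isAut_valid h1.1) (isAut_inRange h1.1)]
  exact objOf_eq_of_same h1.2

/-- The orbit of a subgroup of `M24` acting on a family in terms of parts, with three pieces. -/
theorem Parts.three {Y : Type*} [MulAction (Equiv.Perm GolayPt) Y] {H : Subgroup (Equiv.Perm GolayPt)} {Fam : Set Y}
    {a b c : Y} {na nb nc : ℕ} (h : Parts H Fam [(a, na), (b, nb), (c, nc)]) :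
    a ∈ Fam ∧ b ∈ Fam ∧ c ∈ Fam ∧ (orbS H a).ncard = na ∧ (orbS H b).ncard = nb ∧ (orbS H c).ncard = nc ∧
      Fam = orbS H a ∪ orbS H b ∪ orbS H c := by
  obtain ⟨h1, h2⟩ := h
  have ha := h1 _ (List.mem_cons_self ..)
  have hb := h1 (b, nb) (by simp)
  have hc := h1 (c, nc) (by simp)
  refine ⟨ha.1, hb.1, hc.1, ha.2, hb.2, hc.2, ?_⟩
  ext y
  rw [h2]
  simp only [List.mem_cons, List.not_mem_nil, or_false, exists_eq_or_imp, exists_eq_left, Set.mem_union]
  tauto

/-- Four pieces. -/
theorem Parts.four {Y : Type*} [MulAction (Equiv.Perm GolayPt) Y] {H : Subgroup (Equiv.Perm GolayPt)} {Fam : Set Y}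
    {a b c d : Y} {na nb nc nd : ℕ} (h : Parts H Fam [(a, na), (b, nb), (c, nc), (d, nd)]) :
    a ∈ Fam ∧ b ∈ Fam ∧ c ∈ Fam ∧ d ∈ Fam ∧ (orbS H a).ncard = na ∧ (orbS H b).ncard = nb ∧ (orbS H c).ncard = nc ∧
      (orbS H d).ncard = nd ∧ Fam = orbS H a ∪ orbS H b ∪ orbS H c ∪ orbS H d := by
  obtain ⟨h1, h2⟩ := h
  have ha := h1 _ (List.mem_cons_self ..)
  have hb := h1 (b, nb) (by simp)
  have hc := h1 (c, nc) (by simp)
  have hd := h1 (d, nd) (by simp)
  refine ⟨ha.1, hb.1, hc.1, hd.1, ha.2, hb.2, hc.2, hd.2, ?_⟩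
  ext y
  rw [h2]
  simp only [List.mem_cons, List.not_mem_nil, or_false, exists_eq_or_imp, exists_eq_left, Set.mem_union]
  tauto

/-- Five pieces. -/
theorem Parts.five {Y : Type*} [MulAction (Equiv.Perm GolayPt) Y] {H : Subgroup (Equiv.Perm GolayPt)} {Fam : Set Y}
    {a b c d e : Y} {na nb nc nd ne : ℕ} (h : Parts H Fam [(a, na), (b, nb), (c, nc), (d, nd), (e, ne)]) :
    a ∈ Fam ∧ b ∈ Fam ∧ c ∈ Fam ∧ d ∈ Fam ∧ e ∈ Fam ∧ (orbS H a).ncard = na ∧ (orbS H b).ncard = nb ∧
      (orbS H c).ncard = nc ∧ (orbS H d).ncard = nd ∧ (orbS H e).ncard = ne ∧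
      Fam = orbS H a ∪ orbS H b ∪ orbS H c ∪ orbS H d ∪ orbS H e := by
  obtain ⟨h1, h2⟩ := h
  have ha := h1 _ (List.mem_cons_self ..)
  have hb := h1 (b, nb) (by simp)
  have hc := h1 (c, nc) (by simp)
  have hd := h1 (d, nd) (by simp)
  have he := h1 (e, ne) (by simp)
  refine ⟨ha.1, hb.1, hc.1, hd.1, he.1, ha.2, hb.2, hc.2, hd.2, he.2, ?_⟩
  ext y
  rw [h2]
  simp only [List.mem_cons, List.not_mem_nil, or_false, exists_eq_or_imp, exists_eq_left, Set.mem_union]
  tauto

/-- All the sextets stabilizers are conjugate: transport of a decomposition. -/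
theorem Parts.smul_sextet {Y : Type*} [MulAction (Equiv.Perm GolayPt) Y] {S0 S : Finset (Finset GolayPt)} (hS0 : S0 ∈ sextets)
    (hS : S ∈ sextets) {Fam : Set Y} (hF : ∀ g ∈ M24, ∀ y, y ∈ Fam ↔ g • y ∈ Fam) {L : List (Y × ℕ)}
    (h : Parts (stabZ S0) Fam L) : ∃ g ∈ M24, g • S0 = S ∧ Parts (stabZ S) Fam (L.map fun e => (g • e.1, e.2)) := by
  obtain ⟨g, hg, rfl⟩ := exists_map_sextet hS0 hS
  exact ⟨g, hg, rfl, Parts.conj hg (hF g hg) h⟩

theorem Parts.smul_trio {Y : Type*} [MulAction (Equiv.Perm GolayPt) Y] {S0 S : Finset (Finset GolayPt)} (hS0 : S0 ∈ trios)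
    (hS : S ∈ trios) {Fam : Set Y} (hF : ∀ g ∈ M24, ∀ y, y ∈ Fam ↔ g • y ∈ Fam) {L : List (Y × ℕ)}
    (h : Parts (stabZ S0) Fam L) : ∃ g ∈ M24, g • S0 = S ∧ Parts (stabZ S) Fam (L.map fun e => (g • e.1, e.2)) := by
  obtain ⟨g, hg, rfl⟩ := exists_map_trio hS0 hS
  exact ⟨g, hg, rfl, Parts.conj hg (hF g hg) h⟩

theorem Parts.smul_octad {Y : Type*} [MulAction (Equiv.Perm GolayPt) Y] {S0 S : Finset GolayPt} (hS0 : S0 ∈ octads)
    (hS : S ∈ octads) {Fam : Set Y} (hF : ∀ g ∈ M24, ∀ y, y ∈ Fam ↔ g • y ∈ Fam) {L : List (Y × ℕ)}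
    (h : Parts (stabZ S0) Fam L) : ∃ g ∈ M24, g • S0 = S ∧ Parts (stabZ S) Fam (L.map fun e => (g • e.1, e.2)) := by
  obtain ⟨g, hg, rfl⟩ := exists_map_octad hS0 hS
  exact ⟨g, hg, rfl, Parts.conj hg (hF g hg) h⟩

theorem octads_smul_iff (g : Equiv.Perm GolayPt) (hg : g ∈ M24) (y : Finset GolayPt) : y ∈ octads ↔ g • y ∈ octads :=
  ⟨smul_mem_octads hg, fun h => by simpa using smul_mem_octads (inv_mem hg) h⟩

end Cfsg.Agent.Lib.GolayFam
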