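import Mathlib
import Cfsg.Prelude.Def_Sporadic_a
import Cfsg.Prelude.Def_SporadicCombinatorics
import Cfsg.Agent.Lib.GolayFamParts
import Cfsg.Agent.Lib.GolayFamGens

/-!
# Base objects for the orbit certificates
-/

set_option autoImplicit false
set_option linter.style.haveILetI false
set_option linter.constructorNameAsVariable false

open scoped Pointwise

namespace Cfsg.Agent.Lib.GolayFam

open Cfsg Cfsg.Agent.Lib.GolayCode Cfsg.Agent.Lib.GolayFacts Cfsg.Agent.Lib.GolayPerm
  Cfsg.Agent.Lib.GolayChain Cfsg.Agent.Lib.GolayTrans Cfsg.Agent.Lib.GolayOrbit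
  Cfsg.Agent.Lib.GolayKit Cfsg.Agent.Lib.GolayM12 Cfsg.Agent.Lib.GolayFast
  Cfsg.Agent.Lib.GolayFastData Cfsg.Agent.Lib.GolaySets Cfsg.Agent.Lib.GolayMax Cfsg.Agent.Lib.GolayOrbits
  Cfsg.Agent.Lib.GolayFamGens

theorem gensS_ok : stabChk S0L gensS = true := by decide +kernel

theorem T0L_trio : trioB T0L = true := by decide +kernel

theorem T0L_good : goodL T0L = true := by decide +kernel

theorem T0_mem : objOf T0L ∈ trios := objOf_mem_trios T0L_trio T0L_good

theorem gensT_ok : stabChk T0L gensT = true := by decide +kernel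

/-- The octad, as a list. -/
def O0L : List ℕ := [8536111]

theorem O0L_good : goodL O0L = true := by decide +kernel

theorem gensO_ok : stabGensOK octad0 gensO = true := by decide +kernel

theorem gensO_ok' : ∀ π ∈ gensO, validPerm π = true ∧ inRange π = true ∧ toPerm π ∈ stabZ (supFin octad0) :=
  stabGens_ok gensO_ok

theorem base_O {h : Equiv.Perm GolayPt} (hh : h ∈ stabZ (supFin octad0)) : h • objOf O0L = objOf O0L := by
  have h1 : objOf O0L = {supFin octad0} := objOf_single _
  rw [h1, Finset.smul_finset_singleton, (mem_stabZ.mp hh).2]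

theorem DPL_good : goodL DPL = true := by decide +kernel

theorem gensD_ok : stabChk DPL gensD = true := by decide +kernel

end Cfsg.Agent.Lib.GolayFam
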