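import Mathlib
import Cfsg.Prelude.Def_Sporadic_a
import Cfsg.Prelude.Def_SporadicCombinatorics
import Cfsg.Agent.Lib.GolayFamBase
import Cfsg.Agent.Lib.GolayFam_sxOc

/-!
# Orbits: sxOc (certified by generated data)
-/

set_option autoImplicit false
set_option linter.style.haveILetI false
set_option linter.constructorNameAsVariable false
set_option maxRecDepth 100000

open scoped Pointwise

namespace Cfsg.Agent.Lib.GolayFam

open Cfsg Cfsg.Agent.Lib.GolayCode Cfsg.Agent.Lib.GolayFacts Cfsg.Agent.Lib.GolayPerm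
  Cfsg.Agent.Lib.GolayChain Cfsg.Agent.Lib.GolayTrans Cfsg.Agent.Lib.GolayOrbit
  Cfsg.Agent.Lib.GolayKit Cfsg.Agent.Lib.GolayM12 Cfsg.Agent.Lib.GolayFast
  Cfsg.Agent.Lib.GolayFastData Cfsg.Agent.Lib.GolaySets Cfsg.Agent.Lib.GolayMax Cfsg.Agent.Lib.GolayOrbits
  Cfsg.Agent.Lib.GolayFamGens

/-! ### sxOc -/

theorem hd_sxOc_0 : clsHead octB (pairL S0L) GolayFam_sxOc.c0 = true := by
  decide +kernel

theorem ck_sxOc_0_0 : chunkChk (fun a c => a == c) gensS (fun l => l.length == 1) GolayFam_sxOc.c0 0 250 = true := by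
  decide +kernel

theorem rows_sxOc_0 : (GolayFam_sxOc.c0.2.2.drop 0).all (rowAll (fun a c => a == c) gensS (fun l => l.length == 1) GolayFam_sxOc.c0) = true :=
  chunk_step ck_sxOc_0_0
    (chunk_end (by decide +kernel))

theorem hd_sxOc_1 : clsHead octB (pairL S0L) GolayFam_sxOc.c1 = true := by
  decide +kernel

theorem ck_sxOc_1_0 : chunkChk (fun a c => a == c) gensS (fun l => l.length == 1) GolayFam_sxOc.c1 0 250 = true := by
  decide +kernel

theorem ck_sxOc_1_250 : chunkChk (fun a c => a == c) gensS (fun l => l.length == 1) GolayFam_sxOc.c1 250 250 = true := by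
  decide +kernel

theorem rows_sxOc_1 : (GolayFam_sxOc.c1.2.2.drop 0).all (rowAll (fun a c => a == c) gensS (fun l => l.length == 1) GolayFam_sxOc.c1) = true :=
  chunk_step ck_sxOc_1_0
    (chunk_step ck_sxOc_1_250
    (chunk_end (by decide +kernel)))

theorem hd_sxOc_2 : clsHead octB (pairL S0L) GolayFam_sxOc.c2 = true := by
  decide +kernel

theorem ck_sxOc_2_0 : chunkChk (fun a c => a == c) gensS (fun l => l.length == 1) GolayFam_sxOc.c2 0 250 = true := by
  decide +kernel

theorem ck_sxOc_2_250 : chunkChk (fun a c => a == c) gensS (fun l => l.length == 1) GolayFam_sxOc.c2 250 250 = true := by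
  decide +kernel

theorem rows_sxOc_2 : (GolayFam_sxOc.c2.2.2.drop 0).all (rowAll (fun a c => a == c) gensS (fun l => l.length == 1) GolayFam_sxOc.c2) = true :=
  chunk_step ck_sxOc_2_0
    (chunk_step ck_sxOc_2_250
    (chunk_end (by decide +kernel)))

theorem ok_sxOc : GolayFam_sxOc.cls.all (clsChk (fun a c => a == c) gensS octB (fun l => l.length == 1) (pairL S0L)) = true := by
  refine List.all_eq_true.mpr fun c hc => ?_
  simp only [GolayFam_sxOc.cls, List.mem_cons, List.not_mem_nil, or_false] at hc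
  rcases hc with rfl | rfl | rfl
  · exact clsChk_of hd_sxOc_0 rows_sxOc_0
  · exact clsChk_of hd_sxOc_1 rows_sxOc_1
  · exact clsChk_of hd_sxOc_2 rows_sxOc_2

theorem sum_sxOc : clsSummary GolayFam_sxOc.cls = [([416040], 15), ([10558], 360), ([5279], 384)] := by
  decide +kernel

theorem nodup_sxOc : (GolayFam_sxOc.cls.map (·.1)).Nodup := by
  decide +kernel

theorem total_sxOc : (GolayFam_sxOc.cls.map fun c => c.2.2.length).sum = 759 := by
  decide +kernel

theorem parts_sxOc : Parts (stabZ (objOf S0L)) octads [(supFin 416040, 15), (supFin 10558, 360), (supFin 5279, 384)] := by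
  have h := parts_oct S0L_good (H := stabZ (objOf S0L)) (fun _ hh => (mem_stabZ.mp hh).1) (fun _ hh => (mem_stabZ.mp hh).2) (hgens_of_stabChk gensS_ok) ok_sxOc nodup_sxOc total_sxOc
  rw [sum_sxOc] at h
  exact h

theorem exists_parts_sxOc {S : Finset (Finset GolayPt)} (hS : S ∈ sextets) :
    ∃ g ∈ M24, g • objOf S0L = S ∧ Parts (stabZ S) octads [(g • supFin 416040, 15), (g • supFin 10558, 360), (g • supFin 5279, 384)] :=
  Parts.smul_sextet S0_mem hS octads_smul_iff parts_sxOc

end Cfsg.Agent.Lib.GolayFam
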