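import Mathlib
import Cfsg.Prelude.Def_Sporadic_a
import Cfsg.Prelude.Def_SporadicCombinatorics
import Cfsg.Agent.Lib.GolayFamBase
import Cfsg.Agent.Lib.GolayFam_trOc

/-!
# Orbits: trOc (certified by generated data)
-/

set_option autoImplicit false
set_option linter.style.haveILetI false
set_option linter.constructorNameAsVariable false
set_option maxRecDepth 100000

open scoped Pointwise

namespace Cfsg.Agent.Lib.GolayFam

open Cfsg Cfsg.Agent.Lib.GolayCode Cfsg.Agent.Lib.GolayFacts Cfsg.Agent.Lib.GolayPerm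
  Cfsg.Agent.Lib.GolayChain Cfsg.Agent.Lib.GolayTrans Cfsg.Agent.Lib.GolayOrbit
  Cfsg.Agent.Lib.GolayKit Cfsg.Agent.Lib.GolayM12 Cfsg.Agent.Lib.GolayFast
  Cfsg.Agent.Lib.GolayFastData Cfsg.Agent.Lib.GolaySets Cfsg.Agent.Lib.GolayMax Cfsg.Agent.Lib.GolayOrbits
  Cfsg.Agent.Lib.GolayFamGens

/-! ### trOc -/

theorem hd_trOc_0 : clsHead octB (pairL T0L) GolayFam_trOc.c0 = true := by
  decide +kernel

theorem ck_trOc_0_0 : chunkChk (fun a c => a == c) gensT (fun l => l.length == 1) GolayFam_trOc.c0 0 250 = true := by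
  decide +kernel

theorem rows_trOc_0 : (GolayFam_trOc.c0.2.2.drop 0).all (rowAll (fun a c => a == c) gensT (fun l => l.length == 1) GolayFam_trOc.c0) = true :=
  chunk_step ck_trOc_0_0
    (chunk_end (by decide +kernel))

theorem hd_trOc_1 : clsHead octB (pairL T0L) GolayFam_trOc.c1 = true := by
  decide +kernel

theorem ck_trOc_1_0 : chunkChk (fun a c => a == c) gensT (fun l => l.length == 1) GolayFam_trOc.c1 0 250 = true := by
  decide +kernel

theorem rows_trOc_1 : (GolayFam_trOc.c1.2.2.drop 0).all (rowAll (fun a c => a == c) gensT (fun l => l.length == 1) GolayFam_trOc.c1) = true :=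
  chunk_step ck_trOc_1_0
    (chunk_end (by decide +kernel))

theorem hd_trOc_2 : clsHead octB (pairL T0L) GolayFam_trOc.c2 = true := by
  decide +kernel

theorem ck_trOc_2_0 : chunkChk (fun a c => a == c) gensT (fun l => l.length == 1) GolayFam_trOc.c2 0 250 = true := by
  decide +kernel

theorem ck_trOc_2_250 : chunkChk (fun a c => a == c) gensT (fun l => l.length == 1) GolayFam_trOc.c2 250 250 = true := by
  decide +kernel

theorem ck_trOc_2_500 : chunkChk (fun a c => a == c) gensT (fun l => l.length == 1) GolayFam_trOc.c2 500 250 = true := by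
  decide +kernel

theorem rows_trOc_2 : (GolayFam_trOc.c2.2.2.drop 0).all (rowAll (fun a c => a == c) gensT (fun l => l.length == 1) GolayFam_trOc.c2) = true :=
  chunk_step ck_trOc_2_0
    (chunk_step ck_trOc_2_250
    (chunk_step ck_trOc_2_500
    (chunk_end (by decide +kernel))))

theorem ok_trOc : GolayFam_trOc.cls.all (clsChk (fun a c => a == c) gensT octB (fun l => l.length == 1) (pairL T0L)) = true := by
  refine List.all_eq_true.mpr fun c hc => ?_
  simp only [GolayFam_trOc.cls, List.mem_cons, List.not_mem_nil, or_false] at hc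
  rcases hc with rfl | rfl | rfl
  · exact clsChk_of hd_trOc_0 rows_trOc_0
  · exact clsChk_of hd_trOc_1 rows_trOc_1
  · exact clsChk_of hd_trOc_2 rows_trOc_2

theorem sum_trOc : clsSummary GolayFam_trOc.cls = [([5279], 3), ([90318], 84), ([10558], 672)] := by
  decide +kernel

theorem nodup_trOc : (GolayFam_trOc.cls.map (·.1)).Nodup := by
  decide +kernel

theorem total_trOc : (GolayFam_trOc.cls.map fun c => c.2.2.length).sum = 759 := by
  decide +kernel

theorem parts_trOc : Parts (stabZ (objOf T0L)) octads [(supFin 5279, 3), (supFin 90318, 84), (supFin 10558, 672)] := by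
  have h := parts_oct T0L_good (H := stabZ (objOf T0L)) (fun _ hh => (mem_stabZ.mp hh).1) (fun _ hh => (mem_stabZ.mp hh).2) (hgens_of_stabChk gensT_ok) ok_trOc nodup_trOc total_trOc
  rw [sum_trOc] at h
  exact h

theorem exists_parts_trOc {T : Finset (Finset GolayPt)} (hT : T ∈ trios) :
    ∃ g ∈ M24, g • objOf T0L = T ∧ Parts (stabZ T) octads [(g • supFin 5279, 3), (g • supFin 90318, 84), (g • supFin 10558, 672)] :=
  Parts.smul_trio T0_mem hT octads_smul_iff parts_trOc

end Cfsg.Agent.Lib.GolayFam
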