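import Mathlib
import Cfsg.Prelude.Def_Sporadic_a
import Cfsg.Prelude.Def_SporadicCombinatorics
import Cfsg.Agent.Lib.GolayFamParts
import Cfsg.Agent.Lib.PermCoatom

/-!
# Maximality from a decomposition into orbits
-/

set_option autoImplicit false
set_option linter.style.haveILetI false
set_option linter.constructorNameAsVariable false

open scoped Pointwise

namespace Cfsg.Agent.Lib.GolayFam

open Cfsg Cfsg.Agent.Lib.GolayCode Cfsg.Agent.Lib.GolayFacts Cfsg.Agent.Lib.GolayPerm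
  Cfsg.Agent.Lib.GolayChain Cfsg.Agent.Lib.GolayTrans Cfsg.Agent.Lib.GolayOrbit
  Cfsg.Agent.Lib.GolayKit Cfsg.Agent.Lib.GolayM12 Cfsg.Agent.Lib.GolayFast
  Cfsg.Agent.Lib.GolayFastData Cfsg.Agent.Lib.GolaySets Cfsg.Agent.Lib.GolayMax Cfsg.Agent.Lib.GolayOrbits
  Cfsg.Agent.Lib.PermCoatom

/-- Maximality of the stabilizer from a decomposition with sizes. -/
theorem isCoatom_of_parts {Y : Type*} [MulAction (Equiv.Perm GolayPt) Y] {z : Y} {Fam : Set Y} (hfin : Fam.Finite)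
    (hz : z ∈ Fam) (htrans : ∀ y ∈ Fam, ∃ g ∈ M24, g • z = y) (hinv : ∀ g ∈ M24, ∀ y ∈ Fam, g • y ∈ Fam)
    (f : Y → ℕ) (hf : ∀ h ∈ stabZ z, ∀ y, f (h • y) = f y) {L : List (Y × ℕ)} (hP : Parts (stabZ z) Fam L)
    (Lv : List (ℕ × ℕ)) (hLv : L.map (fun e => (f e.1, e.2)) = Lv) (hnd : (Lv.map Prod.fst).Nodup)
    (hzL : (z, 1) ∈ L) (x1 : Y) (hx1 : x1 ∈ Fam) (hx10 : x1 ≠ z) (sz : ℕ → ℕ) (hsz : ∀ e ∈ Lv, sz e.1 = e.2)
    (hs : ∀ I ∈ (Lv.map Prod.fst).toFinset.powerset, f z ∈ I → (∑ i ∈ I, sz i) ∣ Fam.ncard →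
      I = {f z} ∨ I = (Lv.map Prod.fst).toFinset) :
    IsCoatom (MulAction.stabilizer M24 z) := by
  classical
  have hnd2 : (L.map fun e => f e.1).Nodup := by
    have : (L.map fun e => f e.1) = Lv.map Prod.fst := by
      rw [← hLv, List.map_map]
      rfl
    rw [this]
    exact hnd
  have hinj : ∀ e ∈ L, ∀ e' ∈ L, f e.1 = f e'.1 → e = e' := fun e he e' he' h =>
    List.inj_on_of_nodup_map hnd2 he he' h
  have hfo : ∀ {r a : Y}, a ∈ orbS (stabZ z) r → f a = f r := by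
    rintro r _ ⟨g, hg, rfl⟩
    exact hf g hg r
  have hmemFam : ∀ e ∈ L, ∀ a ∈ orbS (stabZ z) e.1, a ∈ Fam := fun e he a ha => (hP.2 a).mpr ⟨e, he, ha⟩
  refine isCoatom_of_suborbits (G := ↥M24) hfin.toFinset (hfin.mem_toFinset.mpr hz) ?_ ?_ f ?_ ?_ x1
    (hfin.mem_toFinset.mpr hx1) hx10 (Lv.map Prod.fst).toFinset ?_ sz ?_ ?_
  · intro y hy
    obtain ⟨g, hg, he⟩ := htrans y (hfin.mem_toFinset.mp hy)
    exact ⟨⟨g, hg⟩, he⟩
  · intro g y hy
    exact hfin.mem_toFinset.mpr (hinv g.1 g.2 y (hfin.mem_toFinset.mp hy))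
  · intro a ha b hb hab
    obtain ⟨e, he, hae⟩ := (hP.2 a).mp (hfin.mem_toFinset.mp ha)
    obtain ⟨e', he', hbe⟩ := (hP.2 b).mp (hfin.mem_toFinset.mp hb)
    have h1 : e = e' := hinj e he e' he' (by rw [← hfo hae, ← hfo hbe, hab])
    subst h1
    obtain ⟨g1, hg1, rfl⟩ := hae
    obtain ⟨g2, hg2, rfl⟩ := hbe
    have hk := mul_mem hg2 (inv_mem hg1)
    obtain ⟨h2, h3⟩ := mem_stabZ.mp hk
    exact ⟨⟨g2 * g1⁻¹, h2⟩, h3, by
      change (g2 * g1⁻¹) • g1 • e.1 = g2 • e.1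
      rw [mul_smul, inv_smul_smul]⟩
  · intro a ha hab
    obtain ⟨e, he, hae⟩ := (hP.2 a).mp (hfin.mem_toFinset.mp ha)
    have h1 : e = (z, 1) := hinj e he _ hzL (by rw [← hfo hae, hab])
    subst h1
    rw [orbS_stabZ_self] at hae
    exact hae
  · intro a ha
    obtain ⟨e, he, hae⟩ := (hP.2 a).mp (hfin.mem_toFinset.mp ha)
    rw [List.mem_toFinset, ← hLv, List.map_map]
    exact List.mem_map.mpr ⟨e, he, (hfo hae).symm⟩
  · intro i hi
    rw [List.mem_toFinset] at hi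
    obtain ⟨e0, he0, rfl⟩ := List.mem_map.mp hi
    rw [← hLv] at he0
    obtain ⟨e, he, rfl⟩ := List.mem_map.mp he0
    have hOfin : (orbS (stabZ z) e.1).Finite := hfin.subset fun a ha => hmemFam e he a ha
    have h1 : hfin.toFinset.filter (fun a => f a = f e.1) = hOfin.toFinset := by
      ext a
      simp only [Finset.mem_filter, hfin.mem_toFinset, Set.Finite.mem_toFinset]
      constructor
      · rintro ⟨h2, h3⟩
        obtain ⟨e', he', hae⟩ := (hP.2 a).mp h2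
        have h4 : e' = e := hinj e' he' e he (by rw [← hfo hae, h3])
        rw [h4] at hae
        exact hae
      · intro h2
        exact ⟨hmemFam e he a h2, hfo h2⟩
    rw [show (Prod.fst (f e.1, e.2)) = f e.1 from rfl]
    rw [h1, ← Set.ncard_eq_toFinset_card _ hOfin, (hP.1 e he).2]
    have h5 := hsz (f e.1, e.2) (by rw [← hLv]; exact List.mem_map.mpr ⟨e, he, rfl⟩)
    exact h5.symm
  · intro I hI hfz hd
    rw [Set.ncard_eq_toFinset_card Fam hfin] at hs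
    exact hs I hI hfz hd

end Cfsg.Agent.Lib.GolayFam
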