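import Mathlib
import Cfsg.Prelude.Def_Sporadic_a
import Cfsg.Prelude.Def_SporadicCombinatorics
import Cfsg.Agent.Lib.GolayFamCoatom
import Cfsg.Agent.Lib.GolayFamC_sxSx

/-!
# Final statements about sextet stabilizers
-/

set_option autoImplicit false
set_option linter.style.haveILetI false
set_option linter.constructorNameAsVariable false
set_option maxRecDepth 100000

open scoped Pointwise

namespace Cfsg.Agent.Lib.GolayFam

open Cfsg.Agent.Lib.GolayCode Cfsg.Agent.Lib.GolayFacts Cfsg.Agent.Lib.GolayPerm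
  Cfsg.Agent.Lib.GolayChain Cfsg.Agent.Lib.GolayTrans Cfsg.Agent.Lib.GolayOrbit
  Cfsg.Agent.Lib.GolayKit Cfsg.Agent.Lib.GolayM12 Cfsg.Agent.Lib.GolayFast
  Cfsg.Agent.Lib.GolayFastData Cfsg.Agent.Lib.GolaySets Cfsg.Agent.Lib.GolayMax Cfsg.Agent.Lib.GolayOrbits
  Cfsg.Agent.Lib.GolayFamGens

open Cfsg (GolayPt M24 octads dodecads sextets trios)

theorem s1552 (S : Finset (Finset Cfsg.GolayPt)) (hS : S ∈ Cfsg.sextets) : ∃ X₁ ∈ Cfsg.sextets, ∃ X₂ ∈ Cfsg.sextets, ∃ X₃ ∈ Cfsg.sextets, (MulAction.orbit ↥(MulAction.stabilizer Cfsg.M24 S) X₁).ncard = 90 ∧ (MulAction.orbit ↥(MulAction.stabilizer Cfsg.M24 S) X₂).ncard = 240 ∧ (MulAction.orbit ↥(MulAction.stabilizer Cfsg.M24 S) X₃).ncard = 1440 ∧ Cfsg.sextets = {S} ∪ MulAction.orbit ↥(MulAction.stabilizer Cfsg.M24 S) X₁ ∪ MulAction.orbit ↥(MulAction.stabilizer Cfsg.M24 S) X₂ ∪ MulAction.orbit ↥(MulAction.stabilizer Cfsg.M24 S) X₃ ∧ IsCoatom (MulAction.stabilizer Cfsg.M24 S) := by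
  have e1 : ∀ x : Finset GolayPt, MulAction.orbit ↥(MulAction.stabilizer M24 S) x = orbS (stabZ S) x :=
    fun x => orbit_stab_eq S x
  have e2 : ∀ x : Finset (Finset GolayPt), MulAction.orbit ↥(MulAction.stabilizer M24 S) x = orbS (stabZ S) x :=
    fun x => orbit_stab_eq S x
  simp only [e1, e2]
  obtain ⟨g, hg, hgS, hP⟩ := exists_parts_sxSx hS
  have hroot : g • objOf [147496,268544,1082880,2621632,4268048,8388615] = S := hgS
  rw [hroot] at hP
  have hP' := hP
  obtain ⟨a0, a1, a2, a3, n0, n1, n2, n3, hU⟩ := Parts.four hP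
  rw [orbS_stabZ_self] at hU
  refine ⟨_, a1, _, a2, _, a3, n1, n2, n3, hU, ?_⟩
  have hval : ∀ r : List ℕ, goodL r = true → Cfsg.Agent.Lib.GolayFam.pairF S (g • objOf r) = pairL S0L r := by
    intro r hr
    rw [← hgS, pairF_smul, pairF_objOf S0L_good hr]
  have hself : Cfsg.Agent.Lib.GolayFam.pairF S S = 96 := by
    have := hval S0L S0L_good
    rw [hgS] at this
    rw [this]
    decide +kernel
  refine isCoatom_of_parts sextets_finite hS (fun y hy => exists_map_sextet hS hy) (fun g hg y hy => smul_mem_sextets hg hy)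
    (Cfsg.Agent.Lib.GolayFam.pairF S) ?_ hP' [(96, 1), (48, 90), (36, 240), (32, 1440)] ?_ (by decide) (List.mem_cons_self ..) _ a1 ?_ (fun i => if i = 96 then 1 else if i = 48 then 90 else if i = 36 then 240 else 1440) ?_ ?_
  · intro h hh y
    conv_lhs => rw [← (mem_stabZ.mp hh).2]
    exact pairF_smul h _ _
  · simp only [List.map_cons, List.map_nil]
    rw [hself]
    rw [hval [43,297984,1053440,2162768,4726912,8536068] (by decide +kernel), show pairL S0L [43,297984,1053440,2162768,4726912,8536068] = 48 by decide +kernel]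
    rw [hval [15,5264,622848,3416064,4196928,8536096] (by decide +kernel), show pairL S0L [15,5264,622848,3416064,4196928,8536096] = 36 by decide +kernel]
    rw [hval [27,5252,57856,2162784,4587776,9963520] (by decide +kernel), show pairL S0L [27,5252,57856,2162784,4587776,9963520] = 32 by decide +kernel]
  · intro he
    rw [he, orbS_stabZ_self, Set.ncard_singleton] at n1
    omega
  · decide
  · rw [hself, ncard_sextets]
    decide +kernel

end Cfsg.Agent.Lib.GolayFam
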