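import Mathlib
import Cfsg.Prelude.Def_Sporadic_a
import Cfsg.Prelude.Def_SporadicCombinatorics
import Cfsg.Agent.Lib.GolayFamCoatom
import Cfsg.Agent.Lib.GolayFamC_trTr

/-!
# Final statements about trio stabilizers
-/

set_option autoImplicit false
set_option linter.style.haveILetI false
set_option linter.constructorNameAsVariable false
set_option maxRecDepth 100000

open scoped Pointwise

namespace Cfsg.Agent.Lib.GolayFam

open Cfsg.Agent.Lib.GolayCode Cfsg.Agent.Lib.GolayFacts Cfsg.Agent.Lib.GolayPerm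
  Cfsg.Agent.Lib.GolayChain Cfsg.Agent.Lib.GolayTrans Cfsg.Agent.Lib.GolayOrbit
  Cfsg.Agent.Lib.GolayKit Cfsg.Agent.Lib.GolayM12 Cfsg.Agent.Lib.GolayFast
  Cfsg.Agent.Lib.GolayFastData Cfsg.Agent.Lib.GolaySets Cfsg.Agent.Lib.GolayMax Cfsg.Agent.Lib.GolayOrbits
  Cfsg.Agent.Lib.GolayFamGens

open Cfsg (GolayPt M24 octads dodecads sextets trios)

theorem s1559 (T : Finset (Finset Cfsg.GolayPt)) (hT : T ∈ Cfsg.trios) : ∃ X₁ ∈ Cfsg.trios, ∃ X₂ ∈ Cfsg.trios, ∃ X₃ ∈ Cfsg.trios, ∃ X₄ ∈ Cfsg.trios, (MulAction.orbit ↥(MulAction.stabilizer Cfsg.M24 T) X₁).ncard = 42 ∧ (MulAction.orbit ↥(MulAction.stabilizer Cfsg.M24 T) X₂).ncard = 56 ∧ (MulAction.orbit ↥(MulAction.stabilizer Cfsg.M24 T) X₃).ncard = 1008 ∧ (MulAction.orbit ↥(MulAction.stabilizer Cfsg.M24 T) X₄).ncard = 2688 ∧ Cfsg.trios = {T} ∪ MulAction.orbit ↥(MulAction.stabilizer Cfsg.M24 T) X₁ ∪ MulAction.orbit ↥(MulAction.stabilizer Cfsg.M24 T) X₂ ∪ MulAction.orbit ↥(MulAction.stabilizer Cfsg.M24 T) X₃ ∪ MulAction.orbit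 ↥(MulAction.stabilizer Cfsg.M24 T) X₄ ∧ IsCoatom (MulAction.stabilizer Cfsg.M24 T) := by
  have e1 : ∀ x : Finset GolayPt, MulAction.orbit ↥(MulAction.stabilizer M24 T) x = orbS (stabZ T) x :=
    fun x => orbit_stab_eq T x
  have e2 : ∀ x : Finset (Finset GolayPt), MulAction.orbit ↥(MulAction.stabilizer M24 T) x = orbS (stabZ T) x :=
    fun x => orbit_stab_eq T x
  simp only [e1, e2]
  obtain ⟨g, hg, hgS, hP⟩ := exists_parts_trTr hT
  have hroot : g • objOf [5279,1009728,15762208] = T := hgS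
  rw [hroot] at hP
  have hP' := hP
  obtain ⟨a0, a1, a2, a3, a4, n0, n1, n2, n3, n4, hU⟩ := Parts.five hP
  rw [orbS_stabZ_self] at hU
  refine ⟨_, a1, _, a2, _, a3, _, a4, n1, n2, n3, n4, hU, ?_⟩
  have hval : ∀ r : List ℕ, goodL r = true → Cfsg.Agent.Lib.GolayFam.pairF T (g • objOf r) = pairL T0L r := by
    intro r hr
    rw [← hgS, pairF_smul, pairF_objOf T0L_good hr]
  have hself : Cfsg.Agent.Lib.GolayFam.pairF T T = 192 := by
    have := hval T0L T0L_good
    rw [hgS] at this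
    rw [this]
    decide +kernel
  refine isCoatom_of_parts trios_finite hT (fun y hy => exists_map_trio hT hy) (fun g hg y hy => smul_mem_trios hg hy)
    (Cfsg.Agent.Lib.GolayFam.pairF T) ?_ hP' [(192, 1), (128, 42), (96, 56), (80, 1008), (72, 2688)] ?_ (by decide) (List.mem_cons_self ..) _ a1 ?_ (fun i => if i = 192 then 1 else if i = 128 then 42 else if i = 96 then 56 else if i = 80 then 1008 else 2688) ?_ ?_
  · intro h hh y
    conv_lhs => rw [← (mem_stabZ.mp hh).2]
    exact pairF_smul h _ _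
  · simp only [List.map_cons, List.map_nil]
    rw [hself]
    rw [hval [5279,1256224,15515712] (by decide +kernel), show pairL T0L [5279,1256224,15515712] = 128 by decide +kernel]
    rw [hval [90318,2135601,14551296] (by decide +kernel), show pairL T0L [90318,2135601,14551296] = 96 by decide +kernel]
    rw [hval [10558,1250945,15515712] (by decide +kernel), show pairL T0L [10558,1250945,15515712] = 80 by decide +kernel]
    rw [hval [10558,902657,15864000] (by decide +kernel), show pairL T0L [10558,902657,15864000] = 72 by decide +kernel]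
  · intro he
    rw [he, orbS_stabZ_self, Set.ncard_singleton] at n1
    omega
  · decide
  · rw [hself, ncard_trios]
    decide +kernel

end Cfsg.Agent.Lib.GolayFam
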