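import Mathlib
import Cfsg.Prelude.Def_Sporadic_a
import Cfsg.Prelude.Def_SporadicCombinatorics
import Cfsg.Agent.Lib.GolayFamC_ocTr
import Cfsg.Agent.Lib.GolayFamC_ocSx

/-!
# Final statements about octad stabilizers
-/

set_option autoImplicit false
set_option linter.style.haveILetI false
set_option linter.constructorNameAsVariable false
set_option maxRecDepth 100000

open scoped Pointwise

namespace Cfsg.Agent.Lib.GolayFam

open Cfsg.Agent.Lib.GolayCode Cfsg.Agent.Lib.GolayFacts Cfsg.Agent.Lib.GolayPerm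
  Cfsg.Agent.Lib.GolayChain Cfsg.Agent.Lib.GolayTrans Cfsg.Agent.Lib.GolayOrbit
  Cfsg.Agent.Lib.GolayKit Cfsg.Agent.Lib.GolayM12 Cfsg.Agent.Lib.GolayFast
  Cfsg.Agent.Lib.GolayFastData Cfsg.Agent.Lib.GolaySets Cfsg.Agent.Lib.GolayMax Cfsg.Agent.Lib.GolayOrbits
  Cfsg.Agent.Lib.GolayFamGens

open Cfsg (GolayPt M24 octads dodecads sextets trios)

theorem s5610 (o : Finset Cfsg.GolayPt) (ho : o ∈ Cfsg.octads) : (∃ X₁ ∈ Cfsg.trios, ∃ X₂ ∈ Cfsg.trios, ∃ X₃ ∈ Cfsg.trios, (MulAction.orbit ↥(MulAction.stabilizer Cfsg.M24 o) X₁).ncard = 15 ∧ (MulAction.orbit ↥(MulAction.stabilizer Cfsg.M24 o) X₂).ncard = 420 ∧ (MulAction.orbit ↥(MulAction.stabilizer Cfsg.M24 o) X₃).ncard = 3360 ∧ Cfsg.trios = MulAction.orbit ↥(MulAction.stabilizer Cfsg.M24 o) X₁ ∪ MulAction.orbit ↥(MulAction.stabilizer Cfsg.M24 o) X₂ ∪ MulAction.orbit ↥(MulAction.stabilizer Cfsg.M24 o) X₃) ∧ (∃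 Y₁ ∈ Cfsg.sextets, ∃ Y₂ ∈ Cfsg.sextets, ∃ Y₃ ∈ Cfsg.sextets, (MulAction.orbit ↥(MulAction.stabilizer Cfsg.M24 o) Y₁).ncard = 35 ∧ (MulAction.orbit ↥(MulAction.stabilizer Cfsg.M24 o) Y₂).ncard = 840 ∧ (MulAction.orbit ↥(MulAction.stabilizer Cfsg.M24 o) Y₃).ncard = 896 ∧ Cfsg.sextets = MulAction.orbit ↥(MulAction.stabilizer Cfsg.M24 o) Y₁ ∪ MulAction.orbit ↥(MulAction.stabilizer Cfsg.M24 o) Y₂ ∪ MulAction.orbit ↥(MulAction.stabilizer Cfsg.M24 o) Y₃) := by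
  have e1 : ∀ x : Finset GolayPt, MulAction.orbit ↥(MulAction.stabilizer M24 o) x = orbS (stabZ o) x :=
    fun x => orbit_stab_eq o x
  have e2 : ∀ x : Finset (Finset GolayPt), MulAction.orbit ↥(MulAction.stabilizer M24 o) x = orbS (stabZ o) x :=
    fun x => orbit_stab_eq o x
  simp only [e1, e2]
  obtain ⟨g, hg, -, hP⟩ := exists_parts_ocTr ho
  obtain ⟨g', hg', -, hQ⟩ := exists_parts_ocSx ho
  obtain ⟨a0, a1, a2, n0, n1, n2, hU⟩ := Parts.three hP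
  obtain ⟨b0, b1, b2, m0, m1, m2, hV⟩ := Parts.three hQ
  exact ⟨⟨_, a0, _, a1, _, a2, n0, n1, n2, hU⟩, ⟨_, b0, _, b1, _, b2, m0, m1, m2, hV⟩⟩

end Cfsg.Agent.Lib.GolayFam
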