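import Mathlib
import Cfsg.Prelude.Def_Sporadic_a
import Cfsg.Prelude.Def_SporadicCombinatorics
import Cfsg.Agent.Lib.GolayFamC_y3Sx

/-!
# Sextets and a 3-set
-/

set_option autoImplicit false
set_option linter.style.haveILetI false
set_option linter.constructorNameAsVariable false
set_option maxRecDepth 100000

open scoped Pointwise

namespace Cfsg.Agent.Lib.GolayFam

open Cfsg Cfsg.Agent.Lib.GolayCode Cfsg.Agent.Lib.GolayFacts Cfsg.Agent.Lib.GolayPerm
  Cfsg.Agent.Lib.GolayChain Cfsg.Agent.Lib.GolayTrans Cfsg.Agent.Lib.GolayOrbit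
  Cfsg.Agent.Lib.GolayKit Cfsg.Agent.Lib.GolayM12 Cfsg.Agent.Lib.GolayFast
  Cfsg.Agent.Lib.GolayFastData Cfsg.Agent.Lib.GolaySets Cfsg.Agent.Lib.GolayMax Cfsg.Agent.Lib.GolayOrbits
  Cfsg.Agent.Lib.GolayFamGens

/-- The number of tetrads meeting a set. -/
def fY (Y : Finset GolayPt) (S : Finset (Finset GolayPt)) : ℕ := (S.filter fun t => (t ∩ Y).Nonempty).card

theorem fY_smul (g : Equiv.Perm GolayPt) (Y : Finset GolayPt) (S : Finset (Finset GolayPt)) :
    fY (g • Y) (g • S) = fY Y S := by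
  classical
  unfold fY
  have h : (g • S).filter (fun t => (t ∩ g • Y).Nonempty) = g • (S.filter fun t => (t ∩ Y).Nonempty) := by
    ext t
    simp only [Finset.mem_filter, Finset.mem_smul_finset]
    constructor
    · rintro ⟨⟨u, hu, rfl⟩, h2⟩
      refine ⟨u, ⟨hu, ?_⟩, rfl⟩
      rw [← Finset.smul_finset_inter] at h2
      exact Finset.smul_finset_nonempty.mp h2
    · rintro ⟨u, ⟨hu, h2⟩, rfl⟩
      refine ⟨⟨u, hu, rfl⟩, ?_⟩
      rw [← Finset.smul_finset_inter]
      exact Finset.smul_finset_nonempty.mpr h2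
  rw [h, Finset.card_smul_finset]

theorem fY_root0 : fY (supFin 7) (objOf [15, 5264, 622848, 3416064, 4196928, 8536096]) = 1 := by decide +kernel

theorem fY_root1 : fY (supFin 7) (objOf [27, 5252, 57856, 2162784, 4587776, 9963520]) = 2 := by decide +kernel

theorem fY_root2 : fY (supFin 7) (objOf [57, 133760, 541952, 2162754, 5275652, 8663040]) = 3 := by decide +kernel

/-- The statement for a 3-set. -/
theorem sextets_three_set (Y : Finset GolayPt) (hY : Y.card = 3) :
    {S : Finset (Finset GolayPt) | S ∈ sextets ∧ (S.filter fun t => (t ∩ Y).Nonempty).card = 1}.ncard = 21 ∧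
    {S : Finset (Finset GolayPt) | S ∈ sextets ∧ (S.filter fun t => (t ∩ Y).Nonempty).card = 2}.ncard = 630 ∧
    {S : Finset (Finset GolayPt) | S ∈ sextets ∧ (S.filter fun t => (t ∩ Y).Nonempty).card = 3}.ncard = 1120 ∧
    ∀ S S' : Finset (Finset GolayPt), S ∈ sextets → S' ∈ sextets →
      (S.filter fun t => (t ∩ Y).Nonempty).card = (S'.filter fun t => (t ∩ Y).Nonempty).card →
      ∃ g ∈ M24, g • Y = Y ∧ g • S = S' := by
  classical
  obtain ⟨g, hg, rfl⟩ := exists_map_card (x := supFin 7) (y := Y) (by rw [hY]; decide +kernel) (by decide +kernel)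
  have hF : ∀ y, y ∈ sextets ↔ g • y ∈ sextets := fun y => smul_sextets_iff hg y
  have hP := Parts.conj hg hF parts_y3Sx
  simp only [List.map_cons, List.map_nil] at hP
  set x0 := g • objOf [15, 5264, 622848, 3416064, 4196928, 8536096] with hx0
  set x1 := g • objOf [27, 5252, 57856, 2162784, 4587776, 9963520] with hx1
  set x2 := g • objOf [57, 133760, 541952, 2162754, 5275652, 8663040] with hx2
  set Y' := g • supFin 7 with hY'
  have v0 : fY Y' x0 = 1 := by rw [hY', hx0, fY_smul, fY_root0]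
  have v1 : fY Y' x1 = 2 := by rw [hY', hx1, fY_smul, fY_root1]
  have v2 : fY Y' x2 = 3 := by rw [hY', hx2, fY_smul, fY_root2]
  have hinv : ∀ x, ∀ y ∈ orbS (stabZ Y') x, fY Y' y = fY Y' x := by
    rintro x _ ⟨h, hh, rfl⟩
    conv_lhs => rw [← (mem_stabZ.mp hh).2]
    exact fY_smul h _ _
  obtain ⟨a0, a1, a2, n0, n1, n2, hU⟩ := Parts.three hP
  have hcases : ∀ S, S ∈ sextets → S ∈ orbS (stabZ Y') x0 ∨ S ∈ orbS (stabZ Y') x1 ∨ S ∈ orbS (stabZ Y') x2 := by
    intro S hS
    rw [hU] at hS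
    simpa only [Set.mem_union, or_assoc] using hS
  have hsub : ∀ x, x ∈ sextets → orbS (stabZ Y') x ⊆ sextets := by
    rintro x hx _ ⟨h, hh, rfl⟩
    exact smul_mem_sextets (mem_stabZ.mp hh).1 hx
  have hset : ∀ x (k : ℕ), x ∈ sextets → fY Y' x = k →
      (∀ z, z ∈ sextets → fY Y' z = k → z ∈ orbS (stabZ Y') x) →
      {S : Finset (Finset GolayPt) | S ∈ sextets ∧ (S.filter fun t => (t ∩ Y').Nonempty).card = k} = orbS (stabZ Y') x := by
    intro x k hx hk hall
    ext S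
    constructor
    · rintro ⟨h1, h2⟩
      exact hall S h1 h2
    · intro h
      exact ⟨hsub x hx h, (hinv x S h).trans hk⟩
  have hcl : ∀ z, z ∈ sextets → (fY Y' z = 1 → z ∈ orbS (stabZ Y') x0) ∧ (fY Y' z = 2 → z ∈ orbS (stabZ Y') x1) ∧
      (fY Y' z = 3 → z ∈ orbS (stabZ Y') x2) := by
    intro z hz
    rcases hcases z hz with h | h | h
    · have h1 := (hinv _ _ h).trans v0
      exact ⟨fun _ => h, fun h2 => by omega, fun h2 => by omega⟩
    · have h1 := (hinv _ _ h).trans v1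
      exact ⟨fun h2 => by omega, fun _ => h, fun h2 => by omega⟩
    · have h1 := (hinv _ _ h).trans v2
      exact ⟨fun h2 => by omega, fun h2 => by omega, fun _ => h⟩
  have m0 : x0 ∈ sextets := a0
  have m1 : x1 ∈ sextets := a1
  have m2 : x2 ∈ sextets := a2
  refine ⟨?_, ?_, ?_, ?_⟩
  · rw [hset x0 1 m0 v0 (fun z hz => (hcl z hz).1)]
    exact n0
  · rw [hset x1 2 m1 v1 (fun z hz => (hcl z hz).2.1)]
    exact n1
  · rw [hset x2 3 m2 v2 (fun z hz => (hcl z hz).2.2)]
    exact n2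
  · intro S S' hS hS' he
    have hsame : ∃ x, S ∈ orbS (stabZ Y') x ∧ S' ∈ orbS (stabZ Y') x := by
      rcases hcases S hS with h | h | h
      · have h1 := (hinv _ _ h).trans v0
        exact ⟨x0, h, (hcl S' hS').1 (he.symm.trans h1)⟩
      · have h1 := (hinv _ _ h).trans v1
        exact ⟨x1, h, (hcl S' hS').2.1 (he.symm.trans h1)⟩
      · have h1 := (hinv _ _ h).trans v2
        exact ⟨x2, h, (hcl S' hS').2.2 (he.symm.trans h1)⟩
    obtain ⟨x, ⟨a, ha, rfl⟩, ⟨b, hb, rfl⟩⟩ := hsame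
    obtain ⟨ha1, ha2⟩ := mem_stabZ.mp ha
    obtain ⟨hb1, hb2⟩ := mem_stabZ.mp hb
    refine ⟨b * a⁻¹, mul_mem hb1 (inv_mem ha1), ?_, ?_⟩
    · rw [mul_smul, inv_smul_eq_iff.mpr ha2.symm, hb2]
    · rw [mul_smul, inv_smul_smul]

end Cfsg.Agent.Lib.GolayFam
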