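import Mathlib
import Cfsg.Prelude.Def_Sporadic_a
import Cfsg.Prelude.Def_SporadicCombinatorics
import Cfsg.Agent.Lib.GolayFamC_dpSx

/-!
# Final statements about dodecad pair stabilizers
-/

set_option autoImplicit false
set_option linter.style.haveILetI false
set_option linter.constructorNameAsVariable false
set_option maxRecDepth 100000

open scoped Pointwise

namespace Cfsg.Agent.Lib.GolayFam

open Cfsg.Agent.Lib.GolayCode Cfsg.Agent.Lib.GolayFacts Cfsg.Agent.Lib.GolayPerm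
  Cfsg.Agent.Lib.GolayChain Cfsg.Agent.Lib.GolayTrans Cfsg.Agent.Lib.GolayOrbit
  Cfsg.Agent.Lib.GolayKit Cfsg.Agent.Lib.GolayM12 Cfsg.Agent.Lib.GolayFast
  Cfsg.Agent.Lib.GolayFastData Cfsg.Agent.Lib.GolaySets Cfsg.Agent.Lib.GolayMax Cfsg.Agent.Lib.GolayOrbits
  Cfsg.Agent.Lib.GolayFamGens

open Cfsg (GolayPt M24 octads dodecads sextets trios)

theorem s5617 (d : Finset Cfsg.GolayPt) (hd : d ∈ Cfsg.dodecads) : ∃ X₁ ∈ Cfsg.sextets, ∃ X₂ ∈ Cfsg.sextets, ∃ X₃ ∈ Cfsg.sextets, (MulAction.orbit ↥(MulAction.stabilizer Cfsg.M24 ({d, Finset.univ \ d} : Finset (Finset Cfsg.GolayPt))) X₁).ncard = 396 ∧ (MulAction.orbit ↥(MulAction.stabilizer Cfsg.M24 ({d, Finset.univ \ d} : Finset (Finset Cfsg.GolayPt))) X₂).ncard = 495 ∧ (MulAction.orbit ↥(MulAction.stabilizer Cfsg.M24 ({d, Finset.univ \ d} : Finset (Finset Cfsg.GolayPt))) X₃).ncard = 880 ∧ Cfsg.sextets = MulAction.orbit ↥(MulAction.stabilizer Cfsg.M24 ({d, Finset.univ \ d} : Finset (Finset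 Cfsg.GolayPt))) X₁ ∪ MulAction.orbit ↥(MulAction.stabilizer Cfsg.M24 ({d, Finset.univ \ d} : Finset (Finset Cfsg.GolayPt))) X₂ ∪ MulAction.orbit ↥(MulAction.stabilizer Cfsg.M24 ({d, Finset.univ \ d} : Finset (Finset Cfsg.GolayPt))) X₃ := by
  have e : ∀ x : Finset (Finset GolayPt), MulAction.orbit ↥(MulAction.stabilizer M24 ({d, Finset.univ \ d} : Finset (Finset GolayPt))) x = orbS (stabZ ({d, Finset.univ \ d} : Finset (Finset GolayPt))) x :=
    fun x => orbit_stab_eq _ x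
  simp only [e]
  obtain ⟨g, hg, rfl⟩ := exists_map_dodecad dod0_mem_dodecads hd
  have h1 : objOf DPL = ({supFin dod0, Finset.univ \ supFin dod0} : Finset (Finset GolayPt)) := by
    decide +kernel
  have h2 : ({g • supFin dod0, Finset.univ \ (g • supFin dod0)} : Finset (Finset GolayPt)) = g • objOf DPL := by
    have h3 : Finset.univ \ (g • supFin dod0) = g • (Finset.univ \ supFin dod0) := by
      rw [← Finset.compl_eq_univ_sdiff, ← Finset.compl_eq_univ_sdiff, smul_compl]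
    rw [h1, Finset.smul_finset_insert, Finset.smul_finset_singleton, h3]
  rw [h2]
  have hF : ∀ y, y ∈ sextets ↔ g • y ∈ sextets := fun y =>
    ⟨fun h => smul_mem_sextets hg h, fun h => by simpa using smul_mem_sextets (inv_mem hg) h⟩
  have hP := Parts.conj hg hF parts_dpSx
  obtain ⟨a0, a1, a2, n0, n1, n2, hU⟩ := Parts.three hP
  exact ⟨_, a0, _, a1, _, a2, n0, n1, n2, hU⟩

end Cfsg.Agent.Lib.GolayFam
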