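import Mathlib
import Cfsg.Prelude.Def_Sporadic_a
import Cfsg.Prelude.Def_SporadicCombinatorics
import Cfsg.Agent.Lib.GolayMax
import Cfsg.Agent.Lib.GolayOctad

/-!
# The stabilizer of an octad

* `exists_map_octad_subset`: `M24` is transitive on pairs `(s, o)` with `s ⊆ o`, `|s| ≤ 5`.
* `octad_meet_counts`: the last row of the Leech triangle.
* `card_stab_octad`: the order of the stabilizer.
* `image_octad`: the stabilizer induces the alternating group.
* `octad_split`: split extension.
-/

set_option autoImplicit false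
set_option linter.style.haveILetI false
set_option linter.constructorNameAsVariable false

open scoped Pointwise

namespace Cfsg.Agent.Lib.GolayOctStab

open Cfsg Cfsg.Agent.Lib.GolayCode Cfsg.Agent.Lib.GolayFacts Cfsg.Agent.Lib.GolayPerm
  Cfsg.Agent.Lib.GolayChain Cfsg.Agent.Lib.GolayTrans Cfsg.Agent.Lib.GolayOrbit
  Cfsg.Agent.Lib.GolayKit Cfsg.Agent.Lib.GolayM12 Cfsg.Agent.Lib.GolayFast
  Cfsg.Agent.Lib.GolayFastData Cfsg.Agent.Lib.GolaySets Cfsg.Agent.Lib.GolayMax Cfsg.Agent.Lib.GolayOrbits
  Cfsg.Agent.Lib.GolayOctad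

/-- Octads sharing five points are equal. -/
theorem octad_eq_of_five {o o' t : Finset GolayPt} (ho : o ∈ octads) (ho' : o' ∈ octads) (h1 : t ⊆ o) (h2 : t ⊆ o')
    (h3 : t.card = 5) : o = o' := by
  classical
  by_contra hne
  have h4 := card_inter_octads_le ho ho' hne
  have h5 := Finset.card_le_card (Finset.subset_inter h1 h2)
  omega

/-- Transitivity on flags. -/
theorem exists_map_octad_subset {o o0 s s0 : Finset GolayPt} (ho : o ∈ octads) (ho0 : o0 ∈ octads) (hs : s ⊆ o)
    (hs0 : s0 ⊆ o0) (hc : s.card = s0.card) (h5 : s.card ≤ 5) :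
    ∃ g ∈ M24, g • o = o0 ∧ g • s = s0 := by
  classical
  have h8 : 5 ≤ o.card := by rw [ho.2]; omega
  have h80 : 5 ≤ o0.card := by rw [ho0.2]; omega
  have h50 : s0.card ≤ 5 := by rw [← hc]; exact h5
  obtain ⟨t, hst, hto, htc⟩ := Finset.exists_subsuperset_card_eq hs h5 h8
  obtain ⟨t0, hst0, hto0, htc0⟩ := Finset.exists_subsuperset_card_eq hs0 h50 h80
  let l := s.toList ++ (t \ s).toList
  let l0 := s0.toList ++ (t0 \ s0).toList
  have hdis : ∀ (a b : Finset GolayPt), (a.toList ++ (b \ a).toList).Nodup := by
    intro a b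
    refine List.nodup_append.mpr ⟨Finset.nodup_toList _, Finset.nodup_toList _, ?_⟩
    intro x hx y hy hxy
    subst hxy
    simp only [Finset.mem_toList, Finset.mem_sdiff] at hx hy
    exact hy.2 hx
  have hlen : ∀ (a b : Finset GolayPt), a ⊆ b → (a.toList ++ (b \ a).toList).length = b.card := by
    intro a b hab
    rw [List.length_append, Finset.length_toList, Finset.length_toList, Finset.card_sdiff_of_subset hab]
    have := Finset.card_le_card hab
    omega
  have hl : l.length = 5 := by rw [hlen s t hst, htc]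
  have hl0 : l0.length = 5 := by rw [hlen s0 t0 hst0, htc0]
  obtain ⟨g, hg, he⟩ := exists_map_lists (hdis s t) (hdis s0 t0) (by rw [hl, hl0]) (by rw [hl])
  have hsplit : (s.toList.map g) ++ ((t \ s).toList.map g) = s0.toList ++ (t0 \ s0).toList := by
    rw [← List.map_append]
    exact he
  have hsl : s.toList.map g = s0.toList :=
    (List.append_inj hsplit (by simp [hc])).1
  have hgs : g • s = s0 := by
    have h1 := smul_toFinset g s.toList
    rw [Finset.toList_toFinset, hsl, Finset.toList_toFinset] at h1
    exact h1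
  have hgt : g • t = t0 := by
    have hT : ∀ (a b : Finset GolayPt), a ⊆ b → (a.toList ++ (b \ a).toList).toFinset = b := by
      intro a b hab
      ext x
      simp only [List.mem_toFinset, List.mem_append, Finset.mem_toList, Finset.mem_sdiff]
      constructor
      · rintro (h | h)
        · exact hab h
        · exact h.1
      · intro h
        by_cases hx : x ∈ a
        · exact Or.inl hx
        · exact Or.inr ⟨h, hx⟩
    have h1 := smul_toFinset g l
    rw [hT s t hst, he, hT s0 t0 hst0] at h1
    exact h1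
  refine ⟨g, hg, ?_, hgs⟩
  apply octad_eq_of_five (smul_mem_octads hg ho) ho0 (t := t0) _ hto0 htc0
  rw [← hgt]
  exact Finset.smul_finset_subset_smul_finset_iff.mpr hto

theorem smul_inter_eq {g : Equiv.Perm GolayPt} (a b c : Finset GolayPt) : a ∩ b = c ↔ g • a ∩ g • b = g • c := by
  rw [← Finset.smul_finset_inter]
  exact (MulAction.injective (β := Finset GolayPt) g).eq_iff.symm

/-- Transport of the count of the octads meeting an octad in a given set. -/
theorem ncard_meet_transport {g : Equiv.Perm GolayPt} (hg : g ∈ M24) (o s : Finset GolayPt) :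
    {o' : Finset GolayPt | o' ∈ octads ∧ (g • o) ∩ o' = g • s}.ncard =
      {o' : Finset GolayPt | o' ∈ octads ∧ o ∩ o' = s}.ncard := by
  refine ncard_transport g _ _ ?_
  intro U
  constructor
  · rintro ⟨h1, h2⟩
    exact ⟨smul_mem_octads hg h1, (smul_inter_eq _ _ _).mp h2⟩
  · rintro ⟨h1, h2⟩
    refine ⟨?_, (smul_inter_eq _ _ _).mpr h2⟩
    simpa using smul_mem_octads (inv_mem hg) h1

/-- Count of the octads meeting `octad0` in a prescribed set. -/
theorem base_count (m0 : ℕ) (h0 : m0 < 2 ^ 24) :
    {o' : Finset GolayPt | o' ∈ octads ∧ supFin octad0 ∩ o' = supFin m0}.ncard =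
      (octadsL.filter fun m => octad0 &&& m == m0).length := by
  refine ncard_octads_filter (fun b => supFin octad0 ∩ b = supFin m0) _ ?_
  intro m hm
  have hlt : m < 2 ^ 24 := by
    have := List.all_eq_true.mp octadsL_lt m hm
    simpa using this
  have hand : octad0 &&& m < 2 ^ 24 := lt_of_le_of_lt Nat.and_le_right hlt
  have he : supFin octad0 ∩ supFin m = supFin (octad0 &&& m) := by
    ext p
    rw [Finset.mem_inter, mem_supFin_and]
  rw [he, beq_iff_eq]
  exact ⟨supFin_injOn hand h0, fun h => by rw [h]⟩

theorem base_count_2 : {o' : Finset GolayPt | o' ∈ octads ∧ supFin octad0 ∩ o' = supFin 8388609}.ncard = 16 := by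
  rw [base_count _ (by norm_num)]
  decide +kernel

theorem base_count_4 : {o' : Finset GolayPt | o' ∈ octads ∧ supFin octad0 ∩ o' = supFin 8388615}.ncard = 4 := by
  rw [base_count _ (by norm_num)]
  decide +kernel

/-- Bottom row of the Leech triangle. -/
theorem meet_counts {o s : Finset GolayPt} (ho : o ∈ octads) (hs : s ⊆ o) :
    (s.card = 2 → {o' : Finset GolayPt | o' ∈ octads ∧ o ∩ o' = s}.ncard = 16) ∧
      (s.card = 4 → {o' : Finset GolayPt | o' ∈ octads ∧ o ∩ o' = s}.ncard = 4) := by
  constructor
  · intro h2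
    obtain ⟨g, hg, h1, h3⟩ := exists_map_octad_subset ho GolayChain.octad0_mem hs (s0 := supFin 8388609)
      (by decide +kernel) (by rw [h2]; decide +kernel) (by omega)
    rw [← ncard_meet_transport hg o s, h1, h3]
    exact base_count_2
  · intro h2
    obtain ⟨g, hg, h1, h3⟩ := exists_map_octad_subset ho GolayChain.octad0_mem hs (s0 := supFin 8388615)
      (by decide +kernel) (by rw [h2]; decide +kernel) (by omega)
    rw [← ncard_meet_transport hg o s, h1, h3]
    exact base_count_4

end Cfsg.Agent.Lib.GolayOctStab
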