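import Mathlib
import Cfsg.Prelude.Def_Sporadic_a
import Cfsg.Prelude.Def_SporadicCombinatorics
import Cfsg.Agent.Lib.GolayOctStab

/-!
# The stabilizer of an octad: order, image and complement
-/

set_option autoImplicit false
set_option linter.style.haveILetI false
set_option linter.constructorNameAsVariable false

open scoped Pointwise

namespace Cfsg.Agent.Lib.GolayOctStab

open Cfsg Cfsg.Agent.Lib.GolayCode Cfsg.Agent.Lib.GolayFacts Cfsg.Agent.Lib.GolayPerm
  Cfsg.Agent.Lib.GolayChain Cfsg.Agent.Lib.GolayTrans Cfsg.Agent.Lib.GolayOrbit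
  Cfsg.Agent.Lib.GolayKit Cfsg.Agent.Lib.GolayM12 Cfsg.Agent.Lib.GolayFast
  Cfsg.Agent.Lib.GolayFastData Cfsg.Agent.Lib.GolaySets Cfsg.Agent.Lib.GolayMax Cfsg.Agent.Lib.GolayOrbits
  Cfsg.Agent.Lib.GolayOctad

/-- The order of an octad stabilizer, inside `M24`. -/
theorem card_stabilizer_octad {o : Finset GolayPt} (ho : o ∈ octads) :
    Nat.card (MulAction.stabilizer M24 o) = 322560 := by
  classical
  have h1 : Nat.card (MulAction.orbit M24 o) = 759 := by
    have : MulAction.orbit M24 o = octads := by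
      ext d'
      constructor
      · rintro ⟨g, rfl⟩
        exact smul_mem_octads g.2 ho
      · intro hd'
        obtain ⟨g, hg, h⟩ := exists_map_octad ho hd'
        exact ⟨⟨g, hg⟩, h⟩
    rw [this]
    exact ncard_octads
  have h2 := Nat.card_congr (MulAction.orbitProdStabilizerEquivGroup M24 o)
  rw [Nat.card_prod, h1, card_M24] at h2
  omega

/-- The stabilizer as a subgroup of the permutations. -/
abbrev stabO (o : Finset GolayPt) : Subgroup (Equiv.Perm GolayPt) :=
  M24 ⊓ MulAction.stabilizer (Equiv.Perm GolayPt) o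

theorem mem_stabO {o : Finset GolayPt} {g : Equiv.Perm GolayPt} : g ∈ stabO o ↔ g ∈ M24 ∧ g • o = o := by
  simp only [stabO, Subgroup.mem_inf, MulAction.mem_stabilizer_iff]

theorem card_stabO {o : Finset GolayPt} (ho : o ∈ octads) : Nat.card (stabO o) = 322560 := by
  rw [← card_stabilizer_octad ho]
  refine Nat.card_congr ⟨fun g => ⟨⟨g.1, (mem_stabO.mp g.2).1⟩, (mem_stabO.mp g.2).2⟩,
    fun g => ⟨g.1.1, mem_stabO.mpr ⟨g.1.2, g.2⟩⟩, fun g => rfl, fun g => rfl⟩

theorem stabO_mem_iff {o : Finset GolayPt} {g : Equiv.Perm GolayPt} (hg : g ∈ stabO o) (x : GolayPt) :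
    g x ∈ o ↔ x ∈ o := by
  have h := (mem_stabO.mp hg).2
  constructor
  · intro hx
    rw [← h] at hx
    obtain ⟨y, hy, hye⟩ := Finset.mem_smul_finset.mp hx
    rw [← g.injective hye]
    exact hy
  · intro hx
    rw [← h]
    exact Finset.mem_smul_finset.mpr ⟨x, hx, rfl⟩

/-- The restriction to the octad. -/
def rest (o : Finset GolayPt) : ↥(stabO o) →* Equiv.Perm ↥o where
  toFun g := g.1.subtypePerm (stabO_mem_iff g.2)
  map_one' := by
    ext x
    rfl
  map_mul' g h := by
    ext x
    rfl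

@[simp] theorem rest_apply (o : Finset GolayPt) (g : ↥(stabO o)) (x : ↥o) : (rest o g x : GolayPt) = g.1 x := rfl

theorem rest_ker (o : Finset GolayPt) (g : ↥(stabO o)) : g ∈ (rest o).ker ↔ g.1 ∈ fixS o := by
  rw [MonoidHom.mem_ker, mem_fixS]
  constructor
  · intro h
    refine ⟨(mem_stabO.mp g.2).1, fun p hp => ?_⟩
    have := congrArg (fun e : Equiv.Perm ↥o => (e ⟨p, hp⟩ : GolayPt)) h
    simpa using this
  · intro h
    refine Equiv.ext fun x => Subtype.ext ?_
    exact h.2 x.1 x.2

theorem card_rest_ker {o : Finset GolayPt} (ho : o ∈ octads) : Nat.card (rest o).ker = 16 := by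
  rw [← (fixS_octad ho).1]
  refine Nat.card_congr ⟨fun g => ⟨g.1.1, (rest_ker o g.1).mp g.2⟩, fun g =>
    ⟨⟨g.1, mem_stabO.mpr ⟨(mem_fixS.mp g.2).1, ?_⟩⟩, (rest_ker o _).mpr g.2⟩, fun g => rfl, fun g => rfl⟩
  obtain ⟨h1, h2⟩ := mem_fixS.mp g.2
  ext x
  constructor
  · intro hx
    obtain ⟨y, hy, hye⟩ := Finset.mem_smul_finset.mp hx
    rw [← hye, Equiv.Perm.smul_def, h2 y hy]
    exact hy
  · intro hx
    exact Finset.mem_smul_finset.mpr ⟨x, hx, h2 x hx⟩

theorem range_rest_eq {o : Finset GolayPt} (ho : o ∈ octads) : (rest o).range = alternatingGroup ↥o := by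
  classical
  apply Equiv.Perm.eq_alternatingGroup_of_index_eq_two
  have h1 : Nat.card (rest o).range = 20160 := by
    have h2 := Subgroup.card_mul_index (rest o).ker
    rw [Subgroup.index_ker, card_rest_ker ho, card_stabO ho] at h2
    omega
  have h3 := Subgroup.card_mul_index (rest o).range
  rw [h1, Nat.card_perm] at h3
  have h4 : Nat.card ↥o = 8 := by
    rw [Nat.card_eq_fintype_card, Fintype.card_coe]
    exact ho.2
  rw [h4] at h3
  have h5 : Nat.factorial 8 = 40320 := by decide
  rw [h5] at h3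
  omega

/-- The stabilizer induces the alternating group: the set-level statement. -/
theorem image_octad {o : Finset GolayPt} (ho : o ∈ octads) :
    {e : Equiv.Perm ↥o | ∃ g : Equiv.Perm GolayPt, g ∈ M24 ∧ ∃ h : (∀ x, g x ∈ o ↔ x ∈ o), g.subtypePerm h = e} =
      (alternatingGroup ↥o : Set (Equiv.Perm ↥o)) := by
  rw [← range_rest_eq ho]
  ext e
  constructor
  · rintro ⟨g, hg, h, rfl⟩
    have hgo : g ∈ stabO o := by
      refine mem_stabO.mpr ⟨hg, ?_⟩
      ext x
      constructor
      · intro hx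
        obtain ⟨y, hy, hye⟩ := Finset.mem_smul_finset.mp hx
        rw [← hye]
        exact (h y).mpr hy
      · intro hx
        have : g (g⁻¹ x) ∈ o := by simpa using hx
        exact Finset.mem_smul_finset.mpr ⟨g⁻¹ x, (h _).mp this, by simp⟩
    exact ⟨⟨g, hgo⟩, rfl⟩
  · rintro ⟨g, rfl⟩
    exact ⟨g.1, (mem_stabO.mp g.2).1, stabO_mem_iff g.2, rfl⟩

/-- Nonidentity elements of the pointwise stabilizer of `octad0` fix no point outside. -/
theorem octadFixL_free : GolayOctadData.octadFixL.all (fun t =>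
    allBelow (fun i => img t i == i) 24 ||
      allBelow (fun x => octad0.testBit x || img t x != x) 24) = true := by
  decide +kernel

theorem eq_one_of_fix_octad0 {g : Equiv.Perm GolayPt} (hg : g ∈ fixS (supFin octad0)) {p : GolayPt}
    (hp : p ∉ supFin octad0) (h : g p = p) : g = 1 := by
  obtain ⟨t, ht, rfl⟩ := exists_of_mem_fixS hg
  have h1 := List.all_eq_true.mp octadFixL_free t ht
  have hA := List.all_eq_true.mp octadFixChk_all t ht
  simp only [octadFixChk, Bool.and_eq_true] at hA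
  obtain ⟨⟨h2, -⟩, -⟩ := hA
  rw [Bool.or_eq_true] at h1
  rcases h1 with h1 | h1
  · refine Equiv.ext fun x => ?_
    have hx := allBelow_spec h1 _ (ptIdx_lt x)
    have h3 := ptIdx_toPerm (isAut_valid h2) (isAut_inRange h2) x
    rw [beq_iff_eq] at hx
    apply ptIdx_injective
    rw [h3, hx]
    rfl
  · exfalso
    have hx := allBelow_spec h1 _ (ptIdx_lt p)
    have hpb : octad0.testBit (ptIdx p) = false := by
      by_contra hc
      exact hp (mem_supFin.mpr (by simpa using hc))
    rw [hpb, Bool.false_or, bne_iff_ne] at hx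
    apply hx
    have h3 := ptIdx_toPerm (isAut_valid h2) (isAut_inRange h2) p
    rw [← h3, h]

/-- Only the identity fixes an octad pointwise and a point outside it. -/
theorem eq_one_of_fix_octad {o : Finset GolayPt} (ho : o ∈ octads) {g : Equiv.Perm GolayPt} (hg : g ∈ fixS o)
    {p : GolayPt} (hp : p ∉ o) (h : g p = p) : g = 1 := by
  obtain ⟨k, hk, rfl⟩ := exists_map_octad GolayChain.octad0_mem ho
  have h1 : k⁻¹ * g * k ∈ fixS (supFin octad0) := by
    rw [conj_mem_fixS_iff hk]
    have : k * (k⁻¹ * g * k) * k⁻¹ = g := by group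
    rw [this]
    exact hg
  have h2 : k⁻¹ p ∉ supFin octad0 := by
    intro hc
    exact hp (Finset.mem_smul_finset.mpr ⟨_, hc, by simp⟩)
  have h3 := eq_one_of_fix_octad0 h1 h2 (by simp [h])
  have h4 : g = k * (k⁻¹ * g * k) * k⁻¹ := by group
  rw [h4, h3]
  group

/-- The pointwise stabilizer is transitive on the outside points. -/
theorem fixS_trans {o : Finset GolayPt} (ho : o ∈ octads) {p q : GolayPt} (hp : p ∉ o) (hq : q ∉ o) :
    ∃ f ∈ fixS o, f p = q := by
  classical
  -- the map from the group to the outside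
  let O : Finset GolayPt := Finset.univ \ o
  have hO : O.card = 16 := by
    rw [Finset.card_sdiff_of_subset (Finset.subset_univ _), ho.2]
    rfl
  have hfo : ∀ f ∈ fixS o, f p ∈ O := by
    intro f hf
    simp only [O, Finset.mem_sdiff, Finset.mem_univ, true_and]
    intro hc
    apply hp
    have := (mem_fixS.mp hf).2 _ hc
    exact (f.injective this) ▸ hc
  let m : ↥(fixS o) → ↥O := fun f => ⟨f.1 p, hfo f.1 f.2⟩
  have hinj : Function.Injective m := by
    intro f f' he
    have h1 : f.1 p = f'.1 p := congrArg Subtype.val he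
    have h2 : f'.1⁻¹ * f.1 = 1 := by
      apply eq_one_of_fix_octad ho (mul_mem (inv_mem f'.2) f.2) hp
      simp [h1]
    have h3 : f.1 = f'.1 := by
      rw [inv_mul_eq_one] at h2
      exact h2.symm
    exact Subtype.ext h3
  have hbij : Function.Bijective m := by
    apply (Nat.bijective_iff_injective_and_card m).mpr ⟨hinj, ?_⟩
    rw [(fixS_octad ho).1, Nat.card_eq_fintype_card, Fintype.card_coe, hO]
  obtain ⟨f, hf⟩ := hbij.2 ⟨q, by simp [O, hq]⟩
  exact ⟨f.1, f.2, congrArg Subtype.val hf⟩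

/-- The complement. -/
abbrev compO (o : Finset GolayPt) (p : GolayPt) : Subgroup (Equiv.Perm GolayPt) :=
  M24 ⊓ MulAction.stabilizer (Equiv.Perm GolayPt) o ⊓ MulAction.stabilizer (Equiv.Perm GolayPt) p

theorem mem_compO {o : Finset GolayPt} {p : GolayPt} {g : Equiv.Perm GolayPt} :
    g ∈ compO o p ↔ g ∈ stabO o ∧ g p = p := by
  simp only [compO, stabO, Subgroup.mem_inf, MulAction.mem_stabilizer_iff, Equiv.Perm.smul_def]

theorem fixS_le_stabO (o : Finset GolayPt) : fixS o ≤ stabO o := by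
  intro f hf
  obtain ⟨h1, h2⟩ := mem_fixS.mp hf
  refine mem_stabO.mpr ⟨h1, ?_⟩
  ext x
  constructor
  · intro hx
    obtain ⟨y, hy, hye⟩ := Finset.mem_smul_finset.mp hx
    rw [← hye, Equiv.Perm.smul_def, h2 y hy]
    exact hy
  · intro hx
    exact Finset.mem_smul_finset.mpr ⟨x, hx, h2 x hx⟩

theorem inf_eq_bot {o : Finset GolayPt} (ho : o ∈ octads) {p : GolayPt} (hp : p ∉ o) :
    fixS o ⊓ compO o p = ⊥ := by
  rw [eq_bot_iff]
  rintro g ⟨h1, h2⟩
  exact Subgroup.mem_bot.mpr (eq_one_of_fix_octad ho h1 hp (mem_compO.mp h2).2)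

theorem exists_factor {o : Finset GolayPt} (ho : o ∈ octads) {p : GolayPt} (hp : p ∉ o) {g : Equiv.Perm GolayPt}
    (hg : g ∈ stabO o) : ∃ f ∈ fixS o, f⁻¹ * g ∈ compO o p := by
  have hgp : g p ∉ o := fun hc => hp ((stabO_mem_iff hg p).mp hc)
  obtain ⟨f, hf, hfe⟩ := fixS_trans ho hp hgp
  refine ⟨f, hf, mem_compO.mpr ⟨mul_mem (inv_mem (fixS_le_stabO o hf)) hg, ?_⟩⟩
  simp [← hfe]

theorem sup_eq {o : Finset GolayPt} (ho : o ∈ octads) {p : GolayPt} (hp : p ∉ o) :
    fixS o ⊔ compO o p = stabO o := by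
  apply le_antisymm
  · refine sup_le (fixS_le_stabO o) ?_
    intro g hg
    exact (mem_compO.mp hg).1
  · intro g hg
    obtain ⟨f, hf, hc⟩ := exists_factor ho hp hg
    have : g = f * (f⁻¹ * g) := by group
    rw [this]
    exact mul_mem (Subgroup.mem_sup_left hf) (Subgroup.mem_sup_right hc)

/-- The restriction of the complement. -/
def restC (o : Finset GolayPt) (p : GolayPt) : ↥(compO o p) →* Equiv.Perm ↥o :=
  (rest o).comp (Subgroup.inclusion (fun _ h => (mem_compO.mp h).1))

theorem restC_inj {o : Finset GolayPt} (ho : o ∈ octads) {p : GolayPt} (hp : p ∉ o) :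
    Function.Injective (restC o p) := by
  rw [injective_iff_map_eq_one]
  rintro ⟨g, hg⟩ h
  have h1 : (⟨g, (mem_compO.mp hg).1⟩ : ↥(stabO o)) ∈ (rest o).ker := h
  rw [rest_ker] at h1
  exact Subtype.ext (eq_one_of_fix_octad ho h1 hp (mem_compO.mp hg).2)

theorem range_restC {o : Finset GolayPt} (ho : o ∈ octads) {p : GolayPt} (hp : p ∉ o) :
    (restC o p).range = alternatingGroup ↥o := by
  rw [← range_rest_eq ho]
  apply le_antisymm
  · rintro _ ⟨g, rfl⟩
    exact ⟨_, rfl⟩
  · rintro _ ⟨g, rfl⟩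
    obtain ⟨f, hf, hc⟩ := exists_factor ho hp g.2
    refine ⟨⟨_, hc⟩, ?_⟩
    have h1 : rest o ⟨f⁻¹ * g.1, (mem_compO.mp hc).1⟩ = rest o g := by
      refine Equiv.ext fun x => Subtype.ext ?_
      have h2 := (mem_fixS.mp (inv_mem hf)).2
      simp only [rest_apply, Equiv.Perm.coe_mul, Function.comp_apply]
      apply h2
      exact (stabO_mem_iff g.2 _).mpr x.2
    exact h1

/-- The complement is the alternating group of degree 8. -/
theorem compO_equiv {o : Finset GolayPt} (ho : o ∈ octads) {p : GolayPt} (hp : p ∉ o) :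
    Nonempty (↥(compO o p) ≃* alternatingGroup (Fin 8)) := by
  classical
  have e1 : ↥(compO o p) ≃* (restC o p).range := MonoidHom.ofInjective (restC_inj ho hp)
  have e2 : (restC o p).range ≃* alternatingGroup ↥o := MulEquiv.subgroupCongr (range_restC ho hp)
  have hc : Fintype.card ↥o = 8 := by
    rw [Fintype.card_coe]
    exact ho.2
  exact ⟨(e1.trans e2).trans (Equiv.altCongrHom (Fintype.equivFinOfCardEq hc))⟩

end Cfsg.Agent.Lib.GolayOctStab
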