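import Mathlib
import Cfsg.Prelude.Def_Sporadic_a
import Cfsg.Prelude.Def_SporadicCombinatorics
import Cfsg.Agent.Lib.GolayOctStab2
import Cfsg.Agent.Lib.GolayFlagData

/-!
# Orbits of stabilizers of flags
-/

set_option autoImplicit false
set_option linter.style.haveILetI false
set_option linter.constructorNameAsVariable false
set_option maxRecDepth 100000

open scoped Pointwise

namespace Cfsg.Agent.Lib.GolayFlag

open Cfsg Cfsg.Agent.Lib.GolayCode Cfsg.Agent.Lib.GolayFacts Cfsg.Agent.Lib.GolayPerm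
  Cfsg.Agent.Lib.GolayChain Cfsg.Agent.Lib.GolayTrans Cfsg.Agent.Lib.GolayOrbit
  Cfsg.Agent.Lib.GolayKit Cfsg.Agent.Lib.GolayM12 Cfsg.Agent.Lib.GolayFast
  Cfsg.Agent.Lib.GolayFastData Cfsg.Agent.Lib.GolaySets Cfsg.Agent.Lib.GolayMax Cfsg.Agent.Lib.GolayOrbits
  Cfsg.Agent.Lib.GolayOctad Cfsg.Agent.Lib.GolayOctStab Cfsg.Agent.Lib.GolayFlagData

/-- The stabilizer of several masks. -/
def stabML (ms : List ℕ) : Subgroup (Equiv.Perm GolayPt) where
  carrier := {g | g ∈ M24 ∧ ∀ m ∈ ms, g • supFin m = supFin m}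
  one_mem' := ⟨one_mem _, fun m _ => one_smul _ _⟩
  mul_mem' := fun {a b} ha hb => ⟨mul_mem ha.1 hb.1, fun m hm => by rw [mul_smul, hb.2 m hm, ha.2 m hm]⟩
  inv_mem' := fun {a} ha => ⟨inv_mem ha.1, fun m hm => by rw [inv_smul_eq_iff, ha.2 m hm]⟩

theorem stabML_le (ms : List ℕ) : stabML ms ≤ M24 := fun _ h => h.1

/-- The check of generators. -/
def genOK (ms : List ℕ) (gens : List (List ℕ)) : Bool :=
  gens.all fun t => isAut t && ms.all fun m => permMask t m == m

theorem genOK_spec {ms : List ℕ} {gens : List (List ℕ)} (h : genOK ms gens = true) :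
    ∀ π ∈ gens, validPerm π = true ∧ inRange π = true ∧ toPerm π ∈ stabML ms := by
  intro π hπ
  have h1 := List.all_eq_true.mp h π hπ
  simp only [Bool.and_eq_true, List.all_eq_true, beq_iff_eq] at h1
  refine ⟨isAut_valid h1.1, isAut_inRange h1.1, toPerm_mem_M24 h1.1, fun m hm => ?_⟩
  rw [smul_supFin (isAut_valid h1.1) (isAut_inRange h1.1), h1.2 m hm]

theorem same_flag {ms : List ℕ} {gens : List (List ℕ)} {F : List ℕ} {cs : List ClassCert} (hgen : genOK ms gens = true)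
    (hF : ∀ m ∈ F, isCode m = true) {m0 : ℕ} (hcs : classesOK gens (fun m => hwF (m &&& m0)) F cs = true) {a b : ℕ}
    (ha : a ∈ F) (hb : b ∈ F) (hab : (supFin m0 ∩ supFin a).card = (supFin m0 ∩ supFin b).card) :
    ∃ h ∈ stabML ms, h • supFin a = supFin b := by
  refine same_class (stabML_le ms) (genOK_spec hgen) hF hcs ha hb ?_
  rw [Finset.inter_comm, Finset.inter_comm _ (supFin b), card_supFin_inter, card_supFin_inter] at hab
  simpa only [hwF_eq] using hab

/-- The class certificates for constant invariant. -/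
theorem same_flag_const {ms : List ℕ} {gens : List (List ℕ)} {F : List ℕ} {cs : List ClassCert} (hgen : genOK ms gens = true)
    (hF : ∀ m ∈ F, isCode m = true) (hcs : classesOK gens (fun _ => 0) F cs = true) {a b : ℕ}
    (ha : a ∈ F) (hb : b ∈ F) : ∃ h ∈ stabML ms, h • supFin a = supFin b :=
  same_class (stabML_le ms) (genOK_spec hgen) hF hcs ha hb rfl

theorem supFin_1 : supFin 1 = {idxPt 0} := by decide +kernel

theorem supFin_2 : supFin 2 = {idxPt 1} := by decide +kernel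

theorem supFin_16 : supFin 16 = {idxPt 4} := by decide +kernel

theorem fix_of_smul_singleton {h : Equiv.Perm GolayPt} {p : GolayPt} {m : ℕ} (he : supFin m = {p})
    (hs : h • supFin m = supFin m) : h p = p := by
  rw [he, Finset.smul_finset_singleton, Finset.singleton_inj] at hs
  exact hs

theorem conj_apply_fix {k h : Equiv.Perm GolayPt} {z : GolayPt} (hz : h z = z) : (k * h * k⁻¹) (k z) = k z := by
  simp [hz]

theorem conj_smul_fix {k h : Equiv.Perm GolayPt} {A : Finset GolayPt} (hz : h • A = A) : (k * h * k⁻¹) • (k • A) = k • A := by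
  simp only [mul_smul, inv_smul_smul, hz]

theorem mem_smul_pt {k : Equiv.Perm GolayPt} {z : GolayPt} {U : Finset GolayPt} : k z ∈ k • U ↔ z ∈ U := by
  rw [Finset.mem_smul_finset]
  constructor
  · rintro ⟨y, hy, he⟩
    rw [← k.injective he]
    exact hy
  · intro h
    exact ⟨z, h, rfl⟩

theorem card_inter_smul (k : Equiv.Perm GolayPt) (A U : Finset GolayPt) : (k • A ∩ k • U).card = (A ∩ U).card := by
  rw [← Finset.smul_finset_inter, card_smul]

theorem mem_idx0 {m : ℕ} : idxPt 0 ∈ supFin m ↔ m.testBit 0 = true := by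
  rw [mem_supFin, ptIdx_idxPt (by norm_num)]

theorem mem_idx1 {m : ℕ} : idxPt 1 ∈ supFin m ↔ m.testBit 1 = true := by
  rw [mem_supFin, ptIdx_idxPt (by norm_num)]

theorem mem_idx4 {m : ℕ} : idxPt 4 ∈ supFin m ↔ m.testBit 4 = true := by
  rw [mem_supFin, ptIdx_idxPt (by norm_num)]

theorem card_inter_masks (a m : ℕ) : (supFin a ∩ supFin m).card = hwF (a &&& m) := by
  rw [card_supFin_inter, hwF_eq]

/-! ### Flags -/

/-- Extension of lists inside octads. -/
theorem exists_map_octad_list {o o0 : Finset GolayPt} (ho : o ∈ octads) (ho0 : o0 ∈ octads) {l l0 : List GolayPt}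
    (hl : l.Nodup) (hl0 : l0.Nodup) (hs : ∀ p ∈ l, p ∈ o) (hs0 : ∀ p ∈ l0, p ∈ o0) (hlen : l.length = l0.length)
    (h5 : l.length ≤ 5) : ∃ g ∈ M24, g • o = o0 ∧ l.map g = l0 := by
  classical
  have hsub : l.toFinset ⊆ o := fun p hp => hs p (List.mem_toFinset.mp hp)
  have hsub0 : l0.toFinset ⊆ o0 := fun p hp => hs0 p (List.mem_toFinset.mp hp)
  have hc : l.toFinset.card = l.length := List.toFinset_card_of_nodup hl
  have hc0 : l0.toFinset.card = l0.length := List.toFinset_card_of_nodup hl0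
  have h8 : 5 ≤ o.card := by rw [ho.2]; omega
  have h80 : 5 ≤ o0.card := by rw [ho0.2]; omega
  obtain ⟨t, hst, hto, htc⟩ := Finset.exists_subsuperset_card_eq hsub (by omega) h8
  obtain ⟨t0, hst0, hto0, htc0⟩ := Finset.exists_subsuperset_card_eq hsub0 (by omega) h80
  have hext : ∀ (a : List GolayPt) (b : Finset GolayPt), a.Nodup → a.toFinset ⊆ b →
      (a ++ (b \ a.toFinset).toList).Nodup ∧ (a ++ (b \ a.toFinset).toList).length = b.card ∧
        (a ++ (b \ a.toFinset).toList).toFinset = b := by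
    intro a b ha hab
    refine ⟨List.nodup_append.mpr ⟨ha, Finset.nodup_toList _, ?_⟩, ?_, ?_⟩
    · intro x hx y hy hxy
      subst hxy
      simp only [Finset.mem_toList, Finset.mem_sdiff, List.mem_toFinset] at hy
      exact hy.2 hx
    · rw [List.length_append, Finset.length_toList, Finset.card_sdiff_of_subset hab,
        List.toFinset_card_of_nodup ha]
      have := Finset.card_le_card hab
      rw [List.toFinset_card_of_nodup ha] at this
      omega
    · ext x
      simp only [List.mem_toFinset, List.mem_append, Finset.mem_toList, Finset.mem_sdiff]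
      constructor
      · rintro (h | h)
        · exact hab (List.mem_toFinset.mpr h)
        · exact h.1
      · intro h
        by_cases hx : x ∈ a
        · exact Or.inl hx
        · exact Or.inr ⟨h, hx⟩
  obtain ⟨n1, l1, e1⟩ := hext l t hl hst
  obtain ⟨n2, l2, e2⟩ := hext l0 t0 hl0 hst0
  obtain ⟨g, hg, he⟩ := exists_map_lists n1 n2 (by rw [l1, l2, htc, htc0]) (by rw [l1, htc])
  have hsplit : (l.map g) ++ ((t \ l.toFinset).toList.map g) = l0 ++ (t0 \ l0.toFinset).toList := by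
    rw [← List.map_append]
    exact he
  have hsl : l.map g = l0 := (List.append_inj hsplit (by simp [hlen])).1
  have hgt : g • t = t0 := by
    have h1 := smul_toFinset g (l ++ (t \ l.toFinset).toList)
    rw [e1, he, e2] at h1
    exact h1
  refine ⟨g, hg, ?_, hsl⟩
  apply octad_eq_of_five (smul_mem_octads hg ho) ho0 (t := t0) _ hto0 htc0
  rw [← hgt]
  exact Finset.smul_finset_subset_smul_finset_iff.mpr hto

/-- The direction from the base. -/
theorem exists_from_octad0 {o : Finset GolayPt} (ho : o ∈ octads) {l l0 : List GolayPt}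
    (hl : l.Nodup) (hl0 : l0.Nodup) (hs : ∀ p ∈ l, p ∈ o) (hs0 : ∀ p ∈ l0, p ∈ supFin octad0) (hlen : l.length = l0.length)
    (h5 : l.length ≤ 5) : ∃ k ∈ M24, k • supFin octad0 = o ∧ l0.map k = l := by
  obtain ⟨g, hg, h1, h2⟩ := exists_map_octad_list ho GolayChain.octad0_mem hl hl0 hs hs0 hlen h5
  refine ⟨g⁻¹, inv_mem hg, ?_, ?_⟩
  · rw [inv_smul_eq_iff, h1]
  · rw [← h2, List.map_map]
    simp

/-! ### The point and an octad through it -/

def cls7 : List ClassCert := [(8, f7Root8, f7Cert8), (4, f7Root4, f7Cert4), (2, f7Root2, f7Cert2)]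

def F7 : List ℕ := octadsL.filter fun m => m.testBit 0

theorem gens7_ok : genOK [1, octad0] gens7 = true := by decide +kernel

theorem cls7_ok : classesOK gens7 (fun m => hwF (m &&& octad0)) F7 cls7 = true := by decide +kernel

theorem count7_2 : (octadsL.filter fun m => m.testBit 0 && Nat.beq (hwF (octad0 &&& m)) 2).length = 112 := by
  decide +kernel

theorem count7_4 : (octadsL.filter fun m => m.testBit 0 && Nat.beq (hwF (octad0 &&& m)) 4).length = 140 := by
  decide +kernel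

theorem s1607 (x : GolayPt) (o : Finset GolayPt) (ho : o ∈ octads) (hx : x ∈ o) :
    {o' : Finset GolayPt | o' ∈ octads ∧ x ∈ o' ∧ (o ∩ o').card = 2}.ncard = 112 ∧
    {o' : Finset GolayPt | o' ∈ octads ∧ x ∈ o' ∧ (o ∩ o').card = 4}.ncard = 140 ∧
    ∀ o' o'' : Finset GolayPt, o' ∈ octads → o'' ∈ octads → x ∈ o' → x ∈ o'' → (o ∩ o').card = (o ∩ o'').card →
      ∃ g : Equiv.Perm GolayPt, g ∈ M24 ∧ g x = x ∧ g • o = o ∧ g • o' = o'' := by
  obtain ⟨k, hk, rfl, hkl⟩ := exists_from_octad0 ho (l := [x]) (l0 := [idxPt 0]) (by simp) (by simp)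
    (by simpa using hx) (by decide +kernel) rfl (by norm_num)
  simp only [List.map_cons, List.map_nil, List.cons.injEq, and_true] at hkl
  subst hkl
  have hcount : ∀ n : ℕ, {o' : Finset GolayPt | o' ∈ octads ∧ k (idxPt 0) ∈ o' ∧ (k • supFin octad0 ∩ o').card = n}.ncard =
      (octadsL.filter fun m => m.testBit 0 && Nat.beq (hwF (octad0 &&& m)) n).length := by
    intro n
    rw [ncard_transport k {U | U ∈ octads ∧ idxPt 0 ∈ U ∧ (supFin octad0 ∩ U).card = n} _ ?_]
    · refine ncard_octads_filter (fun b => idxPt 0 ∈ b ∧ (supFin octad0 ∩ b).card = n) _ ?_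
      intro m _
      rw [mem_idx0, card_inter_masks, Bool.and_eq_true, Nat.beq_eq]
    · intro U
      simp only [Set.mem_ofPred_eq, mem_smul_pt, card_inter_smul]
      exact and_congr_left fun _ => ⟨smul_mem_octads hk, fun h => by simpa using smul_mem_octads (inv_mem hk) h⟩
  refine ⟨(hcount 2).trans count7_2, (hcount 4).trans count7_4, ?_⟩
  intro o' o'' h1 h2 h3 h4 h5
  obtain ⟨a, ha, hae⟩ := mem_octads_iff_L.mp (smul_mem_octads (inv_mem hk) h1)
  obtain ⟨b, hb, hbe⟩ := mem_octads_iff_L.mp (smul_mem_octads (inv_mem hk) h2)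
  have hm : ∀ {U : Finset GolayPt}, k (idxPt 0) ∈ U → idxPt 0 ∈ k⁻¹ • U := fun hU =>
    Finset.mem_smul_finset.mpr ⟨_, hU, by simp⟩
  have hF : ∀ m ∈ F7, isCode m = true := fun m hm => octad_isCode (List.mem_filter.mp hm).1
  have ha' : a ∈ F7 := List.mem_filter.mpr ⟨ha, mem_idx0.mp (hae ▸ hm h3)⟩
  have hb' : b ∈ F7 := List.mem_filter.mpr ⟨hb, mem_idx0.mp (hbe ▸ hm h4)⟩
  have hinter : ∀ U : Finset GolayPt, (supFin octad0 ∩ k⁻¹ • U).card = (k • supFin octad0 ∩ U).card := by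
    intro U
    rw [← card_inter_smul k, smul_inv_smul]
  obtain ⟨h, hh, hhe⟩ := same_flag gens7_ok hF cls7_ok ha' hb' (by rw [← hae, ← hbe, hinter, hinter, h5])
  obtain ⟨hh1, hh2⟩ := hh
  refine ⟨k * h * k⁻¹, mul_mem (mul_mem hk hh1) (inv_mem hk), ?_, ?_, ?_⟩
  · exact conj_apply_fix (fix_of_smul_singleton supFin_1 (hh2 1 (by simp)))
  · exact conj_smul_fix (hh2 octad0 (by simp))
  · simp only [mul_smul, hae, hhe, ← hbe, smul_inv_smul]

/-! ### A point and an octad avoiding it -/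

def cls8 : List ClassCert := [(8, f8Root8, f8Cert8), (4, f8Root4, f8Cert4), (2, f8Root2, f8Cert2), (0, f8Root0, f8Cert0)]

def F8 : List ℕ := octadsL.filter fun m => !m.testBit 4

theorem gens8_ok : genOK [16, octad0] gens8 = true := by decide +kernel

theorem cls8_ok : classesOK gens8 (fun m => hwF (m &&& octad0)) F8 cls8 = true := by decide +kernel

theorem count8_0 : (octadsL.filter fun m => !m.testBit 4 && Nat.beq (hwF (octad0 &&& m)) 0).length = 15 := by
  decide +kernel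

theorem count8_4 : (octadsL.filter fun m => !m.testBit 4 && Nat.beq (hwF (octad0 &&& m)) 4).length = 210 := by
  decide +kernel

theorem count8_2 : (octadsL.filter fun m => !m.testBit 4 && Nat.beq (hwF (octad0 &&& m)) 2).length = 280 := by
  decide +kernel

theorem s1608 (x : GolayPt) (o : Finset GolayPt) (ho : o ∈ octads) (hx : x ∉ o) :
    {o' : Finset GolayPt | o' ∈ octads ∧ x ∉ o' ∧ (o ∩ o').card = 0}.ncard = 15 ∧
    {o' : Finset GolayPt | o' ∈ octads ∧ x ∉ o' ∧ (o ∩ o').card = 4}.ncard = 210 ∧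
    {o' : Finset GolayPt | o' ∈ octads ∧ x ∉ o' ∧ (o ∩ o').card = 2}.ncard = 280 ∧
    ∀ o' o'' : Finset GolayPt, o' ∈ octads → o'' ∈ octads → x ∉ o' → x ∉ o'' → (o ∩ o').card = (o ∩ o'').card →
      ∃ g : Equiv.Perm GolayPt, g ∈ M24 ∧ g x = x ∧ g • o = o ∧ g • o' = o'' := by
  -- the flag
  obtain ⟨k0, hk0, rfl⟩ := exists_map_octad GolayChain.octad0_mem ho
  have hx0 : k0⁻¹ x ∉ supFin octad0 := by
    intro hc
    exact hx (Finset.mem_smul_finset.mpr ⟨_, hc, by simp⟩)
  have h4 : idxPt 4 ∉ supFin octad0 := by decide +kernel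
  obtain ⟨f, hf, hfe⟩ := fixS_trans GolayChain.octad0_mem h4 hx0
  have hfO : f • supFin octad0 = supFin octad0 := (mem_stabO.mp (fixS_le_stabO _ hf)).2
  obtain ⟨k, hk, hkO, rfl⟩ : ∃ k ∈ M24, k • supFin octad0 = k0 • supFin octad0 ∧ k (idxPt 4) = x :=
    ⟨k0 * f, mul_mem hk0 (mem_fixS.mp hf).1, by rw [mul_smul, hfO], by simp [hfe]⟩
  rw [← hkO]
  clear hx0 hfe hf hfO hx hkO ho
  have hcount : ∀ n : ℕ, {o' : Finset GolayPt | o' ∈ octads ∧ k (idxPt 4) ∉ o' ∧ (k • supFin octad0 ∩ o').card = n}.ncard =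
      (octadsL.filter fun m => !m.testBit 4 && Nat.beq (hwF (octad0 &&& m)) n).length := by
    intro n
    rw [ncard_transport k {U | U ∈ octads ∧ idxPt 4 ∉ U ∧ (supFin octad0 ∩ U).card = n} _ ?_]
    · refine ncard_octads_filter (fun b => idxPt 4 ∉ b ∧ (supFin octad0 ∩ b).card = n) _ ?_
      intro m _
      rw [mem_idx4, card_inter_masks, Bool.and_eq_true, Nat.beq_eq]
      simp
    · intro U
      simp only [Set.mem_ofPred_eq, mem_smul_pt, card_inter_smul]
      exact and_congr_left fun _ => ⟨smul_mem_octads hk, fun h => by simpa using smul_mem_octads (inv_mem hk) h⟩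
  refine ⟨(hcount 0).trans count8_0, (hcount 4).trans count8_4, (hcount 2).trans count8_2, ?_⟩
  intro o' o'' h1 h2 h3 h4' h5
  obtain ⟨a, ha, hae⟩ := mem_octads_iff_L.mp (smul_mem_octads (inv_mem hk) h1)
  obtain ⟨b, hb, hbe⟩ := mem_octads_iff_L.mp (smul_mem_octads (inv_mem hk) h2)
  have hm : ∀ {U : Finset GolayPt}, k (idxPt 4) ∉ U → idxPt 4 ∉ k⁻¹ • U := fun hU hc => by
    obtain ⟨y, hy, hye⟩ := Finset.mem_smul_finset.mp hc
    apply hU
    have : y = k (idxPt 4) := by
      rw [← hye]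
      simp
    rwa [← this]
  have hF : ∀ m ∈ F8, isCode m = true := fun m hm => octad_isCode (List.mem_filter.mp hm).1
  have ha' : a ∈ F8 := List.mem_filter.mpr ⟨ha, by
    have := hm h3
    rw [hae, mem_idx4] at this
    simpa using this⟩
  have hb' : b ∈ F8 := List.mem_filter.mpr ⟨hb, by
    have := hm h4'
    rw [hbe, mem_idx4] at this
    simpa using this⟩
  have hinter : ∀ U : Finset GolayPt, (supFin octad0 ∩ k⁻¹ • U).card = (k • supFin octad0 ∩ U).card := by
    intro U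
    rw [← card_inter_smul k, smul_inv_smul]
  obtain ⟨h, hh, hhe⟩ := same_flag gens8_ok hF cls8_ok ha' hb' (by rw [← hae, ← hbe, hinter, hinter, h5])
  obtain ⟨hh1, hh2⟩ := hh
  refine ⟨k * h * k⁻¹, mul_mem (mul_mem hk hh1) (inv_mem hk), ?_, ?_, ?_⟩
  · exact conj_apply_fix (fix_of_smul_singleton supFin_16 (hh2 16 (by simp)))
  · exact conj_smul_fix (hh2 octad0 (by simp))
  · simp only [mul_smul, hae, hhe, ← hbe, smul_inv_smul]

/-! ### Two points and an octad through them -/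

def cls4 : List ClassCert := [(8, f4Root8, f4Cert8), (4, f4Root4, f4Cert4), (2, f4Root2, f4Cert2)]

def F4 : List ℕ := octadsL.filter fun m => m.testBit 0 && m.testBit 1

theorem gens4_ok : genOK [1, 2, octad0] gens4 = true := by decide +kernel

theorem cls4_ok : classesOK gens4 (fun m => hwF (m &&& octad0)) F4 cls4 = true := by decide +kernel

theorem count4_2 : (octadsL.filter fun m => (m.testBit 0 && m.testBit 1) && Nat.beq (hwF (octad0 &&& m)) 2).length = 16 := by
  decide +kernel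

theorem count4_4 : (octadsL.filter fun m => (m.testBit 0 && m.testBit 1) && Nat.beq (hwF (octad0 &&& m)) 4).length = 60 := by
  decide +kernel

theorem s1604 (p q : GolayPt) (hpq : p ≠ q) (o o' o'' : Finset GolayPt) (ho : o ∈ octads) (ho' : o' ∈ octads)
    (ho'' : o'' ∈ octads) (hp : p ∈ o ∧ p ∈ o' ∧ p ∈ o'') (hq : q ∈ o ∧ q ∈ o' ∧ q ∈ o'')
    (h : (o ∩ o').card = (o ∩ o'').card) :
    {x : Finset GolayPt | x ∈ octads ∧ p ∈ x ∧ q ∈ x ∧ (o ∩ x).card = 2}.ncard = 16 ∧
    {x : Finset GolayPt | x ∈ octads ∧ p ∈ x ∧ q ∈ x ∧ (o ∩ x).card = 4}.ncard = 60 ∧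
    ∃ g : Equiv.Perm GolayPt, g ∈ M24 ∧ g p = p ∧ g q = q ∧ g • o = o ∧ g • o' = o'' := by
  obtain ⟨k, hk, rfl, hkl⟩ := exists_from_octad0 ho (l := [p, q]) (l0 := [idxPt 0, idxPt 1])
    (by simpa using hpq) (by decide +kernel)
    (by simpa using ⟨hp.1, hq.1⟩) (by decide +kernel) rfl (by norm_num)
  simp only [List.map_cons, List.map_nil, List.cons.injEq, and_true] at hkl
  obtain ⟨rfl, rfl⟩ := hkl
  have hcount : ∀ n : ℕ, {x : Finset GolayPt | x ∈ octads ∧ k (idxPt 0) ∈ x ∧ k (idxPt 1) ∈ x ∧ (k • supFin octad0 ∩ x).card = n}.ncard =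
      (octadsL.filter fun m => (m.testBit 0 && m.testBit 1) && Nat.beq (hwF (octad0 &&& m)) n).length := by
    intro n
    rw [ncard_transport k {U | U ∈ octads ∧ idxPt 0 ∈ U ∧ idxPt 1 ∈ U ∧ (supFin octad0 ∩ U).card = n} _ ?_]
    · refine ncard_octads_filter (fun b => idxPt 0 ∈ b ∧ idxPt 1 ∈ b ∧ (supFin octad0 ∩ b).card = n) _ ?_
      intro m _
      rw [mem_idx0, mem_idx1, card_inter_masks, Bool.and_eq_true, Bool.and_eq_true, Nat.beq_eq, and_assoc]
    · intro U
      simp only [Set.mem_ofPred_eq, mem_smul_pt, card_inter_smul]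
      exact and_congr_left fun _ => ⟨smul_mem_octads hk, fun h => by simpa using smul_mem_octads (inv_mem hk) h⟩
  refine ⟨(hcount 2).trans count4_2, (hcount 4).trans count4_4, ?_⟩
  obtain ⟨a, ha, hae⟩ := mem_octads_iff_L.mp (smul_mem_octads (inv_mem hk) ho')
  obtain ⟨b, hb, hbe⟩ := mem_octads_iff_L.mp (smul_mem_octads (inv_mem hk) ho'')
  have hm : ∀ {z : GolayPt} {U : Finset GolayPt}, k z ∈ U → z ∈ k⁻¹ • U := fun hU =>
    Finset.mem_smul_finset.mpr ⟨_, hU, by simp⟩
  have hF : ∀ m ∈ F4, isCode m = true := fun m hm => octad_isCode (List.mem_filter.mp hm).1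
  have ha' : a ∈ F4 := List.mem_filter.mpr ⟨ha, by
    rw [Bool.and_eq_true]
    exact ⟨mem_idx0.mp (hae ▸ hm hp.2.1), mem_idx1.mp (hae ▸ hm hq.2.1)⟩⟩
  have hb' : b ∈ F4 := List.mem_filter.mpr ⟨hb, by
    rw [Bool.and_eq_true]
    exact ⟨mem_idx0.mp (hbe ▸ hm hp.2.2), mem_idx1.mp (hbe ▸ hm hq.2.2)⟩⟩
  have hinter : ∀ U : Finset GolayPt, (supFin octad0 ∩ k⁻¹ • U).card = (k • supFin octad0 ∩ U).card := by
    intro U
    rw [← card_inter_smul k, smul_inv_smul]
  obtain ⟨g, hh, hhe⟩ := same_flag gens4_ok hF cls4_ok ha' hb' (by rw [← hae, ← hbe, hinter, hinter, h])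
  obtain ⟨hh1, hh2⟩ := hh
  refine ⟨k * g * k⁻¹, mul_mem (mul_mem hk hh1) (inv_mem hk), ?_, ?_, ?_, ?_⟩
  · exact conj_apply_fix (fix_of_smul_singleton supFin_1 (hh2 1 (by simp)))
  · exact conj_apply_fix (fix_of_smul_singleton supFin_2 (hh2 2 (by simp)))
  · exact conj_smul_fix (hh2 octad0 (by simp))
  · simp only [mul_smul, hae, hhe, ← hbe, smul_inv_smul]

/-! ### A point and a dodecad through it -/

def cls9 : List ClassCert := [(12, f9Root12, f9Cert12), (8, f9Root8, f9Cert8), (6, f9Root6, f9Cert6), (4, f9Root4, f9Cert4)]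

def F9 : List ℕ := dodecadsL.filter fun m => m.testBit 0

theorem gens9_ok : genOK [1, dod0] gens9 = true := by decide +kernel

theorem cls9_ok : classesOK gens9 (fun m => hwF (m &&& dod0)) F9 cls9 = true := by decide +kernel

theorem count9_4 : (dodecadsL.filter fun m => m.testBit 0 && Nat.beq (hwF (dod0 &&& m)) 4).length = 165 := by
  decide +kernel

theorem count9_8 : (dodecadsL.filter fun m => m.testBit 0 && Nat.beq (hwF (dod0 &&& m)) 8).length = 330 := by
  decide +kernel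

theorem count9_6 : (dodecadsL.filter fun m => m.testBit 0 && Nat.beq (hwF (dod0 &&& m)) 6).length = 792 := by
  decide +kernel

theorem s1639 (x : GolayPt) (d : Finset GolayPt) (hd : d ∈ dodecads) (hx : x ∈ d) :
    {d' : Finset GolayPt | d' ∈ dodecads ∧ x ∈ d' ∧ (d ∩ d').card = 4}.ncard = 165 ∧
    {d' : Finset GolayPt | d' ∈ dodecads ∧ x ∈ d' ∧ (d ∩ d').card = 8}.ncard = 330 ∧
    {d' : Finset GolayPt | d' ∈ dodecads ∧ x ∈ d' ∧ (d ∩ d').card = 6}.ncard = 792 ∧
    ∀ d' d'' : Finset GolayPt, d' ∈ dodecads → d'' ∈ dodecads → x ∈ d' → x ∈ d'' → (d ∩ d').card = (d ∩ d'').card →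
      ∃ g : Equiv.Perm GolayPt, g ∈ M24 ∧ g x = x ∧ g • d = d ∧ g • d' = d'' := by
  obtain ⟨k, hk, rfl, rfl⟩ := exists_map_dod0_point hd hx
  have hcount : ∀ n : ℕ, {o' : Finset GolayPt | o' ∈ dodecads ∧ k (idxPt 0) ∈ o' ∧ (k • supFin dod0 ∩ o').card = n}.ncard =
      (dodecadsL.filter fun m => m.testBit 0 && Nat.beq (hwF (dod0 &&& m)) n).length := by
    intro n
    rw [ncard_transport k {U | U ∈ dodecads ∧ idxPt 0 ∈ U ∧ (supFin dod0 ∩ U).card = n} _ ?_]
    · refine ncard_dodecads_filter (fun b => idxPt 0 ∈ b ∧ (supFin dod0 ∩ b).card = n) _ ?_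
      intro m _
      rw [mem_idx0, card_inter_masks, Bool.and_eq_true, Nat.beq_eq]
    · intro U
      simp only [Set.mem_ofPred_eq, mem_smul_pt, card_inter_smul]
      exact and_congr_left fun _ => ⟨smul_mem_dodecads hk, fun h => by simpa using smul_mem_dodecads (inv_mem hk) h⟩
  refine ⟨(hcount 4).trans count9_4, (hcount 8).trans count9_8, (hcount 6).trans count9_6, ?_⟩
  intro o' o'' h1 h2 h3 h4 h5
  obtain ⟨a, ha, hae⟩ := mem_dodecads_iff_L.mp (smul_mem_dodecads (inv_mem hk) h1)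
  obtain ⟨b, hb, hbe⟩ := mem_dodecads_iff_L.mp (smul_mem_dodecads (inv_mem hk) h2)
  have hm : ∀ {U : Finset GolayPt}, k (idxPt 0) ∈ U → idxPt 0 ∈ k⁻¹ • U := fun hU =>
    Finset.mem_smul_finset.mpr ⟨_, hU, by simp⟩
  have hF : ∀ m ∈ F9, isCode m = true := fun m hm => dodecad_isCode (List.mem_filter.mp hm).1
  have ha' : a ∈ F9 := List.mem_filter.mpr ⟨ha, mem_idx0.mp (hae ▸ hm h3)⟩
  have hb' : b ∈ F9 := List.mem_filter.mpr ⟨hb, mem_idx0.mp (hbe ▸ hm h4)⟩
  have hinter : ∀ U : Finset GolayPt, (supFin dod0 ∩ k⁻¹ • U).card = (k • supFin dod0 ∩ U).card := by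
    intro U
    rw [← card_inter_smul k, smul_inv_smul]
  obtain ⟨h, hh, hhe⟩ := same_flag gens9_ok hF cls9_ok ha' hb' (by rw [← hae, ← hbe, hinter, hinter, h5])
  obtain ⟨hh1, hh2⟩ := hh
  refine ⟨k * h * k⁻¹, mul_mem (mul_mem hk hh1) (inv_mem hk), ?_, ?_, ?_⟩
  · exact conj_apply_fix (fix_of_smul_singleton supFin_1 (hh2 1 (by simp)))
  · exact conj_smul_fix (hh2 dod0 (by simp))
  · simp only [mul_smul, hae, hhe, ← hbe, smul_inv_smul]

/-! ### Two points and the octads through the first avoiding the second -/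

def cls5a : List ClassCert := [(0, f5aRoot0, f5aCert0)]

def cls5b : List ClassCert := [(8, f5bRoot8, f5bCert8), (4, f5bRoot4, f5bCert4), (2, f5bRoot2, f5bCert2)]

def F5 : List ℕ := octadsL.filter fun m => m.testBit 0 && !m.testBit 1

theorem gens5a_ok : genOK [1, 2] gens5a = true := by decide +kernel

theorem gens5b_ok : genOK [1, 2, o1] gens5b = true := by decide +kernel

theorem cls5a_ok : classesOK gens5a (fun _ => 0) F5 cls5a = true := by decide +kernel

theorem cls5b_ok : classesOK gens5b (fun m => hwF (m &&& o1)) F5 cls5b = true := by decide +kernel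

theorem count5 : (octadsL.filter fun m => m.testBit 0 && !m.testBit 1).length = 176 := by
  decide +kernel

theorem count5_2 : (octadsL.filter fun m => (m.testBit 0 && !m.testBit 1) && Nat.beq (hwF (o1 &&& m)) 2).length = 70 := by
  decide +kernel

theorem count5_4 : (octadsL.filter fun m => (m.testBit 0 && !m.testBit 1) && Nat.beq (hwF (o1 &&& m)) 4).length = 105 := by
  decide +kernel

theorem o1_mem_F5 : o1 ∈ F5 := by decide +kernel

theorem s1605 (p q : GolayPt) (hpq : p ≠ q) :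
    {x : Finset GolayPt | (x ∈ octads ∧ p ∈ x ∧ q ∉ x)}.ncard = 176 ∧
    (∀ o o' : Finset GolayPt, (o ∈ octads ∧ p ∈ o ∧ q ∉ o) → (o' ∈ octads ∧ p ∈ o' ∧ q ∉ o') →
      ∃ g : Equiv.Perm GolayPt, g ∈ M24 ∧ g p = p ∧ g q = q ∧ g • o = o') ∧
    ∀ o : Finset GolayPt, (o ∈ octads ∧ p ∈ o ∧ q ∉ o) →
      {x : Finset GolayPt | (x ∈ octads ∧ p ∈ x ∧ q ∉ x) ∧ (o ∩ x).card = 2}.ncard = 70 ∧
      {x : Finset GolayPt | (x ∈ octads ∧ p ∈ x ∧ q ∉ x) ∧ (o ∩ x).card = 4}.ncard = 105 ∧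
      ∀ o' o'' : Finset GolayPt, (o' ∈ octads ∧ p ∈ o' ∧ q ∉ o') → (o'' ∈ octads ∧ p ∈ o'' ∧ q ∉ o'') →
        (o ∩ o').card = (o ∩ o'').card →
        ∃ g : Equiv.Perm GolayPt, g ∈ M24 ∧ g p = p ∧ g q = q ∧ g • o = o ∧ g • o' = o'' := by
  obtain ⟨k, hk, hkl⟩ := exists_map_lists (l := [idxPt 0, idxPt 1]) (m := [p, q]) (by decide +kernel)
    (by simpa using hpq) rfl (by norm_num)
  simp only [List.map_cons, List.map_nil, List.cons.injEq, and_true] at hkl
  obtain ⟨rfl, rfl⟩ := hkl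
  have hoct : ∀ {k : Equiv.Perm GolayPt}, k ∈ M24 → ∀ U : Finset GolayPt, U ∈ octads ↔ k • U ∈ octads := fun hk _ =>
    ⟨smul_mem_octads hk, fun h => by simpa using smul_mem_octads (inv_mem hk) h⟩
  have hF : ∀ m ∈ F5, isCode m = true := fun m hm => octad_isCode (List.mem_filter.mp hm).1
  -- reduce a set to a mask of `F5`
  have hmask : ∀ {k : Equiv.Perm GolayPt}, k ∈ M24 → ∀ U : Finset GolayPt, (U ∈ octads ∧ k (idxPt 0) ∈ U ∧ k (idxPt 1) ∉ U) →
      ∃ m ∈ F5, k⁻¹ • U = supFin m := by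
    intro k hk U hU
    obtain ⟨a, ha, hae⟩ := mem_octads_iff_L.mp (smul_mem_octads (inv_mem hk) hU.1)
    refine ⟨a, List.mem_filter.mpr ⟨ha, ?_⟩, hae⟩
    have h0 : idxPt 0 ∈ k⁻¹ • U := Finset.mem_smul_finset.mpr ⟨_, hU.2.1, by simp⟩
    have h1 : idxPt 1 ∉ k⁻¹ • U := by
      intro hc
      obtain ⟨y, hy, hye⟩ := Finset.mem_smul_finset.mp hc
      apply hU.2.2
      have : y = k (idxPt 1) := by
        rw [← hye]
        simp
      rwa [← this]
    rw [hae, mem_idx0] at h0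
    rw [hae, mem_idx1] at h1
    simp only [Bool.and_eq_true, Bool.not_eq_true', h0, true_and]
    simpa using h1
  have htrans : ∀ o o' : Finset GolayPt, (o ∈ octads ∧ k (idxPt 0) ∈ o ∧ k (idxPt 1) ∉ o) →
      (o' ∈ octads ∧ k (idxPt 0) ∈ o' ∧ k (idxPt 1) ∉ o') →
      ∃ g : Equiv.Perm GolayPt, g ∈ M24 ∧ g (k (idxPt 0)) = k (idxPt 0) ∧ g (k (idxPt 1)) = k (idxPt 1) ∧ g • o = o' := by
    intro o o' ho ho'
    obtain ⟨a, ha, hae⟩ := hmask hk o ho
    obtain ⟨b, hb, hbe⟩ := hmask hk o' ho'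
    obtain ⟨h, hh, hhe⟩ := same_flag_const gens5a_ok hF cls5a_ok ha hb
    obtain ⟨hh1, hh2⟩ := hh
    refine ⟨k * h * k⁻¹, mul_mem (mul_mem hk hh1) (inv_mem hk), ?_, ?_, ?_⟩
    · exact conj_apply_fix (fix_of_smul_singleton supFin_1 (hh2 1 (by simp)))
    · exact conj_apply_fix (fix_of_smul_singleton supFin_2 (hh2 2 (by simp)))
    · simp only [mul_smul, hae, hhe, ← hbe, smul_inv_smul]
  refine ⟨?_, htrans, ?_⟩
  · rw [ncard_transport k {U | U ∈ octads ∧ idxPt 0 ∈ U ∧ idxPt 1 ∉ U} _ ?_, ← count5]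
    · refine ncard_octads_filter (fun b => idxPt 0 ∈ b ∧ idxPt 1 ∉ b) _ ?_
      intro m _
      rw [mem_idx0, mem_idx1, Bool.and_eq_true]
      simp
    · intro U
      simp only [Set.mem_ofPred_eq, mem_smul_pt]
      exact and_congr_left fun _ => hoct hk U
  · intro o ho
    -- move the base octad to `o`
    have hbase : (k • supFin o1 ∈ octads ∧ k (idxPt 0) ∈ k • supFin o1 ∧ k (idxPt 1) ∉ k • supFin o1) := by
      have hmem := (List.mem_filter.mp o1_mem_F5)
      refine ⟨smul_mem_octads hk (supFin_mem_octads (by decide +kernel)), ?_, ?_⟩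
      · rw [mem_smul_pt, mem_idx0]
        decide +kernel
      · rw [mem_smul_pt, mem_idx1]
        decide +kernel
    obtain ⟨u, hu, hu0, hu1, rfl⟩ := htrans _ _ hbase ho
    have hk' : u * k ∈ M24 := mul_mem hu hk
    have e0 : (u * k) (idxPt 0) = k (idxPt 0) := by simpa using hu0
    have e1 : (u * k) (idxPt 1) = k (idxPt 1) := by simpa using hu1
    have e2 : u • k • supFin o1 = (u * k) • supFin o1 := (mul_smul _ _ _).symm
    rw [e2]
    rw [← e0, ← e1]
    clear ho hbase htrans hmask hoct e2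
    generalize u * k = K at hk' e0 e1
    clear e0 e1
    have hoct : ∀ U : Finset GolayPt, U ∈ octads ↔ K • U ∈ octads := fun _ =>
      ⟨smul_mem_octads hk', fun h => by simpa using smul_mem_octads (inv_mem hk') h⟩
    have hcount : ∀ n : ℕ, {x : Finset GolayPt | (x ∈ octads ∧ K (idxPt 0) ∈ x ∧ K (idxPt 1) ∉ x) ∧ (K • supFin o1 ∩ x).card = n}.ncard =
        (octadsL.filter fun m => (m.testBit 0 && !m.testBit 1) && Nat.beq (hwF (o1 &&& m)) n).length := by
      intro n
      rw [ncard_transport K {U | (U ∈ octads ∧ idxPt 0 ∈ U ∧ idxPt 1 ∉ U) ∧ (supFin o1 ∩ U).card = n} _ ?_]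
      · have h1 := ncard_octads_filter (fun b => (idxPt 0 ∈ b ∧ idxPt 1 ∉ b) ∧ (supFin o1 ∩ b).card = n)
          (fun m => (m.testBit 0 && !m.testBit 1) && Nat.beq (hwF (o1 &&& m)) n) ?_
        · rw [← h1]
          congr 1
          ext U
          simp only [Set.mem_ofPred_eq, and_assoc]
        · intro m _
          rw [mem_idx0, mem_idx1, card_inter_masks, Bool.and_eq_true, Bool.and_eq_true, Nat.beq_eq]
          simp
      · intro U
        simp only [Set.mem_ofPred_eq, mem_smul_pt, card_inter_smul, and_assoc]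
        exact and_congr_left fun _ => hoct U
    refine ⟨(hcount 2).trans count5_2, (hcount 4).trans count5_4, ?_⟩
    intro o' o'' h1 h2 h5
    have hmask' : ∀ U : Finset GolayPt, (U ∈ octads ∧ K (idxPt 0) ∈ U ∧ K (idxPt 1) ∉ U) → ∃ m ∈ F5, K⁻¹ • U = supFin m := by
      intro U hU
      obtain ⟨a, ha, hae⟩ := mem_octads_iff_L.mp (smul_mem_octads (inv_mem hk') hU.1)
      refine ⟨a, List.mem_filter.mpr ⟨ha, ?_⟩, hae⟩
      have h0 : idxPt 0 ∈ K⁻¹ • U := Finset.mem_smul_finset.mpr ⟨_, hU.2.1, by simp⟩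
      have h1 : idxPt 1 ∉ K⁻¹ • U := by
        intro hc
        obtain ⟨y, hy, hye⟩ := Finset.mem_smul_finset.mp hc
        apply hU.2.2
        have : y = K (idxPt 1) := by
          rw [← hye]
          simp
        rwa [← this]
      rw [hae, mem_idx0] at h0
      rw [hae, mem_idx1] at h1
      simp only [Bool.and_eq_true, Bool.not_eq_true', h0, true_and]
      simpa using h1
    obtain ⟨a, ha, hae⟩ := hmask' o' h1
    obtain ⟨b, hb, hbe⟩ := hmask' o'' h2
    have hinter : ∀ U : Finset GolayPt, (supFin o1 ∩ K⁻¹ • U).card = (K • supFin o1 ∩ U).card := by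
      intro U
      rw [← card_inter_smul K, smul_inv_smul]
    obtain ⟨h, hh, hhe⟩ := same_flag gens5b_ok hF cls5b_ok ha hb (by rw [← hae, ← hbe, hinter, hinter, h5])
    obtain ⟨hh1, hh2⟩ := hh
    refine ⟨K * h * K⁻¹, mul_mem (mul_mem hk' hh1) (inv_mem hk'), ?_, ?_, ?_, ?_⟩
    · exact conj_apply_fix (fix_of_smul_singleton supFin_1 (hh2 1 (by simp)))
    · exact conj_apply_fix (fix_of_smul_singleton supFin_2 (hh2 2 (by simp)))
    · exact conj_smul_fix (hh2 o1 (by simp))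
    · simp only [mul_smul, hae, hhe, ← hbe, smul_inv_smul]

end Cfsg.Agent.Lib.GolayFlag
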