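import Cfsg.Agent.Lib.GolayFusionCert

/-! Certificate data for the Sylow 2-subgroup of M11 (generated by a script). -/

set_option autoImplicit false

namespace Cfsg.Agent.Lib.GolayFusM11

open Cfsg.Agent.Lib.GolayFusionCert

/-- The polycyclic chain. -/
def sch : List PGen :=
  [⟨[0,3,2,4,9,22,12,21,18,1,23,7,8,13,15,14,16,20,6,11,17,19,10,5],[0,9,2,1,3,23,18,11,12,4,22,19,6,13,15,14,16,20,8,21,17,7,5,10],14,147456⟩,
   ⟨[0,12,2,6,18,11,9,22,3,8,21,10,4,13,17,20,16,14,1,23,15,5,19,7],[0,18,2,8,12,21,3,23,9,6,11,5,1,13,17,20,16,14,4,22,15,10,7,19],14,16384⟩,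
   ⟨[0,4,2,9,1,10,8,19,6,3,5,21,18,13,14,15,16,17,12,7,20,11,23,22],[0,4,2,9,1,10,8,19,6,3,5,21,18,13,14,15,16,17,12,7,20,11,23,22],1,2⟩,
   ⟨[0,1,13,6,4,21,3,7,9,8,11,10,18,2,14,20,16,17,12,19,15,5,23,22],[0,1,13,6,4,21,3,7,9,8,11,10,18,2,14,20,16,17,12,19,15,5,23,22],12,4096⟩]

/-- The central involution. -/
def zz : List ℕ := [0,4,2,9,1,10,8,19,6,3,5,21,18,13,14,15,16,17,12,7,20,11,23,22]

/-- The chain of conjugates. -/
def steps : List CStep :=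
  [⟨[0],[0,18,8,12,4,22,2,14,13,1,7,11,9,16,15,20,6,5,3,17,10,21,23,19],[0,9,6,18,4,17,16,10,2,12,20,11,3,8,7,14,13,19,1,23,15,21,5,22],[0,12,13,9,18,5,6,22,8,3,10,21,1,2,17,15,16,14,4,23,20,11,7,19]⟩,
   ⟨[1],[0,6,8,13,4,14,16,5,18,2,22,21,9,3,19,17,12,7,1,20,23,10,11,15],[0,18,9,13,4,7,1,17,2,12,21,22,16,3,5,23,6,15,8,14,19,11,10,20],[0,4,13,8,1,11,9,19,3,6,21,5,12,2,14,20,16,17,18,7,15,10,22,23]⟩,
   ⟨[1,2],[0,12,2,4,18,23,3,21,9,1,22,10,6,16,15,20,13,14,8,11,17,5,7,19],[0,9,2,6,3,21,12,22,18,8,11,19,1,16,17,14,13,20,4,23,15,7,10,5],[0,3,2,4,9,22,12,21,18,1,23,7,8,13,15,14,16,20,6,11,17,19,10,5]⟩,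
   ⟨[2,1],[0,1,2,3,4,5,6,7,8,9,10,11,12,13,14,15,16,17,18,19,20,21,22,23],[0,1,2,3,4,5,6,7,8,9,10,11,12,13,14,15,16,17,18,19,20,21,22,23],[0,12,2,6,18,11,9,22,3,8,21,10,4,13,17,20,16,14,1,23,15,5,19,7]⟩,
   ⟨[2,0],[0,1,2,3,4,5,6,7,8,9,10,11,12,13,14,15,16,17,18,19,20,21,22,23],[0,1,2,3,4,5,6,7,8,9,10,11,12,13,14,15,16,17,18,19,20,21,22,23],[0,1,13,6,4,21,3,7,9,8,11,10,18,2,14,20,16,17,12,19,15,5,23,22]⟩]

/-- The levels of the tree. -/
def levels : List Level :=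
  [⟨14,2,[1,267098,8196,267098,267098,15207584,267098,15207584,267098,267098,15207584,15207584,267098,8196,1228800,1228800,65536,1228800,267098,15207584,1228800,15207584,15207584,15207584]⟩,
   ⟨1,1,[1,18,8196,840,18,2100256,840,524416,840,840,2100256,2100256,266240,8196,16384,1081344,65536,131072,266240,524416,1081344,2100256,12582912,12582912]⟩,
   ⟨12,1,[1,2,8196,72,16,2097184,72,128,768,768,3072,3072,266240,8196,16384,1081344,65536,131072,266240,524288,1081344,2097184,12582912,12582912]⟩]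

/-- The last orbit table. -/
def t0 : List ℕ := [1,2,4,8,16,32,64,128,256,512,1024,2048,4096,8192,16384,32768,65536,131072,262144,524288,1048576,2097152,4194304,8388608]

/-- The fixed points at the end of the tree. -/
def ff : ℕ := 16777215

end Cfsg.Agent.Lib.GolayFusM11
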