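import Mathlib
import Cfsg.Prelude.Def_Sporadic_a
import Cfsg.Agent.Lib.GolayObjs
import Cfsg.Agent.Lib.GolayOrbit

/-!
# Binary words and the action of `M24`

Stabilizers of words of the code fix no non-zero element of the quotient by the code.
-/

set_option autoImplicit false
set_option maxHeartbeats 1000000
set_option linter.style.haveILetI false
set_option linter.constructorNameAsVariable false

open scoped Pointwise

namespace Cfsg.Agent.Lib.GolayWords

open Cfsg Cfsg.Agent.Lib Cfsg.Agent.Lib.GolayCode Cfsg.Agent.Lib.GolayFacts Cfsg.Agent.Lib.GolayPerm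
  Cfsg.Agent.Lib.GolayChain Cfsg.Agent.Lib.GolayTrans Cfsg.Agent.Lib.GolayDecomp
  Cfsg.Agent.Lib.GolayOrbit Cfsg.Agent.Lib.GolayFix Cfsg.Agent.Lib.GolayEnum
  Cfsg.Agent.Lib.GolaySets Cfsg.Agent.Lib.GolayObjs

/-- Elements of the stabilizer of an octad. -/
def GO : List ℕ := [0x1c196a56eb985ea9212469c0671622,0x74e06acaeb21547b228f4b06d88820,0xbcd66558ac23934449e7ac22d00823]

/-- Elements of the stabilizer of a dodecad. -/
def GD : List ℕ := [0x53e27748a1bacc0ad9a898a8923203,0xa15f78c1413d592b2cc2991c36a009,0xa3aaf5a6e4395109c46d532c2904c0]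

/-- The check that the list moves all residues. -/
def moveChk (m : ℕ) (G : List ℕ) : Bool :=
  G.all (fun e => isAutN e && chkO e m) &&
    allBelow (fun r => Nat.beq r 0 || G.any fun e => !isCode (permMask (dL e) r ^^^ r)) 4096

theorem moveO : moveChk octad0 GO = true := by decide +kernel

theorem moveD : moveChk dod0 GD = true := by decide +kernel

/-- The code word with prescribed top bits. -/
def cOf (h : ℕ) : ℕ := spanMask (decode (h * 4096))

theorem cOf_ok : allBelow (fun h => isCode (cOf h) && Nat.beq (cOf h / 4096) h) 4096 = true := by decide +kernel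

/-- Words are given by masks. -/
theorem exists_dec (w : GolayPt → ZMod 2) : ∃ n < 2 ^ 24, w = dec n := by
  refine ⟨maskOf (support₂ w), maskOf_lt _, ?_⟩
  apply support_inj
  rw [support_dec, supFin_maskOf]

theorem split_word {n : ℕ} (hn : n < 2 ^ 24) : ∃ c r, isCode c = true ∧ r < 4096 ∧ n = r ^^^ c := by
  have hh : n / 4096 < 4096 := by omega
  have h1 := allBelow_spec cOf_ok _ hh
  simp only [Bool.and_eq_true] at h1
  have h2 : cOf (n / 4096) / 4096 = n / 4096 := Nat.eq_of_beq_eq_true h1.2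
  refine ⟨cOf (n / 4096), n ^^^ cOf (n / 4096), h1.1, ?_, ?_⟩
  · have : n ^^^ cOf (n / 4096) < 2 ^ 12 := by
      apply Nat.lt_pow_two_of_testBit
      intro i hi
      obtain ⟨j, rfl⟩ := Nat.exists_eq_add_of_le' hi
      rw [Nat.testBit_xor, ← Nat.testBit_div_two_pow, ← Nat.testBit_div_two_pow]
      norm_num
      rw [h2]
    simpa using this
  · rw [Nat.xor_assoc, Nat.xor_self, Nat.xor_zero]

theorem mapWord_pN {e : ℕ} (he : Ok e) (m : ℕ) : mapWord (pN e) (dec m) = dec (permMask (dL e) m) := by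
  apply support_inj
  rw [support_mapWord, support_dec, support_dec, pN_smul_supFin he]

theorem mapWord_mul (a b : Equiv.Perm GolayPt) (v : GolayPt → ZMod 2) :
    mapWord (a * b) v = mapWord a (mapWord b v) := by
  funext p
  show v ((a * b)⁻¹ p) = v (b⁻¹ (a⁻¹ p))
  rw [mul_inv_rev]
  rfl

theorem mapWord_one (v : GolayPt → ZMod 2) : mapWord 1 v = v := rfl

theorem mapWord_add (a : Equiv.Perm GolayPt) (v w : GolayPt → ZMod 2) :
    mapWord a (v + w) = mapWord a v + mapWord a w := rfl

theorem mapWord_sub (a : Equiv.Perm GolayPt) (v w : GolayPt → ZMod 2) :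
    mapWord a (v - w) = mapWord a v - mapWord a w := rfl

theorem mapWord_inv_mapWord (a : Equiv.Perm GolayPt) (v : GolayPt → ZMod 2) : mapWord a⁻¹ (mapWord a v) = v := by
  rw [← mapWord_mul, inv_mul_cancel, mapWord_one]

theorem mapWord_mapWord_inv (a : Equiv.Perm GolayPt) (v : GolayPt → ZMod 2) : mapWord a (mapWord a⁻¹ v) = v := by
  rw [← mapWord_mul, mul_inv_cancel, mapWord_one]

theorem sub_eq_add' (v w : GolayPt → ZMod 2) : v - w = v + w := by
  funext p
  exact CharTwo.sub_eq_add _ _

theorem one_mem_code : (1 : GolayPt → ZMod 2) ∈ golayCode :=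
  Submodule.subset_span (Or.inr rfl)

/-- The main computation. -/
theorem move_rep {m : ℕ} {G : List ℕ} (hm : moveChk m G = true) {w : GolayPt → ZMod 2} (hw : w ∉ golayCode) :
    ∃ e, Ok e ∧ pN e ∈ M24 ∧ chkO e m = true ∧ mapWord (pN e) w - w ∉ golayCode := by
  simp only [moveChk, Bool.and_eq_true, List.all_eq_true] at hm
  obtain ⟨hG, hmv⟩ := hm
  obtain ⟨n, hn, rfl⟩ := exists_dec w
  obtain ⟨c, r, hc, hr, rfl⟩ := split_word hn
  have hcC : dec c ∈ golayCode := dec_mem_of_isCode hc
  have hr0 : r ≠ 0 := by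
    rintro rfl
    apply hw
    simpa using hcC
  have h1 := allBelow_spec hmv r hr
  have h2 : Nat.beq r 0 = false := by
    rw [← Bool.not_eq_true, Nat.beq_eq]
    exact hr0
  simp only [h2, Bool.false_or] at h1
  obtain ⟨e, he, hne⟩ := List.any_eq_true.mp h1
  have hge := hG e he
  have hO := isAutN_ok hge.1
  have hM := isAutN_mem hge.1
  refine ⟨e, hO, hM, hge.2, ?_⟩
  intro hmem
  have hlt : r < 2 ^ 24 := by omega
  have hd : dec (permMask (dL e) r ^^^ r) ∈ golayCode := by
    have h3 : mapWord (pN e) (dec (r ^^^ c)) - dec (r ^^^ c) =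
        dec (permMask (dL e) r ^^^ r) + (mapWord (pN e) (dec c) + dec c) := by
      rw [dec_xor, mapWord_add, mapWord_pN hO r, sub_eq_add', dec_xor]
      abel
    rw [h3] at hmem
    have h4 : mapWord (pN e) (dec c) + dec c ∈ golayCode :=
      Submodule.add_mem _ (mapWord_mem_of_mem_M24 hM hcC) hcC
    exact (Submodule.add_mem_iff_left _ h4).mp hmem
  have hlt2 : permMask (dL e) r ^^^ r < 2 ^ 24 := Nat.xor_lt_two_pow (permMask_dL_lt hO r) hlt
  have := isCode_of_dec_mem hlt2 hd
  simp [this] at hne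

/-- The property. -/
def PP (u : GolayPt → ZMod 2) : Prop :=
  ∀ w, w ∉ golayCode → ∃ σ ∈ M24, mapWord σ u = u ∧ mapWord σ w - w ∉ golayCode

theorem PP_rep {m : ℕ} {G : List ℕ} (hm : moveChk m G = true) (hlt : m < 2 ^ 24) : PP (dec m) := by
  intro w hw
  obtain ⟨e, hO, hM, hc, hne⟩ := move_rep hm hw
  refine ⟨pN e, hM, ?_, hne⟩
  rw [mapWord_pN hO, Nat.eq_of_beq_eq_true hc]

theorem PP_conj {u : GolayPt → ZMod 2} {c : Equiv.Perm GolayPt} (hc : c ∈ M24) (h : PP (mapWord c u)) : PP u := by
  intro w hw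
  have hw' : mapWord c w ∉ golayCode := by
    intro h1
    apply hw
    have := mapWord_mem_of_mem_M24 (inv_mem hc) h1
    rwa [mapWord_inv_mapWord] at this
  obtain ⟨σ, hσ, h1, h2⟩ := h _ hw'
  refine ⟨c⁻¹ * σ * c, mul_mem (mul_mem (inv_mem hc) hσ) hc, ?_, ?_⟩
  · rw [mapWord_mul, mapWord_mul, h1, mapWord_inv_mapWord]
  · intro h3
    apply h2
    have h4 := mapWord_mem_of_mem_M24 hc h3
    rw [mapWord_sub, mapWord_mul, mapWord_mul, mapWord_mapWord_inv] at h4
    exact h4

theorem PP_add_one {u : GolayPt → ZMod 2} (h : PP (u + 1)) : PP u := by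
  intro w hw
  obtain ⟨σ, hσ, h1, h2⟩ := h w hw
  refine ⟨σ, hσ, ?_, h2⟩
  rw [mapWord_add] at h1
  have : mapWord σ (1 : GolayPt → ZMod 2) = 1 := rfl
  rw [this] at h1
  exact add_right_cancel h1

theorem PP_zero : PP 0 := by
  intro w hw
  obtain ⟨σ, hσ, -, h2⟩ := PP_rep moveO (by decide +kernel) w hw
  exact ⟨σ, hσ, rfl, h2⟩

theorem PP_octad {u : GolayPt → ZMod 2} (h : support₂ u ∈ octads) : PP u := by
  obtain ⟨c, hc, he⟩ := exists_map_octad h octad0_mem
  apply PP_conj hc
  have : mapWord c u = dec octad0 := by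
    apply support_inj
    rw [support_mapWord, support_dec, he]
  rw [this]
  exact PP_rep moveO (by decide +kernel)

theorem PP_dodecad {u : GolayPt → ZMod 2} (h : support₂ u ∈ dodecads) : PP u := by
  obtain ⟨c, hc, he⟩ := exists_map_dod0 h
  apply PP_conj (inv_mem hc)
  have : mapWord c⁻¹ u = dec dod0 := by
    apply support_inj
    rw [support_mapWord, support_dec, ← he, inv_smul_smul]
  rw [this]
  exact PP_rep moveD (by decide +kernel)

theorem card_support_add_one (u : GolayPt → ZMod 2) : (support₂ (u + 1)).card + (support₂ u).card = 24 := by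
  classical
  have h : support₂ (u + 1) = (support₂ u)ᶜ := by
    ext p
    simp only [support₂, Finset.mem_filter, Finset.mem_univ, true_and, Finset.mem_compl, Pi.add_apply, Pi.one_apply]
    generalize u p = a
    revert a
    decide
  rw [h, Finset.card_compl]
  have h1 : (support₂ u).card ≤ 24 := by
    have := Finset.card_le_univ (support₂ u)
    simpa using this
  have h2 : Fintype.card GolayPt = 24 := by simp [GolayPt]
  rw [h2]
  omega

theorem PP_all {u : GolayPt → ZMod 2} (hu : u ∈ golayCode) : PP u := by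
  have hu1 : u + 1 ∈ golayCode := Submodule.add_mem _ hu one_mem_code
  have hsup : ∀ {v : GolayPt → ZMod 2}, v ∈ golayCode → support₂ v ∈ supports (golayCode : Set (GolayPt → ZMod 2)) :=
    fun hv => ⟨_, hv, rfl⟩
  have hnorm : ∀ v : GolayPt → ZMod 2, hammingNorm v = (support₂ v).card := fun v => rfl
  have hzero : ∀ v : GolayPt → ZMod 2, (support₂ v).card = 0 → v = 0 := by
    intro v hv
    rw [← hnorm] at hv
    exact hammingNorm_eq_zero.mp hv
  have hc := card_support_add_one u
  rcases weights_of_mem hu with h | h | h | h | h <;> rw [hnorm] at h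
  · rw [hzero u h]
    exact PP_zero
  · exact PP_octad ⟨hsup hu, h⟩
  · exact PP_dodecad ⟨hsup hu, h⟩
  · exact PP_add_one (PP_octad ⟨hsup hu1, by omega⟩)
  · apply PP_add_one
    rw [hzero (u + 1) (by omega)]
    exact PP_zero

/-- The statement. -/
theorem main5550 (u : GolayPt → ZMod 2) (hu : u ∈ golayCode) (w : GolayPt → ZMod 2) (hw : w ∉ golayCode) :
    ∃ σ ∈ M24, (fun p => u (σ.symm p)) = u ∧ (fun p => w (σ.symm p)) - w ∉ golayCode :=
  PP_all hu w hw

end Cfsg.Agent.Lib.GolayWords
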