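import Mathlib
import Cfsg.Prelude.Def_Sporadic_a
import Cfsg.Agent.Lib.GolayWords
import Cfsg.Agent.Lib.GolayKit

/-!
# The invariant subspaces of the permutation module of `M24`
-/

set_option autoImplicit false
set_option maxHeartbeats 1000000
set_option linter.style.haveILetI false
set_option linter.constructorNameAsVariable false

open scoped Pointwise

namespace Cfsg.Agent.Lib.GolayInvar

open Cfsg Cfsg.Agent.Lib Cfsg.Agent.Lib.GolayCode Cfsg.Agent.Lib.GolayFacts Cfsg.Agent.Lib.GolayPerm
  Cfsg.Agent.Lib.GolayChain Cfsg.Agent.Lib.GolayTrans Cfsg.Agent.Lib.GolayDecomp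
  Cfsg.Agent.Lib.GolayOrbit Cfsg.Agent.Lib.GolayFix Cfsg.Agent.Lib.GolayEnum Cfsg.Agent.Lib.GolayFast
  Cfsg.Agent.Lib.GolaySets Cfsg.Agent.Lib.GolayObjs Cfsg.Agent.Lib.GolayWords Cfsg.Agent.Lib.GolayKit

/-- The pointwise stabilizer of the base octad. -/
def V16 : List ℕ := [0xbdab49ca307b9ac5a928398a418820,0xb9e086be3593a6952d94b10a618820,0xb99b28523343aaa4b16f258a718820,0xbc92655a2c3b9706cea47d0a818820,0xba91094e346b9e63d8955b0a918820,0xba64d4562f83a87312d362caa18820,0xbb1f3a4232ab916218ed4a8ab18820,0xbae957b6289ba44b1cd0524ac18820,0xbc0ea332364b892451ebaccad18820,0xbd17661a2a23933ac1a7448af18820,0xbb4c93ae2453ac893e8c9d4b018820,0xba1474922b3398d85676a3cb218820,0xbd6cb22627638cfa224a834b318820,0xbbd8459e29b39559b606920b418820,0xbcc8cb2a265b8f47c9096c0b518820,0xb926faa22da3a0b6255231cb618820]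

/-- The complement of the base octad. -/
def compO : ℕ := 16777215 ^^^ octad0

/-- The points of the complement. -/
def compL : List ℕ := [4, 6, 7, 8, 9, 10, 11, 12, 13, 15, 16, 18, 19, 20, 21, 22]

/-- Some octads. -/
def bB : List ℕ := [11548936, 31554, 3539848, 9078992, 2494627, 1618953, 168928, 1256224, 8999616, 10650722, 3168928, 4752467]

/-- Two octads with the base dodecad as sum. -/
def oA1 : ℕ := 5279
/-- Two octads with the base dodecad as sum. -/
def oA2 : ℕ := 337856
/-- A trio. -/
def oT2 : ℕ := 337856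
/-- A trio. -/
def oT3 : ℕ := 7903248
/-- An element moving the base dodecad to a dodecad at distance `8`. -/
def e1 : ℕ := 0x9b9f65408c04845ba06b3a62d09a95
/-- An element moving the base octad to an octad at distance `8`. -/
def e2 : ℕ := 0x9f66aa8c44aa53cee6192305852e

theorem V16_ok : V16.all (fun e => isAutN e && Nat.beq (compN e e) idN) = true := by decide +kernel

theorem V16_len : V16.length = 16 := by decide +kernel

theorem V16_pts : allBelow (fun i => bif octad0.testBit i then V16.all (fun e => Nat.beq (imgN e i) i)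
    else (V16.map fun e => imgN e i).isPerm compL) 24 = true := by decide +kernel

theorem compO_bit : allBelow (fun i => (compO.testBit i) == (!octad0.testBit i)) 24 = true := by
  decide +kernel

theorem compO_eq : ∀ p : GolayPt, p ∈ supFin compO ↔ p ∈ (compL.map idxPt).toFinset := by decide +kernel

theorem compL_nodup : (compL.map idxPt).Nodup := by decide +kernel

theorem dec_all : ∀ p : GolayPt, dec 16777215 p = 1 := by decide +kernel

theorem dec_all' : dec 16777215 = 1 := funext dec_all

theorem bB_ok : bB.all (fun b => isOctad b && isCode (16777215 ^^^ b)) = true := by decide +kernel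

theorem bB_odd : allBelow (fun r => Nat.beq r 0 || bB.any fun b => Nat.beq (hwF (r &&& (16777215 ^^^ b)) % 2) 1) 4096 = true := by
  decide +kernel

theorem data_ok : (isOctad oA1 && isOctad oA2 && Nat.beq (oA1 ^^^ oA2) dod0 && isOctad octad0 && isOctad oT2 && isOctad oT3 &&
    Nat.beq (octad0 ^^^ oT2 ^^^ oT3) 16777215) = true := by decide +kernel

theorem e1_ok : (isAutN e1 && isOctad (permMask (dL e1) dod0 ^^^ dod0)) = true := by decide +kernel

theorem e2_ok : (isAutN e2 && isOctad (permMask (dL e2) octad0 ^^^ octad0)) = true := by decide +kernel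

/-! ### Inner products -/

/-- The inner product. -/
def dotW (x y : GolayPt → ZMod 2) : ZMod 2 := ∑ p, x p * y p

theorem dotW_comm (x y : GolayPt → ZMod 2) : dotW x y = dotW y x := by
  simp only [dotW, mul_comm]

theorem dotW_add_left (a b c : GolayPt → ZMod 2) : dotW (a + b) c = dotW a c + dotW b c := by
  simp only [dotW, Pi.add_apply, add_mul, Finset.sum_add_distrib]

theorem dotW_mapWord (g : Equiv.Perm GolayPt) (x y : GolayPt → ZMod 2) :
    dotW (mapWord g x) (mapWord g y) = dotW x y :=
  Equiv.sum_comp g⁻¹ (fun p => x p * y p)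

theorem dec_mul_dec (a b : ℕ) (p : GolayPt) : dec a p * dec b p = dec (a &&& b) p := by
  simp only [dec, Nat.testBit_and]
  cases a.testBit (ptIdx p) <;> cases b.testBit (ptIdx p) <;> simp

theorem sum_dec (m : ℕ) : ∑ p, dec m p = ((hw 24 m : ℕ) : ZMod 2) := by
  rw [← card_supFin]
  simp only [dec, supFin]
  rw [Finset.sum_boole]

theorem dot_dec (a b : ℕ) : dotW (dec a) (dec b) = ((hw 24 (a &&& b) : ℕ) : ZMod 2) := by
  rw [← sum_dec]
  exact Finset.sum_congr rfl fun p _ => dec_mul_dec a b p

theorem supFin_xor (a b : ℕ) : supFin (a ^^^ b) = symmDiff (supFin a) (supFin b) := by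
  ext p
  rw [Finset.mem_symmDiff]
  simp only [mem_supFin, Nat.testBit_xor]
  cases a.testBit (ptIdx p) <;> cases b.testBit (ptIdx p) <;> simp

theorem dot_code {a b : ℕ} (ha : isCode a = true) (hb : isCode b = true) : dotW (dec a) (dec b) = 0 := by
  have h1 := dec_mem_of_isCode ha
  have h2 := dec_mem_of_isCode hb
  have h3 : dec (a ^^^ b) ∈ golayCode := by
    rw [dec_xor]
    exact Submodule.add_mem _ h1 h2
  have h4 : ∀ {n : ℕ}, (n = 0 ∨ n = 8 ∨ n = 12 ∨ n = 16 ∨ n = 24) → n % 4 = 0 := by
    intro n h
    rcases h with rfl | rfl | rfl | rfl | rfl <;> rfl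
  have wa := h4 (weights_of_mem h1)
  have wb := h4 (weights_of_mem h2)
  have wc := h4 (weights_of_mem h3)
  rw [hammingNorm_dec] at wa wb wc
  have h5 := card_symmDiff_add (supFin a) (supFin b)
  rw [← supFin_xor, card_supFin, card_supFin, card_supFin, card_supFin_inter] at h5
  rw [dot_dec, ZMod.natCast_eq_zero_iff]
  omega

theorem dotW_dec_eq_sum (w : GolayPt → ZMod 2) (m : ℕ) : dotW w (dec m) = ∑ p ∈ supFin m, w p := by
  rw [supFin, Finset.sum_filter]
  refine Finset.sum_congr rfl fun p _ => ?_
  by_cases h : m.testBit (ptIdx p) = true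
  · simp [dec, h]
  · simp [dec, h]

/-- The sum over the complement. -/
def SS (w : GolayPt → ZMod 2) : ZMod 2 := (compL.map fun n => w (idxPt n)).sum

theorem SS_eq (w : GolayPt → ZMod 2) : SS w = dotW w (dec compO) := by
  classical
  have h1 : supFin compO = (compL.map idxPt).toFinset := Finset.ext compO_eq
  rw [dotW_dec_eq_sum, h1, List.sum_toFinset _ compL_nodup, List.map_map]
  rfl

/-! ### The sum over the group of order `16` -/

/-- The sum over the group. -/
noncomputable def sumW (w : GolayPt → ZMod 2) : GolayPt → ZMod 2 := (V16.map fun e => mapWord (pN e) w).sum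

theorem list_sum_apply (l : List (GolayPt → ZMod 2)) (p : GolayPt) : l.sum p = (l.map fun f => f p).sum := by
  induction l with
  | nil => rfl
  | cons a l ih => simp [ih]

theorem V16_mem {e : ℕ} (he : e ∈ V16) : Ok e ∧ pN e ∈ M24 ∧ (pN e)⁻¹ = pN e := by
  have h := List.all_eq_true.mp V16_ok e he
  simp only [Bool.and_eq_true] at h
  have hO := isAutN_ok h.1
  refine ⟨hO, isAutN_mem h.1, ?_⟩
  have h2 : pN e * pN e = 1 := by
    rw [← pN_comp hO hO, Nat.eq_of_beq_eq_true h.2, pN_idN]
  exact inv_eq_of_mul_eq_one_left h2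

theorem mapWord_V {e : ℕ} (he : e ∈ V16) (w : GolayPt → ZMod 2) (p : GolayPt) :
    mapWord (pN e) w p = w (idxPt (imgN e (ptIdx p))) := by
  obtain ⟨h1, -, h3⟩ := V16_mem he
  show w ((pN e)⁻¹ p) = _
  rw [h3, ← ptIdx_pN h1, idxPt_ptIdx]

theorem sumW_apply (w : GolayPt → ZMod 2) (p : GolayPt) :
    sumW w p = ((V16.map fun e => imgN e (ptIdx p)).map fun n => w (idxPt n)).sum := by
  rw [sumW, list_sum_apply, List.map_map, List.map_map]
  congr 1
  apply List.map_congr_left
  intro e he
  exact mapWord_V he w p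

theorem sumW_eq {w : GolayPt → ZMod 2} (h : SS w = 1) : sumW w = dec compO := by
  funext p
  have hi := ptIdx_lt p
  have h1 := allBelow_spec V16_pts _ hi
  have h2 := allBelow_spec compO_bit _ hi
  have h2' : compO.testBit (ptIdx p) = !octad0.testBit (ptIdx p) := beq_iff_eq.mp h2
  rw [sumW_apply]
  cases hb : octad0.testBit (ptIdx p) with
  | true =>
    rw [hb] at h1 h2'
    simp only [cond_true, List.all_eq_true] at h1
    have h3 : (V16.map fun e => imgN e (ptIdx p)) = V16.map fun _ => ptIdx p :=
      List.map_congr_left fun e he => Nat.eq_of_beq_eq_true (h1 e he)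
    rw [h3, List.map_map]
    simp only [Function.comp_def, List.map_const', List.sum_replicate, V16_len]
    rw [dec]
    simp only [h2']
    have : (16 : ℕ) • w (idxPt (ptIdx p)) = 0 := by
      generalize w (idxPt (ptIdx p)) = a
      revert a
      decide
    rw [this]
    simp
  | false =>
    rw [hb] at h1 h2'
    simp only [cond_false] at h1
    have h3 := List.isPerm_iff.mp h1
    rw [(h3.map _).sum_eq]
    have h4 : (compL.map fun n => w (idxPt n)).sum = 1 := h
    rw [h4, dec]
    simp [h2']

/-! ### Invariant subspaces -/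

/-- Invariant subspaces. -/
def Inv (W : Submodule (ZMod 2) (GolayPt → ZMod 2)) : Prop := ∀ σ ∈ M24, ∀ w ∈ W, mapWord σ w ∈ W

theorem sumW_mem {W : Submodule (ZMod 2) (GolayPt → ZMod 2)} (hW : Inv W) {w : GolayPt → ZMod 2} (hw : w ∈ W) :
    sumW w ∈ W := by
  apply list_sum_mem
  intro x hx
  obtain ⟨e, he, rfl⟩ := List.mem_map.mp hx
  exact hW _ (V16_mem he).2.1 _ hw

theorem mapWord_one_word (g : Equiv.Perm GolayPt) : mapWord g (1 : GolayPt → ZMod 2) = 1 := rfl

theorem add_self_word (a : GolayPt → ZMod 2) : a + a = 0 := by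
  funext p
  exact CharTwo.add_self_eq_zero _

theorem code_le_of_octad {W : Submodule (ZMod 2) (GolayPt → ZMod 2)} (hW : Inv W) {u : GolayPt → ZMod 2}
    (hu : u ∈ W) (hO : support₂ u ∈ octads) : golayCode ≤ W := by
  have hall : ∀ {v : GolayPt → ZMod 2}, support₂ v ∈ octads → v ∈ W := by
    intro v hv
    obtain ⟨c, hc, he⟩ := exists_map_octad hO hv
    have : mapWord c u = v := by
      apply support_inj
      rw [support_mapWord, he]
    rw [← this]
    exact hW c hc u hu
  have hdata := data_ok
  simp only [Bool.and_eq_true] at hdata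
  obtain ⟨⟨⟨⟨⟨⟨h1, h2⟩, h3⟩, h4⟩, h5⟩, h6⟩, h7⟩ := hdata
  have hdec : ∀ {m : ℕ}, isOctad m = true → dec m ∈ W := by
    intro m hm
    apply hall
    rw [support_dec]
    exact supFin_mem_octads hm
  have hone : (1 : GolayPt → ZMod 2) ∈ W := by
    rw [← dec_all', ← Nat.eq_of_beq_eq_true h7, dec_xor, dec_xor]
    exact Submodule.add_mem _ (Submodule.add_mem _ (hdec h4) (hdec h5)) (hdec h6)
  have hdod : dec dod0 ∈ W := by
    rw [← Nat.eq_of_beq_eq_true h3, dec_xor]
    exact Submodule.add_mem _ (hdec h1) (hdec h2)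
  intro x hx
  have hsup : ∀ {v : GolayPt → ZMod 2}, v ∈ golayCode → support₂ v ∈ supports (golayCode : Set (GolayPt → ZMod 2)) :=
    fun hv => ⟨_, hv, rfl⟩
  have hnorm : ∀ v : GolayPt → ZMod 2, hammingNorm v = (support₂ v).card := fun v => rfl
  have hzero : ∀ v : GolayPt → ZMod 2, (support₂ v).card = 0 → v = 0 := by
    intro v hv
    rw [← hnorm] at hv
    exact hammingNorm_eq_zero.mp hv
  have hx1 : x + 1 ∈ golayCode := Submodule.add_mem _ hx one_mem_code
  have hc := card_support_add_one x
  rcases weights_of_mem hx with h | h | h | h | h <;> rw [hnorm] at h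
  · rw [hzero x h]
    exact Submodule.zero_mem _
  · exact hall ⟨hsup hx, h⟩
  · obtain ⟨g, hg, he⟩ := exists_map_dod0 (d := support₂ x) ⟨hsup hx, h⟩
    have : mapWord g (dec dod0) = x := by
      apply support_inj
      rw [support_mapWord, support_dec, he]
    rw [← this]
    exact hW g hg _ hdod
  · have h8 : x + 1 ∈ W := hall ⟨hsup hx1, by omega⟩
    exact (Submodule.add_mem_iff_left _ hone).mp h8
  · have h8 : x + 1 = 0 := hzero _ (by omega)
    have h9 : x = 1 := by
      have : x + 1 + 1 = 1 := by rw [h8, zero_add]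
      rwa [add_assoc, add_self_word, add_zero] at this
    rw [h9]
    exact hone

/-- A word `1 + octad` gives the code. -/
theorem code_le_of_y0 {W : Submodule (ZMod 2) (GolayPt → ZMod 2)} (hW : Inv W) (h : dec octad0 + 1 ∈ W) :
    golayCode ≤ W := by
  have he := e2_ok
  simp only [Bool.and_eq_true] at he
  have hO := isAutN_ok he.1
  have h1 := hW _ (isAutN_mem he.1) _ h
  have h2 := Submodule.add_mem _ h1 h
  have h3 : mapWord (pN e2) (dec octad0 + 1) + (dec octad0 + 1) = dec (permMask (dL e2) octad0 ^^^ octad0) := by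
    rw [mapWord_add, mapWord_one_word, mapWord_pN hO, dec_xor]
    have : dec (permMask (dL e2) octad0) + 1 + (dec octad0 + 1) =
        dec (permMask (dL e2) octad0) + dec octad0 + (1 + 1) := by abel
    rw [this, add_self_word, add_zero]
  rw [h3] at h2
  exact code_le_of_octad hW h2 (by rw [support_dec]; exact supFin_mem_octads he.2)

theorem code_le_of_code {W : Submodule (ZMod 2) (GolayPt → ZMod 2)} (hW : Inv W) {x : GolayPt → ZMod 2}
    (hx : x ∈ W) (hxC : x ∈ golayCode) (h0 : x ≠ 0) (h1 : x ≠ 1) : golayCode ≤ W := by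
  have hsup : ∀ {v : GolayPt → ZMod 2}, v ∈ golayCode → support₂ v ∈ supports (golayCode : Set (GolayPt → ZMod 2)) :=
    fun hv => ⟨_, hv, rfl⟩
  have hnorm : ∀ v : GolayPt → ZMod 2, hammingNorm v = (support₂ v).card := fun v => rfl
  have hzero : ∀ v : GolayPt → ZMod 2, (support₂ v).card = 0 → v = 0 := by
    intro v hv
    rw [← hnorm] at hv
    exact hammingNorm_eq_zero.mp hv
  have hx1 : x + 1 ∈ golayCode := Submodule.add_mem _ hxC one_mem_code
  have hc := card_support_add_one x
  rcases weights_of_mem hxC with h | h | h | h | h <;> rw [hnorm] at h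
  · exact absurd (hzero x h) h0
  · exact code_le_of_octad hW hx ⟨hsup hxC, h⟩
  · obtain ⟨g, hg, he⟩ := exists_map_dod0 (d := support₂ x) ⟨hsup hxC, h⟩
    have h2 : mapWord g⁻¹ x = dec dod0 := by
      apply support_inj
      rw [support_mapWord, support_dec, ← he, inv_smul_smul]
    have h3 : dec dod0 ∈ W := by
      rw [← h2]
      exact hW _ (inv_mem hg) _ hx
    have he1 := e1_ok
    simp only [Bool.and_eq_true] at he1
    have hO := isAutN_ok he1.1
    have h4 := Submodule.add_mem _ (hW _ (isAutN_mem he1.1) _ h3) h3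
    rw [mapWord_pN hO, ← dec_xor] at h4
    exact code_le_of_octad hW h4 (by rw [support_dec]; exact supFin_mem_octads he1.2)
  · -- the complement of an octad
    obtain ⟨c, hc', he⟩ := exists_map_octad (o := support₂ (x + 1)) ⟨hsup hx1, by omega⟩ octad0_mem
    have h2 : mapWord c (x + 1) = dec octad0 := by
      apply support_inj
      rw [support_mapWord, support_dec, he]
    have h3 : mapWord c x = dec octad0 + 1 := by
      rw [← h2, mapWord_add, mapWord_one_word, add_assoc, add_self_word, add_zero]
    apply code_le_of_y0 hW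
    rw [← h3]
    exact hW c hc' x hx
  · exfalso
    have h8 : x + 1 = 0 := hzero _ (by omega)
    apply h1
    have : x + 1 + 1 = 1 := by rw [h8, zero_add]
    rwa [add_assoc, add_self_word, add_zero] at this

/-- A word outside the code has an odd product with some word of the code. -/
theorem exists_odd {w : GolayPt → ZMod 2} (hw : w ∉ golayCode) :
    ∃ b ∈ bB, dotW w (dec (16777215 ^^^ b)) = 1 := by
  obtain ⟨n, hn, rfl⟩ := exists_dec w
  obtain ⟨c, r, hc, hr, rfl⟩ := split_word hn
  have hcC : dec c ∈ golayCode := dec_mem_of_isCode hc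
  have hr0 : r ≠ 0 := by
    rintro rfl
    apply hw
    simpa using hcC
  have h1 := allBelow_spec bB_odd r hr
  have h2 : Nat.beq r 0 = false := by
    rw [← Bool.not_eq_true, Nat.beq_eq]
    exact hr0
  simp only [h2, Bool.false_or] at h1
  obtain ⟨b, hb, hodd⟩ := List.any_eq_true.mp h1
  refine ⟨b, hb, ?_⟩
  have hk := List.all_eq_true.mp bB_ok b hb
  simp only [Bool.and_eq_true] at hk
  rw [dec_xor, dotW_add_left, dot_code hc hk.2, add_zero, dot_dec, ← hwF_eq, ← ZMod.natCast_mod,
    Nat.eq_of_beq_eq_true hodd]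
  rfl

theorem comp_word (b : ℕ) : dec (16777215 ^^^ b) = 1 + dec b := by
  rw [dec_xor, dec_all']

theorem code_le {W : Submodule (ZMod 2) (GolayPt → ZMod 2)} (hW : Inv W) {x : GolayPt → ZMod 2}
    (hx : x ∈ W) (h0 : x ≠ 0) (h1 : x ≠ 1) : golayCode ≤ W := by
  by_cases hxC : x ∈ golayCode
  · exact code_le_of_code hW hx hxC h0 h1
  · obtain ⟨b, hb, hodd⟩ := exists_odd hxC
    have hk := List.all_eq_true.mp bB_ok b hb
    simp only [Bool.and_eq_true] at hk
    obtain ⟨c, hc, he⟩ := exists_map_octad (supFin_mem_octads hk.1) octad0_mem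
    have h2 : mapWord c (dec b) = dec octad0 := by
      apply support_inj
      rw [support_mapWord, support_dec, support_dec, he]
    have h3 : mapWord c (dec (16777215 ^^^ b)) = dec compO := by
      rw [comp_word, mapWord_add, mapWord_one_word, h2, compO, comp_word]
    have h4 : SS (mapWord c x) = 1 := by
      rw [SS_eq, ← h3, dotW_mapWord]
      exact hodd
    have h5 := sumW_mem hW (hW c hc x hx)
    rw [sumW_eq h4, compO, comp_word, add_comm] at h5
    exact code_le_of_y0 hW h5

/-- Words orthogonal to the code lie in the code. -/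
theorem mem_code_of_perp {w : GolayPt → ZMod 2} (h : ∀ u ∈ golayCode, dotW w u = 0) : w ∈ golayCode := by
  by_contra hw
  obtain ⟨b, hb, hodd⟩ := exists_odd hw
  have hk := List.all_eq_true.mp bB_ok b hb
  simp only [Bool.and_eq_true] at hk
  rw [h _ (dec_mem_of_isCode hk.2)] at hodd
  exact zero_ne_one hodd

/-- The orthogonal space. -/
def perpW (W : Submodule (ZMod 2) (GolayPt → ZMod 2)) : Submodule (ZMod 2) (GolayPt → ZMod 2) where
  carrier := {y | ∀ w ∈ W, dotW y w = 0}
  add_mem' := by
    intro a b ha hb w hw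
    rw [dotW_add_left, ha w hw, hb w hw, add_zero]
  zero_mem' := by
    intro w _
    simp [dotW]
  smul_mem' := by
    intro c a ha w hw
    have h1 : dotW (c • a) w = c * dotW a w := by
      simp only [dotW, Pi.smul_apply, smul_eq_mul, Finset.mul_sum, mul_assoc]
    rw [h1, ha w hw, mul_zero]

theorem perpW_inv {W : Submodule (ZMod 2) (GolayPt → ZMod 2)} (hW : Inv W) : Inv (perpW W) := by
  intro σ hσ y hy w hw
  have h1 := dotW_mapWord σ y (mapWord σ⁻¹ w)
  rw [mapWord_mapWord_inv] at h1
  rw [h1]
  exact hy _ (hW _ (inv_mem hσ) _ hw)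

/-- The even words lie in an invariant subspace which contains the code properly. -/
theorem even_mem {W : Submodule (ZMod 2) (GolayPt → ZMod 2)} (hW : Inv W) (hC : golayCode ≤ W) (hne : W ≠ golayCode)
    {v : GolayPt → ZMod 2} (hv : ∑ p, v p = 0) : v ∈ W := by
  classical
  by_contra hvW
  obtain ⟨f, hf, hmap⟩ := Submodule.exists_dual_map_eq_bot_of_notMem hvW inferInstance
  let y : GolayPt → ZMod 2 := fun p => f fun j => if p = j then 1 else 0
  have hfy : ∀ z, f z = dotW z y := by
    intro z
    rw [LinearMap.pi_apply_eq_sum_univ f z]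
    rfl
  have hy : y ∈ perpW W := by
    intro w hw
    rw [dotW_comm, ← hfy]
    have : f w ∈ W.map f := Submodule.mem_map_of_mem hw
    rw [hmap] at this
    exact (Submodule.mem_bot _).mp this
  by_cases h0 : y = 0
  · apply hf
    rw [hfy, h0]
    simp [dotW]
  by_cases h1 : y = 1
  · apply hf
    rw [hfy, h1]
    simpa [dotW] using hv
  have h2 := code_le (perpW_inv hW) hy h0 h1
  apply hne
  apply le_antisymm _ hC
  intro w hw
  apply mem_code_of_perp
  intro u hu
  rw [dotW_comm]
  exact h2 hu w hw

/-- The statement. -/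
theorem main5548 (W : Submodule (ZMod 2) (GolayPt → ZMod 2))
    (hW : ∀ σ ∈ M24, ∀ w ∈ W, (fun p => w (σ.symm p)) ∈ W) :
    W = ⊥ ∨ W = Submodule.span (ZMod 2) {fun _ => (1 : ZMod 2)} ∨ W = golayCode ∨
      (W : Set (GolayPt → ZMod 2)) = {w | ∑ p, w p = 0} ∨ W = ⊤ := by
  have hI : Inv W := hW
  by_cases hall : ∀ x ∈ W, x = 0 ∨ x = 1
  · by_cases h1 : (1 : GolayPt → ZMod 2) ∈ W
    · right; left
      apply le_antisymm
      · intro x hx
        rcases hall x hx with rfl | rfl
        · exact Submodule.zero_mem _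
        · exact Submodule.mem_span_singleton_self _
      · rw [Submodule.span_le]
        intro z hz
        rw [Set.mem_singleton_iff] at hz
        rw [hz]
        exact h1
    · left
      rw [Submodule.eq_bot_iff]
      intro x hx
      rcases hall x hx with h | h
      · exact h
      · rw [h] at hx
        exact absurd hx h1
  · push Not at hall
    obtain ⟨x, hx, h0, h1⟩ := hall
    have hC := code_le hI hx h0 h1
    by_cases hWC : W = golayCode
    · right; right; left
      exact hWC
    · have hE : ∀ v : GolayPt → ZMod 2, ∑ p, v p = 0 → v ∈ W := fun v hv => even_mem hI hC hWC hv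
      right; right; right
      by_cases hodd : ∃ w ∈ W, ∑ p, w p ≠ 0
      · right
        obtain ⟨w, hw, hs⟩ := hodd
        rw [eq_top_iff]
        intro v _
        by_cases hv : ∑ p, v p = 0
        · exact hE v hv
        · have h2 : ∀ a : ZMod 2, a ≠ 0 → a = 1 := by decide
          have h3 : ∑ p, (v + w) p = 0 := by
            simp only [Pi.add_apply, Finset.sum_add_distrib]
            rw [h2 _ hv, h2 _ hs]
            decide
          exact (Submodule.add_mem_iff_left _ hw).mp (hE _ h3)
      · left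
        push Not at hodd
        ext v
        exact ⟨fun hv => hodd v hv, fun hv => hE v hv⟩

end Cfsg.Agent.Lib.GolayInvar
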