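import Mathlib
import Cfsg.Prelude.Def_SporadicCombinatorics

/-!
# The monomial automorphism group of the hexacode
-/

set_option autoImplicit false
set_option maxHeartbeats 1000000
set_option maxRecDepth 100000

namespace Cfsg.Agent.Lib.HexaMono

open Cfsg

def MASK : ℕ := 15936109640703621012752996146547452567624007270905024365018011038221850692485324561270740746450941254939322419320739101985598172768020259715960908334670033575885057798287373467775661163029513492818397235503800534144300529066610297535609585979184535653561298574200659972787938960755106975224950041905358774774402567509053140054033726118933697981023298167992359376127296493447154700525515720950481920073218405542402860021512233722597791561416840422872251943986523302195987331409109478822753007686838851328743034935700110173937536016384151022152209797616787386177940364193462243144044580679504639441708371435193478723240328002550209466620851020090052241130453400108202998835288154409138019100076475440502330193490173069219740879175789587647782078240515513035029345884450202438265290643246947196003675334081798523450300290716076459051855200496187886916677654781911455153070666641470937264148011627284351033721204138925524692498526816446989638678840133581204897183874797561855980026512046456025086024131550686483551368135784902933040555005792160154558948096275402864844131974528765259234055239994371268127507508356081506202671245876262197883489361740626226294258822557758488605950932915381609774502691439001733660959279681850797195265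
def E0 : List ℕ := [5356,5405,5475,5797,5930,5972,6315,6357,6490,6812,6882,6931,8933,9003,9052,9836,9997,10081,10333,10473,10571,10851,10956,11033,12972,13077,13154,13413,13609,13644,14442,14477,14673,14932,15009,15114,17053,17130,17235,17515,17613,17753,18005,18089,18250,19034,19083,19153,21155,21204,21274,21596,21729,21771,22114,22156,22289,22611,22681,22730]
def E1 : List ℕ := [34021,34091,34140,34476,34581,34658,34973,35050,35155,35491,35540,35610,41196,41245,41315,42533,42792,42820,43051,43205,43352,43548,43744,43779,45221,45354,45396,46124,46341,46432,47125,47272,47426,47650,47748,47888,49323,49365,49498,50205,50408,50499,50730,50821,51024,51731,51864,51906,53404,53474,53523,54307,54468,54552,54804,54944,55042,55322,55427,55504]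
def E2 : List ℕ := [66284,66333,66403,67173,67369,67404,67691,67789,67929,68188,68321,68363,69861,69931,69980,71212,71429,71520,71709,71912,72003,72227,72388,72472,77932,78093,78177,78373,78632,78660,79913,79941,80200,80396,80480,80641,82013,82153,82251,82475,82629,82776,83469,83560,83777,84505,84547,84680,86115,86220,86297,86556,86752,86787,87585,87620,87816,88075,88152,88257]
def E3 : List ℕ := [98981,99114,99156,99436,99597,99681,100437,100521,100682,100962,101004,101137,102572,102677,102754,103461,103720,103748,104490,104581,104784,104980,105120,105218,106597,106793,106828,107052,107269,107360,108557,108648,108865,109089,109124,109320,114794,114829,115025,115221,115368,115522,115753,115781,116040,117258,117328,117377,118868,118945,119050,119330,119428,119568,119820,119904,120065,120849,120898,120968]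
def E4 : List ℕ := [131755,131797,131930,132189,132329,132427,132714,132749,132945,133715,133785,133834,135325,135402,135507,136235,136389,136536,136725,136872,137026,137754,137859,137936,139371,139469,139609,139805,140008,140099,140841,140869,141128,141835,141912,142017,143445,143529,143690,143914,144005,144208,144397,144488,144705,145937,145986,146056,151642,151691,151761,152083,152216,152258,152601,152643,152776,153098,153168,153217]
def E5 : List ℕ := [164508,164578,164627,164963,165068,165145,165460,165537,165642,165978,166027,166097,168099,168148,168218,168988,169184,169219,169506,169604,169744,170003,170136,170178,172124,172257,172299,172579,172740,172824,173580,173664,173825,174105,174147,174280,176226,176268,176401,176660,176800,176898,177185,177220,177416,178186,178256,178305,180307,180377,180426,180762,180867,180944,181259,181336,181441,181777,181826,181896]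
def O0 : List ℕ := [5349,5419,5468,5804,5909,5986,6301,6378,6483,6819,6868,6938,8940,8989,9059,9829,10025,10060,10347,10445,10585,10844,10977,11019,12965,13098,13140,13420,13581,13665,14421,14505,14666,14946,14988,15121,17067,17109,17242,17501,17641,17739,18026,18061,18257,19027,19097,19146,21148,21218,21267,21603,21708,21785,22100,22177,22282,22618,22667,22737]
def O1 : List ℕ := [34028,34077,34147,34469,34602,34644,34987,35029,35162,35484,35554,35603,41189,41259,41308,42540,42757,42848,43037,43240,43331,43555,43716,43800,45228,45333,45410,46117,46376,46404,47146,47237,47440,47636,47776,47874,49309,49386,49491,50219,50373,50520,50709,50856,51010,51738,51843,51920,53411,53460,53530,54300,54496,54531,54818,54916,55056,55315,55448,55490]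
def O2 : List ℕ := [66277,66347,66396,67180,67341,67425,67677,67817,67915,68195,68300,68377,69868,69917,69987,71205,71464,71492,71723,71877,72024,72220,72416,72451,77925,78121,78156,78380,78597,78688,79885,79976,80193,80417,80452,80648,82027,82125,82265,82461,82664,82755,83497,83525,83784,84491,84568,84673,86108,86241,86283,86563,86724,86808,87564,87648,87809,88089,88131,88264]
def O3 : List ℕ := [98988,99093,99170,99429,99625,99660,100458,100493,100689,100948,101025,101130,102565,102698,102740,103468,103685,103776,104469,104616,104770,104994,105092,105232,106604,106765,106849,107045,107304,107332,108585,108613,108872,109068,109152,109313,114773,114857,115018,115242,115333,115536,115725,115816,116033,117265,117314,117384,118882,118924,119057,119316,119456,119554,119841,119876,120072,120842,120912,120961]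
def O4 : List ℕ := [131741,131818,131923,132203,132301,132441,132693,132777,132938,133722,133771,133841,135339,135381,135514,136221,136424,136515,136746,136837,137040,137747,137880,137922,139357,139497,139595,139819,139973,140120,140813,140904,141121,141849,141891,142024,143466,143501,143697,143893,144040,144194,144425,144453,144712,145930,146000,146049,151635,151705,151754,152090,152195,152272,152587,152664,152769,153105,153154,153224]
def O5 : List ℕ := [164515,164564,164634,164956,165089,165131,165474,165516,165649,165971,166041,166090,168092,168162,168211,168995,169156,169240,169492,169632,169730,170010,170115,170192,172131,172236,172313,172572,172768,172803,173601,173636,173832,174091,174168,174273,176212,176289,176394,176674,176772,176912,177164,177248,177409,178193,178242,178312,180314,180363,180433,180755,180888,180930,181273,181315,181448,181770,181840,181889]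

/-- Code of the power `ω ^ k` in the table model of the field with four elements. -/
def pw (k : ℕ) : ℕ := k % 3 + 1

/-- Multiplication in the table model. -/
def mulT (a b : ℕ) : ℕ := if a = 0 ∨ b = 0 then 0 else (a + b - 2) % 3 + 1

def K1 : ℕ := 1641
def K2 : ℕ := 1686
def K3 : ℕ := 2406

/-- Coded word. -/
def codeF (y : ℕ → ℕ) : ℕ := y 0 + 4 * (y 1 + 4 * (y 2 + 4 * (y 3 + 4 * (y 4 + 4 * y 5))))

def combD (a b d i : ℕ) : ℕ :=
  (mulT a (pw (K1 / 4 ^ i % 4))) ^^^ (mulT b (pw (K2 / 4 ^ i % 4))) ^^^ (mulT d (pw (K3 / 4 ^ i % 4)))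

def codeC (a b d : ℕ) : ℕ := codeF (combD a b d)

theorem mask_sound : (List.range 4096).all (fun n => !MASK.testBit n ||
    (List.range 64).any (fun m => codeC (m % 4) (m / 4 % 4) (m / 16 % 4) == n)) = true := by
  decide +kernel

theorem mask_complete : (List.range 64).all (fun m => MASK.testBit (codeC (m % 4) (m / 4 % 4) (m / 16 % 4))) = true := by
  decide +kernel

theorem codeF_inj {y z : ℕ → ℕ} (hy : ∀ i, y i < 4) (hz : ∀ i, z i < 4) (h : codeF y = codeF z) :
    ∀ i : Fin 6, y i = z i := by
  have h0 := hy 0; have h1 := hy 1; have h2 := hy 2; have h3 := hy 3; have h4 := hy 4; have h5 := hy 5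
  have k0 := hz 0; have k1 := hz 1; have k2 := hz 2; have k3 := hz 3; have k4 := hz 4; have k5 := hz 5
  unfold codeF at h
  intro i
  fin_cases i <;> simp only [Fin.zero_eta, Fin.mk_one, Fin.reduceFinMk, Fin.val_zero, Fin.val_one, Fin.val_two, Fin.isValue] <;>
    first
      | omega
      | (show y 3 = z 3; omega)
      | (show y 4 = z 4; omega)
      | (show y 5 = z 5; omega)

theorem codeF_congr {y z : ℕ → ℕ} (h : ∀ i : Fin 6, y i = z i) : codeF y = codeF z := by
  unfold codeF
  rw [show y 0 = z 0 from h 0, show y 1 = z 1 from h 1, show y 2 = z 2 from h 2, show y 3 = z 3 from h 3,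
    show y 4 = z 4 from h 4, show y 5 = z 5 from h 5]

section Field

variable {F : Type*} [Field F] {ω : F}

/-- The table model embedded in the field. -/
def emb (ω : F) (a : ℕ) : F := if a = 0 then 0 else if a = 1 then 1 else if a = 2 then ω else ω ^ 2

theorem emb_add (h2 : (2 : F) = 0) (hq : ω ^ 2 + ω + 1 = 0) {a b : ℕ} (ha : a < 4) (hb : b < 4) :
    emb ω (a ^^^ b) = emb ω a + emb ω b := by
  interval_cases a <;> interval_cases b <;> simp [emb] <;>
    first
      | done
      | linear_combination h2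
      | linear_combination -h2
      | linear_combination ω * h2
      | linear_combination -ω * h2
      | linear_combination ω ^ 2 * h2
      | linear_combination -ω ^ 2 * h2
      | linear_combination hq - (ω + 1) * h2
      | linear_combination -hq + (ω + 1) * h2
      | linear_combination -hq + ω * h2
      | linear_combination hq - ω * h2
      | linear_combination h2 - hq
      | linear_combination hq - h2

theorem om3 (hq : ω ^ 2 + ω + 1 = 0) : ω ^ 3 = 1 := by
  linear_combination (ω - 1) * hq

theorem emb_pw (hq : ω ^ 2 + ω + 1 = 0) (k : ℕ) : emb ω (pw k) = ω ^ k := by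
  have h3 := om3 hq
  have h1 : ω ^ k = ω ^ (k % 3) := by
    conv_lhs => rw [← Nat.div_add_mod k 3, pow_add, pow_mul, h3, one_pow, one_mul]
  rw [h1, pw]
  have h2 : k % 3 < 3 := Nat.mod_lt _ (by norm_num)
  generalize k % 3 = r at h2
  interval_cases r <;> simp [emb]

theorem emb_mul (hq : ω ^ 2 + ω + 1 = 0) {a b : ℕ} (ha : a < 4) (hb : b < 4) :
    emb ω (mulT a b) = emb ω a * emb ω b := by
  have h3 := om3 hq
  interval_cases a <;> interval_cases b <;> simp [emb, mulT] <;>
    first
      | done
      | linear_combination h3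
      | linear_combination -h3
      | ring1
      | linear_combination ω * h3
      | linear_combination -ω * h3

theorem mulT_lt (a b : ℕ) : mulT a b < 4 := by
  unfold mulT
  split_ifs
  · norm_num
  · have := Nat.mod_lt (a + b - 2) (show 3 > 0 by norm_num)
    omega

theorem pw_lt (k : ℕ) : pw k < 4 := by
  unfold pw
  have := Nat.mod_lt k (show 3 > 0 by norm_num)
  omega

theorem combD_lt (a b d i : ℕ) : combD a b d i < 4 := by
  unfold combD
  exact Nat.xor_lt_two_pow (n := 2) (Nat.xor_lt_two_pow (n := 2) (mulT_lt _ _) (mulT_lt _ _)) (mulT_lt _ _)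

theorem emb_combD (h2 : (2 : F) = 0) (hq : ω ^ 2 + ω + 1 = 0) {a b d : ℕ} (ha : a < 4) (hb : b < 4) (hd : d < 4) (i : ℕ) :
    emb ω (combD a b d i) = emb ω a * ω ^ (K1 / 4 ^ i % 4) + emb ω b * ω ^ (K2 / 4 ^ i % 4) + emb ω d * ω ^ (K3 / 4 ^ i % 4) := by
  unfold combD
  rw [emb_add h2 hq (Nat.xor_lt_two_pow (n := 2) (mulT_lt _ _) (mulT_lt _ _)) (mulT_lt _ _),
    emb_add h2 hq (mulT_lt _ _) (mulT_lt _ _), emb_mul hq ha (pw_lt _), emb_mul hq hb (pw_lt _), emb_mul hq hd (pw_lt _),
    emb_pw hq, emb_pw hq, emb_pw hq]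

theorem gen1_eq : ![ω, ω ^ 2, ω ^ 2, ω, ω ^ 2, ω] = fun i : Fin 6 => ω ^ (K1 / 4 ^ i.val % 4) := by
  funext i
  fin_cases i <;> simp [K1]

theorem gen2_eq : ![ω ^ 2, ω, ω, ω ^ 2, ω ^ 2, ω] = fun i : Fin 6 => ω ^ (K2 / 4 ^ i.val % 4) := by
  funext i
  fin_cases i <;> simp [K2]

theorem gen3_eq : ![ω ^ 2, ω, ω ^ 2, ω, ω, ω ^ 2] = fun i : Fin 6 => ω ^ (K3 / 4 ^ i.val % 4) := by
  funext i
  fin_cases i <;> simp [K3]

theorem hexa_eq : hexacode F ω = Submodule.span F {(fun i : Fin 6 => ω ^ (K1 / 4 ^ i.val % 4)),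
    (fun i : Fin 6 => ω ^ (K2 / 4 ^ i.val % 4)), (fun i : Fin 6 => ω ^ (K3 / 4 ^ i.val % 4))} := by
  unfold hexacode
  rw [gen1_eq, gen2_eq, gen3_eq]

theorem emb_inj (h2 : (2 : F) = 0) (hq : ω ^ 2 + ω + 1 = 0) {a b : ℕ} (ha : a < 4) (hb : b < 4) (h : emb ω a = emb ω b) :
    a = b := by
  have h10 : (1 : F) ≠ 0 := one_ne_zero
  have hw0 : ω ≠ 0 := by
    rintro rfl
    apply h10
    linear_combination hq
  have hw1 : ω ≠ 1 := by
    rintro rfl
    apply h10
    linear_combination hq - h2
  have hs0 : ω ^ 2 ≠ 0 := pow_ne_zero _ hw0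
  have hs1 : ω ^ 2 ≠ 1 := by
    intro h5
    apply hw0
    linear_combination hq - h5 - h2
  have hsw : ω ^ 2 ≠ ω := by
    intro h5
    apply h10
    linear_combination hq - h5 - ω * h2
  have e0 : emb ω 0 = 0 := by simp [emb]
  have e1 : emb ω 1 = 1 := by simp [emb]
  have e2 : emb ω 2 = ω := by simp [emb]
  have e3 : emb ω 3 = ω ^ 2 := by simp [emb]
  interval_cases a <;> interval_cases b <;> simp only [e0, e1, e2, e3] at h <;> first
    | rfl
    | exact absurd h h10
    | exact absurd h.symm h10
    | exact absurd h hw0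
    | exact absurd h.symm hw0
    | exact absurd h hw1
    | exact absurd h.symm hw1
    | exact absurd h hs1
    | exact absurd h.symm hs1
    | exact absurd h hsw
    | exact absurd h.symm hsw
    | exact absurd h hs0
    | exact absurd h.symm hs0

theorem emb_surj [Fintype F] (hF : Fintype.card F = 4) (h2 : (2 : F) = 0) (hq : ω ^ 2 + ω + 1 = 0) (x : F) :
    ∃ a < 4, emb ω a = x := by
  have hinj : Function.Injective (fun a : Fin 4 => emb ω a.val) := fun a b h =>
    Fin.ext (emb_inj h2 hq a.isLt b.isLt h)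
  have hbij := (Fintype.bijective_iff_injective_and_card _).mpr ⟨hinj, by simp [hF]⟩
  obtain ⟨a, rfl⟩ := hbij.2 x
  exact ⟨a.val, a.isLt, rfl⟩

theorem two_eq [Fintype F] (hF : Fintype.card F = 4) : (2 : F) = 0 := by
  have h : (Fintype.card F) • (1 : F) = 0 := by
    have := card_nsmul_eq_zero' (G := F) (x := (1 : F))
    rwa [Nat.card_eq_fintype_card] at this
  rw [hF] at h
  have h2 : (2 : F) * 2 = 0 := by
    have : (4 : ℕ) • (1 : F) = 2 * 2 := by norm_num
    rw [← this, h]
  exact mul_self_eq_zero.mp h2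

theorem mem_iff [Fintype F] (hF : Fintype.card F = 4) (hq : ω ^ 2 + ω + 1 = 0) {y : ℕ → ℕ} (hy : ∀ i, y i < 4) :
    (fun i : Fin 6 => emb ω (y i)) ∈ hexacode F ω ↔ MASK.testBit (codeF y) = true := by
  have h2 := two_eq hF
  have hcomb : ∀ {a b d : ℕ}, a < 4 → b < 4 → d < 4 → (fun i : Fin 6 => emb ω (combD a b d i)) =
      emb ω a • (fun i : Fin 6 => ω ^ (K1 / 4 ^ i.val % 4)) + emb ω b • (fun i : Fin 6 => ω ^ (K2 / 4 ^ i.val % 4)) +
        emb ω d • (fun i : Fin 6 => ω ^ (K3 / 4 ^ i.val % 4)) := by
    intro a b d ha hb hd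
    funext i
    simp only [Pi.add_apply, Pi.smul_apply, smul_eq_mul]
    exact emb_combD h2 hq ha hb hd i
  rw [hexa_eq]
  constructor
  · intro hx
    obtain ⟨α, z, hz, hxz⟩ := Submodule.mem_span_insert.mp hx
    obtain ⟨β, γ, hzz⟩ := Submodule.mem_span_pair.mp hz
    obtain ⟨a, ha, rfl⟩ := emb_surj hF h2 hq α
    obtain ⟨b, hb, rfl⟩ := emb_surj hF h2 hq β
    obtain ⟨d, hd, rfl⟩ := emb_surj hF h2 hq γ
    have h1 : (fun i : Fin 6 => emb ω (y i)) = fun i : Fin 6 => emb ω (combD a b d i) := by
      rw [hcomb ha hb hd, hxz, ← hzz, add_assoc]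
    have h3 : ∀ i : Fin 6, y i = combD a b d i := fun i =>
      emb_inj h2 hq (hy i) (combD_lt _ _ _ _) (congrFun h1 i)
    rw [codeF_congr h3]
    have h4 := List.all_eq_true.mp mask_complete (a + 4 * b + 16 * d) (List.mem_range.mpr (by omega))
    have e1 : (a + 4 * b + 16 * d) % 4 = a := by omega
    have e2 : (a + 4 * b + 16 * d) / 4 % 4 = b := by omega
    have e3 : (a + 4 * b + 16 * d) / 16 % 4 = d := by omega
    rw [e1, e2, e3] at h4
    exact h4
  · intro hm
    have hlt : codeF y < 4096 := by
      have h0 := hy 0; have h1 := hy 1; have h2 := hy 2; have h3 := hy 3; have h4 := hy 4; have h5 := hy 5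
      unfold codeF
      omega
    have h5 := List.all_eq_true.mp mask_sound (codeF y) (List.mem_range.mpr hlt)
    rw [hm] at h5
    simp only [Bool.not_true, Bool.false_or] at h5
    obtain ⟨m, -, hm2⟩ := List.any_eq_true.mp h5
    have hm3 : codeF (combD (m % 4) (m / 4 % 4) (m / 16 % 4)) = codeF y := by simpa [codeC] using hm2
    have h6 := codeF_inj (combD_lt _ _ _) hy hm3
    have h7 : (fun i : Fin 6 => emb ω (y i)) = fun i : Fin 6 => emb ω (combD (m % 4) (m / 4 % 4) (m / 16 % 4) i) := by
      funext i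
      rw [h6 i]
    rw [h7, hcomb (Nat.mod_lt _ (by norm_num)) (Nat.mod_lt _ (by norm_num)) (Nat.mod_lt _ (by norm_num))]
    refine add_mem (add_mem (Submodule.smul_mem _ _ (Submodule.subset_span ?_)) (Submodule.smul_mem _ _ (Submodule.subset_span ?_)))
      (Submodule.smul_mem _ _ (Submodule.subset_span ?_))
    · simp
    · simp
    · simp

theorem monomialMap_add {σ : Equiv.Perm (Fin 6)} {c : Fin 6 → Fˣ} (x y : Fin 6 → F) :
    monomialMap σ c (x + y) = monomialMap σ c x + monomialMap σ c y := by
  funext i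
  simp [monomialMap, mul_add]

theorem monomialMap_smul {σ : Equiv.Perm (Fin 6)} {c : Fin 6 → Fˣ} (a : F) (x : Fin 6 → F) :
    monomialMap σ c (a • x) = a • monomialMap σ c x := by
  funext i
  simp only [monomialMap, Pi.smul_apply, smul_eq_mul]
  ring

/-- It suffices to test a monomial map on the generators. -/
theorem good_iff (σ : Equiv.Perm (Fin 6)) (c : Fin 6 → Fˣ) :
    (∀ x ∈ hexacode F ω, monomialMap σ c x ∈ hexacode F ω) ↔
      (monomialMap σ c (fun i : Fin 6 => ω ^ (K1 / 4 ^ i.val % 4)) ∈ hexacode F ω ∧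
       monomialMap σ c (fun i : Fin 6 => ω ^ (K2 / 4 ^ i.val % 4)) ∈ hexacode F ω ∧
       monomialMap σ c (fun i : Fin 6 => ω ^ (K3 / 4 ^ i.val % 4)) ∈ hexacode F ω) := by
  constructor
  · intro h
    refine ⟨h _ ?_, h _ ?_, h _ ?_⟩ <;> rw [hexa_eq] <;> apply Submodule.subset_span <;> simp
  · rintro ⟨h1, h2, h3⟩ x hx
    rw [hexa_eq] at hx
    induction hx using Submodule.span_induction with
    | mem x hx1 =>
      simp only [Set.mem_insert_iff, Set.mem_singleton_iff] at hx1
      rcases hx1 with rfl | rfl | rfl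
      · exact h1
      · exact h2
      · exact h3
    | zero =>
      have : monomialMap σ c (0 : Fin 6 → F) = 0 := by
        funext i
        simp [monomialMap]
      rw [this]
      exact zero_mem _
    | add x y _ _ hx hy =>
      rw [monomialMap_add]
      exact add_mem hx hy
    | smul a x _ hx =>
      rw [monomialMap_smul]
      exact Submodule.smul_mem _ a hx

/-- The exponent digits. -/
def wordK (K t e : ℕ) : ℕ := codeF (fun i => pw (e / 3 ^ i % 3 + K / 4 ^ (t / 8 ^ i % 8) % 4))

def ok (t e : ℕ) : Bool := MASK.testBit (wordK K1 t e) && MASK.testBit (wordK K2 t e) && MASK.testBit (wordK K3 t e)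

/-- The coded inverse of a permutation. -/
def tup (σ : Equiv.Perm (Fin 6)) : ℕ :=
  (σ.symm 0).val + 8 * ((σ.symm 1).val + 8 * ((σ.symm 2).val + 8 * ((σ.symm 3).val + 8 * ((σ.symm 4).val + 8 * (σ.symm 5).val))))

theorem tup_dig (σ : Equiv.Perm (Fin 6)) (i : Fin 6) : tup σ / 8 ^ i.val % 8 = (σ.symm i).val := by
  have h0 := (σ.symm 0).isLt; have h1 := (σ.symm 1).isLt; have h2 := (σ.symm 2).isLt
  have h3 := (σ.symm 3).isLt; have h4 := (σ.symm 4).isLt; have h5 := (σ.symm 5).isLt
  have d0 : tup σ / 8 ^ 0 % 8 = (σ.symm 0).val := by unfold tup; omega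
  have d1 : tup σ / 8 ^ 1 % 8 = (σ.symm 1).val := by unfold tup; omega
  have d2 : tup σ / 8 ^ 2 % 8 = (σ.symm 2).val := by unfold tup; omega
  have d3 : tup σ / 8 ^ 3 % 8 = (σ.symm 3).val := by unfold tup; omega
  have d4 : tup σ / 8 ^ 4 % 8 = (σ.symm 4).val := by unfold tup; omega
  have d5 : tup σ / 8 ^ 5 % 8 = (σ.symm 5).val := by unfold tup; omega
  fin_cases i
  · exact d0
  · exact d1
  · exact d2
  · exact d3
  · exact d4
  · exact d5

/-- The unit attached to a digit code. -/
def unitOf (u : Fˣ) (e : ℕ) : Fin 6 → Fˣ := fun i => u ^ (e / 3 ^ i.val % 3)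

theorem monomial_eq (hq : ω ^ 2 + ω + 1 = 0) {u : Fˣ} (hu : (u : F) = ω) (σ : Equiv.Perm (Fin 6)) (e K : ℕ) :
    monomialMap σ (unitOf u e) (fun i : Fin 6 => ω ^ (K / 4 ^ i.val % 4)) =
      fun i : Fin 6 => emb ω ((fun i => pw (e / 3 ^ i % 3 + K / 4 ^ (tup σ / 8 ^ i % 8) % 4)) i.val) := by
  funext i
  simp only [monomialMap, unitOf, Units.val_pow_eq_pow_val, hu]
  rw [emb_pw hq, pow_add, tup_dig]

theorem ok_iff [Fintype F] (hF : Fintype.card F = 4) (hq : ω ^ 2 + ω + 1 = 0) {u : Fˣ} (hu : (u : F) = ω)
    (σ : Equiv.Perm (Fin 6)) (e : ℕ) :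
    (∀ x ∈ hexacode F ω, monomialMap σ (unitOf u e) x ∈ hexacode F ω) ↔ ok (tup σ) e = true := by
  rw [good_iff, monomial_eq hq hu, monomial_eq hq hu, monomial_eq hq hu]
  simp only [ok, wordK, Bool.and_eq_true, and_assoc]
  exact and_congr (mem_iff hF hq (y := fun i => pw (e / 3 ^ i % 3 + K1 / 4 ^ (tup σ / 8 ^ i % 8) % 4)) (fun i => pw_lt _))
    (and_congr (mem_iff hF hq (y := fun i => pw (e / 3 ^ i % 3 + K2 / 4 ^ (tup σ / 8 ^ i % 8) % 4)) (fun i => pw_lt _))
      (mem_iff hF hq (y := fun i => pw (e / 3 ^ i % 3 + K3 / 4 ^ (tup σ / 8 ^ i % 8) % 4)) (fun i => pw_lt _)))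

theorem unit_surj [Fintype F] (hF : Fintype.card F = 4) (hq : ω ^ 2 + ω + 1 = 0) {u : Fˣ} (hu : (u : F) = ω) (v : Fˣ) :
    ∃ k < 3, u ^ k = v := by
  have h2 := two_eq hF
  obtain ⟨a, ha, hv⟩ := emb_surj hF h2 hq (v : F)
  have hne : a ≠ 0 := by
    rintro rfl
    exact v.ne_zero (by rw [← hv]; simp [emb])
  refine ⟨a - 1, by omega, Units.ext ?_⟩
  rw [← hv, Units.val_pow_eq_pow_val, hu]
  interval_cases a <;> simp_all [emb]

theorem unit_inj [Fintype F] (hF : Fintype.card F = 4) (hq : ω ^ 2 + ω + 1 = 0) {u : Fˣ} (hu : (u : F) = ω) {j k : ℕ}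
    (hj : j < 3) (hk : k < 3) (h : u ^ j = u ^ k) : j = k := by
  have h2 := two_eq hF
  have h3 : emb ω (pw j) = emb ω (pw k) := by
    rw [emb_pw hq, emb_pw hq, ← hu, ← Units.val_pow_eq_pow_val, ← Units.val_pow_eq_pow_val, h]
  have h4 := emb_inj h2 hq (pw_lt _) (pw_lt _) h3
  unfold pw at h4
  omega

theorem unitOf_surj [Fintype F] (hF : Fintype.card F = 4) (hq : ω ^ 2 + ω + 1 = 0) {u : Fˣ} (hu : (u : F) = ω)
    (c : Fin 6 → Fˣ) : ∃ e < 729, c = unitOf u e := by
  choose k hk hke using fun i => unit_surj hF hq hu (c i)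
  have h0 := hk 0; have h1 := hk 1; have h2 := hk 2; have h3 := hk 3; have h4 := hk 4; have h5 := hk 5
  refine ⟨k 0 + 3 * (k 1 + 3 * (k 2 + 3 * (k 3 + 3 * (k 4 + 3 * k 5)))), by omega, ?_⟩
  funext i
  rw [unitOf, ← hke i]
  congr 1
  have hh : ∀ i : Fin 6, (k 0 + 3 * (k 1 + 3 * (k 2 + 3 * (k 3 + 3 * (k 4 + 3 * k 5))))) / 3 ^ i.val % 3 = k i := by
    intro i
    have d0 : (k 0 + 3 * (k 1 + 3 * (k 2 + 3 * (k 3 + 3 * (k 4 + 3 * k 5))))) / 3 ^ 0 % 3 = k 0 := by omega
    have d1 : (k 0 + 3 * (k 1 + 3 * (k 2 + 3 * (k 3 + 3 * (k 4 + 3 * k 5))))) / 3 ^ 1 % 3 = k 1 := by omega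
    have d2 : (k 0 + 3 * (k 1 + 3 * (k 2 + 3 * (k 3 + 3 * (k 4 + 3 * k 5))))) / 3 ^ 2 % 3 = k 2 := by omega
    have d3 : (k 0 + 3 * (k 1 + 3 * (k 2 + 3 * (k 3 + 3 * (k 4 + 3 * k 5))))) / 3 ^ 3 % 3 = k 3 := by omega
    have d4 : (k 0 + 3 * (k 1 + 3 * (k 2 + 3 * (k 3 + 3 * (k 4 + 3 * k 5))))) / 3 ^ 4 % 3 = k 4 := by omega
    have d5 : (k 0 + 3 * (k 1 + 3 * (k 2 + 3 * (k 3 + 3 * (k 4 + 3 * k 5))))) / 3 ^ 5 % 3 = k 5 := by omega
    fin_cases i
    · exact d0
    · exact d1
    · exact d2
    · exact d3
    · exact d4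
    · exact d5
  exact (hh i).symm

theorem unitOf_inj [Fintype F] (hF : Fintype.card F = 4) (hq : ω ^ 2 + ω + 1 = 0) {u : Fˣ} (hu : (u : F) = ω)
    {e e' : ℕ} (he : e < 729) (he' : e' < 729) (h : unitOf u e = unitOf u e') : e = e' := by
  have hd : ∀ i : Fin 6, e / 3 ^ i.val % 3 = e' / 3 ^ i.val % 3 := fun i =>
    unit_inj hF hq hu (Nat.mod_lt _ (by norm_num)) (Nat.mod_lt _ (by norm_num)) (congrFun h i)
  have h0 := hd 0; have h1 := hd 1; have h2 := hd 2; have h3 := hd 3; have h4 := hd 4; have h5 := hd 5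
  have h0' : e / 3 ^ 0 % 3 = e' / 3 ^ 0 % 3 := h0
  have h1' : e / 3 ^ 1 % 3 = e' / 3 ^ 1 % 3 := h1
  have h2' : e / 3 ^ 2 % 3 = e' / 3 ^ 2 % 3 := h2
  have h3' : e / 3 ^ 3 % 3 = e' / 3 ^ 3 % 3 := h3
  have h4' : e / 3 ^ 4 % 3 = e' / 3 ^ 4 % 3 := h4
  have h5' : e / 3 ^ 5 % 3 = e' / 3 ^ 5 % 3 := h5
  omega

/-- The admissible digit codes for a coded permutation. -/
def goodL (t : ℕ) : List ℕ := (List.range 729).filter (ok t)

theorem goodL_nodup (t : ℕ) : (goodL t).Nodup := (List.nodup_range).filter _

theorem card_fib [Fintype F] (hF : Fintype.card F = 4) (hq : ω ^ 2 + ω + 1 = 0) {u : Fˣ} (hu : (u : F) = ω)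
    (σ : Equiv.Perm (Fin 6)) :
    Nat.card {c : Fin 6 → Fˣ // ∀ x ∈ hexacode F ω, monomialMap σ c x ∈ hexacode F ω} = (goodL (tup σ)).length := by
  classical
  have h1 : {c : Fin 6 → Fˣ | ∀ x ∈ hexacode F ω, monomialMap σ c x ∈ hexacode F ω} =
      (unitOf u) '' ((goodL (tup σ)).toFinset : Set ℕ) := by
    ext c
    simp only [Set.mem_setOf_eq, Set.mem_image, Finset.mem_coe, List.mem_toFinset, goodL, List.mem_filter, List.mem_range]
    constructor
    · intro hc
      obtain ⟨e, he, rfl⟩ := unitOf_surj hF hq hu c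
      exact ⟨e, ⟨he, (ok_iff hF hq hu σ e).mp hc⟩, rfl⟩
    · rintro ⟨e, ⟨-, he⟩, rfl⟩
      exact (ok_iff hF hq hu σ e).mpr he
  have h2 : Set.InjOn (unitOf u) ((goodL (tup σ)).toFinset : Set ℕ) := by
    intro a ha b hb hab
    simp only [Finset.mem_coe, List.mem_toFinset, goodL, List.mem_filter, List.mem_range] at ha hb
    exact unitOf_inj hF hq hu ha.1 hb.1 hab
  rw [← Set.coe_setOf, Nat.card_coe_set_eq, h1, Set.InjOn.ncard_image h2, Set.ncard_coe_finset,
    List.toFinset_card_of_nodup (goodL_nodup _)]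

end Field

def signChk (σ : Equiv.Perm (Fin 6)) : Bool :=
  if Equiv.Perm.sign σ = 1 then
    E0.contains (tup σ) || E1.contains (tup σ) || E2.contains (tup σ) || E3.contains (tup σ) || E4.contains (tup σ) || E5.contains (tup σ)
  else
    O0.contains (tup σ) || O1.contains (tup σ) || O2.contains (tup σ) || O3.contains (tup σ) || O4.contains (tup σ) || O5.contains (tup σ)

theorem chk_sign0 : ∀ σ : Equiv.Perm (Fin 6), signChk σ = true := by
  decide +kernel

theorem chk_sign (σ : Equiv.Perm (Fin 6)) : (Equiv.Perm.sign σ = 1 → tup σ ∈ E0 ∨ tup σ ∈ E1 ∨ tup σ ∈ E2 ∨ tup σ ∈ E3 ∨ tup σ ∈ E4 ∨ tup σ ∈ E5) ∧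
    (Equiv.Perm.sign σ ≠ 1 → tup σ ∈ O0 ∨ tup σ ∈ O1 ∨ tup σ ∈ O2 ∨ tup σ ∈ O3 ∨ tup σ ∈ O4 ∨ tup σ ∈ O5) := by
  have h := chk_sign0 σ
  unfold signChk at h
  constructor
  · intro hs
    rw [if_pos hs] at h
    simpa [or_assoc] using h
  · intro hs
    rw [if_neg hs] at h
    simpa [or_assoc] using h

theorem chk_sum : (∑ σ : Equiv.Perm (Fin 6), if Equiv.Perm.sign σ = 1 then 3 else 0) = 1080 := by
  decide +kernel

theorem chkE0 : E0.all (fun t => (goodL t).length == 3) = true := by
  decide +kernel

theorem chkE1 : E1.all (fun t => (goodL t).length == 3) = true := by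
  decide +kernel

theorem chkE2 : E2.all (fun t => (goodL t).length == 3) = true := by
  decide +kernel

theorem chkE3 : E3.all (fun t => (goodL t).length == 3) = true := by
  decide +kernel

theorem chkE4 : E4.all (fun t => (goodL t).length == 3) = true := by
  decide +kernel

theorem chkE5 : E5.all (fun t => (goodL t).length == 3) = true := by
  decide +kernel

theorem chkO0 : O0.all (fun t => (goodL t).length == 0) = true := by
  decide +kernel

theorem chkO1 : O1.all (fun t => (goodL t).length == 0) = true := by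
  decide +kernel

theorem chkO2 : O2.all (fun t => (goodL t).length == 0) = true := by
  decide +kernel

theorem chkO3 : O3.all (fun t => (goodL t).length == 0) = true := by
  decide +kernel

theorem chkO4 : O4.all (fun t => (goodL t).length == 0) = true := by
  decide +kernel

theorem chkO5 : O5.all (fun t => (goodL t).length == 0) = true := by
  decide +kernel


theorem chk_id : goodL 181896 = [0, 364, 728] := by
  decide +kernel

theorem tup_one : tup 1 = 181896 := by decide

theorem len_even {σ : Equiv.Perm (Fin 6)} (h : Equiv.Perm.sign σ = 1) : (goodL (tup σ)).length = 3 := by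
  have h1 := (chk_sign σ).1 h
  have key : ∀ L : List ℕ, L.all (fun t => (goodL t).length == 3) = true → tup σ ∈ L → (goodL (tup σ)).length = 3 := by
    intro L hL hm
    simpa using List.all_eq_true.mp hL _ hm
  rcases h1 with h1 | h1 | h1 | h1 | h1 | h1
  · exact key _ chkE0 h1
  · exact key _ chkE1 h1
  · exact key _ chkE2 h1
  · exact key _ chkE3 h1
  · exact key _ chkE4 h1
  · exact key _ chkE5 h1

theorem len_odd {σ : Equiv.Perm (Fin 6)} (h : Equiv.Perm.sign σ ≠ 1) : (goodL (tup σ)).length = 0 := by
  have h1 := (chk_sign σ).2 h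
  have key : ∀ L : List ℕ, L.all (fun t => (goodL t).length == 0) = true → tup σ ∈ L → (goodL (tup σ)).length = 0 := by
    intro L hL hm
    simpa using List.all_eq_true.mp hL _ hm
  rcases h1 with h1 | h1 | h1 | h1 | h1 | h1
  · exact key _ chkO0 h1
  · exact key _ chkO1 h1
  · exact key _ chkO2 h1
  · exact key _ chkO3 h1
  · exact key _ chkO4 h1
  · exact key _ chkO5 h1

section Main

variable (F : Type*) [Field F] [Fintype F]

theorem main1611 (hF : Fintype.card F = 4) (ω : F) (hω : ω ^ 2 + ω + 1 = 0) :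
    Nat.card {f : Equiv.Perm (Fin 6) × (Fin 6 → Fˣ) // (∀ x ∈ hexacode F ω, monomialMap f.1 f.2 x ∈ hexacode F ω)} = 1080 ∧
    (∀ c : Fin 6 → Fˣ, (∀ x ∈ hexacode F ω, monomialMap 1 c x ∈ hexacode F ω) → ∀ i j, c i = c j) ∧
    {σ : Equiv.Perm (Fin 6) | ∃ c : Fin 6 → Fˣ, (∀ x ∈ hexacode F ω, monomialMap σ c x ∈ hexacode F ω)} =
      (alternatingGroup (Fin 6) : Set (Equiv.Perm (Fin 6))) := by
  classical
  have h2 := two_eq hF
  have hw0 : ω ≠ 0 := by
    rintro rfl
    apply one_ne_zero (α := F)
    linear_combination hω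
  obtain ⟨u, hu⟩ : ∃ u : Fˣ, (u : F) = ω := ⟨Units.mk0 ω hw0, rfl⟩
  have hfib := fun σ => card_fib hF hω hu σ
  refine ⟨?_, ?_, ?_⟩
  · rw [Nat.card_congr (Equiv.subtypeProdEquivSigmaSubtype
      (fun (σ : Equiv.Perm (Fin 6)) (c : Fin 6 → Fˣ) => ∀ x ∈ hexacode F ω, monomialMap σ c x ∈ hexacode F ω)),
      Nat.card_sigma]
    simp only [hfib]
    rw [← chk_sum]
    refine Finset.sum_congr rfl (fun σ _ => ?_)
    split_ifs with h
    · exact len_even h
    · exact len_odd h
  · intro c hc i j
    obtain ⟨e, he, rfl⟩ := unitOf_surj hF hω hu c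
    have h1 := (ok_iff hF hω hu 1 e).mp hc
    rw [tup_one] at h1
    have h3 : e ∈ goodL 181896 := List.mem_filter.mpr ⟨List.mem_range.mpr he, h1⟩
    rw [chk_id] at h3
    simp only [List.mem_cons, List.not_mem_nil, or_false] at h3
    rcases h3 with rfl | rfl | rfl <;> fin_cases i <;> fin_cases j <;> simp [unitOf]
  · ext σ
    simp only [Set.mem_setOf_eq, SetLike.mem_coe, Equiv.Perm.mem_alternatingGroup]
    constructor
    · rintro ⟨c, hc⟩
      by_contra hs
      have h3 := len_odd hs
      obtain ⟨e, he, rfl⟩ := unitOf_surj hF hω hu c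
      have h4 := (ok_iff hF hω hu σ e).mp hc
      have h5 : e ∈ goodL (tup σ) := List.mem_filter.mpr ⟨List.mem_range.mpr he, h4⟩
      rw [List.length_eq_zero_iff] at h3
      rw [h3] at h5
      simp at h5
    · intro hs
      have h3 := len_even hs
      obtain ⟨e, he⟩ : ∃ e, e ∈ goodL (tup σ) := by
        apply List.exists_mem_of_ne_nil
        intro h0
        rw [h0] at h3
        simp at h3
      exact ⟨unitOf u e, (ok_iff hF hω hu σ e).mpr (List.mem_filter.mp he).2⟩

end Main

end Cfsg.Agent.Lib.HexaMono
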