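import Mathlib
import Cfsg.Prelude.Def_Sporadic_a
import Cfsg.Prelude.Def_SporadicCombinatorics
import Cfsg.Agent.Lib.GolayChain
import Cfsg.Agent.Lib.GolayTrans
import Cfsg.Agent.Lib.HexaMono
import Cfsg.Agent.Lib.SLn

/-!
# The three-point stabilizer in `M₂₄` is `PSL₃(4)`
-/

set_option autoImplicit false
set_option maxHeartbeats 1000000
set_option maxRecDepth 100000
set_option linter.style.haveILetI false
set_option linter.constructorNameAsVariable false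

open scoped Pointwise

namespace Cfsg.Agent.Lib.GolayM21

open Cfsg Cfsg.Agent.Lib.GolayCode Cfsg.Agent.Lib.GolayFacts Cfsg.Agent.Lib.GolayPerm
  Cfsg.Agent.Lib.GolayChain Cfsg.Agent.Lib.GolayTrans
open Cfsg.Agent.Lib.HexaMono (emb emb_add emb_mul emb_inj emb_surj two_eq mulT mulT_lt om3)

/-- Representatives of the projective points. -/
def rpL : List (List ℕ) := [[1,0,0],[0,1,0],[0,0,1],[1,1,1],[0,1,1],[0,1,2],[0,1,3],[1,0,1],[1,0,2],[1,0,3],[1,1,0],[1,1,2],[1,1,3],[1,2,0],[1,2,1],[1,2,2],[1,2,3],[1,3,0],[1,3,1],[1,3,2],[1,3,3]]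

/-- A coordinate of a representative. -/
def rp (p i : ℕ) : ℕ := (rpL.getD p []).getD i 0

/-- The labels of the projective points. -/
def lblL : List ℕ := [2,3,4,6,19,11,20,13,22,16,17,12,9,14,10,21,18,5,8,15,7]

/-- The table of labels. -/
def labT : List ℕ := [0,0,0,0,1,10,17,13,1,13,10,17,1,17,13,10,2,7,9,8,4,3,20,15,6,14,12,19,5,18,16,11,2,8,7,9,5,11,18,16,4,15,3,20,6,19,14,12,2,9,8,7,6,12,19,14,5,16,11,18,4,20,15,3]

/-- The table of scalars. -/
def scT : List ℕ := [0,1,2,3,1,1,2,3,2,1,2,3,3,1,2,3,1,1,2,3,1,1,2,3,2,1,2,3,3,1,2,3,2,1,2,3,1,1,2,3,2,1,2,3,3,1,2,3,3,1,2,3,1,1,2,3,2,1,2,3,3,1,2,3]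

/-- The label of a vector. -/
def lab (a b c : ℕ) : ℕ := labT.getD (a + 4 * b + 16 * c) 0

/-- The scalar of a vector. -/
def scl (a b c : ℕ) : ℕ := scT.getD (a + 4 * b + 16 * c) 0

theorem tabA : ∀ a b c : Fin 4, (a.val ≠ 0 ∨ b.val ≠ 0 ∨ c.val ≠ 0) →
    lab a b c < 21 ∧ scl a b c ≠ 0 ∧ scl a b c < 4 ∧
    a.val = mulT (scl a b c) (rp (lab a b c) 0) ∧ b.val = mulT (scl a b c) (rp (lab a b c) 1) ∧
    c.val = mulT (scl a b c) (rp (lab a b c) 2) := by decide +kernel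

theorem tabB : ∀ p q : Fin 21, ∀ s : Fin 4, s.val ≠ 0 →
    (rp p 0 = mulT s (rp q 0) ∧ rp p 1 = mulT s (rp q 1) ∧ rp p 2 = mulT s (rp q 2)) → p = q := by decide +kernel

theorem rp_lt : ∀ p : Fin 21, rp p 0 < 4 ∧ rp p 1 < 4 ∧ rp p 2 < 4 := by decide +kernel

theorem rp_nz : ∀ p : Fin 21, rp p 0 ≠ 0 ∨ rp p 1 ≠ 0 ∨ rp p 2 ≠ 0 := by decide +kernel

/-- The transvections as permutations. -/
def TVL : List (List ℕ) := [[0,1,2,3,4,5,6,7,8,9,10,11,12,13,14,15,16,17,18,19,20,21,22,23],[0,1,2,3,4,5,6,7,8,9,10,11,12,13,14,15,16,17,18,19,20,21,22,23],[0,1,2,3,4,5,6,7,8,9,10,11,12,13,14,15,16,17,18,19,20,21,22,23],[0,1,2,3,4,5,6,7,8,9,10,11,12,13,14,15,16,17,18,19,20,21,22,23],[0,1,2,3,4,5,6,7,8,9,10,11,12,13,14,15,16,17,18,19,20,21,22,23],[0,1,2,17,4,14,19,21,18,20,15,12,11,13,5,10,16,3,8,6,9,7,22,23],[0,1,2,5,4,3,21,19,11,10,9,8,18,13,17,20,16,14,12,7,15,6,22,23],[0,1,2,14,4,17,7,6,12,15,20,18,8,13,3,9,16,5,11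,21,10,19,22,23],[0,1,2,3,4,5,6,7,8,9,10,11,12,13,14,15,16,17,18,19,20,21,22,23],[0,1,2,3,13,5,19,21,11,15,20,8,18,4,14,9,22,17,12,6,10,7,16,23],[0,1,2,3,16,5,21,19,12,20,15,18,8,22,14,10,4,17,11,7,9,6,13,23],[0,1,2,3,22,5,7,6,18,10,9,12,11,16,14,20,13,17,8,21,15,19,4,23],[0,1,2,3,4,5,6,7,8,9,10,11,12,13,14,15,16,17,18,19,20,21,22,23],[0,1,17,3,4,14,13,18,10,16,8,11,22,6,5,21,9,2,7,19,20,15,12,23],[0,1,14,3,4,17,8,9,6,7,13,11,15,10,2,12,18,5,16,19,20,22,21,23],[0,1,5,3,4,2,10,16,13,18,6,11,21,8,17,22,7,14,9,19,20,12,15,23],[0,1,2,3,4,5,6,7,8,9,10,11,12,13,14,15,16,17,18,19,20,21,22,23],[0,1,2,3,4,5,6,7,8,9,10,11,12,13,14,15,16,17,18,19,20,21,22,23],[0,1,2,3,4,5,6,7,8,9,10,11,12,13,14,15,16,17,18,19,20,21,22,23],[0,1,2,3,4,5,6,7,8,9,10,11,12,13,14,15,16,17,18,19,20,21,22,23],[0,1,2,3,4,5,6,7,8,9,10,11,12,13,14,15,16,17,18,19,20,21,22,23],[0,1,2,3,19,5,13,16,10,18,8,20,15,6,14,12,7,17,9,4,11,22,21,23],[0,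1,2,3,20,5,8,18,6,16,13,19,21,10,14,22,9,17,7,11,4,12,15,23],[0,1,2,3,11,5,10,9,13,7,6,4,22,8,14,21,18,17,16,20,19,15,12,23],[0,1,2,3,4,5,6,7,8,9,10,11,12,13,14,15,16,17,18,19,20,21,22,23],[0,1,13,3,4,8,17,15,5,12,14,11,9,2,10,7,22,6,21,19,20,18,16,23],[0,1,22,3,4,15,9,8,7,6,18,11,17,16,21,5,13,12,10,19,20,14,2,23],[0,1,16,3,4,7,12,5,15,17,21,11,6,22,18,8,2,9,14,19,20,10,13,23],[0,1,2,3,4,5,6,7,8,9,10,11,12,13,14,15,16,17,18,19,20,21,22,23],[0,1,2,19,4,7,17,5,15,12,18,20,9,13,21,8,16,6,10,3,11,14,22,23],[0,1,2,11,4,8,9,15,5,6,21,3,17,13,18,7,16,12,14,20,19,10,22,23],[0,1,2,20,4,15,12,8,7,17,14,19,6,13,10,5,16,9,21,11,3,18,22,23],[0,1,2,3,4,5,6,7,8,9,10,11,12,13,14,15,16,17,18,19,20,21,22,23],[0,1,2,3,4,5,6,7,8,9,10,11,12,13,14,15,16,17,18,19,20,21,22,23],[0,1,2,3,4,5,6,7,8,9,10,11,12,13,14,15,16,17,18,19,20,21,22,23],[0,1,2,3,4,5,6,7,8,9,10,11,12,13,14,15,16,17,18,19,20,21,22,23]]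

/-- A transvection as a permutation. -/
def tvP (i j k : ℕ) : List ℕ := TVL.getD (12 * i + 4 * j + k) []

theorem TV_aut : ∀ i j : Fin 3, ∀ k : Fin 4, isAut (tvP i j k) = true := by decide +kernel

/-- The image tuple. -/
def wt (i j k p l : ℕ) : ℕ := if l = i then rp p l ^^^ mulT k (rp p j) else rp p l

theorem tabC : ∀ i j : Fin 3, ∀ k : Fin 4, ∀ p : Fin 21, i ≠ j →
    (wt i j k p 0 ≠ 0 ∨ wt i j k p 1 ≠ 0 ∨ wt i j k p 2 ≠ 0) ∧ wt i j k p 0 < 4 ∧ wt i j k p 1 < 4 ∧ wt i j k p 2 < 4 ∧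
    lblL.getD (lab (wt i j k p 0) (wt i j k p 1) (wt i j k p 2)) 0 = img (tvP i j k) (lblL.getD p 0) := by decide +kernel

theorem tabD : ∀ i j : Fin 3, ∀ k : Fin 4, img (tvP i j k) 23 = 23 ∧ img (tvP i j k) 0 = 0 ∧ img (tvP i j k) 1 = 1 := by
  decide +kernel

section Field

variable {F : Type*} [Field F] [Fintype F] {ω : F}

/-- The hypotheses on the field. -/
structure FF (ω : F) : Prop where
  card : Fintype.card F = 4
  two : (2 : F) = 0
  q : ω ^ 2 + ω + 1 = 0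

/-- A vector from a tuple. -/
def Vv (ω : F) (a b c : ℕ) : Fin 3 → F := ![emb ω a, emb ω b, emb ω c]

/-- A representative. -/
def R (ω : F) (p : ℕ) : Fin 3 → F := Vv ω (rp p 0) (rp p 1) (rp p 2)

theorem emb0 : emb ω 0 = 0 := by simp [emb]

theorem emb1 : emb ω 1 = 1 := by simp [emb]

theorem emb_ne (E : FF ω) {a : ℕ} (ha : a < 4) (h : a ≠ 0) : emb ω a ≠ 0 := by
  intro he
  rw [← emb0 (ω := ω)] at he
  exact h (emb_inj E.two E.q ha (by norm_num) he)

theorem V_eq (E : FF ω) {a b c : ℕ} (ha : a < 4) (hb : b < 4) (hc : c < 4) (hn : a ≠ 0 ∨ b ≠ 0 ∨ c ≠ 0) :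
    Vv ω a b c = emb ω (scl a b c) • R ω (lab a b c) := by
  obtain ⟨h1, h2, h3, h4, h5, h6⟩ := tabA ⟨a, ha⟩ ⟨b, hb⟩ ⟨c, hc⟩ hn
  simp only at h1 h2 h3 h4 h5 h6
  have hr := rp_lt ⟨lab a b c, h1⟩
  simp only at hr
  funext l
  fin_cases l
  · show emb ω a = emb ω (scl a b c) * emb ω (rp (lab a b c) 0)
    rw [← emb_mul E.q h3 hr.1, ← h4]
  · show emb ω b = emb ω (scl a b c) * emb ω (rp (lab a b c) 1)
    rw [← emb_mul E.q h3 hr.2.1, ← h5]
  · show emb ω c = emb ω (scl a b c) * emb ω (rp (lab a b c) 2)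
    rw [← emb_mul E.q h3 hr.2.2, ← h6]

theorem exists_rel (E : FF ω) (v : Fin 3 → F) (hv : v ≠ 0) : ∃ p : Fin 21, ∃ c : F, c ≠ 0 ∧ v = c • R ω p.val := by
  obtain ⟨a, ha, ea⟩ := emb_surj E.card E.two E.q (v 0)
  obtain ⟨b, hb, eb⟩ := emb_surj E.card E.two E.q (v 1)
  obtain ⟨c, hc, ec⟩ := emb_surj E.card E.two E.q (v 2)
  have h1 : v = Vv ω a b c := by
    funext l
    fin_cases l
    · exact ea.symm
    · exact eb.symm
    · exact ec.symm
  have hn : a ≠ 0 ∨ b ≠ 0 ∨ c ≠ 0 := by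
    by_contra hcon
    push Not at hcon
    obtain ⟨rfl, rfl, rfl⟩ := hcon
    apply hv
    rw [h1]
    funext l
    fin_cases l <;> exact (emb0 : emb ω 0 = 0)
  obtain ⟨h11, h12, h13, -⟩ := tabA ⟨a, ha⟩ ⟨b, hb⟩ ⟨c, hc⟩ hn
  refine ⟨⟨lab a b c, h11⟩, emb ω (scl a b c), emb_ne E h13 h12, ?_⟩
  rw [h1]
  exact V_eq E ha hb hc hn

theorem uniq (E : FF ω) {p q : Fin 21} {c d : F} (hc : c ≠ 0) (hd : d ≠ 0) (h : c • R ω p.val = d • R ω q.val) : p = q := by
  obtain ⟨s, hs, es⟩ := emb_surj E.card E.two E.q (c⁻¹ * d)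
  have hs0 : s ≠ 0 := by
    rintro rfl
    rw [emb0] at es
    exact mul_ne_zero (inv_ne_zero hc) hd es.symm
  have key : ∀ l : Fin 3, R ω p.val l = emb ω s * R ω q.val l := by
    intro l
    have := congrFun h l
    simp only [Pi.smul_apply, smul_eq_mul] at this
    rw [es]
    field_simp
    linear_combination this
  have hp := rp_lt p
  have hq' := rp_lt q
  refine tabB p q ⟨s, hs⟩ hs0 ⟨?_, ?_, ?_⟩
  · apply emb_inj E.two E.q hp.1 (mulT_lt _ _)
    rw [emb_mul E.q hs hq'.1]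
    exact key 0
  · apply emb_inj E.two E.q hp.2.1 (mulT_lt _ _)
    rw [emb_mul E.q hs hq'.2.1]
    exact key 1
  · apply emb_inj E.two E.q hp.2.2 (mulT_lt _ _)
    rw [emb_mul E.q hs hq'.2.2]
    exact key 2

abbrev SL3 (F : Type*) [Field F] := Matrix.SpecialLinearGroup (Fin 3) F

theorem mulVec_ne (A : SL3 F) {v : Fin 3 → F} (hv : v ≠ 0) : A.1.mulVec v ≠ 0 := by
  intro h
  apply hv
  have h1 := congrArg ((A⁻¹).1.mulVec) h
  rw [Matrix.mulVec_mulVec, Matrix.mulVec_zero] at h1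
  have e : (A⁻¹).1 * A.1 = 1 := by
    rw [← Matrix.SpecialLinearGroup.coe_mul, inv_mul_cancel]
    rfl
  rwa [e, Matrix.one_mulVec] at h1

theorem R_ne (E : FF ω) (p : Fin 21) : R ω p.val ≠ 0 := by
  intro h
  have hp := rp_lt p
  rcases rp_nz p with h1 | h1 | h1
  · exact emb_ne E hp.1 h1 (congrFun h 0)
  · exact emb_ne E hp.2.1 h1 (congrFun h 1)
  · exact emb_ne E hp.2.2 h1 (congrFun h 2)

/-- The action on the points. -/
noncomputable def act (E : FF ω) (A : SL3 F) (p : Fin 21) : Fin 21 :=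
  (exists_rel E _ (mulVec_ne A (R_ne E p))).choose

theorem act_spec (E : FF ω) (A : SL3 F) (p : Fin 21) :
    ∃ c : F, c ≠ 0 ∧ A.1.mulVec (R ω p.val) = c • R ω (act E A p).val :=
  (exists_rel E _ (mulVec_ne A (R_ne E p))).choose_spec

theorem act_eq (E : FF ω) {A : SL3 F} {p q : Fin 21} {c : F} (hc : c ≠ 0)
    (h : A.1.mulVec (R ω p.val) = c • R ω q.val) : act E A p = q := by
  obtain ⟨d, hd, e⟩ := act_spec E A p
  rw [h] at e
  exact (uniq E hc hd e).symm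

theorem act_one (E : FF ω) (p : Fin 21) : act E (1 : SL3 F) p = p := by
  apply act_eq E (one_ne_zero)
  rw [one_smul]
  exact Matrix.one_mulVec _

theorem act_mul (E : FF ω) (A B : SL3 F) (p : Fin 21) : act E (A * B) p = act E A (act E B p) := by
  obtain ⟨d, hd, e⟩ := act_spec E B p
  obtain ⟨c, hc, e'⟩ := act_spec E A (act E B p)
  apply act_eq E (mul_ne_zero hc hd)
  rw [Matrix.SpecialLinearGroup.coe_mul, ← Matrix.mulVec_mulVec, e, Matrix.mulVec_smul, e', smul_smul, mul_comm]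

/-- The homomorphism to permutations of the points. -/
noncomputable def rho (E : FF ω) : SL3 F →* Equiv.Perm (Fin 21) where
  toFun A := ⟨act E A, act E A⁻¹, fun p => by rw [← act_mul, inv_mul_cancel, act_one],
    fun p => by rw [← act_mul, mul_inv_cancel, act_one]⟩
  map_one' := Equiv.ext (act_one E)
  map_mul' A B := Equiv.ext (act_mul E A B)

end Field

/-- Points off the base. -/
def PP (x : GolayPt) : Prop := x ≠ idxPt 23 ∧ x ≠ idxPt 0 ∧ x ≠ idxPt 1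

instance : DecidablePred PP := fun x => by unfold PP; infer_instance

/-- The label. -/
def lbl (p : Fin 21) : GolayPt := idxPt (lblL.getD p.val 0)

theorem lbl_pp : ∀ p, PP (lbl p) := by decide +kernel

theorem lbl_inj : ∀ p q, lbl p = lbl q → p = q := by decide +kernel

theorem lbl_surj : ∀ x : GolayPt, PP x → ∃ p, lbl p = x := by decide +kernel

theorem lbl_lt : ∀ p : Fin 21, lblL.getD p.val 0 < 24 := by decide +kernel

/-- The equivalence of labels. -/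
noncomputable def ff : Fin 21 ≃ {x // PP x} :=
  Equiv.ofBijective (fun p => ⟨lbl p, lbl_pp p⟩) ⟨fun p q h => lbl_inj p q (congrArg Subtype.val h), fun x => by
    obtain ⟨p, hp⟩ := lbl_surj x.1 x.2
    exact ⟨p, Subtype.ext hp⟩⟩

section Field2

variable {F : Type*} [Field F] [Fintype F] {ω : F}

/-- The homomorphism to permutations of the 24 points. -/
noncomputable def psi (E : FF ω) : SL3 F →* Equiv.Perm GolayPt :=
  (Equiv.Perm.extendDomainHom ff).comp (rho E)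

theorem psi_lbl (E : FF ω) (A : SL3 F) (p : Fin 21) : psi E A (lbl p) = lbl (act E A p) :=
  Equiv.Perm.extendDomain_apply_image (rho E A) ff p

theorem psi_base (E : FF ω) (A : SL3 F) {x : GolayPt} (h : ¬ PP x) : psi E A x = x :=
  Equiv.Perm.extendDomain_apply_not_subtype (rho E A) ff h

theorem tv_mulVec {i j : Fin 3} (h : i ≠ j) (c : F) (v : Fin 3 → F) (l : Fin 3) :
    (Matrix.SpecialLinearGroup.transvection h c).1.mulVec v l = if l = i then v l + c * v j else v l := by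
  rw [Matrix.SpecialLinearGroup.transvection_coe]
  show ((1 + Matrix.single i j c : Matrix (Fin 3) (Fin 3) F).mulVec v) l = _
  rw [Matrix.add_mulVec, Matrix.one_mulVec, Pi.add_apply]
  fin_cases i <;> fin_cases j <;> fin_cases l <;> first
    | exact absurd rfl h
    | simp [Matrix.mulVec, dotProduct, Matrix.single_apply, Fin.sum_univ_three]

theorem tv_act (E : FF ω) {i j : Fin 3} (h : i ≠ j) (k : Fin 4) (p : Fin 21) :
    lbl (act E (Matrix.SpecialLinearGroup.transvection h (emb ω k.val)) p) =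
      idxPt (img (tvP i j k) (lblL.getD p 0)) := by
  obtain ⟨h1, h2, h3, h4, h5⟩ := tabC i j k p h
  obtain ⟨h6, h7, -⟩ := tabA ⟨_, h2⟩ ⟨_, h3⟩ ⟨_, h4⟩ h1
  have hp := rp_lt p
  have key : (Matrix.SpecialLinearGroup.transvection h (emb ω k.val)).1.mulVec (R ω p.val) =
      Vv ω (wt i j k p 0) (wt i j k p 1) (wt i j k p 2) := by
    have hw : ∀ l : Fin 3, (Matrix.SpecialLinearGroup.transvection h (emb ω k.val)).1.mulVec (R ω p.val) l =
        emb ω (wt i j k p l) := by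
      intro l
      have hr : ∀ n : Fin 3, emb ω (rp p n) = R ω p.val n := by
        intro n
        fin_cases n <;> rfl
      have hlt : ∀ n : Fin 3, rp p n < 4 := by
        intro n
        fin_cases n
        · exact hp.1
        · exact hp.2.1
        · exact hp.2.2
      rw [tv_mulVec]
      unfold wt
      by_cases hl : l = i
      · rw [if_pos hl, if_pos (by rw [hl])]
        rw [emb_add E.two E.q (hlt l) (mulT_lt _ _), emb_mul E.q k.isLt (hlt j), hr, hr]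
      · rw [if_neg hl, if_neg (fun he => hl (Fin.ext he)), hr]
    funext l
    rw [hw]
    fin_cases l <;> rfl
  rw [V_eq E h2 h3 h4 h1] at key
  have h8 := act_eq E (q := ⟨_, h6⟩) (emb_ne E (tabA ⟨_, h2⟩ ⟨_, h3⟩ ⟨_, h4⟩ h1).2.2.1 (tabA ⟨_, h2⟩ ⟨_, h3⟩ ⟨_, h4⟩ h1).2.1) key
  rw [h8]
  unfold lbl
  rw [h5]

theorem tv_eq (E : FF ω) {i j : Fin 3} (h : i ≠ j) (k : Fin 4) :
    psi E (Matrix.SpecialLinearGroup.transvection h (emb ω k.val)) = toPerm (tvP i j k) := by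
  have hA := TV_aut i j k
  have hv := isAut_valid hA
  have hr := isAut_inRange hA
  apply Equiv.ext
  intro x
  by_cases hx : PP x
  · obtain ⟨p, rfl⟩ := lbl_surj x hx
    rw [psi_lbl, tv_act]
    unfold lbl
    rw [toPerm_idxPt hv (lbl_lt p)]
  · rw [psi_base E _ hx]
    have hd := tabD i j k
    have hc : x = idxPt 23 ∨ x = idxPt 0 ∨ x = idxPt 1 := by
      unfold PP at hx
      by_contra hcon
      push Not at hcon
      exact hx ⟨hcon.1, hcon.2.1, hcon.2.2⟩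
    rcases hc with rfl | rfl | rfl
    · rw [toPerm_idxPt hv (by norm_num), hd.1]
    · rw [toPerm_idxPt hv (by norm_num), hd.2.1]
    · rw [toPerm_idxPt hv (by norm_num), hd.2.2]

theorem psi_mem (E : FF ω) (A : SL3 F) : psi E A ∈ M24 := by
  refine Cfsg.Agent.Lib.SLn.transvection_induction (fun A => psi E A ∈ M24) ?_ ?_ ?_ A
  · intro i j h c
    obtain ⟨k, hk, rfl⟩ := emb_surj E.card E.two E.q c
    have := tv_eq E h ⟨k, hk⟩
    simp only at this
    rw [this]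
    exact toPerm_mem_M24 (TV_aut i j ⟨k, hk⟩)
  · intro A B hA hB
    rw [map_mul]
    exact mul_mem hA hB
  · rw [map_one]
    exact one_mem _

theorem pp_b0 : ¬ PP (idxPt (bs 0)) := by decide +kernel
theorem pp_b1 : ¬ PP (idxPt (bs 1)) := by decide +kernel
theorem pp_b2 : ¬ PP (idxPt (bs 2)) := by decide +kernel

theorem psi_G3 (E : FF ω) (A : SL3 F) : psi E A ∈ G 3 := by
  refine mem_G.mpr ⟨psi_mem E A, fun j hj => ?_⟩
  interval_cases j
  · exact psi_base E A pp_b0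
  · exact psi_base E A pp_b1
  · exact psi_base E A pp_b2

theorem rho_center (E : FF ω) {A : SL3 F} (h : A ∈ Subgroup.center (SL3 F)) : rho E A = 1 := by
  rw [Matrix.SpecialLinearGroup.mem_center_iff] at h
  obtain ⟨r, hr, he⟩ := h
  have hr0 : r ≠ 0 := by
    rintro rfl
    simp at hr
  apply Equiv.ext
  intro p
  show act E A p = p
  apply act_eq E hr0
  rw [← he, Matrix.scalar_apply]
  funext l
  rw [Matrix.mulVec_diagonal]
  rfl

theorem mulVec3 (A : Matrix (Fin 3) (Fin 3) F) (x y z : F) (l : Fin 3) :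
    A.mulVec ![x, y, z] l = A l 0 * x + A l 1 * y + A l 2 * z := by
  simp [Matrix.mulVec, dotProduct, Fin.sum_univ_three]

theorem center_of_act (E : FF ω) {A : SL3 F} (h : ∀ p, act E A p = p) : A ∈ Subgroup.center (SL3 F) := by
  have rp0 : rp 0 0 = 1 ∧ rp 0 1 = 0 ∧ rp 0 2 = 0 := by decide +kernel
  have rp1 : rp 1 0 = 0 ∧ rp 1 1 = 1 ∧ rp 1 2 = 0 := by decide +kernel
  have rp2 : rp 2 0 = 0 ∧ rp 2 1 = 0 ∧ rp 2 2 = 1 := by decide +kernel
  have rp3 : rp 3 0 = 1 ∧ rp 3 1 = 1 ∧ rp 3 2 = 1 := by decide +kernel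
  obtain ⟨c0, -, h0⟩ := act_spec E A 0
  obtain ⟨c1, -, h1⟩ := act_spec E A 1
  obtain ⟨c2, -, h2⟩ := act_spec E A 2
  obtain ⟨c3, -, h3⟩ := act_spec E A 3
  rw [h] at h0 h1 h2 h3
  have e0 : R ω 0 = ![1, 0, 0] := by
    show ![emb ω (rp 0 0), emb ω (rp 0 1), emb ω (rp 0 2)] = _
    rw [rp0.1, rp0.2.1, rp0.2.2, emb0, emb1]
  have e1 : R ω 1 = ![0, 1, 0] := by
    show ![emb ω (rp 1 0), emb ω (rp 1 1), emb ω (rp 1 2)] = _
    rw [rp1.1, rp1.2.1, rp1.2.2, emb0, emb1]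
  have e2 : R ω 2 = ![0, 0, 1] := by
    show ![emb ω (rp 2 0), emb ω (rp 2 1), emb ω (rp 2 2)] = _
    rw [rp2.1, rp2.2.1, rp2.2.2, emb0, emb1]
  have e3 : R ω 3 = ![1, 1, 1] := by
    show ![emb ω (rp 3 0), emb ω (rp 3 1), emb ω (rp 3 2)] = _
    rw [rp3.1, rp3.2.1, rp3.2.2, emb1]
  have v0 : ((0 : Fin 21) : ℕ) = 0 := rfl
  have v1 : ((1 : Fin 21) : ℕ) = 1 := rfl
  have v2 : ((2 : Fin 21) : ℕ) = 2 := rfl
  have v3 : ((3 : Fin 21) : ℕ) = 3 := rfl
  rw [v0, e0] at h0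
  rw [v1, e1] at h1
  rw [v2, e2] at h2
  rw [v3, e3] at h3
  have a00 := congrFun h0 0
  have a10 := congrFun h0 1
  have a20 := congrFun h0 2
  have a01 := congrFun h1 0
  have a11 := congrFun h1 1
  have a21 := congrFun h1 2
  have a02 := congrFun h2 0
  have a12 := congrFun h2 1
  have a22 := congrFun h2 2
  have b0 := congrFun h3 0
  have b1 := congrFun h3 1
  have b2 := congrFun h3 2
  rw [mulVec3] at a00 a10 a20 a01 a11 a21 a02 a12 a22 b0 b1 b2
  simp at a00 a10 a20 a01 a11 a21 a02 a12 a22 b0 b1 b2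
  have hs : Matrix.scalar (Fin 3) c3 = A.1 := by
    ext i j
    rw [Matrix.scalar_apply]
    fin_cases i <;> fin_cases j
    · show c3 = A.1 0 0
      rw [← b0, a01, a02]; ring
    · show 0 = A.1 0 1
      exact a01.symm
    · show 0 = A.1 0 2
      exact a02.symm
    · show 0 = A.1 1 0
      exact a10.symm
    · show c3 = A.1 1 1
      rw [← b1, a10, a12]; ring
    · show 0 = A.1 1 2
      exact a12.symm
    · show 0 = A.1 2 0
      exact a20.symm
    · show 0 = A.1 2 1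
      exact a21.symm
    · show c3 = A.1 2 2
      rw [← b2, a20, a21]; ring
  rw [Matrix.SpecialLinearGroup.mem_center_iff]
  refine ⟨c3, ?_, hs⟩
  have hd := A.2
  rw [← hs, Matrix.scalar_apply, Matrix.det_diagonal, Finset.prod_const] at hd
  exact hd

theorem card_psl3 (hF : Fintype.card F = 4) : Nat.card (Matrix.ProjectiveSpecialLinearGroup (Fin 3) F) = 20160 := by
  have h1 := Matrix.card_GL_field (𝔽 := F) 3
  have h2 := Cfsg.Agent.Lib.SLn.card_GL_eq (ι := Fin 3) (F := F)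
  have h3 := Cfsg.Agent.Lib.SLn.card_SL_eq_center_mul (ι := Fin 3) (F := F)
  rw [hF] at h1 h2 h3
  rw [Fin.prod_univ_three] at h1
  simp only [Fintype.card_fin] at h3
  norm_num at h1 h2 h3
  omega

theorem main_base (E : FF ω) : Nonempty (Matrix.ProjectiveSpecialLinearGroup (Fin 3) F ≃* G 3) := by
  let ψ : SL3 F →* G 3 := (psi E).codRestrict (G 3) (psi_G3 E)
  have hc : Subgroup.center (SL3 F) ≤ ψ.ker := by
    intro A hA
    rw [MonoidHom.mem_ker]
    apply Subtype.ext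
    show psi E A = 1
    show Equiv.Perm.extendDomainHom ff (rho E A) = 1
    rw [rho_center E hA, map_one]
  let L : Matrix.ProjectiveSpecialLinearGroup (Fin 3) F →* G 3 := QuotientGroup.lift _ ψ hc
  have hinj : Function.Injective L := by
    rw [injective_iff_map_eq_one]
    intro x hx
    obtain ⟨A, rfl⟩ := QuotientGroup.mk'_surjective _ x
    have h1 : ψ A = 1 := hx
    have h2 : psi E A = 1 := congrArg Subtype.val h1
    have h3 : rho E A = 1 := by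
      apply Equiv.Perm.extendDomainHom_injective ff
      rw [map_one]
      exact h2
    have h4 : A ∈ Subgroup.center (SL3 F) := center_of_act E (fun p => by
      have := congrArg (fun g : Equiv.Perm (Fin 21) => g p) h3
      exact this)
    exact (QuotientGroup.eq_one_iff A).mpr h4
  have hb : Function.Bijective L :=
    hinj.bijective_of_nat_card_le (by rw [card_G3, card_psl3 E.card])
  exact ⟨MulEquiv.ofBijective L hb⟩

end Field2

theorem exists_omega {F : Type*} [Field F] [Fintype F] (hF : Fintype.card F = 4) : ∃ ω : F, FF ω := by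
  classical
  obtain ⟨a, -, ha⟩ := Finset.exists_mem_notMem_of_card_lt_card (s := ({0, 1} : Finset F)) (t := Finset.univ)
    (by
      have : ({0, 1} : Finset F).card ≤ 2 := Finset.card_le_two
      rw [Finset.card_univ, hF]
      omega)
  simp only [Finset.mem_insert, Finset.mem_singleton, not_or] at ha
  have h3 : a ^ 3 = 1 := by
    have := FiniteField.pow_card_sub_one_eq_one a ha.1
    rwa [hF] at this
  refine ⟨a, hF, two_eq hF, ?_⟩
  have h4 : (a - 1) * (a ^ 2 + a + 1) = 0 := by linear_combination h3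
  rcases mul_eq_zero.mp h4 with h5 | h5
  · exact absurd (sub_eq_zero.mp h5) ha.2
  · exact h5

theorem mem_triple {p q r : GolayPt} {g : ↥M24} :
    g ∈ MulAction.stabilizer M24 p ⊓ MulAction.stabilizer M24 q ⊓ MulAction.stabilizer M24 r ↔
      g.1 p = p ∧ g.1 q = q ∧ g.1 r = r :=
  ⟨fun h => ⟨h.1.1, h.1.2, h.2⟩, fun h => ⟨⟨h.1, h.2.1⟩, h.2.2⟩⟩

theorem conj_base {p q r : GolayPt} (hpq : p ≠ q) (hpr : p ≠ r) (hqr : q ≠ r) :
    Nonempty (↥(MulAction.stabilizer M24 p ⊓ MulAction.stabilizer M24 q ⊓ MulAction.stabilizer M24 r) ≃* G 3) := by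
  have hb : (idxPt (bs 0) ≠ idxPt (bs 1)) ∧ (idxPt (bs 0) ≠ idxPt (bs 2)) ∧ (idxPt (bs 1) ≠ idxPt (bs 2)) := by
    decide +kernel
  obtain ⟨c, hc, h1, h2, h3⟩ := exists_map_triple hpq hpr hqr hb.1 hb.2.1 hb.2.2
  have hi1 : c⁻¹ (idxPt (bs 0)) = p := by rw [← h1]; simp
  have hi2 : c⁻¹ (idxPt (bs 1)) = q := by rw [← h2]; simp
  have hi3 : c⁻¹ (idxPt (bs 2)) = r := by rw [← h3]; simp
  refine ⟨{
    toFun := fun g => ⟨c * g.1.1 * c⁻¹, mem_G.mpr ⟨mul_mem (mul_mem hc g.1.2) (inv_mem hc), fun j hj => ?_⟩⟩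
    invFun := fun h => ⟨⟨c⁻¹ * h.1 * c, mul_mem (mul_mem (inv_mem hc) (mem_G.mp h.2).1) hc⟩, mem_triple.mpr ⟨?_, ?_, ?_⟩⟩
    left_inv := ?_
    right_inv := ?_
    map_mul' := ?_ }⟩
  · obtain ⟨g1, g2, g3⟩ := mem_triple.mp g.2
    rw [Equiv.Perm.mul_apply, Equiv.Perm.mul_apply]
    interval_cases j
    · rw [hi1, g1, h1]
    · rw [hi2, g2, h2]
    · rw [hi3, g3, h3]
  · show (c⁻¹ * h.1 * c) p = p
    rw [Equiv.Perm.mul_apply, Equiv.Perm.mul_apply, h1, (mem_G.mp h.2).2 0 (by norm_num), hi1]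
  · show (c⁻¹ * h.1 * c) q = q
    rw [Equiv.Perm.mul_apply, Equiv.Perm.mul_apply, h2, (mem_G.mp h.2).2 1 (by norm_num), hi2]
  · show (c⁻¹ * h.1 * c) r = r
    rw [Equiv.Perm.mul_apply, Equiv.Perm.mul_apply, h3, (mem_G.mp h.2).2 2 (by norm_num), hi3]
  · intro g
    apply Subtype.ext
    apply Subtype.ext
    show c⁻¹ * (c * g.1.1 * c⁻¹) * c = g.1.1
    group
  · intro h
    apply Subtype.ext
    show c * (c⁻¹ * h.1 * c) * c⁻¹ = h.1
    group
  · intro g g'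
    apply Subtype.ext
    show c * (g.1.1 * g'.1.1) * c⁻¹ = (c * g.1.1 * c⁻¹) * (c * g'.1.1 * c⁻¹)
    group

/-- The statement. -/
theorem main0380 (p q r : GolayPt) (hpq : p ≠ q) (hpr : p ≠ r) (hqr : q ≠ r) (F : Type) [Field F] [Fintype F]
    (hF : Fintype.card F = 4) :
    Nonempty (↥(MulAction.stabilizer M24 p ⊓ MulAction.stabilizer M24 q ⊓ MulAction.stabilizer M24 r) ≃*
      Matrix.ProjectiveSpecialLinearGroup (Fin 3) F) := by
  obtain ⟨ω, E⟩ := exists_omega hF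
  obtain ⟨e1⟩ := conj_base hpq hpr hqr
  obtain ⟨e2⟩ := main_base E
  exact ⟨e1.trans e2.symm⟩

end Cfsg.Agent.Lib.GolayM21
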