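import Mathlib
import Cfsg.Prelude.Def_Sporadic_a
import Cfsg.Prelude.Def_SporadicCombinatorics
import Cfsg.Agent.Lib.GolayFast
import Cfsg.Agent.Lib.GolaySets

/-!
# The graph on the octads: adjacency is disjointness
-/

set_option autoImplicit false
set_option linter.style.haveILetI false
set_option linter.constructorNameAsVariable false

open scoped Pointwise

namespace Cfsg.Agent.Lib.GolayOctGraph

open Cfsg Cfsg.Agent.Lib.GolayCode Cfsg.Agent.Lib.GolayFacts Cfsg.Agent.Lib.GolayPerm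
  Cfsg.Agent.Lib.GolayChain Cfsg.Agent.Lib.GolayTrans Cfsg.Agent.Lib.GolayFast
  Cfsg.Agent.Lib.GolayKit Cfsg.Agent.Lib.GolaySets Cfsg.Agent.Lib.GolayFastData

/-- The octads disjoint from the base octad. -/
def D0 : List ℕ := octadsL.filter fun n => Nat.beq (octad0 &&& n) 0

/-- The check for one octad. -/
def pairChk (m : ℕ) : Bool :=
  let k := hwF (octad0 &&& m)
  (Nat.beq k 0 || Nat.beq k 2 || Nat.beq k 4 || Nat.beq k 8) &&
  (!(Nat.beq k 4) || D0.any fun n => Nat.beq (n &&& m) 0) &&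
    (!(Nat.beq k 2) || ((D0.any fun n => Nat.beq (hwF (n &&& m)) 4) && D0.all fun n => !(Nat.beq (n &&& m) 0)))

theorem pairChk_all : octadsL.all pairChk = true := by decide +kernel

theorem disj (g : Equiv.Perm GolayPt) (a b : Finset GolayPt) : Disjoint (g • a) (g • b) ↔ Disjoint a b := by
  rw [Finset.disjoint_iff_inter_eq_empty, Finset.disjoint_iff_inter_eq_empty, smul_inter_smul]
  simp

theorem card_inter_smul (g : Equiv.Perm GolayPt) (a b : Finset GolayPt) : ((g • a) ∩ (g • b)).card = (a ∩ b).card := by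
  rw [smul_inter_smul, Finset.card_smul_finset]

theorem disjoint_of_and {a b : ℕ} (h : a &&& b = 0) : Disjoint (supFin a) (supFin b) := by
  rw [Finset.disjoint_iff_inter_eq_empty, supFin_inter, h]
  rfl

theorem supFin_zero : supFin 0 = ∅ := by
  ext p
  simp [mem_supFin]

theorem and_of_disjoint {a b : ℕ} (ha : a < 2 ^ 24) (hb : b < 2 ^ 24) (h : Disjoint (supFin a) (supFin b)) :
    a &&& b = 0 := by
  rw [Finset.disjoint_iff_inter_eq_empty, supFin_inter, ← supFin_zero] at h
  exact supFin_injOn (Nat.and_lt_two_pow _ hb) (by norm_num) h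

theorem octad0_in : supFin octad0 ∈ octads := octad0_mem

theorem octL_lt {m : ℕ} (hm : m ∈ octadsL) : m < 2 ^ 24 := by
  simpa using List.all_eq_true.mp octadsL_lt m hm

theorem octad0_lt : octad0 < 2 ^ 24 := by decide

/-- The facts on one pair of octads. -/
theorem facts {o o' : Finset GolayPt} (ho : o ∈ octads) (ho' : o' ∈ octads) :
    ((o ∩ o').card = 0 ∨ (o ∩ o').card = 2 ∨ (o ∩ o').card = 4 ∨ (o ∩ o').card = 8) ∧
    ((o ∩ o').card = 4 → ∃ o₁ ∈ octads, Disjoint o₁ o ∧ Disjoint o₁ o') ∧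
    ((o ∩ o').card = 2 → (∃ o₁ ∈ octads, Disjoint o₁ o ∧ (o₁ ∩ o').card = 4) ∧
      ∀ o₁ ∈ octads, Disjoint o₁ o → ¬ Disjoint o₁ o') := by
  obtain ⟨g, hg, hgo⟩ := exists_map_octad ho octad0_in
  obtain ⟨m, hm, hgm⟩ := mem_octads_iff_L.mp (smul_mem_octads hg ho')
  have hchk := List.all_eq_true.mp pairChk_all m hm
  simp only [pairChk, Bool.and_eq_true, Bool.or_eq_true, Bool.not_eq_true'] at hchk
  obtain ⟨⟨h1, h2⟩, h3⟩ := hchk
  have hk : (o ∩ o').card = hwF (octad0 &&& m) := by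
    rw [← card_inter_smul g, hgo, hgm, hwF_eq, card_supFin_inter]
  have hlift : ∀ o₁ ∈ octads, (g • (g⁻¹ • o₁) = o₁) := fun o₁ _ => by simp
  rw [hk]
  refine ⟨?_, ?_, ?_⟩
  · rcases h1 with ((h | h) | h) | h
    · exact Or.inl (Nat.eq_of_beq_eq_true h)
    · exact Or.inr (Or.inl (Nat.eq_of_beq_eq_true h))
    · exact Or.inr (Or.inr (Or.inl (Nat.eq_of_beq_eq_true h)))
    · exact Or.inr (Or.inr (Or.inr (Nat.eq_of_beq_eq_true h)))
  · intro h4
    rcases h2 with h5 | h5
    · rw [h4] at h5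
      simp at h5
    · obtain ⟨n, hn, hnm⟩ := List.any_eq_true.mp h5
      obtain ⟨hn1, hn2⟩ := List.mem_filter.mp hn
      have hn3 := supFin_mem_octads_of_mem hn1
      refine ⟨g⁻¹ • supFin n, smul_mem_octads (inv_mem hg) hn3, ?_, ?_⟩
      · rw [← disj g, smul_inv_smul, hgo]
        apply disjoint_of_and
        rw [Nat.and_comm]
        exact Nat.eq_of_beq_eq_true hn2
      · rw [← disj g, smul_inv_smul, hgm]
        exact disjoint_of_and (Nat.eq_of_beq_eq_true hnm)
  · intro h4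
    rcases h3 with h5 | ⟨h5, h6⟩
    · rw [h4] at h5
      simp at h5
    · refine ⟨?_, ?_⟩
      · obtain ⟨n, hn, hnm⟩ := List.any_eq_true.mp h5
        obtain ⟨hn1, hn2⟩ := List.mem_filter.mp hn
        have hn3 := supFin_mem_octads_of_mem hn1
        refine ⟨g⁻¹ • supFin n, smul_mem_octads (inv_mem hg) hn3, ?_, ?_⟩
        · rw [← disj g, smul_inv_smul, hgo]
          apply disjoint_of_and
          rw [Nat.and_comm]
          exact Nat.eq_of_beq_eq_true hn2
        · rw [← card_inter_smul g, smul_inv_smul, hgm, card_supFin_inter, ← hwF_eq]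
          exact Nat.eq_of_beq_eq_true hnm
      · intro o₁ ho₁ hd1 hd2
        obtain ⟨n, hn, hgn⟩ := mem_octads_iff_L.mp (smul_mem_octads hg ho₁)
        have hd1' : Disjoint (supFin n) (supFin octad0) := by
          rw [← hgn, ← hgo, disj]
          exact hd1
        have hd2' : Disjoint (supFin n) (supFin m) := by
          rw [← hgn, ← hgm, disj]
          exact hd2
        have hmem : n ∈ D0 := List.mem_filter.mpr ⟨hn, by
          have := and_of_disjoint (octL_lt hn) octad0_lt hd1'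
          rw [Nat.and_comm, this]
          rfl⟩
        have h7 := List.all_eq_true.mp h6 n hmem
        have h8 := and_of_disjoint (octL_lt hn) (octL_lt hm) hd2'
        rw [h8] at h7
        simp at h7

/-- The graph. -/
abbrev Γ : SimpleGraph octads := blockGraph octads

theorem adj_iff {a b : octads} : Γ.Adj a b ↔ Disjoint (a : Finset GolayPt) (b : Finset GolayPt) := by
  show (SimpleGraph.fromRel _).Adj a b ↔ _
  rw [SimpleGraph.fromRel_adj]
  constructor
  · rintro ⟨-, h | h⟩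
    · exact h
    · exact h.symm
  · intro h
    refine ⟨?_, Or.inl h⟩
    rintro rfl
    have h1 : (a : Finset GolayPt) = ∅ := disjoint_self.mp h
    have h2 := a.2.2
    rw [h1] at h2
    simp at h2

theorem inter_empty_iff {a b : Finset GolayPt} : (a ∩ b).card = 0 ↔ Disjoint a b := by
  rw [Finset.card_eq_zero, Finset.disjoint_iff_inter_eq_empty]

/-- Distinct octads meet in `0`, `2` or `4` points. -/
theorem three_cases {a b : octads} (hne : a ≠ b) :
    ((a : Finset GolayPt) ∩ b).card = 0 ∨ ((a : Finset GolayPt) ∩ b).card = 2 ∨ ((a : Finset GolayPt) ∩ b).card = 4 := by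
  have h1 := (facts a.2 b.2).1
  have h2 := card_inter_octads_le a.2 b.2 (fun he => hne (Subtype.ext he))
  omega

theorem dist_case0 {a b : octads} (h : ((a : Finset GolayPt) ∩ b).card = 0) : Γ.dist a b = 1 := by
  rw [SimpleGraph.dist_eq_one_iff_adj, adj_iff]
  exact inter_empty_iff.mp h

theorem reach_case0 {a b : octads} (h : ((a : Finset GolayPt) ∩ b).card = 0) : Γ.Reachable a b :=
  (adj_iff.mpr (inter_empty_iff.mp h)).reachable

theorem reach_case4 {a b : octads} (h : ((a : Finset GolayPt) ∩ b).card = 4) : Γ.Reachable a b := by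
  obtain ⟨o₁, ho₁, h1, h2⟩ := (facts a.2 b.2).2.1 h
  have h3 : Γ.Adj a ⟨o₁, ho₁⟩ := adj_iff.mpr h1.symm
  have h4 : Γ.Adj ⟨o₁, ho₁⟩ b := adj_iff.mpr h2
  exact h3.reachable.trans h4.reachable

theorem ne_of_card {a b : octads} (h : ((a : Finset GolayPt) ∩ b).card ≠ 8) : a ≠ b := by
  rintro rfl
  apply h
  rw [Finset.inter_self]
  exact a.2.2

theorem dist_case4 {a b : octads} (h : ((a : Finset GolayPt) ∩ b).card = 4) : Γ.dist a b = 2 := by
  obtain ⟨o₁, ho₁, h1, h2⟩ := (facts a.2 b.2).2.1 h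
  have h3 : Γ.Adj a ⟨o₁, ho₁⟩ := adj_iff.mpr h1.symm
  have h4 : Γ.Adj ⟨o₁, ho₁⟩ b := adj_iff.mpr h2
  have h5 := SimpleGraph.dist_le (SimpleGraph.Walk.cons h3 (SimpleGraph.Walk.cons h4 SimpleGraph.Walk.nil))
  simp only [SimpleGraph.Walk.length_cons, SimpleGraph.Walk.length_nil] at h5
  have hne : a ≠ b := ne_of_card (by omega)
  have h6 : Γ.dist a b ≠ 0 := fun h0 => hne (((reach_case4 h).dist_eq_zero_iff).mp h0)
  have h7 : Γ.dist a b ≠ 1 := fun h0 => by
    have := inter_empty_iff.mpr (adj_iff.mp (SimpleGraph.dist_eq_one_iff_adj.mp h0))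
    omega
  omega

theorem reach_case2 {a b : octads} (h : ((a : Finset GolayPt) ∩ b).card = 2) : Γ.Reachable a b := by
  obtain ⟨⟨o₁, ho₁, h1, h2⟩, -⟩ := (facts a.2 b.2).2.2 h
  have h3 : Γ.Adj a ⟨o₁, ho₁⟩ := adj_iff.mpr h1.symm
  have h4 : Γ.Reachable ⟨o₁, ho₁⟩ b := reach_case4 h2
  exact h3.reachable.trans h4

theorem dist_case2 {a b : octads} (h : ((a : Finset GolayPt) ∩ b).card = 2) : Γ.dist a b = 3 := by
  obtain ⟨⟨o₁, ho₁, h1, h2⟩, h0⟩ := (facts a.2 b.2).2.2 h
  have hr := reach_case2 h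
  have h3 : Γ.Adj a ⟨o₁, ho₁⟩ := adj_iff.mpr h1.symm
  have hne : a ≠ b := ne_of_card (by omega)
  have h6 : Γ.dist a b ≠ 0 := fun h5 => hne ((hr.dist_eq_zero_iff).mp h5)
  have h7 : Γ.dist a b ≠ 1 := fun h5 => by
    have := inter_empty_iff.mpr (adj_iff.mp (SimpleGraph.dist_eq_one_iff_adj.mp h5))
    omega
  have h8 : Γ.dist a b ≠ 2 := fun h5 => by
    obtain ⟨p, hp⟩ := hr.exists_walk_length_eq_dist
    rw [h5] at hp
    cases p with
    | nil => simp at hp
    | cons h9 q =>
      cases q with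
      | nil => simp at hp
      | cons h10 r =>
        cases r with
        | nil => exact h0 _ (Subtype.coe_prop _) (adj_iff.mp h9).symm (adj_iff.mp h10)
        | cons _ _ => simp at hp
  have h9 : Γ.dist a b ≤ 3 := by
    obtain ⟨o₂, ho₂, h10, h11⟩ := (facts (o := o₁) (o' := b) ho₁ b.2).2.1 h2
    have h12 : Γ.Adj ⟨o₁, ho₁⟩ ⟨o₂, ho₂⟩ := adj_iff.mpr h10.symm
    have h13 : Γ.Adj ⟨o₂, ho₂⟩ b := adj_iff.mpr h11
    have h14 := SimpleGraph.dist_le (SimpleGraph.Walk.cons h3 (SimpleGraph.Walk.cons h12 (SimpleGraph.Walk.cons h13 SimpleGraph.Walk.nil)))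
    simpa using h14
  omega

/-- The graph is connected. -/
theorem connected : Γ.Connected := by
  haveI : Nonempty octads := ⟨⟨_, octad0_in⟩⟩
  refine ⟨fun a b => ?_⟩
  by_cases hne : a = b
  · rw [hne]
  · rcases three_cases hne with h | h | h
    · exact reach_case0 h
    · exact reach_case2 h
    · exact reach_case4 h

/-- The distances. -/
theorem dist_iff {o o' : Finset GolayPt} (ho : o ∈ octads) (ho' : o' ∈ octads) (hne : o ≠ o') :
    (blockGraph octads).Connected ∧ ((blockGraph octads).dist ⟨o, ho⟩ ⟨o', ho'⟩ = 1 ↔ (o ∩ o').card = 0) ∧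
    ((blockGraph octads).dist ⟨o, ho⟩ ⟨o', ho'⟩ = 2 ↔ (o ∩ o').card = 4) ∧
    ((blockGraph octads).dist ⟨o, ho⟩ ⟨o', ho'⟩ = 3 ↔ (o ∩ o').card = 2) := by
  have hne' : (⟨o, ho⟩ : octads) ≠ ⟨o', ho'⟩ := fun h => hne (congrArg Subtype.val h)
  refine ⟨connected, ?_⟩
  rcases three_cases hne' with h | h | h
  · have := dist_case0 h
    simp only at h
    simp only [this, h]
    simp
  · have := dist_case2 h
    simp only at h
    simp only [this, h]
    simp
  · have := dist_case4 h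
    simp only at h
    simp only [this, h]
    simp

end Cfsg.Agent.Lib.GolayOctGraph
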