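import Mathlib
import Cfsg.Prelude.Def_Sporadic_a
import Cfsg.Prelude.Def_SporadicCombinatorics
import Cfsg.Agent.Lib.GolayOctStab2

/-!
# Joint stabilizers of two octads
-/

set_option autoImplicit false
set_option linter.style.haveILetI false
set_option linter.constructorNameAsVariable false

open scoped Pointwise

namespace Cfsg.Agent.Lib.GolayOctStab

open Cfsg Cfsg.Agent.Lib.GolayCode Cfsg.Agent.Lib.GolayFacts Cfsg.Agent.Lib.GolayPerm
  Cfsg.Agent.Lib.GolayChain Cfsg.Agent.Lib.GolayTrans Cfsg.Agent.Lib.GolayOrbit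
  Cfsg.Agent.Lib.GolayKit Cfsg.Agent.Lib.GolayM12 Cfsg.Agent.Lib.GolayFast
  Cfsg.Agent.Lib.GolayFastData Cfsg.Agent.Lib.GolaySets Cfsg.Agent.Lib.GolayMax Cfsg.Agent.Lib.GolayOrbits
  Cfsg.Agent.Lib.GolayOctad

/-- Order of the joint stabilizer from the orbit count. -/
theorem card_joint {o o' : Finset GolayPt} (ho : o ∈ octads) (ho' : o' ∈ octads) :
    {o'' : Finset GolayPt | o'' ∈ octads ∧ (o'' ∩ o).card = (o' ∩ o).card}.ncard *
      Nat.card ↥(MulAction.stabilizer M24 o ⊓ MulAction.stabilizer M24 o') = 322560 := by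
  classical
  have horb : MulAction.orbit ↥(MulAction.stabilizer M24 o) o' =
      {o'' : Finset GolayPt | o'' ∈ octads ∧ (o'' ∩ o).card = (o' ∩ o).card} := by
    ext o''
    constructor
    · rintro ⟨⟨⟨g, hg⟩, hgs⟩, rfl⟩
      have hgo : g • o = o := hgs
      refine ⟨smul_mem_octads hg ho', ?_⟩
      show ((g • o') ∩ o).card = _
      rw [← card_smul g (o' ∩ o), Finset.smul_finset_inter, hgo]
    · rintro ⟨h1, h2⟩
      obtain ⟨g, hg, hgo, hgo'⟩ := same_class_octad ho ho' h1 (by
        rw [Finset.inter_comm, Finset.inter_comm o o'', h2])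
      exact ⟨⟨⟨g, hg⟩, hgo⟩, hgo'⟩
  have h2 := Nat.card_congr (MulAction.orbitProdStabilizerEquivGroup ↥(MulAction.stabilizer M24 o) o')
  rw [Nat.card_prod, card_stabilizer_octad ho, horb] at h2
  have h3 : Nat.card ↥(MulAction.stabilizer ↥(MulAction.stabilizer M24 o) o') =
      Nat.card ↥(MulAction.stabilizer M24 o ⊓ MulAction.stabilizer M24 o') := by
    refine Nat.card_congr ⟨fun g => ⟨g.1.1, g.1.2, g.2⟩, fun g => ⟨⟨g.1, g.2.1⟩, g.2.2⟩, fun g => rfl, fun g => rfl⟩
  rw [h3] at h2
  exact h2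

theorem joint_orders {o o' : Finset GolayPt} (ho : o ∈ octads) (ho' : o' ∈ octads) :
    ((o ∩ o').card = 0 → Nat.card ↥(MulAction.stabilizer M24 o ⊓ MulAction.stabilizer M24 o') = 10752) ∧
      ((o ∩ o').card = 4 → Nat.card ↥(MulAction.stabilizer M24 o ⊓ MulAction.stabilizer M24 o') = 1152) ∧
      ((o ∩ o').card = 2 → Nat.card ↥(MulAction.stabilizer M24 o ⊓ MulAction.stabilizer M24 o') = 720) := by
  have h := card_joint ho ho'
  rw [Finset.inter_comm o' o, ncard_octads_meet_octad ho] at h
  obtain ⟨c0, c2, c4, c8⟩ := count_oct_values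
  refine ⟨fun hn => ?_, fun hn => ?_, fun hn => ?_⟩
  · rw [hn, c0] at h; omega
  · rw [hn, c4] at h; omega
  · rw [hn, c2] at h; omega

/-- The base octad meeting `octad0` in two points. -/
def oct2 : ℕ := 6053905

theorem oct2_mem : supFin oct2 ∈ octads := supFin_mem_octads (by decide +kernel)

theorem oct2_meet : (supFin octad0 ∩ supFin oct2).card = 2 := by decide +kernel

/-- No nonidentity element of `fixS octad0` stabilizes `oct2`. -/
theorem oct2_free : GolayOctadData.octadFixL.all (fun t =>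
    allBelow (fun i => img t i == i) 24 || (permMask t oct2 != oct2 && decide (permMask t oct2 < 2 ^ 24))) = true := by
  decide +kernel

theorem eq_one_of_stab_oct2 {g : Equiv.Perm GolayPt} (hg : g ∈ fixS (supFin octad0)) (h : g • supFin oct2 = supFin oct2) :
    g = 1 := by
  obtain ⟨t, ht, rfl⟩ := exists_of_mem_fixS hg
  have h1 := List.all_eq_true.mp oct2_free t ht
  have hA := List.all_eq_true.mp octadFixChk_all t ht
  simp only [octadFixChk, Bool.and_eq_true] at hA
  obtain ⟨⟨h2, -⟩, -⟩ := hA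
  rw [Bool.or_eq_true] at h1
  rcases h1 with h1 | h1
  · refine Equiv.ext fun x => ?_
    have hx := allBelow_spec h1 _ (ptIdx_lt x)
    have h3 := ptIdx_toPerm (isAut_valid h2) (isAut_inRange h2) x
    rw [beq_iff_eq] at hx
    apply ptIdx_injective
    rw [h3, hx]
    rfl
  · exfalso
    rw [Bool.and_eq_true, bne_iff_ne, decide_eq_true_eq] at h1
    apply h1.1
    rw [smul_supFin (isAut_valid h2) (isAut_inRange h2)] at h
    exact supFin_injOn h1.2 (by decide +kernel) h

/-- Only the identity fixes `o` pointwise and stabilizes an octad meeting it in two points. -/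
theorem eq_one_of_stab_meet2 {o o' : Finset GolayPt} (ho : o ∈ octads) (ho' : o' ∈ octads)
    (h₂ : (o ∩ o').card = 2) {g : Equiv.Perm GolayPt} (hg : g ∈ fixS o) (h : g • o' = o') : g = 1 := by
  obtain ⟨k, hk, rfl⟩ := exists_map_octad GolayChain.octad0_mem ho
  have h1 := smul_mem_octads (inv_mem hk) ho'
  have h2 : (supFin octad0 ∩ k⁻¹ • o').card = (supFin octad0 ∩ supFin oct2).card := by
    rw [oct2_meet, ← h₂, ← card_smul k (supFin octad0 ∩ k⁻¹ • o'), Finset.smul_finset_inter, smul_inv_smul]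
  obtain ⟨u, hu, hu1, hu2⟩ := same_class_octad GolayChain.octad0_mem h1 oct2_mem h2
  have hv : (u * k⁻¹) * g * (u * k⁻¹)⁻¹ ∈ fixS (supFin octad0) := by
    have hm : u * k⁻¹ ∈ M24 := mul_mem hu (inv_mem hk)
    have he : (u * k⁻¹) • (k • supFin octad0) = supFin octad0 := by
      rw [mul_smul, inv_smul_smul, hu1]
    have := (conj_mem_fixS_iff hm (k • supFin octad0) g).mp hg
    rwa [he] at this
  have hw : ((u * k⁻¹) * g * (u * k⁻¹)⁻¹) • supFin oct2 = supFin oct2 := by
    rw [← hu2]
    simp only [mul_inv_rev, inv_inv, mul_smul, inv_smul_smul, smul_inv_smul, h]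
  have h3 := eq_one_of_stab_oct2 hv hw
  have h4 : g = (u * k⁻¹)⁻¹ * ((u * k⁻¹) * g * (u * k⁻¹)⁻¹) * (u * k⁻¹) := by group
  rw [h4, h3]
  group

/-- An element of the joint stabilizer fixing `o \\ o'` pointwise is trivial. -/
theorem eq_one_of_fix_six {o o' : Finset GolayPt} (ho : o ∈ octads) (ho' : o' ∈ octads)
    (h₂ : (o ∩ o').card = 2) {g : Equiv.Perm GolayPt} (hg : g ∈ M24) (h1 : g • o = o) (h2 : g • o' = o')
    (hf : ∀ p ∈ o \ o', g p = p) : g = 1 := by
  classical
  have hgO : g ∈ stabO o := mem_stabO.mpr ⟨hg, h1⟩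
  apply eq_one_of_stab_meet2 ho ho' h₂ _ h2
  refine mem_fixS.mpr ⟨hg, ?_⟩
  -- the restriction is even
  have heven : rest o ⟨g, hgO⟩ ∈ alternatingGroup ↥o := by
    rw [← range_rest_eq ho]
    exact ⟨_, rfl⟩
  obtain ⟨a, b, hab, hI⟩ := Finset.card_eq_two.mp h₂
  have haO : a ∈ o := (Finset.mem_inter.mp (hI ▸ Finset.mem_insert_self a {b})).1
  have hbO : b ∈ o := (Finset.mem_inter.mp (hI ▸ Finset.mem_insert_of_mem (Finset.mem_singleton_self b))).1
  -- the images stay in the intersection
  have hinter : ∀ x ∈ o ∩ o', g x ∈ o ∩ o' := by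
    intro x hx
    have hx' := Finset.mem_inter.mp hx
    refine Finset.mem_inter.mpr ⟨?_, ?_⟩
    · rw [← h1]
      exact Finset.mem_smul_finset.mpr ⟨x, hx'.1, rfl⟩
    · rw [← h2]
      exact Finset.mem_smul_finset.mpr ⟨x, hx'.2, rfl⟩
  have hga : g a = a := by
    by_contra hne
    have h3 := hinter a (by rw [hI]; simp)
    rw [hI] at h3
    simp only [Finset.mem_insert, Finset.mem_singleton] at h3
    have hgab : g a = b := h3.resolve_left hne
    have hgba : g b = a := by
      have h4 := hinter b (by rw [hI]; simp)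
      rw [hI] at h4
      simp only [Finset.mem_insert, Finset.mem_singleton] at h4
      rcases h4 with h4 | h4
      · exact h4
      · exact absurd (g.injective (hgab.trans h4.symm)) hab
    -- the restriction is a transposition
    have hsw : rest o ⟨g, hgO⟩ = Equiv.swap (⟨a, haO⟩ : ↥o) ⟨b, hbO⟩ := by
      refine Equiv.ext fun x => Subtype.ext ?_
      rw [rest_apply]
      by_cases hxa : x = ⟨a, haO⟩
      · subst hxa
        rw [Equiv.swap_apply_left]
        exact hgab
      by_cases hxb : x = ⟨b, hbO⟩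
      · subst hxb
        rw [Equiv.swap_apply_right]
        exact hgba
      rw [Equiv.swap_apply_of_ne_of_ne hxa hxb]
      apply hf
      refine Finset.mem_sdiff.mpr ⟨x.2, fun hc => ?_⟩
      have h5 : x.1 ∈ o ∩ o' := Finset.mem_inter.mpr ⟨x.2, hc⟩
      rw [hI] at h5
      simp only [Finset.mem_insert, Finset.mem_singleton] at h5
      rcases h5 with h5 | h5
      · exact hxa (Subtype.ext h5)
      · exact hxb (Subtype.ext h5)
    rw [hsw, Equiv.Perm.mem_alternatingGroup, Equiv.Perm.sign_swap (by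
      intro hc
      exact hab (congrArg Subtype.val hc))] at heven
    exact absurd heven (by decide)
  have hgb : g b = b := by
    have h4 := hinter b (by rw [hI]; simp)
    rw [hI] at h4
    simp only [Finset.mem_insert, Finset.mem_singleton] at h4
    rcases h4 with h4 | h4
    · exact absurd (g.injective (h4.trans hga.symm)) hab.symm
    · exact h4
  intro p hp
  by_cases hpo' : p ∈ o'
  · have h5 : p ∈ o ∩ o' := Finset.mem_inter.mpr ⟨hp, hpo'⟩
    rw [hI] at h5
    simp only [Finset.mem_insert, Finset.mem_singleton] at h5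
    rcases h5 with rfl | rfl
    · exact hga
    · exact hgb
  · exact hf p (Finset.mem_sdiff.mpr ⟨hp, hpo'⟩)

/-- The joint stabilizer of two octads meeting in two points is `S₆`. -/
theorem joint_S6 {o o' : Finset GolayPt} (ho : o ∈ octads) (ho' : o' ∈ octads) (h₂ : (o ∩ o').card = 2) :
    Nonempty (↥(MulAction.stabilizer M24 o ⊓ MulAction.stabilizer M24 o') ≃* Equiv.Perm (Fin 6)) := by
  classical
  set J := MulAction.stabilizer M24 o ⊓ MulAction.stabilizer M24 o' with hJ
  have hmem : ∀ g : ↥J, ((g.1 : Equiv.Perm GolayPt) • o = o) ∧ ((g.1 : Equiv.Perm GolayPt) • o' = o') := fun g =>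
    ⟨g.2.1, g.2.2⟩
  have hact : ∀ (g : ↥J) (x : GolayPt), (g.1 : Equiv.Perm GolayPt) x ∈ o \ o' ↔ x ∈ o \ o' := by
    intro g x
    have h1 : ∀ (s : Finset GolayPt), (g.1 : Equiv.Perm GolayPt) • s = s →
        ((g.1 : Equiv.Perm GolayPt) x ∈ s ↔ x ∈ s) := by
      intro s hs
      constructor
      · intro hx
        rw [← hs] at hx
        obtain ⟨y, hy, hye⟩ := Finset.mem_smul_finset.mp hx
        rw [← (g.1 : Equiv.Perm GolayPt).injective hye]
        exact hy
      · intro hx
        rw [← hs]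
        exact Finset.mem_smul_finset.mpr ⟨x, hx, rfl⟩
    simp only [Finset.mem_sdiff, h1 o (hmem g).1, h1 o' (hmem g).2]
  let φ : ↥J →* Equiv.Perm ↥(o \ o') :=
    { toFun := fun g => (g.1 : Equiv.Perm GolayPt).subtypePerm (hact g)
      map_one' := by
        refine Equiv.ext fun x => Subtype.ext ?_
        rfl
      map_mul' := fun g h => by
        refine Equiv.ext fun x => Subtype.ext ?_
        rfl }
  have hinj : Function.Injective φ := by
    rw [injective_iff_map_eq_one]
    intro g hg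
    have h1 := eq_one_of_fix_six ho ho' h₂ g.1.2 (hmem g).1 (hmem g).2 (fun p hp => by
      have := congrArg (fun e : Equiv.Perm ↥(o \ o') => (e ⟨p, hp⟩ : GolayPt)) hg
      exact this)
    exact Subtype.ext (Subtype.ext h1)
  have hcard6 : Fintype.card ↥(o \ o') = 6 := by
    rw [Fintype.card_coe]
    have h3 := Finset.card_sdiff_add_card_inter o o'
    rw [h₂, ho.2] at h3
    omega
  have hb : Function.Bijective φ := by
    refine (Nat.bijective_iff_injective_and_card φ).mpr ⟨hinj, ?_⟩
    rw [(joint_orders ho ho').2.2 h₂, Nat.card_perm, Nat.card_eq_fintype_card, hcard6]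
    decide
  exact ⟨(MulEquiv.ofBijective φ hb).trans (Equiv.permCongrHom (Fintype.equivFinOfCardEq hcard6))⟩

end Cfsg.Agent.Lib.GolayOctStab
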