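import Mathlib
import Cfsg.Prelude.Def_Sporadic_a
import Cfsg.Agent.Lib.GolayObjs
import Cfsg.Agent.Lib.GolaySets
import Cfsg.Agent.Lib.GolayKit

/-!
# Pairs of points and the stabilizer of two points and a pair
-/

set_option autoImplicit false
set_option maxHeartbeats 1000000
set_option linter.style.haveILetI false
set_option linter.constructorNameAsVariable false

open scoped Pointwise

namespace Cfsg.Agent.Lib.GolayPairs

open Cfsg Cfsg.Agent.Lib Cfsg.Agent.Lib.GolayCode Cfsg.Agent.Lib.GolayFacts Cfsg.Agent.Lib.GolayPerm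
  Cfsg.Agent.Lib.GolayChain Cfsg.Agent.Lib.GolayTrans Cfsg.Agent.Lib.GolayDecomp
  Cfsg.Agent.Lib.GolayOrbit Cfsg.Agent.Lib.GolayFix Cfsg.Agent.Lib.GolayEnum Cfsg.Agent.Lib.GolayFastData
  Cfsg.Agent.Lib.GolaySets Cfsg.Agent.Lib.GolayObjs Cfsg.Agent.Lib.GolayKit

/-- Representatives of the types of pairs. -/
def reps : List ℕ := [20, 144, 48]

/-- A witness for each pair. -/
def witL : List (ℕ × ℕ) := [(20,0x2cec6aaef26b927831f45222418820),(36,0x24ac682d5343131aba8fbb4e518820),(68,0x252702bceeba90bad9b14c98618820),(132,0x2d113b3e2b4de0c69246555c718820),(260,0x2393692cf46a8cf8c2f59958818820),(516,0x2490f740e58aa766aeb73518918820),(1028,0x2d60f5ce3635d04931a93d1ca18820),(2052,0x246549b58f41eb6b99d04954b18820),(4100,0x2bd69a5aed938ca412753c22c18820),(8196,0x25a2e794f042af24d0d3aad8d18820),(16388,0x251697d9489b0d7696508d4ee18820),(32772,0x22e8d74951bb2b34c2c5418ef18820),(65540,0x25a552d1578b1a833d6e9a4f018820),(131076,0x23db2b50eb4aaae41666bc19118820),(26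2148,0x24d7689985b9d344360eabd5218820),(524292,0x214cba58f2aa930bbe2d4399318820),(1048580,0x222cbba58e89cd29d5e56c15418820),(2097156,0x22ee5838ef9aa34349286d99518820),(4194308,0x25e924559099dab8a4af3395618820),(8388612,0x242b45c8f6329a59b9098bd9718820),(24,0x299f3921d56de0c49ed452e2410c20),(40,0x255f34a14659e1195e967358510c20),(72,0x21668a3d9592a0975a2d5dce610c20),(136,0x2ce545d6f64c5a48310653dc710c20),(264,0x246b4334f65b24f74ee98154810c20),(520,0x236e59c4ef831d691aa85d14910c20),(1032,0x2bdb5b52eb3464c412093cdca10c20),(2056,0x251d1794f3432e6ada504b54b10c20),(4104,0x2a66f6c1d495d04329753da2c10c20),(8200,0x23e37b15895a9d585266920ed10c20),(16392,0x23d66a58edab13141612bcd4e10c20),(32776,0x224b1add4d91dd35a2d48198f10c20),(65544,0x2164db50e64b2b3bbdcb4455010c20),(131080,0x24a6f5c15649d05ab9a6bd19110c20),(262152,0x25a132bcf1bb10d4d16ea995210c20),(524296,0x22e2593954a9eef4c0cd4599310c20),(1048584,0x24cae3458b4aaf2435f6ac0f410c20),(2097160,0x2190f8cce5732145b53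79595510c20),(4194312,0x245f06cd92aa90bb98b44b8f610c20),(8388616,0x24d36698f4931658451573d5710c20),(48,0x3d0d69a5907a9716ba48bd48518820),(80,0x3ccb1a39956aaf67a5125c08618820),(144,0x2a695835d34464c32acf3aee418820),(272,0x3a65575191ba9b05ccc57d88818820),(528,0x3566873d65bda07a29b16492410c20),(1040,0x2cec6aaef26b927831f45222418820),(2064,0x3422ea5ed5924aa4326d3bd6410c20),(4112,0x2c9f0322295de6aa9e96635c418820),(8208,0x3c5f3b4189329142d6eb9388d18820),(16400,0x2c9f0322295de6aa9e96635c418820),(32784,0x3d9b48d58e2aa53341774248f18820),(65552,0x3aeb2bb58572a884bed19989018820),(131088,0x2cec6aaef26b927831f45222418820),(262160,0x3b9104cd965a9f5bd0a66c49218820),(524304,0x39a8d2c9978aaafb212e82c9318820),(1048592,0x3966f3218bb2a0d8c9c9adc9418820),(2097168,0x3de085bd864aa7273636a149518820),(4194320,0x315b4449307aeac71e3355ec410c20),(8388624,0x2a695835d34464c32acf3aee418820),(96,0x4ca0863d643da77a45aa754c518820),(160,0x24ac682d5343131aba8fbb4e518820),(288,0x71ec6a263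595d6f24d8d828a810c20),(544,0x3424d6516455ab17dd0774d2510c20),(1056,0x225f0aa19269e6e35ed48ad4518820),(2080,0x354ec7aad09a4976ba488d16510c20),(4128,0x24e95334e95aa57845f67218518820),(8224,0x7258a99e2f85c955d2c8918ad10c20),(16416,0x24e95334e95aa57845f67218518820),(32800,0x45a546366a242b14b8c7bade518820),(65568,0x428c9a2df56ced7644f27120518820),(131104,0x22e6894195a1df7b38cd2a55118820),(262176,0x69d267ae93456d165d507124510c20),(524320,0x454ec492165bd4ea5e468b66518820),(1048608,0x6da0f622a724a773392a8ae8510c20),(2097184,0x6cd4c312565d0ee7c609ba2a510c20),(4194336,0x3110f6cd35a2e0e644f2baac510c20),(8388640,0x2352b999507b2cea46a82c8f718820),(192,0x22225add54931d68266d5bce618820),(320,0x49ee5a396d95a3064c957a8c818820),(576,0x252702bceeba90bad9b14c98618820),(1088,0x239b58498879e892ae33b5d4618820),(2112,0x22225add54931d68266d5bce618820),(4160,0x252702bceeba90bad9b14c98618820),(8256,0x4c5447b1689d8f5748b0a5ccd18820),(16448,0x2be552522c55dab859074cdc618820),(3283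2,0x438ea6b274ac08bbd8b24c5e618820),(65600,0x450b7545e464dc96ae47b560618820),(131136,0x2b4e482aef9b996aa6485d22618820),(262208,0x495878297345894bb62fab8d218820),(524352,0x4124dbd60e8be96524e55b26618820),(1048640,0x4dcec4116f859522d5d36c4d418820),(2097216,0x4b88a99d707d98d8d2e8914d518820),(4194368,0x239b58498879e892ae33b5d4618820),(8388672,0x2b110acdcda45e922cf2b2ae618820),(384,0x21ab28b54e2b290b4d377ace818820),(640,0x24eee6c552a30ab79915b40e918820),(1152,0x2d60f5ce3635d04931a93d1ca18820),(2176,0x23dd7a15556b2299da12320eb18820),(4224,0x2c0d66a6f4ab9649a91263e2718820),(8320,0x25e6f4a1565b21475626914ed18820),(16512,0x251697d9489b0d7696508d4ee18820),(32896,0x22e8d74951bb2b34c2c5418ef18820),(65664,0x25a552d1578b1a833d6e9a4f018820),(131200,0x254d64254f8316595db3750f118820),(262272,0x21608b3d49332758d1cb6dcf218820),(524416,0x225b4bd5457324f5a0d1858f318820),(1048704,0x239f35c1464b10dbc8b6ac4f418820),(2097280,0x2451034d4bb31f22b6e9a38f518820),(4194432,0x240b193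94dab2e642df44ccf618820),(8388736,0x2352b999507b2cea46a82c8f718820),(768,0x35ce4a316dad953740b27c52810c20),(1280,0x252f1b158659dd393ea98354818820),(2304,0x32a54756d78a5b023ce59b16810c20),(4352,0x2393692cf46a8cf8c2f59958818820),(8448,0x7b2ee4c606b4cb5248eba290d18820),(16640,0x2d8eca12356dd534bcd282dc818820),(33024,0x21ab28b54e2b290b4d377ace818820),(65792,0x235c53459649eeface4b4515018820),(131328,0x2aa544b6f65baaf640e69922818820),(262400,0x69987892972d54f4cece82e4810c20),(524544,0x214cba58f2aa930bbe2d4399318820),(1048832,0x6a9d1496a65caf33c1967928810c20),(2097408,0x6dec93ae4a250d08bdcc996a810c20),(4194560,0x334ae2452a62eefa4e47856c810c20),(8388864,0x2d4c962dca246d0a4e477b6e818820),(1536,0x216ad7d19381e4675ae85c54918820),(2560,0x216ad7d19381e4675ae85c54918820),(4608,0x2490f740e58aa766aeb73518918820),(8704,0x32a257b96885af265493a1d2d10c20),(16896,0x2cdb4656243de5642e0a33dc918820),(33280,0x3454c69174958f02cdd545d2f10c20),(66048,0x3158a91d756d88f8a2f49b93010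c20),(131584,0x2c94c41ef37b88ba19b0b562918820),(262656,0x330b185d737d9cd550e8a913210c20),(524800,0x33887aa972a5988bbe2d8153310c20),(1049088,0x31eee4156f9da35249906a93410c20),(2097664,0x311d79c570458b43b54f9313510c20),(4194816,0x24eee6c552a30ab79915b40e918820),(8389120,0x29208a3dd2ac6666594d59ee918820),(3072,0x246549b58f41eb6b99d04954b18820),(5120,0x2d9b27d1c89c6a75913061aea18820),(9216,0x240c972d9729ed57ca71a214d18820),(17408,0x21a0f6cd94a9d054c572bd94e18820),(33792,0x254ae4dd8b31e306a2969c94f18820),(66560,0x235c53459649eeface4b4515018820),(132096,0x22e6894195a1df7b38cd2a55118820),(263168,0x24d7689985b9d344360eabd5218820),(525312,0x24a375b989b1ca8a41a67d55318820),(1049600,0x222cbba58e89cd29d5e56c15418820),(2098176,0x23d262d99171d6d8511794d5518820),(4195328,0x25e924559099dab8a4af3395618820),(8389632,0x25913a3d8d91e11595357195718820),(6144,0x25613ba0f12a9e6a264eb358b18820),(10240,0x35e6f642ca3a5152d2249396d10c20),(18432,0x2c2b25362725e867a66cb21cb18820),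(34816,0x31ead2cad1ba6936214e8116f10c20),(67584,0x312928b6c5726a854d9779d7010c20),(133120,0x2d18a792f0438e995ab33362b18820),(264192,0x3391053ecc226748d4a76dd7210c20),(526336,0x331b5bd2ce2a64f3c0914297310c20),(1050624,0x3460824ec7525f2736eca957410c20),(2099200,0x315f33a2c46260dbc9caa457510c20),(4196352,0x25613ba0f12a9e6a264eb358b18820),(8390656,0x29e6f921d46c61651995492eb18820),(12288,0x25a2e794f042af24d0d3aad8d18820),(20480,0x2224d4d4e6b2a917de0b2cd8e18820),(36864,0x246c9698f59296874cb485d8f18820),(69632,0x25d66aa4eda2ad32a1d27c59018820),(135168,0x23db2b50eb4aaae41666bc19118820),(266240,0x225d145cf37a8adb5570a199218820),(528384,0x214cba58f2aa930bbe2d4399318820),(1052672,0x218b79c4e8829d55b6cf9259418820),(2101248,0x22ee5838ef9aa34349286d99518820),(4198400,0x235e88ccf772a0991a855d59618820),(8392704,0x242b45c8f6329a59b9098bd9718820),(24576,0x2b1369ae2f45cd43d550911cd18820),(40960,0x41dd7316695c23554996a11ed18820),(73728,0x4258ab91f12ccf4356ce92e0d18820),(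139264,0x29a133a2ec239f5b492aa2e2d18820),(270336,0x21608b3d49332758d1cb6dcf218820),(532480,0x446c652e0723d32bd1cca966d18820),(1056768,0x222cbba58e89cd29d5e56c15418820),(2105344,0x22ee5838ef9aa34349286d99518820),(4202496,0x3208c29d3772d547ca71ac2cd10c20),(8396800,0x2bd47b11c65c5929d209aa2ed18820),(49152,0x2988a91e2dadd905a2d49a5cf18820),(81920,0x2ad44ab23495cef34d2d459d018820),(147456,0x254d64254f8316595db3750f118820),(278528,0x290cb7da3385d35550e86b1d218820),(540672,0x2a5876aa32a5c88b4175799d318820),(1064960,0x29ec941a309dd6d6488faa9d418820),(2113536,0x2a966826287ded223593a1dd518820),(4210688,0x2a28d3ca2a65ea9999e45c1d618820),(8404992,0x25913a3d8d91e11595357195718820),(98304,0x25d66aa4eda2ad32a1d27c59018820),(163840,0x2b2925d6e64b9a854c9681e2f18820),(294912,0x430b1b3a6b4c2f4234e6aa9f218820),(557056,0x24a375b989b1ca8a41a67d55318820),(1081344,0x412254de66b41d26554b69df418820),(2129920,0x42aee5c676340ad3d089931f518820),(4227072,0x351c565d2722e286c2aa9cacf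10c20),(8421376,0x2b6cb525cc3c4d394284456ef18820),(196608,0x29db534aebb3a93221497b23018820),(327680,0x42ce48a9f774d95b50c56a61218820),(589824,0x25a552d1578b1a833d6e9a4f018820),(1114112,0x4194c29deebcc8d4c971ada1418820),(2162688,0x45887731e58cd525b537a1a1518820),(4259840,0x356f1539243acb393e8c436d010c20),(8454144,0x2d126259c764568abdaa9caf018820),(393216,0x2a50f542e463a745b4c7ada3218820),(655360,0x292adb52e933a503bd8b42a3318820),(1179648,0x2ade864ee753a124d6c469a3418820),(2228224,0x2da7023eea3b90d3516c9263518820),(4325376,0x2d4879b2e8839466ae8f4ca3618820),(8519680,0x23db2b50eb4aaae41666bc19118820),(786432,0x45cd62260c53d6d8d4a7a3a7218820),(1310720,0x218b79c4e8829d55b6cf9259418820),(2359296,0x23d262d99171d6d8511794d5518820),(4456448,0x34cea8912ebad9583505a3ed210c20),(8650752,0x2ccea5b1c9b448d7d506a42f218820),(1572864,0x4396965a043bcd52b62a95e7418820),(2621440,0x4152b39a0a63ed474ae46c67518820),(4718592,0x34a373952c52dd0aa1a47d2d310c20),(8912896,0x2c976399c45452f6a2ac852f318820),(3145728,0x2451034d4bb31f22b6e9a38f518820),(5242880,0x33d84729312aced4561794ed410c20),(9437184,0x2c08c4a9cb344f5435f694ef418820),(6291456,0x34147bb1258ac929d1ee6a2d510c20),(10485760,0x2a18431dd64c55484a6b6bef518820),(12582912,0x2a9f36c1d59450b3a494332f618820)]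

/-- Six points in an octad. -/
def oct6 (m : ℕ) : Bool := octadsL.any fun o => Nat.beq ((15 ||| m) &&& o) (15 ||| m)

/-- The type of a pair. -/
def typ (m : ℕ) : ℕ := bif Nat.beq (m &&& 12) 0 then (bif oct6 m then 1 else 2) else 0

/-- The pairs without a witness. -/
def skip (m : ℕ) : Bool := m.testBit 0 || m.testBit 1 || Nat.beq m 12

/-- The witness is correct. -/
def okWit (p : ℕ × ℕ) : Bool :=
  isAutN p.2 && Nat.beq (imgN p.2 0) 0 && Nat.beq (imgN p.2 1) 1 && chkO p.2 12 &&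
    Nat.beq (permMask (dL p.2) (reps.getD (typ p.1) 0)) p.1

theorem wit_ok : witL.all okWit = true := by decide +kernel

theorem wit_cov : (kSub 24 2).all (fun m => skip m || witL.any fun p => Nat.beq p.1 m) = true := by decide +kernel

/-- The pairs in an octad with the base. -/
def f1 (m : ℕ) : Bool := !m.testBit 0 && !m.testBit 1 && Nat.beq (m &&& 12) 0 && oct6 m

/-- The pairs not in an octad with the base. -/
def f2 (m : ℕ) : Bool := !m.testBit 0 && !m.testBit 1 && Nat.beq (m &&& 12) 0 && !oct6 m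

theorem c1 : ((kSub 24 2).filter f1).length = 30 := by decide +kernel

theorem c2 : ((kSub 24 2).filter f2).length = 160 := by decide +kernel

theorem not_mem_base {i m : ℕ} (hi : i < 24) : idxPt i ∉ supFin m ↔ m.testBit i = false := by
  rw [mem_supFin, ptIdx_idxPt hi]
  simp

theorem supFin_zero' : supFin 0 = ∅ := by
  ext p
  simp

theorem disj12 {m : ℕ} (hm : m < 2 ^ 24) : Disjoint (supFin 12) (supFin m) ↔ Nat.beq (m &&& 12) 0 = true := by
  rw [Finset.disjoint_iff_inter_eq_empty, supFin_inter, Nat.land_comm, Nat.beq_eq]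
  constructor
  · intro h
    rw [← supFin_zero'] at h
    have hlt : m &&& 12 < 2 ^ 24 := Nat.lt_of_le_of_lt Nat.and_le_left hm
    exact supFin_injOn hlt (by norm_num) h
  · intro h
    rw [h, supFin_zero']

theorem supFin15 : ∀ p : GolayPt, p ∈ supFin 15 ↔ p = idxPt 0 ∨ p = idxPt 1 ∨ p ∈ supFin 12 := by
  decide +kernel

theorem oct_iff {m : ℕ} (hm : m < 2 ^ 24) :
    (∃ o ∈ octads, idxPt 0 ∈ o ∧ idxPt 1 ∈ o ∧ supFin 12 ∪ supFin m ⊆ o) ↔ oct6 m = true := by
  have hlt : 15 ||| m < 2 ^ 24 := Nat.or_lt_two_pow (by norm_num) hm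
  rw [oct6, ← exists_octad_iff hlt]
  refine exists_congr fun o => and_congr_right fun _ => ?_
  rw [← supFin_or]
  constructor
  · rintro ⟨h0, h1, h2⟩ p hp
    rcases Finset.mem_union.mp hp with hp | hp
    · rcases (supFin15 p).mp hp with rfl | rfl | hp
      · exact h0
      · exact h1
      · exact h2 (Finset.mem_union_left _ hp)
    · exact h2 (Finset.mem_union_right _ hp)
  · intro h
    refine ⟨h (Finset.mem_union_left _ ((supFin15 _).mpr (Or.inl rfl))),
      h (Finset.mem_union_left _ ((supFin15 _).mpr (Or.inr (Or.inl rfl)))), ?_⟩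
    intro p hp
    rcases Finset.mem_union.mp hp with hp | hp
    · exact h (Finset.mem_union_left _ ((supFin15 _).mpr (Or.inr (Or.inr hp))))
    · exact h (Finset.mem_union_right _ hp)

/-- The first family. -/
def R1 (p q : GolayPt) (s t : Finset GolayPt) : Prop :=
  (t.card = 2 ∧ p ∉ t ∧ q ∉ t) ∧ Disjoint s t ∧ ∃ o ∈ octads, p ∈ o ∧ q ∈ o ∧ s ∪ t ⊆ o

/-- The second family. -/
def R2 (p q : GolayPt) (s t : Finset GolayPt) : Prop :=
  (t.card = 2 ∧ p ∉ t ∧ q ∉ t) ∧ Disjoint s t ∧ ¬ ∃ o ∈ octads, p ∈ o ∧ q ∈ o ∧ s ∪ t ⊆ o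

theorem card_base1 : {t | R1 (idxPt 0) (idxPt 1) (supFin 12) t}.ncard = 30 := by
  have h := ncard_subsets_filter 2
    (fun t => (idxPt 0 ∉ t ∧ idxPt 1 ∉ t) ∧ Disjoint (supFin 12) t ∧
      ∃ o ∈ octads, idxPt 0 ∈ o ∧ idxPt 1 ∈ o ∧ supFin 12 ∪ t ⊆ o) f1 (by
    intro m hm
    have hlt := (mem_kSub.mp hm).1
    rw [not_mem_base (by norm_num), not_mem_base (by norm_num), disj12 hlt, oct_iff hlt]
    simp only [f1, Bool.and_eq_true, Bool.not_eq_true']
    tauto)
  rw [c1] at h
  rw [← h]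
  congr 1
  ext t
  simp only [R1, Set.mem_ofPred_eq, and_assoc]

theorem card_base2 : {t | R2 (idxPt 0) (idxPt 1) (supFin 12) t}.ncard = 160 := by
  have h := ncard_subsets_filter 2
    (fun t => (idxPt 0 ∉ t ∧ idxPt 1 ∉ t) ∧ Disjoint (supFin 12) t ∧
      ¬ ∃ o ∈ octads, idxPt 0 ∈ o ∧ idxPt 1 ∈ o ∧ supFin 12 ∪ t ⊆ o) f2 (by
    intro m hm
    have hlt := (mem_kSub.mp hm).1
    rw [not_mem_base (by norm_num), not_mem_base (by norm_num), disj12 hlt, oct_iff hlt]
    simp only [f2, Bool.and_eq_true, Bool.not_eq_true', Bool.not_eq_true]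
    tauto)
  rw [c2] at h
  rw [← h]
  congr 1
  ext t
  simp only [R2, Set.mem_ofPred_eq, and_assoc]

theorem smul_mem_iff' (c : Equiv.Perm GolayPt) {p : GolayPt} {t : Finset GolayPt} : c p ∈ c • t ↔ p ∈ t := by
  constructor
  · intro h
    obtain ⟨y, hy, he⟩ := Finset.mem_smul_finset.mp h
    rwa [← c.injective he]
  · intro h
    exact Finset.mem_smul_finset.mpr ⟨p, h, rfl⟩

theorem disj_smul (c : Equiv.Perm GolayPt) {s t : Finset GolayPt} : Disjoint (c • s) (c • t) ↔ Disjoint s t := by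
  rw [Finset.disjoint_left, Finset.disjoint_left]
  constructor
  · intro h a ha hb
    exact h ((smul_mem_iff' c).mpr ha) ((smul_mem_iff' c).mpr hb)
  · intro h x hx hy
    obtain ⟨y, hy', rfl⟩ := Finset.mem_smul_finset.mp hx
    exact h hy' ((smul_mem_iff' c).mp hy)

theorem oct_smul {c : Equiv.Perm GolayPt} (hc : c ∈ M24) {p q : GolayPt} {s t : Finset GolayPt} :
    (∃ o ∈ octads, c p ∈ o ∧ c q ∈ o ∧ c • s ∪ c • t ⊆ o) ↔ ∃ o ∈ octads, p ∈ o ∧ q ∈ o ∧ s ∪ t ⊆ o := by
  classical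
  have key : ∀ {c : Equiv.Perm GolayPt}, c ∈ M24 → ∀ {p q : GolayPt} {s t : Finset GolayPt},
      (∃ o ∈ octads, p ∈ o ∧ q ∈ o ∧ s ∪ t ⊆ o) → ∃ o ∈ octads, c p ∈ o ∧ c q ∈ o ∧ c • s ∪ c • t ⊆ o := by
    rintro c hc p q s t ⟨o, ho, h1, h2, h3⟩
    refine ⟨c • o, smul_mem_octads hc ho, (smul_mem_iff' c).mpr h1, (smul_mem_iff' c).mpr h2, ?_⟩
    rw [← Finset.smul_finset_union]
    exact Finset.smul_finset_subset_smul_finset_iff.mpr h3
  refine ⟨fun h => ?_, key hc⟩
  have := key (inv_mem hc) h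
  simpa using this

theorem R1_smul {c : Equiv.Perm GolayPt} (hc : c ∈ M24) {p q : GolayPt} {s t : Finset GolayPt} :
    R1 (c p) (c q) (c • s) (c • t) ↔ R1 p q s t := by
  simp only [R1, oct_smul hc, smul_mem_iff', Finset.card_smul_finset, disj_smul]

theorem R2_smul {c : Equiv.Perm GolayPt} (hc : c ∈ M24) {p q : GolayPt} {s t : Finset GolayPt} :
    R2 (c p) (c q) (c • s) (c • t) ↔ R2 p q s t := by
  simp only [R2, oct_smul hc, smul_mem_iff', Finset.card_smul_finset, disj_smul]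

theorem ncard_transport {R : Finset GolayPt → Prop} {R' : Finset GolayPt → Prop} (c : Equiv.Perm GolayPt)
    (h : ∀ t, R' (c • t) ↔ R t) : {t | R t}.ncard = {t | R' t}.ncard := by
  have h1 : {t | R' t} = (fun t => c • t) '' {t | R t} := by
    ext t
    simp only [Set.mem_ofPred_eq, Set.mem_image]
    constructor
    · intro ht
      refine ⟨c⁻¹ • t, ?_, smul_inv_smul c t⟩
      rw [← h, smul_inv_smul]
      exact ht
    · rintro ⟨u, hu, rfl⟩
      exact (h u).mpr hu
  rw [h1, Set.ncard_image_of_injective _ (MulAction.injective c)]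

theorem supFin12 : supFin 12 = {idxPt 2, idxPt 3} := by decide +kernel

/-- The transport to the base. -/
theorem exists_base {p q : GolayPt} (hpq : p ≠ q) {s : Finset GolayPt} (hs : s.card = 2 ∧ p ∉ s ∧ q ∉ s) :
    ∃ c ∈ M24, c p = idxPt 0 ∧ c q = idxPt 1 ∧ c • s = supFin 12 := by
  classical
  obtain ⟨h2, hp, hq⟩ := hs
  obtain ⟨a, b, hab, rfl⟩ := Finset.card_eq_two.mp h2
  have hpa : p ≠ a := fun h => hp (by simp [h])
  have hpb : p ≠ b := fun h => hp (by simp [h])
  have hqa : q ≠ a := fun h => hq (by simp [h])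
  have hqb : q ≠ b := fun h => hq (by simp [h])
  obtain ⟨c, hc, h⟩ := exists_map_tuple 4 (by norm_num)
    (fun i => if i = 0 then p else if i = 1 then q else if i = 2 then a else b)
    (fun i => if i = 0 then idxPt 0 else if i = 1 then idxPt 1 else if i = 2 then idxPt 2 else idxPt 3)
    (fun x hx y hy hxy => by
      interval_cases x <;> interval_cases y <;> simp_all [Ne.symm])
    (fun x hx y hy hxy => by
      interval_cases x <;> interval_cases y <;> first | omega | decide +kernel)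
  refine ⟨c, hc, by simpa using h 0 (by norm_num), by simpa using h 1 (by norm_num), ?_⟩
  rw [supFin12, Finset.smul_finset_insert, Finset.smul_finset_singleton]
  have h3 : c • a = idxPt 2 := by simpa using h 2 (by norm_num)
  have h4 : c • b = idxPt 3 := by simpa using h 3 (by norm_num)
  rw [h3, h4]

/-- Witnesses as permutations. -/
theorem wit_of {m : ℕ} (hm : m ∈ kSub 24 2) (hs : skip m = false) :
    ∃ g ∈ M24, g (idxPt 0) = idxPt 0 ∧ g (idxPt 1) = idxPt 1 ∧ g • supFin 12 = supFin 12 ∧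
      g • supFin (reps.getD (typ m) 0) = supFin m := by
  have h1 := List.all_eq_true.mp wit_cov m hm
  simp only [hs, Bool.false_or] at h1
  obtain ⟨p, hp, hpe⟩ := List.any_eq_true.mp h1
  obtain rfl : p.1 = m := Nat.eq_of_beq_eq_true hpe
  have h2 := List.all_eq_true.mp wit_ok p hp
  simp only [okWit, Bool.and_eq_true] at h2
  obtain ⟨⟨⟨⟨ha, hb⟩, hc⟩, hd⟩, he⟩ := h2
  have hO := isAutN_ok ha
  refine ⟨pN p.2, isAutN_mem ha, ?_, ?_, (fixed_mask_iff hO (by norm_num)).mpr hd, ?_⟩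
  · rw [pN_idxPt hO (by norm_num), Nat.eq_of_beq_eq_true hb]
  · rw [pN_idxPt hO (by norm_num), Nat.eq_of_beq_eq_true hc]
  · rw [pN_smul_supFin hO, Nat.eq_of_beq_eq_true he]

theorem mask_of_pair {t : Finset GolayPt} (ht : t.card = 2) : ∃ m ∈ kSub 24 2, t = supFin m := by
  obtain ⟨m, hm, rfl⟩ := exists_mask t
  exact ⟨m, mem_kSub.mpr ⟨hm, by rw [← card_supFin, ht]⟩, rfl⟩

/-- The main statement. -/
theorem main1638 (p q : GolayPt) (hpq : p ≠ q) (s : Finset GolayPt) (hs : s.card = 2 ∧ p ∉ s ∧ q ∉ s) :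
    {t : Finset GolayPt | (t.card = 2 ∧ p ∉ t ∧ q ∉ t) ∧ Disjoint s t ∧ (∃ o ∈ octads, p ∈ o ∧ q ∈ o ∧ s ∪ t ⊆ o)}.ncard = 30 ∧
    {t : Finset GolayPt | (t.card = 2 ∧ p ∉ t ∧ q ∉ t) ∧ Disjoint s t ∧ ¬ (∃ o ∈ octads, p ∈ o ∧ q ∈ o ∧ s ∪ t ⊆ o)}.ncard = 160 ∧
    ∀ t t' : Finset GolayPt, (t.card = 2 ∧ p ∉ t ∧ q ∉ t) → (t'.card = 2 ∧ p ∉ t' ∧ q ∉ t') → t ≠ s → t' ≠ s →
      (s ∩ t).card = (s ∩ t').card →
      ((∃ o ∈ octads, p ∈ o ∧ q ∈ o ∧ s ∪ t ⊆ o) ↔ (∃ o ∈ octads, p ∈ o ∧ q ∈ o ∧ s ∪ t' ⊆ o)) →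
      ∃ g : Equiv.Perm GolayPt, g ∈ M24 ∧ g p = p ∧ g q = q ∧ g • s = s ∧ g • t = t' := by
  classical
  obtain ⟨c, hc, hcp, hcq, hcs⟩ := exists_base hpq hs
  refine ⟨?_, ?_, ?_⟩
  · rw [← card_base1]
    apply ncard_transport c
    intro t
    rw [← hcp, ← hcq, ← hcs]
    exact R1_smul hc
  · rw [← card_base2]
    apply ncard_transport c
    intro t
    rw [← hcp, ← hcq, ← hcs]
    exact R2_smul hc
  · intro t t' ht ht' hts hts' hcard hoct
    -- masks of the images
    obtain ⟨m, hm, hme⟩ := mask_of_pair (t := c • t) (by rw [Finset.card_smul_finset]; exact ht.1)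
    obtain ⟨m', hm', hme'⟩ := mask_of_pair (t := c • t') (by rw [Finset.card_smul_finset]; exact ht'.1)
    have hlt := (mem_kSub.mp hm).1
    have hlt' := (mem_kSub.mp hm').1
    have hskip : ∀ {t : Finset GolayPt} {m : ℕ}, (t.card = 2 ∧ p ∉ t ∧ q ∉ t) → t ≠ s → c • t = supFin m → m < 2 ^ 24 →
        skip m = false := by
      intro t m ht hts he hlt
      simp only [skip, Bool.or_eq_false_iff]
      refine ⟨⟨?_, ?_⟩, ?_⟩
      · rw [← not_mem_base (by norm_num), ← he, ← hcp, smul_mem_iff']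
        exact ht.2.1
      · rw [← not_mem_base (by norm_num), ← he, ← hcq, smul_mem_iff']
        exact ht.2.2
      · rw [← Bool.not_eq_true, Nat.beq_eq]
        rintro rfl
        apply hts
        rw [← hcs] at he
        exact (MulAction.injective c he)
    have hsk := hskip ht hts hme hlt
    have hsk' := hskip ht' hts' hme' hlt'
    -- the types agree
    have hzero : ∀ {t : Finset GolayPt} {m : ℕ}, c • t = supFin m → m < 2 ^ 24 →
        (Nat.beq (m &&& 12) 0 = true ↔ (s ∩ t).card = 0) := by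
      intro t m he hlt
      rw [← disj12 hlt, ← he, ← hcs, disj_smul, Finset.card_eq_zero,
        Finset.disjoint_iff_inter_eq_empty]
    have hoc : ∀ {t : Finset GolayPt} {m : ℕ}, c • t = supFin m → m < 2 ^ 24 →
        (oct6 m = true ↔ ∃ o ∈ octads, p ∈ o ∧ q ∈ o ∧ s ∪ t ⊆ o) := by
      intro t m he hlt
      rw [← oct_iff hlt, ← he, ← hcs, ← hcp, ← hcq, oct_smul hc]
    have htyp : typ m = typ m' := by
      have e1 : Nat.beq (m &&& 12) 0 = Nat.beq (m' &&& 12) 0 := by
        rw [Bool.eq_iff_iff, hzero hme hlt, hzero hme' hlt', hcard]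
      have e2 : oct6 m = oct6 m' := by
        rw [Bool.eq_iff_iff, hoc hme hlt, hoc hme' hlt', hoct]
      simp only [typ, e1, e2]
    obtain ⟨g1, hg1, a1, b1, c1', d1⟩ := wit_of hm hsk
    obtain ⟨g2, hg2, a2, b2, c2', d2⟩ := wit_of hm' hsk'
    rw [← htyp] at d2
    have hinv : ∀ {z : GolayPt}, g1 z = z → g1⁻¹ z = z := by
      intro z hz
      rw [Equiv.Perm.inv_eq_iff_eq, hz]
    refine ⟨c⁻¹ * (g2 * g1⁻¹) * c, mul_mem (mul_mem (inv_mem hc) (mul_mem hg2 (inv_mem hg1))) hc, ?_, ?_, ?_, ?_⟩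
    · simp only [Equiv.Perm.mul_apply]
      rw [hcp, hinv a1, a2, ← hcp]
      simp
    · simp only [Equiv.Perm.mul_apply]
      rw [hcq, hinv b1, b2, ← hcq]
      simp
    · rw [mul_smul, mul_smul, hcs, mul_smul, inv_smul_eq_iff.mpr c1'.symm, c2', ← hcs, inv_smul_smul]
    · rw [mul_smul, mul_smul, hme, mul_smul, ← d1, inv_smul_smul, d2, ← hme', inv_smul_smul]

end Cfsg.Agent.Lib.GolayPairs
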