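import Mathlib
import Cfsg.Prelude.Def_Sporadic_a
import Cfsg.Prelude.Def_SporadicCombinatorics
import Cfsg.Agent.Lib.GolayCoset
import Cfsg.Agent.Lib.GolaySets

/-!
# The punctured code of length 23
-/

set_option autoImplicit false
set_option linter.style.haveILetI false
set_option linter.constructorNameAsVariable false

open scoped Pointwise

namespace Cfsg.Agent.Lib.GolayPunct

open Cfsg Cfsg.Agent.Lib.GolayCode Cfsg.Agent.Lib.GolayFacts Cfsg.Agent.Lib.GolayPerm
  Cfsg.Agent.Lib.GolayFam Cfsg.Agent.Lib.GolayCoset Cfsg.Agent.Lib.GolaySets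

/-- The punctured code. -/
abbrev PC : Set (ZMod 23 → ZMod 2) := {u | ∃ w ∈ golayCode, ∀ x : ZMod 23, u x = w (some x)}

/-- A word of the punctured code. -/
def punct (k : ℕ) : ZMod 23 → ZMod 2 := fun x => dec (spanMask k) (some x)

theorem mem_PC {u : ZMod 23 → ZMod 2} : u ∈ PC ↔ ∃ k < 4096, u = punct k := by
  constructor
  · rintro ⟨w, hw, h⟩
    obtain ⟨k, hk, rfl⟩ := mem_golayCode_iff.mp hw
    exact ⟨k, hk, funext h⟩
  · rintro ⟨k, hk, rfl⟩
    exact ⟨_, mem_golayCode_iff.mpr ⟨k, hk, rfl⟩, fun _ => rfl⟩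

/-- A code word vanishing outside the extra point is zero. -/
theorem eq_zero_of_some {c : GolayPt → ZMod 2} (hc : c ∈ golayCode) (h : ∀ x : ZMod 23, c (some x) = 0) : c = 0 := by
  apply eq_zero_of_norm_lt hc
  have : support₂ c ⊆ {none} := by
    intro p hp
    cases p with
    | none => simp
    | some x =>
      simp only [support₂, Finset.mem_filter, Finset.mem_univ, true_and] at hp
      exact absurd (h x) hp
  have h1 := Finset.card_le_card this
  rw [norm_eq_card]
  simp at h1
  omega

theorem punct_injOn {k l : ℕ} (hk : k < 4096) (hl : l < 4096) (h : punct k = punct l) : k = l := by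
  have h1 : dec (spanMask k) - dec (spanMask l) ∈ golayCode :=
    sub_mem (mem_golayCode_iff.mpr ⟨k, hk, rfl⟩) (mem_golayCode_iff.mpr ⟨l, hl, rfl⟩)
  have h2 := eq_zero_of_some h1 (fun x => by
    have := congrFun h x
    simp only [punct] at this
    simp [this])
  exact spanMask_injOn hk hl (dec_injOn (spanMask_lt hk) (spanMask_lt hl) (sub_eq_zero.mp h2))

theorem norm_punct (k : ℕ) : hammingNorm (punct k) = hw 23 (spanMask k) := by
  rw [hw_eq_card, hammingNorm]
  refine Finset.card_bij (fun x _ => x.val) ?_ ?_ ?_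
  · intro x hx
    simp only [Finset.mem_filter, Finset.mem_univ, true_and, punct, dec_apply] at hx
    simp only [Finset.mem_filter, Finset.mem_range]
    refine ⟨ZMod.val_lt x, ?_⟩
    by_contra hc
    have : (spanMask k).testBit (ptIdx (some x)) = false := by simpa [ptIdx] using hc
    simp [this] at hx
  · intro x _ y _ hxy
    exact ZMod.val_injective 23 hxy
  · intro i hi
    simp only [Finset.mem_filter, Finset.mem_range] at hi
    refine ⟨(i : ZMod 23), Finset.mem_filter.mpr ⟨Finset.mem_univ _, ?_⟩, ZMod.val_natCast_of_lt hi.1⟩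
    have : ptIdx (some (i : ZMod 23)) = i := by
      show (i : ZMod 23).val = i
      exact ZMod.val_natCast_of_lt hi.1
    show dec (spanMask k) (some (i : ZMod 23)) ≠ 0
    rw [dec_apply, this, hi.2]
    simp

theorem ncard_PC_filter (f : ℕ → Bool) (Q : (ZMod 23 → ZMod 2) → Prop)
    (hQ : ∀ k < 4096, Q (punct k) ↔ f k = true) :
    {u | u ∈ PC ∧ Q u}.ncard = countBelow f 4096 := by
  classical
  have : {u | u ∈ PC ∧ Q u} = punct '' (((Finset.range 4096).filter fun k => f k = true : Finset ℕ) : Set ℕ) := by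
    ext u
    constructor
    · rintro ⟨hu, hq⟩
      obtain ⟨k, hk, rfl⟩ := mem_PC.mp hu
      exact ⟨k, Finset.mem_coe.mpr (Finset.mem_filter.mpr ⟨Finset.mem_range.mpr hk, (hQ k hk).mp hq⟩), rfl⟩
    · rintro ⟨k, hk', rfl⟩
      obtain ⟨hk, hf⟩ := Finset.mem_filter.mp (Finset.mem_coe.mp hk')
      have hk2 := Finset.mem_range.mp hk
      exact ⟨mem_PC.mpr ⟨k, hk2, rfl⟩, (hQ k hk2).mpr hf⟩
  rw [this, Set.InjOn.ncard_image, Set.ncard_coe_finset, countBelow_eq]
  intro k hk l hl h
  simp only [Finset.coe_filter, Finset.mem_range, Set.mem_ofPred_eq] at hk hl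
  exact punct_injOn hk.1 hl.1 h

theorem c4096 : countBelow (fun _ => true) 4096 = 4096 := by decide +kernel
theorem c7 : countBelow (fun k => hw 23 (spanMask k) == 7) 4096 = 253 := by decide +kernel
theorem c8 : countBelow (fun k => hw 23 (spanMask k) == 8) 4096 = 506 := by decide +kernel
theorem c11 : countBelow (fun k => hw 23 (spanMask k) == 11) 4096 = 1288 := by decide +kernel
theorem c12 : countBelow (fun k => hw 23 (spanMask k) == 12) 4096 = 1288 := by decide +kernel
theorem c15 : countBelow (fun k => hw 23 (spanMask k) == 15) 4096 = 506 := by decide +kernel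
theorem c16 : countBelow (fun k => hw 23 (spanMask k) == 16) 4096 = 253 := by decide +kernel

theorem ncard_weight (n N : ℕ) (h : countBelow (fun k => hw 23 (spanMask k) == n) 4096 = N) :
    {u | u ∈ PC ∧ hammingNorm u = n}.ncard = N := by
  rw [← h]
  apply ncard_PC_filter
  intro k _
  rw [norm_punct]
  simp

theorem min_weight {u : ZMod 23 → ZMod 2} (hu : u ∈ PC) (h0 : u ≠ 0) : 7 ≤ hammingNorm u := by
  obtain ⟨k, hk, rfl⟩ := mem_PC.mp hu
  rw [norm_punct]
  have hk0 : k ≠ 0 := by
    rintro rfl
    apply h0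
    funext x
    have : spanMask 0 = 0 := by decide
    simp [punct, this, dec_zero]
  have h1 := eight_le_hw hk hk0
  have h2 : hw 24 (spanMask k) = hw 23 (spanMask k) + spanMask k / 2 ^ 23 % 2 := hw_succ_top 23 (spanMask k)
  have h3 : spanMask k / 2 ^ 23 % 2 < 2 := Nat.mod_lt _ (by norm_num)
  omega

/-- The word extended by zero. -/
def ext0 (u : ZMod 23 → ZMod 2) : GolayPt → ZMod 2 := fun p =>
  match p with
  | none => 0
  | some x => u x

/-- Every word is near a word of the code, up to the extra point. -/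
theorem near_word (w : GolayPt → ZMod 2) :
    ∃ v : GolayPt → ZMod 2, w - v ∈ golayCode ∧ (support₂ v \ {none}).card ≤ 3 := by
  classical
  obtain ⟨a, -, ha4, hc⟩ := exists_leader w
  have hcases : hw 24 a ≤ 3 ∨ hw 24 a = 4 := by omega
  rcases hcases with h3 | h4
  · refine ⟨dec a, hc, ?_⟩
    have h1 := Finset.card_le_card (Finset.sdiff_subset (s := support₂ (dec a)) (t := {none}))
    rw [support_dec, card_supFin] at h1
    rw [support_dec]
    omega
  · have htc : (supFin a).card = 4 := by rw [card_supFin, h4]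
    obtain ⟨S, hS, hta⟩ := exists_sextet htc
    have key := mem_sextet_iff h4 hc hS hta
    obtain ⟨t, ht, hnt⟩ := sextet_cover hS none
    have h5 : support₂ (ind t) ∈ S := by rwa [support_ind]
    refine ⟨ind t, ((key _).mpr h5).2, ?_⟩
    rw [support_ind]
    have h6 := (mem_sextets.mp hS).2.1 t ht
    have h7 := Finset.card_sdiff_add_card_eq_card (Finset.singleton_subset_iff.mpr hnt)
    rw [Finset.card_singleton, h6] at h7
    omega

theorem dist_le {u c : ZMod 23 → ZMod 2} {v : GolayPt → ZMod 2} (h : ∀ x, c x = u x - v (some x))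
    (hv : (support₂ v \ {none}).card ≤ 3) : hammingDist u c ≤ 3 := by
  classical
  refine le_trans ?_ hv
  rw [hammingDist]
  apply Finset.card_le_card_of_injOn (fun x => some x)
  · intro x hx
    simp only [Finset.coe_filter, Finset.mem_univ, true_and, Set.mem_ofPred_eq] at hx
    simp only [Finset.coe_sdiff, Set.mem_sdiff, Finset.mem_coe, Finset.mem_singleton, support₂,
      Finset.mem_filter, Finset.mem_univ, true_and]
    refine ⟨?_, by simp⟩
    intro h0
    apply hx
    rw [h, h0, sub_zero]
  · intro x _ y _ hxy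
    exact Option.some.inj hxy

theorem eq_of_near {c c' : ZMod 23 → ZMod 2} {W W' : GolayPt → ZMod 2} (hW : W ∈ golayCode) (hW' : W' ∈ golayCode)
    (h : ∀ x, c x = W (some x)) (h' : ∀ x, c' x = W' (some x)) (hd : hammingDist c c' ≤ 6) : c = c' := by
  classical
  have h1 : W - W' ∈ golayCode := sub_mem hW hW'
  have h2 : hammingNorm (W - W') < 8 := by
    rw [norm_eq_card]
    have hsub : support₂ (W - W') ⊆ insert none ((Finset.univ.filter fun x => c x ≠ c' x).map
        ⟨fun x => some x, Option.some_injective _⟩) := by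
      intro p hp
      cases p with
      | none => simp
      | some x =>
        simp only [support₂, Finset.mem_filter, Finset.mem_univ, true_and, Pi.sub_apply] at hp
        apply Finset.mem_insert_of_mem
        simp only [Finset.mem_map, Finset.mem_filter, Finset.mem_univ, true_and, Function.Embedding.coeFn_mk]
        refine ⟨x, ?_, rfl⟩
        rw [h, h']
        intro he
        rw [he, sub_self] at hp
        exact hp rfl
    have h3 := Finset.card_le_card hsub
    have h4 := Finset.card_insert_le none ((Finset.univ.filter fun x => c x ≠ c' x).map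
        ⟨fun x => some x, Option.some_injective _⟩)
    rw [Finset.card_map] at h4
    have h5 : (Finset.univ.filter fun x => c x ≠ c' x).card = hammingDist c c' := rfl
    omega
  have h3 := eq_zero_of_norm_lt h1 h2
  funext x
  rw [h, h', sub_eq_zero.mp h3]

/-- The punctured code is perfect. -/
theorem perfect (u : ZMod 23 → ZMod 2) : ∃! c : ZMod 23 → ZMod 2, c ∈ PC ∧ hammingDist u c ≤ 3 := by
  obtain ⟨v, hv, hcard⟩ := near_word (ext0 u)
  have hmem : (fun x => (ext0 u - v) (some x)) ∈ PC := ⟨_, hv, fun _ => rfl⟩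
  have hd : hammingDist u (fun x => (ext0 u - v) (some x)) ≤ 3 := dist_le (fun _ => rfl) hcard
  refine ⟨_, ⟨hmem, hd⟩, ?_⟩
  rintro c' ⟨⟨W', hW', h'⟩, hd'⟩
  have htri : hammingDist c' (fun x => (ext0 u - v) (some x)) ≤ 6 := by
    have := hammingDist_triangle c' u (fun x => (ext0 u - v) (some x))
    rw [hammingDist_comm c' u] at this
    omega
  exact eq_of_near hW' hv h' (fun _ => rfl) htri

end Cfsg.Agent.Lib.GolayPunct
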