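import Mathlib
import Cfsg.Prelude.Def_Sporadic_a
import Cfsg.Prelude.Def_SporadicCombinatorics
import Cfsg.Agent.Lib.GolayQuart

/-!
# A quartet of a dodecad is determined by two of its triples
-/

open scoped Pointwise
open Cfsg Cfsg.Agent.Lib.GolayCode Cfsg.Agent.Lib.GolayFacts Cfsg.Agent.Lib.GolayPerm
open Cfsg.Agent.Lib.GolayFast Cfsg.Agent.Lib.GolaySets Cfsg.Agent.Lib.GolayFam
open Cfsg.Agent.Lib.GolayKit Cfsg.Agent.Lib.GolayEnum Cfsg.Agent.Lib.GolayObjs Cfsg.Agent.Lib.GolayOrbit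
open Cfsg.Agent.Lib.GolayQuart Cfsg.Agent.Lib.GolayDod3 Cfsg.Agent.Lib.GolayM12

namespace Cfsg.Agent.Lib.GolayQuart2

set_option maxRecDepth 100000
set_option maxHeartbeats 1000000

/-- First member of `QL` containing both of the two masks. -/
def QF (a b : ℕ) : Option (List ℕ) := QL.find? (fun l => l.contains a && l.contains b)

theorem QF_uniq : QL.all (fun l => l.all (fun a => l.all (fun b => decide (a = b) || decide (QF a b = some l)))) = true := by
  decide +kernel

theorem QF_exists : NBT.all (fun p => p.2.all (fun b => (QF p.1 b).isSome)) = true := by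
  decide +kernel

theorem lt_of_mem {l : List ℕ} (hl : l ∈ QL) {m : ℕ} (hm : m ∈ l) : m < 2 ^ 24 := by
  have hk := List.all_eq_true.mp QL_ok l hl
  simp only [Bool.and_eq_true, decide_eq_true_eq] at hk
  obtain ⟨⟨⟨h1, h2⟩, h3⟩, h4⟩ := hk
  have h5 := List.all_eq_true.mp T_sound m (List.contains_iff_mem.mp (List.all_eq_true.mp h3 m hm))
  simp only [Bool.and_eq_true, decide_eq_true_eq] at h5
  rw [← h5.2]
  exact Nat.and_lt_two_pow _ dod0_lt

theorem base1596 {t u : Finset GolayPt} (ht : t.card = 3) (hu : u.card = 3) (htu : Disjoint t u)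
    (hh : t ∪ u ∈ hexadsOn (supFin dod0)) :
    ∃! Q : Finset (Finset GolayPt), Q ∈ quartets (supFin dod0) ∧ t ∈ Q ∧ u ∈ Q := by
  classical
  have hsub : t ∪ u ⊆ supFin dod0 := by
    obtain ⟨-, o, -, he⟩ := hh
    rw [← he]
    exact Finset.inter_subset_right
  have hat : supFin (maskOf t) = t := supFin_maskOf t
  have hbu : supFin (maskOf u) = u := supFin_maskOf u
  obtain ⟨a, haE⟩ : ∃ a, a = maskOf t := ⟨_, rfl⟩
  obtain ⟨b, hbE⟩ : ∃ b, b = maskOf u := ⟨_, rfl⟩
  rw [← haE] at hat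
  rw [← hbE] at hbu
  have ha24 : a < 2 ^ 24 := haE ▸ maskOf_lt _
  have hb24 : b < 2 ^ 24 := hbE ▸ maskOf_lt _
  have hor : a ||| b ∈ H132 := by
    apply mem_of_hex (Nat.or_lt_two_pow ha24 hb24)
    rw [← supFin_or, hat, hbu]
    exact hh
  have hT : a ∈ T220 := by
    have h2 : a ∈ kSub 24 3 := mem_kSub.mpr ⟨ha24, by rw [haE, hw_maskOf, ht]⟩
    have h3 := List.all_eq_true.mp T_cover _ h2
    have h4 : a &&& dod0 = a := by
      apply supFin_injOn (Nat.and_lt_two_pow _ dod0_lt) ha24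
      rw [← supFin_inter, hat]
      exact Finset.inter_eq_left.mpr (Finset.union_subset_left hsub)
    simp only [h4, ne_eq, not_true_eq_false, decide_false, Bool.false_or] at h3
    exact List.contains_iff_mem.mp h3
  obtain ⟨⟨a', la⟩, hpa, hae⟩ := List.mem_map.mp hT
  simp only at hae
  subst hae
  have hcard : (supFin a' ∪ supFin b).card = 6 := by
    rw [hat, hbu, Finset.card_union_of_disjoint htu, ht, hu]
  have hbla : b ∈ la := by
    have h1 := List.all_eq_true.mp (List.all_eq_true.mp NB_ok _ hor) _ hpa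
    simp only at h1
    rw [and_or_self'] at h1
    have h4 := xor_of_disj (disj_of_card ha24 hb24 (by rw [hat, ht]) (by rw [hbu, hu]) hcard)
    rw [h4] at h1
    simp only [ne_eq, not_true_eq_false, decide_false, Bool.false_or] at h1
    exact List.contains_iff_mem.mp h1
  have hsome := List.all_eq_true.mp (List.all_eq_true.mp QF_exists _ hpa) b hbla
  simp only at hsome
  obtain ⟨l, hl⟩ := Option.isSome_iff_exists.mp hsome
  have hlQ : l ∈ QL := List.mem_of_find?_eq_some hl
  have hlc := List.find?_some hl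
  simp only [Bool.and_eq_true, List.contains_iff_mem] at hlc
  have hne : a' ≠ b := by
    rintro rfl
    have h5 : (supFin a').Nonempty := by
      rw [← Finset.card_pos, hat, ht]
      norm_num
    rw [hat] at h5
    rw [hbu] at hat
    subst hat
    rw [disjoint_self] at htu
    subst htu
    simp at h5
  refine ⟨objOf l, ⟨base_sound hlQ, ?_, ?_⟩, ?_⟩
  · rw [mem_objOf]
    exact ⟨a', hlc.1, hat⟩
  · rw [mem_objOf]
    exact ⟨b, hlc.2, hbu⟩
  · rintro Q ⟨hQ, htQ, huQ⟩
    obtain ⟨l', hl', rfl⟩ := base_complete hQ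
    obtain ⟨m, hm, hme⟩ := mem_objOf.mp htQ
    obtain ⟨n, hn, hne'⟩ := mem_objOf.mp huQ
    have hma : m = a' := supFin_injOn (lt_of_mem hl' hm) ha24 (by rw [hme, hat])
    have hnb : n = b := supFin_injOn (lt_of_mem hl' hn) hb24 (by rw [hne', hbu])
    subst hma hnb
    have h6 := List.all_eq_true.mp (List.all_eq_true.mp (List.all_eq_true.mp QF_uniq _ hl') _ hm) _ hn
    simp only [hne, decide_false, Bool.false_or, decide_eq_true_eq] at h6
    rw [hl] at h6
    rw [Option.some.inj h6]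

theorem main1596 (d : Finset GolayPt) (hd : d ∈ dodecads) (t u : Finset GolayPt) (ht : t.card = 3) (hu : u.card = 3)
    (htu : Disjoint t u) (hh : t ∪ u ∈ hexadsOn d) :
    ∃! Q : Finset (Finset GolayPt), Q ∈ quartets d ∧ t ∈ Q ∧ u ∈ Q := by
  classical
  obtain ⟨g, hg, rfl⟩ := exists_map_dod0 hd
  have h1 : (g⁻¹ • t) ∪ (g⁻¹ • u) ∈ hexadsOn (supFin dod0) := by
    have := smul_mem_hexadsOn (inv_mem hg) hh
    rwa [inv_smul_smul, Finset.smul_finset_union] at this
  obtain ⟨Q, ⟨hQ, hQt, hQu⟩, hQuniq⟩ := base1596 (t := g⁻¹ • t) (u := g⁻¹ • u) (by rw [Finset.card_smul_finset, ht])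
    (by rw [Finset.card_smul_finset, hu]) (by
      rw [Finset.disjoint_left] at htu ⊢
      intro x hx hy
      obtain ⟨a, ha, rfl⟩ := Finset.mem_smul_finset.mp hx
      exact htu ha ((Finset.smul_mem_smul_finset_iff g⁻¹).mp hy)) h1
  refine ⟨g • Q, ⟨smul_mem_quartets hg hQ, ?_, ?_⟩, ?_⟩
  · rw [← smul_inv_smul g t]
    exact Finset.smul_mem_smul_finset hQt
  · rw [← smul_inv_smul g u]
    exact Finset.smul_mem_smul_finset hQu
  · rintro Q' ⟨hQ', hQ't, hQ'u⟩
    have h2 := hQuniq (g⁻¹ • Q') ⟨by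
      have := smul_mem_quartets (inv_mem hg) hQ'
      rwa [inv_smul_smul] at this, Finset.smul_mem_smul_finset hQ't, Finset.smul_mem_smul_finset hQ'u⟩
    rw [← h2, smul_inv_smul]

end Cfsg.Agent.Lib.GolayQuart2
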