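import Mathlib
import Cfsg.Prelude.Def_Sporadic_a
import Cfsg.Prelude.Def_SporadicCombinatorics
import Cfsg.Agent.Lib.GolayQuart
import Cfsg.Agent.Lib.GolayS5

/-!
# The stabilizer of a quartet of a dodecad
-/

set_option autoImplicit false
set_option maxHeartbeats 1000000
set_option linter.style.haveILetI false
set_option linter.constructorNameAsVariable false

open scoped Pointwise

namespace Cfsg.Agent.Lib.GolayQuartG

open Cfsg Cfsg.Agent.Lib Cfsg.Agent.Lib.GolayCode Cfsg.Agent.Lib.GolayFacts Cfsg.Agent.Lib.GolayPerm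
  Cfsg.Agent.Lib.GolayChain Cfsg.Agent.Lib.GolayTrans Cfsg.Agent.Lib.GolayDecomp
  Cfsg.Agent.Lib.GolayOrbit Cfsg.Agent.Lib.GolayFix Cfsg.Agent.Lib.GolayEnum
  Cfsg.Agent.Lib.GolayKit Cfsg.Agent.Lib.GolayM12 Cfsg.Agent.Lib.GolayObjs Cfsg.Agent.Lib.GolayDod3
  Cfsg.Agent.Lib.GolayFam Cfsg.Agent.Lib.GolaySets Cfsg.Agent.Lib.GolayFast Cfsg.Agent.Lib.GolayFastData
  Cfsg.Agent.Lib.GolayQuart

/-- The stabilizer of the base dodecad and quartet, with the matrix of the action on the normal subgroup. -/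
def L432M : List (ℕ × ℕ) := [(0x2cdd5bb0e4b51267a90d88d7280440,62),(0x2beaeb24edbd1929c4645216680440,58),(0x2ceb4b36295ba4c79e06522e418440,56),(0x2be955ca26b39a49a9093c2ec18440,61),(0x2bdd4b914c5d4c999e1288ecd40440,55),(0x2ce8e59952bd48d7c46c3c2c940440,59),(0x2ce953b6e453a467d90c5c22918041,32),(0x2beb454aec3b9a99ae04b222618041,28),(0x2bdd58a566551849d912b8ced80041,31),(0x2ceae531728d12d7dc66b20e480041,35),(0x2be8e392cd8d4d29dc695c14c40041,34),(0x2cdd489ac93d48c7ae0db8d5240041,29),(0x2aeae885e6b50043a90db8e7213209,78),(0x29dd5b01ed8d0325dc665226413209,42),(0x29e8e9cae4b55a65a90078a211b209,69),(0x2add4b36e09d6413bc44522261b209,24),(0x2ae95991528b8cd3dc6178ac043209,51),(0x29eb4899419b8805bc52b8ecd43209,15),(0x2aeb4b92c07b8c13cc4d88d524260c,21),(0x29e9579acdbb8925c460989414260c,66),(0x2ae8e7b626556443d90198ae01a60c,48),(0x29dd454a217d5a05cc46b22e41a60c,12),(0x29eaeb8264550265d91288ded1260c,39),(0x2add550672bd00d3c464b21e61260c,75),(0x2aa8eb81ec3d429b2e0d88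e7211904,37),(0x2d9d4385edbd4125446c5c26911904,77),(0x2daae9ca293d1ac52e0178ae019904,47),(0x2a9d53b6219d240b3c495c2ec19904,16),(0x2aab49a572bb98db4460788e181904,67),(0x2da95bb1609b92153c5288ced81904,26),(0x2da8e886695d40c51e12b8ded11106,74),(0x2a9d4582728d42db5c693c1ec11106,43),(0x2aa958a4e17b980b4c4db8d7281106,13),(0x2dab47b0ed8b93255c619896081106,53),(0x2d9d55cae07d1a154c4c3c22919106,23),(0x2aaae7b6ec5d249b1e0098a2119106,64),(0x2deae59ac09d0818bc493c14c43472,25),(0x2c5d5992c95d0ccb9e007894143472,65),(0x2c68e530e19d520bbc44b216683472,17),(0x2ddd49a4e4555868d9017896083472,49),(0x2de95505ec5b80989e06b226413472,73),(0x2c6b4581e653824bd90c3c26913472,41),(0x2deb438664b38068a9095c1ec1486d,79),(0x2c695b02693b82cbae04521e61486d,38),(0x2de8eb25607d5818cc46520e48486d,22),(0x2c5d47b166b5524ba900988e18486d,71),(0x2c6ae391417d0c0bcc4c5c2c94486d,14),(0x2ddd57994c3d0898ae0198ac04486d,46),(0x3da8ebb1628d5217a808998a480e4d,17),(0x3bdd48a568bd584b4cc2500a180e4d,49),(0x3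d9d58a2692d08c7ae01502e230e4d,65),(0x3beae292618d102b28095c2ec30e4d,25),(0x3dab428544bb8487cccc5c22900e4d,41),(0x3be95b894c2b829b2e0499a2800e4d,73),(0x3add598543b504d2be44b9a2803209,42),(0x396aeb09449d0285dcc37ca2d03209,78),(0x395d498de18d5a25a808b9ac493209,24),(0x3ae8e8b5e89d4642dcc1502c293209,69),(0x3aeb4b12e28b9012a80d7ca6333209,15),(0x396958a2edb38835be425026133209,51),(0x3968e50ec4bd5a85ccc2881e19260c,48),(0x3add4bb6c2554612c404999e89260c,12),(0x396b47a261538825c403b4aed3260c,21),(0x3ae95512637b90d2da41882e23260c,66),(0x3aeae78628bd0442cccdb49430260c,39),(0x395d5b8a2d7d0235da48999440260c,75),(0x3ce8eb0a292d42cbae0d7c943020c4,74),(0x3ddd42862db54439be495c14c020c4,43),(0x3cdd52b5e155062bc40c5c2c9920c4,23),(0x3deae50dec2d1a99ae01882c2920c4,64),(0x3ceb453163b392dbbe42880a1820c4,53),(0x3de95b2562539819c4037c8ad820c4,13),(0x3c5d4b12695d50c516037caed30402,29),(0x3aa8e5a263b548d8be492c2ec30402,34),(0x3c6aebb0adb512353e449996880402,35),(0x3a9d5b24a4bd1888cc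cd7c96380402,31),(0x3aab4bb5ec5b8698960899ac490402,28),(0x3c69558de8bb9a454ccc2c2c990402,32),(0x3ddd558ec28d1a19a8092c1ec910c8,16),(0x3ceae8b6c95d06cb9602501e1910c8,47),(0x3deb48a4ad7b9839da4150162810c8,67),(0x3ce957b0a18b922ba80db4963810c8,26),(0x3de8e7854c5d44999603b4a2d010c8,37),(0x3cdd4589437d42dbda4c2c229010c8,77),(0x3c68e292ed7d50355a4c5c26930801,59),(0x3a9d47a2ec2d4898ae0db4a6330801,55),(0x3aaae9a5637d18d8da48b98a480801,58),(0x3c5d57b1689d12455cc3b48ad80801,62),(0x3c6b498ec92b9ac52e04b99e890801,56),(0x3aa952b6c49b8688dcc95c1ec90801,61),(0x3d9d4530a49d5287dcc18816283643,71),(0x3be8e9a4a155582b4404b996883643,22),(0x3bdd5512ec5d109b16028826133643,46),(0x3daae5a2e2550817c40c2c26933643,14),(0x3da95986295b84c79608b994403643,38),(0x3beb458a289b824b5cc92c14c03643,79),(0x5168e588ec7d430b5d239b63201106,74),(0x559d4784e35d4522cdacba63001106,43),(0x516b48c2f25b983b4da2381e149106,53),(0x55a955b2e28ba0129c129b5e349106,13),(0x515d578e618d242b1c10ba56c69106,23),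(0x55aae8ca707d06c2dd213816269106,64),(0x55dd5286325d0437cda6b20e40412c,42),(0x53eae58a262d024bd9129b4e30412c,78),(0x55eb459ac23b8817c4039b4b24412c,15),(0x53e95392c35b8d2bcda2880a14412c,51),(0x53dd42ca613d462bc404b21666c12c,24),(0x55e8e38e642d6467d901881626c12c,69),(0x53dd5b08e39d032bada42a22603130,75),(0x55eae984e4b5046795035b63203130,39),(0x55e95898b29b8837ada1382c243130,66),(0x53eb4990a18b8c2b9c125b6c343130,21),(0x53e8e8c966b5464b9502382616b130,48),(0x55dd4b0d628d64179c062a2646b130,12),(0x54dd589ad0bd08c5bd22380a140db2,46),(0x52eaeb92c28d0c199c107a4ac40db2,14),(0x52e95284ecbb8509bd24b222600db2,38),(0x54eb4b88e42b8265d90c7a63000db2,79),(0x52dd48c1e62d5849d901382e248db2,71),(0x54e8e2b1e18d60259c06b22e448db2,22),(0x55ab43b1e39ba122ada1882e249904,67),(0x516959c1e13b982b44035b6f249904,26),(0x55a8e98630bd44c2bd325b4e301904,37),(0x515d4b8a329d423b2db07a4ec01904,77),(0x559d5bc9623d0612c40c7a67069904,16),(0x516ae38d6cbd250b3d228826169904,47),(0x5468eb90b25d4c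33cdac7a6d040402,34),(0x51dd4598acbd4908bd329b6c340402,29),(0x51e95bca64b3866895107a56c68402,32),(0x546b4b0e70bba4c3bd242a16668402,28),(0x51eaeb41e35d1928cda62a2e448402,35),(0x545d55b1e6b5204395039b6f248402,31),(0x546ae2b2f29d2033ada4b21e648801,58),(0x51dd59c2e42d1868d9125b5e348801,62),(0x5469578d662ba443d90cba67068801,61),(0x51eb42c96c7b8708dd26b226468801,56),(0x51e8e79ac39d4928adb0ba4ac40801,59),(0x545d4992d07d4cc3dd235b4b240801,55),(0x52dd5390ac7d0d09dd21882c2449a3,65),(0x54eae798a13d0825c40cba6d0449a3,25),(0x52eb478626b384499510ba4ec049a3,41),(0x54e95b0a307b82c5dd262a0e4049a3,73),(0x54dd43b2e4b560659502881e14c9a3,49),(0x52e8eb42e23d5819c4042a1e64c9a3,17),(0x5daae7b0e39d132ba9a8890a680820,35),(0x5ddd59a4e87d186b4483534b280820,31),(0x5da952c9467b868bc48c3c26968820,32),(0x5deb478d4c2ba49b1e068926868820,28),(0x5de8e29a329d503b29a93c1ec20820,34),(0x5d9d49a2292d4ccb9e12535e320820,29),(0x5c6b4bb0b29b9237a9a0b04e281888,53),(0x5be959a4a0bb9828d832534e381888,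13),(0x5c5d538d42bd2407d82c2c26969888,23),(0x5beaebc94c3d06989602b066069888,64),(0x5bdd438ac39d4128a9a92c2ec09888,43),(0x5c68e982c93d44c79603536f209888,74),(0x596ae50ac67d0083c4839b6f20a60c,39),(0x59dd5782c3550522cda6892e80a60c,75),(0x59695ba232538c33cda2b05e02260c,66),(0x59eb451a22bb9002d8329b5e32260c,21),(0x59e8ebca687d4662c480b05426a60c,48),(0x595d478e60bd6423d828891466a60c,12),(0x5ce8e7b0a0b552255c26890e8849a3,17),(0x5a9d4b24a67d5889c480b84e2849a3,49),(0x5ceb438ae87b8065448c2c2c90c9a3,41),(0x5aa95782ec3b84999608892c60c9a3,73),(0x5aaae3a222b50c09dc292c1ec249a3,25),(0x5cdd5b1a293d10c51602b85e0249a3,65),(0x5ceae299e0bd1025582c3c22920db2,14),(0x5a9d5ba1ec2d0c999e00b062220db2,46),(0x5cdd4bb0e88d52653c82b04a080db2,71),(0x5aa8e8a4e2bd5809d828790a680db2,22),(0x5ce9588ac92b80c51e06792e808db2,38),(0x5aab4282c68b8489bc893c2ec08db2,79),(0x596b49a1e0b38c23dc235363223209,15),(0x59e95b19e39b9122a9a0b862223209,51),(0x5968eb0d468d6483bc82b86606b209,69),(0x59dd48c942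b54602dc26792686b209,24),(0x595d588af29d0033a9a8792c60b209,42),(0x59eae982e88d0462bc92536c30b209,78),(0x5da8e3a1e3554d2bcdac2c22920022,59),(0x5ddd4519ec3d509b16039b63220022,55),(0x5deae8a4b255183b4da6790e880022,58),(0x5d9d5530a68d128bbc929b4e380022,62),(0x5dab48ca693b86cb96087914668022,56),(0x5de9538e688ba46b3c892c14c68022,61),(0x5bdd52ca60b50628dc293c14c6a086,16),(0x5c6aeb0e692d24c79e00b85426a086,47),(0x5be8e50aec2d40989e129b6c30a086,37),(0x5c5d4282f2554437cdac3c2c90a086,77),(0x5beb4b24e3539928cda2b84a082086,67),(0x5c695530e2b39207dc239b4b282086,26),(0x796b458cecbb9b09a928892c690440,56),(0x7ce95bb4e85b8662c48c526d090440,61),(0x795d5b41465d1889c4833caed48440,62),(0x7ceae5b143b520d29e46892e848440,58),(0x7cdd4b1a30bd50c2a92d3c96320440,55),(0x7968eba22db54c399e505256c20440,59),(0x7aaaeb00a68d028bac8d3ca6313130,39),(0x7ddd5884adb500351e465926813130,75),(0x7de8e98ce88d5a652c8128ac093130,48),(0x7a9d48b4e19d460b9448592c693130,12),(0x7aa959a163b38cdb9e4028a2123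130,66),(0x7deb4b19609b901514433ca2d23130,21),(0x7c6953b1419ba0059443b4aed49888,13),(0x7aeb49c1433b98d8da4128ae049888,53),(0x7c6ae98ed0bd1ac5a920288e191888,64),(0x7add5bb6c09d06189450524ec91888,23),(0x7c5d4b80ad3d4235da4c5267011888,43),(0x7ae8e384acbd4108a92db4a6311888,74),(0x7add450663b540d89e50ba4ac12086,77),(0x7c68eb02705542c5dd233c8ad12086,37),(0x7aeae2b4ec550708dd2198ac092086,47),(0x7c5d550ce12d1a05cc4cba6d092086,16),(0x7ae95b42e02b9818cc4d3c9434a086,26),(0x7c6b42b2edb3a0359e40989414a086,67),(0x7de9529a2d3b90355a41989602412c,51),(0x7aab43a2212b8c0bcc4db49632412c,15),(0x7deae386685d00654483b48ad1412c,78),(0x7a9d5582633d02dbda48890a61412c,42),(0x7ddd458ec02d5a154c46890e89412c,24),(0x7aa8e2b6c65d468bc480988e19412c,69),(0x7da8e5b2e09d60139448891464b643,22),(0x79dd49c2e85d586b4480289414b643,71),(0x79eae51a219d100b1450ba56c23643,14),(0x7d9d59a230550cc3dd212896023643,46),(0x7dab4504a65b8083c48cba67013643,79),(0x79e95580ac53830b5d268926813643,38),(0x7daaeb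a1602d0c13cc4c5263020e4d,25),(0x79dd52996cbd110b292098a2120e4d,65),(0x7d9d42b1468d6083ac8198ae048e4d,49),(0x79e8e8c1412d580b4c46592e848e4d,17),(0x79eb4b82688b826b2c90524ac10e4d,41),(0x7da9588670bb80c3a928590a610e4d,73),(0x795d43a16c554d09dd23b4a2d20041,29),(0x7ce8e519633d50d2da4cba63020041,34),(0x7ceb48b6d05386c2dd26590e890041,28),(0x7969550ec68b9a89ac90ba4ec90041,32),(0x7cdd53b2e88d2062ac8db494348041,31),(0x796ae8c2ed3d1839da485914648041,35),(0x8a9d52a6c67d2083ac8db8e7260801,62),(0x89eae7c2cd2d13255c665926860801,58),(0x89dd4299699d51055992b8ded20801,55),(0x8aa8e9a1722d4cd3dc69b31f020801,59),(0x89e959cae87b9a652c90b30a918801,61),(0x8aab47b6f09ba493d988590a618801,56),(0x8deb4984e85b8462bc89b315003472,41),(0x89695588e99b830bd9887914603472,73),(0x8ddd5519f09d1092d9813816223472,65),(0x896ae9a1e1550c2b9c10b316923472,25),(0x895d4542c65d528bbc823826163472,49),(0x8de8e5a6c25560129c067926863472,17),(0x8be8eb89509d4295d99228ced01888,74),(0x8add498552bd44d79470b30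e901888,43),(0x8beb43a6cdbba12594625026161888,53),(0x8ae95bc2c23b9217a80d28e7261888,13),(0x8aeae3b4a99d2507d981502e219888,64),(0x8bdd59c8a13d1a25a809b32f019888,23),(0x8d9d45cae23d5a19a808790a61c189,12),(0x8ce8e3b6e85d646b3c82500a11c189,48),(0x8ceb4299e13b902b280db8d7224189,21),(0x8da953a1ed2b8d29dc615016224189,66),(0x8cdd5589522d02db5c66790e804189,75),(0x8daae285465d0489bc92b8ced04189,39),(0x896b4b09467b828bac909b0e90486d,79),(0x8de9578550b38492cd86590e80486d,38),(0x8ddd43a6687d6062ac81502c26486d,71),(0x8968e7c2613d522ba808592c66486d,22),(0x8deaeb19623d1012a8099b1f02486d,14),(0x895d53a169b50d0bcd82501e12486d,46),(0x89e8eb19edbd512514709b16920402,34),(0x8a9d4ba1f0b54c93cd8d28d7220402,29),(0x89eb45c8a9b39b054d86792e818402,28),(0x8aa95b34a65ba483bc899b2f018402,32),(0x8aaae5a672bd20d39468792c660402,35),(0x89dd5bc2685d12653c9228ecd60402,31),(0x8bdd4b08ed2d4325dc699b15002086,77),(0x8ae8e284e9b54507cd8db8d5202086,37),(0x8aeb4542722b92d7dc61382c262086,67),(0x8b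e952a66153a0259c12b8ecd62086,26),(0x8beae54af0b51a95cd82380a11a086,47),(0x8add5b36e25524179c109b0a91a086,16),(0x8da8e548a67d5a89ac81382e21a590,69),(0x8cdd47b4a155642b1c06592e81a590,24),(0x8d9d5784edbd052994685914602590,42),(0x8ceaeb88e87d026b2c8d28d5202590,78),(0x8ce9551972bb90db1462381e122590,51),(0x8dab4ba162538c199c1228ded22590,15),(0x995d45a0e9b54907c583536f230440,55),(0x9be8eb10e35d5122a9a98b2f030440,59),(0x9beb4bc950b38692c5843996868440,56),(0x99695b0d44bba4879cd08b16968440,61),(0x996aebc2325d1237a9a839ac460440,58),(0x9bdd55a628bd20429cd2536c360440,62),(0x9ae8ebc2c02d52153c4439a2860db2,22),(0x9a9d42a6c4bd60859cc078a2160db2,71),(0x9aa95b81f08b8295d988398a410db2,38),(0x9aeb4885e8bb80451cd0b30a910db2,79),(0x9add5290e98d1105598178ae030db2,46),(0x9aaae8a0e12d0805bc49b32f030db2,14),(0x9c6ae581e83d024b5cc3534b214189,39),(0x9d9d5385e35d0128a9a8b98a414189,75),(0x9c695292f25b903b29a0788e134189,66),(0x9dab45a2e02b8818bc52534e334189,21),(0x9da8e2c9443d4688dcc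1789606c189,48),(0x9c5d438d412d640b3c44b99686c189,12),(0x99e95542212b920bbc525b6c3620c4,13),(0x9deb42a63253a033ada178ac0620c4,53),(0x9de8e505f0b54093c5835b4b2120c4,74),(0x99dd4b01e355432badb08b0a9120c4,43),(0x9ddd5b0d602d2413bc498b1506a0c4,23),(0x99eae2c969b5070bc580789416a0c4,64),(0x9a9d57a2f0b50895c580288e1349a3,65),(0x9aeaeb12e07d101514508b0e9349a3,25),(0x9add47c2283d52455cc128ac0649a3,49),(0x9aa8e3a6217d60059448b9ac4649a3,17),(0x9aab4b00a43b8285dcc98b1f0149a3,41),(0x9ae95384a9b381054584b99e8149a3,73),(0x9d9d4bc9607d46189448399446a590,24),(0x9c68e78d68bd644b1cc0289416a590,69),(0x9c5d5b80b255023b2da4399e812590,42),(0x9daae504a4bd00889cd25b5e312590,78),(0x9c6b4510e17b900b14435b6f232590,15),(0x9da957a0e3538928ada128ae032590,51),(0x9be958c9683b8642dcc9b315068041,32),(0x996b438d698ba507d988b994468041,28),(0x9968e8a2f2554837adb0b30e930041,34),(0x9bdd4512f08d5092d9925b4e330041,29),(0x9beae3a6c3552122ada4b9a2860041,35),(0x995d5542c43d1287dcc35b63260041,31),(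0x99eb47c2c35b932ba9a028a21610c8,67),(0x9de955a6c07ba013944353632610c8,26),(0x99dd58c9417d060b9450b3169690c8,16),(0x9deae78d508d2493d98128960690c8,47),(0x9ddd4884b25d4033a9a9b31f0110c8,77),(0x99e8e580a98d430bd992535e3110c8,37),(0xb5eae2a62d7d20359e465226460820,35),(0xb2dd57c2262d124ba90d3ca6360820,31),(0xb5e9598ce42b9a65a9098b1f090820,32),(0xb2eb42b4e99b870bc584521e690820,28),(0xb5dd4799509d4895c5833c8ad40820,29),(0xb2e8e991437d4cdb9e508b0a940820,34),(0xb4eb4798a0bb8828ac2d3c94342590,15),(0xb4695b90ad7b8c399e405854242590,51),(0xb46ae7816655044995033caed0a590,78),(0xb4dd5509637d00d89e462a2e40a590,42),(0xb4e8ebb4e45546689502585e092590,69),(0xb45d450ce2bd5a09ac242a1e692590,24),(0xb168e389699d410545837caed09904,37),(0xb29d4981633d44d2be498b2f009904,77),(0xb15d598de0bd1a252c308b0e991904,16),(0xb2aaebb5f09d0692c580584e291904,47),(0xb16b4bc22d3b92353e425866061904,67),(0xb2a953a622bba002ac2d7ca6361904,26),(0xb29d58b4e25d0602dc299b1f091106,23),(0xb16ae58ce98d1b0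54d82b85e091106,64),(0xb2ab45a6637ba0d29e40b862261106,53),(0xb16957c2605b92255c233ca2d61106,13),(0xb2a8e782f08d4492cd8d3c96309106,74),(0xb15d488aed7d40351e509b16909106,43),(0xb5e8e898ad3d4835be499b15040022,59),(0xb2dd4390a98d4d0bcd8d7c94340022,55),(0xb2eae542633d12dbbe442a22660022,58),(0xb5dd53a66455206595037ca2d60022,62),(0xb5eb450df08b9a95cd862a0e490022,56),(0xb2e958b5e653864b95109b0e990022,61),(0xb4dd42b5e05d4628dc26520e494189,12),(0xb468e58de62d5a49a900b84e294189,48),(0xb45d5282ed3d0439be44521660c189,75),(0xb4eae38ae42d0068a90d7c9630c189,39),(0xb4e95599433b88d8be42b84a044189,66),(0xb46b4391425b8c09dc237c8ad44189,21),(0xb3dd45a6265560439502b866063643,71),(0xb1e8e542225d5207dc262a26463643,22),(0xb3eae990a05d0c23dc298b15043643,14),(0xb1dd5598a99d0907c580b854243643,46),(0xb1eb4982e453846795108b1690b643,79),(0xb3e9550af09b8093c5842a1660b643,38),(0xb1dd4bc2642d5267a9005862260e4d,49),(0xb3e8e2a660bd6023ac245222660e4d,17),(0xb3eb4889662b8043a9099b2f008e4d,4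1),(0xb1e95281698b8507cd86522e408e4d,73),(0xb1eae89942bd0807ac309b0a940e4d,25),(0xb3dd5b91508d0c93cd82584a040e4d,65),(0xbdab49ca307b9ac5a928398a418820,28),(0xbae957b6289ba44b1cd0524ac18820,32),(0xbda8e7a0ed2d4925c46c5267030820,34),(0xbadd4290ec7d510b292d88e7230820,29),(0xbaeae9c1522d18db4464399e848820,35),(0xbd9d52b1449d20859cd288ded48820,31),(0xbda95548a43b9a85cccc7a63018022,61),(0xbaeb43b4ac53a50b3d2499a2818022,56),(0xbd9d48a2705548c5bd3228ced30022,55),(0xbae8e512728d50db14707a4ec30022,59),(0xbadd58c1e83d184b4ccd28d5248022,62),(0xbdaae3b1ed8d212594689994448022,58),(0xbcdd4509722d40d3c46c7a6d00a0c4,43),(0xb9e8e2816c554509bd3288ecd0a0c4,74),(0xbceaeb36305524c3bd22584a01a0c4,64),(0xb9dd554a22b51a09ac307a4ac1a0c4,23),(0xbce952b1e0b3a023ac2d88d524a0c4,13),(0xb9eb4b41ed2b9929c460585424a0c4,53),(0xbce8e88ad07d40c3a92d28d72090c8,37),(0xb9dd4782cd8d452994705256c090c8,77),(0xbceb45b1528ba0d39462b05e0490c8,67),(0xb9e958c1425b9809d83228ded490c8,26),(0xbcdd57b4a05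d2423d82c52630190c8,16),(0xb9eae5c8ac7d1b09a920b0622190c8,47),(0xbbdd538acd2d01254464999680c12c,42),(0xbaaae282c43d0487cccd88d720c12c,78),(0xbaa955a2722b88d7c460b04e23412c,51),(0xbbeb4292605b9025583288ced3412c,15),(0xba9d43b6225d6407d828998a41c12c,24),(0xbbe8e5ca283d5a454cc2b04a01c12c,69),(0xb96953896c7b8108a92899ac40c86d,38),(0xbc6b4781683b8442cccc526d00c86d,79),(0xbc5d5b12707d10c2a920584e23486d,46),(0xb96ae7a260b50828ac30524ec3486d,14),(0xb95d4b41443d5888ccc2585e04c86d,71),(0xbc68e3b142b56002ac24999e84c86d,22),(0xbbe95b10ed8b912514625866033130,66),(0xbaab48a0e2b38807ac2d28e7233130,21),(0xbaa8eb34a49d64879cc0586221b130,48),(0xbbdd49c8a0b55a252c2439a281b130,12),(0xba9d5981728d04d7946839ac40b130,75),(0xbbeae889689d00451cd228ecd0b130,39),(0xb96b450ac49b80889cd07a56c0b472,41),(0xbc695982d05384c2bd24399680b472,73),(0xb968e9c1e05d5828d828399444b472,17),(0xbc5d45b1e89d60429cc0b05424b472,49),(0xbc6ae510e25d1002d82c7a67033472,25),(0xb95d55a0ec550908bd22b066033472,65)]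

/-- The stabilizer of the base dodecad and quartet. -/
def L432 : List ℕ := L432M.map Prod.fst

/-- The normal subgroup, as a table. -/
def nvL : List ℕ := [0xbdab49ca307b9ac5a928398a418820,0x5deb478d4c2ba49b1e068926868820,0xb2eb42b4e99b870bc584521e690820,0x546b4b0e70bba4c3bd242a16668402,0x3aab4bb5ec5b8698960899ac490402,0x89eb45c8a9b39b054d86792e818402,0x7ceb48b6d05386c2dd26590e890041,0x2beb454aec3b9a99ae04b222618041,0x996b438d698ba507d988b994468041]

/-- The normal subgroup as a function of a vector. -/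
def nv (x y : ZMod 3) : ℕ := nvL.getD (x.val + 3 * y.val) 0

/-- The digits of a matrix. -/
def cod (c i : ℕ) : ZMod 3 := ((c / 3 ^ i % 3 : ℕ) : ZMod 3)

/-- The vectors. -/
def allZ (f : ZMod 3 → ZMod 3 → Bool) : Bool :=
  [(0 : ZMod 3), 1, 2].all fun x => [(0 : ZMod 3), 1, 2].all fun y => f x y

theorem forall_of_allZ {f : ZMod 3 → ZMod 3 → Bool} (h : allZ f = true) (x y : ZMod 3) : f x y = true := by
  have hm : ∀ x : ZMod 3, x ∈ [(0 : ZMod 3), 1, 2] := by decide
  exact List.all_eq_true.mp (List.all_eq_true.mp h x (hm x)) y (hm y)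

/-- The conditions. -/
def okE (e : ℕ) : Bool :=
  isAutN e && chkO e dod0 && chkL e Q0 && Nat.blt e (32 ^ 24)

theorem L432_ok : L432.all okE = true := by decide +kernel

theorem L432_dist : distinctL L432 = true := by decide +kernel

theorem L432_len : L432.length = 432 := by decide +kernel

theorem L432M_ok : L432M.all (fun p =>
    decide (cod p.2 0 * cod p.2 3 - cod p.2 1 * cod p.2 2 ≠ 0) &&
    allZ (fun x y => Nat.beq (compN p.1 (nv x y))
      (compN (nv (cod p.2 0 * x + cod p.2 1 * y) (cod p.2 2 * x + cod p.2 3 * y)) p.1))) = true := by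
  decide +kernel

theorem nv_mem : allZ (fun x y => L432.contains (nv x y)) = true := by decide +kernel

theorem nv_inj : allZ (fun x y => allZ (fun x' y' => !Nat.beq (nv x y) (nv x' y') || (decide (x = x') && decide (y = y')))) = true := by
  decide +kernel

theorem code_id : L432M.all (fun p => Nat.beq p.2 28 ||
    !(decide (cod p.2 0 = 1) && decide (cod p.2 1 = 0) && decide (cod p.2 2 = 0) && decide (cod p.2 3 = 1))) = true := by
  decide +kernel

theorem T9_len : ((L432M.filter (fun p => Nat.beq p.2 28)).map Prod.fst).length = 9 := by decide +kernel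

theorem L432_ok' {e : ℕ} (he : e ∈ L432) : Ok e ∧ pN e ∈ M24 ∧ pN e • supFin dod0 = supFin dod0 ∧
    pN e • objOf Q0 = objOf Q0 ∧ e < 32 ^ 24 := by
  have hk := List.all_eq_true.mp L432_ok e he
  simp only [okE, Bool.and_eq_true] at hk
  obtain ⟨⟨⟨ha, hb⟩, hc⟩, hd⟩ := hk
  have hO := isAutN_ok ha
  have hQ0 : goodL Q0 = true := good_of_mem Q0_mem
  refine ⟨hO, isAutN_mem ha, (fixed_mask_iff hO dod0_lt).mpr hb, (fixed_objOf_iff hO hQ0).mpr hc, ?_⟩
  simpa using Nat.blt_eq.mp hd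

/-- The order of the stabilizer. -/
theorem card_G {d : Finset GolayPt} (hd : d ∈ dodecads) {Q : Finset (Finset GolayPt)} (hQ : Q ∈ quartets d) :
    Nat.card ↥(MulAction.stabilizer M24 d ⊓ MulAction.stabilizer M24 Q) = 432 := by
  classical
  have h1 := card_stabilizer_dodecad hd
  have h2 := card_eq_mul' (MulAction.stabilizer M24 d) Q (quartets d) ?_ ?_
  · have h3 : Nat.card ↥(quartets d) = 220 := by
      rw [Nat.card_coe_set_eq]
      exact (main1597 d hd).1
    rw [h1, h3] at h2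
    omega
  · intro y hy
    obtain ⟨g, hg, h3, h4⟩ := (main1597 d hd).2 Q hQ y hy
    exact ⟨⟨g, hg⟩, h3, h4⟩
  · rintro ⟨g, hg⟩ h3
    have h4 : g • d = d := h3
    have h5 := smul_mem_quartets hg hQ
    rw [h4] at h5
    exact h5

/-- The matrix of a code. -/
def matOf (c : ℕ) : Matrix (Fin 2) (Fin 2) (ZMod 3) := !![cod c 0, cod c 1; cod c 2, cod c 3]

theorem matOf_mulVec0 (c : ℕ) (v : Fin 2 → ZMod 3) : (matOf c).mulVec v 0 = cod c 0 * v 0 + cod c 1 * v 1 := by
  simp [matOf, Matrix.mulVec, dotProduct, Fin.sum_univ_two]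

theorem matOf_mulVec1 (c : ℕ) (v : Fin 2 → ZMod 3) : (matOf c).mulVec v 1 = cod c 2 * v 0 + cod c 3 * v 1 := by
  simp [matOf, Matrix.mulVec, dotProduct, Fin.sum_univ_two]

theorem exists_hom {H : Type*} [Group H] (ν : (Fin 2 → ZMod 3) → H) (hν : Function.Injective ν)
    (hA : ∀ g : H, ∃ A : GL (Fin 2) (ZMod 3), ∀ v, g * ν v * g⁻¹ = ν (A.1.mulVec v)) :
    ∃ F : H →* GL (Fin 2) (ZMod 3), ∀ g v, g * ν v * g⁻¹ = ν ((F g).1.mulVec v) := by
  choose A hA' using hA
  refine ⟨MonoidHom.mk' A ?_, hA'⟩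
  intro a b
  apply Units.ext
  apply Matrix.ext_iff_mulVec.mpr
  intro v
  apply hν
  rw [← hA' (a * b) v]
  have h1 : a * b * ν v * (a * b)⁻¹ = a * (b * ν v * b⁻¹) * a⁻¹ := by group
  rw [h1, hA' b v, hA' a, Units.val_mul, Matrix.mulVec_mulVec]

theorem card_GL23 : Nat.card (GL (Fin 2) (ZMod 3)) = 48 := by
  haveI : Fact (Nat.Prime 3) := ⟨Nat.prime_three⟩
  rw [Matrix.card_GL_field, Fin.prod_univ_two, ZMod.card]
  rfl

/-- The abstract group. -/
theorem abstract432 {H : Type*} [Group H] [Finite H] (φ : H →* Equiv.Perm GolayPt) (hφ : Function.Injective φ)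
    (hcard : Nat.card H = 432) (hcomp : ∀ x : H, ∃ e ∈ L432, φ x = pN e) (hin : ∀ e ∈ L432, ∃ x : H, φ x = pN e) :
    ∃ (N : Subgroup H) (_ : N.Normal), Nat.card N = 9 ∧ Nonempty (H ⧸ N ≃* GL (Fin 2) (ZMod 3)) := by
  classical
  haveI : Fact (Nat.Prime 3) := ⟨Nat.prime_three⟩
  have hnvmem : ∀ x y, nv x y ∈ L432 := fun x y =>
    List.contains_iff_mem.mp (forall_of_allZ nv_mem x y)
  let ν : (Fin 2 → ZMod 3) → H := fun v => (hin _ (hnvmem (v 0) (v 1))).choose
  have hν : ∀ v, φ (ν v) = pN (nv (v 0) (v 1)) := fun v => (hin _ (hnvmem (v 0) (v 1))).choose_spec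
  have hνi : Function.Injective ν := by
    intro v w hvw
    have h1 := hν v
    rw [hvw, hν w] at h1
    have h2 : nv (w 0) (w 1) = nv (v 0) (v 1) :=
      pN_inj (L432_ok' (hnvmem _ _)).1 (L432_ok' (hnvmem _ _)).1 (L432_ok' (hnvmem _ _)).2.2.2.2
        (L432_ok' (hnvmem _ _)).2.2.2.2 h1
    have h3 := forall_of_allZ (forall_of_allZ nv_inj (w 0) (w 1)) (v 0) (v 1)
    have h4 : Nat.beq (nv (w 0) (w 1)) (nv (v 0) (v 1)) = true := by
      rw [h2]
      exact Nat.beq_refl _
    simp only [h4, Bool.not_true, Bool.false_or, Bool.and_eq_true, decide_eq_true_eq] at h3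
    funext i
    revert i
    rw [Fin.forall_fin_two]
    exact ⟨h3.1.symm, h3.2.symm⟩
  have hfull : ∀ g : H, ∃ A : GL (Fin 2) (ZMod 3), (∃ p ∈ L432M, φ g = pN p.1 ∧ A.1 = matOf p.2) ∧
      ∀ v, g * ν v * g⁻¹ = ν (A.1.mulVec v) := by
    intro g
    obtain ⟨e, he, hg⟩ := hcomp g
    obtain ⟨p, hp, rfl⟩ := List.mem_map.mp he
    have hk := List.all_eq_true.mp L432M_ok p hp
    simp only [Bool.and_eq_true, decide_eq_true_eq] at hk
    obtain ⟨hdet, hact⟩ := hk
    refine ⟨Matrix.GeneralLinearGroup.mkOfDetNeZero (matOf p.2) (by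
      rw [matOf, Matrix.det_fin_two_of]
      exact hdet), ⟨p, hp, hg, rfl⟩, ?_⟩
    intro v
    apply hφ
    have hA : (Matrix.GeneralLinearGroup.mkOfDetNeZero (matOf p.2) (by
      rw [matOf, Matrix.det_fin_two_of]
      exact hdet) : GL (Fin 2) (ZMod 3)).1 = matOf p.2 := rfl
    rw [hA, map_mul, map_mul, map_inv, hν, hν, hg, matOf_mulVec0, matOf_mulVec1, mul_inv_eq_iff_eq_mul]
    have h1 := forall_of_allZ hact (v 0) (v 1)
    have h2 := Nat.eq_of_beq_eq_true h1
    have hOk : ∀ x y, Ok (nv x y) := fun x y => (L432_ok' (hnvmem x y)).1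
    have hOe : Ok p.1 := (L432_ok' he).1
    rw [← pN_comp hOe (hOk _ _), ← pN_comp (hOk _ _) hOe, h2]
  obtain ⟨F, hF⟩ := exists_hom ν hνi (fun g => by
    obtain ⟨A, -, hA⟩ := hfull g
    exact ⟨A, hA⟩)
  have hcode : ∀ x ∈ F.ker, ∃ e ∈ (L432M.filter (fun p => Nat.beq p.2 28)).map Prod.fst, φ x = pN e := by
    intro x hx
    obtain ⟨A, ⟨p, hp, hxp, hAp⟩, hA⟩ := hfull x
    have h1 : F x = 1 := hx
    have h2 : A.1 = 1 := by
      apply Matrix.ext_iff_mulVec.mpr
      intro v
      apply hνi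
      rw [← hA v, hF x v, h1]
    rw [hAp] at h2
    have h3 : cod p.2 0 = 1 := congrFun (congrFun h2 0) 0
    have h4 : cod p.2 1 = 0 := congrFun (congrFun h2 0) 1
    have h5 : cod p.2 2 = 0 := congrFun (congrFun h2 1) 0
    have h6 : cod p.2 3 = 1 := congrFun (congrFun h2 1) 1
    have h7 := List.all_eq_true.mp code_id p hp
    simp only [h3, h4, h5, h6, decide_true, Bool.and_self, Bool.not_true, Bool.or_false] at h7
    exact ⟨p.1, List.mem_map.mpr ⟨p, List.mem_filter.mpr ⟨hp, h7⟩, rfl⟩, hxp⟩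
  have hker : Nat.card F.ker ≤ 9 := by
    let f : H → ℕ := fun x => if hx : x ∈ F.ker then (hcode x hx).choose else 0
    have hf : ∀ x (hx : x ∈ F.ker), f x ∈ (L432M.filter (fun p => Nat.beq p.2 28)).map Prod.fst ∧ φ x = pN (f x) := by
      intro x hx
      have := (hcode x hx).choose_spec
      simp only [f, dif_pos hx]
      exact this
    have h1 := Set.ncard_le_ncard_of_injOn (s := {x : H | x ∈ F.ker})
      (t := (((L432M.filter (fun p => Nat.beq p.2 28)).map Prod.fst).toFinset : Set ℕ)) f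
      (fun x hx => by simpa using (hf x hx).1)
      (by
        intro x hx y hy hxy
        apply hφ
        rw [(hf x hx).2, (hf y hy).2, hxy])
      (Finset.finite_toSet _)
    rw [Set.ncard_coe_finset] at h1
    have h2 : Nat.card F.ker = {x : H | x ∈ F.ker}.ncard := by
      rw [← Nat.card_coe_set_eq]
      rfl
    rw [h2]
    exact h1.trans ((List.toFinset_card_le _).trans T9_len.le)
  have h1 := Subgroup.card_mul_index F.ker
  rw [Subgroup.index_ker, hcard] at h1
  have h2 : Nat.card F.range ≤ 48 := by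
    rw [← card_GL23]
    exact Subgroup.card_le_card_group _
  have h3 : Nat.card F.ker = 9 := by
    by_contra hne
    have : Nat.card F.ker ≤ 8 := by omega
    have := Nat.mul_le_mul this h2
    omega
  have h4 : Nat.card F.range = 48 := by
    rw [h3] at h1
    omega
  have hsurj : Function.Surjective F := by
    apply MonoidHom.range_eq_top.mp
    apply Subgroup.eq_top_of_card_eq
    rw [h4, card_GL23]
  exact ⟨F.ker, inferInstance, h3, ⟨QuotientGroup.quotientKerEquivOfSurjective F hsurj⟩⟩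

/-- Conjugation. -/
def phiC (c : Equiv.Perm GolayPt) (K : Subgroup ↥M24) : ↥K →* Equiv.Perm GolayPt :=
  (MulAut.conj c).toMonoidHom.comp (M24.subtype.comp K.subtype)

theorem phiC_apply (c : Equiv.Perm GolayPt) (K : Subgroup ↥M24) (x : ↥K) :
    phiC c K x = c * ((x : ↥M24) : Equiv.Perm GolayPt) * c⁻¹ := rfl

theorem phiC_inj (c : Equiv.Perm GolayPt) (K : Subgroup ↥M24) : Function.Injective (phiC c K) := by
  intro x y he
  have h1 : c * ((x : ↥M24) : Equiv.Perm GolayPt) * c⁻¹ = c * ((y : ↥M24) : Equiv.Perm GolayPt) * c⁻¹ := he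
  have h2 : ((x : ↥M24) : Equiv.Perm GolayPt) = ((y : ↥M24) : Equiv.Perm GolayPt) := by simpa using h1
  exact Subtype.ext (Subtype.ext h2)

/-- Completeness of the list at the base. -/
theorem base_complete' {g : Equiv.Perm GolayPt} (hg : g ∈ M24) (h1 : g • supFin dod0 = supFin dod0)
    (h2 : g • objOf Q0 = objOf Q0) : ∃ e ∈ L432, g = pN e := by
  have hc : Nat.card {g : Equiv.Perm GolayPt // g ∈ M24 ∧ (g • supFin dod0 = supFin dod0 ∧ g • objOf Q0 = objOf Q0)} =
      L432.length := by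
    rw [L432_len, ← card_G dod0_mem_dodecads (base_sound Q0_mem)]
    exact Nat.card_congr ⟨fun g => ⟨⟨g.1, g.2.1⟩, g.2.2.1, g.2.2.2⟩,
      fun g => ⟨(g : ↥M24).1, (g : ↥M24).2, g.2.1, g.2.2⟩, fun _ => rfl, fun _ => rfl⟩
  refine GolayS5.exists_of_card (P := fun g => g • supFin dod0 = supFin dod0 ∧ g • objOf Q0 = objOf Q0) ?_
    (nodup_of_distinctL L432_dist) ?_ hc hg ⟨h1, h2⟩
  · intro e he
    obtain ⟨a, b, c, d, _⟩ := L432_ok' he
    exact ⟨a, b, c, d⟩
  · intro e he
    exact (L432_ok' he).2.2.2.2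

section G

variable {d : Finset GolayPt} {Q : Finset (Finset GolayPt)} {c : Equiv.Perm GolayPt}

theorem hcomp_G (hc : c ∈ M24) (hcd : c • d = supFin dod0) (hcq : c • Q = objOf Q0) :
    ∀ x : ↥(MulAction.stabilizer M24 d ⊓ MulAction.stabilizer M24 Q), ∃ e ∈ L432, phiC c _ x = pN e := by
  rintro ⟨g, hg⟩
  have h1 : g.1 • d = d := hg.1
  have h2 : g.1 • Q = Q := hg.2
  exact base_complete' (g := c * g.1 * c⁻¹) (mul_mem (mul_mem hc g.2) (inv_mem hc))
    (by rw [← hcd, mul_smul, mul_smul, inv_smul_smul, h1])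
    (by rw [← hcq, mul_smul, mul_smul, inv_smul_smul, h2])

theorem hin_G (hc : c ∈ M24) (hcd : c • d = supFin dod0) (hcq : c • Q = objOf Q0) :
    ∀ e ∈ L432, ∃ x : ↥(MulAction.stabilizer M24 d ⊓ MulAction.stabilizer M24 Q), phiC c _ x = pN e := by
  intro e he
  obtain ⟨hO, hm, h1, h2, -⟩ := L432_ok' he
  have hm' : c⁻¹ * pN e * c ∈ M24 := mul_mem (mul_mem (inv_mem hc) hm) hc
  refine ⟨⟨⟨c⁻¹ * pN e * c, hm'⟩, ?_, ?_⟩, ?_⟩
  · show (c⁻¹ * pN e * c) • d = d
    rw [mul_smul, mul_smul, hcd, h1, ← hcd, inv_smul_smul]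
  · show (c⁻¹ * pN e * c) • Q = Q
    rw [mul_smul, mul_smul, hcq, h2, ← hcq, inv_smul_smul]
  · show c * (c⁻¹ * pN e * c) * c⁻¹ = pN e
    group

end G

theorem trans_ok : allBelow (fun y => !dod0.testBit y || L432.any (fun e => Nat.beq (imgN e 0) y)) 24 = true := by
  decide +kernel

theorem trans_base (z : GolayPt) (hz : z ∈ supFin dod0) : ∃ e ∈ L432, pN e (idxPt 0) = z := by
  have h1 := allBelow_spec trans_ok (ptIdx z) (ptIdx_lt z)
  have h2 : dod0.testBit (ptIdx z) = true := mem_supFin.mp hz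
  simp only [h2, Bool.not_true, Bool.false_or] at h1
  obtain ⟨e, he, h3⟩ := List.any_eq_true.mp h1
  refine ⟨e, he, ?_⟩
  rw [pN_idxPt (L432_ok' he).1 (by norm_num), Nat.eq_of_beq_eq_true h3, idxPt_ptIdx]

/-- The statement on the stabilizer of a quartet. -/
theorem main1598 (d : Finset GolayPt) (hd : d ∈ dodecads) (Q : Finset (Finset GolayPt)) (hQ : Q ∈ quartets d) :
    Nat.card ↥(MulAction.stabilizer M24 d ⊓ MulAction.stabilizer M24 Q) = 432 ∧
      (∃ (N : Subgroup ↥(MulAction.stabilizer M24 d ⊓ MulAction.stabilizer M24 Q)) (_ : N.Normal), Nat.card N = 9 ∧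
        Nonempty (↥(MulAction.stabilizer M24 d ⊓ MulAction.stabilizer M24 Q) ⧸ N ≃* GL (Fin 2) (ZMod 3))) ∧
      ∀ p ∈ d, ∀ q ∈ d, ∃ g ∈ (MulAction.stabilizer M24 d ⊓ MulAction.stabilizer M24 Q),
        ((g : ↥M24) : Equiv.Perm GolayPt) p = q := by
  classical
  obtain ⟨c, hc, hcd, hcq⟩ := exists_to_base hd hQ
  have hG := card_G hd hQ
  refine ⟨hG, abstract432 (phiC c _) (phiC_inj c _) hG (hcomp_G hc hcd hcq) (hin_G hc hcd hcq), ?_⟩
  intro p hp q hq
  have hin' : ∀ z ∈ d, c z ∈ supFin dod0 := by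
    intro z hz
    rw [← hcd]
    exact Finset.mem_smul_finset.mpr ⟨z, hz, rfl⟩
  obtain ⟨e1, he1, h1⟩ := trans_base (c p) (hin' p hp)
  obtain ⟨e2, he2, h2⟩ := trans_base (c q) (hin' q hq)
  obtain ⟨x, hx⟩ := hin_G hc hcd hcq e1 he1
  obtain ⟨y, hy⟩ := hin_G hc hcd hcq e2 he2
  refine ⟨y * x⁻¹, (y * x⁻¹).2, ?_⟩
  have hphi : phiC c _ (y * x⁻¹) = pN e2 * (pN e1)⁻¹ := by rw [map_mul, map_inv, hx, hy]
  have h5 : (pN e1)⁻¹ (c p) = idxPt 0 := by
    rw [Equiv.Perm.inv_eq_iff_eq]
    exact h1.symm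
  have h3 : (phiC c _ (y * x⁻¹)) (c p) = c q := by
    rw [hphi, Equiv.Perm.mul_apply, h5, h2]
  rw [phiC_apply] at h3
  have h4 : c (((y * x⁻¹ : ↥(MulAction.stabilizer M24 d ⊓ MulAction.stabilizer M24 Q)) : ↥M24).1 p) = c q := by
    rw [← h3]
    simp [Equiv.Perm.mul_apply]
  exact c.injective h4

/-- The orbits. -/
def O12 : List (List ℕ) := [[7,584,73744,266496],[7,4120,8960,327744],[7,12352,65800,262672],[25,8260,70144,262402],[74,8449,70144,262164],[268,8210,70144,262209],[336,522,12292,327681],[336,4105,73730,262660],[336,8705,65548,266242],[532,4354,65601,270344],[578,4113,65796,270344],[769,4164,65554,270344]]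

/-- The orbits. -/
def O27 : List (List ℕ) := [[11,4864,65616,270340],[13,784,69696,270338],[14,4416,66064,270337],[19,324,8712,331776],[21,322,12800,327688],[22,321,66056,274432],[67,276,74240,266248],[69,274,69640,270848],[70,273,73736,266752],[81,262,77824,262664],[82,261,12296,328192],[84,259,4616,335872],[88,4612,65539,270592],[280,517,69634,270400],[328,4102,66049,270352],[515,8216,69636,262464],[518,8272,69633,262408],[592,8198,69888,262153],[832,8204,69648,262147],[4099,8464,66052,262216],[4101,8456,66050,262224],[4176,8202,66304,262149],[4368,8195,66112,262156],[4609,8264,65542,262416],[4610,8512,65541,262168],[4624,8197,65856,262154],[4672,8201,65808,262150]]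

/-- The orbits. -/
def O72 : List (List ℕ) := [[11,580,77824,262416],[11,4116,8512,328192],[13,4114,74240,262464],[13,8272,65794,266752],[14,577,8464,331776],[14,12800,65793,262224],[19,4108,66304,270400],[19,4672,73732,262408],[21,4106,66112,270592],[21,8264,69888,262658],[22,4864,73729,262216],[22,8456,69696,262657],[26,832,4101,335872],[28,4099,65856,270848],[67,524,69888,270352],[67,4624,8456,327684],[69,4864,8216,327682],[69,12290,66064,262408],[70,521,69648,270592],[70,12289,66304,262168],[73,518,4368,335872],[76,515,65808,274432],[81,4360,66052,270338],[81,4610,8204,327936],[82,776,69636,270337],[82,4609,73984,262156],[84,8201,69634,262912],[84,12544,66049,262154],[88,770,8197,331776],[88,4353,74240,262150],[259,8264,66064,266244],[259,8708,69696,262168],[261,4672,65546,270352],[261,8706,69648,262216],[262,4624,65545,270400],[262,8216,66112,266241],[265,4176,65542,270848],[266,592,65541,274432],[273,4168,66050,270340],[273,8768,69636,262154],[2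74,4612,73792,262153],[274,8204,66049,266304],[276,4610,65608,270337],[276,8202,69633,262720],[280,4161,8198,328192],[280,12800,65604,262147],[321,4612,8202,327696],[321,8720,69634,262156],[322,536,69633,270340],[322,8201,66052,266256],[324,4609,65560,270338],[324,12304,66050,262153],[328,530,77824,262149],[328,8195,65556,266752],[515,4176,8452,327688],[517,4416,73736,262162],[517,8450,65616,266248],[518,12296,65856,262161],[529,8512,69640,262150],[592,4099,73736,262404],[772,8195,69640,262224],[784,4102,8257,327688],[784,12296,65539,262212],[832,8209,65542,266248],[4101,8258,65808,262664],[4102,8712,65616,262401],[4162,8197,66056,262416],[4356,8272,66056,262147],[4368,8712,65541,262210],[4416,8212,65539,262664],[4616,8198,65553,262464],[4616,8464,65602,262149]]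

/-- The orbits. -/
def O108 : List (List ℕ) := [[11,8720,65796,266304],[13,578,12544,327696],[14,4113,73792,262912],[19,12544,65608,262660],[21,776,73730,266304],[22,4105,8768,327936],[25,772,65602,274432],[25,4102,73984,262720],[25,4416,8706,327684],[26,8452,65601,266752],[26,8705,69888,262212],[26,12352,66052,262401],[28,769,77824,262210],[28,4672,8450,327681],[28,8257,66050,266496],[67,12292,65560,262912],[69,522,73984,266256],[70,4360,8720,327681],[73,8212,66304,266242],[73,8450,69636,262672],[73,12800,65554,262404],[74,517,12304,327936],[74,784,73732,266241],[74,4356,65553,270848],[76,4354,8209,328192],[76,4624,73730,262401],[76,8960,69633,262162],[81,8960,65546,266244],[82,8708,65545,266496],[84,8706,65800,266241],[88,12290,65796,262657],[259,12304,65548,262720],[261,536,73792,266242],[262,4168,8705,327696],[265,532,8258,331776],[265,4610,73744,262212],[265,12292,66112,262162],[266,4164,74240,262161],[266,4609,8212,327744],[266,8257,69648,262660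],[268,529,4162,335872],[268,8768,65539,266256],[268,12289,65616,262658],[273,524,12290,327744],[274,584,12289,327684],[276,521,12352,327682],[280,578,73729,266244],[321,4120,73732,262658],[322,4108,73744,262657],[324,4106,73729,262672],[328,4113,8708,327682],[515,4360,73792,262164],[518,8449,65560,266304],[521,4354,73732,262224],[521,8210,65856,266244],[522,4353,65556,270400],[522,8209,69696,262404],[524,4176,73729,262402],[524,8512,65554,266241],[529,8202,65604,266496],[529,12292,65794,262216],[530,4161,65548,270592],[530,4356,8201,327744],[530,8260,65793,266248],[532,4168,73984,262147],[532,12289,65546,262464],[536,4164,8195,327936],[536,12544,65542,262209],[577,4114,65800,270340],[577,4356,73730,262168],[577,12296,65556,262402],[578,8212,69640,262401],[580,4120,65794,270337],[580,4353,8210,327688],[580,8456,65553,266242],[584,4116,65793,270338],[584,8452,69634,262161],[592,4108,8449,327682],[769,4106,8272,327684],[769,8198,65608,266256],[770,4105,65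604,270352],[770,4116,73736,262209],[770,12352,65553,262156],[772,4114,8264,327681],[772,4161,73744,262154],[776,4099,8260,327696],[776,12304,65601,262150],[832,12290,65545,262164],[4101,8720,65608,262402],[4105,8452,66064,262210],[4106,8708,65808,262209],[4108,8706,65601,262416],[4113,8450,66056,262212],[4114,8449,65604,262664],[4116,8705,65602,262408],[4120,8258,66049,262404],[4161,8712,65794,262164],[4162,8216,65793,262660],[4162,8960,65556,262153],[4164,8464,65545,262658],[4168,8210,65541,262912],[4353,8204,65602,262672],[4354,8768,65560,262149],[4360,8197,65554,262720],[4368,8260,65546,262657],[4612,8209,65800,262210],[4616,8257,65796,262162],[4864,8258,65548,262161]]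

/-- The check of an orbit. -/
def orbChk (r : List ℕ) (O : List (List ℕ)) : Bool :=
  O.all goodL && strictSorted (O.map keyOf) &&
    L432.all (fun e => O.any (fun m => sameObj (r.map (permMask (dL e))) m)) &&
    O.all (fun m => L432.any (fun e => sameObj (r.map (permMask (dL e))) m))

theorem orb12 : orbChk (O12.headD []) O12 = true := by decide +kernel

theorem orb27 : orbChk (O27.headD []) O27 = true := by decide +kernel

theorem orb72 : orbChk (O72.headD []) O72 = true := by decide +kernel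

theorem orb108 : orbChk (O108.headD []) O108 = true := by decide +kernel

theorem cover_ok : QL.all (fun l => sameObj l Q0 || O12.contains l || O27.contains l || O72.contains l ||
    O108.contains l) = true := by
  decide +kernel

theorem sub_ok : (O12 ++ O27 ++ O72 ++ O108).all (fun l => QL.contains l) = true := by
  decide +kernel

theorem len_ok : O12.length = 12 ∧ O27.length = 27 ∧ O72.length = 72 ∧ O108.length = 108 := by
  decide +kernel

theorem sub_QL {l : List ℕ} (h : l ∈ O12 ++ O27 ++ O72 ++ O108) : l ∈ QL :=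
  List.contains_iff_mem.mp (List.all_eq_true.mp sub_ok l h)

section Orb

variable {d : Finset GolayPt} {Q : Finset (Finset GolayPt)} {c : Equiv.Perm GolayPt}

theorem orbit_eq (hc : c ∈ M24) (hcd : c • d = supFin dod0) (hcq : c • Q = objOf Q0) {r : List ℕ}
    {O : List (List ℕ)} (h : orbChk r O = true) :
    MulAction.orbit ↥(MulAction.stabilizer M24 d ⊓ MulAction.stabilizer M24 Q) (c⁻¹ • objOf r) =
      (fun Y => c⁻¹ • Y) '' (((O.map objOf).toFinset : Finset (Finset (Finset GolayPt))) :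
        Set (Finset (Finset GolayPt))) := by
  classical
  simp only [orbChk, Bool.and_eq_true] at h
  obtain ⟨⟨⟨h1, h2⟩, h3⟩, h4⟩ := h
  ext y
  constructor
  · rintro ⟨x, rfl⟩
    obtain ⟨e, he, hxe⟩ := hcomp_G hc hcd hcq x
    obtain ⟨m, hm, hs⟩ := List.any_eq_true.mp (List.all_eq_true.mp h3 e he)
    refine ⟨objOf m, ?_, ?_⟩
    · simp only [Finset.mem_coe, List.mem_toFinset, List.mem_map]
      exact ⟨m, hm, rfl⟩
    have hO := (L432_ok' he).1
    have h5 : pN e • objOf r = objOf m := by rw [pN_smul_objOf hO, objOf_eq_of_same hs]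
    show c⁻¹ • objOf m = ((x : ↥M24) : Equiv.Perm GolayPt) • c⁻¹ • objOf r
    have h6 : ((x : ↥M24) : Equiv.Perm GolayPt) = c⁻¹ * pN e * c := by
      rw [← hxe, phiC_apply]
      group
    rw [h6, mul_smul, mul_smul, smul_inv_smul, h5]
  · rintro ⟨_, hY, rfl⟩
    simp only [Finset.mem_coe, List.mem_toFinset, List.mem_map] at hY
    obtain ⟨m, hm, rfl⟩ := hY
    obtain ⟨e, he, hs⟩ := List.any_eq_true.mp (List.all_eq_true.mp h4 m hm)
    obtain ⟨x, hx⟩ := hin_G hc hcd hcq e he
    refine ⟨x, ?_⟩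
    have hO := (L432_ok' he).1
    have h5 : pN e • objOf r = objOf m := by rw [pN_smul_objOf hO, objOf_eq_of_same hs]
    show ((x : ↥M24) : Equiv.Perm GolayPt) • c⁻¹ • objOf r = c⁻¹ • objOf m
    have h6 : ((x : ↥M24) : Equiv.Perm GolayPt) = c⁻¹ * pN e * c := by
      rw [← hx, phiC_apply]
      group
    rw [h6, mul_smul, mul_smul, smul_inv_smul, h5]

theorem orbit_ncard (hc : c ∈ M24) (hcd : c • d = supFin dod0) (hcq : c • Q = objOf Q0) {r : List ℕ}
    {O : List (List ℕ)} (h : orbChk r O = true) :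
    (MulAction.orbit ↥(MulAction.stabilizer M24 d ⊓ MulAction.stabilizer M24 Q) (c⁻¹ • objOf r)).ncard = O.length := by
  classical
  rw [orbit_eq hc hcd hcq h, Set.ncard_image_of_injective _ (MulAction.injective c⁻¹), Set.ncard_coe_finset,
    List.toFinset_card_of_nodup, List.length_map]
  simp only [orbChk, Bool.and_eq_true] at h
  obtain ⟨⟨⟨h1, h2⟩, h3⟩, h4⟩ := h
  refine List.Nodup.map_on ?_ ?_
  · intro a ha b hb hab
    exact eq_of_objOf_eq (List.all_eq_true.mp h1 a ha) (List.all_eq_true.mp h1 b hb) hab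
  · exact List.Nodup.of_map keyOf (nodup_of_strictSorted h2)

theorem smul_mem_q (hc : c ∈ M24) (hcd : c • d = supFin dod0) {l : List ℕ} (hl : l ∈ QL) :
    c⁻¹ • objOf l ∈ quartets d := by
  have h1 := smul_mem_quartets (inv_mem hc) (base_sound hl)
  rwa [← hcd, inv_smul_smul] at h1

end Orb

/-- The statement on the orbits of the stabilizer of a quartet. -/
theorem main1599 (d : Finset GolayPt) (hd : d ∈ dodecads) (Q : Finset (Finset GolayPt)) (hQ : Q ∈ quartets d) :
    ∃ X₁ ∈ quartets d, ∃ X₂ ∈ quartets d, ∃ X₃ ∈ quartets d, ∃ X₄ ∈ quartets d,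
      (MulAction.orbit ↥(MulAction.stabilizer M24 d ⊓ MulAction.stabilizer M24 Q) X₁).ncard = 12 ∧
      (MulAction.orbit ↥(MulAction.stabilizer M24 d ⊓ MulAction.stabilizer M24 Q) X₂).ncard = 27 ∧
      (MulAction.orbit ↥(MulAction.stabilizer M24 d ⊓ MulAction.stabilizer M24 Q) X₃).ncard = 72 ∧
      (MulAction.orbit ↥(MulAction.stabilizer M24 d ⊓ MulAction.stabilizer M24 Q) X₄).ncard = 108 ∧
      quartets d = {Q} ∪ MulAction.orbit ↥(MulAction.stabilizer M24 d ⊓ MulAction.stabilizer M24 Q) X₁ ∪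
        MulAction.orbit ↥(MulAction.stabilizer M24 d ⊓ MulAction.stabilizer M24 Q) X₂ ∪
        MulAction.orbit ↥(MulAction.stabilizer M24 d ⊓ MulAction.stabilizer M24 Q) X₃ ∪
        MulAction.orbit ↥(MulAction.stabilizer M24 d ⊓ MulAction.stabilizer M24 Q) X₄ := by
  classical
  obtain ⟨c, hc, hcd, hcq⟩ := exists_to_base hd hQ
  have hr : ∀ {O : List (List ℕ)}, O ≠ [] → O.headD [] ∈ O := by
    intro O hO
    cases O with
    | nil => exact absurd rfl hO
    | cons a l => simp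
  have h12 : O12.headD [] ∈ O12 := hr (by decide +kernel)
  have h27 : O27.headD [] ∈ O27 := hr (by decide +kernel)
  have h72 : O72.headD [] ∈ O72 := hr (by decide +kernel)
  have h108 : O108.headD [] ∈ O108 := hr (by decide +kernel)
  have hs12 : ∀ {l}, l ∈ O12 → l ∈ QL := fun h => sub_QL (by simp [h])
  have hs27 : ∀ {l}, l ∈ O27 → l ∈ QL := fun h => sub_QL (by simp [h])
  have hs72 : ∀ {l}, l ∈ O72 → l ∈ QL := fun h => sub_QL (by simp [h])
  have hs108 : ∀ {l}, l ∈ O108 → l ∈ QL := fun h => sub_QL (by simp [h])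
  refine ⟨_, smul_mem_q hc hcd (hs12 h12), _, smul_mem_q hc hcd (hs27 h27), _, smul_mem_q hc hcd (hs72 h72), _,
    smul_mem_q hc hcd (hs108 h108), ?_, ?_, ?_, ?_, ?_⟩
  · rw [orbit_ncard hc hcd hcq orb12, len_ok.1]
  · rw [orbit_ncard hc hcd hcq orb27, len_ok.2.1]
  · rw [orbit_ncard hc hcd hcq orb72, len_ok.2.2.1]
  · rw [orbit_ncard hc hcd hcq orb108, len_ok.2.2.2]
  rw [orbit_eq hc hcd hcq orb12, orbit_eq hc hcd hcq orb27, orbit_eq hc hcd hcq orb72, orbit_eq hc hcd hcq orb108]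
  ext Y
  simp only [Set.mem_union, Set.mem_singleton_iff, Set.mem_image, Finset.mem_coe, List.mem_toFinset, List.mem_map]
  constructor
  · intro hY
    have h1 := smul_mem_quartets hc hY
    rw [hcd] at h1
    obtain ⟨l, hl, he⟩ := base_complete h1
    have hY' : Y = c⁻¹ • objOf l := by rw [← he, inv_smul_smul]
    have h2 := List.all_eq_true.mp cover_ok l hl
    simp only [Bool.or_eq_true, List.contains_iff_mem] at h2
    rcases h2 with (((h3 | h3) | h3) | h3) | h3
    · left; left; left; left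
      rw [hY', objOf_eq_of_same h3, ← hcq, inv_smul_smul]
    · left; left; left; right
      exact ⟨objOf l, ⟨l, h3, rfl⟩, hY'.symm⟩
    · left; left; right
      exact ⟨objOf l, ⟨l, h3, rfl⟩, hY'.symm⟩
    · left; right
      exact ⟨objOf l, ⟨l, h3, rfl⟩, hY'.symm⟩
    · right
      exact ⟨objOf l, ⟨l, h3, rfl⟩, hY'.symm⟩
  · rintro (((( rfl | ⟨_, ⟨l, hl, rfl⟩, rfl⟩) | ⟨_, ⟨l, hl, rfl⟩, rfl⟩) | ⟨_, ⟨l, hl, rfl⟩, rfl⟩) | ⟨_, ⟨l, hl, rfl⟩, rfl⟩)
    · exact hQ
    · exact smul_mem_q hc hcd (hs12 hl)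
    · exact smul_mem_q hc hcd (hs27 hl)
    · exact smul_mem_q hc hcd (hs72 hl)
    · exact smul_mem_q hc hcd (hs108 hl)

end Cfsg.Agent.Lib.GolayQuartG
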