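import Mathlib
import Cfsg.Prelude.Def_Sporadic_a
import Cfsg.Prelude.Def_SporadicCombinatorics
import Cfsg.Agent.Lib.GolayFam
import Cfsg.Agent.Lib.GolaySextet
import Cfsg.Agent.Lib.GolayDecomp
import Cfsg.Agent.Lib.GolaySimple
import Cfsg.Agent.Lib.GolaySextetData

/-!
# The structure of a sextet stabilizer
-/

set_option autoImplicit false
set_option linter.style.haveILetI false
set_option linter.constructorNameAsVariable false
set_option maxRecDepth 100000

open scoped Pointwise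

namespace Cfsg.Agent.Lib.GolaySextetStr

open Cfsg Cfsg.Agent.Lib.GolayCode Cfsg.Agent.Lib.GolayFacts Cfsg.Agent.Lib.GolayPerm
  Cfsg.Agent.Lib.GolayChain Cfsg.Agent.Lib.GolayTrans Cfsg.Agent.Lib.GolayOrbit
  Cfsg.Agent.Lib.GolayKit Cfsg.Agent.Lib.GolayM12 Cfsg.Agent.Lib.GolayFast
  Cfsg.Agent.Lib.GolayFastData Cfsg.Agent.Lib.GolaySets Cfsg.Agent.Lib.GolayMax Cfsg.Agent.Lib.GolayOrbits
  Cfsg.Agent.Lib.GolayFam Cfsg.Agent.Lib.GolaySextetData

/-! ### Swaps of tetrads -/

theorem swapL_aut : swapL.all isAut = true := by decide +kernel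

theorem swapL_cover : S0L.all (fun a => S0L.all fun b => a == b || swapL.any fun π =>
    S0L.all fun z => permMask π z == if z == a then b else if z == b then a else z) = true := by
  decide +kernel

theorem exists_swap_S0 {x y : Finset GolayPt} (hx : x ∈ objOf S0L) (hy : y ∈ objOf S0L) (hxy : x ≠ y) :
    ∃ g ∈ M24, g • x = y ∧ g • y = x ∧ ∀ z ∈ objOf S0L, z ≠ x → z ≠ y → g • z = z := by
  obtain ⟨a, ha, rfl⟩ := mem_objOf.mp hx
  obtain ⟨b, hb, rfl⟩ := mem_objOf.mp hy
  have h1 := List.all_eq_true.mp (List.all_eq_true.mp swapL_cover a ha) b hb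
  have hne : (a == b) = false := by
    rw [beq_eq_false_iff_ne]
    rintro rfl
    exact hxy rfl
  rw [hne, Bool.false_or, List.any_eq_true] at h1
  obtain ⟨π, hπ, h2⟩ := h1
  have hA := List.all_eq_true.mp swapL_aut π hπ
  have hv := isAut_valid hA
  have hr := isAut_inRange hA
  refine ⟨toPerm π, toPerm_mem_M24 hA, ?_, ?_, ?_⟩
  · rw [smul_supFin hv hr]
    have := List.all_eq_true.mp h2 a ha
    rw [beq_iff_eq] at this
    rw [this]
    simp
  · rw [smul_supFin hv hr]
    have := List.all_eq_true.mp h2 b hb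
    rw [beq_iff_eq] at this
    rw [this]
    have hba : (b == a) = false := by
      rw [beq_eq_false_iff_ne]
      rintro rfl
      exact hxy rfl
    simp [hba]
  · intro z hz h3 h4
    obtain ⟨c, hc, rfl⟩ := mem_objOf.mp hz
    rw [smul_supFin hv hr]
    have := List.all_eq_true.mp h2 c hc
    rw [beq_iff_eq] at this
    rw [this]
    have hca : (c == a) = false := by
      rw [beq_eq_false_iff_ne]
      rintro rfl
      exact h3 rfl
    have hcb : (c == b) = false := by
      rw [beq_eq_false_iff_ne]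
      rintro rfl
      exact h4 rfl
    simp [hca, hcb]

theorem exists_swap {S : Finset (Finset GolayPt)} (hS : S ∈ sextets) {x y : Finset GolayPt} (hx : x ∈ S) (hy : y ∈ S)
    (hxy : x ≠ y) : ∃ g ∈ M24, g • x = y ∧ g • y = x ∧ ∀ z ∈ S, z ≠ x → z ≠ y → g • z = z := by
  obtain ⟨k, hk, rfl⟩ := exists_map_sextet S0_mem hS
  have hm : ∀ {u : Finset GolayPt}, u ∈ k • objOf S0L → k⁻¹ • u ∈ objOf S0L := by
    intro u hu
    obtain ⟨v, hv, rfl⟩ := Finset.mem_smul_finset.mp hu
    simpa using hv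
  obtain ⟨g, hg, h1, h2, h3⟩ := exists_swap_S0 (hm hx) (hm hy) (fun h => hxy (smul_left_cancel _ h))
  refine ⟨k * g * k⁻¹, mul_mem (mul_mem hk hg) (inv_mem hk), ?_, ?_, ?_⟩
  · simp only [mul_smul, h1, smul_inv_smul]
  · simp only [mul_smul, h2, smul_inv_smul]
  · intro z hz h4 h5
    have h6 := h3 _ (hm hz) (fun h => h4 (smul_left_cancel _ h)) (fun h => h5 (smul_left_cancel _ h))
    simp only [mul_smul, h6, smul_inv_smul]

theorem sextet_mem_smul {S : Finset (Finset GolayPt)} {g : Equiv.Perm GolayPt} (h : g • S = S) {t : Finset GolayPt}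
    (ht : t ∈ S) : g • t ∈ S := by
  rw [← h]
  exact Finset.mem_smul_finset.mpr ⟨t, ht, rfl⟩

/-- Every permutation of the tetrads is induced. -/
theorem induced {S : Finset (Finset GolayPt)} (hS : S ∈ sextets) (e : Equiv.Perm ↥S) :
    ∃ g ∈ M24, g • S = S ∧ ∀ t : ↥S, g • (t : Finset GolayPt) = ((e t : ↥S) : Finset GolayPt) := by
  classical
  induction e using Equiv.Perm.swap_induction_on with
  | one => exact ⟨1, one_mem _, one_smul _ _, fun t => by simp⟩
  | swap_mul f x y hxy ih =>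
    obtain ⟨g, hg, hgS, hgt⟩ := ih
    have hne : (x : Finset GolayPt) ≠ y := fun h => hxy (Subtype.ext h)
    obtain ⟨k, hk, h1, h2, h3⟩ := exists_swap hS x.2 y.2 hne
    have hkS : k • S = S := by
      apply Finset.eq_of_subset_of_card_le
      · intro u hu
        obtain ⟨v, hv, rfl⟩ := Finset.mem_smul_finset.mp hu
        by_cases hvx : v = x
        · rw [hvx, h1]; exact y.2
        by_cases hvy : v = y
        · rw [hvy, h2]; exact x.2
        rw [h3 v hv hvx hvy]; exact hv
      · rw [Finset.card_smul_finset]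
    refine ⟨k * g, mul_mem hk hg, by rw [mul_smul, hgS, hkS], fun t => ?_⟩
    rw [mul_smul, hgt t, Equiv.Perm.mul_apply]
    by_cases hvx : f t = x
    · rw [hvx, h1, Equiv.swap_apply_left]
    by_cases hvy : f t = y
    · rw [hvy, h2, Equiv.swap_apply_right]
    rw [Equiv.swap_apply_of_ne_of_ne hvx hvy, h3 _ (f t).2 (fun h => hvx (Subtype.ext h)) (fun h => hvy (Subtype.ext h))]

/-! ### The action on the tetrads -/

/-- The action of the stabilizer on the tetrads. -/
def tetAct (S : Finset (Finset GolayPt)) : ↥(MulAction.stabilizer M24 S) →* Equiv.Perm ↥S where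
  toFun g :=
    { toFun := fun t => ⟨(g.1.1 : Equiv.Perm GolayPt) • t.1, sextet_mem_smul g.2 t.2⟩
      invFun := fun t => ⟨(g.1.1 : Equiv.Perm GolayPt)⁻¹ • t.1, sextet_mem_smul (inv_smul_eq_iff.mpr (Eq.symm g.2)) t.2⟩
      left_inv := fun t => Subtype.ext (inv_smul_smul _ _)
      right_inv := fun t => Subtype.ext (smul_inv_smul _ _) }
  map_one' := by
    refine Equiv.ext fun t => Subtype.ext ?_
    exact one_smul _ _
  map_mul' g h := by
    refine Equiv.ext fun t => Subtype.ext ?_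
    exact mul_smul _ _ _

theorem tetAct_surjective {S : Finset (Finset GolayPt)} (hS : S ∈ sextets) : Function.Surjective (tetAct S) := by
  intro e
  obtain ⟨g, hg, hgS, hgt⟩ := induced hS e
  exact ⟨⟨⟨g, hg⟩, hgS⟩, Equiv.ext fun t => Subtype.ext (hgt t)⟩

theorem card_stab_sextet {S : Finset (Finset GolayPt)} (hS : S ∈ sextets) :
    Nat.card (MulAction.stabilizer M24 S) = 138240 := by
  classical
  have h1 : Nat.card (MulAction.orbit M24 S) = 1771 := by
    have : MulAction.orbit M24 S = sextets := by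
      ext d'
      constructor
      · rintro ⟨g, rfl⟩
        exact smul_mem_sextets g.2 hS
      · intro hd'
        obtain ⟨g, hg, h⟩ := exists_map_sextet hS hd'
        exact ⟨⟨g, hg⟩, h⟩
    rw [this]
    exact ncard_sextets
  have h2 := Nat.card_congr (MulAction.orbitProdStabilizerEquivGroup M24 S)
  rw [Nat.card_prod, h1, card_M24] at h2
  omega

theorem card_tetAct_ker {S : Finset (Finset GolayPt)} (hS : S ∈ sextets) : Nat.card (tetAct S).ker = 192 := by
  classical
  have h1 := Subgroup.card_mul_index (tetAct S).ker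
  rw [Subgroup.index_ker, (MonoidHom.range_eq_top.mpr (tetAct_surjective hS)), Subgroup.card_top, Nat.card_perm,
    card_stab_sextet hS] at h1
  have h2 : Nat.card ↥S = 6 := by
    rw [Nat.card_eq_fintype_card, Fintype.card_coe]
    exact (mem_sextets.mp hS).1
  rw [h2] at h1
  have h3 : Nat.factorial 6 = 720 := by decide
  rw [h3] at h1
  omega

theorem mem_tetAct_ker {S : Finset (Finset GolayPt)} (g : ↥(MulAction.stabilizer M24 S)) :
    g ∈ (tetAct S).ker ↔ ∀ t ∈ S, (g.1.1 : Equiv.Perm GolayPt) • t = t := by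
  rw [MonoidHom.mem_ker]
  constructor
  · intro h t ht
    have := congrArg (fun e : Equiv.Perm ↥S => (e ⟨t, ht⟩ : Finset GolayPt)) h
    exact this
  · intro h
    exact Equiv.ext fun t => Subtype.ext (h t.1 t.2)

/-- The second statement. -/
theorem card_kernel {S : Finset (Finset GolayPt)} (hS : S ∈ sextets) :
    Nat.card {g : ↥(MulAction.stabilizer M24 S) // ∀ t ∈ S, ((g : M24) : Equiv.Perm GolayPt) • t = t} = 192 := by
  rw [← card_tetAct_ker hS]
  exact Nat.card_congr (Equiv.subtypeEquivRight fun g => (mem_tetAct_ker g).symm)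

/-! ### The kernel as a subgroup of the permutations -/

/-- The elements fixing each tetrad. -/
def kerS (S : Finset (Finset GolayPt)) : Subgroup (Equiv.Perm GolayPt) where
  carrier := {g | g ∈ M24 ∧ ∀ t ∈ S, g • t = t}
  one_mem' := ⟨one_mem _, fun t _ => one_smul _ t⟩
  mul_mem' := fun {a b} ha hb => ⟨mul_mem ha.1 hb.1, fun t ht => by rw [mul_smul, hb.2 t ht, ha.2 t ht]⟩
  inv_mem' := fun {a} ha => ⟨inv_mem ha.1, fun t ht => by rw [inv_smul_eq_iff, ha.2 t ht]⟩

theorem mem_kerS {S : Finset (Finset GolayPt)} {g : Equiv.Perm GolayPt} : g ∈ kerS S ↔ g ∈ M24 ∧ ∀ t ∈ S, g • t = t :=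
  Iff.rfl

theorem kerS_le_stab {S : Finset (Finset GolayPt)} (hS : S ∈ sextets) {g : Equiv.Perm GolayPt} (hg : g ∈ kerS S) :
    g • S = S := by
  ext t
  constructor
  · intro ht
    obtain ⟨u, hu, rfl⟩ := Finset.mem_smul_finset.mp ht
    rw [hg.2 u hu]
    exact hu
  · intro ht
    exact Finset.mem_smul_finset.mpr ⟨t, ht, hg.2 t ht⟩

theorem card_kerS {S : Finset (Finset GolayPt)} (hS : S ∈ sextets) : Nat.card (kerS S) = 192 := by
  rw [← card_tetAct_ker hS]
  refine Nat.card_congr ⟨fun g => ⟨⟨⟨g.1, g.2.1⟩, kerS_le_stab hS g.2⟩, (mem_tetAct_ker _).mpr g.2.2⟩,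
    fun g => ⟨g.1.1.1, g.1.1.2, (mem_tetAct_ker _).mp g.2⟩, fun g => rfl, fun g => rfl⟩

theorem conj_mem_kerS {k : Equiv.Perm GolayPt} (hk : k ∈ M24) (S : Finset (Finset GolayPt)) (g : Equiv.Perm GolayPt) :
    g ∈ kerS S ↔ k * g * k⁻¹ ∈ kerS (k • S) := by
  constructor
  · rintro ⟨h1, h2⟩
    refine ⟨mul_mem (mul_mem hk h1) (inv_mem hk), fun t ht => ?_⟩
    obtain ⟨u, hu, rfl⟩ := Finset.mem_smul_finset.mp ht
    simp only [mul_smul, inv_smul_smul, h2 u hu]
  · rintro ⟨h1, h2⟩
    have hg : g = k⁻¹ * (k * g * k⁻¹) * k := by group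
    refine ⟨by rw [hg]; exact mul_mem (mul_mem (inv_mem hk) h1) hk, fun t ht => ?_⟩
    have h3 := h2 (k • t) (Finset.mem_smul_finset.mpr ⟨t, ht, rfl⟩)
    simp only [mul_smul, inv_smul_smul] at h3
    exact smul_left_cancel _ h3

/-! ### The list of elements -/

/-- The involutions in the list. -/
def invol (t : List ℕ) : Bool := allBelow (fun i => img t (img t i) == i) 24

/-- The involutions and the identity. -/
def N0L : List (List ℕ) := K0L.filter invol

theorem K0L_chk : K0L.all (fun t => isAut t && S0L.all fun z => permMask t z == z) = true := by decide +kernel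

theorem K0L_nodup : K0L.Nodup := by decide +kernel

theorem K0L_len : K0L.length = 192 := by decide +kernel

theorem N0L_len : N0L.length = 64 := by decide +kernel

theorem N0L_comm : N0L.all (fun t => N0L.all fun u => allBelow (fun i => img t (img u i) == img u (img t i)) 24) = true := by
  decide +kernel

theorem img_eq_of_toPerm_eq {t u : List ℕ} (ht : isAut t = true) (hu : isAut u = true) (h : toPerm t = toPerm u) {i : ℕ}
    (hi : i < 24) : img t i = img u i := by
  have h1 := ptIdx_toPerm (isAut_valid ht) (isAut_inRange ht) (idxPt i)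
  have h2 := ptIdx_toPerm (isAut_valid hu) (isAut_inRange hu) (idxPt i)
  rw [h, h2, ptIdx_idxPt hi] at h1
  exact h1.symm

theorem eq_of_toPerm_eq {t u : List ℕ} (ht : isAut t = true) (hu : isAut u = true) (h : toPerm t = toPerm u) : t = u := by
  have lt := length_of_valid (isAut_valid ht)
  have lu := length_of_valid (isAut_valid hu)
  refine List.ext_getElem (by omega) fun i h1 h2 => ?_
  have h3 := img_eq_of_toPerm_eq ht hu h (i := i) (by omega)
  simpa [img, List.getD_eq_getElem?_getD, h1, h2] using h3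

theorem K0L_aut {t : List ℕ} (ht : t ∈ K0L) : isAut t = true := by
  have h1 := List.all_eq_true.mp K0L_chk t ht
  simp only [Bool.and_eq_true] at h1
  exact h1.1

theorem K0L_mem {t : List ℕ} (ht : t ∈ K0L) : toPerm t ∈ kerS (objOf S0L) := by
  have h1 := List.all_eq_true.mp K0L_chk t ht
  simp only [Bool.and_eq_true, List.all_eq_true, beq_iff_eq] at h1
  refine ⟨toPerm_mem_M24 h1.1, fun z hz => ?_⟩
  obtain ⟨m, hm, rfl⟩ := mem_objOf.mp hz
  rw [smul_supFin (isAut_valid h1.1) (isAut_inRange h1.1), h1.2 m hm]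

/-- Every element of the kernel at `S0` is in the list. -/
theorem exists_of_mem_kerS0 {g : Equiv.Perm GolayPt} (hg : g ∈ kerS (objOf S0L)) : ∃ t ∈ K0L, g = toPerm t := by
  classical
  have hnd : (K0L.map toPerm).Nodup := by
    refine List.Nodup.map_on ?_ K0L_nodup
    intro a ha b hb hab
    exact eq_of_toPerm_eq (K0L_aut ha) (K0L_aut hb) hab
  let A : Finset (Equiv.Perm GolayPt) := (K0L.map toPerm).toFinset
  have hAcard : A.card = 192 := by
    rw [List.toFinset_card_of_nodup hnd, List.length_map, K0L_len]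
  have hsub : (A : Set (Equiv.Perm GolayPt)) ⊆ (kerS (objOf S0L) : Set (Equiv.Perm GolayPt)) := by
    intro x hx
    obtain ⟨t, ht, rfl⟩ := List.mem_map.mp (List.mem_toFinset.mp (Finset.mem_coe.mp hx))
    exact K0L_mem ht
  have hle : ((kerS (objOf S0L) : Set (Equiv.Perm GolayPt))).ncard ≤ (A : Set (Equiv.Perm GolayPt)).ncard := by
    rw [Set.ncard_coe_finset, hAcard]
    have := card_kerS S0_mem
    rw [← Nat.card_coe_set_eq]
    exact this.le
  have hEq := Set.eq_of_subset_of_ncard_le hsub hle (Set.toFinite _)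
  have hgA : g ∈ (A : Set (Equiv.Perm GolayPt)) := by
    rw [hEq]
    exact hg
  obtain ⟨t, ht, rfl⟩ := List.mem_map.mp (List.mem_toFinset.mp (Finset.mem_coe.mp hgA))
  exact ⟨t, ht, rfl⟩

theorem allBelow_intro {f : ℕ → Bool} {n : ℕ} (h : ∀ k < n, f k = true) : allBelow f n = true := by
  induction n with
  | zero => rfl
  | succ n ih =>
    simp only [allBelow, Bool.and_eq_true]
    exact ⟨h n (by omega), ih fun k hk => h k (by omega)⟩

theorem invol_iff {t : List ℕ} (ht : isAut t = true) : toPerm t * toPerm t = 1 ↔ invol t = true := by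
  have hv := isAut_valid ht
  have hr := isAut_inRange ht
  constructor
  · intro h
    refine allBelow_intro fun i hi => ?_
    have h1 := congrArg (fun e : Equiv.Perm GolayPt => ptIdx (e (idxPt i))) h
    simp only [Equiv.Perm.mul_apply, Equiv.Perm.coe_one, id_eq, ptIdx_toPerm hv hr, ptIdx_idxPt hi] at h1
    simpa using h1
  · intro h
    refine Equiv.ext fun p => ptIdx_injective ?_
    have h1 := allBelow_spec h _ (ptIdx_lt p)
    rw [beq_iff_eq] at h1
    simp only [Equiv.Perm.mul_apply, Equiv.Perm.coe_one, id_eq, ptIdx_toPerm hv hr]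
    exact h1

theorem comm_S0 {x y : Equiv.Perm GolayPt} (hx : x ∈ kerS (objOf S0L)) (hx2 : x * x = 1) (hy : y ∈ kerS (objOf S0L))
    (hy2 : y * y = 1) : x * y = y * x := by
  obtain ⟨t, ht, rfl⟩ := exists_of_mem_kerS0 hx
  obtain ⟨u, hu, rfl⟩ := exists_of_mem_kerS0 hy
  have ht' := K0L_aut ht
  have hu' := K0L_aut hu
  have hN : t ∈ N0L := List.mem_filter.mpr ⟨ht, (invol_iff ht').mp hx2⟩
  have hM : u ∈ N0L := List.mem_filter.mpr ⟨hu, (invol_iff hu').mp hy2⟩
  have h1 := List.all_eq_true.mp (List.all_eq_true.mp N0L_comm t hN) u hM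
  refine Equiv.ext fun p => ptIdx_injective ?_
  have h2 := allBelow_spec h1 _ (ptIdx_lt p)
  rw [beq_iff_eq] at h2
  simp only [Equiv.Perm.mul_apply, ptIdx_toPerm (isAut_valid ht') (isAut_inRange ht'),
    ptIdx_toPerm (isAut_valid hu') (isAut_inRange hu')]
  exact h2

theorem comm_gen {S : Finset (Finset GolayPt)} (hS : S ∈ sextets) {x y : Equiv.Perm GolayPt} (hx : x ∈ kerS S)
    (hx2 : x * x = 1) (hy : y ∈ kerS S) (hy2 : y * y = 1) : x * y = y * x := by
  obtain ⟨k, hk, rfl⟩ := exists_map_sextet S0_mem hS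
  have hx' : k⁻¹ * x * k ∈ kerS (objOf S0L) := by
    rw [conj_mem_kerS hk]
    have : k * (k⁻¹ * x * k) * k⁻¹ = x := by group
    rwa [this]
  have hy' : k⁻¹ * y * k ∈ kerS (objOf S0L) := by
    rw [conj_mem_kerS hk]
    have : k * (k⁻¹ * y * k) * k⁻¹ = y := by group
    rwa [this]
  have hs : ∀ z : Equiv.Perm GolayPt, z * z = 1 → (k⁻¹ * z * k) * (k⁻¹ * z * k) = 1 := by
    intro z hz
    have : (k⁻¹ * z * k) * (k⁻¹ * z * k) = k⁻¹ * (z * z) * k := by group
    rw [this, hz]
    group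
  have h1 := comm_S0 hx' (hs x hx2) hy' (hs y hy2)
  have h2 : x * y = k * ((k⁻¹ * x * k) * (k⁻¹ * y * k)) * k⁻¹ := by group
  have h3 : y * x = k * ((k⁻¹ * y * k) * (k⁻¹ * x * k)) * k⁻¹ := by group
  rw [h2, h3, h1]

/-- The normal subgroup of order 64, as a subgroup of the permutations. -/
def nS {S : Finset (Finset GolayPt)} (hS : S ∈ sextets) : Subgroup (Equiv.Perm GolayPt) where
  carrier := {g | g ∈ kerS S ∧ g * g = 1}
  one_mem' := ⟨one_mem _, one_mul _⟩
  mul_mem' := by
    rintro a b ⟨h1, h2⟩ ⟨h3, h4⟩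
    refine ⟨mul_mem h1 h3, ?_⟩
    have h5 := comm_gen hS h1 h2 h3 h4
    have : a * b * (a * b) = a * (b * a) * b := by group
    rw [this, ← h5]
    have : a * (a * b) * b = (a * a) * (b * b) := by group
    rw [this, h2, h4, one_mul]
  inv_mem' := by
    rintro a ⟨h1, h2⟩
    refine ⟨inv_mem h1, ?_⟩
    have : a⁻¹ = a := by
      rw [inv_eq_iff_mul_eq_one]
      exact h2
    rw [this]
    exact h2

theorem card_nS0 : Nat.card (nS S0_mem) = 64 := by
  classical
  have hnd : (N0L.map toPerm).Nodup := by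
    refine List.Nodup.map_on ?_ (List.Nodup.filter _ K0L_nodup)
    intro a ha b hb hab
    exact eq_of_toPerm_eq (K0L_aut (List.mem_filter.mp ha).1) (K0L_aut (List.mem_filter.mp hb).1) hab
  have hE : ((nS S0_mem : Subgroup (Equiv.Perm GolayPt)) : Set (Equiv.Perm GolayPt)) = ((N0L.map toPerm).toFinset : Finset _) := by
    ext x
    simp only [Finset.mem_coe, List.mem_toFinset, List.mem_map, SetLike.mem_coe]
    constructor
    · rintro ⟨h1, h2⟩
      obtain ⟨t, ht, rfl⟩ := exists_of_mem_kerS0 h1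
      exact ⟨t, List.mem_filter.mpr ⟨ht, (invol_iff (K0L_aut ht)).mp h2⟩, rfl⟩
    · rintro ⟨t, ht, rfl⟩
      obtain ⟨h1, h2⟩ := List.mem_filter.mp ht
      exact ⟨K0L_mem h1, (invol_iff (K0L_aut h1)).mpr h2⟩
  have h1 : Nat.card (nS S0_mem) = ((nS S0_mem : Subgroup (Equiv.Perm GolayPt)) : Set (Equiv.Perm GolayPt)).ncard :=
    (Nat.card_coe_set_eq _)
  rw [h1, hE, Set.ncard_coe_finset, List.toFinset_card_of_nodup hnd, List.length_map, N0L_len]

theorem card_nS {S : Finset (Finset GolayPt)} (hS : S ∈ sextets) : Nat.card (nS hS) = 64 := by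
  obtain ⟨k, hk, rfl⟩ := exists_map_sextet S0_mem hS
  rw [← card_nS0]
  refine Nat.card_congr (Cfsg.Agent.Lib.GolaySimple.conjEquiv k _ _ ?_).symm.toEquiv
  intro g
  constructor
  · rintro ⟨h1, h2⟩
    refine ⟨(conj_mem_kerS hk _ g).mp h1, ?_⟩
    have : k * g * k⁻¹ * (k * g * k⁻¹) = k * (g * g) * k⁻¹ := by group
    rw [this, h2]
    group
  · rintro ⟨h1, h2⟩
    refine ⟨(conj_mem_kerS hk _ g).mpr h1, ?_⟩
    have : k * g * k⁻¹ * (k * g * k⁻¹) = k * (g * g) * k⁻¹ := by group
    rw [this] at h2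
    have h3 : g * g = k⁻¹ * (k * (g * g) * k⁻¹) * k := by group
    rw [h3, h2]
    group

/-- The whole statement. -/
theorem sextet_structure {S : Finset (Finset GolayPt)} (hS : S ∈ sextets) :
    (∀ e : Equiv.Perm ↥S, ∃ g ∈ MulAction.stabilizer M24 S, ∀ t : ↥S,
      (g : Equiv.Perm GolayPt) • (t : Finset GolayPt) = ((e t : ↥S) : Finset GolayPt)) ∧
    Nat.card {g : ↥(MulAction.stabilizer M24 S) // ∀ t ∈ S, ((g : M24) : Equiv.Perm GolayPt) • t = t} = 192 ∧
    ∃ N : Subgroup ↥(MulAction.stabilizer M24 S), N.Normal ∧ Nat.card N = 64 ∧ ∀ x ∈ N, x * x = 1 := by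
  refine ⟨fun e => ?_, card_kernel hS, ?_⟩
  · obtain ⟨g, hg, hgS, hgt⟩ := induced hS e
    exact ⟨⟨g, hg⟩, hgS, hgt⟩
  · let inc : ↥(MulAction.stabilizer M24 S) →* Equiv.Perm GolayPt :=
      M24.subtype.comp (MulAction.stabilizer M24 S).subtype
    refine ⟨(nS hS).comap inc, ⟨fun n hn g => ?_⟩, ?_, fun x hx => ?_⟩
    · obtain ⟨⟨h1, h2⟩, h3⟩ := hn
      have hg : ((g.1.1 : Equiv.Perm GolayPt)) • S = S := g.2
      refine ⟨⟨?_, fun t ht => ?_⟩, ?_⟩
      · exact mul_mem (mul_mem g.1.2 h1) (inv_mem g.1.2)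
      · have h4 := h2 _ (sextet_mem_smul (inv_smul_eq_iff.mpr hg.symm) ht)
        change ((g.1.1 : Equiv.Perm GolayPt) * inc n * (g.1.1 : Equiv.Perm GolayPt)⁻¹) • t = t
        rw [mul_smul, mul_smul, h4, smul_inv_smul]
      · change (g.1.1 * inc n * (g.1.1)⁻¹) * (g.1.1 * inc n * (g.1.1)⁻¹) = 1
        have : (g.1.1 * inc n * (g.1.1)⁻¹) * (g.1.1 * inc n * (g.1.1)⁻¹) = g.1.1 * (inc n * inc n) * (g.1.1)⁻¹ := by group
        rw [this, h3]
        group
    · rw [← card_nS hS]
      refine Nat.card_congr ⟨fun g => ⟨inc g.1, g.2⟩, fun g => ⟨⟨⟨g.1, g.2.1.1⟩, kerS_le_stab hS g.2.1⟩, g.2⟩,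
        fun g => rfl, fun g => rfl⟩
    · obtain ⟨-, h3⟩ := hx
      exact Subtype.ext (Subtype.ext h3)

end Cfsg.Agent.Lib.GolaySextetStr
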