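import Mathlib
import Cfsg.Agent.Lib.GolayCent
import Cfsg.Agent.Lib.GolaySets

/-!
# Six-point sets of the length-24 code
-/

set_option autoImplicit false
set_option maxHeartbeats 0
set_option linter.style.haveILetI false
set_option linter.constructorNameAsVariable false

open scoped Pointwise

namespace Cfsg.Agent.Lib.GolaySix

open Cfsg Cfsg.Agent.Lib.GolayCode Cfsg.Agent.Lib.GolayFacts Cfsg.Agent.Lib.GolayPerm
  Cfsg.Agent.Lib.GolayChain Cfsg.Agent.Lib.GolayTrans Cfsg.Agent.Lib.GolayDecomp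
  Cfsg.Agent.Lib.GolayOrbit Cfsg.Agent.Lib.GolayFix Cfsg.Agent.Lib.GolayEnum
  Cfsg.Agent.Lib.GolayClassData Cfsg.Agent.Lib.GolayClass Cfsg.Agent.Lib.GolayObjs
  Cfsg.Agent.Lib.GolayCent Cfsg.Agent.Lib.GolaySets Cfsg.Agent.Lib.GolayFast

/-- The sixth point inside the octad. -/
def zA : ℕ := 5
/-- The sixth point outside the octad. -/
def zB : ℕ := 4
/-- Elements of the fifth stabilizer. -/
def W5 : List ℕ := [0xb9e086be3593a6952d94b10a618820,0xb99b28523343aaa4b16f258a718820,0xbc92655a2c3b9706cea47d0a818820,0xbb2ad350abb464f5408999dc818820,0xbd5f04a1c6b166c911ab5522718820,0xbb1f3a4232ab916218ed4a8ab18820,0xbcd69958b5a44c4829ed621c718820,0xbc0ea332364b892451ebaccad18820,0xbb5135bdd63160aa1ea964a2418820,0xbce8d549c7216ab45a0c4be2618820,0xbd9e854ca46461534967a25cd18820,0xbc12ba18ad946c79b11553dc418820,0xbd58a410b37c4f66a6905c9c618820,0xba1b4255cc516469a5e7b422b18820,0xbc8e49a8a884589a59af355cb18820,0xbac8a69dd2a159333d3585a2818820,0xb9166425d0996d4554ef9322d18820]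
/-- Transpositions, inside the octad. -/
def WA : List ℕ := [0x4133a31d63c5b259aa87a8a418837,0xa8d03b1cf6c688912cbacca918ae0,0x13d065b5d49c550b1ea4930a91dc20,0x19e167b5ca4c492aacd444cacb8820,0x2bd47b11c65c5929d209aa2ed18820,0xbae8d555cc24653342c77a4a818801,0xbd0e4331c9b4548941ab9d4af18022,0xbce95b49c95c5a47aa063a0ac00823,0xbb5e9b55d2844f42190c9ac0a18825,0xb9d76925d56c4cf54094430b318440,0xbc8e45b1d64c550a22a67b4b308860,0xbaaac94dc63c5746d9287c024188a0,0xbd9b4549cc246b04cd67418af10c20,0xbdaa45c1d27c4cc9a0ea4b45419420,0xbca877c1cc345762566d5246828820]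
/-- Transpositions, outside the octad. -/
def WB : List ℕ := [0x351459e30516c69bd35931c418837,0xb553a48b033ac85d4ec4be2418ae0,0x1592754a2d3160b64ea8a3dc41dc20,0x19d345bcac939509b6a8b1a24b8820,0x242b45c8f6329a59b9098bd9718820,0xbb4cb9a5d0446caa324f3d4a418801,0xbc2b235236595aa7b1093cdc418022,0xbbeb45b5c6b464c99d09540a400823,0xbd9345c64d29a0a9b2a83b9e018824,0xbc2954c9d6345ac41e6b53ca418440,0xba1b45ca29316aa9b2163bdc408860,0xbb4b45bd30922cc99e2e51aa118880,0xbd136819d37c56a6b2a83c8a410c20,0xbdaa57196d7ce0c89d0954a8219020,0xb951459a117b5c79a93564ac320820]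

/-- The six points. -/
def mZ (z : ℕ) : ℕ := 15 ||| 2 ^ 23 ||| 2 ^ z

/-- The check for transpositions. -/
def swapChk (m : ℕ) (W : List ℕ) : Bool :=
  allBelow (fun a => allBelow (fun b => !(m.testBit a) || !(m.testBit b) || Nat.beq a b ||
    W.any fun t => Nat.beq (imgN t a) b && Nat.beq (imgN t b) a &&
      allBelow (fun c => !(m.testBit c) || Nat.beq c a || Nat.beq c b || Nat.beq (imgN t c) c) 24) 24) 24

theorem swapA : swapChk (mZ zA) WA = true := by decide +kernel
theorem swapB : swapChk (mZ zB) WB = true := by decide +kernel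
theorem WA_ok : WA.all isAutN = true := by decide +kernel
theorem WB_ok : WB.all isAutN = true := by decide +kernel
theorem W5_ok : W5.all isAutN = true := by decide +kernel

/-- Realizing a transposition. -/
theorem exists_swap {m : ℕ} {W : List ℕ} (h : swapChk m W = true) (hW : W.all isAutN = true)
    {a b : GolayPt} (ha : a ∈ supFin m) (hb : b ∈ supFin m) (hab : a ≠ b) :
    ∃ t ∈ M24, t a = b ∧ t b = a ∧ ∀ c ∈ supFin m, c ≠ a → c ≠ b → t c = c := by
  have h1 := allBelow_spec (allBelow_spec h _ (ptIdx_lt a)) _ (ptIdx_lt b)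
  have hab' : Nat.beq (ptIdx a) (ptIdx b) = false := by
    rw [← Bool.not_eq_true, Nat.beq_eq]
    exact fun he => hab (ptIdx_injective he)
  simp only [mem_supFin.mp ha, mem_supFin.mp hb, hab', Bool.not_true, Bool.false_or] at h1
  obtain ⟨t, ht, h2⟩ := List.any_eq_true.mp h1
  simp only [Bool.and_eq_true] at h2
  obtain ⟨⟨h3, h4⟩, h5⟩ := h2
  have hA := List.all_eq_true.mp hW t ht
  have hO := isAutN_ok hA
  refine ⟨pN t, isAutN_mem hA, ?_, ?_, ?_⟩
  · apply ptIdx_injective
    rw [ptIdx_pN hO, Nat.eq_of_beq_eq_true h3]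
  · apply ptIdx_injective
    rw [ptIdx_pN hO, Nat.eq_of_beq_eq_true h4]
  · intro c hc hca hcb
    have h6 := allBelow_spec h5 _ (ptIdx_lt c)
    have h7 : Nat.beq (ptIdx c) (ptIdx a) = false := by
      rw [← Bool.not_eq_true, Nat.beq_eq]
      exact fun he => hca (ptIdx_injective he)
    have h8 : Nat.beq (ptIdx c) (ptIdx b) = false := by
      rw [← Bool.not_eq_true, Nat.beq_eq]
      exact fun he => hcb (ptIdx_injective he)
    simp only [mem_supFin.mp hc, h7, h8, Bool.not_true, Bool.false_or] at h6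
    apply ptIdx_injective
    rw [ptIdx_pN hO, Nat.eq_of_beq_eq_true h6]

/-- Every permutation of a set is induced. -/
theorem perm_realized {E : Finset GolayPt} {m : ℕ} {W : List ℕ} {h : Equiv.Perm GolayPt} (hh : h ∈ M24)
    (hE : h • E = supFin m) (hchk : swapChk m W = true) (hW : W.all isAutN = true) (σ : Equiv.Perm ↥E) :
    ∃ g ∈ M24, ∀ p : ↥E, g p = σ p := by
  classical
  have hmem : ∀ {x : GolayPt}, x ∈ E → h x ∈ supFin m := fun hx => by
    rw [← hE]
    exact Finset.mem_smul_finset.mpr ⟨_, hx, rfl⟩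
  have hmem' : ∀ {x : GolayPt}, h x ∈ supFin m → x ∈ E := fun hx => by
    rw [← hE] at hx
    obtain ⟨y, hy, he⟩ := Finset.mem_smul_finset.mp hx
    rwa [← h.injective he]
  induction σ using Equiv.Perm.swap_induction_on with
  | one => exact ⟨1, one_mem _, fun p => rfl⟩
  | swap_mul f a b hab ih =>
    obtain ⟨g, hg, hgf⟩ := ih
    have hne : h a.1 ≠ h b.1 := fun he => hab (Subtype.ext (h.injective he))
    obtain ⟨t, ht, h1, h2, h3⟩ := exists_swap hchk hW (hmem a.2) (hmem b.2) hne
    refine ⟨(h⁻¹ * t * h) * g, mul_mem (mul_mem (mul_mem (inv_mem hh) ht) hh) hg, ?_⟩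
    intro p
    simp only [Equiv.Perm.mul_apply]
    rw [hgf p]
    generalize f p = q
    by_cases hqa : q = a
    · subst hqa
      rw [Equiv.swap_apply_left, h1]
      simp
    · by_cases hqb : q = b
      · subst hqb
        rw [Equiv.swap_apply_right, h2]
        simp
      · rw [Equiv.swap_apply_of_ne_of_ne hqa hqb]
        rw [h3 _ (hmem q.2) (fun he => hqa (Subtype.ext (h.injective he))) (fun he => hqb (Subtype.ext (h.injective he)))]
        simp

/-- Prescribed values. -/
def V5 : List (ℕ × ℕ) := [(0, 23), (1, 0), (2, 1), (3, 2), (4, 3)]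

/-- The elements fixing a set containing the first base points. -/
def fixL (m : ℕ) : List ℕ :=
  (enumL (keepV V5)).filter fun e => allBelow (fun i => !(m.testBit i) || Nat.beq (imgN e i) i) 24

theorem fixL_count (m : ℕ) (n : ℕ) (hbase : (allBelow (fun j => m.testBit (bs j)) 5) = true)
    (hd : distinctL (fixL m) = true) (hlen : (fixL m).length = n) (hlt : (fixL m).all (fun c => Nat.blt c (32 ^ 24)) = true) :
    Nat.card {g : Equiv.Perm GolayPt // g ∈ M24 ∧ ∀ p ∈ supFin m, g p = p} = n := by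
  rw [card_of_list (L := fixL m) ?_ ?_ (nodup_of_distinctL hd) ?_, hlen]
  · intro e he
    obtain ⟨h1, h2⟩ := List.mem_filter.mp he
    obtain ⟨hok, hm⟩ := enum_sound h1
    refine ⟨hok, hm, fun p hp => ?_⟩
    have h3 := allBelow_spec h2 _ (ptIdx_lt p)
    simp only [mem_supFin.mp hp, Bool.not_true, Bool.false_or] at h3
    apply ptIdx_injective
    rw [ptIdx_pN hok, Nat.eq_of_beq_eq_true h3]
  · intro g hg hfix
    have hbp : ∀ j < 5, g (idxPt (bs j)) = idxPt (bs j) := fun j hj =>
      hfix _ (mem_supFin.mpr (by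
        rw [ptIdx_idxPt (bs_lt j (by omega))]
        exact allBelow_spec hbase j hj))
    have hV : ∀ jv ∈ V5, jv.1 < 7 ∧ jv.2 < 24 ∧ g (idxPt (bs jv.1)) = idxPt jv.2 := by
      intro jv hjv
      simp only [V5, List.mem_cons, List.not_mem_nil, or_false] at hjv
      rcases hjv with rfl | rfl | rfl | rfl | rfl
      · exact ⟨by norm_num, by norm_num, hbp 0 (by norm_num)⟩
      · exact ⟨by norm_num, by norm_num, hbp 1 (by norm_num)⟩
      · exact ⟨by norm_num, by norm_num, hbp 2 (by norm_num)⟩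
      · exact ⟨by norm_num, by norm_num, hbp 3 (by norm_num)⟩
      · exact ⟨by norm_num, by norm_num, hbp 4 (by norm_num)⟩
    obtain ⟨e, he, rfl⟩ := exists_in_enum hg hV
    obtain ⟨hok, -⟩ := enum_sound he
    refine ⟨e, List.mem_filter.mpr ⟨he, ?_⟩, rfl⟩
    apply allBelow_of_forall
    intro i hi
    by_cases hb : m.testBit i = true
    · have h3 := hfix (idxPt i) (mem_supFin.mpr (by rwa [ptIdx_idxPt hi]))
      have h4 := congrArg ptIdx h3
      rw [ptIdx_pN hok, ptIdx_idxPt hi] at h4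
      simp [hb, h4]
    · simp [hb]
  · intro e he
    simpa using Nat.blt_eq.mp (List.all_eq_true.mp hlt e he)

theorem fixA_base : allBelow (fun j => (mZ zA).testBit (bs j)) 5 = true := by decide +kernel
theorem fixB_base : allBelow (fun j => (mZ zB).testBit (bs j)) 5 = true := by decide +kernel
theorem fixA_d : distinctL (fixL (mZ zA)) = true := by decide +kernel
theorem fixB_d : distinctL (fixL (mZ zB)) = true := by decide +kernel
theorem fixA_l : (fixL (mZ zA)).length = 16 := by decide +kernel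
theorem fixB_l : (fixL (mZ zB)).length = 3 := by decide +kernel
theorem fixA_lt : (fixL (mZ zA)).all (fun c => Nat.blt c (32 ^ 24)) = true := by decide +kernel
theorem fixB_lt : (fixL (mZ zB)).all (fun c => Nat.blt c (32 ^ 24)) = true := by decide +kernel

/-! ### The setwise stabilizer -/

/-- The condition for the setwise stabilizer. -/
def keepS (m i u : ℕ) : Bool :=
  allBelow (fun j => !(m.testBit (bs j)) || m.testBit (imgN u (bs j))) (min i 7)

theorem keepS_sound {m i u : ℕ} {g : Equiv.Perm GolayPt} (hg : g • supFin m = supFin m) (hu : Ok u)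
    (h : (pN u)⁻¹ * g ∈ G i) : keepS m i u = true := by
  apply allBelow_of_forall
  intro j hj
  have hj7 : j < 7 := by omega
  have hji : j < i := by omega
  by_cases hb : m.testBit (bs j) = true
  · have h1 := apply_of_mem_G h hji hu hj7
    have h2 : idxPt (bs j) ∈ supFin m := mem_supFin.mpr (by rwa [ptIdx_idxPt (bs_lt j hj7)])
    have h3 : g (idxPt (bs j)) ∈ supFin m := by
      rw [← hg]
      exact Finset.mem_smul_finset.mpr ⟨_, h2, rfl⟩
    rw [h1] at h3
    have h4 := mem_supFin.mp h3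
    rw [ptIdx_idxPt (hu.rng (bs_lt j hj7))] at h4
    simp [h4]
  · simp [hb]

/-- The setwise stabilizer. -/
def setL (m : ℕ) : List ℕ := (enumL (keepS m)).filter (chkO · m)

theorem setB_chk : forceL (setL (mZ zB)) (fun L => Nat.beq L.length 2160 && distinctL L &&
    L.all (fun c => Nat.blt c (32 ^ 24))) = true := by decide +kernel

theorem card_setB : Nat.card {g : Equiv.Perm GolayPt // g ∈ M24 ∧ g • supFin (mZ zB) = supFin (mZ zB)} = 2160 := by
  have h := setB_chk
  rw [forceL_eq] at h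
  simp only [Bool.and_eq_true, List.all_eq_true] at h
  obtain ⟨⟨h1, h2⟩, h3⟩ := h
  have hmlt : mZ zB < 2 ^ 24 := by decide
  rw [card_of_list (L := setL (mZ zB)) ?_ ?_ (nodup_of_distinctL h2) ?_, Nat.eq_of_beq_eq_true h1]
  · intro e he
    obtain ⟨h4, h5⟩ := List.mem_filter.mp he
    obtain ⟨hok, hm⟩ := enum_sound h4
    exact ⟨hok, hm, (fixed_mask_iff hok hmlt).mpr h5⟩
  · intro g hg hfix
    obtain ⟨e, he, rfl⟩ := enum_complete (keep := keepS (mZ zB)) hg fun i u hu h => keepS_sound hfix hu h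
    obtain ⟨hok, -⟩ := enum_sound he
    exact ⟨e, List.mem_filter.mpr ⟨he, (fixed_mask_iff hok hmlt).mp hfix⟩, rfl⟩
  · intro e he
    simpa using Nat.blt_eq.mp (h3 e he)

/-! ### Reduction to the two sets -/

theorem W5_chk : W5.all (fun t => allBelow (fun j => Nat.beq (imgN t (bs j)) (bs j)) 5) = true := by decide +kernel

theorem W5_cover : allBelow (fun w => (mZ 0).testBit w || W5.any (fun t => Nat.beq (imgN t w) zA || Nat.beq (imgN t w) zB) ||
    Nat.beq w zA || Nat.beq w zB) 24 = true := by decide +kernel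

theorem mZ_iff {z i : ℕ} (hz : z < 24) (hi : i < 24) : (mZ z).testBit i = true ↔ i = 23 ∨ i = 0 ∨ i = 1 ∨ i = 2 ∨ i = 3 ∨ i = z := by
  simp only [mZ, Nat.testBit_or, Bool.or_eq_true, Nat.testBit_two_pow]
  have h15 : (15 : ℕ).testBit i = true ↔ i = 0 ∨ i = 1 ∨ i = 2 ∨ i = 3 := by
    revert i
    decide
  rw [h15]
  simp only [decide_eq_true_eq]
  omega

theorem hw_mZA : hw 24 (mZ zA) = 6 := by decide +kernel
theorem hw_mZB : hw 24 (mZ zB) = 6 := by decide +kernel

/-- Six-point sets up to `M24`. -/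
theorem reduce6 (E : Finset GolayPt) (hE : E.card = 6) :
    ∃ h ∈ M24, h • E = supFin (mZ zA) ∨ h • E = supFin (mZ zB) := by
  classical
  let e : Fin 6 ≃ ↥E := (Finset.equivFinOfCardEq hE).symm
  have hd : ∀ i j : Fin 6, i ≠ j → (e i : GolayPt) ≠ e j := fun i j hij he =>
    hij (e.injective (Subtype.ext he))
  obtain ⟨h0, hh0, b0, b1, b2, b3, b4⟩ := exists_conj5 (x0 := (e 0 : GolayPt)) (x1 := e 1) (x2 := e 2) (x3 := e 3) (x4 := e 4)
    (hd _ _ (by decide)) (hd _ _ (by decide)) (hd _ _ (by decide)) (hd _ _ (by decide)) (hd _ _ (by decide))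
    (hd _ _ (by decide)) (hd _ _ (by decide)) (hd _ _ (by decide)) (hd _ _ (by decide)) (hd _ _ (by decide))
  set w := ptIdx (h0 (e 5 : GolayPt)) with hw
  have hwlt : w < 24 := ptIdx_lt _
  have hz : idxPt w = h0 (e 5 : GolayPt) := idxPt_ptIdx _
  have hnb : ∀ k : Fin 5, w ≠ bs k.val := by
    intro k he
    have h1 : h0 (e 5 : GolayPt) = idxPt (bs k.val) := by rw [← hz, he]
    have h2 : ∀ k : Fin 5, idxPt (bs k.val) = h0 (e ⟨k.val, by omega⟩ : GolayPt) := by
      intro k
      fin_cases k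
      · exact b0.symm
      · exact b1.symm
      · exact b2.symm
      · exact b3.symm
      · exact b4.symm
    rw [h2 k] at h1
    have h3 := h0.injective h1
    exact hd _ _ (by
      intro h4
      have := congrArg Fin.val h4
      have h5 := k.2
      simp at this
      omega) h3
  have hcov := allBelow_spec W5_cover w hwlt
  have hfinal : ∀ (t : Equiv.Perm GolayPt) (z : ℕ), t ∈ M24 → z < 24 → GolayCode.hw 24 (mZ z) = 6 →
      (∀ j < 5, t (idxPt (bs j)) = idxPt (bs j)) → t (idxPt w) = idxPt z →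
      (t * h0) • E = supFin (mZ z) := by
    intro t z htm hz24 hzw hfixb htw
    symm
    apply Finset.eq_of_subset_of_card_le
    · intro p hp
      have hi := (mZ_iff hz24 (ptIdx_lt p)).mp (mem_supFin.mp hp)
      have hp' : p = idxPt (ptIdx p) := (idxPt_ptIdx p).symm
      have key : ∀ (k : Fin 6), (t * h0) (e k : GolayPt) ∈ (t * h0) • E := fun k =>
        Finset.mem_smul_finset.mpr ⟨_, (e k).2, rfl⟩
      rcases hi with hi | hi | hi | hi | hi | hi
      · rw [hp', hi]
        have := key 0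
        rwa [Equiv.Perm.mul_apply, b0, hfixb 0 (by norm_num)] at this
      · rw [hp', hi]
        have := key 1
        rwa [Equiv.Perm.mul_apply, b1, hfixb 1 (by norm_num)] at this
      · rw [hp', hi]
        have := key 2
        rwa [Equiv.Perm.mul_apply, b2, hfixb 2 (by norm_num)] at this
      · rw [hp', hi]
        have := key 3
        rwa [Equiv.Perm.mul_apply, b3, hfixb 3 (by norm_num)] at this
      · rw [hp', hi]
        have := key 4
        rwa [Equiv.Perm.mul_apply, b4, hfixb 4 (by norm_num)] at this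
      · rw [hp', hi]
        have := key 5
        rwa [Equiv.Perm.mul_apply, ← hz, htw] at this
    · rw [Finset.card_smul_finset, hE, card_supFin, hzw]
  simp only [Bool.or_eq_true] at hcov
  have hid : ∀ j < 5, (1 : Equiv.Perm GolayPt) (idxPt (bs j)) = idxPt (bs j) := fun _ _ => rfl
  have hWt : ∀ t ∈ W5, (∀ j < 5, pN t (idxPt (bs j)) = idxPt (bs j)) := by
    intro t ht j hj
    have h1 := allBelow_spec (List.all_eq_true.mp W5_chk t ht) j hj
    rw [pN_idxPt (isAutN_ok (List.all_eq_true.mp W5_ok t ht)) (bs_lt j (by omega)), Nat.eq_of_beq_eq_true h1]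
  rcases hcov with ((hc | hc) | hc) | hc
  · -- the point is a base point: impossible
    exfalso
    have h1 := (mZ_iff (z := 0) (by norm_num) hwlt).mp hc
    have hk : ∃ k : Fin 5, w = bs k.val := by
      rcases h1 with h | h | h | h | h | h
      · exact ⟨0, h⟩
      · exact ⟨1, h⟩
      · exact ⟨2, h⟩
      · exact ⟨3, h⟩
      · exact ⟨4, h⟩
      · exact ⟨1, h⟩
    obtain ⟨k, hk⟩ := hk
    exact hnb k hk
  · obtain ⟨t, ht, hte⟩ := List.any_eq_true.mp hc
    have hA := List.all_eq_true.mp W5_ok t ht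
    have hO := isAutN_ok hA
    rcases (Bool.or_eq_true _ _).mp hte with h1 | h1
    · refine ⟨pN t * h0, mul_mem (isAutN_mem hA) hh0, Or.inl ?_⟩
      apply hfinal _ zA (isAutN_mem hA) (by decide) hw_mZA (hWt t ht)
      rw [pN_idxPt hO hwlt, Nat.eq_of_beq_eq_true h1]
    · refine ⟨pN t * h0, mul_mem (isAutN_mem hA) hh0, Or.inr ?_⟩
      apply hfinal _ zB (isAutN_mem hA) (by decide) hw_mZB (hWt t ht)
      rw [pN_idxPt hO hwlt, Nat.eq_of_beq_eq_true h1]
  · have h1 := Nat.eq_of_beq_eq_true hc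
    refine ⟨1 * h0, mul_mem (one_mem _) hh0, Or.inl ?_⟩
    apply hfinal _ zA (one_mem _) (by decide) hw_mZA hid
    rw [h1]
    rfl
  · have h1 := Nat.eq_of_beq_eq_true hc
    refine ⟨1 * h0, mul_mem (one_mem _) hh0, Or.inr ?_⟩
    apply hfinal _ zB (one_mem _) (by decide) hw_mZB hid
    rw [h1]
    rfl

theorem mZA_in : ∃ o ∈ octads, supFin (mZ zA) ⊆ o := by
  rw [exists_octad_iff (by decide)]
  decide +kernel

theorem mZB_out : ¬ ∃ o ∈ octads, supFin (mZ zB) ⊆ o := by
  rw [exists_octad_iff (by decide)]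
  decide +kernel

/-- The transport of the octad condition. -/
theorem octad_iff {E F : Finset GolayPt} {h : Equiv.Perm GolayPt} (hh : h ∈ M24) (hE : h • E = F) :
    (∃ o ∈ octads, E ⊆ o) ↔ ∃ o ∈ octads, F ⊆ o := by
  subst hE
  constructor
  · rintro ⟨o, ho, hs⟩
    exact ⟨h • o, smul_mem_octads hh ho, Finset.smul_finset_subset_smul_finset hs⟩
  · rintro ⟨o, ho, hs⟩
    refine ⟨h⁻¹ • o, smul_mem_octads (inv_mem hh) ho, ?_⟩
    intro p hp
    have : h p ∈ o := hs (Finset.mem_smul_finset.mpr ⟨p, hp, rfl⟩)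
    exact Finset.mem_smul_finset.mpr ⟨h p, this, by simp⟩

theorem fix_conj {E F : Finset GolayPt} {h : Equiv.Perm GolayPt} (hE : h • E = F) (g : Equiv.Perm GolayPt) :
    (∀ p ∈ E, g p = p) ↔ ∀ p ∈ F, (h * g * h⁻¹) p = p := by
  subst hE
  constructor
  · intro hf p hp
    obtain ⟨q, hq, rfl⟩ := Finset.mem_smul_finset.mp hp
    simp [hf q hq]
  · intro hf p hp
    have := hf (h p) (Finset.mem_smul_finset.mpr ⟨p, hp, rfl⟩)
    simpa using this

theorem set_conj {E F : Finset GolayPt} {h : Equiv.Perm GolayPt} (hE : h • E = F) (g : Equiv.Perm GolayPt) :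
    g • E = E ↔ (h * g * h⁻¹) • F = F := by
  subst hE
  rw [← mul_smul]
  have : h * g * h⁻¹ * h = h * g := by group
  rw [this, mul_smul]
  constructor
  · intro h1
    rw [h1]
  · intro h1
    exact MulAction.injective h h1

/-- The statement on six-point sets. -/
theorem main5600 (E : Finset GolayPt) (hE : E.card = 6) :
    (∀ σ : Equiv.Perm ↥E, ∃ g ∈ M24, ∀ p : ↥E, g p = σ p) ∧
    ((∃ o ∈ octads, E ⊆ o) → Nat.card {g : Equiv.Perm GolayPt // g ∈ M24 ∧ ∀ p ∈ E, g p = p} = 16) ∧
    ((¬ ∃ o ∈ octads, E ⊆ o) → Nat.card {g : Equiv.Perm GolayPt // g ∈ M24 ∧ ∀ p ∈ E, g p = p} = 3 ∧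
      Nat.card ↥(MulAction.stabilizer M24 E) = 2160) := by
  obtain ⟨h, hh, hcase⟩ := reduce6 E hE
  rcases hcase with hA | hB
  · refine ⟨perm_realized hh hA swapA WA_ok, fun _ => ?_, fun hn => ?_⟩
    · rw [card_conj_eq hh _ (fun g => ∀ p ∈ supFin (mZ zA), g p = p) (fix_conj hA)]
      exact fixL_count _ _ fixA_base fixA_d fixA_l fixA_lt
    · exact absurd ((octad_iff hh hA).mpr mZA_in) hn
  · refine ⟨perm_realized hh hB swapB WB_ok, fun hn => ?_, fun _ => ?_⟩
    · exact absurd ((octad_iff hh hB).mp hn) mZB_out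
    · refine ⟨?_, ?_⟩
      · rw [card_conj_eq hh _ (fun g => ∀ p ∈ supFin (mZ zB), g p = p) (fix_conj hB)]
        exact fixL_count _ _ fixB_base fixB_d fixB_l fixB_lt
      · have h1 : Nat.card ↥(MulAction.stabilizer M24 E) =
            Nat.card {g : Equiv.Perm GolayPt // g ∈ M24 ∧ g • E = E} :=
          Nat.card_congr ⟨fun x => ⟨x.1.1, x.1.2, x.2⟩, fun y => ⟨⟨y.1, y.2.1⟩, y.2.2⟩, fun _ => rfl, fun _ => rfl⟩
        rw [h1, card_conj_eq hh _ (fun g => g • supFin (mZ zB) = supFin (mZ zB)) (set_conj hB)]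
        exact card_setB

end Cfsg.Agent.Lib.GolaySix
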