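import Mathlib
import Cfsg.Agent.Lib.GolayClass

/-!
# Subgroups of prime order of `M24`
-/

set_option autoImplicit false
set_option linter.style.haveILetI false
set_option linter.constructorNameAsVariable false

open scoped Pointwise

namespace Cfsg.Agent.Lib.GolaySub3

open Cfsg Cfsg.Agent.Lib.GolayCode Cfsg.Agent.Lib.GolayFacts Cfsg.Agent.Lib.GolayPerm
  Cfsg.Agent.Lib.GolayChain Cfsg.Agent.Lib.GolayTrans Cfsg.Agent.Lib.GolayDecomp
  Cfsg.Agent.Lib.GolayOrbit Cfsg.Agent.Lib.GolayFix Cfsg.Agent.Lib.GolayEnum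
  Cfsg.Agent.Lib.GolayClassData Cfsg.Agent.Lib.GolayClass

/-- A subgroup of prime order is generated by an element of that order. -/
theorem exists_gen {G : Type*} [Group G] {p : ℕ} [Fact p.Prime] (X : Subgroup G) (hX : Nat.card X = p) :
    ∃ x : G, X = Subgroup.zpowers x ∧ orderOf x = p := by
  haveI : IsCyclic X := isCyclic_of_prime_card hX
  haveI : Finite X := by
    apply Nat.finite_of_card_ne_zero
    rw [hX]
    exact (Fact.out : p.Prime).ne_zero
  obtain ⟨g, hg⟩ := IsCyclic.exists_generator (α := X)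
  refine ⟨(g : G), ?_, ?_⟩
  · ext y
    constructor
    · intro hy
      obtain ⟨n, hn⟩ := hg ⟨y, hy⟩
      refine ⟨n, ?_⟩
      have := congrArg Subtype.val hn
      simpa using this
    · rintro ⟨n, rfl⟩
      exact zpow_mem g.2 n
  · rw [Subgroup.orderOf_coe, orderOf_eq_card_of_forall_mem_zpowers hg, hX]

/-- The points fixed by a cyclic subgroup. -/
theorem fix_zpowers (x : ↥M24) :
    {p : GolayPt | ∀ y ∈ Subgroup.zpowers x, ((y : ↥M24) : Equiv.Perm GolayPt) p = p} =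
      ((fixF (x : Equiv.Perm GolayPt) : Finset GolayPt) : Set GolayPt) := by
  ext p
  simp only [Set.mem_ofPred_eq, Finset.mem_coe, mem_fixF]
  constructor
  · intro h
    exact h x (Subgroup.mem_zpowers x)
  · rintro h _ ⟨n, rfl⟩
    simp only [Subgroup.coe_zpow]
    exact Equiv.Perm.zpow_apply_eq_self_of_apply_eq_self h n

theorem ncard_fix_zpowers (x : ↥M24) :
    {p : GolayPt | ∀ y ∈ Subgroup.zpowers x, ((y : ↥M24) : Equiv.Perm GolayPt) p = p}.ncard =
      (fixF (x : Equiv.Perm GolayPt)).card := by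
  rw [fix_zpowers, Set.ncard_coe_finset]

/-- Conjugates of cyclic subgroups. -/
theorem conj_zpowers {G : Type*} [Group G] (k x : G) :
    MulAut.conj k • Subgroup.zpowers x = Subgroup.zpowers (k * x * k⁻¹) := by
  have key : ∀ n : ℤ, MulAut.conj k • (x ^ n) = (k * x * k⁻¹) ^ n := by
    intro n
    rw [MulAut.smul_def, map_zpow, MulAut.conj_apply]
  ext y
  rw [Subgroup.mem_smul_pointwise_iff_exists]
  constructor
  · rintro ⟨s, ⟨n, rfl⟩, rfl⟩
    exact ⟨n, (key n).symm⟩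
  · rintro ⟨n, rfl⟩
    exact ⟨x ^ n, ⟨n, rfl⟩, key n⟩

theorem rA_cube : compN rA (compN rA rA) = idN := by decide +kernel
theorem rB_cube : compN rB (compN rB rB) = idN := by decide +kernel
theorem fix_rA : fixN rA = 6 := by decide +kernel
theorem fix_rB : fixN rB = 0 := by decide +kernel

theorem order_of_pN {r : ℕ} (hr : Ok r) (h3 : compN r (compN r r) = idN) (hne : fixN r ≠ 24) : orderOf (pN r) = 3 := by
  haveI : Fact (Nat.Prime 3) := ⟨Nat.prime_three⟩
  apply orderOf_eq_prime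
  · have h1 : pN r * (pN r * pN r) = 1 := by
      rw [← pN_comp hr hr, ← pN_comp hr (hr.comp hr), h3, pN_idN]
    rw [pow_succ', pow_two]
    exact h1
  · intro h1
    apply hne
    rw [← card_fixF_pN hr, h1]
    decide

/-- The statement on subgroups of order `3`. -/
theorem main5601 :
    (∀ X : Subgroup ↥M24, Nat.card X = 3 →
      {p : GolayPt | ∀ x ∈ X, ((x : ↥M24) : Equiv.Perm GolayPt) p = p}.ncard = 6 ∨
      {p : GolayPt | ∀ x ∈ X, ((x : ↥M24) : Equiv.Perm GolayPt) p = p}.ncard = 0) ∧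
    (∃ X : Subgroup ↥M24, Nat.card X = 3 ∧ {p : GolayPt | ∀ x ∈ X, ((x : ↥M24) : Equiv.Perm GolayPt) p = p}.ncard = 6) ∧
    (∃ X : Subgroup ↥M24, Nat.card X = 3 ∧ {p : GolayPt | ∀ x ∈ X, ((x : ↥M24) : Equiv.Perm GolayPt) p = p}.ncard = 0) ∧
    ∀ X Y : Subgroup ↥M24, Nat.card X = 3 → Nat.card Y = 3 →
      {p : GolayPt | ∀ x ∈ X, ((x : ↥M24) : Equiv.Perm GolayPt) p = p}.ncard =
        {p : GolayPt | ∀ x ∈ Y, ((x : ↥M24) : Equiv.Perm GolayPt) p = p}.ncard →
      ∃ k : ↥M24, MulAut.conj k • X = Y := by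
  haveI : Fact (Nat.Prime 3) := ⟨Nat.prime_three⟩
  have hA : Ok rA := isAutN_ok rA_ok
  have hB : Ok rB := isAutN_ok rB_ok
  refine ⟨?_, ?_, ?_, ?_⟩
  · intro X hX
    obtain ⟨x, rfl, hx⟩ := exists_gen X hX
    rw [ncard_fix_zpowers]
    rcases ord3_conj x.2 (by rw [Subgroup.orderOf_coe, hx]) with ⟨h, -⟩ | ⟨h, -⟩
    · exact Or.inr h
    · exact Or.inl h
  · have ho : orderOf (⟨pN rA, isAutN_mem rA_ok⟩ : ↥M24) = 3 := by
      rw [← Subgroup.orderOf_coe]
      exact order_of_pN hA rA_cube (by rw [fix_rA]; norm_num)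
    refine ⟨Subgroup.zpowers ⟨pN rA, isAutN_mem rA_ok⟩, ?_, ?_⟩
    · rw [Nat.card_zpowers, ho]
    · rw [ncard_fix_zpowers]
      show (fixF (pN rA)).card = 6
      rw [card_fixF_pN hA, fix_rA]
  · have ho : orderOf (⟨pN rB, isAutN_mem rB_ok⟩ : ↥M24) = 3 := by
      rw [← Subgroup.orderOf_coe]
      exact order_of_pN hB rB_cube (by rw [fix_rB]; norm_num)
    refine ⟨Subgroup.zpowers ⟨pN rB, isAutN_mem rB_ok⟩, ?_, ?_⟩
    · rw [Nat.card_zpowers, ho]
    · rw [ncard_fix_zpowers]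
      show (fixF (pN rB)).card = 0
      rw [card_fixF_pN hB, fix_rB]
  · intro X Y hX hY hxy
    obtain ⟨x, rfl, hx⟩ := exists_gen X hX
    obtain ⟨y, rfl, hy⟩ := exists_gen Y hY
    rw [ncard_fix_zpowers, ncard_fix_zpowers] at hxy
    have key : ∀ (c d : Equiv.Perm GolayPt) (r : Equiv.Perm GolayPt), c ∈ M24 → d ∈ M24 →
        c * (x : Equiv.Perm GolayPt) * c⁻¹ = r → d * (y : Equiv.Perm GolayPt) * d⁻¹ = r →
        ∃ k : ↥M24, MulAut.conj k • Subgroup.zpowers x = Subgroup.zpowers y := by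
      intro c d r hc hd h1 h2
      refine ⟨⟨d⁻¹ * c, mul_mem (inv_mem hd) hc⟩, ?_⟩
      rw [conj_zpowers]
      congr 1
      apply Subtype.ext
      show d⁻¹ * c * (x : Equiv.Perm GolayPt) * (d⁻¹ * c)⁻¹ = y
      have : d⁻¹ * c * (x : Equiv.Perm GolayPt) * (d⁻¹ * c)⁻¹ = d⁻¹ * (c * (x : Equiv.Perm GolayPt) * c⁻¹) * d := by group
      rw [this, h1, ← h2]
      group
    rcases ord3_conj x.2 (by rw [Subgroup.orderOf_coe, hx]) with ⟨h0, c, hc, h1⟩ | ⟨h6, c, hc, h1⟩ <;>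
    rcases ord3_conj y.2 (by rw [Subgroup.orderOf_coe, hy]) with ⟨h0', d, hd, h2⟩ | ⟨h6', d, hd, h2⟩
    · exact key c d _ hc hd h1 h2
    · omega
    · omega
    · exact key c d _ hc hd h1 h2

end Cfsg.Agent.Lib.GolaySub3
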