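import Mathlib
import Cfsg.Agent.Lib.GolayCent
import Cfsg.Agent.Lib.GolaySub3

/-!
# Elements of order `7` of `M24`
-/

set_option autoImplicit false
set_option maxHeartbeats 1000000
set_option linter.style.haveILetI false
set_option linter.constructorNameAsVariable false

open scoped Pointwise

namespace Cfsg.Agent.Lib.GolaySub7

open Cfsg Cfsg.Agent.Lib.GolayCode Cfsg.Agent.Lib.GolayFacts Cfsg.Agent.Lib.GolayPerm
  Cfsg.Agent.Lib.GolayChain Cfsg.Agent.Lib.GolayTrans Cfsg.Agent.Lib.GolayDecomp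
  Cfsg.Agent.Lib.GolayOrbit Cfsg.Agent.Lib.GolayFix Cfsg.Agent.Lib.GolayEnum
  Cfsg.Agent.Lib.GolayClassData Cfsg.Agent.Lib.GolayClass Cfsg.Agent.Lib.GolayObjs
  Cfsg.Agent.Lib.GolayFam Cfsg.Agent.Lib.GolayCent

/-- The conjugating elements. -/
def cert7 : List ℕ := [0x10cc53ca8b05a74c255a4c4b1c5d7,0x10f47c02d3097692a6caa4a81c5d7,0x1173b49ca7dcf5a220d324ac88c41,0x11ed458acab94b4ca869c2e788c41,0x12d58284b395069bd346482d1c5d7,0x1a047d2f651532a9d8d9a1cb88c41,0x1ccd9b049215f682172550351c5d7,0x1db6a3ee44954899970ac9cc88c41,0x20eb248b04ba6dad8d4532ef88c41,0x2134b12ef6960764aaa599d388c41,0x224964c4d7949451ea68582b1c5d7,0x229099ca49056fab2c93284d1c5d7,0x24f254dd66dd688568f610a688c41,0x25706d02f608ea9da46410b51c5d7,0x25afaa8a643ac724e0c952eb88c41,0x28c84d5c485d926cdf45d8a788c41,0x2967240b34868cb3eb26a0461c5d7,0x2a149a4a793886b55ab43eec88c41,0x2d33ac8285088c81a9679cad1c5d7,0x2d8f91844495aaa54f3b40281c5d7,0x2dea836e9216d5930f444dc688c41,0x31243ccb05864a321b4a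bc561c5d7,0x317441c56516097ccd5234321c5d7,0x32896c2eab149342ccf955c788c41,0x35245c0b23ba887b15335af588c41,0x3672a24ab804957d987518481c5d7,0x36aa4d82498910650d23bcab1c5d7,0x3c893d0b35ba1569ad262ae888c41,0x3e53810a7a05286a8cbb30551c5d7,0x3eaca19d025d0bb1d49934b388c41,0x40d55b2f39150a23687b25cf88c41,0x4156634a8339f2a2d35392f388c41,0x41a623c52995953aa8942c361c5d7,0x42476adcf55e664b096ad0a888c41,0x426951036a8a4d5bce8350ac1c5d7,0x42a87a8ac686d3a116649c521c5d7,0x490a5d450a16cf49a676902c1c5d7,0x494f25af4815a65a26961dd588c41,0x4a8732c2c78a082552d54cb61c5d7,0x4e84aa5c865e165a8e66c8af88c41,0x4eb63a0548154d2324b7a4261c5d7,0x4ecd4aaf0a15ec3d64432dc888c41,0x5244b242a40a6f3b575640a61c5d7,0x526b79dcdb5e4c2192a440b588c41,0x58cfa343038984426ab9a8b21c5d7,0x58eb4d0b220606535137d44c1c5d7,0x5995221c9a5cd37c9b03a8ab88c41,0x5a90910ab9b92c521e7ab6e688c41]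

/-- The inverse of `r7`. -/
def r7i : ℕ := pows7.getD 5 0

/-- Elements of order `7` of a coset. -/
def inv7 : List ℕ :=
  (enumL (keepV (V4 1 2 3 4))).filter fun e =>
    Nat.beq (compN e (compN e (compN e (compN e (compN e (compN e e)))))) idN

theorem chk7 : inv7.all (fun e => cert7.any fun c => commN c e r7 || commN c e r7i) = true := by
  decide +kernel

theorem cert7_ok : cert7.all isAutN = true := by decide +kernel
theorem r7_ok : isAutN r7 = true := by decide +kernel
theorem r7i_ok : isAutN r7i = true := by decide +kernel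

/-- The powers are right. -/
theorem pows_chk : (pows7.getD 0 0 == r7 && pows7.getD 1 0 == compN r7 (pows7.getD 0 0) &&
    pows7.getD 2 0 == compN r7 (pows7.getD 1 0) && pows7.getD 3 0 == compN r7 (pows7.getD 2 0) &&
    pows7.getD 4 0 == compN r7 (pows7.getD 3 0) && pows7.getD 5 0 == compN r7 (pows7.getD 4 0) &&
    idN == compN r7 (pows7.getD 5 0)) = true := by decide +kernel

theorem pows_ok : pows7.all isAutN = true := by decide +kernel

theorem pow_pN : ∀ i < 6, pN (pows7.getD i 0) = pN r7 ^ (i + 1) := by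
  have hr : Ok r7 := isAutN_ok r7_ok
  have hall : ∀ i < 6, Ok (pows7.getD i 0) := by
    intro i hi
    apply isAutN_ok
    apply List.all_eq_true.mp pows_ok
    interval_cases i <;> simp [pows7]
  have h := pows_chk
  simp only [Bool.and_eq_true, beq_iff_eq] at h
  obtain ⟨⟨⟨⟨⟨⟨h0, h1⟩, h2⟩, h3⟩, h4⟩, h5⟩, -⟩ := h
  intro i hi
  induction i with
  | zero => rw [h0, zero_add, pow_one]
  | succ i ih =>
    have h6 := ih (by omega)
    have hi' : i < 5 := by omega
    have h7 : pows7.getD (i + 1) 0 = compN r7 (pows7.getD i 0) := by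
      interval_cases i
      · exact h1
      · exact h2
      · exact h3
      · exact h4
      · exact h5
    rw [h7, pN_comp hr (hall i (by omega)), h6, pow_succ' (pN r7) (i + 1)]

theorem pN_r7_pow7 : pN r7 ^ 7 = 1 := by
  have hr : Ok r7 := isAutN_ok r7_ok
  have h := pows_chk
  simp only [Bool.and_eq_true, beq_iff_eq] at h
  have h1 := h.2
  have h2 := pow_pN 5 (by norm_num)
  have h3 : Ok (pows7.getD 5 0) := by
    apply isAutN_ok
    apply List.all_eq_true.mp pows_ok
    simp [pows7]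
  have h4 : pN r7 * pN (pows7.getD 5 0) = 1 := by
    rw [← pN_comp hr h3, ← h1, pN_idN]
  rw [h2] at h4
  rw [← h4, pow_succ']

/-- Elements of order `7` of `M24` up to conjugation and inverse. -/
theorem ord7_conj {g : Equiv.Perm GolayPt} (hg : g ∈ M24) (h7 : orderOf g = 7) :
    ∃ c ∈ M24, c * g * c⁻¹ = pN r7 ∨ c * g⁻¹ * c⁻¹ = pN r7 := by
  classical
  haveI : Fact (Nat.Prime 7) := ⟨by norm_num⟩
  have hpow : g ^ 7 = 1 := by
    rw [← h7]
    exact pow_orderOf_eq_one g
  -- a moved point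
  have hne : g ≠ 1 := ne_one_of_order h7
  obtain ⟨p, hp⟩ : ∃ p, g p ≠ p := by
    by_contra hc
    push Not at hc
    exact hne (Equiv.ext hc)
  -- the points of the orbit are different
  have hdist : ∀ i j : ℕ, i < j → j < 7 → (g ^ i) p ≠ (g ^ j) p := by
    intro i j hij hj he
    have h1 : (g ^ (j - i)) p = p := by
      have : g ^ j = g ^ i * g ^ (j - i) := by
        rw [← pow_add]
        congr 1
        omega
      rw [this, Equiv.Perm.mul_apply] at he
      exact (((g ^ i).injective he)).symm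
    have h2 : (g ^ (j - i)) ≠ 1 := by
      intro h3
      have := orderOf_dvd_of_pow_eq_one h3
      rw [h7] at this
      have := Nat.le_of_dvd (by omega) this
      omega
    -- the cyclic group acts freely on the orbit of `p`
    apply hp
    obtain ⟨m, hm⟩ : ∃ m, (j - i) * m % 7 = 1 := by
      have hji : j - i = 1 ∨ j - i = 2 ∨ j - i = 3 ∨ j - i = 4 ∨ j - i = 5 ∨ j - i = 6 := by omega
      rcases hji with h | h | h | h | h | h <;> rw [h]
      · exact ⟨1, rfl⟩
      · exact ⟨4, rfl⟩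
      · exact ⟨5, rfl⟩
      · exact ⟨2, rfl⟩
      · exact ⟨3, rfl⟩
      · exact ⟨6, rfl⟩
    have h4 : g = (g ^ (j - i)) ^ m := by
      rw [← pow_mul]
      rw [← pow_mod_orderOf g ((j - i) * m), h7, hm, pow_one]
    rw [h4]
    exact Equiv.Perm.pow_apply_eq_self_of_apply_eq_self h1 m
  have hpw : ∀ i, (g ^ (i + 1)) p = g ((g ^ i) p) := fun i => by
    rw [pow_succ', Equiv.Perm.mul_apply]
  obtain ⟨h, hh, b0, b1, b2, b3, b4⟩ := exists_conj5 (x0 := (g ^ 0) p) (x1 := (g ^ 1) p) (x2 := (g ^ 2) p)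
    (x3 := (g ^ 3) p) (x4 := (g ^ 4) p)
    (hdist _ _ (by norm_num) (by norm_num)) (hdist _ _ (by norm_num) (by norm_num))
    (hdist _ _ (by norm_num) (by norm_num)) (hdist _ _ (by norm_num) (by norm_num))
    (hdist _ _ (by norm_num) (by norm_num)) (hdist _ _ (by norm_num) (by norm_num))
    (hdist _ _ (by norm_num) (by norm_num)) (hdist _ _ (by norm_num) (by norm_num))
    (hdist _ _ (by norm_num) (by norm_num)) (hdist _ _ (by norm_num) (by norm_num))
  have hV := vals_of4 (y := h * g * h⁻¹) (a0 := 1) (a1 := 2) (a2 := 3) (a3 := 4) (by norm_num) (by norm_num) (by norm_num) (by norm_num)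
    (by rw [conj_apply b0, ← hpw, b1]) (by rw [conj_apply b1, ← hpw, b2])
    (by rw [conj_apply b2, ← hpw, b3]) (by rw [conj_apply b3, ← hpw, b4])
  obtain ⟨e, he, hy⟩ := exists_in_enum (conj_mem hh hg) hV
  obtain ⟨hok, hem⟩ := enum_sound he
  have h7' : Nat.beq (compN e (compN e (compN e (compN e (compN e (compN e e)))))) idN = true := by
    have hp' : pN (compN e (compN e (compN e (compN e (compN e (compN e e)))))) = pN idN := by
      have h1 := hok.comp hok
      have h2 := hok.comp h1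
      have h3 := hok.comp h2
      have h4 := hok.comp h3
      have h5 := hok.comp h4
      rw [pN_comp hok h5, pN_comp hok h4, pN_comp hok h3, pN_comp hok h2, pN_comp hok h1, pN_comp hok hok, pN_idN, ← hy]
      have : h * g * h⁻¹ * (h * g * h⁻¹ * (h * g * h⁻¹ * (h * g * h⁻¹ * (h * g * h⁻¹ * (h * g * h⁻¹ * (h * g * h⁻¹)))))) =
          h * g ^ 7 * h⁻¹ := by
        rw [← conj_pow]
        simp only [pow_succ, pow_zero, one_mul, mul_assoc]
      rw [this, hpow]
      group
    have h1 := hok.comp hok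
    have h2 := hok.comp h1
    have h3 := hok.comp h2
    have h4 := hok.comp h3
    have h5 := hok.comp h4
    have h6 := hok.comp h5
    have := pN_inj h6 ok_idN (compN_lt _ _) idN_lt hp'
    rw [this]
    exact Nat.beq_refl _
  have hmem : e ∈ inv7 := List.mem_filter.mpr ⟨he, h7'⟩
  obtain ⟨c, hc, hce⟩ := List.any_eq_true.mp (List.all_eq_true.mp chk7 e hmem)
  have hcA := List.all_eq_true.mp cert7_ok c hc
  have hcO := isAutN_ok hcA
  refine ⟨pN c * h, mul_mem (isAutN_mem hcA) hh, ?_⟩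
  have hconj : pN c * h * g * (pN c * h)⁻¹ = pN c * pN e * (pN c)⁻¹ := by
    rw [← hy]
    group
  rcases (Bool.or_eq_true _ _).mp hce with h1 | h1
  · left
    rw [hconj, comm_of_commN hcO hok (isAutN_ok r7_ok) h1]
    group
  · right
    have h2 := comm_of_commN hcO hok (isAutN_ok r7i_ok) h1
    have h3 : pN c * h * g⁻¹ * (pN c * h)⁻¹ = (pN c * h * g * (pN c * h)⁻¹)⁻¹ := by group
    rw [h3, hconj, h2]
    have h4 : pN r7i * pN c * (pN c)⁻¹ = pN r7i := by group
    rw [h4]
    have h5 := pow_pN 5 (by norm_num)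
    have h6 : pN r7i * pN r7 = 1 := by
      show pN (pows7.getD 5 0) * pN r7 = 1
      rw [h5, ← pow_succ, pN_r7_pow7]
    exact inv_eq_of_mul_eq_one_right h6


/-! ### The normalizer and the centralizer -/

/-- The elements normalizing. -/
def LN : List ℕ := pows7.flatMap fun y => cosetC r7 y pats7

theorem chk7N : forceL LN (fun L => Nat.beq L.length 126 && distinctL L && L.all (fun c => Nat.blt c (32 ^ 24)) &&
    L.all (fun c => chkL c T0L)) = true := by decide +kernel

theorem chk7C : forceL (cosetC r7 r7 pats7) (fun L => Nat.beq L.length 42 && distinctL L &&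
    L.all (fun c => Nat.blt c (32 ^ 24))) = true := by decide +kernel

theorem chk7W : (isAutN a7 && isAutN b7 && commN a7 r7 r7 && commN b7 r7 r7 &&
    !(Nat.beq (compN a7 b7) (compN b7 a7))) = true := by decide +kernel

theorem pats7_ok : pows7.all (fun _ => patOK r7 pats7) = true := by decide +kernel

theorem pats7_ok' : patOK r7 pats7 = true := by decide +kernel

theorem T0L_ok : (trioB T0L && goodL T0L) = true := by decide +kernel

theorem ok_r7 : Ok r7 := isAutN_ok r7_ok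

theorem ok_pows {y : ℕ} (hy : y ∈ pows7) : Ok y := isAutN_ok (List.all_eq_true.mp pows_ok y hy)

theorem pows_of_zpow (n : ℤ) (hn : pN r7 ^ n ≠ 1) : ∃ y ∈ pows7, pN r7 ^ n = pN y := by
  have h7 : pN r7 ^ (7 : ℤ) = 1 := by
    have := pN_r7_pow7
    rw [← zpow_natCast] at this
    exact this
  have h1 := zpow_eq_zpow_emod n h7
  obtain ⟨k, hk⟩ := Int.eq_ofNat_of_zero_le (Int.emod_nonneg n (by norm_num : (7 : ℤ) ≠ 0))
  have hk7 : k < 7 := by
    have := Int.emod_lt_of_pos n (by norm_num : (0 : ℤ) < 7)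
    omega
  rw [hk, zpow_natCast] at h1
  rw [h1] at hn ⊢
  cases k with
  | zero => exact absurd (pow_zero _) hn
  | succ k =>
    have hk6 : k < 6 := by omega
    refine ⟨pows7.getD k 0, ?_, (pow_pN k hk6).symm⟩
    interval_cases k <;> simp [pows7]

theorem zpow_of_pows {y : ℕ} (hy : y ∈ pows7) : ∃ n : ℕ, pN y = pN r7 ^ n := by
  have h : ∃ k < 6, y = pows7.getD k 0 := by
    simp only [pows7, List.mem_cons, List.not_mem_nil, or_false] at hy
    rcases hy with rfl | rfl | rfl | rfl | rfl | rfl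
    · exact ⟨0, by norm_num, rfl⟩
    · exact ⟨1, by norm_num, rfl⟩
    · exact ⟨2, by norm_num, rfl⟩
    · exact ⟨3, by norm_num, rfl⟩
    · exact ⟨4, by norm_num, rfl⟩
    · exact ⟨5, by norm_num, rfl⟩
  obtain ⟨k, hk, rfl⟩ := h
  exact ⟨k + 1, pow_pN k hk⟩

/-- The normalizer of a cyclic group of finite order. -/
theorem mem_normalizer_zpowers {G : Type*} [Group G] [Finite G] {s g : G} :
    g ∈ Subgroup.normalizer ((Subgroup.zpowers s : Subgroup G) : Set G) ↔ g * s * g⁻¹ ∈ Subgroup.zpowers s := by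
  rw [Subgroup.mem_normalizer_iff]
  constructor
  · intro h
    exact (h s).mp (Subgroup.mem_zpowers s)
  · intro h
    have hf : ∀ u ∈ Subgroup.zpowers s, g * u * g⁻¹ ∈ Subgroup.zpowers s := by
      rintro u ⟨n, rfl⟩
      have : g * s ^ n * g⁻¹ = (g * s * g⁻¹) ^ n := by
        rw [conj_zpow]
      rw [this]
      exact zpow_mem h n
    intro u
    refine ⟨hf u, fun hu => ?_⟩
    let φ : Subgroup.zpowers s → Subgroup.zpowers s := fun v => ⟨g * v.1 * g⁻¹, hf v.1 v.2⟩
    have hφ : Function.Injective φ := by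
      intro a b hab
      apply Subtype.ext
      have := congrArg Subtype.val hab
      simpa [φ] using this
    obtain ⟨a, ha⟩ := (Finite.injective_iff_surjective.mp hφ) ⟨_, hu⟩
    have h2 : g * a.1 * g⁻¹ = g * u * g⁻¹ := congrArg Subtype.val ha
    have h3 : a.1 = u := by simpa using h2
    rw [← h3]
    exact a.2

theorem mem_centralizer_zpowers {G : Type*} [Group G] {s g : G} :
    g ∈ Subgroup.centralizer ((Subgroup.zpowers s : Subgroup G) : Set G) ↔ g * s = s * g := by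
  rw [Subgroup.mem_centralizer_iff]
  constructor
  · intro h
    exact (h s (Subgroup.mem_zpowers s)).symm
  · rintro h _ ⟨n, rfl⟩
    have : Commute g s := h
    exact (this.zpow_right n).eq.symm

theorem mem_LN {e : ℕ} : e ∈ LN ↔ ∃ y ∈ pows7, e ∈ cosetC r7 y pats7 := by
  simp only [LN, List.mem_flatMap]

attribute [local irreducible] LN cosetC

/-- The statement on subgroups of order `7`. -/
theorem main5604 (S : Subgroup ↥M24) (hS : Nat.card S = 7) :
    Nat.card ↥(Subgroup.normalizer (S : Set ↥M24)) = 126 ∧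
    Nat.card ↥(Subgroup.centralizer (S : Set ↥M24)) = 42 ∧
    (∃ x ∈ Subgroup.centralizer (S : Set ↥M24), ∃ y ∈ Subgroup.centralizer (S : Set ↥M24), x * y ≠ y * x) ∧
    ∃ T ∈ trios, ∀ n ∈ Subgroup.normalizer (S : Set ↥M24),
      ((n : ↥M24) : Equiv.Perm GolayPt) • T = T := by
  classical
  haveI : Fact (Nat.Prime 7) := ⟨by norm_num⟩
  obtain ⟨x, rfl, hx⟩ := Cfsg.Agent.Lib.GolaySub3.exists_gen S hS
  -- a generator conjugate to `r7`
  obtain ⟨s, hzs, hso, c, hc, hcs⟩ : ∃ s : ↥M24, Subgroup.zpowers x = Subgroup.zpowers s ∧ orderOf s = 7 ∧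
      ∃ c ∈ M24, c * (s : Equiv.Perm GolayPt) * c⁻¹ = pN r7 := by
    obtain ⟨c, hc, h⟩ := ord7_conj x.2 (by rw [Subgroup.orderOf_coe, hx])
    rcases h with h | h
    · exact ⟨x, rfl, hx, c, hc, h⟩
    · exact ⟨x⁻¹, Subgroup.zpowers_inv.symm, by rw [orderOf_inv, hx], c, hc, h⟩
  rw [hzs]
  set sP : Equiv.Perm GolayPt := (s : Equiv.Perm GolayPt) with hsP
  set r := pN r7 with hr
  have hcomm : ∀ g : Equiv.Perm GolayPt, g * sP = sP * g ↔ (c * g * c⁻¹) * r = r * (c * g * c⁻¹) := by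
    intro g
    rw [← hcs, conj_comm_iff]
  -- the normalizer
  have hN : ∀ g : ↥M24, g ∈ Subgroup.normalizer ((Subgroup.zpowers s : Subgroup ↥M24) : Set ↥M24) ↔
      ∃ y ∈ pows7, (c * (g : Equiv.Perm GolayPt) * c⁻¹) * r = pN y * (c * (g : Equiv.Perm GolayPt) * c⁻¹) := by
    intro g
    rw [mem_normalizer_zpowers]
    set gP : Equiv.Perm GolayPt := (g : Equiv.Perm GolayPt) with hgP
    have hconj : ∀ n : ℤ, c * (sP ^ n) * c⁻¹ = r ^ n := by
      intro n
      rw [← hcs, conj_zpow]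
    have hgc : (c * gP * c⁻¹) * r * (c * gP * c⁻¹)⁻¹ = c * (gP * sP * gP⁻¹) * c⁻¹ := by
      rw [← hcs]
      group
    constructor
    · rintro ⟨n, hn⟩
      have h1 : sP ^ n = gP * sP * gP⁻¹ := by
        have := congrArg Subtype.val hn
        simpa using this
      have h2 : r ^ n ≠ 1 := by
        rw [← hconj n, h1]
        intro h3
        have h4 : gP * sP * gP⁻¹ = 1 := by
          have : gP * sP * gP⁻¹ = c⁻¹ * (c * (gP * sP * gP⁻¹) * c⁻¹) * c := by group
          rw [this, h3]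
          group
        have h5 : sP = 1 := by
          have : sP = gP⁻¹ * (gP * sP * gP⁻¹) * gP := by group
          rw [this, h4]
          group
        have h6 : s = 1 := Subtype.ext h5
        rw [h6, orderOf_one] at hso
        omega
      obtain ⟨y, hy, hye⟩ := pows_of_zpow n h2
      refine ⟨y, hy, ?_⟩
      have h3 : (c * gP * c⁻¹) * r * (c * gP * c⁻¹)⁻¹ = pN y := by
        rw [hgc, ← h1, hconj, hye]
      rw [← h3]
      group
    · rintro ⟨y, hy, hye⟩
      obtain ⟨n, hn⟩ := zpow_of_pows hy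
      refine ⟨(n : ℤ), ?_⟩
      apply Subtype.ext
      show (s ^ (n : ℤ) : ↥M24).1 = gP * sP * gP⁻¹
      have h1 : (c * gP * c⁻¹) * r * (c * gP * c⁻¹)⁻¹ = r ^ (n : ℤ) := by
        have hrr : pN r7 = r := rfl
        rw [hye, hn, zpow_natCast, hrr]
        group
      rw [hgc, ← hconj] at h1
      have h2 : gP * sP * gP⁻¹ = sP ^ (n : ℤ) := by
        have := mul_left_cancel (mul_right_cancel h1)
        exact this
      rw [h2]
      simp [hsP]
  have hokr := ok_r7
  have hN' := chk7N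
  rw [forceL_eq] at hN'
  simp only [Bool.and_eq_true, List.all_eq_true] at hN'
  obtain ⟨⟨⟨hN1, hN2⟩, hN3⟩, hN4⟩ := hN'
  have hC' := chk7C
  rw [forceL_eq] at hC'
  simp only [Bool.and_eq_true, List.all_eq_true] at hC'
  obtain ⟨⟨hC1, hC2⟩, hC3⟩ := hC'
  have hT0 : objOf T0L ∈ trios := by
    have h := T0L_ok
    simp only [Bool.and_eq_true] at h
    exact objOf_mem_trios h.1 h.2
  have hT0g : goodL T0L = true := by
    have h := T0L_ok
    simp only [Bool.and_eq_true] at h
    exact h.2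
  have hLN : ∀ g ∈ M24, (∃ y ∈ pows7, g * r = pN y * g) → ∃ e ∈ LN, g = pN e := by
    rintro g hg ⟨y, hy, hye⟩
    obtain ⟨e, he, rfl⟩ := mem_cosetC hokr (ok_pows hy) pats7_ok' hg hye
    exact ⟨e, mem_LN.mpr ⟨y, hy, he⟩, rfl⟩
  have hLNs : ∀ e ∈ LN, Ok e ∧ pN e ∈ M24 ∧ ∃ y ∈ pows7, pN e * r = pN y * pN e := by
    intro e he
    obtain ⟨y, hy, he'⟩ := mem_LN.mp he
    obtain ⟨h1, h2, h3⟩ := cosetC_sound hokr (ok_pows hy) he'
    exact ⟨h1, h2, y, hy, h3⟩
  have hW := chk7W
  simp only [Bool.and_eq_true, Bool.not_eq_true'] at hW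
  obtain ⟨⟨⟨⟨ha, hb⟩, hca⟩, hcb⟩, hne⟩ := hW
  refine ⟨?_, ?_, ?_, ?_⟩
  · have h1 : Nat.card ↥(Subgroup.normalizer ((Subgroup.zpowers s : Subgroup ↥M24) : Set ↥M24)) =
        Nat.card {g : Equiv.Perm GolayPt // g ∈ M24 ∧ ∃ y ∈ pows7, (c * g * c⁻¹) * r = pN y * (c * g * c⁻¹)} :=
      Nat.card_congr ⟨fun g => ⟨g.1.1, g.1.2, (hN g.1).mp g.2⟩, fun g => ⟨⟨g.1, g.2.1⟩, (hN ⟨g.1, g.2.1⟩).mpr g.2.2⟩,
        fun _ => rfl, fun _ => rfl⟩
    rw [h1, card_conj_eq hc _ (fun g => ∃ y ∈ pows7, g * r = pN y * g) (fun g => Iff.rfl)]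
    rw [card_of_list (L := LN) hLNs hLN (nodup_of_distinctL hN2) ?_]
    · exact Nat.eq_of_beq_eq_true hN1
    · intro e he
      simpa using Nat.blt_eq.mp (hN3 e he)
  · have h1 : Nat.card ↥(Subgroup.centralizer ((Subgroup.zpowers s : Subgroup ↥M24) : Set ↥M24)) =
        Nat.card {g : Equiv.Perm GolayPt // g ∈ M24 ∧ g * sP = sP * g} :=
      Nat.card_congr ⟨fun g => ⟨g.1.1, g.1.2, congrArg Subtype.val (mem_centralizer_zpowers.mp g.2)⟩,
        fun g => ⟨⟨g.1, g.2.1⟩, mem_centralizer_zpowers.mpr (Subtype.ext g.2.2)⟩, fun _ => rfl, fun _ => rfl⟩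
    rw [h1, card_conj_eq hc _ (fun g => g * r = r * g) hcomm]
    rw [card_of_list (L := cosetC r7 r7 pats7) ?_ ?_ (nodup_of_distinctL hC2) ?_]
    · exact Nat.eq_of_beq_eq_true hC1
    · intro e he
      exact cosetC_sound hokr hokr he
    · intro g hg hge
      exact mem_cosetC hokr hokr pats7_ok' hg hge
    · intro e he
      simpa using Nat.blt_eq.mp (hC3 e he)
  · have hmemC : ∀ a : ℕ, isAutN a = true → c⁻¹ * pN a * c ∈ M24 := by
      intro a ha
      have := conj_mem (inv_mem hc) (isAutN_mem ha)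
      simpa using this
    have key : ∀ (a : ℕ) (ha : isAutN a = true), commN a r7 r7 = true →
        (⟨c⁻¹ * pN a * c, hmemC a ha⟩ : ↥M24) ∈ Subgroup.centralizer ((Subgroup.zpowers s : Subgroup ↥M24) : Set ↥M24) := by
      intro a ha hca
      rw [mem_centralizer_zpowers]
      apply Subtype.ext
      show c⁻¹ * pN a * c * sP = sP * (c⁻¹ * pN a * c)
      rw [hcomm]
      have h1 : c * (c⁻¹ * pN a * c) * c⁻¹ = pN a := by group
      rw [h1]
      exact comm_of_commN (isAutN_ok ha) hokr hokr hca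
    refine ⟨_, key a7 ha hca, _, key b7 hb hcb, ?_⟩
    intro he
    have h1 : c⁻¹ * pN a7 * c * (c⁻¹ * pN b7 * c) = c⁻¹ * pN b7 * c * (c⁻¹ * pN a7 * c) := congrArg Subtype.val he
    have h2 : pN a7 * pN b7 = pN b7 * pN a7 := by
      have h3 : c⁻¹ * pN a7 * c * (c⁻¹ * pN b7 * c) = c⁻¹ * (pN a7 * pN b7) * c := by group
      have h4 : c⁻¹ * pN b7 * c * (c⁻¹ * pN a7 * c) = c⁻¹ * (pN b7 * pN a7) * c := by group
      rw [h3, h4] at h1
      exact mul_left_cancel (mul_right_cancel h1)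
    have hoa := isAutN_ok ha
    have hob := isAutN_ok hb
    rw [← pN_comp hoa hob, ← pN_comp hob hoa] at h2
    have h3 := pN_inj (hoa.comp hob) (hob.comp hoa) (compN_lt _ _) (compN_lt _ _) h2
    rw [h3] at hne
    simp at hne
  · refine ⟨c⁻¹ • objOf T0L, smul_mem_trios (inv_mem hc) hT0, ?_⟩
    intro n hn
    obtain ⟨e, he, hee⟩ := hLN _ (conj_mem hc n.2) ((hN n).mp hn)
    obtain ⟨h1, -, -⟩ := hLNs e he
    have h2 := (fixed_objOf_iff h1 hT0g).mpr (hN4 e he)
    rw [← hee] at h2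
    have h3 : (n : Equiv.Perm GolayPt) • c⁻¹ • objOf T0L = c⁻¹ • (c * (n : Equiv.Perm GolayPt) * c⁻¹) • objOf T0L := by
      have h4 : (n : Equiv.Perm GolayPt) * c⁻¹ = c⁻¹ * (c * (n : Equiv.Perm GolayPt) * c⁻¹) := by group
      rw [smul_smul, smul_smul, h4]
    rw [h3, h2]

end Cfsg.Agent.Lib.GolaySub7
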