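import Mathlib
import Cfsg.Prelude.Def_Sporadic_a
import Cfsg.Prelude.Def_SporadicCombinatorics
import Cfsg.Agent.Lib.GolayOctStab2
import Cfsg.Agent.Lib.GolayFamBase
import Cfsg.Agent.Lib.GolayTr15Data

/-!
# The fifteen trios through an octad
-/

set_option autoImplicit false
set_option linter.style.haveILetI false
set_option linter.constructorNameAsVariable false
set_option maxRecDepth 100000

open scoped Pointwise

namespace Cfsg.Agent.Lib.GolayOctStab

open Cfsg Cfsg.Agent.Lib.GolayCode Cfsg.Agent.Lib.GolayFacts Cfsg.Agent.Lib.GolayPerm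
  Cfsg.Agent.Lib.GolayChain Cfsg.Agent.Lib.GolayTrans Cfsg.Agent.Lib.GolayOrbit
  Cfsg.Agent.Lib.GolayKit Cfsg.Agent.Lib.GolayM12 Cfsg.Agent.Lib.GolayFast
  Cfsg.Agent.Lib.GolayFastData Cfsg.Agent.Lib.GolaySets Cfsg.Agent.Lib.GolayMax Cfsg.Agent.Lib.GolayOrbits
  Cfsg.Agent.Lib.GolayOctad Cfsg.Agent.Lib.GolayFam Cfsg.Agent.Lib.GolayFamGens Cfsg.Agent.Lib.GolayTr15Data

/-- The trios through `octad0`, as lists. -/
def T15 : List (List ℕ) := trioList.filter fun l => l.contains octad0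

theorem T15_length : T15.length = 15 := by decide +kernel

theorem T15_all {l : List ℕ} (hl : l ∈ T15) : trioB l = true ∧ goodL l = true ∧ octad0 ∈ l := by
  obtain ⟨h1, h2⟩ := List.mem_filter.mp hl
  obtain ⟨h3, h4⟩ := trioList_all h1
  exact ⟨h3, h4, by simpa using h2⟩

theorem oct0_mem_iff {l : List ℕ} (hg : goodL l = true) : supFin octad0 ∈ objOf l ↔ octad0 ∈ l := by
  rw [mem_objOf]
  constructor
  · rintro ⟨m, hm, he⟩
    have h1 : m = octad0 := supFin_injOn (goodL_lt hg hm) (by decide +kernel) he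
    exact h1 ▸ hm
  · intro h
    exact ⟨_, h, rfl⟩

/-- A trio through `octad0` comes from `T15`. -/
theorem exists_mem_T15 {T : Finset (Finset GolayPt)} (hT : T ∈ trios) (h0 : supFin octad0 ∈ T) :
    ∃ l ∈ T15, T = objOf l := by
  obtain ⟨l, hl, rfl⟩ := exists_mem_trioList hT
  refine ⟨l, List.mem_filter.mpr ⟨hl, ?_⟩, rfl⟩
  have := (oct0_mem_iff (trioList_all hl).2).mp h0
  simpa using this

theorem T15_nodup : T15.Nodup := List.Nodup.filter _ trioList_nodup

theorem ncard_T15 : {T : Finset (Finset GolayPt) | T ∈ trios ∧ supFin octad0 ∈ T}.ncard = 15 := by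
  classical
  have h1 : {T : Finset (Finset GolayPt) | T ∈ trios ∧ supFin octad0 ∈ T} =
      ((T15.map objOf).toFinset : Set (Finset (Finset GolayPt))) := by
    ext T
    simp only [Set.mem_setOf_eq, Finset.mem_coe, List.mem_toFinset, List.mem_map]
    constructor
    · rintro ⟨hT, h0⟩
      obtain ⟨l, hl, rfl⟩ := exists_mem_T15 hT h0
      exact ⟨l, hl, rfl⟩
    · rintro ⟨l, hl, rfl⟩
      obtain ⟨h2, h3, h4⟩ := T15_all hl
      exact ⟨objOf_mem_trios h2 h3, (oct0_mem_iff h3).mpr h4⟩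
  rw [h1, Set.ncard_coe_finset, List.toFinset_card_of_nodup, List.length_map, T15_length]
  refine List.Nodup.map_on ?_ T15_nodup
  intro a ha b hb hab
  exact eq_of_objOf_eq (T15_all ha).2.1 (T15_all hb).2.1 hab

/-- Pairs of families. -/
def semP (l : List ℕ) : Finset (Finset GolayPt) × Finset (Finset GolayPt) := (objOf (l.take 3), objOf (l.drop 3))

def sameP (a b : List ℕ) : Bool := sameObj (a.take 3) (b.take 3) && sameObj (a.drop 3) (b.drop 3)

theorem semP_smul (π l : List ℕ) (hv : validPerm π = true) (hr : inRange π = true) :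
    toPerm π • semP l = semP (l.map (permMask π)) := by
  simp only [semP, Prod.smul_mk, smul_objOf hv hr, List.map_take, List.map_drop]

theorem semP_same (a b : List ℕ) (h : sameP a b = true) : semP a = semP b := by
  simp only [sameP, Bool.and_eq_true] at h
  simp only [semP, objOf_eq_of_same h.1, objOf_eq_of_same h.2]

theorem pairRows_chk : pairRows.all (rowChk sameP gensO (pairRows.headD ([], 0, 0, 0)).1 pairRows) = true := by
  decide +kernel

theorem pairRows_cover : T15.all (fun a => T15.all fun b => a == b || pairRows.any fun r => r.1 == a ++ b) = true := by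
  decide +kernel

/-- Ordered pairs of distinct trios through `octad0` form one orbit. -/
theorem pair_orbit {a b : List ℕ} (ha : a ∈ T15) (hb : b ∈ T15) (hab : a ≠ b) :
    (objOf a, objOf b) ∈ orbS (stabZ (supFin octad0)) (semP (pairRows.headD ([], 0, 0, 0)).1) := by
  have h1 := List.all_eq_true.mp (List.all_eq_true.mp pairRows_cover a ha) b hb
  have hne : (a == b) = false := by simpa using hab
  rw [hne, Bool.false_or, List.any_eq_true] at h1
  obtain ⟨r, hr, hre⟩ := h1
  have h2 := reach (sem := semP) semP_smul semP_same gensO_ok' pairRows_chk _ r hr rfl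
  have h3 : r.1 = a ++ b := by simpa using hre
  rw [h3] at h2
  have hal : a.length = 3 := by
    have := (T15_all ha).1
    simp only [trioB, Bool.and_eq_true, beq_iff_eq] at this
    exact this.1.1
  have h4 : semP (a ++ b) = (objOf a, objOf b) := by
    have e1 : (a ++ b).take 3 = a := by
      rw [← hal]
      exact List.take_left
    have e2 : (a ++ b).drop 3 = b := by
      rw [← hal]
      exact List.drop_left
    simp only [semP, e1, e2]
  rwa [h4] at h2

/-- Two-transitivity at `octad0`. -/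
theorem two_trans_octad0 {T₁ T₂ T₁' T₂' : Finset (Finset GolayPt)} (h1 : T₁ ∈ trios) (h2 : T₂ ∈ trios)
    (h1' : T₁' ∈ trios) (h2' : T₂' ∈ trios) (m1 : supFin octad0 ∈ T₁) (m2 : supFin octad0 ∈ T₂)
    (m1' : supFin octad0 ∈ T₁') (m2' : supFin octad0 ∈ T₂') (ne : T₁ ≠ T₂) (ne' : T₁' ≠ T₂') :
    ∃ g ∈ M24, g • supFin octad0 = supFin octad0 ∧ g • T₁ = T₁' ∧ g • T₂ = T₂' := by
  obtain ⟨a, ha, rfl⟩ := exists_mem_T15 h1 m1
  obtain ⟨b, hb, rfl⟩ := exists_mem_T15 h2 m2
  obtain ⟨a', ha', rfl⟩ := exists_mem_T15 h1' m1'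
  obtain ⟨b', hb', rfl⟩ := exists_mem_T15 h2' m2'
  have hab : a ≠ b := fun h => ne (by rw [h])
  have hab' : a' ≠ b' := fun h => ne' (by rw [h])
  obtain ⟨g, hg, hge⟩ := pair_orbit ha hb hab
  obtain ⟨g', hg', hge'⟩ := pair_orbit ha' hb' hab'
  refine ⟨g' * g⁻¹, mul_mem (mem_stabZ.mp hg').1 (inv_mem (mem_stabZ.mp hg).1), ?_, ?_, ?_⟩
  · rw [mul_smul, inv_smul_eq_iff.mpr (mem_stabZ.mp hg).2.symm, (mem_stabZ.mp hg').2]
  · rw [mul_smul, inv_smul_eq_iff.mpr (congrArg Prod.fst hge).symm]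
    exact congrArg Prod.fst hge'
  · rw [mul_smul, inv_smul_eq_iff.mpr (congrArg Prod.snd hge).symm]
    exact congrArg Prod.snd hge'

/-- Two-transitivity in general. -/
theorem two_trans {o : Finset GolayPt} (ho : o ∈ octads) {T₁ T₂ T₁' T₂' : Finset (Finset GolayPt)} (h1 : T₁ ∈ trios)
    (h2 : T₂ ∈ trios) (h1' : T₁' ∈ trios) (h2' : T₂' ∈ trios) (m1 : o ∈ T₁) (m2 : o ∈ T₂) (m1' : o ∈ T₁')
    (m2' : o ∈ T₂') (ne : T₁ ≠ T₂) (ne' : T₁' ≠ T₂') :
    ∃ g ∈ M24, g • o = o ∧ g • T₁ = T₁' ∧ g • T₂ = T₂' := by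
  obtain ⟨k, hk, rfl⟩ := exists_map_octad GolayChain.octad0_mem ho
  have hm : ∀ {T : Finset (Finset GolayPt)}, k • supFin octad0 ∈ T → supFin octad0 ∈ k⁻¹ • T := by
    intro T hT
    exact Finset.mem_smul_finset.mpr ⟨_, hT, by simp⟩
  have hinv : k⁻¹ ∈ M24 := inv_mem hk
  obtain ⟨g, hg, h3, h4, h5⟩ := two_trans_octad0 (smul_mem_trios hinv h1) (smul_mem_trios hinv h2)
    (smul_mem_trios hinv h1') (smul_mem_trios hinv h2') (hm m1) (hm m2) (hm m1') (hm m2')
    (fun h => ne (smul_left_cancel _ h)) (fun h => ne' (smul_left_cancel _ h))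
  refine ⟨k * g * k⁻¹, mul_mem (mul_mem hk hg) hinv, ?_, ?_, ?_⟩
  · simp only [mul_smul, inv_smul_smul, h3]
  · simp only [mul_smul, h4, smul_inv_smul]
  · simp only [mul_smul, h5, smul_inv_smul]

/-- The count in general. -/
theorem ncard_trios_through {o : Finset GolayPt} (ho : o ∈ octads) :
    {T : Finset (Finset GolayPt) | T ∈ trios ∧ o ∈ T}.ncard = 15 := by
  obtain ⟨k, hk, rfl⟩ := exists_map_octad GolayChain.octad0_mem ho
  rw [← ncard_T15]
  have h : {T : Finset (Finset GolayPt) | T ∈ trios ∧ k • supFin octad0 ∈ T} =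
      (fun T => k • T) '' {T : Finset (Finset GolayPt) | T ∈ trios ∧ supFin octad0 ∈ T} := by
    ext T
    constructor
    · rintro ⟨h1, h2⟩
      refine ⟨k⁻¹ • T, ⟨smul_mem_trios (inv_mem hk) h1, Finset.mem_smul_finset.mpr ⟨_, h2, by simp⟩⟩, by simp⟩
    · rintro ⟨U, ⟨h1, h2⟩, rfl⟩
      exact ⟨smul_mem_trios hk h1, Finset.mem_smul_finset.mpr ⟨_, h2, rfl⟩⟩
  rw [h, Set.ncard_image_of_injective _ (MulAction.injective k)]

/-- The pointwise stabilizer of `octad0` fixes the fifteen trios. -/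
theorem octadFixL_fix : GolayOctadData.octadFixL.all (fun t => T15.all fun a => sameObj (a.map (permMask t)) a) = true := by
  decide +kernel

theorem fixS_fix_trio0 {g : Equiv.Perm GolayPt} (hg : g ∈ fixS (supFin octad0)) {T : Finset (Finset GolayPt)}
    (hT : T ∈ trios) (h0 : supFin octad0 ∈ T) : g • T = T := by
  obtain ⟨t, ht, rfl⟩ := exists_of_mem_fixS hg
  obtain ⟨a, ha, rfl⟩ := exists_mem_T15 hT h0
  have h1 := List.all_eq_true.mp (List.all_eq_true.mp octadFixL_fix t ht) a ha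
  have hA := List.all_eq_true.mp octadFixChk_all t ht
  simp only [octadFixChk, Bool.and_eq_true] at hA
  obtain ⟨⟨h2, -⟩, -⟩ := hA
  rw [smul_objOf (isAut_valid h2) (isAut_inRange h2)]
  exact objOf_eq_of_same h1

theorem fixS_fix_trio {o : Finset GolayPt} (ho : o ∈ octads) {g : Equiv.Perm GolayPt} (hg : g ∈ fixS o)
    {T : Finset (Finset GolayPt)} (hT : T ∈ trios) (h0 : o ∈ T) : g • T = T := by
  obtain ⟨k, hk, rfl⟩ := exists_map_octad GolayChain.octad0_mem ho
  have h1 : k⁻¹ * g * k ∈ fixS (supFin octad0) := by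
    rw [conj_mem_fixS_iff hk]
    have : k * (k⁻¹ * g * k) * k⁻¹ = g := by group
    rw [this]
    exact hg
  have h2 := fixS_fix_trio0 h1 (smul_mem_trios (inv_mem hk) hT)
    (Finset.mem_smul_finset.mpr ⟨_, h0, by simp⟩)
  simp only [mul_smul, smul_inv_smul] at h2
  have h3 : g • T = k • ((k⁻¹ * g * k) • (k⁻¹ • T)) := by
    simp only [mul_smul, smul_inv_smul]
  rw [h3]
  simp only [mul_smul, smul_inv_smul]
  rw [inv_smul_eq_iff.mp h2]
  simp only [smul_inv_smul]

/-- The kernel of the action on the trios through `o`, as a subgroup of its stabilizer. -/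
def kerT (o : Finset GolayPt) : Subgroup ↥(stabO o) where
  carrier := {g | ∀ T ∈ trios, o ∈ T → (g.1 : Equiv.Perm GolayPt) • T = T}
  one_mem' := fun T _ _ => one_smul _ T
  mul_mem' := by
    intro a b ha hb T hT h0
    change (a.1 * b.1) • T = T
    rw [mul_smul, hb T hT h0, ha T hT h0]
  inv_mem' := by
    intro a ha T hT h0
    change (a.1⁻¹) • T = T
    rw [inv_smul_eq_iff, ha T hT h0]

theorem kerT_normal (o : Finset GolayPt) : (kerT o).Normal := by
  refine ⟨fun n hn x T hT h0 => ?_⟩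
  have hx := mem_stabO.mp x.2
  change (x.1 * n.1 * x.1⁻¹) • T = T
  have h1 : x.1⁻¹ • T ∈ trios := smul_mem_trios (inv_mem hx.1) hT
  have h2 : o ∈ x.1⁻¹ • T := Finset.mem_smul_finset.mpr ⟨x.1 • o, by rwa [hx.2], by simp⟩
  rw [mul_smul, mul_smul, hn _ h1 h2, smul_inv_smul]

/-- The kernel is the pointwise stabilizer. -/
theorem kerT_le {o : Finset GolayPt} (ho : o ∈ octads) {g : ↥(stabO o)} (hg : g ∈ kerT o) : g.1 ∈ fixS o := by
  classical
  have hs : IsSimpleGroup (alternatingGroup ↥o) := alternatingGroup.isSimpleGroup (by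
    rw [Nat.card_eq_fintype_card, Fintype.card_coe, ho.2]
    norm_num)
  have hs' : IsSimpleGroup (rest o).range := by
    rw [range_rest_eq ho]
    exact hs
  have hn : ((kerT o).map (rest o).rangeRestrict).Normal :=
    Subgroup.Normal.map (kerT_normal o) _ (rest o).rangeRestrict_surjective
  rcases hs'.eq_bot_or_eq_top_of_normal _ hn with h | h
  · -- the image is trivial
    have h1 : (rest o).rangeRestrict g = 1 := by
      have : (rest o).rangeRestrict g ∈ (kerT o).map (rest o).rangeRestrict := ⟨g, hg, rfl⟩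
      rw [h] at this
      exact Subgroup.mem_bot.mp this
    have h2 : g ∈ (rest o).ker := by
      rw [MonoidHom.mem_ker]
      exact congrArg Subtype.val h1
    exact (rest_ker o g).mp h2
  · -- the image is everything: then the whole stabilizer fixes every trio
    exfalso
    have hall : ∀ x : ↥(stabO o), x ∈ kerT o := by
      intro x
      have h1 : (rest o).rangeRestrict x ∈ (kerT o).map (rest o).rangeRestrict := by
        rw [h]
        trivial
      obtain ⟨y, hy, hye⟩ := h1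
      have h2 : y⁻¹ * x ∈ (rest o).ker := by
        rw [MonoidHom.mem_ker, map_mul, map_inv]
        have h3 : rest o y = rest o x := congrArg Subtype.val hye
        rw [h3, inv_mul_cancel]
      have h3 := (rest_ker o _).mp h2
      intro T hT h0
      have h4 := fixS_fix_trio ho h3 hT h0
      have h5 : x.1 = y.1 * (y⁻¹ * x).1 := by
        simp only [Subgroup.coe_mul, Subgroup.coe_inv, mul_inv_cancel_left]
      rw [h5, mul_smul, h4]
      exact hy T hT h0
    -- two distinct trios through `o`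
    obtain ⟨k, hk, rfl⟩ := exists_map_octad GolayChain.octad0_mem ho
    have hc : ∃ a ∈ T15, ∃ b ∈ T15, a ≠ b := by
      refine ⟨T15.headD [], ?_, T15.tail.headD [], ?_, ?_⟩ <;> decide +kernel
    obtain ⟨a, ha, b, hb, hab⟩ := hc
    have hTa : objOf a ∈ trios := objOf_mem_trios (T15_all ha).1 (T15_all ha).2.1
    have hTb : objOf b ∈ trios := objOf_mem_trios (T15_all hb).1 (T15_all hb).2.1
    have hma := (oct0_mem_iff (T15_all ha).2.1).mpr (T15_all ha).2.2
    have hmb := (oct0_mem_iff (T15_all hb).2.1).mpr (T15_all hb).2.2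
    have hne : objOf a ≠ objOf b := fun he => hab (eq_of_objOf_eq (T15_all ha).2.1 (T15_all hb).2.1 he)
    have hne2 : k • objOf a ≠ k • objOf b := fun he => hne (smul_left_cancel _ he)
    obtain ⟨x, hx, hx0, hxa, -⟩ := two_trans ho (smul_mem_trios hk hTa) (smul_mem_trios hk hTb)
      (smul_mem_trios hk hTb) (smul_mem_trios hk hTa)
      (Finset.mem_smul_finset.mpr ⟨_, hma, rfl⟩) (Finset.mem_smul_finset.mpr ⟨_, hmb, rfl⟩)
      (Finset.mem_smul_finset.mpr ⟨_, hmb, rfl⟩) (Finset.mem_smul_finset.mpr ⟨_, hma, rfl⟩) hne2 hne2.symm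
    have h6 := hall ⟨x, mem_stabO.mpr ⟨hx, hx0⟩⟩ _ (smul_mem_trios hk hTa)
      (Finset.mem_smul_finset.mpr ⟨_, hma, rfl⟩)
    exact hne2 (h6.symm.trans hxa)

/-- The statement about the trios through an octad. -/
theorem trios_through {o : Finset GolayPt} (ho : o ∈ octads) :
    {T : Finset (Finset GolayPt) | T ∈ trios ∧ o ∈ T}.ncard = 15 ∧
      (∀ T₁ T₂ T₁' T₂' : Finset (Finset GolayPt), T₁ ∈ trios → T₂ ∈ trios → T₁' ∈ trios → T₂' ∈ trios →
        o ∈ T₁ → o ∈ T₂ → o ∈ T₁' → o ∈ T₂' → T₁ ≠ T₂ → T₁' ≠ T₂' →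
          ∃ g ∈ M24, g • o = o ∧ g • T₁ = T₁' ∧ g • T₂ = T₂') ∧
      ∀ g ∈ M24, g • o = o → ((∀ T ∈ trios, o ∈ T → g • T = T) ↔ ∀ p ∈ o, g p = p) := by
  refine ⟨ncard_trios_through ho, fun _ _ _ _ h1 h2 h3 h4 m1 m2 m3 m4 n1 n2 => two_trans ho h1 h2 h3 h4 m1 m2 m3 m4 n1 n2, ?_⟩
  intro g hg h0
  constructor
  · intro h
    have h1 : (⟨g, mem_stabO.mpr ⟨hg, h0⟩⟩ : ↥(stabO o)) ∈ kerT o := h
    exact (mem_fixS.mp (kerT_le ho h1)).2
  · intro h T hT hoT
    exact fixS_fix_trio ho (mem_fixS.mpr ⟨hg, h⟩) hT hoT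

end Cfsg.Agent.Lib.GolayOctStab
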