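import Mathlib
import Cfsg.Prelude.Def_Classical

/-! Discriminants of the standard quadratic forms. -/

namespace Cfsg.Agent.Lib.GramDisc

open Matrix

variable {F : Type*} [Field F]

/-- The Gram determinant in any basis differs from the standard one by a square. -/
theorem gram_det_isSquare_iff [Fintype F] {J ι : Type*} [Fintype J] [DecidableEq J] [Fintype ι] [DecidableEq ι]
    (M₀ : Matrix J J F) (f : (J → F) → (J → F) → F)
    (hf : ∀ u v, f u v = u ⬝ᵥ M₀ *ᵥ v) (b : Module.Basis ι F (J → F)) :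
    IsSquare (Matrix.of (fun i j : ι => f (b i) (b j))).det ↔ IsSquare M₀.det := by
  classical
  let e : ι ≃ J := b.indexEquiv (Pi.basisFun F J)
  let b' : Module.Basis J F (J → F) := b.reindex e
  have hb' : ∀ j, b' j = b (e.symm j) := fun j => by simp [b']
  let P : Matrix J J F := Matrix.of (fun i x => b' i x)
  have hP : P.det ≠ 0 := by
    have h1 : IsUnit ((Pi.basisFun F J).det b') := (Pi.basisFun F J).isUnit_det b'
    rw [Module.Basis.det_apply] at h1
    have h2 : (Pi.basisFun F J).toMatrix b' = Pᵀ := by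
      ext i j
      simp [P, Module.Basis.toMatrix_apply]
    rw [h2, Matrix.det_transpose] at h1
    exact h1.ne_zero
  have hG : (Matrix.of (fun i j : ι => f (b i) (b j))).submatrix e.symm e.symm = P * M₀ * Pᵀ := by
    ext i j
    simp only [Matrix.submatrix_apply, Matrix.of_apply, hf, ← hb']
    simp only [Matrix.mul_apply, Matrix.transpose_apply, P, Matrix.of_apply, dotProduct, Matrix.mulVec, Finset.sum_mul, Finset.mul_sum]
    rw [Finset.sum_comm]
    refine Finset.sum_congr rfl fun x _ => Finset.sum_congr rfl fun y _ => ?_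
    ring
  have hdet : (Matrix.of (fun i j : ι => f (b i) (b j))).det = P.det * M₀.det * P.det := by
    rw [← Matrix.det_submatrix_equiv_self e.symm, hG, Matrix.det_mul, Matrix.det_mul, Matrix.det_transpose]
  rw [hdet]
  constructor
  · rintro ⟨r, hr⟩
    refine ⟨r / P.det, ?_⟩
    field_simp
    linear_combination hr
  · rintro ⟨r, hr⟩
    exact ⟨P.det * r, by rw [hr]; ring⟩

/-- Determinant of the hyperbolic block. -/
theorem det_hyp {n : Type*} [Fintype n] [DecidableEq n] :
    (Matrix.fromBlocks (0 : Matrix n n F) (1 : Matrix n n F) (1 : Matrix n n F) (0 : Matrix n n F)).det = (-1) ^ Fintype.card n := by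
  have h1 : (Matrix.fromBlocks (1 : Matrix n n F) (1 : Matrix n n F) (0 : Matrix n n F) (1 : Matrix n n F)) * (Matrix.fromBlocks (0 : Matrix n n F) (1 : Matrix n n F) (1 : Matrix n n F) (0 : Matrix n n F))
      = Matrix.fromBlocks (1 : Matrix n n F) (1 : Matrix n n F) (1 : Matrix n n F) (0 : Matrix n n F) := by
    rw [Matrix.fromBlocks_multiply]
    simp
  have h2 := congrArg Matrix.det h1
  rw [Matrix.det_mul, Matrix.det_fromBlocks_zero₂₁, Matrix.det_one, one_mul, one_mul] at h2
  rw [h2, Matrix.det_fromBlocks_one₁₁]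
  simp [Matrix.det_neg]

/-- Polar form of the plus-type form. -/
theorem polar_plus (m : ℕ) (u v : Fin m ⊕ Fin m → F) :
    QuadraticMap.polar (Cfsg.quadFormPlus m F) u v =
      u ⬝ᵥ (Matrix.fromBlocks (0 : Matrix (Fin m) (Fin m) F) 1 1 0) *ᵥ v := by
  simp only [QuadraticMap.polar, Cfsg.quadFormPlus, dotProduct, Fintype.sum_sum_type, Matrix.mulVec,
    Matrix.fromBlocks_apply₁₁, Matrix.fromBlocks_apply₁₂, Matrix.fromBlocks_apply₂₁, Matrix.fromBlocks_apply₂₂,
    Sum.elim_inl, Sum.elim_inr, Pi.add_apply, Matrix.zero_apply, zero_mul, Finset.sum_const_zero, zero_add, add_zero,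
    Matrix.one_apply, ite_mul, one_mul, Finset.sum_ite_eq, Finset.mem_univ, if_true, ← Finset.sum_sub_distrib,
    ← Finset.sum_add_distrib]
  refine Finset.sum_congr rfl fun i _ => ?_
  ring

/-- Polar form of the minus-type form. -/
theorem polar_minus (m : ℕ) (a c : F) (u v : (Fin m ⊕ Fin m) ⊕ Fin 2 → F) :
    QuadraticMap.polar (Cfsg.quadFormMinus m F a c) u v =
      u ⬝ᵥ (Matrix.fromBlocks (Matrix.fromBlocks (0 : Matrix (Fin m) (Fin m) F) 1 1 0) 0 0 !![2, a; a, 2 * c]) *ᵥ v := by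
  have h := polar_plus (F := F) m (u ∘ Sum.inl) (v ∘ Sum.inl)
  simp only [QuadraticMap.polar, Cfsg.quadFormPlus, Function.comp, Pi.add_apply] at h
  simp only [QuadraticMap.polar, Cfsg.quadFormMinus, Pi.add_apply]
  have e : u ⬝ᵥ (Matrix.fromBlocks (Matrix.fromBlocks (0 : Matrix (Fin m) (Fin m) F) 1 1 0) 0 0 !![2, a; a, 2 * c]) *ᵥ v
      = (u ∘ Sum.inl) ⬝ᵥ (Matrix.fromBlocks (0 : Matrix (Fin m) (Fin m) F) 1 1 0) *ᵥ (v ∘ Sum.inl)
        + (u (Sum.inr 0) * (2 * v (Sum.inr 0) + a * v (Sum.inr 1)) + u (Sum.inr 1) * (a * v (Sum.inr 0) + 2 * c * v (Sum.inr 1))) := by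
    simp [dotProduct, Fintype.sum_sum_type, Matrix.mulVec, Fin.sum_univ_two]
  rw [e, ← h]
  ring

theorem det_minus {n : Type*} [Fintype n] [DecidableEq n] (a c : F) :
    (Matrix.fromBlocks (Matrix.fromBlocks (0 : Matrix n n F) (1 : Matrix n n F) (1 : Matrix n n F) (0 : Matrix n n F)) 0 0 !![2, a; a, 2 * c]).det =
      (-1) ^ Fintype.card n * (4 * c - a ^ 2) := by
  rw [Matrix.det_fromBlocks_zero₂₁, det_hyp, Matrix.det_fin_two_of]
  ring

/-- Parity bookkeeping. -/
theorem even_half {q m : ℕ} {t : ℕ} (ht : q = 2 * t + 1) : m * (q - 1) / 2 = m * t := by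
  have : m * (q - 1) = 2 * (m * t) := by rw [ht]; simp; ring
  rw [this, Nat.mul_div_cancel_left _ (by norm_num)]

theorem S2620_core [Fintype F] {q : ℕ} (hF : Fintype.card F = q) (hq : Odd q) {m : ℕ}
    {ι : Type*} [Fintype ι] [DecidableEq ι] (b : Module.Basis ι F (Fin m ⊕ Fin m → F)) :
    IsSquare (Matrix.of (fun i j : ι => QuadraticMap.polar (Cfsg.quadFormPlus m F) (b i) (b j))).det ↔ Even (m * (q - 1) / 2) := by
  classical
  rw [gram_det_isSquare_iff _ _ (polar_plus m) b, det_hyp, Fintype.card_fin]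
  obtain ⟨t, ht⟩ := hq
  rw [even_half ht, Nat.even_mul]
  rcases Nat.even_or_odd m with he | ho
  · rw [he.neg_one_pow]
    simp [he]
  · rw [ho.neg_one_pow, FiniteField.isSquare_neg_one_iff, hF]
    have : ¬ Even m := Nat.not_even_iff_odd.2 ho
    simp only [this, false_or]
    rw [Nat.even_iff]
    omega

theorem S2621_core [Fintype F] {q : ℕ} (hF : Fintype.card F = q) (hq : Odd q) {m : ℕ} (hm : 1 ≤ m) (a c : F)
    (hac : ∀ z₁ z₂ : F, z₁ ^ 2 + a * z₁ * z₂ + c * z₂ ^ 2 = 0 → z₁ = 0 ∧ z₂ = 0)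
    {ι : Type*} [Fintype ι] [DecidableEq ι] (b : Module.Basis ι F ((Fin (m - 1) ⊕ Fin (m - 1)) ⊕ Fin 2 → F)) :
    IsSquare (Matrix.of (fun i j : ι => QuadraticMap.polar (Cfsg.quadFormMinus (m - 1) F a c) (b i) (b j))).det ↔ ¬ Even (m * (q - 1) / 2) := by
  classical
  rw [gram_det_isSquare_iff _ _ (polar_minus (m - 1) a c) b, det_minus, Fintype.card_fin]
  have hodd : ringChar F ≠ 2 := by
    intro h
    have := (FiniteField.even_card_iff_char_two (F := F)).1 h
    rw [hF, Nat.odd_iff.1 hq] at this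
    exact one_ne_zero this
  have h20 : (2 : F) ≠ 0 := Ring.two_ne_zero hodd
  obtain ⟨t, ht⟩ := hq
  rw [even_half ht, Nat.even_mul]
  -- `a² - 4c` is a nonsquare
  have hns : ¬ IsSquare (a ^ 2 - 4 * c) := by
    rintro ⟨s, hs⟩
    have := hac ((s - a) / 2) 1 (by
      field_simp
      linear_combination -hs)
    exact one_ne_zero this.2
  have hd0 : a ^ 2 - 4 * c ≠ 0 := by
    intro h
    exact hns (by rw [h]; exact ⟨0, by simp⟩)
  have hχd := (quadraticChar_neg_one_iff_not_isSquare (F := F) (a := a ^ 2 - 4 * c)).2 hns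
  have hform : (-1 : F) ^ (m - 1) * (4 * c - a ^ 2) = (-1) ^ m * (a ^ 2 - 4 * c) := by
    obtain ⟨k, rfl⟩ : ∃ k, m = k + 1 := ⟨m - 1, by omega⟩
    simp only [Nat.add_sub_cancel, pow_succ]
    ring
  rw [hform]
  have hne : (-1 : F) ^ m * (a ^ 2 - 4 * c) ≠ 0 := mul_ne_zero (pow_ne_zero _ (neg_ne_zero.2 one_ne_zero)) hd0
  rw [← quadraticChar_one_iff_isSquare hne, map_mul, map_pow, hχd]
  have hχ1 : quadraticChar F (-1) ^ m * (-1) = 1 ↔ (Odd m ∧ Fintype.card F % 4 = 3) := by
    have hc1 : quadraticChar F (-1) = 1 ∨ quadraticChar F (-1) = -1 := quadraticChar_dichotomy (neg_ne_zero.2 one_ne_zero)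
    rcases Nat.even_or_odd m with he | ho
    · have h1 : quadraticChar F (-1) ^ m = 1 := by
        rcases hc1 with h | h
        · rw [h, one_pow]
        · rw [h, he.neg_one_pow]
      rw [h1]
      constructor
      · intro h; norm_num at h
      · rintro ⟨h, _⟩
        exact absurd he (Nat.not_even_iff_odd.2 h)
    · constructor
      · intro h
        refine ⟨ho, ?_⟩
        by_contra h3
        have h4 := FiniteField.isSquare_neg_one_iff.2 h3
        have h5 := (quadraticChar_one_iff_isSquare (neg_ne_zero.2 (one_ne_zero (α := F)))).2 h4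
        rw [h5, one_pow] at h
        norm_num at h
      · rintro ⟨_, h3⟩
        have h4 : ¬ IsSquare (-1 : F) := fun h => (FiniteField.isSquare_neg_one_iff.1 h) h3
        have h5 := quadraticChar_neg_one_iff_not_isSquare.2 h4
        rw [h5, ho.neg_one_pow]
        norm_num
  rw [hχ1, hF]
  rcases Nat.even_or_odd m with he | ho
  · have : ¬ Odd m := Nat.not_odd_iff_even.2 he
    simp [he, this]
  · have : ¬ Even m := Nat.not_even_iff_odd.2 ho
    simp only [ho, true_and, this, false_or]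
    rw [Nat.even_iff]
    omega

end Cfsg.Agent.Lib.GramDisc
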