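import Mathlib
import Cfsg.Prelude
import Cfsg.Agent.Lib.LieTrick
import Cfsg.Agent.Lib.CoprimeAB
import Cfsg.Agent.Lib.Critical

/-!
The Baer addition on a group of class at most two and odd prime exponent: the group becomes an
abelian group in such a way that all group homomorphisms are additive.  As an application, an
averaging argument over a group `Q` normalized by a `p`-group `P`.
-/

set_option autoImplicit false

namespace Cfsg.Agent.Lib.H6Baer

open Subgroup Cfsg Cfsg.Agent.Lib Cfsg.Agent.Lib.LieTrick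
open scoped commutatorElement

section
variable {W : Type*} [Group W]

/-- the Baer sum, where `h` is the inverse of two modulo the exponent -/
def baerAdd (h : ℕ) (x y : W) : W := x * y * ⁅y, x⁆ ^ h

theorem baerAdd_hom {V : Type*} [Group V] (f : W →* V) (h : ℕ) (x y : W) :
    f (baerAdd h x y) = baerAdd h (f x) (f y) := by
  simp [baerAdd, map_commutatorElement]

variable (hc : Class2 W) {p h : ℕ} (hexp : ∀ x : W, x ^ p = 1) (h2 : 2 * h = p + 1)
include hc

theorem baer_assoc (x y z : W) : baerAdd h (baerAdd h x y) z = baerAdd h x (baerAdd h y z) := by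
  unfold baerAdd
  have e1 : ⁅z, x * y * ⁅y, x⁆ ^ h⁆ = ⁅z, x⁆ * ⁅z, y⁆ := by
    rw [comm_mul_right hc, comm_mul_right hc, comm_central_right hc (c := ⁅y, x⁆ ^ h)
      (fun w => comm_pow_central hc y x h w), mul_one]
  have e2 : ⁅y * z * ⁅z, y⁆ ^ h, x⁆ = ⁅y, x⁆ * ⁅z, x⁆ := by
    rw [comm_mul_left hc, comm_mul_left hc, comm_central_left hc (c := ⁅z, y⁆ ^ h)
      (fun w => comm_pow_central hc z y h w), mul_one]
  rw [e1, e2]
  have hab : Commute ⁅y, x⁆ ⁅z, x⁆ := hc _ _ _
  have hbd : Commute ⁅z, x⁆ ⁅z, y⁆ := hc _ _ _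
  rw [hab.mul_pow, hbd.mul_pow]
  have ha : ∀ w, ⁅y, x⁆ ^ h * w = w * ⁅y, x⁆ ^ h := comm_pow_central hc y x h
  have hd : ∀ w, ⁅z, y⁆ ^ h * w = w * ⁅z, y⁆ ^ h := comm_pow_central hc z y h
  generalize ⁅y, x⁆ ^ h = A at *
  generalize ⁅z, y⁆ ^ h = D at *
  generalize ⁅z, x⁆ ^ h = B at *
  calc x * y * A * z * (B * D) = x * y * (A * z) * (B * D) := by simp only [mul_assoc]
    _ = x * y * z * (A * (B * D)) := by rw [ha z]; simp only [mul_assoc]
    _ = x * y * z * (D * (A * B)) := by rw [hd (A * B)]; simp only [mul_assoc]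
    _ = x * (y * z * D) * (A * B) := by simp only [mul_assoc]

include hexp h2 in
theorem baer_add_comm (x y : W) : baerAdd h x y = baerAdd h y x := by
  unfold baerAdd
  have h3 : x * y = ⁅y, x⁆⁻¹ * (y * x) := by
    rw [commutatorElement_inv, commutatorElement_def]; group
  have h4 : ⁅x, y⁆ = ⁅y, x⁆⁻¹ := (commutatorElement_inv y x).symm
  rw [h3, h4]
  have hcen : ∀ w, ⁅y, x⁆ * w = w * ⁅y, x⁆ := hc y x
  have hcen2 : ∀ w, ⁅y, x⁆⁻¹ * w = w * ⁅y, x⁆⁻¹ := fun w => (Commute.inv_left (hcen w))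
  have ht : ⁅y, x⁆ ^ h * ⁅y, x⁆ ^ h = ⁅y, x⁆ := by
    rw [← pow_add, ← two_mul, h2, pow_succ, hexp, one_mul]
  rw [hcen2 (y * x), inv_pow, mul_assoc]
  congr 1
  rw [inv_mul_eq_iff_eq_mul]
  exact eq_mul_inv_iff_mul_eq.2 ht

omit hc in
theorem baer_one_add (x : W) : baerAdd h 1 x = x := by
  simp [baerAdd]

omit hc in
theorem baer_add_one (x : W) : baerAdd h x 1 = x := by
  simp [baerAdd]

omit hc in
theorem baer_inv_add (x : W) : baerAdd h x⁻¹ x = 1 := by
  have h3 : ⁅x, x⁻¹⁆ = 1 := by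
    rw [commutatorElement_eq_one_iff_mul_comm]; simp
  simp [baerAdd, h3]

omit hc in
theorem baer_pow_succ (n : ℕ) (x : W) : x ^ (n + 1) = baerAdd h (x ^ n) x := by
  have h3 : ⁅x, x ^ n⁆ = 1 := by
    rw [commutatorElement_eq_one_iff_mul_comm, ← pow_succ, ← pow_succ']
  simp [baerAdd, h3, pow_succ]

/-- the abelian group structure -/
@[reducible] def baerGroup : AddCommGroup W where
  add := baerAdd h
  add_assoc := baer_assoc hc
  zero := 1
  zero_add := baer_one_add
  add_zero := baer_add_one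
  nsmul := fun n x => x ^ n
  nsmul_zero := pow_zero
  nsmul_succ := fun n x => baer_pow_succ n x
  neg := fun x => x⁻¹
  zsmul := fun n x => x ^ n
  zsmul_zero' := zpow_zero
  zsmul_succ' := fun n x => by
    show x ^ ((n.succ : ℕ) : ℤ) = baerAdd h (x ^ (n : ℤ)) x
    rw [zpow_natCast, zpow_natCast]
    exact baer_pow_succ n x
  zsmul_neg' := fun n x => by
    show x ^ (Int.negSucc n) = (x ^ ((n.succ : ℕ) : ℤ))⁻¹
    rw [zpow_negSucc, zpow_natCast]
  neg_add_cancel := baer_inv_add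
  add_comm := baer_add_comm hc hexp h2

end

section
variable {X : Type*} [Group X]

/-- conjugation on a subgroup by an element of its normalizer -/
def cj (D : Subgroup X) {g : X} (hg : g ∈ Subgroup.normalizer (D : Set X)) (x : D) : D :=
  ⟨g * x * g⁻¹, (Subgroup.mem_normalizer_iff.1 hg x).1 x.2⟩

theorem cj_baer (D : Subgroup X) {g : X} (hg : g ∈ Subgroup.normalizer (D : Set X)) (h : ℕ) (x y : D) :
    cj D hg (baerAdd h x y) = baerAdd h (cj D hg x) (cj D hg y) := by
  have := baerAdd_hom (D.normalizerMonoidHom ⟨g, hg⟩).toMonoidHom h x y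
  exact this

theorem cj_one (D : Subgroup X) {g : X} (hg : g ∈ Subgroup.normalizer (D : Set X)) :
    cj D hg 1 = 1 := by
  apply Subtype.ext
  simp [cj]

theorem cj_comp (D : Subgroup X) {g k : X} (hg : g ∈ Subgroup.normalizer (D : Set X))
    (hk : k ∈ Subgroup.normalizer (D : Set X)) (x : D) :
    cj D hg (cj D hk x) = cj D (mul_mem hg hk) x := by
  apply Subtype.ext
  simp [cj]
  group

theorem baer_trick [Finite X] {p : ℕ} [hpf : Fact p.Prime] (hp : p ≠ 2) {D P Q : Subgroup X}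
    (hexp : ∀ x ∈ D, x ^ p = 1) (hc : Class2 D) (hPD : P ≤ Subgroup.normalizer (D : Set X))
    (hQD : Q ≤ Subgroup.normalizer (D : Set X)) (hPQ : P ≤ Subgroup.normalizer (Q : Set X))
    (hPp : IsPGroup p P) (hQ : (Nat.card Q).Coprime p)
    (hC : ∀ x ∈ D, (∀ u ∈ P, u * x = x * u) → ∀ q ∈ Q, q * x = x * q) :
    ∀ q ∈ Q, ∀ x ∈ D, q * x = x * q := by
  classical
  have hpp : p.Prime := hpf.out
  obtain ⟨h, h2⟩ : ∃ h, 2 * h = p + 1 := by
    obtain ⟨k, hk⟩ := hpp.odd_of_ne_two hp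
    exact ⟨k + 1, by omega⟩
  have hexpD : ∀ x : D, x ^ p = 1 := fun x => Subtype.ext (by simpa using hexp x x.2)
  let A : AddCommGroup D := baerGroup hc hexpD h2
  have : Fintype Q := Fintype.ofFinite Q
  have hcadd : ∀ {g : X} (hg : g ∈ Subgroup.normalizer (D : Set X)) (x y : D),
      cj D hg (x + y) = cj D hg x + cj D hg y := fun hg x y => cj_baer D hg h x y
  have hczero : ∀ {g : X} (hg : g ∈ Subgroup.normalizer (D : Set X)), cj D hg 0 = 0 :=
    fun hg => cj_one D hg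
  let cA : ∀ {g : X} (_ : g ∈ Subgroup.normalizer (D : Set X)), D →+ D :=
    fun hg => AddMonoidHom.mk' (cj D hg) (hcadd hg)
  let N : D → D := fun x => ∑ q : Q, cj D (hQD q.2) x
  have hNadd : ∀ x y, N (x + y) = N x + N y := by
    intro x y
    simp only [N]
    rw [← Finset.sum_add_distrib]
    exact Finset.sum_congr rfl (fun q _ => hcadd _ x y)
  let NN : D →+ D := AddMonoidHom.mk' N hNadd
  have hNc : ∀ (q : X) (hq : q ∈ Q) (x : D), N (cj D (hQD hq) x) = N x := by
    intro q hq x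
    simp only [N, cj_comp]
    exact Fintype.sum_equiv (Equiv.mulRight (⟨q, hq⟩ : Q)) _ _ (fun a => rfl)
  have hNP : ∀ (u : X) (hu : u ∈ P) (x : D), N (cj D (hPD hu) x) = cj D (hPD hu) (N x) := by
    intro u hu x
    have h1 : cj D (hPD hu) (N x) = ∑ q : Q, cj D (hPD hu) (cj D (hQD q.2) x) :=
      map_sum (cA (hPD hu)) _ _
    rw [h1]
    let e : Q ≃ Q := (Q.normalizerMonoidHom ⟨u, hPQ hu⟩).toEquiv
    refine Fintype.sum_equiv e.symm _ _ ?_
    intro q
    obtain ⟨q', rfl⟩ := e.surjective q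
    apply Subtype.ext
    rw [Equiv.symm_apply_apply]
    show ((e q' : Q) : X) * (u * x * u⁻¹) * ((e q' : Q) : X)⁻¹ = u * ((q' : X) * x * (q' : X)⁻¹) * u⁻¹
    have he : ((e q' : Q) : X) = u * q' * u⁻¹ := rfl
    rw [he]
    group
  let K : AddSubgroup D := NN.ker
  have hKbot : K = ⊥ := by
    by_contra hne
    have hDp : IsPGroup p D := fun g => ⟨1, by simpa using hexpD g⟩
    obtain ⟨n, hn⟩ := IsPGroup.iff_card.1 hDp
    have hdvd : Nat.card K ∣ Nat.card D := AddSubgroup.card_addSubgroup_dvd_card K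
    rw [hn] at hdvd
    obtain ⟨m, _, hm⟩ := (Nat.dvd_prime_pow hpp).1 hdvd
    have hm0 : m ≠ 0 := by
      rintro rfl
      exact hne (AddSubgroup.eq_bot_of_card_eq K (by simpa using hm))
    have hpK : p ∣ Nat.card K := by
      rw [hm]; exact dvd_pow_self p hm0
    let _ : MulAction P K := {
      smul := fun u x => ⟨cj D (hPD u.2) x.1, by
        have hx : N x.1 = 0 := x.2
        show N (cj D (hPD u.2) x.1) = 0
        rw [hNP _ u.2, hx, hczero]⟩
      one_smul := fun x => by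
        apply Subtype.ext
        apply Subtype.ext
        show (1 : X) * x.1 * (1 : X)⁻¹ = x.1
        simp
      mul_smul := fun u v x => by
        apply Subtype.ext
        apply Subtype.ext
        show ((u : X) * v) * x.1 * ((u : X) * v)⁻¹ = (u : X) * ((v : X) * x.1 * (v : X)⁻¹) * (u : X)⁻¹
        group }
    have h0 : (0 : K) ∈ MulAction.fixedPoints P K := by
      intro u
      apply Subtype.ext
      exact hczero (hPD u.2)
    obtain ⟨b, hb, hb0⟩ := hPp.exists_fixed_point_of_prime_dvd_card_of_fixed_point K hpK h0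
    have hbP : ∀ u ∈ P, u * ((b.1 : D) : X) = ((b.1 : D) : X) * u := by
      intro u hu
      have h3 : u * ((b.1 : D) : X) * u⁻¹ = ((b.1 : D) : X) :=
        congrArg (fun z : K => ((z.1 : D) : X)) (hb ⟨u, hu⟩)
      exact mul_inv_eq_iff_eq_mul.1 h3
    have hbQ := hC b.1 b.1.2 hbP
    have hfix : ∀ q : Q, cj D (hQD q.2) b.1 = b.1 := by
      intro q
      apply Subtype.ext
      show (q : X) * ((b.1 : D) : X) * (q : X)⁻¹ = _
      rw [hbQ q q.2, mul_inv_cancel_right]
    have hNb : N b.1 = b.1 ^ (Nat.card Q) := by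
      simp only [N, hfix, Finset.sum_const, Finset.card_univ]
      rw [Fintype.card_eq_nat_card]
      rfl
    have hb1 : (b.1 : D) ^ (Nat.card Q) = 1 := by
      rw [← hNb]
      exact b.2
    have h3 := (pow_gcd_eq_one (a := (b.1 : D))).2 ⟨hb1, hexpD b.1⟩
    rw [hQ, pow_one] at h3
    apply hb0
    apply Subtype.ext
    exact h3.symm
  intro q hq x hx
  have h1 : N (cj D (hQD hq) ⟨x, hx⟩ - ⟨x, hx⟩) = 0 := by
    have h3 : NN (cj D (hQD hq) ⟨x, hx⟩ - ⟨x, hx⟩) = NN (cj D (hQD hq) ⟨x, hx⟩) - NN ⟨x, hx⟩ := map_sub NN _ _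
    have h4 : NN (cj D (hQD hq) ⟨x, hx⟩) = NN ⟨x, hx⟩ := hNc q hq ⟨x, hx⟩
    rw [h4, sub_self] at h3
    exact h3
  have h2' : cj D (hQD hq) ⟨x, hx⟩ - ⟨x, hx⟩ ∈ K := h1
  rw [hKbot, AddSubgroup.mem_bot, sub_eq_zero] at h2'
  have h5 : q * x * q⁻¹ = x := congrArg Subtype.val h2'
  exact mul_inv_eq_iff_eq_mul.1 h5

end

end Cfsg.Agent.Lib.H6Baer
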