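import Mathlib

set_option autoImplicit false

namespace Cfsg.Agent.Lib.H6Conj

/-- Gallagher's sum formula in the form `Σ_x #{z | x z = z x} = k(G) |G|`. -/
theorem sum_card_commute (G : Type*) [Group G] [Fintype G] :
    ∑ x : G, Nat.card {z : G // Commute x z} = Nat.card (ConjClasses G) * Nat.card G := by
  classical
  rw [← card_comm_eq_card_conjClasses_mul_card G,
    Nat.card_congr (Equiv.subtypeProdEquivSigmaSubtype fun g h : G ↦ Commute g h),
    Nat.card_sigma]

/-- Counting commuting pairs between two families. -/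
theorem sum_card_swap {A B : Type*} [Fintype A] [Fintype B] (r : A → B → Prop) :
    ∑ a : A, Nat.card {b : B // r a b} = ∑ b : B, Nat.card {a : A // r a b} := by
  classical
  have h1 : Nat.card {p : A × B // r p.1 p.2} = ∑ a : A, Nat.card {b : B // r a b} := by
    rw [Nat.card_congr (Equiv.subtypeProdEquivSigmaSubtype r), Nat.card_sigma]
  have h2 : Nat.card {p : B × A // r p.2 p.1} = ∑ b : B, Nat.card {a : A // r a b} := by
    rw [Nat.card_congr (Equiv.subtypeProdEquivSigmaSubtype (fun b a => r a b)), Nat.card_sigma]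
  rw [← h1, ← h2]
  exact Nat.card_congr
    { toFun := fun p => ⟨(p.1.2, p.1.1), p.2⟩
      invFun := fun p => ⟨(p.1.2, p.1.1), p.2⟩
      left_inv := fun _ => rfl
      right_inv := fun _ => rfl }

/-- If the relative index is as large as the index then `G = B A`. -/
theorem exists_mul_of_relIndex {G : Type*} [Group G] [Finite G] (A B : Subgroup G)
    (hle : A.index ≤ A.relIndex B) (g : G) : ∃ s ∈ B, s⁻¹ * g ∈ A := by
  classical
  let x₀ : G ⧸ A := ((1 : G) : G ⧸ A)
  have hst : MulAction.stabilizer B x₀ = A.subgroupOf B := by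
    ext s
    simp only [MulAction.mem_stabilizer_iff, Subgroup.mem_subgroupOf]
    change ((s : G) • ((1 : G) : G ⧸ A)) = _ ↔ _
    rw [MulAction.Quotient.smul_coe]
    change (((s : G) • (1 : G) : G) : G ⧸ A) = ((1 : G) : G ⧸ A) ↔ _
    rw [QuotientGroup.eq]
    simp
  have hB : (MulAction.stabilizer B x₀).index = Set.ncard (MulAction.orbit B x₀) :=
    MulAction.index_stabilizer B x₀
  have hcard : Nat.card (G ⧸ A) ≤ Set.ncard (MulAction.orbit B x₀) := by
    rw [← hB, hst]
    exact hle
  have heq : MulAction.orbit B x₀ = Set.univ := by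
    apply Set.eq_of_subset_of_ncard_le (Set.subset_univ _) _ Set.finite_univ
    rw [Set.ncard_univ]
    exact hcard
  have hmem : ((g : G) : G ⧸ A) ∈ MulAction.orbit B x₀ := by
    rw [heq]
    trivial
  obtain ⟨s, hs⟩ := hmem
  refine ⟨s.1, s.2, ?_⟩
  have : (s.1 : G) • ((1 : G) : G ⧸ A) = ((g : G) : G ⧸ A) := hs
  rw [MulAction.Quotient.smul_coe] at this
  have h3 := QuotientGroup.eq.mp this
  simpa using h3

/-- `#C_X(x) = #C_Y(x) * [C_X(x) : C_Y(x)]`. -/
theorem card_commute_eq {X : Type*} [Group X] [Finite X] (Y : Subgroup X) (x : X) :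
    Nat.card {z : X // Commute x z} = Nat.card {y : Y // Commute x (y : X)}
      * Y.relIndex (Subgroup.centralizer ({x} : Set X)) := by
  classical
  set C := Subgroup.centralizer ({x} : Set X)
  have h1 : Nat.card C = Nat.card (Y.subgroupOf C) * (Y.subgroupOf C).index :=
    (Subgroup.card_mul_index _).symm
  have h2 : Nat.card {z : X // Commute x z} = Nat.card C := by
    refine Nat.card_congr (Equiv.subtypeEquivRight ?_)
    intro z
    rw [Subgroup.mem_centralizer_singleton_iff]
    exact ⟨fun h => h.symm, fun h => h.symm⟩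
  have h3 : Nat.card (Y.subgroupOf C) = Nat.card {y : Y // Commute x (y : X)} := by
    refine Nat.card_congr
      { toFun := fun c => ⟨⟨c.1.1, c.2⟩, ?_⟩
        invFun := fun y => ⟨⟨y.1.1, ?_⟩, y.1.2⟩
        left_inv := fun _ => rfl
        right_inv := fun _ => rfl }
    · have := c.1.2
      rw [Subgroup.mem_centralizer_singleton_iff] at this
      exact this.symm
    · rw [Subgroup.mem_centralizer_singleton_iff]
      exact y.2.symm
  rw [h2, h1, h3]
  rfl

/-- The relative index in a subgroup is at most the index. -/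
theorem relIndex_le {X : Type*} [Group X] [Finite X] (Y C : Subgroup X) : Y.relIndex C ≤ Y.index := by
  have h := Subgroup.relIndex_le_of_le_right (H := Y) (K := C) (L := ⊤) le_top
    (by rw [Subgroup.relIndex_top_right]; exact Subgroup.index_ne_zero_of_finite)
  rwa [Subgroup.relIndex_top_right] at h

end Cfsg.Agent.Lib.H6Conj
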