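import Mathlib
import Cfsg.Agent.Lib.FitSolv

/-!
Coprime action on an abelian `q`-group: the index of the fixed points as a product of
orders of irreducible modules, each congruent to one modulo a prime (helper6).
-/

set_option autoImplicit false
set_option linter.style.haveILetI false
set_option linter.unusedSectionVars false
set_option linter.constructorNameAsVariable false

namespace Cfsg.Agent.Lib.H6Fac

open Subgroup

universe u v

variable {H : Type v} [Group H]

/-- The fixed point subgroup of an action by automorphisms. -/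
def fixS {V : Type u} [CommGroup V] (ρ : H →* MulAut V) : Subgroup V where
  carrier := {v | ∀ h, ρ h v = v}
  one_mem' := fun h => map_one (ρ h)
  mul_mem' := fun {a b} ha hb h => by rw [map_mul, ha h, hb h]
  inv_mem' := fun {a} ha h => by rw [map_inv, ha h]

/-- Invariant subgroups. -/
def Inv {V : Type u} [CommGroup V] (ρ : H →* MulAut V) (W : Subgroup V) : Prop :=
  ∀ h, ∀ w ∈ W, ρ h w ∈ W

theorem map_eq_of_inv {V : Type u} [CommGroup V] {ρ : H →* MulAut V} {W : Subgroup V} (hW : Inv ρ W) (h : H) :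
    W.map (ρ h).toMonoidHom = W := by
  apply le_antisymm
  · rintro _ ⟨w, hw, rfl⟩
    exact hW h w hw
  · intro w hw
    refine ⟨ρ h⁻¹ w, hW h⁻¹ w hw, ?_⟩
    show ρ h (ρ h⁻¹ w) = w
    rw [← MulAut.mul_apply, ← map_mul, mul_inv_cancel, map_one, MulAut.one_apply]

/-- The action on a quotient. -/
noncomputable def quotAct {V : Type u} [CommGroup V] (ρ : H →* MulAut V) (W : Subgroup V) (hW : Inv ρ W) :
    H →* MulAut (V ⧸ W) :=
  MonoidHom.mk' (fun h => QuotientGroup.congr W W (ρ h) (map_eq_of_inv hW h)) (by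
    intro a b
    ext x
    induction x using QuotientGroup.induction_on with
    | H x =>
      show ((ρ (a * b) x : V) : V ⧸ W) = ((ρ a (ρ b x) : V) : V ⧸ W)
      rw [map_mul, MulAut.mul_apply])

theorem quotAct_mk {V : Type u} [CommGroup V] (ρ : H →* MulAut V) (W : Subgroup V) (hW : Inv ρ W) (h : H) (x : V) :
    quotAct ρ W hW h (x : V ⧸ W) = ((ρ h x : V) : V ⧸ W) := rfl

/-- The restricted action. -/
noncomputable def subAct {V : Type u} [CommGroup V] (ρ : H →* MulAut V) (W : Subgroup V) (hW : Inv ρ W) :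
    H →* MulAut W :=
  MonoidHom.mk' (fun h =>
    { toFun := fun w => ⟨ρ h w, hW h w w.2⟩
      invFun := fun w => ⟨ρ h⁻¹ w, hW h⁻¹ w w.2⟩
      left_inv := fun w => Subtype.ext (by
        show ρ h⁻¹ (ρ h w) = w
        rw [← MulAut.mul_apply, ← map_mul, inv_mul_cancel, map_one, MulAut.one_apply])
      right_inv := fun w => Subtype.ext (by
        show ρ h (ρ h⁻¹ w) = w
        rw [← MulAut.mul_apply, ← map_mul, mul_inv_cancel, map_one, MulAut.one_apply])
      map_mul' := fun a b => Subtype.ext (by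
        show ρ h ((a : V) * b) = ρ h a * ρ h b
        rw [map_mul]) }) (by
    intro a b
    ext x
    show ρ (a * b) x = ρ a (ρ b x)
    rw [map_mul, MulAut.mul_apply])

theorem subAct_coe {V : Type u} [CommGroup V] (ρ : H →* MulAut V) (W : Subgroup V) (hW : Inv ρ W) (h : H) (w : W) :
    ((subAct ρ W hW h w : W) : V) = ρ h w := rfl

/-- An irreducible nontrivial module has order congruent to one modulo a prime dividing `|H|`. -/
theorem irr_modEq [Finite H] [Group.IsSolvable H] {V : Type u} [CommGroup V] [Finite V] (ρ : H →* MulAut V)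
    (W : Subgroup V) (hW : Inv ρ W) (hmin : ∀ U : Subgroup V, U ≤ W → Inv ρ U → U = ⊥ ∨ U = W)
    (hmove : ¬ W ≤ fixS ρ) : ∃ r : ℕ, r.Prime ∧ r ∣ Nat.card H ∧ Nat.card W ≡ 1 [MOD r] := by
  classical
  set ρ₁ := subAct ρ W hW with hρ₁
  set Q := ρ₁.range with hQ
  have hQne : Q ≠ ⊥ := by
    intro hb
    apply hmove
    intro w hw h
    have h1 : ρ₁ h ∈ Q := ⟨h, rfl⟩
    rw [hb, Subgroup.mem_bot] at h1
    have h2 : ρ₁ h ⟨w, hw⟩ = ⟨w, hw⟩ := by rw [h1]; rfl
    exact congrArg Subtype.val h2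
  haveI hQsolv : Group.IsSolvable Q := Group.isSolvable_of_surjective (f := ρ₁.rangeRestrict) ρ₁.rangeRestrict_surjective
  haveI hQnt : Nontrivial Q := (Subgroup.nontrivial_iff_ne_bot Q).mpr hQne
  -- a minimal normal subgroup
  let 𝒮 : Set (Subgroup Q) := {M | M.Normal ∧ M ≠ ⊥}
  have h𝒮 : 𝒮.Nonempty := ⟨⊤, normal_top, top_ne_bot⟩
  obtain ⟨M, hM⟩ := 𝒮.toFinite.exists_minimal h𝒮
  obtain ⟨hMn, hMne⟩ := hM.prop
  haveI := hMn
  obtain ⟨_, r, hr, hrpow⟩ := Cfsg.Agent.Lib.FitSolv.minimal_normal_elementary M hMne (by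
    intro N hNn hNM
    by_cases hNb : N = ⊥
    · exact Or.inl hNb
    · right
      exact le_antisymm hNM (hM.le_of_le ⟨hNn, hNb⟩ hNM))
  haveI : Fact r.Prime := ⟨hr⟩
  have hMp : IsPGroup r M := by
    intro x
    refine ⟨1, ?_⟩
    apply Subtype.ext
    rw [pow_one]
    exact hrpow x x.2
  have hrd : r ∣ Nat.card M := by
    obtain ⟨k, hk⟩ := IsPGroup.iff_card.mp hMp
    have hk0 : k ≠ 0 := by
      rintro rfl
      rw [pow_zero] at hk
      exact hMne (Subgroup.eq_bot_of_card_eq _ hk)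
    rw [hk]
    exact dvd_pow_self r hk0
  have hMH : Nat.card M ∣ Nat.card H := by
    have h1 : Nat.card M ∣ Nat.card Q := Subgroup.card_subgroup_dvd_card M
    have h2 : Nat.card Q ∣ Nat.card H := by
      rw [hQ, ← Subgroup.index_ker]
      exact Subgroup.index_dvd_card _
    exact h1.trans h2
  letI : MulAction M W := MulAction.compHom W (Q.subtype.comp M.subtype)
  have hsmul : ∀ (m : M) (w : W), m • w = ((m : Q) : MulAut W) w := fun _ _ => rfl
  have hcong := IsPGroup.card_modEq_card_fixedPoints hMp W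
  -- the fixed points of `M`
  let F : Subgroup W :=
    { carrier := {w | ∀ m : M, ((m : Q) : MulAut W) w = w}
      one_mem' := fun m => map_one _
      mul_mem' := fun {a b} ha hb m => by rw [map_mul, ha m, hb m]
      inv_mem' := fun {a} ha m => by rw [map_inv, ha m] }
  have hFinv : Inv ρ (F.map W.subtype) := by
    rintro h _ ⟨w, hw, rfl⟩
    refine ⟨ρ₁ h w, ?_, rfl⟩
    intro m
    let σ : Q := ⟨ρ₁ h, h, rfl⟩
    have h1 : σ⁻¹ * (m : Q) * σ⁻¹⁻¹ ∈ M := hMn.conj_mem _ m.2 σ⁻¹
    rw [inv_inv] at h1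
    have h2 := hw ⟨_, h1⟩
    have h4 : ((σ⁻¹ * (m : Q) * σ : Q) : MulAut W) = (σ : MulAut W)⁻¹ * ((m : Q) : MulAut W) * (σ : MulAut W) := rfl
    rw [show ((⟨_, h1⟩ : M) : Q) = σ⁻¹ * (m : Q) * σ from rfl, h4, MulAut.mul_apply, MulAut.mul_apply] at h2
    have h5 := congrArg (σ : MulAut W) h2
    simpa using h5
  rcases hmin _ (Subgroup.map_subtype_le F) hFinv with hb | hb
  · have hFb : F = ⊥ := (Subgroup.map_eq_bot_iff_of_injective F W.subtype_injective).mp hb
    refine ⟨r, hr, hrd.trans hMH, ?_⟩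
    have h1 : Nat.card (MulAction.fixedPoints M W) = 1 := by
      rw [Nat.card_eq_one_iff_unique]
      refine ⟨⟨fun a b => ?_⟩, ⟨⟨1, fun m => by
        show ((m : Q) : MulAut W) 1 = 1
        exact map_one _⟩⟩⟩
      have ha : (a : W) ∈ F := fun m => a.2 m
      have hb : (b : W) ∈ F := fun m => b.2 m
      rw [hFb, Subgroup.mem_bot] at ha hb
      exact Subtype.ext (ha.trans hb.symm)
    rw [h1] at hcong
    exact hcong
  · exfalso
    apply hMne
    rw [eq_bot_iff]
    intro m hm
    rw [Subgroup.mem_bot]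
    apply Subtype.ext
    apply MulEquiv.ext
    intro w
    have hwF : (w : V) ∈ F.map W.subtype := by
      rw [hb]
      exact w.2
    obtain ⟨w', hw', he⟩ := hwF
    have h1 : w' = w := Subtype.ext he
    rw [← h1]
    exact hw' ⟨m, hm⟩

/-- Lifting fixed points through a coprime quotient. -/
theorem fix_lift [Finite H] {V : Type u} [CommGroup V] [Finite V] (ρ : H →* MulAut V) (W : Subgroup V) (hW : Inv ρ W)
    (hcop : Nat.Coprime (Nat.card H) (Nat.card V)) :
    (fixS ρ).map (QuotientGroup.mk' W) = fixS (quotAct ρ W hW) := by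
  classical
  letI : Fintype H := Fintype.ofFinite H
  apply le_antisymm
  · rintro _ ⟨x, hx, rfl⟩ h
    show ((ρ h x : V) : V ⧸ W) = _
    rw [hx h]
    rfl
  · intro y hy
    obtain ⟨x, rfl⟩ := QuotientGroup.mk_surjective y
    have hx : ∀ h, ((ρ h x : V) : V ⧸ W) = (x : V ⧸ W) := fun h => hy h
    let N : V := ∏ h : H, ρ h x
    have hNfix : N ∈ fixS ρ := by
      intro g
      show ρ g (∏ h : H, ρ h x) = ∏ h : H, ρ h x
      rw [map_prod]
      apply Fintype.prod_equiv (Equiv.mulLeft g)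
      intro h
      show ρ g (ρ h x) = ρ (g * h) x
      rw [map_mul, MulAut.mul_apply]
    have hNmk : ((N : V) : V ⧸ W) = (x : V ⧸ W) ^ Nat.card H := by
      show (QuotientGroup.mk' W) (∏ h : H, ρ h x) = _
      rw [map_prod]
      have : ∀ h ∈ (Finset.univ : Finset H), (QuotientGroup.mk' W) (ρ h x) = (x : V ⧸ W) := fun h _ => hx h
      rw [Finset.prod_congr rfl this, Finset.prod_const, Finset.card_univ, Nat.card_eq_fintype_card]
    rcases Nat.lt_or_ge 1 (Nat.card V) with h1 | h1
    · obtain ⟨e, _, he⟩ := Nat.exists_mul_mod_eq_one_of_coprime hcop h1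
      refine ⟨N ^ e, pow_mem hNfix e, ?_⟩
      show ((N ^ e : V) : V ⧸ W) = _
      rw [QuotientGroup.mk_pow, hNmk, ← pow_mul]
      have h2 : (x : V ⧸ W) ^ Nat.card V = 1 := by
        rw [← QuotientGroup.mk_pow, pow_card_eq_one']
        rfl
      rw [pow_eq_pow_mod _ h2, he, pow_one]
    · have h0 : Nat.card V = 1 := by
        have := Nat.card_pos (α := V)
        omega
      haveI : Subsingleton V := (Nat.card_eq_one_iff_unique.mp h0).1
      refine ⟨x, ?_, rfl⟩
      intro h
      exact Subsingleton.elim _ _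

/-- The order of the image in the quotient. -/
theorem card_map_mk {V : Type u} [CommGroup V] [Finite V] (A W : Subgroup V) :
    Nat.card (A.map (QuotientGroup.mk' W)) * Nat.card (W ⊓ A : Subgroup V) = Nat.card A := by
  set ψ : A →* V ⧸ W := (QuotientGroup.mk' W).comp A.subtype with hψ
  have h1 : ψ.range = A.map (QuotientGroup.mk' W) := by
    rw [hψ, MonoidHom.range_comp, Subgroup.range_subtype]
  have h2 : Nat.card ψ.ker = Nat.card (W ⊓ A : Subgroup V) := by
    apply Nat.card_congr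
    refine ⟨fun k => ⟨(k.1 : V), ?_, k.1.2⟩, fun x => ⟨⟨x.1, x.2.2⟩, ?_⟩, ?_, ?_⟩
    · have := k.2
      rw [MonoidHom.mem_ker] at this
      exact (QuotientGroup.eq_one_iff _).mp this
    · rw [MonoidHom.mem_ker]
      exact (QuotientGroup.eq_one_iff _).mpr x.2.1
    · intro k
      rfl
    · intro k
      rfl
  rw [← h1, ← h2, mul_comm, ← Subgroup.index_ker]
  exact ψ.ker.card_mul_index

/-- The factorization of the index of the fixed points. -/
theorem fac [Finite H] [Group.IsSolvable H] (q : ℕ) [hq : Fact q.Prime] (hqH : ¬ q ∣ Nat.card H) :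
    ∀ (N : ℕ) (V : Type u) [CommGroup V] [Finite V] (ρ : H →* MulAut V), Nat.card V = N → IsPGroup q V →
      ∃ l : List ℕ, Nat.card V = l.prod * Nat.card (fixS ρ) ∧
        ∀ f ∈ l, (∃ e, f = q ^ e) ∧ f ∣ Nat.card V ∧ ∃ r : ℕ, r.Prime ∧ r ∣ Nat.card H ∧ f ≡ 1 [MOD r] := by
  intro N
  induction N using Nat.strong_induction_on with
  | _ N ih =>
    intro V _ _ ρ hN hV
    classical
    by_cases hnt : Nontrivial V
    swap
    · rw [not_nontrivial_iff_subsingleton] at hnt
      refine ⟨[], ?_, by simp⟩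
      have h1 : Nat.card V = 1 := Nat.card_unique
      have h2 : Nat.card (fixS ρ) = 1 := Nat.card_unique
      rw [h1, h2]
      rfl
    let 𝒮 : Set (Subgroup V) := {W | W ≠ ⊥ ∧ Inv ρ W}
    have h𝒮 : 𝒮.Nonempty := ⟨⊤, top_ne_bot, fun _ _ _ => mem_top _⟩
    obtain ⟨W, hWm⟩ := 𝒮.toFinite.exists_minimal h𝒮
    obtain ⟨hWb, hW⟩ := hWm.prop
    have hmin : ∀ U : Subgroup V, U ≤ W → Inv ρ U → U = ⊥ ∨ U = W := by
      intro U hUW hU
      by_cases hUb : U = ⊥
      · exact Or.inl hUb
      · exact Or.inr (le_antisymm hUW (hWm.le_of_le ⟨hUb, hU⟩ hUW))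
    have hcardsplit : Nat.card V = Nat.card (V ⧸ W) * Nat.card W :=
      Subgroup.card_eq_card_quotient_mul_card_subgroup W
    have hWcard : 1 < Nat.card W := by
      rw [Subgroup.one_lt_card_iff_ne_bot]
      exact hWb
    have hlt : Nat.card (V ⧸ W) < N := by
      rw [← hN, hcardsplit]
      have : 0 < Nat.card (V ⧸ W) := Nat.card_pos
      nlinarith
    have hVp : IsPGroup q (V ⧸ W) := hV.to_quotient W
    obtain ⟨l, hl, hlf⟩ := ih _ hlt (V ⧸ W) (quotAct ρ W hW) rfl hVp
    have hcop : Nat.Coprime (Nat.card H) (Nat.card V) := by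
      obtain ⟨k, hk⟩ := IsPGroup.iff_card.mp hV
      rw [hk]
      exact Nat.Coprime.pow_right _ ((Nat.Prime.coprime_iff_not_dvd hq.out).mpr hqH).symm
    have hlift := fix_lift ρ W hW hcop
    have hmap := card_map_mk (fixS ρ) W
    rw [hlift] at hmap
    have hdvd : Nat.card (V ⧸ W) ∣ Nat.card V := ⟨_, hcardsplit⟩
    by_cases hfix : W ≤ fixS ρ
    · refine ⟨l, ?_, ?_⟩
      · rw [inf_eq_left.mpr hfix] at hmap
        rw [hcardsplit, hl, ← hmap]
        ring
      · intro f hf
        obtain ⟨h1, h2, h3⟩ := hlf f hf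
        exact ⟨h1, h2.trans hdvd, h3⟩
    · have hinf : W ⊓ fixS ρ = ⊥ := by
        rcases hmin (W ⊓ fixS ρ) inf_le_left (by
          rintro h w ⟨hw, hwf⟩
          exact ⟨hW h w hw, by rw [hwf h]; exact hwf⟩) with h | h
        · exact h
        · exact absurd (inf_eq_left.mp h) hfix
      rw [hinf, Subgroup.card_bot, mul_one] at hmap
      obtain ⟨r, hr, hrH, hrm⟩ := irr_modEq ρ W hW hmin hfix
      refine ⟨Nat.card W :: l, ?_, ?_⟩
      · rw [hcardsplit, hl, hmap, List.prod_cons]
        ring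
      · intro f hf
        rcases List.mem_cons.mp hf with rfl | hf
        · refine ⟨?_, ⟨_, by rw [hcardsplit, mul_comm]⟩, r, hr, hrH, hrm⟩
          obtain ⟨k, hk⟩ := IsPGroup.iff_card.mp (hV.to_subgroup W)
          exact ⟨k, hk⟩
        · obtain ⟨h1, h2, h3⟩ := hlf f hf
          exact ⟨h1, h2.trans hdvd, h3⟩

end Cfsg.Agent.Lib.H6Fac
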