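import Mathlib

/-! Fixed-point-free automorphisms with `σ ^ 4 = 1`: the action on the chief factors. -/

set_option autoImplicit false

namespace Cfsg.Agent.Lib.H6Fpf4

open Subgroup
open scoped commutatorElement

section Act

variable {U : Type*} [CommGroup U]

lemma norm_one (s : MulAut U) (hs4 : ∀ u, s (s (s (s u))) = u) (hfpf : ∀ u, s u = u → u = 1) (u : U) :
    u * s u * s (s u) * s (s (s u)) = 1 := by
  apply hfpf
  simp only [map_mul, hs4]
  ac_rfl

lemma s_mul_four (s : MulAut U) (hs4 : ∀ u, s (s (s (s u))) = u) : s * s * s * s = 1 := by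
  apply MulEquiv.ext
  intro u
  exact hs4 u

variable [Finite U]

/-- A group of automorphisms normalised by `s`, on which `s ^ 2` acts without fixed points and whose
order is coprime to that of `U`, acts trivially. -/
theorem frob_trivial (s : MulAut U) (hs4 : ∀ u, s (s (s (s u))) = u) (hfpf : ∀ u, s u = u → u = 1)
    (E : Subgroup (MulAut U)) (hco : (Nat.card E).Coprime (Nat.card U))
    (hEs : ∀ e ∈ E, s * e * s⁻¹ ∈ E)
    (hEτ : ∀ e ∈ E, (s * s) * e * (s * s)⁻¹ = e → e = 1) : ∀ e ∈ E, ∀ u, e u = u := by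
  classical
  haveI : Fintype E := Fintype.ofFinite E
  let P : U → U := fun w => ∏ f : E, (f : MulAut U) w
  have hP : ∀ (e : E) (w : U), (e : MulAut U) (P w) = P w := by
    intro e w
    simp only [P, map_prod]
    exact Fintype.prod_equiv (Equiv.mulLeft e) _ _ (fun f => rfl)
  have hbij : ∀ t : MulAut U, (∀ e ∈ E, t * e * t⁻¹ ∈ E) → (∀ e ∈ E, t * e * t⁻¹ = e → e = 1) →
      ∀ w : U, ∏ f : E, ((f : MulAut U) * t * (f : MulAut U)⁻¹) w = P (t w) := by
    intro t ht htf w
    let c : E → E := fun f => f * ⟨t * (f : MulAut U)⁻¹ * t⁻¹, ht _ (E.inv_mem f.2)⟩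
    have hinj : Function.Injective c := by
      intro a b hab
      have h1 : (a : MulAut U) * (t * (a : MulAut U)⁻¹ * t⁻¹) =
          (b : MulAut U) * (t * (b : MulAut U)⁻¹ * t⁻¹) := congrArg Subtype.val hab
      have h3 : (a : MulAut U) * t * (a : MulAut U)⁻¹ = (b : MulAut U) * t * (b : MulAut U)⁻¹ := by
        calc (a : MulAut U) * t * (a : MulAut U)⁻¹
            = ((a : MulAut U) * (t * (a : MulAut U)⁻¹ * t⁻¹)) * t := by group
          _ = ((b : MulAut U) * (t * (b : MulAut U)⁻¹ * t⁻¹)) * t := by rw [h1]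
          _ = _ := by group
      have h2 : t * ((b : MulAut U)⁻¹ * a) * t⁻¹ = (b : MulAut U)⁻¹ * a := by
        calc t * ((b : MulAut U)⁻¹ * a) * t⁻¹
            = (b : MulAut U)⁻¹ * ((b : MulAut U) * t * (b : MulAut U)⁻¹) * a * t⁻¹ := by group
          _ = (b : MulAut U)⁻¹ * ((a : MulAut U) * t * (a : MulAut U)⁻¹) * a * t⁻¹ := by rw [h3]
          _ = _ := by group
      have h4 := htf _ (E.mul_mem (E.inv_mem b.2) a.2) h2
      have h5 : (b : MulAut U) = a := by
        have := mul_eq_one_iff_eq_inv.mp h4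
        exact (inv_injective this)
      exact Subtype.ext h5.symm
    have hb : Function.Bijective c := ⟨hinj, Finite.injective_iff_surjective.mp hinj⟩
    have h1 : ∀ f : E, ((f : MulAut U) * t * (f : MulAut U)⁻¹) w = ((c f : E) : MulAut U) (t w) := by
      intro f
      show ((f : MulAut U) * t * (f : MulAut U)⁻¹) w = ((f : MulAut U) * (t * (f : MulAut U)⁻¹ * t⁻¹)) (t w)
      simp only [MulAut.mul_apply, MulAut.inv_apply_self]
    simp only [h1]
    exact hb.prod_comp (fun g : E => (g : MulAut U) (t w))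
  have hEτ1 : ∀ e ∈ E, s * e * s⁻¹ = e → e = 1 := by
    intro e he h
    apply hEτ e he
    calc (s * s) * e * (s * s)⁻¹ = s * (s * e * s⁻¹) * s⁻¹ := by group
      _ = s * e * s⁻¹ := congrArg (fun x => s * x * s⁻¹) h
      _ = e := h
  have h4 := s_mul_four s hs4
  have hsinv : s⁻¹ = s * s * s := by
    rw [inv_eq_iff_mul_eq_one, ← mul_assoc, ← mul_assoc, h4]
  have hE2 : ∀ e ∈ E, (s * s) * e * (s * s)⁻¹ ∈ E := by
    intro e he
    have := hEs _ (hEs e he)
    have h5 : s * (s * e * s⁻¹) * s⁻¹ = (s * s) * e * (s * s)⁻¹ := by group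
    rwa [h5] at this
  have hE3 : ∀ e ∈ E, (s * s * s) * e * (s * s * s)⁻¹ ∈ E := by
    intro e he
    have := hEs _ (hE2 e he)
    have h5 : s * ((s * s) * e * (s * s)⁻¹) * s⁻¹ = (s * s * s) * e * (s * s * s)⁻¹ := by group
    rwa [h5] at this
  have hEτ3 : ∀ e ∈ E, (s * s * s) * e * (s * s * s)⁻¹ = e → e = 1 := by
    intro e he h
    apply hEτ1 e he
    rw [← hsinv, inv_inv] at h
    calc s * e * s⁻¹ = s * (s⁻¹ * e * s) * s⁻¹ := by rw [h]
      _ = e := by group
  have hkey : ∀ u : U, (u ^ Fintype.card E) * (P (s u) * P (s (s u)) * P (s (s (s u)))) = 1 := by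
    intro u
    have h1 : ∀ f : E, u * ((f : MulAut U) * s * (f : MulAut U)⁻¹) u *
        ((f : MulAut U) * (s * s) * (f : MulAut U)⁻¹) u *
        ((f : MulAut U) * (s * s * s) * (f : MulAut U)⁻¹) u = 1 := by
      intro f
      have h2 := norm_one s hs4 hfpf ((f : MulAut U)⁻¹ u)
      have h3 := congrArg (f : MulAut U) h2
      simp only [map_mul, map_one, MulAut.apply_inv_self] at h3
      exact h3
    have h2 : ∏ f : E, (u * ((f : MulAut U) * s * (f : MulAut U)⁻¹) u *
        ((f : MulAut U) * (s * s) * (f : MulAut U)⁻¹) u *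
        ((f : MulAut U) * (s * s * s) * (f : MulAut U)⁻¹) u) = 1 :=
      Finset.prod_eq_one fun f _ => h1 f
    rw [Finset.prod_mul_distrib, Finset.prod_mul_distrib, Finset.prod_mul_distrib,
      hbij s hEs hEτ1 u, hbij (s * s) hE2 hEτ u, hbij (s * s * s) hE3 hEτ3 u, Finset.prod_const,
      Finset.card_univ] at h2
    rw [← h2]
    simp only [MulAut.mul_apply, mul_assoc]
  have hfix : ∀ (e : E) (u : U), (e : MulAut U) (u ^ Fintype.card E) = u ^ Fintype.card E := by
    intro e u
    have h1 := hkey u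
    have h2 : u ^ Fintype.card E = (P (s u) * P (s (s u)) * P (s (s (s u))))⁻¹ :=
      eq_inv_of_mul_eq_one_left h1
    rw [h2, map_inv, map_mul, map_mul, hP, hP, hP]
  intro e he u
  have hco' : (Fintype.card E).Coprime (orderOf u) := by
    rw [← Nat.card_eq_fintype_card]
    exact Nat.Coprime.coprime_dvd_right (orderOf_dvd_natCard u) hco
  obtain ⟨m, hm⟩ := exists_pow_eq_self_of_coprime hco'
  have h1 := hfix ⟨e, he⟩ u
  have h2 : e ((u ^ Fintype.card E) ^ m) = (u ^ Fintype.card E) ^ m := by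
    rw [map_pow]
    exact congrArg (· ^ m) h1
  rwa [hm] at h2

end Act

lemma comm_ne {X : Type*} [Group X] (Γ E : Subgroup X) (hsol : Group.IsSolvable Γ) (hle : E ≤ Γ)
    (hne : E ≠ ⊥) : ⁅E, E⁆ ≠ E := by
  intro h
  haveI : Group.IsSolvable E := solvable_of_solvable_injective (Subgroup.inclusion_injective hle)
  haveI : Nontrivial E := (Subgroup.nontrivial_iff_ne_bot E).mpr hne
  have h1 := Group.IsSolvable.commutator_lt_top_of_nontrivial E
  apply h1.ne
  apply Subgroup.map_injective E.subtype_injective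
  rw [Subgroup.map_subtype_commutator, h, ← MonoidHom.range_eq_map, Subgroup.range_subtype]

section Act2

variable {U : Type*} [CommGroup U] [Finite U]

/-- The structure theorem: a group of automorphisms, normalised by `s`, on an irreducible section:
either it is trivial or `s ^ 2` is the inversion. -/
theorem inv_of_irred (s : MulAut U) (hs4 : ∀ u, s (s (s (s u))) = u) (hfpf : ∀ u, s u = u → u = 1)
    (hUne : Nontrivial U)
    (Γ : Subgroup (MulAut U)) (hsol : Group.IsSolvable Γ) (hΓodd : Odd (Nat.card Γ))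
    (hΓs : ∀ γ ∈ Γ, s * γ * s⁻¹ ∈ Γ) (hΓfpf : ∀ γ ∈ Γ, s * γ * s⁻¹ = γ → γ = 1)
    (hirr : ∀ W : Subgroup U, W ≠ ⊥ → (∀ γ ∈ Γ, ∀ w ∈ W, γ w ∈ W) → (∀ w ∈ W, s w ∈ W) → W = ⊤)
    (hΓ : Γ ≠ ⊥) : ∀ u, s (s u) = u⁻¹ := by
  classical
  -- odd order consequences
  have hodd2 : ∀ e ∈ Γ, e ^ 2 = 1 → e = 1 := by
    intro e he h
    have h1 : orderOf e ∣ 2 := orderOf_dvd_of_pow_eq_one h
    have h2 : orderOf e ∣ Nat.card Γ := by
      have := orderOf_dvd_natCard (⟨e, he⟩ : Γ)
      rwa [Subgroup.orderOf_mk] at this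
    have h3 : Odd (orderOf e) := hΓodd.of_dvd_nat h2
    have h4 : orderOf e = 1 := by
      rcases (Nat.dvd_prime Nat.prime_two).mp h1 with h5 | h5
      · exact h5
      · rw [h5] at h3
        exact absurd h3 (by decide)
    exact orderOf_eq_one_iff.mp h4
  have hcop2 : ∀ e ∈ Γ, Nat.Coprime 2 (orderOf e) := by
    intro e he
    have h2 : orderOf e ∣ Nat.card Γ := by
      have := orderOf_dvd_natCard (⟨e, he⟩ : Γ)
      rwa [Subgroup.orderOf_mk] at this
    have h3 : Odd (orderOf e) := hΓodd.of_dvd_nat h2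
    exact (Nat.coprime_two_left).mpr h3
  have h4' := s_mul_four s hs4
  have hsinv : s⁻¹ = s * s * s := by
    rw [inv_eq_iff_mul_eq_one, ← mul_assoc, ← mul_assoc, h4']
  have htt : ∀ e : MulAut U, (s * s) * ((s * s) * e * (s * s)⁻¹) * (s * s)⁻¹ = e := by
    intro e
    have h1 : (s * s) * (s * s) = 1 := by
      rw [← mul_assoc, h4']
    have h2 : (s * s)⁻¹ = s * s := by
      rw [inv_eq_iff_mul_eq_one, h1]
    rw [h2]
    calc s * s * (s * s * e * (s * s)) * (s * s) = ((s * s) * (s * s)) * e * ((s * s) * (s * s)) := by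
          simp only [mul_assoc]
      _ = e := by rw [h1]; group
  -- the minimal normal subgroup
  let Fam : Set (Subgroup (MulAut U)) := {E | E ≠ ⊥ ∧ E ≤ Γ ∧ (∀ γ ∈ Γ, ∀ e ∈ E, γ * e * γ⁻¹ ∈ E) ∧
    (∀ e ∈ E, s * e * s⁻¹ ∈ E)}
  have hFne : Fam.Nonempty := ⟨Γ, hΓ, le_refl _, fun γ hγ e he => Γ.mul_mem (Γ.mul_mem hγ he) (Γ.inv_mem hγ), hΓs⟩
  obtain ⟨E, ⟨hE1, hE2, hE3, hE4⟩, hmin'⟩ := Set.exists_min_image Fam (fun E => Nat.card E) (Set.toFinite _) hFne
  have hmin : ∀ F ∈ Fam, F ≤ E → F = E := fun F hF hle =>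
    Subgroup.eq_of_le_of_card_ge hle (hmin' F hF)
  have hE4' : ∀ e ∈ E, s⁻¹ * e * s ∈ E := by
    intro e he
    have h1 := hE4 _ (hE4 _ (hE4 e he))
    have h2 : s * (s * (s * e * s⁻¹) * s⁻¹) * s⁻¹ = s⁻¹ * e * s := by
      calc s * (s * (s * e * s⁻¹) * s⁻¹) * s⁻¹ = (s * s * s) * e * (s * s * s)⁻¹ := by group
        _ = s⁻¹ * e * s := by rw [← hsinv, inv_inv]
    rwa [h2] at h1
  -- `E` is abelian
  have hcomm : ∀ a ∈ E, ∀ b ∈ E, a * b = b * a := by
    have hF : ⁅E, E⁆ = ⊥ := by
      by_contra hne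
      apply comm_ne Γ E hsol hE2 hE1
      apply hmin
      · refine ⟨hne, (Subgroup.commutator_le_self E).trans hE2, ?_, ?_⟩
        · intro γ hγ e he
          have h1 : ⁅E, E⁆.map (MulAut.conj γ).toMonoidHom ≤ ⁅E, E⁆ := by
            rw [Subgroup.map_commutator]
            have h2 : E.map (MulAut.conj γ).toMonoidHom ≤ E := by
              rintro _ ⟨x, hx, rfl⟩
              exact hE3 γ hγ x hx
            exact Subgroup.commutator_mono h2 h2
          exact h1 ⟨e, he, rfl⟩
        · intro e he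
          have h1 : ⁅E, E⁆.map (MulAut.conj s).toMonoidHom ≤ ⁅E, E⁆ := by
            rw [Subgroup.map_commutator]
            have h2 : E.map (MulAut.conj s).toMonoidHom ≤ E := by
              rintro _ ⟨x, hx, rfl⟩
              exact hE4 x hx
            exact Subgroup.commutator_mono h2 h2
          exact h1 ⟨e, he, rfl⟩
      · exact Subgroup.commutator_le_self E
    intro a ha b hb
    have h1 : ⁅a, b⁆ ∈ ⁅E, E⁆ := Subgroup.commutator_mem_commutator ha hb
    rw [hF, Subgroup.mem_bot, commutatorElement_eq_one_iff_mul_comm] at h1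
    exact h1
  -- the prime of `U`
  have hcardU : Nat.card U ≠ 1 := Finite.one_lt_card.ne'
  obtain ⟨r, hr, hrd⟩ := Nat.exists_prime_and_dvd hcardU
  haveI := Fact.mk hr
  have hUr : ∀ u : U, u ^ r = 1 := by
    have hW : (powMonoidHom r : U →* U).ker = ⊤ := by
      apply hirr
      · obtain ⟨y, hy⟩ := exists_prime_orderOf_dvd_card' r hrd
        intro h0
        have h1 : y ∈ (powMonoidHom r : U →* U).ker := by
          rw [MonoidHom.mem_ker, powMonoidHom_apply, ← hy, pow_orderOf_eq_one]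
        rw [h0, Subgroup.mem_bot] at h1
        rw [h1, orderOf_one] at hy
        exact hr.one_lt.ne hy
      · intro γ _ w hw
        rw [MonoidHom.mem_ker, powMonoidHom_apply] at hw ⊢
        rw [← map_pow, hw, map_one]
      · intro w hw
        rw [MonoidHom.mem_ker, powMonoidHom_apply] at hw ⊢
        rw [← map_pow, hw, map_one]
    intro u
    have : u ∈ (powMonoidHom r : U →* U).ker := by rw [hW]; trivial
    exact this
  have hUp : IsPGroup r U := fun u => ⟨1, by rw [pow_one]; exact hUr u⟩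
  have hrE : ¬ r ∣ Nat.card E := by
    intro hd
    let E₁ : Subgroup (MulAut U) :=
      { carrier := {e | e ∈ E ∧ e ^ r = 1}
        one_mem' := ⟨E.one_mem, one_pow _⟩
        inv_mem' := fun {x} hx => ⟨E.inv_mem hx.1, by rw [inv_pow, hx.2, inv_one]⟩
        mul_mem' := fun {a b} ha hb => ⟨E.mul_mem ha.1 hb.1, by
          have hc : Commute a b := hcomm a ha.1 b hb.1
          rw [hc.mul_pow, ha.2, hb.2, one_mul]⟩ }
    obtain ⟨y, hy⟩ := exists_prime_orderOf_dvd_card' r hd
    have hE₁ne : E₁ ≠ ⊥ := by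
      intro h0
      have h1 : (y : MulAut U) ∈ E₁ := ⟨y.2, by
        have h2 := pow_orderOf_eq_one y
        rw [hy] at h2
        exact_mod_cast congrArg Subtype.val h2⟩
      rw [h0, Subgroup.mem_bot] at h1
      have h2 : y = 1 := Subtype.ext h1
      rw [h2, orderOf_one] at hy
      exact hr.one_lt.ne hy
    have hE₁E : E₁ = E := by
      apply hmin
      · refine ⟨hE₁ne, (fun x hx => hE2 hx.1), ?_, ?_⟩
        · intro γ hγ e he
          refine ⟨hE3 γ hγ e he.1, ?_⟩
          rw [conj_pow, he.2, mul_one, mul_inv_cancel]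
        · intro e he
          refine ⟨hE4 e he.1, ?_⟩
          rw [conj_pow, he.2, mul_one, mul_inv_cancel]
      · exact fun x hx => hx.1
    have hEp : IsPGroup r E := by
      intro x
      refine ⟨1, Subtype.ext ?_⟩
      have h1 : (x : MulAut U) ∈ E₁ := by rw [hE₁E]; exact x.2
      rw [pow_one]
      exact_mod_cast h1.2
    have hfix1 : (1 : U) ∈ MulAction.fixedPoints E U := fun e => map_one (e : MulAut U)
    obtain ⟨b, hb, hne⟩ := hEp.exists_fixed_point_of_prime_dvd_card_of_fixed_point U hrd hfix1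
    let W : Subgroup U :=
      { carrier := {u | ∀ e ∈ E, e u = u}
        one_mem' := fun e _ => map_one e
        inv_mem' := fun {x} hx e he => by rw [map_inv, hx e he]
        mul_mem' := fun {a b} ha hb e he => by rw [map_mul, ha e he, hb e he] }
    have hWne : W ≠ ⊥ := by
      intro h0
      have h1 : b ∈ W := fun e he => hb ⟨e, he⟩
      rw [h0, Subgroup.mem_bot] at h1
      exact hne h1.symm
    have hWtop : W = ⊤ := by
      apply hirr W hWne
      · intro γ hγ w hw e he
        have h1 : γ⁻¹ * e * γ⁻¹⁻¹ ∈ E := hE3 _ (Γ.inv_mem hγ) e he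
        have h2 := hw _ h1
        have h3 : (γ⁻¹ * e * γ⁻¹⁻¹) w = γ⁻¹ (e (γ w)) := by
          simp only [MulAut.mul_apply, inv_inv]
        rw [h3] at h2
        calc e (γ w) = γ (γ⁻¹ (e (γ w))) := (MulAut.apply_inv_self _ _ _).symm
          _ = γ w := by rw [h2]
      · intro w hw e he
        have h1 := hw _ (hE4' e he)
        have h3 : (s⁻¹ * e * s) w = s⁻¹ (e (s w)) := by
          simp only [MulAut.mul_apply]
        rw [h3] at h1
        calc e (s w) = s (s⁻¹ (e (s w))) := (MulAut.apply_inv_self _ _ _).symm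
          _ = s w := by rw [h1]
    apply hE1
    rw [eq_bot_iff]
    intro e he
    rw [Subgroup.mem_bot]
    apply MulEquiv.ext
    intro u
    have : u ∈ W := by rw [hWtop]; trivial
    exact this e he
  have hco : (Nat.card E).Coprime (Nat.card U) := by
    obtain ⟨k, hk⟩ := IsPGroup.iff_card.mp hUp
    rw [hk]
    exact Nat.Coprime.pow_right k ((Nat.Prime.coprime_iff_not_dvd hr).mpr hrE).symm
  -- the part of `E` inverted by `t = s * s`
  let t : MulAut U := s * s
  have hts : ∀ e : MulAut U, s * (t * e * t⁻¹) * s⁻¹ = t * (s * e * s⁻¹) * t⁻¹ := by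
    intro e
    simp only [t]
    group
  have hEt : ∀ e ∈ E, t * e * t⁻¹ ∈ E := by
    intro e he
    have h1 := hE4 _ (hE4 e he)
    have h2 : s * (s * e * s⁻¹) * s⁻¹ = t * e * t⁻¹ := by
      simp only [t]
      group
    rwa [h2] at h1
  let Em : Subgroup (MulAut U) :=
    { carrier := {e | e ∈ E ∧ t * e * t⁻¹ = e⁻¹}
      one_mem' := ⟨E.one_mem, by group⟩
      inv_mem' := fun {x} hx => ⟨E.inv_mem hx.1, by
        have h1 : t * x⁻¹ * t⁻¹ = (t * x * t⁻¹)⁻¹ := by group
        rw [h1, hx.2]⟩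
      mul_mem' := fun {a b} ha hb => ⟨E.mul_mem ha.1 hb.1, by
        have h1 : t * (a * b) * t⁻¹ = (t * a * t⁻¹) * (t * b * t⁻¹) := by group
        rw [h1, ha.2, hb.2, mul_inv_rev]
        exact (hcomm _ (E.inv_mem ha.1) _ (E.inv_mem hb.1))⟩ }
  have hEmfix : ∀ e ∈ Em, ∀ u, e u = u := by
    apply frob_trivial s hs4 hfpf Em
    · exact Nat.Coprime.coprime_dvd_left (Subgroup.card_dvd_of_le (fun x hx => hx.1)) hco
    · intro e he
      refine ⟨hE4 e he.1, ?_⟩
      rw [← hts, he.2]
      group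
    · intro e he h
      apply hodd2 e (hE2 he.1)
      have h1 : e = e⁻¹ := h.symm.trans he.2
      rw [pow_two]
      nth_rewrite 1 [h1]
      exact inv_mul_cancel e
  have hEm1 : ∀ e ∈ Em, e = 1 := fun e he => MulEquiv.ext (hEmfix e he)
  have hEtriv : ∀ e ∈ E, t * e * t⁻¹ = e := by
    intro e he
    have h1 : e * (t * e * t⁻¹)⁻¹ ∈ Em := by
      refine ⟨E.mul_mem he (E.inv_mem (hEt e he)), ?_⟩
      have h2 : t * (e * (t * e * t⁻¹)⁻¹) * t⁻¹ = (t * e * t⁻¹) * (t * (t * e * t⁻¹) * t⁻¹)⁻¹ := by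
        group
      rw [h2]
      have h3 : t * (t * e * t⁻¹) * t⁻¹ = e := htt e
      rw [h3]
      group
    have h2 := hEm1 _ h1
    rw [mul_inv_eq_one] at h2
    exact h2.symm
  -- the action of `s` on `E`
  have hEinv : ∀ e ∈ E, s * e * s⁻¹ = e⁻¹ := by
    intro e he
    have h1 : s * (e * (s * e * s⁻¹)) * s⁻¹ = e * (s * e * s⁻¹) := by
      have h2 : s * (e * (s * e * s⁻¹)) * s⁻¹ = (s * e * s⁻¹) * (t * e * t⁻¹) := by
        simp only [t]
        group
      rw [h2, hEtriv e he]
      exact hcomm _ (hE4 e he) _ he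
    have h2 := hΓfpf _ (hE2 (E.mul_mem he (hE4 e he))) h1
    exact eq_inv_of_mul_eq_one_right h2
  -- vectors fixed by `t` are inverted by `s`
  have hVinv : ∀ v : U, s (s v) = v → s v = v⁻¹ := by
    intro v hv
    have h1 : s (v * s v) = v * s v := by
      rw [map_mul, hv, mul_comm]
    have h2 := hfpf _ h1
    exact eq_inv_of_mul_eq_one_right h2
  have hEv : ∀ e ∈ E, ∀ v : U, s (s v) = v → e v = v := by
    intro e he v hv
    have hte : t * e = e * t := by
      have := hEtriv e he
      rwa [mul_inv_eq_iff_eq_mul] at this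
    have h1 : s (s (e v)) = e (s (s v)) := congrArg (fun f : MulAut U => f v) hte
    have hse : s * e = e⁻¹ * s := by
      have := hEinv e he
      rwa [mul_inv_eq_iff_eq_mul] at this
    have h2 : s (e v) = e⁻¹ (s v) := congrArg (fun f : MulAut U => f v) hse
    have h3 : s (s (e v)) = e v := by rw [h1, hv]
    have h4 := hVinv _ h3
    rw [h2, hVinv v hv, map_inv] at h4
    have h5 : e⁻¹ v = e v := inv_injective h4
    have h6 : (e ^ 2) v = v := by
      rw [pow_two, MulAut.mul_apply, ← h5, MulAut.apply_inv_self]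
    obtain ⟨m, hm⟩ := exists_pow_eq_self_of_coprime (hcop2 e (hE2 he))
    have h7 : ∀ k : ℕ, ((e ^ 2) ^ k) v = v := by
      intro k
      induction k with
      | zero => rfl
      | succ k ih => rw [pow_succ, MulAut.mul_apply, h6, ih]
    have h8 := h7 m
    rwa [hm] at h8
  -- the commutator
  let W : Subgroup U := Subgroup.closure {x | ∃ e ∈ E, ∃ u : U, x = e u * u⁻¹}
  have haux : ∀ a b c d : U, a * b = c * d → b * d⁻¹ = c * a⁻¹ := by
    intro a b c d h
    rw [mul_inv_eq_iff_eq_mul]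
    calc b = a⁻¹ * (a * b) := by group
      _ = a⁻¹ * (c * d) := by rw [h]
      _ = c * a⁻¹ * d := by rw [mul_left_comm, mul_assoc]
  have hWinv : ∀ w ∈ W, s (s w) = w⁻¹ := by
    intro w hw
    induction hw using Subgroup.closure_induction with
    | mem x hx =>
      obtain ⟨e, he, u, rfl⟩ := hx
      have hfix : s (s (u * s (s u))) = u * s (s u) := by
        rw [map_mul, map_mul, hs4, mul_comm]
      have h1 := hEv e he _ hfix
      rw [map_mul] at h1
      have hte : t * e = e * t := by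
        have := hEtriv e he
        rwa [mul_inv_eq_iff_eq_mul] at this
      have h2 : s (s (e u)) = e (s (s u)) := congrArg (fun f : MulAut U => f u) hte
      rw [map_mul, map_mul, h2, map_inv, map_inv, mul_inv_rev, inv_inv]
      exact haux _ _ _ _ h1
    | one => simp
    | mul a b _ _ ha hb => rw [map_mul, map_mul, ha, hb, mul_inv]
    | inv a _ ha => rw [map_inv, map_inv, ha]
  have hWne : W ≠ ⊥ := by
    intro h0
    apply hE1
    rw [eq_bot_iff]
    intro e he
    rw [Subgroup.mem_bot]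
    apply MulEquiv.ext
    intro u
    have h1 : e u * u⁻¹ ∈ W := Subgroup.subset_closure ⟨e, he, u, rfl⟩
    rw [h0, Subgroup.mem_bot, mul_inv_eq_one] at h1
    exact h1
  have hWtop : W = ⊤ := by
    apply hirr W hWne
    · intro γ hγ w hw
      induction hw using Subgroup.closure_induction with
      | mem x hx =>
        obtain ⟨e, he, u, rfl⟩ := hx
        apply Subgroup.subset_closure
        refine ⟨γ * e * γ⁻¹, hE3 γ hγ e he, γ u, ?_⟩
        simp only [map_mul, map_inv, MulAut.mul_apply, MulAut.inv_apply_self]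
      | one => rw [map_one]; exact W.one_mem
      | mul a b _ _ ha hb => rw [map_mul]; exact W.mul_mem ha hb
      | inv a _ ha => rw [map_inv]; exact W.inv_mem ha
    · intro w hw
      induction hw using Subgroup.closure_induction with
      | mem x hx =>
        obtain ⟨e, he, u, rfl⟩ := hx
        apply Subgroup.subset_closure
        refine ⟨s * e * s⁻¹, hE4 e he, s u, ?_⟩
        simp only [map_mul, map_inv, MulAut.mul_apply, MulAut.inv_apply_self]
      | one => rw [map_one]; exact W.one_mem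
      | mul a b _ _ ha hb => rw [map_mul]; exact W.mul_mem ha hb
      | inv a _ ha => rw [map_inv]; exact W.inv_mem ha
  intro u
  exact hWinv u (by rw [hWtop]; trivial)

end Act2

section Grp

variable {G : Type*} [Group G]

/-- The coprime argument for fixed points in quotients. -/
theorem fpf_quot [Finite G] (σ : G ≃* G) (hfpf : ∀ g, σ g = g → g = 1) (N : Subgroup G) [hN : N.Normal]
    (hσN : ∀ n ∈ N, σ n ∈ N) (g : G) (hg : σ g * g⁻¹ ∈ N) : g ∈ N := by
  let f : N → N := fun n => n * (⟨σ n, hσN n n.2⟩ : N)⁻¹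
  have hinj : Function.Injective f := by
    intro a b hab
    have h1 : (a : G) * (σ a)⁻¹ = b * (σ b)⁻¹ := congrArg Subtype.val hab
    have h2 : σ ((b : G)⁻¹ * a) = (b : G)⁻¹ * a := by
      rw [map_mul, map_inv]
      have h3 : (σ (b : G))⁻¹ = (b : G)⁻¹ * (a * (σ a)⁻¹) := by
        rw [h1]
        group
      rw [h3]
      group
    have h3 := hfpf _ h2
    have h4 : (b : G) = a := by
      have := mul_eq_one_iff_eq_inv.mp h3
      exact inv_injective this
    exact Subtype.ext h4.symm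
  have hsurj := Finite.injective_iff_surjective.mp hinj
  have hmem : g⁻¹ * σ g ∈ N := by
    have := hN.conj_mem _ hg g⁻¹
    have h2 : g⁻¹ * (σ g * g⁻¹) * g⁻¹⁻¹ = g⁻¹ * σ g := by group
    rwa [h2] at this
  obtain ⟨n, hn⟩ := hsurj ⟨g⁻¹ * σ g, hmem⟩
  have hn' : (n : G) * (σ n)⁻¹ = g⁻¹ * σ g := congrArg Subtype.val hn
  have h1 : σ (g * n) = g * n := by
    rw [map_mul]
    have h2 : σ g = g * (n * (σ n)⁻¹) := by
      rw [hn']
      group
    rw [h2]
    group
  have h2 := hfpf _ h1
  have h3 : g = (n : G)⁻¹ := mul_eq_one_iff_eq_inv.mp h2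
  rw [h3]
  exact N.inv_mem n.2

/-- An involutory fixed-point-free automorphism forces commutativity. -/
theorem comm_of_fpf_invol [Finite G] (φ : G ≃* G) (h2 : ∀ g, φ (φ g) = g) (hfpf : ∀ g, φ g = g → g = 1)
    (a b : G) : a * b = b * a := by
  have hinj : Function.Injective (fun x : G => x⁻¹ * φ x) := by
    intro x y hxy
    have h1 : x⁻¹ * φ x = y⁻¹ * φ y := hxy
    have h3 : φ (y * x⁻¹) = y * x⁻¹ := by
      rw [map_mul, map_inv]
      have h4 : φ y = y * (x⁻¹ * φ x) := by
        rw [h1]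
        group
      rw [h4]
      group
    have h4 := hfpf _ h3
    exact (mul_inv_eq_one.mp h4).symm
  have hsurj := Finite.injective_iff_surjective.mp hinj
  have hinv : ∀ g, φ g = g⁻¹ := by
    intro g
    obtain ⟨x, rfl⟩ := hsurj g
    show φ (x⁻¹ * φ x) = (x⁻¹ * φ x)⁻¹
    rw [map_mul, map_inv, h2, mul_inv_rev, inv_inv]
  have h3 := hinv (a * b)
  rw [map_mul, hinv, hinv, mul_inv_rev] at h3
  have h4 : (a * b)⁻¹ = (b * a)⁻¹ := by
    rw [mul_inv_rev, mul_inv_rev]
    exact h3.symm ▸ rfl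
  exact inv_injective h4

/-- The order is odd. -/
theorem odd_card [Finite G] (σ : G ≃* G) (hσ4 : ∀ g, σ (σ (σ (σ g))) = g) (hfpf : ∀ g, σ g = g → g = 1) :
    Odd (Nat.card G) := by
  classical
  have hs4 : (σ : MulAut G) ^ 4 = 1 := by
    apply MulEquiv.ext
    intro g
    exact hσ4 g
  have hP : IsPGroup 2 (Subgroup.zpowers (σ : MulAut G)) := by
    rintro ⟨x, k, rfl⟩
    refine ⟨2, Subtype.ext ?_⟩
    show ((σ : MulAut G) ^ k) ^ 2 ^ 2 = 1
    rw [← zpow_natCast, ← zpow_mul, mul_comm, zpow_mul]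
    norm_num
    rw [hs4]
    simp
  have hmod := hP.card_modEq_card_fixedPoints G
  have hfix : Nat.card (MulAction.fixedPoints (Subgroup.zpowers (σ : MulAut G)) G) = 1 := by
    rw [Nat.card_eq_one_iff_unique]
    refine ⟨⟨fun a b => ?_⟩, ⟨⟨1, fun x => map_one (x : MulAut G)⟩⟩⟩
    have ha := a.2
    have hb := b.2
    have h1 : (a : G) = 1 := hfpf _ (ha ⟨σ, Subgroup.mem_zpowers _⟩)
    have h2 : (b : G) = 1 := hfpf _ (hb ⟨σ, Subgroup.mem_zpowers _⟩)
    exact Subtype.ext (h1.trans h2.symm)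
  rw [hfix] at hmod
  exact Nat.odd_iff.mpr hmod

/-- The subgroup generated by the `g⁻¹ τ(g)`. -/
def KK (σ : G ≃* G) : Subgroup G := Subgroup.closure {x | ∃ g : G, x = g⁻¹ * σ (σ g)}

/-- The subgroup `KK σ` centralises each minimal invariant normal subgroup. -/
theorem KK_centralizes [Finite G] (hsol : Group.IsSolvable G)
    (σ : G ≃* G) (hσ4 : ∀ g, σ (σ (σ (σ g))) = g) (hfpf : ∀ g, σ g = g → g = 1)
    (V : Subgroup G) [hVn : V.Normal] (hVne : V ≠ ⊥) (hσV : ∀ v ∈ V, σ v ∈ V)
    (hmin : ∀ W : Subgroup G, W.Normal → W ≠ ⊥ → (∀ w ∈ W, σ w ∈ W) → W ≤ V → W = V) :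
    ∀ g : G, g⁻¹ * σ (σ g) ∈ centralizer (V : Set G) := by
  classical
  -- `V` is abelian
  have hab : ∀ a ∈ V, ∀ b ∈ V, a * b = b * a := by
    have hF : ⁅V, V⁆ = ⊥ := by
      by_contra hne
      have hlt := Group.IsSolvable.commutator_lt_of_ne_bot hVne
      apply hlt.ne
      apply hmin _ inferInstance hne _ (Subgroup.commutator_le_self V)
      intro w hw
      have h1 : ⁅V, V⁆.map σ.toMonoidHom ≤ ⁅V, V⁆ := by
        rw [Subgroup.map_commutator]
        have h2 : V.map σ.toMonoidHom ≤ V := by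
          rintro _ ⟨x, hx, rfl⟩
          exact hσV x hx
        exact Subgroup.commutator_mono h2 h2
      exact h1 ⟨w, hw, rfl⟩
    intro a ha b hb
    have h1 : ⁅a, b⁆ ∈ ⁅V, V⁆ := Subgroup.commutator_mem_commutator ha hb
    rw [hF, Subgroup.mem_bot, commutatorElement_eq_one_iff_mul_comm] at h1
    exact h1
  letI cV : CommGroup V := { (inferInstance : Group V) with
    mul_comm := fun a b => Subtype.ext (hab a a.2 b b.2) }
  let s : MulAut V :=
    { toFun := fun v => ⟨σ (v : G), hσV _ v.2⟩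
      invFun := fun v => ⟨σ (σ (σ (v : G))), hσV _ (hσV _ (hσV _ v.2))⟩
      left_inv := fun v => Subtype.ext (hσ4 (v : G))
      right_inv := fun v => Subtype.ext (hσ4 (v : G))
      map_mul' := fun a b => Subtype.ext (map_mul σ (a : G) (b : G)) }
  have hsv : ∀ v : V, ((s v : V) : G) = σ (v : G) := fun v => rfl
  have hsinv : ∀ v : V, ((s⁻¹ v : V) : G) = σ (σ (σ (v : G))) := fun v => rfl
  let c : G →* MulAut V := MulAut.conjNormal
  have hcv : ∀ (g : G) (v : V), ((c g v : V) : G) = g * v * g⁻¹ := fun g v => MulAut.conjNormal_apply g v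
  have hsc : ∀ g : G, s * c g * s⁻¹ = c (σ g) := by
    intro g
    apply MulEquiv.ext
    intro v
    apply Subtype.ext
    rw [hcv, MulAut.mul_apply, MulAut.mul_apply, hsv, hcv, hsinv]
    simp only [map_mul, map_inv, hσ4]
  have hC : ∀ g : G, c g = 1 ↔ g ∈ centralizer (V : Set G) := by
    intro g
    rw [mem_centralizer_iff]
    constructor
    · intro h v hv
      have h1 := hcv g ⟨v, hv⟩
      rw [h] at h1
      have h2 : v = g * v * g⁻¹ := h1
      calc v * g = (g * v * g⁻¹) * g := by rw [← h2]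
        _ = g * v := by group
    · intro h
      apply MulEquiv.ext
      intro v
      apply Subtype.ext
      rw [hcv]
      have h1 := h v v.2
      show g * v * g⁻¹ = v
      rw [← h1]
      group
  haveI hCn : (centralizer (V : Set G)).Normal := by
    constructor
    intro n hn g
    have h1 : c (g * n * g⁻¹) = 1 := by
      rw [map_mul, map_mul, (hC n).mpr hn, mul_one, map_inv, mul_inv_cancel]
    exact (hC _).mp h1
  have hσC : ∀ n ∈ centralizer (V : Set G), σ n ∈ centralizer (V : Set G) := by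
    intro n hn
    have h1 : c (σ n) = 1 := by
      rw [← hsc, (hC n).mpr hn, mul_one, mul_inv_cancel]
    exact (hC _).mp h1
  have hUne : Nontrivial V := (Subgroup.nontrivial_iff_ne_bot V).mpr hVne
  have hΓsol : Group.IsSolvable c.range := solvable_of_surjective c.rangeRestrict_surjective
  have hΓodd : Odd (Nat.card c.range) :=
    (odd_card σ hσ4 hfpf).of_dvd_nat (Subgroup.card_range_dvd c)
  have hs4' : ∀ u : V, s (s (s (s u))) = u := fun u => Subtype.ext (hσ4 (u : G))
  have hfpf' : ∀ u : V, s u = u → u = 1 := fun u h =>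
    Subtype.ext (hfpf _ (congrArg Subtype.val h))
  by_cases hΓ : c.range = ⊥
  · intro g
    have h1 : c (g⁻¹ * σ (σ g)) = 1 := by
      have h2 : c (g⁻¹ * σ (σ g)) ∈ c.range := ⟨_, rfl⟩
      rw [hΓ] at h2
      exact h2
    exact (hC _).mp h1
  have hinv := inv_of_irred s hs4' hfpf' hUne c.range hΓsol hΓodd
    (by
      rintro _ ⟨g, rfl⟩
      rw [hsc]
      exact ⟨_, rfl⟩)
    (by
      rintro _ ⟨g, rfl⟩ h
      rw [hsc] at h
      have h1 : σ g * g⁻¹ ∈ centralizer (V : Set G) := by
        rw [← hC, map_mul, map_inv, h, mul_inv_cancel]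
      have h2 := fpf_quot σ hfpf (centralizer (V : Set G)) hσC g h1
      exact (hC _).mpr h2)
    (by
      intro W hWne hWΓ hWs
      have hW' : W.map V.subtype = V := by
        apply hmin
        · constructor
          rintro _ ⟨w, hw, rfl⟩ g
          exact ⟨c g w, hWΓ _ ⟨g, rfl⟩ w hw, hcv g w⟩
        · intro h0
          apply hWne
          exact (Subgroup.map_eq_bot_iff_of_injective _ V.subtype_injective).mp h0
        · rintro _ ⟨w, hw, rfl⟩
          exact ⟨s w, hWs w hw, rfl⟩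
        · rintro _ ⟨w, _, rfl⟩
          exact w.2
      rw [eq_top_iff]
      intro v _
      have h1 : (v : G) ∈ W.map V.subtype := by rw [hW']; exact v.2
      obtain ⟨w, hw, hwv⟩ := h1
      have h2 : w = v := Subtype.ext hwv
      rwa [← h2])
    hΓ
  have hinv' : ∀ v ∈ V, σ (σ v) = v⁻¹ := by
    intro v hv
    exact congrArg Subtype.val (hinv ⟨v, hv⟩)
  intro g
  rw [mem_centralizer_iff]
  intro v hv
  have h1 : g * v⁻¹ * g⁻¹ ∈ V := hVn.conj_mem _ (V.inv_mem hv) g
  have h2 := hinv' _ h1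
  rw [map_mul, map_mul, map_mul, map_mul, map_inv, map_inv, map_inv, map_inv, hinv' v hv] at h2
  simp only [inv_inv] at h2
  -- `σσ g * v * (σσ g)⁻¹ = g * v * g⁻¹`
  have h3 : σ (σ g) * v * (σ (σ g))⁻¹ = g * v * g⁻¹ := by
    rw [h2]
    group
  calc v * (g⁻¹ * σ (σ g)) = g⁻¹ * (g * v * g⁻¹) * σ (σ g) := by group
    _ = g⁻¹ * (σ (σ g) * v * (σ (σ g))⁻¹) * σ (σ g) := by rw [h3]
    _ = g⁻¹ * σ (σ g) * v := by group

end Grp

section Main

universe u

theorem nilp_of_le {X : Type*} [Group X] {H K : Subgroup X} (hle : H ≤ K) (hK : Group.IsNilpotent K) :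
    Group.IsNilpotent H := by
  apply Subgroup.isNilpotent_of_ker_le_center (Subgroup.inclusion hle)
  intro x hx
  rw [MonoidHom.mem_ker] at hx
  have h1 : x = 1 := Subgroup.inclusion_injective hle (by rw [hx, map_one])
  rw [h1]
  exact Subgroup.one_mem _

/-- The main induction: `KK σ` is nilpotent. -/
theorem KK_nilp : ∀ (n : ℕ) (G : Type u) [Group G] [Finite G], Nat.card G = n → Group.IsSolvable G →
    ∀ σ : G ≃* G, (∀ g, σ (σ (σ (σ g))) = g) → (∀ g, σ g = g → g = 1) → Group.IsNilpotent (KK σ) := by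
  classical
  intro n
  induction n using Nat.strong_induction_on with
  | _ n ih =>
    intro G _ _ hn hsol σ hσ4 hfpf
    by_cases hG : Nontrivial G
    swap
    · rw [not_nontrivial_iff_subsingleton] at hG
      infer_instance
    have hFam : ({W : Subgroup G | W.Normal ∧ W ≠ ⊥ ∧ ∀ w ∈ W, σ w ∈ W}).Nonempty :=
      ⟨⊤, inferInstance, top_ne_bot, fun _ _ => trivial⟩
    obtain ⟨V, ⟨hVn, hVne, hσV⟩, hVmin⟩ := Set.exists_min_image _ (fun W : Subgroup G => Nat.card W)
      (Set.toFinite _) hFam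
    haveI := hVn
    have hmin : ∀ W : Subgroup G, W.Normal → W ≠ ⊥ → (∀ w ∈ W, σ w ∈ W) → W ≤ V → W = V :=
      fun W h1 h2 h3 h4 => Subgroup.eq_of_le_of_card_ge h4 (hVmin W ⟨h1, h2, h3⟩)
    have hcen := KK_centralizes hsol σ hσ4 hfpf V hVne hσV hmin
    have hKC : KK σ ≤ centralizer (V : Set G) := by
      rw [KK, Subgroup.closure_le]
      rintro _ ⟨g, rfl⟩
      exact hcen g
    have hVmap : V.map σ.toMonoidHom = V := by
      apply le_antisymm
      · rintro _ ⟨x, hx, rfl⟩
        exact hσV x hx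
      · intro v hv
        exact ⟨σ (σ (σ v)), hσV _ (hσV _ (hσV _ hv)), hσ4 v⟩
    let σ' : (G ⧸ V) ≃* (G ⧸ V) := QuotientGroup.congr V V σ hVmap
    have hσ'mk : ∀ g : G, σ' (QuotientGroup.mk g) = QuotientGroup.mk (σ g) := fun g => rfl
    have hcard : Nat.card (G ⧸ V) < n := by
      rw [← hn, Subgroup.card_eq_card_quotient_mul_card_subgroup V]
      have h1 : 1 < Nat.card V := by
        haveI : Nontrivial V := (Subgroup.nontrivial_iff_ne_bot V).mpr hVne
        exact Finite.one_lt_card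
      have h2 : 0 < Nat.card (G ⧸ V) := Nat.card_pos
      nlinarith
    have hIH := ih _ hcard (G ⧸ V) rfl inferInstance σ'
      (by
        intro x
        obtain ⟨g, rfl⟩ := QuotientGroup.mk_surjective x
        rw [hσ'mk, hσ'mk, hσ'mk, hσ'mk, hσ4])
      (by
        intro x hx
        obtain ⟨g, rfl⟩ := QuotientGroup.mk_surjective x
        rw [hσ'mk, QuotientGroup.eq] at hx
        have h1 : σ g * g⁻¹ ∈ V := by
          have := hVn.conj_mem _ hx (σ g)
          have h2 : σ g * ((σ g)⁻¹ * g) * (σ g)⁻¹ = g * (σ g)⁻¹ := by group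
          rw [h2] at this
          have := V.inv_mem this
          rwa [mul_inv_rev, inv_inv] at this
        have h2 := fpf_quot σ hfpf V hσV g h1
        exact (QuotientGroup.eq_one_iff g).mpr h2)
    let f : KK σ →* KK σ' :=
      ((QuotientGroup.mk' V).comp (KK σ).subtype).codRestrict (KK σ') (by
        rintro ⟨x, hx⟩
        show (QuotientGroup.mk x : G ⧸ V) ∈ KK σ'
        induction hx using Subgroup.closure_induction with
        | mem y hy =>
          obtain ⟨g, rfl⟩ := hy
          apply Subgroup.subset_closure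
          exact ⟨QuotientGroup.mk g, rfl⟩
        | one => exact Subgroup.one_mem _
        | mul a b _ _ ha hb => exact Subgroup.mul_mem _ ha hb
        | inv a _ ha => exact Subgroup.inv_mem _ ha)
    apply Subgroup.isNilpotent_of_ker_le_center f
    intro x hx
    rw [MonoidHom.mem_ker] at hx
    have hxV : (x : G) ∈ V := by
      have h1 : (QuotientGroup.mk (x : G) : G ⧸ V) = 1 := congrArg Subtype.val hx
      exact (QuotientGroup.eq_one_iff _).mp h1
    rw [Subgroup.mem_center_iff]
    intro y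
    apply Subtype.ext
    show (y : G) * x = x * y
    exact (mem_centralizer_iff.mp (hKC y.2) x hxV).symm

/-- The commutator subgroup lies in `KK σ`. -/
theorem commutator_le_KK {G : Type*} [Group G] [Finite G] (σ : G ≃* G)
    (hσ4 : ∀ g, σ (σ (σ (σ g))) = g) (hfpf : ∀ g, σ g = g → g = 1) :
    commutator G ≤ KK σ := by
  haveI hKn : (KK σ).Normal := by
    constructor
    intro x hx h
    induction hx using Subgroup.closure_induction with
    | mem y hy =>
      obtain ⟨g, rfl⟩ := hy
      have h1 : h * (g⁻¹ * σ (σ g)) * h⁻¹ =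
          ((g * h⁻¹)⁻¹ * σ (σ (g * h⁻¹))) * ((h⁻¹)⁻¹ * σ (σ h⁻¹))⁻¹ := by
        simp only [map_mul, map_inv]
        group
      rw [h1]
      exact Subgroup.mul_mem _ (Subgroup.subset_closure ⟨_, rfl⟩)
        (Subgroup.inv_mem _ (Subgroup.subset_closure ⟨_, rfl⟩))
    | one => simp
    | mul a b _ _ ha hb =>
      have h1 : h * (a * b) * h⁻¹ = (h * a * h⁻¹) * (h * b * h⁻¹) := by group
      rw [h1]
      exact Subgroup.mul_mem _ ha hb
    | inv a _ ha =>
      have h1 : h * a⁻¹ * h⁻¹ = (h * a * h⁻¹)⁻¹ := by group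
      rw [h1]
      exact Subgroup.inv_mem _ ha
  have hσK : ∀ x ∈ KK σ, σ x ∈ KK σ := by
    intro x hx
    induction hx using Subgroup.closure_induction with
    | mem y hy =>
      obtain ⟨g, rfl⟩ := hy
      apply Subgroup.subset_closure
      exact ⟨σ g, by rw [map_mul, map_inv]⟩
    | one => rw [map_one]; exact Subgroup.one_mem _
    | mul a b _ _ ha hb => rw [map_mul]; exact Subgroup.mul_mem _ ha hb
    | inv a _ ha => rw [map_inv]; exact Subgroup.inv_mem _ ha
  have hKmap : (KK σ).map σ.toMonoidHom = KK σ := by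
    apply le_antisymm
    · rintro _ ⟨x, hx, rfl⟩
      exact hσK x hx
    · intro v hv
      exact ⟨σ (σ (σ v)), hσK _ (hσK _ (hσK _ hv)), hσ4 v⟩
  let σ' : (G ⧸ KK σ) ≃* (G ⧸ KK σ) := QuotientGroup.congr (KK σ) (KK σ) σ hKmap
  have hσ'mk : ∀ g : G, σ' (QuotientGroup.mk g) = QuotientGroup.mk (σ g) := fun g => rfl
  have hab := comm_of_fpf_invol σ'
    (by
      intro x
      obtain ⟨g, rfl⟩ := QuotientGroup.mk_surjective x
      rw [hσ'mk, hσ'mk]
      symm
      rw [QuotientGroup.eq]
      exact Subgroup.subset_closure ⟨g, rfl⟩)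
    (by
      intro x hx
      obtain ⟨g, rfl⟩ := QuotientGroup.mk_surjective x
      rw [hσ'mk, QuotientGroup.eq] at hx
      have h1 : σ g * g⁻¹ ∈ KK σ := by
        have := hKn.conj_mem _ hx (σ g)
        have h2 : σ g * ((σ g)⁻¹ * g) * (σ g)⁻¹ = g * (σ g)⁻¹ := by group
        rw [h2] at this
        have := (KK σ).inv_mem this
        rwa [mul_inv_rev, inv_inv] at this
      have h2 := fpf_quot σ hfpf (KK σ) hσK g h1
      exact (QuotientGroup.eq_one_iff g).mpr h2)
  rw [commutator_def, Subgroup.commutator_le]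
  intro a _ b _
  rw [← QuotientGroup.eq_one_iff]
  have h1 := hab (QuotientGroup.mk a) (QuotientGroup.mk b)
  rw [commutatorElement_def]
  simp only [QuotientGroup.mk_mul, QuotientGroup.mk_inv]
  rw [h1]
  group

/-- The Gorenstein–Herstein theorem for solvable groups. -/
theorem main {G : Type*} [Group G] [Finite G] (hG : Group.IsSolvable G) (σ : MulAut G) (hσ : σ ^ 4 = 1)
    (hfpf : ∀ g : G, σ g = g → g = 1) : Group.IsNilpotent (commutator G) := by
  have hσ4 : ∀ g, σ (σ (σ (σ g))) = g := by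
    intro g
    have : (σ ^ 4) g = g := by rw [hσ]; rfl
    exact this
  exact nilp_of_le (commutator_le_KK σ hσ4 hfpf) (KK_nilp _ G rfl hG σ hσ4 hfpf)

end Main

end Cfsg.Agent.Lib.H6Fpf4
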