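import Mathlib
import Cfsg.Agent.Lib.H6Frob

/-!
Frobenius' theorem on the number of roots in a conjugacy class.
-/

set_option autoImplicit false
set_option linter.all false

namespace Cfsg.Agent.Lib.H6Frob

universe u

variable {K : Type u} [Group K] [Finite K]

/-- Roots of a nontrivial element in `p`-power exponent. -/
theorem roots_part {p a N : ℕ} (hp : p.Prime) (e₀ : K) (he : e₀ ≠ 1) :
    p ^ a ∣ Nat.card {u : K // u ^ (p ^ N) = 1 ∧ u ^ (p ^ a) = e₀} := by
  classical
  letI : Fintype {u : K // u ^ (p ^ N) = 1 ∧ u ^ (p ^ a) = e₀} := Fintype.ofFinite _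
  letI : Fintype (Subgroup K) := Fintype.ofFinite _
  rw [Nat.card_eq_fintype_card]
  let π : {u : K // u ^ (p ^ N) = 1 ∧ u ^ (p ^ a) = e₀} → Subgroup K := fun x => Subgroup.zpowers (x : K)
  rw [← Finset.card_univ]
  rw [Finset.card_eq_sum_card_fiberwise (f := π) (t := Finset.univ.image π)
    (fun x _ => Finset.mem_coe.mpr (Finset.mem_image_of_mem π (Finset.mem_univ x)))]
  refine Finset.dvd_sum fun C hC => ?_
  obtain ⟨u₀, -, rfl⟩ := Finset.mem_image.mp hC
  have hu₀1 : (u₀ : K) ^ (p ^ N) = 1 := u₀.2.1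
  have hu₀2 : (u₀ : K) ^ (p ^ a) = e₀ := u₀.2.2
  obtain ⟨j, hjN, hj⟩ := (Nat.dvd_prime_pow hp).mp (orderOf_dvd_of_pow_eq_one hu₀1)
  have haj : a < j := by
    by_contra h
    push_neg at h
    apply he
    rw [← hu₀2]
    apply orderOf_dvd_iff_pow_eq_one.mp
    rw [hj]
    exact pow_dvd_pow p h
  have hmemC : ∀ y : K, y ∈ π u₀ → y ^ (p ^ j) = 1 := by
    intro y hy
    obtain ⟨i, rfl⟩ := Subgroup.mem_zpowers_iff.mp hy
    rw [← zpow_natCast, ← zpow_mul, mul_comm, zpow_mul, zpow_natCast, ← hj, pow_orderOf_eq_one, one_zpow]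
  have hcommC : ∀ y ∈ π u₀, ∀ y' ∈ π u₀, y * y' = y' * y := by
    intro y hy y' hy'
    obtain ⟨i, rfl⟩ := Subgroup.mem_zpowers_iff.mp hy
    obtain ⟨i', rfl⟩ := Subgroup.mem_zpowers_iff.mp hy'
    rw [← zpow_add, ← zpow_add, add_comm]
  have hgen : ∀ y : K, y ∈ π u₀ → y ^ (p ^ a) = e₀ → Subgroup.zpowers y = π u₀ := by
    intro y hy hy2
    apply Subgroup.eq_of_le_of_card_ge
    · exact Subgroup.zpowers_le.mpr hy
    · have h1 : Nat.card (π u₀) = p ^ j := by
        show Nat.card (Subgroup.zpowers (u₀ : K)) = _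
        rw [Nat.card_zpowers, hj]
      rw [h1, Nat.card_zpowers]
      obtain ⟨i, hij, hi⟩ := (Nat.dvd_prime_pow hp).mp (orderOf_dvd_of_pow_eq_one (hmemC y hy))
      rw [hi]
      apply Nat.pow_le_pow_right hp.pos
      by_contra hlt
      push_neg at hlt
      have h2 : y ^ (p ^ (j - 1)) = 1 := by
        apply orderOf_dvd_iff_pow_eq_one.mp
        rw [hi]
        exact pow_dvd_pow p (by omega)
      have h3 : (u₀ : K) ^ (p ^ (j - 1)) = 1 := by
        have h4 : j - 1 = a + (j - 1 - a) := by omega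
        rw [h4, pow_add, pow_mul, hu₀2, ← hy2, ← pow_mul, ← pow_add, ← h4]
        exact h2
      have h5 := orderOf_dvd_of_pow_eq_one h3
      rw [hj] at h5
      have h6 := Nat.le_of_dvd (pow_pos hp.pos _) h5
      have h7 : p ^ (j - 1) < p ^ j := Nat.pow_lt_pow_right hp.one_lt (by omega)
      omega
  apply dvd_of_eq
  letI : Finite (π u₀) := inferInstance
  haveI hcyc : IsCyclic (π u₀) := Subgroup.isCyclic_zpowers _
  letI instC : CommGroup (π u₀) := IsCyclic.commGroup
  have hker := IsCyclic.card_powMonoidHom_ker (G := π u₀) (p ^ a)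
  have h1 : Nat.card (π u₀) = p ^ j := by
    show Nat.card (Subgroup.zpowers (u₀ : K)) = _
    rw [Nat.card_zpowers, hj]
  rw [h1, Nat.gcd_comm, Nat.gcd_eq_left (pow_dvd_pow p haj.le)] at hker
  have hkerm : ∀ w : ↥(π u₀), w ∈ (powMonoidHom (p ^ a) : π u₀ →* π u₀).ker ↔ (w : K) ^ (p ^ a) = 1 := by
    intro w
    rw [MonoidHom.mem_ker, powMonoidHom_apply]
    constructor
    · intro h
      exact congrArg Subtype.val h
    · intro h
      exact Subtype.ext h
  have hu₀mem : (u₀ : K) ∈ π u₀ := Subgroup.mem_zpowers _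
  have hmemu : ∀ u : {u : K // u ^ (p ^ N) = 1 ∧ u ^ (p ^ a) = e₀}, π u = π u₀ → (u : K) ∈ π u₀ := by
    intro u hu
    rw [← hu]
    exact Subgroup.mem_zpowers _
  have hfib : Nat.card (powMonoidHom (p ^ a) : π u₀ →* π u₀).ker = (Finset.univ.filter (fun x => π x = π u₀)).card := by
    rw [← Fintype.card_subtype, ← Nat.card_eq_fintype_card]
    apply Nat.card_congr
    have hA : ∀ w : (powMonoidHom (p ^ a) : π u₀ →* π u₀).ker, ((w.1 : K) * u₀) ∈ π u₀ := fun w =>
      Subgroup.mul_mem _ w.1.2 hu₀mem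
    have hB : ∀ w : (powMonoidHom (p ^ a) : π u₀ →* π u₀).ker, ((w.1 : K) * u₀) ^ (p ^ N) = 1 := by
      intro w
      have h2 := hmemC _ (hA w)
      exact orderOf_dvd_iff_pow_eq_one.mp ((orderOf_dvd_of_pow_eq_one h2).trans (pow_dvd_pow p hjN))
    have hC' : ∀ w : (powMonoidHom (p ^ a) : π u₀ →* π u₀).ker, ((w.1 : K) * u₀) ^ (p ^ a) = e₀ := by
      intro w
      have hc : Commute (w.1 : K) (u₀ : K) := hcommC _ w.1.2 _ hu₀mem
      rw [hc.mul_pow, (hkerm w.1).mp w.2, one_mul, hu₀2]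
    refine ⟨fun w => ⟨⟨(w.1 : K) * u₀, hB w, hC' w⟩, hgen _ (hA w) (hC' w)⟩,
      fun u => ⟨⟨(u.1 : K) * (u₀ : K)⁻¹, Subgroup.mul_mem _ (hmemu u.1 u.2) (Subgroup.inv_mem _ hu₀mem)⟩, ?_⟩, ?_, ?_⟩
    · rw [hkerm]
      have hc : Commute (u.1 : K) ((u₀ : K)⁻¹) := hcommC _ (hmemu u.1 u.2) _ (Subgroup.inv_mem _ hu₀mem)
      show ((u.1 : K) * (u₀ : K)⁻¹) ^ (p ^ a) = 1
      rw [hc.mul_pow, u.1.2.2, inv_pow, hu₀2, mul_inv_cancel]
    · intro w
      apply Subtype.ext
      apply Subtype.ext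
      show (w.1 : K) * u₀ * (u₀ : K)⁻¹ = w.1
      group
    · intro u
      apply Subtype.ext
      apply Subtype.ext
      show (u.1 : K) * (u₀ : K)⁻¹ * u₀ = u.1
      group
  rw [← hfib]
  exact hker.symm

/-- Roots with `p`-power order, in all groups. -/
theorem roots_p {p a m N : ℕ} (hp : p.Prime) (hm : ¬ p ∣ m) (hN : ∀ j, p ^ j ∣ Nat.card K → j ≤ N) (e : K) :
    Nat.gcd (p ^ a) (Nat.card K) ∣ Nat.card {u : K // u ^ (p ^ N) = 1 ∧ u ^ (p ^ a * m) = e} := by
  classical
  by_cases hS : Nonempty {u : K // u ^ (p ^ N) = 1 ∧ u ^ (p ^ a * m) = e}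
  swap
  · haveI : IsEmpty {u : K // u ^ (p ^ N) = 1 ∧ u ^ (p ^ a * m) = e} := not_nonempty_iff.mp hS
    have h0 : Nat.card {u : K // u ^ (p ^ N) = 1 ∧ u ^ (p ^ a * m) = e} = 0 := Nat.card_of_isEmpty
    rw [h0]
    exact dvd_zero _
  obtain ⟨⟨u₀, hu1, hu2⟩⟩ := hS
  have he : e ^ (p ^ N) = 1 := by
    rw [← hu2, ← pow_mul, mul_comm, pow_mul, hu1, one_pow]
  have hcop : Nat.Coprime m (p ^ N) := (Nat.Coprime.pow_left N ((Nat.Prime.coprime_iff_not_dvd hp).mpr hm)).symm
  have hb : (1 : ℤ) = m * Nat.gcdA m (p ^ N) + (p ^ N : ℕ) * Nat.gcdB m (p ^ N) := by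
    have := Nat.gcd_eq_gcd_ab m (p ^ N)
    rw [hcop] at this
    exact_mod_cast this
  set X := Nat.gcdA m (p ^ N) with hX
  set Y := Nat.gcdB m (p ^ N) with hY
  set e₀ := e ^ X with he₀
  have hequiv : Nat.card {u : K // u ^ (p ^ N) = 1 ∧ u ^ (p ^ a * m) = e} =
      Nat.card {u : K // u ^ (p ^ N) = 1 ∧ u ^ (p ^ a) = e₀} := by
    apply Nat.card_congr
    apply Equiv.subtypeEquivRight
    intro u
    constructor
    · rintro ⟨h1, h2⟩
      refine ⟨h1, ?_⟩
      have h5 : (u ^ (p ^ a * m)) ^ X = u ^ (((p ^ a * m : ℕ) : ℤ) * X) := by rw [zpow_mul, zpow_natCast]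
      rw [he₀, ← h2, h5]
      have h3 : ((p ^ a * m : ℕ) : ℤ) * X = (p ^ a : ℕ) - (p ^ N : ℕ) * ((p ^ a : ℕ) * Y) := by
        push_cast
        have h4 : (m : ℤ) * X = 1 - ((p ^ N : ℕ) : ℤ) * Y := by linarith
        push_cast at h4
        calc ((p : ℤ) ^ a * m) * X = (p : ℤ) ^ a * (m * X) := by ring
          _ = (p : ℤ) ^ a * (1 - (p : ℤ) ^ N * Y) := by rw [h4]
          _ = _ := by ring
      rw [h3, zpow_sub, zpow_natCast, zpow_mul, zpow_natCast, h1, one_zpow, inv_one, mul_one]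
    · rintro ⟨h1, h2⟩
      refine ⟨h1, ?_⟩
      rw [pow_mul, h2, he₀, ← zpow_natCast, ← zpow_mul]
      have h3 : X * (m : ℤ) = 1 - (p ^ N : ℕ) * Y := by linarith
      rw [h3, zpow_sub, zpow_one, zpow_mul, zpow_natCast, he, one_zpow, inv_one, mul_one]
  rw [hequiv]
  by_cases he1 : e₀ = 1
  · rw [he1]
    have hD := frobenius K (Nat.gcd (p ^ a) (Nat.card K)) (Nat.gcd_dvd_right _ _)
    have hequiv2 : Nat.card {u : K // u ^ (p ^ N) = 1 ∧ u ^ (p ^ a) = 1} =
        Nat.card {u : K // u ^ (Nat.gcd (p ^ a) (Nat.card K)) = 1} := by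
      apply Nat.card_congr
      apply Equiv.subtypeEquivRight
      intro u
      constructor
      · rintro ⟨-, h2⟩
        exact orderOf_dvd_iff_pow_eq_one.mp (Nat.dvd_gcd (orderOf_dvd_of_pow_eq_one h2) (orderOf_dvd_natCard u))
      · intro h
        have h0 := orderOf_dvd_of_pow_eq_one h
        obtain ⟨i, hia, hi⟩ := (Nat.dvd_prime_pow hp).mp (Nat.gcd_dvd_left (p ^ a) (Nat.card K))
        have hiN : i ≤ N := hN i (by rw [← hi]; exact Nat.gcd_dvd_right _ _)
        constructor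
        · rw [hi] at h0
          exact orderOf_dvd_iff_pow_eq_one.mp (h0.trans (pow_dvd_pow p hiN))
        · exact orderOf_dvd_iff_pow_eq_one.mp (h0.trans (Nat.gcd_dvd_left _ _))
    rw [hequiv2]
    exact hD
  · exact (Nat.gcd_dvd_left _ _).trans (roots_part hp e₀ he1)

/-- The count for central elements. -/
theorem star (c : K) (hc : c ∈ Subgroup.center K) (n : ℕ) (hn : n ≠ 0) :
    Nat.gcd n (Nat.card K) ∣ Nat.card {x : K // x ^ n = c} := by
  classical
  rw [Nat.dvd_iff_prime_pow_dvd_dvd]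
  intro p k hp hk
  have hkn : p ^ k ∣ n := hk.trans (Nat.gcd_dvd_left _ _)
  have hkK : p ^ k ∣ Nat.card K := hk.trans (Nat.gcd_dvd_right _ _)
  have hK0 : Nat.card K ≠ 0 := Nat.card_pos.ne'
  obtain ⟨a, m, hm, hnm⟩ := Nat.exists_eq_pow_mul_and_not_dvd hn p hp.ne_one
  subst hnm
  set n := p ^ a * m with hnm
  obtain ⟨C, m₀, hm₀, hKm⟩ := Nat.exists_eq_pow_mul_and_not_dvd hK0 p hp.ne_one
  have hka : k ≤ a := by
    rw [hnm] at hkn
    have hcop : Nat.Coprime (p ^ k) m := Nat.Coprime.pow_left k ((Nat.Prime.coprime_iff_not_dvd hp).mpr hm)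
    exact (Nat.pow_dvd_pow_iff_le_right hp.one_lt).mp (hcop.dvd_of_dvd_mul_right hkn)
  have hcop : Nat.Coprime (p ^ C) m₀ := Nat.Coprime.pow_left C ((Nat.Prime.coprime_iff_not_dvd hp).mpr hm₀)
  have hb : (1 : ℤ) = (p ^ C : ℕ) * Nat.gcdA (p ^ C) m₀ + m₀ * Nat.gcdB (p ^ C) m₀ := by
    have := Nat.gcd_eq_gcd_ab (p ^ C) m₀
    rw [hcop] at this
    exact_mod_cast this
  set X := Nat.gcdA (p ^ C) m₀ with hX
  set Y := Nat.gcdB (p ^ C) m₀ with hY
  set c' := c ^ (((p ^ C : ℕ) : ℤ) * X) with hc'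
  set c'' := c ^ ((m₀ : ℤ) * Y) with hc''
  have hcent : ∀ z : ℤ, c ^ z ∈ Subgroup.center K := fun z => Subgroup.zpow_mem _ hc z
  have hcc : c' * c'' = c := by
    rw [hc', hc'', ← zpow_add, ← hb, zpow_one]
  have hpowK : ∀ x : K, x ^ (p ^ C * m₀) = 1 := by
    intro x
    rw [← hKm]
    exact pow_card_eq_one'
  -- the decomposition
  have hdec : Nat.card {x : K // x ^ n = c} =
      Nat.card (Σ v : {v : K // v ^ m₀ = 1 ∧ v ^ n = c'}, {u : K // u * v = v * u ∧ u ^ (p ^ C) = 1 ∧ u ^ n = c''}) := by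
    symm
    apply Nat.card_congr
    have key : ∀ (v u : K), v ^ m₀ = 1 → u ^ (p ^ C) = 1 → u * v = v * u →
        (v * u) ^ (((p ^ C : ℕ) : ℤ) * X) = v := by
      intro v u hv hu hcm
      have hc1 : Commute v u := hcm.symm
      rw [hc1.mul_zpow]
      have h1 : u ^ (((p ^ C : ℕ) : ℤ) * X) = 1 := by
        rw [zpow_mul, zpow_natCast, hu, one_zpow]
      have h2 : v ^ (((p ^ C : ℕ) : ℤ) * X) = v := by
        have h3 : ((p ^ C : ℕ) : ℤ) * X = 1 - m₀ * Y := by linarith
        rw [h3, zpow_sub, zpow_one, zpow_mul, zpow_natCast, hv, one_zpow, inv_one, mul_one]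
      rw [h1, h2, mul_one]
    refine Equiv.ofBijective (fun w => ⟨(w.1 : K) * w.2, ?_⟩) ⟨?_, ?_⟩
    · have hc1 : Commute (w.1 : K) (w.2 : K) := w.2.2.1.symm
      show ((w.1 : K) * (w.2 : K)) ^ n = c
      rw [hc1.mul_pow, w.1.2.2, w.2.2.2.2, hcc]
    · rintro ⟨⟨v, hv, hvn⟩, ⟨u, huc, hu, hun⟩⟩ ⟨⟨v', hv', hvn'⟩, ⟨u', huc', hu', hun'⟩⟩ heq
      have heq' : v * u = v' * u' := congrArg Subtype.val heq
      have h1 := key v u hv hu huc
      have h2 := key v' u' hv' hu' huc'
      have hvv : v = v' := by rw [← h1, ← h2, heq']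
      subst hvv
      have huu : u = u' := mul_left_cancel heq'
      subst huu
      rfl
    · rintro ⟨x, hx⟩
      have hcomm : Commute (x ^ (((p ^ C : ℕ) : ℤ) * X)) (x ^ ((m₀ : ℤ) * Y)) :=
        (Commute.refl x).zpow_zpow _ _
      have hxz : ∀ z : ℤ, (x ^ z) ^ n = c ^ z := by
        intro z
        rw [← zpow_natCast, ← zpow_mul, mul_comm, zpow_mul, zpow_natCast, hx]
      refine ⟨⟨⟨x ^ (((p ^ C : ℕ) : ℤ) * X), ?_, hxz _⟩, ⟨x ^ ((m₀ : ℤ) * Y), hcomm.symm.eq, ?_, hxz _⟩⟩, ?_⟩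
      · rw [← zpow_natCast, ← zpow_mul]
        have : ((p ^ C : ℕ) : ℤ) * X * m₀ = ((p ^ C * m₀ : ℕ) : ℤ) * X := by push_cast; ring
        rw [this, zpow_mul, zpow_natCast, hpowK, one_zpow]
      · rw [← zpow_natCast, ← zpow_mul]
        have : (m₀ : ℤ) * Y * ((p ^ C : ℕ) : ℤ) = ((p ^ C * m₀ : ℕ) : ℤ) * Y := by push_cast; ring
        rw [this, zpow_mul, zpow_natCast, hpowK, one_zpow]
      · apply Subtype.ext
        show x ^ (((p ^ C : ℕ) : ℤ) * X) * x ^ ((m₀ : ℤ) * Y) = x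
        rw [← zpow_add, ← hb, zpow_one]
  rw [hdec]
  letI : Fintype {v : K // v ^ m₀ = 1 ∧ v ^ n = c'} := Fintype.ofFinite _
  rw [Nat.card_sigma]
  have hconj : ∀ z : K, z ∈ Subgroup.center K → ∀ g : K, g * z * g⁻¹ = z := by
    intro z hz g
    rw [(Subgroup.mem_center_iff.mp hz g)]
    group
  letI act : MulAction K {v : K // v ^ m₀ = 1 ∧ v ^ n = c'} :=
    { smul := fun g v => ⟨g * v * g⁻¹, by rw [conj_pow, v.2.1]; group, by
        rw [conj_pow, v.2.2]; exact hconj _ (hcent _) g⟩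
      one_smul := fun v => Subtype.ext (by change (1 : K) * v * (1 : K)⁻¹ = v; group)
      mul_smul := fun a b v => Subtype.ext (by
        change a * b * v * (a * b)⁻¹ = a * (b * v * b⁻¹) * a⁻¹
        group) }
  let f : {v : K // v ^ m₀ = 1 ∧ v ^ n = c'} → ℕ :=
    fun v => Nat.card {u : K // u * v = v * u ∧ u ^ (p ^ C) = 1 ∧ u ^ n = c''}
  have hfc : ∀ (g : K) v, f (g • v) = f v := by
    intro g v
    apply Nat.card_congr
    refine ⟨fun u => ⟨g⁻¹ * u * g, ?_, ?_, ?_⟩, fun u => ⟨g * u * g⁻¹, ?_, ?_, ?_⟩, ?_, ?_⟩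
    · have h1 : (u : K) * (g * v * g⁻¹) = g * v * g⁻¹ * u := u.2.1
      calc g⁻¹ * u * g * v = g⁻¹ * ((u : K) * (g * v * g⁻¹)) * g := by group
        _ = g⁻¹ * (g * v * g⁻¹ * u) * g := by rw [h1]
        _ = v * (g⁻¹ * u * g) := by group
    · have := conj_pow (a := g⁻¹) (b := (u : K)) (i := p ^ C)
      rw [inv_inv] at this
      rw [this, u.2.2.1]
      group
    · have := conj_pow (a := g⁻¹) (b := (u : K)) (i := n)
      rw [inv_inv] at this
      rw [this, u.2.2.2]
      have := hconj c'' (hcent _) g⁻¹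
      rwa [inv_inv] at this
    · change g * u * g⁻¹ * (g * v * g⁻¹) = g * v * g⁻¹ * (g * u * g⁻¹)
      have h1 := u.2.1
      calc g * u * g⁻¹ * (g * v * g⁻¹) = g * ((u : K) * v) * g⁻¹ := by group
        _ = g * (v * (u : K)) * g⁻¹ := by rw [h1]
        _ = g * v * g⁻¹ * (g * u * g⁻¹) := by group
    · rw [conj_pow, u.2.2.1]
      group
    · rw [conj_pow, u.2.2.2]
      exact hconj _ (hcent _) g
    · intro u
      apply Subtype.ext
      show g * (g⁻¹ * u * g) * g⁻¹ = u
      group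
    · intro u
      apply Subtype.ext
      show g⁻¹ * (g * u * g⁻¹) * g = u
      group
  have hsum := Cfsg.Agent.Lib.H6Inv2.dvd_sum_of_orbits (Λ := K) (fun v => (f v : ℤ))
    (fun g v => by simp only [hfc g v]) ((p ^ k : ℕ) : ℤ) (fun v => by
      have hst : MulAction.stabilizer K v = Subgroup.centralizer ({(v : K)} : Set K) := by
        ext g
        rw [MulAction.mem_stabilizer_iff, Subgroup.mem_centralizer_singleton_iff]
        constructor
        · intro h
          have h1 : g * v * g⁻¹ = v := congrArg Subtype.val h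
          calc g * v = g * v * g⁻¹ * g := by group
            _ = v * g := by rw [h1]
        · intro h
          apply Subtype.ext
          change g * v * g⁻¹ = v
          rw [h]
          group
      have hcard : Nat.card (MulAction.orbit K v) = (Subgroup.centralizer ({(v : K)} : Set K)).index := by
        rw [Nat.card_coe_set_eq, ← MulAction.index_stabilizer, hst]
      rw [hcard]
      set D := Subgroup.centralizer ({(v : K)} : Set K) with hD
      have hc''D : c'' ∈ D := Subgroup.mem_centralizer_singleton_iff.mpr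
        (Subgroup.mem_center_iff.mp (hcent _) _).symm
      have hroots := roots_p (K := D) (p := p) (a := a) (m := m) (N := C) hp hm (by
        intro j hj
        have h1 : p ^ j ∣ p ^ C * m₀ := by
          rw [← hKm]
          exact hj.trans (Subgroup.card_subgroup_dvd_card D)
        have hcp : Nat.Coprime (p ^ j) m₀ := Nat.Coprime.pow_left j ((Nat.Prime.coprime_iff_not_dvd hp).mpr hm₀)
        exact (Nat.pow_dvd_pow_iff_le_right hp.one_lt).mp (hcp.dvd_of_dvd_mul_right h1)) ⟨c'', hc''D⟩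
      have hfv : Nat.card {u : D // u ^ (p ^ C) = 1 ∧ u ^ (p ^ a * m) = ⟨c'', hc''D⟩} = f v := by
        apply Nat.card_congr
        refine ⟨fun u => ⟨u.1, Subgroup.mem_centralizer_singleton_iff.mp u.1.2, ?_, ?_⟩,
          fun u => ⟨⟨u.1, Subgroup.mem_centralizer_singleton_iff.mpr u.2.1⟩, ?_, ?_⟩, ?_, ?_⟩
        · exact congrArg Subtype.val u.2.1
        · exact congrArg Subtype.val u.2.2
        · exact Subtype.ext u.2.2.1
        · apply Subtype.ext
          exact u.2.2.2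
        · intro u
          rfl
        · intro u
          rfl
      rw [hfv] at hroots
      have h5 : p ^ k ∣ Nat.card K := hkK
      rw [← D.card_mul_index] at h5
      have h6 : p ^ k ∣ Nat.gcd (p ^ k) (Nat.card D) * D.index := by
        rw [← Nat.gcd_mul_right]
        exact Nat.dvd_gcd (Dvd.intro _ rfl) h5
      have h7 : Nat.gcd (p ^ k) (Nat.card D) ∣ Nat.gcd (p ^ a) (Nat.card D) :=
        Nat.gcd_dvd_gcd_of_dvd_left _ (pow_dvd_pow p hka)
      have h8 : p ^ k ∣ D.index * f v := by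
        calc p ^ k ∣ Nat.gcd (p ^ k) (Nat.card D) * D.index := h6
          _ = D.index * Nat.gcd (p ^ k) (Nat.card D) := mul_comm _ _
          _ ∣ D.index * f v := Nat.mul_dvd_mul_left _ (h7.trans hroots)
      exact_mod_cast h8)
  exact_mod_cast hsum

end Cfsg.Agent.Lib.H6Frob

namespace Cfsg.Agent.Lib.H6Frob

universe v

/-- The theorem of Frobenius on roots in a conjugacy class. -/
theorem roots_class {G : Type v} [Group G] [Finite G] (c : G) (n : ℕ) :
    Nat.gcd (Nat.card {y : G // IsConj c y} * n) (Nat.card G) ∣ Nat.card {x : G // IsConj c (x ^ n)} := by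
  classical
  by_cases hn : n = 0
  · subst hn
    simp only [mul_zero, Nat.gcd_zero_left, pow_zero]
    by_cases hc : c = 1
    · subst hc
      apply dvd_of_eq
      apply Nat.card_congr
      exact (Equiv.subtypeUnivEquiv (fun x => IsConj.refl _)).symm
    · have h0 : IsEmpty {x : G // IsConj c 1} := ⟨fun x => hc (isConj_one_right.mp x.2.symm)⟩
      have h1 : Nat.card {x : G // IsConj c 1} = 0 := Nat.card_of_isEmpty
      rw [h1]
      exact dvd_zero _
  set h := Nat.card {y : G // IsConj c y} with hh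
  set C := Subgroup.centralizer ({c} : Set G) with hC
  -- the class size
  have hclass : h = C.index := by
    letI act : MulAction G {y : G // IsConj c y} :=
      { smul := fun g y => ⟨g * y * g⁻¹, y.2.trans (isConj_iff.mpr ⟨g, rfl⟩)⟩
        one_smul := fun v => Subtype.ext (by change (1 : G) * v * (1 : G)⁻¹ = v; group)
        mul_smul := fun a b v => Subtype.ext (by
          change a * b * v * (a * b)⁻¹ = a * (b * v * b⁻¹) * a⁻¹
          group) }
    let x₀ : {y : G // IsConj c y} := ⟨c, IsConj.refl c⟩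
    have hst : MulAction.stabilizer G x₀ = C := by
      ext g
      rw [MulAction.mem_stabilizer_iff, hC, Subgroup.mem_centralizer_singleton_iff]
      constructor
      · intro h1
        have h2 : g * c * g⁻¹ = c := congrArg Subtype.val h1
        calc g * c = g * c * g⁻¹ * g := by group
          _ = c * g := by rw [h2]
      · intro h1
        apply Subtype.ext
        change g * c * g⁻¹ = c
        rw [h1]
        group
    have horb : MulAction.orbit G x₀ = Set.univ := by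
      ext y
      simp only [Set.mem_univ, iff_true]
      obtain ⟨g, hg⟩ := isConj_iff.mp y.2
      exact ⟨g, Subtype.ext hg⟩
    rw [← hst, MulAction.index_stabilizer, horb, Set.ncard_univ]
  have hcard : Nat.card G = h * Nat.card C := by
    rw [hclass, mul_comm]
    exact C.card_mul_index.symm
  have hcC : (⟨c, Subgroup.mem_centralizer_singleton_iff.mpr rfl⟩ : C) ∈ Subgroup.center C := by
    rw [Subgroup.mem_center_iff]
    intro g
    exact Subtype.ext (Subgroup.mem_centralizer_singleton_iff.mp g.2)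
  have hstar := star _ hcC n hn
  have hF : Nat.card {x : C // x ^ n = ⟨c, Subgroup.mem_centralizer_singleton_iff.mpr rfl⟩} =
      Nat.card {x : G // x ^ n = c} := by
    apply Nat.card_congr
    refine ⟨fun x => ⟨x.1, congrArg Subtype.val x.2⟩, fun x => ⟨⟨x.1, ?_⟩, ?_⟩, ?_, ?_⟩
    · apply Subgroup.mem_centralizer_singleton_iff.mpr
      have h3 : (x : G) * ((x : G) ^ n) = ((x : G) ^ n) * x := (Commute.self_pow _ _).eq
      rwa [x.2] at h3
    · exact Subtype.ext x.2
    · intro x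
      rfl
    · intro x
      rfl
  rw [hF] at hstar
  -- the count over the class
  have hR : Nat.card {x : G // IsConj c (x ^ n)} = h * Nat.card {x : G // x ^ n = c} := by
    have h1 : Nat.card {x : G // IsConj c (x ^ n)} =
        Nat.card (Σ y : {y : G // IsConj c y}, {x : G // x ^ n = y}) := by
      apply Nat.card_congr
      refine ⟨fun x => ⟨⟨x.1 ^ n, x.2⟩, ⟨x.1, rfl⟩⟩, fun w => ⟨w.2.1, ?_⟩, ?_, ?_⟩
      · rw [w.2.2]
        exact w.1.2
      · intro x
        rfl
      · rintro ⟨⟨y, hy⟩, ⟨x, hx⟩⟩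
        change x ^ n = y at hx
        subst hx
        rfl
    rw [h1]
    letI : Fintype {y : G // IsConj c y} := Fintype.ofFinite _
    rw [Nat.card_sigma]
    have h2 : ∀ y : {y : G // IsConj c y}, Nat.card {x : G // x ^ n = y} = Nat.card {x : G // x ^ n = c} := by
      rintro ⟨y, hy⟩
      obtain ⟨g, rfl⟩ := isConj_iff.mp hy
      apply Nat.card_congr
      refine ⟨fun x => ⟨g⁻¹ * x * g, ?_⟩, fun x => ⟨g * x * g⁻¹, ?_⟩, ?_, ?_⟩
      · have := conj_pow (a := g⁻¹) (b := (x : G)) (i := n)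
        rw [inv_inv] at this
        rw [this, x.2]
        group
      · rw [conj_pow, x.2]
      · intro x
        apply Subtype.ext
        show g * (g⁻¹ * x * g) * g⁻¹ = x
        group
      · intro x
        apply Subtype.ext
        show g⁻¹ * (g * x * g⁻¹) * g = x
        group
    rw [Finset.sum_congr rfl (fun y _ => h2 y), Finset.sum_const, smul_eq_mul, Finset.card_univ, ← Nat.card_eq_fintype_card]
  rw [hR, hcard, Nat.gcd_mul_left]
  exact Nat.mul_dvd_mul_left _ hstar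

end Cfsg.Agent.Lib.H6Frob
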