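import Mathlib
import Cfsg.Agent.Lib.SchurZ
import Cfsg.Agent.Lib.SchurZ2
import Cfsg.Agent.Lib.H5Basic

/-!
A Glauberman type lemma for conjugacy classes of subgroups under coprime action (helper6).
-/

set_option autoImplicit false

namespace Cfsg.Agent.Lib.H6Glaub

universe u

open Cfsg.Agent.Lib.SchurZ Cfsg.Agent.Lib.SchurZ2 Cfsg.Agent.Lib.Commutators

variable {G : Type u} [Group G] [Finite G]

/-- Frattini hypothesis gives an `A`-invariant `K`-conjugate of `H₀`. -/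
theorem glaub_exists (A K H₀ : Subgroup G) (hAK : A ≤ Subgroup.normalizer (K : Set G))
    (hcop : Nat.Coprime (Nat.card K) (Nat.card A))
    (hs : Group.IsSolvable K ∨ Group.IsSolvable A)
    (hfrat : ∀ t ∈ K ⊔ A, ∃ k ∈ K, k * t ∈ Subgroup.normalizer (H₀ : Set G)) :
    ∃ n ∈ K, A ≤ Subgroup.normalizer ((H₀.map (MulAut.conj n).toMonoidHom : Subgroup G) : Set G) := by
  classical
  let T := K ⊔ A
  have hTN : T ≤ Subgroup.normalizer (K : Set G) := sup_le Subgroup.le_normalizer hAK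
  let T₁ := T ⊓ Subgroup.normalizer (H₀ : Set G)
  have hT₁N : T₁ ≤ Subgroup.normalizer (K : Set G) := inf_le_left.trans hTN
  have hsup : K ⊔ T₁ = T := by
    refine le_antisymm (sup_le le_sup_left inf_le_left) ?_
    intro t ht
    obtain ⟨k, hk, hkt⟩ := hfrat t ht
    have h1 : t = k⁻¹ * (k * t) := by group
    rw [h1]
    refine Subgroup.mul_mem _ ((le_sup_left : K ≤ K ⊔ T₁) (K.inv_mem hk))
      ((le_sup_right : T₁ ≤ K ⊔ T₁) ⟨T.mul_mem ((le_sup_left : K ≤ T) hk) ht, hkt⟩)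
  have hd : K ⊓ A = ⊥ := inf_eq_bot_of_coprime hcop
  have hc1 := card_sup_mul_card_inf K A hAK
  rw [hd, Subgroup.card_bot, mul_one] at hc1
  have hc2 := card_sup_mul_card_inf K T₁ hT₁N
  rw [hsup] at hc2
  have hc3 : Nat.card A * Nat.card (K ⊓ T₁ : Subgroup G) = Nat.card T₁ := by
    have hpos : 0 < Nat.card K := Nat.card_pos
    apply Nat.eq_of_mul_eq_mul_left hpos
    rw [← hc2, show Nat.card T = Nat.card K * Nat.card A from hc1, mul_assoc]
  -- the complement inside `T₁`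
  haveI hN₁ : (K.subgroupOf T₁).Normal := Subgroup.normal_subgroupOf_of_le_normalizer hT₁N
  have hcN₁ : Nat.card (K.subgroupOf T₁) = Nat.card (K ⊓ T₁ : Subgroup G) := by
    rw [← Subgroup.inf_subgroupOf_right K T₁]
    exact Nat.card_congr (Subgroup.subgroupOfEquivOfLe inf_le_right).toEquiv
  have hidx : (K.subgroupOf T₁).index = Nat.card A := by
    have h1 := (K.subgroupOf T₁).card_mul_index
    rw [hcN₁, ← hc3, mul_comm] at h1
    exact Nat.eq_of_mul_eq_mul_right Nat.card_pos h1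
  have hcopN : Nat.Coprime (Nat.card (K.subgroupOf T₁)) (K.subgroupOf T₁).index := by
    rw [hidx, hcN₁]
    exact Nat.Coprime.coprime_dvd_left (Subgroup.card_dvd_of_le inf_le_left) hcop
  obtain ⟨B₁, hB₁⟩ := Subgroup.exists_right_complement'_of_coprime hcopN
  have hcB₁ : Nat.card B₁ = Nat.card A := by
    rw [← hidx]
    exact hB₁.symm.index_eq_card.symm
  let B := B₁.map T₁.subtype
  have hcB : Nat.card B = Nat.card A := by
    rw [← hcB₁]
    exact Subgroup.card_map_of_injective T₁.subtype_injective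
  have hBT : B ≤ T₁ := Subgroup.map_subtype_le _
  obtain ⟨n, hn, hnA⟩ := sz_conj_ambient K A B hAK (hBT.trans inf_le_left) hcB hcop hs
  refine ⟨n⁻¹, K.inv_mem hn, ?_⟩
  intro a ha
  apply Cfsg.Agent.Lib.H5Basic.mem_normalizer_of_map_conj_le
  rintro _ ⟨_, ⟨y, hy, rfl⟩, rfl⟩
  have h1 : n * a * n⁻¹ ∈ B := by
    rw [← hnA]
    exact ⟨a, ha, rfl⟩
  have h2 := conj_mem_of_mem_normalizer (hBT h1).2 hy
  refine ⟨_, h2, ?_⟩
  simp only [MulEquiv.coe_toMonoidHom, MulAut.conj_apply]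
  group

/-- Two `A`-invariant `K`-conjugate subgroups are conjugate under `C_K(A)`. -/
theorem glaub_conj (A K H₁ H₂ : Subgroup G) (hAK : A ≤ Subgroup.normalizer (K : Set G))
    (hcop : Nat.Coprime (Nat.card K) (Nat.card A))
    (hs : Group.IsSolvable K ∨ Group.IsSolvable A) (y : G) (hy : y ∈ K)
    (hQ'eq : H₂ = H₁.map (MulAut.conj y).toMonoidHom)
    (hP : A ≤ Subgroup.normalizer (H₁ : Set G)) (hQ : A ≤ Subgroup.normalizer (H₂ : Set G)) :
    ∃ c ∈ K, c ∈ Subgroup.centralizer (A : Set G) ∧ H₂ = H₁.map (MulAut.conj c).toMonoidHom := by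
  classical
  let N₂ := K ⊓ Subgroup.normalizer (H₂ : Set G)
  have hAN₂ : A ≤ Subgroup.normalizer (N₂ : Set G) := by
    intro a ha
    apply Cfsg.Agent.Lib.H5Basic.mem_normalizer_of_map_conj_le
    rintro _ ⟨g, hg, rfl⟩
    refine ⟨conj_mem_of_mem_normalizer (hAK ha) hg.1, ?_⟩
    show a * g * a⁻¹ ∈ _
    exact Subgroup.mul_mem _ (Subgroup.mul_mem _ (hQ ha) hg.2) (Subgroup.inv_mem _ (hQ ha))
  have hyaN : ∀ a ∈ A, y * a * y⁻¹ * a⁻¹ ∈ N₂ := by
    intro a ha
    constructor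
    · have h1 : y * a * y⁻¹ * a⁻¹ = y * (a * y⁻¹ * a⁻¹) := by group
      rw [h1]
      exact K.mul_mem hy (conj_mem_of_mem_normalizer (hAK ha) (K.inv_mem hy))
    · refine Subgroup.mul_mem _ ?_ (Subgroup.inv_mem _ (hQ ha))
      apply Cfsg.Agent.Lib.H5Basic.mem_normalizer_of_map_conj_le
      rintro _ ⟨q, hq, rfl⟩
      have hq' : q ∈ H₂ := hq
      rw [hQ'eq] at hq'
      obtain ⟨p', hp', rfl⟩ := hq'
      rw [hQ'eq]
      refine ⟨a * p' * a⁻¹, conj_mem_of_mem_normalizer (hP ha) hp', ?_⟩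
      simp only [MulEquiv.coe_toMonoidHom, MulAut.conj_apply]
      group
  have hN₂K : N₂ ≤ K := inf_le_left
  obtain ⟨n, hn, hnc⟩ := exists_fixed N₂ A hAN₂ y hyaN
    (Nat.Coprime.coprime_dvd_left (Subgroup.card_dvd_of_le hN₂K) hcop)
    (hs.imp (isSolvable_of_le hN₂K) id)
  have hnK : n ∈ K := hN₂K hn
  have hnN : n ∈ Subgroup.normalizer (H₂ : Set G) := (inf_le_right : N₂ ≤ _) hn
  refine ⟨n * y, K.mul_mem hnK hy, hnc, ?_⟩
  have h5 : H₁.map (MulAut.conj (n * y)).toMonoidHom = H₂.map (MulAut.conj n).toMonoidHom := by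
    rw [hQ'eq, Subgroup.map_map]
    congr 1
    ext x
    simp [mul_assoc]
  rw [h5]
  symm
  apply Subgroup.eq_of_le_of_card_ge
  · rintro _ ⟨z, hz, rfl⟩
    exact (Subgroup.mem_normalizer_iff.mp hnN z).mp hz
  · rw [Subgroup.card_map_of_injective (MulAut.conj n).injective]

end Cfsg.Agent.Lib.H6Glaub
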