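import Mathlib
import Cfsg.Prelude.Def_KGroupFacts

/-!
Schur multipliers of small groups, via stem extensions.
-/

set_option autoImplicit false
set_option linter.all false

namespace Cfsg.Agent.Lib.H6Schur

open Cfsg
open scoped commutatorElement

universe u v

theorem hasCyclic_one_iff {G : Type u} [Group G] [Finite G] :
    HasCyclicSchurMultiplier G 1 ↔
      ∀ (Γ : Type u) [Group Γ] [Finite Γ] (σ : Γ →* G), IsStemExtension σ → σ.ker = ⊥ := by
  constructor
  · rintro ⟨-, h⟩ Γ _ _ σ hσ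
    obtain ⟨π, hπ⟩ := h Γ σ hσ
    rw [eq_bot_iff]
    intro k hk
    obtain ⟨x, hx⟩ := hπ ⟨k, hk⟩
    have hx1 : x = 1 := Subsingleton.elim _ _
    rw [hx1, map_one] at hx
    have := congrArg Subtype.val hx
    rw [Subgroup.mem_bot]
    simpa using this.symm
  · intro h
    have hid : (MonoidHom.id G).ker = ⊥ := by ext; simp
    refine ⟨⟨G, inferInstance, inferInstance, MonoidHom.id G, ⟨Function.surjective_id, ?_, ?_⟩, ?_⟩, ?_⟩
    · rw [hid]; exact bot_le
    · rw [hid]; exact bot_le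
    · have hsub : ∀ x y : (MonoidHom.id G).ker, x = y := by
        rintro ⟨x, hx⟩ ⟨y, hy⟩
        apply Subtype.ext
        rw [hid, Subgroup.mem_bot] at hx hy
        show x = y
        rw [hx, hy]
      exact ⟨{ toFun := fun _ => 1, invFun := fun _ => 1, left_inv := fun x => hsub _ _,
               right_inv := fun x => Subsingleton.elim _ _, map_mul' := fun _ _ => Subsingleton.elim _ _ }⟩
    · intro Γ _ _ σ hσ
      have h1 := h Γ σ hσ
      refine ⟨1, ?_⟩
      rintro ⟨k, hk⟩
      refine ⟨1, ?_⟩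
      apply Subtype.ext
      rw [h1] at hk
      simpa using (Subgroup.mem_bot.mp hk).symm

/-- A group whose elements are powers of an element killed by `n` is an image of `ZMod n`. -/
theorem surj_of_generator {K : Type*} [Group K] (n : ℕ) [NeZero n] (e : K) (he : e ^ n = 1)
    (hgen : ∀ k : K, ∃ m : ℕ, k = e ^ m) :
    ∃ π : Multiplicative (ZMod n) →* K, Function.Surjective π ∧ ∀ m : ℕ, π (Multiplicative.ofAdd (m : ZMod n)) = e ^ m := by
  let π : Multiplicative (ZMod n) →* K := MonoidHom.mk' (fun x => e ^ (Multiplicative.toAdd x).val) (by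
    intro x y
    show e ^ ((Multiplicative.toAdd x) + (Multiplicative.toAdd y)).val = _
    rw [ZMod.val_add, ← pow_add, ← pow_eq_pow_mod _ he])
  have hπ : ∀ m : ℕ, π (Multiplicative.ofAdd (m : ZMod n)) = e ^ m := by
    intro m
    show e ^ ((m : ZMod n)).val = _
    rw [ZMod.val_natCast, ← pow_eq_pow_mod _ he]
  refine ⟨π, ?_, hπ⟩
  intro k
  obtain ⟨m, rfl⟩ := hgen k
  exact ⟨_, hπ m⟩

/-- An element of order `n` whose powers exhaust the group gives an isomorphism. -/
theorem iso_of_generator {K : Type*} [Group K] (n : ℕ) [NeZero n] (e : K) (he : orderOf e = n)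
    (hgen : ∀ k : K, ∃ m : ℕ, k = e ^ m) : Nonempty (K ≃* Multiplicative (ZMod n)) := by
  have he1 : e ^ n = 1 := by rw [← he]; exact pow_orderOf_eq_one e
  obtain ⟨π, hπ, hπ2⟩ := surj_of_generator n e he1 hgen
  have hinj : Function.Injective π := by
    rw [injective_iff_map_eq_one]
    intro x hx
    have h1 : π (Multiplicative.ofAdd (((Multiplicative.toAdd x).val : ℕ) : ZMod n)) = e ^ (Multiplicative.toAdd x).val := hπ2 _
    have h2 : Multiplicative.ofAdd (((Multiplicative.toAdd x).val : ℕ) : ZMod n) = x := by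
      rw [ZMod.natCast_zmod_val]; rfl
    rw [h2, hx] at h1
    have h3 : n ∣ (Multiplicative.toAdd x).val := by
      have := orderOf_dvd_of_pow_eq_one h1.symm
      rwa [he] at this
    have h4 : (Multiplicative.toAdd x).val < n := ZMod.val_lt _
    have h5 : (Multiplicative.toAdd x).val = 0 := Nat.eq_zero_of_dvd_of_lt h3 h4
    have h6 : Multiplicative.toAdd x = 0 := (ZMod.val_eq_zero _).mp h5
    exact h6
  exact ⟨(MulEquiv.ofBijective π ⟨hinj, hπ⟩).symm⟩

/-- Everything is `X^e A^i k`: commutator criterion. -/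
theorem comm_le {Γ : Type*} [Group Γ] (N : Subgroup Γ) [N.Normal] (K : Subgroup Γ) (hK : K ≤ Subgroup.center Γ) (A X : Γ)
    (hAX : X * A * X⁻¹ * A⁻¹ ∈ N) (hform : ∀ g : Γ, ∃ e i : ℤ, ∃ k ∈ K, g = X ^ e * A ^ i * k) :
    commutator Γ ≤ N := by
  set q := QuotientGroup.mk' N with hq
  set P := q X with hP
  set R := q A with hR
  have hPR : Commute P R := by
    have h1 : q (X * A * X⁻¹ * A⁻¹) = 1 := by
      rw [hq, QuotientGroup.mk'_apply, QuotientGroup.eq_one_iff]; exact hAX
    simp only [map_mul, map_inv] at h1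
    show P * R = R * P
    have : P * R * P⁻¹ * R⁻¹ = 1 := h1
    calc P * R = (P * R * P⁻¹ * R⁻¹) * (R * P) := by group
      _ = R * P := by rw [this, one_mul]
  have hcent : ∀ k ∈ K, ∀ w : Γ ⧸ N, Commute (q k) w := by
    intro k hk w
    obtain ⟨v, rfl⟩ := QuotientGroup.mk'_surjective N w
    show q k * q v = q v * q k
    rw [← map_mul, ← map_mul]
    rw [Subgroup.mem_center_iff.mp (hK hk) v]
  have hform' : ∀ g : Γ, ∃ e i : ℤ, ∃ k ∈ K, q g = P ^ e * R ^ i * q k := by
    intro g
    obtain ⟨e, i, k, hk, rfl⟩ := hform g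
    exact ⟨e, i, k, hk, by simp [hP, hR]⟩
  have h1 : ∀ g : Γ, Commute (q g) P ∧ Commute (q g) R := by
    intro g
    obtain ⟨e, i, k, hk, hg⟩ := hform' g
    rw [hg]
    constructor
    · exact (((Commute.refl P).zpow_left e).mul_left (hPR.symm.zpow_left i)).mul_left (hcent k hk P)
    · exact ((hPR.zpow_left e).mul_left ((Commute.refl R).zpow_left i)).mul_left (hcent k hk R)
  have h2 : ∀ g h : Γ, Commute (q g) (q h) := by
    intro g h
    obtain ⟨e, i, k, hk, hh⟩ := hform' h
    rw [hh]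
    exact (((h1 g).1.zpow_right e).mul_right ((h1 g).2.zpow_right i)).mul_right (hcent k hk _).symm
  rw [commutator_def, Subgroup.commutator_le]
  intro g _ h _
  rw [← QuotientGroup.eq_one_iff]
  have h3 : q ⁅g, h⁆ = 1 := by
    rw [map_commutatorElement, commutatorElement_eq_one_iff_mul_comm]
    exact h2 g h
  exact h3

/-- The core computation for dihedral and dicyclic type groups. -/
theorem dih_core {Γ Q : Type*} [Group Γ] [Group Q] (σ : Γ →* Q) (hs : Function.Surjective σ)
    (hK : σ.ker ≤ Subgroup.center Γ) (hK' : σ.ker ≤ commutator Γ) (a x : Q)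
    (hgen : ∀ q : Q, ∃ i : ℤ, q = a ^ i ∨ q = x * a ^ i) (hrel : x * a * x⁻¹ = a⁻¹)
    (n t : ℕ) (hn : a ^ n = x ^ t) :
    ∃ c : Γ, σ c = a⁻¹ * a⁻¹ ∧ c ^ n = 1 ∧ σ.ker ≤ Subgroup.zpowers c := by
  obtain ⟨A, hA⟩ := hs a
  obtain ⟨X, hX⟩ := hs x
  set z := X * A * X⁻¹ * A with hz
  have hzK : z ∈ σ.ker := by
    rw [MonoidHom.mem_ker, hz]
    simp only [map_mul, map_inv, hA, hX]
    rw [hrel]; group
  have hzc : ∀ w : Γ, z * w = w * z := fun w => (Subgroup.mem_center_iff.mp (hK hzK) w).symm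
  have hXA : X * A * X⁻¹ = z * A⁻¹ := by rw [hz]; group
  set c := z * A⁻¹ * A⁻¹ with hc
  have hcA : c * A = A * c := by
    rw [hc]
    calc z * A⁻¹ * A⁻¹ * A = z * A⁻¹ := by group
      _ = (z * A) * A⁻¹ * A⁻¹ := by group
      _ = (A * z) * A⁻¹ * A⁻¹ := by rw [hzc A]
      _ = A * (z * A⁻¹ * A⁻¹) := by group
  have hXc : X * c * X⁻¹ = c⁻¹ := by
    have h1 : X * A⁻¹ * X⁻¹ = A * z⁻¹ := by
      have : X * A⁻¹ * X⁻¹ = (X * A * X⁻¹)⁻¹ := by group
      rw [this, hXA]; group
    have h2 : X * z * X⁻¹ = z := by rw [← hzc X]; group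
    have h3 : z⁻¹ * A = A * z⁻¹ := by
      have := hzc A
      calc z⁻¹ * A = z⁻¹ * (A * z) * z⁻¹ := by group
        _ = z⁻¹ * (z * A) * z⁻¹ := by rw [this]
        _ = A * z⁻¹ := by group
    calc X * c * X⁻¹ = (X * z * X⁻¹) * (X * A⁻¹ * X⁻¹) * (X * A⁻¹ * X⁻¹) := by rw [hc]; group
      _ = z * (A * z⁻¹) * (A * z⁻¹) := by rw [h1, h2]
      _ = (z * A) * (z⁻¹ * A) * z⁻¹ := by group
      _ = (A * z) * (A * z⁻¹) * z⁻¹ := by rw [h3, hzc A]
      _ = A * (z * A) * z⁻¹ * z⁻¹ := by group
      _ = A * (A * z) * z⁻¹ * z⁻¹ := by rw [hzc A]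
      _ = c⁻¹ := by
        rw [hc]
        simp only [mul_inv_rev, inv_inv, mul_assoc, mul_inv_cancel_left]
  have hform : ∀ g : Γ, ∃ i : ℤ, ∃ k ∈ σ.ker, g = A ^ i * k ∨ g = X * A ^ i * k := by
    intro g
    obtain ⟨i, hi | hi⟩ := hgen (σ g)
    · refine ⟨i, (A ^ i)⁻¹ * g, ?_, Or.inl (by group)⟩
      rw [MonoidHom.mem_ker, map_mul, map_inv, map_zpow, hA, hi]; group
    · refine ⟨i, (X * A ^ i)⁻¹ * g, ?_, Or.inr (by group)⟩
      rw [MonoidHom.mem_ker, map_mul, map_inv, map_mul, map_zpow, hA, hX, hi]; group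
  have hcAi : ∀ i : ℤ, A ^ i * c * (A ^ i)⁻¹ = c := by
    intro i
    have h1 : Commute (A ^ i) c := ((show Commute A c from hcA.symm).zpow_left i)
    calc A ^ i * c * (A ^ i)⁻¹ = c * A ^ i * (A ^ i)⁻¹ := by rw [h1.eq]
      _ = c := by group
  have hconj : ∀ g : Γ, g * c * g⁻¹ ∈ Subgroup.zpowers c := by
    intro g
    obtain ⟨i, k, hk, rfl | rfl⟩ := hform g
    · have h1 : A ^ i * k * c * (A ^ i * k)⁻¹ = c := by
        have h2 := (Subgroup.mem_center_iff.mp (hK hk) c)
        calc A ^ i * k * c * (A ^ i * k)⁻¹ = A ^ i * (k * c) * k⁻¹ * (A ^ i)⁻¹ := by group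
          _ = A ^ i * (c * k) * k⁻¹ * (A ^ i)⁻¹ := by rw [← h2]
          _ = A ^ i * c * (A ^ i)⁻¹ := by group
          _ = c := hcAi i
      rw [h1]; exact Subgroup.mem_zpowers c
    · have h1 : X * A ^ i * k * c * (X * A ^ i * k)⁻¹ = c⁻¹ := by
        have h2 := (Subgroup.mem_center_iff.mp (hK hk) c)
        calc X * A ^ i * k * c * (X * A ^ i * k)⁻¹ = X * A ^ i * (k * c) * k⁻¹ * (A ^ i)⁻¹ * X⁻¹ := by group
          _ = X * A ^ i * (c * k) * k⁻¹ * (A ^ i)⁻¹ * X⁻¹ := by rw [← h2]
          _ = X * (A ^ i * c * (A ^ i)⁻¹) * X⁻¹ := by group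
          _ = c⁻¹ := by rw [hcAi i, hXc]
      rw [h1]; exact inv_mem (Subgroup.mem_zpowers c)
  haveI hNnorm : (Subgroup.zpowers c).Normal := by
    constructor
    intro n hn g
    obtain ⟨m, rfl⟩ := Subgroup.mem_zpowers_iff.mp hn
    rw [← conj_zpow]
    exact zpow_mem (hconj g) m
  have hcomm : commutator Γ ≤ Subgroup.zpowers c := by
    apply comm_le (Subgroup.zpowers c) σ.ker hK A X
    · have : X * A * X⁻¹ * A⁻¹ = c := by rw [hc, hXA]
      rw [this]; exact Subgroup.mem_zpowers c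
    · intro g
      obtain ⟨i, k, hk, h | h⟩ := hform g
      · exact ⟨0, i, k, hk, by rw [h]; simp⟩
      · exact ⟨1, i, k, hk, by rw [h]; simp⟩
  refine ⟨c, ?_, ?_, hK'.trans hcomm⟩
  · rw [hc]
    simp only [map_mul, map_inv, hA]
    rw [MonoidHom.mem_ker.mp hzK]; group
  · -- `A ^ n` commutes with `X`
    have hk : (X ^ t)⁻¹ * A ^ n ∈ σ.ker := by
      rw [MonoidHom.mem_ker, map_mul, map_inv, map_pow, map_pow, hA, hX, hn]; group
    have hAn : A ^ n = X ^ t * ((X ^ t)⁻¹ * A ^ n) := by group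
    have hcomm2 : X * A ^ n * X⁻¹ = A ^ n := by
      set k := (X ^ t)⁻¹ * A ^ n with hkdef
      have h2 : k * X = X * k := (Subgroup.mem_center_iff.mp (hK hk) X).symm
      rw [hAn]
      have h3 : X * X ^ t = X ^ t * X := (Commute.refl X).pow_right t |>.eq
      calc X * (X ^ t * k) * X⁻¹ = (X * X ^ t) * k * X⁻¹ := by group
        _ = X ^ t * (X * k) * X⁻¹ := by rw [h3]; group
        _ = X ^ t * (k * X) * X⁻¹ := by rw [h2]
        _ = X ^ t * k := by group
    have hconjn : X * A ^ n * X⁻¹ = (z * A⁻¹) ^ n := by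
      rw [← hXA, conj_pow]
    have hcn : c ^ n = (z * A⁻¹) ^ n * (A⁻¹) ^ n := by
      rw [hc]
      have : Commute (z * A⁻¹) A⁻¹ := by
        show z * A⁻¹ * A⁻¹ = A⁻¹ * (z * A⁻¹)
        rw [← mul_assoc A⁻¹, ← hzc A⁻¹]
      exact this.mul_pow n
    rw [hcn, ← hconjn, hcomm2, inv_pow]
    group

/-- Kernel trivial from divisibility. -/
theorem ker_bot_of_core {Γ Q : Type*} [Group Γ] [Group Q] (σ : Γ →* Q) (a : Q) (n : ℕ) (c : Γ) (hc : σ c = a⁻¹ * a⁻¹)
    (hcn : c ^ n = 1) (hker : σ.ker ≤ Subgroup.zpowers c) (hdvd : ∀ m : ℤ, a ^ (2 * m) = 1 → (n : ℤ) ∣ m) : σ.ker = ⊥ := by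
  rw [eq_bot_iff]
  intro k hk
  obtain ⟨m, rfl⟩ := Subgroup.mem_zpowers_iff.mp (hker hk)
  have h1 : σ (c ^ m) = 1 := hk
  rw [map_zpow, hc] at h1
  have h2 : a ^ (2 * (-m)) = 1 := by
    have h3 : a⁻¹ * a⁻¹ = a ^ (-2 : ℤ) := by
      rw [zpow_neg, zpow_two, mul_inv_rev]
    rw [h3, ← zpow_mul] at h1
    rw [← h1]
    congr 1
    ring
  obtain ⟨t, ht⟩ := hdvd (-m) h2
  have hm : m = (n : ℤ) * (-t) := by linarith
  rw [Subgroup.mem_bot, hm, zpow_mul, zpow_natCast, hcn, one_zpow]

/-- Generators of the stem kernel of the generalized quaternion group. -/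
theorem dicyclic (n : ℕ) [NeZero n] : HasCyclicSchurMultiplier (QuaternionGroup n) 1 := by
  rw [hasCyclic_one_iff]
  intro Γ _ _ σ hσ
  obtain ⟨hs, hK, hK'⟩ := hσ
  have hgen : ∀ q : QuaternionGroup n, ∃ i : ℤ, q = (QuaternionGroup.a 1) ^ i ∨ q = QuaternionGroup.xa 0 * (QuaternionGroup.a 1) ^ i := by
    intro q
    have hp : ∀ i : ZMod (2 * n), (QuaternionGroup.a (1 : ZMod (2 * n))) ^ ((i.val : ℕ) : ℤ) = QuaternionGroup.a i := by
      intro i
      rw [zpow_natCast, QuaternionGroup.a_one_pow, ZMod.natCast_zmod_val]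
    cases q with
    | a i => exact ⟨(i.val : ℕ), Or.inl (hp i).symm⟩
    | xa i =>
      refine ⟨(i.val : ℕ), Or.inr ?_⟩
      rw [hp i, QuaternionGroup.xa_mul_a, zero_add]
  have hrel : QuaternionGroup.xa (0 : ZMod (2 * n)) * QuaternionGroup.a 1 * (QuaternionGroup.xa 0)⁻¹ = (QuaternionGroup.a 1)⁻¹ := by
    rw [mul_inv_eq_iff_eq_mul, eq_comm, inv_mul_eq_iff_eq_mul]
    simp
  obtain ⟨c, hc, hcn, hker⟩ := dih_core σ hs hK hK' (QuaternionGroup.a 1) (QuaternionGroup.xa 0) hgen hrel n 2 (by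
    rw [QuaternionGroup.a_one_pow, QuaternionGroup.xa_sq])
  refine ker_bot_of_core σ _ n c hc hcn hker ?_
  intro m hm
  have h1 := orderOf_dvd_iff_zpow_eq_one.mpr hm
  rw [QuaternionGroup.orderOf_a_one] at h1
  push_cast at h1
  have h2 : (2 : ℤ) ≠ 0 := by norm_num
  exact (mul_dvd_mul_iff_left h2).mp h1

theorem dih_gen (n : ℕ) [NeZero n] (q : DihedralGroup n) :
    ∃ i : ℤ, q = (DihedralGroup.r 1) ^ i ∨ q = DihedralGroup.sr 0 * (DihedralGroup.r 1) ^ i := by
  have hp : ∀ i : ZMod n, (DihedralGroup.r (1 : ZMod n)) ^ ((i.val : ℕ) : ℤ) = DihedralGroup.r i := by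
    intro i
    rw [zpow_natCast, DihedralGroup.r_one_pow, ZMod.natCast_zmod_val]
  cases q with
  | r i => exact ⟨(i.val : ℕ), Or.inl (hp i).symm⟩
  | sr i =>
    refine ⟨(i.val : ℕ), Or.inr ?_⟩
    rw [hp i, DihedralGroup.sr_mul_r, zero_add]

theorem dih_rel (n : ℕ) : DihedralGroup.sr (0 : ZMod n) * DihedralGroup.r 1 * (DihedralGroup.sr 0)⁻¹ = (DihedralGroup.r 1)⁻¹ := by
  rw [mul_inv_eq_iff_eq_mul, eq_comm, inv_mul_eq_iff_eq_mul]
  simp

theorem dihedral_odd (n : ℕ) (hn : Odd n) : HasCyclicSchurMultiplier (DihedralGroup n) 1 := by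
  haveI : NeZero n := ⟨by rintro rfl; simp at hn⟩
  rw [hasCyclic_one_iff]
  intro Γ _ _ σ hσ
  obtain ⟨hs, hK, hK'⟩ := hσ
  obtain ⟨c, hc, hcn, hker⟩ := dih_core σ hs hK hK' (DihedralGroup.r 1) (DihedralGroup.sr 0) (dih_gen n) (dih_rel n) n 0 (by
    rw [DihedralGroup.r_one_pow_n, pow_zero])
  refine ker_bot_of_core σ _ n c hc hcn hker ?_
  intro m hm
  have h1 := orderOf_dvd_iff_zpow_eq_one.mpr hm
  rw [DihedralGroup.orderOf_r_one] at h1
  have h2 : IsCoprime (n : ℤ) 2 := by
    have : Nat.Coprime n 2 := Nat.Coprime.symm (Nat.Prime.coprime_iff_not_dvd Nat.prime_two |>.mpr (by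
      intro h2; exact (Nat.not_even_iff_odd.mpr hn) (even_iff_two_dvd.mpr h2)))
    exact_mod_cast Nat.isCoprime_iff_coprime.mpr this
  exact h2.dvd_of_dvd_mul_left h1

/-- The double cover of dihedral groups. -/
noncomputable def dihCover (n : ℕ) [NeZero n] : DihedralGroup (2 * n) →* DihedralGroup n :=
  MonoidHom.mk' (fun g => match g with
    | DihedralGroup.r i => DihedralGroup.r (ZMod.castHom (Dvd.intro_left 2 rfl : n ∣ 2 * n) (ZMod n) i)
    | DihedralGroup.sr i => DihedralGroup.sr (ZMod.castHom (Dvd.intro_left 2 rfl : n ∣ 2 * n) (ZMod n) i)) (by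
    rintro (i | i) (j | j) <;> simp [map_add, map_sub])

theorem dihedral_even (n : ℕ) [NeZero n] (hn : Even n) : HasCyclicSchurMultiplier (DihedralGroup n) 2 := by
  obtain ⟨k, hk⟩ := hn
  have hk2 : n = 2 * k := by omega
  have hnpos : 0 < n := Nat.pos_of_ne_zero (NeZero.ne n)
  haveI : NeZero (2 * n) := ⟨by omega⟩
  constructor
  · -- existence
    let σ := dihCover n
    have hsurj : Function.Surjective σ := by
      rintro (i | i)
      · refine ⟨DihedralGroup.r (i.val : ZMod (2 * n)), ?_⟩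
        show DihedralGroup.r (ZMod.castHom (Dvd.intro_left 2 rfl : n ∣ 2 * n) (ZMod n) (i.val : ZMod (2 * n))) = _
        simp
      · refine ⟨DihedralGroup.sr (i.val : ZMod (2 * n)), ?_⟩
        show DihedralGroup.sr (ZMod.castHom (Dvd.intro_left 2 rfl : n ∣ 2 * n) (ZMod n) (i.val : ZMod (2 * n))) = _
        simp
    have hker : ∀ g : DihedralGroup (2 * n), g ∈ σ.ker → g = 1 ∨ g = DihedralGroup.r (n : ZMod (2 * n)) := by
      intro g hg
      cases g with
      | sr i =>
        have : σ (DihedralGroup.sr i) = 1 := hg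
        have h2 : σ (DihedralGroup.sr i) = DihedralGroup.sr (ZMod.castHom (Dvd.intro_left 2 rfl : n ∣ 2 * n) (ZMod n) i) := rfl
        rw [h2] at this
        have h9 : DihedralGroup.sr (ZMod.castHom (Dvd.intro_left 2 rfl : n ∣ 2 * n) (ZMod n) i) = DihedralGroup.r 0 := this
        exact absurd h9 (by intro h; cases h)
      | r i =>
        have : σ (DihedralGroup.r i) = 1 := hg
        have h2 : σ (DihedralGroup.r i) = DihedralGroup.r (ZMod.castHom (Dvd.intro_left 2 rfl : n ∣ 2 * n) (ZMod n) i) := rfl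
        rw [h2, DihedralGroup.one_def] at this
        have h3 : ZMod.castHom (Dvd.intro_left 2 rfl : n ∣ 2 * n) (ZMod n) i = 0 := DihedralGroup.r.inj this
        have h4 : ((i.val : ℕ) : ZMod n) = 0 := by
          rw [ZMod.natCast_val]
          exact h3
        have h5 : n ∣ i.val := (ZMod.natCast_eq_zero_iff _ _).mp h4
        obtain ⟨t, ht⟩ := h5
        have h6 : i.val < 2 * n := ZMod.val_lt i
        have h7 : t = 0 ∨ t = 1 := by
          have : t < 2 := by
            by_contra hcon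
            push_neg at hcon
            have : n * 2 ≤ n * t := Nat.mul_le_mul_left _ hcon
            omega
          omega
        rcases h7 with rfl | rfl
        · left
          have h8 : i.val = 0 := by simpa using ht
          have h9 : i = 0 := (ZMod.val_eq_zero _).mp h8
          rw [h9]; rfl
        · right
          have h8 : i.val = n := by simpa using ht
          have h9 : (n : ZMod (2 * n)) = i := by
            have := ZMod.natCast_zmod_val i
            rwa [h8] at this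
          rw [h9]
    have hn2 : ((2 * n : ℕ) : ZMod (2 * n)) = 0 := ZMod.natCast_self (2 * n)
    have hneg : -(n : ZMod (2 * n)) = n := by
      have : (n : ZMod (2 * n)) + n = 0 := by
        rw [← hn2]; push_cast; ring
      exact neg_eq_of_add_eq_zero_right this
    have hrn : σ (DihedralGroup.r (n : ZMod (2 * n))) = 1 := by
      show DihedralGroup.r (ZMod.castHom (Dvd.intro_left 2 rfl : n ∣ 2 * n) (ZMod n) (n : ZMod (2 * n))) = _
      rw [map_natCast, ZMod.natCast_self]
      rfl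
    have hcentral : DihedralGroup.r (n : ZMod (2 * n)) ∈ Subgroup.center (DihedralGroup (2 * n)) := by
      rw [Subgroup.mem_center_iff]
      rintro (j | j)
      · simp [add_comm]
      · simp only [DihedralGroup.r_mul_sr, DihedralGroup.sr_mul_r]
        congr 1
        rw [sub_eq_add_neg, hneg]
    have hcomm : DihedralGroup.r (n : ZMod (2 * n)) ∈ commutator (DihedralGroup (2 * n)) := by
      have h1 : ⁅(DihedralGroup.sr (0 : ZMod (2 * n))), (DihedralGroup.r (k : ZMod (2 * n)))⁆ ∈ commutator (DihedralGroup (2 * n)) := by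
        rw [commutator_def]
        exact Subgroup.commutator_mem_commutator trivial trivial
      have h2 : ⁅(DihedralGroup.sr (0 : ZMod (2 * n))), (DihedralGroup.r (k : ZMod (2 * n)))⁆ = DihedralGroup.r (n : ZMod (2 * n)) := by
        rw [commutatorElement_def]
        simp only [DihedralGroup.inv_sr, DihedralGroup.inv_r, DihedralGroup.sr_mul_r, DihedralGroup.sr_mul_sr, DihedralGroup.r_mul_r]
        congr 1
        rw [← hneg, hk2]
        push_cast
        ring
      rwa [h2] at h1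
    refine ⟨DihedralGroup (2 * n), inferInstance, inferInstance, σ, ⟨hsurj, ?_, ?_⟩, ?_⟩
    · intro g hg
      rcases hker g hg with rfl | rfl
      · exact one_mem _
      · exact hcentral
    · intro g hg
      rcases hker g hg with rfl | rfl
      · exact one_mem _
      · exact hcomm
    · let e : σ.ker := ⟨DihedralGroup.r (n : ZMod (2 * n)), hrn⟩
      apply iso_of_generator 2 e
      · apply orderOf_eq_prime
        · apply Subtype.ext
          show (DihedralGroup.r (n : ZMod (2 * n))) ^ 2 = 1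
          rw [pow_two, DihedralGroup.r_mul_r, DihedralGroup.one_def]
          congr 1
          rw [← hn2]; push_cast; ring
        · intro h1
          have h2 : DihedralGroup.r (n : ZMod (2 * n)) = 1 := congrArg Subtype.val h1
          rw [DihedralGroup.one_def] at h2
          have h3 : (n : ZMod (2 * n)) = 0 := DihedralGroup.r.inj h2
          have h4 := (ZMod.natCast_eq_zero_iff _ _).mp h3
          have := Nat.le_of_dvd hnpos h4
          omega
      · rintro ⟨g, hg⟩
        rcases hker g hg with h | h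
        · exact ⟨0, Subtype.ext (by simpa using h)⟩
        · exact ⟨1, Subtype.ext (by simpa using h)⟩
  · -- upper bound
    intro Γ _ _ σ hσ
    obtain ⟨hs, hK, hK'⟩ := hσ
    obtain ⟨c, hc, hcn, hker⟩ := dih_core σ hs hK hK' (DihedralGroup.r 1) (DihedralGroup.sr 0) (dih_gen n) (dih_rel n) n 0 (by
      rw [DihedralGroup.r_one_pow_n, pow_zero])
    have hkpos : 0 < k := by omega
    set d := c ^ k with hd
    have hd2 : d ^ 2 = 1 := by
      rw [hd, ← pow_mul, mul_comm, ← hk2]; exact hcn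
    have hform : ∀ x ∈ σ.ker, x = 1 ∨ x = d := by
      intro x hx
      obtain ⟨m, rfl⟩ := Subgroup.mem_zpowers_iff.mp (hker hx)
      have h1 : σ (c ^ m) = 1 := hx
      rw [map_zpow, hc] at h1
      have h3 : (DihedralGroup.r 1 : DihedralGroup n)⁻¹ * (DihedralGroup.r 1)⁻¹ = (DihedralGroup.r 1) ^ (-2 : ℤ) := by
        rw [zpow_neg, zpow_two, mul_inv_rev]
      rw [h3, ← zpow_mul] at h1
      have h4 := orderOf_dvd_iff_zpow_eq_one.mpr h1
      rw [DihedralGroup.orderOf_r_one, hk2] at h4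
      have h5 : (k : ℤ) ∣ m := by
        have h6 : (2 : ℤ) * k ∣ 2 * m := by
          have : (-2 : ℤ) * m = -(2 * m) := by ring
          rw [this, dvd_neg] at h4
          push_cast at h4
          exact h4
        exact (mul_dvd_mul_iff_left (by norm_num : (2 : ℤ) ≠ 0)).mp h6
      obtain ⟨t, rfl⟩ := h5
      have h7 : c ^ ((k : ℤ) * t) = d ^ t := by
        rw [zpow_mul, zpow_natCast]
      rw [h7]
      rcases Int.even_or_odd t with ⟨r, hr⟩ | ⟨r, hr⟩
      · left
        rw [hr, ← two_mul, zpow_mul]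
        have : d ^ (2 : ℤ) = 1 := by exact_mod_cast hd2
        rw [this, one_zpow]
      · right
        rw [hr, zpow_add, zpow_mul, zpow_one]
        have : d ^ (2 : ℤ) = 1 := by exact_mod_cast hd2
        rw [this, one_zpow, one_mul]
    by_cases hdK : d ∈ σ.ker
    · let e : σ.ker := ⟨d, hdK⟩
      obtain ⟨π, hπ, -⟩ := surj_of_generator 2 e (Subtype.ext hd2) (by
        rintro ⟨x, hx⟩
        rcases hform x hx with h | h
        · exact ⟨0, Subtype.ext (by simpa using h)⟩
        · exact ⟨1, Subtype.ext (by simpa using h)⟩)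
      exact ⟨π, hπ⟩
    · obtain ⟨π, hπ, -⟩ := surj_of_generator 2 (1 : σ.ker) (one_pow _) (by
        rintro ⟨x, hx⟩
        rcases hform x hx with h | h
        · exact ⟨0, Subtype.ext (by simpa using h)⟩
        · exact absurd (h ▸ hx) hdK)
      exact ⟨π, hπ⟩

section Heis

variable {G : Type u} [Group G] {n : ℕ}

/-- The twisted product of `G` with `ZMod n` attached to a pair of characters. -/
def Heis (_χ₁ _χ₂ : G →* Multiplicative (ZMod n)) : Type u := G × ZMod n

variable (χ₁ χ₂ : G →* Multiplicative (ZMod n))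

instance : Mul (Heis χ₁ χ₂) :=
  ⟨fun p q => (p.1 * q.1, p.2 + q.2 + Multiplicative.toAdd (χ₁ p.1) * Multiplicative.toAdd (χ₂ q.1))⟩
instance : One (Heis χ₁ χ₂) := ⟨(1, 0)⟩
instance : Inv (Heis χ₁ χ₂) :=
  ⟨fun p => (p.1⁻¹, -p.2 + Multiplicative.toAdd (χ₁ p.1) * Multiplicative.toAdd (χ₂ p.1))⟩

theorem heis_mul_fst (p q : Heis χ₁ χ₂) : (p * q).1 = p.1 * q.1 := rfl
theorem heis_mul_snd (p q : Heis χ₁ χ₂) : (p * q).2 = p.2 + q.2 + Multiplicative.toAdd (χ₁ p.1) * Multiplicative.toAdd (χ₂ q.1) := rfl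
theorem heis_one_fst : (1 : Heis χ₁ χ₂).1 = 1 := rfl
theorem heis_one_snd : (1 : Heis χ₁ χ₂).2 = 0 := rfl
theorem heis_inv_fst (p : Heis χ₁ χ₂) : (p⁻¹).1 = p.1⁻¹ := rfl
theorem heis_inv_snd (p : Heis χ₁ χ₂) : (p⁻¹).2 = -p.2 + Multiplicative.toAdd (χ₁ p.1) * Multiplicative.toAdd (χ₂ p.1) := rfl

theorem heis_ext {p q : Heis χ₁ χ₂} (h1 : p.1 = q.1) (h2 : p.2 = q.2) : p = q := Prod.ext h1 h2

instance heisGroup : Group (Heis χ₁ χ₂) :=
  Group.ofLeftAxioms
    (by
      intro p q r
      apply heis_ext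
      · simp only [heis_mul_fst, mul_assoc]
      · simp only [heis_mul_fst, heis_mul_snd, map_mul, toAdd_mul]
        ring)
    (by
      intro p
      apply heis_ext
      · simp only [heis_mul_fst, heis_one_fst, one_mul]
      · simp only [heis_mul_snd, heis_one_fst, heis_one_snd, map_one, toAdd_one]
        ring)
    (by
      intro p
      apply heis_ext
      · simp only [heis_mul_fst, heis_inv_fst, inv_mul_cancel, heis_one_fst]
      · simp only [heis_mul_snd, heis_inv_fst, heis_inv_snd, heis_one_snd, map_inv, toAdd_inv]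
        ring)

instance [Finite G] [NeZero n] : Finite (Heis χ₁ χ₂) := by
  unfold Heis
  infer_instance

/-- The projection of the twisted product. -/
def heisProj : Heis χ₁ χ₂ →* G := MonoidHom.mk' (fun p => p.1) (fun _ _ => rfl)

theorem heis_stem [NeZero n] (x y : G) (hxy : x * y = y * x)
    (hdet : Multiplicative.toAdd (χ₁ x) * Multiplicative.toAdd (χ₂ y) - Multiplicative.toAdd (χ₁ y) * Multiplicative.toAdd (χ₂ x) = 1) :
    IsStemExtension (heisProj χ₁ χ₂) ∧ Nonempty ((heisProj χ₁ χ₂).ker ≃* Multiplicative (ZMod n)) := by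
  set E : Heis χ₁ χ₂ := ((1 : G), (1 : ZMod n)) with hE
  have hEpow : ∀ m : ℕ, E ^ m = (((1 : G), (m : ZMod n)) : Heis χ₁ χ₂) := by
    intro m
    induction m with
    | zero =>
      rw [pow_zero]
      apply heis_ext
      · rfl
      · show (0 : ZMod n) = _
        simp
    | succ m ih =>
      rw [pow_succ, ih]
      apply heis_ext
      · show (1 : G) * 1 = 1
        simp
      · show (m : ZMod n) + 1 + Multiplicative.toAdd (χ₁ 1) * Multiplicative.toAdd (χ₂ 1) = _
        simp
  have hker : ∀ p : Heis χ₁ χ₂, p ∈ (heisProj χ₁ χ₂).ker ↔ p.1 = 1 := by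
    intro p
    rw [MonoidHom.mem_ker]
    rfl
  have hform : ∀ p ∈ (heisProj χ₁ χ₂).ker, p = E ^ (p.2.val) := by
    intro p hp
    rw [hEpow, ZMod.natCast_zmod_val]
    apply heis_ext
    · exact (hker p).mp hp
    · rfl
  have hEk : E ∈ (heisProj χ₁ χ₂).ker := (hker E).mpr rfl
  have hEc : E ∈ Subgroup.center (Heis χ₁ χ₂) := by
    rw [Subgroup.mem_center_iff]
    intro q
    apply heis_ext
    · show q.1 * 1 = 1 * q.1
      simp
    · show q.2 + 1 + Multiplicative.toAdd (χ₁ q.1) * Multiplicative.toAdd (χ₂ 1) = 1 + q.2 + Multiplicative.toAdd (χ₁ 1) * Multiplicative.toAdd (χ₂ q.1)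
      simp only [map_one, toAdd_one]
      ring
  have hEcomm : E ∈ commutator (Heis χ₁ χ₂) := by
    set P : Heis χ₁ χ₂ := (x, (0 : ZMod n)) with hP
    set Q : Heis χ₁ χ₂ := (y, (0 : ZMod n)) with hQ
    have h1 : P * Q = E * Q * P := by
      apply heis_ext
      · show x * y = 1 * y * x
        rw [one_mul, hxy]
      · show 0 + 0 + Multiplicative.toAdd (χ₁ x) * Multiplicative.toAdd (χ₂ y) =
          (1 + 0 + Multiplicative.toAdd (χ₁ 1) * Multiplicative.toAdd (χ₂ y)) + 0 + Multiplicative.toAdd (χ₁ (1 * y)) * Multiplicative.toAdd (χ₂ x)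
        simp only [map_one, toAdd_one, one_mul]
        linear_combination hdet
    have h2 : ⁅P, Q⁆ = E := by
      rw [commutatorElement_def, h1]
      group
    rw [← h2, commutator_def]
    exact Subgroup.commutator_mem_commutator trivial trivial
  have hEord : orderOf (⟨E, hEk⟩ : (heisProj χ₁ χ₂).ker) = n := by
    have hpow : ∀ m : ℕ, (⟨E, hEk⟩ : (heisProj χ₁ χ₂).ker) ^ m = 1 ↔ (m : ZMod n) = 0 := by
      intro m
      constructor
      · intro h
        have h1 : E ^ m = 1 := congrArg Subtype.val h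
        rw [hEpow] at h1
        exact congrArg (fun p : Heis χ₁ χ₂ => p.2) h1
      · intro h
        apply Subtype.ext
        show E ^ m = 1
        rw [hEpow, h]
        rfl
    apply Nat.dvd_antisymm
    · apply orderOf_dvd_of_pow_eq_one
      rw [hpow]; simp
    · have := (hpow _).mp (pow_orderOf_eq_one (⟨E, hEk⟩ : (heisProj χ₁ χ₂).ker))
      exact (ZMod.natCast_eq_zero_iff _ _).mp this
  refine ⟨⟨?_, ?_, ?_⟩, ?_⟩
  · intro g
    exact ⟨(g, 0), rfl⟩
  · intro p hp
    rw [hform p hp]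
    exact pow_mem hEc _
  · intro p hp
    rw [hform p hp]
    exact pow_mem hEcomm _
  · apply iso_of_generator n _ hEord
    rintro ⟨p, hp⟩
    refine ⟨p.2.val, Subtype.ext ?_⟩
    exact hform p hp

end Heis

theorem cyclic_one {G : Type u} [Group G] [Finite G] [IsCyclic G] : HasCyclicSchurMultiplier G 1 := by
  rw [hasCyclic_one_iff]
  rintro Γ _ _ σ ⟨hs, hK, hK'⟩
  have hcomm : ∀ a b : Γ, a * b = b * a := commutative_of_cyclic_center_quotient σ hK
  have hbot : commutator Γ = ⊥ := by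
    rw [commutator_def, eq_bot_iff, Subgroup.commutator_le]
    intro g _ h _
    rw [Subgroup.mem_bot, commutatorElement_eq_one_iff_mul_comm]
    exact hcomm g h
  rw [hbot] at hK'
  exact le_antisymm hK' bot_le

theorem abelian_one_iff {G : Type u} [CommGroup G] [Finite G] : HasCyclicSchurMultiplier G 1 ↔ IsCyclic G := by
  constructor
  · intro h
    by_contra hnc
    obtain ⟨ι, _, n, hn, ⟨e⟩⟩ := CommGroup.equiv_prod_multiplicative_zmod_of_finite G
    classical
    have hex : ∃ i j : ι, i ≠ j ∧ ¬ Nat.Coprime (n i) (n j) := by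
      by_contra hcon
      push_neg at hcon
      apply hnc
      have hcop : Pairwise (Function.onFun Nat.Coprime n) := fun i j hij => hcon i j hij
      let φ := ZMod.prodEquivPi n hcop
      haveI : NeZero (∏ i, n i) := ⟨Finset.prod_ne_zero_iff.mpr (fun i _ => by have := hn i; omega)⟩
      let f : Multiplicative (ZMod (∏ i, n i)) →* G :=
        e.symm.toMonoidHom.comp (MonoidHom.mk' (fun x i => Multiplicative.ofAdd (φ (Multiplicative.toAdd x) i)) (by
          intro x y
          funext i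
          simp))
      refine isCyclic_of_surjective f ?_
      intro g
      refine ⟨Multiplicative.ofAdd (φ.symm (fun i => Multiplicative.toAdd (e g i))), ?_⟩
      apply e.injective
      show e (e.symm _) = e g
      rw [MulEquiv.apply_symm_apply]
      funext i
      simp
    obtain ⟨i, j, hij, hc⟩ := hex
    obtain ⟨p, hp, hpi, hpj⟩ := Nat.Prime.not_coprime_iff_dvd.mp hc
    haveI : Fact p.Prime := ⟨hp⟩
    haveI : NeZero p := ⟨hp.ne_zero⟩
    let c (i : ι) (hd : p ∣ n i) : G →* Multiplicative (ZMod p) :=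
      (AddMonoidHom.toMultiplicative ((ZMod.castHom hd (ZMod p)).toAddMonoidHom)).comp
        ((Pi.evalMonoidHom _ i).comp e.toMonoidHom)
    have hcapp : ∀ (i : ι) (hd : p ∣ n i) (g : G), Multiplicative.toAdd (c i hd g) = ZMod.castHom hd (ZMod p) (Multiplicative.toAdd (e g i)) := fun _ _ _ => rfl
    let x : G := e.symm (Pi.mulSingle i (Multiplicative.ofAdd 1))
    let y : G := e.symm (Pi.mulSingle j (Multiplicative.ofAdd 1))
    have hex1 : e x = Pi.mulSingle i (Multiplicative.ofAdd 1) := e.apply_symm_apply _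
    have hey1 : e y = Pi.mulSingle j (Multiplicative.ofAdd 1) := e.apply_symm_apply _
    obtain ⟨hst, ⟨hiso⟩⟩ := heis_stem (c i hpi) (c j hpj) x y (mul_comm x y) (by
      rw [hcapp, hcapp, hcapp, hcapp, hex1, hey1]
      simp [Pi.mulSingle_apply, hij, hij.symm]
      rw [ZMod.cast_one hpi, ZMod.cast_one hpj, one_mul])
    have hbot := (hasCyclic_one_iff.mp h) _ (heisProj (c i hpi) (c j hpj)) hst
    rw [hbot] at hiso
    have h1 : Subsingleton (Multiplicative (ZMod p)) := by
      constructor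
      intro a b
      apply hiso.symm.injective
      exact Subsingleton.elim _ _
    have h2 : (1 : ZMod p) = 0 := by
      have := @Subsingleton.elim _ h1 (Multiplicative.ofAdd 1) (Multiplicative.ofAdd 0)
      exact this
    exact one_ne_zero h2
  · intro h
    exact cyclic_one

/-- Multiplier of the product of two cyclic groups. -/
theorem two_gen (m n : ℕ) [NeZero m] [NeZero n] (hnm : n ∣ m) :
    HasCyclicSchurMultiplier (Multiplicative (ZMod m × ZMod n)) n := by
  set Q := Multiplicative (ZMod m × ZMod n) with hQ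
  let χ₁ : Q →* Multiplicative (ZMod n) := AddMonoidHom.toMultiplicative
    (((ZMod.castHom hnm (ZMod n)).toAddMonoidHom).comp (AddMonoidHom.fst (ZMod m) (ZMod n)))
  let χ₂ : Q →* Multiplicative (ZMod n) := AddMonoidHom.toMultiplicative (AddMonoidHom.snd (ZMod m) (ZMod n))
  let x : Q := Multiplicative.ofAdd ((1 : ZMod m), (0 : ZMod n))
  let y : Q := Multiplicative.ofAdd ((0 : ZMod m), (1 : ZMod n))
  have hcast : ZMod.castHom hnm (ZMod n) (1 : ZMod m) = 1 := map_one _
  have hcast0 : ZMod.castHom hnm (ZMod n) (0 : ZMod m) = 0 := map_zero _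
  obtain ⟨hst, hiso⟩ := heis_stem χ₁ χ₂ x y (by
      show Multiplicative.ofAdd (_ + _) = Multiplicative.ofAdd (_ + _)
      congr 1
      exact add_comm _ _) (by
      show ZMod.castHom hnm (ZMod n) (1 : ZMod m) * (1 : ZMod n) - ZMod.castHom hnm (ZMod n) (0 : ZMod m) * (0 : ZMod n) = 1
      rw [hcast, hcast0]; ring)
  refine ⟨⟨_, inferInstance, inferInstance, heisProj χ₁ χ₂, hst, hiso⟩, ?_⟩
  intro Γ _ _ σ ⟨hs, hK, hK'⟩
  obtain ⟨A, hA⟩ := hs x
  obtain ⟨B, hB⟩ := hs y
  set c := B * A * B⁻¹ * A⁻¹ with hc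
  have hcK : c ∈ σ.ker := by
    rw [MonoidHom.mem_ker, hc]
    simp only [map_mul, map_inv, hA, hB]
    have : y * x = x * y := mul_comm y x
    rw [this]; group
  have hcc : ∀ w : Γ, c * w = w * c := fun w => (Subgroup.mem_center_iff.mp (hK hcK) w).symm
  -- forms
  have hform : ∀ g : Γ, ∃ e i : ℤ, ∃ k ∈ σ.ker, g = B ^ e * A ^ i * k := by
    intro g
    have hg : σ g = y ^ (((Multiplicative.toAdd (σ g)).2).val : ℤ) * x ^ (((Multiplicative.toAdd (σ g)).1).val : ℤ) := by
      rw [zpow_natCast, zpow_natCast]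
      have h1 : ∀ r : ℕ, x ^ r = Multiplicative.ofAdd ((r : ZMod m), (0 : ZMod n)) := by
        intro r
        induction r with
        | zero => simp; rfl
        | succ r ih =>
          rw [pow_succ, ih]
          show Multiplicative.ofAdd (((r : ZMod m), (0 : ZMod n)) + ((1 : ZMod m), (0 : ZMod n))) = _
          simp
      have h2 : ∀ r : ℕ, y ^ r = Multiplicative.ofAdd ((0 : ZMod m), (r : ZMod n)) := by
        intro r
        induction r with
        | zero => simp; rfl
        | succ r ih =>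
          rw [pow_succ, ih]
          show Multiplicative.ofAdd (((0 : ZMod m), (r : ZMod n)) + ((0 : ZMod m), (1 : ZMod n))) = _
          simp
      rw [h1, h2]
      show _ = Multiplicative.ofAdd (_ + _)
      simp
    refine ⟨_, _, (B ^ (((Multiplicative.toAdd (σ g)).2).val : ℤ) * A ^ (((Multiplicative.toAdd (σ g)).1).val : ℤ))⁻¹ * g, ?_, by group⟩
    rw [MonoidHom.mem_ker, map_mul, map_inv, map_mul, map_zpow, map_zpow, hA, hB, ← hg]
    group
  haveI hNnorm : (Subgroup.zpowers c).Normal := by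
    constructor
    intro n' hn' g
    obtain ⟨t, rfl⟩ := Subgroup.mem_zpowers_iff.mp hn'
    rw [← conj_zpow, ← hcc g, mul_inv_cancel_right]
    exact zpow_mem (Subgroup.mem_zpowers c) t
  have hcomm : commutator Γ ≤ Subgroup.zpowers c := comm_le (Subgroup.zpowers c) σ.ker hK A B (Subgroup.mem_zpowers c) hform
  -- `c ^ n = 1`
  have hBn : B ^ n ∈ σ.ker := by
    rw [MonoidHom.mem_ker, map_pow, hB]
    have h2 : ∀ r : ℕ, y ^ r = Multiplicative.ofAdd ((0 : ZMod m), (r : ZMod n)) := by
      intro r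
      induction r with
      | zero => simp; rfl
      | succ r ih =>
        rw [pow_succ, ih]
        show Multiplicative.ofAdd (((0 : ZMod m), (r : ZMod n)) + ((0 : ZMod m), (1 : ZMod n))) = _
        simp
    rw [h2]
    simp
  have hconj : ∀ r : ℕ, B ^ r * A * (B ^ r)⁻¹ = c ^ r * A := by
    intro r
    induction r with
    | zero => simp
    | succ r ih =>
      have h1 : B ^ (r + 1) * A * (B ^ (r + 1))⁻¹ = B * (B ^ r * A * (B ^ r)⁻¹) * B⁻¹ := by
        rw [pow_succ']; group
      rw [h1, ih]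
      have h2 : c ^ r * B = B * c ^ r := ((show Commute c B from hcc B).pow_left r).eq
      have h3 : B * A * B⁻¹ = c * A := by rw [hc]; group
      calc B * (c ^ r * A) * B⁻¹ = (B * c ^ r) * A * B⁻¹ := by group
        _ = c ^ r * (B * A * B⁻¹) := by rw [← h2]; group
        _ = c ^ r * (c * A) := by rw [h3]
        _ = c ^ (r + 1) * A := by rw [pow_succ]; group
  have hcn : c ^ n = 1 := by
    have h1 := hconj n
    have h2 : B ^ n * A = A * B ^ n := (Subgroup.mem_center_iff.mp (hK hBn) A).symm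
    have h3 : B ^ n * A * (B ^ n)⁻¹ = A := by rw [h2]; group
    rw [h3] at h1
    have h4 : c ^ n * A = 1 * A := by rw [← h1, one_mul]
    exact mul_right_cancel h4
  let e : σ.ker := ⟨c, hcK⟩
  obtain ⟨π, hπ, -⟩ := surj_of_generator n e (Subtype.ext hcn) (by
    rintro ⟨k, hk⟩
    have h1 : k ∈ Subgroup.zpowers c := hcomm (hK' hk)
    have h2 : ∃ r : ℕ, c ^ r = k := by
      have h3 : k ∈ Submonoid.powers c := mem_powers_iff_mem_zpowers.mpr h1
      exact h3
    obtain ⟨r, hr⟩ := h2
    exact ⟨r, Subtype.ext hr.symm⟩)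
  exact ⟨π, hπ⟩

end Cfsg.Agent.Lib.H6Schur
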