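import Mathlib
import Cfsg.Agent.Lib.H6Schur

/-!
Perfect groups and central extensions.
-/

set_option autoImplicit false
set_option linter.all false

namespace Cfsg.Agent.Lib.H6Schur2

open Cfsg
open scoped commutatorElement
open Cfsg.Agent.Lib.H6Schur

universe u v w

/-- Commutators are not changed by central factors. -/
theorem comm_mul_central {E : Type*} [Group E] (a b z w : E) (hz : z ∈ Subgroup.center E) (hw : w ∈ Subgroup.center E) :
    ⁅a * z, b * w⁆ = ⁅a, b⁆ := by
  have hz' := fun x => Subgroup.mem_center_iff.mp hz x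
  have hw' := fun x => Subgroup.mem_center_iff.mp hw x
  rw [commutatorElement_def, commutatorElement_def]
  have h1 : a * z * (b * w) * (a * z)⁻¹ * (b * w)⁻¹ = a * (z * b) * (w * z⁻¹) * a⁻¹ * w⁻¹ * b⁻¹ := by group
  rw [h1, ← hz' b]
  have h2 : b * z * (w * z⁻¹) * a⁻¹ * w⁻¹ * b⁻¹ = b * (z * w * z⁻¹) * a⁻¹ * w⁻¹ * b⁻¹ := by group
  have h3 : z * w * z⁻¹ = w := by rw [← hz' w]; group
  have h4 : a * (b * z) * (w * z⁻¹) * a⁻¹ * w⁻¹ * b⁻¹ = a * (b * (z * w * z⁻¹)) * a⁻¹ * w⁻¹ * b⁻¹ := by group
  rw [h4, h3]
  have h5 : a * (b * w) * a⁻¹ * w⁻¹ * b⁻¹ = a * b * (w * a⁻¹) * w⁻¹ * b⁻¹ := by group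
  rw [h5, ← hw' a⁻¹]
  group

/-- A central extension of a finite group has finite commutator subgroup. -/
theorem finite_commutator {E Q : Type*} [Group E] [Group Q] [Finite Q] (f : E →* Q) (hf : f.ker ≤ Subgroup.center E) :
    Finite (commutator E) := by
  classical
  have hfin : Finite (commutatorSet E) := by
    let φ : Q × Q → E := fun p => ⁅Function.invFun f p.1, Function.invFun f p.2⁆
    have hsub : commutatorSet E ⊆ Set.range φ := by
      rintro _ ⟨a, b, rfl⟩
      refine ⟨(f a, f b), ?_⟩
      have ha : f (Function.invFun f (f a)) = f a := Function.invFun_eq ⟨a, rfl⟩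
      have hb : f (Function.invFun f (f b)) = f b := Function.invFun_eq ⟨b, rfl⟩
      have hza : a⁻¹ * Function.invFun f (f a) ∈ f.ker := by
        rw [MonoidHom.mem_ker, map_mul, map_inv, ha]; group
      have hzb : b⁻¹ * Function.invFun f (f b) ∈ f.ker := by
        rw [MonoidHom.mem_ker, map_mul, map_inv, hb]; group
      have h1 := comm_mul_central a b _ _ (hf hza) (hf hzb)
      simp only [mul_inv_cancel_left] at h1
      exact h1
    exact Set.Finite.to_subtype ((Set.finite_range φ).subset hsub)
  infer_instance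

/-- If `Q` is perfect and `f : E → Q` is a central extension, then the commutator subgroup surjects and is perfect. -/
theorem comm_surj {E : Type*} {Q : Type*} [Group E] [Group Q] (hQ : Group.IsPerfect Q) (f : E →* Q)
    (hs : Function.Surjective f) : Function.Surjective (f.comp (commutator E).subtype) := by
  intro q
  have h1 : q ∈ commutator Q := by
    rw [Group.isPerfect_def.mp hQ]; trivial
  have h2 : (commutator E).map f = commutator Q := by
    rw [commutator_def, commutator_def, Subgroup.map_commutator, Subgroup.map_top_of_surjective f hs]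
  rw [← h2] at h1
  obtain ⟨x, hx, hxq⟩ := h1
  exact ⟨⟨x, hx⟩, hxq⟩

theorem comm_perfect {E : Type*} {Q : Type*} [Group E] [Group Q] (hQ : Group.IsPerfect Q) (f : E →* Q)
    (hs : Function.Surjective f) (hf : f.ker ≤ Subgroup.center E) : Group.IsPerfect (commutator E) := by
  rw [Group.isPerfect_def]
  have hcs := comm_surj hQ f hs
  have key : commutator E ≤ (commutator (commutator E)).map (commutator E).subtype := by
    refine (commutator_def E).le.trans (Subgroup.commutator_le.mpr ?_)
    intro a _ b _
    obtain ⟨a', ha'⟩ := hcs (f a)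
    obtain ⟨b', hb'⟩ := hcs (f b)
    have ha : a⁻¹ * a'.1 ∈ f.ker := by
      rw [MonoidHom.mem_ker, map_mul, map_inv]
      have : f a'.1 = f a := ha'
      rw [this]; group
    have hb : b⁻¹ * b'.1 ∈ f.ker := by
      rw [MonoidHom.mem_ker, map_mul, map_inv]
      have : f b'.1 = f b := hb'
      rw [this]; group
    have h1 := comm_mul_central a b _ _ (hf ha) (hf hb)
    simp only [mul_inv_cancel_left] at h1
    rw [← h1]
    refine ⟨⁅a', b'⁆, ?_, rfl⟩
    exact (commutator_def (commutator E)).ge (Subgroup.commutator_mem_commutator (Subgroup.mem_top a') (Subgroup.mem_top b'))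
  rw [eq_top_iff]
  rintro ⟨x, hx⟩ -
  obtain ⟨y, hy, hyx⟩ := key hx
  have : y = ⟨x, hx⟩ := Subtype.ext hyx
  rwa [← this]

/-- Two homomorphisms from a perfect group differing centrally agree. -/
theorem hom_eq_of_perfect {G X : Type*} [Group G] [Group X] (hG : Group.IsPerfect G) (f g : G →* X)
    (h : ∀ x, f x * (g x)⁻¹ ∈ Subgroup.center X) : f = g := by
  let δ : G →* Subgroup.center X := MonoidHom.mk' (fun x => ⟨f x * (g x)⁻¹, h x⟩) (by
    intro x y
    apply Subtype.ext
    show f (x * y) * (g (x * y))⁻¹ = (f x * (g x)⁻¹) * (f y * (g y)⁻¹)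
    rw [map_mul, map_mul]
    have hc := Subgroup.mem_center_iff.mp (h y) (g x)⁻¹
    calc f x * f y * (g x * g y)⁻¹ = f x * (f y * (g y)⁻¹) * (g x)⁻¹ := by group
      _ = f x * ((g x)⁻¹ * (f y * (g y)⁻¹)) := by rw [mul_assoc, ← hc]
      _ = _ := by group)
  have htriv : ∀ x, δ x = 1 := by
    have hk : commutator G ≤ δ.ker := by
      rw [commutator_def, Subgroup.commutator_le]
      intro a _ b _
      rw [MonoidHom.mem_ker, map_commutatorElement, commutatorElement_eq_one_iff_mul_comm]
      apply Subtype.ext
      exact Subgroup.mem_center_iff.mp (δ b).2 (δ a).1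
    intro x
    have : x ∈ commutator G := by rw [Group.isPerfect_def.mp hG]; trivial
    exact hk this
  ext x
  have := congrArg Subtype.val (htriv x)
  have h2 : f x * (g x)⁻¹ = 1 := this
  exact mul_inv_eq_one.mp h2

/-- Pullback of two homomorphisms. -/
def pullback {A B Q : Type*} [Group A] [Group B] [Group Q] (f : A →* Q) (g : B →* Q) : Subgroup (A × B) :=
  (f.comp (MonoidHom.fst A B)).eqLocus (g.comp (MonoidHom.snd A B))

theorem mem_pullback {A B Q : Type*} [Group A] [Group B] [Group Q] (f : A →* Q) (g : B →* Q) (p : A × B) :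
    p ∈ pullback f g ↔ f p.1 = g p.2 := Iff.rfl

/-- The universal property of perfect central extensions with trivial multiplier. -/
theorem perfect_cover_iff {G : Type u} {Q : Type v} [Group G] [Group Q] [Finite G] (hG : Group.IsPerfect G) (π : G →* Q)
    (hπ : Function.Surjective π) (hker : π.ker ≤ Subgroup.center G) :
    (∀ (X : Type u) [Group X] (ξ : X →* Q), Function.Surjective ξ → ξ.ker ≤ Subgroup.center X → ∃ η : G →* X, ξ.comp η = π) ↔
      HasCyclicSchurMultiplier G 1 := by
  constructor
  · intro hU
    rw [hasCyclic_one_iff]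
    rintro Γ _ _ σ ⟨hs, hK, hK'⟩
    have hΓperf : Group.IsPerfect Γ := by
      rw [Group.isPerfect_def, eq_top_iff]
      intro g _
      obtain ⟨x, hx⟩ := comm_surj hG σ hs (σ g)
      have h1 : σ x.1 = σ g := hx
      have h2 : g * (x.1)⁻¹ ∈ σ.ker := by
        rw [MonoidHom.mem_ker, map_mul, map_inv, h1]; group
      have h3 := hK' h2
      have h4 := mul_mem h3 x.2
      simpa using h4
    -- the central property
    have hcent : (π.comp σ).ker ≤ Subgroup.center Γ := by
      intro y hy
      have hy1 : σ y ∈ π.ker := hy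
      have hy2 : σ y ∈ Subgroup.center G := hker hy1
      rw [Subgroup.mem_center_iff]
      intro g
      have h1 : ⁅g, y⁆ ∈ σ.ker := by
        rw [MonoidHom.mem_ker, map_commutatorElement, commutatorElement_eq_one_iff_mul_comm]
        exact (Subgroup.mem_center_iff.mp hy2 (σ g))
      -- `conjugation by y` and the identity differ centrally
      have hh : (MulAut.conj y).toMonoidHom = MonoidHom.id Γ := by
        apply hom_eq_of_perfect hΓperf
        intro x
        have : σ (y * x * y⁻¹ * x⁻¹) = 1 := by
          simp only [map_mul, map_inv]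
          rw [← Subgroup.mem_center_iff.mp hy2 (σ x)]
          group
        have h5 : y * x * y⁻¹ * x⁻¹ ∈ σ.ker := this
        have h6 := hK h5
        simpa using h6
      have h7 := congrArg (fun φ : Γ →* Γ => φ g) hh
      have h8 : y * g * y⁻¹ = g := h7
      calc g * y = (y * g * y⁻¹) * y := by rw [h8]
        _ = y * g := by group
    obtain ⟨η, hη⟩ := hU Γ (π.comp σ) (hπ.comp hs) hcent
    have hθ : σ.comp η = MonoidHom.id G := by
      apply hom_eq_of_perfect hG
      intro x
      have h1 : π (σ (η x)) = π x := congrArg (fun φ : G →* Q => φ x) hη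
      have h2 : σ (η x) * x⁻¹ ∈ π.ker := by
        rw [MonoidHom.mem_ker, map_mul, map_inv, h1]; group
      exact hker h2
    have hθ' : ∀ x, σ (η x) = x := fun x => congrArg (fun φ : G →* G => φ x) hθ
    rw [eq_bot_iff]
    intro k hk
    have hcomm : commutator Γ ≤ η.range := by
      rw [commutator_def, Subgroup.commutator_le]
      intro a _ b _
      have ha : a⁻¹ * η (σ a) ∈ σ.ker := by
        rw [MonoidHom.mem_ker, map_mul, map_inv, hθ']; group
      have hb : b⁻¹ * η (σ b) ∈ σ.ker := by
        rw [MonoidHom.mem_ker, map_mul, map_inv, hθ']; group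
      have h1 := comm_mul_central a b _ _ (hK ha) (hK hb)
      simp only [mul_inv_cancel_left] at h1
      rw [← h1, ← map_commutatorElement]
      exact ⟨_, rfl⟩
    obtain ⟨g, hg⟩ := hcomm (hK' hk)
    have h2 : σ k = 1 := hk
    rw [← hg, hθ'] at h2
    rw [Subgroup.mem_bot, ← hg, h2, map_one]
  · intro hM X _ ξ hξ hξK
    rw [hasCyclic_one_iff] at hM
    -- the pullback
    set P := pullback π ξ with hP
    let f : P →* G := (MonoidHom.fst G X).comp P.subtype
    have hfs : Function.Surjective f := by
      intro g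
      obtain ⟨x, hx⟩ := hξ (π g)
      exact ⟨⟨(g, x), hx.symm⟩, rfl⟩
    have hfK : f.ker ≤ Subgroup.center P := by
      rintro ⟨⟨g, x⟩, hp⟩ hk
      have hg : g = 1 := hk
      subst hg
      have hx : ξ x = 1 := by
        have : π 1 = ξ x := hp
        rw [← this, map_one]
      rw [Subgroup.mem_center_iff]
      rintro ⟨⟨a, b⟩, hab⟩
      apply Subtype.ext
      have h1 := Subgroup.mem_center_iff.mp (hξK hx) b
      show (a * 1, b * x) = (1 * a, x * b)
      rw [mul_one, one_mul, h1]
    haveI hfin : Finite (commutator P) := finite_commutator f hfK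
    have hperf : Group.IsPerfect (commutator P) := comm_perfect hG f hfs hfK
    let τ : commutator P →* G := f.comp (commutator P).subtype
    have hτs : Function.Surjective τ := comm_surj hG f hfs
    have hτK : τ.ker ≤ Subgroup.center (commutator P) := by
      rintro ⟨x, hx⟩ hk
      have h1 : x ∈ Subgroup.center P := hfK hk
      rw [Subgroup.mem_center_iff]
      rintro ⟨y, hy⟩
      apply Subtype.ext
      exact Subgroup.mem_center_iff.mp h1 y
    have hst : IsStemExtension τ := by
      refine ⟨hτs, hτK, ?_⟩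
      rw [Group.isPerfect_def.mp hperf]
      exact le_top
    have hbot := hM (commutator P) τ hst
    have hinj : Function.Injective τ := (MonoidHom.ker_eq_bot_iff τ).mp hbot
    let e : commutator P ≃* G := MulEquiv.ofBijective τ ⟨hinj, hτs⟩
    let ψ : commutator P →* X := (MonoidHom.snd G X).comp (P.subtype.comp (commutator P).subtype)
    refine ⟨ψ.comp e.symm.toMonoidHom, ?_⟩
    ext g
    show ξ (ψ (e.symm g)) = π g
    have h1 : (e.symm g).1.1 ∈ pullback π ξ := (e.symm g).1.2
    have h2 : π (e.symm g).1.1.1 = ξ (e.symm g).1.1.2 := h1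
    have h3 : τ (e.symm g) = g := e.apply_symm_apply g
    have h4 : (e.symm g).1.1.1 = g := h3
    rw [h4] at h2
    exact h2.symm

/-- A finite perfect group has a universal central extension. -/
theorem universal_cover {Q : Type u} [Group Q] [Finite Q] (hQ : Group.IsPerfect Q) :
    ∃ (G : Type u) (_ : Group G) (_ : Finite G) (π : G →* Q), Group.IsPerfect G ∧ Function.Surjective π ∧ π.ker ≤ Subgroup.center G ∧
      ∀ (X : Type u) [Group X] (ξ : X →* Q), Function.Surjective ξ → ξ.ker ≤ Subgroup.center X → ∃! η : G →* X, ξ.comp η = π := by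
  classical
  let F := FreeGroup Q
  let ρ : F →* Q := FreeGroup.lift id
  have hρ : Function.Surjective ρ := by
    intro q
    exact ⟨FreeGroup.of q, FreeGroup.lift_apply_of⟩
  let R : Subgroup F := ρ.ker
  let N : Subgroup F := ⁅(⊤ : Subgroup F), R⁆
  haveI : N.Normal := Subgroup.commutator_normal _ _
  let E := F ⧸ N
  have hNR : N ≤ R := by
    show ⁅(⊤ : Subgroup F), R⁆ ≤ R
    exact Subgroup.commutator_le_right _ _
  let f : E →* Q := QuotientGroup.lift N ρ (fun x hx => hNR hx)
  have hfs : Function.Surjective f := by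
    intro q
    obtain ⟨x, hx⟩ := hρ q
    exact ⟨(x : E), hx⟩
  have hfK : f.ker ≤ Subgroup.center E := by
    intro e he
    obtain ⟨x, rfl⟩ := QuotientGroup.mk_surjective e
    have hx : x ∈ R := he
    rw [Subgroup.mem_center_iff]
    intro y
    obtain ⟨y, rfl⟩ := QuotientGroup.mk_surjective y
    have h1 : ⁅y, x⁆ ∈ N := Subgroup.commutator_mem_commutator trivial hx
    have h2 : ((⁅y, x⁆ : F) : E) = 1 := (QuotientGroup.eq_one_iff _).mpr h1
    have h3 : ⁅(y : E), (x : E)⁆ = 1 := h2
    exact (commutatorElement_eq_one_iff_mul_comm.mp h3)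
  haveI hfin : Finite (commutator E) := finite_commutator f hfK
  have hperf : Group.IsPerfect (commutator E) := comm_perfect hQ f hfs hfK
  let π : commutator E →* Q := f.comp (commutator E).subtype
  have hπs : Function.Surjective π := comm_surj hQ f hfs
  have hπK : π.ker ≤ Subgroup.center (commutator E) := by
    rintro ⟨x, hx⟩ hk
    have h1 : x ∈ Subgroup.center E := hfK hk
    rw [Subgroup.mem_center_iff]
    rintro ⟨y, hy⟩
    apply Subtype.ext
    exact Subgroup.mem_center_iff.mp h1 y
  refine ⟨commutator E, inferInstance, hfin, π, hperf, hπs, hπK, ?_⟩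
  intro X _ ξ hξ hξK
  let s : Q → X := fun q => Function.surjInv hξ q
  have hs : ∀ q, ξ (s q) = q := Function.surjInv_eq hξ
  let φ : F →* X := FreeGroup.lift s
  have hφ : ξ.comp φ = ρ := by
    ext q
    simp [φ, ρ, hs]
  have hφN : N ≤ φ.ker := by
    show ⁅(⊤ : Subgroup F), R⁆ ≤ φ.ker
    rw [Subgroup.commutator_le]
    intro y _ x hx
    rw [MonoidHom.mem_ker, map_commutatorElement, commutatorElement_eq_one_iff_mul_comm]
    have h1 : ξ (φ x) = 1 := by
      have := congrArg (fun ψ : F →* Q => ψ x) hφ
      have h2 : ρ x = 1 := hx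
      simp only [MonoidHom.comp_apply] at this
      rw [this, h2]
    exact (Subgroup.mem_center_iff.mp (hξK h1) (φ y))
  let φbar : E →* X := QuotientGroup.lift N φ (fun x hx => hφN hx)
  have hφbar : ∀ e : E, ξ (φbar e) = f e := by
    intro e
    obtain ⟨x, rfl⟩ := QuotientGroup.mk_surjective e
    exact congrArg (fun ψ : F →* Q => ψ x) hφ
  refine ⟨φbar.comp (commutator E).subtype, ?_, ?_⟩
  · ext g
    exact hφbar g.1
  · intro η' hη'
    apply hom_eq_of_perfect hperf
    intro x
    have h1 : ξ (η' x) = π x := congrArg (fun ψ : commutator E →* Q => ψ x) hη'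
    have h2 : ξ (φbar x.1) = f x.1 := hφbar x.1
    have h3 : η' x * (φbar x.1)⁻¹ ∈ ξ.ker := by
      rw [MonoidHom.mem_ker, map_mul, map_inv, h1, h2]
      show f x.1 * (f x.1)⁻¹ = 1
      group
    exact hξK h3

end Cfsg.Agent.Lib.H6Schur2
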