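import Mathlib
import Cfsg.Agent.Lib.H6Basic
import Cfsg.Agent.Lib.ChiefCrit

/-!
Stability groups of normal series are nilpotent (Hall), chief series, and the action of
nilpotent normal subgroups on chief factors (helper6).
-/

set_option autoImplicit false
set_option linter.style.haveILetI false
set_option linter.unusedSectionVars false

namespace Cfsg.Agent.Lib.H6Stab

open Subgroup
open scoped commutatorElement

variable {G : Type*} [Group G]

/-- Elements moving each `T (i + j)` into `T i`. -/
def Aj (T : ℕ → Subgroup G) (hT : ∀ i, (T i).Normal) (j : ℕ) : Subgroup G where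
  carrier := {a | ∀ i, ∀ y ∈ T (i + j), ⁅y, a⁆ ∈ T i}
  one_mem' := by
    intro i y _
    simp [commutatorElement_one_right, one_mem]
  mul_mem' := by
    intro a b ha hb i y hy
    have e : ⁅y, a * b⁆ = ⁅y, a⁆ * (a * ⁅y, b⁆ * a⁻¹) := by
      simp only [commutatorElement_def]; group
    rw [e]
    exact (T i).mul_mem (ha i y hy) ((hT i).conj_mem _ (hb i y hy) a)
  inv_mem' := by
    intro a ha i y hy
    have e : ⁅y, a⁻¹⁆ = a⁻¹ * ⁅y, a⁆⁻¹ * a⁻¹⁻¹ := by
      simp only [commutatorElement_def]; group
    rw [e]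
    exact (hT i).conj_mem _ ((T i).inv_mem (ha i y hy)) _

theorem Aj_comm (T : ℕ → Subgroup G) (hT : ∀ i, (T i).Normal) (j k : ℕ) :
    ⁅Aj T hT j, Aj T hT k⁆ ≤ Aj T hT (j + k) := by
  rw [commutator_le]
  intro a ha b hb i y hy
  haveI := hT i
  have move : ∀ (l m : ℕ), ⁅T (m + l), Aj T hT l⁆ ≤ T m := by
    intro l m
    rw [commutator_le]
    intro x hx c hc
    exact hc m x hx
  have h1 : ⁅⁅Aj T hT k, T (i + (j + k))⁆, Aj T hT j⁆ ≤ T i := by
    rw [Subgroup.commutator_comm (Aj T hT k) (T (i + (j + k)))]
    have h2 : ⁅T (i + (j + k)), Aj T hT k⁆ ≤ T (i + j) := by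
      have := move k (i + j)
      rwa [show i + j + k = i + (j + k) by ring] at this
    exact (commutator_mono h2 le_rfl).trans (move j i)
  have h2 : ⁅⁅T (i + (j + k)), Aj T hT j⁆, Aj T hT k⁆ ≤ T i := by
    have h3 : ⁅T (i + (j + k)), Aj T hT j⁆ ≤ T (i + k) := by
      have := move j (i + k)
      rwa [show i + k + j = i + (j + k) by ring] at this
    exact (commutator_mono h3 le_rfl).trans (move k i)
  have h3 := Cfsg.Agent.Lib.H6Basic.three_subgroups (Aj T hT k) (T (i + (j + k))) (Aj T hT j) (T i) h1 h2
  have h4 : ⁅⁅a, b⁆, y⁆ ∈ T i :=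
    h3 (commutator_mem_commutator (commutator_mem_commutator ha hb) hy)
  have h5 := (T i).inv_mem h4
  rwa [commutatorElement_inv] at h5

/-- A group stabilizing a normal series whose centralizer lies in the top of the series is nilpotent. -/
theorem stab_nilpotent (T : ℕ → Subgroup G) (hT : ∀ i, (T i).Normal) (hmono : Monotone T) (h0 : T 0 = ⊥)
    (A : Subgroup G) (hA : ∀ a ∈ A, ∀ i, ∀ y ∈ T (i + 1), ⁅y, a⁆ ∈ T i) (r : ℕ)
    (hr : A ⊓ centralizer (T r : Set G) ≤ T r) : Group.IsNilpotent A := by
  rw [Subgroup.isNilpotent_iff_lowerCentralSeries]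
  have h1 : ∀ n, A.lowerCentralSeries n ≤ Aj T hT (n + 1) := by
    intro n
    induction n with
    | zero => exact fun a ha => hA a ha
    | succ n ih =>
      rw [Subgroup.lowerCentralSeries_succ]
      have hAle : A ≤ Aj T hT 1 := fun a ha => hA a ha
      exact (commutator_mono ih hAle).trans (Aj_comm T hT (n + 1) 1)
  have h2 : ∀ n, A.lowerCentralSeries n ≤ A := fun n =>
    (Subgroup.lowerCentralSeries_antitone A (Nat.zero_le n))
  have h3 : A.lowerCentralSeries r ≤ T r := by
    refine le_trans (le_inf (h2 r) ?_) hr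
    intro a ha
    rw [Subgroup.mem_centralizer_iff]
    intro y hy
    have h4 : y ∈ T (0 + (r + 1)) := hmono (by omega) hy
    have h5 := h1 r ha 0 y h4
    rw [h0, Subgroup.mem_bot, commutatorElement_def] at h5
    have h6 : y * a = a * y := by
      have : y * a * y⁻¹ * a⁻¹ * (a * y) = a * y := by rw [h5, one_mul]
      simpa [mul_assoc] using this
    exact h6
  have h4 : ∀ s, s ≤ r → A.lowerCentralSeries (r + s) ≤ T (r - s) := by
    intro s
    induction s with
    | zero => intro _; exact h3
    | succ s ih =>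
      intro hs
      rw [← add_assoc, Subgroup.lowerCentralSeries_succ, commutator_le]
      intro x hx a ha
      have hx' := ih (by omega) hx
      rw [show r - s = (r - (s + 1)) + 1 by omega] at hx'
      exact hA a ha _ x hx'
  refine ⟨r + r, ?_⟩
  have := h4 r le_rfl
  rw [Nat.sub_self, h0] at this
  exact le_bot_iff.mp this

/-- A chief pair of normal subgroups of `G`. -/
def Chief (U V : Subgroup G) : Prop :=
  U.Normal ∧ V.Normal ∧ V < U ∧ ∀ W : Subgroup G, W.Normal → V ≤ W → W ≤ U → W = V ∨ W = U

theorem exists_chain [Finite G] : ∀ (n : ℕ) (K : Subgroup G), Nat.card K = n → K.Normal →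
    ∃ (r : ℕ) (T : ℕ → Subgroup G), T 0 = ⊥ ∧ (∀ i, r ≤ i → T i = K) ∧ (∀ i, (T i).Normal) ∧ Monotone T ∧
      ∀ i < r, Chief (T (i + 1)) (T i) := by
  intro n
  induction n using Nat.strong_induction_on with
  | _ n ih =>
    intro K hK hKn
    by_cases hKb : K = ⊥
    · refine ⟨0, fun _ => ⊥, rfl, fun _ _ => hKb.symm, fun _ => normal_bot, monotone_const, ?_⟩
      intro i hi
      omega
    · classical
      let 𝒮 : Set (Subgroup G) := {Y | Y.Normal ∧ Y < K}
      have h𝒮 : 𝒮.Nonempty := ⟨⊥, Subgroup.normal_bot, bot_lt_iff_ne_bot.2 hKb⟩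
      obtain ⟨V, hV⟩ := 𝒮.toFinite.exists_maximal h𝒮
      have hVlt : V < K := hV.prop.2
      have hcard : Nat.card V < n := by
        rw [← hK]
        have h1 : Nat.card V ∣ Nat.card K := Subgroup.card_dvd_of_le hVlt.le
        have h2 : Nat.card V ≠ Nat.card K := by
          intro h
          exact hVlt.ne (Subgroup.eq_of_le_of_card_ge hVlt.le h.ge)
        exact lt_of_le_of_ne (Nat.le_of_dvd Nat.card_pos h1) h2
      obtain ⟨r, T, h0, htop, hTn, hmono, hch⟩ := ih _ hcard V rfl hV.prop.1
      have hTleV : ∀ i, i ≤ r → T i ≤ V := by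
        intro i hi
        rw [← htop r le_rfl]
        exact hmono hi
      refine ⟨r + 1, fun i => if i ≤ r then T i else K, ?_, ?_, ?_, ?_, ?_⟩
      · simp [h0]
      · intro i hi
        have : ¬ i ≤ r := by omega
        simp [this]
      · intro i
        by_cases h : i ≤ r
        · simpa [h] using hTn i
        · simpa [h] using hKn
      · intro i j hij
        show (if i ≤ r then T i else K) ≤ (if j ≤ r then T j else K)
        by_cases hj : j ≤ r
        · have hi : i ≤ r := hij.trans hj
          simpa [hi, hj] using hmono hij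
        · by_cases hi : i ≤ r
          · simpa [hi, hj] using (hTleV i hi).trans hVlt.le
          · simp [hi, hj]
      · intro i hi
        by_cases h : i + 1 ≤ r
        · have hi' : i ≤ r := by omega
          simpa [Chief, h, hi'] using hch i (by omega)
        · have hi' : i = r := by omega
          subst hi'
          have hTr := htop i le_rfl
          simp only [le_refl, if_true, h, if_false]
          rw [hTr]
          refine ⟨hKn, hV.prop.1, hVlt, ?_⟩
          intro W hW hVW hWK
          by_cases hWK' : W = K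
          · exact Or.inr hWK'
          · left
            have hlt : W < K := lt_of_le_of_ne hWK hWK'
            exact le_antisymm (hV.le_of_ge ⟨hW, hlt⟩ hVW) hVW

/-- A nilpotent normal subgroup centralizes every chief factor. -/
theorem nilpotent_normal_centralizes {F U V : Subgroup G} (hFn : F.Normal) (hF : Group.IsNilpotent F)
    (hχ : Chief U V) : ∀ u ∈ U, ∀ g ∈ F, ⁅u, g⁆ ∈ V := by
  obtain ⟨hUn, hVn, hVU, hmin⟩ := hχ
  haveI := hUn
  haveI := hVn
  haveI := hFn
  have hKn : ∀ i, (F.lowerCentralSeries i).Normal := by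
    intro i
    induction i with
    | zero => exact hFn
    | succ i ih =>
      rw [Subgroup.lowerCentralSeries_succ]
      haveI := ih
      exact Subgroup.commutator_normal _ _
  have hCn : (⁅U, F⁆ ⊔ V).Normal := by
    haveI : (⁅U, F⁆).Normal := Subgroup.commutator_normal _ _
    exact Subgroup.sup_normal _ _
  have hCU : ⁅U, F⁆ ⊔ V ≤ U := sup_le (Subgroup.commutator_le_left _ _) hVU.le
  have hdich : ∀ i, U ≤ F.lowerCentralSeries i ⊔ V ∨ ⁅U, F⁆ ≤ V := by
    intro i
    by_cases hc : ⁅U, F⁆ ≤ V
    · exact Or.inr hc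
    left
    have hCeq : ⁅U, F⁆ ⊔ V = U := by
      rcases hmin _ hCn le_sup_right hCU with h | h
      · exact absurd (sup_eq_right.mp h) hc
      · exact h
    induction i with
    | zero =>
      rw [Subgroup.lowerCentralSeries_zero, ← hCeq]
      exact sup_le_sup_right (Subgroup.commutator_le_right _ _) _
    | succ i ih =>
      rw [Subgroup.lowerCentralSeries_succ]
      have h1 := Cfsg.Agent.Lib.ChiefCrit.commutator_sup_normal_le (F.lowerCentralSeries i) V F
      have h2 : ⁅U, F⁆ ≤ ⁅F.lowerCentralSeries i ⊔ V, F⁆ := commutator_mono ih le_rfl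
      rw [← hCeq]
      exact sup_le (h2.trans h1) le_sup_right
  obtain ⟨n, hn⟩ := (Subgroup.isNilpotent_iff_lowerCentralSeries F).mp hF
  have hfin : ⁅U, F⁆ ≤ V := by
    rcases hdich n with h | h
    · rw [hn, bot_sup_eq] at h
      exact absurd h hVU.not_ge
    · exact h
  intro u hu g hg
  exact hfin (commutator_mem_commutator hu hg)

end Cfsg.Agent.Lib.H6Stab
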