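import Mathlib
import Cfsg.Prelude.Def_SolvableStructure
import Cfsg.Agent.Lib.Supersolvable
import Cfsg.Agent.Lib.Hall

/-!
# Direct products with the converse of Lagrange's theorem
-/

set_option autoImplicit false
set_option linter.unusedVariables false
set_option linter.style.haveILetI false
set_option linter.unusedSectionVars false

namespace Cfsg.Agent.Lib.HallProd

open Cfsg Subgroup
open Cfsg.Agent.Lib.Supersolvable

universe u v

theorem super_of_comm (n : ℕ) : ∀ (A : Type u) [CommGroup A] [Finite A], Nat.card A = n → IsSupersolvable A := by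
  induction n using Nat.strong_induction_on with
  | _ n ih =>
  intro A _ _ hn
  by_cases hnt : Nontrivial A
  · obtain ⟨x, hx⟩ := exists_ne (1 : A)
    let N : Subgroup A := Subgroup.zpowers x
    have hN1 : N ≠ ⊥ := fun h => hx (Subgroup.zpowers_eq_bot.1 h)
    have hcard : Nat.card (A ⧸ N) * Nat.card N = Nat.card A :=
      (Subgroup.card_eq_card_quotient_mul_card_subgroup N).symm
    have hNc : 1 < Nat.card N := by
      have h0 : Nat.card N ≠ 1 := fun h => hN1 (Subgroup.card_eq_one.1 h)
      have h2 : 0 < Nat.card N := Nat.card_pos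
      omega
    have hlt : Nat.card (A ⧸ N) < n := by
      rw [← hn, ← hcard]
      have hpos : 0 < Nat.card (A ⧸ N) := Nat.card_pos
      nlinarith
    exact super_ext N (ih _ hlt (A ⧸ N) rfl)
  · rw [not_nontrivial_iff_subsingleton] at hnt
    rw [super_iff]
    have : (⊤ : Subgroup A) = ⊥ := Subsingleton.elim _ _
    rw [this]
    exact Chain.bot

theorem clt_prod {G : Type u} {A : Type v} [Group G] [CommGroup A] [Finite G] [Finite A] [Group.IsSolvable G]
    (hA : ∀ p : ℕ, p.Prime → p ∣ Nat.card A → p ∣ Nat.card G)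
    (hexp : ∀ p : ℕ, p.Prime → p ∣ Nat.card G → (Nat.card A).factorization p + 1 = (Nat.card G).factorization p) :
    HasSubgroupOfEveryOrder (G × A) := by
  classical
  intro d hd
  rw [Nat.card_prod] at hd
  have hG0 : Nat.card G ≠ 0 := Nat.card_pos.ne'
  have hA0 : Nat.card A ≠ 0 := Nat.card_pos.ne'
  have hd0 : d ≠ 0 := fun h => by
    rw [h] at hd
    exact (mul_ne_zero hG0 hA0) (zero_dvd_iff.1 hd)
  let f : ℕ →₀ ℕ := (Nat.card G).factorization.filter (fun p => (Nat.card G).factorization p ≤ d.factorization p)
  have hfsupp : ∀ p ∈ f.support, p.Prime := by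
    intro p hp
    have h1 : f p ≠ 0 := Finsupp.mem_support_iff.1 hp
    simp only [f, Finsupp.filter_apply] at h1
    split_ifs at h1 with hc
    · have h2 : p ∈ (Nat.card G).factorization.support := Finsupp.mem_support_iff.2 h1
      rw [Nat.support_factorization] at h2
      exact Nat.prime_of_mem_primeFactors h2
    · exact absurd rfl h1
  let m : ℕ := f.prod (· ^ ·)
  have hmf : m.factorization = f := Nat.prod_pow_factorization_eq_self hfsupp
  have hm0 : m ≠ 0 := by
    refine Finset.prod_ne_zero_iff.2 fun p hp => pow_ne_zero _ (hfsupp p hp).ne_zero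
  have hfle1 : ∀ p, f p ≤ (Nat.card G).factorization p := by
    intro p
    simp only [f, Finsupp.filter_apply]
    split_ifs <;> simp
  have hfle2 : ∀ p, f p ≤ d.factorization p := by
    intro p
    simp only [f, Finsupp.filter_apply]
    split_ifs with h
    · exact h
    · simp
  have hmG : m ∣ Nat.card G := (Nat.factorization_le_iff_dvd hm0 hG0).1 (by
    rw [hmf]; exact hfle1)
  have hmd : m ∣ d := (Nat.factorization_le_iff_dvd hm0 hd0).1 (by
    rw [hmf]; exact hfle2)
  obtain ⟨n, hn⟩ := hmG
  obtain ⟨e, he⟩ := hmd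
  have hn0 : n ≠ 0 := fun h => hG0 (by rw [hn, h, mul_zero])
  have he0 : e ≠ 0 := fun h => hd0 (by rw [he, h, mul_zero])
  have hfacG : ∀ p, (Nat.card G).factorization p = f p + n.factorization p := by
    intro p
    rw [hn, Nat.factorization_mul hm0 hn0, hmf]
    rfl
  have hfacd : ∀ p, d.factorization p = f p + e.factorization p := by
    intro p
    rw [he, Nat.factorization_mul hm0 he0, hmf]
    rfl
  have hcop : m.Coprime n := by
    by_contra hnc
    obtain ⟨p, hp, hp1, hp2⟩ := Nat.Prime.not_coprime_iff_dvd.1 hnc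
    have h1 : m.factorization p ≠ 0 := (hp.factorization_pos_of_dvd hm0 hp1).ne'
    have h2 : n.factorization p ≠ 0 := (hp.factorization_pos_of_dvd hn0 hp2).ne'
    rw [hmf] at h1
    have h3 := hfacG p
    simp only [f, Finsupp.filter_apply] at h1 h3
    split_ifs at h1 h3 with hc
    · omega
    · exact h1 rfl
  obtain ⟨H, hH⟩ := Cfsg.Agent.Lib.Hall.hall_exists _ G m n rfl hn hcop
  have heA : e ∣ Nat.card A := by
    refine (Nat.factorization_le_iff_dvd he0 hA0).1 ?_
    intro p
    have hdle : d.factorization p ≤ (Nat.card G).factorization p + (Nat.card A).factorization p := by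
      have h1 := (Nat.factorization_le_iff_dvd hd0 (mul_ne_zero hG0 hA0)).2 hd p
      rwa [Nat.factorization_mul hG0 hA0, Finsupp.add_apply] at h1
    have h2 := hfacd p
    have h3 := hfacG p
    by_cases hpp : p.Prime
    · by_cases hpG : p ∣ Nat.card G
      · have h4 := hexp p hpp hpG
        simp only [f, Finsupp.filter_apply] at h2 h3
        split_ifs at h2 h3 with hc
        · omega
        · omega
      · have hpA : ¬ p ∣ Nat.card A := fun h => hpG (hA p hpp h)
        rw [Nat.factorization_eq_zero_of_not_dvd hpG, Nat.factorization_eq_zero_of_not_dvd hpA] at hdle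
        omega
    · have h4 : e.factorization p = 0 := Nat.factorization_eq_zero_of_not_prime _ hpp
      rw [h4]
      exact Nat.zero_le _
  obtain ⟨B, hB⟩ := clt (super_of_comm _ A rfl) e heA
  refine ⟨H.prod B, ?_⟩
  rw [Nat.card_congr (Subgroup.prodEquiv H B).toEquiv, Nat.card_prod, hH, hB, he]

end Cfsg.Agent.Lib.HallProd
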