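import Mathlib
import Cfsg.Prelude.Def_SolvableStructure
import Cfsg.Agent.Lib.SchurZ
import Cfsg.Agent.Lib.PCore
import Cfsg.Agent.Lib.FitSolv
import Cfsg.Agent.Lib.H5Basic
import Cfsg.Agent.Lib.H6Orb4b

/-!
# Hall's complement systems
-/

set_option autoImplicit false
set_option linter.unusedVariables false
set_option linter.style.haveILetI false
set_option linter.unusedSectionVars false

namespace Cfsg.Agent.Lib.HallSystem

open Cfsg Subgroup
open scoped Pointwise

universe u

section basics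

variable {G : Type u} [Group G] [Finite G]

theorem map_conj_self {D : Subgroup G} {g : G} (hg : g ∈ D) :
    D.map (MulAut.conj g).toMonoidHom = D := by
  refine Subgroup.eq_of_le_of_card_ge ?_ (by rw [Cfsg.Agent.Lib.H5Basic.card_map_conj])
  rintro _ ⟨y, hy, rfl⟩
  exact D.mul_mem (D.mul_mem hg hy) (D.inv_mem hg)

theorem index_eq_of_pow (H : Subgroup G) {p k : ℕ} (hp : p.Prime) (h1 : H.index = p ^ k)
    (h2 : ¬ p ∣ Nat.card H) : H.index = p ^ (Nat.card G).factorization p := by
  have hc := H.card_mul_index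
  rw [h1] at hc
  have hv : (Nat.card G).factorization p = k := by
    rw [← hc, Nat.factorization_mul Nat.card_pos.ne' (pow_pos hp.pos _).ne', Finsupp.add_apply,
      Nat.factorization_eq_zero_of_not_dvd h2, zero_add, Nat.factorization_pow]
    simp [hp.factorization_self]
  rw [h1, hv]

theorem not_dvd_card {K : Nat.Primes → Subgroup G} (hK : IsComplementSystem K) (p : Nat.Primes) :
    ¬ (p : ℕ) ∣ Nat.card (K p) := by
  rintro ⟨m, hm⟩
  have hc := (K p).card_mul_index
  rw [hK p, hm] at hc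
  apply Nat.pow_succ_factorization_not_dvd (n := Nat.card G) Nat.card_pos.ne' p.2
  conv_rhs => rw [← hc]
  exact ⟨m, by rw [pow_succ]; ring⟩

theorem system_map {K : Nat.Primes → Subgroup G} (hK : IsComplementSystem K) (N : Subgroup G) [N.Normal] :
    IsComplementSystem (fun p => (K p).map (QuotientGroup.mk' N)) := by
  intro p
  let π := QuotientGroup.mk' N
  have hπ : Function.Surjective π := QuotientGroup.mk'_surjective N
  have hker : π.ker = N := QuotientGroup.ker_mk' N
  have hi : ((K p).map π).index = (K p ⊔ N).index := by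
    have h1 : ((K p).map π).comap π = K p ⊔ N := by
      rw [Subgroup.comap_map_eq, hker]
    rw [← h1]
    exact (Subgroup.index_comap_of_surjective _ hπ).symm
  have hdvd : ((K p).map π).index ∣ (p : ℕ) ^ (Nat.card G).factorization p := by
    rw [hi, ← hK p]
    exact Subgroup.index_dvd_of_le le_sup_left
  obtain ⟨k, -, hk⟩ := (Nat.dvd_prime_pow p.2).1 hdvd
  refine index_eq_of_pow _ p.2 hk ?_
  intro hd
  exact not_dvd_card hK p (dvd_trans hd
    (Subgroup.card_dvd_of_surjective (π.subgroupMap (K p)) (π.subgroupMap_surjective _)))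

theorem system_conj {K : Nat.Primes → Subgroup G} (hK : IsComplementSystem K) (g : G) :
    IsComplementSystem (fun p => (K p).map (MulAut.conj g).toMonoidHom) := by
  intro p
  rw [← hK p]
  have h1 := ((K p).map (MulAut.conj g).toMonoidHom).card_mul_index
  have h2 := (K p).card_mul_index
  rw [Cfsg.Agent.Lib.H5Basic.card_map_conj] at h1
  exact Nat.eq_of_mul_eq_mul_left Nat.card_pos (h1.trans h2.symm)

/-- A normal `p₀`-subgroup lies in `K q` for `q ≠ p₀`. -/
theorem le_of_normal {K : Nat.Primes → Subgroup G} (hK : IsComplementSystem K) (A : Subgroup G) (hAn : A.Normal)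
    (p₀ : ℕ) [hp₀ : Fact p₀.Prime] (hA : IsPGroup p₀ A) (q : Nat.Primes) (hq : (q : ℕ) ≠ p₀) : A ≤ K q := by
  let S : Sylow p₀ (K q) := default
  have h1 : ¬ p₀ ∣ ((S : Subgroup (K q)).map (K q).subtype).index := by
    rw [Subgroup.index_map_subtype, hp₀.out.dvd_mul, hK q]
    rintro (h | h)
    · exact S.not_dvd_index h
    · have := hp₀.out.dvd_of_dvd_pow h
      exact hq ((Nat.prime_dvd_prime_iff_eq hp₀.out q.2).1 this).symm
  let S' : Sylow p₀ G := (S.isPGroup'.map (K q).subtype).toSylow h1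
  have h2 : (S' : Subgroup G) ≤ K q := by
    have : (S' : Subgroup G) = (S : Subgroup (K q)).map (K q).subtype := IsPGroup.toSylow_coe _ _
    rw [this]
    exact Subgroup.map_subtype_le _
  exact le_trans (Cfsg.Agent.Lib.PCore.le_pCore hAn hA)
    (le_trans (Cfsg.Agent.Lib.PCore.pCore_le_sylow S') h2)

theorem exists_normal_le [Group.IsSolvable G] (N : Subgroup G) (hN : N.Normal) (hne : N ≠ ⊥) :
    ∃ (p : ℕ) (A : Subgroup G), p.Prime ∧ A.Normal ∧ A ≠ ⊥ ∧ IsPGroup p A ∧ A ≤ N := by
  let S : Set (Subgroup G) := {A | A.Normal ∧ A ≠ ⊥ ∧ A ≤ N}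
  obtain ⟨A, hA⟩ := (Set.toFinite S).exists_minimal ⟨N, hN, hne, le_refl _⟩
  obtain ⟨hAn, hA1, hAN⟩ := hA.1
  haveI := hAn
  obtain ⟨-, p, hp, hx⟩ := Cfsg.Agent.Lib.FitSolv.minimal_normal_elementary A hA1 (by
    intro M hM hMA
    by_cases h0 : M = ⊥
    · exact Or.inl h0
    · exact Or.inr (le_antisymm hMA (hA.2 ⟨hM, h0, le_trans hMA hAN⟩ hMA)))
  refine ⟨p, A, hp, hAn, hA1, ?_, hAN⟩
  intro x
  refine ⟨1, ?_⟩
  apply Subtype.ext
  simpa using hx x x.2

end basics

/-- Two complement systems which agree modulo a normal subgroup `N` are conjugate under `N`. -/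
theorem conj_of_sup (n : ℕ) : ∀ (G : Type u) [Group G] [Finite G] [Group.IsSolvable G], Nat.card G = n →
    ∀ (N : Subgroup G), N.Normal → ∀ K L : Nat.Primes → Subgroup G, IsComplementSystem K → IsComplementSystem L →
    (∀ p, K p ⊔ N = L p ⊔ N) → ∃ x ∈ N, ∀ p, (K p).map (MulAut.conj x).toMonoidHom = L p := by
  induction n using Nat.strong_induction_on with
  | _ n ih =>
  intro G _ _ _ hn N hNn K L hK hL hsup
  by_cases hN1 : N = ⊥
  · refine ⟨1, one_mem _, fun p => ?_⟩
    have h := hsup p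
    rw [hN1, sup_bot_eq, sup_bot_eq] at h
    rw [← h]
    exact map_conj_self (one_mem _)
  obtain ⟨p₀, A, hp₀, hAn, hA1, hAp, hAN⟩ := exists_normal_le N hNn hN1
  haveI : Fact p₀.Prime := ⟨hp₀⟩
  haveI := hAn
  haveI := hNn
  let π := QuotientGroup.mk' A
  have hπ : Function.Surjective π := QuotientGroup.mk'_surjective A
  have hker : π.ker = A := QuotientGroup.ker_mk' A
  have hcard' : Nat.card (G ⧸ A) * Nat.card A = Nat.card G :=
    (Subgroup.card_eq_card_quotient_mul_card_subgroup A).symm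
  have hQc : 1 < Nat.card A := by
    have h0 : Nat.card A ≠ 1 := fun h => hA1 (Subgroup.card_eq_one.1 h)
    have h2 : 0 < Nat.card A := Nat.card_pos
    omega
  have hlt : Nat.card (G ⧸ A) < n := by
    rw [← hn, ← hcard']
    have hpos : 0 < Nat.card (G ⧸ A) := Nat.card_pos
    nlinarith
  have hsup' : ∀ p, (K p).map π ⊔ N.map π = (L p).map π ⊔ N.map π := by
    intro p
    rw [← Subgroup.map_sup, ← Subgroup.map_sup, hsup p]
  obtain ⟨y, hyN, hy⟩ := ih _ hlt (G ⧸ A) rfl (N.map π) (hNn.map _ hπ) _ _ (system_map hK A) (system_map hL A) hsup'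
  obtain ⟨x, hxN, rfl⟩ := hyN
  let K' : Nat.Primes → Subgroup G := fun p => (K p).map (MulAut.conj x).toMonoidHom
  have hK' : IsComplementSystem K' := system_conj hK x
  have hsupA : ∀ p, K' p ⊔ A = L p ⊔ A := by
    intro p
    have h1 : (K' p).map π = (L p).map π := by
      rw [← hy p, Subgroup.map_map]
      simp only [Subgroup.map_map]
      congr 1
    have h2 := congrArg (Subgroup.comap π) h1
    rwa [Subgroup.comap_map_eq, Subgroup.comap_map_eq, hker] at h2
  have heq : ∀ q : Nat.Primes, (q : ℕ) ≠ p₀ → K' q = L q := by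
    intro q hq
    have h1 := hsupA q
    rwa [sup_eq_left.2 (le_of_normal hK' A hAn p₀ hAp q hq),
      sup_eq_left.2 (le_of_normal hL A hAn p₀ hAp q hq)] at h1
  let P₀ : Nat.Primes := ⟨p₀, hp₀⟩
  have hcardeq : Nat.card (L P₀) = Nat.card (K' P₀) := by
    have h1 := (L P₀).card_mul_index
    have h2 := (K' P₀).card_mul_index
    rw [hL P₀] at h1
    rw [hK' P₀] at h2
    exact Nat.eq_of_mul_eq_mul_right (pow_pos hp₀.pos _) (h1.trans h2.symm)
  have hcop : (Nat.card A).Coprime (Nat.card (K' P₀)) := by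
    obtain ⟨m, hm⟩ := IsPGroup.iff_card.1 hAp
    rw [hm]
    exact Nat.Coprime.pow_left _ ((Nat.Prime.coprime_iff_not_dvd hp₀).2 (not_dvd_card hK' P₀))
  obtain ⟨z, hzA, hz⟩ := Cfsg.Agent.Lib.SchurZ.sz_conj_ambient A (K' P₀) (L P₀)
    (by
      rw [Subgroup.normalizer_eq_top_iff.2 hAn]
      exact le_top)
    (by
      rw [sup_comm, hsupA P₀]
      exact le_sup_left)
    hcardeq hcop (Or.inl inferInstance)
  refine ⟨z * x, mul_mem (hAN hzA) hxN, fun p => ?_⟩
  have hcomp : (K p).map (MulAut.conj (z * x)).toMonoidHom = (K' p).map (MulAut.conj z).toMonoidHom := by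
    simp only [K', Subgroup.map_map]
    congr 1
    ext a
    simp [MulAut.conj_apply, mul_assoc]
  rw [hcomp]
  by_cases hp : (p : ℕ) = p₀
  · have : p = P₀ := Subtype.ext hp
    rw [this]
    exact hz
  · rw [← heq p hp]
    exact map_conj_self (le_of_normal hK' A hAn p₀ hAp p hp hzA)

section main

variable {G : Type u} [Group G] [Finite G]

theorem conj_systems [Group.IsSolvable G] (K L : Nat.Primes → Subgroup G) (hK : IsComplementSystem K)
    (hL : IsComplementSystem L) : ∃ g : G, ∀ p, (K p).map (MulAut.conj g).toMonoidHom = L p := by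
  obtain ⟨x, -, hx⟩ := conj_of_sup _ G rfl ⊤ inferInstance K L hK hL (by simp)
  exact ⟨x, hx⟩

theorem mem_of_normalizes (K : Subgroup G) {x : G} (hx : x ∈ Subgroup.normalizer (K : Set G))
    (hcop : (orderOf x).Coprime K.index) : x ∈ K := by
  let N : Subgroup G := Subgroup.normalizer (K : Set G)
  have hKN : K ≤ N := Subgroup.le_normalizer
  haveI hn : (K.subgroupOf N).Normal := Subgroup.normal_in_normalizer
  have h1 := Subgroup.pow_index_mem (K.subgroupOf N) (⟨x, hx⟩ : N)
  have h2 : x ^ (K.subgroupOf N).index ∈ K := by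
    have := Subgroup.mem_subgroupOf.1 h1
    simpa using this
  have h3 : (K.subgroupOf N).index ∣ K.index := Dvd.intro _ (Subgroup.relIndex_mul_index hKN)
  have h4 : ((K.subgroupOf N).index).Coprime (orderOf x) :=
    Nat.Coprime.coprime_dvd_left h3 hcop.symm
  obtain ⟨m, hm⟩ := exists_pow_eq_self_of_coprime h4
  rw [← hm]
  exact pow_mem h2 m

theorem isPGroup_of_elements {q : ℕ} [hq : Fact q.Prime] (R : Subgroup G)
    (h : ∀ x ∈ R, ∀ r : ℕ, r.Prime → r ∣ orderOf x → r = q) : IsPGroup q R := by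
  rw [IsPGroup.iff_orderOf]
  intro x
  have h1 := Nat.eq_prime_pow_of_unique_prime_dvd (orderOf_pos x).ne' (p := q) (fun {r} hr hd => by
    rw [← Subgroup.orderOf_coe] at hd
    exact h x x.2 r hr hd)
  exact ⟨_, h1⟩

/-- The system normalizer is nilpotent. -/
theorem sysnorm_nil (K : Nat.Primes → Subgroup G) (hK : IsComplementSystem K) :
    Group.IsNilpotent (systemNormalizer K) := by
  refine ((isNilpotent_of_finite_tfae (G := systemNormalizer K)).out 0 3).2 ?_
  intro q hq Q
  let D := systemNormalizer K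
  have hDK : ∀ p, ∀ d ∈ D, d ∈ Subgroup.normalizer (K p : Set G) := fun p d hd =>
    Subgroup.mem_iInf.1 hd p
  let R : Subgroup G := ⨅ p : Nat.Primes, ⨅ _ : (p : ℕ) ≠ q, K p
  have hRp : IsPGroup q R := by
    refine isPGroup_of_elements R ?_
    intro x hx r hr hd
    by_contra hrq
    have hx' : x ∈ K ⟨r, hr⟩ := Subgroup.mem_iInf.1 (Subgroup.mem_iInf.1 hx ⟨r, hr⟩) hrq
    have h1 : orderOf (⟨x, hx'⟩ : K ⟨r, hr⟩) ∣ Nat.card (K ⟨r, hr⟩) := orderOf_dvd_natCard _
    rw [Subgroup.orderOf_mk] at h1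
    exact not_dvd_card hK ⟨r, hr⟩ (dvd_trans hd h1)
  let T : Subgroup D := R.subgroupOf D
  have hTp : IsPGroup q T := by
    intro x
    obtain ⟨k, hk⟩ := hRp ⟨((x : D) : G), Subgroup.mem_subgroupOf.1 x.2⟩
    refine ⟨k, ?_⟩
    apply Subtype.ext
    apply Subtype.ext
    simpa using congrArg Subtype.val hk
  have hQT : (Q : Subgroup D) ≤ T := by
    intro x hx
    refine Subgroup.mem_subgroupOf.2 ?_
    refine Subgroup.mem_iInf.2 fun p => Subgroup.mem_iInf.2 fun hpq => ?_
    obtain ⟨m, hm⟩ := IsPGroup.iff_card.1 Q.isPGroup'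
    have h1 : orderOf (⟨x, hx⟩ : (Q : Subgroup D)) ∣ q ^ m := hm ▸ orderOf_dvd_natCard _
    rw [Subgroup.orderOf_mk] at h1
    obtain ⟨k, -, hk⟩ := (Nat.dvd_prime_pow hq.out).1 h1
    refine mem_of_normalizes (K p) (hDK p _ x.2) ?_
    rw [hK p, Subgroup.orderOf_coe, hk]
    exact Nat.Coprime.pow _ _ ((Nat.coprime_primes hq.out p.2).2 (Ne.symm hpq))
  have hQe : (T : Subgroup D) = Q := Q.is_maximal' hTp hQT
  rw [← hQe]
  refine ⟨fun x hx d => ?_⟩
  refine Subgroup.mem_subgroupOf.2 ?_
  refine Subgroup.mem_iInf.2 fun p => Subgroup.mem_iInf.2 fun hpq => ?_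
  have hx1 : ((x : D) : G) ∈ K p :=
    Subgroup.mem_iInf.1 (Subgroup.mem_iInf.1 (Subgroup.mem_subgroupOf.1 hx) p) hpq
  exact (Subgroup.mem_normalizer_iff.1 (hDK p _ d.2) _).1 hx1

theorem quotient_sysnorm [Group.IsSolvable G] (K : Nat.Primes → Subgroup G) (hK : IsComplementSystem K)
    (N : Subgroup G) [hN : N.Normal] :
    systemNormalizer (fun p => (K p).map (QuotientGroup.mk' N)) = (systemNormalizer K).map (QuotientGroup.mk' N) := by
  let π := QuotientGroup.mk' N
  have hπ : Function.Surjective π := QuotientGroup.mk'_surjective N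
  have hker : π.ker = N := QuotientGroup.ker_mk' N
  apply le_antisymm
  · intro y hy
    obtain ⟨x, rfl⟩ := hπ y
    have hy1 : ∀ p, π x ∈ Subgroup.normalizer (((K p).map π : Subgroup _) : Set _) :=
      fun p => Subgroup.mem_iInf.1 hy p
    have hsup : ∀ p, (K p).map (MulAut.conj x).toMonoidHom ⊔ N = K p ⊔ N := by
      intro p
      have h1 : ((K p).map (MulAut.conj x).toMonoidHom).map π = (K p).map π := by
        refine Subgroup.eq_of_le_of_card_ge ?_ ?_
        · rintro _ ⟨_, ⟨k, hk, rfl⟩, rfl⟩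
          have := (Subgroup.mem_normalizer_iff.1 (hy1 p) (π k)).1 ⟨k, hk, rfl⟩
          simpa [MulAut.conj_apply, π] using this
        · have h2 : ((K p).map π).map (MulAut.conj (π x)).toMonoidHom = ((K p).map (MulAut.conj x).toMonoidHom).map π := by
            simp only [Subgroup.map_map]
            congr 1
          rw [← h2, Cfsg.Agent.Lib.H5Basic.card_map_conj]
      have h2 := congrArg (Subgroup.comap π) h1
      rwa [Subgroup.comap_map_eq, Subgroup.comap_map_eq, hker] at h2
    obtain ⟨n, hnN, hn⟩ := conj_of_sup _ G rfl N hN _ K (system_conj hK x) hK hsup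
    refine ⟨n * x, ?_, ?_⟩
    · refine Subgroup.mem_iInf.2 fun p => ?_
      apply Cfsg.Agent.Lib.H5Basic.mem_normalizer_of_map_conj_le
      have h3 : (K p).map (MulAut.conj (n * x)).toMonoidHom = K p := by
        refine Eq.trans ?_ (hn p)
        rw [Subgroup.map_map]
        congr 1
        ext a
        simp [MulAut.conj_apply, mul_assoc]
      exact h3.le
    · have : π n = 1 := by
        rw [← MonoidHom.mem_ker, hker]; exact hnN
      rw [map_mul, this, one_mul]
  · rintro _ ⟨d, hd, rfl⟩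
    refine Subgroup.mem_iInf.2 fun p => ?_
    exact Subgroup.le_normalizer_map π ⟨d, Subgroup.mem_iInf.1 hd p, rfl⟩

/-- The normal closure of the system normalizer is everything. -/
theorem normalClosure_sysnorm [Group.IsSolvable G] (K : Nat.Primes → Subgroup G) (hK : IsComplementSystem K) :
    Subgroup.normalClosure ((systemNormalizer K : Subgroup G) : Set G) = ⊤ := by
  by_contra hM
  let M : Subgroup G := Subgroup.normalClosure ((systemNormalizer K : Subgroup G) : Set G)
  haveI hMn : M.Normal := Subgroup.normalClosure_normal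
  haveI hnt : Nontrivial (G ⧸ M) := by
    rw [QuotientGroup.nontrivial_iff]
    exact hM
  obtain ⟨Y, hYn, hYp⟩ := Cfsg.Agent.Lib.H6Orb4.exists_prime_index (G ⧸ M)
  haveI := hYn
  let N : Subgroup G := Y.comap (QuotientGroup.mk' M)
  haveI hNn : N.Normal := hYn.comap _
  have hMN : M ≤ N := by
    intro x hx
    show (QuotientGroup.mk' M) x ∈ Y
    have : (QuotientGroup.mk' M) x = 1 := (QuotientGroup.eq_one_iff x).2 hx
    rw [this]
    exact one_mem _
  have hNi : N.index = Y.index := Subgroup.index_comap_of_surjective _ (QuotientGroup.mk'_surjective M)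
  rw [← hNi] at hYp
  have hcard : Nat.card (G ⧸ N) = N.index := rfl
  haveI : Fact (Nat.card (G ⧸ N)).Prime := ⟨hcard ▸ hYp⟩
  haveI : IsCyclic (G ⧸ N) := isCyclic_of_prime_card rfl
  letI : CommGroup (G ⧸ N) := IsCyclic.commGroup
  have h1 := quotient_sysnorm K hK N
  have htop : systemNormalizer (fun p => (K p).map (QuotientGroup.mk' N)) = ⊤ := by
    rw [eq_top_iff]
    intro y _
    refine Subgroup.mem_iInf.2 fun p => ?_
    have : ((K p).map (QuotientGroup.mk' N)).Normal := inferInstance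
    rw [Subgroup.normalizer_eq_top_iff.2 this]
    trivial
  have h2 : (systemNormalizer K).map (QuotientGroup.mk' N) = ⊥ := by
    rw [eq_bot_iff]
    rintro _ ⟨d, hd, rfl⟩
    have hdM : d ∈ M := Subgroup.subset_normalClosure hd
    exact Subgroup.mem_bot.2 ((QuotientGroup.eq_one_iff d).2 (hMN hdM))
  rw [htop, h2] at h1
  have h3 : Nat.card (G ⧸ N) = 1 := by
    have : (⊤ : Subgroup (G ⧸ N)) = ⊥ := h1
    rw [← Subgroup.card_top, this, Subgroup.card_bot]
  exact hYp.one_lt.ne' (by rw [← hcard]; exact h3)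

end main

end Cfsg.Agent.Lib.HallSystem
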