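import Mathlib
import Cfsg.Prelude.Def_SolvableStructure
import Cfsg.Agent.Lib.HallSystem
import Cfsg.Agent.Lib.PGroupBasic
import Cfsg.Agent.Lib.H7Basic

/-!
# Hall's complement systems, continued
-/

set_option autoImplicit false
set_option linter.unusedVariables false
set_option linter.style.haveILetI false
set_option linter.unusedSectionVars false

namespace Cfsg.Agent.Lib.HallSystem2

open Cfsg Subgroup Cfsg.Agent.Lib.HallSystem
open scoped Pointwise

universe u

section avoid

variable {G : Type u} [Group G] [Finite G] [Group.IsSolvable G]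

/-- A noncentral minimal normal subgroup meets the system normalizer trivially. -/
theorem avoid (K : Nat.Primes → Subgroup G) (hK : IsComplementSystem K) (B : Subgroup G) [hBn : B.Normal]
    (hB1 : B ≠ ⊥) (hmin : ∀ M : Subgroup G, M.Normal → M ≤ B → M = ⊥ ∨ M = B)
    (hnc : ∃ b ∈ B, ∃ g : G, b * g ≠ g * b) : B ⊓ systemNormalizer K = ⊥ := by
  classical
  obtain ⟨hcomm, p, hp, hexp⟩ := Cfsg.Agent.Lib.FitSolv.minimal_normal_elementary B hB1 hmin
  haveI hpf : Fact p.Prime := ⟨hp⟩
  have hBp : IsPGroup p B := by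
    intro x
    refine ⟨1, ?_⟩
    apply Subtype.ext
    simpa using hexp x x.2
  let C : Subgroup G := Subgroup.centralizer (B : Set G)
  haveI hCn : C.Normal := Subgroup.normal_centralizer
  have hCtop : C ≠ ⊤ := by
    intro h
    obtain ⟨b, hb, g, hg⟩ := hnc
    have : g ∈ C := by rw [h]; trivial
    exact hg ((Subgroup.mem_centralizer_iff.1 this) b hb)
  haveI hnt : Nontrivial (G ⧸ C) := by
    rw [QuotientGroup.nontrivial_iff]
    exact hCtop
  obtain ⟨r, Rb, hr, hRn, hR1, hRp, -⟩ := Cfsg.Agent.Lib.H7Basic.exists_normal_pGroup (G := G ⧸ C) (inferInstance : Group.IsSolvable (G ⧸ C))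
  haveI hrf : Fact r.Prime := ⟨hr⟩
  let π := QuotientGroup.mk' C
  have hπ : Function.Surjective π := QuotientGroup.mk'_surjective C
  let R : Subgroup G := Rb.comap π
  haveI hRnn : R.Normal := hRn.comap π
  -- `C_B(R)` is normal
  let W : Subgroup G := B ⊓ Subgroup.centralizer (R : Set G)
  have hWn : W.Normal := by
    haveI : (Subgroup.centralizer (R : Set G)).Normal := Subgroup.normal_centralizer
    exact Subgroup.normal_inf_normal _ _
  have hWtriv : W = ⊥ := by
    refine (hmin W hWn inf_le_left).resolve_right ?_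
    intro h
    apply hR1
    rw [eq_bot_iff]
    intro y hy
    obtain ⟨z, rfl⟩ := hπ y
    have hz : z ∈ R := hy
    refine Subgroup.mem_bot.2 ((QuotientGroup.eq_one_iff z).2 ?_)
    refine Subgroup.mem_centralizer_iff.2 ?_
    intro b hb
    have : b ∈ W := h ▸ hb
    exact (Subgroup.mem_centralizer_iff.1 this.2 z hz).symm
  -- `r ≠ p`
  have hrp : r ≠ p := by
    rintro rfl
    let T : Sylow r G := default
    have hBT : B ≤ T := (hBp.le_sylow_of_normal T)
    haveI hTp : IsPGroup r (T : Subgroup G) := T.isPGroup'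
    let B' : Subgroup (T : Subgroup G) := B.subgroupOf T
    haveI : B'.Normal := Subgroup.normal_subgroupOf
    have hB'1 : B' ≠ ⊥ := by
      intro h0
      apply hB1
      rw [eq_bot_iff]
      intro x hx
      have : (⟨x, hBT hx⟩ : (T : Subgroup G)) ∈ B' := Subgroup.mem_subgroupOf.2 hx
      rw [h0] at this
      simpa using congrArg Subtype.val (Subgroup.mem_bot.1 this)
    obtain ⟨z, hzB, hz1, hzc⟩ := Cfsg.Agent.Lib.PGroupBasic.exists_ne_one_mem_center_of_normal hTp B' hB'1
    have hzW : ((z : (T : Subgroup G)) : G) ∈ W := by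
      refine ⟨Subgroup.mem_subgroupOf.1 hzB, Subgroup.mem_centralizer_iff.2 ?_⟩
      intro y hy
      let T' : Sylow r (G ⧸ C) := T.mapSurjective hπ
      have hle : Rb ≤ T' := hRp.le_sylow_of_normal T'
      have hmem : π y ∈ (T' : Subgroup (G ⧸ C)) := hle hy
      obtain ⟨t, ht, hte⟩ := hmem
      have hc : t⁻¹ * y ∈ C := by
        rw [← QuotientGroup.eq_one_iff]
        have h2 : π (t⁻¹ * y) = 1 := by
          rw [map_mul, map_inv, ← hte]
          simp
        exact h2
      have h1 : (t : G) * z = z * t := by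
        have := (Subgroup.mem_center_iff.1 hzc) ⟨t, ht⟩
        exact congrArg Subtype.val this
      have h2 : (t⁻¹ * y) * (z : G) = z * (t⁻¹ * y) :=
        ((Subgroup.mem_centralizer_iff.1 hc) _ (Subgroup.mem_subgroupOf.1 hzB)).symm
      have hye : y = t * (t⁻¹ * y) := by group
      rw [hye, mul_assoc, h2, ← mul_assoc, h1, mul_assoc]
    rw [hWtriv] at hzW
    apply hz1
    apply Subtype.ext
    exact Subgroup.mem_bot.1 hzW
  rw [eq_bot_iff]
  rintro x ⟨hxB, hxD⟩
  let P₀ : Nat.Primes := ⟨p, hp⟩
  have hxN : x ∈ Subgroup.normalizer (K P₀ : Set G) := Subgroup.mem_iInf.1 hxD P₀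
  have hBK : ∀ u ∈ K P₀, u ∈ B → u = 1 := by
    intro u huK huB
    have h1 : orderOf u ∣ p := orderOf_dvd_of_pow_eq_one (hexp u huB)
    have h2 : orderOf (⟨u, huK⟩ : K P₀) ∣ Nat.card (K P₀) := orderOf_dvd_natCard _
    rw [Subgroup.orderOf_mk] at h2
    rcases (Nat.dvd_prime hp).1 h1 with h3 | h3
    · exact orderOf_eq_one_iff.1 h3
    · rw [h3] at h2
      exact absurd h2 (not_dvd_card hK P₀)
  have hxW : x ∈ W := by
    refine ⟨hxB, Subgroup.mem_centralizer_iff.2 ?_⟩
    intro y hy
    have hle : Rb ≤ (K P₀).map π :=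
      le_of_normal (system_map hK C) Rb hRn r hRp P₀ (Ne.symm hrp)
    obtain ⟨k, hk, hke⟩ := hle hy
    have hc : k⁻¹ * y ∈ C := by
      rw [← QuotientGroup.eq_one_iff]
      have h2 : π (k⁻¹ * y) = 1 := by
        rw [map_mul, map_inv, hke]
        simp
      exact h2
    have h1 : k * x = x * k := by
      have h3 : x * k * x⁻¹ * k⁻¹ ∈ K P₀ :=
        mul_mem ((Subgroup.mem_normalizer_iff.1 hxN k).1 hk) (inv_mem hk)
      have h4 : x * k * x⁻¹ * k⁻¹ ∈ B := by
        have := hBn.conj_mem x⁻¹ (inv_mem hxB) k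
        have h5 : x * k * x⁻¹ * k⁻¹ = x * (k * x⁻¹ * k⁻¹) := by group
        rw [h5]
        exact mul_mem hxB this
      have h6 := hBK _ h3 h4
      have h7 : x * k * x⁻¹ = k := by
        exact mul_inv_eq_one.1 h6
      exact (mul_inv_eq_iff_eq_mul.1 h7).symm
    have h2 : (k⁻¹ * y) * x = x * (k⁻¹ * y) :=
      ((Subgroup.mem_centralizer_iff.1 hc) _ hxB).symm
    have hye : y = k * (k⁻¹ * y) := by group
    rw [hye, mul_assoc, h2, ← mul_assoc, h1, mul_assoc]
  rw [hWtriv] at hxW
  exact hxW

end avoid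

/-- Covering and avoidance. -/
theorem cover_avoid {G : Type u} [Group G] [Finite G] [Group.IsSolvable G] (K : Nat.Primes → Subgroup G)
    (hK : IsComplementSystem K) (A B : Subgroup G) [hAn : A.Normal] [hBn : B.Normal] (hAB : A < B)
    (hchief : ∀ N : Subgroup G, N.Normal → A ≤ N → N ≤ B → N = A ∨ N = B) :
    (⁅B, (⊤ : Subgroup G)⁆ ≤ A → B ≤ A ⊔ systemNormalizer K) ∧
    (¬ ⁅B, (⊤ : Subgroup G)⁆ ≤ A → B ⊓ systemNormalizer K ≤ A) := by
  let π := QuotientGroup.mk' A
  have hπ : Function.Surjective π := QuotientGroup.mk'_surjective A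
  have hker : π.ker = A := QuotientGroup.ker_mk' A
  have hone : ∀ x : G, π x = 1 ↔ x ∈ A := fun x => QuotientGroup.eq_one_iff x
  have hsys := quotient_sysnorm K hK A
  constructor
  · intro h x hx
    have hcen : ∀ g : G, π x * π g = π g * π x := by
      intro g
      have h1 : x * g * x⁻¹ * g⁻¹ ∈ A := by
        apply h
        exact Subgroup.commutator_mem_commutator hx (Subgroup.mem_top g)
      have h2 := (hone _).2 h1
      simp only [map_mul, map_inv] at h2
      have h3 : π x * π g * (π x)⁻¹ = π g := mul_inv_eq_one.1 h2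
      exact mul_inv_eq_iff_eq_mul.1 h3
    have hmem : π x ∈ systemNormalizer (fun p => (K p).map (QuotientGroup.mk' A)) := by
      refine Subgroup.mem_iInf.2 fun p => ?_
      refine Subgroup.centralizer_le_normalizer _ (Subgroup.mem_centralizer_iff.2 ?_)
      intro u _
      obtain ⟨g, rfl⟩ := hπ u
      exact (hcen g).symm
    rw [hsys] at hmem
    obtain ⟨d, hd, hde⟩ := hmem
    have h1 : d⁻¹ * x ∈ A := by
      rw [← hone, map_mul, map_inv]
      have : π d = π x := hde
      rw [this]
      simp
    have hxe : x = (x * d⁻¹) * d := by group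
    have h2 : x * d⁻¹ ∈ A := by
      have := hAn.conj_mem _ h1 d
      have h3 : d * (d⁻¹ * x) * d⁻¹ = x * d⁻¹ := by group
      rwa [h3] at this
    rw [hxe]
    exact Subgroup.mul_mem_sup h2 hd
  · intro h x hx
    rw [← hone]
    obtain ⟨hxB, hxD⟩ := hx
    haveI hB'n : (B.map π).Normal := hBn.map _ hπ
    have hB'1 : B.map π ≠ ⊥ := by
      intro h0
      have : B ≤ A := by
        intro y hy
        rw [← hone]
        have : π y ∈ B.map π := ⟨y, hy, rfl⟩
        rw [h0] at this
        exact this
      exact absurd hAB (not_lt_of_ge this)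
    have hmin' : ∀ M : Subgroup (G ⧸ A), M.Normal → M ≤ B.map π → M = ⊥ ∨ M = B.map π := by
      intro M hM hMB
      have hc : M.comap π = A ∨ M.comap π = B := by
        refine hchief _ (hM.comap π) ?_ ?_
        · intro y hy
          show π y ∈ M
          rw [(hone y).2 hy]
          exact one_mem _
        · intro y hy
          obtain ⟨z, hz, hze⟩ := hMB hy
          have h1 : z⁻¹ * y ∈ A := by
            rw [← hone, map_mul, map_inv, hze]
            simp
          have h2 : y = z * (z⁻¹ * y) := by group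
          rw [h2]
          exact mul_mem hz (hAB.le h1)
      rcases hc with hc | hc
      · left
        rw [eq_bot_iff]
        intro u hu
        obtain ⟨y, rfl⟩ := hπ u
        have : y ∈ M.comap π := hu
        rw [hc] at this
        exact Subgroup.mem_bot.2 ((hone y).2 this)
      · right
        refine le_antisymm hMB ?_
        rintro _ ⟨y, hy, rfl⟩
        have : y ∈ M.comap π := by rw [hc]; exact hy
        exact this
    have hnc' : ∃ b ∈ B.map π, ∃ g : G ⧸ A, b * g ≠ g * b := by
      by_contra hno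
      push_neg at hno
      apply h
      rw [Subgroup.commutator_le]
      intro b hb g _
      rw [← hone]
      have h1 := hno (π b) ⟨b, hb, rfl⟩ (π g)
      simp only [commutatorElement_def, map_mul, map_inv]
      rw [h1]
      simp
    have hav := avoid (fun p => (K p).map (QuotientGroup.mk' A)) (system_map hK A) (B.map π) hB'1 hmin' hnc'
    have hmem : π x ∈ B.map π ⊓ systemNormalizer (fun p => (K p).map (QuotientGroup.mk' A)) := by
      refine ⟨⟨x, hxB, rfl⟩, ?_⟩
      rw [hsys]
      exact ⟨x, hxD, rfl⟩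
    rw [hav] at hmem
    exact hmem

end Cfsg.Agent.Lib.HallSystem2
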