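import Mathlib
import Cfsg.Prelude.Def_SolvableStructure
import Cfsg.Agent.Lib.HallSystem
import Cfsg.Agent.Lib.Hall
import Cfsg.Agent.Lib.H6Hall

/-!
# Hall subgroups from a complement system
-/

set_option autoImplicit false
set_option linter.unusedVariables false
set_option linter.style.haveILetI false
set_option linter.unusedSectionVars false

namespace Cfsg.Agent.Lib.HallSystem3

open Cfsg Subgroup Cfsg.Agent.Lib.HallSystem
open scoped Pointwise

universe u

variable {G : Type u} [Group G] [Finite G]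

theorem exists_system [Group.IsSolvable G] : ∃ K : Nat.Primes → Subgroup G, IsComplementSystem K := by
  have key : ∀ p : Nat.Primes, ∃ H : Subgroup G, H.index = (p : ℕ) ^ (Nat.card G).factorization p := by
    intro p
    have hG : Nat.card G ≠ 0 := Nat.card_pos.ne'
    have h1 := Nat.ordProj_mul_ordCompl_eq_self (Nat.card G) (p : ℕ)
    have hc := ((Nat.coprime_ordCompl p.2 hG).pow_left ((Nat.card G).factorization p)).symm
    obtain ⟨H, hH⟩ := Cfsg.Agent.Lib.Hall.hall_exists _ G _ _ rfl (by rw [mul_comm]; exact h1.symm) hc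
    refine ⟨H, ?_⟩
    have h2 := H.card_mul_index
    rw [hH] at h2
    have hpos := Nat.ordCompl_pos (p : ℕ) hG
    refine Nat.eq_of_mul_eq_mul_left hpos ?_
    rw [h2, mul_comm]
    exact h1.symm
  choose K hK using key
  exact ⟨K, hK⟩

theorem inf_index (A B : Subgroup G) (h : A.index.Coprime B.index) : (A ⊓ B).index = A.index * B.index := by
  refine le_antisymm Subgroup.index_inf_le ?_
  refine Nat.le_of_dvd (Nat.pos_of_ne_zero Subgroup.index_ne_zero_of_finite) ?_
  exact h.mul_dvd_of_dvd_of_dvd (Subgroup.index_dvd_of_le inf_le_left) (Subgroup.index_dvd_of_le inf_le_right)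

/-- Intersection over a finite set of primes. -/
def Icap (K : Nat.Primes → Subgroup G) (S : Finset ℕ) : Subgroup G :=
  ⨅ p : Nat.Primes, ⨅ _ : (p : ℕ) ∈ S, K p

theorem mem_Icap {K : Nat.Primes → Subgroup G} {S : Finset ℕ} {x : G} :
    x ∈ Icap K S ↔ ∀ p : Nat.Primes, (p : ℕ) ∈ S → x ∈ K p := by
  simp [Icap, Subgroup.mem_iInf]

theorem Icap_anti {K : Nat.Primes → Subgroup G} {S T : Finset ℕ} (h : S ⊆ T) : Icap K T ≤ Icap K S := by
  intro x hx
  rw [mem_Icap] at hx ⊢
  exact fun p hp => hx p (h hp)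

theorem index_Icap {K : Nat.Primes → Subgroup G} (hK : IsComplementSystem K) (S : Finset ℕ)
    (hS : ∀ p ∈ S, p.Prime) : (Icap K S).index = ∏ p ∈ S, p ^ (Nat.card G).factorization p := by
  classical
  induction S using Finset.induction_on with
  | empty =>
    have : Icap K (∅ : Finset ℕ) = ⊤ := by
      rw [eq_top_iff]
      intro x _
      rw [mem_Icap]
      intro p hp
      simp at hp
    rw [this]
    simp
  | insert q S hq ih =>
    have hq' : q.Prime := hS q (Finset.mem_insert_self _ _)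
    have hS' : ∀ p ∈ S, p.Prime := fun p hp => hS p (Finset.mem_insert_of_mem hp)
    have h1 : Icap K (insert q S) = K ⟨q, hq'⟩ ⊓ Icap K S := by
      ext x
      rw [Subgroup.mem_inf, mem_Icap, mem_Icap]
      constructor
      · intro h
        exact ⟨h ⟨q, hq'⟩ (Finset.mem_insert_self _ _), fun p hp => h p (Finset.mem_insert_of_mem hp)⟩
      · rintro ⟨h2, h3⟩ p hp
        rcases Finset.mem_insert.1 hp with h4 | h4
        · have : p = ⟨q, hq'⟩ := Subtype.ext h4
          rw [this]; exact h2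
        · exact h3 p h4
    have hc : (K ⟨q, hq'⟩).index.Coprime (Icap K S).index := by
      rw [hK ⟨q, hq'⟩, ih hS']
      refine Nat.Coprime.prod_right fun p hp => ?_
      refine Nat.Coprime.pow _ _ ((Nat.coprime_primes hq' (hS' p hp)).2 ?_)
      rintro rfl
      exact hq hp
    rw [h1, inf_index _ _ hc, hK ⟨q, hq'⟩, ih hS', Finset.prod_insert hq]

theorem relIndex_Icap {K : Nat.Primes → Subgroup G} (hK : IsComplementSystem K) (S T : Finset ℕ)
    (hS : ∀ p ∈ S, p.Prime) (hT : ∀ p ∈ T, p.Prime) (hST : S ⊆ T) :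
    (Icap K T).relIndex (Icap K S) = ∏ p ∈ T \ S, p ^ (Nat.card G).factorization p := by
  classical
  have h1 := Subgroup.relIndex_mul_index (Icap_anti (K := K) hST)
  rw [index_Icap hK S hS, index_Icap hK T hT] at h1
  have h2 : ∏ p ∈ T, p ^ (Nat.card G).factorization p =
      (∏ p ∈ T \ S, p ^ (Nat.card G).factorization p) * ∏ p ∈ S, p ^ (Nat.card G).factorization p := by
    rw [Finset.prod_sdiff hST]
  rw [h2] at h1
  refine Nat.eq_of_mul_eq_mul_right ?_ h1
  exact Finset.prod_pos fun p hp => pow_pos (hS p hp).pos _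

theorem mul_Icap {K : Nat.Primes → Subgroup G} (hK : IsComplementSystem K) (Sa Sb : Finset ℕ)
    (ha : ∀ p ∈ Sa, p.Prime) (hb : ∀ p ∈ Sb, p.Prime) :
    ((Icap K (Sa ∩ Sb) : Subgroup G) : Set G) = (Icap K Sa : Set G) * (Icap K Sb : Set G) := by
  classical
  have hc : ∀ p ∈ Sa ∩ Sb, p.Prime := fun p hp => ha p (Finset.mem_of_mem_inter_left hp)
  let C := Icap K (Sa ∩ Sb)
  have hAC : Icap K Sa ≤ C := Icap_anti Finset.inter_subset_left
  have hBC : Icap K Sb ≤ C := Icap_anti Finset.inter_subset_right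
  apply Set.Subset.antisymm
  · intro c hc'
    have hcop : ((Icap K Sb).subgroupOf C).index.Coprime ((Icap K Sa).subgroupOf C).index := by
      have h1 : ((Icap K Sb).subgroupOf C).index = (Icap K Sb).relIndex C := rfl
      have h2 : ((Icap K Sa).subgroupOf C).index = (Icap K Sa).relIndex C := rfl
      rw [h1, h2, relIndex_Icap hK _ _ hc hb Finset.inter_subset_right,
        relIndex_Icap hK _ _ hc ha Finset.inter_subset_left]
      refine Nat.Coprime.prod_left fun p hp => Nat.Coprime.prod_right fun q hq => ?_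
      have hp' := Finset.mem_sdiff.1 hp
      have hq' := Finset.mem_sdiff.1 hq
      refine Nat.Coprime.pow _ _ ((Nat.coprime_primes (hb p hp'.1) (ha q hq'.1)).2 ?_)
      rintro rfl
      exact hq'.2 (Finset.mem_inter.2 ⟨hq'.1, hp'.1⟩)
    obtain ⟨s, hs, hs2⟩ := Cfsg.Agent.Lib.H6Hall.exists_mul_of_coprime _ _ hcop (⟨c, hc'⟩ : C)
    refine ⟨s, Subgroup.mem_subgroupOf.1 hs, ((s⁻¹ * ⟨c, hc'⟩ : C) : G), Subgroup.mem_subgroupOf.1 hs2, ?_⟩
    simp
  · rintro _ ⟨a, ha', b, hb', rfl⟩
    exact C.mul_mem (hAC ha') (hBC hb')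

theorem hall_is_Icap [Group.IsSolvable G] {K : Nat.Primes → Subgroup G} (hK : IsComplementSystem K)
    (A : Subgroup G) (hA : (Nat.card A).Coprime A.index) :
    ∃ g : G, A = (Icap K A.index.primeFactors).map (MulAut.conj g).toMonoidHom := by
  classical
  have hp : ∀ p ∈ A.index.primeFactors, p.Prime := fun p hp => Nat.prime_of_mem_primeFactors hp
  have hi : (Icap K A.index.primeFactors).index = A.index := by
    rw [index_Icap hK _ hp]
    have h1 : ∀ p ∈ A.index.primeFactors, p ^ (Nat.card G).factorization p = p ^ A.index.factorization p := by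
      intro p hpm
      have hc := A.card_mul_index
      congr 1
      rw [← hc, Nat.factorization_mul Nat.card_pos.ne' Subgroup.index_ne_zero_of_finite, Finsupp.add_apply]
      have h2 : ¬ p ∣ Nat.card A := fun h =>
        (Nat.Prime.coprime_iff_not_dvd (hp p hpm)).1 (Nat.Coprime.coprime_dvd_right (Nat.dvd_of_mem_primeFactors hpm) hA).symm h
      rw [Nat.factorization_eq_zero_of_not_dvd h2, zero_add]
    rw [Finset.prod_congr rfl h1]
    have h3 := Nat.prod_factorization_pow_eq_self (Subgroup.index_ne_zero_of_finite : A.index ≠ 0)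
    rw [Finsupp.prod, Nat.support_factorization] at h3
    exact h3
  have hc : Nat.card (Icap K A.index.primeFactors) = Nat.card A := by
    have h1 := (Icap K A.index.primeFactors).card_mul_index
    have h2 := A.card_mul_index
    rw [hi] at h1
    exact Nat.eq_of_mul_eq_mul_right (Nat.pos_of_ne_zero Subgroup.index_ne_zero_of_finite) (h1.trans h2.symm)
  obtain ⟨g, hg⟩ := Cfsg.Agent.Lib.Hall.hall_conj _ G (Nat.card A) A.index rfl A.card_mul_index.symm hA
    (Icap K A.index.primeFactors) A hc hA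
  refine ⟨g, Subgroup.eq_of_le_of_card_ge hg ?_⟩
  rw [Cfsg.Agent.Lib.H5Basic.card_map_conj, hc]

theorem coe_map_mul (S A B : Subgroup G) (g : G) (h : (S : Set G) = (A : Set G) * (B : Set G)) :
    ((S.map (MulAut.conj g).toMonoidHom : Subgroup G) : Set G) =
      ((A.map (MulAut.conj g).toMonoidHom : Subgroup G) : Set G) *
        ((B.map (MulAut.conj g).toMonoidHom : Subgroup G) : Set G) := by
  simp only [Subgroup.coe_map, h, Set.image_mul]

theorem map_conj_comp (X : Subgroup G) (g h : G) :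
    (X.map (MulAut.conj h).toMonoidHom).map (MulAut.conj g).toMonoidHom = X.map (MulAut.conj (g * h)).toMonoidHom := by
  rw [Subgroup.map_map]
  congr 1
  ext a
  simp [MulAut.conj_apply, mul_assoc]

theorem map_conj_inv (X : Subgroup G) (g : G) :
    (X.map (MulAut.conj g).toMonoidHom).map (MulAut.conj g⁻¹).toMonoidHom = X := by
  rw [map_conj_comp, inv_mul_cancel]
  exact map_conj_self (one_mem _)

/-- Products of conjugates of normal Hall subgroups of the factors form a subgroup. -/
theorem product_hall [Group.IsSolvable G] (H K A B : Subgroup G) (hHK : ∀ g : G, ∃ h ∈ H, ∃ k ∈ K, g = h * k)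
    (hA : A ≤ H) (hAn : (A.subgroupOf H).Normal) (hB : B ≤ K) (hBn : (B.subgroupOf K).Normal)
    (hAh : (Nat.card A).Coprime A.index) (hBh : (Nat.card B).Coprime B.index) (x y : G) :
    ∃ S : Subgroup G, (S : Set G) = ((A.map (MulAut.conj x).toMonoidHom : Subgroup G) : Set G) *
      ((B.map (MulAut.conj y).toMonoidHom : Subgroup G) : Set G) := by
  classical
  obtain ⟨L, hL⟩ := exists_system (G := G)
  obtain ⟨u, hu⟩ := hall_is_Icap hL A hAh
  obtain ⟨v, hv⟩ := hall_is_Icap hL B hBh
  have hmul := mul_Icap hL A.index.primeFactors B.index.primeFactors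
    (fun p hp => Nat.prime_of_mem_primeFactors hp) (fun p hp => Nat.prime_of_mem_primeFactors hp)
  have hAfix : ∀ h ∈ H, A.map (MulAut.conj h).toMonoidHom = A := by
    intro h hh
    refine Subgroup.eq_of_le_of_card_ge ?_ (by rw [Cfsg.Agent.Lib.H5Basic.card_map_conj])
    rintro _ ⟨a, ha, rfl⟩
    have := hAn.conj_mem ⟨a, hA ha⟩ (Subgroup.mem_subgroupOf.2 ha) ⟨h, hh⟩
    exact Subgroup.mem_subgroupOf.1 this
  have hBfix : ∀ k ∈ K, B.map (MulAut.conj k).toMonoidHom = B := by
    intro k hk
    refine Subgroup.eq_of_le_of_card_ge ?_ (by rw [Cfsg.Agent.Lib.H5Basic.card_map_conj])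
    rintro _ ⟨b, hb, rfl⟩
    have := hBn.conj_mem ⟨b, hB hb⟩ (Subgroup.mem_subgroupOf.2 hb) ⟨k, hk⟩
    exact Subgroup.mem_subgroupOf.1 this
  let P : G → Prop := fun w => ∃ S : Subgroup G, (S : Set G) = (A : Set G) *
      ((B.map (MulAut.conj w).toMonoidHom : Subgroup G) : Set G)
  have hP1 : P (u * v⁻¹) := by
    refine ⟨(Icap L (A.index.primeFactors ∩ B.index.primeFactors)).map (MulAut.conj u).toMonoidHom, ?_⟩
    rw [coe_map_mul _ _ _ u hmul, ← hu]
    have : (Icap L B.index.primeFactors).map (MulAut.conj u).toMonoidHom =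
        B.map (MulAut.conj (u * v⁻¹)).toMonoidHom := by
      rw [← map_conj_comp, ]
      congr 1
      conv_lhs => rw [← map_conj_inv (Icap L B.index.primeFactors) v, ← hv]
    rw [this]
  have hdecomp : ∀ w : G, ∃ h ∈ H, B.map (MulAut.conj w).toMonoidHom = B.map (MulAut.conj h).toMonoidHom := by
    intro w
    obtain ⟨h, hh, k, hk, rfl⟩ := hHK w
    refine ⟨h, hh, ?_⟩
    rw [← map_conj_comp, hBfix k hk]
  have hP2 : ∃ S : Subgroup G, (S : Set G) = (A : Set G) * (B : Set G) := by
    obtain ⟨S, hS⟩ := hP1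
    obtain ⟨h, hh, hhe⟩ := hdecomp (u * v⁻¹)
    rw [hhe] at hS
    refine ⟨S.map (MulAut.conj h⁻¹).toMonoidHom, ?_⟩
    rw [coe_map_mul _ _ _ _ hS, hAfix _ (inv_mem hh), map_conj_inv]
  obtain ⟨S₂, hS₂⟩ := hP2
  obtain ⟨h, hh, hhe⟩ := hdecomp (x⁻¹ * y)
  refine ⟨(S₂.map (MulAut.conj h).toMonoidHom).map (MulAut.conj x).toMonoidHom, ?_⟩
  have hS₃ := coe_map_mul _ _ _ h hS₂
  rw [hAfix h hh, ← hhe] at hS₃
  rw [coe_map_mul _ _ _ x hS₃, map_conj_comp B]
  simp

end Cfsg.Agent.Lib.HallSystem3
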