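import Mathlib
import Cfsg.Prelude.Def_Blocks
import Cfsg.Agent.Lib.PNilpB
import Cfsg.Agent.Lib.InvPair
import Cfsg.Agent.Lib.SylowCount

/-!
# Homocyclic Sylow `2`-subgroups of rank two: Burnside's argument
-/

set_option autoImplicit false
set_option linter.style.haveILetI false
set_option linter.unusedSectionVars false

namespace Cfsg.Agent.Lib.HomoSylow

universe u

/-- `2`-torsion in `ZMod (2 ^ m)`. -/
theorem zmod_two_torsion {m : ℕ} (hm : 1 ≤ m) (w : ZMod (2 ^ m)) (hw : w + w = 0) : w = 0 ∨ w = ((2 ^ (m - 1) : ℕ) : ZMod (2 ^ m)) := by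
  haveI : NeZero (2 ^ m) := ⟨by positivity⟩
  have h1 : ((w.val + w.val : ℕ) : ZMod (2 ^ m)) = 0 := by
    push_cast
    rw [ZMod.natCast_zmod_val, hw]
  rw [ZMod.natCast_eq_zero_iff] at h1
  have hlt := ZMod.val_lt w
  obtain ⟨c, hc⟩ := h1
  have hm' : 2 ^ m = 2 * 2 ^ (m - 1) := by
    rw [← pow_succ']
    congr 1
    omega
  have hpos : 0 < 2 ^ (m - 1) := by positivity
  have hc' : w.val + w.val = 2 * 2 ^ (m - 1) * c := by
    rw [hc, hm']
  have hval : w.val = c * 2 ^ (m - 1) := by
    nlinarith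
  have hlt' : w.val < 2 * 2 ^ (m - 1) := by
    calc w.val < 2 ^ m := hlt
      _ = _ := hm'
  have hc2 : c < 2 := by
    by_contra h
    push Not at h
    have : 2 * 2 ^ (m - 1) ≤ c * 2 ^ (m - 1) := Nat.mul_le_mul_right _ h
    omega
  have hw' : w = ((w.val : ℕ) : ZMod (2 ^ m)) := (ZMod.natCast_zmod_val w).symm
  interval_cases c
  · left
    rw [hw', hval]
    simp
  · right
    rw [hw', hval]
    simp

variable {G : Type u} [Group G] [Finite G]

/-- A `2`-element normalizing a Sylow `2`-subgroup lies in it. -/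
theorem mem_of_normalizes (P : Sylow 2 G) {u : G} (hu : u ∈ Subgroup.normalizer ((P : Subgroup G) : Set G))
    {e : ℕ} (he : u ^ 2 ^ e = 1) : u ∈ (P : Subgroup G) := by
  haveI : Fact (Nat.Prime 2) := ⟨Nat.prime_two⟩
  have hz : IsPGroup 2 (Subgroup.zpowers u) := by
    obtain ⟨k, -, hk⟩ := (Nat.dvd_prime_pow Nat.prime_two).1 (orderOf_dvd_of_pow_eq_one he)
    exact IsPGroup.of_card (n := k) (by rw [Nat.card_zpowers, hk])
  have hle : Subgroup.zpowers u ≤ Subgroup.normalizer ((P : Subgroup G) : Set G) := by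
    rw [Subgroup.zpowers_le]
    exact hu
  have hmax := P.is_maximal' (IsPGroup.to_sup_of_normal_left' P.2 hz hle) le_sup_left
  rw [← hmax]
  exact (le_sup_right : Subgroup.zpowers u ≤ _) (Subgroup.mem_zpowers u)

/-- An element of odd order commutes with whatever its square commutes with. -/
theorem commute_of_sq {n a : G} (ho : Odd (orderOf n)) (h : Commute (n * n) a) : Commute n a := by
  obtain ⟨r, hr⟩ := ho
  have h1 : n = (n * n) ^ (r + 1) := by
    rw [← pow_two, ← pow_mul]
    have : 2 * (r + 1) = orderOf n + 1 := by omega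
    rw [this, pow_succ, pow_orderOf_eq_one, one_mul]
  rw [h1]
  exact h.pow_left _

/-- The structure of `P`. -/
structure HomoData (P : Subgroup G) (m : ℕ) : Prop where
  comm : ∀ x ∈ P, ∀ y ∈ P, x * y = y * x
  exp : ∀ x ∈ P, x ^ 2 ^ m = 1
  four : ∀ a ∈ P, ∀ b ∈ P, ∀ c ∈ P, a * a = 1 → b * b = 1 → c * c = 1 → a ≠ 1 → b ≠ 1 → a ≠ b → c = 1 ∨ c = a ∨ c = b ∨ c = a * b

/-- The data for a homocyclic group. -/
theorem homoData_of_equiv {P : Subgroup G} {m : ℕ} (hm : 1 ≤ m) (e : P ≃* Multiplicative (ZMod (2 ^ m) × ZMod (2 ^ m))) : HomoData P m := by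
  classical
  refine ⟨?_, ?_, ?_⟩
  · intro x hx y hy
    have h : e ⟨x, hx⟩ * e ⟨y, hy⟩ = e ⟨y, hy⟩ * e ⟨x, hx⟩ := mul_comm _ _
    rw [← map_mul, ← map_mul] at h
    exact congrArg Subtype.val (e.injective h)
  · intro x hx
    have h : (e ⟨x, hx⟩) ^ 2 ^ m = 1 := by
      apply Multiplicative.toAdd.injective
      rw [toAdd_pow]
      have h0 : (2 : ZMod (2 ^ m)) ^ m = 0 := by
        have : ((2 ^ m : ℕ) : ZMod (2 ^ m)) = 0 := ZMod.natCast_self _
        push_cast at this
        exact this
      ext <;> simp [h0]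
    rw [← map_pow] at h
    have h2 := e.injective (h.trans (map_one e).symm)
    exact congrArg Subtype.val h2
  · intro a ha b hb c hc haa hbb hcc ha1 hb1 hab
    by_contra hne
    push Not at hne
    obtain ⟨hc1, hca, hcb, hcab⟩ := hne
    -- the image of the `2`-torsion
    let h2 : ZMod (2 ^ m) := ((2 ^ (m - 1) : ℕ) : ZMod (2 ^ m))
    let T : Finset (ZMod (2 ^ m) × ZMod (2 ^ m)) := {(0, 0), (0, h2), (h2, 0), (h2, h2)}
    have hT : T.card ≤ 4 := Finset.card_le_four
    have hmem : ∀ x, ∀ hx : x ∈ P, x * x = 1 → (Multiplicative.toAdd (e ⟨x, hx⟩)) ∈ T := by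
      intro x hx hxx
      have h1 : e ⟨x, hx⟩ * e ⟨x, hx⟩ = 1 := by
        rw [← map_mul]
        have : (⟨x, hx⟩ : P) * ⟨x, hx⟩ = 1 := Subtype.ext hxx
        rw [this, map_one]
      have h3 : Multiplicative.toAdd (e ⟨x, hx⟩) + Multiplicative.toAdd (e ⟨x, hx⟩) = 0 := by
        have := congrArg Multiplicative.toAdd h1
        simpa using this
      have h4 := congrArg Prod.fst h3
      have h5 := congrArg Prod.snd h3
      simp only [Prod.fst_add, Prod.snd_add, Prod.fst_zero, Prod.snd_zero] at h4 h5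
      rcases zmod_two_torsion hm _ h4 with h6 | h6 <;> rcases zmod_two_torsion hm _ h5 with h7 | h7
      · simp [T, Prod.ext_iff, h6, h7]
      · simp [T, Prod.ext_iff, h6, h7, h2]
      · simp [T, Prod.ext_iff, h6, h7, h2]
      · simp [T, Prod.ext_iff, h6, h7, h2]
    -- five distinct elements
    have hab' : a * b ∈ P := P.mul_mem ha hb
    have hcomm : a * b = b * a := by
      have h : e ⟨a, ha⟩ * e ⟨b, hb⟩ = e ⟨b, hb⟩ * e ⟨a, ha⟩ := mul_comm _ _
      rw [← map_mul, ← map_mul] at h
      exact congrArg Subtype.val (e.injective h)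
    have habab : a * b * (a * b) = 1 := by
      calc a * b * (a * b) = a * (b * a) * b := by group
        _ = a * (a * b) * b := by rw [hcomm]
        _ = (a * a) * (b * b) := by group
        _ = 1 := by rw [haa, hbb, one_mul]
    let f : G → ZMod (2 ^ m) × ZMod (2 ^ m) := fun x => if hx : x ∈ P then Multiplicative.toAdd (e ⟨x, hx⟩) else 0
    have hfinj : ∀ x ∈ P, ∀ y ∈ P, f x = f y → x = y := by
      intro x hx y hy h
      simp only [f, dif_pos hx, dif_pos hy] at h
      have h1 := e.injective (Multiplicative.toAdd.injective h)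
      exact congrArg Subtype.val h1
    let Ω : Finset G := {1, a, b, a * b, c}
    have hΩcard : Ω.card = 5 := by
      have hab1 : a * b ≠ 1 := by
        intro h
        apply hab
        calc a = a * (b * b) := by rw [hbb, mul_one]
          _ = (a * b) * b := by group
          _ = b := by rw [h, one_mul]
      have hab2 : a * b ≠ a := fun h => hb1 (by simpa using h)
      have hab3 : a * b ≠ b := fun h => ha1 (by simpa using h)
      simp only [Ω]
      rw [Finset.card_insert_of_notMem, Finset.card_insert_of_notMem, Finset.card_insert_of_notMem, Finset.card_insert_of_notMem, Finset.card_singleton]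
      · simp only [Finset.mem_singleton]
        exact fun h => hcab h.symm
      · simp only [Finset.mem_insert, Finset.mem_singleton, not_or]
        exact ⟨fun h => hab3 h.symm, fun h => hcb h.symm⟩
      · simp only [Finset.mem_insert, Finset.mem_singleton, not_or]
        exact ⟨hab, fun h => hab2 h.symm, fun h => hca h.symm⟩
      · simp only [Finset.mem_insert, Finset.mem_singleton, not_or]
        exact ⟨fun h => ha1 h.symm, fun h => hb1 h.symm, fun h => hab1 h.symm, fun h => hc1 h.symm⟩
    have hsub : Ω.image f ⊆ T := by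
      intro t ht
      obtain ⟨x, hx, rfl⟩ := Finset.mem_image.1 ht
      simp only [Ω, Finset.mem_insert, Finset.mem_singleton] at hx
      rcases hx with rfl | rfl | rfl | rfl | rfl
      · have := hmem 1 P.one_mem (one_mul 1)
        simp only [f, dif_pos P.one_mem]; exact this
      · simp only [f, dif_pos ha]; exact hmem _ ha haa
      · simp only [f, dif_pos hb]; exact hmem _ hb hbb
      · simp only [f, dif_pos hab']; exact hmem _ hab' habab
      · simp only [f, dif_pos hc]; exact hmem _ hc hcc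
    have hinj : Set.InjOn f (Ω : Set G) := by
      intro x hx y hy h
      have hΩP : ∀ x ∈ Ω, x ∈ P := by
        intro x hx
        simp only [Ω, Finset.mem_insert, Finset.mem_singleton] at hx
        rcases hx with rfl | rfl | rfl | rfl | rfl
        · exact P.one_mem
        · exact ha
        · exact hb
        · exact hab'
        · exact hc
      exact hfinj x (hΩP x hx) y (hΩP y hy) h
    have hcard := Finset.card_le_card hsub
    rw [Finset.card_image_of_injOn hinj, hΩcard] at hcard
    omega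

/-- If two involutions of `P` are not conjugate in `G`, then elements of odd order of the normalizer centralize the involutions. -/
theorem odd_fixes_involutions {P : Subgroup G} {m : ℕ} (hd : HomoData P m) {a b : G} (ha : a ∈ P) (hb : b ∈ P) (haa : a * a = 1) (hbb : b * b = 1)
    (ha1 : a ≠ 1) (hb1 : b ≠ 1) (hab : ¬ IsConj a b) {n : G} (hn : n ∈ Subgroup.normalizer (P : Set G)) (ho : Odd (orderOf n)) :
    n * a * n⁻¹ = a ∧ n * b * n⁻¹ = b := by
  have habne : a ≠ b := fun h => hab (h ▸ IsConj.refl a)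
  have hconj : ∀ {x : G}, x * x = 1 → (n * x * n⁻¹) * (n * x * n⁻¹) = 1 := by
    intro x hx
    calc (n * x * n⁻¹) * (n * x * n⁻¹) = n * (x * x) * n⁻¹ := by group
      _ = 1 := by rw [hx]; group
  have hmem : ∀ {x : G}, x ∈ P → n * x * n⁻¹ ∈ P := fun {x} hx => (Subgroup.mem_normalizer_iff.1 hn x).1 hx
  have hne1 : ∀ {x : G}, x ≠ 1 → n * x * n⁻¹ ≠ 1 := by
    intro x hx h
    apply hx
    have h3 : x = n⁻¹ * (n * x * n⁻¹) * n := by group
    rw [h3, h]; group
  have hna := hd.four a ha b hb _ (hmem ha) haa hbb (hconj haa) ha1 hb1 habne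
  have hnb := hd.four a ha b hb _ (hmem hb) haa hbb (hconj hbb) ha1 hb1 habne
  have hnab : n * (a * b) * n⁻¹ = (n * a * n⁻¹) * (n * b * n⁻¹) := by group
  have hcab : a * b = b * a := hd.comm a ha b hb
  have hna' : n * a * n⁻¹ ≠ b := fun h => hab (isConj_iff.2 ⟨n, h⟩)
  have hnb' : n * b * n⁻¹ ≠ a := fun h => hab (isConj_iff.2 ⟨n, h⟩).symm
  have hsqcomm : ∀ {x : G}, n * (n * x * n⁻¹) * n⁻¹ = x → Commute n x := by
    intro x h
    apply commute_of_sq ho
    show n * n * x = x * (n * n)
    have h1 : n * n * x * (n * n)⁻¹ = x := by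
      rw [← h]
      simp only [h]
      calc n * n * x * (n * n)⁻¹ = n * (n * x * n⁻¹) * n⁻¹ := by group
        _ = x := h
    exact mul_inv_eq_iff_eq_mul.1 h1
  have hfix : ∀ {x : G}, Commute n x → n * x * n⁻¹ = x := by
    intro x h
    rw [h.eq]; group
  have hA : n * a * n⁻¹ = a ∨ n * a * n⁻¹ = a * b := by
    rcases hna with h | h | h | h
    · exact absurd h (hne1 ha1)
    · exact Or.inl h
    · exact absurd h hna'
    · exact Or.inr h
  have hB : n * b * n⁻¹ = b ∨ n * b * n⁻¹ = a * b := by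
    rcases hnb with h | h | h | h
    · exact absurd h (hne1 hb1)
    · exact absurd h hnb'
    · exact Or.inl h
    · exact Or.inr h
  rcases hA with h1 | h1 <;> rcases hB with h2 | h2
  · exact ⟨h1, h2⟩
  · exfalso
    have h3 : n * (n * b * n⁻¹) * n⁻¹ = b := by
      rw [h2, hnab, h1, h2, ← mul_assoc, haa, one_mul]
    have h4 := hfix (hsqcomm h3)
    rw [h4] at h2
    apply ha1
    have : a * b * b⁻¹ = b * b⁻¹ := by rw [← h2]
    simpa using this
  · exfalso
    have h3 : n * (n * a * n⁻¹) * n⁻¹ = a := by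
      rw [h1, hnab, h1, h2, mul_assoc, hbb, mul_one]
    have h4 := hfix (hsqcomm h3)
    rw [h4] at h1
    apply hb1
    have : a⁻¹ * a = a⁻¹ * (a * b) := by rw [← h1]
    simpa using this.symm
  · exfalso
    apply habne
    have h3 : n * a * n⁻¹ = n * b * n⁻¹ := by rw [h1, h2]
    exact mul_left_cancel (mul_right_cancel h3)

/-- Elements of odd order of the normalizer centralize `P`. -/
theorem odd_centralizes {P : Subgroup G} {m : ℕ} (hd : HomoData P m) {a b : G} (ha : a ∈ P) (hb : b ∈ P) (haa : a * a = 1) (hbb : b * b = 1)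
    (ha1 : a ≠ 1) (hb1 : b ≠ 1) (hab : ¬ IsConj a b) {n : G} (hn : n ∈ Subgroup.normalizer (P : Set G)) (ho : Odd (orderOf n)) {x : G} (hx : x ∈ P) :
    n * x * n⁻¹ = x := by
  obtain ⟨hfa, hfb⟩ := odd_fixes_involutions hd ha hb haa hbb ha1 hb1 hab hn ho
  have habne : a ≠ b := fun h => hab (h ▸ IsConj.refl a)
  have hinv : ∀ c ∈ P, c * c = 1 → n * c * n⁻¹ = c := by
    intro c hc hcc
    rcases hd.four a ha b hb c hc haa hbb hcc ha1 hb1 habne with rfl | rfl | rfl | rfl
    · group
    · exact hfa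
    · exact hfb
    · calc n * (a * b) * n⁻¹ = (n * a * n⁻¹) * (n * b * n⁻¹) := by group
        _ = a * b := by rw [hfa, hfb]
  have hmem : ∀ {x : G}, x ∈ P → n * x * n⁻¹ ∈ P := fun {x} hx => (Subgroup.mem_normalizer_iff.1 hn x).1 hx
  have key : ∀ (k : ℕ) (x : G), x ∈ P → x ^ 2 ^ k = 1 → n * x * n⁻¹ = x := by
    intro k
    induction k with
    | zero =>
      intro x _ hx1
      have : x = 1 := by simpa using hx1
      rw [this]; group
    | succ k ih =>
      intro x hx hx1
      have hy : (x * x) ^ 2 ^ k = 1 := by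
        rw [← pow_two, ← pow_mul, ← pow_succ']
        exact hx1
      have hny := ih (x * x) (P.mul_mem hx hx) hy
      have hxm := hmem hx
      set x' := n * x * n⁻¹ with hx'
      set t := x' * x⁻¹ with ht
      have htP : t ∈ P := P.mul_mem hxm (P.inv_mem hx)
      have hc : x' * x⁻¹ = x⁻¹ * x' := hd.comm _ hxm _ (P.inv_mem hx)
      have htt : t * t = 1 := by
        have h1 : x' * x' = x * x := by
          rw [← hny, hx']; group
        calc t * t = x' * (x⁻¹ * x') * x⁻¹ := by rw [ht]; group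
          _ = x' * (x' * x⁻¹) * x⁻¹ := by rw [hc]
          _ = (x' * x') * (x⁻¹ * x⁻¹) := by group
          _ = 1 := by rw [h1]; group
      have hnt : n * t * n⁻¹ = t := hinv t htP htt
      have hj : ∀ j : ℕ, n ^ j * x * (n ^ j)⁻¹ = t ^ j * x := by
        intro j
        induction j with
        | zero => simp
        | succ j ihj =>
          have h1 : n ^ (j + 1) * x * (n ^ (j + 1))⁻¹ = n * (n ^ j * x * (n ^ j)⁻¹) * n⁻¹ := by
            rw [pow_succ']; group
          rw [h1, ihj]
          have h2 : n * (t ^ j * x) * n⁻¹ = (n * t ^ j * n⁻¹) * x' := by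
            rw [hx']; group
          have h3 : n * t ^ j * n⁻¹ = t ^ j := by
            have := conj_pow (a := n) (b := t) (i := j)
            rw [hnt] at this
            exact this.symm
          rw [h2, h3, pow_succ]
          rw [mul_assoc, ht, inv_mul_cancel_right]
      have h1 := hj (orderOf n)
      rw [pow_orderOf_eq_one] at h1
      simp only [one_mul, inv_one, mul_one] at h1
      have h2 : t ^ orderOf n = 1 := by
        have : t ^ orderOf n * x = 1 * x := by rw [← h1, one_mul]
        exact mul_right_cancel this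
      obtain ⟨r, hr⟩ := ho
      rw [hr, pow_succ, pow_mul, pow_two, htt, one_pow, one_mul] at h2
      rw [ht] at h2
      exact mul_inv_eq_one.1 h2
  exact key m x hx (hd.exp x hx)

/-- The normalizer of `P` centralizes `P` when two involutions of `P` are not conjugate. -/
theorem normalizer_le_centralizer_of_not_conj (P : Sylow 2 G) {m : ℕ} (hd : HomoData (P : Subgroup G) m) {a b : G} (ha : a ∈ (P : Subgroup G)) (hb : b ∈ (P : Subgroup G))
    (haa : a * a = 1) (hbb : b * b = 1) (ha1 : a ≠ 1) (hb1 : b ≠ 1) (hab : ¬ IsConj a b) :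
    Subgroup.normalizer ((P : Subgroup G) : Set G) ≤ Subgroup.centralizer ((P : Subgroup G) : Set G) := by
  intro n hn
  rw [Subgroup.mem_centralizer_iff]
  intro x hx
  obtain ⟨e, c, hc, hoe⟩ := Nat.exists_eq_two_pow_mul_odd (orderOf_pos n).ne'
  have huP : n ^ c ∈ (P : Subgroup G) := by
    refine mem_of_normalizes P (pow_mem hn _) (e := e) ?_
    rw [← pow_mul, mul_comm, ← hoe, pow_orderOf_eq_one]
  have hu : Commute (n ^ c) x := hd.comm _ huP x hx
  have hvo : Odd (orderOf (n ^ 2 ^ e)) := by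
    refine Odd.of_dvd_nat hc (orderOf_dvd_of_pow_eq_one ?_)
    rw [← pow_mul, ← hoe, pow_orderOf_eq_one]
  have hv : Commute (n ^ 2 ^ e) x := by
    have h1 := odd_centralizes hd ha hb haa hbb ha1 hb1 hab (pow_mem hn _) hvo hx
    exact mul_inv_eq_iff_eq_mul.1 h1
  have hcop : IsCoprime ((2 ^ e : ℕ) : ℤ) (c : ℤ) := by
    rw [Nat.isCoprime_iff_coprime]
    exact Nat.Coprime.pow_left _ (Nat.coprime_two_left.2 hc)
  obtain ⟨s, t, hst⟩ := hcop
  have hn' : n = (n ^ 2 ^ e) ^ s * (n ^ c) ^ t := by
    have h1 : n ^ (s * ((2 ^ e : ℕ) : ℤ) + t * (c : ℤ)) = n := by rw [hst, zpow_one]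
    rw [zpow_add, mul_comm s, mul_comm t, zpow_mul, zpow_mul, zpow_natCast, zpow_natCast] at h1
    exact h1.symm
  have hfinal : Commute n x := by
    rw [hn']
    exact (hv.zpow_left s).mul_left (hu.zpow_left t)
  exact hfinal.eq.symm

/-- **Burnside's argument**: a homocyclic Sylow `2`-subgroup of rank two either has a normal complement
or all involutions are conjugate. -/
theorem complement_or_conj (P : Sylow 2 G) (m : ℕ) (hm : 1 ≤ m) (e : (P : Subgroup G) ≃* Multiplicative (ZMod (2 ^ m) × ZMod (2 ^ m))) :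
    (∃ N : Subgroup G, N.Normal ∧ Subgroup.IsComplement' N (P : Subgroup G)) ∨ ∀ s t : G, orderOf s = 2 → orderOf t = 2 → IsConj s t := by
  classical
  haveI : Fact (Nat.Prime 2) := ⟨Nat.prime_two⟩
  by_cases hall : ∀ s t : G, orderOf s = 2 → orderOf t = 2 → IsConj s t
  · exact Or.inr hall
  · left
    push Not at hall
    obtain ⟨s, t, hs, ht, hst⟩ := hall
    have hconj : ∀ {r : G}, orderOf r = 2 → ∃ g : G, g * r * g⁻¹ ∈ (P : Subgroup G) := by
      intro r hr
      obtain ⟨Q, hQ, -⟩ := Cfsg.Agent.Lib.InvPair.exists_sylow_of_commute hr hr (Commute.refl r)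
      obtain ⟨h, rfl⟩ := MulAction.exists_smul_eq G P Q
      refine ⟨h⁻¹, ?_⟩
      have := (Cfsg.Agent.Lib.SylowCount.mem_smul_sylow h r P).1 hQ
      simpa using this
    obtain ⟨g₁, hg₁⟩ := hconj hs
    obtain ⟨g₂, hg₂⟩ := hconj ht
    have hinv : ∀ {r : G}, orderOf r = 2 → ∀ g : G, (g * r * g⁻¹) * (g * r * g⁻¹) = 1 ∧ g * r * g⁻¹ ≠ 1 := by
      intro r hr g
      have hrr : r * r = 1 := by rw [← pow_two, ← hr]; exact pow_orderOf_eq_one r
      constructor
      · calc (g * r * g⁻¹) * (g * r * g⁻¹) = g * (r * r) * g⁻¹ := by group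
          _ = 1 := by rw [hrr]; group
      · intro h
        have h1 : r = g⁻¹ * (g * r * g⁻¹) * g := by group
        rw [h, mul_one, inv_mul_cancel] at h1
        rw [h1, orderOf_one] at hr
        omega
    have hnc : ¬ IsConj (g₁ * s * g₁⁻¹) (g₂ * t * g₂⁻¹) := by
      intro h
      apply hst
      have h1 : IsConj s (g₁ * s * g₁⁻¹) := isConj_iff.2 ⟨g₁, rfl⟩
      have h2 : IsConj t (g₂ * t * g₂⁻¹) := isConj_iff.2 ⟨g₂, rfl⟩
      exact h1.trans (h.trans h2.symm)
    have hd := homoData_of_equiv hm e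
    have hN := normalizer_le_centralizer_of_not_conj P hd hg₁ hg₂ (hinv hs g₁).1 (hinv ht g₂).1 (hinv hs g₁).2 (hinv ht g₂).2 hnc
    exact ⟨_, inferInstance, MonoidHom.ker_transferSylow_isComplement' P hN⟩

end Cfsg.Agent.Lib.HomoSylow
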