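import Mathlib
import Cfsg.Prelude.Def_KGroupFacts
import Cfsg.Agent.Lib.H6Schur2

/-!
Hopf's description of the Schur multiplier: `F` free, `π : F → Q` onto with kernel `R`,
`U = F / [F, R]`, `T = R / [F, R]` central, and `M = T ⊓ U'` is the multiplier.
-/

set_option autoImplicit false
set_option linter.all false

namespace Cfsg.Agent.Lib.Hopf

open Cfsg
open scoped commutatorElement

universe u v w

/-- Subgroups of free abelian groups of finite rank are free, so a homomorphism to such a group splits. -/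
theorem exists_complement_comm {A : Type*} [CommGroup A] {α : Type*} [Finite α]
    (f : A →* Abelianization (FreeGroup α)) :
    ∃ T₀ : Subgroup A, T₀ ⊓ f.ker = ⊥ ∧ ∀ a : A, ∃ t ∈ T₀, ∃ k ∈ f.ker, a = t * k := by
  classical
  let f₀ : Additive A →+ FreeAbelianGroup α := MonoidHom.toAdditive f
  let f' : Additive A →ₗ[ℤ] FreeAbelianGroup α := f₀.toIntLinearMap
  let b : Module.Basis α ℤ (FreeAbelianGroup α) :=
    ⟨(FreeAbelianGroup.equivFinsupp α).toIntLinearEquiv⟩
  obtain ⟨n, ⟨bB⟩⟩ := Submodule.nonempty_basis_of_pid b (LinearMap.range f')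
  haveI : Module.Free ℤ (LinearMap.range f') := Module.Free.of_basis bB
  obtain ⟨s, hs⟩ := Module.projective_lifting_property f'.rangeRestrict LinearMap.id
    f'.surjective_rangeRestrict
  have hs' : ∀ y : LinearMap.range f', f' (s y) = y := by
    intro y
    have := LinearMap.congr_fun hs y
    exact congrArg Subtype.val this
  let T₀ : Subgroup A :=
    { carrier := {a | Additive.ofMul a ∈ LinearMap.range s}
      mul_mem' := fun {a b} ha hb => by
        show Additive.ofMul a + Additive.ofMul b ∈ LinearMap.range s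
        exact add_mem ha hb
      one_mem' := by
        show (0 : Additive A) ∈ LinearMap.range s
        exact zero_mem _
      inv_mem' := fun {a} ha => by
        show - Additive.ofMul a ∈ LinearMap.range s
        exact neg_mem ha }
  refine ⟨T₀, ?_, ?_⟩
  · rw [eq_bot_iff]
    rintro a ⟨⟨y, hy⟩, hk⟩
    have h1 : f' (s y) = 0 := by
      rw [hy]
      exact congrArg (fun z : Abelianization (FreeGroup α) => (Additive.ofMul z : FreeAbelianGroup α)) (MonoidHom.mem_ker.mp hk)
    rw [hs'] at h1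
    have h1' : y = 0 := Subtype.ext h1
    rw [h1', map_zero] at hy
    rw [Subgroup.mem_bot]
    exact (Additive.ofMul.injective hy).symm
  · intro a
    let y : LinearMap.range f' := ⟨f' (Additive.ofMul a), ⟨_, rfl⟩⟩
    let t : A := Additive.toMul (s y)
    have ht : t ∈ T₀ := ⟨y, rfl⟩
    have hft : f t = f a := by
      have := hs' y
      exact this
    refine ⟨t, ht, t⁻¹ * a, ?_, ?_⟩
    · rw [MonoidHom.mem_ker, map_mul, map_inv, hft]; group
    · group

section Core

variable {F : Type*} [Group F] {Q : Type*} [Group Q] (π : F →* Q)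

/-- The commutator of the free group and the kernel. -/
def N : Subgroup (F) := ⁅(⊤ : Subgroup (F)), π.ker⁆

instance normalN : (N π).Normal := Subgroup.commutator_normal _ _

/-- The universal central extension. -/
abbrev U : Type _ := F ⧸ N π

theorem N_le_ker : N π ≤ π.ker := by
  refine Subgroup.commutator_le.mpr ?_
  intro x _ r hr
  rw [MonoidHom.mem_ker, map_commutatorElement, MonoidHom.mem_ker.mp hr, commutatorElement_one_right]

theorem N_le_comm : N π ≤ commutator (F) := by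
  rw [_root_.commutator_def]
  exact Subgroup.commutator_mono le_rfl le_top

/-- The projection to `Q`. -/
def proj : U π →* Q := QuotientGroup.lift (N π) π (fun x hx => N_le_ker π hx)

@[simp] theorem proj_mk (x : F) : proj π (x : U π) = π x := rfl

theorem proj_surjective (hs : Function.Surjective π) : Function.Surjective (proj π) := by
  intro q
  obtain ⟨x, hx⟩ := hs q
  exact ⟨(x : U π), hx⟩

/-- The map to the abelianization of the free group. -/
def ab : U π →* Abelianization (F) :=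
  QuotientGroup.lift (N π) Abelianization.of (fun x hx => by
    have h := N_le_comm π hx
    rw [← Abelianization.ker_of] at h
    exact h)

theorem mk_comm (x y : F) : ((⁅x, y⁆ : F) : U π) = ⁅(x : U π), (y : U π)⁆ := rfl

theorem ker_ab : (ab π).ker = commutator (U π) := by
  apply le_antisymm
  · intro u hu
    obtain ⟨x, rfl⟩ := QuotientGroup.mk_surjective u
    have h1 : (Abelianization.of x : Abelianization (F)) = 1 := hu
    have h2 : x ∈ (Abelianization.of : F →* _).ker := h1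
    rw [Abelianization.ker_of, _root_.commutator_def] at h2
    have h3 : (x : U π) ∈ (⁅(⊤ : Subgroup (F)), (⊤ : Subgroup (F))⁆).map (QuotientGroup.mk' (N π)) :=
      ⟨x, h2, rfl⟩
    rw [Subgroup.map_commutator] at h3
    refine (Subgroup.commutator_mono le_top le_top) h3
  · rw [_root_.commutator_def]
    refine Subgroup.commutator_le.mpr ?_
    intro a _ b _
    rw [MonoidHom.mem_ker, map_commutatorElement, commutatorElement_def, mul_comm (ab π a), mul_inv_cancel_right, mul_inv_cancel]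

/-- The central kernel. -/
def T : Subgroup (U π) := (proj π).ker

instance normalT : (T π).Normal := MonoidHom.normal_ker _

theorem mem_T {u : U π} : u ∈ T π ↔ proj π u = 1 := Iff.rfl

theorem T_central : T π ≤ Subgroup.center (U π) := by
  intro u hu
  rw [Subgroup.mem_center_iff]
  intro v
  obtain ⟨x, rfl⟩ := QuotientGroup.mk_surjective u
  obtain ⟨y, rfl⟩ := QuotientGroup.mk_surjective v
  have h1 : π x = 1 := hu
  have h2 : ⁅y, x⁆ ∈ N π := Subgroup.commutator_mem_commutator (Subgroup.mem_top y) h1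
  have h3 : ((⁅y, x⁆ : F) : U π) = 1 := (QuotientGroup.eq_one_iff _).mpr h2
  rw [mk_comm, commutatorElement_eq_one_iff_commute] at h3
  exact h3.eq

/-- The Hopf multiplier. -/
def M : Subgroup (U π) := T π ⊓ commutator (U π)

theorem M_le_T : M π ≤ T π := inf_le_left
theorem M_le_comm : M π ≤ commutator (U π) := inf_le_right

noncomputable instance commGroupM : CommGroup (M π) :=
  { (inferInstance : Group (M π)) with
    mul_comm := fun a b => by
      apply Subtype.ext
      exact ((Subgroup.mem_center_iff.mp (T_central π (M_le_T π a.2))) b.1).symm }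

theorem finite_comm [Finite Q] : Finite (commutator (U π)) :=
  H6Schur2.finite_commutator (proj π) (T_central π)

theorem finite_M [Finite Q] : Finite (M π) := by
  haveI := finite_comm π
  exact Finite.of_injective (Subgroup.inclusion (M_le_comm π)) (Subgroup.inclusion_injective _)

/-- Any central subgroup has a complement over its intersection with `U'`. -/
theorem exists_complement {β : Type*} [Finite β] (b : FreeGroupBasis β F) (T₁ : Subgroup (U π)) (hT₁ : T₁ ≤ T π) :
    ∃ T₀ ≤ T₁, T₀ ⊓ commutator (U π) = ⊥ ∧ ∀ t ∈ T₁, ∃ t₀ ∈ T₀, ∃ m ∈ T₁ ⊓ commutator (U π), t = t₀ * m := by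
  letI : CommGroup T₁ :=
    { (inferInstance : Group T₁) with
      mul_comm := fun a b => by
        apply Subtype.ext
        exact ((Subgroup.mem_center_iff.mp (T_central π (hT₁ a.2))) b.1).symm }
  obtain ⟨S, hS1, hS2⟩ := exists_complement_comm
    ((b.repr.abelianizationCongr.toMonoidHom).comp ((ab π).comp T₁.subtype))
  have hker : ∀ x : T₁, x ∈ ((b.repr.abelianizationCongr.toMonoidHom).comp ((ab π).comp T₁.subtype)).ker ↔
      x.1 ∈ (ab π).ker := by
    intro x
    show b.repr.abelianizationCongr ((ab π) x.1) = 1 ↔ (ab π) x.1 = 1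
    exact map_eq_one_iff _ (MulEquiv.injective _)
  refine ⟨S.map T₁.subtype, ?_, ?_, ?_⟩
  · rintro _ ⟨x, _, rfl⟩
    exact x.2
  · rw [eq_bot_iff]
    rintro _ ⟨⟨x, hx, rfl⟩, hc⟩
    have hc' : (T₁.subtype x) ∈ (ab π).ker := by
      rw [ker_ab]; exact hc
    have hx2 := (hker x).mpr hc'
    have : x ∈ S ⊓ ((b.repr.abelianizationCongr.toMonoidHom).comp ((ab π).comp T₁.subtype)).ker := ⟨hx, hx2⟩
    rw [hS1, Subgroup.mem_bot] at this
    rw [this, map_one, Subgroup.mem_bot]
  · intro t ht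
    obtain ⟨t₀, ht₀, k, hk, he⟩ := hS2 ⟨t, ht⟩
    refine ⟨t₀.1, ⟨t₀, ht₀, rfl⟩, k.1, ⟨k.2, ?_⟩, ?_⟩
    · have : k.1 ∈ (ab π).ker := (hker k).mp hk
      rwa [ker_ab] at this
    · exact congrArg Subtype.val he

variable {E : Type*} [Group E]

/-- Universal property of `U`. -/
theorem exists_lift {β : Type*} (b : FreeGroupBasis β F) (τ : E →* Q) (hτ : Function.Surjective τ) (hc : τ.ker ≤ Subgroup.center E) :
    ∃ ℓ : U π →* E, τ.comp ℓ = proj π := by
  classical
  let g : F →* E := b.lift (fun a => Function.surjInv hτ (π (b a)))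
  have hg : τ.comp g = π := by
    apply b.ext_hom
    intro a
    have h1 : g (b a) = Function.surjInv hτ (π (b a)) := by
      show (FreeGroup.lift _) (b.repr (b a)) = _
      rw [b.repr_apply_coe, FreeGroup.lift_apply_of]
    show τ (g (b a)) = _
    rw [h1, Function.surjInv_eq hτ]
  have hN : ∀ x ∈ N π, g x = 1 := by
    have : N π ≤ g.ker := by
      refine Subgroup.commutator_le.mpr ?_
      intro x _ r hr
      have h1 : τ (g r) = 1 := by
        have := congrArg (fun φ : F →* Q => φ r) hg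
        simp only [MonoidHom.comp_apply] at this
        rw [this]; exact hr
      have h2 : g r ∈ Subgroup.center E := hc h1
      rw [MonoidHom.mem_ker, map_commutatorElement, commutatorElement_eq_one_iff_commute]
      exact (Subgroup.mem_center_iff.mp h2) (g x)
    exact this
  refine ⟨QuotientGroup.lift (N π) g hN, ?_⟩
  apply MonoidHom.ext
  intro u
  obtain ⟨x, rfl⟩ := QuotientGroup.mk_surjective u
  show τ (g x) = π x
  have := congrArg (fun φ : F →* Q => φ x) hg
  simpa using this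

/-- The commutator subgroup of a central extension is the image of that of `U`. -/
theorem map_comm (hs : Function.Surjective π) (τ : E →* Q) (hc : τ.ker ≤ Subgroup.center E)
    (ℓ : U π →* E) (hℓ : τ.comp ℓ = proj π) : (commutator (U π)).map ℓ = commutator E := by
  apply le_antisymm
  · rw [_root_.commutator_def, Subgroup.map_commutator]
    exact Subgroup.commutator_mono le_top le_top
  · rw [_root_.commutator_def]
    refine Subgroup.commutator_le.mpr ?_
    intro a _ b _
    have key : ∀ e : E, ∃ u : U π, ∃ z ∈ Subgroup.center E, e = ℓ u * z := by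
      intro e
      obtain ⟨u, hu⟩ := proj_surjective π hs (τ e)
      refine ⟨u, (ℓ u)⁻¹ * e, hc ?_, by group⟩
      rw [MonoidHom.mem_ker, map_mul, map_inv]
      have : τ (ℓ u) = proj π u := by rw [← hℓ]; rfl
      rw [this, hu]; group
    obtain ⟨x, z, hz, rfl⟩ := key a
    obtain ⟨y, w, hw, rfl⟩ := key b
    rw [H6Schur2.comm_mul_central _ _ _ _ hz hw, ← map_commutatorElement, _root_.commutator_def]
    refine ⟨⁅x, y⁆, ?_, rfl⟩
    exact Subgroup.commutator_mem_commutator (Subgroup.mem_top x) (Subgroup.mem_top y)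

/-- The image of `M` in a central extension. -/
theorem map_M (hs : Function.Surjective π) (τ : E →* Q) (hc : τ.ker ≤ Subgroup.center E)
    (ℓ : U π →* E) (hℓ : τ.comp ℓ = proj π) : (M π).map ℓ = τ.ker ⊓ commutator E := by
  have hτℓ : ∀ u, τ (ℓ u) = proj π u := fun u => by rw [← hℓ]; rfl
  apply le_antisymm
  · rintro _ ⟨u, hu, rfl⟩
    refine ⟨?_, ?_⟩
    · show τ (ℓ u) = 1
      rw [hτℓ]; exact (M_le_T π hu)
    · rw [← map_comm π hs τ hc ℓ hℓ]
      exact ⟨u, M_le_comm π hu, rfl⟩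
  · rintro k ⟨hk1, hk2⟩
    rw [← map_comm π hs τ hc ℓ hℓ] at hk2
    obtain ⟨u, hu, rfl⟩ := hk2
    refine ⟨u, ⟨?_, hu⟩, rfl⟩
    show proj π u = 1
    rw [← hτℓ]
    exact hk1

section Cover

variable (T₀ : Subgroup (U π)) [T₀.Normal]

/-- The central extension attached to a subgroup of `T`. -/
def cov (h : T₀ ≤ T π) : U π ⧸ T₀ →* Q := QuotientGroup.lift T₀ (proj π) (fun x hx => h hx)

@[simp] theorem cov_mk (h : T₀ ≤ T π) (u : U π) : cov π T₀ h (u : U π ⧸ T₀) = proj π u := rfl

theorem cov_surjective (hs : Function.Surjective π) (h : T₀ ≤ T π) :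
    Function.Surjective (cov π T₀ h) := by
  intro q
  obtain ⟨u, hu⟩ := proj_surjective π hs q
  exact ⟨(u : U π ⧸ T₀), hu⟩

theorem cov_central (h : T₀ ≤ T π) : (cov π T₀ h).ker ≤ Subgroup.center (U π ⧸ T₀) := by
  intro x hx
  obtain ⟨u, rfl⟩ := QuotientGroup.mk_surjective x
  have hu : u ∈ T π := hx
  rw [Subgroup.mem_center_iff]
  intro y
  obtain ⟨v, rfl⟩ := QuotientGroup.mk_surjective y
  show ((v * u : U π) : U π ⧸ T₀) = ((u * v : U π) : U π ⧸ T₀)
  rw [(Subgroup.mem_center_iff.mp (T_central π hu)) v]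

/-- The kernel of the extension is `M` when `T₀` complements `M` in `T`. -/
noncomputable def covEquiv (h : T₀ ≤ T π) (hb : T₀ ⊓ commutator (U π) = ⊥)
    (hT : ∀ t ∈ T π, ∃ t₀ ∈ T₀, ∃ m ∈ M π, t = t₀ * m) : (cov π T₀ h).ker ≃* M π :=
  (MulEquiv.ofBijective
    (({ toFun := fun m => ⟨((m.1 : U π) : U π ⧸ T₀), M_le_T π m.2⟩
        map_one' := rfl
        map_mul' := fun _ _ => rfl } : M π →* (cov π T₀ h).ker))
    (by
      constructor
      · rw [injective_iff_map_eq_one]
        rintro ⟨m, hm⟩ h1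
        have h2 : ((m : U π) : U π ⧸ T₀) = 1 := congrArg Subtype.val h1
        have h3 : m ∈ T₀ := (QuotientGroup.eq_one_iff m).mp h2
        have h4 : m ∈ T₀ ⊓ commutator (U π) := ⟨h3, M_le_comm π hm⟩
        rw [hb, Subgroup.mem_bot] at h4
        exact Subtype.ext h4
      · rintro ⟨x, hx⟩
        obtain ⟨u, rfl⟩ := QuotientGroup.mk_surjective x
        obtain ⟨t₀, ht₀, m, hm, he⟩ := hT u hx
        refine ⟨⟨m, hm⟩, ?_⟩
        apply Subtype.ext
        show ((m : U π) : U π ⧸ T₀) = ((u : U π) : U π ⧸ T₀)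
        rw [he, QuotientGroup.eq]
        have : m⁻¹ * (t₀ * m) = t₀ := by
          have hcomm := (Subgroup.mem_center_iff.mp (T_central π (M_le_T π hm))) t₀
          rw [hcomm]; group
        rw [this]; exact ht₀)).symm

theorem cov_stem (hs : Function.Surjective π) (h : T₀ ≤ T π)
    (hT : ∀ t ∈ T π, ∃ t₀ ∈ T₀, ∃ m ∈ M π, t = t₀ * m) : IsStemExtension (cov π T₀ h) := by
  refine ⟨cov_surjective π T₀ hs h, cov_central π T₀ h, ?_⟩
  intro x hx
  obtain ⟨u, rfl⟩ := QuotientGroup.mk_surjective x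
  obtain ⟨t₀, ht₀, m, hm, he⟩ := hT u hx
  have h1 : ((u : U π) : U π ⧸ T₀) = ((m : U π) : U π ⧸ T₀) := by
    rw [he, QuotientGroup.eq]
    have hcomm := (Subgroup.mem_center_iff.mp (T_central π (M_le_T π hm))) t₀
    have : (t₀ * m)⁻¹ * m = t₀⁻¹ := by
      rw [hcomm]; group
    rw [this]; exact inv_mem ht₀
  rw [h1]
  have h2 : ((m : U π) : U π ⧸ T₀) ∈ (commutator (U π)).map (QuotientGroup.mk' T₀) :=
    ⟨m, M_le_comm π hm, rfl⟩
  rw [_root_.commutator_def, Subgroup.map_commutator] at h2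
  rw [_root_.commutator_def]
  exact Subgroup.commutator_mono le_top le_top h2

theorem finite_cov [Finite Q] (h : T₀ ≤ T π) (hb : T₀ ⊓ commutator (U π) = ⊥)
    (hs : Function.Surjective π)
    (hT : ∀ t ∈ T π, ∃ t₀ ∈ T₀, ∃ m ∈ M π, t = t₀ * m) : Finite (U π ⧸ T₀) := by
  haveI := finite_M π
  haveI : Finite (cov π T₀ h).ker := Finite.of_equiv _ (covEquiv π T₀ h hb hT).symm.toEquiv
  haveI : Finite ((U π ⧸ T₀) ⧸ (cov π T₀ h).ker) :=
    Finite.of_equiv _ (QuotientGroup.quotientKerEquivOfSurjective _ (cov_surjective π T₀ hs h)).symm.toEquiv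
  exact Finite.of_equiv _ (Subgroup.groupEquivQuotientProdSubgroup (s := (cov π T₀ h).ker)).symm

end Cover

theorem normal_of_le_T (T₀ : Subgroup (U π)) (h : T₀ ≤ T π) : T₀.Normal := by
  refine ⟨fun n hn g => ?_⟩
  have := (Subgroup.mem_center_iff.mp (T_central π (h hn))) g
  rw [this]
  simpa using hn

/-- The subgroup generated lifts to every central extension `τ`: the image of `M` consists exactly of the
commutators in the kernel. -/
theorem exists_surj_M (hs : Function.Surjective π) {β : Type*} (b : FreeGroupBasis β F)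
    (τ : E →* Q) (hτ : IsStemExtension τ) : ∃ g : M π →* τ.ker, Function.Surjective g := by
  obtain ⟨ℓ, hℓ⟩ := exists_lift π b τ hτ.1 hτ.2.1
  have hm := map_M π hs τ hτ.2.1 ℓ hℓ
  have hτℓ : ∀ u, τ (ℓ u) = proj π u := fun u => by rw [← hℓ]; rfl
  refine ⟨MonoidHom.mk' (fun m => ⟨ℓ m.1, ?_⟩) ?_, ?_⟩
  · show τ (ℓ m.1) = 1
    rw [hτℓ]; exact M_le_T π m.2
  · intro x y
    apply Subtype.ext
    exact map_mul ℓ x.1 y.1
  · rintro ⟨k, hk⟩
    have h1 : k ∈ (M π).map ℓ := by
      rw [hm]; exact ⟨hk, hτ.2.2 hk⟩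
    obtain ⟨u, hu, rfl⟩ := h1
    exact ⟨⟨u, hu⟩, rfl⟩

end Core

section Main

theorem hopf {F Q : Type u} [Group F] [Group Q] [Finite Q] (π : F →* Q) (hs : Function.Surjective π)
    {β : Type*} [Finite β] (b : FreeGroupBasis β F) : HasSchurMultiplier Q (M π) := by
  obtain ⟨T₀, hT₀, hb, hT⟩ := exists_complement π b (T π) le_rfl
  haveI := normal_of_le_T π T₀ hT₀
  refine ⟨⟨U π ⧸ T₀, inferInstance, finite_cov π T₀ hT₀ hb hs hT, cov π T₀ hT₀,
    cov_stem π T₀ hs hT₀ hT, ⟨covEquiv π T₀ hT₀ hb hT⟩⟩, ?_⟩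
  intro Γ _ _ σ hσ
  exact exists_surj_M π hs b σ hσ

/-- A Schur multiplier is finite and isomorphic to the Hopf group. -/
theorem equiv_M {F Q : Type u} [Group F] [Group Q] [Finite Q] (π : F →* Q) (hs : Function.Surjective π)
    {β : Type*} [Finite β] (b : FreeGroupBasis β F) {A : Type*} [CommGroup A]
    (hA : HasSchurMultiplier Q A) : Nonempty (A ≃* M π) := by
  haveI := finite_M π
  obtain ⟨⟨Γ, _, _, σ, hσ, ⟨e⟩⟩, hA2⟩ := hA
  obtain ⟨g, hg⟩ := exists_surj_M π hs b σ hσ
  obtain ⟨-, h2⟩ := hopf π hs b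
  obtain ⟨⟨Γ', _, _, σ', hσ', ⟨e'⟩⟩, -⟩ := hopf π hs b
  obtain ⟨π', hπ'⟩ := hA2 Γ' σ' hσ'
  have hA1 : Finite A := Finite.of_surjective (e.toMonoidHom.comp g) (e.surjective.comp hg)
  let p1 : M π →* A := e.toMonoidHom.comp g
  have hp1 : Function.Surjective p1 := e.surjective.comp hg
  let p2 : A →* M π := e'.toMonoidHom.comp π'
  have hp2 : Function.Surjective p2 := e'.surjective.comp hπ'
  have hc : Nat.card (M π) = Nat.card A :=
    le_antisymm (Nat.card_le_card_of_surjective _ hp2) (Nat.card_le_card_of_surjective _ hp1)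
  exact ⟨MulEquiv.ofBijective p2 ((Nat.bijective_iff_surjective_and_card p2).mpr ⟨hp2, hc.symm⟩)⟩

/-- The standard free presentation. -/
noncomputable def stdπ (Q : Type u) [Group Q] : FreeGroup Q →* Q := FreeGroup.lift id

theorem stdπ_surjective (Q : Type u) [Group Q] : Function.Surjective (stdπ Q) := by
  intro q
  exact ⟨FreeGroup.of q, by simp [stdπ]⟩

theorem finite_of_hasSchur {Q : Type u} [Group Q] [Finite Q] {A : Type*} [CommGroup A]
    (hA : HasSchurMultiplier Q A) : Finite A := by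
  obtain ⟨e⟩ := equiv_M (stdπ Q) (stdπ_surjective Q) (FreeGroupBasis.ofFreeGroup Q) hA
  haveI := finite_M (stdπ Q)
  exact Finite.of_equiv _ e.symm.toEquiv

/-- **Key property**: the multiplier maps onto `ker τ ⊓ E'` for every central extension `τ`. -/
theorem image_of_central {Q : Type u} [Group Q] [Finite Q] {A : Type*} [CommGroup A]
    (hA : HasSchurMultiplier Q A) {E : Type*} [Group E] (τ : E →* Q) (hs : Function.Surjective τ)
    (hc : τ.ker ≤ Subgroup.center E) : ∃ g : A →* E, g.range = τ.ker ⊓ commutator E := by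
  obtain ⟨e⟩ := equiv_M (stdπ Q) (stdπ_surjective Q) (FreeGroupBasis.ofFreeGroup Q) hA
  obtain ⟨ℓ, hℓ⟩ := exists_lift (stdπ Q) (FreeGroupBasis.ofFreeGroup Q) τ hs hc
  have hm := map_M (stdπ Q) (stdπ_surjective Q) τ hc ℓ hℓ
  refine ⟨ℓ.comp ((M (stdπ Q)).subtype.comp e.toMonoidHom), ?_⟩
  rw [← hm]
  ext x
  constructor
  · rintro ⟨a, rfl⟩
    exact ⟨(e a).1, (e a).2, rfl⟩
  · rintro ⟨u, hu, rfl⟩
    exact ⟨e.symm ⟨u, hu⟩, by simp⟩

/-- For a stem extension with kernel isomorphic to `A`, the map of `image_of_central` shows the commutators of a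
central extension of `Q`. -/
theorem exists_cover_over {Q : Type u} [Group Q] [Finite Q] {A : Type*} [CommGroup A]
    (hA : HasSchurMultiplier Q A) {Δ : Type u} [Group Δ] [Finite Δ] (τ : Δ →* Q) (hτ : IsStemExtension τ) :
    ∃ (Γ : Type u) (_ : Group Γ) (_ : Finite Γ) (σ : Γ →* Q), IsStemExtension σ ∧ Nonempty (σ.ker ≃* A) ∧
      ∃ β : Γ →* Δ, Function.Surjective β ∧ τ.comp β = σ := by
  obtain ⟨e⟩ := equiv_M (stdπ Q) (stdπ_surjective Q) (FreeGroupBasis.ofFreeGroup Q) hA
  set π := stdπ Q with hπ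
  have hs : Function.Surjective π := stdπ_surjective Q
  obtain ⟨ℓ, hℓ⟩ := exists_lift π (FreeGroupBasis.ofFreeGroup Q) τ hτ.1 hτ.2.1
  have hm := map_M π hs τ hτ.2.1 ℓ hℓ
  have hτℓ : ∀ u, τ (ℓ u) = proj π u := fun u => by rw [← hℓ]; rfl
  obtain ⟨T₀, hT₀, hb, hT⟩ := exists_complement π (FreeGroupBasis.ofFreeGroup Q) (T π ⊓ ℓ.ker) inf_le_left
  have hT₀T : T₀ ≤ T π := hT₀.trans inf_le_left
  haveI := normal_of_le_T π T₀ hT₀T
  have hT' : ∀ t ∈ T π, ∃ t₀ ∈ T₀, ∃ m ∈ M π, t = t₀ * m := by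
    intro t ht
    have h1 : ℓ t ∈ τ.ker := by
      show τ (ℓ t) = 1
      rw [hτℓ]; exact ht
    have h2 : ℓ t ∈ (M π).map ℓ := by
      rw [hm]; exact ⟨h1, hτ.2.2 h1⟩
    obtain ⟨m, hm1, hm2⟩ := h2
    have h3 : t * m⁻¹ ∈ T π ⊓ ℓ.ker := by
      refine Subgroup.mem_inf.mpr ⟨(T π).mul_mem ht ((T π).inv_mem (M_le_T π hm1)), ?_⟩
      rw [MonoidHom.mem_ker, map_mul, map_inv, hm2]; group
    obtain ⟨t₀, ht₀, m₁, ⟨hm₁, hm₁'⟩, he⟩ := hT _ h3
    refine ⟨t₀, ht₀, m₁ * m, mul_mem ⟨hm₁.1, hm₁'⟩ hm1, ?_⟩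
    rw [← mul_assoc, ← he]; group
  let β : U π ⧸ T₀ →* Δ := QuotientGroup.lift T₀ ℓ (fun x hx => (hT₀ hx).2)
  refine ⟨U π ⧸ T₀, inferInstance, finite_cov π T₀ hT₀T hb hs hT', cov π T₀ hT₀T,
    cov_stem π T₀ hs hT₀T hT', ⟨(covEquiv π T₀ hT₀T hb hT').trans e.symm⟩, β, ?_, ?_⟩
  · intro d
    obtain ⟨u, hu⟩ := proj_surjective π hs (τ d)
    have h1 : d * (ℓ u)⁻¹ ∈ τ.ker := by
      rw [MonoidHom.mem_ker, map_mul, map_inv, hτℓ, hu]; group
    have h2 : d * (ℓ u)⁻¹ ∈ (M π).map ℓ := by
      rw [hm]; exact ⟨h1, hτ.2.2 h1⟩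
    obtain ⟨m, hm1, hm2⟩ := h2
    refine ⟨((m * u : U π) : U π ⧸ T₀), ?_⟩
    show ℓ (m * u) = d
    rw [map_mul, hm2]; group
  · apply MonoidHom.ext
    intro x
    obtain ⟨u, rfl⟩ := QuotientGroup.mk_surjective x
    exact hτℓ u

end Main

end Cfsg.Agent.Lib.Hopf
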