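import Mathlib
import Cfsg.Agent.Lib.Hopf

/-!
Uniqueness of Schur covering groups.
-/

set_option autoImplicit false
set_option linter.all false

namespace Cfsg.Agent.Lib.HopfCover

open Cfsg
open scoped commutatorElement
open Cfsg.Agent.Lib.Hopf

universe u v w

theorem inj_aux {A Γ : Type*} [Group A] [Finite A] [Group Γ] (h : A →* Γ) (C : Subgroup Γ) (e : C ≃* A)
    (hm : ∀ a, h a ∈ C) (hs : ∀ k ∈ C, ∃ a, h a = k) : ∀ a, h a = 1 → a = 1 := by
  let s : A → A := fun a => e ⟨h a, hm a⟩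
  have hsurj : Function.Surjective s := by
    intro b
    obtain ⟨a, ha⟩ := hs (e.symm b).1 (e.symm b).2
    refine ⟨a, ?_⟩
    have : (⟨h a, hm a⟩ : C) = e.symm b := Subtype.ext ha
    show e ⟨h a, hm a⟩ = b
    rw [this]; simp
  have hi : Function.Injective s := Finite.injective_iff_surjective.mpr hsurj
  intro a ha
  apply hi
  show e ⟨h a, hm a⟩ = e ⟨h 1, hm 1⟩
  congr 1
  apply Subtype.ext
  show h a = h 1
  rw [ha, map_one]

theorem bij_aux {E Γ Q A : Type*} [Group E] [Group Γ] [Group Q] [Group A] [Finite A] (κ : E →* Q) (σ : Γ →* Q)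
    (p : E →* Γ) (hp : ∀ x, σ (p x) = κ x) (hps : Function.Surjective p) (g : A →* E)
    (hg : g.range = κ.ker ⊓ commutator E) (e : σ.ker ≃* A) (hσd : σ.ker ≤ commutator Γ)
    (E₁ : Subgroup E) (hE₁ : commutator E ≤ E₁) (hdec : ∀ x, ∃ y ∈ E₁, ∃ z ∈ κ.ker, x = y * z)
    (hE₁Z : ∀ z ∈ E₁, z ∈ κ.ker → z ∈ commutator E) :
    Function.Bijective (p.comp E₁.subtype) := by
  have hmem : ∀ a, p (g a) ∈ σ.ker := by
    intro a
    have h1 : g a ∈ κ.ker ⊓ commutator E := by rw [← hg]; exact ⟨a, rfl⟩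
    show σ (p (g a)) = 1
    rw [hp]; exact h1.1
  have hcomm : (commutator E).map p = commutator Γ := by
    rw [_root_.commutator_def, Subgroup.map_commutator, Subgroup.map_top_of_surjective p hps,
      ← _root_.commutator_def]
  have hsurj : ∀ k ∈ σ.ker, ∃ a, p (g a) = k := by
    intro k hk
    have h1 : k ∈ (commutator E).map p := by
      rw [hcomm]; exact hσd hk
    obtain ⟨x, hx, rfl⟩ := h1
    have h2 : x ∈ g.range := by
      rw [hg]
      refine ⟨?_, hx⟩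
      show κ x = 1
      rw [← hp]; exact hk
    obtain ⟨a, rfl⟩ := h2
    exact ⟨a, rfl⟩
  have hinj := inj_aux (p.comp g) σ.ker e hmem hsurj
  constructor
  · rw [injective_iff_map_eq_one]
    rintro ⟨x, hx⟩ h1
    have h2 : p x = 1 := h1
    have h3 : x ∈ κ.ker := by
      show κ x = 1
      rw [← hp, h2, map_one]
    have h4 : x ∈ g.range := by
      rw [hg]; exact ⟨h3, hE₁Z x hx h3⟩
    obtain ⟨a, rfl⟩ := h4
    have h5 := hinj a h2
    apply Subtype.ext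
    show g a = 1
    rw [h5, map_one]
  · intro h
    obtain ⟨x, rfl⟩ := hps h
    obtain ⟨y, hy, z, hz, rfl⟩ := hdec x
    have h1 : p z ∈ σ.ker := by
      show σ (p z) = 1
      rw [hp]; exact hz
    obtain ⟨a, ha⟩ := hsurj _ h1
    have h2 : g a ∈ g.range := ⟨a, rfl⟩
    rw [hg] at h2
    refine ⟨⟨y * g a, mul_mem hy (hE₁ h2.2)⟩, ?_⟩
    show p (y * g a) = p (y * z)
    rw [map_mul, map_mul, ha]

/-- If the commutator quotient is coprime to the multiplier, then covers are isomorphic. -/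
theorem unique_of_coprime {Q : Type u} [Group Q] [Finite Q] {A : Type*} [CommGroup A]
    (hA : HasSchurMultiplier Q A)
    (hcop : Nat.Coprime (Nat.card (Abelianization Q)) (Nat.card A))
    {Γ₁ Γ₂ : Type*} [Group Γ₁] [Group Γ₂] [Finite Γ₁] [Finite Γ₂] (σ₁ : Γ₁ →* Q) (σ₂ : Γ₂ →* Q)
    (h₁ : IsStemExtension σ₁) (h₂ : IsStemExtension σ₂) (e₁ : σ₁.ker ≃* A) (e₂ : σ₂.ker ≃* A) :
    ∃ e : Γ₁ ≃* Γ₂, σ₂.comp e.toMonoidHom = σ₁ := by
  classical
  haveI : Finite A := finite_of_hasSchur hA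
  let E : Subgroup (Γ₁ × Γ₂) := (σ₁.comp (MonoidHom.fst Γ₁ Γ₂)).eqLocus (σ₂.comp (MonoidHom.snd Γ₁ Γ₂))
  have hE : ∀ x : Γ₁ × Γ₂, x ∈ E ↔ σ₁ x.1 = σ₂ x.2 := fun x => Iff.rfl
  let p₁ : E →* Γ₁ := (MonoidHom.fst Γ₁ Γ₂).comp E.subtype
  let p₂ : E →* Γ₂ := (MonoidHom.snd Γ₁ Γ₂).comp E.subtype
  let κ : E →* Q := σ₁.comp p₁
  have hκ1 : ∀ x, σ₁ (p₁ x) = κ x := fun x => rfl
  have hκ2 : ∀ x, σ₂ (p₂ x) = κ x := fun x => ((hE x.1).mp x.2).symm
  have hext : ∀ x y : E, p₁ x = p₁ y → p₂ x = p₂ y → x = y := fun x y h1 h2 =>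
    Subtype.ext (Prod.ext h1 h2)
  have hp₁ : Function.Surjective p₁ := by
    intro g
    obtain ⟨d, hd⟩ := h₂.1 (σ₁ g)
    exact ⟨⟨(g, d), (hE _).mpr hd.symm⟩, rfl⟩
  have hp₂ : Function.Surjective p₂ := by
    intro d
    obtain ⟨g, hg⟩ := h₁.1 (σ₂ d)
    exact ⟨⟨(g, d), (hE _).mpr hg⟩, rfl⟩
  have hκs : Function.Surjective κ := h₁.1.comp hp₁
  have hκc : κ.ker ≤ Subgroup.center E := by
    intro x hx
    rw [Subgroup.mem_center_iff]
    intro y
    have h1 : p₁ x ∈ σ₁.ker := hx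
    have h2 : p₂ x ∈ σ₂.ker := by
      show σ₂ (p₂ x) = 1
      rw [hκ2]; exact hx
    apply hext
    · rw [map_mul, map_mul]
      exact (Subgroup.mem_center_iff.mp (h₁.2.1 h1)) (p₁ y)
    · rw [map_mul, map_mul]
      exact (Subgroup.mem_center_iff.mp (h₂.2.1 h2)) (p₂ y)
  obtain ⟨g, hg⟩ := image_of_central hA κ hκs hκc
  set a := Nat.card A with ha
  set c := Nat.card (Abelianization Q) with hc
  have hZa : ∀ z ∈ κ.ker, z ^ a = 1 := by
    intro z hz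
    have h1 : p₁ z ∈ σ₁.ker := hz
    have h2 : p₂ z ∈ σ₂.ker := by
      show σ₂ (p₂ z) = 1
      rw [hκ2]; exact hz
    apply hext
    · rw [map_pow, map_one]
      have h3 : (e₁ ⟨p₁ z, h1⟩) ^ a = 1 := pow_card_eq_one'
      have h4 : e₁ (⟨p₁ z, h1⟩ ^ a) = 1 := by rw [map_pow]; exact h3
      have h5 := (map_eq_one_iff e₁ e₁.injective).mp h4
      exact congrArg Subtype.val h5
    · rw [map_pow, map_one]
      have h3 : (e₂ ⟨p₂ z, h2⟩) ^ a = 1 := pow_card_eq_one'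
      have h4 : e₂ (⟨p₂ z, h2⟩ ^ a) = 1 := by rw [map_pow]; exact h3
      have h5 := (map_eq_one_iff e₂ e₂.injective).mp h4
      exact congrArg Subtype.val h5
  have hcomm : (commutator E).map κ = commutator Q := by
    rw [_root_.commutator_def, Subgroup.map_commutator, Subgroup.map_top_of_surjective κ hκs,
      ← _root_.commutator_def]
  let E₁ : Subgroup E := ((powMonoidHom c : Abelianization E →* Abelianization E).comp Abelianization.of).ker
  have hE₁ : ∀ x, x ∈ E₁ ↔ x ^ c ∈ commutator E := by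
    intro x
    rw [← Abelianization.ker_of, MonoidHom.mem_ker, MonoidHom.mem_ker, map_pow]
    rfl
  have hE₁c : commutator E ≤ E₁ := by
    intro x hx
    rw [hE₁]
    exact pow_mem hx c
  have hbez : ((c : ℤ) * Nat.gcdA c a + a * Nat.gcdB c a) = 1 := by
    have := Nat.gcd_eq_gcd_ab c a
    rw [hcop] at this
    exact_mod_cast this.symm
  set u := Nat.gcdA c a with hu
  set v := Nat.gcdB c a with hv
  have hdec : ∀ x, ∃ y ∈ E₁, ∃ z ∈ κ.ker, x = y * z := by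
    intro x
    have h1 : (κ x) ^ c ∈ commutator Q := by
      rw [← Abelianization.ker_of, MonoidHom.mem_ker, map_pow]
      exact pow_card_eq_one'
    rw [← hcomm] at h1
    obtain ⟨d, hd, hd'⟩ := h1
    let z₀ := d⁻¹ * x ^ c
    have hz₀ : z₀ ∈ κ.ker := by
      rw [MonoidHom.mem_ker, map_mul, map_inv, hd', map_pow]; group
    have hx : x ^ c = d * z₀ := by simp [z₀]
    have hz₀c := (Subgroup.mem_center_iff.mp (hκc hz₀))
    have hcm : Commute d z₀ := (hz₀c d)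
    refine ⟨x ^ (v * (a : ℤ)) * d ^ u, ?_, z₀ ^ u, zpow_mem hz₀ u, ?_⟩
    · refine mul_mem ?_ (hE₁c (zpow_mem hd u))
      rw [hE₁]
      have h2 : (x ^ (v * (a : ℤ))) ^ c = (x ^ c) ^ (v * (a : ℤ)) := by
        rw [← zpow_natCast, ← zpow_natCast, ← zpow_mul, ← zpow_mul, mul_comm]
      have hz1 : z₀ ^ (v * (a : ℤ)) = 1 := by
        rw [mul_comm, zpow_mul, zpow_natCast, hZa z₀ hz₀, one_zpow]
      rw [h2, hx, hcm.mul_zpow, hz1, mul_one]
      exact zpow_mem hd _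
    · calc x = x ^ ((v * (a : ℤ)) + ((c : ℤ) * u)) := by
            rw [show (v * (a : ℤ)) + ((c : ℤ) * u) = 1 by linarith [hbez], zpow_one]
        _ = x ^ (v * (a : ℤ)) * x ^ ((c : ℤ) * u) := zpow_add _ _ _
        _ = x ^ (v * (a : ℤ)) * (x ^ c) ^ u := by
            congr 1
            rw [zpow_mul, zpow_natCast]
        _ = x ^ (v * (a : ℤ)) * (d * z₀) ^ u := by rw [hx]
        _ = x ^ (v * (a : ℤ)) * (d ^ u * z₀ ^ u) := by rw [hcm.mul_zpow]
        _ = _ := by rw [mul_assoc]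
  have hE₁Z : ∀ z ∈ E₁, z ∈ κ.ker → z ∈ commutator E := by
    intro z hz hz'
    have h1 := (hE₁ z).mp hz
    have h2 : z = (z ^ c) ^ u := by
      calc z = z ^ (((c : ℤ) * u) + ((a : ℤ) * v)) := by
            rw [hbez, zpow_one]
        _ = z ^ ((c : ℤ) * u) * z ^ ((a : ℤ) * v) := zpow_add _ _ _
        _ = (z ^ c) ^ u * (z ^ a) ^ v := by rw [zpow_mul, zpow_natCast, zpow_mul, zpow_natCast]
        _ = _ := by rw [hZa z hz', one_zpow, mul_one]
    rw [h2]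
    exact zpow_mem h1 u
  have hb₁ := bij_aux κ σ₁ p₁ hκ1 hp₁ g hg e₁ h₁.2.2 E₁ hE₁c hdec hE₁Z
  have hb₂ := bij_aux κ σ₂ p₂ hκ2 hp₂ g hg e₂ h₂.2.2 E₁ hE₁c hdec hE₁Z
  refine ⟨(MulEquiv.ofBijective _ hb₁).symm.trans (MulEquiv.ofBijective _ hb₂), ?_⟩
  apply MonoidHom.ext
  intro g'
  obtain ⟨y, rfl⟩ := hb₁.2 g'
  have h1 : (MulEquiv.ofBijective _ hb₁).symm ((p₁.comp E₁.subtype) y) = y :=
    (MulEquiv.ofBijective _ hb₁).symm_apply_apply y
  show σ₂ ((MulEquiv.ofBijective _ hb₂) ((MulEquiv.ofBijective _ hb₁).symm ((p₁.comp E₁.subtype) y))) = _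
  rw [h1]
  show σ₂ (p₂ y.1) = σ₁ (p₁ y.1)
  rw [hκ2, hκ1]

/-- The Baer twist of a cover along a cyclic quotient. -/
theorem exists_twist {Q : Type u} [Group Q] [Finite Q] {Γ : Type u} [Group Γ] [Finite Γ] (σ : Γ →* Q)
    (hσ : IsStemExtension σ) (m : ℕ) (hm : m ≠ 0) (χ : Q →* Multiplicative (ZMod m)) (x₀ : Q)
    (hχ : χ x₀ = Multiplicative.ofAdd 1) (hx₀ : x₀ ^ m ∈ commutator Q) (c₀ : Γ) (hc₀ : c₀ ∈ σ.ker) :
    ∃ (Γ₂ : Type u) (_ : Group Γ₂) (_ : Finite Γ₂) (σ₂ : Γ₂ →* Q), IsStemExtension σ₂ ∧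
      Nonempty (σ₂.ker ≃* σ.ker) ∧
      ∀ e : Γ ≃* Γ₂, σ₂.comp e.toMonoidHom = σ → ∃ z ∈ σ.ker, c₀ * z ^ m = 1 := by
  classical
  let cast : Multiplicative ℤ →* Multiplicative (ZMod m) :=
    AddMonoidHom.toMultiplicative (Int.castAddHom (ZMod m))
  have hcast : ∀ n : ℤ, cast (Multiplicative.ofAdd n) = Multiplicative.ofAdd (n : ZMod m) := fun _ => rfl
  let G : Subgroup (Γ × Multiplicative ℤ) :=
    ((χ.comp σ).comp (MonoidHom.fst _ _)).eqLocus (cast.comp (MonoidHom.snd _ _))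
  have hG : ∀ x, x ∈ G ↔ χ (σ x.1) = cast x.2 := fun _ => Iff.rfl
  let p₁ : G →* Γ := (MonoidHom.fst _ _).comp G.subtype
  let p₂ : G →* Multiplicative ℤ := (MonoidHom.snd _ _).comp G.subtype
  have hext : ∀ x y : G, p₁ x = p₁ y → p₂ x = p₂ y → x = y := fun x y h1 h2 =>
    Subtype.ext (Prod.ext h1 h2)
  have hp₁ : Function.Surjective p₁ := by
    intro g
    obtain ⟨n, hn⟩ := ZMod.intCast_surjective (Multiplicative.toAdd (χ (σ g)))
    refine ⟨⟨(g, Multiplicative.ofAdd n), (hG _).mpr ?_⟩, rfl⟩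
    show χ (σ g) = cast (Multiplicative.ofAdd n)
    rw [hcast, hn]
    rfl
  have hχc : ∀ w ∈ commutator Γ, χ (σ w) = 1 := by
    have : commutator Γ ≤ (χ.comp σ).ker := by
      rw [_root_.commutator_def]
      refine Subgroup.commutator_le.mpr ?_
      intro a _ b _
      rw [MonoidHom.mem_ker, map_commutatorElement, commutatorElement_def, mul_comm ((χ.comp σ) a),
        mul_inv_cancel_right, mul_inv_cancel]
    exact fun w hw => this hw
  have hmemw : ∀ w ∈ commutator Γ, (w, (1 : Multiplicative ℤ)) ∈ G := by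
    intro w hw
    refine (hG _).mpr ?_
    show χ (σ w) = cast 1
    rw [hχc w hw, map_one]
  have hp₂c : ∀ y ∈ commutator G, p₂ y = 1 := by
    have : commutator G ≤ p₂.ker := by
      rw [_root_.commutator_def]
      refine Subgroup.commutator_le.mpr ?_
      intro a _ b _
      rw [MonoidHom.mem_ker, map_commutatorElement, commutatorElement_def, mul_comm (p₂ a),
        mul_inv_cancel_right, mul_inv_cancel]
    exact fun y hy => this hy
  have hcommG : (commutator G).map p₁ = commutator Γ := by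
    rw [_root_.commutator_def, Subgroup.map_commutator, Subgroup.map_top_of_surjective p₁ hp₁,
      ← _root_.commutator_def]
  have hmemw2 : ∀ w (hw : w ∈ commutator Γ), (⟨(w, 1), hmemw w hw⟩ : G) ∈ commutator G := by
    intro w hw
    have h1 : w ∈ (commutator G).map p₁ := by rw [hcommG]; exact hw
    obtain ⟨y, hy, rfl⟩ := h1
    have : (⟨(p₁ y, 1), hmemw _ hw⟩ : G) = y := hext _ _ rfl (hp₂c y hy).symm
    rw [this]; exact hy
  have hc₀m : (c₀, Multiplicative.ofAdd (-(m : ℤ))) ∈ G := by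
    refine (hG _).mpr ?_
    show χ (σ c₀) = cast (Multiplicative.ofAdd (-(m : ℤ)))
    rw [MonoidHom.mem_ker.mp hc₀, map_one, hcast]
    have h1 : ((-(m : ℤ) : ℤ) : ZMod m) = 0 := by simp
    rw [h1]
    rfl
  let ℓ₀ : G := ⟨(c₀, Multiplicative.ofAdd (-(m : ℤ))), hc₀m⟩
  have hcen : ∀ x : G, p₁ x ∈ Subgroup.center Γ → x ∈ Subgroup.center G := by
    intro x hx
    rw [Subgroup.mem_center_iff]
    intro y
    apply hext
    · rw [map_mul, map_mul]
      exact (Subgroup.mem_center_iff.mp hx) (p₁ y)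
    · rw [map_mul, map_mul, mul_comm]
  have hℓ₀c : ℓ₀ ∈ Subgroup.center G := hcen ℓ₀ (hσ.2.1 hc₀)
  let L : Subgroup G := Subgroup.zpowers ℓ₀
  have hLc : L ≤ Subgroup.center G := (Subgroup.zpowers_le).mpr hℓ₀c
  haveI hLn : L.Normal := by
    refine ⟨fun n hn g => ?_⟩
    have := (Subgroup.mem_center_iff.mp (hLc hn)) g
    rw [this]
    simpa using hn
  have hLk : ∀ x ∈ L, σ (p₁ x) = 1 := by
    rintro _ ⟨k, rfl⟩
    show σ (p₁ (ℓ₀ ^ k)) = 1
    rw [map_zpow, map_zpow]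
    show (σ c₀) ^ k = 1
    rw [MonoidHom.mem_ker.mp hc₀, one_zpow]
  let σ₂ : G ⧸ L →* Q := QuotientGroup.lift L (σ.comp p₁) hLk
  have hσ₂ : ∀ x : G, σ₂ (x : G ⧸ L) = σ (p₁ x) := fun _ => rfl
  have hmemk : ∀ z ∈ σ.ker, (z, (1 : Multiplicative ℤ)) ∈ G := fun z hz => hmemw z (hσ.2.2 hz)
  let ι : σ.ker →* (G ⧸ L) := MonoidHom.mk' (fun z => ((⟨(z.1, 1), hmemk z.1 z.2⟩ : G) : G ⧸ L)) (by
    intro a b
    rw [← QuotientGroup.mk_mul]
    congr 1)
  have hι : ∀ z, σ₂ (ι z) = 1 := fun z => z.2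
  have hιinj : ∀ z, ι z = 1 → z = 1 := by
    intro z hz
    have h1 : (⟨(z.1, 1), hmemk z.1 z.2⟩ : G) ∈ L := (QuotientGroup.eq_one_iff _).mp hz
    obtain ⟨k, hk⟩ := h1
    have h2 : p₂ (ℓ₀ ^ k) = 1 := by
      have h3 : ℓ₀ ^ k = (⟨(z.1, 1), hmemk z.1 z.2⟩ : G) := hk
      rw [h3]; rfl
    rw [map_zpow] at h2
    have h3 : (Multiplicative.ofAdd (-(m : ℤ))) ^ k = 1 := h2
    rw [← ofAdd_zsmul] at h3
    have h4 : k • (-(m : ℤ)) = 0 := Multiplicative.ofAdd.injective h3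
    have hm' : (m : ℤ) ≠ 0 := by exact_mod_cast hm
    have h5 : k = 0 := by
      simp only [smul_eq_mul, mul_neg, neg_eq_zero, mul_eq_zero] at h4
      exact h4.resolve_right hm'
    apply Subtype.ext
    have h6 : p₁ (ℓ₀ ^ k) = z.1 := by
      have h3 : ℓ₀ ^ k = (⟨(z.1, 1), hmemk z.1 z.2⟩ : G) := hk
      rw [h3]; rfl
    rw [h5, zpow_zero, map_one] at h6
    exact h6.symm
  have hιsurj : ∀ x : G, σ (p₁ x) = 1 → ∃ z, ι z = (x : G ⧸ L) := by
    intro x hx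
    have h1 : cast (p₂ x) = 1 := by
      have : χ (σ (p₁ x)) = cast (p₂ x) := (hG x.1).mp x.2
      rw [← this, hx, map_one]
    have h2 : ((Multiplicative.toAdd (p₂ x) : ℤ) : ZMod m) = 0 := congrArg Multiplicative.toAdd h1
    rw [ZMod.intCast_zmod_eq_zero_iff_dvd] at h2
    obtain ⟨t, ht⟩ := h2
    have hz : p₁ x * c₀ ^ t ∈ σ.ker := by
      rw [MonoidHom.mem_ker, map_mul, hx, map_zpow, MonoidHom.mem_ker.mp hc₀, one_zpow, mul_one]
    refine ⟨⟨_, hz⟩, ?_⟩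
    have h3 : (⟨(p₁ x * c₀ ^ t, 1), hmemk _ hz⟩ : G) = x * ℓ₀ ^ t := by
      apply hext
      · rw [map_mul, map_zpow]; rfl
      · rw [map_mul, map_zpow]
        show (1 : Multiplicative ℤ) = p₂ x * (Multiplicative.ofAdd (-(m : ℤ))) ^ t
        apply Multiplicative.toAdd.injective
        rw [toAdd_mul, toAdd_zpow, ht]
        simp
        ring
    show ((⟨(p₁ x * c₀ ^ t, 1), hmemk _ hz⟩ : G) : G ⧸ L) = _
    rw [h3, QuotientGroup.mk_mul]
    have h4 : ((ℓ₀ ^ t : G) : G ⧸ L) = 1 := (QuotientGroup.eq_one_iff _).mpr ⟨t, rfl⟩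
    rw [h4, mul_one]
  have hσ₂c : σ₂.ker ≤ Subgroup.center (G ⧸ L) := by
    intro u hu
    obtain ⟨x, rfl⟩ := QuotientGroup.mk_surjective u
    have h1 : σ (p₁ x) = 1 := hu
    rw [Subgroup.mem_center_iff]
    intro w
    obtain ⟨y, rfl⟩ := QuotientGroup.mk_surjective w
    have h2 := (Subgroup.mem_center_iff.mp (hcen x (hσ.2.1 h1))) y
    rw [← QuotientGroup.mk_mul, ← QuotientGroup.mk_mul, h2]
  have hσ₂s : Function.Surjective σ₂ := by
    intro q
    obtain ⟨g, rfl⟩ := hσ.1 q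
    obtain ⟨x, rfl⟩ := hp₁ g
    exact ⟨(x : G ⧸ L), rfl⟩
  have hker_eq : Function.Bijective (ι.codRestrict σ₂.ker hι) := by
    constructor
    · rw [injective_iff_map_eq_one]
      intro z hz
      exact hιinj z (congrArg Subtype.val hz)
    · rintro ⟨u, hu⟩
      obtain ⟨x, rfl⟩ := QuotientGroup.mk_surjective u
      obtain ⟨z, hz⟩ := hιsurj x hu
      exact ⟨z, Subtype.ext hz⟩
  let eK : σ.ker ≃* σ₂.ker := MulEquiv.ofBijective _ hker_eq
  have hστ : ∀ z : σ.ker, ι z ∈ commutator (G ⧸ L) := by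
    intro z
    have h1 := hmemw2 z.1 (hσ.2.2 z.2)
    have h2 : (ι z) ∈ (commutator G).map (QuotientGroup.mk' L) := ⟨_, h1, rfl⟩
    rw [_root_.commutator_def, Subgroup.map_commutator] at h2
    rw [_root_.commutator_def]
    exact Subgroup.commutator_mono le_top le_top h2
  have hfin : Finite (G ⧸ L) := by
    haveI : Finite σ₂.ker := Finite.of_equiv _ eK.toEquiv
    haveI : Finite ((G ⧸ L) ⧸ σ₂.ker) :=
      Finite.of_equiv _ (QuotientGroup.quotientKerEquivOfSurjective _ hσ₂s).symm.toEquiv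
    exact Finite.of_equiv _ (Subgroup.groupEquivQuotientProdSubgroup (s := σ₂.ker)).symm
  refine ⟨G ⧸ L, inferInstance, hfin, σ₂, ⟨hσ₂s, hσ₂c, ?_⟩, ⟨eK.symm⟩, ?_⟩
  · rintro u hu
    obtain ⟨z, hz⟩ := hker_eq.2 ⟨u, hu⟩
    have : ι z = u := congrArg Subtype.val hz
    rw [← this]
    exact hστ z
  -- the comparison
  intro e he
  have heσ : ∀ g, σ₂ (e g) = σ g := fun g => congrArg (fun φ : Γ →* Q => φ g) he
  -- commutators
  let R : Subgroup Γ :=
    { carrier := {w | ∃ h : (w, (1 : Multiplicative ℤ)) ∈ G, e w = ((⟨(w, 1), h⟩ : G) : G ⧸ L)}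
      mul_mem' := by
        rintro a b ⟨ha, ha'⟩ ⟨hb, hb'⟩
        refine ⟨?_, ?_⟩
        · have := mul_mem ha hb
          simpa using this
        · rw [map_mul, ha', hb', ← QuotientGroup.mk_mul]
          congr 1
      one_mem' := by
        refine ⟨one_mem G, ?_⟩
        rw [map_one]
        rfl
      inv_mem' := by
        rintro a ⟨ha, ha'⟩
        refine ⟨?_, ?_⟩
        · have := inv_mem ha
          simpa using this
        · rw [map_inv, ha', ← QuotientGroup.mk_inv]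
          congr 1 }
  have hR : commutator Γ ≤ R := by
    rw [_root_.commutator_def]
    refine Subgroup.commutator_le.mpr ?_
    intro a _ b _
    obtain ⟨x, rfl⟩ := hp₁ a
    obtain ⟨y, rfl⟩ := hp₁ b
    have hcm : ⁅p₁ x, p₁ y⁆ ∈ commutator Γ := by
      rw [_root_.commutator_def]
      exact Subgroup.commutator_mem_commutator (Subgroup.mem_top _) (Subgroup.mem_top _)
    refine ⟨hmemw _ hcm, ?_⟩
    have hu : ∀ x : G, ((x : G ⧸ L))⁻¹ * e (p₁ x) ∈ σ₂.ker := by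
      intro x
      rw [MonoidHom.mem_ker, map_mul, map_inv, heσ, hσ₂]
      group
    have h1 := H6Schur2.comm_mul_central (x : G ⧸ L) (y : G ⧸ L) _ _ (hσ₂c (hu x)) (hσ₂c (hu y))
    simp only [mul_inv_cancel_left] at h1
    rw [map_commutatorElement, h1]
    have h2 : (⟨(⁅p₁ x, p₁ y⁆, 1), hmemw _ hcm⟩ : G) = ⁅x, y⁆ := by
      apply hext
      · rw [map_commutatorElement]
        rfl
      · rw [map_commutatorElement]
        show (1 : Multiplicative ℤ) = _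
        rw [commutatorElement_def, mul_comm (p₂ x), mul_inv_cancel_right, mul_inv_cancel]
    rw [h2]
    rfl
  obtain ⟨g₀, hg₀⟩ := hσ.1 x₀
  have hĝ : (g₀, Multiplicative.ofAdd (1 : ℤ)) ∈ G := by
    refine (hG _).mpr ?_
    show χ (σ g₀) = cast (Multiplicative.ofAdd 1)
    rw [hg₀, hχ, hcast]
    simp
  let ĝ : G := ⟨(g₀, Multiplicative.ofAdd (1 : ℤ)), hĝ⟩
  have hu0 : ((ĝ : G ⧸ L))⁻¹ * e g₀ ∈ σ₂.ker := by
    rw [MonoidHom.mem_ker, map_mul, map_inv, heσ, hσ₂]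
    show (σ g₀)⁻¹ * σ g₀ = 1
    group
  obtain ⟨z, hz⟩ := hker_eq.2 ⟨_, hu0⟩
  have hz' : ι z = ((ĝ : G ⧸ L))⁻¹ * e g₀ := congrArg Subtype.val hz
  have heg : e g₀ = (ĝ : G ⧸ L) * ι z := by rw [hz']; group
  have hgm : g₀ ^ m ∈ commutator Γ := by
    have h1 : x₀ ^ m ∈ (commutator Γ).map σ := by
      rw [_root_.commutator_def, Subgroup.map_commutator, Subgroup.map_top_of_surjective σ hσ.1,
        ← _root_.commutator_def]
      exact hx₀
    obtain ⟨d, hd, hd'⟩ := h1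
    have h2 : d⁻¹ * g₀ ^ m ∈ σ.ker := by
      rw [MonoidHom.mem_ker, map_mul, map_inv, hd', map_pow, hg₀]; group
    have h3 : g₀ ^ m = d * (d⁻¹ * g₀ ^ m) := by group
    rw [h3]
    exact mul_mem hd (hσ.2.2 h2)
  obtain ⟨hw1, hw2⟩ := hR hgm
  have hc₀G : (c₀, (1 : Multiplicative ℤ)) ∈ G := hmemk c₀ hc₀
  have hstep : ĝ ^ m * ℓ₀ = (⟨(g₀ ^ m, 1), hw1⟩ : G) * (⟨(c₀, 1), hc₀G⟩ : G) := by
    apply hext
    · rw [map_mul, map_pow]
      rfl
    · rw [map_mul, map_pow]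
      show (Multiplicative.ofAdd (1 : ℤ)) ^ m * Multiplicative.ofAdd (-(m : ℤ)) = 1 * 1
      apply Multiplicative.toAdd.injective
      simp
  have hgpow : ((ĝ : G ⧸ L)) ^ m = ((⟨(g₀ ^ m, 1), hw1⟩ : G) : G ⧸ L) * ι ⟨c₀, hc₀⟩ := by
    have h1 : ((ℓ₀ : G) : G ⧸ L) = 1 := (QuotientGroup.eq_one_iff _).mpr (Subgroup.mem_zpowers ℓ₀)
    have h2 := congrArg (fun x : G => (x : G ⧸ L)) hstep
    simp only [QuotientGroup.mk_mul, QuotientGroup.mk_pow, h1, mul_one] at h2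
    exact h2
  have hιc : ι z ∈ Subgroup.center (G ⧸ L) := hσ₂c (hι z)
  have hcm2 : Commute (ĝ : G ⧸ L) (ι z) := (Subgroup.mem_center_iff.mp hιc) _
  have hfinal : ((⟨(g₀ ^ m, 1), hw1⟩ : G) : G ⧸ L) =
      ((⟨(g₀ ^ m, 1), hw1⟩ : G) : G ⧸ L) * (ι ⟨c₀, hc₀⟩ * ι z ^ m) := by
    rw [← mul_assoc, ← hgpow, ← hcm2.mul_pow, ← heg, ← map_pow]
    exact hw2.symm
  have h1 : ι ⟨c₀, hc₀⟩ * ι z ^ m = 1 := by
    have := mul_left_cancel (a := ((⟨(g₀ ^ m, 1), hw1⟩ : G) : G ⧸ L)) (b := 1)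
      (c := ι ⟨c₀, hc₀⟩ * ι z ^ m) (by rw [mul_one]; exact hfinal)
    exact this.symm
  have h2 : ι (⟨c₀, hc₀⟩ * z ^ m) = 1 := by
    rw [map_mul, map_pow]; exact h1
  have h3 := hιinj _ h2
  refine ⟨z.1, z.2, ?_⟩
  have h4 := congrArg Subtype.val h3
  exact h4

/-- A cyclic direct factor whose order is divisible by a given prime divisor of the group order. -/
theorem exists_cyclic_factor (G : Type*) [CommGroup G] [Finite G] (p : ℕ) (hp : p.Prime)
    (hd : p ∣ Nat.card G) :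
    ∃ m : ℕ, p ∣ m ∧ m ≠ 0 ∧ ∃ (χ : G →* Multiplicative (ZMod m)) (x₀ : G),
      χ x₀ = Multiplicative.ofAdd 1 ∧ x₀ ^ m = 1 := by
  classical
  obtain ⟨ι, _, n, hn, ⟨e⟩⟩ := CommGroup.equiv_prod_multiplicative_zmod_of_finite G
  have hcard : Nat.card G = ∏ i, Nat.card (Multiplicative (ZMod (n i))) := by
    rw [Nat.card_congr e.toEquiv, Nat.card_pi]
  have hcard2 : ∀ i, Nat.card (Multiplicative (ZMod (n i))) = n i := by
    intro i
    haveI : NeZero (n i) := ⟨by have := hn i; omega⟩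
    rw [Nat.card_eq_fintype_card, Fintype.card_multiplicative, ZMod.card]
  rw [hcard, Finset.prod_congr rfl (fun i _ => hcard2 i)] at hd
  obtain ⟨i, -, hi⟩ := (Prime.dvd_finset_prod_iff hp.prime _).mp hd
  refine ⟨n i, hi, by have := hn i; omega, (Pi.evalMonoidHom _ i).comp e.toMonoidHom,
    e.symm (Pi.mulSingle i (Multiplicative.ofAdd 1)), ?_, ?_⟩
  · show e (e.symm _) i = _
    rw [MulEquiv.apply_symm_apply]
    simp
  · apply e.injective
    have h1 : (Multiplicative.ofAdd (1 : ZMod (n i))) ^ n i = 1 := by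
      rw [← ofAdd_nsmul]
      simp
    rw [map_pow, e.apply_symm_apply, map_one e, ← Pi.mulSingle_pow, h1, Pi.mulSingle_one]

theorem unique_cover_iff {Q : Type u} [Group Q] [Finite Q] {A : Type v} [CommGroup A]
    (hA : HasSchurMultiplier Q A) :
    (∀ (Γ₁ Γ₂ : Type u) [Group Γ₁] [Finite Γ₁] [Group Γ₂] [Finite Γ₂] (σ₁ : Γ₁ →* Q) (σ₂ : Γ₂ →* Q),
      IsStemExtension σ₁ → IsStemExtension σ₂ → Nonempty (σ₁.ker ≃* A) → Nonempty (σ₂.ker ≃* A) →
      ∃ e : Γ₁ ≃* Γ₂, σ₂.comp e.toMonoidHom = σ₁) ↔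
    Nat.Coprime (Nat.card (Abelianization Q)) (Nat.card A) := by
  constructor
  · intro H
    by_contra hcop
    obtain ⟨p, hp, hp1, hp2⟩ := Nat.Prime.not_coprime_iff_dvd.mp hcop
    haveI : Finite A := finite_of_hasSchur hA
    obtain ⟨⟨Γ, _, _, σ, hσ, ⟨e⟩⟩, -⟩ := id hA
    haveI : Fact p.Prime := ⟨hp⟩
    obtain ⟨a₀, ha₀⟩ := exists_prime_orderOf_dvd_card' p hp2
    have hnotinj : ¬ Function.Injective (powMonoidHom p : A →* A) := by
      intro hinj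
      have h1 : a₀ ^ p = 1 := by rw [← ha₀]; exact pow_orderOf_eq_one a₀
      have h2 : a₀ = 1 := hinj (by simpa using h1)
      rw [h2, orderOf_one] at ha₀
      exact hp.one_lt.ne ha₀
    have hnotsurj : ¬ Function.Surjective (powMonoidHom p : A →* A) := fun h =>
      hnotinj (Finite.injective_iff_surjective.mpr h)
    obtain ⟨b, hb⟩ : ∃ b : A, ∀ y : A, y ^ p ≠ b := by
      by_contra hcon
      push Not at hcon
      exact hnotsurj hcon
    obtain ⟨m, hm1, hm2, χ', x₀', hχ', hx₀'⟩ := exists_cyclic_factor (Abelianization Q) p hp hp1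
    obtain ⟨x₀, rfl⟩ := QuotientGroup.mk_surjective x₀'
    have hx₀m : x₀ ^ m ∈ commutator Q := by
      rw [← Abelianization.ker_of, MonoidHom.mem_ker, map_pow]
      exact hx₀'
    obtain ⟨Γ₂, i1, i2, σ₂, hσ₂, ⟨e₂⟩, hfin⟩ := exists_twist σ hσ m hm2 (χ'.comp Abelianization.of) x₀ hχ' hx₀m
      (e.symm b).1 (e.symm b).2
    obtain ⟨iso, hiso⟩ := H Γ Γ₂ σ σ₂ hσ hσ₂ ⟨e⟩ ⟨e₂.trans e⟩
    obtain ⟨z, hz, hzz⟩ := hfin iso hiso
    obtain ⟨t, rfl⟩ := hm1
    apply hb (((e ⟨z, hz⟩)⁻¹) ^ t)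
    have h1 : (e.symm b) * (⟨z, hz⟩ : σ.ker) ^ (p * t) = 1 := Subtype.ext hzz
    have h2 := congrArg e h1
    rw [map_mul, MulEquiv.apply_symm_apply, map_pow, map_one] at h2
    rw [← pow_mul, mul_comm t p, inv_pow]
    exact (inv_eq_of_mul_eq_one_left h2).symm ▸ rfl
  · intro hcop Γ₁ Γ₂ _ _ _ _ σ₁ σ₂ h₁ h₂ ⟨e₁⟩ ⟨e₂⟩
    exact unique_of_coprime hA hcop σ₁ σ₂ h₁ h₂ e₁ e₂

end Cfsg.Agent.Lib.HopfCover
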