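import Mathlib
import Cfsg.Agent.Lib.Hopf

/-!
Multipliers of finitely presented groups.
-/

set_option autoImplicit false
set_option linter.all false

namespace Cfsg.Agent.Lib.HopfPres

open Cfsg
open scoped commutatorElement
open Cfsg.Agent.Lib.Hopf

universe u v w

/-- A group that is an image of a free abelian group of rank `k` has rank at most `k`. -/
theorem rank_le_of_basis {M : Type*} [CommGroup M] [Finite M] {L : Type*} [AddCommGroup L] [Module ℤ L]
    {k : ℕ} (bL : Module.Basis (Fin k) ℤ L) (ψ : L →ₗ[ℤ] Additive M) (hs : Function.Surjective ψ) :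
    Group.rank M ≤ k := by
  classical
  let S : Finset M := Finset.univ.image (fun i : Fin k => Additive.toMul (ψ (bL i)))
  have key : ∀ x : L, Additive.toMul (ψ x) ∈ Subgroup.closure (S : Set M) := by
    intro x
    have hspan : x ∈ Submodule.span ℤ (Set.range bL) := by
      rw [bL.span_eq]; trivial
    induction hspan using Submodule.span_induction with
    | mem y hy =>
      obtain ⟨i, rfl⟩ := hy
      exact Subgroup.subset_closure (by simp [S])
    | zero =>
      rw [map_zero]; exact one_mem _
    | add a b _ _ ha hb =>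
      rw [map_add]; exact mul_mem ha hb
    | smul c a _ ha =>
      rw [ψ.map_smul]
      show (Additive.toMul (ψ a)) ^ c ∈ _
      exact zpow_mem ha c
  have hS : Subgroup.closure (S : Set M) = ⊤ := by
    rw [eq_top_iff]
    intro m _
    obtain ⟨x, hx⟩ := hs (Additive.ofMul m)
    have hm : m = Additive.toMul (ψ x) := by rw [hx]; rfl
    rw [hm]
    exact key x
  have h1 := Group.rank_le hS
  refine h1.trans ?_
  refine Finset.card_image_le.trans ?_
  simp

theorem rank_le_presentation (n : ℕ) (rels : Finset (FreeGroup (Fin n)))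
    [Finite (PresentedGroup (rels : Set (FreeGroup (Fin n))))] {A : Type*} [CommGroup A] [Finite A]
    (hA : HasSchurMultiplier (PresentedGroup (rels : Set (FreeGroup (Fin n)))) A) :
    Group.rank A ≤ rels.card - n := by
  classical
  let π : FreeGroup (Fin n) →* PresentedGroup (rels : Set (FreeGroup (Fin n))) :=
    QuotientGroup.mk' (Subgroup.normalClosure (rels : Set (FreeGroup (Fin n))))
  have hs : Function.Surjective π := QuotientGroup.mk'_surjective _
  have hker : π.ker = Subgroup.normalClosure (rels : Set (FreeGroup (Fin n))) := QuotientGroup.ker_mk' _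
  obtain ⟨e⟩ := equiv_M π hs (FreeGroupBasis.ofFreeGroup (Fin n)) hA
  haveI := finite_M π
  have hrank : Group.rank A = Group.rank (M π) := Group.rank_congr e
  rw [hrank]
  letI : CommGroup (T π) :=
    { (inferInstance : Group (T π)) with
      mul_comm := fun a b => by
        apply Subtype.ext
        exact ((Subgroup.mem_center_iff.mp (T_central π a.2)) b.1).symm }
  let ι := (rels : Set (FreeGroup (Fin n)))
  have hι : ∀ i : ι, (i.1 : U π) ∈ T π := by
    intro i
    show π i.1 = 1
    have : i.1 ∈ π.ker := by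
      rw [hker]; exact Subgroup.subset_normalClosure i.2
    exact this
  haveI : Fintype ι := Fintype.ofFinite ι
  let v : ι → Additive (T π) := fun i => Additive.ofMul ⟨(i.1 : U π), hι i⟩
  let φ : (ι →₀ ℤ) →ₗ[ℤ] Additive (T π) := Finsupp.linearCombination ℤ v
  -- the image of `φ` is everything
  have hφs : ∀ t : T π, ∃ x, φ x = Additive.ofMul t := by
    let Y : Subgroup (U π) :=
      { carrier := {u | ∃ h : u ∈ T π, Additive.ofMul (⟨u, h⟩ : T π) ∈ LinearMap.range φ}
        mul_mem' := by
          rintro a c ⟨ha, ha'⟩ ⟨hc, hc'⟩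
          exact ⟨mul_mem ha hc, add_mem ha' hc'⟩
        one_mem' := ⟨one_mem _, zero_mem _⟩
        inv_mem' := by
          rintro a ⟨ha, ha'⟩
          exact ⟨inv_mem ha, neg_mem ha'⟩ }
    have hYT : Y ≤ T π := fun u hu => hu.1
    haveI hYn : Y.Normal := normal_of_le_T π Y hYT
    haveI : (Y.comap (QuotientGroup.mk' (N π))).Normal := Subgroup.Normal.comap hYn _
    have h1 : Subgroup.normalClosure (rels : Set (FreeGroup (Fin n))) ≤ Y.comap (QuotientGroup.mk' (N π)) := by
      apply Subgroup.normalClosure_le_normal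
      intro r hr
      refine ⟨hι ⟨r, hr⟩, ?_⟩
      refine ⟨Finsupp.single ⟨r, hr⟩ 1, ?_⟩
      simp [φ, v]
    rintro ⟨u, hu⟩
    obtain ⟨f, rfl⟩ := QuotientGroup.mk_surjective u
    have h2 : f ∈ Subgroup.normalClosure (rels : Set (FreeGroup (Fin n))) := by
      rw [← hker]; exact hu
    obtain ⟨_, x, hx⟩ := h1 h2
    exact ⟨x, hx⟩
  let Ψ : Additive (T π) →+ FreeAbelianGroup (Fin n) := MonoidHom.toAdditive ((ab π).comp (T π).subtype)
  let D : (ι →₀ ℤ) →ₗ[ℤ] FreeAbelianGroup (Fin n) := (Ψ.toIntLinearMap).comp φ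
  have hDker : ∀ x, D x = 0 → (Additive.toMul (φ x) : T π).1 ∈ M π := by
    intro x hx
    refine ⟨(Additive.toMul (φ x) : T π).2, ?_⟩
    rw [← ker_ab]
    exact hx
  have hcard : Nat.card (PresentedGroup (rels : Set (FreeGroup (Fin n)))) ≠ 0 := Nat.card_pos.ne'
  set N₀ := Nat.card (PresentedGroup (rels : Set (FreeGroup (Fin n)))) with hN₀
  have hmem : ∀ w : FreeAbelianGroup (Fin n), N₀ • w ∈ LinearMap.range D := by
    intro w
    obtain ⟨f, hf⟩ : ∃ f : FreeGroup (Fin n), (Additive.ofMul (Abelianization.of f) : FreeAbelianGroup (Fin n)) = w := by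
      obtain ⟨g, hg⟩ := QuotientGroup.mk_surjective (Additive.toMul w)
      exact ⟨g, congrArg Additive.ofMul hg⟩
    have h1 : π (f ^ N₀) = 1 := by
      rw [map_pow, hN₀, pow_card_eq_one']
    obtain ⟨x, hx⟩ := hφs ⟨((f ^ N₀ : FreeGroup (Fin n)) : U π), h1⟩
    refine ⟨x, ?_⟩
    show Ψ (φ x) = _
    rw [hx, ← hf]
    show Additive.ofMul (Abelianization.of (f ^ N₀)) = _
    rw [map_pow]
    rfl
  let b : Module.Basis (Fin n) ℤ (FreeAbelianGroup (Fin n)) :=
    ⟨(FreeAbelianGroup.equivFinsupp (Fin n)).toIntLinearEquiv⟩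
  have hWfin : Module.finrank ℤ (FreeAbelianGroup (Fin n)) = n := by
    rw [Module.finrank_eq_card_basis b, Fintype.card_fin]
  haveI : Module.Free ℤ (FreeAbelianGroup (Fin n)) := Module.Free.of_basis b
  haveI : Module.Finite ℤ (FreeAbelianGroup (Fin n)) := Module.Finite.of_basis b
  let jm : FreeAbelianGroup (Fin n) →ₗ[ℤ] LinearMap.range D :=
    LinearMap.codRestrict (LinearMap.range D) ((N₀ : ℤ) • LinearMap.id) (fun w => by
      have := hmem w
      simpa using this)
  have hjm : Function.Injective jm := by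
    rw [← LinearMap.ker_eq_bot, LinearMap.ker_eq_bot']
    intro w hw
    have h1 : (N₀ : ℤ) • w = 0 := congrArg Subtype.val hw
    have h2 : (N₀ : ℤ) ≠ 0 := by exact_mod_cast hcard
    exact (smul_eq_zero.mp h1).resolve_left h2
  have hle : n ≤ Module.finrank ℤ (LinearMap.range D) := by
    calc n = Module.finrank ℤ (FreeAbelianGroup (Fin n)) := hWfin.symm
      _ ≤ _ := LinearMap.finrank_le_finrank_of_injective hjm
  have hrn : Module.finrank ℤ (LinearMap.range D) + Module.finrank ℤ (LinearMap.ker D) =
      Module.finrank ℤ (ι →₀ ℤ) := by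
    rw [← Submodule.finrank_quotient_add_finrank (LinearMap.ker D),
      D.quotKerEquivRange.finrank_eq]
  have hcardι : Module.finrank ℤ (ι →₀ ℤ) = rels.card := by
    rw [Module.finrank_finsupp_self, ← Nat.card_eq_fintype_card, Nat.card_coe_set_eq, Set.ncard_coe_finset]
  obtain ⟨k, ⟨bL⟩⟩ := Submodule.nonempty_basis_of_pid (Finsupp.basisSingleOne (ι := ι) (R := ℤ)) (LinearMap.ker D)
  have hk : Module.finrank ℤ (LinearMap.ker D) = k := by
    rw [Module.finrank_eq_card_basis bL, Fintype.card_fin]
  let ψ : LinearMap.ker D →ₗ[ℤ] Additive (M π) :=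
    { toFun := fun x => Additive.ofMul ⟨(Additive.toMul (φ x.1) : T π).1, hDker x.1 x.2⟩
      map_add' := fun x y => by
        apply Additive.toMul.injective
        apply Subtype.ext
        show (Additive.toMul (φ (x.1 + y.1)) : T π).1 = _
        rw [map_add]
        rfl
      map_smul' := fun c x => by
        apply Additive.toMul.injective
        apply Subtype.ext
        show (Additive.toMul (φ (c • x).1) : T π).1 = _
        have h1 : (c • x).1 = c • x.1 := rfl
        rw [h1, φ.map_smul]
        rfl }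
  have hψ : Function.Surjective ψ := by
    intro m
    let m' : M π := Additive.toMul m
    obtain ⟨x, hx⟩ := hφs ⟨m'.1, M_le_T π m'.2⟩
    have hxk : x ∈ LinearMap.ker D := by
      show Ψ (φ x) = 0
      rw [hx]
      have h1 : m'.1 ∈ (ab π).ker := by
        rw [ker_ab]; exact M_le_comm π m'.2
      exact congrArg Additive.ofMul h1
    refine ⟨⟨x, hxk⟩, ?_⟩
    apply Additive.toMul.injective
    apply Subtype.ext
    show (Additive.toMul (φ x) : T π).1 = m'.1
    rw [hx]
    rfl
  have hfinal := rank_le_of_basis bL ψ hψ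
  omega

end Cfsg.Agent.Lib.HopfPres
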