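import Mathlib
import Cfsg.Agent.Lib.Hopf

/-!
The Schur multiplier of a direct product.
-/

set_option autoImplicit false
set_option linter.all false

namespace Cfsg.Agent.Lib.HopfProd

open Cfsg
open scoped commutatorElement TensorProduct
open Cfsg.Agent.Lib.Hopf

universe u v w

/-- The product `Γ₁ × Γ₂ × W` twisted by a bimultiplicative map. -/
@[ext] structure Tw {Γ₁ Γ₂ W : Type*} [Group Γ₁] [Group Γ₂] [CommGroup W] (b : Γ₁ →* (Γ₂ →* W)) where
  fst : Γ₁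
  snd : Γ₂
  thd : W

section TwGroup

variable {Γ₁ Γ₂ W : Type*} [Group Γ₁] [Group Γ₂] [CommGroup W] (b : Γ₁ →* (Γ₂ →* W))

instance instMulTw : Mul (Tw b) := ⟨fun a c => ⟨a.fst * c.fst, a.snd * c.snd, a.thd * c.thd * b c.fst a.snd⟩⟩
instance instOneTw : One (Tw b) := ⟨⟨1, 1, 1⟩⟩
instance instInvTw : Inv (Tw b) := ⟨fun a => ⟨a.fst⁻¹, a.snd⁻¹, a.thd⁻¹ * (b a.fst a.snd⁻¹)⁻¹⟩⟩

variable {b}
@[simp] theorem tw_mul_fst (a c : Tw b) : (a * c).fst = a.fst * c.fst := rfl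
@[simp] theorem tw_mul_snd (a c : Tw b) : (a * c).snd = a.snd * c.snd := rfl
@[simp] theorem tw_mul_thd (a c : Tw b) : (a * c).thd = a.thd * c.thd * b c.fst a.snd := rfl
@[simp] theorem tw_one_fst : (1 : Tw b).fst = 1 := rfl
@[simp] theorem tw_one_snd : (1 : Tw b).snd = 1 := rfl
@[simp] theorem tw_one_thd : (1 : Tw b).thd = 1 := rfl
@[simp] theorem tw_inv_fst (a : Tw b) : (a⁻¹).fst = a.fst⁻¹ := rfl
@[simp] theorem tw_inv_snd (a : Tw b) : (a⁻¹).snd = a.snd⁻¹ := rfl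
@[simp] theorem tw_inv_thd (a : Tw b) : (a⁻¹).thd = a.thd⁻¹ * (b a.fst a.snd⁻¹)⁻¹ := rfl
variable (b)

instance instGroupTw : Group (Tw b) :=
  Group.ofLeftAxioms
    (fun a c d => by
      apply Tw.ext
      · simp [mul_assoc]
      · simp [mul_assoc]
      · simp only [tw_mul_thd, tw_mul_fst, tw_mul_snd, map_mul, MonoidHom.mul_apply]
        simp only [mul_comm, mul_left_comm, mul_assoc])
    (fun a => by
      apply Tw.ext
      · simp
      · simp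
      · simp)
    (fun a => by
      apply Tw.ext
      · simp
      · simp
      · simp only [tw_mul_thd, tw_inv_thd, tw_inv_fst, tw_inv_snd, tw_one_thd]
        have : a.thd⁻¹ * (b a.fst a.snd⁻¹)⁻¹ * a.thd * b a.fst a.snd⁻¹ =
            (a.thd⁻¹ * a.thd) * ((b a.fst a.snd⁻¹)⁻¹ * b a.fst a.snd⁻¹) := by ac_rfl
        rw [this]; simp)

/-- The underlying equivalence with the product. -/
def twEquiv : Tw b ≃ Γ₁ × Γ₂ × W where
  toFun a := (a.fst, a.snd, a.thd)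
  invFun p := ⟨p.1, p.2.1, p.2.2⟩
  left_inv _ := rfl
  right_inv _ := rfl

end TwGroup

section Tensor

variable (Q₁ Q₂ : Type*) [Group Q₁] [Group Q₂]

/-- The tensor product of the commutator quotients. -/
abbrev Wt : Type _ := Additive (Abelianization Q₁) ⊗[ℤ] Additive (Abelianization Q₂)

variable {Q₁ Q₂}

/-- A pure tensor. -/
noncomputable def pure (q₁ : Q₁) (q₂ : Q₂) : Wt Q₁ Q₂ :=
  (Additive.ofMul (Abelianization.of q₁)) ⊗ₜ[ℤ] (Additive.ofMul (Abelianization.of q₂))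

theorem pure_mul_left (a a' : Q₁) (c : Q₂) : pure (a * a') c = pure a c + pure a' c := by
  simp only [pure, map_mul, ofMul_mul, TensorProduct.add_tmul]

theorem pure_mul_right (a : Q₁) (c c' : Q₂) : pure a (c * c') = pure a c + pure a c' := by
  simp only [pure, map_mul, ofMul_mul, TensorProduct.tmul_add]

theorem pure_one_left (c : Q₂) : pure (1 : Q₁) c = 0 := by
  simp only [pure, map_one, ofMul_one, TensorProduct.zero_tmul]

theorem pure_one_right (a : Q₁) : pure a (1 : Q₂) = 0 := by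
  simp only [pure, map_one, ofMul_one, TensorProduct.tmul_zero]

theorem wt_induction {P : Wt Q₁ Q₂ → Prop} (h0 : P 0) (hp : ∀ q₁ q₂, P (pure q₁ q₂))
    (ha : ∀ x y, P x → P y → P (x + y)) (t : Wt Q₁ Q₂) : P t := by
  induction t using TensorProduct.induction_on with
  | zero => exact h0
  | add x y hx hy => exact ha x y hx hy
  | tmul x y =>
    obtain ⟨q₁, rfl⟩ : ∃ q₁ : Q₁, (Additive.ofMul (Abelianization.of q₁) : Additive (Abelianization Q₁)) = x := by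
      obtain ⟨g, hg⟩ := QuotientGroup.mk_surjective (Additive.toMul x)
      exact ⟨g, congrArg Additive.ofMul hg⟩
    obtain ⟨q₂, rfl⟩ : ∃ q₂ : Q₂, (Additive.ofMul (Abelianization.of q₂) : Additive (Abelianization Q₂)) = y := by
      obtain ⟨g, hg⟩ := QuotientGroup.mk_surjective (Additive.toMul y)
      exact ⟨g, congrArg Additive.ofMul hg⟩
    exact hp q₁ q₂

theorem card_smul_left [Finite Q₁] (t : Wt Q₁ Q₂) : Nat.card (Abelianization Q₁) • t = 0 := by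
  induction t using wt_induction with
  | h0 => simp
  | hp q₁ q₂ =>
    have h1 : Nat.card (Abelianization Q₁) • (Additive.ofMul (Abelianization.of q₁) : Additive (Abelianization Q₁)) = 0 := by
      rw [← ofMul_pow, pow_card_eq_one', ofMul_one]
    show Nat.card (Abelianization Q₁) • ((Additive.ofMul (Abelianization.of q₁)) ⊗ₜ[ℤ] (Additive.ofMul (Abelianization.of q₂))) = 0
    rw [TensorProduct.smul_tmul', h1, TensorProduct.zero_tmul]
  | ha x y hx hy => rw [smul_add, hx, hy, add_zero]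

theorem card_smul_right [Finite Q₂] (t : Wt Q₁ Q₂) : Nat.card (Abelianization Q₂) • t = 0 := by
  induction t using wt_induction with
  | h0 => simp
  | hp q₁ q₂ =>
    have h1 : Nat.card (Abelianization Q₂) • (Additive.ofMul (Abelianization.of q₂) : Additive (Abelianization Q₂)) = 0 := by
      rw [← ofMul_pow, pow_card_eq_one', ofMul_one]
    show Nat.card (Abelianization Q₂) • ((Additive.ofMul (Abelianization.of q₁)) ⊗ₜ[ℤ] (Additive.ofMul (Abelianization.of q₂))) = 0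
    rw [← natCast_zsmul, ← TensorProduct.tmul_smul, natCast_zsmul, h1, TensorProduct.tmul_zero]
  | ha x y hx hy => rw [smul_add, hx, hy, add_zero]

theorem wt_subsingleton [Finite Q₁] [Finite Q₂]
    (hcop : Nat.Coprime (Nat.card (Abelianization Q₁)) (Nat.card (Abelianization Q₂))) :
    Subsingleton (Wt Q₁ Q₂) := by
  refine ⟨fun a b => ?_⟩
  have key : ∀ t : Wt Q₁ Q₂, t = 0 := by
    intro t
    have h1 := card_smul_left t
    have h2 := card_smul_right t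
    have h3 : Nat.gcd (Nat.card (Abelianization Q₁)) (Nat.card (Abelianization Q₂)) • t = 0 := by
      exact (addOrderOf_dvd_iff_nsmul_eq_zero.mp (Nat.dvd_gcd (addOrderOf_dvd_iff_nsmul_eq_zero.mpr h1)
        (addOrderOf_dvd_iff_nsmul_eq_zero.mpr h2)))
    rw [hcop, one_smul] at h3
    exact h3
  rw [key a, key b]

theorem finite_wt [Finite Q₁] [Finite Q₂] : Finite (Wt Q₁ Q₂) := by
  haveI : Module.Finite ℤ (Additive (Abelianization Q₁)) := Module.Finite.of_finite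
  haveI : Module.Finite ℤ (Additive (Abelianization Q₂)) := Module.Finite.of_finite
  haveI : Module.Finite ℤ (Wt Q₁ Q₂) := Module.Finite.tensorProduct ℤ _ _
  apply Module.finite_of_fg_torsion
  intro t
  refine ⟨⟨(Nat.card (Abelianization Q₁) : ℤ), ?_⟩, ?_⟩
  · apply mem_nonZeroDivisors_of_ne_zero
    exact_mod_cast Nat.card_pos.ne'
  · show ((Nat.card (Abelianization Q₁) : ℕ) : ℤ) • t = 0
    rw [natCast_zsmul]
    exact card_smul_left t

end Tensor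

section Pairing

variable {Q₁ Q₂ Δ : Type*} [Group Q₁] [Group Q₂] [Group Δ]

theorem comm_mul_left_central {x x' y : Δ} (h : ⁅x', y⁆ ∈ Subgroup.center Δ) : ⁅x * x', y⁆ = ⁅x, y⁆ * ⁅x', y⁆ := by
  have h1 := Subgroup.mem_center_iff.mp h
  have h2 : ⁅x * x', y⁆ = x * ⁅x', y⁆ * x⁻¹ * ⁅x, y⁆ := by
    simp only [commutatorElement_def]; group
  rw [h2, h1 x, mul_inv_cancel_right]
  exact (h1 ⁅x, y⁆).symm

theorem comm_mul_right_central {x y y' : Δ} (h : ⁅x, y'⁆ ∈ Subgroup.center Δ) : ⁅x, y * y'⁆ = ⁅x, y⁆ * ⁅x, y'⁆ := by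
  have h1 := Subgroup.mem_center_iff.mp h
  have h2 : ⁅x, y * y'⁆ = ⁅x, y⁆ * (y * ⁅x, y'⁆ * y⁻¹) := by
    simp only [commutatorElement_def]; group
  rw [h2, h1 y, mul_inv_cancel_right]

/-- The commutator pairing of a central extension of a direct product. -/
theorem exists_pairing (τ : Δ →* Q₁ × Q₂) (hs : Function.Surjective τ) (hc : τ.ker ≤ Subgroup.center Δ) :
    ∃ P : Multiplicative (Wt Q₁ Q₂) →* Δ, (∀ t, P t ∈ τ.ker) ∧
      ∀ x y, (τ x).2 = 1 → (τ y).1 = 1 → P (Multiplicative.ofAdd (pure (τ x).1 (τ y).2)) = ⁅x, y⁆ := by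
  classical
  have hker : ∀ x y, (τ x).2 = 1 → (τ y).1 = 1 → ⁅x, y⁆ ∈ τ.ker := by
    intro x y hx hy
    rw [MonoidHom.mem_ker, map_commutatorElement, commutatorElement_eq_one_iff_commute]
    show τ x * τ y = τ y * τ x
    apply Prod.ext
    · show (τ x).1 * (τ y).1 = (τ y).1 * (τ x).1
      rw [hy, mul_one, one_mul]
    · show (τ x).2 * (τ y).2 = (τ y).2 * (τ x).2
      rw [hx, mul_one, one_mul]
  have hcen : ∀ x y, (τ x).2 = 1 → (τ y).1 = 1 → ⁅x, y⁆ ∈ Subgroup.center Δ := fun x y hx hy => hc (hker x y hx hy)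
  choose s₁ hs₁ using fun q : Q₁ => hs (q, 1)
  choose s₂ hs₂ using fun q : Q₂ => hs (1, q)
  have hs₁2 : ∀ q, (τ (s₁ q)).2 = 1 := fun q => by rw [hs₁]
  have hs₂1 : ∀ q, (τ (s₂ q)).1 = 1 := fun q => by rw [hs₂]
  have hcomm_eq : ∀ x y, (τ x).2 = 1 → (τ y).1 = 1 → ⁅s₁ (τ x).1, s₂ (τ y).2⁆ = ⁅x, y⁆ := by
    intro x y hx hy
    have hz : x⁻¹ * s₁ (τ x).1 ∈ τ.ker := by
      rw [MonoidHom.mem_ker, map_mul, map_inv, hs₁]
      apply Prod.ext
      · simp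
      · simp [hx]
    have hw : y⁻¹ * s₂ (τ y).2 ∈ τ.ker := by
      rw [MonoidHom.mem_ker, map_mul, map_inv, hs₂]
      apply Prod.ext
      · simp [hy]
      · simp
    have := H6Schur2.comm_mul_central x y _ _ (hc hz) (hc hw)
    simpa using this
  let K := τ.ker
  letI : CommGroup K :=
    { (inferInstance : Group K) with
      mul_comm := fun a b => by
        apply Subtype.ext
        exact ((Subgroup.mem_center_iff.mp (hc a.2)) b.1).symm }
  let c : Q₁ → Q₂ → K := fun q₁ q₂ => ⟨⁅s₁ q₁, s₂ q₂⁆, hker _ _ (hs₁2 q₁) (hs₂1 q₂)⟩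
  have hc_left : ∀ a a' r, c (a * a') r = c a r * c a' r := by
    intro a a' r
    apply Subtype.ext
    show ⁅s₁ (a * a'), s₂ r⁆ = ⁅s₁ a, s₂ r⁆ * ⁅s₁ a', s₂ r⁆
    rw [← comm_mul_left_central (hcen _ _ (hs₁2 a') (hs₂1 r))]
    have h1 := hcomm_eq (s₁ a * s₁ a') (s₂ r) (by rw [map_mul]; simp [hs₁2]) (hs₂1 r)
    have h2 : (τ (s₁ a * s₁ a')).1 = a * a' := by rw [map_mul, hs₁, hs₁]; rfl
    rw [h2, hs₂] at h1
    exact h1
  have hc_right : ∀ a r r', c a (r * r') = c a r * c a r' := by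
    intro a r r'
    apply Subtype.ext
    show ⁅s₁ a, s₂ (r * r')⁆ = ⁅s₁ a, s₂ r⁆ * ⁅s₁ a, s₂ r'⁆
    rw [← comm_mul_right_central (hcen _ _ (hs₁2 a) (hs₂1 r'))]
    have h1 := hcomm_eq (s₁ a) (s₂ r * s₂ r') (hs₁2 a) (by rw [map_mul]; simp [hs₂1])
    have h2 : (τ (s₂ r * s₂ r')).2 = r * r' := by rw [map_mul, hs₂, hs₂]; rfl
    rw [h2, hs₁] at h1
    exact h1
  let Φ : Q₁ →* (Abelianization Q₂ →* K) := MonoidHom.mk'
    (fun a => Abelianization.lift (MonoidHom.mk' (c a) (hc_right a))) (by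
      intro a a'
      refine Abelianization.hom_ext _ _ (MonoidHom.ext fun r => ?_)
      simp only [MonoidHom.comp_apply, MonoidHom.mul_apply, Abelianization.lift_apply_of]
      exact hc_left a a' r)
  let Φ₂ : Abelianization Q₁ →* (Abelianization Q₂ →* K) := Abelianization.lift Φ
  let f : Additive (Abelianization Q₁) →+ (Additive (Abelianization Q₂) →+ Additive K) :=
    AddMonoidHom.mk' (fun a => MonoidHom.toAdditive (Φ₂ (Additive.toMul a))) (by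
      intro a a'
      apply AddMonoidHom.ext
      intro r
      show Additive.ofMul (Φ₂ (Additive.toMul a * Additive.toMul a') (Additive.toMul r)) = _
      rw [map_mul, MonoidHom.mul_apply]
      rfl)
  let L : Wt Q₁ Q₂ →+ Additive K := TensorProduct.liftAddHom f (fun r m n => by
    rw [map_zsmul, AddMonoidHom.zsmul_apply, map_zsmul])
  let P : Multiplicative (Wt Q₁ Q₂) →* Δ := K.subtype.comp
    (MonoidHom.mk' (fun t => Additive.toMul (L (Multiplicative.toAdd t))) (by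
      intro a b
      rw [toAdd_mul, map_add, toMul_add]))
  have hP : ∀ q₁ q₂, P (Multiplicative.ofAdd (pure q₁ q₂)) = ⁅s₁ q₁, s₂ q₂⁆ := by
    intro q₁ q₂
    have h1 : L (pure q₁ q₂) = Additive.ofMul (c q₁ q₂) := by
      show f (Additive.ofMul (Abelianization.of q₁)) (Additive.ofMul (Abelianization.of q₂)) = _
      show Additive.ofMul (Φ₂ (Abelianization.of q₁) (Abelianization.of q₂)) = _
      simp only [Φ₂, Abelianization.lift_apply_of]
      show Additive.ofMul (Abelianization.lift _ (Abelianization.of q₂)) = _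
      rw [Abelianization.lift_apply_of]
      rfl
    show (Additive.toMul (L (pure q₁ q₂)) : K).1 = _
    rw [h1]
    rfl
  refine ⟨P, fun t => ?_, ?_⟩
  · exact (Additive.toMul (L (Multiplicative.toAdd t)) : K).2
  · intro x y hx hy
    rw [hP, hcomm_eq x y hx hy]

end Pairing

theorem map_comm_mem {G H : Type*} [Group G] [Group H] (f : G →* H) {x : G} (hx : x ∈ commutator G) :
    f x ∈ commutator H := by
  have h1 : f x ∈ (commutator G).map f := ⟨x, hx, rfl⟩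
  rw [_root_.commutator_def, Subgroup.map_commutator] at h1
  rw [_root_.commutator_def]
  exact Subgroup.commutator_mono le_top le_top h1

/-- Existence part: the twisted cover of the product. -/
theorem exists_prod_cover {Q₁ : Type u} {Q₂ : Type v} [Group Q₁] [Group Q₂] [Finite Q₁] [Finite Q₂]
    {A B : Type*} [CommGroup A] [CommGroup B]
    {Γ₁ : Type u} {Γ₂ : Type v} [Group Γ₁] [Group Γ₂] [Finite Γ₁] [Finite Γ₂]
    (σ₁ : Γ₁ →* Q₁) (σ₂ : Γ₂ →* Q₂) (h₁ : IsStemExtension σ₁) (h₂ : IsStemExtension σ₂)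
    (e₁ : σ₁.ker ≃* A) (e₂ : σ₂.ker ≃* B) :
    ∃ (Γ : Type (max u v)) (_ : Group Γ) (_ : Finite Γ) (σ : Γ →* Q₁ × Q₂), IsStemExtension σ ∧
      Nonempty (σ.ker ≃* A × B × Multiplicative (Wt Q₁ Q₂)) := by
  classical
  haveI := finite_wt (Q₁ := Q₁) (Q₂ := Q₂)
  let b : Γ₁ →* (Γ₂ →* Multiplicative (Wt Q₁ Q₂)) := MonoidHom.mk'
    (fun x => MonoidHom.mk' (fun y => Multiplicative.ofAdd (pure (σ₁ x) (σ₂ y))) (by
      intro y y'
      rw [map_mul, pure_mul_right, ofAdd_add]))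
    (by
      intro x x'
      apply MonoidHom.ext
      intro y
      show Multiplicative.ofAdd (pure (σ₁ (x * x')) (σ₂ y)) = _ * _
      rw [map_mul, pure_mul_left, ofAdd_add]
      rfl)
  have hb : ∀ x y, b x y = Multiplicative.ofAdd (pure (σ₁ x) (σ₂ y)) := fun _ _ => rfl
  have hb1 : ∀ x y, σ₁ x = 1 → b x y = 1 := by
    intro x y hx
    rw [hb, hx, pure_one_left]; rfl
  have hb2 : ∀ x y, σ₂ y = 1 → b x y = 1 := by
    intro x y hy
    rw [hb, hy, pure_one_right]; rfl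
  haveI : Finite (Tw b) := Finite.of_equiv _ (twEquiv b).symm
  let σ : Tw b →* Q₁ × Q₂ := MonoidHom.mk' (fun a => (σ₁ a.fst, σ₂ a.snd)) (by
    intro a c
    apply Prod.ext
    · show σ₁ (a.fst * c.fst) = _
      rw [map_mul]; rfl
    · show σ₂ (a.snd * c.snd) = _
      rw [map_mul]; rfl)
  have hker : ∀ a : Tw b, a ∈ σ.ker ↔ σ₁ a.fst = 1 ∧ σ₂ a.snd = 1 := by
    intro a
    rw [MonoidHom.mem_ker]
    exact Prod.ext_iff
  let i₁ : Γ₁ →* Tw b := MonoidHom.mk' (fun x => ⟨x, 1, 1⟩) (by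
    intro x x'
    apply Tw.ext
    · rfl
    · simp
    · simp)
  let i₂ : Γ₂ →* Tw b := MonoidHom.mk' (fun y => ⟨1, y, 1⟩) (by
    intro y y'
    apply Tw.ext
    · simp
    · rfl
    · simp)
  let i₃ : Multiplicative (Wt Q₁ Q₂) →* Tw b := MonoidHom.mk' (fun t => ⟨1, 1, t⟩) (by
    intro t t'
    apply Tw.ext
    · simp
    · simp
    · simp)
  have hi₃ : ∀ t : Wt Q₁ Q₂, i₃ (Multiplicative.ofAdd t) ∈ commutator (Tw b) := by
    intro t
    induction t using wt_induction with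
    | h0 =>
      have : i₃ (Multiplicative.ofAdd 0) = 1 := by
        rw [ofAdd_zero, map_one]
      rw [this]; exact one_mem _
    | hp q₁ q₂ =>
      obtain ⟨x, rfl⟩ := h₁.1 q₁
      obtain ⟨y, rfl⟩ := h₂.1 q₂
      have huv : i₂ y * i₁ x = i₃ (b x y) * (i₁ x * i₂ y) := by
        apply Tw.ext
        · simp [i₁, i₂, i₃]
        · simp [i₁, i₂, i₃]
        · simp [i₁, i₂, i₃]
      have hc : ⁅i₂ y, i₁ x⁆ = i₃ (b x y) := by
        rw [commutatorElement_def, huv]; group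
      have : i₃ (Multiplicative.ofAdd (pure (σ₁ x) (σ₂ y))) = ⁅i₂ y, i₁ x⁆ := by
        rw [hc]; rfl
      rw [this, _root_.commutator_def]
      exact Subgroup.commutator_mem_commutator (Subgroup.mem_top _) (Subgroup.mem_top _)
    | ha u w hu hw =>
      rw [ofAdd_add, map_mul]
      exact mul_mem hu hw
  refine ⟨Tw b, inferInstance, inferInstance, σ, ⟨?_, ?_, ?_⟩, ⟨?_⟩⟩
  · rintro ⟨q₁, q₂⟩
    obtain ⟨x, rfl⟩ := h₁.1 q₁
    obtain ⟨y, rfl⟩ := h₂.1 q₂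
    exact ⟨⟨x, y, 1⟩, rfl⟩
  · intro a ha
    obtain ⟨ha1, ha2⟩ := (hker a).mp ha
    rw [Subgroup.mem_center_iff]
    intro c
    apply Tw.ext
    · exact (Subgroup.mem_center_iff.mp (h₁.2.1 ha1)) c.fst
    · exact (Subgroup.mem_center_iff.mp (h₂.2.1 ha2)) c.snd
    · show c.thd * a.thd * b a.fst c.snd = a.thd * c.thd * b c.fst a.snd
      rw [hb1 _ _ ha1, hb2 _ _ ha2, mul_one, mul_one, mul_comm]
  · intro a ha
    obtain ⟨ha1, ha2⟩ := (hker a).mp ha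
    have h : a = i₁ a.fst * i₂ a.snd * i₃ a.thd := by
      apply Tw.ext
      · simp [i₁, i₂, i₃]
      · simp [i₁, i₂, i₃]
      · simp [i₁, i₂, i₃]
    rw [h]
    refine mul_mem (mul_mem (map_comm_mem i₁ (h₁.2.2 ha1)) (map_comm_mem i₂ (h₂.2.2 ha2))) ?_
    exact hi₃ (Multiplicative.toAdd a.thd)
  · refine
      { toFun := fun a => (e₁ ⟨a.1.fst, ((hker a.1).mp a.2).1⟩, e₂ ⟨a.1.snd, ((hker a.1).mp a.2).2⟩, a.1.thd)
        invFun := fun p => ⟨⟨(e₁.symm p.1).1, (e₂.symm p.2.1).1, p.2.2⟩,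
          (hker _).mpr ⟨(e₁.symm p.1).2, (e₂.symm p.2.1).2⟩⟩
        left_inv := ?_
        right_inv := ?_
        map_mul' := ?_ }
    · rintro ⟨a, ha⟩
      apply Subtype.ext
      apply Tw.ext
      · simp
      · simp
      · rfl
    · rintro ⟨p₁, p₂, t⟩
      exact Prod.ext (e₁.apply_symm_apply p₁) (Prod.ext (e₂.apply_symm_apply p₂) rfl)
    · rintro ⟨a, ha⟩ ⟨c, hc⟩
      obtain ⟨ha1, ha2⟩ := (hker a).mp ha
      apply Prod.ext
      · show e₁ ⟨a.fst * c.fst, _⟩ = e₁ _ * e₁ _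
        rw [← map_mul]; rfl
      apply Prod.ext
      · show e₂ ⟨a.snd * c.snd, _⟩ = e₂ _ * e₂ _
        rw [← map_mul]; rfl
      · show a.thd * c.thd * b c.fst a.snd = a.thd * c.thd
        rw [hb2 _ _ ha2, mul_one]

/-- The surjection part for the direct product. -/
theorem exists_prod_surj {Q₁ : Type u} {Q₂ : Type v} [Group Q₁] [Group Q₂] [Finite Q₁] [Finite Q₂]
    {A B : Type*} [CommGroup A] [CommGroup B] (hA : HasSchurMultiplier Q₁ A) (hB : HasSchurMultiplier Q₂ B)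
    {Δ : Type*} [Group Δ] (τ : Δ →* Q₁ × Q₂) (hτ : IsStemExtension τ) :
    ∃ π : A × B × Multiplicative (Wt Q₁ Q₂) →* τ.ker, Function.Surjective π := by
  classical
  obtain ⟨hs, hc, hk⟩ := hτ
  obtain ⟨P, hP1, hP2⟩ := exists_pairing τ hs hc
  let Δ₁ : Subgroup Δ := ((MonoidHom.snd Q₁ Q₂).comp τ).ker
  let Δ₂ : Subgroup Δ := ((MonoidHom.fst Q₁ Q₂).comp τ).ker
  have hΔ₁ : ∀ x, x ∈ Δ₁ ↔ (τ x).2 = 1 := fun x => Iff.rfl
  have hΔ₂ : ∀ x, x ∈ Δ₂ ↔ (τ x).1 = 1 := fun x => Iff.rfl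
  let τ₁ : Δ₁ →* Q₁ := ((MonoidHom.fst Q₁ Q₂).comp τ).comp Δ₁.subtype
  let τ₂ : Δ₂ →* Q₂ := ((MonoidHom.snd Q₁ Q₂).comp τ).comp Δ₂.subtype
  have hτ₁s : Function.Surjective τ₁ := by
    intro q
    obtain ⟨x, hx⟩ := hs (q, 1)
    refine ⟨⟨x, (hΔ₁ x).mpr (by rw [hx])⟩, ?_⟩
    show (τ x).1 = q
    rw [hx]
  have hτ₂s : Function.Surjective τ₂ := by
    intro q
    obtain ⟨x, hx⟩ := hs (1, q)
    refine ⟨⟨x, (hΔ₂ x).mpr (by rw [hx])⟩, ?_⟩
    show (τ x).2 = q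
    rw [hx]
  have hτ₁c : τ₁.ker ≤ Subgroup.center Δ₁ := by
    rintro ⟨x, hx⟩ h
    have h1 : τ x = 1 := Prod.ext h ((hΔ₁ x).mp hx)
    rw [Subgroup.mem_center_iff]
    rintro ⟨y, hy⟩
    exact Subtype.ext ((Subgroup.mem_center_iff.mp (hc h1)) y)
  have hτ₂c : τ₂.ker ≤ Subgroup.center Δ₂ := by
    rintro ⟨x, hx⟩ h
    have h1 : τ x = 1 := Prod.ext ((hΔ₂ x).mp hx) h
    rw [Subgroup.mem_center_iff]
    rintro ⟨y, hy⟩
    exact Subtype.ext ((Subgroup.mem_center_iff.mp (hc h1)) y)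
  obtain ⟨g₁, hg₁⟩ := image_of_central hA τ₁ hτ₁s hτ₁c
  obtain ⟨g₂, hg₂⟩ := image_of_central hB τ₂ hτ₂s hτ₂c
  have hg₁k : ∀ a, τ (g₁ a).1 = 1 := by
    intro a
    have h : g₁ a ∈ g₁.range := ⟨a, rfl⟩
    rw [hg₁] at h
    exact Prod.ext h.1 ((hΔ₁ _).mp (g₁ a).2)
  have hg₂k : ∀ a, τ (g₂ a).1 = 1 := by
    intro a
    have h : g₂ a ∈ g₂.range := ⟨a, rfl⟩
    rw [hg₂] at h
    exact Prod.ext ((hΔ₂ _).mp (g₂ a).2) h.1
  refine ⟨MonoidHom.mk' (fun p => ⟨(g₁ p.1).1 * (g₂ p.2.1).1 * P p.2.2, ?_⟩) ?_, ?_⟩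
  · exact mul_mem (mul_mem (hg₁k _) (hg₂k _)) (hP1 _)
  · rintro ⟨a, a', t⟩ ⟨c, c', t'⟩
    apply Subtype.ext
    show (g₁ (a * c)).1 * (g₂ (a' * c')).1 * P (t * t') = (g₁ a).1 * (g₂ a').1 * P t * ((g₁ c).1 * (g₂ c').1 * P t')
    rw [map_mul, map_mul, map_mul]
    have h1 := (Subgroup.mem_center_iff.mp (hc (hg₁k c)))
    have h2 := (Subgroup.mem_center_iff.mp (hc (hg₂k c')))
    have h3 := (Subgroup.mem_center_iff.mp (hc (hP1 t)))
    show (g₁ a).1 * (g₁ c).1 * ((g₂ a').1 * (g₂ c').1) * (P t * P t') = _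
    calc (g₁ a).1 * (g₁ c).1 * ((g₂ a').1 * (g₂ c').1) * (P t * P t')
        = (g₁ a).1 * ((g₁ c).1 * (g₂ a').1) * (g₂ c').1 * P t * P t' := by group
      _ = (g₁ a).1 * ((g₂ a').1 * (g₁ c).1) * (g₂ c').1 * P t * P t' := by rw [h1]
      _ = (g₁ a).1 * (g₂ a').1 * ((g₁ c).1 * (g₂ c').1 * P t) * P t' := by group
      _ = (g₁ a).1 * (g₂ a').1 * (P t * ((g₁ c).1 * (g₂ c').1)) * P t' := by rw [h3]
      _ = _ := by group
  · -- surjectivity
    rintro ⟨k, hkk⟩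
    let J₁ : Subgroup Δ := ⁅Δ₁, Δ₁⁆
    let J₂ : Subgroup Δ := ⁅Δ₂, Δ₂⁆
    let J₃ : Subgroup Δ := ⁅Δ₁, Δ₂⁆
    haveI hΔ₁n : Δ₁.Normal := MonoidHom.normal_ker _
    haveI hΔ₂n : Δ₂.Normal := MonoidHom.normal_ker _
    haveI hJ₁ : J₁.Normal := Subgroup.commutator_normal _ _
    haveI hJ₂ : J₂.Normal := Subgroup.commutator_normal _ _
    haveI hJ₃ : J₃.Normal := Subgroup.commutator_normal _ _
    let S : Subgroup Δ := J₁ ⊔ J₂ ⊔ J₃
    haveI hS : S.Normal := inferInstance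
    -- decomposition
    have hdec : ∀ d : Δ, ∃ x ∈ Δ₁, ∃ y ∈ Δ₂, d = x * y := by
      intro d
      obtain ⟨x, hx⟩ := hs ((τ d).1, 1)
      refine ⟨x, (hΔ₁ x).mpr (by rw [hx]), x⁻¹ * d, (hΔ₂ _).mpr ?_, by group⟩
      rw [map_mul, map_inv, hx]
      simp
    have hcomm : commutator Δ ≤ S := by
      rw [_root_.commutator_def]
      refine Subgroup.commutator_le.mpr ?_
      intro a _ c _
      have hmk : ∀ u v : Δ, ⁅u, v⁆ ∈ S → Commute (u : Δ ⧸ S) (v : Δ ⧸ S) := by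
        intro u v huv
        rw [commute_iff_eq]
        have h0 : ((⁅u, v⁆ : Δ) : Δ ⧸ S) = 1 := (QuotientGroup.eq_one_iff _).mpr huv
        have h1 : ((⁅u, v⁆ : Δ) : Δ ⧸ S) = ⁅(u : Δ ⧸ S), (v : Δ ⧸ S)⁆ := rfl
        rw [h1, commutatorElement_eq_one_iff_commute] at h0
        exact h0
      obtain ⟨a₁, ha₁, a₂, ha₂, rfl⟩ := hdec a
      obtain ⟨c₁, hc₁, c₂, hc₂, rfl⟩ := hdec c
      have h11 : ⁅a₁, c₁⁆ ∈ S :=
        Subgroup.mem_sup_left (Subgroup.mem_sup_left (Subgroup.commutator_mem_commutator ha₁ hc₁))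
      have h22 : ⁅a₂, c₂⁆ ∈ S :=
        Subgroup.mem_sup_left (Subgroup.mem_sup_right (Subgroup.commutator_mem_commutator ha₂ hc₂))
      have h12 : ⁅a₁, c₂⁆ ∈ S := Subgroup.mem_sup_right (Subgroup.commutator_mem_commutator ha₁ hc₂)
      have h21 : ⁅c₁, a₂⁆ ∈ S := Subgroup.mem_sup_right (Subgroup.commutator_mem_commutator hc₁ ha₂)
      have hfinal : Commute ((a₁ * a₂ : Δ) : Δ ⧸ S) ((c₁ * c₂ : Δ) : Δ ⧸ S) := by
        rw [QuotientGroup.mk_mul, QuotientGroup.mk_mul]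
        exact ((hmk _ _ h11).mul_right (hmk _ _ h12)).mul_left
          (((hmk _ _ h21).symm).mul_right (hmk _ _ h22))
      have h0 : ((⁅a₁ * a₂, c₁ * c₂⁆ : Δ) : Δ ⧸ S) = 1 := by
        have h1 : ((⁅a₁ * a₂, c₁ * c₂⁆ : Δ) : Δ ⧸ S) = ⁅((a₁ * a₂ : Δ) : Δ ⧸ S), ((c₁ * c₂ : Δ) : Δ ⧸ S)⁆ := rfl
        rw [h1, commutatorElement_eq_one_iff_commute]
        exact hfinal
      exact (QuotientGroup.eq_one_iff _).mp h0
    have hkS : k ∈ S := hcomm (hk hkk)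
    obtain ⟨u, hu, w, hw, rfl⟩ := Subgroup.mem_sup_of_normal_right.mp hkS
    obtain ⟨d₁, hd₁, d₂, hd₂, rfl⟩ := Subgroup.mem_sup_of_normal_right.mp hu
    have hJ₃P : J₃ ≤ P.range := by
      refine Subgroup.commutator_le.mpr ?_
      intro x hx y hy
      exact ⟨_, hP2 x y hx hy⟩
    obtain ⟨t, rfl⟩ := hJ₃P hw
    have hd₁Δ : d₁ ∈ Δ₁ := Subgroup.commutator_le_left _ _ hd₁
    have hd₂Δ : d₂ ∈ Δ₂ := Subgroup.commutator_le_left _ _ hd₂
    have hτ0 : τ (d₁ * d₂) = 1 := by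
      have h1 : τ (d₁ * d₂ * P t) = 1 := hkk
      rw [map_mul, hP1 t, mul_one] at h1
      exact h1
    have h1a : (τ d₁).1 = 1 := by
      have := congrArg Prod.fst hτ0
      rw [map_mul] at this
      have h2 : (τ d₁).1 * (τ d₂).1 = 1 := this
      rw [(hΔ₂ _).mp hd₂Δ, mul_one] at h2
      exact h2
    have h2a : (τ d₂).2 = 1 := by
      have := congrArg Prod.snd hτ0
      rw [map_mul] at this
      have h2 : (τ d₁).2 * (τ d₂).2 = 1 := this
      rw [(hΔ₁ _).mp hd₁Δ, one_mul] at h2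
      exact h2
    have hd₁' : (⟨d₁, hd₁Δ⟩ : Δ₁) ∈ g₁.range := by
      rw [hg₁]
      refine ⟨h1a, ?_⟩
      have h3 : d₁ ∈ (commutator Δ₁).map Δ₁.subtype := by
        rw [Subgroup.map_subtype_commutator]; exact hd₁
      obtain ⟨v, hv, hv'⟩ := h3
      have : (⟨d₁, hd₁Δ⟩ : Δ₁) = v := Subtype.ext hv'.symm
      rw [this]; exact hv
    have hd₂' : (⟨d₂, hd₂Δ⟩ : Δ₂) ∈ g₂.range := by
      rw [hg₂]
      refine ⟨h2a, ?_⟩
      have h3 : d₂ ∈ (commutator Δ₂).map Δ₂.subtype := by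
        rw [Subgroup.map_subtype_commutator]; exact hd₂
      obtain ⟨v, hv, hv'⟩ := h3
      have : (⟨d₂, hd₂Δ⟩ : Δ₂) = v := Subtype.ext hv'.symm
      rw [this]; exact hv
    obtain ⟨a, ha⟩ := hd₁'
    obtain ⟨b, hb⟩ := hd₂'
    refine ⟨(a, b, t), ?_⟩
    apply Subtype.ext
    show (g₁ a).1 * (g₂ b).1 * P t = _
    rw [ha, hb]

/-- The Schur multiplier of a direct product. -/
theorem hasSchur_prod {Q₁ : Type u} {Q₂ : Type v} [Group Q₁] [Group Q₂] [Finite Q₁] [Finite Q₂]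
    {A B : Type*} [CommGroup A] [CommGroup B] (hA : HasSchurMultiplier Q₁ A) (hB : HasSchurMultiplier Q₂ B) :
    HasSchurMultiplier (Q₁ × Q₂) (A × B × Multiplicative (Wt Q₁ Q₂)) := by
  obtain ⟨⟨Γ₁, _, _, σ₁, h₁, ⟨e₁⟩⟩, -⟩ := id hA
  obtain ⟨⟨Γ₂, _, _, σ₂, h₂, ⟨e₂⟩⟩, -⟩ := id hB
  refine ⟨exists_prod_cover σ₁ σ₂ h₁ h₂ e₁ e₂, ?_⟩
  intro Δ _ _ τ hτ
  exact exists_prod_surj hA hB τ hτ

theorem hasSchur_congr {Q : Type u} [Group Q] {A A' : Type*} [CommGroup A] [CommGroup A']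
    (h : HasSchurMultiplier Q A) (e : A ≃* A') : HasSchurMultiplier Q A' := by
  obtain ⟨⟨Γ, i1, i2, σ, hσ, ⟨e'⟩⟩, h2⟩ := h
  refine ⟨⟨Γ, i1, i2, σ, hσ, ⟨e'.trans e⟩⟩, ?_⟩
  intro Γ' _ _ σ' hσ'
  obtain ⟨π, hπ⟩ := h2 Γ' σ' hσ'
  exact ⟨π.comp e.symm.toMonoidHom, hπ.comp e.symm.surjective⟩

end Cfsg.Agent.Lib.HopfProd
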