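import Mathlib
import Cfsg.Agent.Lib.Hopf

/-!
Projective representations and Schur covers.
-/

set_option autoImplicit false
set_option linter.all false

namespace Cfsg.Agent.Lib.HopfRep

open Cfsg
open scoped commutatorElement
open Cfsg.Agent.Lib.Hopf

universe u v w

theorem exists_root (z : ℂˣ) (n : ℤ) (hn : n ≠ 0) : ∃ w : ℂˣ, w ^ n = z := by
  have key : ∀ (y : ℂˣ) (m : ℕ), m ≠ 0 → ∃ w : ℂˣ, w ^ m = y := by
    intro y m hm
    obtain ⟨w, hw⟩ := IsAlgClosed.exists_pow_nat_eq (y : ℂ) (Nat.pos_of_ne_zero hm)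
    have hw0 : w ≠ 0 := by
      intro h
      rw [h, zero_pow hm] at hw
      exact y.ne_zero hw.symm
    refine ⟨Units.mk0 w hw0, ?_⟩
    apply Units.ext
    simpa using hw
  obtain ⟨m, rfl | rfl⟩ := n.eq_nat_or_neg
  · have hm : m ≠ 0 := by simpa using hn
    obtain ⟨w, hw⟩ := key z m hm
    exact ⟨w, by simpa using hw⟩
  · have hm : m ≠ 0 := by simpa using hn
    obtain ⟨w, hw⟩ := key z⁻¹ m hm
    refine ⟨w, ?_⟩
    rw [zpow_neg, zpow_natCast, hw, inv_inv]

/-- `ℂˣ` is an injective abelian group. -/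
theorem exists_char_ext {X : Type*} [CommGroup X] (φ : ℂˣ →* X) (hφ : Function.Injective φ) :
    ∃ f : X →* ℂˣ, ∀ c, f (φ c) = c := by
  letI : DivisibleBy (Additive ℂˣ) ℤ := divisibleByOfSMulRightSurj (A := Additive ℂˣ) (α := ℤ) (by
    intro n hn a
    obtain ⟨w, hw⟩ := exists_root (Additive.toMul a) n hn
    exact ⟨Additive.ofMul w, congrArg Additive.ofMul hw⟩)
  obtain ⟨h, hh⟩ := (Module.Baer.of_divisible (Additive ℂˣ)).extension_property_addMonoidHom
    (MonoidHom.toAdditive φ) hφ (AddMonoidHom.id _)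
  refine ⟨MonoidHom.mk' (fun x => Additive.toMul (h (Additive.ofMul x))) ?_, ?_⟩
  · intro x y
    rw [ofMul_mul, map_add, toMul_add]
  · intro c
    have := congrArg (fun g : Additive ℂˣ →+ Additive ℂˣ => Additive.toMul (g (Additive.ofMul c))) hh
    exact this

theorem scalar_injective {n : ℕ} (hn : 0 < n) :
    Function.Injective (Matrix.GeneralLinearGroup.scalar (Fin n) : ℂˣ →* GL (Fin n) ℂ) := by
  intro a b hab
  have h1 := congrArg (fun g : GL (Fin n) ℂ => (g : Matrix (Fin n) (Fin n) ℂ) ⟨0, hn⟩ ⟨0, hn⟩) hab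
  simp only [Matrix.GeneralLinearGroup.coe_scalar, Matrix.scalar_apply, Matrix.diagonal_apply_eq] at h1
  exact Units.ext h1

/-- Homomorphisms to `PGL` lift along a Schur cover. -/
theorem lift_projective {Q : Type*} [Group Q] [Finite Q] {A : Type*} [CommGroup A]
    (hA : HasSchurMultiplier Q A) {Γ : Type*} [Group Γ] [Finite Γ] (σ : Γ →* Q)
    (hσ : IsStemExtension σ) (hk : Nonempty (σ.ker ≃* A)) (n : ℕ)
    (γ : Q →* (GL (Fin n) ℂ ⧸ Subgroup.center (GL (Fin n) ℂ))) :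
    ∃ ρ : Γ →* GL (Fin n) ℂ, (QuotientGroup.mk' (Subgroup.center (GL (Fin n) ℂ))).comp ρ = γ.comp σ := by
  classical
  rcases Nat.eq_zero_or_pos n with rfl | hn
  · refine ⟨1, ?_⟩
    apply MonoidHom.ext
    intro g
    have hsub : Subsingleton (GL (Fin 0) ℂ) := ⟨fun a b => by
      apply Units.ext
      apply Matrix.ext
      intro i
      exact i.elim0⟩
    have hsub2 : Subsingleton (GL (Fin 0) ℂ ⧸ Subgroup.center (GL (Fin 0) ℂ)) := by
      refine ⟨fun a b => ?_⟩
      obtain ⟨x, rfl⟩ := QuotientGroup.mk_surjective a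
      obtain ⟨y, rfl⟩ := QuotientGroup.mk_surjective b
      rw [Subsingleton.elim x y]
    exact Subsingleton.elim _ _
  set P := GL (Fin n) ℂ with hP
  set Z := Subgroup.center P with hZ
  have hcenter : Z = (Matrix.GeneralLinearGroup.scalar (Fin n) : ℂˣ →* P).range :=
    Matrix.GeneralLinearGroup.center_eq_range_scalar
  let mk := QuotientGroup.mk' Z
  let E : Subgroup (Γ × P) :=
    (mk.comp (MonoidHom.snd Γ P)).eqLocus (γ.comp (σ.comp (MonoidHom.fst Γ P)))
  have hE : ∀ x : Γ × P, x ∈ E ↔ mk x.2 = γ (σ x.1) := fun x => Iff.rfl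
  let p₁ : E →* Γ := (MonoidHom.fst Γ P).comp E.subtype
  let p₂ : E →* P := (MonoidHom.snd Γ P).comp E.subtype
  let τ : E →* Q := σ.comp p₁
  have hp₁ : Function.Surjective p₁ := by
    intro g
    obtain ⟨m, hm⟩ := QuotientGroup.mk_surjective (γ (σ g))
    exact ⟨⟨(g, m), (hE (g, m)).mpr hm⟩, rfl⟩
  have hτs : Function.Surjective τ := hσ.1.comp hp₁
  have hτc : τ.ker ≤ Subgroup.center E := by
    rintro ⟨⟨g, m⟩, hx⟩ hker
    have hg : σ g = 1 := hker
    have hm : mk m = 1 := by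
      have := (hE (g, m)).mp hx
      simp only at this
      rw [this, hg, map_one]
    have hm' : m ∈ Z := (QuotientGroup.eq_one_iff m).mp hm
    rw [Subgroup.mem_center_iff]
    rintro ⟨⟨g', m'⟩, hx'⟩
    apply Subtype.ext
    apply Prod.ext
    · exact (Subgroup.mem_center_iff.mp (hσ.2.1 hg)) g'
    · exact (Subgroup.mem_center_iff.mp hm') m'
  obtain ⟨g, hg⟩ := image_of_central hA τ hτs hτc
  obtain ⟨e⟩ := hk
  haveI : Finite A := finite_of_hasSchur hA
  have hmem : ∀ a, p₁ (g a) ∈ σ.ker := by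
    intro a
    have : g a ∈ τ.ker ⊓ commutator E := by rw [← hg]; exact ⟨a, rfl⟩
    exact this.1
  have hsurj : ∀ k ∈ σ.ker, ∃ a, p₁ (g a) = k := by
    intro k hk
    have h1 : k ∈ (commutator E).map p₁ := by
      rw [_root_.commutator_def, Subgroup.map_commutator, Subgroup.map_top_of_surjective p₁ hp₁,
        ← _root_.commutator_def]
      exact hσ.2.2 hk
    obtain ⟨x, hx, rfl⟩ := h1
    have h2 : x ∈ g.range := by
      rw [hg]; exact ⟨hk, hx⟩
    obtain ⟨a, rfl⟩ := h2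
    exact ⟨a, rfl⟩
  let s : A → A := fun a => e ⟨p₁ (g a), hmem a⟩
  have hs : Function.Surjective s := by
    intro b
    obtain ⟨a, ha⟩ := hsurj (e.symm b).1 (e.symm b).2
    refine ⟨a, ?_⟩
    have : (⟨p₁ (g a), hmem a⟩ : σ.ker) = e.symm b := Subtype.ext ha
    show e ⟨p₁ (g a), hmem a⟩ = b
    rw [this]; simp
  have hi : Function.Injective s := Finite.injective_iff_surjective.mpr hs
  have hinj : ∀ a, p₁ (g a) = 1 → a = 1 := by
    intro a ha
    apply hi
    show e ⟨p₁ (g a), hmem a⟩ = e ⟨p₁ (g 1), hmem 1⟩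
    congr 1
    apply Subtype.ext
    show p₁ (g a) = p₁ (g 1)
    rw [ha, map_one, map_one]
  have hker : ∀ x ∈ commutator E, p₁ x = 1 → x = 1 := by
    intro x hx h1
    have h2 : x ∈ g.range := by
      rw [hg]
      refine ⟨?_, hx⟩
      show σ (p₁ x) = 1
      rw [h1, map_one]
    obtain ⟨a, rfl⟩ := h2
    rw [hinj a h1, map_one]
  let sc : ℂˣ →* P := Matrix.GeneralLinearGroup.scalar (Fin n)
  have hsc : ∀ c, sc c ∈ Z := by
    intro c
    rw [hcenter]
    exact ⟨c, rfl⟩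
  have hsci := scalar_injective hn
  let ι : ℂˣ →* E := (MonoidHom.inr Γ P |>.comp sc).codRestrict E (by
    intro c
    refine (hE _).mpr ?_
    show mk (sc c) = γ (σ 1)
    rw [map_one, map_one]
    exact (QuotientGroup.eq_one_iff _).mpr (hsc c))
  let φ : ℂˣ →* Abelianization E := Abelianization.of.comp ι
  have hφ : Function.Injective φ := by
    rw [injective_iff_map_eq_one]
    intro c hc
    have h1 : ι c ∈ (Abelianization.of : E →* _).ker := hc
    rw [Abelianization.ker_of] at h1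
    have h2 := hker _ h1 rfl
    have h3 : sc c = 1 := congrArg (fun x : E => x.1.2) h2
    exact hsci (h3.trans (map_one sc).symm)
  obtain ⟨f₀, hf₀⟩ := exists_char_ext φ hφ
  let f : E →* ℂˣ := f₀.comp Abelianization.of
  have hf : ∀ c, f (ι c) = c := hf₀
  have hsc' : ∀ (c : ℂˣ) (m : P), m * sc c = sc c * m := fun c m =>
    (Subgroup.mem_center_iff.mp (hsc c) m)
  let ρ' : E →* P := MonoidHom.mk' (fun x => sc (f x)⁻¹ * p₂ x) (by
    intro x y
    rw [map_mul, map_mul, mul_inv, map_mul]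
    have := hsc' (f y)⁻¹ (p₂ x)
    calc sc (f x)⁻¹ * sc (f y)⁻¹ * (p₂ x * p₂ y) = sc (f x)⁻¹ * (sc (f y)⁻¹ * p₂ x) * p₂ y := by group
      _ = sc (f x)⁻¹ * (p₂ x * sc (f y)⁻¹) * p₂ y := by rw [this]
      _ = _ := by group)
  have hker' : p₁.ker ≤ ρ'.ker := by
    rintro ⟨⟨g', m⟩, hx⟩ h1
    have hg' : g' = 1 := h1
    have hm : mk m = 1 := by
      have := (hE (g', m)).mp hx
      simp only at this
      rw [this, hg', map_one, map_one]
    have hm' : m ∈ Z := (QuotientGroup.eq_one_iff m).mp hm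
    rw [hcenter] at hm'
    obtain ⟨c, hc⟩ := hm'
    have hx' : (⟨(g', m), hx⟩ : E) = ι c := by
      apply Subtype.ext
      apply Prod.ext
      · exact hg'
      · exact hc.symm
    show sc (f ⟨(g', m), hx⟩)⁻¹ * m = 1
    rw [hx', hf]
    have : sc c = m := hc
    rw [map_inv, this]; group
  let ρ : Γ →* P := p₁.liftOfSurjective hp₁ ⟨ρ', hker'⟩
  have hρ : ∀ x : E, ρ (p₁ x) = ρ' x := fun x =>
    p₁.liftOfRightInverse_comp_apply _ (Function.rightInverse_surjInv hp₁) ⟨ρ', hker'⟩ x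
  refine ⟨ρ, ?_⟩
  apply MonoidHom.ext
  intro g'
  obtain ⟨x, rfl⟩ := hp₁ g'
  show mk (ρ (p₁ x)) = γ (σ (p₁ x))
  rw [hρ]
  show mk (sc (f x)⁻¹ * p₂ x) = _
  have h1 : mk (sc (f x)⁻¹) = 1 := (QuotientGroup.eq_one_iff _).mpr (hsc _)
  rw [map_mul, h1, one_mul]
  exact (hE x.1).mp x.2

/-- A representation of `Δ` on which the central subgroup `K` acts through a prescribed character. -/
theorem exists_rep_over {Δ : Type*} [Group Δ] [Finite Δ] (K : Subgroup Δ) (hK : K ≤ Subgroup.center Δ)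
    (lam : K →* ℂˣ) :
    ∃ (n : ℕ) (_ : 0 < n) (R : Δ →* GL (Fin n) ℂ),
      ∀ z : K, R z.1 = Matrix.GeneralLinearGroup.scalar (Fin n) (lam z) := by
  classical
  let W : Submodule ℂ (Δ → ℂ) :=
    { carrier := {f | ∀ (z : K) (x : Δ), f (x * z.1) = ((lam z)⁻¹ : ℂˣ) * f x}
      add_mem' := fun {a b} ha hb z x => by
        show a (x * z.1) + b (x * z.1) = _ * (a x + b x)
        rw [ha z x, hb z x]; ring
      zero_mem' := fun z x => by simp
      smul_mem' := fun c f hf z x => by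
        show c * f (x * z.1) = _ * (c * f x)
        rw [hf z x]; ring }
  let act : Δ → (W →ₗ[ℂ] W) := fun g =>
    { toFun := fun f => ⟨fun x => f.1 (g⁻¹ * x), fun z x => by
        have := f.2 z (g⁻¹ * x)
        rw [mul_assoc] at this
        exact this⟩
      map_add' := fun a b => rfl
      map_smul' := fun c a => rfl }
  let rep : Δ →* Module.End ℂ W :=
    { toFun := act
      map_one' := by
        apply LinearMap.ext
        intro f
        apply Subtype.ext
        funext x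
        show f.1 (1⁻¹ * x) = f.1 x
        simp
      map_mul' := fun g h => by
        apply LinearMap.ext
        intro f
        apply Subtype.ext
        funext x
        show f.1 ((g * h)⁻¹ * x) = f.1 (h⁻¹ * (g⁻¹ * x))
        congr 1
        group }
  have hrep : ∀ z : K, rep z.1 = (((lam z : ℂˣ) : ℂ)) • (1 : Module.End ℂ W) := by
    intro z
    apply LinearMap.ext
    intro f
    apply Subtype.ext
    funext x
    show f.1 (z.1⁻¹ * x) = ((lam z : ℂˣ) : ℂ) * f.1 x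
    have h1 : z.1⁻¹ * x = x * (z⁻¹ : K).1 := by
      have := (Subgroup.mem_center_iff.mp (hK (z⁻¹ : K).2)) x
      exact this.symm ▸ rfl
    rw [h1, f.2 z⁻¹ x, map_inv, inv_inv]
  haveI : Nontrivial W := by
    let f₀ : Δ → ℂ := fun x => if h : x ∈ K then (((lam ⟨x, h⟩)⁻¹ : ℂˣ) : ℂ) else 0
    have hf₀ : f₀ ∈ W := by
      intro z x
      by_cases hx : x ∈ K
      · have hxz : x * z.1 ∈ K := mul_mem hx z.2
        simp only [f₀, dif_pos hx, dif_pos hxz]
        have : (⟨x * z.1, hxz⟩ : K) = ⟨x, hx⟩ * z := rfl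
        rw [this, map_mul, mul_inv, Units.val_mul, mul_comm]
      · have hxz : x * z.1 ∉ K := fun h => hx (by simpa using mul_mem h (inv_mem z.2))
        simp [f₀, dif_neg hx, dif_neg hxz]
    refine ⟨⟨⟨f₀, hf₀⟩, 0, ?_⟩⟩
    intro h
    have this : f₀ 1 = (0 : Δ → ℂ) 1 := congrFun (congrArg Subtype.val h) 1
    have h1 : f₀ 1 = 1 := by
      have h2 : (1 : Δ) ∈ K := one_mem K
      simp only [f₀, dif_pos h2]
      have : (⟨1, h2⟩ : K) = 1 := rfl
      rw [this, map_one]; simp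
    rw [h1] at this
    exact one_ne_zero this
  let b := Module.finBasis ℂ W
  refine ⟨Module.finrank ℂ W, Module.finrank_pos, ?_⟩
  let Mx := LinearMap.toMatrixAlgEquiv b
  let R₀ : Δ →* Matrix (Fin (Module.finrank ℂ W)) (Fin (Module.finrank ℂ W)) ℂ :=
    (Mx.toAlgHom.toMonoidHom).comp rep
  refine ⟨R₀.toHomUnits, ?_⟩
  intro z
  apply Units.ext
  show Mx (rep z.1) = _
  rw [hrep, Matrix.GeneralLinearGroup.coe_scalar, map_smul, map_one]
  ext i j
  simp [Matrix.scalar_apply, Matrix.one_apply, Matrix.diagonal_apply]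

/-- A stem extension along which every projective representation lifts is a Schur cover. -/
theorem surj_of_lift {Q : Type*} [Group Q] [Finite Q] {Γ : Type*} [Group Γ] [Finite Γ] (σ : Γ →* Q)
    (hσ : IsStemExtension σ)
    (hlift : ∀ (n : ℕ) (γ : Q →* (GL (Fin n) ℂ ⧸ Subgroup.center (GL (Fin n) ℂ))),
      ∃ ρ : Γ →* GL (Fin n) ℂ, (QuotientGroup.mk' (Subgroup.center (GL (Fin n) ℂ))).comp ρ = γ.comp σ)
    {Δ : Type*} [Group Δ] [Finite Δ] (τ : Δ →* Q) (hτ : IsStemExtension τ) :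
    ∃ π : σ.ker →* τ.ker, Function.Surjective π := by
  classical
  let E : Subgroup (Γ × Δ) := (σ.comp (MonoidHom.fst Γ Δ)).eqLocus (τ.comp (MonoidHom.snd Γ Δ))
  have hE : ∀ x : Γ × Δ, x ∈ E ↔ σ x.1 = τ x.2 := fun x => Iff.rfl
  let p₁ : E →* Γ := (MonoidHom.fst Γ Δ).comp E.subtype
  let p₂ : E →* Δ := (MonoidHom.snd Γ Δ).comp E.subtype
  have hp₁ : Function.Surjective p₁ := by
    intro g
    obtain ⟨d, hd⟩ := hτ.1 (σ g)
    exact ⟨⟨(g, d), (hE _).mpr hd.symm⟩, rfl⟩
  have hp₂ : Function.Surjective p₂ := by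
    intro d
    obtain ⟨g, hg⟩ := hσ.1 (τ d)
    exact ⟨⟨(g, d), (hE _).mpr hg⟩, rfl⟩
  have hcomm1 : (commutator E).map p₁ = commutator Γ := by
    rw [_root_.commutator_def, Subgroup.map_commutator, Subgroup.map_top_of_surjective p₁ hp₁,
        ← _root_.commutator_def]
  have hcomm2 : (commutator E).map p₂ = commutator Δ := by
    rw [_root_.commutator_def, Subgroup.map_commutator, Subgroup.map_top_of_surjective p₂ hp₂,
        ← _root_.commutator_def]
  -- the crucial vanishing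
  have key : ∀ x ∈ commutator E, p₁ x = 1 → p₂ x = 1 := by
    intro x hx h1
    by_contra hne
    have hk : τ (p₂ x) = 1 := by
      have := (hE x.1).mp x.2
      have h2 : σ (p₁ x) = τ (p₂ x) := this
      rw [← h2, h1, map_one]
    let K := τ.ker
    letI : CommGroup K :=
      { (inferInstance : Group K) with
        mul_comm := fun a b => by
          apply Subtype.ext
          exact ((Subgroup.mem_center_iff.mp (hτ.2.1 a.2)) b.1).symm }
    haveI : NeZero ((Monoid.exponent K : ℕ) : ℂ) :=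
      ⟨by exact_mod_cast (Monoid.exponent_ne_zero_of_finite (G := K))⟩
    have hne' : (⟨p₂ x, hk⟩ : K) ≠ 1 := fun h => hne (congrArg Subtype.val h)
    obtain ⟨lam, hlam⟩ := CommGroup.exists_apply_ne_one_of_hasEnoughRootsOfUnity K ℂ hne'
    obtain ⟨n, hn, R, hR⟩ := exists_rep_over K hτ.2.1 lam
    have hsci := scalar_injective hn
    let Z := Subgroup.center (GL (Fin n) ℂ)
    have hcenter : Z = (Matrix.GeneralLinearGroup.scalar (Fin n) : ℂˣ →* GL (Fin n) ℂ).range :=
      Matrix.GeneralLinearGroup.center_eq_range_scalar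
    let mk := QuotientGroup.mk' Z
    have hker : τ.ker ≤ (mk.comp R).ker := by
      intro z hz
      show mk (R z) = 1
      have : R z = Matrix.GeneralLinearGroup.scalar (Fin n) (lam ⟨z, hz⟩) := hR ⟨z, hz⟩
      rw [this]
      apply (QuotientGroup.eq_one_iff _).mpr
      rw [hcenter]
      exact ⟨_, rfl⟩
    let γ : Q →* (GL (Fin n) ℂ ⧸ Z) := τ.liftOfSurjective hτ.1 ⟨mk.comp R, hker⟩
    have hγ : ∀ d, γ (τ d) = mk (R d) := fun d =>
      τ.liftOfRightInverse_comp_apply _ (Function.rightInverse_surjInv hτ.1) ⟨mk.comp R, hker⟩ d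
    obtain ⟨ρ, hρ⟩ := hlift n γ
    have hρ' : ∀ g, mk (ρ g) = γ (σ g) := fun g => congrArg (fun φ : Γ →* (GL (Fin n) ℂ ⧸ Z) => φ g) hρ
    have hcen : ∀ y : E, R y.1.2 * (ρ y.1.1)⁻¹ ∈ Z := by
      intro y
      apply (QuotientGroup.eq_one_iff _).mp
      show mk (R y.1.2 * (ρ y.1.1)⁻¹) = 1
      rw [map_mul, map_inv, hρ', (hE y.1).mp y.2, hγ]
      group
    let Θ : E →* GL (Fin n) ℂ := MonoidHom.mk' (fun y => R y.1.2 * (ρ y.1.1)⁻¹) (by
      intro a b
      have h1 := (Subgroup.mem_center_iff.mp (hcen b)) (ρ a.1.1)⁻¹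
      show R (a.1.2 * b.1.2) * (ρ (a.1.1 * b.1.1))⁻¹ = _
      rw [map_mul, map_mul, mul_inv_rev]
      calc R a.1.2 * R b.1.2 * ((ρ b.1.1)⁻¹ * (ρ a.1.1)⁻¹)
          = R a.1.2 * (R b.1.2 * (ρ b.1.1)⁻¹ * (ρ a.1.1)⁻¹) := by group
        _ = R a.1.2 * ((ρ a.1.1)⁻¹ * (R b.1.2 * (ρ b.1.1)⁻¹)) := by rw [h1]
        _ = _ := by group)
    have hΘ : commutator E ≤ Θ.ker := by
      rw [_root_.commutator_def]
      refine Subgroup.commutator_le.mpr ?_
      intro a _ b _
      rw [MonoidHom.mem_ker, map_commutatorElement, commutatorElement_eq_one_iff_commute]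
      exact (Subgroup.mem_center_iff.mp (hcen b)) (Θ a)
    have h3 : Θ x = 1 := hΘ hx
    have h4 : R (p₂ x) * (ρ (p₁ x))⁻¹ = 1 := h3
    rw [h1, map_one, inv_one, mul_one] at h4
    have h5 : R (p₂ x) = Matrix.GeneralLinearGroup.scalar (Fin n) (lam ⟨p₂ x, hk⟩) := hR ⟨p₂ x, hk⟩
    rw [h5] at h4
    exact hlam (hsci (h4.trans (map_one _).symm))
  have hσk : ∀ c : σ.ker, ∃ x ∈ commutator E, p₁ x = c.1 := by
    intro c
    have h1 : c.1 ∈ (commutator E).map p₁ := by
      rw [hcomm1]; exact hσ.2.2 c.2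
    obtain ⟨x, hx, he⟩ := h1
    exact ⟨x, hx, he⟩
  choose fx hfx1 hfx2 using hσk
  have hτk : ∀ c : σ.ker, τ (p₂ (fx c)) = 1 := by
    intro c
    have h2 : σ (p₁ (fx c)) = τ (p₂ (fx c)) := (hE _).mp (fx c).2
    rw [← h2, hfx2]
    exact c.2
  have huniq : ∀ x y : E, x ∈ commutator E → y ∈ commutator E → p₁ x = p₁ y → p₂ x = p₂ y := by
    intro x y hx hy h
    have h1 := key (x * y⁻¹) (mul_mem hx (inv_mem hy)) (by rw [map_mul, map_inv, h]; group)
    rw [map_mul, map_inv] at h1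
    exact mul_inv_eq_one.mp h1
  refine ⟨MonoidHom.mk' (fun c => ⟨p₂ (fx c), hτk c⟩) ?_, ?_⟩
  · intro a b
    apply Subtype.ext
    show p₂ (fx (a * b)) = p₂ (fx a) * p₂ (fx b)
    rw [← map_mul]
    apply huniq _ _ (hfx1 _) (mul_mem (hfx1 _) (hfx1 _))
    rw [map_mul, hfx2, hfx2, hfx2]
    rfl
  · rintro ⟨k, hk⟩
    have h1 : k ∈ (commutator E).map p₂ := by
      rw [hcomm2]; exact hτ.2.2 hk
    obtain ⟨x, hx, rfl⟩ := h1
    have hxk : p₁ x ∈ σ.ker := by
      show σ (p₁ x) = 1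
      have h2 : σ (p₁ x) = τ (p₂ x) := (hE _).mp x.2
      rw [h2]; exact hk
    refine ⟨⟨p₁ x, hxk⟩, ?_⟩
    apply Subtype.ext
    show p₂ (fx ⟨p₁ x, hxk⟩) = p₂ x
    apply huniq _ _ (hfx1 _) hx
    rw [hfx2]

end Cfsg.Agent.Lib.HopfRep
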