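import Mathlib
import Cfsg.Agent.Lib.Hopf
import Cfsg.Agent.Lib.CoherenceCent
import Cfsg.Agent.Lib.CharDeg

/-!
Schur multipliers of subgroups, via transfer.
-/

set_option autoImplicit false
set_option linter.all false

namespace Cfsg.Agent.Lib.HopfTrans

open Cfsg
open scoped commutatorElement
open Cfsg.Agent.Lib.Hopf

universe u v w

/-- A quotient of a finite abelian group embeds in it. -/
theorem embed_of_surj {Y X : Type*} [CommGroup Y] [CommGroup X] [Finite Y] (g : Y →* X)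
    (hs : Function.Surjective g) : ∃ C : Subgroup Y, Nonempty (X ≃* C) := by
  haveI : Finite X := Finite.of_surjective g hs
  haveI : NeZero ((Monoid.exponent Y : ℕ) : ℂ) :=
    ⟨by exact_mod_cast (Monoid.exponent_ne_zero_of_finite (G := Y))⟩
  haveI : NeZero ((Monoid.exponent X : ℕ) : ℂ) :=
    ⟨by exact_mod_cast (Monoid.exponent_ne_zero_of_finite (G := X))⟩
  obtain ⟨eY⟩ := CommGroup.monoidHom_mulEquiv_of_hasEnoughRootsOfUnity Y ℂ
  obtain ⟨eX⟩ := CommGroup.monoidHom_mulEquiv_of_hasEnoughRootsOfUnity X ℂ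
  let d : (X →* ℂˣ) →* (Y →* ℂˣ) := MonoidHom.mk' (fun φ => φ.comp g) (fun a b => rfl)
  have hd : Function.Injective d := by
    intro a b hab
    apply MonoidHom.ext
    intro x
    obtain ⟨y, rfl⟩ := hs x
    exact congrArg (fun φ : Y →* ℂˣ => φ y) hab
  let θ : X →* Y := eY.toMonoidHom.comp (d.comp eX.symm.toMonoidHom)
  have hθ : Function.Injective θ := eY.injective.comp (hd.comp eX.symm.injective)
  exact ⟨θ.range, ⟨MonoidHom.ofInjective hθ⟩⟩

theorem pow_index_subgroup {G : Type*} [Group G] [Finite G] (U : Subgroup G) {A B : Type*} [CommGroup A]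
    [CommGroup B] (hA : HasSchurMultiplier G A) (hB : HasSchurMultiplier U B) :
    ∃ C : Subgroup B, Nonempty ((powMonoidHom U.index : A →* A).range ≃* C) := by
  classical
  obtain ⟨⟨Γ, _, _, σ, hσ, ⟨e⟩⟩, -⟩ := hA
  haveI : Finite B := finite_of_hasSchur hB
  let ΓU : Subgroup Γ := U.comap σ
  let τ : ΓU →* U := σ.subgroupComap U
  have hτs : Function.Surjective τ := σ.subgroupComap_surjective_of_surjective U hσ.1
  have hτk : ∀ x : ΓU, x ∈ τ.ker ↔ σ x.1 = 1 := by
    intro x
    rw [MonoidHom.mem_ker]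
    exact Subtype.ext_iff
  have hτc : τ.ker ≤ Subgroup.center ΓU := by
    rintro ⟨x, hx⟩ h
    have h1 : σ x = 1 := (hτk _).mp h
    rw [Subgroup.mem_center_iff]
    rintro ⟨y, hy⟩
    exact Subtype.ext ((Subgroup.mem_center_iff.mp (hσ.2.1 h1)) y)
  obtain ⟨g, hg⟩ := image_of_central hB τ hτs hτc
  have hidx : ΓU.index = U.index := Subgroup.index_comap_of_surjective U hσ.1
  let ϕ : ΓU →* Abelianization ΓU := Abelianization.of
  have hpow : ∀ z ∈ σ.ker, ∀ h : z ^ U.index ∈ ΓU, (⟨z ^ U.index, h⟩ : ΓU) ∈ g.range := by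
    intro z hz h
    have hzc := Subgroup.mem_center_iff.mp (hσ.2.1 hz)
    have h1 : ϕ.transfer z = ϕ ⟨z ^ ΓU.index, _⟩ := MonoidHom.transfer_eq_pow ϕ z (by
      intro k g₀ _
      have : z ^ k ∈ Subgroup.center Γ := pow_mem (hσ.2.1 hz) k
      rw [(Subgroup.mem_center_iff.mp this) g₀⁻¹]
      group)
    have h2 : ϕ.transfer z = 1 := by
      have : commutator Γ ≤ ϕ.transfer.ker := by
        rw [_root_.commutator_def]
        refine Subgroup.commutator_le.mpr ?_
        intro a _ b _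
        rw [MonoidHom.mem_ker, map_commutatorElement, commutatorElement_def, mul_comm (ϕ.transfer a),
          mul_inv_cancel_right, mul_inv_cancel]
      exact this (hσ.2.2 hz)
    rw [h2] at h1
    have h3 : (⟨z ^ ΓU.index, MonoidHom.transfer_eq_pow_aux z (by
      intro k g₀ _
      have : z ^ k ∈ Subgroup.center Γ := pow_mem (hσ.2.1 hz) k
      rw [(Subgroup.mem_center_iff.mp this) g₀⁻¹]
      group)⟩ : ΓU) ∈ (Abelianization.of : ΓU →* _).ker := h1.symm
    rw [Abelianization.ker_of] at h3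
    rw [hg]
    refine ⟨(hτk _).mpr ?_, ?_⟩
    · show σ (z ^ U.index) = 1
      rw [map_pow, MonoidHom.mem_ker.mp hz, one_pow]
    · have : (⟨z ^ U.index, h⟩ : ΓU) = ⟨z ^ ΓU.index, MonoidHom.transfer_eq_pow_aux z (by
        intro k g₀ _
        have : z ^ k ∈ Subgroup.center Γ := pow_mem (hσ.2.1 hz) k
        rw [(Subgroup.mem_center_iff.mp this) g₀⁻¹]
        group)⟩ := Subtype.ext (by simp only [hidx])
      rw [this]; exact h3
  have hkΓU : ∀ x : σ.ker, x.1 ∈ ΓU := by
    intro x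
    show σ x.1 ∈ U
    rw [MonoidHom.mem_ker.mp x.2]; exact one_mem U
  let j : A →* ΓU := MonoidHom.mk' (fun a => ⟨(e.symm a).1, hkΓU _⟩) (by
    intro a c
    apply Subtype.ext
    show (e.symm (a * c)).1 = _
    rw [map_mul]; rfl)
  have hj : Function.Injective j := by
    intro a c hac
    have h1 : (e.symm a).1 = (e.symm c).1 := congrArg (fun x : ΓU => x.1) hac
    exact e.symm.injective (Subtype.ext h1)
  let X : Subgroup A := (powMonoidHom U.index : A →* A).range
  let V : Subgroup ΓU := X.map j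
  have hV : V ≤ g.range := by
    rintro _ ⟨_, ⟨a, rfl⟩, rfl⟩
    have h1 : j ((powMonoidHom U.index : A →* A) a) = ⟨(e.symm a).1 ^ U.index, by
        show (e.symm a).1 ^ U.index ∈ ΓU
        exact pow_mem (hkΓU _) _⟩ := by
      apply Subtype.ext
      show (e.symm (a ^ U.index)).1 = _
      rw [map_pow]; rfl
    rw [h1]
    exact hpow _ (e.symm a).2 _
  let Y : Subgroup B := V.comap g
  let gV : Y →* V := (g.comp Y.subtype).codRestrict V (fun y => y.2)
  have hgV : Function.Surjective gV := by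
    rintro ⟨v, hv⟩
    obtain ⟨b, rfl⟩ := hV hv
    exact ⟨⟨b, hv⟩, rfl⟩
  let gX : Y →* X := (Subgroup.equivMapOfInjective X j hj).symm.toMonoidHom.comp gV
  have hgX : Function.Surjective gX :=
    (Subgroup.equivMapOfInjective X j hj).symm.surjective.comp hgV
  obtain ⟨C₀, ⟨eC⟩⟩ := embed_of_surj gX hgX
  refine ⟨C₀.map Y.subtype, ⟨eC.trans (Subgroup.equivMapOfInjective C₀ Y.subtype Y.subtype_injective)⟩⟩

open Classical in
theorem exponent_sq_aux {Γ : Type*} [Group Γ] [Fintype Γ] (Z : Subgroup Γ) (hZc : Z ≤ Subgroup.center Γ)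
    (hZd : Z ≤ commutator Γ) {A : Type*} [CommGroup A] [Finite A] (e : Z ≃* A) :
    Monoid.exponent A ^ 2 ∣ Z.index := by
  haveI : NeZero ((Monoid.exponent A : ℕ) : ℂ) :=
    ⟨by exact_mod_cast (Monoid.exponent_ne_zero_of_finite (G := A))⟩
  obtain ⟨eA⟩ := CommGroup.monoidHom_mulEquiv_of_hasEnoughRootsOfUnity A ℂ
  obtain ⟨z₀, hz₀⟩ := Monoid.exists_orderOf_eq_exponent
    (Monoid.exponent_ne_zero.mp (Monoid.exponent_ne_zero_of_finite (G := A)))
  let lamA : A →* ℂˣ := eA.symm z₀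
  have hlamA : orderOf lamA = Monoid.exponent A := by
    show orderOf (eA.symm z₀) = _
    rw [MulEquiv.orderOf_eq, hz₀]
  have hZ : ∀ z ∈ Z, ∀ k : Γ, z * k = k * z := fun z hz k =>
    ((Subgroup.mem_center_iff.mp (hZc hz)) k).symm
  let lam : Z →* ℂˣ := lamA.comp e.toMonoidHom
  have hsum := Cfsg.Agent.Lib.CoherenceCent.sum_deg_sq_over Z hZ lam
  rw [← hsum]
  apply Finset.dvd_sum
  intro θ hθ
  have hθ' := (Finset.mem_filter.mp hθ).2
  apply pow_dvd_pow_of_dvd
  rw [← hlamA, orderOf_dvd_iff_pow_eq_one]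
  obtain ⟨n, ρ, hρ, hχ⟩ := θ.2
  have hdeg : n = Cfsg.Agent.Lib.CharAb.deg θ := by
    have h1 := Cfsg.Agent.Lib.CharAb.apply_one_eq_deg θ
    have h2 : θ.1 1 = (n : ℂ) := by
      rw [← hχ]
      show LinearMap.trace ℂ _ (ρ 1) = _
      rw [map_one]
      simp
    rw [h2] at h1
    exact_mod_cast h1
  rw [← hdeg]
  haveI := hρ
  have hn : (n : ℂ) ≠ 0 := by
    have := Cfsg.Agent.Lib.CharBasic.finrank_pos_of_irreducible ρ hρ
    simp only [Module.finrank_fin_fun] at this
    exact_mod_cast this.ne'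
  let detU : Γ →* ℂˣ := MonoidHom.toHomUnits ((LinearMap.det).comp ρ)
  have hdet : commutator Γ ≤ detU.ker := by
    rw [_root_.commutator_def]
    refine Subgroup.commutator_le.mpr ?_
    intro a _ b _
    rw [MonoidHom.mem_ker, map_commutatorElement, commutatorElement_def, mul_comm (detU a),
      mul_inv_cancel_right, mul_inv_cancel]
  apply MonoidHom.ext
  intro a
  let z : Z := e.symm a
  obtain ⟨c, hc⟩ := Cfsg.Agent.Lib.CharDeg.center_acts_scalar ρ hρ (hZc z.2)
  have h1 : θ.1 z.1 = c * n := by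
    rw [← hχ]
    show LinearMap.trace ℂ _ (ρ z.1) = _
    rw [hc, map_smul]
    simp
  have h2 : θ.1 1 = (n : ℂ) := by
    rw [← hχ]
    show LinearMap.trace ℂ _ (ρ 1) = _
    rw [map_one]
    simp
  have h3 : c = ((lam z : ℂˣ) : ℂ) := by
    have h4 := hθ' z
    rw [h1, h2] at h4
    exact mul_right_cancel₀ hn h4
  have h5 : (detU z.1 : ℂ) = 1 := by
    have : detU z.1 = 1 := hdet (hZd z.2)
    rw [this]; rfl
  have h6 : (detU z.1 : ℂ) = c ^ n := by
    show LinearMap.det (ρ z.1) = _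
    rw [hc, LinearMap.det_smul]
    simp
  have h7 : lam z = lamA a := by
    show lamA (e (e.symm a)) = _
    rw [MulEquiv.apply_symm_apply]
  rw [MonoidHom.pow_apply, MonoidHom.one_apply]
  apply Units.ext
  rw [Units.val_pow_eq_pow_val, ← h7, ← h3, ← h6, h5, Units.val_one]

/-- The square of the exponent of the multiplier divides the order of the group. -/
theorem exponent_sq_dvd {Q : Type*} [Group Q] [Finite Q] {A : Type*} [CommGroup A]
    (hA : HasSchurMultiplier Q A) : Monoid.exponent A ^ 2 ∣ Nat.card Q := by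
  haveI : Finite A := finite_of_hasSchur hA
  obtain ⟨⟨Γ, _, _, σ, hσ, ⟨e⟩⟩, -⟩ := hA
  letI : Fintype Γ := Fintype.ofFinite Γ
  have h := exponent_sq_aux σ.ker hσ.2.1 hσ.2.2 e
  have hidx : σ.ker.index = Nat.card Q := by
    rw [Subgroup.index_ker, MonoidHom.range_eq_top.mpr hσ.1]
    simp
  rwa [hidx] at h

end Cfsg.Agent.Lib.HopfTrans
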