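import Mathlib
import Cfsg.Agent.Lib.InvPair
import Cfsg.Agent.Lib.H6Basic
import Cfsg.Agent.S0238

/-! Counting involutions: the Brauer–Fowler inequality. -/

set_option autoImplicit false

namespace Cfsg.Agent.Lib.InvCount

open Cfsg.Agent.Lib.InvPair

variable {G : Type*} [Group G] [Finite G]

/-- Number of ordered pairs of involutions with product `x`. -/
noncomputable def c (x : G) : ℕ :=
  Nat.card {p : G × G // orderOf p.1 = 2 ∧ orderOf p.2 = 2 ∧ p.1 * p.2 = x}

/-- Number of involutions. -/
noncomputable def inv (G : Type*) [Group G] : ℕ := Nat.card {t : G // orderOf t = 2}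

lemma inv_subgroup_ineq {x : G} (hx : x * x ≠ 1) {u : G} (hu : u * x * u⁻¹ = x⁻¹)
    (hno : ∀ H : Subgroup G, H.index ≠ 2) :
    ∃ K : Subgroup G, K ≠ ⊤ ∧ 2 * Nat.card (Subgroup.centralizer ({x} : Set G)) ≤ Nat.card K := by
  classical
  have hne : x⁻¹ ≠ x := by
    intro h
    apply hx
    nth_rewrite 1 [← h]
    simp
  have hcm : ∀ g : G, g ∈ Subgroup.centralizer ({x} : Set G) ↔ g * x * g⁻¹ = x := by
    intro g
    rw [Subgroup.mem_centralizer_singleton_iff, mul_inv_eq_iff_eq_mul]
  let K : Subgroup G :=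
    { carrier := {g | g * x * g⁻¹ = x ∨ g * x * g⁻¹ = x⁻¹}
      one_mem' := Or.inl (by simp)
      mul_mem' := by
        intro a b ha hb
        have e : a * b * x * (a * b)⁻¹ = a * (b * x * b⁻¹) * a⁻¹ := by group
        have e2 : a * x⁻¹ * a⁻¹ = (a * x * a⁻¹)⁻¹ := by group
        change a * b * x * (a * b)⁻¹ = x ∨ a * b * x * (a * b)⁻¹ = x⁻¹
        rw [e]
        rcases ha with ha | ha <;> rcases hb with hb | hb
        · left; rw [hb, ha]
        · right; rw [hb, e2, ha]
        · right; rw [hb, ha]
        · left; rw [hb, e2, ha, inv_inv]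
      inv_mem' := by
        intro a ha
        change a⁻¹ * x * a⁻¹⁻¹ = x ∨ a⁻¹ * x * a⁻¹⁻¹ = x⁻¹
        rcases ha with ha | ha
        · left
          rw [inv_inv]
          nth_rewrite 1 [← ha]
          group
        · right
          rw [inv_inv]
          have : x = a * x⁻¹ * a⁻¹ := by
            have e2 : a * x⁻¹ * a⁻¹ = (a * x * a⁻¹)⁻¹ := by group
            rw [e2, ha, inv_inv]
          have e3 : a⁻¹ * x * a = x⁻¹ := by
            nth_rewrite 1 [this]
            group
          exact e3 }
  have hCK : Subgroup.centralizer ({x} : Set G) ≤ K := fun g hg => Or.inl ((hcm g).1 hg)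
  have huK : u ∈ K := Or.inr hu
  have huC : u ∉ Subgroup.centralizer ({x} : Set G) := by
    intro h
    rw [hcm, hu] at h
    exact hne h
  refine ⟨K, ?_, ?_⟩
  · intro htop
    apply hno (Subgroup.centralizer ({x} : Set G))
    rw [Subgroup.index_eq_two_iff]
    refine ⟨u, fun b => ?_⟩
    by_cases hb : b ∈ Subgroup.centralizer ({x} : Set G)
    · right
      refine ⟨hb, fun h => huC ?_⟩
      have := mul_mem (inv_mem hb) h
      rwa [inv_mul_cancel_left] at this
    · left
      refine ⟨?_, hb⟩
      have hbK : b ∈ K := by rw [htop]; trivial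
      rcases hbK with hbK | hbK
      · exact absurd ((hcm b).2 hbK) hb
      · rw [hcm]
        calc b * u * x * (b * u)⁻¹ = b * (u * x * u⁻¹) * b⁻¹ := by group
          _ = (b * x * b⁻¹)⁻¹ := by rw [hu]; group
          _ = x := by rw [hbK, inv_inv]
  · have h1 : Nat.card (Subgroup.centralizer ({x} : Set G)) ∣ Nat.card K := Subgroup.card_dvd_of_le hCK
    obtain ⟨d, hd⟩ := h1
    have hpos : 0 < Nat.card K := Nat.card_pos
    have hcpos : 0 < Nat.card (Subgroup.centralizer ({x} : Set G)) := Nat.card_pos
    have hd1 : d ≠ 1 := by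
      rintro rfl
      rw [mul_one] at hd
      have : Subgroup.centralizer ({x} : Set G) = K :=
        Subgroup.eq_of_le_of_card_ge hCK hd.le
      exact huC (this ▸ huK)
    have hd0 : d ≠ 0 := by
      rintro rfl
      simp at hd
      omega
    rw [hd]
    have h2 : 2 ≤ d := by omega
    nlinarith

/-- The key inequality. -/
theorem exists_large_subgroup (heven : Even (Nat.card G)) (hZ : Odd (Nat.card (Subgroup.center G)))
    (hno : ∀ H : Subgroup G, H.index ≠ 2) :
    ∃ H : Subgroup G, H ≠ ⊤ ∧ (∀ K : Subgroup G, K ≠ ⊤ → Nat.card K ≤ Nat.card H) ∧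
      2 * inv G ^ 2 + 2 * inv G + Nat.card H ≤ (Nat.card G + inv G) * Nat.card H := by
  classical
  haveI := Fintype.ofFinite G
  -- choosing a proper subgroup of largest order
  haveI hnt : Nontrivial G := by
    have h2 : 2 ∣ Nat.card G := heven.two_dvd
    haveI : Fact (Nat.Prime 2) := ⟨Nat.prime_two⟩
    obtain ⟨t, ht⟩ := exists_prime_orderOf_dvd_card' 2 h2
    exact ⟨⟨t, 1, fun h => by rw [h, orderOf_one] at ht; omega⟩⟩
  have hbot : (⊥ : Subgroup G) ≠ ⊤ := bot_ne_top
  haveI : Nonempty {H : Subgroup G // H ≠ ⊤} := ⟨⟨⊥, hbot⟩⟩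
  obtain ⟨⟨H, hH⟩, hmax⟩ := Finite.exists_max (fun H : {H : Subgroup G // H ≠ ⊤} => Nat.card H.1)
  have hmax' : ∀ K : Subgroup G, K ≠ ⊤ → Nat.card K ≤ Nat.card H := fun K hK => hmax ⟨K, hK⟩
  refine ⟨H, hH, hmax', ?_⟩
  set m := Nat.card H with hm
  set n := inv G with hn
  -- elementary facts on `c`
  have hnoncentral : ∀ x : G, orderOf x = 2 → x ∉ Subgroup.center G := by
    intro x hx hmem
    have : orderOf (⟨x, hmem⟩ : Subgroup.center G) ∣ Nat.card (Subgroup.center G) :=
      orderOf_dvd_natCard _
    rw [Subgroup.orderOf_mk, hx] at this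
    exact (Nat.not_even_iff_odd.2 hZ) (even_iff_two_dvd.2 this)
  let I : Finset G := Finset.univ.filter (fun t => orderOf t = 2)
  have hI : I.card = n := by
    rw [hn, inv, Nat.card_eq_fintype_card, Fintype.card_subtype]
  let A : Finset (G × G) := I ×ˢ I
  have hA : A.card = n * n := by
    rw [Finset.card_product, hI]
  have hc : ∀ x : G, c x = (A.filter (fun p => p.1 * p.2 = x)).card := by
    intro x
    rw [c, Nat.card_eq_fintype_card, Fintype.card_subtype]
    congr 1
    ext p
    simp [A, I, and_assoc]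
  have hsum : n * n = ∑ x : G, c x := by
    rw [← hA, Finset.card_eq_sum_card_fiberwise (f := fun p => p.1 * p.2) (t := Finset.univ)
      (fun _ _ => Finset.mem_coe.2 (Finset.mem_univ _))]
    exact Finset.sum_congr rfl (fun x _ => (hc x).symm)
  have hc1 : c (1 : G) = n := by
    rw [hn, inv, c]
    refine Nat.card_congr
      { toFun := fun p => ⟨p.1.1, p.2.1⟩
        invFun := fun t => ⟨(t.1, t.1), t.2, t.2, mul_self_of_order t.2⟩
        left_inv := ?_
        right_inv := fun t => rfl }
    rintro ⟨⟨u, v⟩, hu, hv, e⟩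
    simp only at hu hv e
    apply Subtype.ext
    simp only [Prod.mk.injEq, true_and]
    have := eq_inv_of_mul_eq_one_right e
    rw [inv_of_order hu] at this
    exact this.symm
  have hbound : ∀ x ∈ Finset.univ.erase (1 : G),
      2 * c x + (if x ∈ I then 4 else 0) ≤ m + (if x ∈ I then m else 0) := by
    intro x hx
    have hx1 : x ≠ 1 := (Finset.mem_erase.1 hx).1
    have hS := Cfsg.Agent.S0238.result x
    by_cases hxI : x ∈ I
    · rw [if_pos hxI, if_pos hxI]
      have hxo : orderOf x = 2 := (Finset.mem_filter.1 hxI).2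
      have h1 : c x + 2 ≤ Nat.card (Subgroup.centralizer ({x} : Set G)) := hS.2.2 hxo
      have h2 : Subgroup.centralizer ({x} : Set G) ≠ ⊤ := by
        intro h
        apply hnoncentral x hxo
        rw [Subgroup.mem_center_iff]
        intro g
        have : g ∈ Subgroup.centralizer ({x} : Set G) := by rw [h]; trivial
        exact Subgroup.mem_centralizer_singleton_iff.1 this
      have h3 := hmax' _ h2
      omega
    · rw [if_neg hxI, if_neg hxI]
      have hxx : x * x ≠ 1 := by
        intro h
        apply hxI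
        refine Finset.mem_filter.2 ⟨Finset.mem_univ _, orderOf_eq_prime (by rw [pow_two]; exact h) hx1⟩
      by_cases h0 : c x = 0
      · omega
      · have hne : Nonempty {p : G × G // orderOf p.1 = 2 ∧ orderOf p.2 = 2 ∧ p.1 * p.2 = x} := by
          by_contra hcon
          rw [not_nonempty_iff] at hcon
          apply h0
          rw [c]
          exact Nat.card_of_isEmpty
        obtain ⟨p⟩ := hne
        have hu := inverts_of_pair p.2.1 p.2.2.1 p.2.2.2
        obtain ⟨K, hK, hK2⟩ := inv_subgroup_ineq hxx hu hno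
        have h3 := hmax' K hK
        have h4 : c x ≤ Nat.card (Subgroup.centralizer ({x} : Set G)) := hS.1
        omega
  have hsum2 := Finset.sum_le_sum hbound
  rw [Finset.sum_add_distrib, Finset.sum_add_distrib, Finset.sum_const, ← Finset.mul_sum,
    Finset.sum_ite_mem, Finset.sum_ite_mem] at hsum2
  have hinter : Finset.univ.erase (1 : G) ∩ I = I := by
    ext t
    simp only [Finset.mem_inter, Finset.mem_erase, Finset.mem_univ, and_true]
    constructor
    · exact fun h => h.2
    · intro h
      refine ⟨?_, h⟩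
      rintro rfl
      have := (Finset.mem_filter.1 h).2
      rw [orderOf_one] at this
      omega
  rw [hinter, Finset.sum_const, Finset.sum_const, hI, Finset.card_erase_of_mem (Finset.mem_univ _),
    Finset.card_univ, ← Nat.card_eq_fintype_card, smul_eq_mul, smul_eq_mul, smul_eq_mul] at hsum2
  rw [← Finset.add_sum_erase _ _ (Finset.mem_univ (1 : G)), hc1] at hsum
  have hGpos : 0 < Nat.card G := Nat.card_pos
  obtain ⟨g, hg⟩ : ∃ g, Nat.card G = g + 1 := ⟨Nat.card G - 1, by omega⟩
  rw [hg] at hsum2 ⊢
  simp only [Nat.add_sub_cancel] at hsum2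
  nlinarith

end Cfsg.Agent.Lib.InvCount
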