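import Mathlib

set_option autoImplicit false

namespace Cfsg.Agent.Lib.InvDim

variable {F V : Type*} [Field F] [AddCommGroup V] [Module F V] [FiniteDimensional F V]

open Module

theorem exists_sub_finrank (C : Submodule F V) (l : ℕ) (hl : l ≤ finrank F C) :
    ∃ C' : Submodule F V, C' ≤ C ∧ finrank F C' = l := by
  obtain ⟨v, hv⟩ := exists_linearIndependent_of_le_finrank (R := F) (M := ↥C) hl
  refine ⟨(Submodule.span F (Set.range v)).map C.subtype, Submodule.map_subtype_le _ _, ?_⟩
  rw [Submodule.finrank_map_subtype_eq, finrank_span_eq_card hv]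
  simp

section
variable (f : V →ₗ[F] V) {s a : ℕ} (C : Submodule F V) (U : Fin s → Submodule F V)

omit [FiniteDimensional F V] in
/-- disjointness from the independent family -/
theorem disj_of_indep (hind : iSupIndep (fun o : Option (Fin s) => o.elim C U))
    (S : Finset (Fin s)) (j : Fin s) (hj : j ∉ S) :
    Disjoint (U j) (C ⊔ ⨆ i ∈ S, U i) := by
  have h := hind (some j)
  refine h.mono_right ?_
  apply sup_le
  · exact le_iSup₂_of_le (none : Option (Fin s)) (by simp) le_rfl
  · apply iSup₂_le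
    intro i hi
    refine le_iSup₂_of_le (some i) ?_ le_rfl
    simp only [ne_eq, Option.some.injEq]
    rintro rfl
    exact hj hi

theorem finrank_T (hU : ∀ j, finrank F (U j) = a)
    (hind : iSupIndep (fun o : Option (Fin s) => o.elim C U)) (C' : Submodule F V) (hC' : C' ≤ C)
    (S : Finset (Fin s)) :
    finrank F ↥(C' ⊔ ⨆ i ∈ S, U i) = finrank F C' + S.card * a := by
  classical
  induction S using Finset.induction_on with
  | empty =>
    have h : C' ⊔ ⨆ i ∈ (∅ : Finset (Fin s)), U i = C' := by simp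
    rw [h]; simp
  | insert j S hj ih =>
    rw [Finset.iSup_insert, Finset.card_insert_of_notMem hj]
    have h1 : C' ⊔ (U j ⊔ ⨆ i ∈ S, U i) = U j ⊔ (C' ⊔ ⨆ i ∈ S, U i) := by
      rw [sup_left_comm]
    rw [h1]
    have hd : Disjoint (U j) (C' ⊔ ⨆ i ∈ S, U i) :=
      (disj_of_indep C U hind S j hj).mono_right (sup_le_sup_right hC' _)
    have h2 := Submodule.finrank_sup_add_finrank_inf_eq (U j) (C' ⊔ ⨆ i ∈ S, U i)
    rw [hd.eq_bot, finrank_bot, add_zero, hU, ih] at h2
    rw [h2]
    ring

omit [FiniteDimensional F V] in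
theorem inv_T (hC : ∀ x ∈ C, f x = x) (hinv : ∀ j, (U j).map f ≤ U j) (C' : Submodule F V)
    (hC' : C' ≤ C) (S : Finset (Fin s)) :
    (C' ⊔ ⨆ i ∈ S, U i).map f ≤ (C' ⊔ ⨆ i ∈ S, U i) := by
  rw [Submodule.map_sup]
  apply sup_le_sup
  · rintro _ ⟨x, hx, rfl⟩
    simp only [SetLike.mem_coe] at hx
    have := hC x (hC' hx)
    show f x ∈ C'
    rwa [this]
  · simp only [Submodule.map_iSup]
    exact iSup₂_mono (fun j _ => hinv j)

theorem mod_T (hC : ∀ x ∈ C, f x = x) (hinv : ∀ j, (U j).map f ≤ U j)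
    (hU : ∀ j, finrank F (U j) = a)
    (hirr : ∀ j, ∀ W : Submodule F V, W ≤ U j → W.map f ≤ W → W = ⊥ ∨ W = U j)
    (hind : iSupIndep (fun o : Option (Fin s) => o.elim C U))
    (W : Submodule F V) (hW : W.map f ≤ W) (S : Finset (Fin s)) :
    ∃ t : ℕ, finrank F ↥(W ⊓ (C ⊔ ⨆ i ∈ S, U i)) = finrank F ↥(W ⊓ C) + t * a := by
  classical
  induction S using Finset.induction_on with
  | empty =>
    have h : C ⊔ ⨆ i ∈ (∅ : Finset (Fin s)), U i = C := by simp
    exact ⟨0, by rw [h]; simp⟩
  | insert j S hj ih =>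
    obtain ⟨t, ht⟩ := ih
    set T := C ⊔ ⨆ i ∈ S, U i with hT
    have hTinv : T.map f ≤ T := inv_T f C U hC hinv C le_rfl S
    have hd : Disjoint (U j) T := disj_of_indep C U hind S j hj
    have h1 : C ⊔ ⨆ i ∈ insert j S, U i = T ⊔ U j := by
      rw [Finset.iSup_insert, hT, sup_left_comm, sup_comm]
    rw [h1]
    set X := W ⊓ (T ⊔ U j) with hX
    have hXT : X ⊓ T = W ⊓ T := by
      rw [hX, inf_assoc, inf_eq_right.2 (le_sup_left : T ≤ T ⊔ U j)]
    have hXinv : X.map f ≤ X := by
      refine (Submodule.map_inf_le _).trans (inf_le_inf hW ?_)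
      rw [Submodule.map_sup]
      exact sup_le_sup hTinv (hinv j)
    set Y := (X ⊔ T) ⊓ U j with hY
    have hYinv : Y.map f ≤ Y := by
      refine (Submodule.map_inf_le _).trans (inf_le_inf ?_ (hinv j))
      rw [Submodule.map_sup]
      exact sup_le_sup hXinv hTinv
    have hsup : X ⊔ T = T ⊔ Y := by
      rw [hY]
      have hle : T ≤ X ⊔ T := le_sup_right
      calc X ⊔ T = (T ⊔ U j) ⊓ (X ⊔ T) := (inf_eq_right.2 (sup_le inf_le_right le_sup_left)).symm
        _ = T ⊔ (U j ⊓ (X ⊔ T)) := sup_inf_assoc_of_le _ hle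
        _ = T ⊔ (X ⊔ T) ⊓ U j := by rw [inf_comm]
    have h2 := Submodule.finrank_sup_add_finrank_inf_eq X T
    have h3 := Submodule.finrank_sup_add_finrank_inf_eq T Y
    have hdY : Disjoint T Y := (hd.mono_left inf_le_right).symm
    rw [hdY.eq_bot, finrank_bot, add_zero] at h3
    rw [hsup, h3, hXT, ht] at h2
    rcases hirr j Y inf_le_right hYinv with h4 | h4
    · refine ⟨t, ?_⟩
      rw [h4, finrank_bot] at h2
      omega
    · refine ⟨t + 1, ?_⟩
      rw [h4, hU] at h2
      rw [add_mul]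
      omega

end

theorem main5952 (f : V →ₗ[F] V) {s a : ℕ} (ha : 1 ≤ a) (U : Fin s → Submodule F V)
    (hUinv : ∀ j, (U j).map f ≤ U j) (hUdim : ∀ j, Module.finrank F ↥(U j) = a)
    (hUirr : ∀ j, ∀ W : Submodule F V, W ≤ U j → W.map f ≤ W → W = ⊥ ∨ W = U j)
    (hdec : DirectSum.IsInternal (fun o : Option (Fin s) => o.elim (Module.End.eigenspace f 1) U))
    (m : ℕ) (hmV : m < Module.finrank F V) :
    (∃ W : Submodule F V, Module.finrank F ↥W = m ∧ W.map f ≤ W) ↔
    (m ≤ Module.finrank F ↥(Module.End.eigenspace f 1) ∨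
      (a ≤ m ∧ m % a ≤ Module.finrank F ↥(Module.End.eigenspace f 1))) := by
  classical
  set C := Module.End.eigenspace f 1 with hCdef
  have hC : ∀ x ∈ C, f x = x := by
    intro x hx
    have := Module.End.mem_eigenspace_iff.1 hx
    simpa using this
  obtain ⟨hind, hsup⟩ := (DirectSum.isInternal_submodule_iff_iSupIndep_and_iSup_eq_top _).1 hdec
  have hT : C ⊔ ⨆ i ∈ (Finset.univ : Finset (Fin s)), U i = ⊤ := by
    rw [eq_top_iff, ← hsup]
    apply iSup_le
    rintro (_ | i)
    · exact le_sup_left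
    · exact le_sup_of_le_right (le_iSup₂_of_le i (Finset.mem_univ i) le_rfl)
  have hVdim : finrank F V = finrank F C + s * a := by
    have := finrank_T C U hUdim hind C le_rfl Finset.univ
    rw [hT, finrank_top] at this
    simpa using this
  constructor
  · rintro ⟨W, hWm, hW⟩
    obtain ⟨t, ht⟩ := mod_T f C U hC hUinv hUdim hUirr hind W hW Finset.univ
    rw [hT, inf_top_eq, hWm] at ht
    have hle : finrank F ↥(W ⊓ C) ≤ finrank F C := Submodule.finrank_mono inf_le_right
    rcases Nat.eq_zero_or_pos t with rfl | htp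
    · left
      omega
    · right
      constructor
      · calc a ≤ t * a := Nat.le_mul_of_pos_left a htp
          _ ≤ m := by omega
      · rw [ht, Nat.add_mul_mod_self_right]
        exact (Nat.mod_le _ _).trans hle
  · intro h
    -- choose the number `k` of summands and `ℓ`
    obtain ⟨k, l, hks, hl, hkl⟩ : ∃ k l : ℕ, k ≤ s ∧ l ≤ finrank F C ∧ l + k * a = m := by
      rcases h with h | ⟨_, h⟩
      · exact ⟨0, m, by omega, h, by simp⟩
      · by_cases hk : m / a ≤ s
        · refine ⟨m / a, m % a, hk, h, ?_⟩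
          rw [mul_comm]
          exact Nat.mod_add_div m a
        · rw [not_le] at hk
          refine ⟨s, m - s * a, le_rfl, by omega, ?_⟩
          have : s * a ≤ m := by
            have h5 : (s + 1) * a ≤ m := by
              have := Nat.div_mul_le_self m a
              have h6 : (s + 1) * a ≤ (m / a) * a := Nat.mul_le_mul_right a hk
              omega
            nlinarith
          omega
    obtain ⟨C', hC'le, hC'⟩ := exists_sub_finrank C l hl
    obtain ⟨S, -, hS⟩ := Finset.exists_subset_card_eq (s := (Finset.univ : Finset (Fin s))) (n := k)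
      (by simpa using hks)
    refine ⟨C' ⊔ ⨆ i ∈ S, U i, ?_, inv_T f C U hC hUinv C' hC'le S⟩
    rw [finrank_T C U hUdim hind C' hC'le S, hC', hS, hkl]

end Cfsg.Agent.Lib.InvDim
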