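/-
Counting conjugacy classes of involutions in characteristic two: the counting lemma, explicit representatives.
-/
import Mathlib
import Cfsg.Agent.Lib.InvolQO
import Cfsg.Agent.Lib.InvolSp

set_option autoImplicit false
set_option linter.all false

namespace Cfsg.Agent.Lib.InvolCount

open scoped MatrixGroups Matrix
open Module Cfsg Cfsg.Geo Cfsg.Agent.Lib
open Cfsg.Agent.Lib.Transvection Cfsg.Agent.Lib.LinAlgAux Cfsg.Agent.Lib.QuadBase
  Cfsg.Agent.Lib.QuadSiegel Cfsg.Agent.Lib.QuadStab Cfsg.Agent.Lib.QuadRefl Cfsg.Agent.Lib.QuadFamily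
  Cfsg.Agent.Lib.Spinor Cfsg.Agent.Lib.Dickson Cfsg.Agent.Lib.QuadClass Cfsg.Agent.Lib.InvolQ Cfsg.Agent.Lib.InvolQO
open QuadraticMap (polar)

/-- Counting classes through a complete invariant. -/
theorem card_classes {G : Type*} [Group G] {α : Type*} (P : G → Prop) (f : G → α)
    (hf : ∀ g h, P g → IsConj g h → f g = f h)
    (hinj : ∀ g h, P g → P h → f g = f h → IsConj g h)
    (A : Finset α) (hA : ∀ a, a ∈ A ↔ ∃ g, P g ∧ f g = a) :
    Nat.card {C : ConjClasses G // ∃ g, ConjClasses.mk g = C ∧ P g} = A.card := by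
  classical
  let φ : {C : ConjClasses G // ∃ g, ConjClasses.mk g = C ∧ P g} → A := fun C =>
    ⟨f C.2.choose, (hA _).2 ⟨_, C.2.choose_spec.2, rfl⟩⟩
  have hφ : Function.Bijective φ := by
    constructor
    · rintro ⟨C, hC⟩ ⟨D, hD⟩ h
      have h1 : f hC.choose = f hD.choose := congrArg Subtype.val h
      have h2 := hinj _ _ hC.choose_spec.2 hD.choose_spec.2 h1
      apply Subtype.ext
      show C = D
      rw [← hC.choose_spec.1, ← hD.choose_spec.1]
      exact ConjClasses.mk_eq_mk_iff_isConj.2 h2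
    · rintro ⟨a, ha⟩
      obtain ⟨g, hg, rfl⟩ := (hA a).1 ha
      have hC : ∃ g', ConjClasses.mk g' = ConjClasses.mk g ∧ P g' := ⟨g, rfl, hg⟩
      refine ⟨⟨ConjClasses.mk g, hC⟩, ?_⟩
      apply Subtype.ext
      show f hC.choose = f g
      exact hf _ _ hC.choose_spec.2 (ConjClasses.mk_eq_mk_iff_isConj.1 hC.choose_spec.1)
  rw [Nat.card_congr (Equiv.ofBijective φ hφ), Nat.card_eq_fintype_card, Fintype.card_coe]

/-- The number of even numbers in an interval. -/
theorem card_even_Icc (m : ℕ) : ((Finset.Icc 1 m).filter Even).card = m / 2 := by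
  induction m with
  | zero => simp
  | succ m ih =>
    rw [show Finset.Icc 1 (m + 1) = insert (m + 1) (Finset.Icc 1 m) from by
      ext x
      simp only [Finset.mem_Icc, Finset.mem_insert]
      omega, Finset.filter_insert]
    by_cases h : Even (m + 1)
    · rw [if_pos h, Finset.card_insert_of_notMem (by simp), ih]
      obtain ⟨r, hr⟩ := h
      omega
    · rw [if_neg h, ih]
      rw [Nat.even_iff] at h
      omega

/-- The set of invariants. -/
noncomputable def AS (m m' : ℕ) : Finset (ℕ × Bool) :=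
  (Finset.Icc 1 m).image (fun s => (s, false)) ∪ ((Finset.Icc 1 m').filter Even).image (fun s => (s, true))

theorem mem_AS {m m' s : ℕ} {b : Bool} : (s, b) ∈ AS m m' ↔ (b = false ∧ 1 ≤ s ∧ s ≤ m) ∨ (b = true ∧ 1 ≤ s ∧ s ≤ m' ∧ Even s) := by
  simp only [AS, Finset.mem_union, Finset.mem_image, Finset.mem_Icc, Finset.mem_filter, Prod.mk.injEq]
  constructor
  · rintro (⟨x, hx, rfl, rfl⟩ | ⟨x, hx, rfl, rfl⟩)
    · exact Or.inl ⟨rfl, hx.1, hx.2⟩
    · exact Or.inr ⟨rfl, hx.1.1, hx.1.2, hx.2⟩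
  · rintro (⟨rfl, h1, h2⟩ | ⟨rfl, h1, h2, h3⟩)
    · exact Or.inl ⟨s, ⟨h1, h2⟩, rfl, rfl⟩
    · exact Or.inr ⟨s, ⟨⟨h1, h2⟩, h3⟩, rfl, rfl⟩

theorem card_AS (m m' : ℕ) : (AS m m').card = m + m' / 2 := by
  classical
  rw [AS, Finset.card_union_of_disjoint, Finset.card_image_of_injective, Finset.card_image_of_injective, card_even_Icc]
  · simp
  · intro x y h
    exact congrArg Prod.fst h
  · intro x y h
    exact congrArg Prod.fst h
  · rw [Finset.disjoint_left]
    intro x hx hy
    simp only [Finset.mem_image] at hx hy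
    obtain ⟨u, -, rfl⟩ := hx
    obtain ⟨v, -, hv⟩ := hy
    have := congrArg Prod.snd hv
    simp at this

section Rep

variable {ι : Type} [Fintype ι] [DecidableEq ι] {F : Type*} [Field F] {Q : (ι → F) → F}
  {κ : Type} [Fintype κ] [DecidableEq κ]

/-- Data for an explicit involution `v ↦ v + ∑ⱼ f(w_{τ j}, v) w_j`. -/
structure RepData (Q : (ι → F) → F) (τ : κ → κ) (w u : κ → (ι → F)) : Prop where
  inv : ∀ j, τ (τ j) = j
  orth : ∀ i j, polar Q (w i) (w j) = 0
  sing : ∀ j, Q (w j) = if τ j = j then 1 else 0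
  dual : ∀ i j, polar Q (u i) (w j) = if i = j then 1 else 0

theorem pol_sum_right' (hQ : IsNondegenerateQuadraticForm Q) (x : ι → F) (w : κ → (ι → F)) (c : κ → F) (s : Finset κ) :
    polar Q x (∑ i ∈ s, c i • w i) = ∑ i ∈ s, c i * polar Q x (w i) := by
  induction s using Finset.induction_on with
  | empty => simp [pol_zero_right hQ]
  | insert y s hy ih =>
    rw [Finset.sum_insert hy, Finset.sum_insert hy, pol_add_right hQ, pol_smul_right hQ, ih]

/-- The nilpotent part. -/
noncomputable def repLin (hQ : IsNondegenerateQuadraticForm Q) (τ : κ → κ) (w : κ → (ι → F)) : (ι → F) →ₗ[F] (ι → F) where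
  toFun v := ∑ j, polar Q (w (τ j)) v • w j
  map_add' x y := by
    rw [← Finset.sum_add_distrib]
    exact Finset.sum_congr rfl fun j _ => by rw [pol_add_right hQ, add_smul]
  map_smul' c x := by
    rw [RingHom.id_apply, Finset.smul_sum]
    exact Finset.sum_congr rfl fun j _ => by rw [pol_smul_right hQ, mul_smul]

theorem repLin_apply (hQ : IsNondegenerateQuadraticForm Q) (τ : κ → κ) (w : κ → (ι → F)) (v : ι → F) :
    repLin hQ τ w v = ∑ j, polar Q (w (τ j)) v • w j := rfl

/-- The matrix of the involution. -/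
noncomputable def repM (hQ : IsNondegenerateQuadraticForm Q) (τ : κ → κ) (w : κ → (ι → F)) : Matrix ι ι F :=
  1 + LinearMap.toMatrix' (repLin hQ τ w)

theorem repM_mulVec (hQ : IsNondegenerateQuadraticForm Q) (τ : κ → κ) (w : κ → (ι → F)) (v : ι → F) :
    repM hQ τ w *ᵥ v = v + repLin hQ τ w v := by
  rw [repM, Matrix.add_mulVec, Matrix.one_mulVec, LinearMap.toMatrix'_mulVec]

variable [Fintype F] [CharP F 2] {τ : κ → κ} {w u : κ → (ι → F)}

theorem repLin_repLin (hQ : IsNondegenerateQuadraticForm Q) (hd : RepData Q τ w u) (v : ι → F) :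
    repLin hQ τ w (repLin hQ τ w v) = 0 := by
  rw [repLin_apply]
  apply Finset.sum_eq_zero
  intro j _
  rw [repLin_apply, pol_sum_right' hQ, Finset.sum_eq_zero, zero_smul]
  intro k _
  rw [hd.orth, mul_zero]

theorem repM_mul_self (hQ : IsNondegenerateQuadraticForm Q) (hd : RepData Q τ w u) :
    repM hQ τ w * repM hQ τ w = 1 := by
  apply Matrix.mulVec_injective
  funext v
  rw [← Matrix.mulVec_mulVec, repM_mulVec, repM_mulVec, map_add, repLin_repLin hQ hd, add_zero, Matrix.one_mulVec,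
    add_assoc]
  funext i
  simp only [Pi.add_apply, CharTwo.add_self_eq_zero, add_zero]

/-- The involution as a group element. -/
noncomputable def repGL (hQ : IsNondegenerateQuadraticForm Q) (hd : RepData Q τ w u) : GL ι F :=
  ⟨repM hQ τ w, repM hQ τ w, repM_mul_self hQ hd, repM_mul_self hQ hd⟩

theorem repGL_mulVec (hQ : IsNondegenerateQuadraticForm Q) (hd : RepData Q τ w u) (v : ι → F) :
    (repGL hQ hd : Matrix ι ι F) *ᵥ v = v + repLin hQ τ w v := repM_mulVec hQ τ w v

theorem Q_repLin (hQ : IsNondegenerateQuadraticForm Q) (hd : RepData Q τ w u) (v : ι → F) :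
    Q (repLin hQ τ w v) = ∑ j, polar Q (w (τ j)) v * polar Q (w (τ j)) v * Q (w j) := by
  rw [repLin_apply]
  exact Q_sum_iso hQ w hd.orth _ _

theorem repGL_isom (hQ : IsNondegenerateQuadraticForm Q) (hd : RepData Q τ w u) : QIsom Q (repGL hQ hd) := by
  intro v
  rw [repGL_mulVec, Q_add (Q := Q), Q_repLin hQ hd]
  have h1 : polar Q v (repLin hQ τ w v) = ∑ j, polar Q (w (τ j)) v * polar Q (w j) v := by
    rw [repLin_apply, pol_sum_right' hQ]
    exact Finset.sum_congr rfl fun j _ => by rw [QuadraticMap.polar_comm Q v]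
  rw [h1]
  have h2 : Q v + ∑ j, polar Q (w (τ j)) v * polar Q (w (τ j)) v * Q (w j) + ∑ j, polar Q (w (τ j)) v * polar Q (w j) v
      = Q v + ∑ j, (polar Q (w (τ j)) v * polar Q (w (τ j)) v * Q (w j) + polar Q (w (τ j)) v * polar Q (w j) v) := by
    rw [Finset.sum_add_distrib, add_assoc]
  rw [h2]
  have h3 : ∑ j, (polar Q (w (τ j)) v * polar Q (w (τ j)) v * Q (w j) + polar Q (w (τ j)) v * polar Q (w j) v) = 0 := by
    have hfix : ∀ j, τ j = j → polar Q (w (τ j)) v * polar Q (w (τ j)) v * Q (w j) + polar Q (w (τ j)) v * polar Q (w j) v = 0 := by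
      intro j hj
      rw [hd.sing, if_pos hj, hj, mul_one]
      exact CharTwo.add_self_eq_zero _
    apply Finset.sum_involution (fun j _ => τ j)
    · intro j _
      by_cases hj : τ j = j
      · rw [hfix j hj, hj, hfix j hj, add_zero]
      · have hj' : τ (τ j) ≠ τ j := by
          rw [hd.inv]
          exact fun h => hj h.symm
        rw [hd.sing j, hd.sing (τ j), if_neg hj, if_neg hj', hd.inv j, mul_zero, mul_zero, zero_add, zero_add,
          mul_comm (polar Q (w j) v)]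
        exact CharTwo.add_self_eq_zero _
    · intro j _ h0 hj
      exact h0 (hfix j hj)
    · intro j _
      exact Finset.mem_univ _
    · intro j _
      exact hd.inv j
  rw [h3, add_zero]

theorem repGL_sub (hQ : IsNondegenerateQuadraticForm Q) (hd : RepData Q τ w u) :
    ((repGL hQ hd : Matrix ι ι F) - 1).mulVecLin = repLin hQ τ w := by
  apply LinearMap.ext
  intro v
  rw [Matrix.mulVecLin_apply, Matrix.sub_mulVec, Matrix.one_mulVec, repGL_mulVec, add_sub_cancel_left]

theorem rep_li (hQ : IsNondegenerateQuadraticForm Q) (hd : RepData Q τ w u) : LinearIndependent F w := by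
  rw [Fintype.linearIndependent_iff]
  intro c hc i
  have h1 := pol_sum_right' hQ (u i) w c Finset.univ
  rw [hc, pol_zero_right hQ, Finset.sum_eq_single i] at h1
  · rw [hd.dual, if_pos rfl, mul_one] at h1
    exact h1.symm
  · intro j _ hj
    rw [hd.dual, if_neg hj.symm, mul_zero]
  · simp

theorem rep_w (hQ : IsNondegenerateQuadraticForm Q) (hd : RepData Q τ w u) (i : κ) :
    repLin hQ τ w (u (τ i)) = w i := by
  rw [repLin_apply, Finset.sum_eq_single i]
  · rw [QuadraticMap.polar_comm, hd.dual, if_pos rfl, one_smul]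
  · intro j _ hj
    rw [QuadraticMap.polar_comm, hd.dual, if_neg, zero_smul]
    intro h
    apply hj
    have := congrArg τ h
    rw [hd.inv, hd.inv] at this
    exact this.symm
  · simp

theorem rep_rank (hQ : IsNondegenerateQuadraticForm Q) (hd : RepData Q τ w u) :
    ((repGL hQ hd : Matrix ι ι F) - 1).rank = Fintype.card κ := by
  have h1 : LinearMap.range ((repGL hQ hd : Matrix ι ι F) - 1).mulVecLin = Submodule.span F (Set.range w) := by
    rw [repGL_sub hQ hd]
    apply le_antisymm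
    · rintro _ ⟨v, rfl⟩
      rw [repLin_apply]
      exact Submodule.sum_mem _ fun j _ => Submodule.smul_mem _ _ (Submodule.subset_span ⟨j, rfl⟩)
    · rw [Submodule.span_le]
      rintro _ ⟨i, rfl⟩
      exact ⟨_, rep_w hQ hd i⟩
  show finrank F (LinearMap.range ((repGL hQ hd : Matrix ι ι F) - 1).mulVecLin) = _
  rw [h1, finrank_span_eq_card (rep_li hQ hd)]

theorem rep_alt (hQ : IsNondegenerateQuadraticForm Q) (hd : RepData Q τ w u) :
    (∀ v, polar Q v ((repGL hQ hd : Matrix ι ι F) *ᵥ v) = 0) ↔ ∀ j, τ j ≠ j := by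
  have hn : ∀ v, polar Q v ((repGL hQ hd : Matrix ι ι F) *ᵥ v) = Q (repLin hQ τ w v) := by
    intro v
    rw [repGL_mulVec, pol_add_right hQ, pol_alt hQ, zero_add]
    have h1 := repGL_isom hQ hd v
    rw [repGL_mulVec, Q_add (Q := Q)] at h1
    have h2 : Q v + (Q (repLin hQ τ w v) + polar Q v (repLin hQ τ w v)) = Q v + 0 := by
      rw [add_zero, ← add_assoc, h1]
    have h3 := add_left_cancel h2
    exact (CharTwo.add_eq_zero.mp h3).symm
  constructor
  · intro h j hj
    have h1 := h (u j)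
    rw [hn, Q_repLin hQ hd, Finset.sum_eq_single j] at h1
    · rw [hj, QuadraticMap.polar_comm, hd.dual, if_pos rfl, hd.sing, if_pos hj] at h1
      simp at h1
    · intro k _ hk
      rw [hd.sing]
      by_cases hkk : τ k = k
      · rw [hkk, QuadraticMap.polar_comm, hd.dual, if_neg hk.symm, mul_zero, zero_mul]
      · rw [if_neg hkk, mul_zero]
    · simp
  · intro h v
    rw [hn, Q_repLin hQ hd]
    apply Finset.sum_eq_zero
    intro j _
    rw [hd.sing, if_neg (h j), mul_zero]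

/-- Explicit representatives. -/
theorem exists_rep (hQ : IsNondegenerateQuadraticForm Q) [Nonempty κ] (hd : RepData Q τ w u) :
    ∃ t : isometryGroup F Q, orderOf t = 2 ∧ (((t : GL ι F) : Matrix ι ι F) - 1).rank = Fintype.card κ ∧
      ((∀ v, polar Q v (((t : GL ι F) : Matrix ι ι F) *ᵥ v) = 0) ↔ ∀ j, τ j ≠ j) := by
  refine ⟨⟨repGL hQ hd, mem_isometryGroup_iff.2 (repGL_isom hQ hd)⟩, ?_, rep_rank hQ hd, rep_alt hQ hd⟩
  have h2 := rep_rank hQ hd
  have hc : 0 < Fintype.card κ := Fintype.card_pos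
  apply orderOf_eq_prime
  · apply Subtype.ext
    apply Units.ext
    rw [pow_two]
    exact repM_mul_self hQ hd
  · intro h1
    have h3 : repGL hQ hd = 1 := congrArg Subtype.val h1
    rw [h3] at h2
    simp at h2
    omega

end Rep

section Inv

variable {ι : Type} [Fintype ι] [DecidableEq ι] {F : Type*} [Field F] [Fintype F] [CharP F 2] {Q : (ι → F) → F}

theorem rank_sub_pos {M : Matrix ι ι F} (hM : M ≠ 1) : 1 ≤ (M - 1).rank := by
  by_contra h
  have h0 : finrank F (LinearMap.range (M - 1).mulVecLin) = 0 := by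
    have : (M - 1).rank = finrank F (LinearMap.range (M - 1).mulVecLin) := rfl
    omega
  have h1 : LinearMap.range (M - 1).mulVecLin = ⊥ := Submodule.finrank_eq_zero.mp h0
  apply hM
  apply Matrix.mulVec_injective
  funext v
  have h2 : (M - 1).mulVecLin v ∈ LinearMap.range (M - 1).mulVecLin := ⟨v, rfl⟩
  rw [h1, Submodule.mem_bot, Matrix.mulVecLin_apply, Matrix.sub_mulVec, Matrix.one_mulVec, sub_eq_zero] at h2
  rw [h2, Matrix.one_mulVec]

/-- Basic constraints. -/
theorem inv_bounds (hQ : IsNondegenerateQuadraticForm Q) {t : isometryGroup F Q} (ht : orderOf t = 2) :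
    1 ≤ (((t : GL ι F) : Matrix ι ι F) - 1).rank ∧ 2 * (((t : GL ι F) : Matrix ι ι F) - 1).rank ≤ Fintype.card ι ∧
      ((∀ v, polar Q v (((t : GL ι F) : Matrix ι ι F) *ᵥ v) = 0) → Even (((t : GL ι F) : Matrix ι ι F) - 1).rank) := by
  have ht1 : t * t = 1 := by
    have := pow_orderOf_eq_one t
    rwa [ht, pow_two] at this
  have ht' : (t : GL ι F) * t = 1 := congrArg Subtype.val ht1
  refine ⟨?_, ?_, ?_⟩
  · apply rank_sub_pos
    intro h
    have h1 : t = 1 := by
      apply Subtype.ext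
      apply Units.ext
      exact h
    rw [h1, orderOf_one] at ht
    omega
  · have h1 := Submodule.finrank_mono (range_le_ker ht')
    have h2 := LinearMap.finrank_range_add_finrank_ker (((t : GL ι F) : Matrix ι ι F) - 1).mulVecLin
    have h3 : finrank F (ι → F) = Fintype.card ι := Module.finrank_fintype_fun_eq_card F
    have h4 : (((t : GL ι F) : Matrix ι ι F) - 1).rank = finrank F (LinearMap.range (((t : GL ι F) : Matrix ι ι F) - 1).mulVecLin) := rfl
    omega
  · intro hA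
    obtain ⟨r, hr, -⟩ := exists_frame_altQ hQ (mem_isometryGroup_iff.1 t.2) ht' hA
    exact ⟨r, by omega⟩

/-- Conjugation preserves the invariants. -/
theorem conj_inv {t s : isometryGroup F Q} (h : IsConj t s) :
    (((t : GL ι F) : Matrix ι ι F) - 1).rank = (((s : GL ι F) : Matrix ι ι F) - 1).rank ∧
    ((∀ v, polar Q v (((t : GL ι F) : Matrix ι ι F) *ᵥ v) = 0) ↔ (∀ v, polar Q v (((s : GL ι F) : Matrix ι ι F) *ᵥ v) = 0)) := by
  obtain ⟨c, hc⟩ := isConj_iff.mp h
  have hgts : (c : GL ι F) * (t : GL ι F) * (c : GL ι F)⁻¹ = (s : GL ι F) := congrArg Subtype.val hc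
  have hcm : ((c : GL ι F) : Matrix ι ι F) * ((t : GL ι F) : Matrix ι ι F) = ((s : GL ι F) : Matrix ι ι F) * ((c : GL ι F) : Matrix ι ι F) := by
    have h1 : (c : GL ι F) * (t : GL ι F) = (s : GL ι F) * (c : GL ι F) := by
      rw [← hgts]
      group
    exact congrArg Units.val h1
  have hcm2 : (((c : GL ι F)⁻¹ : GL ι F) : Matrix ι ι F) * ((s : GL ι F) : Matrix ι ι F) = ((t : GL ι F) : Matrix ι ι F) * (((c : GL ι F)⁻¹ : GL ι F) : Matrix ι ι F) := by
    have h1 : (c : GL ι F)⁻¹ * (s : GL ι F) = (t : GL ι F) * (c : GL ι F)⁻¹ := by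
      rw [← hgts]
      group
    exact congrArg Units.val h1
  have hcc : ((c : GL ι F) : Matrix ι ι F) * (((c : GL ι F)⁻¹ : GL ι F) : Matrix ι ι F) = 1 := congrArg Units.val (mul_inv_cancel (c : GL ι F))
  have hcc' : (((c : GL ι F)⁻¹ : GL ι F) : Matrix ι ι F) * ((c : GL ι F) : Matrix ι ι F) = 1 := congrArg Units.val (inv_mul_cancel (c : GL ι F))
  refine ⟨?_, ?_⟩
  · have e1 : ((s : GL ι F) : Matrix ι ι F) - 1 = ((c : GL ι F) : Matrix ι ι F) * (((t : GL ι F) : Matrix ι ι F) - 1) * (((c : GL ι F)⁻¹ : GL ι F) : Matrix ι ι F) := by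
      rw [mul_sub, sub_mul, mul_one, hcc, hcm, mul_assoc, hcc, mul_one]
    have e2 : ((t : GL ι F) : Matrix ι ι F) - 1 = (((c : GL ι F)⁻¹ : GL ι F) : Matrix ι ι F) * (((s : GL ι F) : Matrix ι ι F) - 1) * ((c : GL ι F) : Matrix ι ι F) := by
      rw [mul_sub, sub_mul, mul_one, hcc', hcm2, mul_assoc, hcc', mul_one]
    apply le_antisymm
    · calc (((t : GL ι F) : Matrix ι ι F) - 1).rank = ((((c : GL ι F)⁻¹ : GL ι F) : Matrix ι ι F) * (((s : GL ι F) : Matrix ι ι F) - 1) * ((c : GL ι F) : Matrix ι ι F)).rank := by rw [← e2]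
        _ ≤ ((((c : GL ι F)⁻¹ : GL ι F) : Matrix ι ι F) * (((s : GL ι F) : Matrix ι ι F) - 1)).rank := Matrix.rank_mul_le_left _ _
        _ ≤ _ := Matrix.rank_mul_le_right _ _
    · calc (((s : GL ι F) : Matrix ι ι F) - 1).rank = (((c : GL ι F) : Matrix ι ι F) * (((t : GL ι F) : Matrix ι ι F) - 1) * (((c : GL ι F)⁻¹ : GL ι F) : Matrix ι ι F)).rank := by rw [← e1]
        _ ≤ (((c : GL ι F) : Matrix ι ι F) * (((t : GL ι F) : Matrix ι ι F) - 1)).rank := Matrix.rank_mul_le_left _ _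
        _ ≤ _ := Matrix.rank_mul_le_right _ _
  · have hpol : ∀ x, polar Q (((c : GL ι F) : Matrix ι ι F) *ᵥ x) (((s : GL ι F) : Matrix ι ι F) *ᵥ (((c : GL ι F) : Matrix ι ι F) *ᵥ x)) = polar Q x (((t : GL ι F) : Matrix ι ι F) *ᵥ x) := by
      intro x
      rw [Matrix.mulVec_mulVec, ← hcm, ← Matrix.mulVec_mulVec]
      exact (mem_isometryGroup_iff.1 c.2).pol _ _
    constructor
    · intro hA v
      have h1 := hpol (((c : GL ι F)⁻¹ : GL ι F).1 *ᵥ v)
      rw [Matrix.mulVec_mulVec, hcc, Matrix.one_mulVec, hA] at h1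
      exact h1
    · intro hA v
      rw [← hpol]
      exact hA _

/-- The pair of invariants. -/
noncomputable def invO (t : isometryGroup F Q) : ℕ × Bool := by
  classical
  exact ((((t : GL ι F) : Matrix ι ι F) - 1).rank, decide (∀ v, polar Q v (((t : GL ι F) : Matrix ι ι F) *ᵥ v) = 0))

theorem invO_eq_iff {t : isometryGroup F Q} {s : ℕ} {b : Bool} :
    invO t = (s, b) ↔ (((t : GL ι F) : Matrix ι ι F) - 1).rank = s ∧ ((∀ v, polar Q v (((t : GL ι F) : Matrix ι ι F) *ᵥ v) = 0) ↔ b = true) := by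
  classical
  simp only [invO, Prod.mk.injEq]
  constructor
  · rintro ⟨h1, h2⟩
    refine ⟨h1, ?_⟩
    rw [← h2]
    simp
  · rintro ⟨h1, h2⟩
    refine ⟨h1, ?_⟩
    cases b
    · simp only [Bool.false_eq_true, iff_false] at h2
      exact decide_eq_false h2
    · simp only [iff_true] at h2
      exact decide_eq_true h2

/-- The class count in the full orthogonal group. -/
theorem count_O (hQ : IsNondegenerateQuadraticForm Q) (A : Finset (ℕ × Bool))
    (hA : ∀ a, a ∈ A ↔ ∃ t : isometryGroup F Q, orderOf t = 2 ∧ invO t = a) :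
    Nat.card {C : ConjClasses (isometryGroup F Q) // ∃ g : isometryGroup F Q, ConjClasses.mk g = C ∧ orderOf g = 2} = A.card := by
  classical
  apply card_classes (fun t : isometryGroup F Q => orderOf t = 2) invO _ _ A hA
  · intro g h _ hc
    obtain ⟨h1, h2⟩ := conj_inv hc
    simp only [invO, Prod.mk.injEq]
    exact ⟨h1, by simp only [h2]⟩
  · intro g h hg hh he
    simp only [invO, Prod.mk.injEq] at he
    have h1 : g * g = 1 := by
      have := pow_orderOf_eq_one g
      rwa [hg, pow_two] at this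
    have h2 : h * h = 1 := by
      have := pow_orderOf_eq_one h
      rwa [hh, pow_two] at this
    refine conj_of_type hQ h1 h2 he.1 ?_
    have := he.2
    simpa using this

end Inv

section Plus

variable {F : Type*} [Field F] [Fintype F] [CharP F 2] {m : ℕ}

/-- Basis vectors. -/
noncomputable def lv (i : Fin m) : Fin m ⊕ Fin m → F := Pi.single (Sum.inl i) 1
noncomputable def rv (i : Fin m) : Fin m ⊕ Fin m → F := Pi.single (Sum.inr i) 1

theorem pol_ll (i j : Fin m) : polar (quadFormPlus m F) (lv i) (lv j) = 0 := by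
  rw [QuadPlus.quadFormPlus_polar]
  simp [lv]

theorem pol_rr (i j : Fin m) : polar (quadFormPlus m F) (rv i) (rv j) = 0 := by
  rw [QuadPlus.quadFormPlus_polar]
  simp [rv]

theorem pol_lr (i j : Fin m) : polar (quadFormPlus m F) (lv i) (rv j) = if i = j then 1 else 0 := by
  rw [QuadPlus.quadFormPlus_polar]
  by_cases h : i = j
  · subst h
    simp [lv, rv, Pi.single_apply]
  · simp [lv, rv, Pi.single_apply, h, Ne.symm h]

theorem pol_rl (i j : Fin m) : polar (quadFormPlus m F) (rv i) (lv j) = if i = j then 1 else 0 := by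
  rw [QuadPlus.quadFormPlus_polar]
  by_cases h : i = j
  · subst h
    simp [lv, rv, Pi.single_apply]
  · simp [lv, rv, Pi.single_apply, h, Ne.symm h]

theorem Q_lv (i : Fin m) : quadFormPlus m F (lv i) = 0 := by
  simp [quadFormPlus, lv]

theorem Q_rv (i : Fin m) : quadFormPlus m F (rv i) = 0 := by
  simp [quadFormPlus, rv]

/-- Data of non-alternating type. -/
theorem data_nonalt {κ : Type} [Fintype κ] [DecidableEq κ] {e : κ → Fin m} (he : Function.Injective e) :
    RepData (quadFormPlus m F) (id : κ → κ) (fun j => lv (e j) + rv (e j)) (fun j => lv (e j)) := by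
  have hQ := QuadPlus.quadFormPlus_nondeg (F := F) m
  refine ⟨fun _ => rfl, ?_, ?_, ?_⟩
  · intro i j
    rw [pol_add_left hQ, pol_add_right hQ, pol_add_right hQ, pol_ll, pol_rr, pol_lr, pol_rl, zero_add, add_zero]
    exact CharTwo.add_self_eq_zero _
  · intro j
    simp only [id_eq, if_true]
    rw [Q_add (Q := quadFormPlus m F), Q_lv, Q_rv, pol_lr, if_pos rfl]
    simp
  · intro i j
    rw [pol_add_right hQ, pol_ll, pol_lr, zero_add]
    simp only [he.eq_iff]

/-- Data of alternating type. -/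
theorem data_alt {κ : Type} [Fintype κ] [DecidableEq κ] {e : κ ⊕ κ → Fin m} (he : Function.Injective e) :
    RepData (quadFormPlus m F) (Sum.swap : κ ⊕ κ → κ ⊕ κ) (fun j => lv (e j)) (fun j => rv (e j)) := by
  refine ⟨fun j => by simp, fun i j => pol_ll _ _, ?_, ?_⟩
  · intro j
    rw [Q_lv, if_neg]
    rcases j with j | j <;> simp
  · intro i j
    rw [pol_rl]
    simp only [he.eq_iff]

theorem swap_ne {κ : Type} (j : κ ⊕ κ) : Sum.swap j ≠ j := by
  rcases j with j | j <;> simp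

/-- Realization for the hyperbolic form. -/
theorem plus_real {s : ℕ} {b : Bool} (h : (s, b) ∈ AS m m) :
    ∃ t : isometryGroup F (quadFormPlus m F), orderOf t = 2 ∧ invO t = (s, b) := by
  have hQ := QuadPlus.quadFormPlus_nondeg (F := F) m
  rcases mem_AS.1 h with ⟨rfl, h1, h2⟩ | ⟨rfl, h1, h2, r, hr⟩
  · haveI : Nonempty (Fin s) := ⟨⟨0, by omega⟩⟩
    obtain ⟨t, ht, hrk, hal⟩ := exists_rep hQ (data_nonalt (F := F) (Fin.castLE_injective h2))
    refine ⟨t, ht, invO_eq_iff.2 ⟨by rw [hrk]; simp, ?_⟩⟩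
    rw [hal]
    simp only [Bool.false_eq_true, iff_false]
    intro h0
    exact h0 ⟨0, by omega⟩ rfl
  · subst hr
    haveI : Nonempty (Fin r ⊕ Fin r) := ⟨Sum.inl ⟨0, by omega⟩⟩
    have hcard : Fintype.card (Fin r ⊕ Fin r) ≤ Fintype.card (Fin m) := by
      simp
      omega
    obtain ⟨e⟩ := Function.Embedding.nonempty_of_card_le hcard
    obtain ⟨t, ht, hrk, hal⟩ := exists_rep hQ (data_alt (F := F) e.injective)
    refine ⟨t, ht, invO_eq_iff.2 ⟨by rw [hrk]; simp, ?_⟩⟩
    rw [hal]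
    simp only [iff_true]
    exact swap_ne

/-- Constraints for the hyperbolic form. -/
theorem plus_constraint {t : isometryGroup F (quadFormPlus m F)} (ht : orderOf t = 2) : invO t ∈ AS m m := by
  have hQ := QuadPlus.quadFormPlus_nondeg (F := F) m
  obtain ⟨h1, h2, h3⟩ := inv_bounds hQ ht
  simp only [Fintype.card_sum, Fintype.card_fin] at h2
  by_cases hA : ∀ v, polar (quadFormPlus m F) v (((t : GL (Fin m ⊕ Fin m) F) : Matrix (Fin m ⊕ Fin m) (Fin m ⊕ Fin m) F) *ᵥ v) = 0
  · have e : invO t = (((((t : GL (Fin m ⊕ Fin m) F) : Matrix (Fin m ⊕ Fin m) (Fin m ⊕ Fin m) F) - 1).rank), true) :=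
      invO_eq_iff.2 ⟨rfl, by simp only [iff_true]; exact hA⟩
    rw [e, mem_AS]
    exact Or.inr ⟨rfl, h1, by omega, h3 hA⟩
  · have e : invO t = (((((t : GL (Fin m ⊕ Fin m) F) : Matrix (Fin m ⊕ Fin m) (Fin m ⊕ Fin m) F) - 1).rank), false) :=
      invO_eq_iff.2 ⟨rfl, by simp only [Bool.false_eq_true, iff_false]; exact hA⟩
    rw [e, mem_AS]
    exact Or.inl ⟨rfl, h1, by omega⟩

theorem plus_iff (a : ℕ × Bool) : a ∈ AS m m ↔ ∃ t : isometryGroup F (quadFormPlus m F), orderOf t = 2 ∧ invO t = a := by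
  constructor
  · intro h
    obtain ⟨s, b⟩ := a
    exact plus_real h
  · rintro ⟨t, ht, rfl⟩
    exact plus_constraint ht

/-- The count for the hyperbolic form. -/
theorem count_plus : Nat.card {C : ConjClasses (isometryGroup F (quadFormPlus m F)) // ∃ g : isometryGroup F (quadFormPlus m F), ConjClasses.mk g = C ∧ orderOf g = 2} = m + m / 2 := by
  rw [count_O (QuadPlus.quadFormPlus_nondeg (F := F) m) (AS m m) plus_iff, card_AS]

end Plus

section Minus

variable {F : Type*} [Field F] [Fintype F] [CharP F 2] {k : ℕ} {a b : F}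

/-- Embedding of the hyperbolic part. -/
noncomputable def embM (v : Fin k ⊕ Fin k → F) : (Fin k ⊕ Fin k) ⊕ Fin 2 → F := Sum.elim v 0

theorem Q_embM (v : Fin k ⊕ Fin k → F) : quadFormMinus k F a b (embM v) = quadFormPlus k F v := by
  simp [quadFormMinus, quadFormPlus, embM]

theorem pol_embM (u v : Fin k ⊕ Fin k → F) :
    polar (quadFormMinus k F a b) (embM u) (embM v) = polar (quadFormPlus k F) u v := by
  classical
  rw [Spinor2.quadFormMinus_polar, QuadPlus.quadFormPlus_polar]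
  simp [embM]

theorem data_embM {κ : Type} [Fintype κ] [DecidableEq κ] {τ : κ → κ} {w u : κ → (Fin k ⊕ Fin k → F)}
    (hd : RepData (quadFormPlus k F) τ w u) :
    RepData (quadFormMinus k F a b) τ (fun j => embM (w j)) (fun j => embM (u j)) := by
  refine ⟨hd.inv, fun i j => ?_, fun j => ?_, fun i j => ?_⟩
  · rw [pol_embM]
    exact hd.orth i j
  · rw [Q_embM]
    exact hd.sing j
  · rw [pol_embM]
    exact hd.dual i j

/-- The extra vectors. -/
noncomputable def zv (i : Fin 2) : (Fin k ⊕ Fin k) ⊕ Fin 2 → F := Pi.single (Sum.inr i) 1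

theorem pol_emb_zv (v : Fin k ⊕ Fin k → F) (i : Fin 2) : polar (quadFormMinus k F a b) (embM v) (zv i) = 0 := by
  classical
  rw [Spinor2.quadFormMinus_polar]
  simp [embM, zv]

theorem pol_zv01 : polar (quadFormMinus k F a b) (zv 0) (zv 1) = a := by
  classical
  rw [Spinor2.quadFormMinus_polar]
  simp [zv]

theorem Q_zv0 : quadFormMinus k F a b (zv 0) = 1 := by
  simp [quadFormMinus, zv]

theorem a_ne_zero (hab : ∀ z₁ z₂ : F, z₁ ^ 2 + a * z₁ * z₂ + b * z₂ ^ 2 = 0 → z₁ = 0 ∧ z₂ = 0) : a ≠ 0 := by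
  intro h0
  obtain ⟨r, hr⟩ := FiniteField.isSquare_of_char_two (ringChar.eq F 2) b
  have h1 := hab r 1 (by
    rw [h0, hr]
    have : r ^ 2 + 0 * r * 1 + r * r * 1 ^ 2 = r * r + r * r := by ring
    rw [this]
    exact CharTwo.add_self_eq_zero _)
  exact one_ne_zero h1.2

/-- Data with an extra reflection. -/
theorem data_opt (hab : ∀ z₁ z₂ : F, z₁ ^ 2 + a * z₁ * z₂ + b * z₂ ^ 2 = 0 → z₁ = 0 ∧ z₂ = 0) :
    RepData (quadFormMinus k F a b) (id : Option (Fin k) → Option (Fin k))
      (fun j => j.elim (zv 0) (fun i => embM (lv i + rv i)))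
      (fun j => j.elim (a⁻¹ • zv 1) (fun i => embM (lv i))) := by
  have hQ := OrthMinus.minus_nondeg k a b hab
  have ha := a_ne_zero hab
  have hd := data_embM (a := a) (b := b) (data_nonalt (F := F) (m := k) (κ := Fin k) (e := id) Function.injective_id)
  refine ⟨fun _ => rfl, ?_, ?_, ?_⟩
  · rintro (_ | i) (_ | j)
    · simp only [Option.elim]
      rw [pol_self hQ, CharTwo.two_eq_zero, zero_mul]
    · simp only [Option.elim]
      rw [QuadraticMap.polar_comm, pol_emb_zv]
    · simp only [Option.elim]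
      rw [pol_emb_zv]
    · exact hd.orth i j
  · rintro (_ | j)
    · simp only [Option.elim, id_eq, if_true]
      exact Q_zv0
    · have := hd.sing j
      simpa using this
  · rintro (_ | i) (_ | j)
    · simp only [Option.elim, if_true]
      rw [pol_smul_left hQ, QuadraticMap.polar_comm, pol_zv01, inv_mul_cancel₀ ha]
    · simp only [Option.elim]
      rw [if_neg (by simp), pol_smul_left hQ, QuadraticMap.polar_comm, pol_emb_zv, mul_zero]
    · simp only [Option.elim]
      rw [if_neg (by simp), pol_emb_zv]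
    · simp only [Option.elim, Option.some.injEq]
      exact hd.dual i j

/-- Realization for the elliptic form. -/
theorem minus_real (hab : ∀ z₁ z₂ : F, z₁ ^ 2 + a * z₁ * z₂ + b * z₂ ^ 2 = 0 → z₁ = 0 ∧ z₂ = 0) {s : ℕ} {c : Bool}
    (h : (s, c) ∈ AS (k + 1) k) :
    ∃ t : isometryGroup F (quadFormMinus k F a b), orderOf t = 2 ∧ invO t = (s, c) := by
  have hQ := OrthMinus.minus_nondeg k a b hab
  rcases mem_AS.1 h with ⟨rfl, h1, h2⟩ | ⟨rfl, h1, h2, r, hr⟩
  · by_cases hs : s ≤ k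
    · haveI : Nonempty (Fin s) := ⟨⟨0, by omega⟩⟩
      obtain ⟨t, ht, hrk, hal⟩ := exists_rep hQ (data_embM (a := a) (b := b) (data_nonalt (F := F) (Fin.castLE_injective hs)))
      refine ⟨t, ht, invO_eq_iff.2 ⟨by rw [hrk]; simp, ?_⟩⟩
      rw [hal]
      simp only [Bool.false_eq_true, iff_false]
      intro h0
      exact h0 ⟨0, by omega⟩ rfl
    · have hs' : s = k + 1 := by omega
      subst hs'
      obtain ⟨t, ht, hrk, hal⟩ := exists_rep hQ (data_opt (k := k) hab)
      refine ⟨t, ht, invO_eq_iff.2 ⟨by rw [hrk]; simp, ?_⟩⟩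
      rw [hal]
      simp only [Bool.false_eq_true, iff_false]
      intro h0
      exact h0 none rfl
  · subst hr
    haveI : Nonempty (Fin r ⊕ Fin r) := ⟨Sum.inl ⟨0, by omega⟩⟩
    have hcard : Fintype.card (Fin r ⊕ Fin r) ≤ Fintype.card (Fin k) := by
      simp
      omega
    obtain ⟨e⟩ := Function.Embedding.nonempty_of_card_le hcard
    obtain ⟨t, ht, hrk, hal⟩ := exists_rep hQ (data_embM (a := a) (b := b) (data_alt (F := F) e.injective))
    refine ⟨t, ht, invO_eq_iff.2 ⟨by rw [hrk]; simp, ?_⟩⟩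
    rw [hal]
    simp only [iff_true]
    exact swap_ne

/-- In an elliptic space an alternating involution has rank at most the Witt index. -/
theorem minus_alt_le (hab : ∀ z₁ z₂ : F, z₁ ^ 2 + a * z₁ * z₂ + b * z₂ ^ 2 = 0 → z₁ = 0 ∧ z₂ = 0)
    {t : isometryGroup F (quadFormMinus k F a b)} (ht : orderOf t = 2)
    (hA : ∀ v, polar (quadFormMinus k F a b) v (((t : GL ((Fin k ⊕ Fin k) ⊕ Fin 2) F) : Matrix ((Fin k ⊕ Fin k) ⊕ Fin 2) ((Fin k ⊕ Fin k) ⊕ Fin 2) F) *ᵥ v) = 0) :
    (((t : GL ((Fin k ⊕ Fin k) ⊕ Fin 2) F) : Matrix ((Fin k ⊕ Fin k) ⊕ Fin 2) ((Fin k ⊕ Fin k) ⊕ Fin 2) F) - 1).rank ≤ k := by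
  have hQ := OrthMinus.minus_nondeg k a b hab
  have ht1 : t * t = 1 := by
    have := pow_orderOf_eq_one t
    rwa [ht, pow_two] at this
  have ht' : (t : GL ((Fin k ⊕ Fin k) ⊕ Fin 2) F) * t = 1 := congrArg Subtype.val ht1
  apply ts_le a b hab k
  rintro _ ⟨v, rfl⟩
  rw [Matrix.mulVecLin_apply, ← nnQ_eq, Q_nn (mem_isometryGroup_iff.1 t.2)]
  exact hA v

/-- Constraints for the elliptic form. -/
theorem minus_constraint (hab : ∀ z₁ z₂ : F, z₁ ^ 2 + a * z₁ * z₂ + b * z₂ ^ 2 = 0 → z₁ = 0 ∧ z₂ = 0)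
    {t : isometryGroup F (quadFormMinus k F a b)} (ht : orderOf t = 2) : invO t ∈ AS (k + 1) k := by
  have hQ := OrthMinus.minus_nondeg k a b hab
  obtain ⟨h1, h2, h3⟩ := inv_bounds hQ ht
  simp only [Fintype.card_sum, Fintype.card_fin] at h2
  by_cases hA : ∀ v, polar (quadFormMinus k F a b) v (((t : GL ((Fin k ⊕ Fin k) ⊕ Fin 2) F) : Matrix ((Fin k ⊕ Fin k) ⊕ Fin 2) ((Fin k ⊕ Fin k) ⊕ Fin 2) F) *ᵥ v) = 0
  · have e : invO t = (((((t : GL ((Fin k ⊕ Fin k) ⊕ Fin 2) F) : Matrix ((Fin k ⊕ Fin k) ⊕ Fin 2) ((Fin k ⊕ Fin k) ⊕ Fin 2) F) - 1).rank), true) :=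
      invO_eq_iff.2 ⟨rfl, by simp only [iff_true]; exact hA⟩
    rw [e, mem_AS]
    exact Or.inr ⟨rfl, h1, minus_alt_le hab ht hA, h3 hA⟩
  · have e : invO t = (((((t : GL ((Fin k ⊕ Fin k) ⊕ Fin 2) F) : Matrix ((Fin k ⊕ Fin k) ⊕ Fin 2) ((Fin k ⊕ Fin k) ⊕ Fin 2) F) - 1).rank), false) :=
      invO_eq_iff.2 ⟨rfl, by simp only [Bool.false_eq_true, iff_false]; exact hA⟩
    rw [e, mem_AS]
    exact Or.inl ⟨rfl, h1, by omega⟩

theorem minus_iff (hab : ∀ z₁ z₂ : F, z₁ ^ 2 + a * z₁ * z₂ + b * z₂ ^ 2 = 0 → z₁ = 0 ∧ z₂ = 0) (c : ℕ × Bool) :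
    c ∈ AS (k + 1) k ↔ ∃ t : isometryGroup F (quadFormMinus k F a b), orderOf t = 2 ∧ invO t = c := by
  constructor
  · intro h
    obtain ⟨s, d⟩ := c
    exact minus_real hab h
  · rintro ⟨t, ht, rfl⟩
    exact minus_constraint hab ht

/-- The count for the elliptic form. -/
theorem count_minus (hab : ∀ z₁ z₂ : F, z₁ ^ 2 + a * z₁ * z₂ + b * z₂ ^ 2 = 0 → z₁ = 0 ∧ z₂ = 0) :
    Nat.card {C : ConjClasses (isometryGroup F (quadFormMinus k F a b)) // ∃ g : isometryGroup F (quadFormMinus k F a b), ConjClasses.mk g = C ∧ orderOf g = 2} = k + 1 + k / 2 := by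
  rw [count_O (OrthMinus.minus_nondeg k a b hab) (AS (k + 1) k) (minus_iff hab), card_AS]

end Minus

section Sp

open Cfsg.Agent.Lib.SpParab Cfsg.Agent.Lib.InvolSp

variable {F : Type*} [Field F] [Fintype F] [CharP F 2] {m : ℕ}

theorem sympForm_eq_polar (u v : Fin m ⊕ Fin m → F) : sympForm m F u v = polar (quadFormPlus m F) u v := by
  rw [SymplecticTv.sympForm_apply, QuadPlus.quadFormPlus_polar]
  refine Finset.sum_congr rfl fun i _ => ?_
  rw [CharTwo.sub_eq_add]
  ring

/-- The invariants in the symplectic group. -/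
noncomputable def invS (t : SpG m F) : ℕ × Bool := by
  classical
  exact ((t.1 - 1).rank, decide (∀ v, sympForm m F v (t.1 *ᵥ v) = 0))

theorem invS_eq_iff {t : SpG m F} {s : ℕ} {b : Bool} :
    invS t = (s, b) ↔ (t.1 - 1).rank = s ∧ ((∀ v, sympForm m F v (t.1 *ᵥ v) = 0) ↔ b = true) := by
  classical
  simp only [invS, Prod.mk.injEq]
  constructor
  · rintro ⟨h1, h2⟩
    refine ⟨h1, ?_⟩
    rw [← h2]
    simp
  · rintro ⟨h1, h2⟩
    refine ⟨h1, ?_⟩
    cases b
    · simp only [Bool.false_eq_true, iff_false] at h2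
      exact decide_eq_false h2
    · simp only [iff_true] at h2
      exact decide_eq_true h2

theorem sp_conj_inv {a b : SpG m F} (h : IsConj a b) :
    (a.1 - 1).rank = (b.1 - 1).rank ∧ ((∀ v, sympForm m F v (a.1 *ᵥ v) = 0) ↔ (∀ v, sympForm m F v (b.1 *ᵥ v) = 0)) := by
  obtain ⟨c, hc⟩ := isConj_iff.mp h
  have hcm : c.1 * a.1 = b.1 * c.1 := by
    have h1 : c * a = b * c := by
      rw [← hc]
      group
    exact congrArg Subtype.val h1
  have hcm2 : (c⁻¹).1 * b.1 = a.1 * (c⁻¹).1 := by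
    have h1 : c⁻¹ * b = a * c⁻¹ := by
      rw [← hc]
      group
    exact congrArg Subtype.val h1
  have hcc : c.1 * (c⁻¹).1 = 1 := congrArg Subtype.val (mul_inv_cancel c)
  have hcc' : (c⁻¹).1 * c.1 = 1 := congrArg Subtype.val (inv_mul_cancel c)
  have e1 : b.1 - 1 = c.1 * (a.1 - 1) * (c⁻¹).1 := by
    rw [mul_sub, sub_mul, mul_one, hcc, hcm, mul_assoc, hcc, mul_one]
  have e2 : a.1 - 1 = (c⁻¹).1 * (b.1 - 1) * c.1 := by
    rw [mul_sub, sub_mul, mul_one, hcc', hcm2, mul_assoc, hcc', mul_one]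
  refine ⟨?_, ?_⟩
  · apply le_antisymm
    · calc (a.1 - 1).rank = ((c⁻¹).1 * (b.1 - 1) * c.1).rank := by rw [← e2]
        _ ≤ ((c⁻¹).1 * (b.1 - 1)).rank := Matrix.rank_mul_le_left _ _
        _ ≤ (b.1 - 1).rank := Matrix.rank_mul_le_right _ _
    · calc (b.1 - 1).rank = (c.1 * (a.1 - 1) * (c⁻¹).1).rank := by rw [← e1]
        _ ≤ (c.1 * (a.1 - 1)).rank := Matrix.rank_mul_le_left _ _
        _ ≤ (a.1 - 1).rank := Matrix.rank_mul_le_right _ _
  · have hpol : ∀ x, sympForm m F (c.1 *ᵥ x) (b.1 *ᵥ (c.1 *ᵥ x)) = sympForm m F x (a.1 *ᵥ x) := by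
      intro x
      rw [Matrix.mulVec_mulVec, ← hcm, ← Matrix.mulVec_mulVec, sp_pres]
    constructor
    · intro hA v
      have h1 := hpol ((c⁻¹).1 *ᵥ v)
      rw [sp_mul_inv, hA] at h1
      exact h1
    · intro hA v
      rw [← hpol]
      exact hA _

theorem sp_conj_of {a b : SpG m F} (ha : orderOf a = 2) (hb : orderOf b = 2) (hr : (a.1 - 1).rank = (b.1 - 1).rank)
    (hty : (∀ v, sympForm m F v (a.1 *ᵥ v) = 0) ↔ (∀ v, sympForm m F v (b.1 *ᵥ v) = 0)) : IsConj a b := by
  by_cases hA : ∀ v, sympForm m F v (a.1 *ᵥ v) = 0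
  · obtain ⟨r, hr1, u, hu⟩ := exists_frame_alt ha hA
    obtain ⟨r', hr2, u', hu'⟩ := exists_frame_alt hb (hty.mp hA)
    have : r = r' := by omega
    subst this
    exact conj_of_frames ha hb (fun x => by simp) hu hu'
  · have hB : ¬ ∀ v, sympForm m F v (b.1 *ᵥ v) = 0 := fun h => hA (hty.mpr h)
    push Not at hA hB
    obtain ⟨u, hu⟩ := exists_frame_nonalt ha hA
    have hgen : ∀ ℓ, (b.1 - 1).rank = ℓ → ∃ u' : Fin ℓ → (Fin m ⊕ Fin m → F), Frame b (1 : Equiv.Perm (Fin ℓ)) u' := by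
      rintro _ rfl
      exact exists_frame_nonalt hb hB
    obtain ⟨u', hu'⟩ := hgen _ hr.symm
    exact conj_of_frames ha hb (fun x => by simp) hu hu'

/-- An isometry of the hyperbolic form is symplectic. -/
noncomputable def toSp (t : isometryGroup F (quadFormPlus m F)) : SpG m F :=
  ⟨((t : GL (Fin m ⊕ Fin m) F) : Matrix (Fin m ⊕ Fin m) (Fin m ⊕ Fin m) F), by
    rw [ClassGeom.mem_sp_iff_pres]
    intro u v
    rw [sympForm_eq_polar, sympForm_eq_polar]
    exact (mem_isometryGroup_iff.1 t.2).pol u v⟩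

theorem toSp_order {t : isometryGroup F (quadFormPlus m F)} (ht : orderOf t = 2) : orderOf (toSp t) = 2 := by
  have ht1 : t * t = 1 := by
    have := pow_orderOf_eq_one t
    rwa [ht, pow_two] at this
  apply orderOf_eq_prime
  · apply Subtype.ext
    rw [pow_two]
    have : ((t * t : isometryGroup F (quadFormPlus m F)) : GL (Fin m ⊕ Fin m) F).1 = 1 := by rw [ht1]; rfl
    exact this
  · intro h
    have h1 : t = 1 := by
      apply Subtype.ext
      apply Units.ext
      exact congrArg Subtype.val h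
    rw [h1, orderOf_one] at ht
    omega

theorem sp_bounds {a : SpG m F} (ha : orderOf a = 2) :
    1 ≤ (a.1 - 1).rank ∧ (a.1 - 1).rank ≤ m ∧ ((∀ v, sympForm m F v (a.1 *ᵥ v) = 0) → Even (a.1 - 1).rank) := by
  refine ⟨?_, ?_, ?_⟩
  · apply rank_sub_pos
    intro h
    have h1 : a = 1 := Subtype.ext h
    rw [h1, orderOf_one] at ha
    omega
  · have hle : LinearMap.range (a.1 - 1).mulVecLin ≤ LinearMap.ker (a.1 - 1).mulVecLin := by
      rintro _ ⟨v, rfl⟩
      rw [LinearMap.mem_ker, Matrix.mulVecLin_apply, Matrix.mulVecLin_apply, ← nn_eq, ← nn_eq]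
      exact nn_nn ha v
    have h1 := Submodule.finrank_mono hle
    have h2 := LinearMap.finrank_range_add_finrank_ker (a.1 - 1).mulVecLin
    have h3 : finrank F (Fin m ⊕ Fin m → F) = Fintype.card (Fin m ⊕ Fin m) := Module.finrank_fintype_fun_eq_card F
    simp only [Fintype.card_sum, Fintype.card_fin] at h3
    have h4 : (a.1 - 1).rank = finrank F (LinearMap.range (a.1 - 1).mulVecLin) := rfl
    omega
  · intro hA
    obtain ⟨r, hr, -⟩ := exists_frame_alt ha hA
    exact ⟨r, by omega⟩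

/-- The count for the symplectic group. -/
theorem count_sp : Nat.card {C : ConjClasses (SpG m F) // ∃ g : SpG m F, ConjClasses.mk g = C ∧ orderOf g = 2} = m + m / 2 := by
  classical
  have hf : ∀ g h : SpG m F, orderOf g = 2 → IsConj g h → invS g = invS h := by
    intro g h _ hc
    obtain ⟨h1, h2⟩ := sp_conj_inv hc
    simp only [invS, Prod.mk.injEq]
    exact ⟨h1, by simp only [h2]⟩
  have hinj : ∀ g h : SpG m F, orderOf g = 2 → orderOf h = 2 → invS g = invS h → IsConj g h := by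
    intro g h hg hh he
    simp only [invS, Prod.mk.injEq] at he
    refine sp_conj_of hg hh he.1 ?_
    have := he.2
    simpa using this
  have hA : ∀ a, a ∈ AS m m ↔ ∃ g : SpG m F, orderOf g = 2 ∧ invS g = a := by
    rintro ⟨s, b⟩
    constructor
    · intro h
      obtain ⟨t, ht, he⟩ := plus_real (F := F) h
      refine ⟨toSp t, toSp_order ht, ?_⟩
      obtain ⟨h1, h2⟩ := invO_eq_iff.1 he
      refine invS_eq_iff.2 ⟨h1, ?_⟩
      rw [← h2]
      simp only [sympForm_eq_polar]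
      rfl
    · rintro ⟨g, hg, he⟩
      obtain ⟨h1, h2⟩ := invS_eq_iff.1 he
      obtain ⟨h3, h4, h5⟩ := sp_bounds hg
      rw [mem_AS]
      cases b
      · exact Or.inl ⟨rfl, by omega, by omega⟩
      · simp only [iff_true] at h2
        refine Or.inr ⟨rfl, by omega, by omega, ?_⟩
        rw [← h1]
        exact h5 h2
  rw [card_classes (fun t : SpG m F => orderOf t = 2) invS hf hinj (AS m m) hA, card_AS]

end Sp

end Cfsg.Agent.Lib.InvolCount
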