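/-
Counting conjugacy classes of involutions in the commutator subgroup of an orthogonal group, characteristic two.
-/
import Mathlib
import Cfsg.Agent.Lib.InvolCount

set_option autoImplicit false
set_option linter.all false

namespace Cfsg.Agent.Lib.InvolCountO

open scoped MatrixGroups Matrix
open Module Cfsg Cfsg.Geo Cfsg.Agent.Lib
open Cfsg.Agent.Lib.Transvection Cfsg.Agent.Lib.LinAlgAux Cfsg.Agent.Lib.QuadBase
  Cfsg.Agent.Lib.QuadSiegel Cfsg.Agent.Lib.QuadStab Cfsg.Agent.Lib.QuadRefl Cfsg.Agent.Lib.QuadFamily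
  Cfsg.Agent.Lib.Spinor Cfsg.Agent.Lib.Dickson Cfsg.Agent.Lib.QuadClass Cfsg.Agent.Lib.InvolQ Cfsg.Agent.Lib.InvolQO
  Cfsg.Agent.Lib.InvolCount
open QuadraticMap (polar)

/-- Even invariants. -/
noncomputable def ASE (m m' : ℕ) : Finset (ℕ × Bool) :=
  ((Finset.Icc 1 m).filter Even).image (fun s => (s, false)) ∪ ((Finset.Icc 1 m').filter Even).image (fun s => (s, true))

theorem mem_ASE {m m' s : ℕ} {b : Bool} : (s, b) ∈ ASE m m' ↔ (s, b) ∈ AS m m' ∧ Even s := by
  rw [mem_AS]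
  simp only [ASE, Finset.mem_union, Finset.mem_image, Finset.mem_Icc, Finset.mem_filter, Prod.mk.injEq]
  constructor
  · rintro (⟨x, hx, rfl, rfl⟩ | ⟨x, hx, rfl, rfl⟩)
    · exact ⟨Or.inl ⟨rfl, hx.1.1, hx.1.2⟩, hx.2⟩
    · exact ⟨Or.inr ⟨rfl, hx.1.1, hx.1.2, hx.2⟩, hx.2⟩
  · rintro ⟨⟨rfl, h1, h2⟩ | ⟨rfl, h1, h2, -⟩, h3⟩
    · exact Or.inl ⟨s, ⟨⟨h1, h2⟩, h3⟩, rfl, rfl⟩
    · exact Or.inr ⟨s, ⟨⟨h1, h2⟩, h3⟩, rfl, rfl⟩

theorem card_ASE (m m' : ℕ) : (ASE m m').card = m / 2 + m' / 2 := by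
  classical
  rw [ASE, Finset.card_union_of_disjoint, Finset.card_image_of_injective, Finset.card_image_of_injective, card_even_Icc, card_even_Icc]
  · intro x y h
    exact congrArg Prod.fst h
  · intro x y h
    exact congrArg Prod.fst h
  · rw [Finset.disjoint_left]
    intro x hx hy
    simp only [Finset.mem_image] at hx hy
    obtain ⟨u, -, rfl⟩ := hx
    obtain ⟨v, -, hv⟩ := hy
    have := congrArg Prod.snd hv
    simp at this

section General

variable {ι : Type} [Fintype ι] [DecidableEq ι] {F : Type*} [Field F] [Fintype F] [CharP F 2] {Q : (ι → F) → F}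

/-- `Ω` is the kernel of the parity character. -/
structure OmegaChar (Q : (ι → F) → F) (d : isometryGroup F Q →* ℤˣ) : Prop where
  hchi : ∀ g, d g = Dickson.chi (g : GL ι F)
  hker : commutator (isometryGroup F Q) = d.ker

omit [Fintype F] [CharP F 2] in
theorem chi_eq_one_iff [Fintype F] (g : GL ι F) :
    Dickson.chi g = 1 ↔ Even (((g : Matrix ι ι F) - 1).rank) := by
  classical
  have h1 : Dickson.fixS g = LinearMap.ker (((g : Matrix ι ι F) - 1).mulVecLin) := by
    ext x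
    rw [Dickson.mem_fixS, LinearMap.mem_ker, Matrix.mulVecLin_apply, Matrix.sub_mulVec, Matrix.one_mulVec, sub_eq_zero]
  have h2 := LinearMap.finrank_range_add_finrank_ker (((g : Matrix ι ι F) - 1).mulVecLin)
  have h3 : finrank F (ι → F) = Fintype.card ι := Module.finrank_fintype_fun_eq_card F
  rw [h3, ← h1] at h2
  have h4 : ((g : Matrix ι ι F) - 1).rank + finrank F (Dickson.fixS g) = Fintype.card ι := h2
  rw [Dickson.chi, neg_one_pow_eq_one_iff_even (by decide)]
  rw [← h4]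
  have e : finrank F (Dickson.fixS g) + (((g : Matrix ι ι F) - 1).rank + finrank F (Dickson.fixS g))
      = ((g : Matrix ι ι F) - 1).rank + 2 * finrank F (Dickson.fixS g) := by ring
  rw [e, Nat.even_add]
  simp

variable {d : isometryGroup F Q →* ℤˣ}

theorem mem_omega_iff (hO : OmegaChar Q d) (g : isometryGroup F Q) :
    g ∈ Omega F Q ↔ Even (((g : GL ι F) : Matrix ι ι F) - 1).rank := by
  rw [Omega, hO.hker, MonoidHom.mem_ker, hO.hchi, chi_eq_one_iff]

theorem d_rf (hQ : IsNondegenerateQuadraticForm Q) (hO : OmegaChar Q d) {v : ι → F} (hv : Q v ≠ 0) :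
    d (rfO hQ v) = -1 := by
  rw [hO.hchi]
  have := chi_mul_rf hQ (QIsom.one (Q := Q) (ι := ι) (F := F)) hv
  rw [one_mul, chi_one] at this
  exact this

theorem mem_omega_of_d (hO : OmegaChar Q d) {g : isometryGroup F Q} (h : d g = 1) : g ∈ Omega F Q := by
  rw [Omega, hO.hker, MonoidHom.mem_ker]
  exact h

theorem d_of_mem (hO : OmegaChar Q d) {g : isometryGroup F Q} (h : g ∈ Omega F Q) : d g = 1 := by
  rw [Omega, hO.hker, MonoidHom.mem_ker] at h
  exact h

theorem d_of_not_mem (hO : OmegaChar Q d) {g : isometryGroup F Q} (h : g ∉ Omega F Q) : d g = -1 := by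
  rcases Int.units_eq_one_or (d g) with h1 | h1
  · exact absurd (mem_omega_of_d hO h1) h
  · exact h1

/-- A nonsingular fixed vector gives a commuting reflection. -/
theorem conj_fix (hQ : IsNondegenerateQuadraticForm Q) (hO : OmegaChar Q d)
    {t s : isometryGroup F Q} (hconj : IsConj t s) {v : ι → F} (hv : Q v ≠ 0)
    (hfix : (((t : GL ι F)) : Matrix ι ι F) *ᵥ v = v) :
    ∃ g ∈ Omega F Q, g * t * g⁻¹ = s := by
  classical
  obtain ⟨g₀, hg₀⟩ := isConj_iff.mp hconj
  by_cases hm : g₀ ∈ Omega F Q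
  · exact ⟨g₀, hm, hg₀⟩
  · refine ⟨g₀ * rfO hQ v, ?_, ?_⟩
    · apply mem_omega_of_d hO
      rw [map_mul, d_of_not_mem hO hm, d_rf hQ hO hv]
      decide
    · have h1 : t * rfO hQ v * t⁻¹ = rfO hQ v := by
        apply Subtype.ext
        change (t : GL ι F) * rf hQ v * (t : GL ι F)⁻¹ = rf hQ v
        rw [conj_rf hQ (mem_isometryGroup_iff.1 t.2), hfix]
      have h2 : rfO hQ v * t = t * rfO hQ v := by
        rw [mul_inv_eq_iff_eq_mul] at h1
        exact h1.symm
      calc g₀ * rfO hQ v * t * (g₀ * rfO hQ v)⁻¹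
          = g₀ * (rfO hQ v * t) * (rfO hQ v)⁻¹ * g₀⁻¹ := by group
        _ = g₀ * t * g₀⁻¹ := by rw [h2]; group
        _ = s := hg₀

theorem invO_conj {g h : isometryGroup F Q} (hc : IsConj g h) : invO g = invO h := by
  classical
  obtain ⟨h1, h2⟩ := conj_inv hc
  simp only [invO, Prod.mk.injEq]
  exact ⟨h1, by simp only [h2]⟩

theorem conj_of_invO (hQ : IsNondegenerateQuadraticForm Q) {g h : isometryGroup F Q} (hg : orderOf g = 2) (hh : orderOf h = 2)
    (he : invO g = invO h) : IsConj g h := by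
  classical
  simp only [invO, Prod.mk.injEq] at he
  have h1 : g * g = 1 := by
    have := pow_orderOf_eq_one g
    rwa [hg, pow_two] at this
  have h2 : h * h = 1 := by
    have := pow_orderOf_eq_one h
    rwa [hh, pow_two] at this
  refine conj_of_type hQ h1 h2 he.1 ?_
  have := he.2
  simpa using this

/-- The count when no class splits. -/
theorem count_ns (hQ : IsNondegenerateQuadraticForm Q) (hO : OmegaChar Q d)
    (hns : ∀ t : isometryGroup F Q, t ∈ Omega F Q → orderOf t = 2 →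
      ∃ v, ((t : GL ι F) : Matrix ι ι F) *ᵥ v = v ∧ Q v ≠ 0)
    (A : Finset (ℕ × Bool)) (hA : ∀ a, a ∈ A ↔ ∃ t : isometryGroup F Q, t ∈ Omega F Q ∧ orderOf t = 2 ∧ invO t = a) :
    Nat.card {C : ConjClasses ↥(Omega F Q) // ∃ g : ↥(Omega F Q), ConjClasses.mk g = C ∧ orderOf g = 2} = A.card := by
  classical
  have hf : ∀ g h : ↥(Omega F Q), orderOf g = 2 → IsConj g h → invO g.1 = invO h.1 := by
    intro g h _ hc
    exact invO_conj (MonoidHom.map_isConj (Omega F Q).subtype hc)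
  have hinj : ∀ g h : ↥(Omega F Q), orderOf g = 2 → orderOf h = 2 → invO g.1 = invO h.1 → IsConj g h := by
    intro g h hg hh he
    have hg' : orderOf g.1 = 2 := by rw [Subgroup.orderOf_coe]; exact hg
    have hh' : orderOf h.1 = 2 := by rw [Subgroup.orderOf_coe]; exact hh
    have hc := conj_of_invO hQ hg' hh' he
    obtain ⟨v, hv1, hv2⟩ := hns g.1 g.2 hg'
    obtain ⟨c, hc1, hc2⟩ := conj_fix hQ hO hc hv2 hv1
    exact isConj_iff.2 ⟨⟨c, hc1⟩, Subtype.ext hc2⟩
  have hA' : ∀ a, a ∈ A ↔ ∃ g : ↥(Omega F Q), orderOf g = 2 ∧ invO g.1 = a := by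
    intro a
    rw [hA]
    constructor
    · rintro ⟨t, ht, h1, h2⟩
      exact ⟨⟨t, ht⟩, by rw [← Subgroup.orderOf_coe]; exact h1, h2⟩
    · rintro ⟨g, h1, h2⟩
      exact ⟨g.1, g.2, by rw [Subgroup.orderOf_coe]; exact h1, h2⟩
  exact card_classes (fun g : ↥(Omega F Q) => orderOf g = 2) (fun g => invO g.1) hf hinj A hA'

/-- The count when exactly one class splits. -/
theorem count_split (hQ : IsNondegenerateQuadraticForm Q) (hO : OmegaChar Q d)
    {t₀ : isometryGroup F Q} (ht₀ : t₀ ∈ Omega F Q) (ho : orderOf t₀ = 2)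
    (hcent : ∀ x : isometryGroup F Q, x * t₀ * x⁻¹ = t₀ → x ∈ Omega F Q)
    (hns : ∀ t : isometryGroup F Q, t ∈ Omega F Q → orderOf t = 2 → ¬ IsConj t₀ t →
      ∃ v, ((t : GL ι F) : Matrix ι ι F) *ᵥ v = v ∧ Q v ≠ 0)
    {a₀ : ι → F} (ha₀ : Q a₀ ≠ 0)
    (A : Finset (ℕ × Bool)) (hA : ∀ a, a ∈ A ↔ ∃ t : isometryGroup F Q, t ∈ Omega F Q ∧ orderOf t = 2 ∧ invO t = a) :
    Nat.card {C : ConjClasses ↥(Omega F Q) // ∃ g : ↥(Omega F Q), ConjClasses.mk g = C ∧ orderOf g = 2} = A.card + 1 := by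
  classical
  let bb : isometryGroup F Q → Prop := fun g => ¬ IsConj t₀ g ∨ ∃ h ∈ Omega F Q, h * t₀ * h⁻¹ = g
  let f : ↥(Omega F Q) → (ℕ × Bool) × Bool := fun g => (invO g.1, decide (bb g.1))
  let A' : Finset ((ℕ × Bool) × Bool) := A.image (fun a => (a, true)) ∪ {(invO t₀, false)}
  have hcardA' : A'.card = A.card + 1 := by
    rw [Finset.card_union_of_disjoint, Finset.card_image_of_injective, Finset.card_singleton]
    · intro x y h
      exact congrArg Prod.fst h
    · rw [Finset.disjoint_singleton_right]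
      intro h
      simp only [Finset.mem_image, Prod.mk.injEq] at h
      obtain ⟨_, _, _, h2⟩ := h
      simp at h2
  have hord : ∀ g : ↥(Omega F Q), orderOf g.1 = orderOf g := fun g => Subgroup.orderOf_coe g
  have hf : ∀ g h : ↥(Omega F Q), orderOf g = 2 → IsConj g h → f g = f h := by
    intro g h _ hc
    have h1 : invO g.1 = invO h.1 := invO_conj (MonoidHom.map_isConj (Omega F Q).subtype hc)
    have hc' : IsConj g.1 h.1 := MonoidHom.map_isConj (Omega F Q).subtype hc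
    have h2 : bb g.1 ↔ bb h.1 := by
      obtain ⟨c, hc2⟩ := isConj_iff.1 hc
      have hc3 : (c : isometryGroup F Q) * g.1 * (c : isometryGroup F Q)⁻¹ = h.1 := congrArg Subtype.val hc2
      simp only [bb]
      apply or_congr
      · exact not_congr ⟨fun x => x.trans hc', fun x => x.trans hc'.symm⟩
      · constructor
        · rintro ⟨k, hk, hk2⟩
          refine ⟨(c : isometryGroup F Q) * k, (Omega F Q).mul_mem c.2 hk, ?_⟩
          rw [← hc3, ← hk2]
          group
        · rintro ⟨k, hk, hk2⟩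
          refine ⟨(c : isometryGroup F Q)⁻¹ * k, (Omega F Q).mul_mem ((Omega F Q).inv_mem c.2) hk, ?_⟩
          rw [← hc3] at hk2
          have : (c : isometryGroup F Q)⁻¹ * k * t₀ * ((c : isometryGroup F Q)⁻¹ * k)⁻¹ = (c : isometryGroup F Q)⁻¹ * (k * t₀ * k⁻¹) * (c : isometryGroup F Q) := by group
          rw [this, hk2]
          group
    simp only [f, Prod.mk.injEq]
    exact ⟨h1, by simp only [h2]⟩
  have hinj : ∀ g h : ↥(Omega F Q), orderOf g = 2 → orderOf h = 2 → f g = f h → IsConj g h := by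
    intro g h hg hh he
    simp only [f, Prod.mk.injEq] at he
    have hg' : orderOf g.1 = 2 := by rw [hord]; exact hg
    have hh' : orderOf h.1 = 2 := by rw [hord]; exact hh
    have hc := conj_of_invO hQ hg' hh' he.1
    have hb : bb g.1 ↔ bb h.1 := by simpa using he.2
    by_cases hgc : IsConj t₀ g.1
    · have hhc : IsConj t₀ h.1 := hgc.trans hc
      by_cases hb1 : ∃ k ∈ Omega F Q, k * t₀ * k⁻¹ = g.1
      · obtain ⟨k, hk, hk2⟩ := hb1
        have hb2 : bb h.1 := hb.1 (Or.inr ⟨k, hk, hk2⟩)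
        rcases hb2 with hb2 | ⟨k', hk', hk2'⟩
        · exact absurd hhc hb2
        · refine isConj_iff.2 ⟨⟨k' * k⁻¹, (Omega F Q).mul_mem hk' ((Omega F Q).inv_mem hk)⟩, Subtype.ext ?_⟩
          show k' * k⁻¹ * g.1 * (k' * k⁻¹)⁻¹ = h.1
          rw [← hk2, ← hk2']
          group
      · have hb2 : ¬ ∃ k ∈ Omega F Q, k * t₀ * k⁻¹ = h.1 := by
          intro hk
          have : bb g.1 := hb.2 (Or.inr hk)
          rcases this with h3 | h3
          · exact h3 hgc
          · exact hb1 h3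
        obtain ⟨x, hx⟩ := isConj_iff.1 hgc
        obtain ⟨y, hy⟩ := isConj_iff.1 hhc
        have hx1 : x ∉ Omega F Q := fun hm => hb1 ⟨x, hm, hx⟩
        have hy1 : y ∉ Omega F Q := fun hm => hb2 ⟨y, hm, hy⟩
        refine isConj_iff.2 ⟨⟨y * x⁻¹, mem_omega_of_d hO ?_⟩, Subtype.ext ?_⟩
        · rw [map_mul, map_inv, d_of_not_mem hO hx1, d_of_not_mem hO hy1]
          decide
        · show y * x⁻¹ * g.1 * (y * x⁻¹)⁻¹ = h.1
          rw [← hx, ← hy]
          group
    · obtain ⟨v, hv1, hv2⟩ := hns g.1 g.2 hg' hgc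
      obtain ⟨c, hc1, hc2⟩ := conj_fix hQ hO hc hv2 hv1
      exact isConj_iff.2 ⟨⟨c, hc1⟩, Subtype.ext hc2⟩
  have hA' : ∀ a, a ∈ A' ↔ ∃ g : ↥(Omega F Q), orderOf g = 2 ∧ f g = a := by
    rintro ⟨a, b⟩
    simp only [A', Finset.mem_union, Finset.mem_image, Finset.mem_singleton, Prod.mk.injEq]
    constructor
    · rintro (⟨a', ha', rfl, rfl⟩ | ⟨rfl, rfl⟩)
      · obtain ⟨t, ht, h1, rfl⟩ := (hA a').1 ha'
        by_cases he : invO t = invO t₀
        · refine ⟨⟨t₀, ht₀⟩, by rw [← hord]; exact ho, ?_⟩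
          simp only [f, Prod.mk.injEq]
          refine ⟨he.symm, ?_⟩
          simp only [decide_eq_true_eq]
          exact Or.inr ⟨1, (Omega F Q).one_mem, by group⟩
        · refine ⟨⟨t, ht⟩, by rw [← hord]; exact h1, ?_⟩
          simp only [f, Prod.mk.injEq]
          refine ⟨trivial, ?_⟩
          simp only [decide_eq_true_eq]
          exact Or.inl fun hc => he (invO_conj hc).symm
      · set r := rfO hQ a₀ with hr
        have hcj : IsConj t₀ (r * t₀ * r⁻¹) := isConj_iff.2 ⟨r, rfl⟩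
        have hmem : r * t₀ * r⁻¹ ∈ Omega F Q := (inferInstance : (Omega F Q).Normal).conj_mem t₀ ht₀ r
        have hor : orderOf (r * t₀ * r⁻¹) = 2 := by
          rw [← ho]
          have hs : SemiconjBy r t₀ (r * t₀ * r⁻¹) := by
            unfold SemiconjBy
            group
          exact (SemiconjBy.orderOf_eq r hs).symm
        refine ⟨⟨_, hmem⟩, by rw [← hord]; exact hor, ?_⟩
        simp only [f, Prod.mk.injEq]
        refine ⟨(invO_conj hcj).symm, ?_⟩
        simp only [decide_eq_false_iff_not]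
        rintro (h1 | ⟨k, hk, hk2⟩)
        · exact h1 hcj
        · have h3 : (k⁻¹ * r) * t₀ * (k⁻¹ * r)⁻¹ = t₀ := by
            have : (k⁻¹ * r) * t₀ * (k⁻¹ * r)⁻¹ = k⁻¹ * (r * t₀ * r⁻¹) * k := by group
            rw [this, ← hk2]
            group
          have h4 := hcent _ h3
          have h5 : r ∈ Omega F Q := by
            have : r = k * (k⁻¹ * r) := by group
            rw [this]
            exact (Omega F Q).mul_mem hk h4
          have h6 := d_of_mem hO h5
          rw [hr, d_rf hQ hO ha₀] at h6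
          exact absurd h6 (by decide)
    · rintro ⟨g, hg, he⟩
      simp only [f, Prod.mk.injEq] at he
      obtain ⟨rfl, rfl⟩ := he
      by_cases hb : bb g.1
      · left
        exact ⟨invO g.1, (hA _).2 ⟨g.1, g.2, by rw [hord]; exact hg, rfl⟩, rfl, (decide_eq_true hb).symm⟩
      · right
        refine ⟨?_, decide_eq_false hb⟩
        have : IsConj t₀ g.1 := by
          by_contra h
          exact hb (Or.inl h)
        exact (invO_conj this).symm
  rw [card_classes (fun g : ↥(Omega F Q) => orderOf g = 2) f hf hinj A' hA', hcardA']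

/-- Passage from all involutions to the involutions of `Ω`. -/
theorem ASE_iff (hO : OmegaChar Q d) {M M' : ℕ}
    (hI : ∀ a, a ∈ AS M M' ↔ ∃ t : isometryGroup F Q, orderOf t = 2 ∧ invO t = a) (a : ℕ × Bool) :
    a ∈ ASE M M' ↔ ∃ t : isometryGroup F Q, t ∈ Omega F Q ∧ orderOf t = 2 ∧ invO t = a := by
  obtain ⟨s, b⟩ := a
  rw [mem_ASE, hI]
  constructor
  · rintro ⟨⟨t, h1, h2⟩, h3⟩
    refine ⟨t, ?_, h1, h2⟩
    rw [mem_omega_iff hO, (invO_eq_iff.1 h2).1]
    exact h3
  · rintro ⟨t, h0, h1, h2⟩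
    refine ⟨⟨t, h1, h2⟩, ?_⟩
    rw [← (invO_eq_iff.1 h2).1, ← mem_omega_iff hO]
    exact h0

/-- The parity character is available outside the exceptional case. -/
theorem omegaChar_dickson (hQ : IsNondegenerateQuadraticForm Q) (hn : 1 ≤ Fintype.card ι)
    (h : Fintype.card F ≠ 2 ∨ Fintype.card ι ≠ 4) : OmegaChar Q (dickson hQ h) := by
  classical
  exact ⟨fun g => rfl, comm_eq_dickson_fun hQ hn h⟩

/-- Centralizers of maximal elements lie in `Ω`. -/
theorem cent_le_omega (hQ : IsNondegenerateQuadraticForm Q) (hn : 1 ≤ Fintype.card ι)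
    (h : Fintype.card F ≠ 2 ∨ Fintype.card ι ≠ 4) {t : isometryGroup F Q}
    (hrk : 2 * (((t : GL ι F) : Matrix ι ι F) - 1).rank = Fintype.card ι)
    (hsing : ∀ v, Q (v + ((t : GL ι F) : Matrix ι ι F) *ᵥ v) = 0)
    {g : isometryGroup F Q} (hg : g * t * g⁻¹ = t) : g ∈ Omega F Q := by
  classical
  set W := LinearMap.range (Matrix.toLin' (((t : GL ι F) : Matrix ι ι F) - 1)) with hW
  have hfW : finrank F W = (((t : GL ι F) : Matrix ι ι F) - 1).rank := by
    rw [hW, Matrix.toLin'_apply']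
    rfl
  have hT : MaxTS Q W := by
    refine ⟨?_, by rw [hfW]; exact hrk⟩
    rintro _ ⟨v, rfl⟩
    rw [Matrix.toLin'_apply, ← nnQ_eq, nnQ, add_comm]
    exact hsing v
  have hmap : W.map (glLin (g : GL ι F)) = W := by
    have hcm : ((g : GL ι F) : Matrix ι ι F) * (((t : GL ι F) : Matrix ι ι F) - 1) = (((t : GL ι F) : Matrix ι ι F) - 1) * ((g : GL ι F) : Matrix ι ι F) := by
      have h1 : g * t = t * g := by
        nth_rewrite 2 [← hg]
        group
      have h2 : ((g : GL ι F) : Matrix ι ι F) * ((t : GL ι F) : Matrix ι ι F) = ((t : GL ι F) : Matrix ι ι F) * ((g : GL ι F) : Matrix ι ι F) :=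
        congrArg (fun x : isometryGroup F Q => ((x : GL ι F) : Matrix ι ι F)) h1
      rw [mul_sub, sub_mul, mul_one, one_mul, h2]
    ext y
    simp only [Submodule.mem_map, glLin_apply]
    constructor
    · rintro ⟨x, ⟨v, rfl⟩, rfl⟩
      refine ⟨((g : GL ι F) : Matrix ι ι F) *ᵥ v, ?_⟩
      rw [Matrix.toLin'_apply, Matrix.toLin'_apply, Matrix.mulVec_mulVec, Matrix.mulVec_mulVec, hcm]
    · rintro ⟨u, rfl⟩
      refine ⟨Matrix.toLin' (((t : GL ι F) : Matrix ι ι F) - 1) (((g⁻¹ : GL ι F) : Matrix ι ι F) *ᵥ u), ⟨_, rfl⟩, ?_⟩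
      rw [Matrix.toLin'_apply, Matrix.toLin'_apply, Matrix.mulVec_mulVec, hcm, ← Matrix.mulVec_mulVec]
      congr 1
      rw [Matrix.mulVec_mulVec]
      have h3 : ((g : GL ι F) : Matrix ι ι F) * ((g⁻¹ : GL ι F) : Matrix ι ι F) = 1 := congrArg Units.val (mul_inv_cancel (g : GL ι F))
      rw [h3, Matrix.one_mulVec]
  rw [Omega, comm_eq_dickson_fun hQ hn h, MonoidHom.mem_ker, ← eps_iff_dickson hQ h hT g]
  unfold eps
  rw [hmap, inf_idem, ZMod.natCast_eq_zero_iff, ← even_iff_two_dvd]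
  exact Even.add_self _

/-- An alternating involution has singular commutators. -/
theorem sing_of_alt {t : isometryGroup F Q} (hA : ∀ v, polar Q v (((t : GL ι F) : Matrix ι ι F) *ᵥ v) = 0) (v : ι → F) :
    Q (v + ((t : GL ι F) : Matrix ι ι F) *ᵥ v) = 0 := by
  have h1 := Q_nn (mem_isometryGroup_iff.1 t.2) v
  rw [nnQ, add_comm] at h1
  rw [h1]
  exact hA v

theorem alt_of_sing {t : isometryGroup F Q} (hA : ∀ v, Q (v + ((t : GL ι F) : Matrix ι ι F) *ᵥ v) = 0) (v : ι → F) :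
    polar Q v (((t : GL ι F) : Matrix ι ι F) *ᵥ v) = 0 := by
  have h1 := Q_nn (mem_isometryGroup_iff.1 t.2) v
  rw [nnQ, add_comm] at h1
  rw [← h1]
  exact hA v

end General

section PlusCount

variable {F : Type*} [Field F] [Fintype F] [CharP F 2] {m : ℕ}

/-- The count in `Ω⁺`. -/
theorem count_omega_plus (hm : 1 ≤ m) (h : Fintype.card F ≠ 2 ∨ m ≠ 2) :
    Nat.card {C : ConjClasses ↥(Omega F (quadFormPlus m F)) // ∃ g : ↥(Omega F (quadFormPlus m F)), ConjClasses.mk g = C ∧ orderOf g = 2} =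
      2 * (m / 2) + (if Even m then 1 else 0) := by
  classical
  have hQ := QuadPlus.quadFormPlus_nondeg (F := F) m
  have hcard : Fintype.card (Fin m ⊕ Fin m) = 2 * m := by
    simp
    omega
  have hn : 1 ≤ Fintype.card (Fin m ⊕ Fin m) := by omega
  have h' : Fintype.card F ≠ 2 ∨ Fintype.card (Fin m ⊕ Fin m) ≠ 4 := by
    rcases h with h | h
    · exact Or.inl h
    · right
      omega
  have hO := omegaChar_dickson hQ hn h'
  have hAE := ASE_iff hO (M := m) (M' := m) plus_iff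
  by_cases hev : Even m
  · rw [if_pos hev]
    have hmem : (m, true) ∈ AS m m := mem_AS.2 (Or.inr ⟨rfl, hm, le_rfl, hev⟩)
    obtain ⟨t₀, ho, he⟩ := plus_real (F := F) hmem
    obtain ⟨hr0, hA0⟩ := invO_eq_iff.1 he
    simp only [iff_true] at hA0
    have ht₀ : t₀ ∈ Omega F (quadFormPlus m F) := by
      rw [mem_omega_iff hO, hr0]
      exact hev
    obtain ⟨a₀, ha₀⟩ := Spinor.exists_nonsing hQ hn
    rw [count_split hQ hO ht₀ ho (fun x hx => cent_le_omega hQ hn h' (by rw [hr0, hcard]) (sing_of_alt hA0) hx) ?_ ha₀ (ASE m m) hAE, card_ASE]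
    · omega
    · intro t htm hto hnc
      rcases fix_or_ts hQ hto with ⟨v, hv1, hv2⟩ | ⟨K, hK, h1, h2, h3⟩
      · exact ⟨v, hv1, hv2⟩
      · exfalso
        apply hnc
        apply conj_of_invO hQ ho hto
        rw [he]
        symm
        refine invO_eq_iff.2 ⟨by omega, ?_⟩
        simp only [iff_true]
        exact alt_of_sing h3
  · rw [if_neg hev]
    rw [count_ns hQ hO ?_ (ASE m m) hAE, card_ASE]
    · omega
    · intro t htm hto
      rcases fix_or_ts hQ hto with ⟨v, hv1, hv2⟩ | ⟨K, hK, h1, h2, h3⟩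
      · exact ⟨v, hv1, hv2⟩
      · exfalso
        apply hev
        have h4 := (mem_omega_iff hO t).1 htm
        have h5 : ((((t : isometryGroup F (quadFormPlus m F)) : GL (Fin m ⊕ Fin m) F) : Matrix (Fin m ⊕ Fin m) (Fin m ⊕ Fin m) F) - 1).rank = m := by omega
        rwa [h5] at h4

end PlusCount

section Exceptional

variable {ι : Type} [Fintype ι] [DecidableEq ι] {F : Type*} [Field F] [Fintype F] [CharP F 2] {Q : (ι → F) → F}

theorem sg_mem_rfG_of_noplane (hQ : IsNondegenerateQuadraticForm Q)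
    (hno : ∀ a b, Q a = 0 → Q b = 0 → polar Q a b = 0 → a ≠ 0 → b ∈ Submodule.span F {a}) {a b : ι → F} (h1 : Q a = 0)
    (h2 : polar Q a b = 0) : sg hQ a b ∈ rfG hQ := by
  classical
  by_cases hb : Q b ≠ 0
  · exact sg_nonsing_mem hQ h1 h2 hb
  push Not at hb
  by_cases ha0 : a = 0
  · rw [ha0, sg_zero_left]
    exact (rfG hQ).one_mem
  obtain ⟨l, rfl⟩ := Submodule.mem_span_singleton.1 (hno a b h1 hb h2 ha0)
  rw [sg_self hQ l h1]
  exact (rfG hQ).one_mem

theorem isom_mem_rfG_of_noplane (hQ : IsNondegenerateQuadraticForm Q)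
    (hno : ∀ a b, Q a = 0 → Q b = 0 → polar Q a b = 0 → a ≠ 0 → b ∈ Submodule.span F {a}) {g : GL ι F} (hg : QIsom Q g) :
    g ∈ rfG hQ := by
  have hle : genG hQ ≤ rfG hQ := by
    refine (Subgroup.closure_le _).2 ?_
    rintro s (⟨a, b, h1, h2, rfl⟩ | ⟨a, rfl⟩)
    · exact sg_mem_rfG_of_noplane hQ hno h1 h2
    · exact rf_mem_rfG hQ a
  exact hle (isom_mem_genG hQ hg)

theorem chi_mul_of_rf (hQ : IsNondegenerateQuadraticForm Q) (hrf : ∀ g : GL ι F, QIsom Q g → g ∈ rfG hQ)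
    {x y : GL ι F} (hx : QIsom Q x) (hy : QIsom Q y) : chi (x * y) = chi x * chi y := by
  have hy' : y ∈ rfG hQ := hrf y hy
  have key : ∀ y ∈ rfG hQ, QIsom Q y ∧ ∀ x, QIsom Q x → chi (x * y) = chi x * chi y := by
    intro y hy
    induction hy using Subgroup.closure_induction with
    | mem z hz =>
      obtain ⟨a, ha, rfl⟩ := hz
      refine ⟨rf_isom hQ a, fun x hx => ?_⟩
      rw [chi_mul_rf hQ hx ha]
      have := chi_mul_rf hQ (QIsom.one (Q := Q) (ι := ι) (F := F)) ha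
      rw [one_mul, chi_one] at this
      rw [this]
      simp
    | one =>
      refine ⟨QIsom.one, fun x _ => ?_⟩
      rw [mul_one, chi_one, mul_one]
    | mul a b _ _ ha hb =>
      refine ⟨ha.1.mul hb.1, fun x hx => ?_⟩
      rw [← mul_assoc, hb.2 _ (hx.mul ha.1), ha.2 x hx, hb.2 a ha.1, mul_assoc]
    | inv a _ ha =>
      have hi : QIsom Q a⁻¹ := ha.1.inv
      refine ⟨hi, fun x hx => ?_⟩
      have h1 := ha.2 _ (hx.mul hi)
      rw [mul_assoc, inv_mul_cancel, mul_one] at h1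
      have h2 := ha.2 _ hi
      rw [inv_mul_cancel, chi_one] at h2
      rw [h1, mul_assoc, mul_comm (chi a), ← h2, mul_one]
  exact (key y hy').2 x hx

/-- The parity character given generation by reflections. -/
noncomputable def dickOfRf (hQ : IsNondegenerateQuadraticForm Q) (hrf : ∀ g : GL ι F, QIsom Q g → g ∈ rfG hQ) :
    isometryGroup F Q →* ℤˣ where
  toFun g := chi (g : GL ι F)
  map_one' := chi_one
  map_mul' x y := chi_mul_of_rf hQ hrf (mem_isometryGroup_iff.1 x.2) (mem_isometryGroup_iff.1 y.2)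

theorem closure_rf_top_of_rf (hQ : IsNondegenerateQuadraticForm Q) (hrf : ∀ g : GL ι F, QIsom Q g → g ∈ rfG hQ) :
    Subgroup.closure {s : isometryGroup F Q | ∃ a, Q a ≠ 0 ∧ s = rfO hQ a} = ⊤ := by
  have hle : rfG hQ ≤ (Subgroup.closure {s : isometryGroup F Q | ∃ a, Q a ≠ 0 ∧ s = rfO hQ a}).map (isometryGroup F Q).subtype := by
    refine (Subgroup.closure_le _).2 ?_
    rintro s ⟨a, ha, rfl⟩
    exact ⟨rfO hQ a, Subgroup.subset_closure ⟨a, ha, rfl⟩, rfl⟩
  rw [eq_top_iff]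
  rintro g -
  obtain ⟨t, ht, hte⟩ := hle (hrf _ (mem_isometryGroup_iff.1 g.2))
  have : t = g := Subtype.ext hte
  rwa [← this]

theorem omegaChar_of_rf (hQ : IsNondegenerateQuadraticForm Q) (hrf : ∀ g : GL ι F, QIsom Q g → g ∈ rfG hQ)
    (hn : 1 ≤ Fintype.card ι) : OmegaChar Q (dickOfRf hQ hrf) := by
  classical
  refine ⟨fun g => rfl, ?_⟩
  obtain ⟨a₀, ha₀⟩ := Spinor.exists_nonsing hQ hn
  refine (comm_eq_one_class {s : isometryGroup F Q | ∃ a, Q a ≠ 0 ∧ s = rfO hQ a} (closure_rf_top_of_rf hQ hrf) ?_ ?_ (dickOfRf hQ hrf) ?_ ⟨_, a₀, ha₀, rfl⟩).1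
  · rintro _ ⟨a, _, rfl⟩
    exact rfO_mul_self hQ a
  · rintro _ ⟨a, ha, rfl⟩ _ ⟨b, hb, rfl⟩
    exact rfO_isConj2 (toQF' hQ) (toQF'_nondeg hQ) ha hb
  · rintro _ ⟨a, ha, rfl⟩
    have := chi_mul_rf hQ (QIsom.one (Q := Q) (ι := ι) (F := F)) ha
    rw [one_mul, chi_one] at this
    exact this

end Exceptional

section MinusCount

variable {F : Type*} [Field F] [Fintype F] [CharP F 2] {k : ℕ} {a b : F}

theorem noplane_minus (hab : ∀ z₁ z₂ : F, z₁ ^ 2 + a * z₁ * z₂ + b * z₂ ^ 2 = 0 → z₁ = 0 ∧ z₂ = 0)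
    (x y : (Fin 1 ⊕ Fin 1) ⊕ Fin 2 → F) (hx : quadFormMinus 1 F a b x = 0) (hy : quadFormMinus 1 F a b y = 0)
    (hxy : polar (quadFormMinus 1 F a b) x y = 0) (hx0 : x ≠ 0) : y ∈ Submodule.span F {x} := by
  have hQ := OrthMinus.minus_nondeg 1 a b hab
  by_contra hnot
  have hK : ∀ z ∈ Submodule.span F {x, y}, quadFormMinus 1 F a b z = 0 := by
    intro z hz
    obtain ⟨c, e, rfl⟩ := Submodule.mem_span_pair.1 hz
    rw [Q_add (Q := quadFormMinus 1 F a b), hQ.smul, hQ.smul, hx, hy, pol_smul_left hQ, pol_smul_right hQ, hxy]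
    simp
  have h1 := ts_le a b hab 1 _ hK
  have h2 : Submodule.span F {x} < Submodule.span F {x, y} := by
    refine lt_of_le_of_ne (Submodule.span_mono (by simp)) ?_
    intro h3
    apply hnot
    rw [h3]
    exact Submodule.subset_span (by simp)
  have h3 := Submodule.finrank_lt_finrank_of_lt h2
  rw [finrank_span_singleton hx0] at h3
  omega

/-- The count in `Ω⁻`, given the parity character. -/
theorem count_omega_minus_of (hab : ∀ z₁ z₂ : F, z₁ ^ 2 + a * z₁ * z₂ + b * z₂ ^ 2 = 0 → z₁ = 0 ∧ z₂ = 0)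
    {d : isometryGroup F (quadFormMinus k F a b) →* ℤˣ} (hO : OmegaChar (quadFormMinus k F a b) d) :
    Nat.card {C : ConjClasses ↥(Omega F (quadFormMinus k F a b)) // ∃ g : ↥(Omega F (quadFormMinus k F a b)), ConjClasses.mk g = C ∧ orderOf g = 2} =
      (k + 1) / 2 + k / 2 := by
  classical
  have hQ := OrthMinus.minus_nondeg k a b hab
  rw [count_ns hQ hO ?_ (ASE (k + 1) k) (ASE_iff hO (minus_iff hab)), card_ASE]
  intro t htm hto
  rcases fix_or_ts hQ hto with ⟨v, hv1, hv2⟩ | ⟨K, hK, h1, h2, h3⟩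
  · exact ⟨v, hv1, hv2⟩
  · exfalso
    have h4 := ts_le a b hab k K hK
    simp only [Fintype.card_sum, Fintype.card_fin] at h2
    omega

/-- The count in `Ω⁻`. -/
theorem count_omega_minus (hab : ∀ z₁ z₂ : F, z₁ ^ 2 + a * z₁ * z₂ + b * z₂ ^ 2 = 0 → z₁ = 0 ∧ z₂ = 0) :
    Nat.card {C : ConjClasses ↥(Omega F (quadFormMinus k F a b)) // ∃ g : ↥(Omega F (quadFormMinus k F a b)), ConjClasses.mk g = C ∧ orderOf g = 2} =
      (k + 1) / 2 + k / 2 := by
  classical
  have hQ := OrthMinus.minus_nondeg k a b hab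
  have hcard : Fintype.card ((Fin k ⊕ Fin k) ⊕ Fin 2) = 2 * k + 2 := by
    simp
    omega
  have hn : 1 ≤ Fintype.card ((Fin k ⊕ Fin k) ⊕ Fin 2) := by omega
  by_cases hex : k = 1
  · subst hex
    exact count_omega_minus_of hab (omegaChar_of_rf hQ (fun g hg => isom_mem_rfG_of_noplane hQ (noplane_minus hab) hg) hn)
  · have h' : Fintype.card F ≠ 2 ∨ Fintype.card ((Fin k ⊕ Fin k) ⊕ Fin 2) ≠ 4 := by
      right
      omega
    exact count_omega_minus_of hab (omegaChar_dickson hQ hn h')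

end MinusCount

end Cfsg.Agent.Lib.InvolCountO
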