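import Cfsg.Agent.Lib.SylowCount
import Cfsg.Prelude.Def_TwoFusion

/-!
Isolated involutions: basic structure (Glauberman's lemma on the set of odd order elements inverted by `z`).
-/

set_option autoImplicit false
set_option linter.all false

namespace Cfsg.Agent.Lib.IsolatedH2

open Subgroup Cfsg

variable {G : Type*} [Group G]

/-- `z⁻¹ = z` for an involution. -/
theorem inv_eq_of_orderOf_two {z : G} (hz : orderOf z = 2) : z⁻¹ = z := by
  apply inv_eq_of_mul_eq_one_left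
  rw [← pow_two, ← hz]; exact pow_orderOf_eq_one z

theorem mul_self_of_orderOf_two {z : G} (hz : orderOf z = 2) : z * z = 1 := by
  rw [← pow_two, ← hz]; exact pow_orderOf_eq_one z

/-- In the dihedral situation, `z` inverts `r = z t`. -/
theorem conj_mul {z t : G} (hz : z * z = 1) (ht : t * t = 1) : z * (z * t) * z⁻¹ = (z * t)⁻¹ := by
  have hzi : z⁻¹ = z := inv_eq_of_mul_eq_one_left hz
  have hti : t⁻¹ = t := inv_eq_of_mul_eq_one_left ht
  rw [mul_inv_rev, hzi, hti, ← mul_assoc, hz, one_mul]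

theorem conj_zpow' {z r : G} (h : z * r * z⁻¹ = r⁻¹) (j : ℤ) : z * r ^ j * z⁻¹ = r ^ (-j) := by
  rw [← conj_zpow, h, inv_zpow, zpow_neg]

/-- `r^j z r^{-j} = z r^{-2j}`. -/
theorem zpow_conj_eq {z r : G} (hz : z * z = 1) (h : z * r * z⁻¹ = r⁻¹) (j : ℤ) :
    r ^ j * z * (r ^ j)⁻¹ = z * r ^ (-(2 * j)) := by
  have hzi : z⁻¹ = z := inv_eq_of_mul_eq_one_left hz
  have h1 := conj_zpow' h j
  rw [hzi] at h1
  have h2 : r ^ j * z = z * r ^ (-j) := by
    calc r ^ j * z = z * (z * r ^ j * z) := by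
          rw [← mul_assoc, ← mul_assoc, hz, one_mul]
      _ = z * r ^ (-j) := by rw [h1]
  rw [h2, mul_assoc, ← zpow_neg, ← zpow_add]
  congr 2
  ring

/-- Isolated involutions: invariance under conjugation. -/
theorem isolated_conj {z : G} (hz : IsIsolatedInvolution z) (g : G) :
    IsIsolatedInvolution (g * z * g⁻¹) := by
  refine ⟨?_, ?_⟩
  · rw [← hz.1]
    exact (Cfsg.Agent.Lib.SylowCount.orderOf_eq_of_isConj (isConj_iff.2 ⟨g, rfl⟩)).symm
  · intro a ha
    -- conjugate everything by g⁻¹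
    have h1 : Commute z ((g⁻¹ * a * g) * z * (g⁻¹ * a * g)⁻¹) := by
      have h2 : (g * z * g⁻¹) * (a * (g * z * g⁻¹) * a⁻¹) = (a * (g * z * g⁻¹) * a⁻¹) * (g * z * g⁻¹) := ha
      have h3 : g⁻¹ * ((g * z * g⁻¹) * (a * (g * z * g⁻¹) * a⁻¹)) * g = g⁻¹ * ((a * (g * z * g⁻¹) * a⁻¹) * (g * z * g⁻¹)) * g := by rw [h2]
      show z * ((g⁻¹ * a * g) * z * (g⁻¹ * a * g)⁻¹) = ((g⁻¹ * a * g) * z * (g⁻¹ * a * g)⁻¹) * z
      calc z * ((g⁻¹ * a * g) * z * (g⁻¹ * a * g)⁻¹) = g⁻¹ * ((g * z * g⁻¹) * (a * (g * z * g⁻¹) * a⁻¹)) * g := by group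
        _ = g⁻¹ * ((a * (g * z * g⁻¹) * a⁻¹) * (g * z * g⁻¹)) * g := h3
        _ = _ := by group
    have h4 := hz.2 _ h1
    calc a * (g * z * g⁻¹) * a⁻¹ = g * ((g⁻¹ * a * g) * z * (g⁻¹ * a * g)⁻¹) * g⁻¹ := by group
      _ = g * z * g⁻¹ := by rw [h4]

/-- Key lemma: the product of `z` with a conjugate of `z` has odd order. -/
theorem odd_orderOf_mul [Finite G] {z : G} (hz : IsIsolatedInvolution z) (g : G) :
    Odd (orderOf (z * (g * z * g⁻¹))) := by
  set t := g * z * g⁻¹ with ht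
  have hz1 : z * z = 1 := mul_self_of_orderOf_two hz.1
  have ht1 : t * t = 1 := by
    rw [ht]
    calc g * z * g⁻¹ * (g * z * g⁻¹) = g * (z * z) * g⁻¹ := by group
      _ = 1 := by rw [hz1]; group
  set r := z * t with hr
  have hconj : z * r * z⁻¹ = r⁻¹ := conj_mul hz1 ht1
  have hzi : z⁻¹ = z := inv_eq_of_mul_eq_one_left hz1
  rw [← Nat.not_even_iff_odd]
  rintro ⟨m, hm⟩
  have hn : 0 < orderOf r := orderOf_pos r
  have hm0 : 0 < m := by omega
  set u := r ^ m with hu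
  have hu1 : u ≠ 1 := by
    intro h
    have := orderOf_dvd_of_pow_eq_one h
    have h2 := Nat.le_of_dvd hm0 this
    omega
  have hu2 : u * u = 1 := by
    rw [hu, ← pow_add, ← hm]; exact pow_orderOf_eq_one r
  have hui : u⁻¹ = u := inv_eq_of_mul_eq_one_left hu2
  -- z commutes with u
  have hzu : z * u = u * z := by
    have h1 := conj_zpow' hconj (m : ℤ)
    rw [zpow_neg, zpow_natCast, ← hu, hui, hzi] at h1
    calc z * u = (z * u * z) * z := by rw [mul_assoc _ z z, hz1, mul_one]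
      _ = u * z := by rw [h1]
  -- z u is a conjugate of z
  have hex : ∃ a : G, a * z * a⁻¹ = z * u := by
    rcases Nat.even_or_odd m with ⟨j, hj⟩ | ⟨j, hj⟩
    · -- m = j + j
      refine ⟨r ^ (-(j : ℤ)), ?_⟩
      rw [zpow_conj_eq hz1 hconj]
      congr 1
      rw [hu, ← zpow_natCast r m]
      congr 1
      rw [hj]; push_cast; ring
    · -- m = 2 j + 1
      refine ⟨r ^ (-(j : ℤ)) * g, ?_⟩
      have h1 : (r ^ (-(j : ℤ)) * g) * z * (r ^ (-(j : ℤ)) * g)⁻¹ = r ^ (-(j : ℤ)) * t * (r ^ (-(j : ℤ)))⁻¹ := by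
        rw [ht]; group
      rw [h1]
      have h2 : t = z * r := by
        rw [hr, ← mul_assoc, hz1, one_mul]
      have h3 : r ^ (-(j : ℤ)) * t * (r ^ (-(j : ℤ)))⁻¹ = (r ^ (-(j : ℤ)) * z * (r ^ (-(j : ℤ)))⁻¹) * r := by
        rw [h2]
        have : Commute r (r ^ (-(j : ℤ)))⁻¹ := ((Commute.refl r).zpow_right _).inv_right
        calc r ^ (-(j : ℤ)) * (z * r) * (r ^ (-(j : ℤ)))⁻¹ = r ^ (-(j : ℤ)) * z * (r * (r ^ (-(j : ℤ)))⁻¹) := by group
          _ = r ^ (-(j : ℤ)) * z * ((r ^ (-(j : ℤ)))⁻¹ * r) := by rw [this.eq]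
          _ = _ := by group
      rw [h3, zpow_conj_eq hz1 hconj, hu, mul_assoc]
      congr 1
      rw [← zpow_natCast r m, ← zpow_add_one]
      congr 1
      rw [hj]; push_cast; ring
  obtain ⟨a, ha⟩ := hex
  have hcomm : Commute z (a * z * a⁻¹) := by
    rw [ha]
    show z * (z * u) = z * u * z
    rw [mul_assoc, hzu]
  have h5 := hz.2 a hcomm
  rw [ha] at h5
  exact hu1 (by simpa using h5)

/-- Two elements of odd order with the same square coincide. -/
theorem eq_of_sq_eq [Finite G] {v w : G} (hv : Odd (orderOf v)) (hw : Odd (orderOf w)) (h : v ^ 2 = w ^ 2) : v = w := by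
  obtain ⟨b, hb⟩ : Odd (orderOf v * orderOf w) := hv.mul hw
  have h1 : v ^ (orderOf v * orderOf w) = 1 := by
    rw [pow_mul, pow_orderOf_eq_one, one_pow]
  have h2 : w ^ (orderOf v * orderOf w) = 1 := by
    rw [mul_comm, pow_mul, pow_orderOf_eq_one, one_pow]
  have e : (2 * (b + 1)) = orderOf v * orderOf w + 1 := by omega
  calc v = v ^ (orderOf v * orderOf w + 1) := by rw [pow_succ, h1, one_mul]
    _ = (v ^ 2) ^ (b + 1) := by rw [← pow_mul, e]
    _ = (w ^ 2) ^ (b + 1) := by rw [h]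
    _ = w ^ (orderOf v * orderOf w + 1) := by rw [← pow_mul, e]
    _ = w := by rw [pow_succ, h2, one_mul]

/-- A square root in the cyclic group generated by an element of odd order. -/
theorem exists_sqrt [Finite G] {y : G} (hy : Odd (orderOf y)) :
    ∃ k ∈ zpowers y, k ^ 2 = y ∧ Odd (orderOf k) := by
  obtain ⟨a, ha⟩ := hy
  refine ⟨y ^ (a + 1), (zpowers y).pow_mem (mem_zpowers y) _, ?_, ?_⟩
  · rw [← pow_mul, show (a + 1) * 2 = orderOf y + 1 by omega, pow_succ, pow_orderOf_eq_one, one_mul]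
  · have h1 : orderOf (y ^ (a + 1)) ∣ orderOf y := orderOf_dvd_iff_pow_eq_one.2 (by
      rw [← pow_mul, mul_comm, pow_mul, pow_orderOf_eq_one, one_pow])
    exact Odd.of_dvd_nat ⟨a, ha⟩ h1

/-- An involution inverting `y` inverts each element of `⟨y⟩`. -/
theorem inverts_of_mem_zpowers {z y k : G} (h : z * y * z⁻¹ = y⁻¹) (hk : k ∈ zpowers y) :
    z * k * z⁻¹ = k⁻¹ := by
  obtain ⟨n, hn⟩ := hk
  simp only at hn
  rw [← hn, conj_zpow' h, zpow_neg]

/-- An odd order element is a power of its square. -/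
theorem mem_zpowers_sq_of_odd [Finite G] {k : G} (hk : Odd (orderOf k)) : k ∈ zpowers (k ^ 2) := by
  obtain ⟨m, hm⟩ := hk
  have e : (k ^ 2) ^ (m + 1) = k := by
    rw [← pow_mul, show 2 * (m + 1) = orderOf k + 1 by omega, pow_succ, pow_orderOf_eq_one, one_mul]
  have := (zpowers (k ^ 2)).pow_mem (mem_zpowers (k ^ 2)) (m + 1)
  rwa [e] at this

/-- `k z = z k⁻¹` for `k` inverted by the involution `z`. -/
theorem mul_eq_of_inverts {z k : G} (hz : z * z = 1) (hk : z * k * z⁻¹ = k⁻¹) : k * z = z * k⁻¹ := by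
  have hzi : z⁻¹ = z := inv_eq_of_mul_eq_one_left hz
  rw [hzi] at hk
  calc k * z = (z * z) * k * z := by rw [hz, one_mul]
    _ = z * (z * k * z) := by group
    _ = z * k⁻¹ := by rw [hk]

/-- `k z k⁻¹ = k² z`. -/
theorem conj_eq_sq_mul {z k : G} (hz : z * z = 1) (hk : z * k * z⁻¹ = k⁻¹) : k * z * k⁻¹ = k ^ 2 * z := by
  have h := mul_eq_of_inverts hz hk
  calc k * z * k⁻¹ = k * (z * k⁻¹) := by group
    _ = k * (k * z) := by rw [h]
    _ = k ^ 2 * z := by rw [pow_two, mul_assoc]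

/-- Characterization of the coset condition. -/
theorem mem_coset_iff {z k g : G} (hz : z * z = 1) (hk : z * k * z⁻¹ = k⁻¹) :
    g⁻¹ * k ∈ centralizer ({z} : Set G) ↔ k ^ 2 = (g * z * g⁻¹) * z := by
  rw [mem_centralizer_singleton_iff]
  have e1 : g⁻¹ * k * z = z * (g⁻¹ * k) ↔ k * z * k⁻¹ = g * z * g⁻¹ := by
    constructor
    · intro h
      calc k * z * k⁻¹ = g * (g⁻¹ * k * z) * k⁻¹ := by group
        _ = g * (z * (g⁻¹ * k)) * k⁻¹ := by rw [h]
        _ = g * z * g⁻¹ := by group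
    · intro h
      calc g⁻¹ * k * z = g⁻¹ * (k * z * k⁻¹) * k := by group
        _ = g⁻¹ * (g * z * g⁻¹) * k := by rw [h]
        _ = z * (g⁻¹ * k) := by group
  rw [e1, conj_eq_sq_mul hz hk]
  constructor
  · intro h
    rw [← h, mul_assoc, hz, mul_one]
  · intro h
    rw [h, mul_assoc, hz, mul_one]

/-- Existence and uniqueness of the element of `K` in a coset. -/
theorem existsUnique_coset [Finite G] {z : G} (hz : IsIsolatedInvolution z) (g : G) :
    ∃! k : G, (Odd (orderOf k) ∧ z * k * z⁻¹ = k⁻¹) ∧ g⁻¹ * k ∈ centralizer ({z} : Set G) := by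
  have hz1 : z * z = 1 := mul_self_of_orderOf_two hz.1
  have hzi : z⁻¹ = z := inv_eq_of_mul_eq_one_left hz1
  set t := g * z * g⁻¹ with ht
  have ht1 : t * t = 1 := by
    rw [ht]
    calc g * z * g⁻¹ * (g * z * g⁻¹) = g * (z * z) * g⁻¹ := by group
      _ = 1 := by rw [hz1]; group
  have hti : t⁻¹ = t := inv_eq_of_mul_eq_one_left ht1
  have hodd : Odd (orderOf (t * z)) := by
    have h1 := odd_orderOf_mul hz g
    rw [← ht] at h1
    have h2 : t * z = (z * t)⁻¹ := by rw [mul_inv_rev, hzi, hti]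
    rw [h2, orderOf_inv]
    exact h1
  have hinv : z * (t * z) * z⁻¹ = (t * z)⁻¹ := by
    rw [mul_inv_rev, hzi, hti]
    rw [mul_assoc, mul_assoc, hz1, mul_one]
  obtain ⟨k, hk, hk2, hkodd⟩ := exists_sqrt hodd
  have hkinv := inverts_of_mem_zpowers hinv hk
  refine ⟨k, ⟨⟨hkodd, hkinv⟩, (mem_coset_iff hz1 hkinv).2 hk2⟩, ?_⟩
  rintro k' ⟨⟨hodd', hinv'⟩, hc'⟩
  have := (mem_coset_iff hz1 hinv').1 hc'
  exact eq_of_sq_eq hodd' hkodd (this.trans hk2.symm)

/-- `K`-elements are determined by the conjugate of `z` they produce. -/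
theorem eq_of_conj_eq [Finite G] {z k k' : G} (hz1 : z * z = 1) (hk : Odd (orderOf k)) (hk' : Odd (orderOf k'))
    (hi : z * k * z⁻¹ = k⁻¹) (hi' : z * k' * z⁻¹ = k'⁻¹) (h : k * z * k⁻¹ = k' * z * k'⁻¹) : k = k' := by
  rw [conj_eq_sq_mul hz1 hi, conj_eq_sq_mul hz1 hi'] at h
  exact eq_of_sq_eq hk hk' (mul_right_cancel h)

/-- Existence of the `K`-element producing a conjugate, inside the cyclic group generated by `t z`. -/
theorem exists_mem_zpowers_conj [Finite G] {z : G} (hz : IsIsolatedInvolution z) (g : G) :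
    ∃ k ∈ zpowers ((g * z * g⁻¹) * z), Odd (orderOf k) ∧ z * k * z⁻¹ = k⁻¹ ∧ k * z * k⁻¹ = g * z * g⁻¹ := by
  have hz1 : z * z = 1 := mul_self_of_orderOf_two hz.1
  have hzi : z⁻¹ = z := inv_eq_of_mul_eq_one_left hz1
  set t := g * z * g⁻¹ with ht
  have ht1 : t * t = 1 := by
    rw [ht]
    calc g * z * g⁻¹ * (g * z * g⁻¹) = g * (z * z) * g⁻¹ := by group
      _ = 1 := by rw [hz1]; group
  have hti : t⁻¹ = t := inv_eq_of_mul_eq_one_left ht1
  have hodd : Odd (orderOf (t * z)) := by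
    have h1 := odd_orderOf_mul hz g
    rw [← ht] at h1
    have h2 : t * z = (z * t)⁻¹ := by rw [mul_inv_rev, hzi, hti]
    rw [h2, orderOf_inv]
    exact h1
  have hinv : z * (t * z) * z⁻¹ = (t * z)⁻¹ := by
    rw [mul_inv_rev, hzi, hti]
    rw [mul_assoc, mul_assoc, hz1, mul_one]
  obtain ⟨k, hk, hk2, hkodd⟩ := exists_sqrt hodd
  have hkinv := inverts_of_mem_zpowers hinv hk
  refine ⟨k, hk, hkodd, hkinv, ?_⟩
  rw [conj_eq_sq_mul hz1 hkinv, hk2, mul_assoc, hz1, mul_one]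

/-- The product of two conjugates of an isolated involution has odd order. -/
theorem odd_orderOf_mul_conj [Finite G] {z : G} (hz : IsIsolatedInvolution z) (g h : G) :
    Odd (orderOf ((g * z * g⁻¹) * (h * z * h⁻¹))) := by
  have h1 := odd_orderOf_mul (isolated_conj hz g) (h * g⁻¹)
  have e : (h * g⁻¹) * (g * z * g⁻¹) * (h * g⁻¹)⁻¹ = h * z * h⁻¹ := by group
  rwa [e] at h1

/-- Counting: the set `K` of odd order elements inverted by `z` has the size of the index of the centralizer. -/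
theorem card_eq_card_mul_card [Finite G] {z : G} (hz : IsIsolatedInvolution z) :
    Nat.card G = Nat.card {k : G // Odd (orderOf k) ∧ z * k * z⁻¹ = k⁻¹} * Nat.card (centralizer ({z} : Set G)) := by
  classical
  have hz1 : z * z = 1 := mul_self_of_orderOf_two hz.1
  have hex : ∀ g : G, ∃ k : {k : G // Odd (orderOf k) ∧ z * k * z⁻¹ = k⁻¹}, g⁻¹ * k.1 ∈ centralizer ({z} : Set G) := by
    intro g
    obtain ⟨k, ⟨h1, h2⟩, -⟩ := existsUnique_coset hz g
    exact ⟨⟨k, h1⟩, h2⟩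
  choose f hf using hex
  apply Cfsg.Agent.Lib.SylowCount.card_eq_mul_of_fibers f
  rintro ⟨k, hk⟩
  refine Nat.card_congr ⟨fun a => ⟨a.1⁻¹ * k, ?_⟩, fun c => ⟨k * c.1⁻¹, ?_⟩, ?_, ?_⟩
  · have := hf a.1
    rw [a.2] at this
    exact this
  · -- the coset of k c⁻¹ has K-element k
    obtain ⟨k', ⟨h1, h2⟩, hu⟩ := existsUnique_coset hz (k * c.1⁻¹)
    have e1 : (k * c.1⁻¹)⁻¹ * k ∈ centralizer ({z} : Set G) := by
      have : (k * c.1⁻¹)⁻¹ * k = c.1 := by group
      rw [this]; exact c.2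
    have e2 := hu k ⟨hk, e1⟩
    have e3 := hu (f (k * c.1⁻¹)).1 ⟨(f (k * c.1⁻¹)).2, hf _⟩
    apply Subtype.ext
    exact e3.trans e2.symm
  · intro a
    apply Subtype.ext
    show k * (a.1⁻¹ * k)⁻¹ = a.1
    group
  · intro c
    apply Subtype.ext
    show (k * c.1⁻¹)⁻¹ * k = c.1
    group

/-- Transfer when `H` controls fusion in the cyclic groups generated by an element. -/
theorem transfer_eq_pow_of_conj {G : Type*} [Group G] {H : Subgroup G} [H.FiniteIndex] {A : Type*} [CommGroup A]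
    (ϕ : H →* A) (g : H)
    (key : ∀ (k : ℕ) (g₀ : G) (hm : g₀⁻¹ * (g : G) ^ k * g₀ ∈ H), ϕ ⟨g₀⁻¹ * (g : G) ^ k * g₀, hm⟩ = ϕ (g ^ k)) :
    MonoidHom.transfer ϕ (g : G) = ϕ g ^ H.index := by
  classical
  letI := H.fintypeQuotientOfFiniteIndex
  rw [MonoidHom.transfer_eq_prod_quotient_orbitRel_zpowers_quot]
  have h1 : ∀ q : Quotient (MulAction.orbitRel (Subgroup.zpowers (g : G)) (G ⧸ H)),
      ϕ ⟨q.out.out⁻¹ * (g : G) ^ Function.minimalPeriod ((g : G) • ·) q.out * q.out.out,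
        QuotientGroup.out_conj_pow_minimalPeriod_mem H (g : G) q.out⟩ =
        ϕ g ^ Function.minimalPeriod ((g : G) • ·) q.out := by
    intro q
    rw [key, map_pow]
  simp_rw [h1]
  rw [Finset.prod_pow_eq_pow_sum, Subgroup.index_eq_sum_minimalPeriod H (g : G)]

end Cfsg.Agent.Lib.IsolatedH2
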