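import Mathlib
import Cfsg.Prelude.Def_JComponents
import Cfsg.Prelude.Def_Involutions
import Cfsg.Agent.Lib.StrongEmb2
import Cfsg.Agent.Lib.PReduced
import Cfsg.Agent.Lib.Commutators

/-! The Thompson subgroup and `J(T)`-components. -/

namespace Cfsg.Agent.Lib.JComp

open Cfsg Cfsg.Agent.Lib.StrongEmb Cfsg.Agent.Lib.Commutators

open scoped commutatorElement

section thompson

variable {P : Type*} [Group P] {p : ℕ}

theorem map_mem_maxElementaryAbelian (f : P ≃* P) {A : Subgroup P}
    (hA : A ∈ maxElementaryAbelianSubgroups p P) :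
    A.map f.toMonoidHom ∈ maxElementaryAbelianSubgroups p P := by
  refine ⟨Cfsg.Agent.Lib.PReduced.isElementaryAbelian_map _ hA.1, fun B hB => ?_⟩
  have h1 : Nat.card (A.map f.toMonoidHom) = Nat.card A :=
    Subgroup.card_map_of_injective f.injective
  rw [h1]
  have h2 := hA.2 (B.map f.symm.toMonoidHom) (Cfsg.Agent.Lib.PReduced.isElementaryAbelian_map _ hB)
  have h3 : Nat.card (B.map f.symm.toMonoidHom) = Nat.card B :=
    Subgroup.card_map_of_injective f.symm.injective
  rwa [h3] at h2

theorem map_thompson_le (f : P ≃* P) :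
    (thompsonSubgroup p P).map f.toMonoidHom ≤ thompsonSubgroup p P := by
  rw [Subgroup.map_le_iff_le_comap]
  refine sSup_le fun A hA => ?_
  rw [← Subgroup.map_le_iff_le_comap]
  exact le_sSup (map_mem_maxElementaryAbelian f hA)

end thompson

section

variable {G : Type*} [Group G] {p : ℕ}

theorem thompsonSubgroupOf_le (T : Subgroup G) : thompsonSubgroupOf p T ≤ T :=
  Subgroup.map_subtype_le _

theorem normalizer_le_normalizer_thompson (T : Subgroup G) :
    Subgroup.normalizer (T : Set G) ≤ Subgroup.normalizer ((thompsonSubgroupOf p T : Subgroup G) : Set G) := by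
  have key : ∀ g ∈ Subgroup.normalizer (T : Set G), ∀ x ∈ thompsonSubgroupOf p T,
      g * x * g⁻¹ ∈ thompsonSubgroupOf p T := by
    rintro g hg _ ⟨x, hx, rfl⟩
    let f : T ≃* T := Subgroup.normalizerMonoidHom T ⟨g, hg⟩
    have h1 : f x ∈ thompsonSubgroup p T := map_thompson_le f ⟨x, hx, rfl⟩
    exact ⟨f x, h1, rfl⟩
  intro g hg
  exact mem_normalizer_of_conj_mem (key g hg) (fun a ha => by
    have := key g⁻¹ (inv_mem hg) a ha
    simpa using this)

theorem le_normalizer_thompson (T : Subgroup G) :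
    T ≤ Subgroup.normalizer ((thompsonSubgroupOf p T : Subgroup G) : Set G) :=
  Subgroup.le_normalizer.trans (normalizer_le_normalizer_thompson T)

end

section comp

variable {G : Type*} [Group G] [Finite G]

/-- A subgroup normalized by `⟨K, J⟩` and normalizing the 2-group `J`, with `K = [K, J]` generated by
elements of odd order, normalizes `K`. -/
theorem normalizes_of_commutator {K J Q : Subgroup G} (hJ : IsPGroup 2 J)
    (hK1 : Subgroup.closure {g : G | g ∈ K ∧ Odd (orderOf g)} = K) (hK2 : ⁅K, J⁆ = K)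
    (hQ1 : K ⊔ J ≤ Subgroup.normalizer (Q : Set G)) (hQ2 : Q ≤ Subgroup.normalizer (J : Set G)) :
    Q ≤ Subgroup.normalizer (K : Set G) := by
  set L := K ⊔ J with hL
  have hJK : J ≤ Subgroup.normalizer (K : Set G) := by
    have := commutator_le_normalizer_right (A := K) (B := J)
    rwa [hK2] at this
  have hLK : L ≤ Subgroup.normalizer (K : Set G) := sup_le Subgroup.le_normalizer hJK
  -- the conjugates of `J` generate `L`
  set N := Subgroup.closure {y : G | ∃ l ∈ L, ∃ j ∈ J, y = l * j * l⁻¹} with hN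
  have hJN : J ≤ N := fun j hj => Subgroup.subset_closure ⟨1, one_mem _, j, hj, by group⟩
  have hKN : K ≤ N := by
    rw [← hK2, Subgroup.commutator_le]
    intro k hk j hj
    rw [commutatorElement_def]
    exact N.mul_mem (Subgroup.subset_closure ⟨k, Subgroup.mem_sup_left hk, j, hj, rfl⟩)
      (N.inv_mem (hJN hj))
  have hNL : N = L := by
    apply le_antisymm
    · rw [hN, Subgroup.closure_le]
      rintro _ ⟨l, hl, j, hj, rfl⟩
      exact L.mul_mem (L.mul_mem hl (Subgroup.mem_sup_right hj)) (L.inv_mem hl)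
    · exact sup_le hKN hJN
  -- `Q` normalizes `L`
  have hQL1 : ∀ q ∈ Q, ∀ x ∈ L, q * x * q⁻¹ ∈ L := by
    intro q hq x hx
    rw [← hNL] at hx ⊢
    have h0 : N ≤ (N).comap (MulAut.conj q).toMonoidHom := by
      rw [hN, Subgroup.closure_le]
      rintro _ ⟨l, hl, j, hj, rfl⟩
      have hq' : l⁻¹ * q * l ∈ Q := by
        have := conj_inv_mem_of_mem_normalizer (hQ1 hl) hq
        exact this
      have hj' := conj_mem_of_mem_normalizer (hQ2 hq') hj
      refine Subgroup.subset_closure ⟨l, hl, _, hj', ?_⟩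
      simp only [MulEquiv.coe_toMonoidHom, MulAut.conj_apply]
      group
    exact h0 hx
  -- `K` is generated by the elements of odd order of `L`
  have hodd : ∀ g ∈ L, Odd (orderOf g) → g ∈ K := by
    intro g hg hgo
    obtain ⟨j, hj, k, hk, rfl⟩ := Cfsg.Agent.Lib.PReduced.exists_mul_of_mem_sup hJK (by rw [sup_comm]; exact hg : g ∈ J ⊔ K)
    obtain ⟨m, hm⟩ := (IsPGroup.iff_orderOf.mp hJ) ⟨j, hj⟩
    have hjm : j ^ (2 ^ m) = 1 := by
      have h1 : orderOf j = 2 ^ m := by simpa using hm
      rw [← h1]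
      exact pow_orderOf_eq_one j
    have hpow : ∀ n : ℕ, ∃ k' ∈ K, (j * k) ^ n = j ^ n * k' := by
      intro n
      induction n with
      | zero => exact ⟨1, one_mem _, by simp⟩
      | succ n ih =>
        obtain ⟨k', hk', he⟩ := ih
        refine ⟨j⁻¹ * k' * j * k, K.mul_mem ?_ hk, ?_⟩
        · have := conj_inv_mem_of_mem_normalizer (hJK hj) hk'
          exact this
        · rw [pow_succ, he, pow_succ]
          group
    obtain ⟨k', hk', he⟩ := hpow (2 ^ m)
    rw [hjm, one_mul] at he
    have hcop : (2 ^ m).Coprime (orderOf (j * k)) :=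
      Nat.Coprime.pow_left _ (Nat.coprime_two_left.mpr hgo)
    obtain ⟨c, hc⟩ := exists_pow_eq_self_of_coprime hcop
    rw [← hc, he]
    exact pow_mem hk' _
  have hQK : ∀ q ∈ Q, ∀ x ∈ K, q * x * q⁻¹ ∈ K := by
    intro q hq x hx
    have h0 : K ≤ K.comap (MulAut.conj q).toMonoidHom := by
      conv_lhs => rw [← hK1]
      rw [Subgroup.closure_le]
      rintro g ⟨hgK, hgo⟩
      apply hodd _ (hQL1 q hq g (Subgroup.mem_sup_left hgK))
      rw [show q * g * q⁻¹ = (MulAut.conj q) g from rfl, MulEquiv.orderOf_eq]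
      exact hgo
    exact h0 hx
  intro q hq
  exact mem_normalizer_of_conj_mem (hQK q hq) (fun a ha => by
    have := hQK q⁻¹ (inv_mem hq) a ha
    simpa using this)

/-- The classical form of strong embedding for `p = 2`. -/
theorem isStronglyPEmbedded_of_isStronglyEmbedded {M : Subgroup G} (hM : IsStronglyEmbedded M) :
    IsStronglyPEmbedded 2 M := by
  obtain ⟨hne, he, ho⟩ := hM
  apply isStronglyPEmbedded_of_normalizer hne he.two_dvd
  intro A hAM hAp hA1 g hg
  by_contra hgM
  have hAg : A ≤ M ⊓ M.map (MulAut.conj g).toMonoidHom := by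
    refine le_inf hAM ?_
    intro a ha
    refine ⟨g⁻¹ * a * g, hAM ?_, by simp [mul_assoc]⟩
    have := (Subgroup.mem_normalizer_iff.mp hg (g⁻¹ * a * g)).mpr (by
      simpa [mul_assoc] using ha)
    exact this
  have hdA : 2 ∣ Nat.card A := by
    obtain ⟨k, hk⟩ := IsPGroup.iff_card.mp hAp
    have hk0 : k ≠ 0 := by
      rintro rfl
      rw [pow_zero] at hk
      exact hA1 (Subgroup.card_eq_one.mp hk)
    rw [hk]; exact dvd_pow_self 2 hk0
  have h3 := hdA.trans (Subgroup.card_dvd_of_le hAg)
  have h4 := ho g hgM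
  exact (Nat.not_even_iff_odd.mpr h4) (even_iff_two_dvd.mpr h3)

/-- In a group with a strongly embedded subgroup `M`: 2-groups meeting `M` nontrivially in a `2`-subgroup lie in `M`. -/
theorem le_of_isStronglyPEmbedded {p : ℕ} [Fact p.Prime] {M T R : Subgroup G} (hM : IsStronglyPEmbedded p M) (hTM : T ≤ M)
    (hTR : T ≤ R) (hT1 : T ≠ ⊥) (hR : IsPGroup p R) : R ≤ M := by
  by_contra hne
  have hlt : R ⊓ M < R := lt_of_le_of_ne inf_le_left (fun h => hne (inf_eq_left.mp h))
  obtain ⟨x, hxR, hxQ, hxN⟩ := Cfsg.Agent.Lib.StronglyEmbedded.exists_mem_normalizer_of_lt hR hlt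
  have hQ1 : R ⊓ M ≠ ⊥ := by
    intro h
    apply hT1
    rw [eq_bot_iff, ← h]
    exact le_inf hTR hTM
  have := normalizer_le hM inf_le_right (hR.to_le inf_le_left) hQ1 hxN
  exact hxQ ⟨hxR, this⟩

theorem straddling_iff {M : Subgroup G} {S : Sylow 2 G}
    (hO : pCore 2 G = ⊥) (hM : IsTwoLocal M)
    (hMJ : Subgroup.normalizer (thompsonSubgroupOf 2 (S : Subgroup G) : Set G) ≤ M) :
    IsStronglyEmbedded M ↔ straddlingTwoSubgroups M = ∅ := by
  haveI : Fact (Nat.Prime 2) := ⟨Nat.prime_two⟩
  obtain ⟨X, hX2, hX1, hMX⟩ := hM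
  have hSM : (S : Subgroup G) ≤ M := (le_normalizer_thompson _).trans hMJ
  have hMne : M ≠ ⊤ := by
    intro h
    rw [hMX] at h
    have hn : X.Normal := Subgroup.normalizer_eq_top_iff.mp h
    have h1 : X ≤ pCore 2 G := Cfsg.Agent.Lib.PCore.le_pCore hn hX2
    rw [hO, le_bot_iff] at h1
    exact hX1 h1
  constructor
  · intro hSE
    have hP := isStronglyPEmbedded_of_isStronglyEmbedded hSE
    rw [Set.eq_empty_iff_forall_notMem]
    rintro T ⟨hT2, hT1, hTM, L, ⟨Y, hY2, hY1, rfl⟩, hTL, hLM⟩
    apply hLM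
    have hR : IsPGroup 2 ((Y ⊔ T : Subgroup G) : Subgroup G) :=
      IsPGroup.to_sup_of_normal_left' hY2 hT2 hTL
    have hRM := le_of_isStronglyPEmbedded hP hTM le_sup_right hT1 hR
    exact normalizer_le hP (le_sup_left.trans hRM) hY2 hY1
  · intro hemp
    have hdX : 2 ∣ Nat.card X := by
      obtain ⟨k, hk⟩ := IsPGroup.iff_card.mp hX2
      have hk0 : k ≠ 0 := by
        rintro rfl
        rw [pow_zero] at hk
        exact hX1 (Subgroup.card_eq_one.mp hk)
      rw [hk]; exact dvd_pow_self 2 hk0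
    have hXM : X ≤ M := by rw [hMX]; exact Subgroup.le_normalizer
    refine ⟨hMne, even_iff_two_dvd.mpr (hdX.trans (Subgroup.card_dvd_of_le hXM)), ?_⟩
    intro g hg
    by_contra hodd
    have hev : 2 ∣ Nat.card ↥(M ⊓ M.map (MulAut.conj g).toMonoidHom) :=
      even_iff_two_dvd.mp (Nat.not_odd_iff_even.mp hodd)
    obtain ⟨t, ht⟩ := exists_prime_orderOf_dvd_card' 2 hev
    set y : G := (t : G) with hy
    have hoy : orderOf y = 2 := by rw [hy, Subgroup.orderOf_coe, ht]
    set T := Subgroup.zpowers y with hT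
    have hTp : IsPGroup 2 T := IsPGroup.of_card (n := 1) (by rw [hT, Nat.card_zpowers, hoy, pow_one])
    have hT1 : T ≠ ⊥ := by
      intro h
      rw [hT, Subgroup.zpowers_eq_bot] at h
      rw [h, orderOf_one] at hoy
      omega
    have hTM : T ≤ M := by rw [hT, Subgroup.zpowers_le]; exact t.2.1
    have hTg : T ≤ M.map (MulAut.conj g).toMonoidHom := by rw [hT, Subgroup.zpowers_le]; exact t.2.2
    have hnot : ¬ M.map (MulAut.conj g).toMonoidHom ≤ M := by
      intro hle
      apply hg
      have hcard : Nat.card (M.map (MulAut.conj g).toMonoidHom) = Nat.card M :=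
        Subgroup.card_map_of_injective (MulAut.conj g).injective
      have heq : M.map (MulAut.conj g).toMonoidHom = M :=
        Subgroup.eq_of_le_of_card_ge hle hcard.ge
      -- `S^g ≤ M`
      have hSg : (S : Subgroup G).map (MulAut.conj g).toMonoidHom ≤ M := by
        rw [← heq]
        exact Subgroup.map_mono hSM
      obtain ⟨h, hh, hle2⟩ := exists_mem_conj_le hSM hSg (S.isPGroup'.map _)
      rw [map_conj_map] at hle2
      have hc2 : Nat.card ((S : Subgroup G).map (MulAut.conj (h * g)).toMonoidHom) = Nat.card (S : Subgroup G) :=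
        Subgroup.card_map_of_injective (MulAut.conj _).injective
      have heq2 := Subgroup.eq_of_le_of_card_ge hle2 hc2.ge
      have hN : h * g ∈ Subgroup.normalizer ((S : Subgroup G) : Set G) :=
        Cfsg.Agent.Lib.AmalgamChar.mem_normalizer_of_map_eq heq2
      have hhg : h * g ∈ M := hMJ (normalizer_le_normalizer_thompson _ hN)
      have : g = h⁻¹ * (h * g) := by group
      rw [this]
      exact M.mul_mem (M.inv_mem hh) hhg
    have hmem : T ∈ straddlingTwoSubgroups M := by
      refine ⟨hTp, hT1, hTM, M.map (MulAut.conj g).toMonoidHom, ⟨X.map (MulAut.conj g).toMonoidHom, hX2.map _, map_conj_ne_bot hX1 g, ?_⟩, hTg, hnot⟩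
      rw [hMX]
      exact (Cfsg.Agent.Lib.SylowIn.normalizer_map_conj X g).symm
    rw [hemp] at hmem
    exact hmem

end comp

end Cfsg.Agent.Lib.JComp
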