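import Mathlib

/-!
# Jordan's theorem on sharply `k`-transitive groups, by counting involutions
-/

set_option autoImplicit false
set_option linter.unusedSectionVars false
set_option linter.style.haveILetI false
set_option linter.constructorNameAsVariable false

namespace Cfsg.Agent.Lib.Jordan

open Finset

universe u v

/-- Sharply `k`-transitive actions. -/
structure Sharp (G : Type u) (α : Type v) [Group G] [MulAction G α] (k : ℕ) : Prop where
  ex : ∀ x y : Fin k → α, Function.Injective x → Function.Injective y → ∃ g : G, ∀ i, g • x i = y i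
  triv : ∀ x : Fin k → α, Function.Injective x → ∀ g : G, (∀ i, g • x i = x i) → g = 1

/-- The stabilizer of a point is sharply `k`-transitive on the rest. -/
theorem Sharp.stab {G : Type u} {α : Type v} [Group G] [MulAction G α] {k : ℕ} (h : Sharp G α (k + 1)) (a : α) :
    Sharp (MulAction.stabilizer G a) (SubMulAction.ofStabilizer G a) k := by
  have hinj : ∀ x : Fin k → SubMulAction.ofStabilizer G a, Function.Injective x →
      Function.Injective (Fin.cons a (fun i => (x i : α)) : Fin (k + 1) → α) := by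
    intro x hx
    refine Fin.cons_injective_iff.mpr ⟨?_, ?_⟩
    · rintro ⟨i, hi⟩
      exact SubMulAction.neq_of_mem_ofStabilizer G a (x := x i) hi
    · intro i j hij
      exact hx (Subtype.ext hij)
  constructor
  · intro x y hx hy
    obtain ⟨g, hg⟩ := h.ex _ _ (hinj x hx) (hinj y hy)
    have h0 : g • a = a := by simpa using hg 0
    refine ⟨⟨g, h0⟩, fun i => Subtype.ext ?_⟩
    show g • (x i : α) = (y i : α)
    simpa using hg i.succ
  · intro x hx g hg
    apply Subtype.ext
    refine h.triv _ (hinj x hx) g.1 (fun i => ?_)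
    refine Fin.cases ?_ (fun j => ?_) i
    · simpa using MulAction.mem_stabilizer_iff.mp g.2
    · have : (g : G) • (x j : α) = (x j : α) := congrArg Subtype.val (hg j)
      simpa using this

section count

variable {G : Type u} {α : Type v} [Group G] [MulAction G α] [Fintype G] [Fintype α] [DecidableEq α] [DecidableEq G]

/-- Fixed points. -/
def Fx (g : G) : Finset α := univ.filter fun x => g • x = x

/-- Moved points. -/
def Mv (g : G) : Finset α := univ.filter fun x => g • x ≠ x

/-- Involutions. -/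
def Inv (G : Type u) [Group G] [Fintype G] [DecidableEq G] : Finset G := univ.filter fun g => g * g = 1 ∧ g ≠ 1

theorem mem_Fx {g : G} {x : α} : x ∈ (Fx g : Finset α) ↔ g • x = x := by simp [Fx]

theorem mem_Mv {g : G} {x : α} : x ∈ (Mv g : Finset α) ↔ g • x ≠ x := by simp [Mv]

theorem mem_Inv {g : G} : g ∈ Inv G ↔ g * g = 1 ∧ g ≠ 1 := by simp [Inv]

theorem card_Fx_add (g : G) : (Fx g : Finset α).card + (Mv g : Finset α).card = Fintype.card α := by
  have := Finset.card_filter_add_card_filter_not (s := (univ : Finset α)) (fun x => g • x = x)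
  simpa [Fx, Mv] using this

theorem smul_self_inv {g : G} (hg : g * g = 1) (x : α) : g • g • x = x := by rw [smul_smul, hg, one_smul]

theorem smul_mem_Mv {g : G} (hg : g * g = 1) {a : α} (ha : a ∈ (Mv g : Finset α)) : g • a ∈ (Mv g : Finset α) := by
  rw [mem_Mv] at ha ⊢
  rw [smul_self_inv hg]
  exact fun h => ha h.symm

theorem even_card_Mv {g : G} (hg : g * g = 1) : Even (Mv g : Finset α).card := by
  have h : ∑ x ∈ (Mv g : Finset α), (1 : ZMod 2) = 0 := by
    refine Finset.sum_involution (fun x _ => g • x) ?_ ?_ ?_ ?_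
    · intro a _
      decide
    · intro a ha _ h
      exact (mem_Mv.mp ha) h
    · intro a ha
      exact smul_mem_Mv hg ha
    · intro a _
      exact smul_self_inv hg a
  simp only [Finset.sum_const, nsmul_eq_mul, mul_one] at h
  exact (ZMod.natCast_eq_zero_iff_even).mp h

/-- Injective tuples. -/
def TT (α : Type v) [Fintype α] [DecidableEq α] (k : ℕ) : Finset (Fin k → α) := univ.filter Function.Injective

theorem card_TT (k : ℕ) : (TT α k).card = (Fintype.card α).descFactorial k := by
  have h1 := Fintype.card_embedding_eq (α := Fin k) (β := α)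
  rw [Fintype.card_fin] at h1
  rw [← h1, ← Fintype.card_congr (Equiv.subtypeInjectiveEquivEmbedding (Fin k) α)]
  rw [Fintype.card_subtype]
  rfl

theorem inj4 {a b c d : α} (h1 : a ≠ b) (h2 : a ≠ c) (h3 : a ≠ d) (h4 : b ≠ c) (h5 : b ≠ d) (h6 : c ≠ d) :
    Function.Injective ![a, b, c, d] := by
  intro i j h
  fin_cases i <;> fin_cases j <;> simp_all

theorem inj6 {a b c d e f : α} (h1 : a ≠ b) (h2 : a ≠ c) (h3 : a ≠ d) (h4 : a ≠ e) (h5 : a ≠ f) (h6 : b ≠ c)
    (h7 : b ≠ d) (h8 : b ≠ e) (h9 : b ≠ f) (h10 : c ≠ d) (h11 : c ≠ e) (h12 : c ≠ f) (h13 : d ≠ e) (h14 : d ≠ f)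
    (h15 : e ≠ f) : Function.Injective ![a, b, c, d, e, f] := by
  intro i j h
  fin_cases i <;> fin_cases j <;> simp_all

theorem Fin4_ext {x y : Fin 4 → α} (h0 : x 0 = y 0) (h1 : x 1 = y 1) (h2 : x 2 = y 2) (h3 : x 3 = y 3) : x = y := by
  funext i
  fin_cases i <;> assumption

theorem Fin6_ext {x y : Fin 6 → α} (h0 : x 0 = y 0) (h1 : x 1 = y 1) (h2 : x 2 = y 2) (h3 : x 3 = y 3)
    (h4 : x 4 = y 4) (h5 : x 5 = y 5) : x = y := by
  funext i
  fin_cases i <;> assumption

theorem forall_Fin4 {P : Fin 4 → Prop} (h0 : P 0) (h1 : P 1) (h2 : P 2) (h3 : P 3) : ∀ i, P i := by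
  intro i
  fin_cases i <;> assumption

theorem forall_Fin6 {P : Fin 6 → Prop} (h0 : P 0) (h1 : P 1) (h2 : P 2) (h3 : P 3) (h4 : P 4) (h5 : P 5) : ∀ i, P i := by
  intro i
  fin_cases i <;> assumption

/-! ### Pairs of swapped pairs -/

/-- Pairs `(a, c)` of moved points with `c ∉ {a, g a}`. -/
def W4 (g : G) : Finset (Σ _ : α, α) := (Mv g).sigma fun a => Mv g \ {a, g • a}

theorem card_W4 {g : G} (hg : g ∈ Inv G) :
    (W4 g : Finset (Σ _ : α, α)).card = (Mv g : Finset α).card * ((Mv g : Finset α).card - 2) := by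
  rw [W4, Finset.card_sigma]
  rw [Finset.sum_const_nat (m := (Mv g : Finset α).card - 2), ]
  intro a ha
  have h1 : ({a, g • a} : Finset α) ⊆ Mv g := by
    intro x hx
    simp only [Finset.mem_insert, Finset.mem_singleton] at hx
    rcases hx with rfl | rfl
    · exact ha
    · exact smul_mem_Mv (mem_Inv.mp hg).1 ha
  rw [Finset.card_sdiff_of_subset h1, Finset.card_pair (fun h => mem_Mv.mp ha h.symm)]

theorem sum_W4 (h : Sharp G α 4) : ∑ g ∈ Inv G, ((Mv g : Finset α).card * ((Mv g : Finset α).card - 2)) =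
    (Fintype.card α).descFactorial 4 := by
  rw [← card_TT]
  rw [Finset.sum_congr rfl (fun g hg => (card_W4 (α := α) hg).symm), ← Finset.card_sigma]
  refine Finset.card_bij (fun p _ => ![p.2.1, p.1 • p.2.1, p.2.2, p.1 • p.2.2]) ?_ ?_ ?_
  · rintro ⟨g, a, c⟩ hp
    simp only [Finset.mem_sigma, W4, Finset.mem_sdiff, Finset.mem_insert, Finset.mem_singleton, not_or] at hp
    obtain ⟨hg, ha, hc, hca, hcga⟩ := hp
    have hg2 := (mem_Inv.mp hg).1
    have ha' := mem_Mv.mp ha
    have hc' := mem_Mv.mp hc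
    simp only [TT, Finset.mem_filter, Finset.mem_univ, true_and]
    refine inj4 (fun h => ha' h.symm) (Ne.symm hca) ?_ (Ne.symm hcga) ?_ (fun h => hc' h.symm)
    · intro h
      apply hcga
      rw [h, smul_self_inv hg2]
    · intro h
      apply hca
      have := congrArg (fun z => g • z) h
      simpa [smul_self_inv hg2] using this.symm
  · rintro ⟨g, a, c⟩ hp ⟨g', a', c'⟩ hq he
    simp only [Finset.coe_sigma, Set.mem_sigma_iff, Finset.mem_coe, Finset.mem_sigma, W4, Finset.mem_sdiff,
      Finset.mem_insert, Finset.mem_singleton, not_or] at hp hq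
    obtain ⟨hg, ha, hc, hca, hcga⟩ := hp
    obtain ⟨hg', ha', hc', hca', hcga'⟩ := hq
    have hg2 := (mem_Inv.mp hg).1
    have hg2' := (mem_Inv.mp hg').1
    have ha'' := mem_Mv.mp ha
    have hc'' := mem_Mv.mp hc
    have e0 : a = a' := by simpa using congrFun he 0
    have e1 : g • a = g' • a' := by simpa using congrFun he 1
    have e2 : c = c' := by simpa using congrFun he 2
    have e3 : g • c = g' • c' := by simpa using congrFun he 3
    subst e0 e2
    have hinj : Function.Injective ![a, g • a, c, g • c] := by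
      refine inj4 (fun h => ha'' h.symm) (Ne.symm hca) ?_ (Ne.symm hcga) ?_ (fun h => hc'' h.symm)
      · intro h
        apply hcga
        rw [h, smul_self_inv hg2]
      · intro h
        apply hca
        have := congrArg (fun z => g • z) h
        simpa [smul_self_inv hg2] using this.symm
    have key : ∀ y : α, g • y = g' • y → (g⁻¹ * g') • y = y := by
      intro y hy
      rw [mul_smul, ← hy, inv_smul_smul]
    have h1 : g⁻¹ * g' = 1 := by
      refine h.triv _ hinj _ (forall_Fin4 ?_ ?_ ?_ ?_)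
      · exact key _ e1
      · refine key _ ?_
        show g • g • a = g' • g • a
        rw [smul_self_inv hg2, e1, smul_self_inv hg2']
      · exact key _ e3
      · refine key _ ?_
        show g • g • c = g' • g • c
        rw [smul_self_inv hg2, e3, smul_self_inv hg2']
    have h2 : g = g' := by
      rw [inv_mul_eq_one] at h1
      exact h1
    subst h2
    rfl
  · intro x hx
    have hxi : Function.Injective x := by simpa [TT] using hx
    have hxne : ∀ i j : Fin 4, i ≠ j → x i ≠ x j := fun i j hij he => hij (hxi he)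
    obtain ⟨g, hg⟩ := h.ex x ![x 1, x 0, x 3, x 2] hxi
      (inj4 (hxne 1 0 (by decide)) (hxne 1 3 (by decide)) (hxne 1 2 (by decide)) (hxne 0 3 (by decide))
        (hxne 0 2 (by decide)) (hxne 3 2 (by decide)))
    have g0 : g • x 0 = x 1 := by simpa using hg 0
    have g1 : g • x 1 = x 0 := by simpa using hg 1
    have g2 : g • x 2 = x 3 := by simpa using hg 2
    have g3 : g • x 3 = x 2 := by simpa using hg 3
    have hgg : g * g = 1 := by
      refine h.triv x hxi _ (forall_Fin4 ?_ ?_ ?_ ?_) <;> rw [mul_smul]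
      · rw [g0, g1]
      · rw [g1, g0]
      · rw [g2, g3]
      · rw [g3, g2]
    have hg1 : g ≠ 1 := by
      rintro rfl
      rw [one_smul] at g0
      exact hxne 0 1 (by decide) g0
    refine ⟨⟨g, x 0, x 2⟩, ?_, ?_⟩
    · simp only [Finset.mem_sigma, W4, Finset.mem_sdiff, Finset.mem_insert, Finset.mem_singleton, not_or]
      refine ⟨mem_Inv.mpr ⟨hgg, hg1⟩, mem_Mv.mpr ?_, mem_Mv.mpr ?_, hxne 2 0 (by decide), ?_⟩
      · rw [g0]
        exact hxne 1 0 (by decide)
      · rw [g2]
        exact hxne 3 2 (by decide)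
      · rw [g0]
        exact hxne 2 1 (by decide)
    · apply Fin4_ext <;> simp [g0, g2]

/-! ### Fixing two points and swapping two others -/

/-- Triples `(a, b, x)` with `a ≠ b` fixed and `x` moved. -/
def U4 (g : G) : Finset (Σ _ : α, Σ _ : α, α) := (Fx g).sigma fun a => (Fx g \ {a}).sigma fun _ => Mv g

theorem card_U4 (g : G) : (U4 g : Finset (Σ _ : α, Σ _ : α, α)).card =
    (Fx g : Finset α).card * ((Fx g : Finset α).card - 1) * (Mv g : Finset α).card := by
  rw [U4, Finset.card_sigma, Finset.sum_const_nat (m := ((Fx g : Finset α).card - 1) * (Mv g : Finset α).card),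
    mul_assoc]
  intro a ha
  rw [Finset.card_sigma, Finset.sum_const, smul_eq_mul, Finset.card_sdiff_of_subset (by simpa using ha),
    Finset.card_singleton]

theorem sum_U4 (h : Sharp G α 4) : ∑ g ∈ Inv G, ((Fx g : Finset α).card * ((Fx g : Finset α).card - 1) *
    (Mv g : Finset α).card) = (Fintype.card α).descFactorial 4 := by
  rw [← card_TT]
  rw [Finset.sum_congr rfl (fun g _ => (card_U4 (α := α) g).symm), ← Finset.card_sigma]
  have hmain : ∀ {g : G} {a b x : α}, g ∈ Inv G → a ∈ (Fx g : Finset α) → b ∈ (Fx g : Finset α) → a ≠ b →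
      x ∈ (Mv g : Finset α) → Function.Injective ![a, b, x, g • x] := by
    intro g a b x hg ha hb hab hx
    have hg2 := (mem_Inv.mp hg).1
    have ha' := mem_Fx.mp ha
    have hb' := mem_Fx.mp hb
    have hx' := mem_Mv.mp hx
    have hne : ∀ {c : α}, g • c = c → c ≠ x ∧ c ≠ g • x := by
      intro c hc
      refine ⟨?_, ?_⟩
      · rintro rfl
        exact hx' hc
      · intro he
        apply hx'
        have h3 : g • g • x = g • x := by
          rw [← he]
          exact hc
        rw [smul_self_inv hg2] at h3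
        exact h3.symm
    exact inj4 hab (hne ha').1 (hne ha').2 (hne hb').1 (hne hb').2 (fun h => hx' h.symm)
  refine Finset.card_bij (fun p _ => ![p.2.1, p.2.2.1, p.2.2.2, p.1 • p.2.2.2]) ?_ ?_ ?_
  · rintro ⟨g, a, b, x⟩ hp
    simp only [Finset.mem_sigma, U4, Finset.mem_sdiff, Finset.mem_singleton] at hp
    obtain ⟨hg, ha, ⟨hb, hba⟩, hx⟩ := hp
    simp only [TT, Finset.mem_filter, Finset.mem_univ, true_and]
    exact hmain hg ha hb (Ne.symm hba) hx
  · rintro ⟨g, a, b, x⟩ hp ⟨g', a', b', x'⟩ hq he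
    simp only [Finset.mem_sigma, U4, Finset.mem_sdiff, Finset.mem_singleton] at hp hq
    obtain ⟨hg, ha, ⟨hb, hba⟩, hx⟩ := hp
    obtain ⟨hg', ha', ⟨hb', hba'⟩, hx'⟩ := hq
    have hg2 := (mem_Inv.mp hg).1
    have hg2' := (mem_Inv.mp hg').1
    have e0 : a = a' := by simpa using congrFun he 0
    have e1 : b = b' := by simpa using congrFun he 1
    have e2 : x = x' := by simpa using congrFun he 2
    have e3 : g • x = g' • x' := by simpa using congrFun he 3
    subst e0 e1 e2
    have key : ∀ y : α, g • y = g' • y → (g⁻¹ * g') • y = y := by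
      intro y hy
      rw [mul_smul, ← hy, inv_smul_smul]
    have h1 : g⁻¹ * g' = 1 := by
      refine h.triv _ (hmain hg ha hb (Ne.symm hba) hx) _ (forall_Fin4 ?_ ?_ ?_ ?_)
      · exact key _ ((mem_Fx.mp ha).trans (mem_Fx.mp ha').symm)
      · exact key _ ((mem_Fx.mp hb).trans (mem_Fx.mp hb').symm)
      · exact key _ e3
      · refine key _ ?_
        show g • g • x = g' • g • x
        rw [smul_self_inv hg2, e3, smul_self_inv hg2']
    rw [inv_mul_eq_one] at h1
    subst h1
    rfl
  · intro x hx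
    have hxi : Function.Injective x := by simpa [TT] using hx
    have hxne : ∀ i j : Fin 4, i ≠ j → x i ≠ x j := fun i j hij he => hij (hxi he)
    obtain ⟨g, hg⟩ := h.ex x ![x 0, x 1, x 3, x 2] hxi
      (inj4 (hxne 0 1 (by decide)) (hxne 0 3 (by decide)) (hxne 0 2 (by decide)) (hxne 1 3 (by decide))
        (hxne 1 2 (by decide)) (hxne 3 2 (by decide)))
    have g0 : g • x 0 = x 0 := by simpa using hg 0
    have g1 : g • x 1 = x 1 := by simpa using hg 1
    have g2 : g • x 2 = x 3 := by simpa using hg 2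
    have g3 : g • x 3 = x 2 := by simpa using hg 3
    have hgg : g * g = 1 := by
      refine h.triv x hxi _ (forall_Fin4 ?_ ?_ ?_ ?_) <;> rw [mul_smul]
      · rw [g0, g0]
      · rw [g1, g1]
      · rw [g2, g3]
      · rw [g3, g2]
    have hg1 : g ≠ 1 := by
      rintro rfl
      rw [one_smul] at g2
      exact hxne 2 3 (by decide) g2
    refine ⟨⟨g, x 0, x 1, x 2⟩, ?_, ?_⟩
    · simp only [Finset.mem_sigma, U4, Finset.mem_sdiff, Finset.mem_singleton]
      refine ⟨mem_Inv.mpr ⟨hgg, hg1⟩, mem_Fx.mpr g0, ⟨mem_Fx.mpr g1, hxne 1 0 (by decide)⟩, mem_Mv.mpr ?_⟩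
      rw [g2]
      exact hxne 3 2 (by decide)
    · apply Fin4_ext <;> simp [g2]

/-! ### Splitting sums by the number of fixed points -/

/-- The number of involutions with `i` fixed points. -/
def AA (G : Type u) (α : Type v) [Group G] [MulAction G α] [Fintype G] [Fintype α] [DecidableEq α] [DecidableEq G]
    (i : ℕ) : ℕ := ((Inv G).filter fun g => (Fx g : Finset α).card = i).card

theorem sum_split (k : ℕ) (hf : ∀ g ∈ Inv G, (Fx g : Finset α).card < k) (Φ : ℕ → ℕ) :
    ∑ g ∈ Inv G, Φ (Fx g : Finset α).card = ∑ i ∈ Finset.range k, AA G α i * Φ i := by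
  rw [← Finset.sum_fiberwise_of_maps_to (g := fun g => (Fx g : Finset α).card) (t := Finset.range k)
    (fun g hg => Finset.mem_range.mpr (hf g hg))]
  refine Finset.sum_congr rfl fun i _ => ?_
  rw [Finset.sum_congr rfl (g := fun _ => Φ i) (fun g hg => by rw [(Finset.mem_filter.mp hg).2])]
  rw [Finset.sum_const, smul_eq_mul]
  rfl

theorem fx_lt {k : ℕ} (h : Sharp G α k) {g : G} (hg : g ∈ Inv G) : (Fx g : Finset α).card < k := by
  by_contra hk
  push Not at hk
  obtain ⟨e⟩ : Nonempty (Fin k ↪ (Fx g : Finset α)) := Function.Embedding.nonempty_of_card_le (by simpa using hk)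
  apply (mem_Inv.mp hg).2
  refine h.triv (fun i => (e i).1) (fun i j hij => e.injective (Subtype.ext hij)) g (fun i => ?_)
  exact mem_Fx.mp (e i).2

theorem parity_A {i : ℕ} (hi : ¬ Even (Fintype.card α - i)) (hle : i ≤ Fintype.card α) : AA G α i = 0 := by
  rw [AA, Finset.card_eq_zero, Finset.filter_eq_empty_iff]
  intro g hg hgi
  apply hi
  have h1 := card_Fx_add (α := α) g
  have h2 := even_card_Mv (α := α) (mem_Inv.mp hg).1
  have : Fintype.card α - i = (Mv g : Finset α).card := by omega
  rwa [this]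

theorem card_Fx_conj (h g : G) : (Fx (h * g * h⁻¹) : Finset α).card = (Fx g : Finset α).card := by
  have : (Fx (h * g * h⁻¹) : Finset α) = (Fx g).image (fun x => h • x) := by
    ext y
    simp only [mem_Fx, Finset.mem_image]
    constructor
    · intro hy
      refine ⟨h⁻¹ • y, ?_, smul_inv_smul _ _⟩
      simp only [mul_smul] at hy
      rw [eq_inv_smul_iff]
      exact hy
    · rintro ⟨x, hx, rfl⟩
      simp only [mul_smul, inv_smul_smul, hx]
  rw [this, Finset.card_image_of_injective _ (MulAction.injective h)]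

theorem mem_Inv_conj (h : G) {g : G} (hg : g ∈ Inv G) : h * g * h⁻¹ ∈ Inv G := by
  rw [mem_Inv] at hg ⊢
  constructor
  · have : h * g * h⁻¹ * (h * g * h⁻¹) = h * (g * g) * h⁻¹ := by group
    rw [this, hg.1]
    simp
  · intro he
    apply hg.2
    have : g = h⁻¹ * (h * g * h⁻¹) * h := by group
    rw [this, he]
    simp

/-- In a transitive action, the number of involutions with a unique fixed point is divisible by the degree. -/
theorem dvd_A1 (hT : ∀ x y : α, ∃ h : G, h • x = y) : Fintype.card α ∣ AA G α 1 := by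
  rcases isEmpty_or_nonempty α with hE | ⟨⟨x0⟩⟩
  · have : AA G α 1 = 0 := by
      rw [AA, Finset.card_eq_zero, Finset.filter_eq_empty_iff]
      intro g _
      have : (Fx g : Finset α) = ∅ := Finset.eq_empty_of_isEmpty _
      rw [this]
      simp
    rw [this]
    exact dvd_zero _
  let s := (Inv G).filter fun g => (Fx g : Finset α).card = 1
  have h1 := Finset.sum_card_bipartiteAbove_eq_sum_card_bipartiteBelow (s := s) (t := (univ : Finset α))
    (fun g x => g • x = x)
  have h2 : ∀ g ∈ s, (Finset.bipartiteAbove (fun (g : G) (x : α) => g • x = x) univ g).card = 1 := by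
    intro g hg
    have := (Finset.mem_filter.mp hg).2
    rw [← this]
    rfl
  have h3 : ∀ x ∈ (univ : Finset α), (Finset.bipartiteBelow (fun (g : G) (x : α) => g • x = x) s x).card =
      (Finset.bipartiteBelow (fun (g : G) (x : α) => g • x = x) s x0).card := by
    intro x _
    obtain ⟨h, hh⟩ := hT x0 x
    refine (Finset.card_bij (fun g _ => h⁻¹ * g * h⁻¹⁻¹) ?_ ?_ ?_)
    · intro g hg
      simp only [Finset.mem_bipartiteBelow, s, Finset.mem_filter] at hg ⊢
      obtain ⟨⟨hg1, hg2⟩, hg3⟩ := hg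
      refine ⟨⟨mem_Inv_conj _ hg1, by rw [card_Fx_conj]; exact hg2⟩, ?_⟩
      simp only [inv_inv, mul_smul, hh, hg3, inv_smul_eq_iff]
    · intro a _ b _ hab
      simpa using hab
    · intro g hg
      simp only [Finset.mem_bipartiteBelow, s, Finset.mem_filter] at hg
      obtain ⟨⟨hg1, hg2⟩, hg3⟩ := hg
      refine ⟨h * g * h⁻¹, ?_, by group⟩
      simp only [Finset.mem_bipartiteBelow, s, Finset.mem_filter]
      refine ⟨⟨mem_Inv_conj _ hg1, by rw [card_Fx_conj]; exact hg2⟩, ?_⟩
      simp only [mul_smul, ← hh, inv_smul_smul, hg3]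
  rw [Finset.sum_congr rfl h2, Finset.sum_congr rfl h3] at h1
  simp only [Finset.sum_const, smul_eq_mul, mul_one, Finset.card_univ] at h1
  rw [AA]
  exact ⟨_, h1⟩

theorem exists_tuple_at {k : ℕ} (hk : k + 1 ≤ Fintype.card α) (x : α) :
    ∃ t : Fin (k + 1) → α, Function.Injective t ∧ t 0 = x := by
  obtain ⟨e⟩ : Nonempty (Fin (k + 1) ↪ α) := Function.Embedding.nonempty_of_card_le (by simpa using hk)
  refine ⟨fun i => Equiv.swap (e 0) x (e i), ?_, by simp⟩
  intro i j hij
  exact e.injective ((Equiv.swap (e 0) x).injective hij)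

theorem Sharp.trans {k : ℕ} (h : Sharp G α (k + 1)) (hk : k + 1 ≤ Fintype.card α) (x y : α) : ∃ g : G, g • x = y := by
  obtain ⟨t, ht, h0⟩ := exists_tuple_at hk x
  obtain ⟨t', ht', h0'⟩ := exists_tuple_at hk y
  obtain ⟨g, hg⟩ := h.ex t t' ht ht'
  refine ⟨g, ?_⟩
  rw [← h0, ← h0']
  exact hg 0

/-- The degree of a sharply 4-transitive action. -/
theorem deg4_aux (h : Sharp G α 4) (hn : 4 ≤ Fintype.card α) :
    Fintype.card α = 4 ∨ Fintype.card α = 5 ∨ Fintype.card α = 6 ∨ Fintype.card α = 11 := by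
  have hW := sum_W4 h
  have hU := sum_U4 h
  set n := Fintype.card α with hndef
  have hf := fun g (hg : g ∈ Inv G) => fx_lt h hg
  have hmv : ∀ g : G, (Mv g : Finset α).card = n - (Fx g : Finset α).card := by
    intro g
    have := card_Fx_add (α := α) g
    omega
  simp only [hmv] at hW hU
  have e1 := sum_split (α := α) 4 hf (fun i => (n - i) * (n - i - 2))
  have e2 := sum_split (α := α) 4 hf (fun i => i * (i - 1) * (n - i))
  rw [hW] at e1
  rw [hU] at e2
  simp only [Finset.sum_range_succ, Finset.sum_range_zero, zero_add] at e1 e2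
  have hX : 0 < n.descFactorial 4 := Nat.descFactorial_pos.mpr hn
  generalize hA0 : AA G α 0 = A0 at e1 e2
  generalize hA1 : AA G α 1 = A1 at e1 e2
  generalize hA2 : AA G α 2 = A2 at e1 e2
  generalize hA3 : AA G α 3 = A3 at e1 e2
  by_cases hn12 : 12 ≤ n
  · exfalso
    rcases Nat.even_or_odd n with hev | hodd
    · have h1 : A1 = 0 := by
        rw [← hA1]
        exact parity_A (by rw [Nat.not_even_iff_odd]; exact Nat.Even.sub_odd (by omega) hev (by decide)) (by omega)
      have h3 : A3 = 0 := by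
        rw [← hA3]
        exact parity_A (by rw [Nat.not_even_iff_odd]; exact Nat.Even.sub_odd (by omega) hev (by decide)) (by omega)
      subst h1 h3
      have e2' : n.descFactorial 4 = 2 * (A2 * (n - 2)) := by
        rw [e2]
        simp only [Nat.sub_zero, Nat.add_one_sub_one]
        ring
      have e1' : A2 * (n - 2) * (n - 4) ≤ n.descFactorial 4 := by
        rw [e1]
        have : A2 * ((n - 2) * (n - 2 - 2)) = A2 * (n - 2) * (n - 4) := by
          rw [mul_assoc, show n - 2 - 2 = n - 4 by omega]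
        omega
      have e3 : A2 * (n - 2) * 8 ≤ A2 * (n - 2) * (n - 4) := Nat.mul_le_mul_left _ (by omega)
      omega
    · have h0 : A0 = 0 := by
        rw [← hA0]
        exact parity_A (by simpa using hodd) (by omega)
      have h2 : A2 = 0 := by
        rw [← hA2]
        refine parity_A ?_ (by omega)
        rw [Nat.not_even_iff_odd]
        exact Nat.Odd.sub_even (by omega) hodd (by decide)
      subst h0 h2
      have e2' : n.descFactorial 4 = 6 * (A3 * (n - 3)) := by
        rw [e2]
        simp only [Nat.sub_zero, Nat.add_one_sub_one]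
        ring
      have e1' : A3 * (n - 3) * (n - 5) ≤ n.descFactorial 4 := by
        rw [e1]
        have : A3 * ((n - 3) * (n - 3 - 2)) = A3 * (n - 3) * (n - 5) := by
          rw [mul_assoc, show n - 3 - 2 = n - 5 by omega]
        omega
      have e3 : A3 * (n - 3) * 7 ≤ A3 * (n - 3) * (n - 5) := Nat.mul_le_mul_left _ (by omega)
      omega
  · push Not at hn12
    have hd : n ∣ AA G α 1 := dvd_A1 (h.trans hn)
    rw [hA1] at hd
    have p0 : ¬ Even (n - 0) → A0 = 0 := fun hh => hA0 ▸ parity_A hh (by omega)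
    have p1 : ¬ Even (n - 1) → A1 = 0 := fun hh => hA1 ▸ parity_A hh (by omega)
    have p2 : ¬ Even (n - 2) → A2 = 0 := fun hh => hA2 ▸ parity_A hh (by omega)
    have p3 : ¬ Even (n - 3) → A3 = 0 := fun hh => hA3 ▸ parity_A hh (by omega)
    clear_value n
    interval_cases n
    · omega
    · omega
    · omega
    · exfalso
      have h0 := p0 (by decide)
      have h2 := p2 (by decide)
      simp only [Nat.descFactorial, h0, h2] at e1 e2 hX
      norm_num at e1 e2
      omega
    · exfalso
      have h1 := p1 (by decide)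
      have h3 := p3 (by decide)
      simp only [Nat.descFactorial, h1, h3] at e1 e2 hX
      norm_num at e1 e2
      omega
    · exfalso
      have h0 := p0 (by decide)
      have h2 := p2 (by decide)
      simp only [Nat.descFactorial, h0, h2] at e1 e2 hX
      norm_num at e1 e2
      omega
    · exfalso
      have h1 := p1 (by decide)
      have h3 := p3 (by decide)
      simp only [Nat.descFactorial, h1, h3] at e1 e2 hX
      norm_num at e1 e2
      omega
    · omega

/-! ### Six points -/

theorem swap_ne {g : G} (hg2 : g * g = 1) {x y : α} (h : y ≠ g • x) : g • y ≠ x := by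
  intro he
  apply h
  rw [← he, smul_self_inv hg2]

theorem smul_ne (g : G) {x y : α} (h : x ≠ y) : g • x ≠ g • y := fun he => h (MulAction.injective g he)

/-- Triples of moved points in different orbits. -/
def W6 (g : G) : Finset (Σ _ : α, Σ _ : α, α) :=
  (Mv g).sigma fun a => (Mv g \ {a, g • a}).sigma fun c => Mv g \ {a, g • a, c, g • c}

theorem card_W6 {g : G} (hg : g ∈ Inv G) :
    (W6 g : Finset (Σ _ : α, Σ _ : α, α)).card =
      (Mv g : Finset α).card * (((Mv g : Finset α).card - 2) * ((Mv g : Finset α).card - 4)) := by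
  have hg2 := (mem_Inv.mp hg).1
  rw [W6, Finset.card_sigma, Finset.sum_const_nat (m := ((Mv g : Finset α).card - 2) * ((Mv g : Finset α).card - 4))]
  intro a ha
  have ha' := mem_Mv.mp ha
  have h1 : ({a, g • a} : Finset α) ⊆ Mv g := by
    intro x hx
    simp only [Finset.mem_insert, Finset.mem_singleton] at hx
    rcases hx with rfl | rfl
    · exact ha
    · exact smul_mem_Mv hg2 ha
  rw [Finset.card_sigma, Finset.sum_const_nat (m := (Mv g : Finset α).card - 4)]
  · rw [Finset.card_sdiff_of_subset h1, Finset.card_pair (fun h => ha' h.symm)]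
  · intro c hc
    simp only [Finset.mem_sdiff, Finset.mem_insert, Finset.mem_singleton, not_or] at hc
    obtain ⟨hc1, hca, hcg⟩ := hc
    have hc' := mem_Mv.mp hc1
    have h2 : ({a, g • a, c, g • c} : Finset α) ⊆ Mv g := by
      intro x hx
      simp only [Finset.mem_insert, Finset.mem_singleton] at hx
      rcases hx with rfl | rfl | rfl | rfl
      · exact ha
      · exact smul_mem_Mv hg2 ha
      · exact hc1
      · exact smul_mem_Mv hg2 hc1
    rw [Finset.card_sdiff_of_subset h2]
    congr 1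
    rw [Finset.card_insert_of_notMem, Finset.card_insert_of_notMem, Finset.card_pair (fun h => hc' h.symm)]
    · simp only [Finset.mem_insert, Finset.mem_singleton, not_or]
      exact ⟨Ne.symm hcg, smul_ne g (Ne.symm hca)⟩
    · simp only [Finset.mem_insert, Finset.mem_singleton, not_or]
      exact ⟨fun h => ha' h.symm, Ne.symm hca, (swap_ne hg2 hcg).symm⟩

theorem inj_W6 {g : G} {a c e : α} (hg2 : g * g = 1) (ha : g • a ≠ a) (hc : g • c ≠ c) (he : g • e ≠ e)
    (hca : c ≠ a) (hcga : c ≠ g • a) (hea : e ≠ a) (hega : e ≠ g • a) (hec : e ≠ c) (hegc : e ≠ g • c) :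
    Function.Injective ![a, g • a, c, g • c, e, g • e] :=
  inj6 (Ne.symm ha) (Ne.symm hca) (swap_ne hg2 hcga).symm (Ne.symm hea) (swap_ne hg2 hega).symm (Ne.symm hcga)
    (smul_ne g (Ne.symm hca)) (Ne.symm hega) (smul_ne g (Ne.symm hea)) (Ne.symm hc) (Ne.symm hec)
    (swap_ne hg2 hegc).symm (Ne.symm hegc) (smul_ne g (Ne.symm hec)) (Ne.symm he)

theorem sum_W6 (h : Sharp G α 6) : ∑ g ∈ Inv G, ((Mv g : Finset α).card * (((Mv g : Finset α).card - 2) *
    ((Mv g : Finset α).card - 4))) = (Fintype.card α).descFactorial 6 := by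
  rw [← card_TT]
  rw [Finset.sum_congr rfl (fun g hg => (card_W6 (α := α) hg).symm), ← Finset.card_sigma]
  refine Finset.card_bij (fun p _ => ![p.2.1, p.1 • p.2.1, p.2.2.1, p.1 • p.2.2.1, p.2.2.2, p.1 • p.2.2.2]) ?_ ?_ ?_
  · rintro ⟨g, a, c, e⟩ hp
    simp only [Finset.mem_sigma, W6, Finset.mem_sdiff, Finset.mem_insert, Finset.mem_singleton, not_or] at hp
    obtain ⟨hg, ha, ⟨hc, hca, hcga⟩, he, hea, hega, hec, hegc⟩ := hp
    simp only [TT, Finset.mem_filter, Finset.mem_univ, true_and]
    exact inj_W6 (mem_Inv.mp hg).1 (mem_Mv.mp ha) (mem_Mv.mp hc) (mem_Mv.mp he) hca hcga hea hega hec hegc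
  · rintro ⟨g, a, c, e⟩ hp ⟨g', a', c', e'⟩ hq heq
    simp only [Finset.mem_sigma, W6, Finset.mem_sdiff, Finset.mem_insert, Finset.mem_singleton, not_or] at hp hq
    obtain ⟨hg, ha, ⟨hc, hca, hcga⟩, he, hea, hega, hec, hegc⟩ := hp
    obtain ⟨hg', -, -, -⟩ := hq
    have hg2 := (mem_Inv.mp hg).1
    have hg2' := (mem_Inv.mp hg').1
    have e0 : a = a' := by simpa using congrFun heq 0
    have e1 : g • a = g' • a' := by simpa using congrFun heq 1
    have e2 : c = c' := by simpa using congrFun heq 2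
    have e3 : g • c = g' • c' := by simpa using congrFun heq 3
    have e4 : e = e' := by simpa using congrFun heq 4
    have e5 : g • e = g' • e' := by simpa using congrFun heq 5
    subst e0 e2 e4
    have key : ∀ y : α, g • y = g' • y → (g⁻¹ * g') • y = y := by
      intro y hy
      rw [mul_smul, ← hy, inv_smul_smul]
    have h1 : g⁻¹ * g' = 1 := by
      refine h.triv _ (inj_W6 hg2 (mem_Mv.mp ha) (mem_Mv.mp hc) (mem_Mv.mp he) hca hcga hea hega hec hegc) _
        (forall_Fin6 ?_ ?_ ?_ ?_ ?_ ?_)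
      · exact key _ e1
      · refine key _ ?_
        show g • g • a = g' • g • a
        rw [smul_self_inv hg2, e1, smul_self_inv hg2']
      · exact key _ e3
      · refine key _ ?_
        show g • g • c = g' • g • c
        rw [smul_self_inv hg2, e3, smul_self_inv hg2']
      · exact key _ e5
      · refine key _ ?_
        show g • g • e = g' • g • e
        rw [smul_self_inv hg2, e5, smul_self_inv hg2']
    rw [inv_mul_eq_one] at h1
    subst h1
    rfl
  · intro x hx
    have hxi : Function.Injective x := by simpa [TT] using hx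
    have hxne : ∀ i j : Fin 6, i ≠ j → x i ≠ x j := fun i j hij he => hij (hxi he)
    obtain ⟨g, hg⟩ := h.ex x ![x 1, x 0, x 3, x 2, x 5, x 4] hxi
      (inj6 (hxne 1 0 (by decide)) (hxne 1 3 (by decide)) (hxne 1 2 (by decide)) (hxne 1 5 (by decide))
        (hxne 1 4 (by decide)) (hxne 0 3 (by decide)) (hxne 0 2 (by decide)) (hxne 0 5 (by decide))
        (hxne 0 4 (by decide)) (hxne 3 2 (by decide)) (hxne 3 5 (by decide)) (hxne 3 4 (by decide))
        (hxne 2 5 (by decide)) (hxne 2 4 (by decide)) (hxne 5 4 (by decide)))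
    have g0 : g • x 0 = x 1 := by simpa using hg 0
    have g1 : g • x 1 = x 0 := by simpa using hg 1
    have g2 : g • x 2 = x 3 := by simpa using hg 2
    have g3 : g • x 3 = x 2 := by simpa using hg 3
    have g4 : g • x 4 = x 5 := by simpa using hg 4
    have g5 : g • x 5 = x 4 := by simpa using hg 5
    have hgg : g * g = 1 := by
      refine h.triv x hxi _ (forall_Fin6 ?_ ?_ ?_ ?_ ?_ ?_) <;> rw [mul_smul]
      · rw [g0, g1]
      · rw [g1, g0]
      · rw [g2, g3]
      · rw [g3, g2]
      · rw [g4, g5]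
      · rw [g5, g4]
    have hg1 : g ≠ 1 := by
      rintro rfl
      rw [one_smul] at g0
      exact hxne 0 1 (by decide) g0
    refine ⟨⟨g, x 0, x 2, x 4⟩, ?_, ?_⟩
    · simp only [Finset.mem_sigma, W6, Finset.mem_sdiff, Finset.mem_insert, Finset.mem_singleton, not_or]
      refine ⟨mem_Inv.mpr ⟨hgg, hg1⟩, mem_Mv.mpr ?_, ⟨mem_Mv.mpr ?_, hxne 2 0 (by decide), ?_⟩, mem_Mv.mpr ?_,
        hxne 4 0 (by decide), ?_, hxne 4 2 (by decide), ?_⟩
      · rw [g0]
        exact hxne 1 0 (by decide)
      · rw [g2]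
        exact hxne 3 2 (by decide)
      · rw [g0]
        exact hxne 2 1 (by decide)
      · rw [g4]
        exact hxne 5 4 (by decide)
      · rw [g0]
        exact hxne 4 1 (by decide)
      · rw [g2]
        exact hxne 4 3 (by decide)
    · apply Fin6_ext <;> simp [g0, g2, g4]

/-- Five-tuples `(a, b, c, d, x)` with `a, b, c, d` distinct fixed points and `x` moved. -/
def U6 (g : G) : Finset (Σ _ : α, Σ _ : α, Σ _ : α, Σ _ : α, α) :=
  (Fx g).sigma fun a => (Fx g \ {a}).sigma fun b => (Fx g \ {a, b}).sigma fun c => (Fx g \ {a, b, c}).sigma fun _ => Mv g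

theorem card_U6 (g : G) : (U6 g : Finset (Σ _ : α, Σ _ : α, Σ _ : α, Σ _ : α, α)).card =
    (Fx g : Finset α).card * (((Fx g : Finset α).card - 1) * (((Fx g : Finset α).card - 2) *
      (((Fx g : Finset α).card - 3) * (Mv g : Finset α).card))) := by
  rw [U6, Finset.card_sigma, Finset.sum_const_nat (m := ((Fx g : Finset α).card - 1) * (((Fx g : Finset α).card - 2) *
      (((Fx g : Finset α).card - 3) * (Mv g : Finset α).card)))]
  intro a ha
  have h1 : ({a} : Finset α) ⊆ Fx g := by simpa using ha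
  rw [Finset.card_sigma, Finset.sum_const_nat (m := ((Fx g : Finset α).card - 2) *
      (((Fx g : Finset α).card - 3) * (Mv g : Finset α).card))]
  · rw [Finset.card_sdiff_of_subset h1, Finset.card_singleton]
  intro b hb
  simp only [Finset.mem_sdiff, Finset.mem_singleton] at hb
  have h2 : ({a, b} : Finset α) ⊆ Fx g := by
    intro x hx
    simp only [Finset.mem_insert, Finset.mem_singleton] at hx
    rcases hx with rfl | rfl
    · exact ha
    · exact hb.1
  rw [Finset.card_sigma, Finset.sum_const_nat (m := ((Fx g : Finset α).card - 3) * (Mv g : Finset α).card)]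
  · rw [Finset.card_sdiff_of_subset h2, Finset.card_pair (Ne.symm hb.2)]
  intro c hc
  simp only [Finset.mem_sdiff, Finset.mem_insert, Finset.mem_singleton, not_or] at hc
  have h3 : ({a, b, c} : Finset α) ⊆ Fx g := by
    intro x hx
    simp only [Finset.mem_insert, Finset.mem_singleton] at hx
    rcases hx with rfl | rfl | rfl
    · exact ha
    · exact hb.1
    · exact hc.1
  rw [Finset.card_sigma, Finset.sum_const, smul_eq_mul, Finset.card_sdiff_of_subset h3,
    Finset.card_eq_three.mpr ⟨a, b, c, Ne.symm hb.2, Ne.symm hc.2.1, Ne.symm hc.2.2, rfl⟩]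

theorem inj_U6 {g : G} {a b c d x : α} (hg2 : g * g = 1) (ha : g • a = a) (hb : g • b = b) (hc : g • c = c)
    (hd : g • d = d) (hx : g • x ≠ x) (hba : b ≠ a) (hca : c ≠ a) (hcb : c ≠ b) (hda : d ≠ a) (hdb : d ≠ b)
    (hdc : d ≠ c) : Function.Injective ![a, b, c, d, x, g • x] := by
  have hne : ∀ {w : α}, g • w = w → w ≠ x ∧ w ≠ g • x := by
    intro w hw
    refine ⟨?_, ?_⟩
    · rintro rfl
      exact hx hw
    · intro he
      apply hx
      have h3 : g • g • x = g • x := by
        rw [← he]
        exact hw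
      rw [smul_self_inv hg2] at h3
      exact h3.symm
  exact inj6 (Ne.symm hba) (Ne.symm hca) (Ne.symm hda) (hne ha).1 (hne ha).2 (Ne.symm hcb) (Ne.symm hdb) (hne hb).1
    (hne hb).2 (Ne.symm hdc) (hne hc).1 (hne hc).2 (hne hd).1 (hne hd).2 (fun h => hx h.symm)

theorem sum_U6 (h : Sharp G α 6) : ∑ g ∈ Inv G, ((Fx g : Finset α).card * (((Fx g : Finset α).card - 1) *
    (((Fx g : Finset α).card - 2) * (((Fx g : Finset α).card - 3) * (Mv g : Finset α).card)))) =
    (Fintype.card α).descFactorial 6 := by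
  rw [← card_TT]
  rw [Finset.sum_congr rfl (fun g _ => (card_U6 (α := α) g).symm), ← Finset.card_sigma]
  refine Finset.card_bij (fun p _ => ![p.2.1, p.2.2.1, p.2.2.2.1, p.2.2.2.2.1, p.2.2.2.2.2, p.1 • p.2.2.2.2.2]) ?_ ?_ ?_
  · rintro ⟨g, a, b, c, d, x⟩ hp
    simp only [Finset.mem_sigma, U6, Finset.mem_sdiff, Finset.mem_insert, Finset.mem_singleton, not_or] at hp
    obtain ⟨hg, ha, ⟨hb, hba⟩, ⟨hc, hca, hcb⟩, ⟨hd, hda, hdb, hdc⟩, hx⟩ := hp
    simp only [TT, Finset.mem_filter, Finset.mem_univ, true_and]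
    exact inj_U6 (mem_Inv.mp hg).1 (mem_Fx.mp ha) (mem_Fx.mp hb) (mem_Fx.mp hc) (mem_Fx.mp hd) (mem_Mv.mp hx)
      hba hca hcb hda hdb hdc
  · rintro ⟨g, a, b, c, d, x⟩ hp ⟨g', a', b', c', d', x'⟩ hq he
    simp only [Finset.mem_sigma, U6, Finset.mem_sdiff, Finset.mem_insert, Finset.mem_singleton, not_or] at hp hq
    obtain ⟨hg, ha, ⟨hb, hba⟩, ⟨hc, hca, hcb⟩, ⟨hd, hda, hdb, hdc⟩, hx⟩ := hp
    obtain ⟨hg', ha', ⟨hb', -⟩, ⟨hc', -⟩, ⟨hd', -⟩, -⟩ := hq
    have hg2 := (mem_Inv.mp hg).1
    have hg2' := (mem_Inv.mp hg').1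
    have e0 : a = a' := by simpa using congrFun he 0
    have e1 : b = b' := by simpa using congrFun he 1
    have e2 : c = c' := by simpa using congrFun he 2
    have e3 : d = d' := by simpa using congrFun he 3
    have e4 : x = x' := by simpa using congrFun he 4
    have e5 : g • x = g' • x' := by simpa using congrFun he 5
    subst e0 e1 e2 e3 e4
    have key : ∀ y : α, g • y = g' • y → (g⁻¹ * g') • y = y := by
      intro y hy
      rw [mul_smul, ← hy, inv_smul_smul]
    have h1 : g⁻¹ * g' = 1 := by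
      refine h.triv _ (inj_U6 hg2 (mem_Fx.mp ha) (mem_Fx.mp hb) (mem_Fx.mp hc) (mem_Fx.mp hd) (mem_Mv.mp hx)
        hba hca hcb hda hdb hdc) _ (forall_Fin6 ?_ ?_ ?_ ?_ ?_ ?_)
      · exact key _ ((mem_Fx.mp ha).trans (mem_Fx.mp ha').symm)
      · exact key _ ((mem_Fx.mp hb).trans (mem_Fx.mp hb').symm)
      · exact key _ ((mem_Fx.mp hc).trans (mem_Fx.mp hc').symm)
      · exact key _ ((mem_Fx.mp hd).trans (mem_Fx.mp hd').symm)
      · exact key _ e5
      · refine key _ ?_
        show g • g • x = g' • g • x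
        rw [smul_self_inv hg2, e5, smul_self_inv hg2']
    rw [inv_mul_eq_one] at h1
    subst h1
    rfl
  · intro x hx
    have hxi : Function.Injective x := by simpa [TT] using hx
    have hxne : ∀ i j : Fin 6, i ≠ j → x i ≠ x j := fun i j hij he => hij (hxi he)
    obtain ⟨g, hg⟩ := h.ex x ![x 0, x 1, x 2, x 3, x 5, x 4] hxi
      (inj6 (hxne 0 1 (by decide)) (hxne 0 2 (by decide)) (hxne 0 3 (by decide)) (hxne 0 5 (by decide))
        (hxne 0 4 (by decide)) (hxne 1 2 (by decide)) (hxne 1 3 (by decide)) (hxne 1 5 (by decide))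
        (hxne 1 4 (by decide)) (hxne 2 3 (by decide)) (hxne 2 5 (by decide)) (hxne 2 4 (by decide))
        (hxne 3 5 (by decide)) (hxne 3 4 (by decide)) (hxne 5 4 (by decide)))
    have g0 : g • x 0 = x 0 := by simpa using hg 0
    have g1 : g • x 1 = x 1 := by simpa using hg 1
    have g2 : g • x 2 = x 2 := by simpa using hg 2
    have g3 : g • x 3 = x 3 := by simpa using hg 3
    have g4 : g • x 4 = x 5 := by simpa using hg 4
    have g5 : g • x 5 = x 4 := by simpa using hg 5
    have hgg : g * g = 1 := by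
      refine h.triv x hxi _ (forall_Fin6 ?_ ?_ ?_ ?_ ?_ ?_) <;> rw [mul_smul]
      · rw [g0, g0]
      · rw [g1, g1]
      · rw [g2, g2]
      · rw [g3, g3]
      · rw [g4, g5]
      · rw [g5, g4]
    have hg1 : g ≠ 1 := by
      rintro rfl
      rw [one_smul] at g4
      exact hxne 4 5 (by decide) g4
    refine ⟨⟨g, x 0, x 1, x 2, x 3, x 4⟩, ?_, ?_⟩
    · simp only [Finset.mem_sigma, U6, Finset.mem_sdiff, Finset.mem_insert, Finset.mem_singleton, not_or]
      refine ⟨mem_Inv.mpr ⟨hgg, hg1⟩, mem_Fx.mpr g0, ⟨mem_Fx.mpr g1, hxne 1 0 (by decide)⟩,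
        ⟨mem_Fx.mpr g2, hxne 2 0 (by decide), hxne 2 1 (by decide)⟩,
        ⟨mem_Fx.mpr g3, hxne 3 0 (by decide), hxne 3 1 (by decide), hxne 3 2 (by decide)⟩, mem_Mv.mpr ?_⟩
      rw [g4]
      exact hxne 5 4 (by decide)
    · apply Fin6_ext <;> simp [g4]

/-- No sharply 6-transitive action of degree 13. -/
theorem no13 (h : Sharp G α 6) (hn : Fintype.card α = 13) : False := by
  have hW := sum_W6 h
  have hU := sum_U6 h
  have hf := fun g (hg : g ∈ Inv G) => fx_lt h hg
  have hmv : ∀ g : G, (Mv g : Finset α).card = 13 - (Fx g : Finset α).card := by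
    intro g
    have := card_Fx_add (α := α) g
    omega
  simp only [hmv, hn] at hW hU
  have e1 := sum_split (α := α) 6 hf (fun i => (13 - i) * ((13 - i - 2) * (13 - i - 4)))
  have e2 := sum_split (α := α) 6 hf (fun i => i * ((i - 1) * ((i - 2) * ((i - 3) * (13 - i)))))
  rw [hW] at e1
  rw [hU] at e2
  simp only [Finset.sum_range_succ, Finset.sum_range_zero, zero_add] at e1 e2
  have p0 : AA G α 0 = 0 := parity_A (by rw [hn]; decide) (by omega)
  have p2 : AA G α 2 = 0 := parity_A (by rw [hn]; decide) (by omega)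
  have p4 : AA G α 4 = 0 := parity_A (by rw [hn]; decide) (by omega)
  rw [p0, p2, p4] at e1 e2
  simp only [Nat.descFactorial] at e1 e2
  norm_num at e1 e2
  omega

end count

theorem deg4 {G : Type u} {α : Type v} [Group G] [MulAction G α] [Finite G] [Finite α] (h : Sharp G α 4)
    (hn : 4 ≤ Nat.card α) : Nat.card α = 4 ∨ Nat.card α = 5 ∨ Nat.card α = 6 ∨ Nat.card α = 11 := by
  classical
  haveI := Fintype.ofFinite G
  haveI := Fintype.ofFinite α
  rw [Nat.card_eq_fintype_card] at hn ⊢
  simpa only [Nat.card_eq_fintype_card] using deg4_aux h hn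

theorem deg5 {G : Type u} {α : Type v} [Group G] [MulAction G α] [Finite G] [Finite α] (h : Sharp G α 5)
    (hn : 5 ≤ Nat.card α) : Nat.card α = 5 ∨ Nat.card α = 6 ∨ Nat.card α = 7 ∨ Nat.card α = 12 := by
  have : Nonempty α := (Nat.card_pos_iff.mp (by omega)).1
  obtain ⟨a⟩ := ‹Nonempty α›
  have h1 := SubMulAction.nat_card_ofStabilizer_add_one_eq G a
  have h2 := deg4 (h.stab a) (by omega)
  omega

theorem deg6 {G : Type u} {α : Type v} [Group G] [MulAction G α] [Finite G] [Finite α] (h : Sharp G α 6)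
    (hn : 6 ≤ Nat.card α) : Nat.card α = 6 ∨ Nat.card α = 7 ∨ Nat.card α = 8 := by
  have : Nonempty α := (Nat.card_pos_iff.mp (by omega)).1
  obtain ⟨a⟩ := ‹Nonempty α›
  have h1 := SubMulAction.nat_card_ofStabilizer_add_one_eq G a
  have h2 := deg5 (h.stab a) (by omega)
  have h3 : Nat.card α ≠ 13 := by
    intro h13
    classical
    haveI := Fintype.ofFinite G
    haveI := Fintype.ofFinite α
    rw [Nat.card_eq_fintype_card] at h13
    exact no13 h h13
  omega

theorem deg_large (k : ℕ) (hk : 6 ≤ k) : ∀ {G : Type u} {α : Type v} [Group G] [MulAction G α] [Finite G] [Finite α],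
    Sharp G α k → k ≤ Nat.card α → Nat.card α = k ∨ Nat.card α = k + 1 ∨ Nat.card α = k + 2 := by
  induction k, hk using Nat.le_induction with
  | base =>
    intro G α _ _ _ _ h hn
    exact deg6 h hn
  | succ k hk ih =>
    intro G α _ _ _ _ h hn
    have : Nonempty α := (Nat.card_pos_iff.mp (by omega)).1
    obtain ⟨a⟩ := ‹Nonempty α›
    have h1 := SubMulAction.nat_card_ofStabilizer_add_one_eq G a
    have h2 := ih (h.stab a) (by omega)
    omega

/-- From the hypotheses of the statements. -/
theorem sharp_of {α : Type v} [Fintype α] [DecidableEq α] (G : Subgroup (Equiv.Perm α)) (k : ℕ)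
    [MulAction.IsMultiplyPretransitive G α k] (hsharp : ∀ x : Fin k ↪ α, MulAction.stabilizer G x = ⊥) :
    Sharp G α k := by
  constructor
  · intro x y hx hy
    obtain ⟨g, hg⟩ := MulAction.exists_smul_eq G (⟨x, hx⟩ : Fin k ↪ α) (⟨y, hy⟩ : Fin k ↪ α)
    exact ⟨g, fun i => DFunLike.congr_fun hg i⟩
  · intro x hx g hg
    have h1 : g ∈ MulAction.stabilizer G (⟨x, hx⟩ : Fin k ↪ α) := by
      rw [MulAction.mem_stabilizer_iff]
      ext i
      exact hg i
    rw [hsharp] at h1
    simpa using h1

end Cfsg.Agent.Lib.Jordan
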