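/-
Jordan normal form of nilpotent endomorphisms, in a form convenient for counting.
-/
import Mathlib

set_option autoImplicit false
set_option linter.all false

open scoped MatrixGroups Matrix
open Polynomial Module

universe u v w

namespace Cfsg.Agent.Lib.JordanNil

section Model

variable (F : Type u) [Field F] {ι : Type v} (e : ι → ℕ)

/-- Index set of the Jordan basis. -/
abbrev Idx {ι : Type v} (e : ι → ℕ) := {x : ι × ℕ // x.2 < e x.1}

/-- The nilpotent shift on functions on the Jordan basis. -/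
def Lop : Module.End F (Idx e → F) where
  toFun v := fun x => if h : x.1.2 = 0 then 0 else v ⟨(x.1.1, x.1.2 - 1), by have := x.2; simp only; omega⟩
  map_add' v w := by
    funext x
    by_cases h : x.1.2 = 0
    · simp [h]
    · simp [h]
  map_smul' c v := by
    funext x
    by_cases h : x.1.2 = 0
    · simp [h]
    · simp [h]

theorem Lop_apply (v : Idx e → F) (x : Idx e) :
    Lop F e v x = if h : x.1.2 = 0 then 0 else v ⟨(x.1.1, x.1.2 - 1), by have := x.2; simp only; omega⟩ := rfl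

theorem Lop_pow_apply (k : ℕ) (v : Idx e → F) (x : Idx e) :
    (Lop F e ^ k) v x = if h : x.1.2 < k then 0 else v ⟨(x.1.1, x.1.2 - k), by have := x.2; simp only; omega⟩ := by
  induction k generalizing x with
  | zero =>
    simp
  | succ k ih =>
    rw [pow_succ', Module.End.mul_apply, Lop_apply]
    by_cases h0 : x.1.2 = 0
    · rw [dif_pos h0, dif_pos (by omega)]
    · rw [dif_neg h0, ih]
      simp only
      by_cases h1 : x.1.2 - 1 < k
      · rw [dif_pos h1, dif_pos (by omega)]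
      · rw [dif_neg h1, dif_neg (by omega)]
        congr 1
        refine Subtype.ext ?_
        show ((x.1.1, x.1.2 - 1 - k) : ι × ℕ) = (x.1.1, x.1.2 - (k + 1))
        rw [show x.1.2 - 1 - k = x.1.2 - (k + 1) by omega]

theorem Lop_pow_eq_zero_iff (k : ℕ) (v : Idx e → F) :
    (Lop F e ^ k) v = 0 ↔ ∀ x : Idx e, x.1.2 + k < e x.1.1 → v x = 0 := by
  constructor
  · intro h x hx
    have h1 := congrFun h ⟨(x.1.1, x.1.2 + k), hx⟩
    rw [Lop_pow_apply] at h1
    simp only [Pi.zero_apply] at h1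
    rw [dif_neg (by omega)] at h1
    have h2 : (⟨(x.1.1, x.1.2 + k - k), by have := x.2; simp only; omega⟩ : Idx e) = x := by
      refine Subtype.ext ?_
      show ((x.1.1, x.1.2 + k - k) : ι × ℕ) = x.1
      rw [Nat.add_sub_cancel]
    rw [h2] at h1
    exact h1
  · intro h
    funext x
    rw [Lop_pow_apply]
    by_cases h1 : x.1.2 < k
    · rw [dif_pos h1]
      rfl
    · rw [dif_neg h1]
      apply h
      simp only
      have := x.2
      omega

/-- The Jordan basis as a sigma type. -/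
def idxEquiv : Idx e ≃ Σ i, Fin (e i) where
  toFun x := ⟨x.1.1, ⟨x.1.2, x.2⟩⟩
  invFun y := ⟨(y.1, y.2.1), y.2.2⟩
  left_inv x := rfl
  right_inv y := rfl

instance instFiniteIdx [Finite ι] : Finite (Idx e) := Finite.of_equiv _ (idxEquiv e).symm

theorem card_Idx [Fintype ι] : Nat.card (Idx e) = ∑ i, e i := by
  rw [Nat.card_congr (idxEquiv e), Nat.card_sigma]
  simp

theorem card_fin_top (a k : ℕ) : Nat.card {j : Fin a // a ≤ (j : ℕ) + k} = min a k := by
  classical
  rw [Nat.card_eq_fintype_card, Fintype.card_subtype]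
  have h1 : (Finset.univ.filter (fun j : Fin a => a ≤ (j : ℕ) + k)).map Fin.valEmbedding = Finset.Ico (a - k) a := by
    ext x
    simp only [Finset.mem_map, Finset.mem_filter, Finset.mem_univ, true_and, Fin.valEmbedding_apply, Finset.mem_Ico]
    constructor
    · rintro ⟨j, hj, rfl⟩
      have := j.2
      omega
    · intro hx
      exact ⟨⟨x, by omega⟩, by simp only; omega, rfl⟩
  rw [← Finset.card_map Fin.valEmbedding, h1, Nat.card_Ico]
  omega

theorem card_Z [Fintype ι] (k : ℕ) : Nat.card {x : Idx e // e x.1.1 ≤ x.1.2 + k} = ∑ i, min (e i) k := by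
  let E : {x : Idx e // e x.1.1 ≤ x.1.2 + k} ≃ Σ i, {j : Fin (e i) // e i ≤ (j : ℕ) + k} :=
    { toFun := fun x => ⟨x.1.1.1, ⟨⟨x.1.1.2, x.1.2⟩, x.2⟩⟩
      invFun := fun y => ⟨⟨(y.1, y.2.1.1), y.2.1.2⟩, y.2.2⟩
      left_inv := fun x => rfl
      right_inv := fun y => rfl }
  rw [Nat.card_congr E, Nat.card_sigma]
  exact Finset.sum_congr rfl (fun i _ => card_fin_top _ _)

/-- Counting the kernel of a power of the shift. -/
theorem card_ker [Fintype ι] [Finite F] (k : ℕ) :
    Nat.card {v : Idx e → F // (Lop F e ^ k) v = 0} = Nat.card F ^ (∑ i, min (e i) k) := by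
  classical
  let E : {v : Idx e → F // (Lop F e ^ k) v = 0} ≃ ({x : Idx e // e x.1.1 ≤ x.1.2 + k} → F) :=
    { toFun := fun v z => v.1 z.1
      invFun := fun u => ⟨fun x => if h : e x.1.1 ≤ x.1.2 + k then u ⟨x, h⟩ else 0, by
        rw [Lop_pow_eq_zero_iff]
        intro x hx
        rw [dif_neg (by omega)]⟩
      left_inv := by
        rintro ⟨v, hv⟩
        apply Subtype.ext
        funext x
        by_cases h : e x.1.1 ≤ x.1.2 + k
        · simp only
          rw [dif_pos h]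
        · simp only
          rw [dif_neg h]
          exact ((Lop_pow_eq_zero_iff F e k v).1 hv x (by omega)).symm
      right_inv := by
        intro u
        funext z
        simp only
        rw [dif_pos z.2] }
  rw [Nat.card_congr E, Nat.card_fun, card_Z]

theorem Lop_pow_zero_iff (k : ℕ) : Lop F e ^ k = 0 ↔ ∀ i, e i ≤ k := by
  classical
  constructor
  · intro h i
    by_contra hi
    have hi' : k < e i := by omega
    have h1 := (Lop_pow_eq_zero_iff F e k (Pi.single ⟨(i, 0), by simp only; omega⟩ 1)).1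
      (by rw [h]; rfl) ⟨(i, 0), by simp only; omega⟩ (by simp only; omega)
    simp at h1
  · intro h
    apply LinearMap.ext
    intro v
    apply (Lop_pow_eq_zero_iff F e k v).2
    intro x hx
    have := h x.1.1
    omega

end Model

section Coeff

variable {F : Type u} [Field F]

/-- The coefficient map modulo a power of the variable. -/
theorem exists_coeff_equiv (e : ℕ) : ∃ ψ : (F[X] ⧸ Submodule.span F[X] {(X : F[X]) ^ e}) ≃ₗ[F] (Fin e → F),
    ∀ (a : F[X] ⧸ Submodule.span F[X] {(X : F[X]) ^ e}) (j : ℕ) (h : j < e),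
      ψ ((X : F[X]) • a) ⟨j, h⟩ = if h0 : j = 0 then 0 else ψ a ⟨j - 1, by omega⟩ := by
  classical
  let S : Submodule F[X] F[X] := Submodule.span F[X] {(X : F[X]) ^ e}
  let C : F[X] →ₗ[F] (Fin e → F) := LinearMap.pi fun i => Polynomial.lcoeff F i
  have hC : ∀ f i, C f i = f.coeff i := fun f i => rfl
  have hker : ∀ f, C f = 0 ↔ f ∈ S := by
    intro f
    constructor
    · intro h
      apply Submodule.mem_span_singleton.2
      obtain ⟨g, hg⟩ := (Polynomial.X_pow_dvd_iff).2 (fun d hd => congrFun h ⟨d, hd⟩)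
      exact ⟨g, by rw [hg, smul_eq_mul, mul_comm]⟩
    · intro h
      obtain ⟨g, hg⟩ := Submodule.mem_span_singleton.1 h
      funext i
      have h1 : (X : F[X]) ^ e ∣ f := ⟨g, by rw [← hg, smul_eq_mul, mul_comm]⟩
      exact Polynomial.X_pow_dvd_iff.1 h1 i i.2
  let ψ₀ : (F[X] ⧸ S.restrictScalars F) →ₗ[F] (Fin e → F) := (S.restrictScalars F).liftQ C (by
    intro f hf
    exact (hker f).2 hf)
  have hinj : Function.Injective ψ₀ := by
    rw [← LinearMap.ker_eq_bot, LinearMap.ker_eq_bot']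
    intro a ha
    obtain ⟨f, rfl⟩ := Submodule.Quotient.mk_surjective _ a
    have h1 : C f = 0 := ha
    exact (Submodule.Quotient.mk_eq_zero _).2 ((hker f).1 h1)
  have hsurj : Function.Surjective ψ₀ := by
    intro v
    let f : F[X] := ∑ i : Fin e, Polynomial.C (v i) * X ^ (i : ℕ)
    refine ⟨Submodule.Quotient.mk f, ?_⟩
    show C f = v
    funext i
    rw [hC]
    show (∑ i : Fin e, Polynomial.C (v i) * X ^ (i : ℕ)).coeff i = v i
    rw [Polynomial.finset_sum_coeff]
    simp only [Polynomial.coeff_C_mul_X_pow]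
    rw [Finset.sum_eq_single i]
    · simp
    · intro j _ hj
      have : (i : ℕ) ≠ j := fun h => hj (Fin.ext h.symm)
      simp [this]
    · simp
  refine ⟨(Submodule.Quotient.restrictScalarsEquiv F S).symm.trans (LinearEquiv.ofBijective ψ₀ ⟨hinj, hsurj⟩), ?_⟩
  intro a j h
  obtain ⟨f, rfl⟩ := Submodule.Quotient.mk_surjective _ a
  have h2 : ∀ g : F[X], ((Submodule.Quotient.restrictScalarsEquiv F S).symm.trans (LinearEquiv.ofBijective ψ₀ ⟨hinj, hsurj⟩))
      (Submodule.Quotient.mk g) = C g := fun g => rfl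
  rw [← Submodule.Quotient.mk_smul, smul_eq_mul, h2, h2, hC]
  by_cases h0 : j = 0
  · subst h0
    simp
  · rw [dif_neg h0, hC]
    obtain ⟨j', rfl⟩ : ∃ j', j = j' + 1 := ⟨j - 1, by omega⟩
    simp

end Coeff

section Jordan

variable (F : Type u) [Field F] {V : Type w} [AddCommGroup V] [Module F V]

/-- `L` has Jordan type `e`. -/
def IsJordan {ι : Type v} (L : Module.End F V) (e : ι → ℕ) : Prop :=
  ∃ φ : V ≃ₗ[F] (Idx e → F), ∀ v, φ (L v) = Lop F e (φ v)

variable {F}

theorem IsJordan.of_conj {V' : Type*} [AddCommGroup V'] [Module F V'] {ι : Type v} {L : Module.End F V} {L' : Module.End F V'} {e : ι → ℕ}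
    (h : IsJordan F L e) (Φ : V' ≃ₗ[F] V) (hΦ : ∀ v, Φ (L' v) = L (Φ v)) : IsJordan F L' e := by
  obtain ⟨φ, hφ⟩ := h
  exact ⟨Φ.trans φ, fun v => by
    show φ (Φ (L' v)) = _
    rw [hΦ, hφ]
    rfl⟩

theorem IsJordan.pow_apply {ι : Type v} {L : Module.End F V} {e : ι → ℕ} {φ : V ≃ₗ[F] (Idx e → F)}
    (hφ : ∀ v, φ (L v) = Lop F e (φ v)) (k : ℕ) (v : V) : φ ((L ^ k) v) = (Lop F e ^ k) (φ v) := by
  induction k with
  | zero => simp
  | succ k ih =>
    rw [pow_succ', Module.End.mul_apply, hφ, ih, pow_succ', Module.End.mul_apply]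

theorem IsJordan.card_ker {ι : Type v} [Fintype ι] [Finite F] {L : Module.End F V} {e : ι → ℕ} (h : IsJordan F L e) (k : ℕ) :
    Nat.card {v : V // (L ^ k) v = 0} = Nat.card F ^ (∑ i, min (e i) k) := by
  obtain ⟨φ, hφ⟩ := h
  rw [← Cfsg.Agent.Lib.JordanNil.card_ker F e k]
  refine Nat.card_congr (φ.toEquiv.subtypeEquiv ?_)
  intro v
  show (L ^ k) v = 0 ↔ (Lop F e ^ k) (φ v) = 0
  rw [← IsJordan.pow_apply hφ]
  simp

theorem IsJordan.pow_eq_zero_iff {ι : Type v} {L : Module.End F V} {e : ι → ℕ} (h : IsJordan F L e) (k : ℕ) :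
    L ^ k = 0 ↔ ∀ i, e i ≤ k := by
  obtain ⟨φ, hφ⟩ := h
  rw [← Lop_pow_zero_iff F e k]
  constructor
  · intro h1
    apply LinearMap.ext
    intro v
    obtain ⟨w, rfl⟩ := φ.surjective v
    rw [← IsJordan.pow_apply hφ, h1]
    simp
  · intro h1
    apply LinearMap.ext
    intro v
    apply φ.injective
    rw [IsJordan.pow_apply hφ, h1]
    simp

theorem IsJordan.sum_eq_finrank {ι : Type v} [Fintype ι] [FiniteDimensional F V] {L : Module.End F V} {e : ι → ℕ} (h : IsJordan F L e) :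
    ∑ i, e i = Module.finrank F V := by
  obtain ⟨φ, -⟩ := h
  haveI := Fintype.ofFinite (Idx e)
  rw [φ.finrank_eq, Module.finrank_fintype_fun_eq_card, ← Nat.card_eq_fintype_card, card_Idx]

/-- The existence of the Jordan form. -/
theorem exists_isJordan [FiniteDimensional F V] (L : Module.End F V) (hL : IsNilpotent L) :
    ∃ (ι : Type u) (_ : Fintype ι) (e : ι → ℕ), IsJordan F L e := by
  classical
  obtain ⟨m, hm⟩ := hL
  have hT : Module.IsTorsion F[X] (AEval' L) := Module.AEval.isTorsion_of_finiteDimensional F V L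
  obtain ⟨ι, hι, p, hp, e, ⟨E₁⟩⟩ := Module.equiv_directSum_of_isTorsion hT
  refine ⟨ι, hι, e, ?_⟩
  let E₀ : AEval' L ≃ₗ[F[X]] (Π i, F[X] ⧸ Submodule.span F[X] {p i ^ e i}) :=
    E₁.trans (DirectSum.linearEquivFunOnFintype F[X] ι _)
  have hkill : ∀ w : AEval' L, ((X : F[X]) ^ m) • w = 0 := by
    intro w
    obtain ⟨v, rfl⟩ := (AEval'.of L).surjective w
    rw [AEval'.X_pow_smul_of, hm]
    simp
  have hspan : ∀ i, Submodule.span F[X] {p i ^ e i} = Submodule.span F[X] {(X : F[X]) ^ e i} := by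
    intro i
    by_cases he : e i = 0
    · rw [he, pow_zero, pow_zero]
    · have h1 : (X : F[X]) ^ m ∈ Submodule.span F[X] {p i ^ e i} := by
        have h2 := hkill (E₀.symm (Pi.single i (Submodule.Quotient.mk 1)))
        have h3 := congrArg E₀ h2
        rw [map_smul, LinearEquiv.apply_symm_apply, map_zero] at h3
        have h4 := congrFun h3 i
        rw [Pi.smul_apply, Pi.single_eq_same, ← Submodule.Quotient.mk_smul, smul_eq_mul, mul_one] at h4
        exact (Submodule.Quotient.mk_eq_zero _).1 h4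
      obtain ⟨g, hg⟩ := Submodule.mem_span_singleton.1 h1
      have h5 : p i ∣ (X : F[X]) ^ m := by
        refine Dvd.dvd.trans (dvd_pow_self _ he) ?_
        exact ⟨g, by rw [← hg, smul_eq_mul, mul_comm]⟩
      have h6 : p i ∣ (X : F[X]) := (hp i).prime.dvd_of_dvd_pow h5
      have h7 : Associated (p i) (X : F[X]) := (hp i).associated_of_dvd Polynomial.irreducible_X h6
      exact Ideal.span_singleton_eq_span_singleton.2 (h7.pow_pow)
  choose ψ hψ using fun i => exists_coeff_equiv (F := F) (e i)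
  let E₂ : AEval' L ≃ₗ[F[X]] (Π i, F[X] ⧸ Submodule.span F[X] {(X : F[X]) ^ e i}) :=
    E₀.trans (LinearEquiv.piCongrRight (fun i => Submodule.quotEquivOfEq _ _ (hspan i)))
  let B : (Π i, Fin (e i) → F) ≃ₗ[F] (Idx e → F) :=
    { toFun := fun v x => v x.1.1 ⟨x.1.2, x.2⟩
      invFun := fun u i j => u ⟨(i, j.1), j.2⟩
      map_add' := fun _ _ => rfl
      map_smul' := fun _ _ => rfl
      left_inv := fun _ => rfl
      right_inv := fun _ => rfl }
  let φ : V ≃ₗ[F] (Idx e → F) :=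
    (AEval'.of L).trans ((E₂.restrictScalars F).trans ((LinearEquiv.piCongrRight ψ).trans B))
  refine ⟨φ, ?_⟩
  intro v
  have h1 : E₂ (AEval'.of L (L v)) = (X : F[X]) • E₂ (AEval'.of L v) := by
    rw [← AEval'.X_smul_of, map_smul]
  funext x
  have h2 : φ (L v) x = ψ x.1.1 (E₂ (AEval'.of L (L v)) x.1.1) ⟨x.1.2, x.2⟩ := rfl
  rw [h2, h1, Pi.smul_apply, hψ]
  rfl

end Jordan

section Counting

variable {ι : Type v} [Fintype ι] (e : ι → ℕ) {ι' : Type w} [Fintype ι'] (e' : ι' → ℕ)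

/-- The number of blocks of a given size. -/
noncomputable def cnt {ι : Type v} (e : ι → ℕ) (s : ℕ) : ℕ := Nat.card {i // e i = s}

theorem cnt_formula (s : ℕ) (hs : 1 ≤ s) :
    (cnt e s : ℤ) = 2 * ((∑ i, min (e i) s : ℕ) : ℤ) - ((∑ i, min (e i) (s - 1) : ℕ) : ℤ) - ((∑ i, min (e i) (s + 1) : ℕ) : ℤ) := by
  classical
  unfold cnt
  rw [Nat.card_eq_fintype_card, Fintype.card_subtype, Finset.card_filter]
  push_cast
  rw [Finset.mul_sum, ← Finset.sum_sub_distrib, ← Finset.sum_sub_distrib]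
  apply Finset.sum_congr rfl
  intro i _
  split_ifs with h
  · omega
  · omega

theorem cnt_eq_of_sums (h : ∀ k, ∑ i, min (e i) k = ∑ i, min (e' i) k) (s : ℕ) (hs : 1 ≤ s) : cnt e s = cnt e' s := by
  have h1 := cnt_formula e s hs
  have h2 := cnt_formula e' s hs
  rw [h s, h (s - 1), h (s + 1), ← h2] at h1
  exact_mod_cast h1

theorem cnt_fiber (s : ℕ) (hs : 1 ≤ s) : Nat.card {x : {i // e i ≠ 0} // e x.1 = s} = cnt e s := by
  refine Nat.card_congr ⟨fun x => ⟨x.1.1, x.2⟩, fun i => ⟨⟨i.1, by rw [i.2]; omega⟩, i.2⟩, fun x => rfl, fun i => rfl⟩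

theorem exists_block_equiv (h : ∀ s, 1 ≤ s → cnt e s = cnt e' s) :
    ∃ σ : {i // e i ≠ 0} ≃ {i // e' i ≠ 0}, ∀ x, e' (σ x).1 = e x.1 := by
  classical
  let f : {i // e i ≠ 0} → ℕ := fun x => e x.1
  let f' : {i // e' i ≠ 0} → ℕ := fun x => e' x.1
  have hc : ∀ s, Nat.card {x // f x = s} = Nat.card {x // f' x = s} := by
    intro s
    by_cases hs : s = 0
    · subst hs
      have h1 : IsEmpty {x // f x = 0} := ⟨fun x => x.1.2 x.2⟩
      have h2 : IsEmpty {x // f' x = 0} := ⟨fun x => x.1.2 x.2⟩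
      rw [Nat.card_of_isEmpty, Nat.card_of_isEmpty]
    · rw [cnt_fiber e s (by omega), cnt_fiber e' s (by omega)]
      exact h s (by omega)
  let τ : ∀ s, {x // f x = s} ≃ {x // f' x = s} := fun s => (Finite.equivFinOfCardEq (hc s)).trans (Finite.equivFinOfCardEq rfl).symm
  let σ : {i // e i ≠ 0} ≃ {i // e' i ≠ 0} :=
    (Equiv.sigmaFiberEquiv f).symm.trans ((Equiv.sigmaCongrRight τ).trans (Equiv.sigmaFiberEquiv f'))
  refine ⟨σ, fun x => ?_⟩
  exact (τ (f x) ⟨x, rfl⟩).2

variable (F : Type u) [Field F]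

theorem exists_intertwine (h : ∀ s, 1 ≤ s → cnt e s = cnt e' s) :
    ∃ Θ : (Idx e' → F) ≃ₗ[F] (Idx e → F), ∀ v, Θ (Lop F e' v) = Lop F e (Θ v) := by
  obtain ⟨σ, hσ⟩ := exists_block_equiv e e' h
  have hne : ∀ x : Idx e, e x.1.1 ≠ 0 := fun x => by have := x.2; omega
  have hne' : ∀ x : Idx e', e' x.1.1 ≠ 0 := fun x => by have := x.2; omega
  let β : Idx e ≃ Idx e' :=
    { toFun := fun x => ⟨((σ ⟨x.1.1, hne x⟩).1, x.1.2), by
        show x.1.2 < e' (σ ⟨x.1.1, hne x⟩).1
        rw [hσ]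
        exact x.2⟩
      invFun := fun x => ⟨((σ.symm ⟨x.1.1, hne' x⟩).1, x.1.2), by
        show x.1.2 < e (σ.symm ⟨x.1.1, hne' x⟩).1
        rw [← hσ, Equiv.apply_symm_apply]
        exact x.2⟩
      left_inv := fun x => by
        refine Subtype.ext (Prod.ext ?_ rfl)
        show (σ.symm ⟨(σ ⟨x.1.1, hne x⟩).1, _⟩).1 = x.1.1
        simp
      right_inv := fun x => by
        refine Subtype.ext (Prod.ext ?_ rfl)
        show (σ ⟨(σ.symm ⟨x.1.1, hne' x⟩).1, _⟩).1 = x.1.1
        simp }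
  refine ⟨LinearEquiv.funCongrLeft F F β, fun v => ?_⟩
  rfl

end Counting

section Matrices

variable {F : Type u} [Field F] {n : ℕ}

/-- The nilpotent part of a matrix, as an endomorphism. -/
noncomputable def LG (g : GL (Fin n) F) : Module.End F (Fin n → F) :=
  Matrix.toLin' ((g : Matrix (Fin n) (Fin n) F) - 1)

theorem LG_apply (g : GL (Fin n) F) (v : Fin n → F) : LG g v = ((g : Matrix (Fin n) (Fin n) F) - 1) *ᵥ v := rfl

theorem LG_pow (g : GL (Fin n) F) (k : ℕ) :
    LG g ^ k = Matrix.toLin' (((g : Matrix (Fin n) (Fin n) F) - 1) ^ k) := (Matrix.toLin'_pow _ _).symm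

theorem LG_pow_eq_zero (g : GL (Fin n) F) (k : ℕ) :
    LG g ^ k = 0 ↔ ((g : Matrix (Fin n) (Fin n) F) - 1) ^ k = 0 := by
  rw [LG_pow]
  constructor
  · intro h
    apply Matrix.toLin'.injective
    rw [h, map_zero]
  · intro h
    rw [h, map_zero]

theorem isConj_of_intertwine {g g' : GL (Fin n) F} (Φ : (Fin n → F) ≃ₗ[F] (Fin n → F))
    (h : ∀ v, Φ (LG g v) = LG g' (Φ v)) : IsConj g g' := by
  let c : GL (Fin n) F :=
    ⟨LinearMap.toMatrix' Φ.toLinearMap, LinearMap.toMatrix' Φ.symm.toLinearMap, by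
      rw [← LinearMap.toMatrix'_comp]
      simp, by
      rw [← LinearMap.toMatrix'_comp]
      simp⟩
  rw [isConj_iff]
  refine ⟨c, ?_⟩
  rw [mul_inv_eq_iff_eq_mul]
  apply Units.ext
  have h1 : (c : Matrix (Fin n) (Fin n) F) * ((g : Matrix (Fin n) (Fin n) F) - 1) = ((g' : Matrix (Fin n) (Fin n) F) - 1) * c := by
    apply Matrix.toLin'.injective
    rw [Matrix.toLin'_mul, Matrix.toLin'_mul]
    show Matrix.toLin' (LinearMap.toMatrix' Φ.toLinearMap) ∘ₗ _ = _ ∘ₗ Matrix.toLin' (LinearMap.toMatrix' Φ.toLinearMap)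
    rw [Matrix.toLin'_toMatrix']
    apply LinearMap.ext
    exact h
  rw [mul_sub, sub_mul, mul_one, one_mul] at h1
  exact (sub_left_inj.1 h1)

theorem IsJordan.of_isConj {ι : Type v} {e : ι → ℕ} {g g' : GL (Fin n) F} (hJ : IsJordan F (LG g) e) (h : IsConj g g') :
    IsJordan F (LG g') e := by
  obtain ⟨c, rfl⟩ := isConj_iff.1 h
  let Φ : (Fin n → F) ≃ₗ[F] (Fin n → F) :=
    LinearEquiv.ofLinear (Matrix.toLin' ((c⁻¹ : GL (Fin n) F) : Matrix (Fin n) (Fin n) F))
      (Matrix.toLin' ((c : GL (Fin n) F) : Matrix (Fin n) (Fin n) F))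
      (by rw [← Matrix.toLin'_mul, Units.inv_mul, Matrix.toLin'_one])
      (by rw [← Matrix.toLin'_mul, Units.mul_inv, Matrix.toLin'_one])
  refine hJ.of_conj Φ ?_
  intro v
  show ((c⁻¹ : GL (Fin n) F) : Matrix (Fin n) (Fin n) F) *ᵥ (((c * g * c⁻¹ : GL (Fin n) F) : Matrix (Fin n) (Fin n) F) - 1) *ᵥ v =
    ((g : Matrix (Fin n) (Fin n) F) - 1) *ᵥ ((c⁻¹ : GL (Fin n) F) : Matrix (Fin n) (Fin n) F) *ᵥ v
  rw [Matrix.mulVec_mulVec, Matrix.mulVec_mulVec]
  congr 1
  have h1 : ((c⁻¹ : GL (Fin n) F) : Matrix (Fin n) (Fin n) F) * (((c * g * c⁻¹ : GL (Fin n) F) : Matrix (Fin n) (Fin n) F)) =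
      (g : Matrix (Fin n) (Fin n) F) * ((c⁻¹ : GL (Fin n) F) : Matrix (Fin n) (Fin n) F) := by
    rw [← Units.val_mul, ← Units.val_mul]
    congr 1
    group
  rw [mul_sub, h1, sub_mul, mul_one, one_mul]

/-- `g` has Jordan type `μ`. -/
def Rel (g : GL (Fin n) F) (μ : Nat.Partition n) : Prop :=
  ∃ (ι : Type u) (_ : Fintype ι) (e : ι → ℕ), IsJordan F (LG g) e ∧ ∀ s, 1 ≤ s → cnt e s = μ.parts.count s

theorem cnt_eq_count {ι : Type v} [Fintype ι] (e : ι → ℕ) (s : ℕ) : cnt e s = (Finset.univ.val.map e).count s := by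
  classical
  unfold cnt
  rw [Multiset.count_map, Nat.card_eq_fintype_card, Fintype.card_subtype]
  show Finset.card _ = Multiset.card _
  rw [Finset.card_def]
  congr 1
  show (Finset.univ.filter (fun i => e i = s)).val = _
  rw [Finset.filter_val]
  apply Multiset.filter_congr
  intro i _
  exact eq_comm

theorem exists_rel (g : GL (Fin n) F) (hg : IsNilpotent ((g : Matrix (Fin n) (Fin n) F) - 1)) : ∃ μ, Rel g μ := by
  classical
  obtain ⟨m, hm⟩ := hg
  have hL : IsNilpotent (LG g) := ⟨m, (LG_pow_eq_zero g m).2 hm⟩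
  obtain ⟨ι, hι, e, hJ⟩ := exists_isJordan (LG g) hL
  have hsum : (Finset.univ.val.map e).sum = n := by
    have h1 := hJ.sum_eq_finrank
    rw [Module.finrank_fin_fun] at h1
    exact h1
  refine ⟨Nat.Partition.ofSums n (Finset.univ.val.map e) hsum, ι, hι, e, hJ, ?_⟩
  intro s hs
  rw [cnt_eq_count]
  show _ = ((Finset.univ.val.map e).filter (· ≠ 0)).count s
  rw [Multiset.count_filter_of_pos (by omega)]

theorem exists_model (μ : Nat.Partition n) : ∃ g : GL (Fin n) F, IsNilpotent ((g : Matrix (Fin n) (Fin n) F) - 1) ∧ Rel g μ := by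
  classical
  let l : List ℕ := μ.parts.toList
  let ι : Type u := ULift.{u} (Fin l.length)
  let e : ι → ℕ := fun i => l.get i.down
  have hmap : (Finset.univ.val.map e) = μ.parts := by
    have h1 : (Finset.univ.val.map (fun i : Fin l.length => l.get i)) = μ.parts := by
      rw [Fin.univ_val_map, List.ofFn_get]
      exact Multiset.coe_toList _
    rw [← h1]
    have h2 : (Finset.univ : Finset ι).val = (Finset.univ : Finset (Fin l.length)).val.map ULift.up := by
      have h3 : (Finset.univ : Finset ι) = (Finset.univ : Finset (Fin l.length)).map ⟨ULift.up, ULift.up_injective⟩ := by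
        ext x
        simp only [Finset.mem_univ, Finset.mem_map, true_iff]
        exact ⟨x.down, trivial, rfl⟩
      rw [h3]
      rfl
    rw [h2, Multiset.map_map]
    rfl
  have hsum : ∑ i, e i = n := by
    have h1 := μ.parts_sum
    rw [← hmap] at h1
    exact h1
  have hcnt : ∀ s, cnt e s = μ.parts.count s := by
    intro s
    rw [cnt_eq_count, hmap]
  have hle : ∀ i, e i ≤ n := by
    intro i
    rw [← hsum]
    exact Finset.single_le_sum (f := e) (fun _ _ => Nat.zero_le _) (Finset.mem_univ i)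
  haveI := Fintype.ofFinite (Idx e)
  have hfin : Module.finrank F (Fin n → F) = Module.finrank F (Idx e → F) := by
    rw [Module.finrank_fin_fun, Module.finrank_fintype_fun_eq_card, ← Nat.card_eq_fintype_card, card_Idx, hsum]
  let φ : (Fin n → F) ≃ₗ[F] (Idx e → F) := LinearEquiv.ofFinrankEq _ _ hfin
  let L : Module.End F (Fin n → F) := φ.symm.conj (Lop F e)
  let A : Matrix (Fin n) (Fin n) F := LinearMap.toMatrix' L
  have hφL : ∀ v, φ (L v) = Lop F e (φ v) := by
    intro v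
    show φ (φ.symm (Lop F e (φ.symm.symm v))) = _
    simp
  have hLpow : L ^ n = 0 := (IsJordan.pow_eq_zero_iff (F := F) ⟨φ, hφL⟩ n).2 hle
  have hAnil : IsNilpotent A := by
    refine ⟨n, ?_⟩
    apply Matrix.toLin'.injective
    rw [Matrix.toLin'_pow, map_zero]
    show (Matrix.toLin' (LinearMap.toMatrix' L)) ^ n = 0
    rw [Matrix.toLin'_toMatrix', hLpow]
  have hu : IsUnit (1 + A) := hAnil.isUnit_one_add
  obtain ⟨g, hg⟩ := hu
  have hgA : (g : Matrix (Fin n) (Fin n) F) - 1 = A := by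
    rw [hg, add_sub_cancel_left]
  refine ⟨g, by rw [hgA]; exact hAnil, ι, inferInstance, e, ⟨φ, ?_⟩, fun s _ => hcnt s⟩
  intro v
  have h2 : LG g = L := by
    unfold LG
    rw [hgA]
    exact Matrix.toLin'_toMatrix' _
  rw [h2]
  exact hφL v

theorem conj_of_rel {g g' : GL (Fin n) F} {μ : Nat.Partition n} (h : Rel g μ) (h' : Rel g' μ) : IsConj g g' := by
  obtain ⟨ι, _, e, ⟨φ, hφ⟩, hc⟩ := h
  obtain ⟨ι', _, e', ⟨φ', hφ'⟩, hc'⟩ := h'
  obtain ⟨Θ, hΘ⟩ := exists_intertwine e' e F (fun s hs => by rw [hc s hs, hc' s hs])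
  refine isConj_of_intertwine (φ.trans (Θ.trans φ'.symm)) ?_
  intro v
  show φ'.symm (Θ (φ (LG g v))) = LG g' (φ'.symm (Θ (φ v)))
  rw [hφ, hΘ]
  apply φ'.injective
  rw [hφ', LinearEquiv.apply_symm_apply, LinearEquiv.apply_symm_apply]

theorem eq_of_rel [Finite F] {g g' : GL (Fin n) F} {μ μ' : Nat.Partition n} (h : Rel g μ) (h' : Rel g' μ') (hc : IsConj g g') : μ = μ' := by
  obtain ⟨ι, _, e, hJ, hc1⟩ := h
  obtain ⟨ι', _, e', hJ', hc1'⟩ := h'
  have hJ2 := hJ.of_isConj hc
  have h1 : ∀ k, ∑ i, min (e i) k = ∑ i, min (e' i) k := by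
    intro k
    have h2 := hJ2.card_ker k
    rw [hJ'.card_ker k] at h2
    have h3 : 1 < Nat.card F := Finite.one_lt_card
    exact (Nat.pow_right_injective (a := Nat.card F) (by omega) h2).symm
  apply Nat.Partition.ext
  ext s
  by_cases hs : s = 0
  · subst hs
    rw [Multiset.count_eq_zero_of_notMem, Multiset.count_eq_zero_of_notMem]
    · intro h0
      exact absurd (μ'.parts_pos h0) (lt_irrefl _)
    · intro h0
      exact absurd (μ.parts_pos h0) (lt_irrefl _)
  · rw [← hc1 s (by omega), ← hc1' s (by omega)]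
    exact cnt_eq_of_sums e e' h1 s (by omega)

theorem rel_pow {g : GL (Fin n) F} {μ : Nat.Partition n} (h : Rel g μ) (k : ℕ) :
    ((g : Matrix (Fin n) (Fin n) F) - 1) ^ k = 0 ↔ ∀ a ∈ μ.parts, a ≤ k := by
  obtain ⟨ι, _, e, hJ, hc⟩ := h
  rw [← LG_pow_eq_zero, hJ.pow_eq_zero_iff]
  have hcnt : ∀ s, 1 ≤ s → (s ∈ μ.parts ↔ ∃ i, e i = s) := by
    intro s hs
    rw [← Multiset.count_pos, ← hc s hs]
    unfold cnt
    rw [Nat.card_pos_iff]
    constructor
    · rintro ⟨⟨i, hi⟩, _⟩
      exact ⟨i, hi⟩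
    · rintro ⟨i, hi⟩
      exact ⟨⟨⟨i, hi⟩⟩, inferInstance⟩
  constructor
  · intro h1 a ha
    obtain ⟨i, rfl⟩ := (hcnt a (μ.parts_pos ha)).1 ha
    exact h1 i
  · intro h1 i
    by_cases h0 : e i = 0
    · omega
    · exact h1 _ ((hcnt _ (by omega)).2 ⟨i, rfl⟩)

end Matrices

section Char

variable {F : Type u} [Field F] (p : ℕ) [Fact p.Prime] [CharP F p] {n : ℕ}

theorem sub_pow_p (A : Matrix (Fin n) (Fin n) F) (k : ℕ) : (A - 1) ^ (p ^ k) = A ^ (p ^ k) - 1 := by
  rcases isEmpty_or_nonempty (Fin n) with h | h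
  · exact Subsingleton.elim _ _
  · rw [sub_pow_char_pow_of_commute p k (Commute.one_right A), one_pow]

theorem unip_iff (g : GL (Fin n) F) : (∃ k : ℕ, orderOf g = p ^ k) ↔ IsNilpotent ((g : Matrix (Fin n) (Fin n) F) - 1) := by
  have hp := (Fact.out : p.Prime)
  constructor
  · rintro ⟨k, hk⟩
    refine ⟨p ^ k, ?_⟩
    rw [sub_pow_p p, ← Units.val_pow_eq_pow_val, ← hk, pow_orderOf_eq_one]
    simp
  · rintro ⟨m, hm⟩
    have hm' : m ≤ p ^ m := (Nat.lt_pow_self hp.one_lt).le
    have h1 : ((g : Matrix (Fin n) (Fin n) F) - 1) ^ (p ^ m) = 0 := pow_eq_zero_of_le hm' hm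
    rw [sub_pow_p p, ← Units.val_pow_eq_pow_val, sub_eq_zero] at h1
    have h2 : g ^ (p ^ m) = 1 := Units.ext h1
    obtain ⟨j, _, hj⟩ := (Nat.dvd_prime_pow hp).1 (orderOf_dvd_of_pow_eq_one h2)
    exact ⟨j, hj⟩

theorem order_iff (g : GL (Fin n) F) : orderOf g = p ↔ (((g : Matrix (Fin n) (Fin n) F) - 1) ^ p = 0 ∧ ¬ ((g : Matrix (Fin n) (Fin n) F) - 1) ^ 1 = 0) := by
  have hp := (Fact.out : p.Prime)
  have h1 : ((g : Matrix (Fin n) (Fin n) F) - 1) ^ p = 0 ↔ g ^ p = 1 := by
    have h2 := sub_pow_p p (g : Matrix (Fin n) (Fin n) F) 1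
    rw [pow_one] at h2
    rw [h2, sub_eq_zero, ← Units.val_pow_eq_pow_val]
    constructor
    · intro h3
      exact Units.ext h3
    · intro h3
      rw [h3]
      rfl
  have h3 : ((g : Matrix (Fin n) (Fin n) F) - 1) ^ 1 = 0 ↔ g = 1 := by
    rw [pow_one, sub_eq_zero]
    constructor
    · intro h4
      exact Units.ext h4
    · intro h4
      rw [h4]
      rfl
  rw [h1, h3]
  constructor
  · intro h4
    constructor
    · rw [← h4]
      exact pow_orderOf_eq_one g
    · intro h5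
      rw [h5, orderOf_one] at h4
      exact hp.one_lt.ne h4
  · rintro ⟨h4, h5⟩
    exact orderOf_eq_prime h4 h5

variable [Fintype F]

/-- The unipotent classes of `GL_n` are indexed by the partitions of `n`. -/
theorem card_unip_classes :
    Nat.card {C : ConjClasses (Matrix.GeneralLinearGroup (Fin n) F) //
      ∃ g : Matrix.GeneralLinearGroup (Fin n) F, (∃ k : ℕ, orderOf g = p ^ k) ∧ ConjClasses.mk g = C} =
      Fintype.card (Nat.Partition n) := by
  classical
  choose G hGnil hGrel using fun μ : Nat.Partition n => exists_model (F := F) μ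
  let f : Nat.Partition n → {C : ConjClasses (Matrix.GeneralLinearGroup (Fin n) F) //
      ∃ g : Matrix.GeneralLinearGroup (Fin n) F, (∃ k : ℕ, orderOf g = p ^ k) ∧ ConjClasses.mk g = C} :=
    fun μ => ⟨ConjClasses.mk (G μ), G μ, (unip_iff p _).2 (hGnil μ), rfl⟩
  have hf : Function.Bijective f := by
    constructor
    · intro μ μ' h
      have h1 : ConjClasses.mk (G μ) = ConjClasses.mk (G μ') := congrArg Subtype.val h
      exact eq_of_rel (hGrel μ) (hGrel μ') (ConjClasses.mk_eq_mk_iff_isConj.1 h1)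
    · rintro ⟨_, g, hg, rfl⟩
      obtain ⟨μ, hμ⟩ := exists_rel g ((unip_iff p g).1 hg)
      refine ⟨μ, Subtype.ext ?_⟩
      exact ConjClasses.mk_eq_mk_iff_isConj.2 (conj_of_rel (hGrel μ) hμ)
  rw [← Nat.card_congr (Equiv.ofBijective f hf), Nat.card_eq_fintype_card]

/-- The classes of elements of order `p`. -/
theorem card_order_p_classes :
    Nat.card {C : ConjClasses (GL (Fin n) F) // ∃ g : GL (Fin n) F, ConjClasses.mk g = C ∧ orderOf g = p} =
      (Finset.univ.filter (fun μ : Nat.Partition n => ∀ a ∈ μ.parts, a ≤ p)).card - 1 := by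
  classical
  have hp := (Fact.out : p.Prime)
  choose G hGnil hGrel using fun μ : Nat.Partition n => exists_model (F := F) μ
  let Y := {μ : Nat.Partition n // (∀ a ∈ μ.parts, a ≤ p) ∧ ¬ ∀ a ∈ μ.parts, a ≤ 1}
  have hord : ∀ μ : Y, orderOf (G μ.1) = p := by
    intro μ
    rw [order_iff p, rel_pow (hGrel μ.1), rel_pow (hGrel μ.1)]
    exact μ.2
  let f : Y → {C : ConjClasses (GL (Fin n) F) // ∃ g : GL (Fin n) F, ConjClasses.mk g = C ∧ orderOf g = p} :=
    fun μ => ⟨ConjClasses.mk (G μ.1), G μ.1, rfl, hord μ⟩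
  have hf : Function.Bijective f := by
    constructor
    · intro μ μ' h
      have h1 : ConjClasses.mk (G μ.1) = ConjClasses.mk (G μ'.1) := congrArg Subtype.val h
      exact Subtype.ext (eq_of_rel (hGrel μ.1) (hGrel μ'.1) (ConjClasses.mk_eq_mk_iff_isConj.1 h1))
    · rintro ⟨_, g, rfl, hg⟩
      have hg' := (order_iff p g).1 hg
      obtain ⟨μ, hμ⟩ := exists_rel g ⟨p, hg'.1⟩
      rw [rel_pow hμ, rel_pow hμ] at hg'
      refine ⟨⟨μ, hg'⟩, Subtype.ext ?_⟩
      exact ConjClasses.mk_eq_mk_iff_isConj.2 (conj_of_rel (hGrel μ) hμ)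
  rw [← Nat.card_congr (Equiv.ofBijective f hf), Nat.card_eq_fintype_card, Fintype.card_subtype]
  -- the partition into ones
  let ones : Nat.Partition n := ⟨Multiset.replicate n 1, by
      intro i hi
      rw [Multiset.eq_of_mem_replicate hi]
      exact Nat.one_pos, by simp⟩
  have hones : ∀ μ : Nat.Partition n, (∀ a ∈ μ.parts, a ≤ 1) → μ = ones := by
    intro μ h
    apply Nat.Partition.ext
    have h1 : ∀ a ∈ μ.parts, a = 1 := fun a ha => by
      have := h a ha
      have := μ.parts_pos ha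
      omega
    have h2 := Multiset.eq_replicate_card.2 h1
    have h3 : Multiset.card μ.parts = n := by
      have h4 := μ.parts_sum
      rw [h2] at h4
      simpa using h4
    rw [h2, h3]
  have hones1 : ∀ a ∈ ones.parts, a ≤ 1 := by
    intro a ha
    rw [Multiset.eq_of_mem_replicate ha]
  have hA : Finset.univ.filter (fun μ : Nat.Partition n => ∀ a ∈ μ.parts, a ≤ p) =
      insert ones (Finset.univ.filter (fun μ : Nat.Partition n => (∀ a ∈ μ.parts, a ≤ p) ∧ ¬ ∀ a ∈ μ.parts, a ≤ 1)) := by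
    ext μ
    simp only [Finset.mem_filter, Finset.mem_univ, true_and, Finset.mem_insert]
    constructor
    · intro h
      by_cases h1 : ∀ a ∈ μ.parts, a ≤ 1
      · exact Or.inl (hones μ h1)
      · exact Or.inr ⟨h, h1⟩
    · rintro (rfl | h)
      · intro a ha
        have := hones1 a ha
        have := hp.two_le
        omega
      · exact h.1
  have hn : ones ∉ Finset.univ.filter (fun μ : Nat.Partition n => (∀ a ∈ μ.parts, a ≤ p) ∧ ¬ ∀ a ∈ μ.parts, a ≤ 1) := by
    simp only [Finset.mem_filter, Finset.mem_univ, true_and, not_and, not_not]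
    intro _
    exact hones1
  rw [hA, Finset.card_insert_of_notMem hn]
  simp

end Char

end Cfsg.Agent.Lib.JordanNil
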