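import Cfsg.Agent.Lib.JordanForm
import Cfsg.Prelude.Def_Classical
import Mathlib

/-!
Jordan types of unipotent isometries of quadratic forms.
-/

set_option linter.all false

open scoped MatrixGroups Matrix
open Matrix

noncomputable section

namespace Cfsg.Agent.Lib.JordanQuad

open Cfsg.Agent.Lib.JordanNil Cfsg.Agent.Lib.JordanForm

universe u

section general

variable {F : Type u} [Field F]

/-- The quadratic function of a matrix. -/
def qv {ι : Type*} [Fintype ι] (M : Matrix ι ι F) (v : ι → F) : F := v ⬝ᵥ M.mulVec v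

theorem dot_sum {ι₁ ι₂ : Type*} [Fintype ι₁] [Fintype ι₂] (v : ι₁ ⊕ ι₂ → F) (a : ι₁ → F) (b : ι₂ → F) :
    v ⬝ᵥ Sum.elim a b = (v ∘ Sum.inl) ⬝ᵥ a + (v ∘ Sum.inr) ⬝ᵥ b := by
  simp [dotProduct, Fintype.sum_sum_type]

theorem qv_fromBlocks {ι₁ ι₂ : Type*} [Fintype ι₁] [Fintype ι₂] (M₁ : Matrix ι₁ ι₁ F) (M₂ : Matrix ι₂ ι₂ F)
    (v : ι₁ ⊕ ι₂ → F) : qv (fromBlocks M₁ 0 0 M₂) v = qv M₁ (v ∘ Sum.inl) + qv M₂ (v ∘ Sum.inr) := by
  unfold qv
  rw [Matrix.fromBlocks_mulVec, dot_sum]
  simp

theorem dot_transpose {ι : Type*} [Fintype ι] (M : Matrix ι ι F) (x y : ι → F) :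
    y ⬝ᵥ M.mulVec x = x ⬝ᵥ Mᵀ.mulVec y := by
  rw [Matrix.mulVec_transpose, dotProduct_comm x, Matrix.dotProduct_mulVec]

theorem qv_add {ι : Type*} [Fintype ι] (M : Matrix ι ι F) (x y : ι → F) :
    qv M (x + y) = qv M x + x ⬝ᵥ M.mulVec y + y ⬝ᵥ M.mulVec x + qv M y := by
  unfold qv
  rw [Matrix.mulVec_add, add_dotProduct, dotProduct_add, dotProduct_add]
  ring

theorem qv_sub {ι : Type*} [Fintype ι] (M : Matrix ι ι F) (x y : ι → F) :
    qv M (x - y) = qv M x - x ⬝ᵥ M.mulVec y - y ⬝ᵥ M.mulVec x + qv M y := by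
  unfold qv
  rw [Matrix.mulVec_sub, sub_dotProduct, dotProduct_sub, dotProduct_sub]
  ring

/-- Isometries with a given Jordan type. -/
def GoodQ (F : Type u) [Field F] (μ : Multiset ℕ) : Prop :=
  ∃ (ι : Type) (_ : Fintype ι) (_ : DecidableEq ι) (M U : Matrix ι ι F) (κ : Type u) (_ : Fintype κ) (e : κ → ℕ),
    IsUnit (M + Mᵀ).det ∧ IsUnit U.det ∧ (∀ v, qv M (U.mulVec v) = qv M v) ∧
      IsJordan F (Matrix.toLin' (U - 1)) e ∧ ∑ i, e i = μ.sum ∧ ∀ s, 1 ≤ s → cnt e s = μ.count s

theorem GoodQ.add {μ₁ μ₂ : Multiset ℕ} (h₁ : GoodQ F μ₁) (h₂ : GoodQ F μ₂) : GoodQ F (μ₁ + μ₂) := by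
  obtain ⟨ι₁, _, _, M₁, U₁, κ₁, _, e₁, hM₁, hU₁, hI₁, hJ₁, hs₁, hc₁⟩ := h₁
  obtain ⟨ι₂, _, _, M₂, U₂, κ₂, _, e₂, hM₂, hU₂, hI₂, hJ₂, hs₂, hc₂⟩ := h₂
  refine ⟨ι₁ ⊕ ι₂, inferInstance, inferInstance, fromBlocks M₁ 0 0 M₂, fromBlocks U₁ 0 0 U₂, κ₁ ⊕ κ₂, inferInstance,
    Sum.elim e₁ e₂, ?_, ?_, ?_, ?_, ?_, ?_⟩
  · have h3 : fromBlocks M₁ 0 0 M₂ + (fromBlocks M₁ 0 0 M₂)ᵀ = fromBlocks (M₁ + M₁ᵀ) 0 0 (M₂ + M₂ᵀ) := by
      rw [Matrix.fromBlocks_transpose, Matrix.fromBlocks_add]
      simp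
    rw [h3, Matrix.det_fromBlocks_zero₂₁]
    exact hM₁.mul hM₂
  · rw [Matrix.det_fromBlocks_zero₂₁]
    exact hU₁.mul hU₂
  · intro v
    rw [qv_fromBlocks, qv_fromBlocks]
    have h1 : (fromBlocks U₁ 0 0 U₂).mulVec v ∘ Sum.inl = U₁.mulVec (v ∘ Sum.inl) := by
      funext i
      rw [Matrix.fromBlocks_mulVec]
      simp
    have h2 : (fromBlocks U₁ 0 0 U₂).mulVec v ∘ Sum.inr = U₂.mulVec (v ∘ Sum.inr) := by
      funext i
      rw [Matrix.fromBlocks_mulVec]
      simp
    rw [h1, h2, hI₁, hI₂]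
  · rw [fromBlocks_sub_one]
    exact isJordan_sum hJ₁ hJ₂
  · rw [Fintype.sum_sum_type, Multiset.sum_add]
    simp only [Sum.elim_inl, Sum.elim_inr]
    rw [hs₁, hs₂]
  · intro s hs
    rw [cnt_sum, hc₁ s hs, hc₂ s hs, Multiset.count_add]

theorem goodQ_zero : GoodQ F (0 : Multiset ℕ) := by
  have h0 : (1 : Matrix Empty Empty F) - 1 = 0 := sub_self _
  have hnil : IsNilpotent (Matrix.toLin' ((1 : Matrix Empty Empty F) - 1)) := by
    rw [h0, map_zero]
    exact IsNilpotent.zero
  obtain ⟨κ, hκ, e, hJ⟩ := exists_isJordan _ hnil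
  have hsum : ∑ i, e i = 0 := by
    rw [hJ.sum_eq_finrank]
    simp
  refine ⟨Empty, inferInstance, inferInstance, 0, 1, κ, hκ, e, ?_, ?_, ?_, hJ, hsum, ?_⟩
  · simp
  · simp
  · intro v
    simp
  intro s hs
  have h1 : ∀ i, e i = 0 := fun i => (Finset.sum_eq_zero_iff.1 hsum) i (Finset.mem_univ i)
  unfold cnt
  haveI : IsEmpty {i // e i = s} := ⟨by
    rintro ⟨a, ha⟩
    have := h1 a
    omega⟩
  rw [Nat.card_of_isEmpty]
  simp

open SpRegUnip (Ix card_Ix)

theorem qv_hyp {ι : Type*} [Fintype ι] [DecidableEq ι] (C D : Matrix ι ι F) (v : ι ⊕ ι → F) :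
    qv (fromBlocks C 1 0 D) v = qv C (v ∘ Sum.inl) + (v ∘ Sum.inl) ⬝ᵥ (v ∘ Sum.inr) + qv D (v ∘ Sum.inr) := by
  unfold qv
  rw [Matrix.fromBlocks_mulVec, dot_sum]
  simp [dotProduct_add]

theorem det_swap {ι : Type*} [Fintype ι] [DecidableEq ι] :
    IsUnit (fromBlocks (0 : Matrix ι ι F) (1 : Matrix ι ι F) (1 : Matrix ι ι F) 0).det := by
  apply Matrix.isUnit_det_of_right_inverse (B := fromBlocks (0 : Matrix ι ι F) (1 : Matrix ι ι F) (1 : Matrix ι ι F) 0)
  rw [Matrix.fromBlocks_multiply]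
  simp

/-- The hyperbolic pair of blocks. -/
theorem goodQ_pair (j : ℕ) (hj : 1 ≤ j) : GoodQ F ({j} + {j}) := by
  obtain ⟨κ, hκ, e, hJ, hs, hc⟩ := PP_good (F := F) j hj
  refine ⟨Ix j, inferInstance, inferInstance, fromBlocks (0 : Matrix (Fin j) (Fin j) F) (1 : Matrix (Fin j) (Fin j) F) 0 0, PP F j, κ, hκ, e, ?_, ?_, ?_, hJ, ?_, ?_⟩
  · have h3 : fromBlocks (0 : Matrix (Fin j) (Fin j) F) (1 : Matrix (Fin j) (Fin j) F) 0 0 + (fromBlocks (0 : Matrix (Fin j) (Fin j) F) (1 : Matrix (Fin j) (Fin j) F) 0 0)ᵀ =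
        fromBlocks (0 : Matrix (Fin j) (Fin j) F) (1 : Matrix (Fin j) (Fin j) F) (1 : Matrix (Fin j) (Fin j) F) 0 := by
      rw [Matrix.fromBlocks_transpose, Matrix.fromBlocks_add]
      simp
    rw [h3]
    exact det_swap
  · exact SymplecticGroup.symplectic_det (PP_mem j)
  · intro v
    rw [qv_hyp, qv_hyp]
    have hB : IsUnit (1 + RegUnip.N0 F j).det := by
      rw [RegUnip.det_u0]
      exact isUnit_one
    have h1 : ((PP F j).mulVec v) ∘ Sum.inl = (1 + RegUnip.N0 F j).mulVec (v ∘ Sum.inl) := by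
      funext i
      unfold PP
      rw [Matrix.fromBlocks_mulVec]
      simp
    have h2 : ((PP F j).mulVec v) ∘ Sum.inr = (((1 + RegUnip.N0 F j)⁻¹)ᵀ).mulVec (v ∘ Sum.inr) := by
      funext i
      unfold PP
      rw [Matrix.fromBlocks_mulVec]
      simp
    have h3 : (1 + RegUnip.N0 F j)ᵀ * ((1 + RegUnip.N0 F j)⁻¹)ᵀ = 1 := by
      rw [← Matrix.transpose_mul, Matrix.nonsing_inv_mul _ hB, Matrix.transpose_one]
    rw [h1, h2]
    have h4 : ((1 + RegUnip.N0 F j).mulVec (v ∘ Sum.inl)) ⬝ᵥ (((1 + RegUnip.N0 F j)⁻¹)ᵀ).mulVec (v ∘ Sum.inr)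
        = (v ∘ Sum.inl) ⬝ᵥ (v ∘ Sum.inr) := by
      rw [← Matrix.vecMul_transpose, ← Matrix.dotProduct_mulVec, Matrix.mulVec_mulVec, h3, Matrix.one_mulVec]
    rw [h4]
    simp [qv]
  · rw [hs]
    simp
  · intro s h
    rw [hc s h, Multiset.count_add, Multiset.count_singleton]

/-- Induction over multisets of block sizes. -/
theorem goodQ_induct (bad : ℕ → Prop) (hsingle : ∀ x, 1 ≤ x → ¬ bad x → GoodQ F {x}) :
    ∀ (n : ℕ) (μ : Multiset ℕ), Multiset.card μ = n → (∀ x ∈ μ, 1 ≤ x) →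
    (∀ j, bad j → Even (μ.count j)) → GoodQ F μ := by
  intro n
  induction n using Nat.strong_induction_on with
  | _ n ih =>
    intro μ hn hpos hpar
    by_cases hμ : μ = 0
    · rw [hμ]
      exact goodQ_zero
    obtain ⟨x, hx⟩ := Multiset.exists_mem_of_ne_zero hμ
    obtain ⟨μ', rfl⟩ := Multiset.exists_cons_of_mem hx
    have hx1 := hpos x (Multiset.mem_cons_self x μ')
    by_cases hxb : bad x
    · have hc := hpar x hxb
      rw [Multiset.count_cons_self] at hc
      have hpos' : 0 < μ'.count x := by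
        by_contra h0
        have h00 : μ'.count x = 0 := by omega
        rw [h00] at hc
        simp at hc
      obtain ⟨μ'', rfl⟩ := Multiset.exists_cons_of_mem (Multiset.count_pos.1 hpos')
      have hcard : Multiset.card μ'' + 2 = n := by
        rw [← hn, Multiset.card_cons, Multiset.card_cons]
      have h1 : GoodQ F μ'' := by
        apply ih (Multiset.card μ'') (by omega) μ'' rfl
        · intro y hy
          exact hpos y (Multiset.mem_cons_of_mem (Multiset.mem_cons_of_mem hy))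
        · intro j hj
          have := hpar j hj
          by_cases hjx : j = x
          · subst hjx
            rw [Multiset.count_cons_self, Multiset.count_cons_self] at this
            have h5 : μ''.count j + 1 + 1 = μ''.count j + 2 := rfl
            rw [h5] at this
            exact (Nat.even_add.1 this).2 (by decide)
          · rw [Multiset.count_cons_of_ne hjx, Multiset.count_cons_of_ne hjx] at this
            exact this
      have h2 := (goodQ_pair (F := F) x hx1).add h1
      have h3 : ({x} : Multiset ℕ) + {x} + μ'' = x ::ₘ x ::ₘ μ'' := by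
        rw [Multiset.singleton_add, Multiset.cons_add, Multiset.singleton_add]
      rwa [h3] at h2
    · have h1 : GoodQ F μ' := by
        apply ih (Multiset.card μ') (by rw [← hn, Multiset.card_cons]; omega) μ' rfl
        · intro y hy
          exact hpos y (Multiset.mem_cons_of_mem hy)
        · intro j hj
          have := hpar j hj
          rw [Multiset.count_cons_of_ne] at this
          · exact this
          · rintro rfl
            exact hxb hj
      have := (hsingle x hx1 hxb).add h1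
      rwa [Multiset.singleton_add] at this

end general

section final

variable {F : Type u} [Field F] [Fintype F]

/-- From the combinatorial data to the statement about forms. -/
theorem exists_form {n t : ℕ} (d : Fin t → ℕ) (hsum : ∑ k, d k = n) (h : GoodQ F (Finset.univ.val.map d)) :
    ∃ Q : QuadraticForm F (Fin n → F), (QuadraticMap.polarBilin Q).Nondegenerate ∧
      ∃ e : ((k : Fin t) × Fin (d k)) ≃ Fin n, ∃ A : ↥(Cfsg.isometryGroup F ⇑Q),
        IsConj (Matrix.reindex e e (Cfsg.jordanTypeMatrix d F))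
          ((A : Matrix.GeneralLinearGroup (Fin n) F) : Matrix (Fin n) (Fin n) F) := by
  obtain ⟨ι, _, _, M, U, κ, _, e, hM, hU, hI, hJ, hs, hc⟩ := h
  have hcount : ∀ j, (Finset.univ.val.map d).count j = cnt d j := fun j => (cnt_eq_count d j).symm
  have hcard : Fintype.card ι = n := by
    have h1 := hJ.sum_eq_finrank
    rw [hs] at h1
    have h2 : (Finset.univ.val.map d).sum = n := by
      rw [← hsum]
      rfl
    rw [h2] at h1
    have h3 : Module.finrank F (ι → F) = Fintype.card ι := by simp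
    rw [h3] at h1
    exact h1.symm
  let τ : ι ≃ Fin n := Fintype.equivFinOfCardEq hcard
  let M' : Matrix (Fin n) (Fin n) F := M.submatrix τ.symm τ.symm
  let U' : Matrix (Fin n) (Fin n) F := U.submatrix τ.symm τ.symm
  let Q : QuadraticForm F (Fin n → F) := LinearMap.BilinMap.toQuadraticMap (Matrix.toBilin' M')
  have hQ : ∀ v, Q v = v ⬝ᵥ M'.mulVec v := fun v => Matrix.toBilin'_apply' M' v v
  have hpol : ∀ x y, QuadraticMap.polarBilin Q x y = x ⬝ᵥ (M' + M'ᵀ).mulVec y := by
    intro x y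
    show Q (x + y) - Q x - Q y = _
    rw [hQ, hQ, hQ, Matrix.add_mulVec, dotProduct_add, ← dot_transpose, Matrix.mulVec_add, add_dotProduct,
      dotProduct_add, dotProduct_add]
    ring
  have hMsub : M' + M'ᵀ = (M + Mᵀ).submatrix τ.symm τ.symm := by
    ext i j
    simp [M']
  have hdet' : IsUnit (M' + M'ᵀ) := by
    rw [hMsub, Matrix.isUnit_iff_isUnit_det, Matrix.det_submatrix_equiv_self]
    exact hM
  have hinj : Function.Injective (M' + M'ᵀ).mulVec := Matrix.mulVec_injective_iff_isUnit.2 hdet'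
  have hpolT : ∀ x y, QuadraticMap.polarBilin Q x y = QuadraticMap.polarBilin Q y x := fun x y =>
    QuadraticMap.polar_comm Q x y
  have hsep : ∀ y, (∀ x, QuadraticMap.polarBilin Q x y = 0) → y = 0 := by
    intro y hy
    apply hinj
    rw [Matrix.mulVec_zero]
    funext i
    have := hy (Pi.single i 1)
    rw [hpol] at this
    simpa using this
  have hU' : IsUnit U'.det := by
    show IsUnit (U.submatrix τ.symm τ.symm).det
    rw [Matrix.det_submatrix_equiv_self]
    exact hU
  have hI' : ∀ v, Q (U'.mulVec v) = Q v := by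
    intro v
    have h1 : ∀ w : Fin n → F, w ⬝ᵥ M'.mulVec w = qv M (w ∘ τ) := by
      intro w
      unfold qv
      show w ⬝ᵥ (M.submatrix τ.symm τ.symm).mulVec w = _
      rw [Matrix.submatrix_mulVec_equiv]
      simp only [dotProduct]
      rw [← Equiv.sum_comp τ]
      simp
    have h2 : U'.mulVec v ∘ τ = U.mulVec (v ∘ τ) := by
      show (U.submatrix τ.symm τ.symm).mulVec v ∘ τ = _
      rw [Matrix.submatrix_mulVec_equiv]
      funext i
      simp
    rw [hQ, hQ, h1, h1, h2, hI]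
  refine ⟨Q, ⟨fun x hx => hsep x (fun y => by rw [hpolT]; exact hx y), hsep⟩, ?_⟩
  have hcardS : Fintype.card ((k : Fin t) × Fin (d k)) = Fintype.card (Fin n) := by
    rw [Fintype.card_fin, Fintype.card_sigma, ← hsum]
    simp
  let E : ((k : Fin t) × Fin (d k)) ≃ Fin n := Fintype.equivOfCardEq hcardS
  refine ⟨E, ⟨Matrix.nonsingInvUnit U' hU', ?_⟩, ?_⟩
  · intro u v
    exact hI' u
  have hreidx : IsJordan F (Matrix.toLin' (Matrix.reindex E E (Cfsg.jordanTypeMatrix d F) - 1)) d := by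
    have h3 : Matrix.reindex E E (Cfsg.jordanTypeMatrix d F) - 1 =
        (Cfsg.jordanTypeMatrix d F - 1).submatrix E.symm E.symm := by
      rw [Matrix.reindex_apply, submatrix_sub_one _ E.symm]
    rw [h3]
    exact isJordan_reindex E (isJordan_type d)
  have hJ' : IsJordan F (Matrix.toLin' (U' - 1)) e := by
    have h3 : U' - 1 = (U - 1).submatrix τ.symm τ.symm := by
      rw [submatrix_sub_one _ τ.symm]
    rw [h3]
    exact isJordan_reindex τ hJ
  apply isConj_of_isJordan hreidx hJ'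
  intro s hs1
  rw [hc s hs1, hcount]

/-- The polar form as a matrix. -/
theorem exists_polar_matrix {ι : Type} [Fintype ι] [DecidableEq ι] (Q : QuadraticForm F (ι → F)) :
    ∃ G : Matrix ι ι F, ∀ x y, x ⬝ᵥ G.mulVec y = QuadraticMap.polarBilin Q x y := by
  refine ⟨LinearMap.BilinForm.toMatrix' (QuadraticMap.polarBilin Q), fun x y => ?_⟩
  rw [← Matrix.toBilin'_apply', Matrix.toBilin'_toMatrix']

/-- Basic properties of the polar matrix. -/
theorem polar_props {ι : Type} [Fintype ι] [DecidableEq ι] {Q : QuadraticForm F (ι → F)}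
    (hQ : (QuadraticMap.polarBilin Q).Nondegenerate) {G : Matrix ι ι F}
    (hG : ∀ x y, x ⬝ᵥ G.mulVec y = QuadraticMap.polarBilin Q x y) (A : Matrix ι ι F) (hA : ∀ v, Q (A.mulVec v) = Q v) :
    IsUnit G.det ∧ Gᵀ = G ∧ Aᵀ * G * A = G := by
  have hext : ∀ X Y : Matrix ι ι F, (∀ x y, x ⬝ᵥ X.mulVec y = x ⬝ᵥ Y.mulVec y) → X = Y := by
    intro X Y h
    ext i j
    have := h (Pi.single i 1) (Pi.single j 1)
    simpa using this
  refine ⟨?_, ?_, ?_⟩
  · rw [← Matrix.isUnit_iff_isUnit_det, ← Matrix.mulVec_injective_iff_isUnit]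
    intro y z h
    apply sub_eq_zero.1
    apply hQ.2
    intro x
    rw [← hG, Matrix.mulVec_sub, h, sub_self, dotProduct_zero]
  · apply hext
    intro x y
    rw [← dot_transpose, hG, hG]
    exact QuadraticMap.polar_comm Q y x
  · apply hext
    intro x y
    rw [← Matrix.mulVec_mulVec, ← Matrix.mulVec_mulVec, Matrix.dotProduct_mulVec x Aᵀ, Matrix.vecMul_transpose, hG, hG]
    show QuadraticMap.polar (⇑Q) _ _ = QuadraticMap.polar (⇑Q) _ _
    unfold QuadraticMap.polar
    rw [← Matrix.mulVec_add, hA, hA, hA]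

theorem cnt_even' {κ : Type*} [Fintype κ] (e : κ → ℕ) (s : ℕ) (hs : 1 ≤ s)
    (h : Even ((∑ i, min (e i) (s - 1)) + (∑ i, min (e i) (s + 1)))) : Even (cnt e s) := by
  have h3 := cnt_formula e s hs
  obtain ⟨a, ha⟩ := h
  generalize (∑ i, min (e i) s) = S at h3
  generalize (∑ i, min (e i) (s - 1)) = S1 at h3 ha
  generalize (∑ i, min (e i) (s + 1)) = S2 at h3 ha
  refine ⟨S - a, ?_⟩
  omega

/-- The reindexed model has the expected Jordan type. -/
theorem reindex_jordan {n t : ℕ} (d : Fin t → ℕ) (E : ((k : Fin t) × Fin (d k)) ≃ Fin n) :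
    IsJordan F (Matrix.toLin' (Matrix.reindex E E (Cfsg.jordanTypeMatrix d F) - 1)) d := by
  have h3 : Matrix.reindex E E (Cfsg.jordanTypeMatrix d F) - 1 =
      (Cfsg.jordanTypeMatrix d F - 1).submatrix E.symm E.symm := by
    rw [Matrix.reindex_apply, submatrix_sub_one _ E.symm]
  rw [h3]
  exact isJordan_reindex E (isJordan_type d)

end final

section char2

variable {F : Type u} [Field F] [CharP F 2]

open SpRegUnip (Ix card_Ix)

theorem sum_inv_char2 {α : Type*} [Fintype α] [DecidableEq α] (σ : α → α) (hσ : ∀ a, σ (σ a) = a) (f : α → F)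
    (hf : ∀ a, f (σ a) = f a) : ∑ a, f a = ∑ a, if σ a = a then f a else 0 := by
  rw [← Finset.sum_filter, ← Finset.sum_filter_add_sum_filter_not Finset.univ (fun a => σ a = a) f]
  have h0 : ∑ a ∈ Finset.univ.filter (fun a => ¬ σ a = a), f a = 0 := by
    apply Finset.sum_involution (fun a _ => σ a)
    · intro a _
      rw [hf]
      exact CharTwo.add_self_eq_zero _
    · intro a ha _ h
      exact (Finset.mem_filter.1 ha).2 h
    · intro a ha
      simp only [Finset.mem_filter, Finset.mem_univ, true_and]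
      rw [hσ]
      intro h
      exact (Finset.mem_filter.1 ha).2 h.symm
    · intro a _
      exact hσ a
  rw [h0, add_zero]

theorem add_self_sq (u w : F) : (u + w) * (u + w) = u * u + w * w := by
  have h2 : (2 : F) = 0 := CharTwo.two_eq_zero
  linear_combination (u * w) * h2

/-- Coefficients of the squares. -/
def cc (F : Type u) [Field F] (a : ℕ) : Fin a → F := fun i => if 2 * (i : ℕ) = a then 1 else 0

/-- Coefficients of the squares. -/
def dd' (F : Type u) [Field F] (a : ℕ) : Fin a → F := fun j => if 2 * (j : ℕ) + 1 = a then 1 else 0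

/-- The quadratic form invariant under the regular unipotent element. -/
def MM (F : Type u) [Field F] (a : ℕ) : Matrix (Ix a) (Ix a) F :=
  fromBlocks (diagonal (cc F a)) (1 : Matrix (Fin a) (Fin a) F) 0 (diagonal (dd' F a))

/-- The value of the form. -/
def QQ {a : ℕ} (x y : Fin a → F) : F :=
  ∑ i, cc F a i * (x i * x i) + x ⬝ᵥ y + ∑ j, dd' F a j * (y j * y j)

omit [CharP F 2] in
theorem qv_diag {ι : Type*} [Fintype ι] [DecidableEq ι] (c x : ι → F) :
    qv (diagonal c) x = ∑ i, c i * (x i * x i) := by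
  unfold qv
  simp only [dotProduct, Matrix.mulVec_diagonal]
  apply Finset.sum_congr rfl
  intro i _
  ring

theorem qv_MM {a : ℕ} (v : Ix a → F) : qv (MM F a) v = QQ (v ∘ Sum.inl) (v ∘ Sum.inr) := by
  unfold MM QQ
  rw [qv_hyp, qv_diag, qv_diag]

theorem R_dot {a : ℕ} (x : Fin a → F) : x ⬝ᵥ (RR F a).mulVec x = ∑ i, dd' F a i * (x i * x i) := by
  have hR : ∀ k : Fin a, (RR F a).mulVec x k = x (Fin.rev k) := by
    intro k
    apply RR_mulVec
    rw [Fin.val_rev]
    have := k.2
    omega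
  simp only [dotProduct, hR]
  rw [sum_inv_char2 Fin.rev Fin.rev_rev (fun k => x k * x (Fin.rev k))]
  · apply Finset.sum_congr rfl
    intro k _
    unfold dd'
    by_cases hk : 2 * (k : ℕ) + 1 = a
    · have h1 : Fin.rev k = k := by
        apply Fin.ext
        rw [Fin.val_rev]
        omega
      rw [if_pos h1, if_pos hk, h1, one_mul]
    · have h1 : Fin.rev k ≠ k := by
        intro h
        have h2 := congrArg Fin.val h
        rw [Fin.val_rev] at h2
        have := k.2
        omega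
      rw [if_neg h1, if_neg hk, zero_mul]
  · intro k
    simp only [Fin.rev_rev]
    ring

theorem B_dot {a : ℕ} (y : Fin a → F) : (BB F a).mulVec y ⬝ᵥ y = ∑ i, cc F a i * (y i * y i) := by
  let σ : Fin a → Fin a := fun k => if h : (k : ℕ) = 0 then k else ⟨a - k, by have := k.2; omega⟩
  have hσ0 : ∀ k : Fin a, (k : ℕ) = 0 → σ k = k := fun k h => dif_pos h
  have hσ1 : ∀ k : Fin a, (k : ℕ) ≠ 0 → ((σ k : Fin a) : ℕ) = a - k := by
    intro k h
    show ((if h : (k : ℕ) = 0 then k else ⟨a - k, _⟩ : Fin a) : ℕ) = _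
    rw [dif_neg h]
  have hσσ : ∀ k, σ (σ k) = k := by
    intro k
    by_cases h : (k : ℕ) = 0
    · rw [hσ0 k h, hσ0 k h]
    · have h1 := hσ1 k h
      have h2 : ((σ k : Fin a) : ℕ) ≠ 0 := by
        rw [h1]
        have := k.2
        omega
      apply Fin.ext
      rw [hσ1 _ h2, h1]
      have := k.2
      omega
  have hB : ∀ k : Fin a, (k : ℕ) ≠ 0 → (BB F a).mulVec y k = y (σ k) := by
    intro k h
    apply BB_mulVec
    rw [hσ1 k h]
    have := k.2
    omega
  simp only [dotProduct]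
  rw [sum_inv_char2 σ hσσ (fun k => (BB F a).mulVec y k * y k)]
  · apply Finset.sum_congr rfl
    intro k _
    unfold cc
    by_cases h : (k : ℕ) = 0
    · have h1 : 2 * (k : ℕ) ≠ a := by
        have := k.2
        omega
      rw [if_pos (hσ0 k h), BB_mulVec_zero a y k h, if_neg h1]
      ring
    · by_cases hk : 2 * (k : ℕ) = a
      · have h1 : σ k = k := by
          apply Fin.ext
          rw [hσ1 k h]
          omega
        rw [if_pos h1, if_pos hk, hB k h, h1, one_mul]
      · have h1 : σ k ≠ k := by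
          intro h2
          have h3 := congrArg Fin.val h2
          rw [hσ1 k h] at h3
          have := k.2
          omega
        rw [if_neg h1, if_neg hk, zero_mul]
  · intro k
    show (BB F a).mulVec y (σ k) * y (σ k) = (BB F a).mulVec y k * y k
    by_cases h : (k : ℕ) = 0
    · rw [hσ0 k h]
    · have h2 : ((σ k : Fin a) : ℕ) ≠ 0 := by
        rw [hσ1 k h]
        have := k.2
        omega
      rw [hB k h, hB _ h2, hσσ]
      ring

theorem QQ_low {a : ℕ} (x y : Fin a → F) : QQ x ((RR F a).mulVec x + y) = QQ x y := by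
  unfold QQ
  have h1 : ∑ j, dd' F a j * (((RR F a).mulVec x + y) j * ((RR F a).mulVec x + y) j) =
      ∑ j, dd' F a j * (x j * x j) + ∑ j, dd' F a j * (y j * y j) := by
    rw [← Finset.sum_add_distrib]
    apply Finset.sum_congr rfl
    intro j _
    rw [Pi.add_apply, add_self_sq, mul_add]
    congr 1
    unfold dd'
    by_cases hj : 2 * (j : ℕ) + 1 = a
    · rw [if_pos hj, RR_mulVec a x j j (by omega)]
    · rw [if_neg hj, zero_mul, zero_mul]
  rw [h1, dotProduct_add, R_dot]
  have h2 : ∑ j, dd' F a j * (x j * x j) + ∑ j, dd' F a j * (x j * x j) = 0 := CharTwo.add_self_eq_zero _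
  linear_combination h2

theorem QQ_up {a : ℕ} (x y : Fin a → F) : QQ (x + (BB F a).mulVec y) y = QQ x y := by
  unfold QQ
  have h1 : ∑ j, cc F a j * ((x + (BB F a).mulVec y) j * (x + (BB F a).mulVec y) j) =
      ∑ j, cc F a j * (x j * x j) + ∑ j, cc F a j * (y j * y j) := by
    rw [← Finset.sum_add_distrib]
    apply Finset.sum_congr rfl
    intro j _
    rw [Pi.add_apply, add_self_sq, mul_add]
    congr 1
    unfold cc
    by_cases hj : 2 * (j : ℕ) = a
    · rw [if_pos hj, BB_mulVec a y j j (by omega)]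
    · rw [if_neg hj, zero_mul, zero_mul]
  rw [h1, add_dotProduct, B_dot]
  have h2 : ∑ j, cc F a j * (y j * y j) + ∑ j, cc F a j * (y j * y j) = 0 := CharTwo.add_self_eq_zero _
  linear_combination h2

theorem MM_inv {a : ℕ} (v : Ix a → F) : qv (MM F a) ((TT F a).mulVec v) = qv (MM F a) v := by
  rw [qv_MM, qv_MM]
  unfold TT
  rw [← Matrix.mulVec_mulVec]
  have hU1 : (Up (BB F a)).mulVec v ∘ Sum.inl = (v ∘ Sum.inl) + (BB F a).mulVec (v ∘ Sum.inr) := by
    funext i
    unfold Up
    rw [Matrix.fromBlocks_mulVec]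
    simp
  have hU2 : (Up (BB F a)).mulVec v ∘ Sum.inr = (v ∘ Sum.inr) := by
    funext i
    unfold Up
    rw [Matrix.fromBlocks_mulVec]
    simp
  have hL1 : ∀ w : Ix a → F, (Low (RR F a)).mulVec w ∘ Sum.inl = w ∘ Sum.inl := by
    intro w
    funext i
    unfold Low
    rw [Matrix.fromBlocks_mulVec]
    simp
  have hL2 : ∀ w : Ix a → F, (Low (RR F a)).mulVec w ∘ Sum.inr = (RR F a).mulVec (w ∘ Sum.inl) + w ∘ Sum.inr := by
    intro w
    funext i
    unfold Low
    rw [Matrix.fromBlocks_mulVec]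
    simp
  rw [hL1, hL2, QQ_low, hU1, hU2, QQ_up]

theorem goodQ_even (a : ℕ) (ha : 1 ≤ a) : GoodQ F {2 * a} := by
  obtain ⟨κ, hκ, e, hJ, hs, hc⟩ := exists_single (F := F) (card_Ix a) (by omega) (TT_pow a) (TT_rank a ha)
  refine ⟨Ix a, inferInstance, inferInstance, MM F a, TT F a, κ, hκ, e, ?_, ?_, MM_inv, hJ, ?_, ?_⟩
  · have h1 : ∀ c : Fin a → F, diagonal c + (diagonal c)ᵀ = 0 := by
      intro c
      rw [Matrix.diagonal_transpose, Matrix.diagonal_add]
      have : (fun i => c i + c i) = fun _ => 0 := by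
        funext i
        exact CharTwo.add_self_eq_zero _
      rw [this, Matrix.diagonal_zero]
    have h3 : MM F a + (MM F a)ᵀ = fromBlocks (0 : Matrix (Fin a) (Fin a) F) (1 : Matrix (Fin a) (Fin a) F) (1 : Matrix (Fin a) (Fin a) F) 0 := by
      unfold MM
      rw [Matrix.fromBlocks_transpose, Matrix.fromBlocks_add, h1, h1]
      simp
    rw [h3]
    exact det_swap
  · exact SymplecticGroup.symplectic_det (TT_mem a)
  · rw [hs]
    simp
  · intro s h
    rw [hc s h, Multiset.count_singleton]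

end char2

section main2

variable {F : Type u} [Field F] [Fintype F] [CharP F 2]

/-- Jordan types of unipotent isometries in characteristic two. -/
theorem orth2_types {m t : ℕ} (d : Fin t → ℕ) (hd : ∀ k, 1 ≤ d k) (hsum : ∑ k, d k = 2 * m) :
    (∃ Q : QuadraticForm F (Fin (2 * m) → F), (QuadraticMap.polarBilin Q).Nondegenerate ∧
      ∃ e : ((k : Fin t) × Fin (d k)) ≃ Fin (2 * m), ∃ A : ↥(Cfsg.isometryGroup F ⇑Q),
        IsConj (Matrix.reindex e e (Cfsg.jordanTypeMatrix d F))
          ((A : Matrix.GeneralLinearGroup (Fin (2 * m)) F) : Matrix (Fin (2 * m)) (Fin (2 * m)) F)) ↔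
      ∀ j : ℕ, Odd j → Even (Finset.univ.filter (fun k : Fin t => d k = j)).card := by
  constructor
  · rintro ⟨Q, hQ, E, A, hconj⟩ j hj
    have hJ := isJordan_of_isConj hconj (reindex_jordan d E)
    rw [card_filter_eq]
    obtain ⟨k, rfl⟩ := hj
    obtain ⟨G, hG⟩ := exists_polar_matrix Q
    set AM : Matrix (Fin (2 * m)) (Fin (2 * m)) F := ((A : Matrix.GeneralLinearGroup (Fin (2 * m)) F) : Matrix (Fin (2 * m)) (Fin (2 * m)) F) with hAM
    have hA : ∀ v, Q (AM.mulVec v) = Q v := fun v => A.2 v v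
    obtain ⟨hGu, -, hGA⟩ := polar_props hQ hG AM hA
    have halt : ∀ x, x ⬝ᵥ G.mulVec x = 0 := by
      intro x
      rw [hG]
      show Q (x + x) - Q x - Q x = 0
      have hx : x + x = 0 := by
        funext i
        exact CharTwo.add_self_eq_zero _
      have h2 : Q x + Q x = 0 := CharTwo.add_self_eq_zero _
      rw [hx, QuadraticMap.map_zero]
      linear_combination -h2
    have heven : ∀ i, Even (∑ x, min (d x) (2 * i)) := by
      intro i
      have h1 := rank_add_sum hJ (2 * i)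
      have h2 := rank_pow_even hGu halt hGA i
      rw [Fintype.card_fin] at h1
      by_contra hne
      have h3 := Nat.not_even_iff_odd.1 hne
      have h4 : Odd (((AM - 1) ^ (2 * i)).rank + ∑ x, min (d x) (2 * i)) := h2.add_odd h3
      rw [h1] at h4
      exact (Nat.not_odd_iff_even.2 (even_two_mul m)) h4
    apply cnt_even d (2 * k + 1) (by omega)
    · exact heven k
    · have := heven (k + 1)
      rwa [show 2 * (k + 1) = 2 * k + 1 + 1 by ring] at this
  · intro hpar
    apply exists_form d hsum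
    apply goodQ_induct (fun j => Odd j) _ _ _ rfl
    · intro x hx
      obtain ⟨k, -, rfl⟩ := Multiset.mem_map.1 hx
      exact hd k
    · intro j hj
      rw [← cnt_eq_count, ← card_filter_eq]
      exact hpar j hj
    · intro x hx hb
      obtain ⟨a, ha⟩ := Nat.not_odd_iff_even.1 hb
      rw [ha, ← two_mul]
      exact goodQ_even a (by omega)

end main2

end Cfsg.Agent.Lib.JordanQuad
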