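import Cfsg.Agent.Lib.JordanQuad
import Mathlib

/-!
Jordan types of unipotent isometries of quadratic forms in odd characteristic.
-/

set_option linter.all false

open scoped MatrixGroups Matrix
open Matrix

noncomputable section

namespace Cfsg.Agent.Lib.JordanQuad2

open Cfsg.Agent.Lib.JordanNil Cfsg.Agent.Lib.JordanForm Cfsg.Agent.Lib.JordanQuad

universe u

section block

variable {F : Type u} [Field F]

/-- The symmetric form with the Jordan block skew. -/
def GG (F : Type u) [Field F] (j : ℕ) : Matrix (Fin j) (Fin j) F :=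
  fun s t => if (s : ℕ) + t + 1 = j then (-1) ^ (s : ℕ) else 0

theorem GG_transpose {j : ℕ} (hj : Odd j) : (GG F j)ᵀ = GG F j := by
  ext s t
  simp only [Matrix.transpose_apply, GG]
  by_cases h : (s : ℕ) + t + 1 = j
  · rw [if_pos (by omega), if_pos h]
    obtain ⟨a, ha⟩ := hj
    have h1 : Even ((s : ℕ) + t) := ⟨a, by omega⟩
    rcases Nat.even_or_odd (s : ℕ) with h2 | h2
    · have h3 : Even (t : ℕ) := (Nat.even_add.1 h1).1 h2
      rw [h2.neg_one_pow, h3.neg_one_pow]
    · have h3 : Odd (t : ℕ) := by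
        by_contra h4
        have h5 := Nat.not_odd_iff_even.1 h4
        exact (Nat.not_even_iff_odd.2 h2) ((Nat.even_add.1 h1).2 h5)
      rw [h2.neg_one_pow, h3.neg_one_pow]
  · rw [if_neg (by omega), if_neg h]

theorem GG_mulVec {j : ℕ} (y : Fin j → F) (s : Fin j) : (GG F j).mulVec y s = (-1) ^ (s : ℕ) * y (Fin.rev s) := by
  simp only [Matrix.mulVec, dotProduct]
  rw [Finset.sum_eq_single (Fin.rev s)]
  · have h1 : (s : ℕ) + ((Fin.rev s : Fin j) : ℕ) + 1 = j := by
      rw [Fin.val_rev]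
      have := s.2
      omega
    simp only [GG, if_pos h1]
  · intro t _ ht
    have h1 : (s : ℕ) + t + 1 ≠ j := by
      intro h2
      apply ht
      apply Fin.ext
      rw [Fin.val_rev]
      omega
    simp [GG, h1]
  · simp

theorem GG_unit {j : ℕ} : IsUnit (GG F j).det := by
  rw [← Matrix.isUnit_iff_isUnit_det, ← Matrix.mulVec_injective_iff_isUnit]
  intro y z h
  funext s
  have h1 := congrFun h (Fin.rev s)
  rw [GG_mulVec, GG_mulVec, Fin.rev_rev] at h1
  have h2 : ((-1 : F) ^ ((Fin.rev s : Fin j) : ℕ)) ≠ 0 := pow_ne_zero _ (neg_ne_zero.2 one_ne_zero)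
  exact mul_left_cancel₀ h2 h1

theorem GG_N0 {j : ℕ} (s t : Fin j) : (GG F j * RegUnip.N0 F j) s t = if (s : ℕ) + t + 2 = j then (-1) ^ (s : ℕ) else 0 := by
  by_cases ht : (t : ℕ) + 1 < j
  · rw [RegUnip.mul_N0_apply _ _ _ ht]
    simp only [GG]
    by_cases h : (s : ℕ) + t + 2 = j
    · rw [if_pos (by omega), if_pos h]
    · rw [if_neg (by omega), if_neg h]
  · rw [RegUnip.mul_N0_last _ _ _ ht, if_neg (by omega)]

theorem GG_skew {j : ℕ} (hj : Odd j) : GG F j * RegUnip.N0 F j + (RegUnip.N0 F j)ᵀ * GG F j = 0 := by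
  have h1 : (RegUnip.N0 F j)ᵀ * GG F j = (GG F j * RegUnip.N0 F j)ᵀ := by
    rw [Matrix.transpose_mul, GG_transpose hj]
  rw [h1]
  ext s t
  simp only [Matrix.add_apply, Matrix.transpose_apply, Matrix.zero_apply]
  rw [GG_N0, GG_N0]
  by_cases h : (s : ℕ) + t + 2 = j
  · rw [if_pos h, if_pos (by omega)]
    obtain ⟨a, ha⟩ := hj
    have h2 : Odd ((s : ℕ) + t) := ⟨a - 1, by omega⟩
    rcases Nat.even_or_odd (s : ℕ) with h3 | h3
    · have h4 : Odd (t : ℕ) := by
        by_contra h5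
        have h6 := Nat.not_odd_iff_even.1 h5
        exact (Nat.not_even_iff_odd.2 h2) (h3.add h6)
      rw [h3.neg_one_pow, h4.neg_one_pow]
      ring
    · have h4 : Even (t : ℕ) := by
        by_contra h5
        have h6 := Nat.not_even_iff_odd.1 h5
        exact (Nat.not_odd_iff_even.2 (h3.add_odd h6)) h2
      rw [h3.neg_one_pow, h4.neg_one_pow]
      ring
  · rw [if_neg h, if_neg (by omega), add_zero]

/-- The Cayley transform is an isometry. -/
theorem cayley_inv {ι : Type*} [Fintype ι] [DecidableEq ι] {L M : Matrix ι ι F} (hML : M * L + Lᵀ * M = 0)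
    (hdet : IsUnit (1 - L).det) (v : ι → F) : qv M (((1 + L) * (1 - L)⁻¹).mulVec v) = qv M v := by
  set w := ((1 - L)⁻¹).mulVec v with hw
  have h1 : v = w - L.mulVec w := by
    have h3 : (1 - L).mulVec w = w - L.mulVec w := by rw [Matrix.sub_mulVec, Matrix.one_mulVec]
    rw [← h3, hw, Matrix.mulVec_mulVec, Matrix.mul_nonsing_inv _ hdet, Matrix.one_mulVec]
  have h2 : ((1 + L) * (1 - L)⁻¹).mulVec v = w + L.mulVec w := by
    rw [← Matrix.mulVec_mulVec, Matrix.add_mulVec, Matrix.one_mulVec]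
  have h3 : w ⬝ᵥ M.mulVec (L.mulVec w) + (L.mulVec w) ⬝ᵥ M.mulVec w = 0 := by
    have h4 : (L.mulVec w) ⬝ᵥ M.mulVec w = w ⬝ᵥ (Lᵀ * M).mulVec w := by
      rw [← Matrix.mulVec_mulVec, Matrix.dotProduct_mulVec w Lᵀ, Matrix.vecMul_transpose]
    rw [h4, Matrix.mulVec_mulVec, ← dotProduct_add, ← Matrix.add_mulVec, hML, Matrix.zero_mulVec, dotProduct_zero]
  conv_rhs => rw [h1]
  rw [h2, qv_add, qv_sub]
  linear_combination (2 : F) * h3

/-- The Cayley transform of a regular nilpotent matrix is regular unipotent. -/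
theorem cayley_reg (h2 : (2 : F) ≠ 0) {ι : Type*} [Fintype ι] [DecidableEq ι] {L : Matrix ι ι F} {n : ℕ}
    (h1 : L ^ n = 0) (hr : L.rank = n - 1) (hn : 0 < n) :
    IsUnit ((1 + L) * (1 - L)⁻¹).det ∧ (((1 + L) * (1 - L)⁻¹) - 1) ^ n = 0 ∧ (((1 + L) * (1 - L)⁻¹) - 1).rank = n - 1 := by
  have hLn : IsNilpotent L := ⟨n, h1⟩
  have hu1 : IsUnit (1 - L) := hLn.isUnit_one_sub
  have hu2 : IsUnit (1 + L) := hLn.isUnit_one_add
  have hd1 : IsUnit (1 - L).det := (Matrix.isUnit_iff_isUnit_det _).1 hu1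
  have hd2 : IsUnit (1 + L).det := (Matrix.isUnit_iff_isUnit_det _).1 hu2
  set s := (1 - L)⁻¹ with hs
  have hs1 : (1 - L) * s = 1 := Matrix.mul_nonsing_inv _ hd1
  have hs2 : s * (1 - L) = 1 := Matrix.nonsing_inv_mul _ hd1
  have hds : IsUnit s.det := (Matrix.isUnit_nonsing_inv_det_iff).2 hd1
  have hcs : Commute L s := by
    show L * s = s * L
    have h3 : s * L = s - 1 := by
      have : s * (1 - L) = s - s * L := by rw [mul_sub, mul_one]
      rw [hs2] at this
      rw [eq_sub_iff_add_eq]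
      rw [this]
      abel
    have h4 : L * s = s - 1 := by
      have : (1 - L) * s = s - L * s := by rw [sub_mul, one_mul]
      rw [hs1] at this
      rw [eq_sub_iff_add_eq]
      rw [this]
      abel
    rw [h3, h4]
  have hsub : (1 + L) * s - 1 = L * ((2 : F) • s) := by
    have h3 : (1 + L) * s - 1 = (1 + L) * s - (1 - L) * s := by rw [hs1]
    rw [h3, ← sub_mul, mul_smul_comm, two_smul]
    have h4 : 1 + L - (1 - L) = L + L := by abel
    rw [h4, add_mul]
  have h2d : IsUnit ((2 : F) • s).det := by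
    rw [Matrix.det_smul]
    exact (isUnit_iff_ne_zero.2 (pow_ne_zero _ h2)).mul hds
  refine ⟨?_, ?_, ?_⟩
  · rw [Matrix.det_mul]
    exact hd2.mul hds
  · rw [hsub, (hcs.smul_right (2 : F)).mul_pow, h1, zero_mul]
  · rw [hsub, Matrix.rank_mul_eq_left_of_isUnit_det _ _ h2d, hr]

/-- The odd Jordan block as an isometry. -/
theorem goodQ_odd (h2 : (2 : F) ≠ 0) (j : ℕ) (hj : Odd j) : GoodQ F {j} := by
  have hpos : 0 < j := hj.pos
  have hd1 : IsUnit (1 - RegUnip.N0 F j).det :=
    (Matrix.isUnit_iff_isUnit_det _).1 (IsNilpotent.isUnit_one_sub ⟨j, RegUnip.N0_pow_self⟩)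
  obtain ⟨hU, hp, hr⟩ := cayley_reg h2 (RegUnip.N0_pow_self (F := F) (n := j)) (RegUnip.rank_N0 hpos) hpos
  obtain ⟨κ, hκ, e, hJ, hs, hc⟩ := exists_single (F := F) (Fintype.card_fin j) hpos hp hr
  refine ⟨Fin j, inferInstance, inferInstance, (2 : F)⁻¹ • GG F j, (1 + RegUnip.N0 F j) * (1 - RegUnip.N0 F j)⁻¹,
    κ, hκ, e, ?_, hU, ?_, hJ, ?_, ?_⟩
  · have h3 : (2 : F)⁻¹ • GG F j + ((2 : F)⁻¹ • GG F j)ᵀ = GG F j := by
      rw [Matrix.transpose_smul, GG_transpose hj, ← add_smul, ← two_mul, mul_inv_cancel₀ h2, one_smul]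
    rw [h3]
    exact GG_unit
  · apply cayley_inv _ hd1
    rw [smul_mul_assoc, mul_smul_comm, ← smul_add, GG_skew hj, smul_zero]
  · rw [hs]
    simp
  · intro s h
    rw [hc s h, Multiset.count_singleton]

end block

section main

variable {F : Type u} [Field F] [Fintype F]

/-- Odd powers of the skew operator give alternating forms. -/
theorem rank_pow_odd (h2 : (2 : F) ≠ 0) {ι : Type*} [Fintype ι] [DecidableEq ι] {G A : Matrix ι ι F}
    (hG : IsUnit G.det) (hGs : Gᵀ = G) (hA : Aᵀ * G * A = G) (hN : IsNilpotent (A - 1)) (k : ℕ) :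
    Even ((A - 1) ^ (2 * k + 1)).rank := by
  have hdetA : IsUnit A.det := by
    have h1 : (Aᵀ * G * A).det = G.det := by rw [hA]
    rw [Matrix.det_mul, Matrix.det_mul, Matrix.det_transpose] at h1
    have h3 : A.det ≠ 0 := by
      intro h0
      rw [h0] at h1
      simp at h1
      exact hG.ne_zero h1.symm
    exact isUnit_iff_ne_zero.2 h3
  set s := A⁻¹ with hs
  have hsA : s * A = 1 := Matrix.nonsing_inv_mul A hdetA
  have hAs : A * s = 1 := Matrix.mul_nonsing_inv A hdetA
  have hcAs : Commute A s := hAs.trans hsA.symm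
  have hAG : Aᵀ * G = G * s := by
    calc Aᵀ * G = Aᵀ * G * (A * s) := by rw [hAs, mul_one]
      _ = (Aᵀ * G * A) * s := by simp only [mul_assoc]
      _ = G * s := by rw [hA]
  have hsG : sᵀ * G = G * A := by
    have h1 : sᵀ * Aᵀ = 1 := by rw [← Matrix.transpose_mul, hAs, Matrix.transpose_one]
    calc sᵀ * G = sᵀ * (Aᵀ * G * A) := by rw [hA]
      _ = (sᵀ * Aᵀ) * G * A := by simp only [mul_assoc]
      _ = G * A := by rw [h1, one_mul]
  set L := A - s with hL
  have hLG : Lᵀ * G = -(G * L) := by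
    rw [hL, Matrix.transpose_sub, sub_mul, hAG, hsG, mul_sub]
    abel
  have hpow : ∀ j : ℕ, (Lᵀ) ^ j * G = (-1 : F) ^ j • (G * L ^ j) := by
    intro j
    induction j with
    | zero => simp
    | succ j ih =>
      rw [pow_succ', mul_assoc, ih, mul_smul_comm, ← mul_assoc, hLG, pow_succ', neg_mul, mul_assoc, pow_succ', neg_mul, one_mul, neg_smul, smul_neg]
  -- the alternating form
  set j := 2 * k + 1 with hj
  have hM : (G * L ^ j)ᵀ = -(G * L ^ j) := by
    rw [Matrix.transpose_mul, hGs, Matrix.transpose_pow, hpow]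
    have : Odd j := ⟨k, hj⟩
    rw [this.neg_one_pow, neg_one_smul]
  have halt : ∀ x, x ⬝ᵥ (G * L ^ j).mulVec x = 0 := by
    intro x
    have h1 := dot_transpose (G * L ^ j) x x
    rw [hM, Matrix.neg_mulVec, dotProduct_neg] at h1
    have h3 : (2 : F) * (x ⬝ᵥ (G * L ^ j).mulVec x) = 0 := by linear_combination h1
    exact (mul_eq_zero.1 h3).resolve_left h2
  have h1 := rank_even_of_alt halt
  rw [Matrix.rank_mul_eq_right_of_isUnit_det _ _ hG] at h1
  -- comparison with `A - 1`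
  have hw : L = (A - 1) * ((A + 1) * s) := by
    have h3 : (A - 1) * ((A + 1) * s) = A * (A * s) - s := by noncomm_ring
    rw [h3, hAs, mul_one]
  have hu : IsUnit (A + 1) := by
    have h3 : IsUnit ((2 : F) • (1 : Matrix ι ι F)) := by
      rw [← Algebra.algebraMap_eq_smul_one]
      exact (isUnit_iff_ne_zero.2 h2).map _
    have c2 : Commute (A - 1) 1 := Commute.one_right _
    have h4 := IsNilpotent.isUnit_add_left_of_commute hN h3 (by
      show Commute (A - 1) ((2 : F) • (1 : Matrix ι ι F))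
      exact c2.smul_right _)
    have h5 : (2 : F) • (1 : Matrix ι ι F) + (A - 1) = A + 1 := by
      rw [two_smul]
      abel
    rwa [h5] at h4
  have hwu : IsUnit ((A + 1) * s) := hu.mul (isUnit_iff_exists_inv.2 ⟨A, hsA⟩)
  have c1 : Commute (A - 1) ((A + 1) * s) := by
    have c3 : Commute (A - 1) A := (Commute.refl A).sub_left (Commute.one_left A)
    have c4 : Commute (A - 1) s := hcAs.sub_left (Commute.one_left _)
    exact (c3.add_right (Commute.one_right _)).mul_right c4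
  have hpowL : L ^ j = (A - 1) ^ j * ((A + 1) * s) ^ j := by
    rw [hw, c1.mul_pow]
  rw [hpowL, Matrix.rank_mul_eq_left_of_isUnit_det _ _ ((Matrix.isUnit_iff_isUnit_det _).1 (hwu.pow _))] at h1
  exact h1

/-- Jordan types of unipotent isometries in odd characteristic. -/
theorem orth_types (h2 : (2 : F) ≠ 0) {n t : ℕ} (d : Fin t → ℕ) (hd : ∀ k, 1 ≤ d k) (hsum : ∑ k, d k = n) :
    (∃ Q : QuadraticForm F (Fin n → F), (QuadraticMap.polarBilin Q).Nondegenerate ∧
      ∃ e : ((k : Fin t) × Fin (d k)) ≃ Fin n, ∃ A : ↥(Cfsg.isometryGroup F ⇑Q),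
        IsConj (Matrix.reindex e e (Cfsg.jordanTypeMatrix d F))
          ((A : Matrix.GeneralLinearGroup (Fin n) F) : Matrix (Fin n) (Fin n) F)) ↔
      ∀ j : ℕ, Even j → 0 < j → Even (Finset.univ.filter (fun k : Fin t => d k = j)).card := by
  constructor
  · rintro ⟨Q, hQ, E, A, hconj⟩ j hje hj0
    have hJ := isJordan_of_isConj hconj (reindex_jordan d E)
    rw [card_filter_eq]
    obtain ⟨G, hG⟩ := exists_polar_matrix Q
    set AM : Matrix (Fin n) (Fin n) F := ((A : Matrix.GeneralLinearGroup (Fin n) F) : Matrix (Fin n) (Fin n) F) with hAM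
    have hA : ∀ v, Q (AM.mulVec v) = Q v := fun v => A.2 v v
    obtain ⟨hGu, hGs, hGA⟩ := polar_props hQ hG AM hA
    have hnil : IsNilpotent (AM - 1) := by
      have h3 := (hJ.pow_eq_zero_iff (∑ i, d i)).2 (fun i =>
        Finset.single_le_sum (f := d) (fun _ _ => Nat.zero_le _) (Finset.mem_univ i))
      refine ⟨∑ i, d i, ?_⟩
      apply Matrix.toLin'.injective
      rw [Matrix.toLin'_pow, h3, map_zero]
    obtain ⟨k, hk⟩ : ∃ k, j = 2 * k + 2 := by
      obtain ⟨b, hb⟩ := hje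
      exact ⟨b - 1, by omega⟩
    have h1 := rank_add_sum hJ (2 * k + 1)
    have h3 := rank_add_sum hJ (2 * (k + 1) + 1)
    have h4 := rank_pow_odd h2 hGu hGs hGA hnil k
    have h5 := rank_pow_odd h2 hGu hGs hGA hnil (k + 1)
    rw [Fintype.card_fin] at h1 h3
    apply cnt_even' d j (by omega)
    have h6 : j - 1 = 2 * k + 1 := by omega
    have h7 : j + 1 = 2 * (k + 1) + 1 := by omega
    rw [h6, h7]
    obtain ⟨a, ha⟩ := h4
    obtain ⟨b, hb⟩ := h5
    rw [ha] at h1
    rw [hb] at h3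
    generalize (∑ i, min (d i) (2 * k + 1)) = S1 at h1 ⊢
    generalize (∑ i, min (d i) (2 * (k + 1) + 1)) = S2 at h3 ⊢
    refine ⟨n - a - b, ?_⟩
    omega
  · intro hpar
    apply exists_form d hsum
    apply goodQ_induct (fun j => Even j ∧ 0 < j) _ _ _ rfl
    · intro x hx
      obtain ⟨k, -, rfl⟩ := Multiset.mem_map.1 hx
      exact hd k
    · intro j hj
      rw [← cnt_eq_count, ← card_filter_eq]
      exact hpar j hj.1 hj.2
    · intro x hx hb
      have hodd : Odd x := by
        by_contra h0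
        exact hb ⟨Nat.not_odd_iff_even.1 h0, by omega⟩
      exact goodQ_odd h2 x hodd

end main

end Cfsg.Agent.Lib.JordanQuad2
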