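import Mathlib

/-! A certificate checker for finite presentations: Knuth-Bendix completion steps are replayed by
kernel computation on words over `ℕ`; the resulting rewriting system bounds the order of any group
generated by elements satisfying the base relations. -/

set_option autoImplicit false

namespace Cfsg.Agent.Lib.KBCheck

/-- A rewriting rule. -/
abbrev Rule := List ℕ × List ℕ

/-- Evaluation of a word. -/
def ev {G : Type*} [Group G] (f : ℕ → G) (w : List ℕ) : G := (w.map f).prod

lemma ev_nil {G : Type*} [Group G] (f : ℕ → G) : ev f [] = 1 := rfl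

lemma ev_cons {G : Type*} [Group G] (f : ℕ → G) (a : ℕ) (w : List ℕ) :
    ev f (a :: w) = f a * ev f w := by
  simp [ev]

lemma ev_append {G : Type*} [Group G] (f : ℕ → G) (a b : List ℕ) :
    ev f (a ++ b) = ev f a * ev f b := by
  simp [ev]

/-- One rewrite at the leftmost position where a rule applies. -/
def rw1 (rs : List Rule) : List ℕ → Option (List ℕ)
  | [] => none
  | a :: t =>
    match rs.find? (fun r => r.1.isPrefixOf (a :: t)) with
    | some r => some (r.2 ++ (a :: t).drop r.1.length)
    | none => (rw1 rs t).map (a :: ·)

/-- Normal form with fuel. -/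
def nfF (rs : List Rule) : ℕ → List ℕ → List ℕ
  | 0, w => w
  | n + 1, w =>
    match rw1 rs w with
    | some w' => nfF rs n w'
    | none => w

/-- Validity of a list of rules in a group. -/
def Valid {G : Type*} [Group G] (f : ℕ → G) (rs : List Rule) : Prop :=
  ∀ r ∈ rs, ev f r.1 = ev f r.2

lemma ev_rw1 {G : Type*} [Group G] (f : ℕ → G) {rs : List Rule} (h : Valid f rs) :
    ∀ (w w' : List ℕ), rw1 rs w = some w' → ev f w' = ev f w := by
  intro w
  induction w with
  | nil =>
    intro w' hw
    simp [rw1] at hw
  | cons a t ih =>
    intro w' hw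
    rw [rw1] at hw
    split at hw
    · rename_i r hr
      have hm := List.mem_of_find?_eq_some hr
      have hp : r.1.isPrefixOf (a :: t) = true := List.find?_some (p := fun r : Rule => r.1.isPrefixOf (a :: t)) hr
      have hp' : r.1 <+: (a :: t) := List.isPrefixOf_iff_prefix.1 hp
      simp only [Option.some.injEq] at hw
      subst hw
      obtain ⟨s, hs⟩ := hp'
      have hd : (a :: t).drop r.1.length = s := by
        rw [← hs]
        simp
      rw [hd, ev_append, ← h r hm, ← ev_append, hs]
    · simp only [Option.map_eq_some_iff] at hw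
      obtain ⟨u, hu, rfl⟩ := hw
      rw [ev_cons, ev_cons, ih u hu]

lemma ev_nfF {G : Type*} [Group G] (f : ℕ → G) {rs : List Rule} (h : Valid f rs) :
    ∀ (n : ℕ) (w : List ℕ), ev f (nfF rs n w) = ev f w := by
  intro n
  induction n with
  | zero => intro w; rfl
  | succ n ih =>
    intro w
    rw [nfF]
    split
    · rename_i w' hw'
      rw [ih, ev_rw1 f h w w' hw']
    · rfl

/-- Shortlex comparison. -/
def lexLt : List ℕ → List ℕ → Bool
  | [], [] => false
  | [], _ :: _ => true
  | _ :: _, [] => false
  | a :: s, b :: t => if a < b then true else if b < a then false else lexLt s t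

def shortlexLt (a b : List ℕ) : Bool :=
  if a.length < b.length then true
  else if b.length < a.length then false
  else lexLt a b

/-- A completion step: the rules `i`, `j` overlap in the word `l_i ++ l_j.drop (|l_i| - p)` with
`l_j` at position `p`. -/
def step (fuel : ℕ) (rs : List Rule) (c : ℕ × ℕ × ℕ) : List Rule :=
  match rs[c.1]?, rs[c.2.1]? with
  | some ri, some rj =>
    let p := c.2.2
    let x := rj.1.drop (ri.1.length - p)
    let w := ri.1 ++ x
    let pre := w.take p
    let suf := w.drop (p + rj.1.length)
    if w == pre ++ rj.1 ++ suf then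
      let a := nfF rs fuel (ri.2 ++ x)
      let b := nfF rs fuel (pre ++ rj.2 ++ suf)
      if a == b then rs
      else if shortlexLt a b then rs ++ [(b, a)] else rs ++ [(a, b)]
    else rs
  | _, _ => rs

lemma valid_step {G : Type*} [Group G] (f : ℕ → G) {rs : List Rule} (h : Valid f rs)
    (fuel : ℕ) (c : ℕ × ℕ × ℕ) : Valid f (step fuel rs c) := by
  unfold step
  split
  · rename_i ri rj hi hj
    have hmi : ri ∈ rs := List.mem_of_getElem? hi
    have hmj : rj ∈ rs := List.mem_of_getElem? hj
    simp only
    split
    · rename_i hw
      have hw' := beq_iff_eq.1 hw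
      set p := c.2.2
      set x := rj.1.drop (ri.1.length - p)
      set w := ri.1 ++ x with hwdef
      set pre := w.take p
      set suf := w.drop (p + rj.1.length)
      have e1 : ev f (ri.2 ++ x) = ev f w := by
        rw [hwdef, ev_append, ev_append, h ri hmi]
      have e2 : ev f (pre ++ rj.2 ++ suf) = ev f w := by
        conv_rhs => rw [hw']
        rw [ev_append, ev_append, ev_append, ev_append, h rj hmj]
      have e3 : ev f (nfF rs fuel (ri.2 ++ x)) = ev f (nfF rs fuel (pre ++ rj.2 ++ suf)) := by
        rw [ev_nfF f h, ev_nfF f h, e1, e2]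
      split
      · exact h
      · split
        · intro r hr
          rcases List.mem_append.1 hr with hr | hr
          · exact h r hr
          · simp only [List.mem_singleton] at hr
            subst hr
            exact e3.symm
        · intro r hr
          rcases List.mem_append.1 hr with hr | hr
          · exact h r hr
          · simp only [List.mem_singleton] at hr
            subst hr
            exact e3
    · exact h
  · exact h

/-- Run a completion certificate. -/
def run (fuel : ℕ) (rs : List Rule) (cert : List (ℕ × ℕ × ℕ)) : List Rule :=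
  cert.foldl (step fuel) rs

lemma valid_run {G : Type*} [Group G] (f : ℕ → G) (fuel : ℕ) (cert : List (ℕ × ℕ × ℕ)) :
    ∀ {rs : List Rule}, Valid f rs → Valid f (run fuel rs cert) := by
  induction cert with
  | nil => intro rs h; exact h
  | cons c t ih =>
    intro rs h
    exact ih (valid_step f h fuel c)

/-- The closure check: `nfs` contains the empty word and is closed under right multiplication by
generators modulo the final rules; each generator has a positive inverse word. -/
def check (fuel : ℕ) (final : List Rule) (gens : List ℕ) (inv : List (ℕ × List ℕ))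
    (nfs : List (List ℕ)) : Bool :=
  nfs.contains [] &&
  nfs.all (fun u => gens.all (fun g => nfs.contains (nfF final fuel (u ++ [g])))) &&
  gens.all (fun g => match inv.lookup g with
    | some v => (nfF final fuel (g :: v)).isEmpty && v.all (fun l => gens.contains l)
    | none => false)

theorem covers_of_check {G : Type*} [Group G] (f : ℕ → G) {final : List Rule} (hv : Valid f final)
    {fuel : ℕ} {gens : List ℕ} {inv : List (ℕ × List ℕ)} {nfs : List (List ℕ)}
    (hc : check fuel final gens inv nfs = true)
    (hgen : Subgroup.closure (f '' {g | g ∈ gens}) = ⊤) (y : G) : ∃ u ∈ nfs, y = ev f u := by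
  simp only [check, Bool.and_eq_true, List.contains_iff_mem, List.all_eq_true] at hc
  obtain ⟨⟨h1, h2⟩, h3⟩ := hc
  have hstep : ∀ (x : G), (∃ u ∈ nfs, x = ev f u) → ∀ g ∈ gens, ∃ u ∈ nfs, x * f g = ev f u := by
    rintro x ⟨u, hu, rfl⟩ g hg
    refine ⟨_, h2 u hu g hg, ?_⟩
    rw [ev_nfF f hv, ev_append, ev_cons, ev_nil, mul_one]
  have hword : ∀ (v : List ℕ), (∀ l ∈ v, l ∈ gens) → ∀ (x : G), (∃ u ∈ nfs, x = ev f u) →
      ∃ u ∈ nfs, x * ev f v = ev f u := by
    intro v
    induction v with
    | nil =>
      intro _ x hx
      simpa [ev_nil] using hx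
    | cons a t ih =>
      intro hl x hx
      have h4 := hstep x hx a (hl a (by simp))
      have h5 := ih (fun l hl' => hl l (by simp [hl'])) _ h4
      rw [ev_cons, ← mul_assoc]
      exact h5
  have hy : y ∈ Subgroup.closure (f '' {g | g ∈ gens}) := by rw [hgen]; trivial
  induction hy using Subgroup.closure_induction_right with
  | one => exact ⟨[], h1, rfl⟩
  | mul_right x _ s hs ih =>
    obtain ⟨g, hg, rfl⟩ := hs
    exact hstep x ih g hg
  | mul_inv_cancel x _ s hs ih =>
    obtain ⟨g, hg, rfl⟩ := hs
    have h4 := h3 g hg
    split at h4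
    · rename_i v hvv
      simp only [Bool.and_eq_true, List.isEmpty_iff, List.all_eq_true, List.contains_iff_mem] at h4
      obtain ⟨h5, h6⟩ := h4
      have h7 : f g * ev f v = 1 := by
        rw [← ev_cons, ← ev_nfF f hv fuel, h5, ev_nil]
      have h8 : (f g)⁻¹ = ev f v := inv_eq_of_mul_eq_one_right h7
      rw [h8]
      exact hword v h6 x ih
    · exact absurd h4 (by simp)

/-- The order bound. -/
theorem finite_card_le {G : Type*} [Group G] (f : ℕ → G) {final : List Rule} (hv : Valid f final)
    {fuel : ℕ} {gens : List ℕ} {inv : List (ℕ × List ℕ)} {nfs : List (List ℕ)}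
    (hc : check fuel final gens inv nfs = true)
    (hgen : Subgroup.closure (f '' {g | g ∈ gens}) = ⊤) :
    Finite G ∧ Nat.card G ≤ nfs.length := by
  let F : Fin nfs.length → G := fun i => ev f nfs[i]
  have hF : Function.Surjective F := by
    intro y
    obtain ⟨u, hu, rfl⟩ := covers_of_check f hv hc hgen y
    obtain ⟨i, hi, rfl⟩ := List.getElem_of_mem hu
    exact ⟨⟨i, hi⟩, rfl⟩
  refine ⟨Finite.of_surjective F hF, ?_⟩
  have := Nat.card_le_card_of_surjective F hF
  rwa [Nat.card_fin] at this

/-- Bijectivity of a homomorphism onto a group of the right order: the images of the normal forms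
are distinct. -/
theorem bijective_of_nodup {G H : Type*} [Group G] [Group H] [Finite H] (f : ℕ → G)
    {final : List Rule} (hv : Valid f final)
    {fuel : ℕ} {gens : List ℕ} {inv : List (ℕ × List ℕ)} {nfs : List (List ℕ)}
    (hc : check fuel final gens inv nfs = true)
    (hgen : Subgroup.closure (f '' {g | g ∈ gens}) = ⊤)
    (φ : G →* H) (hcard : Nat.card H = nfs.length)
    (hnd : (nfs.map (fun u => φ (ev f u))).Nodup) : Function.Bijective φ := by
  classical
  obtain ⟨hfin, hle⟩ := finite_card_le f hv hc hgen
  haveI := hfin
  let F : Fin nfs.length → H := fun i => φ (ev f nfs[i])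
  have hF : Function.Injective F := by
    intro i j hij
    have h1 := (List.nodup_iff_injective_get.1 hnd)
    apply Fin.ext
    have h2 : (nfs.map (fun u => φ (ev f u))).get ⟨i.val, by simp⟩ =
        (nfs.map (fun u => φ (ev f u))).get ⟨j.val, by simp⟩ := by
      simpa [F] using hij
    have h3 := h1 h2
    simpa using congrArg Fin.val h3
  haveI : Fintype H := Fintype.ofFinite H
  have hbij : Function.Bijective F := by
    rw [Fintype.bijective_iff_injective_and_card]
    refine ⟨hF, ?_⟩
    rw [Fintype.card_fin, ← hcard, Nat.card_eq_fintype_card]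
  have hsurj : Function.Surjective φ := by
    intro y
    obtain ⟨i, hi⟩ := hbij.2 y
    exact ⟨_, hi⟩
  refine (Nat.bijective_iff_surjective_and_card φ).2 ⟨hsurj, ?_⟩
  have h3 := Nat.card_le_card_of_surjective φ hsurj
  omega

end Cfsg.Agent.Lib.KBCheck
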