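import Mathlib
import Cfsg.Prelude
import Cfsg.Agent.Lib.SylowCount
import Cfsg.Agent.Lib.H2Basic
import Cfsg.Agent.Lib.PReduced

/-!
# The commuting graph on elementary abelian subgroups; strongly embedded subgroups
-/

set_option autoImplicit false
set_option linter.all false

namespace Cfsg.Agent.Lib.KConn

open Subgroup Cfsg

variable {G : Type*} [Group G] [Finite G] {p : ℕ} [Fact p.Prime]

/-- the vertex predicate -/
def Vtx (p : ℕ) (E : Subgroup G) : Prop := IsElementaryAbelian p E ∧ p ^ 1 ≤ Nat.card E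

/-- the edge relation -/
def Edge (p : ℕ) (A B : Subgroup G) : Prop :=
  IsElementaryAbelian p A ∧ p ^ 1 ≤ Nat.card ↥A ∧ IsElementaryAbelian p B ∧
        p ^ 1 ≤ Nat.card ↥B ∧ ∀ a ∈ A, ∀ b ∈ B, a * b = b * a

/-- connectivity -/
abbrev Conn (p : ℕ) (A B : Subgroup G) : Prop := Relation.ReflTransGen (Edge p) A B

theorem edge_symm {A B : Subgroup G} (h : Edge p A B) : Edge p B A :=
  ⟨h.2.2.1, h.2.2.2.1, h.1, h.2.1, fun b hb a ha => (h.2.2.2.2 a ha b hb).symm⟩

theorem conn_symm {A B : Subgroup G} (h : Conn p A B) : Conn p B A := by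
  induction h with
  | refl => exact Relation.ReflTransGen.refl
  | tail _ hs ih => exact (Relation.ReflTransGen.single (edge_symm hs)).trans ih

theorem vtx_conj {E : Subgroup G} (h : IsElementaryAbelian p E) (g : G) :
    IsElementaryAbelian p (E.map (MulAut.conj g).toMonoidHom) := by
  refine ⟨?_, ?_⟩
  · refine ⟨⟨?_⟩⟩
    rintro ⟨_, a, ha, rfl⟩ ⟨_, b, hb, rfl⟩
    apply Subtype.ext
    have h1 : (⟨a, ha⟩ : E) * ⟨b, hb⟩ = ⟨b, hb⟩ * ⟨a, ha⟩ := by
      haveI := h.1
      exact mul_comm' _ _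
    have h2 : a * b = b * a := congrArg Subtype.val h1
    show (MulAut.conj g).toMonoidHom a * (MulAut.conj g).toMonoidHom b =
      (MulAut.conj g).toMonoidHom b * (MulAut.conj g).toMonoidHom a
    rw [← map_mul, ← map_mul, h2]
  · rintro _ ⟨a, ha, rfl⟩
    rw [← map_pow, h.2 a ha, map_one]

theorem edge_conj {A B : Subgroup G} (h : Edge p A B) (g : G) :
    Edge p (A.map (MulAut.conj g).toMonoidHom) (B.map (MulAut.conj g).toMonoidHom) := by
  refine ⟨vtx_conj h.1 g, ?_, vtx_conj h.2.2.1 g, ?_, ?_⟩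
  · rw [H2Basic.card_map_conj]; exact h.2.1
  · rw [H2Basic.card_map_conj]; exact h.2.2.2.1
  · rintro _ ⟨a, ha, rfl⟩ _ ⟨b, hb, rfl⟩
    rw [← map_mul, ← map_mul, h.2.2.2.2 a ha b hb]

theorem conn_conj {A B : Subgroup G} (h : Conn p A B) (g : G) :
    Conn p (A.map (MulAut.conj g).toMonoidHom) (B.map (MulAut.conj g).toMonoidHom) := by
  induction h with
  | refl => exact Relation.ReflTransGen.refl
  | tail _ hs ih => exact ih.tail (edge_conj hs g)

theorem isPGroup_of_elem {E : Subgroup G} (h : IsElementaryAbelian p E) : IsPGroup p E := by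
  intro x
  refine ⟨1, ?_⟩
  rw [pow_one]
  apply Subtype.ext
  exact h.2 x x.2

theorem dvd_card_of_vtx {E : Subgroup G} (h : IsElementaryAbelian p E) (hc : p ^ 1 ≤ Nat.card E) :
    p ∣ Nat.card E := by
  have hp : p.Prime := Fact.out
  have h1 := isPGroup_of_elem h
  obtain ⟨k, hk⟩ := IsPGroup.iff_card.1 h1
  rw [hk]
  rcases k with _ | k
  · rw [pow_zero] at hk
    rw [hk, pow_one] at hc
    have := hp.two_le
    omega
  · exact dvd_pow_self p (Nat.succ_ne_zero k)

theorem vtx_zpowers {x : G} (hx : orderOf x = p) : IsElementaryAbelian p (zpowers x) := by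
  refine ⟨?_, ?_⟩
  · refine ⟨⟨?_⟩⟩
    rintro ⟨_, a, rfl⟩ ⟨_, b, rfl⟩
    apply Subtype.ext
    show x ^ a * x ^ b = x ^ b * x ^ a
    rw [← zpow_add, ← zpow_add, add_comm]
  · rintro _ ⟨a, rfl⟩
    show (x ^ a) ^ p = 1
    rw [← zpow_natCast, ← zpow_mul, mul_comm, zpow_mul, zpow_natCast, ← hx, pow_orderOf_eq_one, one_zpow]

theorem card_zpowers_of {x : G} (hx : orderOf x = p) : p ^ 1 ≤ Nat.card (zpowers x) := by
  rw [Nat.card_zpowers, hx, pow_one]

/-- strongly embedded implies disconnected -/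
theorem not_connected_of_embedded (H : Subgroup G) (hH : H ≠ ⊤) (hd : p ∣ Nat.card H)
    (he : ∀ g : G, g ∉ H → ¬ p ∣ Nat.card ↥(H ⊓ H.map (MulAut.conj g).toMonoidHom)) :
    ¬ IsKConnected p 1 G := by
  intro hconn
  obtain ⟨⟨x, hxH⟩, hx⟩ := exists_prime_orderOf_dvd_card' p hd
  rw [Subgroup.orderOf_mk] at hx
  obtain ⟨g, hg⟩ : ∃ g, g ∉ H := by
    by_contra hcon
    push Not at hcon
    exact hH (eq_top_iff.2 fun y _ => hcon y)
  set E₀ := zpowers x with hE₀
  have hV0 : IsElementaryAbelian p E₀ := vtx_zpowers hx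
  have hC0 : p ^ 1 ≤ Nat.card E₀ := card_zpowers_of hx
  have hV1 := vtx_conj hV0 g
  have hC1 : p ^ 1 ≤ Nat.card (E₀.map (MulAut.conj g).toMonoidHom) := by
    rw [H2Basic.card_map_conj]; exact hC0
  have hc : Conn p E₀ (E₀.map (MulAut.conj g).toMonoidHom) := by
    have := hconn E₀ (E₀.map (MulAut.conj g).toMonoidHom) hV0 hC0 hV1 hC1
    exact this
  have hE₀H : E₀ ≤ H := by
    rw [hE₀, Subgroup.zpowers_le]; exact hxH
  have key : ∀ B, Conn p E₀ B → B ≤ H := by
    intro B hB
    induction hB with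
    | refl => exact hE₀H
    | @tail A B _ hstep ih =>
      intro b hb
      by_contra hbH
      apply he b hbH
      have hle : A ≤ H ⊓ H.map (MulAut.conj b).toMonoidHom := by
        intro a ha
        refine ⟨ih ha, a, ih ha, ?_⟩
        show b * a * b⁻¹ = a
        rw [← hstep.2.2.2.2 a ha b hb]
        group
      exact (dvd_card_of_vtx hstep.1 hstep.2.1).trans (Subgroup.card_dvd_of_le hle)
  apply he g hg
  have h1 := key _ hc
  have hle : E₀.map (MulAut.conj g).toMonoidHom ≤ H ⊓ H.map (MulAut.conj g).toMonoidHom :=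
    le_inf h1 (Subgroup.map_mono hE₀H)
  exact (dvd_card_of_vtx hV1 hC1).trans (Subgroup.card_dvd_of_le hle)

/-- disconnected implies strongly embedded -/
theorem embedded_of_not_connected (hc : ¬ IsKConnected p 1 G) :
    ∃ H : Subgroup G, H ≠ ⊤ ∧ p ∣ Nat.card ↥H ∧ ∀ g : G, g ∉ H → ¬ p ∣ Nat.card ↥(H ⊓ H.map (MulAut.conj g).toMonoidHom) := by
  classical
  have hp : p.Prime := Fact.out
  -- there are vertices
  unfold IsKConnected at hc
  push Not at hc
  obtain ⟨E, E', hE, hEc, hE', hEc', hno⟩ := hc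
  have hdG : p ∣ Nat.card G := (dvd_card_of_vtx hE hEc).trans (Subgroup.card_subgroup_dvd_card E)
  obtain ⟨P⟩ : Nonempty (Sylow p G) := inferInstance
  have hPne : (P : Subgroup G) ≠ ⊥ := P.ne_bot_of_dvd_card hdG
  have hPd : p ∣ Nat.card P := by
    haveI : Nontrivial P := (Subgroup.nontrivial_iff_ne_bot _).2 hPne
    obtain ⟨k, hk⟩ := IsPGroup.iff_card.1 P.isPGroup'
    rw [hk]
    rcases k with _ | k
    · rw [pow_zero] at hk
      exact absurd hk (Finite.one_lt_card (α := P)).ne'
    · exact dvd_pow_self p (Nat.succ_ne_zero k)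
  -- a central element of order `p`
  obtain ⟨z, hzP, hz, hzc⟩ : ∃ z ∈ (P : Subgroup G), orderOf z = p ∧ ∀ a ∈ (P : Subgroup G), a * z = z * a := by
    haveI : Nontrivial P := (Subgroup.nontrivial_iff_ne_bot _).2 hPne
    haveI := P.isPGroup'.center_nontrivial
    have hpz : IsPGroup p (center P) := P.isPGroup'.to_subgroup _
    have hd : p ∣ Nat.card (center P) := by
      obtain ⟨k, hk⟩ := IsPGroup.iff_card.1 hpz
      rw [hk]
      rcases k with _ | k
      · rw [pow_zero] at hk
        exact absurd hk (Finite.one_lt_card (α := center P)).ne'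
      · exact dvd_pow_self p (Nat.succ_ne_zero k)
    obtain ⟨y, hy⟩ := exists_prime_orderOf_dvd_card' p hd
    refine ⟨((y : P) : G), (y : P).2, ?_, ?_⟩
    · rw [Subgroup.orderOf_coe, Subgroup.orderOf_coe, hy]
    · intro a ha
      have := Subgroup.mem_center_iff.1 y.2 ⟨a, ha⟩
      exact congrArg Subtype.val this
  set E₀ := zpowers z with hE₀
  have hV0 : IsElementaryAbelian p E₀ := vtx_zpowers hz
  have hC0 : p ^ 1 ≤ Nat.card E₀ := card_zpowers_of hz
  -- vertices in `P`
  have hinP : ∀ A : Subgroup G, IsElementaryAbelian p A → p ^ 1 ≤ Nat.card A → A ≤ P → Conn p E₀ A := by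
    intro A hA hAc hAP
    refine Relation.ReflTransGen.single ⟨hV0, hC0, hA, hAc, ?_⟩
    rintro _ ⟨n, rfl⟩ b hb
    have h1 : Commute b z := hzc b (hAP hb)
    exact (h1.zpow_right n).symm
  -- the subgroup
  let H : Subgroup G :=
    { carrier := {g | Conn p E₀ (E₀.map (MulAut.conj g).toMonoidHom)}
      one_mem' := by
        show Conn p E₀ (E₀.map (MulAut.conj (1 : G)).toMonoidHom)
        have : E₀.map (MulAut.conj (1 : G)).toMonoidHom = E₀ := by
          ext y; simp
        rw [this]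
      mul_mem' := by
        intro a b ha hb
        have ha' : Conn p E₀ (E₀.map (MulAut.conj a).toMonoidHom) := ha
        have hb' : Conn p E₀ (E₀.map (MulAut.conj b).toMonoidHom) := hb
        have h1 := conn_conj hb' a
        rw [H2Basic.map_conj_mul] at h1
        exact ha'.trans h1
      inv_mem' := by
        intro a ha
        have ha' : Conn p E₀ (E₀.map (MulAut.conj a).toMonoidHom) := ha
        have h1 := conn_conj ha' a⁻¹
        rw [H2Basic.map_conj_mul] at h1
        have h2 : E₀.map (MulAut.conj (a⁻¹ * a)).toMonoidHom = E₀ := by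
          ext y; simp
        rw [h2] at h1
        exact conn_symm h1 }
  have hmemH : ∀ g, g ∈ H ↔ Conn p E₀ (E₀.map (MulAut.conj g).toMonoidHom) := fun g => Iff.rfl
  have hPH : (P : Subgroup G) ≤ H := by
    intro g hg
    rw [hmemH]
    refine hinP _ (vtx_conj hV0 g) (by rw [H2Basic.card_map_conj]; exact hC0) ?_
    rintro _ ⟨y, hy, rfl⟩
    have hyP : y ∈ (P : Subgroup G) := (Subgroup.zpowers_le.2 hzP) hy
    exact P.toSubgroup.mul_mem (P.toSubgroup.mul_mem hg hyP) (P.toSubgroup.inv_mem hg)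
  -- every vertex is connected to a conjugate of `E₀`
  have hconj : ∀ A : Subgroup G, IsElementaryAbelian p A → p ^ 1 ≤ Nat.card A →
      ∃ g, Conn p (E₀.map (MulAut.conj g).toMonoidHom) A := by
    intro A hA hAc
    obtain ⟨h, hh⟩ := H2Basic.exists_conj_le_sylow (isPGroup_of_elem hA) P
    have h1 := hinP _ (vtx_conj hA h) (by rw [H2Basic.card_map_conj]; exact hAc) hh
    have h2 := conn_conj h1 h⁻¹
    rw [H2Basic.map_conj_mul] at h2
    have h3 : A.map (MulAut.conj (h⁻¹ * h)).toMonoidHom = A := by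
      ext y; simp
    rw [h3] at h2
    exact ⟨_, h2⟩
  refine ⟨H, ?_, hPd.trans (Subgroup.card_dvd_of_le hPH), ?_⟩
  · intro htop
    apply hno
    have hall : ∀ g, Conn p E₀ (E₀.map (MulAut.conj g).toMonoidHom) := fun g => by
      rw [← hmemH, htop]; trivial
    obtain ⟨g, hg⟩ := hconj E hE hEc
    obtain ⟨g', hg'⟩ := hconj E' hE' hEc'
    exact (conn_symm hg).trans ((conn_symm (hall g)).trans ((hall g').trans hg'))
  · intro g hg hdvd
    obtain ⟨y, hy⟩ := exists_prime_orderOf_dvd_card' p hdvd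
    have hxH : (y : G) ∈ H := y.2.1
    have hxg : (y : G) ∈ H.map (MulAut.conj g).toMonoidHom := y.2.2
    have hx : orderOf (y : G) = p := by rw [Subgroup.orderOf_coe, hy]
    apply hg
    rw [hmemH]
    -- elements of `H` of order `p`
    have hel : ∀ y ∈ H, orderOf y = p → Conn p E₀ (zpowers y) := by
      intro y hyH hy
      let P' : Sylow p H := P.subtype hPH
      have hZ : IsPGroup p (zpowers (⟨y, hyH⟩ : H)) := by
        apply IsPGroup.of_card (n := 1)
        rw [Nat.card_zpowers, Subgroup.orderOf_mk, hy, pow_one]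
      obtain ⟨h, hh⟩ := H2Basic.exists_conj_le_sylow hZ P'
      have hym : (h : G) * y * (h : G)⁻¹ ∈ (P : Subgroup G) := by
        have h1 : (MulAut.conj h).toMonoidHom ⟨y, hyH⟩ ∈ (P' : Subgroup H) :=
          hh ⟨_, Subgroup.mem_zpowers _, rfl⟩
        rw [Sylow.coe_subtype, Subgroup.mem_subgroupOf] at h1
        exact h1
      have ho : orderOf ((h : G) * y * (h : G)⁻¹) = p := by
        rw [← hy]
        exact SylowCount.orderOf_eq_of_isConj (isConj_iff.2 ⟨_, rfl⟩).symm
      have h1 : Conn p E₀ (zpowers ((h : G) * y * (h : G)⁻¹)) :=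
        hinP _ (vtx_zpowers ho) (card_zpowers_of ho) (Subgroup.zpowers_le.2 hym)
      have h2 := conn_conj h1 (h : G)⁻¹
      have h3 : (zpowers ((h : G) * y * (h : G)⁻¹)).map (MulAut.conj (h : G)⁻¹).toMonoidHom = zpowers y := by
        rw [MonoidHom.map_zpowers]
        congr 1
        show (h : G)⁻¹ * ((h : G) * y * (h : G)⁻¹) * ((h : G)⁻¹)⁻¹ = y
        group
      rw [h3] at h2
      have h4 : Conn p E₀ (E₀.map (MulAut.conj (h : G)⁻¹).toMonoidHom) := (hmemH _).1 (H.inv_mem h.2)
      exact h4.trans h2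
    obtain ⟨w, hwH, hw⟩ := hxg
    have hw' : g * w * g⁻¹ = (y : G) := hw
    have ho : orderOf w = p := by
      rw [← hx, ← hw']
      exact SylowCount.orderOf_eq_of_isConj (isConj_iff.2 ⟨_, rfl⟩)
    have h1 := hel _ hxH hx
    have h2 := conn_conj (hel w hwH ho) g
    have h3 : (zpowers w).map (MulAut.conj g).toMonoidHom = zpowers (y : G) := by
      rw [MonoidHom.map_zpowers, hw]
    rw [h3] at h2
    exact h1.trans (conn_symm h2)

end Cfsg.Agent.Lib.KConn
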