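import Mathlib
import Cfsg.Prelude.Def_SolvableStructure
import Cfsg.Agent.Lib.HallSystem3
import Cfsg.Agent.Lib.HallSolv

/-!
# Kegel's lemma on permutable conjugates
-/

set_option autoImplicit false
set_option linter.unusedVariables false
set_option linter.style.haveILetI false
set_option linter.unusedSectionVars false

namespace Cfsg.Agent.Lib.Kegel

open Cfsg Subgroup Cfsg.Agent.Lib.HallSystem3 Cfsg.Agent.Lib.HallSystem
open scoped Pointwise

universe u

variable {G : Type u} [Group G] [Finite G]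

/-- Every conjugate of `B` makes a proper subgroup with `A`. -/
def QQ (A B : Subgroup G) : Prop :=
  ∀ x : G, ∃ S : Subgroup G, S ≠ ⊤ ∧ (S : Set G) = (A : Set G) * ((B.map (MulAut.conj x).toMonoidHom : Subgroup G) : Set G)

theorem perm_of_eq {S A B : Subgroup G} (h : (S : Set G) = (A : Set G) * (B : Set G)) :
    (A : Set G) * (B : Set G) = (B : Set G) * (A : Set G) := by
  have hA : ∀ a ∈ A, a ∈ S := by
    intro a ha
    have : a ∈ (S : Set G) := by
      rw [h]
      exact ⟨a, ha, 1, one_mem _, mul_one a⟩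
    exact this
  have hB : ∀ b ∈ B, b ∈ S := by
    intro b hb
    have : b ∈ (S : Set G) := by
      rw [h]
      exact ⟨1, one_mem _, b, hb, one_mul b⟩
    exact this
  apply Set.Subset.antisymm
  · rintro _ ⟨a, ha, b, hb, rfl⟩
    have h1 : (a * b)⁻¹ ∈ S := inv_mem (mul_mem (hA a ha) (hB b hb))
    have h2 : (a * b)⁻¹ ∈ (S : Set G) := h1
    rw [h] at h2
    obtain ⟨a', ha', b', hb', he⟩ := h2
    refine ⟨b'⁻¹, inv_mem hb', a'⁻¹, inv_mem ha', ?_⟩
    have he' : a' * b' = (a * b)⁻¹ := he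
    show b'⁻¹ * a'⁻¹ = a * b
    rw [← mul_inv_rev, he', inv_inv]
  · rintro _ ⟨b, hb, a, ha, rfl⟩
    have h1 : b * a ∈ (S : Set G) := mul_mem (hB b hb) (hA a ha)
    rw [h] at h1
    exact h1

/-- The subgroup generated by the `B`-conjugates of `A`. -/
def FF (A B : Subgroup G) : Subgroup G :=
  Subgroup.closure {y | ∃ b ∈ B, ∃ a ∈ A, y = b * a * b⁻¹}

theorem le_FF (A B : Subgroup G) : A ≤ FF A B := by
  intro a ha
  exact Subgroup.subset_closure ⟨1, one_mem _, a, ha, by simp⟩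

theorem step {A B : Subgroup G} (hQ : QQ A B) : QQ (FF A B) B := by
  intro x
  let T : Subgroup G := B.map (MulAut.conj x).toMonoidHom
  -- each conjugate permutes with `T`
  have hperm : ∀ b ∈ B, ((A.map (MulAut.conj b).toMonoidHom : Subgroup G) : Set G) * (T : Set G) =
      (T : Set G) * ((A.map (MulAut.conj b).toMonoidHom : Subgroup G) : Set G) := by
    intro b hb
    obtain ⟨S, -, hS⟩ := hQ (b⁻¹ * x)
    have h1 := coe_map_mul _ _ _ b hS
    rw [map_conj_comp, mul_inv_cancel_left] at h1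
    exact perm_of_eq h1
  have hstep : ∀ f ∈ FF A B, (∀ t ∈ T, ∃ t' ∈ T, ∃ f' ∈ FF A B, f * t = t' * f') ∧
      (∀ t ∈ T, ∃ t' ∈ T, ∃ f' ∈ FF A B, f⁻¹ * t = t' * f') := by
    intro f hf
    induction hf using Subgroup.closure_induction with
    | mem y hy =>
      obtain ⟨b, hb, a, ha, rfl⟩ := hy
      constructor
      · intro t ht
        have h1 : (b * a * b⁻¹) * t ∈ ((A.map (MulAut.conj b).toMonoidHom : Subgroup G) : Set G) * (T : Set G) :=
          ⟨_, ⟨a, ha, rfl⟩, t, ht, rfl⟩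
        rw [hperm b hb] at h1
        obtain ⟨t', ht', f', ⟨a', ha', rfl⟩, he⟩ := h1
        exact ⟨t', ht', _, Subgroup.subset_closure ⟨b, hb, a', ha', rfl⟩, he.symm⟩
      · intro t ht
        have h1 : (b * a⁻¹ * b⁻¹) * t ∈ ((A.map (MulAut.conj b).toMonoidHom : Subgroup G) : Set G) * (T : Set G) :=
          ⟨_, ⟨a⁻¹, inv_mem ha, rfl⟩, t, ht, rfl⟩
        rw [hperm b hb] at h1
        obtain ⟨t', ht', f', ⟨a', ha', rfl⟩, he⟩ := h1
        refine ⟨t', ht', _, Subgroup.subset_closure ⟨b, hb, a', ha', rfl⟩, ?_⟩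
        have he' : t' * (b * a' * b⁻¹) = (b * a⁻¹ * b⁻¹) * t := he
        show (b * a * b⁻¹)⁻¹ * t = t' * (b * a' * b⁻¹)
        rw [he']
        group
    | one =>
      exact ⟨fun t ht => ⟨t, ht, 1, one_mem _, by simp⟩, fun t ht => ⟨t, ht, 1, one_mem _, by simp⟩⟩
    | mul f₁ f₂ _ _ h₁ h₂ =>
      constructor
      · intro t ht
        obtain ⟨t₁, ht₁, f₁', hf₁', e₁⟩ := h₂.1 t ht
        obtain ⟨t₂, ht₂, f₂', hf₂', e₂⟩ := h₁.1 t₁ ht₁
        refine ⟨t₂, ht₂, f₂' * f₁', mul_mem hf₂' hf₁', ?_⟩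
        rw [mul_assoc, e₁, ← mul_assoc, e₂, mul_assoc]
      · intro t ht
        obtain ⟨t₁, ht₁, f₁', hf₁', e₁⟩ := h₁.2 t ht
        obtain ⟨t₂, ht₂, f₂', hf₂', e₂⟩ := h₂.2 t₁ ht₁
        refine ⟨t₂, ht₂, f₂' * f₁', mul_mem hf₂' hf₁', ?_⟩
        rw [mul_inv_rev, mul_assoc, e₁, ← mul_assoc, e₂, mul_assoc]
    | inv f _ h =>
      exact ⟨by simpa using h.2, by simpa using h.1⟩
  have hperm2 : ((FF A B : Subgroup G) : Set G) * (T : Set G) = (T : Set G) * ((FF A B : Subgroup G) : Set G) := by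
    apply Set.Subset.antisymm
    · rintro _ ⟨f, hf, t, ht, rfl⟩
      obtain ⟨t', ht', f', hf', e⟩ := (hstep f hf).1 t ht
      exact ⟨t', ht', f', hf', e.symm⟩
    · rintro _ ⟨t, ht, f, hf, rfl⟩
      obtain ⟨t', ht', f', hf', e⟩ := (hstep f hf).2 t⁻¹ (inv_mem ht)
      refine ⟨f'⁻¹, inv_mem hf', t'⁻¹, inv_mem ht', ?_⟩
      show f'⁻¹ * t'⁻¹ = t * f
      rw [← mul_inv_rev, ← e]
      group
  refine ⟨FF A B ⊔ T, ?_, Cfsg.Agent.Lib.HallSolv.coe_sup_of_permute _ _ hperm2⟩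
  intro htop
  have hmul := Cfsg.Agent.Lib.HallSolv.coe_sup_of_permute _ _ hperm2
  rw [htop] at hmul
  have huniv : ∀ g : G, ∃ f ∈ FF A B, ∃ t ∈ T, g = f * t := by
    intro g
    have : g ∈ ((⊤ : Subgroup G) : Set G) := trivial
    rw [hmul] at this
    obtain ⟨f, hf, t, ht, e⟩ := this
    exact ⟨f, hf, t, ht, e.symm⟩
  obtain ⟨S₀, hS₀ne, hS₀⟩ := hQ 1
  rw [map_conj_self (one_mem _)] at hS₀
  have hAS : ∀ a ∈ A, a ∈ S₀ := by
    intro a ha
    have : a ∈ (S₀ : Set G) := by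
      rw [hS₀]
      exact ⟨a, ha, 1, one_mem _, mul_one a⟩
    exact this
  have hBS : ∀ b ∈ B, b ∈ S₀ := by
    intro b hb
    have : b ∈ (S₀ : Set G) := by
      rw [hS₀]
      exact ⟨1, one_mem _, b, hb, one_mul b⟩
    exact this
  have hFS : FF A B ≤ S₀ := by
    refine (Subgroup.closure_le _).2 ?_
    rintro _ ⟨b, hb, a, ha, rfl⟩
    exact mul_mem (mul_mem (hBS b hb) (hAS a ha)) (inv_mem (hBS b hb))
  obtain ⟨f, hf, t, ht, hxe⟩ := huniv x⁻¹
  apply hS₀ne
  rw [eq_top_iff]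
  intro g _
  obtain ⟨f₁, hf₁, τ, hτ, hg⟩ := huniv (g * f)
  have hτB : f * τ * f⁻¹ ∈ B := by
    have h1 : t⁻¹ * τ * t ∈ T := mul_mem (mul_mem (inv_mem ht) hτ) ht
    obtain ⟨z, hz, hze⟩ := h1
    have hze' : x * z * x⁻¹ = t⁻¹ * τ * t := hze
    have h2 : f * τ * f⁻¹ = z := by
      have h3 : f = x⁻¹ * t⁻¹ := by
        rw [hxe]; group
      rw [h3]
      have h4 : x⁻¹ * t⁻¹ * τ * (x⁻¹ * t⁻¹)⁻¹ = x⁻¹ * (t⁻¹ * τ * t) * x := by group
      rw [h4, ← hze']
      group
    rw [h2]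
    exact hz
  have hge : g = f₁ * f⁻¹ * (f * τ * f⁻¹) := by
    have : g = f₁ * τ * f⁻¹ := by
      rw [← hg]; group
    rw [this]; group
  rw [hge]
  exact mul_mem (hFS (mul_mem hf₁ (inv_mem hf))) (hBS _ hτB)

theorem qq_conj {A B : Subgroup G} (hQ : QQ A B) (x : G) : QQ A (B.map (MulAut.conj x).toMonoidHom) := by
  intro y
  rw [map_conj_comp]
  exact hQ (y * x)

theorem kegel_aux (n : ℕ) : ∀ A B : Subgroup G, Nat.card G - Nat.card A = n → QQ A B →
    ∃ N : Subgroup G, N.Normal ∧ N ≠ ⊤ ∧ (A ≤ N ∨ B ≤ N) := by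
  induction n using Nat.strong_induction_on with
  | _ n ih =>
  intro A B hn hQ
  by_cases hN₀ : Subgroup.normalClosure (B : Set G) = ⊤
  · by_cases hall : ∀ x : G, ∀ b ∈ B.map (MulAut.conj x).toMonoidHom, b ∈ Subgroup.normalizer (A : Set G)
    · have hle : Subgroup.normalClosure (B : Set G) ≤ Subgroup.normalizer (A : Set G) := by
        refine (Subgroup.closure_le _).2 ?_
        intro y hy
        rw [Group.mem_conjugatesOfSet_iff] at hy
        obtain ⟨b, hb, hby⟩ := hy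
        obtain ⟨c, hc⟩ := isConj_iff.1 hby
        exact hall c y ⟨b, hb, hc⟩
      rw [hN₀, top_le_iff] at hle
      obtain ⟨S, hSne, hS⟩ := hQ 1
      refine ⟨A, Subgroup.normalizer_eq_top_iff.1 hle, ?_, Or.inl le_rfl⟩
      intro htop
      apply hSne
      rw [eq_top_iff]
      intro g _
      have hg : g ∈ A := by rw [htop]; trivial
      have : g ∈ (S : Set G) := by
        rw [hS]
        exact ⟨g, hg, 1, one_mem _, mul_one g⟩
      exact this
    · push_neg at hall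
      obtain ⟨x, b, hb, hbn⟩ := hall
      have hQx := qq_conj hQ x
      have hQF := step hQx
      have hAF := le_FF A (B.map (MulAut.conj x).toMonoidHom)
      have hne : A ≠ FF A (B.map (MulAut.conj x).toMonoidHom) := by
        intro he
        apply hbn
        apply Cfsg.Agent.Lib.H5Basic.mem_normalizer_of_map_conj_le
        rintro _ ⟨a, ha, rfl⟩
        rw [he]
        exact Subgroup.subset_closure ⟨b, hb, a, ha, rfl⟩
      have hlt : Nat.card A < Nat.card (FF A (B.map (MulAut.conj x).toMonoidHom)) :=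
        lt_of_le_of_ne (Subgroup.card_le_of_le hAF)
          (fun h => hne (Subgroup.eq_of_le_of_card_ge hAF h.ge))
      have hle : Nat.card (FF A (B.map (MulAut.conj x).toMonoidHom)) ≤ Nat.card G :=
        Subgroup.card_le_card_group _
      obtain ⟨N, hNn, hNne, hN⟩ := ih _ (by omega) _ _ rfl hQF
      refine ⟨N, hNn, hNne, ?_⟩
      rcases hN with h | h
      · exact Or.inl (le_trans hAF h)
      · right
        intro y hy
        have h1 : x * y * x⁻¹ ∈ N := h ⟨y, hy, rfl⟩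
        have := hNn.conj_mem _ h1 x⁻¹
        simpa [mul_assoc] using this
  · exact ⟨_, Subgroup.normalClosure_normal, hN₀, Or.inr Subgroup.subset_normalClosure⟩

end Cfsg.Agent.Lib.Kegel
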