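import Mathlib
import Cfsg.Prelude.Def_MonsterType
import Cfsg.Agent.Lib.LargeExtra

/-! Pairs of conjugate large extraspecial subgroups. -/

namespace Cfsg.Agent.Lib.LargeExtraPair

open Cfsg.Agent.Lib.LargeExtra

variable {G : Type*} [Group G]

theorem mem_cent_singleton {x a : G} : x ∈ Subgroup.centralizer ({a} : Set G) ↔ x * a = a * x := by
  rw [Subgroup.mem_centralizer_iff]
  constructor
  · intro h
    exact (h a rfl).symm
  · intro h w hw
    have hw' : w = a := hw
    rw [hw']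
    exact h.symm

/-- The data of `Q` and its conjugate `Q'`, with central involutions `z`, `z'` each lying in the other. -/
structure LE (Q Q' : Subgroup G) (z z' g : G) : Prop where
  es : ES Q z
  es' : ES Q' z'
  mem' : ∀ x, x ∈ Q' ↔ g⁻¹ * x * g ∈ Q
  conj : g * z * g⁻¹ = z'
  z'Q : z' ∈ Q
  zQ' : z ∈ Q'
  ne : z' ≠ z
  N1 : ∀ x, x * z = z * x → ∀ a ∈ Q, x * a * x⁻¹ ∈ Q
  N2 : ∀ x, x * z' = z' * x → ∀ a ∈ Q', x * a * x⁻¹ ∈ Q'
  CQ : ∀ x, (∀ a ∈ Q, a * x = x * a) → x = 1 ∨ x = z
  CQ' : ∀ x, (∀ a ∈ Q', a * x = x * a) → x = 1 ∨ x = z'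

variable {Q Q' : Subgroup G} {z z' g : G}

theorem LE.symm (h : LE Q Q' z z' g) : LE Q' Q z' z g⁻¹ := by
  refine ⟨h.es', h.es, ?_, ?_, h.zQ', h.z'Q, h.ne.symm, h.N2, h.N1, h.CQ', h.CQ⟩
  · intro x
    rw [h.mem', inv_inv]
    have : g⁻¹ * (g * x * g⁻¹) * g = x := by group
    rw [this]
  · rw [inv_inv, ← h.conj]
    group

/-- Construction from an extraspecial subgroup of width at least two, self-centralizing and normal in the
centralizer of its centre. -/
theorem LE.of_pre {G : Type*} [Group G] {Q : Subgroup G} [Finite Q]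
    (hL2 : Subgroup.centralizer (Q : Set G) = ((Subgroup.center ↥Q).map Q.subtype))
    (hL3 : Subgroup.centralizer (((Subgroup.center ↥Q).map Q.subtype) : Set G) ≤ Subgroup.normalizer (Q : Set G))
    {z : G}
    (hES : ES Q z) (hZmem : ∀ x, x ∈ (Subgroup.center ↥Q).map Q.subtype ↔ x = 1 ∨ x = z)
    {w : ℕ} (hw : 2 ≤ w) (hcard : Nat.card ↥Q = 2 ^ (2 * w + 1)) {g : G}
    (hgz : g * z * g⁻¹ ≠ z) (hgQ : g * z * g⁻¹ ∈ Q) :
    LE Q (Q.map (MulAut.conj g).toMonoidHom) z (g * z * g⁻¹) g := by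
  classical
  have hES' := hES.conj g
  set Z := (Subgroup.center ↥Q).map Q.subtype with hZdef
  set z' := g * z * g⁻¹ with hz'def
  set Q' := Q.map (MulAut.conj g).toMonoidHom with hQ'def
  have hmem : ∀ x, x ∈ Q' ↔ g⁻¹ * x * g ∈ Q := by
    intro x
    constructor
    · rintro ⟨a, ha, rfl⟩
      have : g⁻¹ * ((MulAut.conj g).toMonoidHom a) * g = a := by
        simp [MulAut.conj_apply]
        group
      rw [this]
      exact ha
    · intro hx
      refine ⟨_, hx, ?_⟩
      simp [MulAut.conj_apply]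
      group
  have hz'Q : z' ∈ Q := hgQ
  have hz1 : z ≠ 1 := hES.ne_one
  have hz'1 : z' ≠ 1 := hES'.ne_one
  have hne : z' ≠ z := hgz
  have N1 : ∀ x, x * z = z * x → ∀ a ∈ Q, x * a * x⁻¹ ∈ Q := by
    intro x hx a ha
    have hxC : x ∈ Subgroup.centralizer (Z : Set G) := by
      rw [Subgroup.mem_centralizer_iff]
      intro w hw
      rcases (hZmem w).mp hw with rfl | rfl
      · simp
      · exact hx.symm
    exact (Subgroup.mem_normalizer_iff.mp (hL3 hxC) a).mp ha
  have N2 : ∀ x, x * z' = z' * x → ∀ a ∈ Q', x * a * x⁻¹ ∈ Q' := by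
    intro x hx a ha
    rw [hmem] at ha ⊢
    have h1 : (g⁻¹ * x * g) * z = z * (g⁻¹ * x * g) := by
      have : x * (g * z * g⁻¹) = (g * z * g⁻¹) * x := hx
      calc (g⁻¹ * x * g) * z = g⁻¹ * (x * (g * z * g⁻¹)) * g := by group
        _ = g⁻¹ * ((g * z * g⁻¹) * x) * g := by rw [this]
        _ = _ := by group
    have h2 := N1 _ h1 _ ha
    have h3 : (g⁻¹ * x * g) * (g⁻¹ * a * g) * (g⁻¹ * x * g)⁻¹ = g⁻¹ * (x * a * x⁻¹) * g := by group
    rwa [h3] at h2
  have CQ : ∀ x, (∀ a ∈ Q, a * x = x * a) → x = 1 ∨ x = z := by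
    intro x hx
    have h1 : x ∈ Subgroup.centralizer (Q : Set G) := by
      rw [Subgroup.mem_centralizer_iff]
      exact hx
    rw [hL2] at h1
    exact (hZmem _).mp h1
  have CQ' : ∀ x, (∀ a ∈ Q', a * x = x * a) → x = 1 ∨ x = z' := by
    intro x hx
    have h1 : g⁻¹ * x * g ∈ Subgroup.centralizer (Q : Set G) := by
      rw [Subgroup.mem_centralizer_iff]
      intro a ha
      have ha' : g * a * g⁻¹ ∈ Q' := ⟨a, ha, rfl⟩
      have h2 := hx _ ha'
      calc a * (g⁻¹ * x * g) = g⁻¹ * ((g * a * g⁻¹) * x) * g := by group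
        _ = g⁻¹ * (x * (g * a * g⁻¹)) * g := by rw [h2]
        _ = _ := by group
    rw [hL2] at h1
    rcases (hZmem _).mp h1 with h2 | h2
    · left
      have h3 : x = g * (g⁻¹ * x * g) * g⁻¹ := by group
      rw [h3, h2]
      group
    · right
      have h3 : x = g * (g⁻¹ * x * g) * g⁻¹ := by group
      rw [h3, h2]
  obtain ⟨y, hyQ, hy⟩ := exists_swap hES hz'Q hz'1 hne
  obtain ⟨r, hr, r', hr', hrz, hr'z, hrr⟩ : ∃ r ∈ Q, ∃ r' ∈ Q, r * z' = z' * r ∧ r' * z' = z' * r' ∧ B r r' = z := by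
    by_contra hcon
    push Not at hcon
    have hab : ∀ r ∈ Q, ∀ r' ∈ Q, r * z' = z' * r → r' * z' = z' * r' → B r r' = 1 := by
      intro r hr r' hr' h1 h2
      exact (hES.comm r hr r' hr').resolve_right (hcon r hr r' hr' h1 h2)
    have hzinv : z⁻¹ = z := inv_z hES
    have hz'inv : z'⁻¹ = z' := inv_z hES'
    have hsplit : ∀ q ∈ Q, q * z' = z' * q ∨ (y⁻¹ * q) * z' = z' * (y⁻¹ * q) := by
      intro q hq
      rcases hES.comm q hq z' hz'Q with h1 | h1
      · exact Or.inl (B_eq_one_iff.mp h1)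
      · right
        apply B_eq_one_iff.mp
        rw [B_mul_left hES (Q.inv_mem hyQ) hq hz'Q, B_inv_left hES hyQ hz'Q, hy, h1, hzinv, hES.sq]
    have hW : ∀ r ∈ Q, r * z' = z' * r → r = 1 ∨ r = z ∨ r = z' ∨ r = z * z' := by
      intro r hr hrz
      have hgen : ∀ t ∈ Q, t * z' = z' * t → B t y = 1 → ∀ q ∈ Q, t * q = q * t := by
        intro t ht htz hty q hq
        apply B_eq_one_iff.mp
        rcases hsplit q hq with h1 | h1
        · exact hab t ht q hq htz h1
        · have h2 := hab t ht _ (Q.mul_mem (Q.inv_mem hyQ) hq) htz h1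
          have h3 : q = y * (y⁻¹ * q) := by group
          rw [h3, B_mul_right hES ht hyQ (Q.mul_mem (Q.inv_mem hyQ) hq), hty, h2, one_mul]
      by_cases hry : B r y = 1
      · rcases hES.cen r hr (hgen r hr hrz hry) with h1 | h1
        · exact Or.inl h1
        · exact Or.inr (Or.inl h1)
      · have hryz : B r y = z := (hES.comm r hr y hyQ).resolve_left hry
        have hrz'Q : r * z' ∈ Q := Q.mul_mem hr hz'Q
        have hrz'c : (r * z') * z' = z' * (r * z') := by
          calc (r * z') * z' = r * (z' * z') := by group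
            _ = r * 1 := by rw [hES'.sq]
            _ = (r * z') * z'⁻¹ := by group
            _ = (z' * r) * z'⁻¹ := by rw [hrz]
            _ = z' * r * z' := by rw [hz'inv]
            _ = _ := by group
        have hty : B (r * z') y = 1 := by
          rw [B_mul_left hES hr hz'Q hyQ, hryz, B_swap y z', hy, hzinv, hES.sq]
        rcases hES.cen _ hrz'Q (hgen _ hrz'Q hrz'c hty) with h1 | h1
        · right; right; left
          have h2 := eq_inv_of_mul_eq_one_left h1
          rw [h2, hz'inv]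
        · right; right; right
          have h2 := eq_mul_inv_of_mul_eq h1
          rw [h2, hz'inv]
    have hsub : ∀ q ∈ Q, q ∈ ([1, z, z', z * z', y, y * z, y * z', y * (z * z')] : List G) := by
      intro q hq
      rcases hsplit q hq with h1 | h1
      · rcases hW q hq h1 with rfl | rfl | rfl | rfl <;> simp
      · have hq' : q = y * (y⁻¹ * q) := by group
        rcases hW _ (Q.mul_mem (Q.inv_mem hyQ) hq) h1 with h2 | h2 | h2 | h2 <;> rw [hq', h2] <;> simp
    have hle : Nat.card Q ≤ 8 := by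
      have h1 : ((Q : Set G)).ncard ≤ ((([1, z, z', z * z', y, y * z, y * z', y * (z * z')] : List G).toFinset : Finset G) : Set G).ncard := by
        apply Set.ncard_le_ncard
        · intro q hq
          simpa using hsub q hq
        · exact Finset.finite_toSet _
      rw [Set.ncard_coe_finset] at h1
      have h2 := List.toFinset_card_le ([1, z, z', z * z', y, y * z, y * z', y * (z * z')] : List G)
      have h3 : Nat.card Q = (Q : Set G).ncard := (Nat.card_coe_set_eq _)
      rw [h3]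
      simpa using h1.trans h2
    rw [hcard] at hle
    have h4 : (2 : ℕ) ^ 5 ≤ 2 ^ (2 * w + 1) := Nat.pow_le_pow_right (by norm_num) (by omega)
    omega
  have hzQ' : z ∈ Q' := core hES hES' hmem rfl hz'Q hne N1 N2 CQ' hr hr' hrz hr'z hrr
  exact ⟨hES, hES', hmem, rfl, hz'Q, hzQ', hne, N1, N2, CQ, CQ'⟩

/-- Construction from a large extraspecial subgroup of width at least two. -/
theorem LE.of_large {G : Type*} [Group G] [Finite G] {Q : Subgroup G} (hQ : Cfsg.IsLargeExtraspecial Q) {z : G}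
    (hES : ES Q z) (hZmem : ∀ x, x ∈ (Subgroup.center ↥Q).map Q.subtype ↔ x = 1 ∨ x = z)
    {w : ℕ} (hw : 2 ≤ w) (hcard : Nat.card ↥Q = 2 ^ (2 * w + 1)) {g : G}
    (hgz : g * z * g⁻¹ ≠ z) (hgQ : g * z * g⁻¹ ∈ Q) :
    LE Q (Q.map (MulAut.conj g).toMonoidHom) z (g * z * g⁻¹) g :=
  LE.of_pre hQ.2.1 hQ.2.2.1 hES hZmem hw hcard hgz hgQ

section basic

variable (h : LE Q Q' z z' g)
include h

theorem LE.comm_zz : z' * z = z * z' := h.es.zcen z' h.z'Q

theorem LE.z_ne_one : z ≠ 1 := h.es.ne_one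

theorem LE.z'_ne_one : z' ≠ 1 := h.es'.ne_one

theorem LE.z_inv : z⁻¹ = z := inv_z h.es

theorem LE.z'_inv : z'⁻¹ = z' := inv_z h.es'

theorem LE.exists_y : ∃ y ∈ Q, B y z' = z := exists_swap h.es h.z'Q h.z'_ne_one h.ne

theorem LE.conj_z_of_mem {q : G} (hq : q ∈ Q) : q * z * q⁻¹ = z := by
  rw [h.es.zcen q hq]
  group

theorem LE.inv_conj_z_of_mem {q : G} (hq : q ∈ Q) : q⁻¹ * z * q = z := by
  have := h.conj_z_of_mem (Q.inv_mem hq)
  rwa [inv_inv] at this

/-- `Q` splits over the stabilizer of `z'`. -/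
theorem LE.split {y : G} (hyQ : y ∈ Q) (hy : B y z' = z) {q : G} (hq : q ∈ Q) :
    q * z' = z' * q ∨ (y⁻¹ * q) * z' = z' * (y⁻¹ * q) := by
  rcases h.es.comm q hq z' h.z'Q with h1 | h1
  · exact Or.inl (B_eq_one_iff.mp h1)
  · right
    apply B_eq_one_iff.mp
    rw [B_mul_left h.es (Q.inv_mem hyQ) hq h.z'Q, B_inv_left h.es hyQ h.z'Q, hy, h1, h.z_inv, h.es.sq]

/-- An element of `Q` centralizing the stabilizer of `z'` in `Q` lies in the four-group. -/
theorem LE.mem_four_of_comm {f : G} (hf : f ∈ Q) (hc : ∀ s ∈ Q, s * z' = z' * s → f * s = s * f) :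
    f = 1 ∨ f = z ∨ f = z' ∨ f = z * z' := by
  obtain ⟨y, hyQ, hy⟩ := h.exists_y
  have hfz' : f * z' = z' * f := hc z' h.z'Q rfl
  by_cases hfy : B f y = 1
  · have hall : ∀ q ∈ Q, f * q = q * f := by
      intro q hq
      apply B_eq_one_iff.mp
      rcases h.split hyQ hy hq with h1 | h1
      · exact B_eq_one_iff.mpr (hc q hq h1)
      · have h2 := B_eq_one_iff.mpr (hc _ (Q.mul_mem (Q.inv_mem hyQ) hq) h1)
        have h3 : q = y * (y⁻¹ * q) := by group
        rw [h3, B_mul_right h.es hf hyQ (Q.mul_mem (Q.inv_mem hyQ) hq), hfy, h2, one_mul]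
    rcases h.es.cen f hf hall with h1 | h1
    · exact Or.inl h1
    · exact Or.inr (Or.inl h1)
  · have hfyz : B f y = z := (h.es.comm f hf y hyQ).resolve_left hfy
    have hfz'Q : f * z' ∈ Q := Q.mul_mem hf h.z'Q
    have hc2 : ∀ q ∈ Q, q * z' = z' * q → B (f * z') q = 1 := by
      intro q hq hqz
      rw [B_mul_left h.es hf h.z'Q hq, B_eq_one_iff.mpr (hc q hq hqz), one_mul]
      exact B_eq_one_iff.mpr hqz.symm
    have hzy : B (f * z') y = 1 := by
      rw [B_mul_left h.es hf h.z'Q hyQ, hfyz, B_swap y z', hy, h.z_inv, h.es.sq]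
    have hall : ∀ q ∈ Q, (f * z') * q = q * (f * z') := by
      intro q hq
      apply B_eq_one_iff.mp
      rcases h.split hyQ hy hq with h1 | h1
      · exact hc2 q hq h1
      · have h2 := hc2 _ (Q.mul_mem (Q.inv_mem hyQ) hq) h1
        have h3 : q = y * (y⁻¹ * q) := by group
        rw [h3, B_mul_right h.es hfz'Q hyQ (Q.mul_mem (Q.inv_mem hyQ) hq), hzy, h2, one_mul]
    rcases h.es.cen _ hfz'Q hall with h1 | h1
    · right; right; left
      have h2 := eq_inv_of_mul_eq_one_left h1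
      rw [h2, h.z'_inv]
    · right; right; right
      have h2 := eq_mul_inv_of_mul_eq h1
      rw [h2, h.z'_inv]

/-- An element normalizing `Q` fixing `z`, `z'` and centralizing the stabilizer of `z'` in `Q` lies in the four-group. -/
theorem LE.mem_four_of_comm' {x : G} (hxz : x * z = z * x) (hxz' : x * z' = z' * x)
    (hc : ∀ s ∈ Q, s * z' = z' * s → x * s = s * x) :
    x = 1 ∨ x = z ∨ x = z' ∨ x = z * z' := by
  obtain ⟨y, hyQ, hy⟩ := h.exists_y
  have hxy : x * y * x⁻¹ ∈ Q := h.N1 x hxz y hyQ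
  set f := x * y * x⁻¹ * y⁻¹ with hfdef
  have hfQ : f ∈ Q := Q.mul_mem hxy (Q.inv_mem hyQ)
  have hxyf : x * y * x⁻¹ = f * y := by rw [hfdef]; group
  have hzc : ∀ a, (a = 1 ∨ a = z) → x * a * x⁻¹ = a := by
    rintro a (rfl | rfl)
    · group
    · rw [hxz]; group
  have hfcomm : ∀ s ∈ Q, s * z' = z' * s → f * s = s * f := by
    intro s hs hsz
    have h1 := hc s hs hsz
    have h2 : x * s * x⁻¹ = s := by rw [h1]; group
    have h3 := B_conj x y s
    rw [h2, hxyf, B_mul_left h.es hfQ hyQ hs, hzc _ (h.es.comm y hyQ s hs)] at h3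
    have h4 : B f s = 1 := by
      have h5 := (mul_eq_right.mp h3.symm)
      exact h5
    exact B_eq_one_iff.mp h4
  have hy2 : x * (y * y) * x⁻¹ = y * y := hzc _ (h.es.pow2 y hyQ)
  have hf4 := h.mem_four_of_comm hfQ hfcomm
  have hsq : (f * y) * (f * y) = y * y := by
    rw [← hxyf]
    calc x * y * x⁻¹ * (x * y * x⁻¹) = x * (y * y) * x⁻¹ := by group
      _ = y * y := hy2
  have hy1 : y * z' * y⁻¹ = z * z' := swap_conj h.es hyQ hy
  have hcz : ∀ t, (t * z = z * t) → True := fun _ _ => trivial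
  have hfz'bad : (z' * y) * (z' * y) = z * (y * y) := by
    have h1 : y * z' = z * z' * y := by
      calc y * z' = (y * z' * y⁻¹) * y := by group
        _ = _ := by rw [hy1]
    calc (z' * y) * (z' * y) = z' * (y * z') * y := by group
      _ = z' * (z * z' * y) * y := by rw [h1]
      _ = (z' * z) * z' * (y * y) := by group
      _ = (z * z') * z' * (y * y) := by rw [h.comm_zz]
      _ = z * (z' * z') * (y * y) := by group
      _ = _ := by rw [h.es'.sq]; group
  have hzyy : y * y * z = z * (y * y) := h.es.zcen _ (Q.mul_mem hyQ hyQ)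
  have hcases : f = 1 ∨ f = z := by
    rcases hf4 with h1 | h1 | h1 | h1
    · exact Or.inl h1
    · exact Or.inr h1
    · exfalso
      rw [h1, hfz'bad] at hsq
      exact h.z_ne_one (mul_eq_right.mp hsq)
    · exfalso
      rw [h1] at hsq
      have h2 : (z * z' * y) * (z * z' * y) = (z' * y) * (z' * y) := by
        have hzc1 : z' * y * z = z * (z' * y) := h.es.zcen _ (Q.mul_mem h.z'Q hyQ)
        calc (z * z' * y) * (z * z' * y) = z * (z' * y) * (z * (z' * y)) := by group
          _ = z * (z' * y) * ((z' * y) * z) := by rw [hzc1]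
          _ = (z * ((z' * y) * (z' * y))) * z := by group
          _ = (((z' * y) * (z' * y)) * z) * z := by
              rw [(h.es.zcen _ (Q.mul_mem (Q.mul_mem h.z'Q hyQ) (Q.mul_mem h.z'Q hyQ)))]
          _ = ((z' * y) * (z' * y)) * (z * z) := by group
          _ = _ := by rw [h.es.sq]; group
      rw [h2, hfz'bad] at hsq
      exact h.z_ne_one (mul_eq_right.mp hsq)
  have hzQcomm : ∀ a ∈ Q, z * a = a * z := fun a ha => (h.es.zcen a ha).symm
  rcases hcases with hf1 | hf1
  · -- x centralizes Q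
    have hxy' : x * y = y * x := by
      have h1 : x * y * x⁻¹ = y := by rw [hxyf, hf1]; group
      exact mul_inv_eq_iff_eq_mul.mp h1
    have hall : ∀ a ∈ Q, a * x = x * a := by
      intro q hq
      rcases h.split hyQ hy hq with h1 | h1
      · exact (hc q hq h1).symm
      · have h2 := hc _ (Q.mul_mem (Q.inv_mem hyQ) hq) h1
        have h3 : q = y * (y⁻¹ * q) := by group
        rw [h3]
        calc y * (y⁻¹ * q) * x = y * ((y⁻¹ * q) * x) := by group
          _ = y * (x * (y⁻¹ * q)) := by rw [h2]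
          _ = (y * x) * (y⁻¹ * q) := by group
          _ = (x * y) * (y⁻¹ * q) := by rw [hxy']
          _ = _ := by group
    rcases h.CQ x hall with h1 | h1
    · exact Or.inl h1
    · exact Or.inr (Or.inl h1)
  · -- x z' centralizes Q
    have hxy' : (x * z') * y = y * (x * z') := by
      have h1 : x * y = z * y * x := by
        have h2 : x * y * x⁻¹ = z * y := by rw [hxyf, hf1]
        exact mul_inv_eq_iff_eq_mul.mp h2
      have h3 : y * z' = z * z' * y := by
        calc y * z' = (y * z' * y⁻¹) * y := by group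
          _ = _ := by rw [hy1]
      calc (x * z') * y = x * (z' * y) := by group
        _ = x * (z⁻¹ * (z * z' * y)) := by group
        _ = x * (z⁻¹ * (y * z')) := by rw [h3]
        _ = x * (z * (y * z')) := by rw [h.z_inv]
        _ = (x * z) * y * z' := by group
        _ = (z * x) * y * z' := by rw [hxz]
        _ = z * (x * y) * z' := by group
        _ = z * (z * y * x) * z' := by rw [h1]
        _ = (z * z) * y * (x * z') := by group
        _ = _ := by rw [h.es.sq]; group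
    have hall : ∀ a ∈ Q, a * (x * z') = (x * z') * a := by
      intro q hq
      have hqz : ∀ s ∈ Q, s * z' = z' * s → s * (x * z') = (x * z') * s := by
        intro s hs hsz
        have h2 := hc s hs hsz
        calc s * (x * z') = (s * x) * z' := by group
          _ = (x * s) * z' := by rw [h2]
          _ = x * (s * z') := by group
          _ = x * (z' * s) := by rw [hsz]
          _ = _ := by group
      rcases h.split hyQ hy hq with h1 | h1
      · exact hqz q hq h1
      · have h2 := hqz _ (Q.mul_mem (Q.inv_mem hyQ) hq) h1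
        have h3 : q = y * (y⁻¹ * q) := by group
        rw [h3]
        calc y * (y⁻¹ * q) * (x * z') = y * ((y⁻¹ * q) * (x * z')) := by group
          _ = y * ((x * z') * (y⁻¹ * q)) := by rw [h2]
          _ = (y * (x * z')) * (y⁻¹ * q) := by group
          _ = ((x * z') * y) * (y⁻¹ * q) := by rw [hxy']
          _ = _ := by group
    rcases h.CQ _ hall with h1 | h1
    · right; right; left
      have h2 := eq_inv_of_mul_eq_one_left h1
      rw [h2, h.z'_inv]
    · right; right; right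
      have h2 := eq_mul_inv_of_mul_eq h1
      rw [h2, h.z'_inv]

/-- Elements of `Q ∩ Q'` have square one. -/
theorem LE.inter_sq {x : G} (hx : x ∈ Q) (hx' : x ∈ Q') : x * x = 1 := by
  rcases h.es.pow2 x hx with h1 | h1
  · exact h1
  · rcases h.es'.pow2 x hx' with h2 | h2
    · exact h2
    · exact absurd (h2.symm.trans h1) h.ne

/-- Elements of `Q ∩ Q'` commute. -/
theorem LE.inter_comm {x y : G} (hx : x ∈ Q) (hx' : x ∈ Q') (hy : y ∈ Q) (hy' : y ∈ Q') : x * y = y * x := by
  apply B_eq_one_iff.mp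
  rcases h.es.comm x hx y hy with h1 | h1
  · exact h1
  · rcases h.es'.comm x hx' y hy' with h2 | h2
    · exact h2
    · exact absurd (h2.symm.trans h1) h.ne

/-- commutator of `W` and `W'` lies in `Q ∩ Q'`. -/
theorem LE.comm_W_W' {r c : G} (hr : r ∈ Q) (hrz : r * z' = z' * r) (hc : c ∈ Q') (hcz : c * z = z * c) :
    B r c ∈ Q ∧ B r c ∈ Q' := by
  constructor
  · have : B r c = r * (c * r⁻¹ * c⁻¹) := by unfold B; group
    rw [this]
    exact Q.mul_mem hr (h.N1 c hcz _ (Q.inv_mem hr))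
  · exact Q'.mul_mem (h.N2 r hrz c hc) (Q'.inv_mem hc)

end basic

/-- The subgroup of elements `x` normalizing `T` with `B x y ∈ T`. -/
def commSub (T : Subgroup G) (y : G) : Subgroup G where
  carrier := {x | x ∈ Subgroup.normalizer (T : Set G) ∧ B x y ∈ T}
  mul_mem' := by
    rintro a b ⟨ha, ha'⟩ ⟨hb, hb'⟩
    refine ⟨Subgroup.mul_mem _ ha hb, ?_⟩
    have : B (a * b) y = (a * B b y * a⁻¹) * B a y := by unfold B; group
    rw [this]
    exact T.mul_mem ((Subgroup.mem_normalizer_iff.mp ha _).mp hb') ha'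
  one_mem' := by
    refine ⟨Subgroup.one_mem _, ?_⟩
    rw [B_one_left]
    exact T.one_mem
  inv_mem' := by
    rintro a ⟨ha, ha'⟩
    have hainv := Subgroup.inv_mem _ ha
    refine ⟨hainv, ?_⟩
    have : B a⁻¹ y = a⁻¹ * (B a y)⁻¹ * a := by unfold B; group
    rw [this]
    have h1 := (Subgroup.mem_normalizer_iff.mp hainv _).mp (T.inv_mem ha')
    rwa [inv_inv] at h1

theorem comm_mem_of_sup {T A C : Subgroup G} (hA : A ≤ Subgroup.normalizer (T : Set G))
    (hC : C ≤ Subgroup.normalizer (T : Set G))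
    (hAA : ∀ a ∈ A, ∀ b ∈ A, B a b ∈ T) (hAC : ∀ a ∈ A, ∀ c ∈ C, B a c ∈ T)
    (hCC : ∀ a ∈ C, ∀ b ∈ C, B a b ∈ T) : ∀ x ∈ A ⊔ C, ∀ y ∈ A ⊔ C, B x y ∈ T := by
  have h1 : ∀ y ∈ A, ∀ x ∈ A ⊔ C, B x y ∈ T := by
    intro y hy x hx
    have hle : A ⊔ C ≤ commSub T y := by
      apply sup_le
      · intro a ha
        exact ⟨hA ha, hAA a ha y hy⟩
      · intro c hc
        refine ⟨hC hc, ?_⟩
        rw [B_swap y c]
        exact T.inv_mem (hAC y hy c hc)
    exact (hle hx).2
  have h2 : ∀ y ∈ C, ∀ x ∈ A ⊔ C, B x y ∈ T := by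
    intro y hy x hx
    have hle : A ⊔ C ≤ commSub T y := by
      apply sup_le
      · intro a ha
        exact ⟨hA ha, hAC a ha y hy⟩
      · intro c hc
        exact ⟨hC hc, hCC c hc y hy⟩
    exact (hle hx).2
  intro x hx y hy
  have hle : A ⊔ C ≤ commSub T x := by
    apply sup_le
    · intro a ha
      refine ⟨hA ha, ?_⟩
      rw [B_swap x a]
      exact T.inv_mem (h1 a ha x hx)
    · intro c hc
      refine ⟨hC hc, ?_⟩
      rw [B_swap x c]
      exact T.inv_mem (h2 c hc x hx)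
  have h3 := (hle hy).2
  rw [B_swap] 
  exact T.inv_mem h3

/-- The subgroup `{1, a}` for an involution. -/
def two (a : G) (ha : a * a = 1) : Subgroup G where
  carrier := {x | x = 1 ∨ x = a}
  mul_mem' := by
    rintro x y (rfl | rfl) (rfl | rfl)
    · left; group
    · right; group
    · right; group
    · left; exact ha
  one_mem' := Or.inl rfl
  inv_mem' := by
    rintro x (rfl | rfl)
    · left; group
    · right
      rw [inv_eq_iff_mul_eq_one]
      exact ha

theorem mem_closure_pair {a b : G} (ha : a * a = 1) (hb : b * b = 1) (hab : a * b = b * a) (x : G) :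
    x ∈ Subgroup.closure ({a, b} : Set G) ↔ x = 1 ∨ x = a ∨ x = b ∨ x = a * b := by
  constructor
  · intro hx
    have hle : Subgroup.closure ({a, b} : Set G) ≤ two a ha ⊔ two b hb := by
      rw [Subgroup.closure_le]
      rintro w (rfl | rfl)
      · exact Subgroup.mem_sup_left (Or.inr rfl)
      · exact Subgroup.mem_sup_right (Or.inr rfl)
    obtain ⟨u, hu, v, hv, rfl⟩ := mem_sup_of_comm (A := two a ha) (C := two b hb) (by
      rintro u (rfl | rfl) v (rfl | rfl)
      · group
      · group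
      · group
      · exact hab) (hle hx)
    rcases hu with rfl | rfl <;> rcases hv with rfl | rfl <;> simp
  · have h1 : a ∈ Subgroup.closure ({a, b} : Set G) := Subgroup.subset_closure (Or.inl rfl)
    have h2 : b ∈ Subgroup.closure ({a, b} : Set G) := Subgroup.subset_closure (Or.inr rfl)
    rintro (rfl | rfl | rfl | rfl)
    · exact Subgroup.one_mem _
    · exact h1
    · exact h2
    · exact Subgroup.mul_mem _ h1 h2

section facts

variable (h : LE Q Q' z z' g)
include h

theorem LE.conj_mem_inter {q e : G} (hq : q ∈ Q) (he : e ∈ Q) (he' : e ∈ Q') :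
    q * e * q⁻¹ ∈ Q ∧ q * e * q⁻¹ ∈ Q' := by
  refine ⟨Q.mul_mem (Q.mul_mem hq he) (Q.inv_mem hq), ?_⟩
  have h1 : q * e * q⁻¹ = B q e * e := by unfold B; group
  rw [h1]
  rcases h.es.comm q hq e he with h2 | h2
  · rw [h2, one_mul]
    exact he'
  · rw [h2]
    exact Q'.mul_mem h.zQ' he'

theorem LE.Q_le_normE : Q ≤ Subgroup.normalizer ((Q ⊓ Q' : Subgroup G) : Set G) := by
  intro q hq
  rw [Subgroup.mem_normalizer_iff]
  intro e
  constructor
  · intro he
    exact h.conj_mem_inter hq he.1 he.2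
  · intro he
    have h1 := h.conj_mem_inter (Q.inv_mem hq) he.1 he.2
    have h2 : q⁻¹ * (q * e * q⁻¹) * q⁻¹⁻¹ = e := by group
    rw [h2] at h1
    exact h1

theorem LE.Q'_le_normE : Q' ≤ Subgroup.normalizer ((Q ⊓ Q' : Subgroup G) : Set G) := by
  have := h.symm.Q_le_normE
  rwa [inf_comm] at this

theorem LE.mem_V (x : G) : x ∈ Subgroup.closure ({z, z'} : Set G) ↔ x = 1 ∨ x = z ∨ x = z' ∨ x = z * z' :=
  mem_closure_pair h.es.sq h.es'.sq h.comm_zz.symm x

theorem LE.conj_mem_V {q v : G} (hq : q ∈ Q) (hv : v ∈ Subgroup.closure ({z, z'} : Set G)) :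
    q * v * q⁻¹ ∈ Subgroup.closure ({z, z'} : Set G) := by
  have hzV : z ∈ Subgroup.closure ({z, z'} : Set G) := Subgroup.subset_closure (Or.inl rfl)
  have hz'V : z' ∈ Subgroup.closure ({z, z'} : Set G) := Subgroup.subset_closure (Or.inr rfl)
  have hqz' : q * z' * q⁻¹ ∈ Subgroup.closure ({z, z'} : Set G) := by
    have h1 : q * z' * q⁻¹ = B q z' * z' := by unfold B; group
    rw [h1]
    rcases h.es.comm q hq z' h.z'Q with h2 | h2
    · rw [h2, one_mul]
      exact hz'V
    · rw [h2]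
      exact Subgroup.mul_mem _ hzV hz'V
  have hqz : q * z * q⁻¹ = z := h.conj_z_of_mem hq
  rw [h.mem_V] at hv
  rcases hv with rfl | rfl | rfl | rfl
  · simpa using Subgroup.one_mem _
  · rw [hqz]
    exact hzV
  · exact hqz'
  · have : q * (z * z') * q⁻¹ = (q * z * q⁻¹) * (q * z' * q⁻¹) := by group
    rw [this, hqz]
    exact Subgroup.mul_mem _ hzV hqz'

theorem LE.Q_le_normV : Q ≤ Subgroup.normalizer ((Subgroup.closure ({z, z'} : Set G) : Subgroup G) : Set G) := by
  intro q hq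
  rw [Subgroup.mem_normalizer_iff]
  intro e
  constructor
  · intro he
    exact h.conj_mem_V hq he
  · intro he
    have h1 := h.conj_mem_V (Q.inv_mem hq) he
    have h2 : q⁻¹ * (q * e * q⁻¹) * q⁻¹⁻¹ = e := by group
    rwa [h2] at h1

theorem LE.Q'_le_normV : Q' ≤ Subgroup.normalizer ((Subgroup.closure ({z, z'} : Set G) : Subgroup G) : Set G) := by
  have := h.symm.Q_le_normV
  rwa [Set.pair_comm] at this

theorem LE.comm_X_E {x e : G} (hx : x ∈ Q ⊔ Q') (he : e ∈ Q ⊓ Q') : B x e ∈ Subgroup.closure ({z, z'} : Set G) := by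
  have hzV : z ∈ Subgroup.closure ({z, z'} : Set G) := Subgroup.subset_closure (Or.inl rfl)
  have hz'V : z' ∈ Subgroup.closure ({z, z'} : Set G) := Subgroup.subset_closure (Or.inr rfl)
  have hle : Q ⊔ Q' ≤ commSub (Subgroup.closure ({z, z'} : Set G)) e := by
    apply sup_le
    · intro q hq
      refine ⟨h.Q_le_normV hq, ?_⟩
      rcases h.es.comm q hq e he.1 with h2 | h2
      · rw [h2]
        exact Subgroup.one_mem _
      · rw [h2]
        exact hzV
    · intro q hq
      refine ⟨h.Q'_le_normV hq, ?_⟩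
      rcases h.es'.comm q hq e he.2 with h2 | h2
      · rw [h2]
        exact Subgroup.one_mem _
      · rw [h2]
        exact hz'V
  exact (hle hx).2

/-- every element of `R` centralizes the four-group -/
theorem LE.R_comm {x : G} (hx : x ∈ (Q' ⊓ Subgroup.centralizer ({z} : Set G)) ⊔ (Q ⊓ Subgroup.centralizer ({z'} : Set G))) :
    x * z = z * x ∧ x * z' = z' * x := by
  have hle : (Q' ⊓ Subgroup.centralizer ({z} : Set G)) ⊔ (Q ⊓ Subgroup.centralizer ({z'} : Set G)) ≤
      Subgroup.centralizer ({z} : Set G) ⊓ Subgroup.centralizer ({z'} : Set G) := by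
    apply sup_le
    · intro c hc
      exact ⟨hc.2, mem_cent_singleton.mpr (h.es'.zcen c hc.1)⟩
    · intro c hc
      exact ⟨mem_cent_singleton.mpr (h.es.zcen c hc.1), hc.2⟩
  have h1 := hle hx
  exact ⟨mem_cent_singleton.mp h1.1, mem_cent_singleton.mp h1.2⟩

theorem LE.inter_le_R : Q ⊓ Q' ≤ (Q' ⊓ Subgroup.centralizer ({z} : Set G)) ⊔ (Q ⊓ Subgroup.centralizer ({z'} : Set G)) := by
  intro e he
  apply Subgroup.mem_sup_right
  exact ⟨he.1, mem_cent_singleton.mpr (h.es'.zcen e he.2)⟩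

theorem LE.inf_W : (Q' ⊓ Subgroup.centralizer ({z} : Set G)) ⊓ (Q ⊓ Subgroup.centralizer ({z'} : Set G)) = Q ⊓ Q' := by
  ext e
  constructor
  · rintro ⟨h1, h2⟩
    exact ⟨h2.1, h1.1⟩
  · rintro ⟨h1, h2⟩
    exact ⟨⟨h2, mem_cent_singleton.mpr (h.es.zcen e h1)⟩, ⟨h1, mem_cent_singleton.mpr (h.es'.zcen e h2)⟩⟩

theorem LE.R_comm_mem {x y : G} (hx : x ∈ (Q' ⊓ Subgroup.centralizer ({z} : Set G)) ⊔ (Q ⊓ Subgroup.centralizer ({z'} : Set G)))
    (hy : y ∈ (Q' ⊓ Subgroup.centralizer ({z} : Set G)) ⊔ (Q ⊓ Subgroup.centralizer ({z'} : Set G))) :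
    B x y ∈ Q ⊓ Q' := by
  refine comm_mem_of_sup (T := Q ⊓ Q') ?_ ?_ ?_ ?_ ?_ x hx y hy
  · exact fun c hc => h.Q'_le_normE hc.1
  · exact fun c hc => h.Q_le_normE hc.1
  · intro a ha b hb
    rcases h.es'.comm a ha.1 b hb.1 with h1 | h1
    · rw [h1]
      exact Subgroup.one_mem _
    · rw [h1]
      exact ⟨h.z'Q, h.es'.mem⟩
  · intro c hc r hr
    have h1 := h.comm_W_W' hr.1 (mem_cent_singleton.mp hr.2) hc.1 (mem_cent_singleton.mp hc.2)
    rw [B_swap r c]
    exact Subgroup.inv_mem _ ⟨h1.1, h1.2⟩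
  · intro a ha b hb
    rcases h.es.comm a ha.1 b hb.1 with h1 | h1
    · rw [h1]
      exact Subgroup.one_mem _
    · rw [h1]
      exact ⟨h.es.mem, h.zQ'⟩

theorem LE.R_sq_mem {x : G} (hx : x ∈ (Q' ⊓ Subgroup.centralizer ({z} : Set G)) ⊔ (Q ⊓ Subgroup.centralizer ({z'} : Set G))) :
    x * x ∈ Q ⊓ Q' := by
  set R := (Q' ⊓ Subgroup.centralizer ({z} : Set G)) ⊔ (Q ⊓ Subgroup.centralizer ({z'} : Set G)) with hR
  let S : Subgroup G :=
    { carrier := {x | x ∈ R ∧ x * x ∈ Q ⊓ Q'}
      mul_mem' := by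
        rintro a b ⟨ha, ha'⟩ ⟨hb, hb'⟩
        refine ⟨R.mul_mem ha hb, ?_⟩
        have h1 : (a * b) * (a * b) = (a * a) * B a⁻¹ b * (b * b) := by unfold B; group
        rw [h1]
        exact Subgroup.mul_mem _ (Subgroup.mul_mem _ ha' (h.R_comm_mem (R.inv_mem ha) hb)) hb'
      one_mem' := ⟨R.one_mem, by simpa using Subgroup.one_mem _⟩
      inv_mem' := by
        rintro a ⟨ha, ha'⟩
        refine ⟨R.inv_mem ha, ?_⟩
        have h1 : a⁻¹ * a⁻¹ = (a * a)⁻¹ := by group
        rw [h1]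
        exact Subgroup.inv_mem _ ha' }
  have hle : R ≤ S := by
    apply sup_le
    · intro c hc
      refine ⟨Subgroup.mem_sup_left hc, ?_⟩
      rcases h.es'.pow2 c hc.1 with h1 | h1
      · rw [h1]
        exact Subgroup.one_mem _
      · rw [h1]
        exact ⟨h.z'Q, h.es'.mem⟩
    · intro c hc
      refine ⟨Subgroup.mem_sup_right hc, ?_⟩
      rcases h.es.pow2 c hc.1 with h1 | h1
      · rw [h1]
        exact Subgroup.one_mem _
      · rw [h1]
        exact ⟨h.es.mem, h.zQ'⟩
  exact (hle hx).2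

theorem LE.V_le_R : Subgroup.closure ({z, z'} : Set G) ≤ (Q' ⊓ Subgroup.centralizer ({z} : Set G)) ⊔ (Q ⊓ Subgroup.centralizer ({z'} : Set G)) := by
  rw [Subgroup.closure_le]
  rintro w (rfl | rfl)
  · exact Subgroup.mem_sup_left ⟨h.zQ', mem_cent_singleton.mpr rfl⟩
  · exact Subgroup.mem_sup_right ⟨h.z'Q, mem_cent_singleton.mpr rfl⟩

theorem LE.center_R : (Subgroup.center ↥((Q' ⊓ Subgroup.centralizer ({z} : Set G)) ⊔ (Q ⊓ Subgroup.centralizer ({z'} : Set G)))).map
      ((Q' ⊓ Subgroup.centralizer ({z} : Set G)) ⊔ (Q ⊓ Subgroup.centralizer ({z'} : Set G))).subtype =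
    Subgroup.closure ({z, z'} : Set G) := by
  apply le_antisymm
  · rintro _ ⟨x, hx, rfl⟩
    have hx' := Subgroup.mem_center_iff.mp hx
    have h1 := h.R_comm x.2
    show (x : G) ∈ _
    rw [h.mem_V]
    apply h.mem_four_of_comm' h1.1 h1.2
    intro s hs hsz
    have hsR : s ∈ (Q' ⊓ Subgroup.centralizer ({z} : Set G)) ⊔ (Q ⊓ Subgroup.centralizer ({z'} : Set G)) :=
      Subgroup.mem_sup_right ⟨hs, mem_cent_singleton.mpr hsz⟩
    have h2 := hx' ⟨s, hsR⟩
    exact (congrArg Subtype.val h2).symm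
  · intro v hv
    refine ⟨⟨v, h.V_le_R hv⟩, Subgroup.mem_center_iff.mpr ?_, rfl⟩
    intro y
    apply Subtype.ext
    have h1 := h.R_comm y.2
    show (y : G) * v = v * y
    rw [h.mem_V] at hv
    rcases hv with rfl | rfl | rfl | rfl
    · group
    · exact h1.1
    · exact h1.2
    · calc (y : G) * (z * z') = (y * z) * z' := by group
        _ = (z * y) * z' := by rw [h1.1]
        _ = z * (y * z') := by group
        _ = z * (z' * y) := by rw [h1.2]
        _ = _ := by group

end facts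

end Cfsg.Agent.Lib.LargeExtraPair
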