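import Mathlib
import Cfsg.Prelude.Def_MonsterType
import Cfsg.Agent.Lib.LargeExtraPair
import Cfsg.Agent.Lib.ExtraSub
import Cfsg.Agent.Lib.Comps
import Cfsg.Agent.Lib.Layer
import Cfsg.Agent.Lib.PGroupBasic
import Cfsg.Agent.S5421
import Cfsg.Agent.Lib.SylowIn

/-! Extraspecial subgroups arising as `F*` of an involution centralizer, and simplicity criteria. -/

namespace Cfsg.Agent.Lib.LargeExtraPair

open Cfsg.Agent.Lib.LargeExtra

variable {G : Type*} [Group G]

/-- Hypotheses extracted from `F*(C(z)) = Q` extraspecial. -/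
theorem pre_of_genFitting [Finite G] {z : G} (hz : orderOf z = 2) {Q : Subgroup G}
    (hQC : Q ≤ Subgroup.centralizer ({z} : Set G))
    (hF : (Cfsg.generalizedFittingSubgroup ↥(Subgroup.centralizer ({z} : Set G))).map (Subgroup.centralizer ({z} : Set G)).subtype = Q)
    (hQ : Cfsg.IsExtraspecial 2 ↥Q) :
    ES Q z ∧ (∀ x, x ∈ (Subgroup.center ↥Q).map Q.subtype ↔ x = 1 ∨ x = z) ∧
    Subgroup.centralizer (Q : Set G) = ((Subgroup.center ↥Q).map Q.subtype) ∧
    Subgroup.centralizer (((Subgroup.center ↥Q).map Q.subtype) : Set G) ≤ Subgroup.normalizer (Q : Set G) := by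
  classical
  set C := Subgroup.centralizer ({z} : Set G) with hC
  have hz1 : z ≠ 1 := by
    intro h
    rw [h] at hz
    simp at hz
  have hzC : z ∈ C := mem_cent_singleton.mpr rfl
  have hzcen : (⟨z, hzC⟩ : C) ∈ Subgroup.center C := by
    rw [Subgroup.mem_center_iff]
    intro c
    apply Subtype.ext
    exact mem_cent_singleton.mp c.2
  have hzQ : z ∈ Q := by
    rw [← hF]
    exact ⟨⟨z, hzC⟩, Cfsg.Agent.Lib.Layer.center_le_genFitting C hzcen, rfl⟩
  obtain ⟨z₀, hES, hZmem⟩ := exists_ES hQ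
  have hzZ : z ∈ (Subgroup.center ↥Q).map Q.subtype := by
    refine ⟨⟨z, hzQ⟩, Subgroup.mem_center_iff.mpr ?_, rfl⟩
    intro q
    apply Subtype.ext
    exact mem_cent_singleton.mp (hQC q.2)
  have hzz₀ : z = z₀ := ((hZmem z).mp hzZ).resolve_left hz1
  subst hzz₀
  refine ⟨hES, hZmem, ?_, ?_⟩
  · apply le_antisymm
    · intro x hx
      rw [Subgroup.mem_centralizer_iff] at hx
      have hxz : x ∈ C := mem_cent_singleton.mpr (hx z hzQ).symm
      have h1 : (⟨x, hxz⟩ : C) ∈ Subgroup.centralizer ((Cfsg.generalizedFittingSubgroup C : Subgroup C) : Set C) := by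
        rw [Subgroup.mem_centralizer_iff]
        intro c hc
        apply Subtype.ext
        exact hx _ (hF ▸ ⟨c, hc, rfl⟩)
      have h2 := Cfsg.Agent.Lib.Comps.bender h1
      have hxQ : x ∈ Q := by
        rw [← hF]
        exact ⟨_, h2, rfl⟩
      refine ⟨⟨x, hxQ⟩, Subgroup.mem_center_iff.mpr ?_, rfl⟩
      intro q
      apply Subtype.ext
      exact hx q.1 q.2
    · rintro _ ⟨w, hw, rfl⟩
      rw [Subgroup.mem_centralizer_iff]
      intro q hq
      have := (Subgroup.mem_center_iff.mp hw) ⟨q, hq⟩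
      exact congrArg Subtype.val this
  · intro x hx
    rw [Subgroup.mem_centralizer_iff] at hx
    have hxz : x ∈ C := mem_cent_singleton.mpr (hx z hzZ).symm
    rw [Subgroup.mem_normalizer_iff]
    have hnorm : (Cfsg.generalizedFittingSubgroup C).Normal := Cfsg.Agent.Lib.Layer.genFitting_normal C
    have hmemQ : ∀ a, a ∈ Q ↔ ∃ ha : a ∈ C, (⟨a, ha⟩ : C) ∈ Cfsg.generalizedFittingSubgroup C := by
      intro a
      constructor
      · intro ha
        rw [← hF] at ha
        obtain ⟨c, hc, rfl⟩ := ha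
        exact ⟨c.2, hc⟩
      · rintro ⟨ha, h1⟩
        rw [← hF]
        exact ⟨_, h1, rfl⟩
    have hfwd : ∀ y ∈ C, ∀ a ∈ Q, y * a * y⁻¹ ∈ Q := by
      intro y hy a ha
      obtain ⟨ha1, ha2⟩ := (hmemQ a).mp ha
      exact (hmemQ _).mpr ⟨C.mul_mem (C.mul_mem hy ha1) (C.inv_mem hy), hnorm.conj_mem _ ha2 ⟨y, hy⟩⟩
    intro a
    constructor
    · exact hfwd x hxz a
    · intro ha
      have h3 := hfwd x⁻¹ (C.inv_mem hxz) _ ha
      have h5 : x⁻¹ * (x * a * x⁻¹) * x⁻¹⁻¹ = a := by group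
      rwa [h5] at h3

/-- A conjugate of `z` in `Q` forces largeness. -/
theorem large_of_conj [Finite G] {Q : Subgroup G} (hL1 : Cfsg.IsExtraspecial 2 ↥Q)
    (hL2 : Subgroup.centralizer (Q : Set G) = ((Subgroup.center ↥Q).map Q.subtype))
    (hL3 : Subgroup.centralizer (((Subgroup.center ↥Q).map Q.subtype) : Set G) ≤ Subgroup.normalizer (Q : Set G))
    {z : G} (hES : ES Q z) (hZmem : ∀ x, x ∈ (Subgroup.center ↥Q).map Q.subtype ↔ x = 1 ∨ x = z)
    {w : ℕ} (hw : 2 ≤ w) (hcard : Nat.card ↥Q = 2 ^ (2 * w + 1)) {g : G}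
    (hgz : g * z * g⁻¹ ≠ z) (hgQ : g * z * g⁻¹ ∈ Q) : Cfsg.IsLargeExtraspecial Q := by
  have hLE := LE.of_pre hL2 hL3 hES hZmem hw hcard hgz hgQ
  set z' := g * z * g⁻¹ with hz'def
  have hzC : z ∈ Subgroup.centralizer ({z'} : Set G) := mem_cent_singleton.mpr hLE.comm_zz.symm
  refine Cfsg.Agent.S5421.result Q hL1 hL2 hL3 z' hgQ ?_ ?_ ?_
  · intro h
    rcases (hZmem _).mp h with h1 | h1
    · exact hLE.z'_ne_one h1
    · exact hLE.ne h1
  · exact orderOf_eq_prime (by rw [pow_two]; exact hLE.es'.sq) hLE.z'_ne_one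
  · intro x hx
    rcases (hZmem x).mp hx with rfl | rfl
    · exact Subgroup.one_mem _
    · refine ⟨⟨x, hzC⟩, ?_, rfl⟩
      set Q' := Q.map (MulAut.conj g).toMonoidHom with hQ'def
      have hle : Q'.subgroupOf (Subgroup.centralizer ({z'} : Set G)) ≤ Cfsg.pCore 2 ↥(Subgroup.centralizer ({z'} : Set G)) := by
        apply le_sSup
        refine ⟨⟨?_⟩, ?_⟩
        · intro n hn c
          rw [Subgroup.mem_subgroupOf] at hn ⊢
          exact hLE.N2 _ (mem_cent_singleton.mp c.2) _ hn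
        · intro t
          refine ⟨2, ?_⟩
          have hxt : ((t : Subgroup.centralizer ({z'} : Set G)) : G) ∈ Q' := Subgroup.mem_subgroupOf.mp t.2
          apply Subtype.ext
          apply Subtype.ext
          have hp4 : ∀ u : G, u ^ (2 ^ 2) = (u * u) * (u * u) := by
            intro u
            rw [show (2 : ℕ) ^ 2 = 2 + 2 from rfl, pow_add, pow_two]
          have h5 : (((t : Subgroup.centralizer ({z'} : Set G)) : G)) ^ (2 ^ 2) = 1 := by
            rw [hp4]
            rcases hLE.es'.pow2 _ hxt with h6 | h6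
            · rw [h6, one_mul]
            · rw [h6]
              exact hLE.es'.sq
          simpa using h5
      exact hle (Subgroup.mem_subgroupOf.mpr hLE.zQ')

/-- A simplicity criterion for groups with a large extraspecial subgroup. -/
theorem simple_of_large [Finite G] {Q : Subgroup G} (hQ : Cfsg.IsLargeExtraspecial Q) {z : G} (hES : ES Q z)
    (hZmem : ∀ x, x ∈ (Subgroup.center ↥Q).map Q.subtype ↔ x = 1 ∨ x = z)
    (hcov : ∀ N : Subgroup G, N.Normal → z ∈ N → Subgroup.centralizer ({z} : Set G) ≤ N) : IsSimpleGroup G := by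
  classical
  haveI : Fact (Nat.Prime 2) := ⟨Nat.prime_two⟩
  obtain ⟨hL1, hL2, hL3, hL4⟩ := hQ
  haveI : Nontrivial G := ⟨⟨z, 1, hES.ne_one⟩⟩
  refine ⟨?_⟩
  intro N hN
  by_cases hNbot : N = ⊥
  · exact Or.inl hNbot
  right
  obtain ⟨S, hQS⟩ := IsPGroup.exists_le_sylow hL1.1.1
  have hcenS : ∀ x ∈ (S : Subgroup G), (∀ s ∈ (S : Subgroup G), x * s = s * x) → x = 1 ∨ x = z := by
    intro x _ hx
    have h1 : x ∈ Subgroup.centralizer (Q : Set G) := by
      rw [Subgroup.mem_centralizer_iff]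
      intro q hq
      exact (hx q (hQS hq)).symm
    rw [hL2] at h1
    exact (hZmem x).mp h1
  have hSp : IsPGroup 2 (S : Subgroup G) := S.isPGroup'
  have hz_cen : ∀ s ∈ (S : Subgroup G), s * z = z * s := by
    haveI : Nontrivial (S : Subgroup G) := ⟨⟨⟨z, hQS hES.mem⟩, 1, fun h => hES.ne_one (congrArg Subtype.val h)⟩⟩
    obtain ⟨x, -, hx1, hxc⟩ := Cfsg.Agent.Lib.PGroupBasic.exists_ne_one_mem_center_of_normal hSp (⊤ : Subgroup (S : Subgroup G))
      (by exact top_ne_bot)
    have hxS := hcenS x x.2 (by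
      intro s hs
      have := (Subgroup.mem_center_iff.mp hxc) ⟨s, hs⟩
      exact (congrArg Subtype.val this).symm)
    rcases hxS with h1 | h1
    · exact absurd (Subtype.ext h1) hx1
    · intro s hs
      have := (Subgroup.mem_center_iff.mp hxc) ⟨s, hs⟩
      rw [← h1]
      exact congrArg Subtype.val this
  have hEven : ¬ Odd (Nat.card N) := by
    intro hodd
    apply hNbot
    apply hL4 N hodd
    intro q _
    rw [Subgroup.mem_normalizer_iff]
    intro a
    constructor
    · intro ha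
      exact hN.conj_mem a ha q
    · intro ha
      have := hN.conj_mem _ ha q⁻¹
      have h2 : q⁻¹ * (q * a * q⁻¹) * q⁻¹⁻¹ = a := by group
      rwa [h2] at this
  have h2dvd : 2 ∣ Nat.card N := by
    rcases Nat.even_or_odd (Nat.card N) with h | h
    · exact h.two_dvd
    · exact absurd h hEven
  obtain ⟨v, hv⟩ := exists_prime_orderOf_dvd_card' 2 h2dvd
  have hv1 : (v : G) ≠ 1 := by
    intro h
    have : v = 1 := Subtype.ext h
    rw [this] at hv
    simp at hv
  have hvord : orderOf (v : G) = 2 := by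
    rw [← Subgroup.orderOf_coe] at hv
    exact hv
  have hvp : IsPGroup 2 (Subgroup.zpowers (v : G)) := by
    rw [IsPGroup.iff_card, Nat.card_zpowers, hvord]
    exact ⟨1, by norm_num⟩
  obtain ⟨g, hg⟩ := Cfsg.Agent.Lib.SylowIn.exists_conj_mem_sylow S hvp
  have hgv := hg v (Subgroup.mem_zpowers _)
  have hgvN : g * v * g⁻¹ ∈ N := hN.conj_mem _ v.2 g
  have hM : N.subgroupOf (S : Subgroup G) ≠ ⊥ := by
    intro h
    have h1 : (⟨g * v * g⁻¹, hgv⟩ : (S : Subgroup G)) ∈ N.subgroupOf (S : Subgroup G) :=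
      Subgroup.mem_subgroupOf.mpr hgvN
    rw [h, Subgroup.mem_bot] at h1
    apply hv1
    have h2 : g * (v : G) * g⁻¹ = 1 := congrArg Subtype.val h1
    have h3 : (v : G) = g⁻¹ * (g * (v : G) * g⁻¹) * g := by group
    rw [h3, h2]
    group
  haveI : (N.subgroupOf (S : Subgroup G)).Normal := by
    exact Subgroup.normal_subgroupOf
  obtain ⟨x, hxM, hx1, hxc⟩ := Cfsg.Agent.Lib.PGroupBasic.exists_ne_one_mem_center_of_normal hSp _ hM
  have hxz : (x : G) = z := by
    rcases hcenS x x.2 (by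
      intro s hs
      have := (Subgroup.mem_center_iff.mp hxc) ⟨s, hs⟩
      exact (congrArg Subtype.val this).symm) with h1 | h1
    · exact absurd (Subtype.ext h1) hx1
    · exact h1
  have hzN : z ∈ N := by
    rw [← hxz]
    exact Subgroup.mem_subgroupOf.mp hxM
  have hCN := hcov N hN hzN
  have hSN : (S : Subgroup G) ≤ N := by
    intro s hs
    exact hCN (mem_cent_singleton.mpr (hz_cen s hs))
  have hnorm : Subgroup.normalizer ((S : Subgroup G) : Set G) ≤ N := by
    intro n hn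
    apply hCN
    rw [mem_cent_singleton]
    have hzS : z ∈ (S : Subgroup G) := hQS hES.mem
    have h1 : n * z * n⁻¹ ∈ (S : Subgroup G) := (Subgroup.mem_normalizer_iff.mp hn z).mp hzS
    have h2 : ∀ s ∈ (S : Subgroup G), (n * z * n⁻¹) * s = s * (n * z * n⁻¹) := by
      intro s hs
      have h3 : n⁻¹ * s * n ∈ (S : Subgroup G) := by
        have h4 := (Subgroup.mem_normalizer_iff.mp (Subgroup.inv_mem _ hn) s).mp hs
        rwa [inv_inv] at h4
      have h5 := hz_cen _ h3
      calc (n * z * n⁻¹) * s = n * (z * (n⁻¹ * s * n)) * n⁻¹ := by group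
        _ = n * ((n⁻¹ * s * n) * z) * n⁻¹ := by rw [h5]
        _ = _ := by group
    rcases hcenS _ h1 h2 with h3 | h3
    · exfalso
      apply hES.ne_one
      have h4 : z = n⁻¹ * (n * z * n⁻¹) * n := by group
      rw [h4, h3]
      group
    · exact mul_inv_eq_iff_eq_mul.mp h3
  have htop := Sylow.normalizer_sup_eq_top' S hSN
  rw [eq_top_iff, ← htop]
  exact sup_le hnorm le_rfl

end Cfsg.Agent.Lib.LargeExtraPair
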