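import Mathlib
import Cfsg.Prelude.Def_MonsterType
import Cfsg.Agent.Lib.LargeExtraPair
import Cfsg.Agent.Lib.FusionAlperin

/-! The group generated by two conjugate large extraspecial subgroups. -/

namespace Cfsg.Agent.Lib.LargeExtraPair

open Cfsg.Agent.Lib.LargeExtra

variable {G : Type*} [Group G]

/-- The conjugation action of the normalizer of `V` on the nonidentity elements of `V`. -/
def actOn (V : Subgroup G) : Subgroup.normalizer (V : Set G) →* Equiv.Perm ↥{a : G | a ∈ V ∧ a ≠ 1} where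
  toFun n := (MulAut.conj (n : G)).toEquiv.subtypeEquiv (by
    intro a
    show (a ∈ V ∧ a ≠ 1) ↔ ((n : G) * a * (n : G)⁻¹ ∈ V ∧ (n : G) * a * (n : G)⁻¹ ≠ 1)
    have h1 := Subgroup.mem_normalizer_iff.mp n.2 a
    rw [h1]
    constructor
    · rintro ⟨h2, h3⟩
      refine ⟨h2, fun h4 => h3 ?_⟩
      have h5 : a = (n : G)⁻¹ * ((n : G) * a * (n : G)⁻¹) * n := by group
      rw [h5, h4]
      group
    · rintro ⟨h2, h3⟩
      refine ⟨h2, fun h4 => h3 ?_⟩
      rw [h4]
      group)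
  map_one' := by
    ext a
    simp
  map_mul' := by
    intro m n
    ext a
    simp [MulAut.conj_apply, mul_assoc]

theorem actOn_apply (V : Subgroup G) (n : Subgroup.normalizer (V : Set G)) (a : ↥{a : G | a ∈ V ∧ a ≠ 1}) :
    ((actOn V n a : ↥{a : G | a ∈ V ∧ a ≠ 1}) : G) = (n : G) * a * (n : G)⁻¹ := rfl

theorem actOn_eq_one_iff (V : Subgroup G) (n : Subgroup.normalizer (V : Set G)) :
    actOn V n = 1 ↔ (n : G) ∈ Subgroup.centralizer (V : Set G) := by
  rw [Subgroup.mem_centralizer_iff]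
  constructor
  · intro h a ha
    by_cases ha1 : a = 1
    · rw [ha1]
      simp
    · have h1 := actOn_apply V n ⟨a, ha, ha1⟩
      rw [h] at h1
      have h2 : a = (n : G) * a * (n : G)⁻¹ := h1
      calc a * n = ((n : G) * a * (n : G)⁻¹) * n := by rw [← h2]
        _ = _ := by group
  · intro h
    ext a
    show (n : G) * (a : G) * (n : G)⁻¹ = a
    have := h a a.2.1
    rw [← this]
    group

variable {Q Q' : Subgroup G} {z z' g : G}

section main

variable (h : LE Q Q' z z' g)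
include h

theorem LE.conj_comm_z' {q c : G} (hq : q ∈ Q) (hcz : c * z = z * c) (hcz' : c * z' = z' * c) :
    B q c ∈ Q ∧ B q c * z' = z' * B q c := by
  constructor
  · have : B q c = q * (c * q⁻¹ * c⁻¹) := by unfold B; group
    rw [this]
    exact Q.mul_mem hq (h.N1 c hcz _ (Q.inv_mem hq))
  · set u := q * c * q⁻¹ with hu
    have hq1 : q * z * q⁻¹ = z := h.conj_z_of_mem hq
    have huz : u * z = z * u := by
      have h1 : q⁻¹ * z = z * q⁻¹ := by
        exact (Commute.inv_left (h.es.zcen q hq : Commute q z)).eq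
      have h2 : q * z = z * q := h.es.zcen q hq
      calc u * z = q * c * (q⁻¹ * z) := by rw [hu]; group
        _ = q * c * (z * q⁻¹) := by rw [h1]
        _ = q * (c * z) * q⁻¹ := by group
        _ = q * (z * c) * q⁻¹ := by rw [hcz]
        _ = (q * z) * c * q⁻¹ := by group
        _ = (z * q) * c * q⁻¹ := by rw [h2]
        _ = _ := by rw [hu]; group
    have hu2 : u * (q * z' * q⁻¹) = (q * z' * q⁻¹) * u := by
      calc u * (q * z' * q⁻¹) = q * (c * z') * q⁻¹ := by rw [hu]; group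
        _ = q * (z' * c) * q⁻¹ := by rw [hcz']
        _ = _ := by rw [hu]; group
    have huz' : u * z' = z' * u := by
      have h3 : q * z' * q⁻¹ = B q z' * z' := by unfold B; group
      rcases h.es.comm q hq z' h.z'Q with h4 | h4
      · rw [h3, h4, one_mul] at hu2
        exact hu2
      · rw [h3, h4] at hu2
        have h5 : z * (u * z') = z * (z' * u) := by
          calc z * (u * z') = (z * u) * z' := by group
            _ = (u * z) * z' := by rw [huz]
            _ = u * (z * z') := by group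
            _ = (z * z') * u := hu2
            _ = _ := by group
        exact mul_left_cancel h5
    have hB : B q c = u * c⁻¹ := rfl
    rw [hB]
    have h6 : Commute c z' := hcz'
    have h7 : c⁻¹ * z' = z' * c⁻¹ := h6.inv_left.eq
    calc u * c⁻¹ * z' = u * (c⁻¹ * z') := by group
      _ = u * (z' * c⁻¹) := by rw [h7]
      _ = (u * z') * c⁻¹ := by group
      _ = (z' * u) * c⁻¹ := by rw [huz']
      _ = _ := by group

theorem LE.Q_norm_R_aux {q x : G} (hq : q ∈ Q)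
    (hx : x ∈ (Q' ⊓ Subgroup.centralizer ({z} : Set G)) ⊔ (Q ⊓ Subgroup.centralizer ({z'} : Set G))) :
    q * x * q⁻¹ ∈ (Q' ⊓ Subgroup.centralizer ({z} : Set G)) ⊔ (Q ⊓ Subgroup.centralizer ({z'} : Set G)) := by
  set R := (Q' ⊓ Subgroup.centralizer ({z} : Set G)) ⊔ (Q ⊓ Subgroup.centralizer ({z'} : Set G)) with hR
  have hle : R ≤ R.comap (MulAut.conj q).toMonoidHom := by
    apply sup_le
    · intro c hc
      show q * c * q⁻¹ ∈ R
      have hcz := mem_cent_singleton.mp hc.2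
      have hcz' : c * z' = z' * c := h.es'.zcen c hc.1
      have h1 := h.conj_comm_z' hq hcz hcz'
      have h2 : q * c * q⁻¹ = B q c * c := by unfold B; group
      rw [h2]
      exact R.mul_mem (Subgroup.mem_sup_right ⟨h1.1, mem_cent_singleton.mpr h1.2⟩) (Subgroup.mem_sup_left hc)
    · intro r hr
      show q * r * q⁻¹ ∈ R
      apply Subgroup.mem_sup_right
      refine ⟨Q.mul_mem (Q.mul_mem hq hr.1) (Q.inv_mem hq), mem_cent_singleton.mpr ?_⟩
      have hrz' := mem_cent_singleton.mp hr.2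
      have h2 : q * r * q⁻¹ = B q r * r := by unfold B; group
      rw [h2]
      rcases h.es.comm q hq r hr.1 with h3 | h3
      · rw [h3, one_mul]
        exact hrz'
      · rw [h3]
        calc z * r * z' = z * (r * z') := by group
          _ = z * (z' * r) := by rw [hrz']
          _ = (z * z') * r := by group
          _ = (z' * z) * r := by rw [h.comm_zz]
          _ = _ := by group
  exact hle hx

theorem LE.Q_le_normR : Q ≤ Subgroup.normalizer (((Q' ⊓ Subgroup.centralizer ({z} : Set G)) ⊔ (Q ⊓ Subgroup.centralizer ({z'} : Set G)) : Subgroup G) : Set G) := by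
  intro q hq
  rw [Subgroup.mem_normalizer_iff]
  intro x
  constructor
  · exact h.Q_norm_R_aux hq
  · intro hx
    have h1 := h.Q_norm_R_aux (Q.inv_mem hq) hx
    have h2 : q⁻¹ * (q * x * q⁻¹) * q⁻¹⁻¹ = x := by group
    rwa [h2] at h1

theorem LE.Q'_le_normR : Q' ≤ Subgroup.normalizer (((Q' ⊓ Subgroup.centralizer ({z} : Set G)) ⊔ (Q ⊓ Subgroup.centralizer ({z'} : Set G)) : Subgroup G) : Set G) := by
  have := h.symm.Q_le_normR
  rwa [sup_comm] at this

theorem LE.X_le_normR : Q ⊔ Q' ≤ Subgroup.normalizer (((Q' ⊓ Subgroup.centralizer ({z} : Set G)) ⊔ (Q ⊓ Subgroup.centralizer ({z'} : Set G)) : Subgroup G) : Set G) :=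
  sup_le h.Q_le_normR h.Q'_le_normR

theorem LE.X_le_normV : Q ⊔ Q' ≤ Subgroup.normalizer ((Subgroup.closure ({z, z'} : Set G) : Subgroup G) : Set G) :=
  sup_le h.Q_le_normV h.Q'_le_normV

/-- the braid relation -/
theorem LE.braid {y k : G} (hyQ : y ∈ Q) (hy : B y z' = z) (hkQ : k ∈ Q') (hk : B k z = z') :
    ∃ s, s ∈ Q' ∧ s * z = z * s ∧ k * y * k⁻¹ = y * (k * s) * y⁻¹ := by
  have hy1 : y * z' * y⁻¹ = z * z' := swap_conj h.es hyQ hy
  have hyc : y * z * y⁻¹ = z := h.conj_z_of_mem hyQ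
  have hy3 : y * (z * z') * y⁻¹ = z' := by
    have : y * (z * z') * y⁻¹ = (y * z * y⁻¹) * (y * z' * y⁻¹) := by group
    rw [this, hyc, hy1, ← mul_assoc, h.es.sq, one_mul]
  have hyi : y⁻¹ * (z * z') * y = z' := by
    rw [← hy1]
    group
  have hk1 : k * z * k⁻¹ = z * z' := by
    rw [swap_conj h.es' hkQ hk, h.comm_zz]
  have hk2 : k⁻¹ * z * k = z * z' := by
    rw [swap_conj_inv h.es' hkQ hk, h.comm_zz]
  have hkc : k * z' * k⁻¹ = z' := h.symm.conj_z_of_mem hkQ
  have hgz : g⁻¹ * z' * g = z := by rw [← h.conj]; group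
  set u := g⁻¹ * y⁻¹ * k with hu
  have huz : u * z = z * u := by
    have h1 : u * z * u⁻¹ = z := by
      calc u * z * u⁻¹ = g⁻¹ * (y⁻¹ * (k * z * k⁻¹) * y) * g := by rw [hu]; group
        _ = g⁻¹ * (y⁻¹ * (z * z') * y) * g := by rw [hk1]
        _ = g⁻¹ * z' * g := by rw [hyi]
        _ = z := hgz
    exact mul_inv_eq_iff_eq_mul.mp h1
  have ha : u * y * u⁻¹ ∈ Q := h.N1 u huz y hyQ
  set k₁ := g * (u * y * u⁻¹) * g⁻¹ with hk₁
  have hk₁Q : k₁ ∈ Q' := by
    rw [h.mem']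
    have : g⁻¹ * k₁ * g = u * y * u⁻¹ := by rw [hk₁]; group
    rw [this]
    exact ha
  have hrel : k * y * k⁻¹ = y * k₁ * y⁻¹ := by
    rw [hk₁, hu]
    group
  have hkinv : k⁻¹ * k₁ ∈ Q' := Q'.mul_mem (Q'.inv_mem hkQ) hk₁Q
  refine ⟨k⁻¹ * k₁, hkinv, ?_, ?_⟩
  · rcases h.symm.split hkQ hk hk₁Q with h1 | h1
    · exfalso
      have hk₁R : k₁ ∈ (Q' ⊓ Subgroup.centralizer ({z} : Set G)) ⊔ (Q ⊓ Subgroup.centralizer ({z'} : Set G)) :=
        Subgroup.mem_sup_left ⟨hk₁Q, mem_cent_singleton.mpr h1⟩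
      have h2 := h.Q_norm_R_aux hyQ hk₁R
      rw [← hrel] at h2
      have h3 := (h.R_comm h2).1
      have h4 : (k * y * k⁻¹) * z * (k * y * k⁻¹)⁻¹ = z' := by
        calc (k * y * k⁻¹) * z * (k * y * k⁻¹)⁻¹ = k * (y * (k⁻¹ * z * k) * y⁻¹) * k⁻¹ := by group
          _ = k * (y * (z * z') * y⁻¹) * k⁻¹ := by rw [hk2]
          _ = k * z' * k⁻¹ := by rw [hy3]
          _ = z' := hkc
      rw [h3] at h4
      apply h.ne
      rw [← h4]
      group
    · exact h1
  · rw [hrel]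
    group

end main

section reps

variable (h : LE Q Q' z z' g)
include h

/-- An element of `X` centralizing the four-group lies in `R`. -/
theorem LE.mem_R_of_comm {y k x : G} (hyQ : y ∈ Q) (hy : B y z' = z) (hkQ : k ∈ Q') (hk : B k z = z')
    (hx : x ∈ Q ⊔ Q') (hxz : x * z = z * x) (hxz' : x * z' = z' * x) :
    x ∈ (Q' ⊓ Subgroup.centralizer ({z} : Set G)) ⊔ (Q ⊓ Subgroup.centralizer ({z'} : Set G)) := by
  classical
  set R := (Q' ⊓ Subgroup.centralizer ({z} : Set G)) ⊔ (Q ⊓ Subgroup.centralizer ({z'} : Set G)) with hR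
  set Nn := Subgroup.normalizer (R : Set G) with hNn
  have hXN : Q ⊔ Q' ≤ Nn := h.X_le_normR
  have hQN : Q ≤ Nn := h.Q_le_normR
  have hQ'N : Q' ≤ Nn := h.Q'_le_normR
  haveI hnorm : (R.subgroupOf Nn).Normal := Subgroup.normal_in_normalizer
  let π := QuotientGroup.mk' (R.subgroupOf Nn)
  have hker : ∀ n : Nn, π n = 1 ↔ (n : G) ∈ R := by
    intro n
    rw [show π n = (n : Nn ⧸ R.subgroupOf Nn) from rfl, QuotientGroup.eq_one_iff, Subgroup.mem_subgroupOf]
  have hyN : y ∈ Nn := hQN hyQ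
  have hkN : k ∈ Nn := hQ'N hkQ
  set Y := π ⟨y, hyN⟩ with hY
  set K := π ⟨k, hkN⟩ with hK
  have hzR : z ∈ R := Subgroup.mem_sup_left ⟨h.zQ', mem_cent_singleton.mpr rfl⟩
  have hz'R : z' ∈ R := Subgroup.mem_sup_right ⟨h.z'Q, mem_cent_singleton.mpr rfl⟩
  have hYY : Y * Y = 1 := by
    rw [hY, ← map_mul, hker]
    show y * y ∈ R
    rcases h.es.pow2 y hyQ with h1 | h1
    · rw [h1]
      exact R.one_mem
    · rw [h1]
      exact hzR
  have hKK : K * K = 1 := by
    rw [hK, ← map_mul, hker]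
    show k * k ∈ R
    rcases h.es'.pow2 k hkQ with h1 | h1
    · rw [h1]
      exact R.one_mem
    · rw [h1]
      exact hz'R
  have hYinv : Y⁻¹ = Y := by
    rw [inv_eq_iff_mul_eq_one]
    exact hYY
  have hKinv : K⁻¹ = K := by
    rw [inv_eq_iff_mul_eq_one]
    exact hKK
  obtain ⟨s, hsQ, hsz, hsrel⟩ := h.braid hyQ hy hkQ hk
  have hB : K * Y * K = Y * K * Y := by
    have hsN : s ∈ Nn := hQ'N hsQ
    have h1 : π ⟨s, hsN⟩ = 1 := (hker _).mpr (Subgroup.mem_sup_left ⟨hsQ, mem_cent_singleton.mpr hsz⟩)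
    have h2 : (⟨k, hkN⟩ : Nn) * ⟨y, hyN⟩ * (⟨k, hkN⟩ : Nn)⁻¹ =
        (⟨y, hyN⟩ : Nn) * ((⟨k, hkN⟩ : Nn) * ⟨s, hsN⟩) * (⟨y, hyN⟩ : Nn)⁻¹ := Subtype.ext hsrel
    have h3 := congrArg π h2
    simp only [map_mul, map_inv] at h3
    rw [h1, mul_one, ← hY, ← hK, hKinv, hYinv] at h3
    exact h3
  have hstepY : ∀ u : Nn ⧸ R.subgroupOf Nn, (u = 1 ∨ u = Y ∨ u = K ∨ u = Y * K ∨ u = K * Y ∨ u = Y * K * Y) →
      (u * Y = 1 ∨ u * Y = Y ∨ u * Y = K ∨ u * Y = Y * K ∨ u * Y = K * Y ∨ u * Y = Y * K * Y) := by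
    rintro u (rfl | rfl | rfl | rfl | rfl | rfl)
    · right; left; group
    · left; exact hYY
    · right; right; right; right; left; rfl
    · right; right; right; right; right; rfl
    · right; right; left
      rw [mul_assoc, hYY, mul_one]
    · right; right; right; left
      rw [mul_assoc, hYY, mul_one]
  have hstepK : ∀ u : Nn ⧸ R.subgroupOf Nn, (u = 1 ∨ u = Y ∨ u = K ∨ u = Y * K ∨ u = K * Y ∨ u = Y * K * Y) →
      (u * K = 1 ∨ u * K = Y ∨ u * K = K ∨ u * K = Y * K ∨ u * K = K * Y ∨ u * K = Y * K * Y) := by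
    rintro u (rfl | rfl | rfl | rfl | rfl | rfl)
    · right; right; left; group
    · right; right; right; left; rfl
    · left; exact hKK
    · right; left
      rw [mul_assoc, hKK, mul_one]
    · right; right; right; right; right
      exact hB
    · right; right; right; right; left
      calc Y * K * Y * K = Y * (K * Y * K) := by group
        _ = Y * (Y * K * Y) := by rw [hB]
        _ = (Y * Y) * K * Y := by group
        _ = K * Y := by rw [hYY, one_mul]
  have hQval : ∀ q (hq : q ∈ Q), π ⟨q, hQN hq⟩ = 1 ∨ π ⟨q, hQN hq⟩ = Y := by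
    intro q hq
    rcases h.split hyQ hy hq with h1 | h1
    · left
      exact (hker _).mpr (Subgroup.mem_sup_right ⟨hq, mem_cent_singleton.mpr h1⟩)
    · right
      have h2 : π (⟨y, hyN⟩⁻¹ * ⟨q, hQN hq⟩) = 1 :=
        (hker _).mpr (Subgroup.mem_sup_right ⟨Q.mul_mem (Q.inv_mem hyQ) hq, mem_cent_singleton.mpr h1⟩)
      rw [map_mul, map_inv, inv_mul_eq_one] at h2
      exact h2.symm
  have hQ'val : ∀ q (hq : q ∈ Q'), π ⟨q, hQ'N hq⟩ = 1 ∨ π ⟨q, hQ'N hq⟩ = K := by
    intro q hq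
    rcases h.symm.split hkQ hk hq with h1 | h1
    · left
      exact (hker _).mpr (Subgroup.mem_sup_left ⟨hq, mem_cent_singleton.mpr h1⟩)
    · right
      have h2 : π (⟨k, hkN⟩⁻¹ * ⟨q, hQ'N hq⟩) = 1 :=
        (hker _).mpr (Subgroup.mem_sup_left ⟨Q'.mul_mem (Q'.inv_mem hkQ) hq, mem_cent_singleton.mpr h1⟩)
      rw [map_mul, map_inv, inv_mul_eq_one] at h2
      exact h2.symm
  -- right multiplication step
  have hgenstep : ∀ u : Nn ⧸ R.subgroupOf Nn, (u = 1 ∨ u = Y ∨ u = K ∨ u = Y * K ∨ u = K * Y ∨ u = Y * K * Y) →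
      ∀ q (hq : q ∈ Q ∨ q ∈ Q'), ∀ hN : q ∈ Nn,
        (u * π ⟨q, hN⟩ = 1 ∨ u * π ⟨q, hN⟩ = Y ∨ u * π ⟨q, hN⟩ = K ∨ u * π ⟨q, hN⟩ = Y * K ∨
          u * π ⟨q, hN⟩ = K * Y ∨ u * π ⟨q, hN⟩ = Y * K * Y) := by
    intro u hu q hq hN
    rcases hq with hq | hq
    · rcases hQval q hq with h1 | h1
      · rw [show π ⟨q, hN⟩ = 1 from h1, mul_one]
        exact hu
      · rw [show π ⟨q, hN⟩ = Y from h1]
        exact hstepY u hu
    · rcases hQ'val q hq with h1 | h1
      · rw [show π ⟨q, hN⟩ = 1 from h1, mul_one]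
        exact hu
      · rw [show π ⟨q, hN⟩ = K from h1]
        exact hstepK u hu
  have hmain : ∀ x (hx : x ∈ Q ⊔ Q'), ∀ hN : x ∈ Nn,
      (π ⟨x, hN⟩ = 1 ∨ π ⟨x, hN⟩ = Y ∨ π ⟨x, hN⟩ = K ∨ π ⟨x, hN⟩ = Y * K ∨ π ⟨x, hN⟩ = K * Y ∨ π ⟨x, hN⟩ = Y * K * Y) := by
    intro x hx
    rw [Subgroup.sup_eq_closure] at hx
    induction hx using Subgroup.closure_induction_right with
    | one =>
      intro hN
      left
      exact (hker _).mpr R.one_mem
    | mul_right a ha b hb ih =>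
      intro hN
      have haN : a ∈ Nn := by
        rw [← Subgroup.sup_eq_closure] at ha
        exact hXN ha
      have hbN : b ∈ Nn := by
        rcases hb with hb | hb
        · exact hQN hb
        · exact hQ'N hb
      have h1 : π ⟨a * b, hN⟩ = π ⟨a, haN⟩ * π ⟨b, hbN⟩ := by
        rw [← map_mul]
        rfl
      rw [h1]
      exact hgenstep _ (ih haN) b hb hbN
    | mul_inv_cancel a ha b hb ih =>
      intro hN
      have haN : a ∈ Nn := by
        rw [← Subgroup.sup_eq_closure] at ha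
        exact hXN ha
      have hb' : b⁻¹ ∈ Q ∨ b⁻¹ ∈ Q' := by
        rcases hb with hb | hb
        · exact Or.inl (Q.inv_mem hb)
        · exact Or.inr (Q'.inv_mem hb)
      have hbN : b⁻¹ ∈ Nn := by
        rcases hb' with hb | hb
        · exact hQN hb
        · exact hQ'N hb
      have h1 : π ⟨a * b⁻¹, hN⟩ = π ⟨a, haN⟩ * π ⟨b⁻¹, hbN⟩ := by
        rw [← map_mul]
        rfl
      rw [h1]
      exact hgenstep _ (ih haN) b⁻¹ hb' hbN
  -- now the action on z, z'
  have hy1 : y * z' * y⁻¹ = z * z' := swap_conj h.es hyQ hy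
  have hyc : y * z * y⁻¹ = z := h.conj_z_of_mem hyQ
  have hy3 : y * (z * z') * y⁻¹ = z' := by
    have : y * (z * z') * y⁻¹ = (y * z * y⁻¹) * (y * z' * y⁻¹) := by group
    rw [this, hyc, hy1, ← mul_assoc, h.es.sq, one_mul]
  have hk1 : k * z * k⁻¹ = z * z' := by
    rw [swap_conj h.es' hkQ hk, h.comm_zz]
  have hfix : ∀ w (hw : w ∈ Nn), π ⟨x, hXN hx⟩ = π ⟨w, hw⟩ → w * z * w⁻¹ = z ∧ w * z' * w⁻¹ = z' := by
    intro w hw heq
    have h1 : (⟨w, hw⟩ : Nn)⁻¹ * ⟨x, hXN hx⟩ ∈ R.subgroupOf Nn := by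
      have h2 : ((⟨x, hXN hx⟩ : Nn) : Nn ⧸ R.subgroupOf Nn) = ((⟨w, hw⟩ : Nn) : Nn ⧸ R.subgroupOf Nn) := heq
      have h3 := QuotientGroup.eq.mp h2.symm
      exact h3
    have h2 : w⁻¹ * x ∈ R := Subgroup.mem_subgroupOf.mp h1
    have h3 := h.R_comm h2
    constructor
    · have h4 : x = w * (w⁻¹ * x) := by group
      have h5 : (w⁻¹ * x) * z = z * (w⁻¹ * x) := h3.1
      have h6 : x * z * x⁻¹ = z := by rw [hxz]; group
      rw [h4] at h6
      calc w * z * w⁻¹ = w * ((w⁻¹ * x) * z * (w⁻¹ * x)⁻¹) * w⁻¹ := by rw [h5]; group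
        _ = (w * (w⁻¹ * x)) * z * (w * (w⁻¹ * x))⁻¹ := by group
        _ = z := h6
    · have h4 : x = w * (w⁻¹ * x) := by group
      have h5 : (w⁻¹ * x) * z' = z' * (w⁻¹ * x) := h3.2
      have h6 : x * z' * x⁻¹ = z' := by rw [hxz']; group
      rw [h4] at h6
      calc w * z' * w⁻¹ = w * ((w⁻¹ * x) * z' * (w⁻¹ * x)⁻¹) * w⁻¹ := by rw [h5]; group
        _ = (w * (w⁻¹ * x)) * z' * (w * (w⁻¹ * x))⁻¹ := by group
        _ = z' := h6
  have hz1 := h.z_ne_one
  have hz'1 := h.z'_ne_one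
  have hne := h.ne
  rcases hmain x hx (hXN hx) with h1 | h1 | h1 | h1 | h1 | h1
  · exact (hker _).mp h1
  · exfalso
    have h2 := (hfix y hyN h1).2
    rw [hy1] at h2
    exact hz1 (mul_eq_right.mp h2)
  · exfalso
    have h2 := (hfix k hkN h1).1
    rw [hk1] at h2
    exact hz'1 (mul_eq_left.mp h2)
  · exfalso
    have h2 := (hfix (y * k) (Nn.mul_mem hyN hkN) (by
      rw [h1]
      rfl)).1
    have h3 : (y * k) * z * (y * k)⁻¹ = y * (k * z * k⁻¹) * y⁻¹ := by group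
    rw [h3, hk1, hy3] at h2
    exact hne h2
  · exfalso
    have h2 := (hfix (k * y) (Nn.mul_mem hkN hyN) (by
      rw [h1]
      rfl)).1
    have h3 : (k * y) * z * (k * y)⁻¹ = k * (y * z * y⁻¹) * k⁻¹ := by group
    rw [h3, hyc, hk1] at h2
    exact hz'1 (mul_eq_left.mp h2)
  · exfalso
    have h2 := (hfix (y * k * y) (Nn.mul_mem (Nn.mul_mem hyN hkN) hyN) (by
      rw [h1]
      rfl)).1
    have h3 : (y * k * y) * z * (y * k * y)⁻¹ = y * (k * (y * z * y⁻¹) * k⁻¹) * y⁻¹ := by group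
    rw [h3, hyc, hk1, hy3] at h2
    exact hne h2

end reps

end Cfsg.Agent.Lib.LargeExtraPair
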