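/-
The Leech lattice of the definitions: structure of its vectors, minimal norm.
-/
import Mathlib
import Cfsg.Prelude.Def_Sporadic_a
import Cfsg.Agent.Lib.GolayCode
import Cfsg.Agent.Lib.GolayFacts
import Cfsg.Agent.Lib.GolayPerm

set_option autoImplicit false
set_option linter.unusedSectionVars false
set_option linter.unusedSimpArgs false
set_option linter.unusedVariables false

namespace Cfsg.Agent.Lib.LeechBase

open Cfsg Cfsg.Agent.Lib.GolayCode Cfsg.Agent.Lib.GolayFacts Cfsg.Agent.Lib.GolayPerm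

abbrev P := GolayPt

/-- integer value of a bit -/
def bv (a : ZMod 2) : ℤ := if a = 0 then 0 else 1

theorem bv_zero : bv 0 = 0 := rfl

theorem bv_one : bv 1 = 1 := by decide

theorem bv_cases (a : ZMod 2) : (a = 0 ∧ bv a = 0) ∨ (a = 1 ∧ bv a = 1) := by
  revert a; decide

theorem bv_sq (a : ZMod 2) : bv a * bv a = bv a := by
  revert a; decide

theorem bv_add (a b : ZMod 2) : bv (a + b) = bv a + bv b - 2 * (bv a * bv b) := by
  revert a b; decide

/-- all ones -/
abbrev one' : P → ZMod 2 := fun _ => 1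

theorem one_mem' : one' ∈ golayCode :=
  Submodule.subset_span (Or.inr rfl)

theorem support_eq_iff {w : P → ZMod 2} {S : Finset P} (h : ∀ i, i ∈ S ↔ w i ≠ 0) : support₂ w = S := by
  ext i
  simp only [support₂, Finset.mem_filter, Finset.mem_univ, true_and, h]

/-- Description of the lattice through bits. -/
theorem leech_intro {x : P → ℤ} {m : ℤ} {a : P → ZMod 2} {s : P → ℤ} (ha : a ∈ golayCode)
    (hx : ∀ i, x i = m + 2 * bv (a i) + 4 * s i) (hs : ∑ i, x i ≡ 4 * m [ZMOD 8]) : x ∈ leechSet := by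
  refine ⟨m, ?_, hs, ?_⟩
  · intro i
    rw [hx i]
    apply Int.modEq_iff_dvd.mpr
    exact ⟨-(bv (a i)) - 2 * s i, by ring⟩
  · intro k
    have hcl : ∀ i, x i ≡ k [ZMOD 4] ↔ (m + 2 * bv (a i)) ≡ k [ZMOD 4] := by
      intro i
      rw [hx i]
      have h1 : m + 2 * bv (a i) + 4 * s i ≡ m + 2 * bv (a i) [ZMOD 4] := by
        apply Int.modEq_iff_dvd.mpr
        exact ⟨-(s i), by ring⟩
      exact ⟨fun h => h1.symm.trans h, fun h => h1.trans h⟩
    by_cases h1 : m ≡ k [ZMOD 4]
    · -- the set where the bit vanishes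
      refine ⟨a + one', golayCode.add_mem ha one_mem', support_eq_iff ?_⟩
      intro i
      simp only [Finset.mem_filter, Finset.mem_univ, true_and, hcl, Pi.add_apply]
      rcases bv_cases (a i) with ⟨h2, h3⟩ | ⟨h2, h3⟩
      · rw [h3, h2]
        simp only [mul_zero, add_zero, h1, true_iff]
        show (0 : ZMod 2) + 1 ≠ 0
        decide
      · rw [h3, h2]
        constructor
        · intro h4
          exfalso
          have h5 : m + 2 * 1 ≡ m [ZMOD 4] := h4.trans h1.symm
          have := Int.modEq_iff_dvd.mp h5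
          omega
        · intro h4
          exact absurd (by show (1 : ZMod 2) + 1 = 0; decide) h4
    · by_cases h2 : m + 2 ≡ k [ZMOD 4]
      · refine ⟨a, ha, support_eq_iff ?_⟩
        intro i
        simp only [Finset.mem_filter, Finset.mem_univ, true_and, hcl]
        rcases bv_cases (a i) with ⟨h3, h4⟩ | ⟨h3, h4⟩
        · rw [h4, h3]
          simp only [mul_zero, add_zero, h1, false_iff, not_not]
        · rw [h4, h3]
          simp only [mul_one, h2, true_iff]
          decide
      · refine ⟨0, golayCode.zero_mem, support_eq_iff ?_⟩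
        intro i
        simp only [Finset.mem_filter, Finset.mem_univ, true_and, hcl, Pi.zero_apply, ne_eq,
          not_true_eq_false, iff_false]
        rcases bv_cases (a i) with ⟨h3, h4⟩ | ⟨h3, h4⟩
        · rw [h4]
          simpa using h1
        · rw [h4]
          simpa using h2

/-- Decomposition of lattice vectors. -/
theorem leech_decomp {x : P → ℤ} (hx : x ∈ leechSet) :
    ∃ (m : ℤ) (a : P → ZMod 2) (s : P → ℤ), (m = 0 ∨ m = 1) ∧ a ∈ golayCode ∧
      (∀ i, x i = m + 2 * bv (a i) + 4 * s i) ∧ ∑ i, x i ≡ 4 * m [ZMOD 8] := by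
  classical
  obtain ⟨m₀, hpar, hsum, hcl⟩ := hx
  have hm : m₀ % 2 = 0 ∨ m₀ % 2 = 1 := by omega
  set m := m₀ % 2 with hmdef
  have hpar' : ∀ i, x i ≡ m [ZMOD 2] := by
    intro i
    have h1 : m₀ ≡ m [ZMOD 2] := by
      rw [hmdef]
      exact (Int.mod_modEq _ _).symm
    exact (hpar i).trans h1
  have hsum' : ∑ i, x i ≡ 4 * m [ZMOD 8] := by
    refine hsum.trans ?_
    apply Int.modEq_iff_dvd.mpr
    have : m₀ - m = 2 * (m₀ / 2) := by
      have := Int.emod_add_mul_ediv m₀ 2
      omega
    refine ⟨-(m₀ / 2), ?_⟩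
    rw [show 4 * m - 4 * m₀ = -4 * (m₀ - m) by ring, this]
    ring
  obtain ⟨w, hw, hwS⟩ := hcl (m + 2)
  have hwi : ∀ i, w i ≠ 0 ↔ x i ≡ m + 2 [ZMOD 4] := by
    intro i
    have h1 : i ∈ support₂ w ↔ w i ≠ 0 := by simp [support₂]
    rw [← h1, hwS]
    simp
  refine ⟨m, w, fun i => (x i - m - 2 * bv (w i)) / 4, hm, hw, ?_, hsum'⟩
  intro i
  have hdiv : (4 : ℤ) ∣ x i - m - 2 * bv (w i) := by
    rcases bv_cases (w i) with ⟨h3, h4⟩ | ⟨h3, h4⟩
    · rw [h4]
      have h5 : ¬ x i ≡ m + 2 [ZMOD 4] := by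
        intro h
        exact ((hwi i).mpr h) h3
      have h6 := Int.modEq_iff_dvd.mp (hpar' i)
      have h7 : ¬ ((4 : ℤ) ∣ (m + 2) - x i) := fun h => h5 (Int.modEq_iff_dvd.mpr h)
      omega
    · rw [h4]
      have h5 : x i ≡ m + 2 [ZMOD 4] := (hwi i).mp (by rw [h3]; decide)
      have h6 := Int.modEq_iff_dvd.mp h5
      omega
  obtain ⟨c, hc⟩ := hdiv
  show x i = m + 2 * bv (w i) + 4 * ((x i - m - 2 * bv (w i)) / 4)
  rw [hc]
  have : 4 * c / 4 = c := by omega
  rw [this]
  linarith

/-- `leechSet` is a subgroup. -/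
def leechSub : AddSubgroup (P → ℤ) where
  carrier := leechSet
  zero_mem' := by
    apply leech_intro (m := 0) (a := 0) (s := 0) golayCode.zero_mem
    · intro i
      simp [bv_zero]
    · simp
  add_mem' := by
    intro x y hx hy
    obtain ⟨m, a, s, -, ha, hx1, hx2⟩ := leech_decomp hx
    obtain ⟨n, b, t, -, hb, hy1, hy2⟩ := leech_decomp hy
    apply leech_intro (m := m + n) (a := a + b) (s := fun i => s i + t i + bv (a i) * bv (b i))
      (golayCode.add_mem ha hb)
    · intro i
      simp only [Pi.add_apply, hx1, hy1, bv_add]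
      ring
    · simp only [Pi.add_apply, Finset.sum_add_distrib]
      rw [mul_add]
      exact Int.ModEq.add hx2 hy2
  neg_mem' := by
    intro x hx
    obtain ⟨m, a, s, -, ha, hx1, hx2⟩ := leech_decomp hx
    apply leech_intro (m := -m) (a := a) (s := fun i => - s i - bv (a i)) ha
    · intro i
      simp only [Pi.neg_apply, hx1]
      ring
    · simp only [Pi.neg_apply, Finset.sum_neg_distrib]
      rw [show 4 * -m = -(4 * m) by ring]
      exact Int.ModEq.neg hx2

theorem leechLattice_eq : leechLattice = leechSub := by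
  apply le_antisymm
  · rw [leechLattice, AddSubgroup.closure_le]
    intro x hx
    exact hx
  · intro x hx
    exact AddSubgroup.subset_closure hx

theorem mem_lattice_iff {x : P → ℤ} : x ∈ leechLattice ↔ x ∈ leechSet := by
  rw [leechLattice_eq]
  rfl

theorem coe_leechLattice : ((leechLattice : AddSubgroup (P → ℤ)) : Set (P → ℤ)) = leechSet := by
  ext x
  exact mem_lattice_iff

/-- Weights of code words as integers. -/
theorem sum_bv (a : P → ZMod 2) : ∑ i, bv (a i) = (hammingNorm a : ℤ) := by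
  rw [hammingNorm, Finset.card_filter]
  push_cast
  refine Finset.sum_congr rfl fun i _ => ?_
  rcases bv_cases (a i) with ⟨h3, h4⟩ | ⟨h3, h4⟩
  · rw [h4, h3]; simp
  · rw [h4, h3]; simp

theorem four_dvd_weight {a : P → ZMod 2} (ha : a ∈ golayCode) : (4 : ℤ) ∣ ∑ i, bv (a i) := by
  rw [sum_bv]
  rcases weights_of_mem ha with h | h | h | h | h <;> rw [h] <;> norm_num

/-- `16` divides all norms. -/
theorem norm_dvd {x : P → ℤ} (hx : x ∈ leechLattice) : (16 : ℤ) ∣ sqNorm x := by
  obtain ⟨m, a, s, hm, ha, hx1, hx2⟩ := leech_decomp (mem_lattice_iff.mp hx)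
  have h1 : sqNorm x = 24 * m ^ 2 + (4 + 4 * m) * ∑ i, bv (a i) + 16 * ∑ i, s i ^ 2 + 8 * m * ∑ i, s i +
      16 * ∑ i, bv (a i) * s i := by
    have h2 : ∀ i, x i ^ 2 = m ^ 2 + (4 + 4 * m) * bv (a i) + 16 * s i ^ 2 + 8 * m * s i +
        16 * (bv (a i) * s i) := by
      intro i
      rw [hx1 i]
      have := bv_sq (a i)
      linear_combination 4 * this
    simp only [sqNorm, h2, Finset.sum_add_distrib, ← Finset.mul_sum, Finset.sum_const]
    simp
  have h3 : ∑ i, x i = 24 * m + 2 * ∑ i, bv (a i) + 4 * ∑ i, s i := by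
    simp only [hx1, Finset.sum_add_distrib, ← Finset.mul_sum, Finset.sum_const]
    simp
  obtain ⟨w, hw⟩ := four_dvd_weight ha
  rw [h1, hw]
  rw [h3, hw] at hx2
  have h4 := Int.modEq_iff_dvd.mp hx2
  rcases hm with rfl | rfl
  · exact ⟨w + (∑ i, s i ^ 2) + ∑ i, bv (a i) * s i, by ring⟩
  · -- the sum of the `s` is odd
    obtain ⟨c, hc⟩ := h4
    set u := ∑ i, s i with hu
    obtain ⟨v, hv⟩ : ∃ v, u = 2 * v + 1 := ⟨-3 - w - c, by omega⟩
    rw [hv]
    exact ⟨2 + 2 * w + (∑ i, s i ^ 2) + v + ∑ i, bv (a i) * s i, by ring⟩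

/-- Nonzero lattice vectors have norm at least `32`. -/
theorem norm_ge {x : P → ℤ} (hx : x ∈ leechLattice) (h0 : x ≠ 0) : 32 ≤ sqNorm x := by
  have hd := norm_dvd hx
  obtain ⟨m, a, s, hm, ha, hx1, hx2⟩ := leech_decomp (mem_lattice_iff.mp hx)
  have hnn : ∀ i, 0 ≤ x i ^ 2 := fun i => sq_nonneg _
  rcases hm with rfl | rfl
  · by_cases ha0 : a = 0
    · -- all coordinates divisible by four
      subst ha0
      have hx3 : ∀ i, x i = 4 * s i := by
        intro i
        rw [hx1 i]
        simp [bv_zero]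
      have hs0 : ∃ i, s i ≠ 0 := by
        by_contra hcon
        push Not at hcon
        apply h0
        funext i
        rw [hx3 i, hcon i]
        rfl
      have hn : sqNorm x = 16 * ∑ i, s i ^ 2 := by
        simp only [sqNorm, hx3, Finset.mul_sum]
        exact Finset.sum_congr rfl fun i _ => by ring
      have hsum : (2 : ℤ) ∣ ∑ i, s i := by
        have h3 : ∑ i, x i = 4 * ∑ i, s i := by
          simp only [hx3, Finset.mul_sum]
        rw [h3] at hx2
        have := Int.modEq_iff_dvd.mp hx2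
        omega
      have hpar : (2 : ℤ) ∣ ∑ i, s i ^ 2 := by
        have h5 : ∑ i, s i ^ 2 - ∑ i, s i = ∑ i, (s i ^ 2 - s i) := by
          rw [Finset.sum_sub_distrib]
        have h6 : (2 : ℤ) ∣ ∑ i, (s i ^ 2 - s i) := by
          apply Finset.dvd_sum
          intro i _
          have := Int.even_mul_pred_self (s i)
          obtain ⟨k, hk⟩ := this
          exact ⟨k, by rw [show s i ^ 2 - s i = s i * (s i - 1) by ring, hk]; ring⟩
        rw [← h5] at h6
        have := (dvd_sub_left hsum).mp h6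
        exact this
      obtain ⟨i₀, hi₀⟩ := hs0
      have hpos : 1 ≤ ∑ i, s i ^ 2 := by
        have h1 : s i₀ ^ 2 ≤ ∑ i, s i ^ 2 :=
          Finset.single_le_sum (f := fun i => s i ^ 2) (fun i _ => sq_nonneg _) (Finset.mem_univ i₀)
        have h2 : 0 < s i₀ ^ 2 := by positivity
        omega
      rw [hn]
      omega
    · -- some coordinates are twice an odd number
      have h8 : 8 ≤ hammingNorm a := by
        rcases weights_of_mem ha with h | h | h | h | h <;> try omega
        exact absurd (hammingNorm_eq_zero.mp h) ha0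
      have h9 : ∀ i, 4 * bv (a i) ≤ x i ^ 2 := by
        intro i
        rcases bv_cases (a i) with ⟨h3, h4⟩ | ⟨h3, h4⟩
        · rw [h4]; simpa using hnn i
        · rw [h4, hx1 i, h4]
          have : (0 + 2 * 1 + 4 * s i) ^ 2 - 4 = 16 * (s i * (s i + 1)) := by ring
          have h10 : 0 ≤ s i * (s i + 1) := by
            rcases le_or_gt 0 (s i) with h | h
            · positivity
            · have : s i + 1 ≤ 0 := by omega
              nlinarith
          nlinarith
      have h10 : 4 * ∑ i, bv (a i) ≤ sqNorm x := by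
        rw [Finset.mul_sum]
        exact Finset.sum_le_sum fun i _ => h9 i
      rw [sum_bv] at h10
      have : (8 : ℤ) ≤ (hammingNorm a : ℤ) := by exact_mod_cast h8
      omega
  · -- all coordinates are odd
    have h9 : ∀ i, 1 ≤ x i ^ 2 := by
      intro i
      rw [hx1 i]
      have : (1 + 2 * bv (a i) + 4 * s i) ≠ 0 := by omega
      have h2 : 0 < (1 + 2 * bv (a i) + 4 * s i) ^ 2 := by positivity
      omega
    have h10 : ∑ _i : P, (1 : ℤ) ≤ sqNorm x := Finset.sum_le_sum fun i _ => h9 i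
    have h11 : ∑ _i : P, (1 : ℤ) = 24 := by
      simp
    rw [h11] at h10
    obtain ⟨c, hc⟩ := hd
    omega

/-- Parallelogram law. -/
theorem parallelogram (x y : P → ℤ) : sqNorm (x + y) + sqNorm (x - y) = 2 * sqNorm x + 2 * sqNorm y := by
  simp only [sqNorm, Pi.add_apply, Pi.sub_apply, ← Finset.sum_add_distrib, Finset.mul_sum]
  exact Finset.sum_congr rfl fun i _ => by ring

theorem sqNorm_two_smul (z : P → ℤ) : sqNorm ((2 : ℕ) • z) = 4 * sqNorm z := by
  simp only [sqNorm, Pi.smul_apply, Finset.mul_sum]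
  exact Finset.sum_congr rfl fun i _ => by
    simp only [nsmul_eq_mul]
    push_cast
    ring

theorem dotInt_eq (x y : P → ℤ) : 4 * dotInt x y = sqNorm (x + y) - sqNorm (x - y) := by
  simp only [sqNorm, dotInt, Pi.add_apply, Pi.sub_apply, ← Finset.sum_sub_distrib, Finset.mul_sum]
  exact Finset.sum_congr rfl fun i _ => by ring

/-- Congruent vectors of small norm. -/
theorem congr_small {x y : P → ℤ} (hx : x ∈ leechLattice) (hy : y ∈ leechLattice) (hxy : x ≠ y)
    (hxn : sqNorm x ≤ 64) (hyn : sqNorm y ≤ 64) (hc : ∃ z ∈ leechLattice, x - y = (2 : ℕ) • z) :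
    x = -y ∨ (sqNorm x = 64 ∧ sqNorm y = 64 ∧ dotInt x y = 0) := by
  obtain ⟨z, hz, hxyz⟩ := hc
  by_cases hneg : x = -y
  · exact Or.inl hneg
  right
  have hz0 : z ≠ 0 := by
    rintro rfl
    apply hxy
    have : x - y = 0 := by simpa using hxyz
    exact sub_eq_zero.mp this
  have h1 := norm_ge hz hz0
  have hw : x + y = (2 : ℕ) • (z + y) := by
    rw [smul_add, ← hxyz, two_nsmul y]
    abel
  have hw0 : z + y ≠ 0 := by
    intro h
    apply hneg
    rw [h] at hw
    have : x + y = 0 := by simpa using hw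
    exact eq_neg_of_add_eq_zero_left this
  have h2 := norm_ge (leechLattice.add_mem hz hy) hw0
  have h3 := parallelogram x y
  rw [hw, hxyz, sqNorm_two_smul, sqNorm_two_smul] at h3
  have h4 : sqNorm x = 64 := by omega
  have h5 : sqNorm y = 64 := by omega
  refine ⟨h4, h5, ?_⟩
  have h6 := dotInt_eq x y
  rw [hw, hxyz, sqNorm_two_smul, sqNorm_two_smul] at h6
  omega

/-- Words of the code meet evenly. -/
theorem dvd_inter {a b : P → ZMod 2} (ha : a ∈ golayCode) (hb : b ∈ golayCode) :
    (2 : ℤ) ∣ ∑ i, bv (a i) * bv (b i) := by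
  have h1 := four_dvd_weight (golayCode.add_mem ha hb)
  have h2 := four_dvd_weight ha
  have h3 := four_dvd_weight hb
  have h4 : ∑ i, bv ((a + b) i) = ∑ i, bv (a i) + ∑ i, bv (b i) - 2 * ∑ i, bv (a i) * bv (b i) := by
    simp only [Pi.add_apply, bv_add, Finset.sum_sub_distrib, Finset.sum_add_distrib, Finset.mul_sum]
  rw [h4] at h1
  obtain ⟨u, hu⟩ := h1
  obtain ⟨v, hv⟩ := h2
  obtain ⟨w, hw⟩ := h3
  rw [hv, hw] at hu
  exact ⟨v + w - u, by linarith⟩

/-- Coordinate permutations from the Mathieu group preserve the lattice. -/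
theorem perm_mem {σ : Equiv.Perm P} (hσ : σ ∈ M24) {x : P → ℤ} (hx : x ∈ leechLattice) :
    (fun i => x (σ i)) ∈ leechLattice := by
  rw [mem_lattice_iff] at hx ⊢
  obtain ⟨m, a, s, hm, ha, hx1, hx2⟩ := leech_decomp hx
  have hinv : σ⁻¹ ∈ M24 := inv_mem hσ
  have ha' : mapWord σ⁻¹ a ∈ golayCode := mapWord_mem_of_mem_M24 hinv ha
  apply leech_intro (m := m) (a := mapWord σ⁻¹ a) (s := fun i => s (σ i)) ha'
  · intro i
    simp only [mapWord, inv_inv, hx1]
  · have h1 : ∑ i, x (σ i) = ∑ i, x i := Equiv.sum_comp σ x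
    rw [h1]
    exact hx2

/-- Sign changes on code words preserve the lattice. -/
theorem sign_mem {e : P → ZMod 2} (he : e ∈ golayCode) {x : P → ℤ} (hx : x ∈ leechLattice) :
    (fun i => if e i = 0 then x i else - x i) ∈ leechLattice := by
  rw [mem_lattice_iff] at hx ⊢
  obtain ⟨m, a, s, hm, ha, hx1, hx2⟩ := leech_decomp hx
  have hform : ∀ i, (if e i = 0 then x i else - x i) = x i - 2 * (bv (e i) * x i) := by
    intro i
    rcases bv_cases (e i) with ⟨h3, h4⟩ | ⟨h3, h4⟩
    · rw [h4, if_pos h3]; ring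
    · rw [h4, h3, if_neg (by decide)]; ring
  have hsumS : ∑ i, bv (e i) * x i = m * ∑ i, bv (e i) + 2 * ∑ i, bv (e i) * bv (a i) +
      4 * ∑ i, bv (e i) * s i := by
    simp only [hx1, Finset.mul_sum, ← Finset.sum_add_distrib]
    exact Finset.sum_congr rfl fun i _ => by ring
  obtain ⟨u, hu⟩ := four_dvd_weight he
  obtain ⟨v, hv⟩ := dvd_inter he ha
  rcases hm with rfl | rfl
  · -- even vectors: the bits are unchanged
    apply leech_intro (m := 0) (a := a) (s := fun i => s i - bv (e i) * bv (a i) - 2 * (bv (e i) * s i)) ha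
    · intro i
      rw [hform, hx1 i]
      ring
    · simp only [hform, Finset.sum_sub_distrib, ← Finset.mul_sum]
      rw [hsumS, hv]
      have h1 := Int.modEq_iff_dvd.mp hx2
      apply Int.modEq_iff_dvd.mpr
      obtain ⟨c, hc⟩ := h1
      exact ⟨c + v + ∑ i, bv (e i) * s i, by linear_combination hc⟩
  · -- odd vectors: the bits change by `e`
    apply leech_intro (m := 1) (a := a + e)
      (s := fun i => s i - bv (e i) * (1 + 2 * s i) + bv (a i) * bv (e i) - bv (e i) * bv (a i)) (golayCode.add_mem ha he)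
    · intro i
      rw [hform, hx1 i]
      simp only [Pi.add_apply, bv_add]
      have := bv_sq (e i)
      ring
    · simp only [hform, Finset.sum_sub_distrib, ← Finset.mul_sum]
      rw [hsumS, hv, hu]
      have h1 := Int.modEq_iff_dvd.mp hx2
      apply Int.modEq_iff_dvd.mpr
      obtain ⟨c, hc⟩ := h1
      exact ⟨c + u + v + ∑ i, bv (e i) * s i, by linear_combination hc⟩

end Cfsg.Agent.Lib.LeechBase
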