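/-
Census of short vectors of the Leech lattice, through Kronecker substitution.
-/
import Mathlib
import Cfsg.Prelude.Def_Sporadic_a
import Cfsg.Agent.Lib.LeechBase

set_option autoImplicit false
set_option linter.unusedSectionVars false
set_option linter.unusedSimpArgs false
set_option linter.unusedVariables false

namespace Cfsg.Agent.Lib.LeechCensus

open Cfsg Cfsg.Agent.Lib.GolayCode Cfsg.Agent.Lib.GolayFacts Cfsg.Agent.Lib.GolayPerm
  Cfsg.Agent.Lib.LeechBase

/-- Extracting digits of a sum of powers. -/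
theorem digit_extract {ι : Type*} (T : Finset ι) (E : ι → ℕ) (b : ℕ) (hb : T.card < b) (N : ℕ) :
    ((∑ y ∈ T, b ^ E y) / b ^ N) % b = (T.filter (fun y => E y = N)).card := by
  classical
  have hb0 : 0 < b := by omega
  set c := (T.filter (fun y => E y = N)).card with hc
  set L := ∑ y ∈ T.filter (fun y => E y < N), b ^ E y with hL
  obtain ⟨h, hh⟩ : ∃ h, ∑ y ∈ T.filter (fun y => N < E y), b ^ E y = b ^ (N + 1) * h := by
    have : b ^ (N + 1) ∣ ∑ y ∈ T.filter (fun y => N < E y), b ^ E y := by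
      apply Finset.dvd_sum
      intro y hy
      exact pow_dvd_pow _ (Finset.mem_filter.mp hy).2
    exact this
  have hsplit : ∑ y ∈ T, b ^ E y = L + b ^ N * (c + b * h) := by
    have h1 : ∑ y ∈ T, b ^ E y = ∑ y ∈ T.filter (fun y => E y < N), b ^ E y +
        ∑ y ∈ T.filter (fun y => E y = N), b ^ E y + ∑ y ∈ T.filter (fun y => N < E y), b ^ E y := by
      have h2 := Finset.sum_filter_add_sum_filter_not T (fun y => E y < N) (fun y => b ^ E y)
      have h3 := Finset.sum_filter_add_sum_filter_not (T.filter (fun y => ¬ E y < N)) (fun y => E y = N)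
        (fun y => b ^ E y)
      have h4 : (T.filter (fun y => ¬ E y < N)).filter (fun y => E y = N) = T.filter (fun y => E y = N) := by
        ext y
        simp only [Finset.mem_filter]
        constructor
        · rintro ⟨⟨h1, -⟩, h3⟩
          exact ⟨h1, h3⟩
        · rintro ⟨h1, h3⟩
          exact ⟨⟨h1, by omega⟩, h3⟩
      have h5 : (T.filter (fun y => ¬ E y < N)).filter (fun y => ¬ E y = N) = T.filter (fun y => N < E y) := by
        ext y
        simp only [Finset.mem_filter]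
        constructor
        · rintro ⟨⟨h1, h2⟩, h3⟩
          exact ⟨h1, by omega⟩
        · rintro ⟨h1, h3⟩
          exact ⟨⟨h1, by omega⟩, by omega⟩
      rw [h4, h5] at h3
      rw [← h2, ← h3, add_assoc]
    rw [h1, hh]
    have h6 : ∑ y ∈ T.filter (fun y => E y = N), b ^ E y = c * b ^ N := by
      rw [Finset.sum_congr rfl (fun y hy => by rw [(Finset.mem_filter.mp hy).2]), Finset.sum_const, smul_eq_mul]
    rw [h6]
    ring
  have hLlt : L < b ^ N := by
    have h1 : L * b ≤ (T.filter (fun y => E y < N)).card * b ^ N := by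
      rw [hL, Finset.sum_mul]
      calc ∑ y ∈ T.filter (fun y => E y < N), b ^ E y * b
          ≤ ∑ y ∈ T.filter (fun y => E y < N), b ^ N := by
            apply Finset.sum_le_sum
            intro y hy
            rw [← pow_succ]
            exact Nat.pow_le_pow_right hb0 (Finset.mem_filter.mp hy).2
        _ = _ := by rw [Finset.sum_const, smul_eq_mul]
    have h2 : (T.filter (fun y => E y < N)).card < b :=
      lt_of_le_of_lt (Finset.card_le_card (Finset.filter_subset _ _)) hb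
    have h3 : 0 < b ^ N := pow_pos hb0 N
    have h4 : L * b < b * b ^ N := lt_of_le_of_lt h1 (Nat.mul_lt_mul_of_pos_right h2 h3)
    rw [mul_comm L b] at h4
    exact Nat.lt_of_mul_lt_mul_left h4
  have hclt : c < b := lt_of_le_of_lt (Finset.card_le_card (Finset.filter_subset _ _)) hb
  rw [hsplit, Nat.add_mul_div_left _ _ (pow_pos hb0 N), Nat.div_eq_of_lt hLlt, zero_add,
    Nat.add_mul_mod_self_left, Nat.mod_eq_of_lt hclt]

/-- product of sums of powers -/
theorem prod_sum_pow {ι : Type*} [Fintype ι] [DecidableEq ι] (t : ι → Finset ℤ) (e : ι → ℤ → ℕ) (b : ℕ) :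
    ∏ i, ∑ v ∈ t i, b ^ e i v = ∑ x ∈ Fintype.piFinset t, b ^ (∑ i, e i (x i)) := by
  rw [Finset.prod_univ_sum]
  refine Finset.sum_congr rfl fun x _ => ?_
  rw [Finset.prod_pow_eq_pow_sum]

/-- the base -/
def BB : ℕ := 2 ^ 60

/-- the multiplier for the second statistic -/
def KK : ℕ := 2000

/-- allowed values -/
def VV (m : ℤ) (bit : ZMod 2) : Finset ℤ :=
  if m = 0 then (if bit = 0 then {0, 4, -4, 8, -8} else {2, -2, 6, -6})
  else (if bit = 0 then {1, -3, 5, -7} else {3, -1, 7, -5})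

/-- the quotient by four -/
def ss (m : ℤ) (bit : ZMod 2) (v : ℤ) : ℤ := (v - m - 2 * bv bit) / 4

/-- the exponent -/
def ex (m : ℤ) (bit : ZMod 2) (v : ℤ) : ℕ := v.natAbs ^ 2 + KK * (ss m bit v % 2).toNat

theorem mem_VV {m : ℤ} (hm : m = 0 ∨ m = 1) {bit : ZMod 2} {v : ℤ} :
    v ∈ VV m bit ↔ (v ≡ m + 2 * bv bit [ZMOD 4]) ∧ v ^ 2 ≤ 64 := by
  have h8 : v ^ 2 ≤ 64 ↔ -8 ≤ v ∧ v ≤ 8 := by
    constructor
    · intro h
      constructor <;> nlinarith
    · rintro ⟨h1, h2⟩
      nlinarith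
  rw [h8]
  rcases hm with rfl | rfl <;> rcases bv_cases bit with ⟨rfl, h⟩ | ⟨rfl, h⟩ <;> rw [h] <;>
    simp only [VV, Int.ModEq] <;> simp <;> omega

/-- The generating number. -/
def ZZU (U : ZMod 2 → Finset ℤ) (m : ℤ) (w : ℕ) : ℕ :=
  (∑ v ∈ U 0, BB ^ ex m 0 v) ^ (24 - w) * (∑ v ∈ U 1, BB ^ ex m 1 v) ^ w

/-- The count from the generating number. -/
def cntU (U : ZMod 2 → Finset ℤ) (m : ℤ) (w N : ℕ) : ℕ :=
  ∑ k ∈ (Finset.range 25).filter (fun k : ℕ => (k : ℤ) % 2 = m), (ZZU U m w / BB ^ (N + KK * k)) % BB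

theorem card_P : Fintype.card P = 24 := by decide

theorem prod_bits (g : ZMod 2 → ℕ) (a : P → ZMod 2) :
    ∏ i, g (a i) = g 0 ^ (24 - hammingNorm a) * g 1 ^ hammingNorm a := by
  classical
  have h1 : ∀ i, g (a i) = if a i = 0 then g 0 else g 1 := by
    intro i
    rcases bv_cases (a i) with ⟨h3, h4⟩ | ⟨h3, h4⟩
    · rw [h3]; simp
    · rw [h3]; simp
  simp only [h1]
  rw [Finset.prod_ite, Finset.prod_const, Finset.prod_const]
  have h2 : (Finset.univ.filter fun i => ¬ a i = 0).card = hammingNorm a := by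
    rw [hammingNorm]
  have h3 := Finset.card_filter_add_card_filter_not (s := (Finset.univ : Finset P)) (fun i => a i = 0)
  rw [h2] at h3
  have h4 : (Finset.univ : Finset P).card = 24 := card_P
  rw [h4] at h3
  have h5 : (Finset.univ.filter fun i => a i = 0).card = 24 - hammingNorm a := by omega
  rw [h5, h2]

theorem natAbs_sq_cast (v : ℤ) : ((v.natAbs ^ 2 : ℕ) : ℤ) = v ^ 2 := by
  push_cast
  rw [sq_abs]

theorem toNat_mod_two (s : ℤ) : (((s % 2).toNat : ℕ) : ℤ) = s % 2 :=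
  Int.toNat_of_nonneg (Int.emod_nonneg _ (by norm_num))

/-- Counting lattice patterns from a big number. -/
theorem card_pattern {m : ℤ} (hm : m = 0 ∨ m = 1) {a : P → ZMod 2} (ha : a ∈ golayCode)
    (U : ZMod 2 → Finset ℤ) (hU : ∀ b, U b ⊆ VV m b) {N : ℕ} (hN : N ≤ 64) :
    ((Fintype.piFinset fun i => U (a i)).filter
      (fun x => sqNorm x = (N : ℤ) ∧ ∑ i, x i ≡ 4 * m [ZMOD 8])).card = cntU U m (hammingNorm a) N := by
  classical
  set T := Fintype.piFinset fun i => U (a i) with hT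
  let n : (P → ℤ) → ℕ := fun x => ∑ i, (x i).natAbs ^ 2
  let kk : (P → ℤ) → ℕ := fun x => ∑ i, (ss m (a i) (x i) % 2).toNat
  let E : (P → ℤ) → ℕ := fun x => ∑ i, ex m (a i) (x i)
  have hE : ∀ x, E x = n x + KK * kk x := by
    intro x
    show ∑ i, ex m (a i) (x i) = ∑ i, (x i).natAbs ^ 2 + KK * ∑ i, (ss m (a i) (x i) % 2).toNat
    rw [Finset.mul_sum, ← Finset.sum_add_distrib]
    rfl
  have hn : ∀ x, (n x : ℤ) = sqNorm x := by
    intro x
    show ((∑ i, (x i).natAbs ^ 2 : ℕ) : ℤ) = ∑ i, x i ^ 2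
    rw [Nat.cast_sum]
    exact Finset.sum_congr rfl fun i _ => natAbs_sq_cast _
  have hmem : ∀ x ∈ T, ∀ i, (x i ≡ m + 2 * bv (a i) [ZMOD 4]) ∧ x i ^ 2 ≤ 64 := by
    intro x hx i
    have h1 := Fintype.mem_piFinset.mp hx i
    exact (mem_VV hm).mp (hU _ h1)
  have hnle : ∀ x ∈ T, n x ≤ 1536 := by
    intro x hx
    have h1 : ∀ i ∈ (Finset.univ : Finset P), (x i).natAbs ^ 2 ≤ 64 := by
      intro i _
      have h2 := (hmem x hx i).2
      rw [← natAbs_sq_cast] at h2
      exact_mod_cast h2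
    have h3 := Finset.sum_le_card_nsmul _ _ _ h1
    have h4 : (Finset.univ : Finset P).card = 24 := card_P
    rw [h4] at h3
    exact h3
  have hkle : ∀ x, kk x ≤ 24 := by
    intro x
    have h1 : ∀ i ∈ (Finset.univ : Finset P), (ss m (a i) (x i) % 2).toNat ≤ 1 := by
      intro i _
      have := Int.emod_nonneg (ss m (a i) (x i)) (b := 2) (by norm_num)
      have := Int.emod_lt_of_pos (ss m (a i) (x i)) (b := 2) (by norm_num)
      omega
    have h3 := Finset.sum_le_card_nsmul _ _ _ h1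
    have h4 : (Finset.univ : Finset P).card = 24 := card_P
    rw [h4] at h3
    exact h3
  have hpar : ∀ x ∈ T, (∑ i, x i ≡ 4 * m [ZMOD 8] ↔ (kk x : ℤ) % 2 = m) := by
    intro x hx
    have hs : ∀ i, x i = m + 2 * bv (a i) + 4 * ss m (a i) (x i) := by
      intro i
      have h1 := Int.modEq_iff_dvd.mp (hmem x hx i).1
      obtain ⟨c, hc⟩ := h1
      show x i = m + 2 * bv (a i) + 4 * ((x i - m - 2 * bv (a i)) / 4)
      have : x i - m - 2 * bv (a i) = 4 * (-c) := by linarith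
      rw [this]
      have : 4 * (-c) / 4 = -c := by omega
      rw [this]
      linarith
    have hsum : ∑ i, x i = 24 * m + 2 * ∑ i, bv (a i) + 4 * ∑ i, ss m (a i) (x i) := by
      conv_lhs => rw [Finset.sum_congr rfl fun i _ => hs i]
      simp only [Finset.sum_add_distrib, ← Finset.mul_sum, Finset.sum_const]
      simp
    obtain ⟨w, hw⟩ := four_dvd_weight ha
    have hk : (kk x : ℤ) % 2 = (∑ i, ss m (a i) (x i)) % 2 := by
      show ((∑ i, (ss m (a i) (x i) % 2).toNat : ℕ) : ℤ) % 2 = _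
      rw [Nat.cast_sum, Finset.sum_int_mod (Finset.univ) 2 (fun i => ss m (a i) (x i))]
      refine congrArg (· % 2) (Finset.sum_congr rfl fun i _ => toNat_mod_two _)
    rw [hk, hsum, hw]
    set u := ∑ i, ss m (a i) (x i) with hu
    constructor
    · intro h
      have h1 := Int.modEq_iff_dvd.mp h
      rcases hm with rfl | rfl <;> omega
    · intro h
      apply Int.modEq_iff_dvd.mpr
      rcases hm with rfl | rfl <;> omega
  have hcardT : T.card < BB := by
    rw [hT, Fintype.card_piFinset]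
    have h1 : ∀ i, (U (a i)).card ≤ 5 := by
      intro i
      refine (Finset.card_le_card (hU _)).trans ?_
      rcases hm with rfl | rfl <;> rcases bv_cases (a i) with ⟨h3, h4⟩ | ⟨h3, h4⟩ <;> rw [h3] <;> decide
    calc ∏ i, (U (a i)).card ≤ ∏ _i : P, 5 := Finset.prod_le_prod' fun i _ => h1 i
      _ = 5 ^ 24 := by simp [card_P]
      _ < BB := by decide
  have hprod : ∑ x ∈ T, BB ^ E x = ZZU U m (hammingNorm a) := by
    rw [hT]
    have := prod_sum_pow (fun i => U (a i)) (fun i v => ex m (a i) v) BB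
    rw [← this]
    exact prod_bits (fun b => ∑ v ∈ U b, BB ^ ex m b v) a
  have hfil : T.filter (fun x => sqNorm x = (N : ℤ) ∧ ∑ i, x i ≡ 4 * m [ZMOD 8]) =
      (((Finset.range 25).filter (fun k : ℕ => (k : ℤ) % 2 = m))).biUnion
        (fun k => T.filter (fun x => E x = N + KK * k)) := by
    ext x
    simp only [Finset.mem_filter, Finset.mem_biUnion, Finset.mem_range]
    constructor
    · rintro ⟨hx, h1, h2⟩
      refine ⟨kk x, ⟨?_, (hpar x hx).mp h2⟩, hx, ?_⟩
      · have := hkle x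
        omega
      · rw [hE]
        have h3 : (n x : ℤ) = N := by rw [hn, h1]
        have h4 : n x = N := by exact_mod_cast h3
        rw [h4]
    · rintro ⟨k, ⟨hk1, hk2⟩, hx, h3⟩
      rw [hE] at h3
      have h4 := hnle x hx
      have h5 : n x = N ∧ kk x = k := by
        simp only [KK] at h3
        omega
      refine ⟨hx, ?_, (hpar x hx).mpr ?_⟩
      · rw [← hn, h5.1]
      · rw [h5.2, hk2]
  rw [hfil, Finset.card_biUnion]
  · rw [cntU, ← hprod]
    refine Finset.sum_congr rfl fun k _ => ?_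
    rw [digit_extract T E BB hcardT]
  · intro k hk l hl hkl
    rw [Function.onFun, Finset.disjoint_left]
    intro x hx hx'
    simp only [Finset.mem_filter] at hx hx'
    apply hkl
    have h1 := hx.2
    have h2 := hx'.2
    rw [hE] at h1 h2
    have h4 := hnle x hx.1
    simp only [KK] at h1 h2
    omega

/-- the count -/
def cnt (m : ℤ) (w N : ℕ) : ℕ := cntU (VV m) m w N

theorem cnt_32 : [cnt 0 0 32, cnt 1 0 32, cnt 0 8 32, cnt 1 8 32, cnt 0 12 32, cnt 1 12 32,
    cnt 0 16 32, cnt 1 16 32, cnt 0 24 32, cnt 1 24 32] = [1104, 24, 128, 24, 0, 24, 0, 24, 0, 24] := by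
  decide +kernel

theorem cnt_48 : [cnt 0 0 48, cnt 1 0 48, cnt 0 8 48, cnt 1 8 48, cnt 0 12 48, cnt 1 12 48,
    cnt 0 16 48, cnt 1 16 48, cnt 0 24 48, cnt 1 24 48] =
    [0, 2048, 4096, 2048, 2048, 2048, 0, 2048, 0, 2048] := by
  decide +kernel

theorem cnt_64 : [cnt 0 0 64, cnt 1 0 64, cnt 0 8 64, cnt 1 8 64, cnt 0 12 64, cnt 1 12 64,
    cnt 0 16 64, cnt 1 16 64, cnt 0 24 64, cnt 1 24 64] =
    [170064, 48576, 62464, 48576, 49152, 48576, 32768, 48576, 0, 48576] := by
  decide +kernel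

/-- the pattern set -/
def Pat (m : ℤ) (a : P → ZMod 2) (N : ℕ) : Set (P → ℤ) :=
  {x | (∀ i, x i ≡ m + 2 * bv (a i) [ZMOD 4]) ∧ sqNorm x = (N : ℤ) ∧ ∑ i, x i ≡ 4 * m [ZMOD 8]}

theorem sq_le_sqNorm (x : P → ℤ) (i : P) : x i ^ 2 ≤ sqNorm x :=
  Finset.single_le_sum (f := fun i => x i ^ 2) (fun i _ => sq_nonneg _) (Finset.mem_univ i)

theorem pat_eq {m : ℤ} (hm : m = 0 ∨ m = 1) (a : P → ZMod 2) {N : ℕ} (hN : N ≤ 64) :
    Pat m a N = ↑((Fintype.piFinset fun i => VV m (a i)).filter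
      (fun x => sqNorm x = (N : ℤ) ∧ ∑ i, x i ≡ 4 * m [ZMOD 8])) := by
  ext x
  simp only [Pat, Set.mem_ofPred_eq, Finset.coe_filter, Fintype.mem_piFinset]
  constructor
  · rintro ⟨h1, h2, h3⟩
    refine ⟨fun i => (mem_VV hm).mpr ⟨h1 i, ?_⟩, h2, h3⟩
    have := sq_le_sqNorm x i
    have h5 : (N : ℤ) ≤ 64 := by exact_mod_cast hN
    omega
  · rintro ⟨h1, h2, h3⟩
    exact ⟨fun i => ((mem_VV hm).mp (h1 i)).1, h2, h3⟩

theorem pat_finite {m : ℤ} (hm : m = 0 ∨ m = 1) (a : P → ZMod 2) {N : ℕ} (hN : N ≤ 64) :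
    (Pat m a N).Finite := by
  rw [pat_eq hm a hN]
  exact Finset.finite_toSet _

theorem ncard_pat {m : ℤ} (hm : m = 0 ∨ m = 1) {a : P → ZMod 2} (ha : a ∈ golayCode) {N : ℕ} (hN : N ≤ 64) :
    (Pat m a N).ncard = cnt m (hammingNorm a) N := by
  rw [pat_eq hm a hN, Set.ncard_coe_finset]
  exact card_pattern hm ha (VV m) (fun b => subset_rfl) hN

theorem pat_mem_lattice {m : ℤ} {a : P → ZMod 2} (ha : a ∈ golayCode) {N : ℕ} {x : P → ℤ}
    (hx : x ∈ Pat m a N) : x ∈ leechLattice := by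
  obtain ⟨h1, h2, h3⟩ := hx
  apply mem_lattice_iff.mpr
  apply leech_intro (m := m) (a := a) (s := fun i => (x i - m - 2 * bv (a i)) / 4) ha _ h3
  intro i
  obtain ⟨c, hc⟩ := Int.modEq_iff_dvd.mp (h1 i)
  show x i = m + 2 * bv (a i) + 4 * ((x i - m - 2 * bv (a i)) / 4)
  have : x i - m - 2 * bv (a i) = 4 * (-c) := by linarith
  rw [this]
  have : 4 * (-c) / 4 = -c := by omega
  rw [this]
  linarith

/-- The pattern of a lattice vector. -/
theorem exists_pat {x : P → ℤ} (hx : x ∈ leechLattice) {N : ℕ} (hN : sqNorm x = (N : ℤ)) :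
    ∃ k < 4096, (x ∈ Pat 0 (dec (spanMask k)) N ∨ x ∈ Pat 1 (dec (spanMask k)) N) := by
  obtain ⟨m, a, s, hm, ha, hx1, hx2⟩ := leech_decomp (mem_lattice_iff.mp hx)
  obtain ⟨k, hk, rfl⟩ := mem_golayCode_iff.mp ha
  refine ⟨k, hk, ?_⟩
  have h3 : x ∈ Pat m (dec (spanMask k)) N := by
    refine ⟨fun i => ?_, hN, hx2⟩
    rw [hx1 i]
    apply Int.modEq_iff_dvd.mpr
    exact ⟨- s i, by ring⟩
  rcases hm with rfl | rfl
  · exact Or.inl h3
  · exact Or.inr h3

theorem pat_unique {m m' : ℤ} (hm : m = 0 ∨ m = 1) (hm' : m' = 0 ∨ m' = 1) {a a' : P → ZMod 2} {N N' : ℕ}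
    {x : P → ℤ} (h : x ∈ Pat m a N) (h' : x ∈ Pat m' a' N') : m = m' ∧ a = a' := by
  have h1 : ∀ i, m + 2 * bv (a i) ≡ m' + 2 * bv (a' i) [ZMOD 4] := fun i => (h.1 i).symm.trans (h'.1 i)
  have hi : P := none
  have h2 : m = m' := by
    have := Int.modEq_iff_dvd.mp (h1 hi)
    rcases bv_cases (a hi) with ⟨h3, h4⟩ | ⟨h3, h4⟩ <;> rcases bv_cases (a' hi) with ⟨h5, h6⟩ | ⟨h5, h6⟩ <;>
      rw [h4, h6] at this <;> rcases hm with rfl | rfl <;> rcases hm' with rfl | rfl <;> omega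
  refine ⟨h2, ?_⟩
  funext i
  have := Int.modEq_iff_dvd.mp (h1 i)
  rw [h2] at this
  rcases bv_cases (a i) with ⟨h3, h4⟩ | ⟨h3, h4⟩ <;> rcases bv_cases (a' i) with ⟨h5, h6⟩ | ⟨h5, h6⟩ <;>
    rw [h4, h6] at this
  · rw [h3, h5]
  · omega
  · omega
  · rw [h3, h5]

/-- Splitting a set of lattice vectors according to the patterns. -/
theorem ncard_sep {N : ℕ} (hN : N ≤ 64) {S : Set (P → ℤ)} (hS : ∀ x ∈ S, x ∈ leechLattice ∧ sqNorm x = (N : ℤ)) :
    S.ncard = ∑ k ∈ Finset.range 4096, ((S ∩ Pat 0 (dec (spanMask k)) N).ncard +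
      (S ∩ Pat 1 (dec (spanMask k)) N).ncard) := by
  classical
  have hfin : ∀ (m : ℤ) (hm : m = 0 ∨ m = 1) (k : ℕ), (S ∩ Pat m (dec (spanMask k)) N).Finite :=
    fun m hm k => (pat_finite hm _ hN).subset Set.inter_subset_right
  let F : ℤ → ℕ → Finset (P → ℤ) := fun m k =>
    if hm : m = 0 ∨ m = 1 then (hfin m hm k).toFinset else ∅
  have hF : ∀ (m : ℤ) (hm : m = 0 ∨ m = 1) (k : ℕ) (x : P → ℤ), x ∈ F m k ↔ x ∈ S ∩ Pat m (dec (spanMask k)) N := by
    intro m hm k x
    simp only [F, dif_pos hm, Set.Finite.mem_toFinset]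
  have hF' : ∀ (m : ℤ) (hm : m = 0 ∨ m = 1) (k : ℕ), (S ∩ Pat m (dec (spanMask k)) N) = ↑(F m k) := by
    intro m hm k
    ext x
    rw [Finset.mem_coe, hF m hm]
  have hSeq : S = ↑((Finset.range 4096).biUnion fun k => F 0 k ∪ F 1 k) := by
    ext x
    simp only [Finset.coe_biUnion, Set.mem_iUnion, Finset.mem_coe, Finset.mem_range, exists_prop,
      Finset.mem_union, hF 0 (Or.inl rfl), hF 1 (Or.inr rfl)]
    constructor
    · intro hx
      obtain ⟨k, hk, h⟩ := exists_pat (hS x hx).1 (hS x hx).2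
      refine ⟨k, hk, ?_⟩
      rcases h with h | h
      · exact Or.inl ⟨hx, h⟩
      · exact Or.inr ⟨hx, h⟩
    · rintro ⟨k, hk, h | h⟩ <;> exact h.1
  conv_lhs => rw [hSeq]
  rw [Set.ncard_coe_finset, Finset.card_biUnion]
  · refine Finset.sum_congr rfl fun k _ => ?_
    rw [hF' 0 (Or.inl rfl), hF' 1 (Or.inr rfl), Set.ncard_coe_finset, Set.ncard_coe_finset,
      Finset.card_union_of_disjoint]
    rw [Finset.disjoint_left]
    intro x hx hx'
    rw [hF 0 (Or.inl rfl)] at hx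
    rw [hF 1 (Or.inr rfl)] at hx'
    have := (pat_unique (Or.inl rfl) (Or.inr rfl) hx.2 hx'.2).1
    omega
  · intro k hk l hl hkl
    rw [Function.onFun, Finset.disjoint_left]
    intro x hx hx'
    apply hkl
    have hk' := Finset.mem_range.mp hk
    have hl' := Finset.mem_range.mp hl
    have key : ∀ m m' : ℤ, (m = 0 ∨ m = 1) → (m' = 0 ∨ m' = 1) →
        x ∈ F m k → x ∈ F m' l → k = l := by
      intro m m' hm hm' h1 h2
      rw [hF m hm] at h1
      rw [hF m' hm'] at h2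
      have h3 := (pat_unique hm hm' h1.2 h2.2).2
      exact spanMask_injOn hk' hl' (dec_injOn (spanMask_lt hk') (spanMask_lt hl') h3)
    rw [Finset.mem_union] at hx hx'
    rcases hx with hx | hx <;> rcases hx' with hx' | hx'
    · exact key 0 0 (Or.inl rfl) (Or.inl rfl) hx hx'
    · exact key 0 1 (Or.inl rfl) (Or.inr rfl) hx hx'
    · exact key 1 0 (Or.inr rfl) (Or.inl rfl) hx hx'
    · exact key 1 1 (Or.inr rfl) (Or.inr rfl) hx hx'

theorem count0 : countBelow (fun k => hw 24 (spanMask k) == 0) 4096 = 1 := by decide +kernel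
theorem count16 : countBelow (fun k => hw 24 (spanMask k) == 16) 4096 = 759 := by decide +kernel
theorem count24 : countBelow (fun k => hw 24 (spanMask k) == 24) 4096 = 1 := by decide +kernel

theorem fiber_card (w : ℕ) :
    ((Finset.range 4096).filter fun k => hw 24 (spanMask k) = w).card =
      countBelow (fun k => hw 24 (spanMask k) == w) 4096 := by
  rw [countBelow_eq]
  refine congrArg Finset.card (Finset.filter_congr fun k _ => ?_)
  simp only [beq_iff_eq]

/-- Sums over the code through the weight enumerator. -/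
theorem sum_code (g : ℕ → ℕ) : ∑ k ∈ Finset.range 4096, g (hw 24 (spanMask k)) =
    g 0 + 759 * g 8 + 2576 * g 12 + 759 * g 16 + g 24 := by
  have h1 := Finset.sum_fiberwise_of_maps_to (s := Finset.range 4096) (t := ({0, 8, 12, 16, 24} : Finset ℕ))
    (g := fun k => hw 24 (spanMask k)) (f := fun k => g (hw 24 (spanMask k))) (by
      intro k hk
      have := weight_spanMask (Finset.mem_range.mp hk)
      simpa using this)
  rw [← h1]
  have h2 : ∀ w, ∑ k ∈ (Finset.range 4096).filter (fun k => hw 24 (spanMask k) = w), g (hw 24 (spanMask k)) =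
      countBelow (fun k => hw 24 (spanMask k) == w) 4096 * g w := by
    intro w
    rw [Finset.sum_congr rfl (fun k hk => by rw [(Finset.mem_filter.mp hk).2]), Finset.sum_const, fiber_card,
      smul_eq_mul]
  rw [Finset.sum_insert (by decide), Finset.sum_insert (by decide), Finset.sum_insert (by decide),
    Finset.sum_insert (by decide), Finset.sum_singleton, h2, h2, h2, h2, h2, count0, count8, count12, count16, count24]
  ring

/-- The number of lattice vectors of small norm. -/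
theorem ncard_norm {N : ℕ} (hN : N ≤ 64) :
    {x : P → ℤ | x ∈ leechLattice ∧ sqNorm x = (N : ℤ)}.ncard =
      (cnt 0 0 N + cnt 1 0 N) + 759 * (cnt 0 8 N + cnt 1 8 N) + 2576 * (cnt 0 12 N + cnt 1 12 N) +
       759 * (cnt 0 16 N + cnt 1 16 N) + (cnt 0 24 N + cnt 1 24 N) := by
  rw [ncard_sep hN (S := {x : P → ℤ | x ∈ leechLattice ∧ sqNorm x = (N : ℤ)}) (fun x hx => hx)]
  have h1 : ∀ (m : ℤ) (hm : m = 0 ∨ m = 1) (k : ℕ), k < 4096 →
      ({x : P → ℤ | x ∈ leechLattice ∧ sqNorm x = (N : ℤ)} ∩ Pat m (dec (spanMask k)) N).ncard =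
        cnt m (hw 24 (spanMask k)) N := by
    intro m hm k hk
    have hc : dec (spanMask k) ∈ golayCode := mem_golayCode_iff.mpr ⟨k, hk, rfl⟩
    have h2 : {x : P → ℤ | x ∈ leechLattice ∧ sqNorm x = (N : ℤ)} ∩ Pat m (dec (spanMask k)) N =
        Pat m (dec (spanMask k)) N := by
      apply Set.inter_eq_right.mpr
      intro x hx
      exact ⟨pat_mem_lattice hc hx, hx.2.1⟩
    rw [h2, ncard_pat hm hc hN, hammingNorm_dec]
  rw [Finset.sum_congr rfl fun k hk => by
    rw [h1 0 (Or.inl rfl) k (Finset.mem_range.mp hk), h1 1 (Or.inr rfl) k (Finset.mem_range.mp hk)]]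
  rw [sum_code (fun w => cnt 0 w N + cnt 1 w N)]

theorem count_32 : {x : P → ℤ | x ∈ leechLattice ∧ sqNorm x = 32}.ncard = 196560 := by
  have h := ncard_norm (N := 32) (by norm_num)
  have hh := cnt_32
  simp only [List.cons.injEq, and_true] at hh
  obtain ⟨h0, h1, h2, h3, h4, h5, h6, h7, h8, h9⟩ := hh
  rw [h0, h1, h2, h3, h4, h5, h6, h7, h8, h9] at h
  simpa using h

theorem count_48 : {x : P → ℤ | x ∈ leechLattice ∧ sqNorm x = 48}.ncard = 16773120 := by
  have h := ncard_norm (N := 48) (by norm_num)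
  have hh := cnt_48
  simp only [List.cons.injEq, and_true] at hh
  obtain ⟨h0, h1, h2, h3, h4, h5, h6, h7, h8, h9⟩ := hh
  rw [h0, h1, h2, h3, h4, h5, h6, h7, h8, h9] at h
  simpa using h

theorem count_64 : {x : P → ℤ | x ∈ leechLattice ∧ sqNorm x = 64}.ncard = 398034000 := by
  have h := ncard_norm (N := 64) (by norm_num)
  have hh := cnt_64
  simp only [List.cons.injEq, and_true] at hh
  obtain ⟨h0, h1, h2, h3, h4, h5, h6, h7, h8, h9⟩ := hh
  rw [h0, h1, h2, h3, h4, h5, h6, h7, h8, h9] at h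
  simpa using h

end Cfsg.Agent.Lib.LeechCensus
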