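/-
Elements of the automorphism group of the Leech lattice: monomial elements.
-/
import Mathlib
import Cfsg.Prelude.Def_Sporadic_a
import Cfsg.Agent.Lib.LeechBase

set_option autoImplicit false
set_option linter.unusedSectionVars false
set_option linter.unusedSimpArgs false
set_option linter.unusedVariables false

namespace Cfsg.Agent.Lib.LeechCo

open Cfsg Cfsg.Agent.Lib.GolayCode Cfsg.Agent.Lib.GolayFacts Cfsg.Agent.Lib.GolayPerm
  Cfsg.Agent.Lib.LeechBase

/-- Constructing elements of `Co0`. -/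
theorem exists_co0 (f g : (P → ℤ) → (P → ℤ)) (hf : ∀ x ∈ leechLattice, f x ∈ leechLattice)
    (hg : ∀ x ∈ leechLattice, g x ∈ leechLattice) (hfg : ∀ x ∈ leechLattice, f (g x) = x)
    (hgf : ∀ x ∈ leechLattice, g (f x) = x)
    (hadd : ∀ x ∈ leechLattice, ∀ y ∈ leechLattice, f (x + y) = f x + f y)
    (hnorm : ∀ x ∈ leechLattice, sqNorm (f x) = sqNorm x) :
    ∃ c : Co0, ∀ v : leechLattice, ((c • v : leechLattice) : P → ℤ) = f v := by
  let e : Equiv.Perm leechLattice :=
    { toFun := fun v => ⟨f v, hf v v.2⟩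
      invFun := fun v => ⟨g v, hg v v.2⟩
      left_inv := fun v => Subtype.ext (hgf v v.2)
      right_inv := fun v => Subtype.ext (hfg v v.2) }
  have he : e ∈ Co0 := by
    refine ⟨fun v w => Subtype.ext (hadd v v.2 w w.2), fun v => hnorm v v.2⟩
  exact ⟨⟨e, he⟩, fun v => rfl⟩

/-- negation -/
theorem exists_neg : ∃ n : Co0, ∀ v : leechLattice, ((n • v : leechLattice) : P → ℤ) = -(v : P → ℤ) := by
  apply exists_co0 (fun x => -x) (fun x => -x)
  · intro x hx; exact neg_mem hx
  · intro x hx; exact neg_mem hx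
  · intro x _; simp
  · intro x _; simp
  · intro x _ y _; simp [add_comm]
  · intro x _
    simp [sqNorm]

/-- A nonzero vector. -/
theorem exists_nonzero : ∃ x ∈ leechLattice, x ≠ 0 := by
  refine ⟨fun i => if i = none then 8 else 0, ?_, ?_⟩
  · rw [mem_lattice_iff]
    apply leech_intro (m := 0) (a := 0) (s := fun i => if i = none then 2 else 0) golayCode.zero_mem
    · intro i
      by_cases h : i = none <;> simp [h, bv_zero]
    · simp
  · intro h
    have := congrFun h none
    simp at this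

/-- Sign change map. -/
def sgn (e : P → ZMod 2) (x : P → ℤ) : P → ℤ := fun i => if e i = 0 then x i else - x i

/-- Permutation map. -/
def prm (σ : Equiv.Perm P) (x : P → ℤ) : P → ℤ := fun i => x (σ⁻¹ i)

theorem sgn_mem {e : P → ZMod 2} (he : e ∈ golayCode) {x : P → ℤ} (hx : x ∈ leechLattice) :
    sgn e x ∈ leechLattice := sign_mem he hx

theorem prm_mem {σ : Equiv.Perm P} (hσ : σ ∈ M24) {x : P → ℤ} (hx : x ∈ leechLattice) :
    prm σ x ∈ leechLattice := perm_mem (inv_mem hσ) hx

theorem sgn_sgn (e : P → ZMod 2) (x : P → ℤ) : sgn e (sgn e x) = x := by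
  funext i
  by_cases h : e i = 0 <;> simp [sgn, h]

theorem prm_prm_inv (σ : Equiv.Perm P) (x : P → ℤ) : prm σ (prm σ⁻¹ x) = x := by
  funext i
  simp [prm]

theorem prm_inv_prm (σ : Equiv.Perm P) (x : P → ℤ) : prm σ⁻¹ (prm σ x) = x := by
  funext i
  simp [prm]

theorem sgn_add (e : P → ZMod 2) (x y : P → ℤ) : sgn e (x + y) = sgn e x + sgn e y := by
  funext i
  by_cases h : e i = 0 <;> simp [sgn, h]
  ring

theorem prm_add (σ : Equiv.Perm P) (x y : P → ℤ) : prm σ (x + y) = prm σ x + prm σ y := rfl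

theorem sqNorm_sgn (e : P → ZMod 2) (x : P → ℤ) : sqNorm (sgn e x) = sqNorm x := by
  simp only [sqNorm]
  refine Finset.sum_congr rfl fun i _ => ?_
  by_cases h : e i = 0 <;> simp [sgn, h]

theorem sqNorm_prm (σ : Equiv.Perm P) (x : P → ℤ) : sqNorm (prm σ x) = sqNorm x := by
  simp only [sqNorm, prm]
  exact Equiv.sum_comp σ⁻¹ (fun i => x i ^ 2)

/-- Monomial elements of `Co0`. -/
theorem exists_mono {e : P → ZMod 2} (he : e ∈ golayCode) {σ : Equiv.Perm P} (hσ : σ ∈ M24) :
    ∃ c : Co0, ∀ v : leechLattice, ((c • v : leechLattice) : P → ℤ) = sgn e (prm σ v) := by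
  apply exists_co0 (fun x => sgn e (prm σ x)) (fun x => prm σ⁻¹ (sgn e x))
  · intro x hx; exact sgn_mem he (prm_mem hσ hx)
  · intro x hx; exact prm_mem (inv_mem hσ) (sgn_mem he hx)
  · intro x _
    simp only [prm_prm_inv, sgn_sgn]
  · intro x _
    simp only [sgn_sgn, prm_inv_prm]
  · intro x _ y _
    rw [prm_add, sgn_add]
  · intro x _
    simp only [sqNorm_sgn, sqNorm_prm]

/-- The involution `x ↦ -1/x`. -/
def piL : List ℕ := [23, 22, 11, 15, 17, 9, 19, 13, 20, 5, 16, 2, 21, 7, 18, 3, 10, 4, 14, 6, 8, 12, 1, 0]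

theorem piL_aut : isAut piL = true := by decide +kernel

/-- A dodecad swapped with its complement. -/
def dodMask : ℕ := 9564758

theorem dodMask_code : dec dodMask ∈ golayCode := dec_mem_of_isCode (by decide +kernel)

theorem piL_swap : ∀ p : P, (permFun piL (permFun piL p) = p) ∧ dec dodMask (permFun piL p) ≠ dec dodMask p := by
  decide +kernel

theorem exists_sq_neg : ∃ g : Co0, ∀ v : leechLattice,
    (((g * g) • v : leechLattice) : P → ℤ) = -(v : P → ℤ) := by
  obtain ⟨c, hc⟩ := exists_mono dodMask_code (toPerm_mem_M24 piL_aut)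
  refine ⟨c, fun v => ?_⟩
  rw [mul_smul, hc, hc]
  have hv := isAut_valid piL_aut
  have hinv : ∀ p : P, (toPerm piL)⁻¹ p = permFun piL p := by
    intro p
    rw [Equiv.Perm.inv_eq_iff_eq, toPerm_apply hv, (piL_swap p).1]
  funext i
  simp only [sgn, prm, hinv, Pi.neg_apply]
  have h1 := (piL_swap i).1
  have h2 := (piL_swap i).2
  rw [h1]
  have key : ∀ a b : ZMod 2, b ≠ a → ∀ z : ℤ,
      (if a = 0 then (if b = 0 then z else -z) else -(if b = 0 then z else -z)) = -z := by
    intro a b hab z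
    have h3 : ∀ a b : ZMod 2, b ≠ a → (a = 0 ∧ b = 1) ∨ (a = 1 ∧ b = 0) := by decide
    rcases h3 a b hab with ⟨rfl, rfl⟩ | ⟨rfl, rfl⟩
    · simp
    · simp
  exact key _ _ h2 _

end Cfsg.Agent.Lib.LeechCo
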