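/-
Counting lattice vectors with prescribed inner products, by depth first search.
-/
import Mathlib
import Cfsg.Prelude.Def_Sporadic_a
import Cfsg.Agent.Lib.LeechBase
import Cfsg.Agent.Lib.LeechCensus

set_option autoImplicit false
set_option linter.unusedSectionVars false
set_option linter.unusedSimpArgs false
set_option linter.unusedVariables false

namespace Cfsg.Agent.Lib.LeechDFS

open Cfsg Cfsg.Agent.Lib.GolayCode Cfsg.Agent.Lib.GolayFacts Cfsg.Agent.Lib.GolayPerm
  Cfsg.Agent.Lib.LeechBase Cfsg.Agent.Lib.LeechCensus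

section generic

variable {Stat : Type*} [AddCommMonoid Stat]

/-- iterated sums over lists of values -/
def gG (t : P → List ℤ) (δ : P → ℤ → Stat) (F : Stat → ℕ) : List P → Stat → ℕ
  | [], s => F s
  | i :: L, s => ((t i).map (fun v => gG t δ F L (s + δ i v))).sum

/-- the partial products -/
def SS (t : P → List ℤ) (L : List P) : Finset (P → ℤ) :=
  Fintype.piFinset fun i => if i ∈ L then (t i).toFinset else {0}

theorem gG_eq (t : P → List ℤ) (δ : P → ℤ → Stat) (F : Stat → ℕ) (ht : ∀ i, (t i).Nodup)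
    (L : List P) (hL : L.Nodup) (s : Stat) :
    gG t δ F L s = ∑ x ∈ SS t L, F (s + (L.map fun j => δ j (x j)).sum) := by
  classical
  induction L generalizing s with
  | nil =>
    simp only [gG, List.map_nil, List.sum_nil, add_zero]
    have : SS t [] = {0} := by
      ext x
      simp only [SS, List.not_mem_nil, if_false, Fintype.mem_piFinset, Finset.mem_singleton]
      exact ⟨fun h => funext h, fun h i => by rw [h]; rfl⟩
    rw [this]
    simp
  | cons i L ih =>
    obtain ⟨hi, hL'⟩ := List.nodup_cons.mp hL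
    simp only [gG]
    have h1 : ((t i).map (fun v => gG t δ F L (s + δ i v))).sum =
        ∑ v ∈ (t i).toFinset, gG t δ F L (s + δ i v) := by
      rw [List.sum_toFinset _ (ht i)]
    rw [h1]
    simp_rw [ih hL']
    rw [← Finset.sum_product']
    symm
    refine Finset.sum_bij' (fun x _ => (x i, Function.update x i 0)) (fun p _ => Function.update p.2 i p.1)
      ?_ ?_ ?_ ?_ ?_
    · intro x hx
      simp only [SS, Fintype.mem_piFinset, Finset.mem_product] at hx ⊢
      refine ⟨?_, fun j => ?_⟩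
      · have := hx i
        simpa using this
      · by_cases hj : j = i
        · subst hj
          simp [hi]
        · rw [Function.update_of_ne hj]
          have := hx j
          simpa [hj] using this
    · rintro ⟨v, x⟩ hx
      simp only [SS, Fintype.mem_piFinset, Finset.mem_product] at hx ⊢
      intro j
      by_cases hj : j = i
      · subst hj
        simpa using hx.1
      · rw [Function.update_of_ne hj]
        have := hx.2 j
        simpa [hj] using this
    · intro x hx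
      simp
    · rintro ⟨v, x⟩ hx
      simp only [SS, Fintype.mem_piFinset, Finset.mem_product] at hx
      have h2 := hx.2 i
      simp only [hi, if_false, Finset.mem_singleton] at h2
      ext j
      · simp
      · by_cases hj : j = i
        · subst hj
          simp [h2]
        · simp [Function.update_of_ne hj]
    · intro x hx
      simp only [List.map_cons, List.sum_cons]
      congr 1
      rw [add_assoc]
      congr 2
      refine congrArg List.sum (List.map_congr_left fun j hj => ?_)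
      have hne : j ≠ i := by
        rintro rfl
        exact hi hj
      rw [Function.update_of_ne hne]

end generic

/-- all points -/
def allP : List P := (List.range 24).map idxPt

theorem allP_nodup : allP.Nodup := by decide

theorem allP_mem (i : P) : i ∈ allP := by
  revert i
  decide

/-- values as lists -/
def VL (m : ℤ) (bit : Bool) : List ℤ :=
  if m = 0 then (if bit then [2, -2, 6, -6] else [0, 4, -4, 8, -8])
  else (if bit then [3, -1, 7, -5] else [1, -3, 5, -7])

/-- the bit as an element of `ZMod 2` -/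
def bitZ (b : Bool) : ZMod 2 := if b then 1 else 0

theorem VL_nodup (m : ℤ) (b : Bool) : (VL m b).Nodup := by
  unfold VL
  split_ifs <;> decide

theorem VL_toFinset {m : ℤ} (hm : m = 0 ∨ m = 1) (b : Bool) : (VL m b).toFinset = VV m (bitZ b) := by
  rcases hm with rfl | rfl <;> cases b <;> decide

/-- minimal squares -/
def ms (m : ℤ) (bit : Bool) : ℤ := if m = 0 then (if bit then 4 else 0) else 1

theorem ms_le {m : ℤ} (hm : m = 0 ∨ m = 1) (b : Bool) : ∀ v ∈ VL m b, ms m b ≤ v ^ 2 := by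
  rcases hm with rfl | rfl <;> cases b <;> decide

/-- the search with pruning -/
def go (m N A B C : ℤ) : List (Bool × ℤ × ℤ × ℤ) → ℤ → ℤ → ℤ → ℤ → ℤ → ℤ → ℕ
  | [], _, n, s, a, b, c =>
      if n = N ∧ (s - 4 * m) % 8 = 0 ∧ a = A ∧ b = B ∧ c = C then 1 else 0
  | (bit, c₁, c₂, c₃) :: D, r, n, s, a, b, c =>
      if N < n + r then 0 else
      ((VL m bit).map fun v =>
        go m N A B C D (r - ms m bit) (n + v ^ 2) (s + v) (a + c₁ * v) (b + c₂ * v) (c + c₃ * v)).sum

/-- the search without pruning -/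
def go₀ (m N A B C : ℤ) : List (Bool × ℤ × ℤ × ℤ) → ℤ → ℤ → ℤ → ℤ → ℤ → ℕ
  | [], n, s, a, b, c =>
      if n = N ∧ (s - 4 * m) % 8 = 0 ∧ a = A ∧ b = B ∧ c = C then 1 else 0
  | (bit, c₁, c₂, c₃) :: D, n, s, a, b, c =>
      ((VL m bit).map fun v =>
        go₀ m N A B C D (n + v ^ 2) (s + v) (a + c₁ * v) (b + c₂ * v) (c + c₃ * v)).sum

/-- the required minimal squares -/
def rr (m : ℤ) (D : List (Bool × ℤ × ℤ × ℤ)) : ℤ := (D.map fun d => ms m d.1).sum

theorem go₀_zero {m N A B C : ℤ} (hm : m = 0 ∨ m = 1) (D : List (Bool × ℤ × ℤ × ℤ)) (n s a b c : ℤ)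
    (h : N < n + rr m D) : go₀ m N A B C D n s a b c = 0 := by
  induction D generalizing n s a b c with
  | nil =>
    simp only [rr, List.map_nil, List.sum_nil, add_zero] at h
    simp only [go₀]
    rw [if_neg]
    rintro ⟨h1, -⟩
    omega
  | cons d D ih =>
    obtain ⟨bit, c₁, c₂, c₃⟩ := d
    simp only [go₀]
    apply List.sum_eq_zero
    intro y hy
    obtain ⟨v, hv, rfl⟩ := List.mem_map.mp hy
    apply ih
    have h2 := ms_le hm bit v hv
    simp only [rr, List.map_cons, List.sum_cons] at h ⊢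
    omega

theorem go_eq {m N A B C : ℤ} (hm : m = 0 ∨ m = 1) (D : List (Bool × ℤ × ℤ × ℤ)) (n s a b c : ℤ) :
    go m N A B C D (rr m D) n s a b c = go₀ m N A B C D n s a b c := by
  induction D generalizing n s a b c with
  | nil => rfl
  | cons d D ih =>
    obtain ⟨bit, c₁, c₂, c₃⟩ := d
    simp only [go, go₀]
    by_cases h : N < n + rr m ((bit, c₁, c₂, c₃) :: D)
    · rw [if_pos h]
      have := go₀_zero (A := A) (B := B) (C := C) hm ((bit, c₁, c₂, c₃) :: D) n s a b c h
      simp only [go₀] at this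
      exact this.symm
    · rw [if_neg h]
      refine congrArg List.sum (List.map_congr_left fun v _ => ?_)
      have hrr : rr m ((bit, c₁, c₂, c₃) :: D) - ms m bit = rr m D := by
        simp only [rr, List.map_cons, List.sum_cons]
        ring
      rw [hrr, ih]

/-- the statistic -/
def dl (u₁ u₂ u₃ : P → ℤ) (i : P) (v : ℤ) : ℤ × ℤ × ℤ × ℤ × ℤ :=
  (v ^ 2, v, u₁ i * v, u₂ i * v, u₃ i * v)

/-- the test -/
def FF (m N A B C : ℤ) (st : ℤ × ℤ × ℤ × ℤ × ℤ) : ℕ :=
  if st.1 = N ∧ (st.2.1 - 4 * m) % 8 = 0 ∧ st.2.2.1 = A ∧ st.2.2.2.1 = B ∧ st.2.2.2.2 = C then 1 else 0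

/-- the data of coordinates -/
def cdata (mask : ℕ) (u₁ u₂ u₃ : P → ℤ) (L : List P) : List (Bool × ℤ × ℤ × ℤ) :=
  L.map fun i => (mask.testBit (ptIdx i), u₁ i, u₂ i, u₃ i)

theorem go₀_eq_gG (m N A B C : ℤ) (mask : ℕ) (u₁ u₂ u₃ : P → ℤ) (L : List P) (n s a b c : ℤ) :
    go₀ m N A B C (cdata mask u₁ u₂ u₃ L) n s a b c =
      gG (fun i => VL m (mask.testBit (ptIdx i))) (dl u₁ u₂ u₃) (FF m N A B C) L (n, s, a, b, c) := by
  induction L generalizing n s a b c with
  | nil => rfl
  | cons i L ih =>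
    simp only [cdata, List.map_cons, go₀, gG]
    refine congrArg List.sum (List.map_congr_left fun v _ => ?_)
    have := ih (n + v ^ 2) (s + v) (a + u₁ i * v) (b + u₂ i * v) (c + u₃ i * v)
    simp only [cdata] at this
    rw [this]
    rfl

/-- The count through the search. -/
theorem card_eq_go {m : ℤ} (hm : m = 0 ∨ m = 1) (mask : ℕ) (u₁ u₂ u₃ : P → ℤ) (N A B C : ℤ) :
    ((Fintype.piFinset fun i => VV m (dec mask i)).filter (fun x =>
      sqNorm x = N ∧ (∑ i, x i - 4 * m) % 8 = 0 ∧ dotInt u₁ x = A ∧ dotInt u₂ x = B ∧ dotInt u₃ x = C)).card =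
    go m N A B C (cdata mask u₁ u₂ u₃ allP) (rr m (cdata mask u₁ u₂ u₃ allP)) 0 0 0 0 0 := by
  classical
  rw [go_eq hm, go₀_eq_gG, gG_eq _ _ _ (fun i => VL_nodup m _) _ allP_nodup, Finset.card_filter]
  have hbit : ∀ i, bitZ (mask.testBit (ptIdx i)) = dec mask i := by
    intro i
    simp only [bitZ, dec]
  have hS : SS (fun i => VL m (mask.testBit (ptIdx i))) allP = Fintype.piFinset fun i => VV m (dec mask i) := by
    ext x
    simp only [SS, Fintype.mem_piFinset, allP_mem, if_true, VL_toFinset hm, hbit]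
  rw [hS]
  refine Finset.sum_congr rfl fun x _ => ?_
  have hsum : ∀ (f : P → ℤ × ℤ × ℤ × ℤ × ℤ), (allP.map f).sum = ∑ i, f i := by
    intro f
    rw [← List.sum_toFinset _ allP_nodup,
      show allP.toFinset = Finset.univ from Finset.eq_univ_of_forall fun i => List.mem_toFinset.mpr (allP_mem i)]
  rw [hsum]
  have hst : ((0 : ℤ), (0 : ℤ), (0 : ℤ), (0 : ℤ), (0 : ℤ)) + ∑ i, dl u₁ u₂ u₃ i (x i) =
      (sqNorm x, ∑ i, x i, dotInt u₁ x, dotInt u₂ x, dotInt u₃ x) := by
    have e0 : ((0 : ℤ), (0 : ℤ), (0 : ℤ), (0 : ℤ), (0 : ℤ)) = 0 := rfl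
    rw [e0, zero_add]
    refine Prod.ext ?_ (Prod.ext ?_ (Prod.ext ?_ (Prod.ext ?_ ?_)))
    · rw [Prod.fst_sum]
      rfl
    · rw [Prod.snd_sum, Prod.fst_sum]
      rfl
    · rw [Prod.snd_sum, Prod.snd_sum, Prod.fst_sum]
      rfl
    · rw [Prod.snd_sum, Prod.snd_sum, Prod.snd_sum, Prod.fst_sum]
      rfl
    · rw [Prod.snd_sum, Prod.snd_sum, Prod.snd_sum, Prod.snd_sum]
      rfl
  rw [hst]
  rfl

/-- the number of lattice vectors with given norm and inner products -/
def total (N : ℕ) (u₁ u₂ u₃ : P → ℤ) (A B C : ℤ) : ℕ :=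
  ∑ k ∈ Finset.range 4096,
    (go 0 N A B C (cdata (spanMask k) u₁ u₂ u₃ allP) (rr 0 (cdata (spanMask k) u₁ u₂ u₃ allP)) 0 0 0 0 0 +
     go 1 N A B C (cdata (spanMask k) u₁ u₂ u₃ allP) (rr 1 (cdata (spanMask k) u₁ u₂ u₃ allP)) 0 0 0 0 0)

theorem ncard_dots {N : ℕ} (hN : N ≤ 64) (u₁ u₂ u₃ : P → ℤ) (A B C : ℤ) :
    {x : P → ℤ | x ∈ leechLattice ∧ sqNorm x = (N : ℤ) ∧ dotInt u₁ x = A ∧ dotInt u₂ x = B ∧ dotInt u₃ x = C}.ncard =
      total N u₁ u₂ u₃ A B C := by
  rw [ncard_sep hN (fun x hx => ⟨hx.1, hx.2.1⟩)]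
  refine Finset.sum_congr rfl fun k hk => ?_
  have hc : dec (spanMask k) ∈ golayCode := mem_golayCode_iff.mpr ⟨k, Finset.mem_range.mp hk, rfl⟩
  have key : ∀ (m : ℤ) (hm : m = 0 ∨ m = 1),
      ({x : P → ℤ | x ∈ leechLattice ∧ sqNorm x = (N : ℤ) ∧ dotInt u₁ x = A ∧ dotInt u₂ x = B ∧ dotInt u₃ x = C} ∩
        Pat m (dec (spanMask k)) N).ncard =
      go m N A B C (cdata (spanMask k) u₁ u₂ u₃ allP) (rr m (cdata (spanMask k) u₁ u₂ u₃ allP)) 0 0 0 0 0 := by
    intro m hm
    rw [← card_eq_go hm, ← Set.ncard_coe_finset]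
    congr 1
    ext x
    simp only [Set.mem_inter_iff, Set.mem_ofPred_eq, Finset.coe_filter, Fintype.mem_piFinset]
    have hsum : (∑ i, x i ≡ 4 * m [ZMOD 8]) ↔ (∑ i, x i - 4 * m) % 8 = 0 := by
      constructor
      · intro h
        have := Int.modEq_iff_dvd.mp h
        omega
      · intro h
        apply Int.modEq_iff_dvd.mpr
        omega
    constructor
    · rintro ⟨⟨h1, h2, h3, h4, h5⟩, h6⟩
      have h7 := (Set.ext_iff.mp (pat_eq hm (dec (spanMask k)) hN) x).mp h6
      simp only [Finset.coe_filter, Fintype.mem_piFinset, Set.mem_ofPred_eq] at h7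
      exact ⟨h7.1, h2, hsum.mp h7.2.2, h3, h4, h5⟩
    · rintro ⟨h1, h2, h3, h4, h5, h6⟩
      have h7 : x ∈ Pat m (dec (spanMask k)) N :=
        (Set.ext_iff.mp (pat_eq hm (dec (spanMask k)) hN) x).mpr (by
          simp only [Finset.coe_filter, Fintype.mem_piFinset, Set.mem_ofPred_eq]
          exact ⟨h1, h2, hsum.mpr h3⟩)
      exact ⟨⟨pat_mem_lattice hc h7, h2, h4, h5, h6⟩, h7⟩
  rw [key 0 (Or.inl rfl), key 1 (Or.inr rfl)]

end Cfsg.Agent.Lib.LeechDFS
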