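/-
Generators of the Leech lattice.
-/
import Mathlib
import Cfsg.Prelude.Def_Sporadic_a
import Cfsg.Agent.Lib.LeechBase

set_option autoImplicit false
set_option linter.unusedSectionVars false
set_option linter.unusedSimpArgs false
set_option linter.unusedVariables false

namespace Cfsg.Agent.Lib.LeechGen

open Cfsg Cfsg.Agent.Lib.GolayCode Cfsg.Agent.Lib.GolayFacts Cfsg.Agent.Lib.GolayPerm
  Cfsg.Agent.Lib.LeechBase

/-- the odd generator -/
def oddV : P → ℤ := fun i => if i = none then -3 else 1

/-- twice a word -/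
def twoW (a : P → ZMod 2) : P → ℤ := fun i => 2 * bv (a i)

/-- four times a vector -/
def fourV (s : P → ℤ) : P → ℤ := fun i => 4 * s i

/-- basis-like vectors -/
def ee (i : P) : P → ℤ := fun j => if j = i then 1 else 0

theorem sum_ee (i : P) : ∑ j, ee i j = 1 := by
  simp [ee]

/-- The vectors of the form four times an even-sum vector are generated by few vectors. -/
theorem fourV_mem (M : AddSubgroup (P → ℤ)) (i₀ : P)
    (h3 : ∀ i, i ≠ i₀ → fourV (ee i + ee i₀) ∈ M) (h4 : fourV ((2 : ℤ) • ee i₀) ∈ M)
    {s : P → ℤ} (hs : (2 : ℤ) ∣ ∑ i, s i) : fourV s ∈ M := by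
  classical
  obtain ⟨t, ht⟩ := hs
  have hdecomp : fourV s = ∑ i ∈ Finset.univ.erase i₀, s i • fourV (ee i + ee i₀) +
      (t - ∑ i ∈ Finset.univ.erase i₀, s i) • fourV ((2 : ℤ) • ee i₀) := by
    have hsplit : ∑ i, s i = s i₀ + ∑ i ∈ Finset.univ.erase i₀, s i :=
      (Finset.add_sum_erase _ _ (Finset.mem_univ i₀)).symm
    funext j
    simp only [Pi.add_apply, Pi.smul_apply, Finset.sum_apply, smul_eq_mul, fourV, ee]
    by_cases hj : j = i₀
    · subst hj
      have h5 : ∀ i ∈ Finset.univ.erase j, s i * (4 * ((if j = i then 1 else 0) + (if j = j then 1 else 0))) = 4 * s i := by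
        intro i hi
        rw [if_neg (Ne.symm (Finset.ne_of_mem_erase hi))]
        simp
        ring
      rw [Finset.sum_congr rfl h5, ← Finset.mul_sum]
      simp only [if_true, mul_one]
      linarith
    · have h5 : ∀ i ∈ Finset.univ.erase i₀, s i * (4 * ((if j = i then 1 else 0) + (if j = i₀ then 1 else 0))) =
          if j = i then 4 * s i else 0 := by
        intro i hi
        rw [if_neg hj]
        by_cases hji : j = i
        · simp [hji]
          ring
        · simp [hji]
      rw [Finset.sum_congr rfl h5]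
      have hjmem : j ∈ Finset.univ.erase i₀ := Finset.mem_erase.mpr ⟨hj, Finset.mem_univ _⟩
      rw [Finset.sum_ite_eq (Finset.univ.erase i₀) j]
      simp [hjmem, hj]
  rw [hdecomp]
  apply M.add_mem
  · apply M.sum_mem
    intro i hi
    exact M.zsmul_mem (h3 i (Finset.ne_of_mem_erase hi)) _
  · exact M.zsmul_mem h4 _

/-- even intersections in the code -/
theorem inter_even {a b : P → ZMod 2} (ha : a ∈ golayCode) (hb : b ∈ golayCode) :
    (2 : ℤ) ∣ ∑ i, bv (a i) * bv (b i) := by
  obtain ⟨u, hu⟩ := four_dvd_weight ha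
  obtain ⟨v, hv⟩ := four_dvd_weight hb
  obtain ⟨w, hw⟩ := four_dvd_weight (golayCode.add_mem ha hb)
  have h1 : ∑ i, bv ((a + b) i) = ∑ i, bv (a i) + ∑ i, bv (b i) - 2 * ∑ i, bv (a i) * bv (b i) := by
    simp only [Pi.add_apply, bv_add, Finset.sum_sub_distrib, Finset.sum_add_distrib, Finset.mul_sum]
  rw [hu, hv, hw] at h1
  exact ⟨u + v - w, by linarith⟩

theorem twoW_add (a b : P → ZMod 2) : twoW (a + b) = twoW a + twoW b - fourV (fun i => bv (a i) * bv (b i)) := by
  funext i
  simp only [twoW, fourV, Pi.add_apply, Pi.sub_apply, bv_add]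
  ring

/-- Generation of the lattice. -/
theorem lattice_le (M : AddSubgroup (P → ℤ)) (i₀ : P) (h1 : oddV ∈ M)
    (h2 : ∀ k < 12, twoW (dec (bas k)) ∈ M)
    (h3 : ∀ i, i ≠ i₀ → fourV (ee i + ee i₀) ∈ M) (h4 : fourV ((2 : ℤ) • ee i₀) ∈ M) :
    leechLattice ≤ M := by
  classical
  have hF : ∀ {s : P → ℤ}, (2 : ℤ) ∣ ∑ i, s i → fourV s ∈ M := fun hs => fourV_mem M i₀ h3 h4 hs
  have hT : ∀ n k, n ≤ 12 → twoW (dec (spanAux n k)) ∈ M := by
    intro n k
    induction n with
    | zero =>
      intro _
      have : twoW (dec (spanAux 0 k)) = 0 := by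
        funext i
        simp [spanAux, dec_zero, twoW, bv_zero]
      rw [this]
      exact M.zero_mem
    | succ n ih =>
      intro hn
      have ih' := ih (by omega)
      rw [spanAux]
      by_cases hb : k.testBit n = true
      · rw [if_pos hb, dec_xor, twoW_add]
        refine M.sub_mem (M.add_mem (h2 n (by omega)) ih') (hF ?_)
        exact inter_even (dec_bas_mem n (List.mem_range.mpr (by omega))) (dec_spanAux_mem n k (by omega))
      · rw [if_neg hb, Nat.zero_xor]
        exact ih'
  rw [leechLattice, AddSubgroup.closure_le]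
  intro x hx
  obtain ⟨m, a, s, hm, ha, hx1, hx2⟩ := leech_decomp hx
  obtain ⟨k, hk, rfl⟩ := mem_golayCode_iff.mp ha
  have hdecomp : x = m • oddV + twoW (dec (spanMask k)) + fourV (fun i => s i + m * (if i = none then 1 else 0)) := by
    funext i
    simp only [Pi.add_apply, Pi.smul_apply, smul_eq_mul, twoW, fourV, oddV, hx1 i]
    by_cases hi : i = none
    · simp only [hi, if_true]
      simp
      ring
    · simp only [hi, if_false]
      simp
  rw [SetLike.mem_coe, hdecomp]
  refine M.add_mem (M.add_mem (M.zsmul_mem h1 _) (hT 12 k le_rfl)) (hF ?_)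
  have h5 : ∑ i, (s i + m * (if i = none then 1 else 0)) = ∑ i, s i + m := by
    rw [Finset.sum_add_distrib, ← Finset.mul_sum]
    simp
  rw [h5]
  have h3' : ∑ i, x i = 24 * m + 2 * ∑ i, bv (dec (spanMask k) i) + 4 * ∑ i, s i := by
    simp only [hx1, Finset.sum_add_distrib, ← Finset.mul_sum, Finset.sum_const]
    simp
  obtain ⟨w, hw⟩ := four_dvd_weight ha
  rw [h3', hw] at hx2
  have h6 := Int.modEq_iff_dvd.mp hx2
  omega

theorem oddV_mem : oddV ∈ leechLattice := by
  rw [mem_lattice_iff]
  apply leech_intro (m := 1) (a := 0) (s := fun i => if i = none then -1 else 0) golayCode.zero_mem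
  · intro i
    by_cases hi : i = none <;> simp [oddV, hi, bv_zero]
  · apply Int.modEq_iff_dvd.mpr
    decide

theorem sqNorm_oddV : sqNorm oddV = 32 := by
  decide

theorem twoW_mem {a : P → ZMod 2} (ha : a ∈ golayCode) : twoW a ∈ leechLattice := by
  rw [mem_lattice_iff]
  apply leech_intro (m := 0) (a := a) (s := 0) ha
  · intro i
    simp [twoW]
  · obtain ⟨w, hw⟩ := four_dvd_weight ha
    apply Int.modEq_iff_dvd.mpr
    refine ⟨-w, ?_⟩
    simp only [twoW, ← Finset.mul_sum, hw]
    ring

theorem sqNorm_twoW (a : P → ZMod 2) : sqNorm (twoW a) = 4 * (hammingNorm a : ℤ) := by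
  rw [← sum_bv, sqNorm, Finset.mul_sum]
  refine Finset.sum_congr rfl fun i _ => ?_
  have := bv_sq (a i)
  simp only [twoW]
  linear_combination 4 * this

theorem fourV_mem' {s : P → ℤ} (hs : (2 : ℤ) ∣ ∑ i, s i) : fourV s ∈ leechLattice := by
  rw [mem_lattice_iff]
  apply leech_intro (m := 0) (a := 0) (s := s) golayCode.zero_mem
  · intro i
    simp [fourV, bv_zero]
  · obtain ⟨w, hw⟩ := hs
    apply Int.modEq_iff_dvd.mpr
    refine ⟨-w, ?_⟩
    simp only [fourV, ← Finset.mul_sum, hw]
    ring

/-- the minimal vectors of shape `4 4` -/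
theorem sqNorm_four {i j : P} (hij : i ≠ j) (ε : ℤ) (hε : ε ^ 2 = 1) :
    sqNorm (fourV (ee i + ε • ee j)) = 32 := by
  classical
  have h1 : ∀ k, (fourV (ee i + ε • ee j)) k ^ 2 = (if k = i then 16 else 0) + (if k = j then 16 else 0) := by
    intro k
    simp only [fourV, ee, Pi.add_apply, Pi.smul_apply, smul_eq_mul]
    by_cases h2 : k = i
    · subst h2
      simp [hij]
    · by_cases h3 : k = j
      · subst h3
        simp [h2]
        nlinarith
      · simp [h2, h3]
  simp only [sqNorm, h1, Finset.sum_add_distrib]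
  simp

/-- The lattice is generated by its minimal vectors. -/
theorem closure_minimal :
    AddSubgroup.closure {x : P → ℤ | x ∈ leechLattice ∧ sqNorm x = 32} = leechLattice := by
  set M := AddSubgroup.closure {x : P → ℤ | x ∈ leechLattice ∧ sqNorm x = 32} with hM
  apply le_antisymm
  · rw [hM, AddSubgroup.closure_le]
    exact fun x hx => hx.1
  have hmin : ∀ x, x ∈ leechLattice → sqNorm x = 32 → x ∈ M := fun x h1 h2 =>
    AddSubgroup.subset_closure ⟨h1, h2⟩
  have h3 : ∀ i, i ≠ (none : P) → fourV (ee i + ee none) ∈ M := by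
    intro i hi
    apply hmin
    · apply fourV_mem'
      simp only [Pi.add_apply, Finset.sum_add_distrib, sum_ee]
      norm_num
    · have := sqNorm_four hi 1 (by norm_num)
      simpa using this
  have h3' : fourV (ee (some 0) - ee none) ∈ M := by
    apply hmin
    · apply fourV_mem'
      simp only [Pi.sub_apply, Finset.sum_sub_distrib, sum_ee]
      norm_num
    · have := sqNorm_four (i := some 0) (j := none) (by decide) (-1) (by norm_num)
      have e : ee (some 0) + (-1 : ℤ) • ee none = ee (some 0) - ee none := by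
        funext k
        simp only [Pi.add_apply, Pi.smul_apply, Pi.sub_apply, smul_eq_mul]
        ring
      rwa [e] at this
  have h4 : fourV ((2 : ℤ) • ee none) ∈ M := by
    have e : fourV ((2 : ℤ) • ee none) = fourV (ee (some 0) + ee none) - fourV (ee (some 0) - ee none) := by
      funext k
      simp only [fourV, Pi.add_apply, Pi.smul_apply, Pi.sub_apply, smul_eq_mul]
      ring
    rw [e]
    exact M.sub_mem (h3 _ (by decide)) h3'
  have hF : ∀ {s : P → ℤ}, (2 : ℤ) ∣ ∑ i, s i → fourV s ∈ M := fun hs => fourV_mem M none h3 h4 hs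
  have hO : ∀ m, isCode m = true → hw 24 m = 8 → twoW (dec m) ∈ M := by
    intro m hm h8
    apply hmin
    · exact twoW_mem (dec_mem_of_isCode hm)
    · rw [sqNorm_twoW, hammingNorm_dec, h8]
      norm_num
  have hadd : ∀ a b : P → ZMod 2, a ∈ golayCode → b ∈ golayCode → twoW a ∈ M → twoW b ∈ M → twoW (a + b) ∈ M := by
    intro a b ha hb h1 h2
    rw [twoW_add]
    exact M.sub_mem (M.add_mem h1 h2) (hF (inter_even ha hb))
  have h2' : ∀ o₁ o₂, isCode o₁ = true → hw 24 o₁ = 8 → isCode o₂ = true → hw 24 o₂ = 8 →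
      twoW (dec (o₁ ^^^ o₂)) ∈ M := by
    intro o₁ o₂ h1 h2 h3 h4
    rw [dec_xor]
    exact hadd _ _ (dec_mem_of_isCode h1) (dec_mem_of_isCode h3) (hO _ h1 h2) (hO _ h3 h4)
  refine lattice_le M none (hmin _ oddV_mem sqNorm_oddV) ?_ h3 h4
  intro k hk
  have hlast : twoW (dec (bas 11)) ∈ M := by
    have e : bas 11 = (3277413 ^^^ 126216) ^^^ 13373586 := by decide +kernel
    rw [e, dec_xor]
    refine hadd _ _ ?_ (dec_mem_of_isCode (by decide +kernel)) (h2' _ _ (by decide +kernel) (by decide +kernel)
      (by decide +kernel) (by decide +kernel)) (hO _ (by decide +kernel) (by decide +kernel))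
    rw [dec_xor]
    exact golayCode.add_mem (dec_mem_of_isCode (by decide +kernel)) (dec_mem_of_isCode (by decide +kernel))
  have hrest : ∀ k < 11, ∃ o₁ o₂, bas k = o₁ ^^^ o₂ ∧ isCode o₁ = true ∧ hw 24 o₁ = 8 ∧ isCode o₂ = true ∧ hw 24 o₂ = 8 := by
    intro k hk
    interval_cases k
    · exact ⟨2564625, 2232654, by decide +kernel, by decide +kernel, by decide +kernel, by decide +kernel, by decide +kernel⟩
    · exact ⟨705094, 42232, by decide +kernel, by decide +kernel, by decide +kernel, by decide +kernel, by decide +kernel⟩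
    · exact ⟨42232, 1337732, by decide +kernel, by decide +kernel, by decide +kernel, by decide +kernel, by decide +kernel⟩
    · exact ⟨2702848, 42232, by decide +kernel, by decide +kernel, by decide +kernel, by decide +kernel, by decide +kernel⟩
    · exact ⟨42232, 5476616, by decide +kernel, by decide +kernel, by decide +kernel, by decide +kernel, by decide +kernel⟩
    · exact ⟨3277413, 1337732, by decide +kernel, by decide +kernel, by decide +kernel, by decide +kernel, by decide +kernel⟩
    · exact ⟨6554826, 2675464, by decide +kernel, by decide +kernel, by decide +kernel, by decide +kernel, by decide +kernel⟩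
    · exact ⟨2702848, 3182981, by decide +kernel, by decide +kernel, by decide +kernel, by decide +kernel, by decide +kernel⟩
    · exact ⟨2702848, 1728778, by decide +kernel, by decide +kernel, by decide +kernel, by decide +kernel, by decide +kernel⟩
    · exact ⟨2702848, 5210132, by decide +kernel, by decide +kernel, by decide +kernel, by decide +kernel, by decide +kernel⟩
    · exact ⟨6053905, 1121336, by decide +kernel, by decide +kernel, by decide +kernel, by decide +kernel, by decide +kernel⟩
  by_cases h11 : k = 11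
  · rw [h11]
    exact hlast
  · obtain ⟨o₁, o₂, e, h1, h2, h3, h4⟩ := hrest k (by omega)
    rw [e]
    exact h2' _ _ h1 h2 h3 h4

end Cfsg.Agent.Lib.LeechGen
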