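/-
Conway's automorphism of the Leech lattice attached to a sextet.
-/
import Mathlib
import Cfsg.Prelude.Def_Sporadic_a
import Cfsg.Agent.Lib.LeechBase
import Cfsg.Agent.Lib.LeechGen
import Cfsg.Agent.Lib.LeechCo

set_option autoImplicit false
set_option linter.unusedSectionVars false
set_option linter.unusedSimpArgs false
set_option linter.unusedVariables false

namespace Cfsg.Agent.Lib.LeechXi

open Cfsg Cfsg.Agent.Lib.GolayCode Cfsg.Agent.Lib.GolayFacts Cfsg.Agent.Lib.GolayPerm
  Cfsg.Agent.Lib.LeechBase Cfsg.Agent.Lib.LeechGen Cfsg.Agent.Lib.LeechCo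

/-- tetrad indices of coordinates; tetrads:
 [0,1,2,3], [13,18,20,21], [4,7,10,12], [6,9,11,22], [8,15,16,19], [5,14,17,23] -/
def tauL : List ℕ := [0,0,0,0,2,5,3,2,4,3,2,3,2,1,5,4,4,5,1,4,1,1,3,5]

/-- the tetrad of a coordinate -/
def tau (p : P) : ℕ := tauL.getD (ptIdx p) 0

theorem tau_lt : ∀ p : P, tau p < 6 := by decide

theorem tau_count : ∀ t < 6, ∑ j : P, (if tau j = t then (1 : ℤ) else 0) = 4 := by decide

/-- sum on a tetrad -/
def ts (x : P → ℤ) (t : ℕ) : ℤ := ∑ j, if tau j = t then x j else 0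

/-- the halving part -/
def eta (x : P → ℤ) : P → ℤ := fun i => x i - ts x (tau i) / 2

/-- the sign change on the first tetrad -/
def eps (x : P → ℤ) : P → ℤ := fun i => if tau i = 0 then - x i else x i

/-- Conway's map -/
def xiF (x : P → ℤ) : P → ℤ := eta (eps x)

/-- its inverse -/
def xiG (x : P → ℤ) : P → ℤ := eps (eta x)

/-- even tetrad sums -/
def EvenT (x : P → ℤ) : Prop := ∀ t < 6, (2 : ℤ) ∣ ts x t

theorem even_of_mem {x : P → ℤ} (hx : x ∈ leechLattice) : EvenT x := by
  intro t ht
  obtain ⟨m, a, s, hm, ha, hx1, hx2⟩ := leech_decomp (mem_lattice_iff.mp hx)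
  have h1 : ts x t = m * ∑ j : P, (if tau j = t then (1 : ℤ) else 0) +
      2 * ∑ j : P, (if tau j = t then bv (a j) + 2 * s j else 0) := by
    simp only [ts, Finset.mul_sum, ← Finset.sum_add_distrib]
    refine Finset.sum_congr rfl fun j _ => ?_
    by_cases h : tau j = t
    · simp only [h, if_true, hx1 j]
      ring
    · simp [h]
  rw [h1, tau_count t ht]
  exact ⟨2 * m + ∑ j : P, (if tau j = t then bv (a j) + 2 * s j else 0), by ring⟩

theorem ts_eps (x : P → ℤ) (t : ℕ) : ts (eps x) t = if t = 0 then - ts x t else ts x t := by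
  simp only [ts, eps]
  by_cases h : t = 0
  · subst h
    simp only [if_true, ← Finset.sum_neg_distrib]
    refine Finset.sum_congr rfl fun j _ => ?_
    by_cases h1 : tau j = 0 <;> simp [h1]
  · simp only [h, if_false]
    refine Finset.sum_congr rfl fun j _ => ?_
    by_cases h1 : tau j = t
    · have : tau j ≠ 0 := by omega
      simp [h1, h]
    · simp [h1]

theorem even_eps {x : P → ℤ} (hx : EvenT x) : EvenT (eps x) := by
  intro t ht
  rw [ts_eps]
  split_ifs
  · exact (dvd_neg).mpr (hx t ht)
  · exact hx t ht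

theorem ts_eta {x : P → ℤ} (hx : EvenT x) {t : ℕ} (ht : t < 6) : ts (eta x) t = - ts x t := by
  obtain ⟨h, hh⟩ := hx t ht
  have h1 : ∀ j, (if tau j = t then eta x j else 0) =
      (if tau j = t then x j else 0) - h * (if tau j = t then 1 else 0) := by
    intro j
    by_cases hj : tau j = t
    · simp only [hj, if_true, eta, hh]
      have : 2 * h / 2 = h := by omega
      rw [this]
      ring
    · simp [hj]
  simp only [ts]
  rw [Finset.sum_congr rfl fun j _ => h1 j, Finset.sum_sub_distrib, ← Finset.mul_sum, tau_count t ht]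
  have : ∑ j, (if tau j = t then x j else 0) = 2 * h := hh
  rw [this]
  ring

theorem even_eta {x : P → ℤ} (hx : EvenT x) : EvenT (eta x) := by
  intro t ht
  rw [ts_eta hx ht]
  exact (dvd_neg).mpr (hx t ht)

theorem eta_eta {x : P → ℤ} (hx : EvenT x) : eta (eta x) = x := by
  funext i
  have h1 := tau_lt i
  obtain ⟨h, hh⟩ := hx _ h1
  simp only [eta]
  have : ts (eta x) (tau i) = - ts x (tau i) := ts_eta hx h1
  rw [this, hh]
  have h2 : 2 * h / 2 = h := by omega
  have h3 : -(2 * h) / 2 = -h := by omega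
  rw [h2, h3]
  ring

theorem eps_eps (x : P → ℤ) : eps (eps x) = x := by
  funext i
  simp only [eps]
  by_cases h : tau i = 0 <;> simp [h]

theorem ts_add (x y : P → ℤ) (t : ℕ) : ts (x + y) t = ts x t + ts y t := by
  simp only [ts, ← Finset.sum_add_distrib, Pi.add_apply]
  refine Finset.sum_congr rfl fun j _ => ?_
  by_cases h : tau j = t <;> simp [h]

theorem eta_add {x y : P → ℤ} (hx : EvenT x) (hy : EvenT y) : eta (x + y) = eta x + eta y := by
  funext i
  have h1 := tau_lt i
  obtain ⟨h, hh⟩ := hx _ h1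
  obtain ⟨k, hk⟩ := hy _ h1
  simp only [eta, Pi.add_apply, ts_add, hh, hk]
  have h2 : 2 * h / 2 = h := by omega
  have h3 : 2 * k / 2 = k := by omega
  have h4 : (2 * h + 2 * k) / 2 = h + k := by omega
  rw [h2, h3, h4]
  ring

theorem eps_add (x y : P → ℤ) : eps (x + y) = eps x + eps y := by
  funext i
  simp only [eps, Pi.add_apply]
  by_cases h : tau i = 0 <;> simp [h]
  ring

theorem sqNorm_eps (x : P → ℤ) : sqNorm (eps x) = sqNorm x := by
  simp only [sqNorm, eps]
  refine Finset.sum_congr rfl fun i _ => ?_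
  by_cases h : tau i = 0 <;> simp [h]

theorem sum_fiber (G : P → ℤ) : ∑ i, G i = ∑ t ∈ Finset.range 6, ∑ i, if tau i = t then G i else 0 := by
  rw [Finset.sum_comm]
  refine Finset.sum_congr rfl fun i _ => ?_
  rw [Finset.sum_ite_eq]
  simp [tau_lt i]

theorem sqNorm_eta {x : P → ℤ} (hx : EvenT x) : sqNorm (eta x) = sqNorm x := by
  have h1 : ∀ t ∈ Finset.range 6, ∑ i, (if tau i = t then (eta x i) ^ 2 else 0) = ∑ i, (if tau i = t then x i ^ 2 else 0) := by
    intro t ht
    have ht' := Finset.mem_range.mp ht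
    obtain ⟨h, hh⟩ := hx t ht'
    have h2 : ∀ i, (if tau i = t then (eta x i) ^ 2 else 0) =
        (if tau i = t then x i ^ 2 else 0) - 2 * h * (if tau i = t then x i else 0) + h ^ 2 * (if tau i = t then 1 else 0) := by
      intro i
      by_cases hi : tau i = t
      · simp only [hi, if_true, eta, hh]
        have : 2 * h / 2 = h := by omega
        rw [this]
        ring
      · simp [hi]
    rw [Finset.sum_congr rfl fun i _ => h2 i, Finset.sum_add_distrib, Finset.sum_sub_distrib, ← Finset.mul_sum,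
      ← Finset.mul_sum, tau_count t ht']
    have h3 : ∑ j, (if tau j = t then x j else 0) = 2 * h := hh
    rw [h3]
    ring
  simp only [sqNorm]
  rw [sum_fiber, sum_fiber (fun i => x i ^ 2), Finset.sum_congr rfl h1]

/-- a rough computation of the mask of a vector -/
def maskOf (x : P → ℤ) : ℕ :=
  ∑ i : P, if (x i - x none) % 4 ≠ 0 then 2 ^ ptIdx i else 0

/-- the parity of a vector -/
def parOf (x : P → ℤ) : ℤ := x none % 2

/-- a checker for the lattice -/
def lchk (x : P → ℤ) : Bool :=
  let m := parOf x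
  -- the mask may need complementing, since the last coordinate may be in the other class
  let mk := if (x none - m) % 4 = 0 then maskOf x else 16777215 - maskOf x
  isCode mk && decide (∀ i : P, (x i - m - 2 * bv (dec mk i)) % 4 = 0) && decide ((∑ i, x i - 4 * m) % 8 = 0)

theorem lchk_spec {x : P → ℤ} (h : lchk x = true) : x ∈ leechLattice := by
  simp only [lchk, Bool.and_eq_true, decide_eq_true_eq] at h
  obtain ⟨⟨h1, h2⟩, h3⟩ := h
  rw [mem_lattice_iff]
  generalize (if (x none - parOf x) % 4 = 0 then maskOf x else 16777215 - maskOf x) = mk at h1 h2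
  apply leech_intro (m := parOf x) (a := dec mk) (s := fun i => (x i - parOf x - 2 * bv (dec mk i)) / 4)
    (dec_mem_of_isCode h1)
  · intro i
    have h5 := h2 i
    show x i = parOf x + 2 * bv (dec mk i) + 4 * ((x i - parOf x - 2 * bv (dec mk i)) / 4)
    generalize bv (dec mk i) = b at h5 ⊢
    omega
  · apply Int.modEq_iff_dvd.mpr
    generalize ∑ i, x i = S at h3 ⊢
    omega

/-- A map which is additive and which maps generators to the lattice preserves the lattice. -/
theorem maps_lattice (f : (P → ℤ) → (P → ℤ))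
    (hadd : ∀ x ∈ leechLattice, ∀ y ∈ leechLattice, f (x + y) = f x + f y)
    (h1 : f oddV ∈ leechLattice)
    (h2 : ∀ k < 12, f (twoW (dec (bas k))) ∈ leechLattice)
    (h3 : ∀ i, i ≠ (none : P) → f (fourV (ee i + ee none)) ∈ leechLattice)
    (h4 : f (fourV ((2 : ℤ) • ee none)) ∈ leechLattice) :
    ∀ x ∈ leechLattice, f x ∈ leechLattice := by
  have hzero : f 0 = 0 := by
    have := hadd 0 (zero_mem _) 0 (zero_mem _)
    simpa using this
  have hneg : ∀ x ∈ leechLattice, f (-x) = - f x := by
    intro x hx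
    have := hadd x hx (-x) (neg_mem hx)
    rw [add_neg_cancel, hzero] at this
    exact (neg_eq_of_add_eq_zero_right this.symm).symm
  let M : AddSubgroup (P → ℤ) :=
    { carrier := {x | x ∈ leechLattice ∧ f x ∈ leechLattice}
      zero_mem' := ⟨zero_mem _, by rw [hzero]; exact zero_mem _⟩
      add_mem' := by
        rintro a b ⟨ha, ha'⟩ ⟨hb, hb'⟩
        refine ⟨add_mem ha hb, ?_⟩
        rw [hadd a ha b hb]
        exact add_mem ha' hb'
      neg_mem' := by
        rintro a ⟨ha, ha'⟩
        refine ⟨neg_mem ha, ?_⟩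
        rw [hneg a ha]
        exact neg_mem ha' }
  have hle : leechLattice ≤ M := by
    apply lattice_le M none ⟨oddV_mem, h1⟩
    · intro k hk
      exact ⟨twoW_mem (dec_bas_mem k (List.mem_range.mpr hk)), h2 k hk⟩
    · intro i hi
      refine ⟨fourV_mem' ?_, h3 i hi⟩
      simp only [Pi.add_apply, Finset.sum_add_distrib, sum_ee]
      norm_num
    · refine ⟨fourV_mem' ?_, h4⟩
      simp only [Pi.smul_apply, smul_eq_mul, ← Finset.mul_sum, sum_ee]
      norm_num
  exact fun x hx => (hle hx).2

theorem xiF_add : ∀ x ∈ leechLattice, ∀ y ∈ leechLattice, xiF (x + y) = xiF x + xiF y := by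
  intro x hx y hy
  simp only [xiF, eps_add]
  exact eta_add (even_eps (even_of_mem hx)) (even_eps (even_of_mem hy))

theorem xiG_add : ∀ x ∈ leechLattice, ∀ y ∈ leechLattice, xiG (x + y) = xiG x + xiG y := by
  intro x hx y hy
  simp only [xiG]
  rw [eta_add (even_of_mem hx) (even_of_mem hy), eps_add]

theorem chkF1 : lchk (xiF oddV) = true := by decide +kernel
theorem chkF2 : ∀ k < 12, lchk (xiF (twoW (dec (bas k)))) = true := by decide +kernel
theorem chkF3 : ∀ i : P, i ≠ none → lchk (xiF (fourV (ee i + ee none))) = true := by decide +kernel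
theorem chkF4 : lchk (xiF (fourV ((2 : ℤ) • ee none))) = true := by decide +kernel
theorem chkG1 : lchk (xiG oddV) = true := by decide +kernel
theorem chkG2 : ∀ k < 12, lchk (xiG (twoW (dec (bas k)))) = true := by decide +kernel
theorem chkG3 : ∀ i : P, i ≠ none → lchk (xiG (fourV (ee i + ee none))) = true := by decide +kernel
theorem chkG4 : lchk (xiG (fourV ((2 : ℤ) • ee none))) = true := by decide +kernel

theorem xiF_mem : ∀ x ∈ leechLattice, xiF x ∈ leechLattice :=
  maps_lattice xiF xiF_add (lchk_spec chkF1) (fun k hk => lchk_spec (chkF2 k hk))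
    (fun i hi => lchk_spec (chkF3 i hi)) (lchk_spec chkF4)

theorem xiG_mem : ∀ x ∈ leechLattice, xiG x ∈ leechLattice :=
  maps_lattice xiG xiG_add (lchk_spec chkG1) (fun k hk => lchk_spec (chkG2 k hk))
    (fun i hi => lchk_spec (chkG3 i hi)) (lchk_spec chkG4)

/-- The element of `Co0`. -/
theorem exists_xi : ∃ c : Co0, ∀ v : leechLattice, ((c • v : leechLattice) : P → ℤ) = xiF v := by
  apply exists_co0 xiF xiG xiF_mem xiG_mem
  · intro x hx
    simp only [xiF, xiG, eps_eps]
    exact eta_eta (even_of_mem hx)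
  · intro x hx
    simp only [xiF, xiG]
    rw [eta_eta (even_eps (even_of_mem hx)), eps_eps]
  · exact xiF_add
  · intro x hx
    simp only [xiF]
    rw [sqNorm_eta (even_eps (even_of_mem hx)), sqNorm_eps]

end Cfsg.Agent.Lib.LeechXi
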