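/-
Transitivity of the automorphism group of the Leech lattice on vectors of norm 32, 48, 64.
-/
import Mathlib
import Cfsg.Prelude.Def_Sporadic_a
import Cfsg.Agent.Lib.LeechBase
import Cfsg.Agent.Lib.LeechGen
import Cfsg.Agent.Lib.LeechCo
import Cfsg.Agent.Lib.LeechXi
import Cfsg.Agent.Lib.GolayTrans

set_option autoImplicit false
set_option linter.unusedSectionVars false
set_option linter.unusedSimpArgs false
set_option linter.unusedVariables false

namespace Cfsg.Agent.Lib.LeechOrb

open Cfsg Cfsg.Agent.Lib.GolayCode Cfsg.Agent.Lib.GolayFacts Cfsg.Agent.Lib.GolayPerm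
  Cfsg.Agent.Lib.LeechBase Cfsg.Agent.Lib.LeechGen Cfsg.Agent.Lib.LeechCo Cfsg.Agent.Lib.LeechXi
  Cfsg.Agent.Lib.GolayTrans

/-- the orbit relation -/
def Rl (x y : P → ℤ) : Prop :=
  ∃ (hx : x ∈ leechLattice) (hy : y ∈ leechLattice) (g : Co0), g • (⟨x, hx⟩ : leechLattice) = ⟨y, hy⟩

theorem rl_refl {x : P → ℤ} (hx : x ∈ leechLattice) : Rl x x := ⟨hx, hx, 1, one_smul _ _⟩

theorem Rl.symm {x y : P → ℤ} (h : Rl x y) : Rl y x := by
  obtain ⟨hx, hy, g, hg⟩ := h
  refine ⟨hy, hx, g⁻¹, ?_⟩
  rw [← hg, inv_smul_smul]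

theorem Rl.trans {x y z : P → ℤ} (h : Rl x y) (h' : Rl y z) : Rl x z := by
  obtain ⟨hx, hy, g, hg⟩ := h
  obtain ⟨_, hz, k, hk⟩ := h'
  refine ⟨hx, hz, k * g, ?_⟩
  rw [mul_smul, hg, hk]

theorem Rl.mem_left {x y : P → ℤ} (h : Rl x y) : x ∈ leechLattice := h.1
theorem Rl.mem_right {x y : P → ℤ} (h : Rl x y) : y ∈ leechLattice := h.2.1

theorem rl_of_co0 (f : (P → ℤ) → (P → ℤ)) (hf : ∃ c : Co0, ∀ v : leechLattice, ((c • v : leechLattice) : P → ℤ) = f v)
    {x : P → ℤ} (hx : x ∈ leechLattice) : Rl x (f x) := by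
  obtain ⟨c, hc⟩ := hf
  have h := hc ⟨x, hx⟩
  have hy : f x ∈ leechLattice := by
    rw [← show ((c • (⟨x, hx⟩ : leechLattice) : leechLattice) : P → ℤ) = f x from h]
    exact (c • (⟨x, hx⟩ : leechLattice)).2
  exact ⟨hx, hy, c, Subtype.ext h⟩

theorem rl_xi {x : P → ℤ} (hx : x ∈ leechLattice) : Rl x (xiF x) := rl_of_co0 _ exists_xi hx

theorem rl_neg {x : P → ℤ} (hx : x ∈ leechLattice) : Rl x (-x) := rl_of_co0 (fun x => -x) exists_neg hx

theorem rl_sgn {e : P → ZMod 2} (he : e ∈ golayCode) {x : P → ℤ} (hx : x ∈ leechLattice) : Rl x (sgn e x) := by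
  have := rl_of_co0 (fun x => sgn e (prm 1 x)) (exists_mono he (one_mem _)) hx
  have h1 : prm 1 x = x := rfl
  simpa only [h1] using this

theorem rl_prm {σ : Equiv.Perm P} (hσ : σ ∈ M24) {x : P → ℤ} (hx : x ∈ leechLattice) : Rl x (prm σ x) := by
  have := rl_of_co0 (fun x => sgn 0 (prm σ x)) (exists_mono golayCode.zero_mem hσ) hx
  have h1 : sgn 0 (prm σ x) = prm σ x := by
    funext i
    simp [sgn]
  simpa only [h1] using this

/-! ### Moving finite sets of points -/

/-- moving two disjoint sets of total size at most five -/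
theorem exists_map_finsets (A B A' B' : Finset P) (hAB : Disjoint A B) (hAB' : Disjoint A' B')
    (hA : A.card = A'.card) (hB : B.card = B'.card) (h5 : A.card + B.card ≤ 5) :
    ∃ g ∈ M24, A.image g = A' ∧ B.image g = B' := by
  classical
  set L := A.toList ++ B.toList with hL
  set L' := A'.toList ++ B'.toList with hL'
  have hnd : L.Nodup := by
    rw [hL, List.nodup_append]
    refine ⟨A.nodup_toList, B.nodup_toList, ?_⟩
    intro a ha b hb hab
    subst hab
    rw [Finset.mem_toList] at ha hb
    exact Finset.disjoint_left.mp hAB ha hb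
  have hnd' : L'.Nodup := by
    rw [hL', List.nodup_append]
    refine ⟨A'.nodup_toList, B'.nodup_toList, ?_⟩
    intro a ha b hb hab
    subst hab
    rw [Finset.mem_toList] at ha hb
    exact Finset.disjoint_left.mp hAB' ha hb
  have hlen : L.length = A.card + B.card := by simp [hL]
  have hlen' : L'.length = A.card + B.card := by simp [hL', hA, hB]
  let a : ℕ → P := fun j => L.getD j none
  let b : ℕ → P := fun j => L'.getD j none
  have ha_get : ∀ j (h : j < L.length), a j = L[j] := fun j h => List.getD_eq_getElem _ _ h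
  have hb_get : ∀ j (h : j < L'.length), b j = L'[j] := fun j h => List.getD_eq_getElem _ _ h
  obtain ⟨g, hg, hgb⟩ := exists_map_tuple (A.card + B.card) h5 a b
    (by
      intro i hi j hj hij he
      rw [ha_get i (by omega), ha_get j (by omega)] at he
      exact hij ((hnd.getElem_inj_iff).mp he))
    (by
      intro i hi j hj hij he
      rw [hb_get i (by omega), hb_get j (by omega)] at he
      exact hij ((hnd'.getElem_inj_iff).mp he))
  have hA1 : ∀ x ∈ A, g x ∈ A' := by
    intro x hx
    obtain ⟨j, hj, hjx⟩ := List.getElem_of_mem (Finset.mem_toList.mpr hx)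
    have hj' : j < A.card := by simpa using hj
    have h1 : a j = x := by
      rw [ha_get j (by omega)]
      simp only [hL]
      rw [List.getElem_append_left (by simpa using hj'), hjx]
    have h2 := hgb j (by omega)
    rw [h1] at h2
    rw [h2, hb_get j (by omega)]
    simp only [hL']
    rw [List.getElem_append_left (by simpa [← hA] using hj')]
    exact Finset.mem_toList.mp (List.getElem_mem _)
  have hB1 : ∀ x ∈ B, g x ∈ B' := by
    intro x hx
    obtain ⟨j, hj, hjx⟩ := List.getElem_of_mem (Finset.mem_toList.mpr hx)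
    have hj' : j < B.card := by simpa using hj
    have h1 : a (A.card + j) = x := by
      rw [ha_get _ (by omega)]
      simp only [hL]
      rw [List.getElem_append_right (by simp)]
      simp [hjx]
    have h2 := hgb (A.card + j) (by omega)
    rw [h1] at h2
    rw [h2, hb_get _ (by omega)]
    simp only [hL']
    rw [List.getElem_append_right (by simp [hA])]
    exact Finset.mem_toList.mp (List.getElem_mem _)
  refine ⟨g, hg, ?_, ?_⟩
  · apply Finset.eq_of_subset_of_card_le
    · intro y hy
      obtain ⟨x, hx, rfl⟩ := Finset.mem_image.mp hy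
      exact hA1 x hx
    · rw [Finset.card_image_of_injective _ g.injective, hA]
  · apply Finset.eq_of_subset_of_card_le
    · intro y hy
      obtain ⟨x, hx, rfl⟩ := Finset.mem_image.mp hy
      exact hB1 x hx
    · rw [Finset.card_image_of_injective _ g.injective, hB]

/-! ### Odd vectors -/

/-- the value set of normalized odd vectors -/
def Norm1 (x : P → ℤ) : Prop := ∀ i, x i = 1 ∨ x i = -3 ∨ x i = 5

/-- sign normalization -/
theorem rl_norm_odd {x : P → ℤ} (hx : x ∈ leechLattice) (hodd : x none % 2 = 1) :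
    ∃ x', Rl x x' ∧ (∀ i, x' i % 4 = 1) := by
  obtain ⟨m, a, s, hm, ha, hx1, hx2⟩ := leech_decomp (mem_lattice_iff.mp hx)
  have hm1 : m = 1 := by
    have := hx1 none
    rcases hm with rfl | rfl
    · rcases bv_cases (a none) with ⟨h3, h4⟩ | ⟨h3, h4⟩ <;> rw [h4] at this <;> omega
    · rfl
  subst hm1
  refine ⟨sgn a x, rl_sgn ha hx, fun i => ?_⟩
  simp only [sgn, hx1 i]
  rcases bv_cases (a i) with ⟨h3, h4⟩ | ⟨h3, h4⟩
  · rw [if_pos h3, h4]
    omega
  · rw [if_neg (by rw [h3]; decide), h4]
    omega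

theorem sq_bound {x : P → ℤ} (h1 : ∀ i, x i % 2 = 1) (hN : sqNorm x ≤ 64) (i : P) : x i ^ 2 ≤ 41 := by
  have h2 : ∀ j, 1 ≤ x j ^ 2 := by
    intro j
    have : x j ≠ 0 := by
      intro h
      have := h1 j
      rw [h] at this
      omega
    have h3 : 0 < x j ^ 2 := by positivity
    omega
  have h3 : x i ^ 2 - 1 ≤ ∑ j, (x j ^ 2 - 1) :=
    Finset.single_le_sum (f := fun j => x j ^ 2 - 1) (fun j _ => by
      have := h2 j
      show 0 ≤ x j ^ 2 - 1
      omega) (Finset.mem_univ i)
  have h4 : ∑ j, (x j ^ 2 - 1) = sqNorm x - 24 := by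
    rw [Finset.sum_sub_distrib, sqNorm]
    simp [show Fintype.card P = 24 by decide]
  omega

theorem norm1_of {x : P → ℤ} (h1 : ∀ i, x i % 4 = 1) (hN : sqNorm x ≤ 64) : Norm1 x := by
  intro i
  have h2 := sq_bound (x := x) (fun j => by have := h1 j; omega) hN i
  have h3 : -6 ≤ x i ∧ x i ≤ 6 := by
    constructor <;> nlinarith
  have h4 := h1 i
  obtain ⟨h5, h6⟩ := h3
  omega

/-- the size formula -/
theorem norm_formula {x : P → ℤ} (h : Norm1 x) :
    sqNorm x = 24 + 8 * ((Finset.univ.filter fun i => x i = -3).card : ℤ) +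
      24 * ((Finset.univ.filter fun i => x i = 5).card : ℤ) := by
  have h1 : ∀ i, x i ^ 2 = 1 + 8 * (if x i = -3 then 1 else 0) + 24 * (if x i = 5 then 1 else 0) := by
    intro i
    rcases h i with h2 | h2 | h2 <;> rw [h2] <;> norm_num
  simp only [sqNorm]
  rw [Finset.sum_congr rfl fun i _ => h1 i, Finset.sum_add_distrib, Finset.sum_add_distrib, ← Finset.mul_sum,
    ← Finset.mul_sum, Finset.card_filter, Finset.card_filter]
  push_cast
  simp [show Fintype.card P = 24 by decide]

/-- vectors with the same shape are equivalent -/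
theorem rl_of_shape {x y : P → ℤ} (hx : x ∈ leechLattice) (hy : y ∈ leechLattice) (hx1 : Norm1 x) (hy1 : Norm1 y)
    (h3 : (Finset.univ.filter fun i => x i = -3).card = (Finset.univ.filter fun i => y i = -3).card)
    (h5 : (Finset.univ.filter fun i => x i = 5).card = (Finset.univ.filter fun i => y i = 5).card)
    (hle : (Finset.univ.filter fun i => x i = -3).card + (Finset.univ.filter fun i => x i = 5).card ≤ 5) :
    Rl x y := by
  obtain ⟨g, hg, hg3, hg5⟩ := exists_map_finsets
    (Finset.univ.filter fun i => x i = -3) (Finset.univ.filter fun i => x i = 5)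
    (Finset.univ.filter fun i => y i = -3) (Finset.univ.filter fun i => y i = 5)
    (by
      rw [Finset.disjoint_left]
      intro i hi hi'
      have h1 := (Finset.mem_filter.mp hi).2
      have h2 := (Finset.mem_filter.mp hi').2
      omega)
    (by
      rw [Finset.disjoint_left]
      intro i hi hi'
      have h1 := (Finset.mem_filter.mp hi).2
      have h2 := (Finset.mem_filter.mp hi').2
      omega) h3 h5 hle
  have hmap : prm g x = y := by
    funext i
    show x (g⁻¹ i) = y i
    have e : g (g⁻¹ i) = i := by simp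
    rcases hy1 i with h | h | h
    · -- the value one
      rcases hx1 (g⁻¹ i) with h' | h' | h'
      · rw [h, h']
      · exfalso
        have : g (g⁻¹ i) ∈ (Finset.univ.filter fun i => x i = -3).image g :=
          Finset.mem_image_of_mem _ (Finset.mem_filter.mpr ⟨Finset.mem_univ _, h'⟩)
        rw [hg3, e] at this
        have := (Finset.mem_filter.mp this).2
        omega
      · exfalso
        have : g (g⁻¹ i) ∈ (Finset.univ.filter fun i => x i = 5).image g :=
          Finset.mem_image_of_mem _ (Finset.mem_filter.mpr ⟨Finset.mem_univ _, h'⟩)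
        rw [hg5, e] at this
        have := (Finset.mem_filter.mp this).2
        omega
    · have h6 : i ∈ (Finset.univ.filter fun i => y i = -3) := Finset.mem_filter.mpr ⟨Finset.mem_univ _, h⟩
      rw [← hg3] at h6
      obtain ⟨j, hj, rfl⟩ := Finset.mem_image.mp h6
      have e2 : g⁻¹ (g j) = j := by simp
      rw [e2, h]
      exact (Finset.mem_filter.mp hj).2
    · have h6 : i ∈ (Finset.univ.filter fun i => y i = 5) := Finset.mem_filter.mpr ⟨Finset.mem_univ _, h⟩
      rw [← hg5] at h6
      obtain ⟨j, hj, rfl⟩ := Finset.mem_image.mp h6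
      have e2 : g⁻¹ (g j) = j := by simp
      rw [e2, h]
      exact (Finset.mem_filter.mp hj).2
  rw [← hmap]
  exact rl_prm hg hx

/-! ### Even vectors -/

/-- points of the first tetrad -/
abbrev t0 : P := some 0
abbrev t1 : P := some 1
abbrev t2 : P := some 2
abbrev t3 : P := some 3
/-- points of the second, third, fourth tetrads -/
abbrev u0 : P := some 13
abbrev v0 : P := some 4
abbrev w0 : P := some 6

theorem sum_tau0 (G : P → ℤ) : ∑ j, (if tau j = 0 then G j else 0) = G t0 + G t1 + G t2 + G t3 := by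
  rw [← Finset.sum_filter]
  have : (Finset.univ.filter fun j : P => tau j = 0) = {t0, t1, t2, t3} := by decide
  rw [this]
  rw [Finset.sum_insert (by decide), Finset.sum_insert (by decide), Finset.sum_insert (by decide),
    Finset.sum_singleton]
  ring

/-- the code word formed by the first and the last tetrad -/
def mask05 : ℕ := 2^0 + 2^1 + 2^2 + 2^3 + 2^5 + 2^14 + 2^17 + 2^23

theorem mask05_code : dec mask05 ∈ golayCode := dec_mem_of_isCode (by decide +kernel)

theorem mask05_bv : ∀ j : P, bv (dec mask05 j) = (if tau j = 0 then 1 else 0) + (if tau j = 5 then 1 else 0) := by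
  decide +kernel

theorem par_tetrads {a : P → ZMod 2} (ha : a ∈ golayCode) :
    (2 : ℤ) ∣ ∑ j, (if tau j = 0 then bv (a j) else 0) + ∑ j, (if tau j = 5 then bv (a j) else 0) := by
  have h := dvd_inter ha mask05_code
  have h1 : ∑ i, bv (a i) * bv (dec mask05 i) =
      ∑ j, (if tau j = 0 then bv (a j) else 0) + ∑ j, (if tau j = 5 then bv (a j) else 0) := by
    rw [← Finset.sum_add_distrib]
    refine Finset.sum_congr rfl fun j _ => ?_
    rw [mask05_bv]
    by_cases h0 : tau j = 0 <;> by_cases h5 : tau j = 5 <;> simp [h0, h5]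
  rwa [h1] at h

theorem tau_none : tau none = 5 := by decide

/-- even vectors with a non-trivial word go to odd vectors -/
theorem rl_even_word {x : P → ℤ} (hx : x ∈ leechLattice) {a : P → ZMod 2} {s : P → ℤ} (ha : a ∈ golayCode)
    (hx1 : ∀ i, x i = 0 + 2 * bv (a i) + 4 * s i) {p q r u : P} (hpq : p ≠ q) (hpr : p ≠ r) (hqr : q ≠ r)
    (hp : a p = 1) (hq : a q = 1) (hr : a r = 1) (hu : a u = 0) :
    ∃ x', Rl x x' ∧ x' none % 2 = 1 := by
  have hpu : p ≠ u := by
    rintro rfl
    rw [hp] at hu
    exact absurd hu (by decide)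
  have hqu : q ≠ u := by
    rintro rfl
    rw [hq] at hu
    exact absurd hu (by decide)
  have hru : r ≠ u := by
    rintro rfl
    rw [hr] at hu
    exact absurd hu (by decide)
  obtain ⟨g, hg, hgm⟩ := exists_map_tuple 4 (by norm_num)
    (fun i => if i = 0 then p else if i = 1 then q else if i = 2 then r else u)
    (fun i => if i = 0 then t0 else if i = 1 then t1 else if i = 2 then t2 else t3)
    (fun a ha b hb hab => by
      interval_cases a <;> interval_cases b <;> simp_all [Ne.symm])
    (fun a ha b hb hab => by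
      interval_cases a <;> interval_cases b <;> first | (exact absurd rfl hab) | decide)
  have h0 : g p = t0 := by simpa using hgm 0 (by norm_num)
  have h1 : g q = t1 := by simpa using hgm 1 (by norm_num)
  have h2 : g r = t2 := by simpa using hgm 2 (by norm_num)
  have h3 : g u = t3 := by simpa using hgm 3 (by norm_num)
  set y := prm g x with hy
  have hyL : y ∈ leechLattice := prm_mem hg hx
  set b : P → ZMod 2 := mapWord g a with hb
  have hbc : b ∈ golayCode := mapWord_mem_of_mem_M24 hg ha
  have hb0 : b t0 = 1 := by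
    show a (g⁻¹ t0) = 1
    rw [← h0]
    simpa using hp
  have hb1 : b t1 = 1 := by
    show a (g⁻¹ t1) = 1
    rw [← h1]
    simpa using hq
  have hb2 : b t2 = 1 := by
    show a (g⁻¹ t2) = 1
    rw [← h2]
    simpa using hr
  have hb3 : b t3 = 0 := by
    show a (g⁻¹ t3) = 0
    rw [← h3]
    simpa using hu
  have hy1 : ∀ i, y i = 2 * bv (b i) + 4 * s (g⁻¹ i) := by
    intro i
    show x (g⁻¹ i) = 2 * bv (a (g⁻¹ i)) + 4 * s (g⁻¹ i)
    rw [hx1]
    ring
  have hpar := par_tetrads hbc
  rw [sum_tau0 (fun j => bv (b j)), hb0, hb1, hb2, hb3, bv_one, bv_zero] at hpar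
  refine ⟨xiF y, (rl_prm hg hx).trans (rl_xi hyL), ?_⟩
  simp only [xiF, eta, eps, tau_none, ts_eps]
  norm_num
  have hts : ts y 5 = 2 * ∑ j, (if tau j = 5 then bv (b j) else 0) +
      4 * ∑ j, (if tau j = 5 then s (g⁻¹ j) else 0) := by
    simp only [ts, Finset.mul_sum, ← Finset.sum_add_distrib]
    refine Finset.sum_congr rfl fun j _ => ?_
    by_cases h : tau j = 5
    · simp only [h, if_true, hy1 j]
    · simp [h]
  rw [hts, hy1 none]
  obtain ⟨c, hc⟩ := hpar
  omega

/-- even vectors with a proper word go to odd vectors -/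
theorem rl_even_word' {x : P → ℤ} (hx : x ∈ leechLattice) (heven : x none % 2 = 0)
    {i j : P} (hi : x i % 4 = 2) (hj : x j % 4 = 0) :
    ∃ x', Rl x x' ∧ x' none % 2 = 1 := by
  classical
  obtain ⟨m, a, s, hm, ha, hx1, hx2⟩ := leech_decomp (mem_lattice_iff.mp hx)
  have hm0 : m = 0 := by
    have := hx1 none
    rcases hm with rfl | rfl
    · rfl
    · rcases bv_cases (a none) with ⟨h3, h4⟩ | ⟨h3, h4⟩ <;> rw [h4] at this <;> omega
  subst hm0
  have hai : a i = 1 := by
    have := hx1 i
    rcases bv_cases (a i) with ⟨h3, h4⟩ | ⟨h3, h4⟩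
    · rw [h4] at this
      omega
    · exact h3
  have haj : a j = 0 := by
    have := hx1 j
    rcases bv_cases (a j) with ⟨h3, h4⟩ | ⟨h3, h4⟩
    · exact h3
    · rw [h4] at this
      omega
  have h8 : 8 ≤ hammingNorm a := by
    rcases weights_of_mem ha with h | h | h | h | h <;> try omega
    exfalso
    have h0 := hammingNorm_eq_zero.mp h
    rw [h0] at hai
    have h00 : (0 : ZMod 2) = 1 := hai
    exact absurd h00 (by decide)
  have hF : 2 < (Finset.univ.filter fun i => a i ≠ 0).card := by
    have : hammingNorm a = (Finset.univ.filter fun i => a i ≠ 0).card := rfl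
    omega
  obtain ⟨p, q, r, hp, hq, hr, hpq, hpr, hqr⟩ := Finset.two_lt_card_iff.mp hF
  have toOne : ∀ k, k ∈ (Finset.univ.filter fun i => a i ≠ 0) → a k = 1 := by
    intro k hk
    have := (Finset.mem_filter.mp hk).2
    rcases bv_cases (a k) with ⟨h3, h4⟩ | ⟨h3, h4⟩
    · exact absurd h3 this
    · exact h3
  exact rl_even_word hx ha hx1 hpq hpr hqr (toOne p hp) (toOne q hq) (toOne r hr) haj

/-- vectors divisible by four with few coordinates which are not divisible by eight -/
theorem rl_four {x : P → ℤ} (hx : x ∈ leechLattice) (h4 : ∀ i, x i % 4 = 0)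
    (hO : (Finset.univ.filter fun i => x i % 8 ≠ 0).card = 2 ∨ (Finset.univ.filter fun i => x i % 8 ≠ 0).card = 4) :
    ∃ x', Rl x x' ∧ x' none % 2 = 1 := by
  -- move the coordinates
  set O := Finset.univ.filter fun i => x i % 8 ≠ 0 with hOdef
  have key : ∃ g ∈ M24, ∃ O' : Finset P, O.image g = O' ∧ t0 ∈ O' ∧ t1 ∉ O' ∧ t2 ∉ O' ∧ t3 ∉ O' ∧
      ∀ k, tau k = 5 → k ∉ O' := by
    rcases hO with h | h
    · obtain ⟨g, hg, h1, -⟩ := exists_map_finsets O ∅ {t0, u0} ∅ (by simp) (by simp)
        (by rw [h]; decide) (by simp) (by simp [h])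
      refine ⟨g, hg, _, h1, by decide, by decide, by decide, by decide, by decide⟩
    · obtain ⟨g, hg, h1, -⟩ := exists_map_finsets O ∅ {t0, u0, v0, w0} ∅ (by simp) (by simp)
        (by rw [h]; decide) (by simp) (by simp [h])
      refine ⟨g, hg, _, h1, by decide, by decide, by decide, by decide, by decide⟩
  obtain ⟨g, hg, O', hO1, h0, h1, h2, h3, h5⟩ := key
  set y := prm g x with hy
  have hyL : y ∈ leechLattice := prm_mem hg hx
  have hy4 : ∀ i, y i % 4 = 0 := fun i => h4 _
  have hy8 : ∀ i, i ∉ O' → y i % 8 = 0 := by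
    intro i hi
    by_contra hcon
    apply hi
    rw [← hO1]
    refine Finset.mem_image.mpr ⟨g⁻¹ i, Finset.mem_filter.mpr ⟨Finset.mem_univ _, hcon⟩, by simp⟩
  have hy0 : y t0 % 8 ≠ 0 := by
    rw [← hO1] at h0
    obtain ⟨j, hj, hjt⟩ := Finset.mem_image.mp h0
    have : y t0 = x j := by
      show x (g⁻¹ t0) = x j
      rw [← hjt]
      simp
    rw [this]
    exact (Finset.mem_filter.mp hj).2
  have hts0 : ts y 0 = y t0 + y t1 + y t2 + y t3 := sum_tau0 y
  have h1' := hy8 t1 h1
  have h2' := hy8 t2 h2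
  have h3' := hy8 t3 h3
  have h0' := hy4 t0
  have hs0 : ts y 0 % 8 = 4 := by
    rw [hts0]
    omega
  have hs5 : ts y 5 % 8 = 0 := by
    have : (8 : ℤ) ∣ ts y 5 := by
      apply Finset.dvd_sum
      intro j _
      by_cases hj : tau j = 5
      · rw [if_pos hj]
        exact Int.dvd_of_emod_eq_zero (hy8 j (h5 j hj))
      · rw [if_neg hj]
        exact dvd_zero _
    omega
  have hn : y none % 8 = 0 := hy8 none (h5 none tau_none)
  have hval0 : xiF y t0 % 4 = 2 := by
    have htau : tau t0 = 0 := by decide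
    simp only [xiF, eta, eps, htau, ts_eps, if_true]
    omega
  have hval5 : xiF y none % 4 = 0 := by
    simp only [xiF, eta, eps, tau_none, ts_eps]
    norm_num
    omega
  have hxiL := xiF_mem y hyL
  obtain ⟨x', hx', hodd⟩ := rl_even_word' hxiL (by omega) hval0 hval5
  exact ⟨x', (rl_prm hg hx).trans ((rl_xi hyL).trans hx'), hodd⟩

/-- the vector `8 e` -/
def eight (i : P) : P → ℤ := fun j => if j = i then 8 else 0

theorem eight_mem (i : P) : eight i ∈ leechLattice := by
  rw [mem_lattice_iff]
  apply leech_intro (m := 0) (a := 0) (s := fun j => if j = i then 2 else 0) golayCode.zero_mem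
  · intro j
    by_cases h : j = i <;> simp [eight, h, bv_zero]
  · apply Int.modEq_iff_dvd.mpr
    refine ⟨-1, ?_⟩
    simp [eight]

theorem rl_eight (i : P) : ∃ x', Rl (eight i) x' ∧ x' none % 2 = 1 := by
  classical
  obtain ⟨g, hg, hgi⟩ := exists_map_point i t0
  have h1 : prm g (eight i) = eight t0 := by
    funext j
    simp only [prm, eight]
    have : g⁻¹ j = i ↔ j = t0 := by
      rw [← hgi]
      constructor
      · rintro rfl
        simp
      · rintro rfl
        simp
    simp only [this]
  have h2 := rl_prm hg (eight_mem i)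
  rw [h1] at h2
  have hval : ∀ j, xiF (eight t0) j % 4 = 0 := by decide +kernel
  have hcard : (Finset.univ.filter fun j => xiF (eight t0) j % 8 ≠ 0).card = 4 := by
    have : (Finset.univ.filter fun j => xiF (eight t0) j % 8 ≠ 0) = {t0, t1, t2, t3} := by decide +kernel
    rw [this]
    decide
  have hL := xiF_mem _ (eight_mem t0)
  obtain ⟨x', h5, h6⟩ := rl_four hL hval (Or.inr hcard)
  exact ⟨x', h2.trans ((rl_xi (eight_mem t0)).trans h5), h6⟩

theorem sqNorm_neg' (x : P → ℤ) : sqNorm (-x) = sqNorm x := by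
  simp [sqNorm]

/-- Every nonzero vector of norm at most 64 is equivalent to an odd vector. -/
theorem rl_to_odd {x : P → ℤ} (hx : x ∈ leechLattice) (hN : sqNorm x ≤ 64) (h0 : x ≠ 0) :
    ∃ x', Rl x x' ∧ x' none % 2 = 1 := by
  classical
  obtain ⟨m, a, s, hm, ha, hx1, hx2⟩ := leech_decomp (mem_lattice_iff.mp hx)
  rcases hm with rfl | rfl
  swap
  · refine ⟨x, rl_refl hx, ?_⟩
    have := hx1 none
    rcases bv_cases (a none) with ⟨h3, h4⟩ | ⟨h3, h4⟩ <;> rw [h4] at this <;> omega
  have hnn : ∀ i, x i ^ 2 ≤ sqNorm x := fun i =>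
    Finset.single_le_sum (f := fun i => x i ^ 2) (fun i _ => sq_nonneg _) (Finset.mem_univ i)
  by_cases ha0 : a = 0
  · subst ha0
    have h4 : ∀ i, x i % 4 = 0 := by
      intro i
      rw [hx1 i]
      simp only [Pi.zero_apply, bv_zero]
      omega
    set O := Finset.univ.filter fun i => x i % 8 ≠ 0 with hO
    have hO16 : ∀ i ∈ O, 16 ≤ x i ^ 2 := by
      intro i hi
      have h5 := (Finset.mem_filter.mp hi).2
      have h6 := h4 i
      have h7 : x i ≠ 0 := by
        intro h
        rw [h] at h5
        simp at h5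
      have h8 : 4 ≤ x i ∨ x i ≤ -4 := by omega
      rcases h8 with h8 | h8 <;> nlinarith
    have hcard : 16 * (O.card : ℤ) ≤ 64 := by
      have h5 : ∑ i ∈ O, (16 : ℤ) ≤ ∑ i ∈ O, x i ^ 2 := Finset.sum_le_sum hO16
      have h6 : ∑ i ∈ O, x i ^ 2 ≤ sqNorm x :=
        Finset.sum_le_sum_of_subset_of_nonneg (Finset.subset_univ _) fun i _ _ => sq_nonneg _
      rw [Finset.sum_const] at h5
      simp only [nsmul_eq_mul] at h5
      linarith
    have hpar : (2 : ℤ) ∣ (O.card : ℤ) := by
      have h5 : ∑ i, x i = 4 * ∑ i, s i := by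
        rw [Finset.mul_sum]
        refine Finset.sum_congr rfl fun i _ => ?_
        rw [hx1 i]
        simp [bv_zero]
      have h6 := Int.modEq_iff_dvd.mp hx2
      rw [h5] at h6
      have h7 : (2 : ℤ) ∣ ∑ i, s i := by omega
      have h8 : (∑ i, s i) % 2 = (O.card : ℤ) % 2 := by
        rw [Finset.sum_int_mod, hO, Finset.card_filter]
        push_cast
        congr 1
        refine Finset.sum_congr rfl fun i _ => ?_
        have := hx1 i
        simp only [Pi.zero_apply, bv_zero] at this
        by_cases h9 : x i % 8 = 0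
        · rw [if_neg (by simpa using h9)]
          omega
        · rw [if_pos (by simpa using h9)]
          omega
      omega
    have hcases : O.card = 0 ∨ O.card = 2 ∨ O.card = 4 := by omega
    rcases hcases with hc | hc | hc
    · -- everything divisible by eight
      have h8 : ∀ i, x i % 8 = 0 := by
        intro i
        by_contra hcon
        have : i ∈ O := Finset.mem_filter.mpr ⟨Finset.mem_univ _, hcon⟩
        rw [Finset.card_eq_zero.mp hc] at this
        simp at this
      obtain ⟨i, hi⟩ : ∃ i, x i ≠ 0 := by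
        by_contra hcon
        push Not at hcon
        exact h0 (funext hcon)
      have hother : ∀ j, j ≠ i → x j = 0 := by
        intro j hj
        by_contra hcon
        have h5 : 64 ≤ x i ^ 2 := by
          have h6 := h8 i
          have h7 : 8 ≤ x i ∨ x i ≤ -8 := by omega
          rcases h7 with h7 | h7 <;> nlinarith
        have h6 : 64 ≤ x j ^ 2 := by
          have h6 := h8 j
          have h7 : 8 ≤ x j ∨ x j ≤ -8 := by omega
          rcases h7 with h7 | h7 <;> nlinarith
        have h7 : x i ^ 2 + x j ^ 2 ≤ sqNorm x := by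
          have := Finset.sum_pair (f := fun k => x k ^ 2) (Ne.symm hj)
          rw [← this]
          exact Finset.sum_le_sum_of_subset_of_nonneg (Finset.subset_univ _) fun i _ _ => sq_nonneg _
        omega
      have hval : x i = 8 ∨ x i = -8 := by
        have h5 := hnn i
        have h6 := h8 i
        have h7 : x i ^ 2 ≤ 64 := by omega
        have h9 : -8 ≤ x i ∧ x i ≤ 8 := by
          constructor <;> nlinarith
        omega
      rcases hval with hv | hv
      · have : x = eight i := by
          funext j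
          by_cases hj : j = i
          · simp [eight, hj, hv]
          · simp [eight, hj, hother j hj]
        rw [this]
        exact rl_eight i
      · have : x = -eight i := by
          funext j
          by_cases hj : j = i
          · simp [eight, hj, hv]
          · simp [eight, hj, hother j hj]
        obtain ⟨x', h5, h6⟩ := rl_eight i
        refine ⟨x', ?_, h6⟩
        rw [this]
        have h7 := rl_neg (eight_mem i)
        exact h7.symm.trans h5
    · exact rl_four hx h4 (Or.inl hc)
    · exact rl_four hx h4 (Or.inr hc)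
  · -- the word is nontrivial
    obtain ⟨i, hi⟩ : ∃ i, a i = 1 := by
      by_contra hcon
      push Not at hcon
      apply ha0
      funext i
      rcases bv_cases (a i) with ⟨h3, _⟩ | ⟨h3, _⟩
      · exact h3
      · exact absurd h3 (hcon i)
    obtain ⟨j, hj⟩ : ∃ j, a j = 0 := by
      by_contra hcon
      push Not at hcon
      have h5 : ∀ k, 4 ≤ x k ^ 2 := by
        intro k
        have h6 := hx1 k
        rcases bv_cases (a k) with ⟨h3, _⟩ | ⟨h3, h4⟩
        · exact absurd h3 (hcon k)
        · rw [h4] at h6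
          have h7 : 2 ≤ x k ∨ x k ≤ -2 := by omega
          rcases h7 with h7 | h7 <;> nlinarith
      have h6 : ∑ _k : P, (4 : ℤ) ≤ sqNorm x := Finset.sum_le_sum fun k _ => h5 k
      have h7 : ∑ _k : P, (4 : ℤ) = 96 := by
        simp [show Fintype.card P = 24 by decide]
      omega
    have h5 : x i % 4 = 2 := by
      have := hx1 i
      rw [hi, bv_one] at this
      omega
    have h6 : x j % 4 = 0 := by
      have := hx1 j
      rw [hj, bv_zero] at this
      omega
    have h7 : x none % 2 = 0 := by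
      have := hx1 none
      rcases bv_cases (a none) with ⟨h3, h4⟩ | ⟨h3, h4⟩ <;> rw [h4] at this <;> omega
    exact rl_even_word' hx h7 h5 h6

/-- Norm preservation. -/
theorem Rl.sqNorm_eq {x y : P → ℤ} (h : Rl x y) : sqNorm y = sqNorm x := by
  obtain ⟨hx, hy, g, hg⟩ := h
  have h1 := g.2.2 ⟨x, hx⟩
  have h2 : ((g • (⟨x, hx⟩ : leechLattice) : leechLattice) : P → ℤ) = y := congrArg Subtype.val hg
  have h3 : ((g • (⟨x, hx⟩ : leechLattice) : leechLattice) : P → ℤ) =
      (((g : Equiv.Perm leechLattice) ⟨x, hx⟩ : leechLattice) : P → ℤ) := rfl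
  rw [← h2, h3]
  exact h1

/-- Normal form. -/
theorem rl_normal {x : P → ℤ} (hx : x ∈ leechLattice) (hN : sqNorm x ≤ 64) (h0 : x ≠ 0) :
    ∃ x', Rl x x' ∧ Norm1 x' := by
  obtain ⟨y, h1, h2⟩ := rl_to_odd hx hN h0
  obtain ⟨z, h3, h4⟩ := rl_norm_odd h1.mem_right h2
  refine ⟨z, h1.trans h3, norm1_of h4 ?_⟩
  rw [h3.sqNorm_eq, h1.sqNorm_eq]
  exact hN

/-- canonical vectors -/
def canV (L3 L5 : Finset P) : P → ℤ := fun i => if i ∈ L3 then -3 else if i ∈ L5 then 5 else 1

theorem norm1_canV (L3 L5 : Finset P) : Norm1 (canV L3 L5) := by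
  intro i
  simp only [canV]
  split_ifs <;> simp

def c32 : P → ℤ := canV {t0} ∅
def A48 : P → ℤ := canV {t0, t1, t2} ∅
def B48 : P → ℤ := canV ∅ {t3}
def A64 : P → ℤ := canV {t0, t1, t2, u0, v0} ∅
def B64 : P → ℤ := canV {u0, v0} {t3}

theorem c32_mem : c32 ∈ leechLattice := lchk_spec (by decide +kernel)
theorem A48_mem : A48 ∈ leechLattice := lchk_spec (by decide +kernel)
theorem B48_mem : B48 ∈ leechLattice := lchk_spec (by decide +kernel)
theorem A64_mem : A64 ∈ leechLattice := lchk_spec (by decide +kernel)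
theorem B64_mem : B64 ∈ leechLattice := lchk_spec (by decide +kernel)

theorem link48 : Rl A48 B48 := by
  have h1 := rl_xi A48_mem
  have h2 := rl_neg h1.mem_right
  have h3 : -xiF A48 = B48 := by
    funext i
    revert i
    decide +kernel
  rw [h3] at h2
  exact h1.trans h2

/-- complement of an octad -/
def mask16 : ℕ := 16777215 - (2^13 + 2^18 + 2^20 + 2^21 + 2^4 + 2^7 + 2^10 + 2^12)

theorem mask16_code : dec mask16 ∈ golayCode := dec_mem_of_isCode (by decide +kernel)

theorem link64 : Rl A64 B64 := by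
  have h1 := rl_xi A64_mem
  have h2 := rl_sgn mask16_code h1.mem_right
  have h3 : sgn (dec mask16) (xiF A64) = B64 := by
    funext i
    revert i
    decide +kernel
  rw [h3] at h2
  exact h1.trans h2

theorem ne_zero_of_norm {x : P → ℤ} {N : ℤ} (h : sqNorm x = N) (hN : N ≠ 0) : x ≠ 0 := by
  rintro rfl
  apply hN
  rw [← h]
  simp [sqNorm]

theorem to_c32 {x : P → ℤ} (hx : x ∈ leechLattice) (hN : sqNorm x = 32) : Rl x c32 := by
  obtain ⟨y, h1, h2⟩ := rl_normal hx (by omega) (ne_zero_of_norm hN (by norm_num))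
  have h3 := norm_formula h2
  rw [h1.sqNorm_eq, hN] at h3
  have h4 := norm_formula (norm1_canV {t0} ∅)
  have h5 : (Finset.univ.filter fun i => y i = -3).card = 1 := by omega
  have h6 : (Finset.univ.filter fun i => y i = 5).card = 0 := by omega
  refine h1.trans (rl_of_shape h1.mem_right c32_mem h2 (norm1_canV _ _) ?_ ?_ ?_)
  · rw [h5]
    decide
  · rw [h6]
    decide
  · rw [h5, h6]
    norm_num

theorem to_B48 {x : P → ℤ} (hx : x ∈ leechLattice) (hN : sqNorm x = 48) : Rl x B48 := by
  obtain ⟨y, h1, h2⟩ := rl_normal hx (by omega) (ne_zero_of_norm hN (by norm_num))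
  have h3 := norm_formula h2
  rw [h1.sqNorm_eq, hN] at h3
  have hcases : ((Finset.univ.filter fun i => y i = -3).card = 3 ∧ (Finset.univ.filter fun i => y i = 5).card = 0) ∨
      ((Finset.univ.filter fun i => y i = -3).card = 0 ∧ (Finset.univ.filter fun i => y i = 5).card = 1) := by
    omega
  rcases hcases with ⟨h5, h6⟩ | ⟨h5, h6⟩
  · refine h1.trans ((rl_of_shape h1.mem_right A48_mem h2 (norm1_canV _ _) ?_ ?_ ?_).trans link48)
    · rw [h5]
      decide
    · rw [h6]
      decide
    · rw [h5, h6]
      norm_num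
  · refine h1.trans (rl_of_shape h1.mem_right B48_mem h2 (norm1_canV _ _) ?_ ?_ ?_)
    · rw [h5]
      decide
    · rw [h6]
      decide
    · rw [h5, h6]
      norm_num

theorem to_B64 {x : P → ℤ} (hx : x ∈ leechLattice) (hN : sqNorm x = 64) : Rl x B64 := by
  obtain ⟨y, h1, h2⟩ := rl_normal hx (by omega) (ne_zero_of_norm hN (by norm_num))
  have h3 := norm_formula h2
  rw [h1.sqNorm_eq, hN] at h3
  have hcases : ((Finset.univ.filter fun i => y i = -3).card = 5 ∧ (Finset.univ.filter fun i => y i = 5).card = 0) ∨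
      ((Finset.univ.filter fun i => y i = -3).card = 2 ∧ (Finset.univ.filter fun i => y i = 5).card = 1) := by
    omega
  rcases hcases with ⟨h5, h6⟩ | ⟨h5, h6⟩
  · refine h1.trans ((rl_of_shape h1.mem_right A64_mem h2 (norm1_canV _ _) ?_ ?_ ?_).trans link64)
    · rw [h5]
      decide
    · rw [h6]
      decide
    · rw [h5, h6]
  · refine h1.trans (rl_of_shape h1.mem_right B64_mem h2 (norm1_canV _ _) ?_ ?_ ?_)
    · rw [h5]
      decide
    · rw [h6]
      decide
    · rw [h5, h6]
      norm_num

/-- Transitivity in a usable form. -/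
theorem exists_smul_of_rl {v w : leechLattice} (h : Rl v w) : ∃ g : Co0, g • v = w := by
  obtain ⟨hx, hy, g, hg⟩ := h
  exact ⟨g, hg⟩

theorem trans_32 (v w : leechLattice) (hv : sqNorm (v : P → ℤ) = 32) (hw : sqNorm (w : P → ℤ) = 32) :
    ∃ g : Co0, g • v = w :=
  exists_smul_of_rl ((to_c32 v.2 hv).trans (to_c32 w.2 hw).symm)

theorem trans_48 (v w : leechLattice) (hv : sqNorm (v : P → ℤ) = 48) (hw : sqNorm (w : P → ℤ) = 48) :
    ∃ g : Co0, g • v = w :=
  exists_smul_of_rl ((to_B48 v.2 hv).trans (to_B48 w.2 hw).symm)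

theorem trans_64 (v w : leechLattice) (hv : sqNorm (v : P → ℤ) = 64) (hw : sqNorm (w : P → ℤ) = 64) :
    ∃ g : Co0, g • v = w :=
  exists_smul_of_rl ((to_B64 v.2 hv).trans (to_B64 w.2 hw).symm)

end Cfsg.Agent.Lib.LeechOrb
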