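/-
Counting minimal vectors of the Leech lattice with a prescribed inner product with a fixed vector.
-/
import Mathlib
import Cfsg.Prelude.Def_Sporadic_a
import Cfsg.Agent.Lib.LeechBase
import Cfsg.Agent.Lib.LeechCensus
import Cfsg.Agent.Lib.LeechDFS
import Cfsg.Agent.Lib.LeechOrb

set_option autoImplicit false
set_option linter.unusedSectionVars false
set_option linter.unusedSimpArgs false
set_option linter.unusedVariables false

namespace Cfsg.Agent.Lib.LeechMinCount

open Cfsg Cfsg.Agent.Lib.GolayCode Cfsg.Agent.Lib.GolayFacts Cfsg.Agent.Lib.GolayPerm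
  Cfsg.Agent.Lib.LeechBase Cfsg.Agent.Lib.LeechCensus Cfsg.Agent.Lib.LeechDFS Cfsg.Agent.Lib.LeechOrb
  Cfsg.Agent.Lib.LeechCo Cfsg.Agent.Lib.LeechGen

/-! ### The odd minimal vectors -/

/-- odd minimal vectors -/
def X1 (a : P → ZMod 2) (p : P) : P → ℤ := sgn a (canV {p} ∅)

theorem X1_injective (a : P → ZMod 2) : Function.Injective (X1 a) := by
  intro p q h
  by_contra hne
  have h1 := congrFun h p
  simp only [X1, sgn, canV] at h1
  by_cases ha : a p = 0 <;> simp [ha, hne] at h1

theorem sgn_mod4 {a : P → ZMod 2} {x : P → ℤ} (hx : ∀ i, x i % 4 = 1) (i : P) :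
    sgn a x i ≡ 1 + 2 * bv (a i) [ZMOD 4] := by
  simp only [sgn]
  apply Int.modEq_iff_dvd.mpr
  have := hx i
  rcases bv_cases (a i) with ⟨h3, h4⟩ | ⟨h3, h4⟩
  · rw [h4, if_pos h3]
    omega
  · rw [h4, if_neg (by rw [h3]; decide)]
    omega

theorem canV_one_mod4 (p : P) : ∀ i, canV {p} ∅ i % 4 = 1 := by
  intro i
  simp only [canV]
  by_cases h : i = p <;> simp [h]

theorem sum_canV (p : P) : ∑ i, canV {p} ∅ i = 20 := by
  have h1 : ∀ i, canV {p} ∅ i = 1 - 4 * (if i = p then 1 else 0) := by
    intro i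
    simp only [canV]
    by_cases h : i = p <;> simp [h]
  simp only [h1, Finset.sum_sub_distrib, ← Finset.mul_sum]
  simp [card_P]

theorem sum_sgn_mod8 {a : P → ZMod 2} (ha : a ∈ golayCode) (p : P) : ∑ i, X1 a p i ≡ 4 [ZMOD 8] := by
  have hf : ∀ i, X1 a p i = canV {p} ∅ i - 2 * (bv (a i) * canV {p} ∅ i) := by
    intro i
    simp only [X1, sgn]
    rcases bv_cases (a i) with ⟨h3, h4⟩ | ⟨h3, h4⟩
    · rw [h4, if_pos h3]; ring
    · rw [h4, if_neg (by rw [h3]; decide)]; ring
  have h1 : ∑ i, bv (a i) * canV {p} ∅ i = ∑ i, bv (a i) - 4 * bv (a p) := by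
    have h2 : ∀ i, bv (a i) * canV {p} ∅ i = bv (a i) - 4 * (if i = p then bv (a p) else 0) := by
      intro i
      simp only [canV]
      by_cases h : i = p
      · subst h
        simp
        ring
      · simp [h]
    rw [Finset.sum_congr rfl fun i _ => h2 i, Finset.sum_sub_distrib, ← Finset.mul_sum]
    simp
  simp only [hf, Finset.sum_sub_distrib, ← Finset.mul_sum, sum_canV, h1]
  obtain ⟨w, hw⟩ := four_dvd_weight ha
  rw [hw]
  apply Int.modEq_iff_dvd.mpr
  refine ⟨-2 + w - bv (a p), ?_⟩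
  ring

theorem sqNorm_X1 (a : P → ZMod 2) (p : P) : sqNorm (X1 a p) = 32 := by
  have h1 : sqNorm (X1 a p) = sqNorm (canV {p} ∅) := sqNorm_sgn _ _
  rw [h1, norm_formula (norm1_canV _ _)]
  have h3 : (Finset.univ.filter fun i => canV {p} ∅ i = -3) = {p} := by
    ext i
    simp only [canV, Finset.mem_filter, Finset.mem_univ, true_and, Finset.mem_singleton]
    by_cases h : i = p <;> simp [h]
  have h5 : (Finset.univ.filter fun i => canV {p} ∅ i = 5) = ∅ := by
    ext i
    simp only [canV, Finset.mem_filter, Finset.mem_univ, true_and]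
    by_cases h : i = p <;> simp [h]
  rw [h3, h5]
  simp

/-- The odd part of the set of minimal vectors. -/
theorem pat1_eq {a : P → ZMod 2} (ha : a ∈ golayCode) : Pat 1 a 32 = Set.range (X1 a) := by
  classical
  ext x
  constructor
  · rintro ⟨h1, h2, h3⟩
    -- normalize
    have h4 : ∀ i, sgn a x i % 4 = 1 := by
      intro i
      have h5 := Int.modEq_iff_dvd.mp (h1 i)
      simp only [sgn]
      rcases bv_cases (a i) with ⟨h6, h7⟩ | ⟨h6, h7⟩
      · rw [h7] at h5
        rw [if_pos h6]
        omega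
      · rw [h7] at h5
        rw [if_neg (by rw [h6]; decide)]
        omega
    have h5 : sqNorm (sgn a x) = 32 := by
      rw [sqNorm_sgn, h2]
      rfl
    have h6 := norm1_of h4 (by omega)
    have h7 := norm_formula h6
    rw [h5] at h7
    have h8 : (Finset.univ.filter fun i => sgn a x i = -3).card = 1 := by omega
    have h9 : (Finset.univ.filter fun i => sgn a x i = 5).card = 0 := by omega
    obtain ⟨p, hp⟩ := Finset.card_eq_one.mp h8
    refine ⟨p, ?_⟩
    have h10 : sgn a x = canV {p} ∅ := by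
      funext i
      simp only [canV, Finset.mem_singleton, Finset.notMem_empty, if_false]
      by_cases hi : i = p
      · subst hi
        have : i ∈ (Finset.univ.filter fun i => sgn a x i = -3) := by
          rw [hp]
          simp
        rw [if_pos rfl]
        exact (Finset.mem_filter.mp this).2
      · rw [if_neg hi]
        rcases h6 i with h | h | h
        · exact h
        · exfalso
          have : i ∈ (Finset.univ.filter fun i => sgn a x i = -3) := Finset.mem_filter.mpr ⟨Finset.mem_univ _, h⟩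
          rw [hp] at this
          exact hi (Finset.mem_singleton.mp this)
        · exfalso
          have : i ∈ (Finset.univ.filter fun i => sgn a x i = 5) := Finset.mem_filter.mpr ⟨Finset.mem_univ _, h⟩
          rw [Finset.card_eq_zero.mp h9] at this
          simp at this
    show sgn a (canV {p} ∅) = x
    rw [← h10, sgn_sgn]
  · rintro ⟨p, rfl⟩
    refine ⟨fun i => sgn_mod4 (canV_one_mod4 p) i, ?_, ?_⟩
    · rw [sqNorm_X1]
      rfl
    · simpa using sum_sgn_mod8 ha p

/-! ### The vectors from octads -/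

/-- vectors from a family of values on a list of coordinates -/
def tt2 (a : P → ZMod 2) : P → List ℤ := fun i => if a i = 0 then [0] else [2, -2]

theorem pat0_octad_eq {a : P → ZMod 2} (ha : a ∈ golayCode) (h8 : hammingNorm a = 8) :
    Pat 0 a 32 = {x | x ∈ Fintype.piFinset (fun i => (tt2 a i).toFinset) ∧ ∑ i, x i ≡ 0 [ZMOD 8]} := by
  classical
  ext x
  constructor
  · rintro ⟨h1, h2, h3⟩
    refine ⟨?_, by simpa using h3⟩
    have hsum : ∑ i, (x i ^ 2 - 4 * bv (a i)) = 0 := by
      rw [Finset.sum_sub_distrib, ← Finset.mul_sum, sum_bv, h8]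
      have : ∑ i, x i ^ 2 = sqNorm x := rfl
      rw [this, h2]
      norm_num
    have hge : ∀ i, 0 ≤ x i ^ 2 - 4 * bv (a i) := by
      intro i
      have h5 := Int.modEq_iff_dvd.mp (h1 i)
      rcases bv_cases (a i) with ⟨h6, h7⟩ | ⟨h6, h7⟩
      · rw [h7]
        have := sq_nonneg (x i)
        omega
      · rw [h7] at h5 ⊢
        have h8 : 2 ≤ x i ∨ x i ≤ -2 := by omega
        rcases h8 with h8 | h8 <;> nlinarith
    have hzero := (Finset.sum_eq_zero_iff_of_nonneg (fun i _ => hge i)).mp hsum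
    rw [Fintype.mem_piFinset]
    intro i
    have h5 := hzero i (Finset.mem_univ i)
    simp only [tt2]
    rcases bv_cases (a i) with ⟨h6, h7⟩ | ⟨h6, h7⟩
    · rw [if_pos h6]
      rw [h7] at h5
      have : x i = 0 := by
        have h9 : x i ^ 2 = 0 := by omega
        exact pow_eq_zero_iff (by norm_num) |>.mp h9
      simp [this]
    · rw [if_neg (by rw [h6]; decide)]
      rw [h7] at h5
      have h9 : (x i - 2) * (x i + 2) = 0 := by ring_nf; omega
      simp only [List.toFinset_cons, List.toFinset_nil, insert_empty_eq, Finset.mem_insert, Finset.mem_singleton]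
      rcases mul_eq_zero.mp h9 with h | h
      · left; omega
      · right; omega
  · rintro ⟨h1, h2⟩
    have h3 := Fintype.mem_piFinset.mp h1
    have hval : ∀ i, (a i = 0 ∧ x i = 0) ∨ (a i = 1 ∧ (x i = 2 ∨ x i = -2)) := by
      intro i
      have h5 := h3 i
      simp only [tt2] at h5
      rcases bv_cases (a i) with ⟨h6, h7⟩ | ⟨h6, h7⟩
      · rw [if_pos h6] at h5
        left
        simpa [h6] using h5
      · rw [if_neg (by rw [h6]; decide)] at h5
        right
        refine ⟨h6, ?_⟩
        simpa using h5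
    refine ⟨fun i => ?_, ?_, by simpa using h2⟩
    · apply Int.modEq_iff_dvd.mpr
      rcases hval i with ⟨h6, h7⟩ | ⟨h6, h7 | h7⟩ <;> rw [h6, h7]
      · decide
      · decide
      · decide
    · have h4 : ∀ i, x i ^ 2 = 4 * bv (a i) := by
        intro i
        rcases hval i with ⟨h6, h7⟩ | ⟨h6, h7 | h7⟩ <;> rw [h6, h7] <;> decide
      simp only [sqNorm, h4, ← Finset.mul_sum, sum_bv, h8]
      norm_num

/-! ### Fast counting -/

/-- the table of a functional -/
def tbOf (u : P → ℤ) (M : ℤ) (L : List P) : List (ℕ × ℕ × ℕ) :=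
  L.map fun i => (ptIdx i, (M + u i).toNat, (M - u i).toNat)

/-- value at a coordinate -/
def valN (u : P → ℤ) (M : ℤ) (mask : ℕ) (i : P) : ℕ :=
  if mask.testBit (ptIdx i) then (M - u i).toNat else (M + u i).toNat

/-- sum of the values -/
def sumW (mask : ℕ) : List (ℕ × ℕ × ℕ) → ℕ
  | [] => 0
  | (j, p, n) :: t => (if mask.testBit j then n else p) + sumW mask t

theorem sumW_eq (u : P → ℤ) (M : ℤ) (mask : ℕ) (L : List P) :
    sumW mask (tbOf u M L) = (L.map (valN u M mask)).sum := by
  induction L with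
  | nil => rfl
  | cons i L ih =>
    simp only [tbOf, List.map_cons, sumW, List.sum_cons] at ih ⊢
    rw [ih]
    rfl

/-- counting coordinates -/
def cntP (W T : ℕ) (mask : ℕ) : List (ℕ × ℕ × ℕ) → ℕ
  | [] => 0
  | (j, p, n) :: t => (if W = T + 4 * (if mask.testBit j then n else p) then 1 else 0) + cntP W T mask t

theorem cntP_eq (u : P → ℤ) (M : ℤ) (W T mask : ℕ) (L : List P) :
    cntP W T mask (tbOf u M L) = (L.map fun i => if W = T + 4 * valN u M mask i then 1 else 0).sum := by
  induction L with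
  | nil => rfl
  | cons i L ih =>
    simp only [tbOf, List.map_cons, cntP, List.sum_cons] at ih ⊢
    rw [ih]
    rfl

theorem sum_allP {M : Type*} [AddCommMonoid M] (f : P → M) : (allP.map f).sum = ∑ i, f i := by
  rw [← List.sum_toFinset _ allP_nodup,
    show allP.toFinset = Finset.univ from Finset.eq_univ_of_forall fun i => List.mem_toFinset.mpr (allP_mem i)]

/-- the number of odd minimal vectors with a given word and inner product -/
def oddCount (tb : List (ℕ × ℕ × ℕ)) (M T1 mask : ℕ) : ℕ :=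
  cntP (sumW mask tb + 4 * M) T1 mask tb

theorem valN_cast {u : P → ℤ} {M : ℕ} (hM : ∀ i, |u i| ≤ (M : ℤ)) (mask : ℕ) (i : P) :
    (valN u M mask i : ℤ) = M + (if dec mask i = 0 then u i else - u i) := by
  have h1 := abs_le.mp (hM i)
  by_cases h : mask.testBit (ptIdx i) = true
  · have hd : dec mask i = 1 := by
      simp only [dec]
      rw [if_pos h]
    simp only [valN]
    rw [if_pos h, if_neg (by rw [hd]; decide), Int.toNat_of_nonneg (by omega)]
    ring
  · have hd : dec mask i = 0 := by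
      simp only [dec]
      rw [if_neg h]
    simp only [valN]
    rw [if_neg h, if_pos hd, Int.toNat_of_nonneg (by omega)]

theorem dot_X1 (u : P → ℤ) (a : P → ZMod 2) (p : P) :
    dotInt u (X1 a p) = ∑ i, (if a i = 0 then u i else - u i) - 4 * (if a p = 0 then u p else - u p) := by
  have h1 : ∀ i, u i * X1 a p i = (if a i = 0 then u i else - u i) -
      4 * (if i = p then (if a p = 0 then u p else - u p) else 0) := by
    intro i
    simp only [X1, sgn, canV, Finset.mem_singleton, Finset.notMem_empty, if_false]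
    by_cases h : i = p
    · subst h
      by_cases ha : a i = 0 <;> simp [ha] <;> ring
    · by_cases ha : a i = 0 <;> simp [ha, h]
  simp only [dotInt, h1, Finset.sum_sub_distrib, ← Finset.mul_sum]
  simp

theorem oddCount_spec {u : P → ℤ} {M : ℕ} (hM : ∀ i, |u i| ≤ (M : ℤ)) (mask T1 : ℕ) {T : ℤ} (hT : (T1 : ℤ) = T + 24 * M)
    (ha : dec mask ∈ golayCode) {S : Set (P → ℤ)} (hS : ∀ x, x ∈ S ↔ x ∈ leechLattice ∧ sqNorm x = ((32 : ℕ) : ℤ) ∧ dotInt u x = T) :
    (S ∩ Pat 1 (dec mask) 32).ncard = oddCount (tbOf u M allP) M T1 mask := by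
  classical
  have hset : S ∩ Pat 1 (dec mask) 32 = X1 (dec mask) '' ↑(Finset.univ.filter fun p => dotInt u (X1 (dec mask) p) = T) := by
    ext x
    constructor
    · rintro ⟨h1, h2⟩
      rw [pat1_eq ha] at h2
      obtain ⟨p, rfl⟩ := h2
      refine ⟨p, ?_, rfl⟩
      simp only [Finset.coe_filter, Finset.mem_univ, true_and, Set.mem_ofPred_eq]
      exact ((hS _).mp h1).2.2
    · rintro ⟨p, hp, rfl⟩
      simp only [Finset.coe_filter, Finset.mem_univ, true_and, Set.mem_ofPred_eq] at hp
      have h2 : X1 (dec mask) p ∈ Pat 1 (dec mask) 32 := by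
        rw [pat1_eq ha]
        exact ⟨p, rfl⟩
      exact ⟨(hS _).mpr ⟨pat_mem_lattice ha h2, h2.2.1, hp⟩, h2⟩
  rw [hset, Set.ncard_image_of_injective _ (X1_injective _), Set.ncard_coe_finset, Finset.card_filter]
  rw [oddCount, cntP_eq, sum_allP, sumW_eq, sum_allP]
  refine Finset.sum_congr rfl fun p _ => ?_
  have hW : ∑ i, ((valN u M mask i : ℕ) : ℤ) = 24 * M + ∑ i, (if dec mask i = 0 then u i else - u i) := by
    rw [Finset.sum_congr rfl fun i _ => valN_cast hM mask i, Finset.sum_add_distrib]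
    simp [card_P]
  have hp := valN_cast hM mask p
  have key : dotInt u (X1 (dec mask) p) = T ↔
      ∑ i, valN u M mask i + 4 * M = T1 + 4 * valN u M mask p := by
    rw [dot_X1]
    zify
    rw [hW, hp, hT]
    constructor <;> intro h <;> linarith
  by_cases h : dotInt u (X1 (dec mask) p) = T
  · rw [if_pos h, if_pos (key.mp h)]
  · rw [if_neg h, if_neg (fun h' => h (key.mpr h'))]

/-! ### Sign patterns on octads -/

/-- the search over sign patterns on an octad -/
def goO (Tg : ℕ) : List (ℕ × ℕ) → Bool → ℕ → ℕ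
  | [], par, V => if par = false ∧ 2 * V = Tg then 1 else 0
  | (p, n) :: D, par, V => goO Tg D par (V + p) + goO Tg D (!par) (V + n)

/-- the statistic -/
def dlO (u : P → ℤ) (M : ℤ) (i : P) (v : ℤ) : ZMod 2 × ℕ :=
  if v = 2 then (0, (M + u i).toNat) else (1, (M - u i).toNat)

/-- the test -/
def FO (Tg : ℕ) (st : ZMod 2 × ℕ) : ℕ := if st.1 = 0 ∧ 2 * st.2 = Tg then 1 else 0

/-- bool to bit -/
def bb (b : Bool) : ZMod 2 := if b then 1 else 0

/-- the table of the octad -/
def octData (u : P → ℤ) (M : ℤ) (L : List P) : List (ℕ × ℕ) :=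
  L.map fun i => ((M + u i).toNat, (M - u i).toNat)

theorem goO_eq (u : P → ℤ) (M : ℤ) (Tg : ℕ) (a : P → ZMod 2) (L : List P) (hL : ∀ i ∈ L, a i ≠ 0) (par : Bool) (V : ℕ) :
    goO Tg (octData u M L) par V = gG (tt2 a) (dlO u M) (FO Tg) L (bb par, V) := by
  induction L generalizing par V with
  | nil =>
    simp only [octData, List.map_nil, goO, gG, FO, bb]
    cases par <;> simp
  | cons i L ih =>
    have hi := hL i (by simp)
    have hL' : ∀ j ∈ L, a j ≠ 0 := fun j hj => hL j (by simp [hj])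
    simp only [octData, List.map_cons, goO, gG, tt2, if_neg hi, List.map_nil, List.sum_cons, List.sum_nil, add_zero]
    have h1 := ih hL' par (V + (M + u i).toNat)
    have h2 := ih hL' (!par) (V + (M - u i).toNat)
    simp only [octData] at h1 h2
    rw [h1, h2]
    have e1 : (bb par, V) + dlO u M i 2 = (bb par, V + (M + u i).toNat) := by
      simp [dlO]
    have e2 : (bb par, V) + dlO u M i (-2) = (bb (!par), V + (M - u i).toNat) := by
      have : (-2 : ℤ) ≠ 2 := by norm_num
      simp only [dlO, if_neg this]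
      cases par <;> simp [bb] <;> decide
    rw [e1, e2]

/-- The even part for an octad. -/
theorem pat0_octad_count {u : P → ℤ} {M : ℕ} (hM : ∀ i, |u i| ≤ (M : ℤ)) (mask Tg : ℕ) {T : ℤ}
    (hT : (Tg : ℤ) = T + 16 * M) (ha : dec mask ∈ golayCode) (h8 : hammingNorm (dec mask) = 8)
    {S : Set (P → ℤ)} (hS : ∀ x, x ∈ S ↔ x ∈ leechLattice ∧ sqNorm x = ((32 : ℕ) : ℤ) ∧ dotInt u x = T) :
    (S ∩ Pat 0 (dec mask) 32).ncard = goO Tg (octData u M (allP.filter fun i => mask.testBit (ptIdx i))) false 0 := by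
  classical
  set a := dec mask with hadef
  set L := allP.filter fun i => mask.testBit (ptIdx i) with hL
  have hLa : ∀ i, i ∈ L ↔ a i ≠ 0 := by
    intro i
    simp only [hL, List.mem_filter, allP_mem, true_and, hadef, dec]
    by_cases h : mask.testBit (ptIdx i) = true
    · rw [if_pos h]
      exact ⟨fun _ => by decide, fun _ => h⟩
    · rw [if_neg h]
      exact ⟨fun h' => absurd h' h, fun h' => absurd rfl h'⟩
  have hnd : L.Nodup := allP_nodup.filter _
  have htt : ∀ i, (tt2 a i).Nodup := by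
    intro i
    simp only [tt2]
    split_ifs <;> decide
  rw [goO_eq u M Tg a L (fun i hi => (hLa i).mp hi) false 0, gG_eq _ _ _ htt L hnd]
  have hSS : SS (tt2 a) L = Fintype.piFinset fun i => (tt2 a i).toFinset := by
    ext x
    simp only [SS, Fintype.mem_piFinset]
    refine forall_congr' fun i => ?_
    by_cases hi : i ∈ L
    · rw [if_pos hi]
    · rw [if_neg hi]
      have : a i = 0 := by
        by_contra h
        exact hi ((hLa i).mpr h)
      simp [tt2, this]
  rw [hSS]
  have hset : S ∩ Pat 0 a 32 = ↑((Fintype.piFinset fun i => (tt2 a i).toFinset).filter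
      (fun x => ∑ i, x i ≡ 0 [ZMOD 8] ∧ dotInt u x = T)) := by
    ext x
    rw [Finset.coe_filter]
    simp only [Set.mem_inter_iff, Set.mem_ofPred_eq]
    have h1 := pat0_octad_eq ha h8
    constructor
    · rintro ⟨h2, h3⟩
      have h4 := (Set.ext_iff.mp h1 x).mp h3
      exact ⟨h4.1, h4.2, ((hS _).mp h2).2.2⟩
    · rintro ⟨h2, h3, h4⟩
      have h5 : x ∈ Pat 0 a 32 := (Set.ext_iff.mp h1 x).mpr ⟨h2, h3⟩
      exact ⟨(hS _).mpr ⟨pat_mem_lattice ha h5, h5.2.1, h4⟩, h5⟩
  rw [hset, Set.ncard_coe_finset, Finset.card_filter]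
  refine Finset.sum_congr rfl fun x hx => ?_
  have hx1 := Fintype.mem_piFinset.mp hx
  have hval : ∀ i, (a i = 0 ∧ x i = 0) ∨ (a i ≠ 0 ∧ (x i = 2 ∨ x i = -2)) := by
    intro i
    have h5 := hx1 i
    simp only [tt2] at h5
    by_cases h6 : a i = 0
    · rw [if_pos h6] at h5
      left
      simpa [h6] using h5
    · rw [if_neg h6] at h5
      right
      refine ⟨h6, ?_⟩
      simpa using h5
  set F := L.toFinset with hF
  have hFmem : ∀ i, i ∈ F ↔ a i ≠ 0 := fun i => by rw [hF, List.mem_toFinset, hLa]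
  have hcard : (F.card : ℤ) = 8 := by
    have : F = Finset.univ.filter fun i => a i ≠ 0 := by
      ext i
      simp [hFmem]
    rw [this]
    have h9 : hammingNorm a = (Finset.univ.filter fun i => a i ≠ 0).card := rfl
    rw [← h9, h8]
    rfl
  have hsumL : ∀ {M' : Type} [AddCommMonoid M'] (f : P → M'), (L.map f).sum = ∑ i ∈ F, f i := by
    intro M' _ f
    rw [← List.sum_toFinset _ hnd]
  have hsub : ∀ (g : P → ℤ), (∀ i, a i = 0 → g i = 0) → ∑ i, g i = ∑ i ∈ F, g i := by
    intro g hg
    symm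
    apply Finset.sum_subset (Finset.subset_univ _)
    intro i _ hi
    apply hg
    by_contra h
    exact hi ((hFmem i).mpr h)
  -- the two components
  have hst : (bb false, 0) + (L.map fun j => dlO u M j (x j)).sum =
      (((∑ i ∈ F, (if x i = 2 then 0 else 1 : ℤ) : ℤ) : ZMod 2), ∑ i ∈ F, (if x i = 2 then (M + u i).toNat else (M - u i).toNat)) := by
    rw [hsumL]
    have e0 : (bb false, (0 : ℕ)) = 0 := rfl
    rw [e0, zero_add]
    refine Prod.ext ?_ ?_
    · rw [Prod.fst_sum]
      push_cast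
      refine Finset.sum_congr rfl fun i _ => ?_
      simp only [dlO]
      split_ifs <;> simp
    · rw [Prod.snd_sum]
      refine Finset.sum_congr rfl fun i _ => ?_
      simp only [dlO]
      split_ifs <;> rfl
  rw [hst]
  simp only [FO]
  have hC : ∑ i, x i = 16 - 4 * ∑ i ∈ F, (if x i = 2 then 0 else 1 : ℤ) := by
    rw [hsub x (fun i hi => by
      rcases hval i with ⟨_, h⟩ | ⟨h1, _⟩
      · exact h
      · exact absurd hi h1)]
    have h1 : ∀ i ∈ F, x i = 2 - 4 * (if x i = 2 then 0 else 1 : ℤ) := by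
      intro i hi
      rcases hval i with ⟨h2, _⟩ | ⟨_, h | h⟩
      · exact absurd h2 ((hFmem i).mp hi)
      · rw [h]; norm_num
      · rw [h]; norm_num
    conv_lhs => rw [Finset.sum_congr rfl h1]
    rw [Finset.sum_sub_distrib, ← Finset.mul_sum, Finset.sum_const, nsmul_eq_mul, hcard]
    norm_num
  set R := ∑ i ∈ F, (if x i = 2 then (M + u i).toNat else (M - u i).toNat) with hR
  have hD : (R : ℤ) * 2 = 16 * M + dotInt u x := by
    have h1 : dotInt u x = ∑ i ∈ F, u i * x i := hsub _ (fun i hi => by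
      rcases hval i with ⟨_, h⟩ | ⟨h1, _⟩
      · rw [h, mul_zero]
      · exact absurd hi h1)
    rw [h1, hR, Nat.cast_sum, Finset.sum_mul]
    have h2 : ∀ i ∈ F, (((if x i = 2 then (M + u i).toNat else (M - u i).toNat : ℕ) : ℤ)) * 2 = 2 * M + u i * x i := by
      intro i hi
      have h3 := abs_le.mp (hM i)
      rcases hval i with ⟨h2, _⟩ | ⟨_, h | h⟩
      · exact absurd h2 ((hFmem i).mp hi)
      · rw [h, if_pos rfl, Int.toNat_of_nonneg (by omega)]
        ring
      · rw [h, if_neg (by norm_num), Int.toNat_of_nonneg (by omega)]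
        ring
    rw [Finset.sum_congr rfl h2, Finset.sum_add_distrib, Finset.sum_const, nsmul_eq_mul, hcard]
    ring
  have hcond : (∑ i, x i ≡ 0 [ZMOD 8] ∧ dotInt u x = T) ↔
      (((∑ i ∈ F, (if x i = 2 then 0 else 1 : ℤ) : ℤ) : ZMod 2) = 0 ∧
        2 * R = Tg) := by
    rw [hC, ZMod.intCast_zmod_eq_zero_iff_dvd _ 2]
    refine and_congr ?_ ?_
    · generalize ∑ i ∈ F, (if x i = 2 then 0 else 1 : ℤ) = C
      constructor
      · intro h
        have := Int.modEq_iff_dvd.mp h
        omega
      · intro h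
        apply Int.modEq_iff_dvd.mpr
        omega
    · constructor
      · intro h
        zify
        rw [hT, ← h]
        linarith
      · intro h
        zify at h
        rw [hT] at h
        linarith
  by_cases hc : (∑ i, x i ≡ 0 [ZMOD 8] ∧ dotInt u x = T)
  · rw [if_pos hc, if_pos (hcond.mp hc)]
  · rw [if_neg hc, if_neg (fun h => hc (hcond.mpr h))]

/-! ### The whole count -/

/-- the restriction of a table to an octad -/
def octTb (tb : List (ℕ × ℕ × ℕ)) (m : ℕ) : List (ℕ × ℕ) :=
  (tb.filter fun e => m.testBit e.1).map fun e => (e.2.1, e.2.2)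

theorem octTb_eq (u : P → ℤ) (M : ℤ) (m : ℕ) :
    octTb (tbOf u M allP) m = octData u M (allP.filter fun i => m.testBit (ptIdx i)) := by
  generalize allP = L
  induction L with
  | nil => rfl
  | cons i L ih =>
    simp only [octTb, tbOf, octData, List.map_cons, List.filter_cons] at ih ⊢
    by_cases h : m.testBit (ptIdx i) = true
    · rw [if_pos h, if_pos h, List.map_cons, List.map_cons]
      rw [List.cons.injEq]
      exact ⟨rfl, by simpa [List.filter_map] using ih⟩
    · rw [if_neg h, if_neg h]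
      simpa [List.filter_map] using ih

/-- the contribution of one word -/
def wordCount (tb : List (ℕ × ℕ × ℕ)) (M T1 Tg m : ℕ) : ℕ :=
  oddCount tb M T1 m + (if hw 24 m = 8 then goO Tg (octTb tb m) false 0 else 0)

/-- the loop over all words -/
def loop64 (f : ℕ → ℕ) : ℕ :=
  ((List.range 64).map fun a => ((List.range 64).map fun b => f (spanMask (64 * a + b))).sum).sum

theorem list_sum_range (f : ℕ → ℕ) (n : ℕ) : ((List.range n).map f).sum = ∑ i ∈ Finset.range n, f i := by
  induction n with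
  | zero => rfl
  | succ n ih =>
    rw [List.range_succ, List.map_append, List.sum_append, ih, Finset.sum_range_succ]
    simp

theorem loop64_eq (f : ℕ → ℕ) : loop64 f = ∑ k ∈ Finset.range 4096, f (spanMask k) := by
  simp only [loop64, list_sum_range]
  have key : ∀ n : ℕ, ∑ k ∈ Finset.range (64 * n), f (spanMask k) =
      ∑ a ∈ Finset.range n, ∑ b ∈ Finset.range 64, f (spanMask (64 * a + b)) := by
    intro n
    induction n with
    | zero => simp
    | succ n ih =>
      rw [Nat.mul_succ, Finset.sum_range_add, ih, Finset.sum_range_succ (fun a => ∑ b ∈ Finset.range 64, f (spanMask (64 * a + b)))]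
  exact (key 64).symm

theorem ncard_pat_dots {N : ℕ} (hN : N ≤ 64) {m : ℤ} (hm : m = 0 ∨ m = 1) (k : ℕ) (hk : k < 4096) (u : P → ℤ) (T : ℤ) :
    ({x : P → ℤ | x ∈ leechLattice ∧ sqNorm x = (N : ℤ) ∧ dotInt u x = T} ∩ Pat m (dec (spanMask k)) N).ncard =
      go m N T 0 0 (cdata (spanMask k) u 0 0 allP) (rr m (cdata (spanMask k) u 0 0 allP)) 0 0 0 0 0 := by
  have hc : dec (spanMask k) ∈ golayCode := mem_golayCode_iff.mpr ⟨k, hk, rfl⟩
  rw [← card_eq_go hm, ← Set.ncard_coe_finset]
  congr 1
  ext x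
  simp only [Set.mem_inter_iff, Set.mem_ofPred_eq, Finset.coe_filter, Fintype.mem_piFinset]
  have hsum : (∑ i, x i ≡ 4 * m [ZMOD 8]) ↔ (∑ i, x i - 4 * m) % 8 = 0 := by
    constructor
    · intro h
      have := Int.modEq_iff_dvd.mp h
      omega
    · intro h
      apply Int.modEq_iff_dvd.mpr
      omega
  have h0 : ∀ y : P → ℤ, dotInt (0 : P → ℤ) y = 0 := fun y => by simp [dotInt]
  constructor
  · rintro ⟨⟨h1, h2, h3⟩, h6⟩
    have h7 := (Set.ext_iff.mp (pat_eq hm (dec (spanMask k)) hN) x).mp h6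
    simp only [Finset.coe_filter, Fintype.mem_piFinset, Set.mem_ofPred_eq] at h7
    exact ⟨h7.1, h2, hsum.mp h7.2.2, h3, h0 x, h0 x⟩
  · rintro ⟨h1, h2, h3, h4, _, _⟩
    have h7 : x ∈ Pat m (dec (spanMask k)) N :=
      (Set.ext_iff.mp (pat_eq hm (dec (spanMask k)) hN) x).mpr (by
        simp only [Finset.coe_filter, Fintype.mem_piFinset, Set.mem_ofPred_eq]
        exact ⟨h1, h2, hsum.mpr h3⟩)
    exact ⟨⟨pat_mem_lattice hc h7, h2, h4⟩, h7⟩

/-- the contribution of the zero word -/
def zeroPart (u : P → ℤ) (T : ℤ) : ℕ :=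
  go 0 32 T 0 0 (cdata 0 u 0 0 allP) (rr 0 (cdata 0 u 0 0 allP)) 0 0 0 0 0

/-- The number of minimal vectors with a prescribed inner product. -/
theorem ncard_min {u : P → ℤ} {M : ℕ} (hM : ∀ i, |u i| ≤ (M : ℤ)) {T : ℤ} {T1 Tg : ℕ}
    (hT1 : (T1 : ℤ) = T + 24 * M) (hTg : (Tg : ℤ) = T + 16 * M) :
    {x : P → ℤ | x ∈ leechLattice ∧ sqNorm x = 32 ∧ dotInt u x = T}.ncard =
      zeroPart u T + loop64 (wordCount (tbOf u M allP) M T1 Tg) := by
  have hS : ∀ x, x ∈ {x : P → ℤ | x ∈ leechLattice ∧ sqNorm x = 32 ∧ dotInt u x = T} ↔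
      x ∈ leechLattice ∧ sqNorm x = ((32 : ℕ) : ℤ) ∧ dotInt u x = T := fun x => Iff.rfl
  rw [ncard_sep (N := 32) (by norm_num) (S := {x : P → ℤ | x ∈ leechLattice ∧ sqNorm x = 32 ∧ dotInt u x = T})
    (fun x hx => ⟨hx.1, hx.2.1⟩), loop64_eq]
  have h1 : ∀ k ∈ Finset.range 4096,
      (({x : P → ℤ | x ∈ leechLattice ∧ sqNorm x = 32 ∧ dotInt u x = T} ∩ Pat 0 (dec (spanMask k)) 32).ncard +
      ({x : P → ℤ | x ∈ leechLattice ∧ sqNorm x = 32 ∧ dotInt u x = T} ∩ Pat 1 (dec (spanMask k)) 32).ncard) =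
      (if k = 0 then zeroPart u T else 0) + wordCount (tbOf u M allP) M T1 Tg (spanMask k) := by
    intro k hk
    have hk' := Finset.mem_range.mp hk
    have hc : dec (spanMask k) ∈ golayCode := mem_golayCode_iff.mpr ⟨k, hk', rfl⟩
    have hw' := hammingNorm_dec (spanMask k)
    rw [oddCount_spec hM _ T1 hT1 hc hS]
    simp only [wordCount]
    by_cases h0 : k = 0
    · subst h0
      have e0 : spanMask 0 = 0 := by decide
      have h2 : ({x : P → ℤ | x ∈ leechLattice ∧ sqNorm x = 32 ∧ dotInt u x = T} ∩ Pat 0 (dec (spanMask 0)) 32).ncard = _ :=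
        ncard_pat_dots (N := 32) (by norm_num) (m := 0) (Or.inl rfl) 0 (by norm_num) u T
      rw [h2, e0]
      have e8 : hw 24 0 ≠ 8 := by decide
      rw [if_pos rfl, if_neg e8, add_zero]
      rfl
    · rw [if_neg h0, zero_add]
      by_cases h8 : hw 24 (spanMask k) = 8
      · rw [if_pos h8, octTb_eq, ← pat0_octad_count hM _ Tg hTg hc (by rw [hw', h8]) hS, add_comm]
      · rw [if_neg h8, add_zero]
        have h3 : (Pat 0 (dec (spanMask k)) 32).ncard = 0 := by
          rw [ncard_pat (Or.inl rfl) hc (by norm_num), hw']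
          have hw2 := weight_spanMask hk'
          have hne0 := eight_le_hw hk' h0
          have hh := cnt_32
          simp only [List.cons.injEq, and_true] at hh
          obtain ⟨c0, c1, c2, c3, c4, c5, c6, c7, c8, c9⟩ := hh
          rcases hw2 with hw2 | hw2 | hw2 | hw2 | hw2
          · omega
          · exact absurd hw2 h8
          · rw [hw2]; exact c4
          · rw [hw2]; exact c6
          · rw [hw2]; exact c8
        have h4 : ({x : P → ℤ | x ∈ leechLattice ∧ sqNorm x = 32 ∧ dotInt u x = T} ∩ Pat 0 (dec (spanMask k)) 32) = ∅ := by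
          have := (Set.ncard_eq_zero (pat_finite (Or.inl rfl) _ (by norm_num))).mp h3
          rw [this, Set.inter_empty]
        rw [h4, Set.ncard_empty, zero_add]
  rw [Finset.sum_congr rfl h1, Finset.sum_add_distrib, Finset.sum_ite_eq', if_pos (Finset.mem_range.mpr (by norm_num))]

end Cfsg.Agent.Lib.LeechMinCount
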