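/-
Certificates for orbits of subgroups of the automorphism group of the Leech lattice.
Vectors with small coordinates are coded by natural numbers with four bits per coordinate.
-/
import Mathlib
import Cfsg.Prelude.Def_Sporadic_a
import Cfsg.Agent.Lib.LeechBase
import Cfsg.Agent.Lib.LeechCo
import Cfsg.Agent.Lib.LeechXi
import Cfsg.Agent.Lib.LeechOrb
import Cfsg.Agent.Lib.LeechDFS
import Cfsg.Agent.Lib.LeechCensus
import Cfsg.Agent.Lib.LeechMinCount

set_option autoImplicit false
set_option linter.unusedSectionVars false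
set_option linter.unusedSimpArgs false
set_option linter.unusedVariables false

namespace Cfsg.Agent.Lib.LeechCert

open Cfsg Cfsg.Agent.Lib.GolayCode Cfsg.Agent.Lib.GolayFacts Cfsg.Agent.Lib.GolayPerm
  Cfsg.Agent.Lib.LeechBase Cfsg.Agent.Lib.LeechCo Cfsg.Agent.Lib.LeechXi Cfsg.Agent.Lib.LeechOrb
  Cfsg.Agent.Lib.LeechDFS Cfsg.Agent.Lib.LeechMinCount

/-! ### Decoding -/

/-- the magnitude at a bit position -/
def mg (c k : ℕ) : ℤ :=
  (if c.testBit k then 1 else 0) + (if c.testBit (k + 1) then 2 else 0) + (if c.testBit (k + 2) then 4 else 0)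

/-- the value of a digit -/
def dz (c i : ℕ) : ℤ := if c.testBit (4 * i + 3) then - mg c (4 * i) else mg c (4 * i)

/-- the decoded vector -/
def dv (c : ℕ) : P → ℤ := fun p => dz c (ptIdx p)

/-! ### Permutations -/

/-- the loop -/
def permLoop : List ℕ → ℕ → ℕ → ℕ → ℕ
  | [], _, _, acc => acc
  | p :: π, s, c, acc =>
    permLoop π (s + 4) c (Nat.lor acc (Nat.shiftLeft (Nat.land (Nat.shiftRight c s) 15) (4 * p)))

/-- the image of a code under a list of images -/
def permC (π : List ℕ) (c : ℕ) : ℕ := permLoop π 0 c 0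

theorem testBit_digit (c s p t : ℕ) :
    (Nat.shiftLeft (Nat.land (Nat.shiftRight c s) 15) (4 * p)).testBit t = true ↔
      ∃ b < 4, t = 4 * p + b ∧ c.testBit (s + b) = true := by
  show ((c >>> s &&& 15) <<< (4 * p)).testBit t = true ↔ _
  rw [Nat.testBit_shiftLeft]
  simp only [Bool.and_eq_true, decide_eq_true_eq, Nat.testBit_land, Nat.testBit_shiftRight]
  have h15 : ∀ n, Nat.testBit 15 n = decide (n < 4) := by
    intro n
    have : (15 : ℕ) = 2 ^ 4 - 1 := by norm_num
    rw [this, Nat.testBit_two_pow_sub_one]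
  rw [h15]
  simp only [decide_eq_true_eq]
  constructor
  · rintro ⟨h1, h2, h3⟩
    refine ⟨t - 4 * p, h3, by omega, ?_⟩
    exact h2
  · rintro ⟨b, hb, rfl, h⟩
    have e : 4 * p + b - 4 * p = b := by omega
    refine ⟨by omega, ?_, ?_⟩
    · rw [e]; exact h
    · rw [e]; exact hb

theorem testBit_permLoop (π : List ℕ) (s c acc t : ℕ) :
    (permLoop π s c acc).testBit t = true ↔
      acc.testBit t = true ∨ ∃ i < π.length, ∃ b < 4, t = 4 * img π i + b ∧ c.testBit (s + 4 * i + b) = true := by
  induction π generalizing s acc with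
  | nil => simp [permLoop]
  | cons p π ih =>
    rw [permLoop, ih]
    have hor : (Nat.lor acc (Nat.shiftLeft (Nat.land (Nat.shiftRight c s) 15) (4 * p))).testBit t = true ↔
        acc.testBit t = true ∨ (Nat.shiftLeft (Nat.land (Nat.shiftRight c s) 15) (4 * p)).testBit t = true := by
      show (acc ||| _).testBit t = true ↔ _
      rw [Nat.testBit_or, Bool.or_eq_true]
    rw [hor, testBit_digit]
    constructor
    · rintro ((h | ⟨b, hb, h1, h2⟩) | ⟨i, hi, b, hb, h1, h2⟩)
      · exact Or.inl h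
      · right
        refine ⟨0, by simp, b, hb, ?_, ?_⟩
        · simpa [img] using h1
        · simpa using h2
      · right
        refine ⟨i + 1, by simpa using hi, b, hb, ?_, ?_⟩
        · simpa [img] using h1
        · rw [show s + 4 * (i + 1) + b = s + 4 + 4 * i + b by ring]
          exact h2
    · rintro (h | ⟨i, hi, b, hb, h1, h2⟩)
      · exact Or.inl (Or.inl h)
      · cases i with
        | zero =>
          left; right
          refine ⟨b, hb, ?_, ?_⟩
          · simpa [img] using h1
          · simpa using h2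
        | succ i =>
          right
          refine ⟨i, by simpa using hi, b, hb, ?_, ?_⟩
          · simpa [img] using h1
          · rw [show s + 4 + 4 * i + b = s + 4 * (i + 1) + b by ring]
            exact h2

theorem testBit_permC {π : List ℕ} (h : validPerm π = true) (hr : inRange π = true) (c : ℕ) (p : P) {b : ℕ}
    (hb : b < 4) : (permC π c).testBit (4 * ptIdx (toPerm π p) + b) = c.testBit (4 * ptIdx p + b) := by
  rw [Bool.eq_iff_iff, permC, testBit_permLoop]
  constructor
  · rintro (h1 | ⟨i, hi, b', hb', h1, h2⟩)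
    · simp at h1
    · rw [length_of_valid h] at hi
      have h3 : ptIdx (toPerm π (idxPt i)) = img π i := ptIdx_toPerm h hr _ |>.trans (by rw [ptIdx_idxPt hi])
      rw [← h3] at h1
      have h4 : ptIdx (toPerm π p) = ptIdx (toPerm π (idxPt i)) := by omega
      have h5 : b = b' := by omega
      have h6 := (toPerm π).injective (ptIdx_injective h4)
      subst h6
      subst h5
      rw [ptIdx_idxPt hi]
      simpa using h2
  · intro h1
    right
    refine ⟨ptIdx p, by rw [length_of_valid h]; exact ptIdx_lt p, b, hb, ?_, by simpa using h1⟩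
    rw [ptIdx_toPerm h hr]

theorem dv_permC {π : List ℕ} (h : validPerm π = true) (hr : inRange π = true) (c : ℕ) :
    dv (permC π c) = prm (toPerm π) (dv c) := by
  funext i
  obtain ⟨p, rfl⟩ := (toPerm π).surjective i
  have e : (toPerm π)⁻¹ (toPerm π p) = p := by simp
  simp only [dv, dz, prm, e]
  have h0 := testBit_permC h hr c p (b := 0) (by norm_num)
  have h1 := testBit_permC h hr c p (b := 1) (by norm_num)
  have h2 := testBit_permC h hr c p (b := 2) (by norm_num)
  have h3 := testBit_permC h hr c p (b := 3) (by norm_num)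
  have hmg : mg (permC π c) (4 * ptIdx (toPerm π p)) = mg c (4 * ptIdx p) := by
    simp only [add_zero] at h0
    simp only [mg]
    rw [h0, h1, h2]
  rw [h3, hmg]

/-! ### Signs -/

/-- the check for the sign mask -/
def spreadOK (S mask : ℕ) : Bool :=
  (List.range 24).all fun i =>
    (S.testBit (4 * i + 3) == mask.testBit i) && !S.testBit (4 * i) && !S.testBit (4 * i + 1) && !S.testBit (4 * i + 2)

theorem dv_xor {S mask : ℕ} (h : spreadOK S mask = true) (c : ℕ) :
    dv (Nat.xor c S) = sgn (dec mask) (dv c) := by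
  funext p
  have h1 := List.all_eq_true.mp h (ptIdx p) (List.mem_range.mpr (ptIdx_lt p))
  simp only [Bool.and_eq_true, beq_iff_eq, Bool.not_eq_true'] at h1
  obtain ⟨⟨⟨h3, h0⟩, h1⟩, h2⟩ := h1
  have e : ∀ t, (Nat.xor c S).testBit t = (c.testBit t ^^ S.testBit t) := fun t => Nat.testBit_xor c S t
  have hmg : mg (Nat.xor c S) (4 * ptIdx p) = mg c (4 * ptIdx p) := by
    simp only [mg, e, h0, h1, h2, Bool.xor_false]
  simp only [dv, dz, sgn]
  rw [hmg, e, h3]
  by_cases hm : mask.testBit (ptIdx p) = true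
  · have hd : dec mask p = 1 := by
      simp only [dec]
      rw [if_pos hm]
    have h10 : ¬ ((1 : ZMod 2) = 0) := by decide
    rw [hm, hd, if_neg h10]
    cases hc : c.testBit (4 * ptIdx p + 3) <;> simp
  · have hd : dec mask p = 0 := by
      simp only [dec]
      rw [if_neg hm]
    simp only [Bool.not_eq_true] at hm
    rw [hm, hd, if_pos rfl]
    cases hc : c.testBit (4 * ptIdx p + 3) <;> simp

/-- a monomial map on codes -/
def monoC (π : List ℕ) (S c : ℕ) : ℕ := Nat.xor (permC π c) S

/-! ### Realized maps -/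

/-- the map is given by an automorphism -/
def Realized (f : (P → ℤ) → (P → ℤ)) : Prop :=
  ∃ c : Co0, ∀ v : leechLattice, ((c • v : leechLattice) : P → ℤ) = f v

theorem Realized.comp {f h : (P → ℤ) → (P → ℤ)} (hh : Realized h) (hf : Realized f) : Realized (h ∘ f) := by
  obtain ⟨c, hc⟩ := hh
  obtain ⟨d, hd⟩ := hf
  refine ⟨c * d, fun v => ?_⟩
  rw [mul_smul, hc, hd]
  rfl

/-- the property of an operation on codes -/
def AtomOK (g : ℕ → ℕ) : Prop :=
  ∃ f, Realized f ∧ ∀ n, g n ≠ 0 → dv (g n) = f (dv n)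

theorem atomOK_zero : AtomOK (fun _ => 0) :=
  ⟨id, ⟨1, fun v => rfl⟩, fun n h => absurd rfl h⟩

theorem atomOK_mono {π : List ℕ} {S mask : ℕ} (h1 : isAut π = true) (h2 : isCode mask = true)
    (h3 : spreadOK S mask = true) : AtomOK (monoC π S) := by
  refine ⟨fun x => sgn (dec mask) (prm (toPerm π) x), exists_mono (dec_mem_of_isCode h2) (toPerm_mem_M24 h1), fun n _ => ?_⟩
  rw [monoC, dv_xor h3, dv_permC (isAut_valid h1) (isAut_inRange h1)]

/-! ### Words -/

/-- the evaluation of a word -/
def wordC (atoms : List (ℕ → ℕ)) : List ℕ → ℕ → ℕ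
  | [], c => c
  | a :: w, c => Nat.casesOn ((atoms.getD a fun _ => 0) c) 0 (fun m => wordC atoms w (Nat.succ m))

theorem atom_getD {atoms : List (ℕ → ℕ)} (h : ∀ a ∈ atoms, AtomOK a) (k : ℕ) :
    AtomOK (atoms.getD k fun _ => 0) := by
  rw [List.getD_eq_getElem?_getD]
  by_cases hk : k < atoms.length
  · rw [List.getElem?_eq_getElem hk]
    exact h _ (List.getElem_mem hk)
  · rw [List.getElem?_eq_none (by omega)]
    exact atomOK_zero

theorem atomOK_word {atoms : List (ℕ → ℕ)} (h : ∀ a ∈ atoms, AtomOK a) (w : List ℕ) : AtomOK (wordC atoms w) := by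
  induction w with
  | nil => exact ⟨id, ⟨1, fun v => rfl⟩, fun n _ => rfl⟩
  | cons a w ih =>
    obtain ⟨f, hf, hfd⟩ := atom_getD h a
    obtain ⟨f', hf', hfd'⟩ := ih
    refine ⟨f' ∘ f, hf'.comp hf, fun n hn => ?_⟩
    simp only [wordC] at hn ⊢
    generalize hv : (atoms.getD a fun _ => 0) n = v at hn ⊢
    cases v with
    | zero => exact absurd rfl hn
    | succ m =>
      simp only at hn ⊢
      rw [hfd' _ hn, Function.comp_apply, ← hfd n (by rw [hv]; omega), hv]

/-! ### Normal forms -/

/-- all the magnitude bits -/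
def magMask : ℕ := 0x777777777777777777777777
/-- all the lowest bits -/
def oneMask' : ℕ := 0x111111111111111111111111

/-- the normal form of a code: the sign bits of zero digits are cleared, and the higher digits -/
def normC (c : ℕ) : ℕ :=
  Nat.lor (Nat.land c magMask)
    (Nat.land c (Nat.shiftLeft (Nat.land (Nat.lor c (Nat.lor (Nat.shiftRight c 1) (Nat.shiftRight c 2))) oneMask') 3))

theorem magMask_bit {t : ℕ} : magMask.testBit t = decide (t < 96 ∧ t % 4 ≠ 3) := by
  by_cases h : t < 96
  · revert t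
    decide +kernel
  · rw [Nat.testBit_lt_two_pow]
    · simp [h]
    · exact lt_of_lt_of_le (by decide +kernel) (Nat.pow_le_pow_right (by norm_num) (not_lt.mp h))

theorem oneMask_bit {t : ℕ} : oneMask'.testBit t = decide (t < 96 ∧ t % 4 = 0) := by
  by_cases h : t < 96
  · revert t
    decide +kernel
  · rw [Nat.testBit_lt_two_pow]
    · simp [h]
    · exact lt_of_lt_of_le (by decide +kernel) (Nat.pow_le_pow_right (by norm_num) (not_lt.mp h))

theorem normC_bit (c t : ℕ) :
    (normC c).testBit t =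
      (decide (t < 96 ∧ t % 4 ≠ 3) && c.testBit t ||
        (decide (t < 96 ∧ t % 4 = 3) && c.testBit t &&
          (c.testBit (t - 3) || c.testBit (t - 2) || c.testBit (t - 1)))) := by
  have e1 : ∀ a b : ℕ, (Nat.lor a b).testBit t = (a.testBit t || b.testBit t) := fun a b => Nat.testBit_or a b t
  have e2 : ∀ a b s : ℕ, (Nat.land a b).testBit s = (a.testBit s && b.testBit s) := fun a b s => Nat.testBit_land a b s
  rw [normC, e1, e2, e2, magMask_bit]
  have e3 : (Nat.shiftLeft (Nat.land (Nat.lor c (Nat.lor (Nat.shiftRight c 1) (Nat.shiftRight c 2))) oneMask') 3).testBit t =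
      (decide (3 ≤ t) && (Nat.lor c (Nat.lor (Nat.shiftRight c 1) (Nat.shiftRight c 2))).testBit (t - 3) &&
        oneMask'.testBit (t - 3)) := by
    show ((Nat.land _ _) <<< 3).testBit t = _
    rw [Nat.testBit_shiftLeft, e2, Bool.and_assoc]
  rw [e3, oneMask_bit]
  have e4 : ∀ s, (Nat.lor c (Nat.lor (Nat.shiftRight c 1) (Nat.shiftRight c 2))).testBit s =
      (c.testBit s || c.testBit (s + 1) || c.testBit (s + 2)) := by
    intro s
    show (c ||| (c >>> 1 ||| c >>> 2)).testBit s = _
    rw [Nat.testBit_or, Nat.testBit_or, Nat.testBit_shiftRight, Nat.testBit_shiftRight, Bool.or_assoc,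
      add_comm 1, add_comm 2]
  rw [e4]
  by_cases h1 : t < 96 ∧ t % 4 = 3
  · have h2 : 3 ≤ t := by omega
    have h3 : t - 3 < 96 ∧ (t - 3) % 4 = 0 := by omega
    have h4 : ¬ (t < 96 ∧ t % 4 ≠ 3) := by omega
    have e5 : t - 3 + 1 = t - 2 := by omega
    have e6 : t - 3 + 2 = t - 1 := by omega
    simp [h1, h2, h3, h4, e5, e6]
  · have h6 : (decide (3 ≤ t) && (c.testBit (t - 3) || c.testBit (t - 3 + 1) || c.testBit (t - 3 + 2)) &&
        decide (t - 3 < 96 ∧ (t - 3) % 4 = 0)) = false := by
      by_cases h7 : 3 ≤ t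
      · have h8 : ¬ (t - 3 < 96 ∧ (t - 3) % 4 = 0) := by omega
        simp only [h8, decide_false, Bool.and_false]
      · simp only [h7, decide_false, Bool.false_and]
    rw [show (c.testBit t && (decide (3 ≤ t) && (c.testBit (t - 3) || c.testBit (t - 3 + 1) || c.testBit (t - 3 + 2)) &&
        decide (t - 3 < 96 ∧ (t - 3) % 4 = 0))) = false by rw [h6]; simp]
    simp [h1, Bool.and_comm]

theorem dv_eq_bits {c d : ℕ} (h : dv c = dv d) {i : ℕ} (hi : i < 24) :
    c.testBit (4 * i) = d.testBit (4 * i) ∧ c.testBit (4 * i + 1) = d.testBit (4 * i + 1) ∧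
      c.testBit (4 * i + 2) = d.testBit (4 * i + 2) ∧
      (c.testBit (4 * i + 3) && (c.testBit (4 * i) || c.testBit (4 * i + 1) || c.testBit (4 * i + 2))) =
      (d.testBit (4 * i + 3) && (d.testBit (4 * i) || d.testBit (4 * i + 1) || d.testBit (4 * i + 2))) := by
  have h1 := congrFun h (idxPt i)
  simp only [dv, dz, mg, ptIdx_idxPt hi] at h1
  revert h1
  generalize c.testBit (4 * i) = a0
  generalize c.testBit (4 * i + 1) = a1
  generalize c.testBit (4 * i + 2) = a2
  generalize c.testBit (4 * i + 3) = a3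
  generalize d.testBit (4 * i) = b0
  generalize d.testBit (4 * i + 1) = b1
  generalize d.testBit (4 * i + 2) = b2
  generalize d.testBit (4 * i + 3) = b3
  revert a0 a1 a2 a3 b0 b1 b2 b3
  decide

theorem normC_eq_of_dv {c d : ℕ} (h : dv c = dv d) : normC c = normC d := by
  apply Nat.eq_of_testBit_eq
  intro t
  rw [normC_bit, normC_bit]
  by_cases ht : t < 96
  · obtain ⟨h0, h1, h2, h3⟩ := dv_eq_bits h (i := t / 4) (by omega)
    have hcases : t = 4 * (t / 4) ∨ t = 4 * (t / 4) + 1 ∨ t = 4 * (t / 4) + 2 ∨ t = 4 * (t / 4) + 3 := by omega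
    rcases hcases with e | e | e | e
    · rw [← e] at h0
      have : ¬ (t % 4 = 3) := by omega
      simp [ht, this, h0]
    · rw [← e] at h1
      have : ¬ (t % 4 = 3) := by omega
      simp [ht, this, h1]
    · rw [← e] at h2
      have : ¬ (t % 4 = 3) := by omega
      simp [ht, this, h2]
    · have e3 : t % 4 = 3 := by omega
      have e4 : t - 3 = 4 * (t / 4) := by omega
      have e5 : t - 2 = 4 * (t / 4) + 1 := by omega
      have e6 : t - 1 = 4 * (t / 4) + 2 := by omega
      rw [← e] at h3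
      simp only [e3, e4, e5, e6]
      simpa [ht] using h3
  · simp [ht]

theorem dv_normC (c : ℕ) : dv (normC c) = dv c := by
  funext p
  have hp := ptIdx_lt p
  simp only [dv, dz, mg]
  set i := ptIdx p
  have b0 := normC_bit c (4 * i)
  have b1 := normC_bit c (4 * i + 1)
  have b2 := normC_bit c (4 * i + 2)
  have b3 := normC_bit c (4 * i + 3)
  have c0 : 4 * i < 96 ∧ (4 * i) % 4 ≠ 3 := by omega
  have c1 : 4 * i + 1 < 96 ∧ (4 * i + 1) % 4 ≠ 3 := by omega
  have c2 : 4 * i + 2 < 96 ∧ (4 * i + 2) % 4 ≠ 3 := by omega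
  have c3 : ¬ (4 * i + 3 < 96 ∧ (4 * i + 3) % 4 ≠ 3) := by omega
  have c4 : ¬ (4 * i < 96 ∧ (4 * i) % 4 = 3) := by omega
  have c5 : ¬ (4 * i + 1 < 96 ∧ (4 * i + 1) % 4 = 3) := by omega
  have c6 : ¬ (4 * i + 2 < 96 ∧ (4 * i + 2) % 4 = 3) := by omega
  have c7 : 4 * i + 3 < 96 ∧ (4 * i + 3) % 4 = 3 := by omega
  have e1 : 4 * i + 3 - 3 = 4 * i := by omega
  have e2 : 4 * i + 3 - 2 = 4 * i + 1 := by omega
  have e3 : 4 * i + 3 - 1 = 4 * i + 2 := by omega
  simp only [c0, c1, c2, c3, c4, c5, c6, c7, e1, e2, e3, decide_true, decide_false, Bool.true_and, Bool.false_and, Bool.or_false, Bool.false_or, ne_eq] at b0 b1 b2 b3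
  rw [b0, b1, b2, b3]
  cases c.testBit (4 * i) <;> cases c.testBit (4 * i + 1) <;> cases c.testBit (4 * i + 2) <;>
    cases c.testBit (4 * i + 3) <;> simp

theorem normC_idem (c : ℕ) : normC (normC c) = normC c := normC_eq_of_dv (dv_normC c)

theorem normC_zero : normC 0 = 0 := by decide +kernel

/-! ### Encoding -/

/-- the digit of an integer -/
def enc1 (z : ℤ) : ℕ := z.natAbs + (if z < 0 then 8 else 0)

/-- the value of a digit -/
def bitsVal (n : ℕ) : ℤ :=
  if n.testBit 3 then
    -((if n.testBit 0 then 1 else 0) + (if n.testBit 1 then 2 else 0) + (if n.testBit 2 then 4 else 0))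
  else ((if n.testBit 0 then 1 else 0) + (if n.testBit 1 then 2 else 0) + (if n.testBit 2 then 4 else 0))

theorem bitsVal_enc1 {z : ℤ} (h1 : -7 ≤ z) (h2 : z ≤ 7) : bitsVal (enc1 z) = z := by
  interval_cases z <;> decide

/-- encoding, with `0` in case of overflow -/
def encLoop (f : ℕ → ℤ) : List ℕ → ℕ → ℕ
  | [], acc => acc
  | i :: l, acc =>
    if -7 ≤ f i ∧ f i ≤ 7 then encLoop f l (Nat.lor acc (Nat.shiftLeft (enc1 (f i)) (4 * i))) else 0

/-- encoding -/
def encF (f : ℕ → ℤ) : ℕ := encLoop f [0,1,2,3,4,5,6,7,8,9,10,11,12,13,14,15,16,17,18,19,20,21,22,23] 0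

theorem encLoop_spec (f : ℕ → ℤ) (l : List ℕ) (acc : ℕ) (h : encLoop f l acc ≠ 0) :
    (∀ i ∈ l, -7 ≤ f i ∧ f i ≤ 7) ∧ ∀ t, (encLoop f l acc).testBit t = true ↔
      acc.testBit t = true ∨ ∃ i ∈ l, 4 * i ≤ t ∧ (enc1 (f i)).testBit (t - 4 * i) = true := by
  induction l generalizing acc with
  | nil => simp [encLoop]
  | cons i l ih =>
    simp only [encLoop] at h ⊢
    by_cases hi : -7 ≤ f i ∧ f i ≤ 7
    · rw [if_pos hi] at h ⊢
      obtain ⟨h1, h2⟩ := ih _ h
      refine ⟨?_, fun t => ?_⟩
      · intro j hj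
        rcases List.mem_cons.mp hj with rfl | hj
        · exact hi
        · exact h1 j hj
      · rw [h2]
        have e : (Nat.lor acc (Nat.shiftLeft (enc1 (f i)) (4 * i))).testBit t =
            (acc.testBit t || (decide (4 * i ≤ t) && (enc1 (f i)).testBit (t - 4 * i))) := by
          show (acc ||| (enc1 (f i)) <<< (4 * i)).testBit t = _
          rw [Nat.testBit_or, Nat.testBit_shiftLeft]
        rw [e]
        simp only [Bool.or_eq_true, Bool.and_eq_true, decide_eq_true_eq, List.mem_cons, exists_eq_or_imp]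
        tauto
    · rw [if_neg hi] at h
      exact absurd rfl h

theorem enc1_lt {z : ℤ} (h1 : -7 ≤ z) (h2 : z ≤ 7) : enc1 z < 16 := by
  interval_cases z <;> decide

theorem dz_encF {f : ℕ → ℤ} (h : encF f ≠ 0) {i : ℕ} (hi : i < 24) : dz (encF f) i = f i := by
  obtain ⟨h1, h2⟩ := encLoop_spec f _ 0 h
  have hmem : ∀ j, j ∈ [0,1,2,3,4,5,6,7,8,9,10,11,12,13,14,15,16,17,18,19,20,21,22,23] ↔ j < 24 := by
    intro j
    constructor
    · intro hj
      simp only [List.mem_cons, List.not_mem_nil, or_false] at hj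
      omega
    · intro hj
      interval_cases j <;> simp
  have hb := h1 i ((hmem i).mpr hi)
  have key : ∀ b < 4, (encF f).testBit (4 * i + b) = (enc1 (f i)).testBit b := by
    intro b hb'
    rw [Bool.eq_iff_iff]
    refine (h2 _).trans ?_
    constructor
    · rintro (h3 | ⟨j, hj, h3, h4⟩)
      · simp at h3
      · have hj' := (hmem j).mp hj
        have hbj := h1 j hj
        by_cases hij : j = i
        · subst hij
          simpa using h4
        · exfalso
          have h5 : 4 * i + b - 4 * j ≥ 4 := by omega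
          have h6 : (enc1 (f j)) < 2 ^ (4 * i + b - 4 * j) :=
            lt_of_lt_of_le (enc1_lt hbj.1 hbj.2) (by
              calc 16 = 2 ^ 4 := by norm_num
                _ ≤ _ := Nat.pow_le_pow_right (by norm_num) h5)
          rw [Nat.testBit_lt_two_pow h6] at h4
          exact absurd h4 (by simp)
    · intro h3
      right
      refine ⟨i, (hmem i).mpr hi, by omega, ?_⟩
      simpa using h3
  have e : dz (encF f) i = bitsVal (enc1 (f i)) := by
    simp only [dz, mg, bitsVal]
    have k0 := key 0 (by norm_num)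
    have k1 := key 1 (by norm_num)
    have k2 := key 2 (by norm_num)
    have k3 := key 3 (by norm_num)
    simp only [add_zero] at k0
    rw [k0, k1, k2, k3]
  rw [e, bitsVal_enc1 hb.1 hb.2]

/-! ### The maps of Conway -/

/-- the tetrads -/
def tetL : List (List ℕ) := [[0,1,2,3],[13,18,20,21],[4,7,10,12],[6,9,11,22],[8,15,16,19],[5,14,17,23]]

/-- the sum over a tetrad -/
def tsZ (c t : ℕ) : ℤ := ((tetL.getD t []).map (dz c)).sum

theorem filter_tau : ∀ t < 6, (Finset.univ.filter fun j : P => tau j = t) = ((tetL.getD t []).map idxPt).toFinset := by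
  decide

theorem nodup_tet : ∀ t < 6, ((tetL.getD t []).map idxPt).Nodup := by decide

theorem lt_tet : ∀ t < 6, ∀ i ∈ tetL.getD t [], i < 24 := by decide

theorem ts_dv (c : ℕ) {t : ℕ} (ht : t < 6) : ts (dv c) t = tsZ c t := by
  simp only [ts, tsZ]
  rw [← Finset.sum_filter, filter_tau t ht, List.sum_toFinset _ (nodup_tet t ht), List.map_map]
  refine congrArg List.sum (List.map_congr_left fun i hi => ?_)
  simp only [Function.comp_apply, dv, ptIdx_idxPt (lt_tet t ht i hi)]

/-- the tetrad of an index -/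
def tauI (i : ℕ) : ℕ := tauL.getD i 0

theorem tauI_lt {i : ℕ} (hi : i < 24) : tauI i < 6 := by
  revert i
  decide

/-- the values of the first map -/
def xiVal (c i : ℕ) : ℤ :=
  (if tauI i = 0 then - dz c i else dz c i) - (if tauI i = 0 then - tsZ c (tauI i) else tsZ c (tauI i)) / 2

/-- the first map on codes -/
def xiC (c : ℕ) : ℕ := encF (xiVal c)

/-- the values of the second map -/
def xiVal' (c i : ℕ) : ℤ :=
  if tauI i = 0 then - (dz c i - tsZ c (tauI i) / 2) else dz c i - tsZ c (tauI i) / 2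

/-- the second map on codes -/
def xiC' (c : ℕ) : ℕ := encF (xiVal' c)

theorem realized_xiF : Realized xiF := exists_xi

theorem realized_xiG : Realized xiG := by
  apply exists_co0 xiG xiF xiG_mem xiF_mem
  · intro x hx
    simp only [xiF, xiG]
    rw [eta_eta (even_eps (even_of_mem hx)), eps_eps]
  · intro x hx
    simp only [xiF, xiG, eps_eps]
    exact eta_eta (even_of_mem hx)
  · exact xiG_add
  · intro x hx
    simp only [xiG]
    rw [sqNorm_eps, sqNorm_eta (even_of_mem hx)]

theorem atomOK_xi : AtomOK xiC := by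
  refine ⟨xiF, realized_xiF, fun n hn => ?_⟩
  funext p
  have hp := ptIdx_lt p
  show dz (encF (xiVal n)) (ptIdx p) = _
  rw [dz_encF hn hp]
  have ht : tau p < 6 := tau_lt p
  have e1 : tauI (ptIdx p) = tau p := rfl
  simp only [xiVal, xiF, eta, e1, ts_eps, ts_dv n ht, eps]
  rfl

theorem atomOK_xi' : AtomOK xiC' := by
  refine ⟨xiG, realized_xiG, fun n hn => ?_⟩
  funext p
  have hp := ptIdx_lt p
  show dz (encF (xiVal' n)) (ptIdx p) = _
  rw [dz_encF hn hp]
  have ht : tau p < 6 := tau_lt p
  have e1 : tauI (ptIdx p) = tau p := rfl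
  simp only [xiVal', xiG, eta, e1, ts_dv n ht, eps]
  rfl

/-! ### The machine -/

/-- the step of the machine: state is (certificate, current, stack, output) -/
def stepR (G : ℕ → ℕ → ℕ) (s : ℕ × ℕ × List ℕ × List ℕ) : ℕ × ℕ × List ℕ × List ℕ :=
  match s with
  | (w, c, st, out) =>
    Nat.casesOn (Nat.mod w 32)
      (List.casesOn st (0, c, [], out) (fun p st' => (Nat.div w 32, p, st', out)))
      (fun d => Nat.casesOn (normC (G d c)) (0, c, [], out)
        (fun m => (Nat.div w 32, Nat.succ m, c :: st, Nat.succ m :: out)))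

/-- iterate with evaluation of the state -/
def iterF {σ τ : Type} (f : σ × τ → σ × τ) : ℕ → σ × τ → σ × τ
  | 0, s => s
  | n + 1, s => match f s with
    | (a, b) => iterF f n (a, b)

theorem iterF_inv {σ τ : Type} {f : σ × τ → σ × τ} {I : σ × τ → Prop} (h : ∀ s, I s → I (f s)) (n : ℕ) (s : σ × τ)
    (hs : I s) : I (iterF f n s) := by
  induction n generalizing s with
  | zero => exact hs
  | succ n ih =>
    simp only [iterF]
    have := h s hs
    exact ih _ this

/-- a long iteration -/
def iter3 {σ τ : Type} (f : σ × τ → σ × τ) (n : ℕ) (s : σ × τ) : σ × τ :=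
  iterF (iterF (iterF f 64) 64) n s

theorem iter3_inv {σ τ : Type} {f : σ × τ → σ × τ} {I : σ × τ → Prop} (h : ∀ s, I s → I (f s)) (n : ℕ) (s : σ × τ)
    (hs : I s) : I (iter3 f n s) :=
  iterF_inv (iterF_inv (iterF_inv h 64) 64) n s hs

/-- run the machine -/
def runM (G : ℕ → ℕ → ℕ) (n w r : ℕ) : List ℕ :=
  (iter3 (stepR G) n (w, r, [], [r])).2.2.2

/-- a property preserved by the machine -/
theorem runM_inv {G : ℕ → ℕ → ℕ} {Q : ℕ → Prop} (hG : ∀ k c, Q c → normC (G k c) ≠ 0 → Q (normC (G k c)))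
    (n w r : ℕ) (hr : Q r) : ∀ x ∈ runM G n w r, Q x := by
  have key := iter3_inv (f := stepR G)
    (I := fun s => Q s.2.1 ∧ (∀ x ∈ s.2.2.1, Q x) ∧ (∀ x ∈ s.2.2.2, Q x)) ?_ n (w, r, [], [r]) ?_
  · exact key.2.2
  · rintro ⟨w, c, st, out⟩ ⟨h1, h2, h3⟩
    simp only at h1 h2 h3
    simp only [stepR]
    cases Nat.mod w 32 with
    | zero =>
      cases st with
      | nil => exact ⟨h1, by simp, h3⟩
      | cons p st' =>
        exact ⟨h2 p (by simp), fun x hx => h2 x (List.mem_cons_of_mem p hx), h3⟩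
    | succ d =>
      simp only
      generalize hv : normC (G d c) = v
      cases v with
      | zero => exact ⟨h1, by simp, h3⟩
      | succ m =>
        have h4 := hG d c h1 (by rw [hv]; omega)
        rw [hv] at h4
        refine ⟨h4, ?_, ?_⟩
        · intro x hx
          rcases List.mem_cons.mp hx with rfl | hx
          · exact h1
          · exact h2 x hx
        · intro x hx
          rcases List.mem_cons.mp hx with rfl | hx
          · exact h4
          · exact h3 x hx
  · simp [hr]

/-! ### Sorting -/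

/-- merging, given the merge with the tail -/
def mergeIns (x : ℕ) (xs : List ℕ) (m : List ℕ → List ℕ) : List ℕ → List ℕ
  | [] => x :: xs
  | y :: ys => bif Nat.blt x y then x :: m (y :: ys) else y :: mergeIns x xs m ys

/-- merging -/
def mergeL : List ℕ → List ℕ → List ℕ
  | [], ys => ys
  | x :: xs, ys => mergeIns x xs (mergeL xs) ys

theorem mergeL_perm (xs ys : List ℕ) : (mergeL xs ys).Perm (xs ++ ys) := by
  induction xs generalizing ys with
  | nil => exact List.Perm.refl _
  | cons x xs ih =>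
    induction ys with
    | nil => simp [mergeL, mergeIns]
    | cons y ys ih2 =>
      simp only [mergeL] at ih2 ⊢
      simp only [mergeIns]
      cases Nat.blt x y with
      | true =>
        simp only [cond_true, List.cons_append]
        exact (ih _).cons x
      | false =>
        simp only [cond_false]
        refine (ih2.cons y).trans ?_
        simp only [List.cons_append]
        exact (List.Perm.swap x y _).trans ((List.perm_middle.symm).cons x)

/-- merge in pairs -/
def pairUp : List (List ℕ) → List (List ℕ)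
  | a :: b :: r => mergeL a b :: pairUp r
  | l => l

theorem pairUp_perm (l : List (List ℕ)) : (pairUp l).flatten.Perm l.flatten := by
  match l with
  | [] => exact List.Perm.refl _
  | [a] => exact List.Perm.refl _
  | a :: b :: r =>
    simp only [pairUp, List.flatten_cons]
    have h1 := pairUp_perm r
    rw [← List.append_assoc]
    exact (mergeL_perm a b).append h1

/-- merge sort -/
def msortLoop : ℕ → List (List ℕ) → List (List ℕ)
  | 0, l => l
  | n + 1, l => msortLoop n (pairUp l)

theorem msortLoop_perm (n : ℕ) (l : List (List ℕ)) : (msortLoop n l).flatten.Perm l.flatten := by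
  induction n generalizing l with
  | zero => exact List.Perm.refl _
  | succ n ih => exact (ih _).trans (pairUp_perm l)

/-- wrap -/
def wrap : List ℕ → List (List ℕ)
  | [] => []
  | a :: l => [a] :: wrap l

theorem wrap_flatten (l : List ℕ) : (wrap l).flatten = l := by
  induction l with
  | nil => rfl
  | cons a l ih => simp [wrap, ih]

/-- the step of the check of sortedness; the state is (previous, count, list, remaining runs) -/
def stepS (s : ℕ × ℕ × List ℕ) : ℕ × ℕ × List ℕ :=
  match s with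
  | (p, n, l) =>
    List.casesOn l (p, n, [])
      (fun a t => bif Nat.blt p a then (a, Nat.succ n, t) else (0, 0, []))

/-- the property of the check -/
def SortedFrom (p : ℕ) (l : List ℕ) : Prop := (p :: l).Pairwise (· < ·)

/-- count and check: the result is `(_, count, [])` with a positive count only for strictly increasing lists -/
def sortedCount (n : ℕ) (l : List ℕ) : ℕ × ℕ × List ℕ := iter3 stepS n (0, 0, l)

/-- the invariant -/
def InvS (l₀ : List ℕ) (s : ℕ × ℕ × List ℕ) : Prop :=
  s.2.1 = 0 ∧ s.2.2 = [] ∨ (SortedFrom s.1 s.2.2 → SortedFrom 0 l₀) ∧ s.2.1 + s.2.2.length = l₀.length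

theorem sortedCount_spec {n : ℕ} {l : List ℕ} {N : ℕ} (hN : 0 < N)
    (h : sortedCount n l = ((sortedCount n l).1, N, [])) : SortedFrom 0 l ∧ l.length = N := by
  have key : InvS l (sortedCount n l) := by
    apply iter3_inv
    · rintro ⟨p, m, t⟩ hs
      simp only [stepS]
      cases t with
      | nil => exact hs
      | cons a t =>
        simp only
        rcases hs with ⟨_, h2⟩ | ⟨h1, h2⟩
        · simp at h2
        · simp only at h1 h2
          cases hb : Nat.blt p a with
          | false => exact Or.inl ⟨rfl, rfl⟩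
          | true =>
            right
            have hlt : p < a := by
              have := Nat.blt_eq.mp hb
              exact this
            simp only [cond_true]
            refine ⟨fun h3 => h1 ?_, ?_⟩
            · simp only [SortedFrom] at h3 ⊢
              rw [List.pairwise_cons] at h3 ⊢
              refine ⟨?_, List.pairwise_cons.mpr h3⟩
              intro x hx
              rcases List.mem_cons.mp hx with rfl | hx
              · exact hlt
              · exact lt_trans hlt (h3.1 x hx)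
            · simp only [List.length_cons] at h2 ⊢
              omega
    · right
      refine ⟨id, by simp⟩
  rw [h] at key
  rcases key with ⟨h1, _⟩ | ⟨h1, h2⟩
  · simp only at h1
    omega
  · refine ⟨h1 (by simp [SortedFrom]), by simpa using h2.symm⟩

/-- the check that a list of codes consists of `N` different positive numbers -/
def checkDistinct (n : ℕ) (N : ℕ) (l : List ℕ) : Bool :=
  match sortedCount n ((msortLoop 20 (wrap l)).flatten) with
  | (_, m, t) => Nat.beq m N && List.casesOn t true (fun _ _ => false)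

theorem checkDistinct_spec {n N : ℕ} {l : List ℕ} (hN : 0 < N) (h : checkDistinct n N l = true) :
    l.Nodup ∧ l.length = N := by
  have hperm : ((msortLoop 20 (wrap l)).flatten).Perm l := by
    have := msortLoop_perm 20 (wrap l)
    rwa [wrap_flatten] at this
  simp only [checkDistinct] at h
  generalize hs : sortedCount n ((msortLoop 20 (wrap l)).flatten) = s at h
  obtain ⟨q, m, t⟩ := s
  simp only [Bool.and_eq_true] at h
  obtain ⟨h1, h2⟩ := h
  have hm : m = N := Nat.eq_of_beq_eq_true h1
  subst hm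
  cases t with
  | cons a t => simp at h2
  | nil =>
    have := sortedCount_spec (n := n) hN (l := (msortLoop 20 (wrap l)).flatten) (by rw [hs])
    refine ⟨?_, ?_⟩
    · have h3 : ((msortLoop 20 (wrap l)).flatten).Pairwise (· < ·) := (List.pairwise_cons.mp this.1).2
      have h4 : ((msortLoop 20 (wrap l)).flatten).Nodup := h3.imp (fun h => ne_of_lt h)
      exact hperm.nodup_iff.mp h4
    · rw [← hperm.length_eq]
      exact this.2

/-! ### Orbits -/

theorem sqNorm_add' (x y : P → ℤ) : sqNorm (x + y) = sqNorm x + sqNorm y + 2 * dotInt x y := by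
  simp only [sqNorm, dotInt, Pi.add_apply, Finset.mul_sum, ← Finset.sum_add_distrib]
  refine Finset.sum_congr rfl fun i _ => ?_
  ring

theorem dot_smul (g : Co0) (v w : leechLattice) :
    dotInt ((g • v : leechLattice) : P → ℤ) ((g • w : leechLattice) : P → ℤ) = dotInt (v : P → ℤ) (w : P → ℤ) := by
  have h1 : sqNorm (((g • (v + w) : leechLattice)) : P → ℤ) = sqNorm ((v + w : leechLattice) : P → ℤ) := g.2.2 (v + w)
  have h2 : g • (v + w) = g • v + g • w := g.2.1 v w
  rw [h2] at h1
  have h3 : sqNorm ((g • v : leechLattice) : P → ℤ) = sqNorm (v : P → ℤ) := g.2.2 v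
  have h4 : sqNorm ((g • w : leechLattice) : P → ℤ) = sqNorm (w : P → ℤ) := g.2.2 w
  have e1 : ((g • v + g • w : leechLattice) : P → ℤ) = ((g • v : leechLattice) : P → ℤ) + ((g • w : leechLattice) : P → ℤ) := rfl
  have e2 : ((v + w : leechLattice) : P → ℤ) = (v : P → ℤ) + (w : P → ℤ) := rfl
  rw [e1, e2, sqNorm_add', sqNorm_add', h3, h4] at h1
  linarith

/-- the relation given by the elements fixing a list of vectors -/
def FR (U : List ℕ) (x y : P → ℤ) : Prop :=
  ∃ (hx : x ∈ leechLattice) (hy : y ∈ leechLattice) (g : Co0),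
    (∀ u ∈ U, ∀ h : dv u ∈ leechLattice, g • (⟨dv u, h⟩ : leechLattice) = ⟨dv u, h⟩) ∧
      g • (⟨x, hx⟩ : leechLattice) = ⟨y, hy⟩

theorem FR.refl {U : List ℕ} {x : P → ℤ} (hx : x ∈ leechLattice) : FR U x x :=
  ⟨hx, hx, 1, fun _ _ _ => one_smul _ _, one_smul _ _⟩

theorem FR.symm {U : List ℕ} {x y : P → ℤ} (h : FR U x y) : FR U y x := by
  obtain ⟨hx, hy, g, h1, h2⟩ := h
  refine ⟨hy, hx, g⁻¹, fun u hu h3 => ?_, ?_⟩
  · have := h1 u hu h3
    conv_lhs => rw [← this]
    rw [inv_smul_smul]
  · rw [← h2, inv_smul_smul]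

theorem FR.trans {U : List ℕ} {x y z : P → ℤ} (h : FR U x y) (h' : FR U y z) : FR U x z := by
  obtain ⟨hx, hy, g, h1, h2⟩ := h
  obtain ⟨hy', hz, g', h1', h2'⟩ := h'
  refine ⟨hx, hz, g' * g, fun u hu h3 => ?_, ?_⟩
  · rw [mul_smul, h1 u hu h3, h1' u hu h3]
  · rw [mul_smul, h2, ← h2']

theorem FR.mem_left {U : List ℕ} {x y : P → ℤ} (h : FR U x y) : x ∈ leechLattice := h.1
theorem FR.mem_right {U : List ℕ} {x y : P → ℤ} (h : FR U x y) : y ∈ leechLattice := h.2.1

theorem FR.sqNorm_eq {U : List ℕ} {x y : P → ℤ} (h : FR U x y) : sqNorm x = sqNorm y := by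
  obtain ⟨hx, hy, g, h1, h2⟩ := h
  have := g.2.2 ⟨x, hx⟩
  have e : (g • (⟨x, hx⟩ : leechLattice) : leechLattice) = ⟨y, hy⟩ := h2
  have h3 : sqNorm (((g • (⟨x, hx⟩ : leechLattice) : leechLattice)) : P → ℤ) = sqNorm x := this
  rw [e] at h3
  exact h3.symm

theorem FR.dot_eq {U : List ℕ} {x y : P → ℤ} (h : FR U x y) {u : ℕ} (hu : u ∈ U) (hl : dv u ∈ leechLattice) :
    dotInt (dv u) x = dotInt (dv u) y := by
  obtain ⟨hx, hy, g, h1, h2⟩ := h
  have h3 := dot_smul g ⟨dv u, hl⟩ ⟨x, hx⟩
  rw [h1 u hu hl, h2] at h3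
  exact h3.symm

/-- a generator fixing the vectors -/
def GFix (U : List ℕ) (g : ℕ → ℕ) : Prop := AtomOK g ∧ ∀ u ∈ U, g u = u ∧ u ≠ 0

theorem step_FR {U : List ℕ} {g : ℕ → ℕ} (h : GFix U g) {n : ℕ} (hn : dv n ∈ leechLattice) (hg : g n ≠ 0) :
    FR U (dv n) (dv (g n)) := by
  obtain ⟨⟨f, ⟨c, hc⟩, hf⟩, hU⟩ := h
  have h1 := hc ⟨dv n, hn⟩
  have e : f (dv n) = dv (g n) := (hf n hg).symm
  have hy : dv (g n) ∈ leechLattice := by
    rw [← e, ← show (((c • (⟨dv n, hn⟩ : leechLattice) : leechLattice)) : P → ℤ) = f (dv n) from h1]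
    exact (c • (⟨dv n, hn⟩ : leechLattice)).2
  refine ⟨hn, hy, c, fun u hu h2 => ?_, Subtype.ext (h1.trans e)⟩
  obtain ⟨h3, h4⟩ := hU u hu
  apply Subtype.ext
  have h5 := hc ⟨dv u, h2⟩
  refine h5.trans ?_
  show f (dv u) = dv u
  rw [← hf u (by rw [h3]; exact h4), h3]

/-- the predicate of the machine -/
def QQ (U : List ℕ) (r c : ℕ) : Prop := c = normC c ∧ FR U (dv r) (dv c)

theorem runM_QQ {U : List ℕ} {G : ℕ → ℕ → ℕ} (hG : ∀ k, GFix U (G k)) (n w r : ℕ) (hr : r = normC r)
    (hl : dv r ∈ leechLattice) : ∀ x ∈ runM G n w r, QQ U r x := by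
  apply runM_inv
  · intro k c hc hne
    refine ⟨(normC_idem _).symm, ?_⟩
    have hne' : G k c ≠ 0 := by
      intro h0
      rw [h0, normC_zero] at hne
      exact hne rfl
    rw [dv_normC]
    exact hc.2.trans (step_FR (hG k) hc.2.mem_right hne')
  · exact ⟨hr, FR.refl hl⟩

/-- the generators from atoms and words -/
def genW (atoms : List (ℕ → ℕ)) (words : List (List ℕ)) (k c : ℕ) : ℕ := wordC atoms (words.getD k []) c

/-- the check that the generators fix the vectors -/
def checkFix (atoms : List (ℕ → ℕ)) (words : List (List ℕ)) (U : List ℕ) : Bool :=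
  words.all (fun w => U.all fun u => Nat.beq (wordC atoms w u) u) && U.all fun u => !(Nat.beq u 0)

theorem gfix_genW {atoms : List (ℕ → ℕ)} {words : List (List ℕ)} {U : List ℕ} (h1 : ∀ a ∈ atoms, AtomOK a)
    (h2 : checkFix atoms words U = true) (k : ℕ) : GFix U (genW atoms words k) := by
  simp only [checkFix, Bool.and_eq_true, List.all_eq_true, Bool.not_eq_true'] at h2
  obtain ⟨h3, h4⟩ := h2
  refine ⟨atomOK_word h1 _, fun u hu => ⟨?_, ?_⟩⟩
  · show wordC atoms (words.getD k []) u = u
    rw [List.getD_eq_getElem?_getD]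
    by_cases hk : k < words.length
    · rw [List.getElem?_eq_getElem hk]
      exact Nat.eq_of_beq_eq_true (h3 _ (List.getElem_mem hk) u hu)
    · rw [List.getElem?_eq_none (by omega)]
      rfl
  · intro h0
    have := h4 u hu
    rw [h0] at this
    exact absurd this (by decide)

/-- The list of outputs exhausts a set of the right size. -/
theorem covers {U : List ℕ} {r : ℕ} {L : List ℕ} (hL : ∀ c ∈ L, QQ U r c) (hnd : L.Nodup) {S : Set (P → ℤ)}
    (hfin : S.Finite) (hN : S.ncard = L.length) (hsub : ∀ c ∈ L, dv c ∈ S) :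
    S = dv '' {c | c ∈ L} := by
  have hinj : Set.InjOn dv {c | c ∈ L} := by
    intro c hc d hd h
    rw [(hL c hc).1, (hL d hd).1]
    exact normC_eq_of_dv h
  have hcard : (dv '' {c | c ∈ L}).ncard = L.length := by
    rw [Set.InjOn.ncard_image hinj]
    have : {c | c ∈ L} = (↑L.toFinset : Set ℕ) := by
      ext c
      simp
    rw [this, Set.ncard_coe_finset, List.toFinset_card_of_nodup hnd]
  symm
  apply Set.eq_of_subset_of_ncard_le _ (by rw [hcard, hN]) hfin
  rintro _ ⟨c, hc, rfl⟩
  exact hsub c hc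

/-! ### Inner products of codes -/

/-- inner product of codes -/
def dotZ (a b : ℕ) : ℤ := ((List.range 24).map fun i => dz a i * dz b i).sum

theorem list_sum_range_int (f : ℕ → ℤ) (n : ℕ) : ((List.range n).map f).sum = ∑ i ∈ Finset.range n, f i := by
  induction n with
  | zero => rfl
  | succ n ih =>
    rw [List.range_succ, List.map_append, List.sum_append, ih, Finset.sum_range_succ]
    simp

theorem dotInt_dv (a b : ℕ) : dotInt (dv a) (dv b) = dotZ a b := by
  rw [dotZ, list_sum_range_int, ← sum_pt]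
  rfl

theorem sqNorm_dv (a : ℕ) : sqNorm (dv a) = dotZ a a := by
  rw [dotZ, list_sum_range_int, ← sum_pt]
  simp only [sqNorm, dv, sq]

/-! ### Sets of minimal vectors -/

theorem finite_min : {x : P → ℤ | x ∈ leechLattice ∧ sqNorm x = 32}.Finite := by
  apply Set.finite_of_ncard_ne_zero
  rw [Cfsg.Agent.Lib.LeechCensus.count_32]
  norm_num

/-- minimal vectors with prescribed inner products -/
def SS (C : List (ℕ × ℤ)) : Set (P → ℤ) :=
  {x | x ∈ leechLattice ∧ sqNorm x = 32 ∧ ∀ p ∈ C, dotInt (dv p.1) x = p.2}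

theorem SS_finite (C : List (ℕ × ℤ)) : (SS C).Finite :=
  finite_min.subset fun _ hx => ⟨hx.1, hx.2.1⟩

/-- the check of membership -/
def checkSS (C : List (ℕ × ℤ)) (r : ℕ) : Bool :=
  lchk (dv r) && decide (dotZ r r = 32) && C.all fun p => decide (dotZ p.1 r = p.2)

theorem mem_SS_of_check {C : List (ℕ × ℤ)} {r : ℕ} (h : checkSS C r = true) : dv r ∈ SS C := by
  simp only [checkSS, Bool.and_eq_true, decide_eq_true_eq, List.all_eq_true] at h
  obtain ⟨⟨h1, h2⟩, h3⟩ := h
  refine ⟨lchk_spec h1, by rw [sqNorm_dv, h2], fun p hp => ?_⟩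
  rw [dotInt_dv]
  exact h3 p hp

theorem SS_inv {U : List ℕ} {C : List (ℕ × ℤ)} (hC : ∀ p ∈ C, p.1 ∈ U ∧ dv p.1 ∈ leechLattice) {x y : P → ℤ}
    (h : FR U x y) (hx : x ∈ SS C) : y ∈ SS C := by
  refine ⟨h.mem_right, by rw [← h.sqNorm_eq]; exact hx.2.1, fun p hp => ?_⟩
  rw [← h.dot_eq (hC p hp).1 (hC p hp).2]
  exact hx.2.2 p hp

/-- The main theorem on certificates. -/
theorem orbit_cover {U : List ℕ} {atoms : List (ℕ → ℕ)} {words : List (List ℕ)}
    (hatoms : ∀ a ∈ atoms, AtomOK a) (hfix : checkFix atoms words U = true)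
    {C : List (ℕ × ℤ)} (hC : ∀ p ∈ C, p.1 ∈ U ∧ dv p.1 ∈ leechLattice)
    {r n w n' N : ℕ} (hr : r = normC r) (hS : checkSS C r = true)
    (hcard : (SS C).ncard = N) (hN : 0 < N)
    (hd : checkDistinct n' N (runM (genW atoms words) n w r) = true) :
    SS C = dv '' {c | c ∈ runM (genW atoms words) n w r} ∧ ∀ x ∈ SS C, FR U (dv r) x := by
  have hS' := mem_SS_of_check hS
  have hQ := runM_QQ (gfix_genW hatoms hfix) n w r hr hS'.1
  obtain ⟨h1, h2⟩ := checkDistinct_spec hN hd
  have h3 := covers hQ h1 (SS_finite C) (by rw [hcard, h2]) (fun c hc => SS_inv hC (hQ c hc).2 hS')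
  refine ⟨h3, fun x hx => ?_⟩
  rw [h3] at hx
  obtain ⟨c, hc, rfl⟩ := hx
  exact (hQ c hc).2

/-- The subset of a list given by further conditions. -/
theorem filter_eq {L : List ℕ} {C : List (ℕ × ℤ)} (h : SS C = dv '' {c | c ∈ L}) (u : ℕ) (T : ℤ) :
    SS (C ++ [(u, T)]) = dv '' {c | c ∈ L.filter fun c => decide (dotZ u c = T)} := by
  ext x
  constructor
  · rintro ⟨h1, h2, h3⟩
    have hx : x ∈ SS C := ⟨h1, h2, fun p hp => h3 p (List.mem_append_left _ hp)⟩
    rw [h] at hx
    obtain ⟨c, hc, rfl⟩ := hx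
    refine ⟨c, List.mem_filter.mpr ⟨hc, ?_⟩, rfl⟩
    have := h3 (u, T) (List.mem_append_right _ (by simp))
    simp only [dotInt_dv] at this
    simpa using this
  · rintro ⟨c, hc, rfl⟩
    obtain ⟨h1, h2⟩ := List.mem_filter.mp hc
    have hx : dv c ∈ SS C := by
      rw [h]
      exact ⟨c, h1, rfl⟩
    refine ⟨hx.1, hx.2.1, fun p hp => ?_⟩
    rcases List.mem_append.mp hp with hp | hp
    · exact hx.2.2 p hp
    · simp only [List.mem_singleton] at hp
      subst hp
      rw [dotInt_dv]
      simpa using h2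

/-- The number of elements from a list without repetition of normal forms. -/
theorem ncard_image_list {L : List ℕ} (hn : ∀ c ∈ L, c = normC c) (hnd : L.Nodup) :
    (dv '' {c | c ∈ L}).ncard = L.length := by
  have hinj : Set.InjOn dv {c | c ∈ L} := by
    intro c hc d hd h
    rw [hn c hc, hn d hd]
    exact normC_eq_of_dv h
  rw [Set.InjOn.ncard_image hinj]
  have : {c | c ∈ L} = (↑L.toFinset : Set ℕ) := by
    ext c
    simp
  rw [this, Set.ncard_coe_finset, List.toFinset_card_of_nodup hnd]

/-! ### Transport -/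

/-- lattice vectors to functions -/
theorem ncard_subtype (Q : (P → ℤ) → Prop) :
    {v : leechLattice | Q (v : P → ℤ)}.ncard = {x : P → ℤ | x ∈ leechLattice ∧ Q x}.ncard := by
  rw [← Set.ncard_image_of_injective _ Subtype.val_injective]
  congr 1
  ext x
  constructor
  · rintro ⟨v, hv, rfl⟩
    exact ⟨v.2, hv⟩
  · rintro ⟨h1, h2⟩
    exact ⟨⟨x, h1⟩, h2, rfl⟩

theorem ncard_transport (g : Co0) {A B : Set leechLattice} (h : ∀ v, v ∈ A ↔ g • v ∈ B) : A.ncard = B.ncard := by
  have : B = (fun v => g • v) '' A := by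
    ext w
    constructor
    · intro hw
      refine ⟨g⁻¹ • w, (h _).mpr (by rwa [smul_inv_smul]), smul_inv_smul _ _⟩
    · rintro ⟨v, hv, rfl⟩
      exact (h v).mp hv
  rw [this, Set.ncard_image_of_injective _ (MulAction.injective g)]

theorem sqNorm_smul' (g : Co0) (v : leechLattice) :
    sqNorm ((g • v : leechLattice) : P → ℤ) = sqNorm (v : P → ℤ) := g.2.2 v

theorem smul_sub' (g : Co0) (v w : leechLattice) : g • (v - w) = g • v - g • w := by
  have h1 : g • ((v - w) + w) = g • (v - w) + g • w := g.2.1 _ _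
  rw [sub_add_cancel] at h1
  rw [eq_sub_iff_add_eq, ← h1]

theorem sqNorm_sub' (x y : P → ℤ) : sqNorm (x - y) = sqNorm x + sqNorm y - 2 * dotInt x y := by
  simp only [sqNorm, dotInt, Pi.sub_apply, Finset.mul_sum, ← Finset.sum_add_distrib, ← Finset.sum_sub_distrib]
  refine Finset.sum_congr rfl fun i _ => ?_
  ring

theorem dot_comm' (x y : P → ℤ) : dotInt x y = dotInt y x := by
  simp only [dotInt, mul_comm]

/-- conjugating an element fixing the images -/
theorem exists_conj (g₀ h : Co0) {v w : leechLattice} (hh : h • (g₀ • v) = g₀ • w) :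
    (g₀⁻¹ * h * g₀) • v = w := by
  rw [mul_smul, mul_smul, hh, inv_smul_smul]

theorem fixes_conj (g₀ h : Co0) {u : leechLattice} (hh : h • (g₀ • u) = g₀ • u) :
    (g₀⁻¹ * h * g₀) • u = u := exists_conj g₀ h hh

/-! ### Counting through the table -/

theorem card_SS1 {u M : ℕ} {T : ℤ} {T1 Tg N : ℕ} {tb : List (ℕ × ℕ × ℕ)} (hM : ∀ i, |dv u i| ≤ (M : ℤ))
    (hT1 : (T1 : ℤ) = T + 24 * M) (hTg : (Tg : ℤ) = T + 16 * M) (htb : tbOf (dv u) M allP = tb)
    (h : zeroPart (dv u) T + loop64 (wordCount tb M T1 Tg) = N) : (SS [(u, T)]).ncard = N := by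
  have e : SS [(u, T)] = {x : P → ℤ | x ∈ leechLattice ∧ sqNorm x = 32 ∧ dotInt (dv u) x = T} := by
    ext x
    simp [SS]
  rw [e, ncard_min hM hT1 hTg, htb, h]

end Cfsg.Agent.Lib.LeechCert
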