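/-
Further tools for certificates.
-/
import Mathlib
import Cfsg.Prelude.Def_Sporadic_a
import Cfsg.Agent.Lib.LeechCert

set_option autoImplicit false
set_option linter.unusedSectionVars false
set_option linter.unusedSimpArgs false
set_option linter.unusedVariables false

namespace Cfsg.Agent.Lib.LeechCert

open Cfsg Cfsg.Agent.Lib.GolayCode Cfsg.Agent.Lib.GolayFacts Cfsg.Agent.Lib.GolayPerm
  Cfsg.Agent.Lib.LeechBase Cfsg.Agent.Lib.LeechCo Cfsg.Agent.Lib.LeechXi Cfsg.Agent.Lib.LeechOrb
  Cfsg.Agent.Lib.LeechDFS Cfsg.Agent.Lib.LeechMinCount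

/-! ### Further tools -/

/-- The properties of the list of a certificate. -/
theorem list_props {U : List ℕ} {atoms : List (ℕ → ℕ)} {words : List (List ℕ)}
    (hatoms : ∀ a ∈ atoms, AtomOK a) (hfix : checkFix atoms words U = true)
    {r n w n' N : ℕ} (hr : r = normC r) (hl : dv r ∈ leechLattice) (hN : 0 < N)
    (hd : checkDistinct n' N (runM (genW atoms words) n w r) = true) :
    (runM (genW atoms words) n w r).Nodup ∧ (runM (genW atoms words) n w r).length = N ∧
      ∀ c ∈ runM (genW atoms words) n w r, c = normC c ∧ FR U (dv r) (dv c) := by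
  obtain ⟨h1, h2⟩ := checkDistinct_spec hN hd
  exact ⟨h1, h2, runM_QQ (gfix_genW hatoms hfix) n w r hr hl⟩

theorem atomOK_normC : AtomOK normC :=
  ⟨id, ⟨1, fun v => rfl⟩, fun n _ => dv_normC n⟩

/-- the step of counting -/
def stepC (p : ℕ → Bool) (s : ℕ × List ℕ) : ℕ × List ℕ :=
  match s with
  | (n, l) => List.casesOn l (n, []) (fun a t => bif p a then (Nat.succ n, t) else (n, t))

/-- counting with bounded depth -/
def countC (p : ℕ → Bool) (k : ℕ) (l : List ℕ) : ℕ × List ℕ := iter3 (stepC p) k (0, l)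

theorem countC_spec {p : ℕ → Bool} {k m : ℕ} {l : List ℕ} (h : countC p k l = (m, [])) : l.countP p = m := by
  have key : (countC p k l).1 + (countC p k l).2.countP p = l.countP p := by
    refine iter3_inv (I := fun s : ℕ × List ℕ => s.1 + s.2.countP p = l.countP p) ?_ k (0, l) ?_
    · rintro ⟨n, t⟩ hs
      simp only at hs
      simp only [stepC]
      cases t with
      | nil => exact hs
      | cons a t =>
        simp only
        rw [← hs, List.countP_cons]
        cases ha : p a with
        | true =>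
          simp only [cond_true, Nat.succ_eq_add_one, if_true]
          omega
        | false =>
          simp only [cond_false, Bool.false_eq_true, if_false]
          omega
    · simp
  rw [h] at key
  simpa using key.symm

/-- The number of elements of a subset cut out by one more inner product. -/
theorem ncard_filter {L : List ℕ} {C : List (ℕ × ℤ)} (h : SS C = dv '' {c | c ∈ L}) (hnd : L.Nodup)
    (hn : ∀ c ∈ L, c = normC c) {u : ℕ} {T : ℤ} {k m : ℕ}
    (hc : countC (fun c => decide (dotZ u c = T)) k L = (m, [])) :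
    (SS (C ++ [(u, T)])).ncard = m := by
  rw [filter_eq h, ncard_image_list (fun c hc => hn c (List.mem_filter.mp hc).1) (hnd.filter _),
    ← List.countP_eq_length_filter, countC_spec hc]

/-- all the elements of a list have a property -/
theorem exists_code_of_mem {L : List ℕ} {C : List (ℕ × ℤ)} (h : SS C = dv '' {c | c ∈ L}) {x : P → ℤ}
    (hx : x ∈ SS C) : ∃ c ∈ L, dv c = x := by
  rw [h] at hx
  exact hx

/-- automorphisms acting through an operation on codes -/
theorem exists_of_atom {a : ℕ → ℕ} (h : AtomOK a) :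
    ∃ c : Co0, ∀ n (hn : dv n ∈ leechLattice), a n ≠ 0 →
      ((c • (⟨dv n, hn⟩ : leechLattice) : leechLattice) : P → ℤ) = dv (a n) := by
  obtain ⟨f, ⟨c, hc⟩, hf⟩ := h
  refine ⟨c, fun n hn h0 => ?_⟩
  rw [hf n h0]
  exact hc ⟨dv n, hn⟩

/-- lifting from the images of vectors -/
theorem lift_FR {g : Co0} {U : List ℕ} {x x' : leechLattice}
    (h : FR U ((g • x : leechLattice) : P → ℤ) ((g • x' : leechLattice) : P → ℤ)) :
    ∃ k : Co0, (∀ a ∈ U, ∀ (ha : dv a ∈ leechLattice) (w : leechLattice),
      g • w = (⟨dv a, ha⟩ : leechLattice) → k • w = w) ∧ k • x = x' := by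
  obtain ⟨hx, hy, k, hk1, hk2⟩ := h
  refine ⟨g⁻¹ * k * g, fun a ha ha' w hw => ?_, exists_conj g k hk2⟩
  apply fixes_conj
  rw [hw]
  exact hk1 a ha ha'

/-- a vector matched with a code -/
theorem dot_match {g : Co0} {u : leechLattice} {a : ℕ} {ha : dv a ∈ leechLattice}
    (hg : g • u = ⟨dv a, ha⟩) (v : leechLattice) :
    dotInt (dv a) ((g • v : leechLattice) : P → ℤ) = dotInt (u : P → ℤ) (v : P → ℤ) := by
  rw [← dot_smul g u v, hg]

theorem mem_SS1 {g : Co0} {u : leechLattice} {a : ℕ} {ha : dv a ∈ leechLattice}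
    (hg : g • u = ⟨dv a, ha⟩) (T : ℤ) (x : leechLattice) :
    ((g • x : leechLattice) : P → ℤ) ∈ SS [(a, T)] ↔
      sqNorm (x : P → ℤ) = 32 ∧ dotInt (u : P → ℤ) (x : P → ℤ) = T := by
  constructor
  · rintro ⟨_, h2, h3⟩
    refine ⟨by rw [← sqNorm_smul' g x]; exact h2, ?_⟩
    have := h3 (a, T) (by simp)
    simp only at this
    rwa [dot_match hg] at this
  · rintro ⟨h1, h2⟩
    refine ⟨(g • x).2, by rw [sqNorm_smul']; exact h1, fun p hp => ?_⟩
    simp only [List.mem_singleton] at hp
    subst hp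
    simp only
    rwa [dot_match hg]

theorem mem_SS2 {g : Co0} {u v : leechLattice} {a b : ℕ} {ha : dv a ∈ leechLattice} {hb : dv b ∈ leechLattice}
    (hg : g • u = ⟨dv a, ha⟩) (hg' : g • v = ⟨dv b, hb⟩) (T T' : ℤ) (x : leechLattice) :
    ((g • x : leechLattice) : P → ℤ) ∈ SS [(a, T), (b, T')] ↔
      sqNorm (x : P → ℤ) = 32 ∧ dotInt (u : P → ℤ) (x : P → ℤ) = T ∧ dotInt (v : P → ℤ) (x : P → ℤ) = T' := by
  constructor
  · rintro ⟨_, h2, h3⟩
    refine ⟨by rw [← sqNorm_smul' g x]; exact h2, ?_, ?_⟩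
    · have := h3 (a, T) (by simp)
      simp only at this
      rwa [dot_match hg] at this
    · have := h3 (b, T') (by simp)
      simp only at this
      rwa [dot_match hg'] at this
  · rintro ⟨h1, h2, h2'⟩
    refine ⟨(g • x).2, by rw [sqNorm_smul']; exact h1, fun p hp => ?_⟩
    simp only [List.mem_cons, List.not_mem_nil, or_false] at hp
    rcases hp with rfl | rfl
    · simp only
      rwa [dot_match hg]
    · simp only
      rwa [dot_match hg']

theorem mem_SS3 {g : Co0} {u v w : leechLattice} {a b c : ℕ} {ha : dv a ∈ leechLattice} {hb : dv b ∈ leechLattice}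
    {hc : dv c ∈ leechLattice} (hg : g • u = ⟨dv a, ha⟩) (hg' : g • v = ⟨dv b, hb⟩) (hg'' : g • w = ⟨dv c, hc⟩)
    (T T' T'' : ℤ) (x : leechLattice) :
    ((g • x : leechLattice) : P → ℤ) ∈ SS [(a, T), (b, T'), (c, T'')] ↔
      sqNorm (x : P → ℤ) = 32 ∧ dotInt (u : P → ℤ) (x : P → ℤ) = T ∧ dotInt (v : P → ℤ) (x : P → ℤ) = T' ∧
        dotInt (w : P → ℤ) (x : P → ℤ) = T'' := by
  constructor
  · rintro ⟨_, h2, h3⟩
    refine ⟨by rw [← sqNorm_smul' g x]; exact h2, ?_, ?_, ?_⟩
    · have := h3 (a, T) (by simp)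
      simp only at this
      rwa [dot_match hg] at this
    · have := h3 (b, T') (by simp)
      simp only at this
      rwa [dot_match hg'] at this
    · have := h3 (c, T'') (by simp)
      simp only at this
      rwa [dot_match hg''] at this
  · rintro ⟨h1, h2, h2', h2''⟩
    refine ⟨(g • x).2, by rw [sqNorm_smul']; exact h1, fun p hp => ?_⟩
    simp only [List.mem_cons, List.not_mem_nil, or_false] at hp
    rcases hp with rfl | rfl | rfl
    · simp only
      rwa [dot_match hg]
    · simp only
      rwa [dot_match hg']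
    · simp only
      rwa [dot_match hg'']

/-- the number of lattice vectors from a set of functions -/
theorem ncard_SS_of_iff {g : Co0} {A : Set leechLattice} {C : List (ℕ × ℤ)}
    (h : ∀ x, x ∈ A ↔ ((g • x : leechLattice) : P → ℤ) ∈ SS C) : A.ncard = (SS C).ncard := by
  have h1 : A.ncard = {v : leechLattice | (v : P → ℤ) ∈ SS C}.ncard := ncard_transport g h
  rw [h1, ncard_subtype (fun x => x ∈ SS C)]
  congr 1
  ext x
  exact ⟨fun h => h.2, fun h => ⟨h.1, h⟩⟩

/-- the elements of a set with a given value are reached from one element -/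
theorem FR_of_mem_SS {U : List ℕ} {C : List (ℕ × ℤ)} {r : ℕ} (h : ∀ x ∈ SS C, FR U (dv r) x)
    {x y : P → ℤ} (hx : x ∈ SS C) (hy : y ∈ SS C) : FR U x y :=
  (h x hx).symm.trans (h y hy)

end Cfsg.Agent.Lib.LeechCert
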