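/-
Partitions of sets of minimal vectors into orbits.
-/
import Mathlib
import Cfsg.Prelude.Def_Sporadic_a
import Cfsg.Agent.Lib.LeechCert2

set_option autoImplicit false
set_option linter.unusedSectionVars false
set_option linter.unusedSimpArgs false
set_option linter.unusedVariables false

namespace Cfsg.Agent.Lib.LeechCert

open Cfsg Cfsg.Agent.Lib.GolayCode Cfsg.Agent.Lib.GolayFacts Cfsg.Agent.Lib.GolayPerm
  Cfsg.Agent.Lib.LeechBase Cfsg.Agent.Lib.LeechCo Cfsg.Agent.Lib.LeechXi Cfsg.Agent.Lib.LeechOrb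

theorem dot_of_FR {U : List ℕ} {a c r : ℕ} (h : FR U (dv a) (dv c)) (hr : r ∈ U) (hl : dv r ∈ leechLattice) :
    dotZ r c = dotZ r a := by
  rw [← dotInt_dv, ← dotInt_dv]
  exact (h.dot_eq hr hl).symm

/-- A partition of a set of minimal vectors into a point and parts which are contained in orbits
separated by the inner products with the point. -/
theorem parts_cover {U : List ℕ} {C : List (ℕ × ℤ)} {r0 N : ℕ} {parts : List (ℕ × List ℕ)}
    (hC : ∀ p ∈ C, p.1 ∈ U ∧ dv p.1 ∈ leechLattice)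
    (hr0 : checkSS C r0 = true) (hr0U : r0 ∈ U) (hr0n : r0 = normC r0)
    (hparts : ∀ p ∈ parts, checkSS C p.1 = true ∧ ∀ c ∈ p.2, c = normC c ∧ FR U (dv p.1) (dv c))
    (hnd : (r0 :: parts.flatMap Prod.snd).Nodup) (hlen : (r0 :: parts.flatMap Prod.snd).length = N)
    (hcard : (SS C).ncard = N) (hdots : ((r0 :: parts.map Prod.fst).map (dotZ r0)).Nodup) :
    SS C = dv '' {c | c ∈ r0 :: parts.flatMap Prod.snd} ∧
      ∀ p ∈ parts, SS (C ++ [(r0, dotZ r0 p.1)]) = dv '' {c | c ∈ p.2} := by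
  have hr0S := mem_SS_of_check hr0
  have hmem : ∀ p ∈ parts, ∀ c ∈ p.2, dv c ∈ SS C := fun p hp c hc =>
    SS_inv hC ((hparts p hp).2 c hc).2 (mem_SS_of_check (hparts p hp).1)
  have hnorm : ∀ c ∈ r0 :: parts.flatMap Prod.snd, c = normC c := by
    intro c hc
    rcases List.mem_cons.mp hc with rfl | hc
    · exact hr0n
    · obtain ⟨p, hp, hc⟩ := List.mem_flatMap.mp hc
      exact ((hparts p hp).2 c hc).1
  have hinj : Set.InjOn dv {c | c ∈ r0 :: parts.flatMap Prod.snd} := by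
    intro c hc d hd h
    rw [hnorm c hc, hnorm d hd]
    exact normC_eq_of_dv h
  have hcov : SS C = dv '' {c | c ∈ r0 :: parts.flatMap Prod.snd} := by
    symm
    apply Set.eq_of_subset_of_ncard_le _ (by rw [ncard_image_list hnorm hnd, hcard, hlen]) (SS_finite C)
    rintro _ ⟨c, hc, rfl⟩
    rcases List.mem_cons.mp hc with rfl | hc
    · exact hr0S
    · obtain ⟨p, hp, hc⟩ := List.mem_flatMap.mp hc
      exact hmem p hp c hc
  have hl0 : dv r0 ∈ leechLattice := hr0S.1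
  have hdot : ∀ p ∈ parts, ∀ c ∈ p.2, dotZ r0 c = dotZ r0 p.1 := fun p hp c hc =>
    dot_of_FR ((hparts p hp).2 c hc).2 hr0U hl0
  refine ⟨hcov, fun p hp => ?_⟩
  ext x
  constructor
  · rintro ⟨h1, h2, h3⟩
    have hx : x ∈ SS C := ⟨h1, h2, fun q hq => h3 q (List.mem_append_left _ hq)⟩
    have hd : dotInt (dv r0) x = dotZ r0 p.1 := h3 (r0, dotZ r0 p.1) (List.mem_append_right _ (by simp))
    rw [hcov] at hx
    obtain ⟨c, hc, rfl⟩ := hx
    rw [dotInt_dv] at hd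
    have hpm : p.1 ∈ parts.map Prod.fst := List.mem_map.mpr ⟨p, hp, rfl⟩
    simp only [List.map_cons, List.nodup_cons, List.mem_map] at hdots
    rcases List.mem_cons.mp hc with rfl | hc
    · exfalso
      apply hdots.1
      exact ⟨p.1, ⟨p, hp, rfl⟩, hd.symm⟩
    · obtain ⟨q, hq, hc⟩ := List.mem_flatMap.mp hc
      have h4 := hdot q hq c hc
      rw [h4] at hd
      have h5 : (parts.map (dotZ r0 ∘ Prod.fst)).Nodup := by
        have := hdots.2
        rwa [List.map_map] at this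
      have hqp : q = p := List.inj_on_of_nodup_map h5 hq hp hd
      subst hqp
      exact ⟨c, hc, rfl⟩
  · rintro ⟨c, hc, rfl⟩
    have h1 := hmem p hp c hc
    refine ⟨h1.1, h1.2.1, fun q hq => ?_⟩
    rcases List.mem_append.mp hq with hq | hq
    · exact h1.2.2 q hq
    · simp only [List.mem_singleton] at hq
      subst hq
      rw [dotInt_dv]
      exact hdot p hp c hc

/-- The orbit of a subgroup given by a part. -/
theorem orbit_of_part {H : Subgroup Co0} {g : Co0} {U : List ℕ} {a : ℕ} (ha : dv a ∈ leechLattice)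
    {D : Set (P → ℤ)} (hD : D ⊆ leechLattice) (had : dv a ∈ D)
    (h1 : ∀ t : Co0, (∀ u ∈ U, ∀ hu : dv u ∈ leechLattice, t • (⟨dv u, hu⟩ : leechLattice) = ⟨dv u, hu⟩) →
      g⁻¹ * t * g ∈ H)
    (h2 : ∀ h ∈ H, ∀ y : leechLattice, ((g • y : leechLattice) : P → ℤ) ∈ D →
      ((g • ((h : Co0) • y) : leechLattice) : P → ℤ) ∈ D)
    (h3 : ∀ z ∈ D, FR U (dv a) z) :
    MulAction.orbit H (g⁻¹ • (⟨dv a, ha⟩ : leechLattice)) = {y | ((g • y : leechLattice) : P → ℤ) ∈ D} := by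
  ext y
  constructor
  · rintro ⟨h, rfl⟩
    apply h2 h h.2
    rw [smul_inv_smul]
    exact had
  · intro hy
    obtain ⟨hx, hy', t, ht1, ht2⟩ := h3 _ hy
    refine ⟨⟨g⁻¹ * t * g, h1 t ht1⟩, ?_⟩
    show (g⁻¹ * t * g) • (g⁻¹ • (⟨dv a, ha⟩ : leechLattice)) = y
    rw [mul_smul, mul_smul, smul_inv_smul, ht2]
    simp

/-- The number of lattice vectors mapped into a set of functions. -/
theorem ncard_preimage {g : Co0} {D : Set (P → ℤ)} (hD : D ⊆ leechLattice) :
    {y : leechLattice | ((g • y : leechLattice) : P → ℤ) ∈ D}.ncard = D.ncard := by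
  have h1 : {y : leechLattice | ((g • y : leechLattice) : P → ℤ) ∈ D}.ncard =
      {v : leechLattice | (v : P → ℤ) ∈ D}.ncard := ncard_transport g (fun v => Iff.rfl)
  rw [h1, ncard_subtype (fun x => x ∈ D)]
  congr 1
  ext x
  exact ⟨fun h => h.2, fun h => ⟨hD h, h⟩⟩

theorem SS_subset (C : List (ℕ × ℤ)) : SS C ⊆ leechLattice := fun _ h => h.1

/-- The parts are orbits. -/
theorem orbit_part_eq {H : Subgroup Co0} {g : Co0} {U U₁ : List ℕ} {C : List (ℕ × ℤ)} {r0 : ℕ}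
    {parts : List (ℕ × List ℕ)}
    (hcover : ∀ p ∈ parts, SS (C ++ [(r0, dotZ r0 p.1)]) = dv '' {c | c ∈ p.2})
    (hQ : ∀ p ∈ parts, ∀ c ∈ p.2, FR U (dv p.1) (dv c))
    (hchk : ∀ p ∈ parts, checkSS C p.1 = true)
    (hr0 : r0 ∈ U₁ ∧ dv r0 ∈ leechLattice) (hC₁ : ∀ q ∈ C, q.1 ∈ U₁ ∧ dv q.1 ∈ leechLattice)
    (hfixH : ∀ h ∈ H, ∀ a ∈ U₁, ∀ ha : dv a ∈ leechLattice,
      (g * h * g⁻¹) • (⟨dv a, ha⟩ : leechLattice) = ⟨dv a, ha⟩)
    (h1 : ∀ t : Co0, (∀ u ∈ U, ∀ hu : dv u ∈ leechLattice, t • (⟨dv u, hu⟩ : leechLattice) = ⟨dv u, hu⟩) →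
      g⁻¹ * t * g ∈ H)
    {p : ℕ × List ℕ} (hp : p ∈ parts) (ha : dv p.1 ∈ leechLattice) :
    MulAction.orbit H (g⁻¹ • (⟨dv p.1, ha⟩ : leechLattice)) =
      {y | ((g • y : leechLattice) : P → ℤ) ∈ SS (C ++ [(r0, dotZ r0 p.1)])} := by
  have hS := mem_SS_of_check (hchk p hp)
  apply orbit_of_part ha (SS_subset _) _ h1
  · intro h hh y hy
    have hC₂ : ∀ q ∈ C ++ [(r0, dotZ r0 p.1)], q.1 ∈ U₁ ∧ dv q.1 ∈ leechLattice := by
      intro q hq
      rcases List.mem_append.mp hq with hq | hq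
      · exact hC₁ q hq
      · simp only [List.mem_singleton] at hq
        subst hq
        exact hr0
    refine SS_inv hC₂ ?_ hy
    refine ⟨(g • y).2, (g • (h • y)).2, g * h * g⁻¹, fun a ha' ha'' => hfixH h hh a ha' ha'', ?_⟩
    show (g * h * g⁻¹) • (g • y) = g • ((h : Co0) • y)
    simp only [mul_smul, inv_smul_smul]
  · intro z hz
    rw [hcover p hp] at hz
    obtain ⟨c, hc, rfl⟩ := hz
    exact hQ p hp c hc
  · refine ⟨hS.1, hS.2.1, fun q hq => ?_⟩
    rcases List.mem_append.mp hq with hq | hq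
    · exact hS.2.2 q hq
    · simp only [List.mem_singleton] at hq
      subst hq
      exact dotInt_dv _ _

end Cfsg.Agent.Lib.LeechCert
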