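/-
The certificates for long orbits, in chunks.
-/
import Mathlib
import Cfsg.Prelude.Def_Sporadic_a
import Cfsg.Agent.Lib.LeechCert

set_option autoImplicit false
set_option maxHeartbeats 0

namespace Cfsg.Agent.Lib.LeechCertC

open Cfsg Cfsg.Agent.Lib.GolayCode Cfsg.Agent.Lib.GolayFacts Cfsg.Agent.Lib.GolayPerm
  Cfsg.Agent.Lib.LeechBase Cfsg.Agent.Lib.LeechCo Cfsg.Agent.Lib.LeechXi Cfsg.Agent.Lib.LeechOrb
  Cfsg.Agent.Lib.LeechCert

/-- The machine on a list of chunks of `n` digits. -/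
def runCn (n : ℕ) (G : ℕ → ℕ → ℕ) : List ℕ → ℕ × List ℕ × List ℕ → ℕ × List ℕ × List ℕ
  | [], s => s
  | w :: ws, s =>
    match iterF (stepR G) n (w, s) with
    | (_, c, st, out) => runCn n G ws (c, st, out)

/-- The result. -/
def runMCn (n : ℕ) (G : ℕ → ℕ → ℕ) (ws : List ℕ) (r : ℕ) : List ℕ := (runCn n G ws (r, [], [r])).2.2

/-- The result for chunks of `512` digits. -/
def runMC (G : ℕ → ℕ → ℕ) (ws : List ℕ) (r : ℕ) : List ℕ := runMCn 512 G ws r

theorem runCn_inv (n : ℕ) {G : ℕ → ℕ → ℕ} {Q : ℕ → Prop} (hG : ∀ k c, Q c → normC (G k c) ≠ 0 → Q (normC (G k c))) :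
    ∀ (ws : List ℕ) (s : ℕ × List ℕ × List ℕ), (Q s.1 ∧ (∀ x ∈ s.2.1, Q x) ∧ (∀ x ∈ s.2.2, Q x)) →
      (Q (runCn n G ws s).1 ∧ (∀ x ∈ (runCn n G ws s).2.1, Q x) ∧ (∀ x ∈ (runCn n G ws s).2.2, Q x)) := by
  have hstep : ∀ s : ℕ × ℕ × List ℕ × List ℕ, (Q s.2.1 ∧ (∀ x ∈ s.2.2.1, Q x) ∧ (∀ x ∈ s.2.2.2, Q x)) →
      (Q (stepR G s).2.1 ∧ (∀ x ∈ (stepR G s).2.2.1, Q x) ∧ (∀ x ∈ (stepR G s).2.2.2, Q x)) := by
    rintro ⟨w, c, st, out⟩ ⟨h1, h2, h3⟩
    simp only at h1 h2 h3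
    simp only [stepR]
    cases Nat.mod w 32 with
    | zero =>
      cases st with
      | nil => exact ⟨h1, by simp, h3⟩
      | cons p st' =>
        exact ⟨h2 p (by simp), fun x hx => h2 x (List.mem_cons_of_mem p hx), h3⟩
    | succ d =>
      simp only
      generalize hv : normC (G d c) = v
      cases v with
      | zero => exact ⟨h1, by simp, h3⟩
      | succ m =>
        have h4 := hG d c h1 (by rw [hv]; omega)
        rw [hv] at h4
        refine ⟨h4, ?_, ?_⟩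
        · intro x hx
          rcases List.mem_cons.mp hx with rfl | hx
          · exact h1
          · exact h2 x hx
        · intro x hx
          rcases List.mem_cons.mp hx with rfl | hx
          · exact h4
          · exact h3 x hx
  intro ws
  induction ws with
  | nil => intro s hs; exact hs
  | cons w ws ih =>
    intro s hs
    have h1 := iterF_inv (f := stepR G)
      (I := fun s => Q s.2.1 ∧ (∀ x ∈ s.2.2.1, Q x) ∧ (∀ x ∈ s.2.2.2, Q x)) hstep n (w, s) hs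
    simp only [runCn]
    generalize iterF (stepR G) n (w, s) = t at h1
    obtain ⟨w', c, st, out⟩ := t
    exact ih _ h1

theorem runMCn_inv (n : ℕ) {G : ℕ → ℕ → ℕ} {Q : ℕ → Prop} (hG : ∀ k c, Q c → normC (G k c) ≠ 0 → Q (normC (G k c)))
    (ws : List ℕ) (r : ℕ) (hr : Q r) : ∀ x ∈ runMCn n G ws r, Q x :=
  (runCn_inv n hG ws (r, [], [r]) ⟨hr, by simp, by simp [hr]⟩).2.2

theorem runMC_inv {G : ℕ → ℕ → ℕ} {Q : ℕ → Prop} (hG : ∀ k c, Q c → normC (G k c) ≠ 0 → Q (normC (G k c)))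
    (ws : List ℕ) (r : ℕ) (hr : Q r) : ∀ x ∈ runMC G ws r, Q x :=
  runMCn_inv 512 hG ws r hr

theorem QQ_step {U : List ℕ} {G : ℕ → ℕ → ℕ} (hG : ∀ k, GFix U (G k)) (r : ℕ) :
    ∀ k c, QQ U r c → normC (G k c) ≠ 0 → QQ U r (normC (G k c)) := by
  intro k c hc hne
  refine ⟨(normC_idem _).symm, ?_⟩
  have hne' : G k c ≠ 0 := by
    intro h0
    rw [h0, normC_zero] at hne
    exact hne rfl
  rw [dv_normC]
  exact hc.2.trans (step_FR (hG k) hc.2.mem_right hne')

theorem runMC_QQ {U : List ℕ} {G : ℕ → ℕ → ℕ} (hG : ∀ k, GFix U (G k)) (ws : List ℕ) (r : ℕ) (hr : r = normC r)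
    (hl : dv r ∈ leechLattice) : ∀ x ∈ runMC G ws r, QQ U r x := by
  apply runMC_inv (QQ_step hG r)
  exact ⟨hr, FR.refl hl⟩

/-- The main theorem on certificates. -/
theorem orbit_coverC {U : List ℕ} {atoms : List (ℕ → ℕ)} {words : List (List ℕ)}
    (hatoms : ∀ a ∈ atoms, AtomOK a) (hfix : checkFix atoms words U = true)
    {C : List (ℕ × ℤ)} (hC : ∀ p ∈ C, p.1 ∈ U ∧ dv p.1 ∈ leechLattice)
    {r n' N : ℕ} {ws : List ℕ} (hr : r = normC r) (hS : checkSS C r = true)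
    (hcard : (SS C).ncard = N) (hN : 0 < N)
    (hd : checkDistinct n' N (runMC (genW atoms words) ws r) = true) :
    SS C = dv '' {c | c ∈ runMC (genW atoms words) ws r} ∧ ∀ x ∈ SS C, FR U (dv r) x := by
  have hS' := mem_SS_of_check hS
  have hQ := runMC_QQ (gfix_genW hatoms hfix) ws r hr hS'.1
  obtain ⟨h1, h2⟩ := checkDistinct_spec hN hd
  have h3 := covers hQ h1 (SS_finite C) (by rw [hcard, h2]) (fun c hc => SS_inv hC (hQ c hc).2 hS')
  refine ⟨h3, fun x hx => ?_⟩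
  rw [h3] at hx
  obtain ⟨c, hc, rfl⟩ := hx
  exact (hQ c hc).2

/-! ### Certificates in several parts -/

/-- Equality of lists. -/
def eqL : List ℕ → List ℕ → Bool
  | [], [] => true
  | a :: l, b :: m => Nat.beq a b && eqL l m
  | _, _ => false

theorem eq_of_eqL : ∀ {l m : List ℕ}, eqL l m = true → l = m
  | [], [], _ => rfl
  | [], _ :: _, h => by simp [eqL] at h
  | _ :: _, [], h => by simp [eqL] at h
  | a :: l, b :: m, h => by
    simp only [eqL, Bool.and_eq_true] at h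
    rw [Nat.eq_of_beq_eq_true h.1, eq_of_eqL h.2]

/-- The check of a part of a run. -/
def segChk (G : ℕ → ℕ → ℕ) (ws : List ℕ) (c : ℕ) (st o0 : List ℕ) (c' : ℕ) (st' S : List ℕ) : Bool :=
  match runCn 512 G ws (c, st, o0) with
  | (c2, st2, out) => Nat.beq c2 c' && eqL st2 st' && eqL ((msortLoop 20 (wrap out)).flatten) S

theorem seg_inv {G : ℕ → ℕ → ℕ} {Q : ℕ → Prop} (hG : ∀ k c, Q c → normC (G k c) ≠ 0 → Q (normC (G k c)))
    {ws : List ℕ} {c : ℕ} {st o0 : List ℕ} {c' : ℕ} {st' S : List ℕ}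
    (h : segChk G ws c st o0 c' st' S = true) (hc : Q c) (hst : ∀ x ∈ st, Q x) (ho : ∀ x ∈ o0, Q x) :
    Q c' ∧ (∀ x ∈ st', Q x) ∧ (∀ x ∈ S, Q x) := by
  have h1 := runCn_inv 512 hG ws (c, st, o0) ⟨hc, hst, ho⟩
  rw [segChk] at h
  generalize runCn 512 G ws (c, st, o0) = t at h h1
  obtain ⟨c2, st2, out⟩ := t
  simp only [Bool.and_eq_true] at h
  obtain ⟨⟨h2, h3⟩, h4⟩ := h
  obtain rfl : c2 = c' := Nat.eq_of_beq_eq_true h2
  obtain rfl := eq_of_eqL h3
  obtain rfl := eq_of_eqL h4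
  refine ⟨h1.1, h1.2.1, fun x hx => h1.2.2 x ?_⟩
  have hperm : ((msortLoop 20 (wrap out)).flatten).Perm out := by
    have := msortLoop_perm 20 (wrap out)
    rwa [wrap_flatten] at this
  exact hperm.mem_iff.mp hx

/-- Strictly increasing lists. -/
def ascFrom (p : ℕ) : List ℕ → Bool
  | [] => true
  | a :: l => Nat.blt p a && ascFrom a l

/-- Strictly increasing lists of positive numbers. -/
def ascZ (l : List ℕ) : Bool := ascFrom 0 l

theorem ascFrom_pairwise {p : ℕ} {l : List ℕ} (h : ascFrom p l = true) : (p :: l).Pairwise (· < ·) := by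
  induction l generalizing p with
  | nil => simp
  | cons a l ih =>
    simp only [ascFrom, Bool.and_eq_true] at h
    have h1 : p < a := by simpa using Nat.blt_eq.mp h.1
    have h2 := ih h.2
    rw [List.pairwise_cons] at h2 ⊢
    refine ⟨?_, List.pairwise_cons.mpr h2⟩
    intro x hx
    rcases List.mem_cons.mp hx with rfl | hx
    · exact h1
    · exact lt_trans h1 (h2.1 x hx)

theorem nodup_of_ascZ {l : List ℕ} (h : ascZ l = true) : l.Nodup :=
  (List.pairwise_cons.mp (ascFrom_pairwise h)).2.imp (fun h => ne_of_lt h)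

theorem disjoint_of_merge {S T : List ℕ} (h : ascZ (mergeL S T) = true) : ∀ x ∈ S, x ∉ T := by
  have h1 := (mergeL_perm S T).nodup_iff.mp (nodup_of_ascZ h)
  intro x hx hy
  exact (List.nodup_append.mp h1).2.2 x hx x hy rfl

/-- The covering from a list. -/
theorem orbit_coverL {U : List ℕ} {C : List (ℕ × ℤ)} (hC : ∀ p ∈ C, p.1 ∈ U ∧ dv p.1 ∈ leechLattice)
    {r N : ℕ} {L : List ℕ} (hS : checkSS C r = true)
    (hcard : (SS C).ncard = N) (hQ : ∀ x ∈ L, QQ U r x) (hnd : L.Nodup) (hlen : L.length = N) :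
    SS C = dv '' {c | c ∈ L} ∧ ∀ x ∈ SS C, FR U (dv r) x := by
  have hS' := mem_SS_of_check hS
  have h3 := covers hQ hnd (SS_finite C) (by rw [hcard, hlen]) (fun c hc => SS_inv hC (hQ c hc).2 hS')
  refine ⟨h3, fun x hx => ?_⟩
  rw [h3] at hx
  obtain ⟨c, hc, rfl⟩ := hx
  exact (hQ c hc).2

end Cfsg.Agent.Lib.LeechCertC
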