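/-
Indices of subgroups related to the Leech lattice.
-/
import Mathlib
import Cfsg.Prelude.Def_Sporadic_a
import Cfsg.Agent.Lib.LeechBase

set_option autoImplicit false
set_option linter.unusedSectionVars false
set_option linter.unusedSimpArgs false
set_option linter.unusedVariables false

namespace Cfsg.Agent.Lib.LeechIndex

open Cfsg Cfsg.Agent.Lib.GolayCode Cfsg.Agent.Lib.GolayFacts Cfsg.Agent.Lib.GolayPerm
  Cfsg.Agent.Lib.LeechBase

/-- Reduction modulo 4. -/
def r4 : (P → ℤ) →+ (P → ZMod 4) := (Int.castAddHom (ZMod 4)).compLeft P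

@[simp] theorem r4_apply (x : P → ℤ) (i : P) : r4 x i = (x i : ZMod 4) := rfl

/-- The elements of the image. -/
def rho (m : ℤ) (a : P → ZMod 2) : P → ZMod 4 := fun i => ((m + 2 * bv (a i) : ℤ) : ZMod 4)

/-- The image of the lattice modulo four. -/
def D : AddSubgroup (P → ZMod 4) := leechLattice.map r4

theorem lift_mem {m : ℤ} (hm : m = 0 ∨ m = 1) {a : P → ZMod 2} (ha : a ∈ golayCode) :
    (fun i => m + 2 * bv (a i) + 4 * (if i = none then m else 0)) ∈ leechLattice := by
  rw [mem_lattice_iff]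
  apply leech_intro (m := m) (a := a) (s := fun i => if i = none then m else 0) ha (fun i => rfl)
  obtain ⟨w, hw⟩ := four_dvd_weight ha
  have h1 : ∑ i : P, (m + 2 * bv (a i) + 4 * (if i = none then m else 0)) = 24 * m + 2 * (4 * w) + 4 * m := by
    rw [Finset.sum_add_distrib, Finset.sum_add_distrib, ← hw, ← Finset.mul_sum, ← Finset.mul_sum]
    simp
  rw [h1]
  apply Int.modEq_iff_dvd.mpr
  exact ⟨-3 * m - w, by ring⟩

theorem mem_D {y : P → ZMod 4} : y ∈ D ↔ ∃ m : ℤ, (m = 0 ∨ m = 1) ∧ ∃ a ∈ golayCode, y = rho m a := by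
  constructor
  · rintro ⟨x, hx, rfl⟩
    obtain ⟨m, a, s, hm, ha, hx1, -⟩ := leech_decomp (mem_lattice_iff.mp hx)
    refine ⟨m, hm, a, ha, ?_⟩
    funext i
    simp only [r4_apply, rho, hx1 i]
    push_cast
    have : (4 : ZMod 4) = 0 := rfl
    rw [this, zero_mul, add_zero]
  · rintro ⟨m, hm, a, ha, rfl⟩
    refine ⟨_, lift_mem hm ha, ?_⟩
    funext i
    simp only [r4_apply, rho]
    push_cast
    have : (4 : ZMod 4) = 0 := rfl
    rw [this, zero_mul, add_zero]

theorem rho_inj {m m' : ℤ} (hm : m = 0 ∨ m = 1) (hm' : m' = 0 ∨ m' = 1) {a a' : P → ZMod 2}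
    (h : rho m a = rho m' a') : m = m' ∧ a = a' := by
  have key : ∀ (u v : ZMod 2), ∀ (p q : Bool),
      (((if p then 1 else 0 : ℤ) + 2 * bv u : ℤ) : ZMod 4) = (((if q then 1 else 0 : ℤ) + 2 * bv v : ℤ) : ZMod 4) →
      p = q ∧ u = v := by decide
  have hconv : ∀ n : ℤ, (n = 0 ∨ n = 1) → ∃ p : Bool, n = if p then 1 else 0 := by
    intro n hn
    rcases hn with rfl | rfl
    · exact ⟨false, rfl⟩
    · exact ⟨true, rfl⟩
  obtain ⟨p, rfl⟩ := hconv m hm
  obtain ⟨q, rfl⟩ := hconv m' hm'
  have h1 : ∀ i, p = q ∧ a i = a' i := fun i => key _ _ _ _ (congrFun h i)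
  refine ⟨by rw [(h1 none).1], funext fun i => (h1 i).2⟩

theorem card_D : Nat.card D = 2 ^ 13 := by
  classical
  let φ : Bool × golayCode → D := fun p => ⟨rho (if p.1 then 1 else 0) p.2, mem_D.mpr
    ⟨_, by cases p.1 <;> simp, p.2, p.2.2, rfl⟩⟩
  have hφ : Function.Bijective φ := by
    constructor
    · rintro ⟨p, a⟩ ⟨q, b⟩ h
      have h1 := rho_inj (m := if p then 1 else 0) (m' := if q then 1 else 0)
        (by cases p <;> simp) (by cases q <;> simp) (congrArg Subtype.val h)
      have h2 : p = q := by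
        cases p <;> cases q <;> simp_all
      have h3 : a = b := Subtype.ext h1.2
      rw [h2, h3]
    · rintro ⟨y, hy⟩
      obtain ⟨m, hm, a, ha, rfl⟩ := mem_D.mp hy
      rcases hm with rfl | rfl
      · exact ⟨(false, ⟨a, ha⟩), Subtype.ext rfl⟩
      · exact ⟨(true, ⟨a, ha⟩), Subtype.ext rfl⟩
  rw [← Nat.card_congr (Equiv.ofBijective φ hφ), Nat.card_prod, card_golayCode]
  simp

/-- the all-twos word -/
def twos : P → ZMod 4 := fun _ => 2

theorem twos_mem_D : twos ∈ D := by
  rw [mem_D]
  refine ⟨0, Or.inl rfl, one', one_mem', ?_⟩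
  funext i
  simp only [twos, rho, one']
  rw [bv_one]
  rfl

/-- The subgroup `{0, twos}`. -/
def E0 : AddSubgroup (P → ZMod 4) where
  carrier := {y | y = 0 ∨ y = twos}
  zero_mem' := Or.inl rfl
  add_mem' := by
    have h : twos + twos = 0 := by
      funext i
      show (2 : ZMod 4) + 2 = 0
      decide
    rintro a b (rfl | rfl) (rfl | rfl)
    · exact Or.inl (add_zero _)
    · exact Or.inr (zero_add _)
    · exact Or.inr (add_zero _)
    · exact Or.inl h
  neg_mem' := by
    have h : -twos = twos := by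
      funext i
      show -(2 : ZMod 4) = 2
      decide
    rintro a (rfl | rfl)
    · exact Or.inl neg_zero
    · exact Or.inr h

theorem zero_ne_twos : (0 : P → ZMod 4) ≠ twos := by
  intro h
  have := congrFun h none
  simp [twos] at this
  exact absurd this (by decide)

/-- The subgroup of the theorem. -/
def A0 : AddSubgroup (P → ℤ) := leechLattice ⊓ E0.comap r4

theorem A0_le : A0 ≤ leechLattice := inf_le_left

theorem two_smul_mem {v : P → ℤ} (hv : v ∈ leechLattice) : (2 : ℤ) • v ∈ A0 := by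
  refine ⟨zsmul_mem hv 2, ?_⟩
  obtain ⟨m, a, s, hm, ha, hx1, -⟩ := leech_decomp (mem_lattice_iff.mp hv)
  show r4 ((2 : ℤ) • v) = 0 ∨ r4 ((2 : ℤ) • v) = twos
  have h1 : ∀ i, r4 ((2 : ℤ) • v) i = ((2 * m : ℤ) : ZMod 4) := by
    intro i
    simp only [r4_apply, Pi.smul_apply, smul_eq_mul, hx1 i]
    have h2 : (2 * (m + 2 * bv (a i) + 4 * s i) : ℤ) = 2 * m + 4 * (bv (a i) + 2 * s i) := by ring
    rw [h2]
    push_cast
    have : (4 : ZMod 4) = 0 := rfl
    rw [this, zero_mul, add_zero]
  rcases hm with rfl | rfl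
  · left
    funext i
    rw [h1]
    rfl
  · right
    funext i
    rw [h1]
    rfl

theorem norm_A0 {v : P → ℤ} (hv : v ∈ A0) : (32 : ℤ) ∣ sqNorm v := by
  obtain ⟨hv1, hv2⟩ := hv
  obtain ⟨m, a, s, hm, ha, hx1, hx2⟩ := leech_decomp (mem_lattice_iff.mp hv1)
  have hv3 : r4 v = 0 ∨ r4 v = twos := hv2
  have hev : ∀ t : ℤ, (2 : ℤ) ∣ t * (t + 1) := by
    intro t
    have := Int.even_mul_succ_self t
    exact even_iff_two_dvd.mp this
  rcases hv3 with h0 | h2
  · -- all coordinates divisible by four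
    have hx3 : ∀ i, ∃ t, v i = 4 * t := by
      intro i
      have h3 : ((v i : ℤ) : ZMod 4) = 0 := congrFun h0 i
      have := (ZMod.intCast_zmod_eq_zero_iff_dvd (v i) 4).mp h3
      exact this
    choose t ht using hx3
    have hsum : ∑ i, v i = 4 * ∑ i, t i := by
      simp only [ht, Finset.mul_sum]
    have hm0 : m = 0 := by
      rcases hm with rfl | rfl
      · rfl
      · have := hx1 none
        rw [ht none] at this
        omega
    rw [hm0, hsum] at hx2
    have h4 := Int.modEq_iff_dvd.mp hx2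
    have h5 : (2 : ℤ) ∣ ∑ i, t i := by omega
    have hn : sqNorm v = 16 * ∑ i, t i ^ 2 := by
      simp only [sqNorm, ht, Finset.mul_sum]
      exact Finset.sum_congr rfl fun i _ => by ring
    have h6 : (2 : ℤ) ∣ ∑ i, t i ^ 2 + ∑ i, t i := by
      rw [← Finset.sum_add_distrib]
      apply Finset.dvd_sum
      intro i _
      obtain ⟨k, hk⟩ := hev (t i)
      exact ⟨k, by linarith⟩
    have h7 := (dvd_add_left h5).mp h6
    obtain ⟨k, hk⟩ := h7
    rw [hn, hk]
    exact ⟨k, by ring⟩
  · -- all coordinates twice an odd number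
    have hx3 : ∀ i, ∃ t, v i = 2 + 4 * t := by
      intro i
      have h3 : ((v i : ℤ) : ZMod 4) = 2 := congrFun h2 i
      have h4 : ((v i - 2 : ℤ) : ZMod 4) = 0 := by
        push_cast
        rw [h3]
        decide
      have hd : (4 : ℤ) ∣ v i - 2 := (ZMod.intCast_zmod_eq_zero_iff_dvd (v i - 2) 4).mp h4
      obtain ⟨t, ht⟩ := hd
      exact ⟨t, by linarith⟩
    choose t ht using hx3
    have hn : sqNorm v = 96 + 16 * ∑ i, t i * (t i + 1) := by
      have : ∀ i, v i ^ 2 = 4 + 16 * (t i * (t i + 1)) := by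
        intro i
        rw [ht i]
        ring
      simp only [sqNorm, this, Finset.sum_add_distrib, ← Finset.mul_sum]
      simp
    have h6 : (2 : ℤ) ∣ ∑ i, t i * (t i + 1) := Finset.dvd_sum fun i _ => hev (t i)
    obtain ⟨k, hk⟩ := h6
    rw [hn, hk]
    exact ⟨3 + k, by ring⟩

/-- The index of `A0`. -/
theorem index_A0 : (A0.addSubgroupOf leechLattice).index = 2 ^ 12 := by
  classical
  let R : leechLattice →+ D := (r4.comp leechLattice.subtype).codRestrict D
    (fun v => ⟨v, v.2, rfl⟩)
  have hR : Function.Surjective R := by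
    rintro ⟨y, x, hx, rfl⟩
    exact ⟨⟨x, hx⟩, rfl⟩
  have hcomap : A0.addSubgroupOf leechLattice = (E0.addSubgroupOf D).comap R := by
    ext v
    simp only [AddSubgroup.mem_addSubgroupOf, AddSubgroup.mem_comap]
    constructor
    · intro h
      exact h.2
    · intro h
      exact ⟨v.2, h⟩
  rw [hcomap, AddSubgroup.index_comap_of_surjective _ hR]
  have hcard := AddSubgroup.card_mul_index (E0.addSubgroupOf D)
  rw [card_D] at hcard
  have hE : Nat.card (E0.addSubgroupOf D) = 2 := by
    let z : D := ⟨0, D.zero_mem⟩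
    let w : D := ⟨twos, twos_mem_D⟩
    have hzw : z ≠ w := fun h => zero_ne_twos (congrArg Subtype.val h)
    have h1 : ((E0.addSubgroupOf D : AddSubgroup D) : Set D) = {z, w} := by
      ext y
      simp only [SetLike.mem_coe, AddSubgroup.mem_addSubgroupOf, Set.mem_insert_iff, Set.mem_singleton_iff]
      constructor
      · rintro (h | h)
        · exact Or.inl (Subtype.ext h)
        · exact Or.inr (Subtype.ext h)
      · rintro (rfl | rfl)
        · exact Or.inl rfl
        · exact Or.inr rfl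
    have h2 : Nat.card ↥(E0.addSubgroupOf D) = ({z, w} : Set D).ncard := by
      rw [← h1]
      rfl
    rw [h2, Set.ncard_pair hzw]
  rw [hE] at hcard
  omega

/-! ### The index in `ℤ^24` -/

/-- Reduction modulo 8. -/
def r8 : (P → ℤ) →+ (P → ZMod 8) := (Int.castAddHom (ZMod 8)).compLeft P

@[simp] theorem r8_apply (x : P → ℤ) (i : P) : r8 x i = (x i : ZMod 8) := rfl

theorem r8_surj : Function.Surjective r8 := by
  intro y
  refine ⟨fun i => ((y i).val : ℤ), ?_⟩
  funext i
  simp only [r8_apply]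
  push_cast
  exact ZMod.natCast_zmod_val _

/-- multiples of eight are in the lattice -/
theorem ker_r8_le : r8.ker ≤ leechLattice := by
  intro x hx
  have hx' : ∀ i, ((x i : ℤ) : ZMod 8) = 0 := fun i => congrFun hx i
  have h1 : ∀ i, ∃ t, x i = 8 * t := fun i =>
    (ZMod.intCast_zmod_eq_zero_iff_dvd (x i) 8).mp (hx' i)
  choose t ht using h1
  rw [mem_lattice_iff]
  apply leech_intro (m := 0) (a := 0) (s := fun i => 2 * t i) golayCode.zero_mem
  · intro i
    simp [bv_zero, ht i]
    ring
  · apply Int.modEq_iff_dvd.mpr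
    refine ⟨-∑ i, t i, ?_⟩
    simp only [ht, ← Finset.mul_sum]
    ring

/-- The image of the lattice modulo 8. -/
def L8 : AddSubgroup (P → ZMod 8) := leechLattice.map r8

theorem comap_L8 : L8.comap r8 = leechLattice := by
  rw [L8, AddSubgroup.comap_map_eq]
  exact sup_eq_left.mpr ker_r8_le

/-- Reduction from 8 to 4. -/
def r84 : (P → ZMod 8) →+ (P → ZMod 4) :=
  ((ZMod.castHom (by norm_num : 4 ∣ 8) (ZMod 4)).toAddMonoidHom).compLeft P

theorem r84_r8 (x : P → ℤ) : r84 (r8 x) = r4 x := by
  funext i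
  simp [r84, r8_apply, r4_apply]

/-- The map `L8 → D`. -/
def R84 : L8 →+ D := (r84.comp L8.subtype).codRestrict D (by
  rintro ⟨_, x, hx, rfl⟩
  exact ⟨x, hx, (r84_r8 x).symm⟩)

theorem R84_surj : Function.Surjective R84 := by
  rintro ⟨_, x, hx, rfl⟩
  exact ⟨⟨r8 x, x, hx, rfl⟩, Subtype.ext (r84_r8 x)⟩

/-- Embedding of bit vectors. -/
def fourTimes (s : P → ZMod 2) : P → ZMod 8 := fun i => ((4 * bv (s i) : ℤ) : ZMod 8)

theorem fourTimes_inj {s t : P → ZMod 2} (h : fourTimes s = fourTimes t) : s = t := by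
  funext i
  have key : ∀ u v : ZMod 2, ((4 * bv u : ℤ) : ZMod 8) = ((4 * bv v : ℤ) : ZMod 8) → u = v := by decide
  exact key _ _ (congrFun h i)

/-- sum of a bit vector -/
def sumB : (P → ZMod 2) →+ ZMod 2 where
  toFun s := ∑ i, s i
  map_zero' := by simp
  map_add' a b := by simp [Finset.sum_add_distrib]

theorem sumB_surj : Function.Surjective sumB := by
  intro a
  refine ⟨fun i => if i = none then a else 0, ?_⟩
  simp [sumB]

theorem card_ker_sumB : Nat.card sumB.ker = 2 ^ 23 := by
  have h1 := AddSubgroup.card_mul_index sumB.ker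
  rw [AddSubgroup.index_ker, AddMonoidHom.range_eq_top.mpr sumB_surj] at h1
  have h2 : Nat.card (P → ZMod 2) = 2 ^ 24 := by
    rw [Nat.card_eq_fintype_card]
    simp
  have h3 : Nat.card (⊤ : AddSubgroup (ZMod 2)) = 2 := by
    simp
  rw [h2, h3] at h1
  omega

theorem sum_bv_parity (s : P → ZMod 2) : ((∑ i, bv (s i) : ℤ) : ZMod 2) = ∑ i, s i := by
  push_cast
  refine Finset.sum_congr rfl fun i _ => ?_
  generalize s i = a
  revert a
  decide

theorem card_ker_R84 : Nat.card R84.ker = 2 ^ 23 := by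
  classical
  let φ : sumB.ker → R84.ker := fun s => ⟨⟨fourTimes s, by
      refine ⟨fun i => 4 * bv ((s : P → ZMod 2) i), ?_, ?_⟩
      · refine mem_lattice_iff.mpr ?_
        apply leech_intro (m := 0) (a := 0) (s := fun i => bv ((s : P → ZMod 2) i)) golayCode.zero_mem
        · intro i
          simp [bv_zero]
        · have hs : ∑ i, (s : P → ZMod 2) i = 0 := s.2
          rw [← sum_bv_parity] at hs
          have h1 : (2 : ℤ) ∣ ∑ i, bv ((s : P → ZMod 2) i) :=
            (ZMod.intCast_zmod_eq_zero_iff_dvd _ 2).mp hs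
          obtain ⟨k, hk⟩ := h1
          apply Int.modEq_iff_dvd.mpr
          refine ⟨-k, ?_⟩
          rw [← Finset.mul_sum, hk]
          ring
      · rfl⟩, by
      apply Subtype.ext
      funext i
      show ((4 * bv ((s : P → ZMod 2) i) : ℤ) : ZMod 8).cast = (0 : ZMod 4)
      generalize (s : P → ZMod 2) i = a
      revert a
      decide⟩
  have hφ : Function.Bijective φ := by
    constructor
    · intro a b h
      have h1 : fourTimes a = fourTimes b := congrArg (fun z => ((z : L8) : P → ZMod 8)) (congrArg Subtype.val h)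
      exact Subtype.ext (fourTimes_inj h1)
    · rintro ⟨⟨y, x, hx, rfl⟩, hker⟩
      -- `x` is divisible by four
      have h4 : ∀ i, ((x i : ℤ) : ZMod 4) = 0 := by
        intro i
        have h5 : R84 ⟨r8 x, x, hx, rfl⟩ = 0 := hker
        have h6 := congrArg Subtype.val h5
        have h7 : r84 (r8 x) = 0 := h6
        rw [r84_r8] at h7
        exact congrFun h7 i
      have h5 : ∀ i, ∃ t, x i = 4 * t := fun i =>
        (ZMod.intCast_zmod_eq_zero_iff_dvd (x i) 4).mp (h4 i)
      choose t ht using h5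
      obtain ⟨m, a, s, hm, ha, hx1, hx2⟩ := leech_decomp (mem_lattice_iff.mp hx)
      have hm0 : m = 0 := by
        rcases hm with rfl | rfl
        · rfl
        · have := hx1 none
          rw [ht none] at this
          omega
      subst hm0
      have hsum : ∑ i, x i = 4 * ∑ i, t i := by
        simp only [ht, Finset.mul_sum]
      rw [hsum] at hx2
      have h6 := Int.modEq_iff_dvd.mp hx2
      have h7 : (2 : ℤ) ∣ ∑ i, t i := by omega
      let u : P → ZMod 2 := fun i => ((t i : ℤ) : ZMod 2)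
      have hu : u ∈ sumB.ker := by
        show ∑ i, ((t i : ℤ) : ZMod 2) = 0
        have : ((∑ i, t i : ℤ) : ZMod 2) = 0 := (ZMod.intCast_zmod_eq_zero_iff_dvd _ 2).mpr h7
        simpa using this
      refine ⟨⟨u, hu⟩, ?_⟩
      apply Subtype.ext
      apply Subtype.ext
      funext i
      show ((4 * bv (u i) : ℤ) : ZMod 8) = ((x i : ℤ) : ZMod 8)
      rw [ht i]
      have key : ∀ z : ℤ, ((4 * bv ((z : ℤ) : ZMod 2) : ℤ) : ZMod 8) = ((4 * z : ℤ) : ZMod 8) := by
        intro z
        rcases Int.even_or_odd' z with ⟨c, rfl | rfl⟩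
        · have h8 : (((2 * c : ℤ)) : ZMod 2) = 0 := by
            push_cast
            have : (2 : ZMod 2) = 0 := rfl
            rw [this, zero_mul]
          rw [h8, bv_zero]
          have h9 : (4 * (2 * c) : ℤ) = 8 * c := by ring
          rw [h9]
          push_cast
          have : (8 : ZMod 8) = 0 := rfl
          rw [this, zero_mul]
        · have h8 : (((2 * c + 1 : ℤ)) : ZMod 2) = 1 := by
            push_cast
            have : (2 : ZMod 2) = 0 := rfl
            rw [this, zero_mul, zero_add]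
          rw [h8, bv_one]
          have h9 : (4 * (2 * c + 1) : ℤ) = 8 * c + 4 := by ring
          rw [h9]
          push_cast
          have : (8 : ZMod 8) = 0 := rfl
          rw [this, zero_mul, zero_add]
      exact key _
  rw [← Nat.card_congr (Equiv.ofBijective φ hφ), card_ker_sumB]

theorem card_L8 : Nat.card L8 = 2 ^ 36 := by
  have h1 := AddSubgroup.card_mul_index R84.ker
  rw [AddSubgroup.index_ker, AddMonoidHom.range_eq_top.mpr R84_surj, card_ker_R84] at h1
  have h2 : Nat.card (⊤ : AddSubgroup D) = 2 ^ 13 := by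
    rw [Nat.card_congr (AddSubgroup.topEquiv (G := D)).toEquiv]
    exact card_D
  rw [h2] at h1
  rw [← h1]
  norm_num

/-- The index of the lattice. -/
theorem index_lattice : leechLattice.index = 2 ^ 36 := by
  rw [← comap_L8, AddSubgroup.index_comap_of_surjective _ r8_surj]
  have h1 := AddSubgroup.card_mul_index L8
  have h2 : Nat.card (P → ZMod 8) = 8 ^ 24 := by
    rw [Nat.card_eq_fintype_card]
    simp
  rw [card_L8, h2] at h1
  omega

end Cfsg.Agent.Lib.LeechIndex
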