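/-
Classes of the Leech lattice modulo twice the lattice.
-/
import Mathlib
import Cfsg.Prelude.Def_Sporadic_a
import Cfsg.Prelude.Def_SporadicCombinatorics
import Cfsg.Agent.Lib.LeechBase
import Cfsg.Agent.Lib.LeechIndex
import Cfsg.Agent.Lib.LeechCensus

set_option autoImplicit false
set_option linter.unusedSectionVars false
set_option linter.unusedSimpArgs false
set_option linter.unusedVariables false

namespace Cfsg.Agent.Lib.LeechClasses

open Cfsg Cfsg.Agent.Lib.GolayCode Cfsg.Agent.Lib.GolayFacts Cfsg.Agent.Lib.GolayPerm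
  Cfsg.Agent.Lib.LeechBase Cfsg.Agent.Lib.LeechCensus

/-- doubling -/
def dbl : (P → ℤ) →+ (P → ℤ) := nsmulAddMonoidHom 2

@[simp] theorem dbl_apply (x : P → ℤ) : dbl x = (2 : ℕ) • x := rfl

theorem dbl_ker : dbl.ker = ⊥ := by
  rw [eq_bot_iff]
  intro x hx
  have hx' : (2 : ℕ) • x = 0 := hx
  funext i
  have := congrFun hx' i
  simp only [Pi.smul_apply, Pi.zero_apply, nsmul_eq_mul] at this
  show x i = 0
  push_cast at this
  omega

/-- reduction modulo two -/
def r2 : (P → ℤ) →+ (P → ZMod 2) := (Int.castAddHom (ZMod 2)).compLeft P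

@[simp] theorem r2_apply (x : P → ℤ) (i : P) : r2 x i = (x i : ZMod 2) := rfl

theorem r2_surj : Function.Surjective r2 := by
  intro y
  refine ⟨fun i => ((y i).val : ℤ), ?_⟩
  funext i
  simp only [r2_apply]
  push_cast
  exact ZMod.natCast_zmod_val _

theorem range_dbl : dbl.range = r2.ker := by
  ext x
  constructor
  · rintro ⟨y, rfl⟩
    show r2 ((2 : ℕ) • y) = 0
    funext i
    show (((2 : ℕ) • y i : ℤ) : ZMod 2) = 0
    rw [nsmul_eq_mul]
    push_cast
    have : (2 : ZMod 2) = 0 := rfl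
    rw [this, zero_mul]
  · intro hx
    have h1 : ∀ i, ∃ t, x i = 2 * t := fun i =>
      (ZMod.intCast_zmod_eq_zero_iff_dvd (x i) 2).mp (congrFun hx i)
    choose t ht using h1
    refine ⟨t, ?_⟩
    funext i
    simp only [dbl_apply, Pi.smul_apply, nsmul_eq_mul]
    rw [ht i]
    push_cast
    rfl

theorem index_range_dbl : dbl.range.index = 2 ^ 24 := by
  rw [range_dbl, AddSubgroup.index_ker, AddMonoidHom.range_eq_top.mpr r2_surj]
  have h2 : Nat.card (P → ZMod 2) = 2 ^ 24 := by
    rw [Nat.card_eq_fintype_card]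
    simp
  simpa using h2

/-- twice the lattice -/
def Tw : AddSubgroup (P → ℤ) := leechLattice.map dbl

theorem Tw_le : Tw ≤ leechLattice := by
  rintro _ ⟨x, hx, rfl⟩
  exact nsmul_mem hx 2

theorem mem_Tw {x : P → ℤ} : x ∈ Tw ↔ ∃ z ∈ leechLattice, x = (2 : ℕ) • z := by
  constructor
  · rintro ⟨z, hz, rfl⟩
    exact ⟨z, hz, rfl⟩
  · rintro ⟨z, hz, rfl⟩
    exact ⟨z, hz, rfl⟩

theorem index_Tw : Tw.index = 2 ^ 36 * 2 ^ 24 := by
  rw [Tw, AddSubgroup.index_map, dbl_ker, sup_bot_eq, index_range_dbl, LeechIndex.index_lattice]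

theorem relIndex_Tw : Tw.relIndex leechLattice = 2 ^ 24 := by
  have h := AddSubgroup.relIndex_mul_index Tw_le
  rw [index_Tw, LeechIndex.index_lattice] at h
  have h2 : (2 : ℕ) ^ 36 ≠ 0 := by norm_num
  have h3 : Tw.relIndex leechLattice * 2 ^ 36 = 2 ^ 24 * 2 ^ 36 := by
    rw [h]
    ring
  exact Nat.eq_of_mul_eq_mul_right (by norm_num) h3

/-- The quotient of the lattice modulo twice the lattice. -/
abbrev Q := ↥(leechLattice : AddSubgroup (P → ℤ)) ⧸ Tw.addSubgroupOf leechLattice

theorem card_Q : Nat.card Q = 2 ^ 24 := relIndex_Tw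

instance : Finite Q := by
  apply Nat.finite_of_card_ne_zero
  rw [card_Q]
  norm_num

/-- the class of a vector -/
abbrev cl (v : ↥(leechLattice : AddSubgroup (P → ℤ))) : Q := QuotientAddGroup.mk v

theorem cl_eq {v w : ↥(leechLattice : AddSubgroup (P → ℤ))} :
    cl v = cl w ↔ ∃ z ∈ leechLattice, (v : P → ℤ) - w = (2 : ℕ) • z := by
  rw [eq_comm, QuotientAddGroup.eq, AddSubgroup.mem_addSubgroupOf, mem_Tw]
  simp only [AddSubgroup.coe_add, AddSubgroup.coe_neg]
  constructor
  · rintro ⟨z, hz, h⟩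
    refine ⟨z, hz, ?_⟩
    rw [← h]
    abel
  · rintro ⟨z, hz, h⟩
    refine ⟨z, hz, ?_⟩
    rw [← h]
    abel

/-- Bessel-type bound for frames. -/
theorem card_le_48 (F : Finset (P → ℤ)) (hN : ∀ y ∈ F, sqNorm y = 64) (hneg : ∀ y ∈ F, -y ∈ F)
    (horth : ∀ y ∈ F, ∀ y' ∈ F, y' = y ∨ y' = -y ∨ dotInt y y' = 0) : F.card ≤ 48 := by
  classical
  -- inner sum
  have hinner : ∀ (i : P), ∀ y ∈ F, ∑ y' ∈ F, y' i * dotInt y y' = 128 * y i := by
    intro i y hy
    have hy0 : y ≠ -y := by
      intro h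
      have h1 : y = 0 := by
        funext j
        have := congrFun h j
        simp only [Pi.neg_apply] at this
        show y j = 0
        omega
      have := hN y hy
      rw [h1] at this
      simp [sqNorm] at this
    have hsub : ({y, -y} : Finset (P → ℤ)) ⊆ F := by
      intro u hu
      simp only [Finset.mem_insert, Finset.mem_singleton] at hu
      rcases hu with rfl | rfl
      · exact hy
      · exact hneg _ hy
    have hzero : ∀ y' ∈ F, y' ∉ ({y, -y} : Finset (P → ℤ)) → y' i * dotInt y y' = 0 := by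
      intro y' hy' hn
      simp only [Finset.mem_insert, Finset.mem_singleton, not_or] at hn
      rcases horth y hy y' hy' with h | h | h
      · exact absurd h hn.1
      · exact absurd h hn.2
      · rw [h, mul_zero]
    rw [← Finset.sum_subset hsub hzero, Finset.sum_pair hy0]
    have h1 : dotInt y y = 64 := by
      rw [← hN y hy]
      simp only [dotInt, sqNorm]
      exact Finset.sum_congr rfl fun i _ => by ring
    have h2 : dotInt y (-y) = -64 := by
      have : dotInt y (-y) = - dotInt y y := by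
        simp only [dotInt, Pi.neg_apply, mul_neg, Finset.sum_neg_distrib]
      rw [this, h1]
    rw [h1, h2]
    simp only [Pi.neg_apply]
    ring
  have hbound : ∀ i : P, ∑ y ∈ F, y i ^ 2 ≤ 128 := by
    intro i
    set S := ∑ y ∈ F, y i ^ 2 with hS
    let v : P → ℤ := fun j => ∑ y ∈ F, y i * y j
    have hvi : v i = S := by
      simp only [v, hS]
      exact Finset.sum_congr rfl fun y _ => by ring
    have hv : sqNorm v = 128 * S := by
      have h1 : sqNorm v = ∑ y ∈ F, y i * ∑ y' ∈ F, y' i * dotInt y y' := by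
        simp only [sqNorm, v, dotInt, sq, Finset.mul_sum, Finset.sum_mul]
        rw [Finset.sum_comm]
        refine Finset.sum_congr rfl fun y _ => ?_
        rw [Finset.sum_comm]
        refine Finset.sum_congr rfl fun y' _ => ?_
        refine Finset.sum_congr rfl fun j _ => ?_
        ring
      rw [h1, Finset.sum_congr rfl fun y hy => by rw [hinner i y hy], hS, Finset.mul_sum]
      exact Finset.sum_congr rfl fun y _ => by ring
    have h2 : v i ^ 2 ≤ sqNorm v := sq_le_sqNorm v i
    rw [hvi, hv] at h2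
    have hS0 : 0 ≤ S := Finset.sum_nonneg fun y _ => sq_nonneg _
    by_contra hcon
    push Not at hcon
    nlinarith
  have htotal : (F.card : ℤ) * 64 = ∑ i, ∑ y ∈ F, y i ^ 2 := by
    rw [Finset.sum_comm]
    have : ∑ y ∈ F, ∑ i, y i ^ 2 = ∑ y ∈ F, (64 : ℤ) :=
      Finset.sum_congr rfl fun y hy => hN y hy
    rw [this, Finset.sum_const]
    simp
  have hle : ∑ i : P, ∑ y ∈ F, y i ^ 2 ≤ ∑ _i : P, (128 : ℤ) := Finset.sum_le_sum fun i _ => hbound i
  have h24 : ∑ _i : P, (128 : ℤ) = 24 * 128 := by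
    simp [card_P]
  rw [h24, ← htotal] at hle
  have : (F.card : ℤ) ≤ 48 := by omega
  exact_mod_cast this

/-- The vectors of the lattice of given norm. -/
def XS (N : ℕ) : Set ↥(leechLattice : AddSubgroup (P → ℤ)) := {v | sqNorm (v : P → ℤ) = (N : ℤ)}

theorem XS_image (N : ℕ) : Subtype.val '' XS N = {x : P → ℤ | x ∈ leechLattice ∧ sqNorm x = (N : ℤ)} := by
  ext x
  constructor
  · rintro ⟨v, hv, rfl⟩
    exact ⟨v.2, hv⟩
  · rintro ⟨h1, h2⟩
    exact ⟨⟨x, h1⟩, h2, rfl⟩

theorem ncard_XS (N : ℕ) : (XS N).ncard = {x : P → ℤ | x ∈ leechLattice ∧ sqNorm x = (N : ℤ)}.ncard := by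
  rw [← XS_image, Set.ncard_image_of_injective _ Subtype.val_injective]

theorem XS_finite {N : ℕ} (hN : N ≤ 64) : (XS N).Finite := by
  have h : Set.Finite {x : P → ℤ | x ∈ leechLattice ∧ sqNorm x = (N : ℤ)} := by
    have h1 : {x : P → ℤ | x ∈ leechLattice ∧ sqNorm x = (N : ℤ)} ⊆
        ⋃ k ∈ Finset.range 4096, (Pat 0 (dec (spanMask k)) N ∪ Pat 1 (dec (spanMask k)) N) := by
      rintro x ⟨h2, h3⟩
      obtain ⟨k, hk, h4⟩ := exists_pat h2 h3
      simp only [Set.mem_iUnion, Finset.mem_range, exists_prop, Set.mem_union]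
      exact ⟨k, hk, h4⟩
    refine Set.Finite.subset ?_ h1
    apply Set.Finite.biUnion (Finset.finite_toSet _)
    intro k _
    exact (pat_finite (Or.inl rfl) _ hN).union (pat_finite (Or.inr rfl) _ hN)
  rw [← XS_image] at h
  exact Set.Finite.of_finite_image h Subtype.val_injective.injOn

/-- the finset of vectors of small norm -/
noncomputable def XF {N : ℕ} (hN : N ≤ 64) : Finset ↥(leechLattice : AddSubgroup (P → ℤ)) := (XS_finite hN).toFinset

theorem mem_XF {N : ℕ} (hN : N ≤ 64) {v : ↥(leechLattice : AddSubgroup (P → ℤ))} :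
    v ∈ XF hN ↔ sqNorm (v : P → ℤ) = (N : ℤ) := by
  simp [XF, XS]

theorem card_XF {N : ℕ} (hN : N ≤ 64) : (XF hN).card = {x : P → ℤ | x ∈ leechLattice ∧ sqNorm x = (N : ℤ)}.ncard := by
  rw [← ncard_XS, ← Set.ncard_coe_finset]
  congr 1
  simp [XF]

open scoped Classical

/-- Fibres in low norms have at most two elements. -/
theorem fiber_le_two {N : ℕ} (hN : N ≤ 64) (hN' : N < 64) (c : Q) :
    ((XF hN).filter (fun v => cl v = c)).card ≤ 2 := by
  classical
  by_contra hcon
  push Not at hcon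
  obtain ⟨a, b, d, ha, hb, hd, hab, had, hbd⟩ := Finset.two_lt_card_iff.mp hcon
  simp only [Finset.mem_filter, mem_XF] at ha hb hd
  have key : ∀ u v : ↥(leechLattice : AddSubgroup (P → ℤ)), sqNorm (u : P → ℤ) = (N : ℤ) →
      sqNorm (v : P → ℤ) = (N : ℤ) → cl u = c → cl v = c → u ≠ v → (u : P → ℤ) = -(v : P → ℤ) := by
    intro u v hu hv hcu hcv huv
    have h1 := cl_eq.mp (hcu.trans hcv.symm)
    have hN1 : (N : ℤ) < 64 := by exact_mod_cast hN'
    rcases congr_small u.2 v.2 (fun h => huv (Subtype.ext h)) (by omega) (by omega) h1 with h | h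
    · exact h
    · omega
  have h1 := key a b ha.1 hb.1 ha.2 hb.2 hab
  have h2 := key a d ha.1 hd.1 ha.2 hd.2 had
  apply hbd
  apply Subtype.ext
  have h3 : -((b : P → ℤ)) = -((d : P → ℤ)) := by rw [← h1, ← h2]
  exact neg_injective h3

/-- Fibres in norm `64` have at most `48` elements. -/
theorem fiber_le_48 (c : Q) :
    ((XF (N := 64) le_rfl).filter (fun v => cl v = c)).card ≤ 48 := by
  classical
  set G := (XF (N := 64) le_rfl).filter (fun v => cl v = c) with hG
  have hmem : ∀ v, v ∈ G ↔ sqNorm (v : P → ℤ) = 64 ∧ cl v = c := by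
    intro v
    simp only [hG, Finset.mem_filter, mem_XF]
    simp
  have hinj : Set.InjOn (Subtype.val : ↥(leechLattice : AddSubgroup (P → ℤ)) → (P → ℤ)) G :=
    Subtype.val_injective.injOn
  rw [← Finset.card_image_of_injOn hinj]
  apply card_le_48
  · intro y hy
    obtain ⟨v, hv, rfl⟩ := Finset.mem_image.mp hy
    exact ((hmem v).mp hv).1
  · intro y hy
    obtain ⟨v, hv, rfl⟩ := Finset.mem_image.mp hy
    obtain ⟨h1, h2⟩ := (hmem v).mp hv
    refine Finset.mem_image.mpr ⟨-v, (hmem _).mpr ⟨?_, ?_⟩, rfl⟩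
    · rw [← h1]
      simp only [sqNorm, AddSubgroup.coe_neg, Pi.neg_apply]
      exact Finset.sum_congr rfl fun i _ => by ring
    · rw [← h2]
      apply cl_eq.mpr
      refine ⟨-(v : P → ℤ), neg_mem v.2, ?_⟩
      simp only [AddSubgroup.coe_neg, two_nsmul]
      abel
  · intro y hy y' hy'
    obtain ⟨v, hv, rfl⟩ := Finset.mem_image.mp hy
    obtain ⟨w, hw, rfl⟩ := Finset.mem_image.mp hy'
    obtain ⟨h1, h2⟩ := (hmem v).mp hv
    obtain ⟨h3, h4⟩ := (hmem w).mp hw
    by_cases hwv : (w : P → ℤ) = v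
    · exact Or.inl hwv
    right
    have h5 := cl_eq.mp (h4.trans h2.symm)
    rcases congr_small w.2 v.2 hwv (by omega) (by omega) h5 with h | h
    · exact Or.inl h
    · right
      have h6 := h.2.2
      simp only [dotInt] at h6 ⊢
      rw [← h6]
      exact Finset.sum_congr rfl fun i _ => by ring

/-- images -/
noncomputable def AF {N : ℕ} (hN : N ≤ 64) : Finset Q := (XF hN).image cl

theorem count32 : (XF (N := 32) (by norm_num)).card = 196560 := by
  rw [card_XF]
  simpa using count_32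

theorem count48 : (XF (N := 48) (by norm_num)).card = 16773120 := by
  rw [card_XF]
  simpa using count_48

theorem count64 : (XF (N := 64) (by norm_num)).card = 398034000 := by
  rw [card_XF]
  simpa using count_64

theorem card_A32 : 98280 ≤ (AF (N := 32) (by norm_num)).card := by
  have h1 := Finset.card_le_mul_card_image (XF (N := 32) (by norm_num)) 2 (f := cl)
    (fun c _ => fiber_le_two _ (by norm_num : 32 < 64) c)
  rw [count32] at h1
  have : (XF (N := 32) (by norm_num)).image cl = AF (N := 32) (by norm_num) := rfl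
  rw [this] at h1
  omega

theorem card_A48 : 8386560 ≤ (AF (N := 48) (by norm_num)).card := by
  have h1 := Finset.card_le_mul_card_image (XF (N := 48) (by norm_num)) 2 (f := cl)
    (fun c _ => fiber_le_two _ (by norm_num : 48 < 64) c)
  rw [count48] at h1
  have : (XF (N := 48) (by norm_num)).image cl = AF (N := 48) (by norm_num) := rfl
  rw [this] at h1
  omega

theorem card_A64 : 8292375 ≤ (AF (N := 64) (by norm_num)).card := by
  have h1 := Finset.card_le_mul_card_image (XF (N := 64) (by norm_num)) 48 (f := cl)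
    (fun c _ => fiber_le_48 c)
  rw [count64] at h1
  have : (XF (N := 64) (by norm_num)).image cl = AF (N := 64) (by norm_num) := rfl
  rw [this] at h1
  omega

/-- the class of zero -/
noncomputable def A0F : Finset Q := {cl 0}

theorem disjoint_short {N N' : ℕ} (hN : N ≤ 64) (hN' : N' ≤ 64) (hne : N ≠ N') : Disjoint (AF hN) (AF hN') := by
  rw [Finset.disjoint_left]
  intro c hc hc'
  obtain ⟨u, hu, rfl⟩ := Finset.mem_image.mp hc
  obtain ⟨v, hv, h⟩ := Finset.mem_image.mp hc'
  rw [mem_XF] at hu hv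
  have h1 := cl_eq.mp h
  have hne' : (N : ℤ) ≠ N' := by exact_mod_cast hne
  have hN1 : (N : ℤ) ≤ 64 := by exact_mod_cast hN
  have hN2 : (N' : ℤ) ≤ 64 := by exact_mod_cast hN'
  have hvu : (v : P → ℤ) ≠ u := fun h => hne' (by rw [← hu, ← hv, h])
  rcases congr_small v.2 u.2 hvu (by omega) (by omega) h1 with h2 | h2
  · apply hne'
    rw [← hu, ← hv, h2]
    simp only [sqNorm, Pi.neg_apply]
    exact Finset.sum_congr rfl fun i _ => by ring
  · omega

theorem disjoint_zero {N : ℕ} (hN : N ≤ 64) (hN0 : N ≠ 0) (hN' : N < 64) : Disjoint A0F (AF hN) := by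
  rw [Finset.disjoint_left]
  intro c hc hc'
  rw [A0F, Finset.mem_singleton] at hc
  obtain ⟨v, hv, h⟩ := Finset.mem_image.mp hc'
  rw [mem_XF] at hv
  rw [hc] at h
  have h1 := cl_eq.mp h
  have hN1 : (N : ℤ) < 64 := by exact_mod_cast hN'
  have hN2 : (N : ℤ) ≠ 0 := by exact_mod_cast hN0
  have h0 : (v : P → ℤ) ≠ ((0 : ↥(leechLattice : AddSubgroup (P → ℤ))) : P → ℤ) := by
    intro h
    rw [h] at hv
    apply hN2
    rw [← hv]
    simp [sqNorm]
  have hz : sqNorm (((0 : ↥(leechLattice : AddSubgroup (P → ℤ))) : P → ℤ)) = 0 := by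
    simp [sqNorm]
  rcases congr_small v.2 (0 : ↥(leechLattice : AddSubgroup (P → ℤ))).2 h0 (by omega) (by omega) h1 with h2 | h2
  · apply h0
    rw [h2]
    simp
  · rw [hz] at h2
    omega

theorem disjoint_zero64 : Disjoint A0F (AF (N := 64) le_rfl) := by
  rw [Finset.disjoint_left]
  intro c hc hc'
  rw [A0F, Finset.mem_singleton] at hc
  obtain ⟨v, hv, h⟩ := Finset.mem_image.mp hc'
  rw [mem_XF] at hv
  rw [hc] at h
  have h1 := cl_eq.mp h
  have hz : sqNorm (((0 : ↥(leechLattice : AddSubgroup (P → ℤ))) : P → ℤ)) = 0 := by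
    simp [sqNorm]
  have h0 : (v : P → ℤ) ≠ ((0 : ↥(leechLattice : AddSubgroup (P → ℤ))) : P → ℤ) := by
    intro h
    rw [h, hz] at hv
    norm_num at hv
  rcases congr_small v.2 (0 : ↥(leechLattice : AddSubgroup (P → ℤ))).2 h0 (by rw [hv]; norm_num) (by omega) h1 with h2 | h2
  · apply h0
    rw [h2]
    simp
  · rw [hz] at h2
    omega

noncomputable instance : Fintype Q := Fintype.ofFinite Q

theorem card_Q' : Fintype.card Q = 2 ^ 24 := by
  rw [← Nat.card_eq_fintype_card, card_Q]

/-- Cardinalities of the four parts. -/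
theorem partition_facts :
    (A0F ∪ (AF (N := 32) (by norm_num) ∪ (AF (N := 48) (by norm_num) ∪ AF (N := 64) (by norm_num)))) = Finset.univ ∧
    (AF (N := 64) (by norm_num)).card ≤ 8292375 := by
  have d1 : Disjoint (AF (N := 48) (by norm_num)) (AF (N := 64) (by norm_num)) :=
    disjoint_short _ _ (by norm_num)
  have d2 : Disjoint (AF (N := 32) (by norm_num)) (AF (N := 48) (by norm_num) ∪ AF (N := 64) (by norm_num)) := by
    rw [Finset.disjoint_union_right]
    exact ⟨disjoint_short _ _ (by norm_num), disjoint_short _ _ (by norm_num)⟩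
  have d3 : Disjoint A0F (AF (N := 32) (by norm_num) ∪ (AF (N := 48) (by norm_num) ∪ AF (N := 64) (by norm_num))) := by
    rw [Finset.disjoint_union_right, Finset.disjoint_union_right]
    exact ⟨disjoint_zero _ (by norm_num) (by norm_num), disjoint_zero _ (by norm_num) (by norm_num), disjoint_zero64⟩
  have hcard : (A0F ∪ (AF (N := 32) (by norm_num) ∪ (AF (N := 48) (by norm_num) ∪ AF (N := 64) (by norm_num)))).card =
      1 + ((AF (N := 32) (by norm_num)).card + ((AF (N := 48) (by norm_num)).card + (AF (N := 64) (by norm_num)).card)) := by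
    rw [Finset.card_union_of_disjoint d3, Finset.card_union_of_disjoint d2, Finset.card_union_of_disjoint d1]
    simp [A0F]
  have hle := Finset.card_le_univ (A0F ∪ (AF (N := 32) (by norm_num) ∪ (AF (N := 48) (by norm_num) ∪ AF (N := 64) (by norm_num))))
  rw [hcard, card_Q'] at hle
  have h1 := card_A32
  have h2 := card_A48
  have h3 := card_A64
  constructor
  · apply Finset.eq_univ_of_card
    rw [hcard, card_Q']
    omega
  · omega

/-- Every class has a short representative. -/
theorem exists_short (x : P → ℤ) (hx : x ∈ leechLattice) :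
    ∃ y ∈ leechLattice, sqNorm y ≤ 64 ∧ ∃ z ∈ leechLattice, x - y = (2 : ℕ) • z := by
  have h1 : cl ⟨x, hx⟩ ∈ (A0F ∪ (AF (N := 32) (by norm_num) ∪ (AF (N := 48) (by norm_num) ∪ AF (N := 64) (by norm_num)))) := by
    rw [partition_facts.1]
    exact Finset.mem_univ _
  have key : ∀ N (hN : N ≤ 64), cl ⟨x, hx⟩ ∈ AF hN → ∃ y ∈ leechLattice, sqNorm y ≤ 64 ∧ ∃ z ∈ leechLattice, x - y = (2 : ℕ) • z := by
    intro N hN h
    obtain ⟨v, hv, h2⟩ := Finset.mem_image.mp h
    rw [mem_XF] at hv
    refine ⟨v, v.2, ?_, cl_eq.mp h2.symm⟩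
    rw [hv]
    exact_mod_cast hN
  simp only [Finset.mem_union] at h1
  rcases h1 with h | h | h | h
  · rw [A0F, Finset.mem_singleton] at h
    refine ⟨0, zero_mem _, by simp [sqNorm], ?_⟩
    have := cl_eq.mp h
    simpa using this
  · exact key _ _ h
  · exact key _ _ h
  · exact key _ _ h

/-- The exact size of the fibres. -/
theorem fiber_eq_48 {v : ↥(leechLattice : AddSubgroup (P → ℤ))} (hv : sqNorm (v : P → ℤ) = 64) :
    ((XF (N := 64) le_rfl).filter (fun u => cl u = cl v)).card = 48 := by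
  by_contra hcon
  have hlt : ((XF (N := 64) le_rfl).filter (fun u => cl u = cl v)).card < 48 :=
    lt_of_le_of_ne (fiber_le_48 _) hcon
  have hsum := Finset.card_eq_sum_card_image cl (XF (N := 64) le_rfl)
  have hmemv : cl v ∈ (XF (N := 64) le_rfl).image cl := Finset.mem_image_of_mem _ ((mem_XF _).mpr (by exact_mod_cast hv))
  have hlt2 : ∑ c ∈ (XF (N := 64) le_rfl).image cl, ((XF (N := 64) le_rfl).filter (fun u => cl u = c)).card <
      ∑ c ∈ (XF (N := 64) le_rfl).image cl, 48 :=
    Finset.sum_lt_sum (fun c _ => fiber_le_48 c) ⟨cl v, hmemv, hlt⟩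
  rw [← hsum, count64, Finset.sum_const, smul_eq_mul] at hlt2
  have h1 := partition_facts.2
  have h2 : ((XF (N := 64) le_rfl).image cl).card ≤ 8292375 := h1
  omega

/-- The cross of a frame vector. -/
theorem ncard_cross (x : P → ℤ) (hx : x ∈ leechLattice) (hxn : sqNorm x = 64) : (cross x).ncard = 48 := by
  have h1 := fiber_eq_48 (v := ⟨x, hx⟩) hxn
  have h2 : cross x = Subtype.val '' (↑((XF (N := 64) le_rfl).filter (fun u => cl u = cl ⟨x, hx⟩)) :
      Set ↥(leechLattice : AddSubgroup (P → ℤ))) := by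
    ext y
    simp only [cross, Set.mem_ofPred_eq, Set.mem_image, Finset.coe_filter, mem_XF]
    constructor
    · rintro ⟨h3, h4, h5⟩
      refine ⟨⟨y, h3⟩, ⟨by rw [h4, hxn]; rfl, ?_⟩, rfl⟩
      apply cl_eq.mpr
      obtain ⟨z, hz, h6⟩ := h5
      refine ⟨-z, neg_mem hz, ?_⟩
      simp only [smul_neg]
      rw [← h6]
      abel
    · rintro ⟨u, ⟨h3, h4⟩, rfl⟩
      refine ⟨u.2, by rw [h3, hxn]; rfl, ?_⟩
      exact cl_eq.mp h4.symm
  rw [h2, Set.ncard_image_of_injective _ Subtype.val_injective, Set.ncard_coe_finset, h1]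

end Cfsg.Agent.Lib.LeechClasses
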