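/-
Certificates for the action of stabilisers in the automorphism group of the Leech lattice (LeechCo2Card).
-/
import Mathlib
import Cfsg.Prelude.Def_Sporadic_a
import Cfsg.Agent.Lib.LeechCert
import Cfsg.Agent.Lib.LeechCert2
import Cfsg.Agent.Lib.LeechCo2

set_option autoImplicit false
set_option maxHeartbeats 0
set_option linter.unusedSectionVars false
set_option linter.unusedSimpArgs false
set_option linter.unusedVariables false

namespace Cfsg.Agent.Lib.LeechCo2Card

open Cfsg Cfsg.Agent.Lib.GolayCode Cfsg.Agent.Lib.GolayFacts Cfsg.Agent.Lib.GolayPerm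
  Cfsg.Agent.Lib.LeechBase Cfsg.Agent.Lib.LeechCo Cfsg.Agent.Lib.LeechXi Cfsg.Agent.Lib.LeechOrb
  Cfsg.Agent.Lib.LeechCert Cfsg.Agent.Lib.LeechDFS Cfsg.Agent.Lib.LeechMinCount

open Cfsg.Agent.Lib.LeechCo2


theorem card4600 : (SS [(vC, -16)]).ncard = 4600 := by
  apply card_SS1 vC_bd (T1 := 80) (Tg := 48) (by norm_num) (by norm_num) vTb_eq
  decide +kernel

theorem card47104 : (SS [(vC, -8)]).ncard = 47104 := by
  apply card_SS1 vC_bd (T1 := 88) (Tg := 56) (by norm_num) (by norm_num) vTb_eq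
  decide +kernel

theorem card93150 : (SS [(vC, 0)]).ncard = 93150 := by
  apply card_SS1 vC_bd (T1 := 96) (Tg := 64) (by norm_num) (by norm_num) vTb_eq
  decide +kernel

end Cfsg.Agent.Lib.LeechCo2Card
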