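/-
Transport of the certificates for minimal vectors.
-/
import Mathlib
import Cfsg.Prelude.Def_Sporadic_a
import Cfsg.Agent.Lib.LeechCert
import Cfsg.Agent.Lib.LeechCo2
import Cfsg.Agent.Lib.LeechCo2Card

set_option autoImplicit false
set_option linter.unusedSectionVars false
set_option linter.unusedSimpArgs false
set_option linter.unusedVariables false

namespace Cfsg.Agent.Lib.LeechCo2Facts

open Cfsg Cfsg.Agent.Lib.GolayCode Cfsg.Agent.Lib.GolayFacts Cfsg.Agent.Lib.GolayPerm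
  Cfsg.Agent.Lib.LeechBase Cfsg.Agent.Lib.LeechCo Cfsg.Agent.Lib.LeechXi Cfsg.Agent.Lib.LeechOrb
  Cfsg.Agent.Lib.LeechCert Cfsg.Agent.Lib.LeechDFS Cfsg.Agent.Lib.LeechMinCount Cfsg.Agent.Lib.LeechCo2 Cfsg.Agent.Lib.LeechCo2Card

/-- the base vector -/
def V₀ : leechLattice := ⟨dv vC, vC_mem⟩

theorem sqNorm_V₀ : sqNorm (V₀ : P → ℤ) = 32 := by
  show sqNorm (dv vC) = 32
  rw [sqNorm_dv]
  decide +kernel

theorem exists_to_base (u : leechLattice) (hu : sqNorm (u : P → ℤ) = 32) : ∃ g : Co0, g • u = V₀ :=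
  trans_32 u V₀ hu sqNorm_V₀

theorem dot_base {g : Co0} {u : leechLattice} (hg : g • u = V₀) (v : leechLattice) :
    dotInt (dv vC) ((g • v : leechLattice) : P → ℤ) = dotInt (u : P → ℤ) (v : P → ℤ) := by
  rw [← dot_smul g u v, hg]
  rfl

theorem mem_SS_iff {g : Co0} {u : leechLattice} (hg : g • u = V₀) (T : ℤ) (v : leechLattice) :
    ((g • v : leechLattice) : P → ℤ) ∈ SS [(vC, T)] ↔ sqNorm (v : P → ℤ) = 32 ∧ dotInt (u : P → ℤ) (v : P → ℤ) = T := by
  constructor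
  · rintro ⟨_, h2, h3⟩
    refine ⟨by rw [← sqNorm_smul' g v]; exact h2, ?_⟩
    have := h3 (vC, T) (by simp)
    simp only at this
    rwa [dot_base hg] at this
  · rintro ⟨h1, h2⟩
    refine ⟨(g • v).2, by rw [sqNorm_smul']; exact h1, fun p hp => ?_⟩
    simp only [List.mem_singleton] at hp
    subst hp
    simp only
    rwa [dot_base hg]

/-- The number of minimal vectors with a given inner product, from the base case. -/
theorem ncard_of_base {g : Co0} {u : leechLattice} (hg : g • u = V₀) (T : ℤ) :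
    {v : leechLattice | sqNorm (v : P → ℤ) = 32 ∧ dotInt (u : P → ℤ) (v : P → ℤ) = T}.ncard = (SS [(vC, T)]).ncard := by
  have h1 : {v : leechLattice | sqNorm (v : P → ℤ) = 32 ∧ dotInt (u : P → ℤ) (v : P → ℤ) = T}.ncard =
      {v : leechLattice | (v : P → ℤ) ∈ SS [(vC, T)]}.ncard :=
    ncard_transport g fun v => (mem_SS_iff hg T v).symm
  rw [h1, ncard_subtype (fun x => x ∈ SS [(vC, T)])]
  congr 1
  ext x
  exact ⟨fun h => h.2, fun h => ⟨h.1, h⟩⟩

theorem exists_of_FR {g₀ : Co0} {u v v' : leechLattice} (hg : g₀ • u = V₀)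
    (h : FR [vC] ((g₀ • v : leechLattice) : P → ℤ) ((g₀ • v' : leechLattice) : P → ℤ)) :
    ∃ g : Co0, g • u = u ∧ g • v = v' := by
  obtain ⟨hx, hy, k, hk1, hk2⟩ := h
  refine ⟨g₀⁻¹ * k * g₀, fixes_conj g₀ k ?_, exists_conj g₀ k hk2⟩
  rw [hg]
  exact hk1 vC (by simp) vC_mem

end Cfsg.Agent.Lib.LeechCo2Facts
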