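/-
Certificates for the action of stabilisers in the automorphism group of the Leech lattice (LeechCo2c).
-/
import Mathlib
import Cfsg.Prelude.Def_Sporadic_a
import Cfsg.Agent.Lib.LeechCert
import Cfsg.Agent.Lib.LeechCert2
import Cfsg.Agent.Lib.LeechCertC
import Cfsg.Agent.Lib.LeechCo2
import Cfsg.Agent.Lib.LeechCo2Card
import Cfsg.Agent.Lib.LeechCo2c0
import Cfsg.Agent.Lib.LeechCo2c1
import Cfsg.Agent.Lib.LeechCo2c2
import Cfsg.Agent.Lib.LeechCo2c3
import Cfsg.Agent.Lib.LeechCo2c4
import Cfsg.Agent.Lib.LeechCo2c5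

set_option autoImplicit false
set_option maxHeartbeats 0
set_option linter.unusedSectionVars false
set_option linter.unusedSimpArgs false
set_option linter.unusedVariables false

namespace Cfsg.Agent.Lib.LeechCo2c

open Cfsg Cfsg.Agent.Lib.GolayCode Cfsg.Agent.Lib.GolayFacts Cfsg.Agent.Lib.GolayPerm
  Cfsg.Agent.Lib.LeechBase Cfsg.Agent.Lib.LeechCo Cfsg.Agent.Lib.LeechXi Cfsg.Agent.Lib.LeechOrb
  Cfsg.Agent.Lib.LeechCert Cfsg.Agent.Lib.LeechDFS Cfsg.Agent.Lib.LeechMinCount

open Cfsg.Agent.Lib.LeechCertC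
open Cfsg.Agent.Lib.LeechCo2
open Cfsg.Agent.Lib.LeechCo2Card

/-- the base point -/
def r93150 : ℕ := 1088

theorem dj01 : ascZ (mergeL LeechCo2c0.S LeechCo2c1.S) = true := by decide +kernel

theorem dj02 : ascZ (mergeL LeechCo2c0.S LeechCo2c2.S) = true := by decide +kernel

theorem dj03 : ascZ (mergeL LeechCo2c0.S LeechCo2c3.S) = true := by decide +kernel

theorem dj04 : ascZ (mergeL LeechCo2c0.S LeechCo2c4.S) = true := by decide +kernel

theorem dj05 : ascZ (mergeL LeechCo2c0.S LeechCo2c5.S) = true := by decide +kernel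

theorem dj12 : ascZ (mergeL LeechCo2c1.S LeechCo2c2.S) = true := by decide +kernel

theorem dj13 : ascZ (mergeL LeechCo2c1.S LeechCo2c3.S) = true := by decide +kernel

theorem dj14 : ascZ (mergeL LeechCo2c1.S LeechCo2c4.S) = true := by decide +kernel

theorem dj15 : ascZ (mergeL LeechCo2c1.S LeechCo2c5.S) = true := by decide +kernel

theorem dj23 : ascZ (mergeL LeechCo2c2.S LeechCo2c3.S) = true := by decide +kernel

theorem dj24 : ascZ (mergeL LeechCo2c2.S LeechCo2c4.S) = true := by decide +kernel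

theorem dj25 : ascZ (mergeL LeechCo2c2.S LeechCo2c5.S) = true := by decide +kernel

theorem dj34 : ascZ (mergeL LeechCo2c3.S LeechCo2c4.S) = true := by decide +kernel

theorem dj35 : ascZ (mergeL LeechCo2c3.S LeechCo2c5.S) = true := by decide +kernel

theorem dj45 : ascZ (mergeL LeechCo2c4.S LeechCo2c5.S) = true := by decide +kernel

/-- the list -/
def L93150 : List ℕ := LeechCo2c0.S ++ (LeechCo2c1.S ++ (LeechCo2c2.S ++ (LeechCo2c3.S ++ (LeechCo2c4.S ++ LeechCo2c5.S))))

theorem hr0 : r93150 = normC r93150 := by decide +kernel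

theorem hS0 : checkSS [(vC, 0)] r93150 = true := by decide +kernel

theorem hl0 : dv r93150 ∈ leechLattice := (mem_SS_of_check hS0).1

theorem hQ_all : ∀ x ∈ L93150, QQ [vC] r93150 x := by
  have hG := QQ_step (r := r93150) (gfix_genW co2Atoms_ok co2_fix)
  have hr : QQ [vC] r93150 r93150 := ⟨hr0, FR.refl hl0⟩
  have h0 := seg_inv hG LeechCo2c0.seg_ok hr (by simp) (fun x hx => by rw [List.mem_singleton] at hx; rw [hx]; exact hr)
  have h1 := seg_inv hG LeechCo2c1.seg_ok h0.1 h0.2.1 (by simp)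
  have h2 := seg_inv hG LeechCo2c2.seg_ok h1.1 h1.2.1 (by simp)
  have h3 := seg_inv hG LeechCo2c3.seg_ok h2.1 h2.2.1 (by simp)
  have h4 := seg_inv hG LeechCo2c4.seg_ok h3.1 h3.2.1 (by simp)
  have h5 := seg_inv hG LeechCo2c5.seg_ok h4.1 h4.2.1 (by simp)
  intro x hx
  simp only [L93150, List.mem_append] at hx
  rcases hx with hx | hx | hx | hx | hx | hx
  · exact h0.2.2 x hx
  · exact h1.2.2 x hx
  · exact h2.2.2 x hx
  · exact h3.2.2 x hx
  · exact h4.2.2 x hx
  · exact h5.2.2 x hx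

theorem nodup_app {S T : List ℕ} (hS : S.Nodup) (hT : T.Nodup) (h : ∀ x ∈ S, x ∉ T) : (S ++ T).Nodup :=
  List.nodup_append.mpr ⟨hS, hT, fun a ha b hb hab => h a ha (hab ▸ hb)⟩

theorem L_nodup : L93150.Nodup := by
  have n0 := nodup_of_ascZ LeechCo2c0.asc_ok
  have n1 := nodup_of_ascZ LeechCo2c1.asc_ok
  have n2 := nodup_of_ascZ LeechCo2c2.asc_ok
  have n3 := nodup_of_ascZ LeechCo2c3.asc_ok
  have n4 := nodup_of_ascZ LeechCo2c4.asc_ok
  have n5 := nodup_of_ascZ LeechCo2c5.asc_ok
  have d01 := disjoint_of_merge dj01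
  have d02 := disjoint_of_merge dj02
  have d03 := disjoint_of_merge dj03
  have d04 := disjoint_of_merge dj04
  have d05 := disjoint_of_merge dj05
  have d12 := disjoint_of_merge dj12
  have d13 := disjoint_of_merge dj13
  have d14 := disjoint_of_merge dj14
  have d15 := disjoint_of_merge dj15
  have d23 := disjoint_of_merge dj23
  have d24 := disjoint_of_merge dj24
  have d25 := disjoint_of_merge dj25
  have d34 := disjoint_of_merge dj34
  have d35 := disjoint_of_merge dj35
  have d45 := disjoint_of_merge dj45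
  have a4 : (LeechCo2c4.S ++ LeechCo2c5.S).Nodup := nodup_app n4 n5 d45
  have a3 : (LeechCo2c3.S ++ (LeechCo2c4.S ++ LeechCo2c5.S)).Nodup := nodup_app n3 a4 (fun x hx hy => by
    rcases List.mem_append.mp hy with hy | hy
    · exact d34 x hx hy
    · exact d35 x hx hy)
  have a2 : (LeechCo2c2.S ++ (LeechCo2c3.S ++ (LeechCo2c4.S ++ LeechCo2c5.S))).Nodup := nodup_app n2 a3 (fun x hx hy => by
    simp only [List.mem_append] at hy
    rcases hy with hy | hy | hy
    · exact d23 x hx hy
    · exact d24 x hx hy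
    · exact d25 x hx hy)
  have a1 : (LeechCo2c1.S ++ (LeechCo2c2.S ++ (LeechCo2c3.S ++ (LeechCo2c4.S ++ LeechCo2c5.S)))).Nodup := nodup_app n1 a2 (fun x hx hy => by
    simp only [List.mem_append] at hy
    rcases hy with hy | hy | hy | hy
    · exact d12 x hx hy
    · exact d13 x hx hy
    · exact d14 x hx hy
    · exact d15 x hx hy)
  exact nodup_app n0 a1 (fun x hx hy => by
    simp only [List.mem_append] at hy
    rcases hy with hy | hy | hy | hy | hy
    · exact d01 x hx hy
    · exact d02 x hx hy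
    · exact d03 x hx hy
    · exact d04 x hx hy
    · exact d05 x hx hy)

theorem L_len : L93150.length = 93150 := by
  simp only [L93150, List.length_append, LeechCo2c0.len_ok, LeechCo2c1.len_ok, LeechCo2c2.len_ok, LeechCo2c3.len_ok,
    LeechCo2c4.len_ok, LeechCo2c5.len_ok]

theorem cover93150 : SS [(vC, 0)] = dv '' {c | c ∈ L93150} ∧ ∀ x ∈ SS [(vC, 0)], FR [vC] (dv r93150) x :=
  orbit_coverL (hC_co2 _) hS0 card93150 hQ_all L_nodup L_len

end Cfsg.Agent.Lib.LeechCo2c
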