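import Cfsg.Agent.Lib.LeechLIndex

/-!
# Counting vectors of the lattice of small norm

Generating-number method (Kronecker substitution): vectors with a prescribed residue pattern are the
members of a product of finite sets; the number of those with given statistics is a digit of a big
natural number computed by the kernel.
-/

set_option autoImplicit false
set_option linter.constructorNameAsVariable false

namespace Cfsg.Agent.Lib.LeechCount

open Cfsg Cfsg.Agent.Lib.GolayCode Cfsg.Agent.Lib.GolayFacts Cfsg.Agent.Lib.GolayM12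
open Cfsg.Agent.Lib.LeechL Finset

/-- Base. -/
def Bs : ℕ := 18446744073709551616

theorem Bs_gt : 5 ^ 24 < Bs := by decide +kernel

/-- Exponent of a coordinate. -/
def ex (t : ℤ) : ℕ := (t ^ 2).toNat * 256 + (t % 8).toNat

/-- The coordinate options in a residue class. -/
def Sr : ℤ → Finset ℤ := fun r => ({-8, -7, -6, -5, -4, -3, -2, -1, 0, 1, 2, 3, 4, 5, 6, 7, 8} : Finset ℤ).filter (fun t => t % 4 = r % 4)

theorem mem_Sr {r t : ℤ} : t ∈ Sr r ↔ (-8 ≤ t ∧ t ≤ 8) ∧ t % 4 = r % 4 := by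
  simp only [Sr, Finset.mem_filter, Finset.mem_insert, Finset.mem_singleton]
  constructor
  · rintro ⟨h, h2⟩
    exact ⟨by omega, h2⟩
  · rintro ⟨h, h2⟩
    exact ⟨by omega, h2⟩

/-- Value of a coordinate set. -/
def Ar (B : ℕ) (r : ℤ) : ℕ := ∑ t ∈ Sr r, B ^ ex t

def A0 : ℕ := 2 * Bs ^ 16384 + 2 * Bs ^ 4100 + 1
def A1 : ℕ := Bs ^ 12545 + Bs ^ 2309 + Bs ^ 257 + Bs ^ 6405
def A2 : ℕ := Bs ^ 9218 + Bs ^ 1030 + Bs ^ 1026 + Bs ^ 9222
def A3 : ℕ := Bs ^ 6403 + Bs ^ 263 + Bs ^ 2307 + Bs ^ 12551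

theorem card_Sr_le (r : ℤ) : (Sr r).card ≤ 5 := by
  have h : Sr r = Sr (r % 4) := by
    ext t
    simp only [mem_Sr]
    omega
  rw [h]
  have h2 : r % 4 = 0 ∨ r % 4 = 1 ∨ r % 4 = 2 ∨ r % 4 = 3 := by omega
  rcases h2 with h2 | h2 | h2 | h2 <;> rw [h2] <;> decide +kernel

/-- The vectors in a residue pattern. -/
def Xf (m : ℤ) (c : Finset GolayPt) : Finset (GolayPt → ℤ) :=
  Fintype.piFinset fun i => Sr (m + if i ∈ c then 2 else 0)

theorem mem_Xf {m : ℤ} {c : Finset GolayPt} {x : GolayPt → ℤ} :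
    x ∈ Xf m c ↔ ∀ i, x i ∈ Sr (m + if i ∈ c then 2 else 0) := by
  simp [Xf, Fintype.mem_piFinset]

/-- Total exponent. -/
def Wt (x : GolayPt → ℤ) : ℕ := ∑ i, ex (x i)

theorem card_Xf_le (m : ℤ) (c : Finset GolayPt) : (Xf m c).card ≤ 5 ^ 24 := by
  rw [Xf, Fintype.card_piFinset]
  calc ∏ i : GolayPt, (Sr (m + if i ∈ c then 2 else 0)).card ≤ ∏ _i : GolayPt, 5 :=
        Finset.prod_le_prod' fun i _ => card_Sr_le _
    _ = 5 ^ 24 := by simp

/-- The generating number of a pattern. -/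
def Gm (B : ℕ) (m : ℤ) (w : ℕ) : ℕ := Ar B (m + 2) ^ w * Ar B m ^ (24 - w)

theorem sum_Xf (B : ℕ) (m : ℤ) (c : Finset GolayPt) :
    ∑ x ∈ Xf m c, B ^ Wt x = Gm B m c.card := by
  have h1 := (Finset.prod_univ_sum (fun i : GolayPt => Sr (m + if i ∈ c then 2 else 0))
    (fun _ t => B ^ ex t)).symm
  have h2 : ∀ x : GolayPt → ℤ, ∏ i, B ^ ex (x i) = B ^ Wt x := by
    intro x
    rw [Finset.prod_pow_eq_pow_sum]
    rfl
  simp only [h2] at h1
  rw [Xf, h1]
  have h3 : ∀ i : GolayPt, ∑ t ∈ Sr (m + if i ∈ c then 2 else 0), B ^ ex t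
      = if i ∈ c then Ar B (m + 2) else Ar B m := by
    intro i
    by_cases hi : i ∈ c
    · simp only [hi, if_true]; rfl
    · simp only [hi, if_false, add_zero]; rfl
  simp only [h3]
  rw [Finset.prod_ite, Finset.prod_const, Finset.prod_const]
  have h4 : (Finset.univ.filter fun i => i ∈ c) = c := by ext; simp
  have h5 : (Finset.univ.filter fun i => i ∉ c).card = 24 - c.card := by
    have : (Finset.univ.filter fun i => i ∉ c) = cᶜ := by ext; simp
    rw [this, Finset.card_compl]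
    simp
  rw [h4, h5]
  rfl

/-- Digit extraction. -/
theorem digit_sum {B : ℕ} (hB : 0 < B) (n : ℕ → ℕ) (hn : ∀ w, n w < B) (M w : ℕ) (hw : w < M) :
    (∑ v ∈ Finset.range M, n v * B ^ v) / B ^ w % B = n w := by
  induction w generalizing n M with
  | zero =>
    obtain ⟨M, rfl⟩ : ∃ M', M = M' + 1 := ⟨M - 1, by omega⟩
    rw [Finset.sum_range_succ']
    simp only [pow_zero, mul_one, Nat.div_one]
    have : ∑ k ∈ Finset.range M, n (k + 1) * B ^ (k + 1) = B * ∑ k ∈ Finset.range M, n (k + 1) * B ^ k := by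
      rw [Finset.mul_sum]
      exact Finset.sum_congr rfl fun k _ => by ring
    rw [this, Nat.mul_add_mod]
    exact Nat.mod_eq_of_lt (hn 0)
  | succ w ih =>
    obtain ⟨M, rfl⟩ : ∃ M', M = M' + 1 := ⟨M - 1, by omega⟩
    rw [Finset.sum_range_succ']
    have : ∑ k ∈ Finset.range M, n (k + 1) * B ^ (k + 1) = B * ∑ k ∈ Finset.range M, n (k + 1) * B ^ k := by
      rw [Finset.mul_sum]
      exact Finset.sum_congr rfl fun k _ => by ring
    rw [this, pow_succ', ← Nat.div_div_eq_div_mul]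
    simp only [pow_zero, mul_one]
    have h2 : (B * ∑ k ∈ Finset.range M, n (k + 1) * B ^ k + n 0) / B
        = ∑ k ∈ Finset.range M, n (k + 1) * B ^ k := by
      rw [Nat.add_comm, Nat.add_mul_div_left _ _ hB, Nat.div_eq_of_lt (hn 0), zero_add]
    rw [h2]
    exact ih (fun k => n (k + 1)) (fun k => hn _) M (by omega)

/-- Exponent bound. -/
theorem ex_le {t : ℤ} (h1 : -8 ≤ t) (h2 : t ≤ 8) : ex t ≤ 16391 := by
  have h3 : t ^ 2 ≤ 64 := by nlinarith
  have h4 := sq_nonneg t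
  have h5 := Int.emod_nonneg t (show (8 : ℤ) ≠ 0 by norm_num)
  have h6 := Int.emod_lt_of_pos t (show (0 : ℤ) < 8 by norm_num)
  simp only [ex]
  omega

theorem Wt_lt {m : ℤ} {c : Finset GolayPt} {x : GolayPt → ℤ} (hx : x ∈ Xf m c) : Wt x < 393385 := by
  have h : Wt x ≤ ∑ _i : GolayPt, 16391 := by
    apply Finset.sum_le_sum
    intro i _
    have := (mem_Sr.mp (mem_Xf.mp hx i)).1
    exact ex_le this.1 this.2
  simp at h
  omega

theorem sum_fiber (B M : ℕ) (m : ℤ) (c : Finset GolayPt) (hM : ∀ x ∈ Xf m c, Wt x < M) :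
    ∑ x ∈ Xf m c, B ^ Wt x
        = ∑ v ∈ Finset.range M, ((Xf m c).filter fun x => Wt x = v).card * B ^ v := by
  rw [← Finset.sum_fiberwise_of_maps_to (g := Wt) (t := Finset.range M)
    (fun x hx => Finset.mem_range.mpr (hM x hx))]
  refine Finset.sum_congr rfl fun v _ => ?_
  rw [Finset.sum_congr rfl (g := fun _ => B ^ v) (fun x hx => by rw [(Finset.mem_filter.mp hx).2])]
  rw [Finset.sum_const, smul_eq_mul]

/-- Number of vectors with a given exponent, as a digit. -/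
theorem card_Wt_aux (B M : ℕ) (hB : 5 ^ 24 < B) (m : ℤ) (c : Finset GolayPt)
    (hM : ∀ x ∈ Xf m c, Wt x < M) (w : ℕ) :
    ((Xf m c).filter fun x => Wt x = w).card = Gm B m c.card / B ^ w % B := by
  have hB0 : 0 < B := by omega
  have hcard : ∀ v, ((Xf m c).filter fun x => Wt x = v).card < B := fun v =>
    lt_of_le_of_lt (le_trans (Finset.card_filter_le _ _) (card_Xf_le m c)) hB
  rw [← sum_Xf, sum_fiber B M m c hM]
  by_cases hw : w < M
  · exact (digit_sum hB0 _ hcard _ w hw).symm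
  · have h0 : ((Xf m c).filter fun x => Wt x = w) = ∅ := by
      apply Finset.filter_eq_empty_iff.mpr
      intro x hx h
      have := hM x hx
      omega
    rw [h0, Finset.card_empty]
    have h2 : ∀ N : ℕ, ∑ v ∈ Finset.range N, ((Xf m c).filter fun x => Wt x = v).card * B ^ v < B ^ N := by
      intro N
      induction N with
      | zero => simp
      | succ N ih =>
        rw [Finset.sum_range_succ, pow_succ]
        have h3 : ((Xf m c).filter fun x => Wt x = N).card + 1 ≤ B := hcard N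
        nlinarith [pow_pos hB0 N]
    have hlt : ∑ v ∈ Finset.range M, ((Xf m c).filter fun x => Wt x = v).card * B ^ v < B ^ w :=
      lt_of_lt_of_le (h2 M) (Nat.pow_le_pow_right hB0 (by omega))
    rw [Nat.div_eq_of_lt hlt]
    rfl

theorem card_Wt (m : ℤ) (c : Finset GolayPt) (w : ℕ) :
    ((Xf m c).filter fun x => Wt x = w).card = Gm Bs m c.card / Bs ^ w % Bs :=
  card_Wt_aux Bs 393385 Bs_gt m c (fun _ hx => Wt_lt hx) w

/-- The low part of the exponent. -/
def lowP (x : GolayPt → ℤ) : ℕ := ∑ i, (x i % 8).toNat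

theorem Wt_eq {x : GolayPt → ℤ} : Wt x = (∑ i, x i ^ 2).toNat * 256 + lowP x := by
  have h1 : ((∑ i, (x i ^ 2).toNat : ℕ) : ℤ) = ∑ i, x i ^ 2 := by
    push_cast
    refine Finset.sum_congr rfl fun i _ => ?_
    exact Int.toNat_of_nonneg (sq_nonneg _)
  rw [← h1, Int.toNat_natCast]
  simp only [Wt, ex, lowP]
  rw [Finset.sum_add_distrib, ← Finset.sum_mul]

theorem lowP_le (x : GolayPt → ℤ) : lowP x ≤ 168 := by
  have h : lowP x ≤ ∑ _i : GolayPt, 7 := by
    apply Finset.sum_le_sum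
    intro i _
    have h6 := Int.emod_lt_of_pos (x i) (show (0 : ℤ) < 8 by norm_num)
    omega
  simpa using h

theorem lowP_mod (x : GolayPt → ℤ) : ((lowP x : ℕ) : ℤ) % 8 = (∑ i, x i) % 8 := by
  have h : ((lowP x : ℕ) : ℤ) = ∑ i, x i % 8 := by
    simp only [lowP]
    push_cast
    refine Finset.sum_congr rfl fun i _ => ?_
    have h5 := Int.emod_nonneg (x i) (show (8 : ℤ) ≠ 0 by norm_num)
    omega
  rw [h]
  exact (Finset.sum_int_mod _ _ _).symm

/-- The fiber count. -/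
def Hc (m : ℕ) (w : ℕ) (Q : ℕ) : ℕ :=
  ∑ j ∈ Finset.range 22, Gm Bs (m : ℤ) w / Bs ^ (Q * 256 + 4 * m + 8 * j) % Bs

/-- The fiber over a pattern and a parity. -/
def Yf (m : ℕ) (c : Finset GolayPt) (Q : ℕ) : Finset (GolayPt → ℤ) :=
  (Xf (m : ℤ) c).filter fun x => ∑ i, x i ^ 2 = (Q : ℤ) ∧ (∑ i, x i) % 8 = (4 * (m : ℤ)) % 8

theorem card_Yf {m : ℕ} (hm : m ≤ 1) (c : Finset GolayPt) (Q : ℕ) :
    (Yf m c Q).card = Hc m c.card Q := by
  rw [Hc]
  simp only [← card_Wt]
  rw [← Finset.card_biUnion]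
  · congr 1
    ext x
    simp only [Yf, Finset.mem_filter, Finset.mem_biUnion, Finset.mem_range]
    constructor
    · rintro ⟨hx, h1, h2⟩
      have h3 := lowP_mod x
      have h4 := lowP_le x
      refine ⟨(lowP x - 4 * m) / 8, ?_, hx, ?_⟩
      · omega
      · rw [Wt_eq, h1]
        have h5 : ((Q : ℤ)).toNat = Q := by simp
        rw [h5]
        omega
    · rintro ⟨j, hj, hx, h⟩
      refine ⟨hx, ?_⟩
      rw [Wt_eq] at h
      have h4 := lowP_le x
      have h6 : 0 ≤ ∑ i, x i ^ 2 := Finset.sum_nonneg fun i _ => sq_nonneg _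
      have h7 : (∑ i, x i ^ 2).toNat = Q := by omega
      have h8 : lowP x = 4 * m + 8 * j := by omega
      have h3 := lowP_mod x
      constructor
      · omega
      · rw [← h3, h8]
        push_cast
        omega
  · intro i hi j hj hij
    simp only [Finset.coe_range, Set.mem_Iio] at hi hj
    rw [Function.onFun, Finset.disjoint_filter]
    intro x _ h1 h2
    omega

/-- All code words, as a finset. -/
def Cf : Finset (Finset GolayPt) := (Finset.range 4096).image (fun k => supFin (spanMask k))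

theorem mem_Cf {c : Finset GolayPt} : c ∈ Cf ↔ c ∈ CS := by
  rw [mem_supports_iff]
  simp only [Cf, Finset.mem_image, Finset.mem_range]
  constructor
  · rintro ⟨k, hk, rfl⟩
    exact ⟨k, hk, rfl⟩
  · rintro ⟨k, hk, rfl⟩
    exact ⟨k, hk, rfl⟩

theorem cnt0 : ((Finset.range 4096).filter fun k => hw 24 (spanMask k) = 0).card = 1 := by
  have h := countBelow_eq (fun k => hw 24 (spanMask k) == 0) 4096
  simp only [beq_iff_eq] at h
  rw [← h]
  decide +kernel

theorem cnt8 : ((Finset.range 4096).filter fun k => hw 24 (spanMask k) = 8).card = 759 := by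
  have h := countBelow_eq (fun k => hw 24 (spanMask k) == 8) 4096
  simp only [beq_iff_eq] at h
  rw [← h]
  exact count8

theorem cnt12 : ((Finset.range 4096).filter fun k => hw 24 (spanMask k) = 12).card = 2576 := by
  have h := countBelow_eq (fun k => hw 24 (spanMask k) == 12) 4096
  simp only [beq_iff_eq] at h
  rw [← h]
  exact count12

theorem cnt16 : ((Finset.range 4096).filter fun k => hw 24 (spanMask k) = 16).card = 759 := by
  have h := countBelow_eq (fun k => hw 24 (spanMask k) == 16) 4096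
  simp only [beq_iff_eq] at h
  rw [← h]
  decide +kernel

theorem cnt24 : ((Finset.range 4096).filter fun k => hw 24 (spanMask k) = 24).card = 1 := by
  have h := countBelow_eq (fun k => hw 24 (spanMask k) == 24) 4096
  simp only [beq_iff_eq] at h
  rw [← h]
  decide +kernel

theorem sum_Cf (f : ℕ → ℕ) :
    ∑ c ∈ Cf, f c.card = f 0 + 759 * f 8 + 2576 * f 12 + 759 * f 16 + f 24 := by
  rw [Cf, Finset.sum_image (fun k hk l hl h => supFin_spanMask_injOn (Finset.mem_range.mp hk)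
    (Finset.mem_range.mp hl) h)]
  simp only [card_supFin]
  rw [← Finset.sum_fiberwise_of_maps_to (g := fun k => hw 24 (spanMask k)) (t := {0, 8, 12, 16, 24})
    (fun k hk => by
      have h := weight_spanMask (Finset.mem_range.mp hk)
      simp only [Finset.mem_insert, Finset.mem_singleton]
      exact h)]
  have key : ∀ w : ℕ, ∑ k ∈ (Finset.range 4096).filter (fun k => hw 24 (spanMask k) = w), f (hw 24 (spanMask k))
      = ((Finset.range 4096).filter (fun k => hw 24 (spanMask k) = w)).card * f w := by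
    intro w
    rw [Finset.sum_congr rfl (g := fun _ => f w) (fun k hk => by rw [(Finset.mem_filter.mp hk).2])]
    rw [Finset.sum_const, smul_eq_mul]
  simp only [key]
  rw [Finset.sum_insert (by decide), Finset.sum_insert (by decide), Finset.sum_insert (by decide),
    Finset.sum_insert (by decide), Finset.sum_singleton, cnt0, cnt8, cnt12, cnt16, cnt24]
  ring

theorem mem_Yf {m : ℕ} {c : Finset GolayPt} {Q : ℕ} {x : GolayPt → ℤ} :
    x ∈ Yf m c Q ↔ (∀ i, x i ∈ Sr ((m : ℤ) + if i ∈ c then 2 else 0)) ∧ ∑ i, x i ^ 2 = (Q : ℤ) ∧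
      (∑ i, x i) % 8 = (4 * (m : ℤ)) % 8 := by
  simp only [Yf, Finset.mem_filter, mem_Xf]

theorem Yf_parity {m : ℕ} {c : Finset GolayPt} {Q : ℕ} {x : GolayPt → ℤ} (h : x ∈ Yf m c Q) (i : GolayPt) :
    x i % 2 = (m : ℤ) % 2 := by
  have h1 := (mem_Sr.mp ((mem_Yf.mp h).1 i)).2
  split_ifs at h1 <;> omega

theorem Yf_pat {m : ℕ} {c : Finset GolayPt} {Q : ℕ} {x : GolayPt → ℤ} (h : x ∈ Yf m c Q) :
    pat x ((m : ℤ) + 2) = c := by
  ext i
  have h1 := (mem_Sr.mp ((mem_Yf.mp h).1 i)).2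
  rw [mem_pat]
  by_cases hi : i ∈ c
  · simp only [hi, if_true] at h1
    simp only [hi, iff_true]
    exact h1
  · simp only [hi, if_false, add_zero] at h1
    simp only [hi, iff_false]
    omega

theorem Yf_mem {m : ℕ} {c : Finset GolayPt} {Q : ℕ} {x : GolayPt → ℤ} (h : x ∈ Yf m c Q) (hc : c ∈ CS) :
    x ∈ leechSet ∧ sqNorm x = (Q : ℤ) := by
  refine ⟨mem_leechSet_of (m := (m : ℤ)) (Yf_parity h) (mem_Yf.mp h).2.2 ?_, (mem_Yf.mp h).2.1⟩
  rw [Yf_pat h]
  exact hc

theorem coord_bound {x : GolayPt → ℤ} {Q : ℕ} (hQ : Q ≤ 64) (h : ∑ i, x i ^ 2 = (Q : ℤ)) (i : GolayPt) :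
    -8 ≤ x i ∧ x i ≤ 8 := by
  have hle := Finset.single_le_sum (f := fun j => x j ^ 2) (fun j _ => sq_nonneg _) (Finset.mem_univ i)
  have h2 : x i ^ 2 ≤ 64 := by
    have h3 : x i ^ 2 ≤ (Q : ℤ) := by rw [← h]; exact hle
    have h4 : (Q : ℤ) ≤ 64 := by exact_mod_cast hQ
    omega
  constructor <;> nlinarith

theorem set_eq {Q : ℕ} (hQ : Q ≤ 64) :
    {x : GolayPt → ℤ | x ∈ leechLattice ∧ sqNorm x = (Q : ℤ)} =
      ↑(({0, 1} : Finset ℕ).biUnion fun m => Cf.biUnion fun c => Yf m c Q) := by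
  ext x
  simp only [Set.mem_ofPred_eq, Finset.coe_biUnion, Set.mem_iUnion, Finset.mem_coe, Finset.mem_insert,
    Finset.mem_singleton, exists_prop, mem_Cf, mem_leechLattice]
  constructor
  · rintro ⟨hx, hq⟩
    obtain ⟨m', hm1, hm2, hm3⟩ := id hx
    have hpar : ∀ i, x i % 2 = m' % 2 := hm1
    have hsum : (∑ i, x i) % 8 = (4 * m') % 8 := hm2
    have hs : ∑ i, x i ^ 2 = (Q : ℤ) := hq
    obtain ⟨m, hm⟩ : ∃ m : ℕ, (m : ℤ) = m' % 2 := ⟨(m' % 2).toNat, by
      rw [Int.toNat_of_nonneg (Int.emod_nonneg _ (by norm_num))]⟩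
    have hm01 : m = 0 ∨ m = 1 := by omega
    refine ⟨m, hm01, pat x ((m : ℤ) + 2), hm3 _, ?_⟩
    refine mem_Yf.mpr ⟨fun i => mem_Sr.mpr ⟨coord_bound hQ hs i, ?_⟩, hs, by omega⟩
    have hi := hpar i
    by_cases hic : i ∈ pat x ((m : ℤ) + 2)
    · simp only [hic, if_true]
      exact mem_pat.mp hic
    · simp only [hic, if_false, add_zero]
      have h' : ¬ (x i % 4 = ((m : ℤ) + 2) % 4) := fun hh => hic (mem_pat.mpr hh)
      omega
  · rintro ⟨m, _, c, hc, hy⟩
    exact Yf_mem hy hc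

theorem count_main {Q : ℕ} (hQ : Q ≤ 64) :
    {x : GolayPt → ℤ | x ∈ leechLattice ∧ sqNorm x = (Q : ℤ)}.ncard =
      (Hc 0 0 Q + 759 * Hc 0 8 Q + 2576 * Hc 0 12 Q + 759 * Hc 0 16 Q + Hc 0 24 Q) +
      (Hc 1 0 Q + 759 * Hc 1 8 Q + 2576 * Hc 1 12 Q + 759 * Hc 1 16 Q + Hc 1 24 Q) := by
  rw [set_eq hQ, Set.ncard_coe_finset]
  rw [Finset.card_biUnion]
  · rw [Finset.sum_insert (by decide), Finset.sum_singleton]
    have key : ∀ m : ℕ, m ≤ 1 → (Cf.biUnion fun c => Yf m c Q).card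
        = Hc m 0 Q + 759 * Hc m 8 Q + 2576 * Hc m 12 Q + 759 * Hc m 16 Q + Hc m 24 Q := by
      intro m hm
      rw [Finset.card_biUnion]
      · simp only [card_Yf hm]
        exact sum_Cf (fun w => Hc m w Q)
      · intro c _ c' _ hcc
        rw [Function.onFun, Finset.disjoint_left]
        intro x h1 h2
        exact hcc ((Yf_pat h1).symm.trans (Yf_pat h2))
    rw [key 0 (by norm_num), key 1 (by norm_num)]
  · intro m hm m' hm' hne
    rw [Function.onFun, Finset.disjoint_left]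
    intro x h1 h2
    simp only [Finset.mem_biUnion] at h1 h2
    obtain ⟨c, _, h1⟩ := h1
    obtain ⟨c', _, h2⟩ := h2
    have h3 := Yf_parity h1 none
    have h4 := Yf_parity h2 none
    simp only [Finset.coe_insert, Finset.coe_singleton, Set.mem_insert_iff, Set.mem_singleton_iff] at hm hm'
    omega

theorem H32 : (Hc 0 0 32 + 759 * Hc 0 8 32 + 2576 * Hc 0 12 32 + 759 * Hc 0 16 32 + Hc 0 24 32) +
    (Hc 1 0 32 + 759 * Hc 1 8 32 + 2576 * Hc 1 12 32 + 759 * Hc 1 16 32 + Hc 1 24 32) = 196560 := by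
  decide +kernel

theorem H48 : (Hc 0 0 48 + 759 * Hc 0 8 48 + 2576 * Hc 0 12 48 + 759 * Hc 0 16 48 + Hc 0 24 48) +
    (Hc 1 0 48 + 759 * Hc 1 8 48 + 2576 * Hc 1 12 48 + 759 * Hc 1 16 48 + Hc 1 24 48) = 16773120 := by
  decide +kernel

theorem H64 : (Hc 0 0 64 + 759 * Hc 0 8 64 + 2576 * Hc 0 12 64 + 759 * Hc 0 16 64 + Hc 0 24 64) +
    (Hc 1 0 64 + 759 * Hc 1 8 64 + 2576 * Hc 1 12 64 + 759 * Hc 1 16 64 + Hc 1 24 64) = 398034000 := by
  decide +kernel

theorem count32 : {x : GolayPt → ℤ | x ∈ leechLattice ∧ sqNorm x = 32}.ncard = 196560 := by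
  rw [← H32]
  exact count_main (Q := 32) (by norm_num)

theorem count48 : {x : GolayPt → ℤ | x ∈ leechLattice ∧ sqNorm x = 48}.ncard = 16773120 := by
  rw [← H48]
  exact count_main (Q := 48) (by norm_num)

theorem count64 : {x : GolayPt → ℤ | x ∈ leechLattice ∧ sqNorm x = 64}.ncard = 398034000 := by
  rw [← H64]
  exact count_main (Q := 64) (by norm_num)

end Cfsg.Agent.Lib.LeechCount
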