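/-
Transport of the certificates for the McLaughlin configuration.
-/
import Mathlib
import Cfsg.Prelude.Def_Sporadic_a
import Cfsg.Agent.Lib.LeechCert2
import Cfsg.Agent.Lib.LeechCo3
import Cfsg.Agent.Lib.LeechCo3Facts
import Cfsg.Agent.Lib.LeechMcL

set_option autoImplicit false
set_option linter.unusedSectionVars false
set_option linter.unusedSimpArgs false
set_option linter.unusedVariables false

namespace Cfsg.Agent.Lib.LeechMcLFacts

open Cfsg Cfsg.Agent.Lib.GolayCode Cfsg.Agent.Lib.GolayFacts Cfsg.Agent.Lib.GolayPerm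
  Cfsg.Agent.Lib.LeechBase Cfsg.Agent.Lib.LeechCo Cfsg.Agent.Lib.LeechXi Cfsg.Agent.Lib.LeechOrb
  Cfsg.Agent.Lib.LeechCert Cfsg.Agent.Lib.LeechCo3 Cfsg.Agent.Lib.LeechCo3Facts Cfsg.Agent.Lib.LeechMcL

/-- the base vector -/
def R₀ : leechLattice := ⟨dv r552, r552_mem⟩

/-- the base vector -/
def X₀ : leechLattice := ⟨dv r275, r275_mem⟩

theorem exists_to_base2 (u v : leechLattice) (hu : sqNorm (u : P → ℤ) = 48) (hv : sqNorm (v : P → ℤ) = 32)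
    (huv : dotInt (u : P → ℤ) (v : P → ℤ) = 24) : ∃ g : Co0, g • u = U₀ ∧ g • v = R₀ := by
  obtain ⟨g₀, hg⟩ := exists_to_base u hu
  have h1 := (mem_SS1 (ha := uC_mem) hg 24 v).mpr ⟨hv, huv⟩
  obtain ⟨hx, hy, k, hk1, hk2⟩ := (cover552.2 _ h1).symm
  refine ⟨k * g₀, ?_, ?_⟩
  · rw [mul_smul, hg]
    exact hk1 uC (by simp) uC_mem
  · rw [mul_smul]
    exact hk2

theorem mem_S275_iff {g : Co0} {u v : leechLattice} (hu : sqNorm (u : P → ℤ) = 48) (hg : g • u = U₀) (hg' : g • v = R₀)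
    (x : leechLattice) :
    ((g • x : leechLattice) : P → ℤ) ∈ SS [(uC, 24), (r552, 16)] ↔
      sqNorm (x : P → ℤ) = 32 ∧ sqNorm ((u : P → ℤ) - (x : P → ℤ)) = 32 ∧ dotInt (v : P → ℤ) (x : P → ℤ) = 16 := by
  rw [mem_SS2 (ha := uC_mem) (hb := r552_mem) hg hg']
  constructor
  · rintro ⟨h1, h2, h3⟩
    exact ⟨h1, (sub_iff hu h1).mpr h2, h3⟩
  · rintro ⟨h1, h2, h3⟩
    exact ⟨h1, (sub_iff hu h1).mp h2, h3⟩

theorem mem_of_FR2 {g : Co0} {u v : leechLattice} (hg : g • u = U₀) (hg' : g • v = R₀) {x x' : leechLattice}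
    (h : FR [uC, r552, wC] ((g • x : leechLattice) : P → ℤ) ((g • x' : leechLattice) : P → ℤ)) :
    ∃ k : Co0, k • u = u ∧ k • v = v ∧ k • x = x' := by
  obtain ⟨k, hk1, hk2⟩ := lift_FR h
  exact ⟨k, hk1 uC (by simp) uC_mem u hg, hk1 r552 (by simp) r552_mem v hg', hk2⟩

theorem exists_to_base3 {u v x : leechLattice} (hu : sqNorm (u : P → ℤ) = 48) (hv : sqNorm (v : P → ℤ) = 32)
    (huv : dotInt (u : P → ℤ) (v : P → ℤ) = 24)
    (hx : sqNorm (x : P → ℤ) = 32 ∧ sqNorm ((u : P → ℤ) - (x : P → ℤ)) = 32 ∧ dotInt (v : P → ℤ) (x : P → ℤ) = 16) :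
    ∃ g : Co0, g • u = U₀ ∧ g • v = R₀ ∧ g • x = X₀ := by
  obtain ⟨g₁, h1, h2⟩ := exists_to_base2 u v hu hv huv
  have h3 := (mem_S275_iff hu h1 h2 x).mpr hx
  obtain ⟨hx', hy, k, hk1, hk2⟩ := (cover275.2 _ h3).symm
  refine ⟨k * g₁, ?_, ?_, ?_⟩
  · rw [mul_smul, h1]
    exact hk1 uC (by simp) uC_mem
  · rw [mul_smul, h2]
    exact hk1 r552 (by simp) r552_mem
  · rw [mul_smul]
    exact hk2

end Cfsg.Agent.Lib.LeechMcLFacts
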