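/-
The monomial subgroup of the automorphism group of the Leech lattice: frames, centre, order.
-/
import Mathlib
import Cfsg.Prelude.Def_Sporadic_a
import Cfsg.Prelude.Def_SporadicCombinatorics
import Cfsg.Agent.Lib.LeechBase
import Cfsg.Agent.Lib.LeechClasses
import Cfsg.Agent.Lib.LeechOrb

set_option autoImplicit false
set_option linter.unusedSectionVars false
set_option linter.unusedSimpArgs false
set_option linter.unusedVariables false

namespace Cfsg.Agent.Lib.LeechMono

open Cfsg Cfsg.Agent.Lib.GolayCode Cfsg.Agent.Lib.GolayFacts Cfsg.Agent.Lib.GolayPerm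
  Cfsg.Agent.Lib.LeechBase Cfsg.Agent.Lib.LeechGen Cfsg.Agent.Lib.LeechCo Cfsg.Agent.Lib.LeechXi
  Cfsg.Agent.Lib.LeechOrb Cfsg.Agent.Lib.LeechClasses Cfsg.Agent.Lib.GolayTrans

/-- shorthand for the lattice as a type -/
abbrev Lat := ↥(leechLattice : AddSubgroup (P → ℤ))

/-- frame vectors -/
def E (i : P) : Lat := ⟨eight i, eight_mem i⟩

@[simp] theorem E_coe (i : P) : ((E i : Lat) : P → ℤ) = eight i := rfl

theorem smul_add' (g : Co0) (v w : Lat) : g • (v + w) = g • v + g • w := g.2.1 v w

theorem sqNorm_smul (g : Co0) (v : Lat) : sqNorm ((g • v : Lat) : P → ℤ) = sqNorm (v : P → ℤ) := g.2.2 v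

/-- the additive map of an automorphism -/
def gHom (g : Co0) : Lat →+ Lat := AddMonoidHom.mk' (fun v => g • v) (smul_add' g)

@[simp] theorem gHom_apply (g : Co0) (v : Lat) : gHom g v = g • v := rfl

theorem smul_neg' (g : Co0) (v : Lat) : g • (-v) = -(g • v) := map_neg (gHom g) v

theorem smul_zsmul' (g : Co0) (n : ℤ) (v : Lat) : g • (n • v) = n • (g • v) := map_zsmul (gHom g) n v

theorem smul_nsmul' (g : Co0) (n : ℕ) (v : Lat) : g • (n • v) = n • (g • v) := map_nsmul (gHom g) n v

theorem smul_sum' (g : Co0) {ι : Type*} (s : Finset ι) (f : ι → Lat) : g • (∑ i ∈ s, f i) = ∑ i ∈ s, g • f i :=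
  map_sum (gHom g) f s

/-- vectors in terms of the frame -/
theorem eight_decomp (v : Lat) : (8 : ℕ) • v = ∑ i, (v.1 i) • E i := by
  apply Subtype.ext
  funext j
  have h1 : (((8 : ℕ) • v : Lat) : P → ℤ) j = 8 * v.1 j := by
    show (8 : ℕ) • (v.1 j) = _
    simp
  rw [h1]
  have h2 : ((∑ i, (v.1 i) • E i : Lat) : P → ℤ) j = ∑ i, v.1 i * eight i j := by
    rw [AddSubgroup.val_finsetSum, Finset.sum_apply]
    refine Finset.sum_congr rfl fun i _ => ?_
    show (v.1 i) • (eight i j) = _
    simp
  rw [h2]
  simp only [eight]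
  rw [Finset.sum_eq_single j]
  · simp
    ring
  · intro b _ hb
    simp [Ne.symm hb]
  · simp

theorem smul_formula (g : Co0) (v : Lat) : (8 : ℕ) • (g • v) = ∑ i, (v.1 i) • (g • E i) := by
  rw [← smul_nsmul', eight_decomp, smul_sum']
  refine Finset.sum_congr rfl fun i _ => ?_
  rw [smul_zsmul']

theorem eight_nsmul_inj {a b : Lat} (h : (8 : ℕ) • a = (8 : ℕ) • b) : a = b := by
  apply Subtype.ext
  funext j
  have h1 := congrFun (congrArg Subtype.val h) j
  have h2 : ((8 : ℕ) • (a : P → ℤ)) j = ((8 : ℕ) • (b : P → ℤ)) j := h1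
  simp only [Pi.smul_apply, nsmul_eq_mul] at h2
  push_cast at h2
  omega

/-- An element of `Co0` is determined by its action on the frame. -/
theorem co0_ext {g h : Co0} (H : ∀ i, g • E i = h • E i) : g = h := by
  apply Subtype.ext
  apply Equiv.ext
  intro v
  apply eight_nsmul_inj
  have h1 := smul_formula g v
  have h2 := smul_formula h v
  show (8 : ℕ) • (g • v) = (8 : ℕ) • (h • v)
  rw [h1, h2]
  exact Finset.sum_congr rfl fun i _ => by rw [H i]

/-- the negation element -/
theorem exists_negE : ∃ n : Co0, ∀ v : Lat, n • v = -v := by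
  obtain ⟨n, hn⟩ := exists_neg
  exact ⟨n, fun v => Subtype.ext (hn v)⟩

/-- separation of points by basis words of the code -/
theorem separate : ∀ i j : P, i ≠ j → ∃ k ∈ List.range 12, dec (bas k) i ≠ dec (bas k) j := by
  decide +kernel

theorem exists_sgnE {e : P → ZMod 2} (he : e ∈ golayCode) :
    ∃ c : Co0, ∀ v : Lat, ((c • v : Lat) : P → ℤ) = sgn e v := by
  obtain ⟨c, hc⟩ := exists_mono he (one_mem _)
  exact ⟨c, fun v => by rw [hc]; rfl⟩

theorem exists_prmE {σ : Equiv.Perm P} (hσ : σ ∈ M24) :
    ∃ c : Co0, ∀ v : Lat, ((c • v : Lat) : P → ℤ) = prm σ v := by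
  obtain ⟨c, hc⟩ := exists_mono golayCode.zero_mem hσ
  refine ⟨c, fun v => ?_⟩
  rw [hc]
  funext i
  simp [sgn]

theorem sgn_eight (e : P → ZMod 2) (i : P) : sgn e (eight i) = if e i = 0 then eight i else - eight i := by
  by_cases h : e i = 0
  · rw [if_pos h]
    funext j
    by_cases hj : j = i
    · subst hj
      simp [sgn, h]
    · simp [sgn, eight, hj]
  · rw [if_neg h]
    funext j
    by_cases hj : j = i
    · subst hj
      simp [sgn, h]
    · simp [sgn, eight, hj]

theorem prm_eight (σ : Equiv.Perm P) (i : P) : prm σ (eight i) = eight (σ i) := by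
  funext j
  simp only [prm, eight]
  have : σ⁻¹ j = i ↔ j = σ i := by
    constructor
    · rintro rfl
      simp
    · rintro rfl
      simp
  simp only [this]

/-- A central element is a sign on each frame vector. -/
theorem central_frame {z : Co0} (hz : z ∈ Subgroup.center Co0) (i : P) : z • E i = E i ∨ z • E i = -E i := by
  set w : P → ℤ := ((z • E i : Lat) : P → ℤ) with hw
  have hzero : ∀ j, j ≠ i → w j = 0 := by
    intro j hj
    obtain ⟨k, hk, hne⟩ := separate i j (Ne.symm hj)
    have hcode : dec (bas k) ∈ golayCode := dec_bas_mem k hk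
    obtain ⟨c, hc⟩ := exists_sgnE hcode
    have hcomm : z * c = c * z := (Subgroup.mem_center_iff.mp hz c).symm
    have h1 : z • (c • E i) = c • (z • E i) := by
      rw [← mul_smul, ← mul_smul, hcomm]
    have h2 : (c • (z • E i) : Lat).1 = sgn (dec (bas k)) w := hc _
    have h3 : ((c • E i : Lat) : P → ℤ) = sgn (dec (bas k)) (eight i) := hc _
    rw [sgn_eight] at h3
    have h4 := congrFun h2 j
    by_cases hi : dec (bas k) i = 0
    · rw [if_pos hi] at h3
      have h5 : c • E i = E i := Subtype.ext h3
      rw [h5] at h1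
      rw [← h1] at h4
      have h6 : dec (bas k) j ≠ 0 := fun h => hne (by rw [hi, h])
      simp only [sgn, if_neg h6] at h4
      have h7 : w j = - w j := h4
      omega
    · rw [if_neg hi] at h3
      have h5 : c • E i = -E i := Subtype.ext h3
      rw [h5, smul_neg'] at h1
      have h8 : (c • (z • E i) : Lat).1 j = - w j := by
        rw [← h1]
        rfl
      rw [h8] at h4
      have h6 : dec (bas k) j = 0 := by
        rcases bv_cases (dec (bas k) i) with ⟨h3', _⟩ | ⟨h3', _⟩
        · exact absurd h3' hi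
        · rcases bv_cases (dec (bas k) j) with ⟨h3'', _⟩ | ⟨h3'', _⟩
          · exact h3''
          · exact absurd (h3'.trans h3''.symm) hne
      simp only [sgn, if_pos h6] at h4
      omega
  have hn : sqNorm w = 64 := by
    rw [hw, sqNorm_smul]
    show sqNorm (eight i) = 64
    simp only [sqNorm, eight]
    rw [Finset.sum_eq_single i]
    · simp
    · intro b _ hb
      simp [hb]
    · simp
  have hn2 : w i ^ 2 = 64 := by
    rw [← hn]
    simp only [sqNorm]
    rw [Finset.sum_eq_single i]
    · intro b _ hb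
      simp [hzero b hb]
    · simp
  have hval : w i = 8 ∨ w i = -8 := by
    have : (w i - 8) * (w i + 8) = 0 := by ring_nf; omega
    rcases mul_eq_zero.mp this with h | h
    · left; omega
    · right; omega
  rcases hval with h | h
  · left
    apply Subtype.ext
    funext j
    show w j = eight i j
    by_cases hj : j = i
    · subst hj
      simp [eight, h]
    · simp [eight, hj, hzero j hj]
  · right
    apply Subtype.ext
    funext j
    show w j = - eight i j
    by_cases hj : j = i
    · subst hj
      simp [eight, h]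
    · simp [eight, hj, hzero j hj]

/-- The center of `Co0` has order two. -/
theorem card_center : Nat.card (Subgroup.center Co0) = 2 := by
  obtain ⟨n, hn⟩ := exists_negE
  have hneg : n ∈ Subgroup.center Co0 := by
    rw [Subgroup.mem_center_iff]
    intro g
    apply Subtype.ext
    apply Equiv.ext
    intro v
    show g • (n • v) = n • (g • v)
    rw [hn, hn, smul_neg']
  have hne : (1 : Co0) ≠ n := by
    intro h
    have h1 : (1 : Co0) • E none = - E none := by
      rw [h]
      exact hn _
    rw [one_smul] at h1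
    have h2 := congrFun (congrArg Subtype.val h1) none
    have h3 : eight none none = - eight none none := h2
    simp [eight] at h3
  have hcenter : ((Subgroup.center Co0 : Subgroup Co0) : Set Co0) = {1, n} := by
    ext z
    simp only [SetLike.mem_coe, Set.mem_insert_iff, Set.mem_singleton_iff]
    constructor
    · intro hz
      have hcomm : ∀ {σ : Equiv.Perm P}, σ ∈ M24 → ∀ i, (z • E i = E i → z • E (σ i) = E (σ i)) ∧
          (z • E i = -E i → z • E (σ i) = -E (σ i)) := by
        intro σ hσ i
        obtain ⟨c, hc⟩ := exists_prmE hσ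
        have h1 : c • E i = E (σ i) := Subtype.ext (by rw [hc]; exact prm_eight σ i)
        have hcm : z * c = c * z := (Subgroup.mem_center_iff.mp hz c).symm
        have h2 : z • (c • E i) = c • (z • E i) := by
          rw [← mul_smul, ← mul_smul, hcm]
        rw [h1] at h2
        constructor
        · intro h3
          rw [h2, h3, h1]
        · intro h3
          rw [h2, h3, smul_neg', h1]
      rcases central_frame hz none with h | h
      · left
        apply co0_ext
        intro i
        obtain ⟨σ, hσ, hσi⟩ := exists_map_point none i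
        rw [one_smul, ← hσi]
        exact (hcomm hσ none).1 h
      · right
        apply co0_ext
        intro i
        obtain ⟨σ, hσ, hσi⟩ := exists_map_point none i
        rw [hn, ← hσi]
        exact (hcomm hσ none).2 h
    · rintro (rfl | rfl)
      · exact Subgroup.one_mem _
      · exact hneg
  have h1 : Nat.card (Subgroup.center Co0) = ((Subgroup.center Co0 : Subgroup Co0) : Set Co0).ncard :=
    (Nat.card_coe_set_eq _).symm
  rw [h1, hcenter, Set.ncard_pair hne]

/-! ### The stabilizer of the standard cross -/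

/-- preserving the standard cross -/
def PresCross (g : Co0) : Prop :=
  ∀ v : Lat, (v : P → ℤ) ∈ stdCross → ((g • v : Lat) : P → ℤ) ∈ stdCross

theorem single_eq_eight (i : P) : (Pi.single i (8 : ℤ) : P → ℤ) = eight i := by
  funext j
  by_cases hj : j = i
  · subst hj
    simp [eight]
  · simp [eight, hj]

theorem single_eq_neg_eight (i : P) : (Pi.single i (-8 : ℤ) : P → ℤ) = - eight i := by
  funext j
  by_cases hj : j = i
  · subst hj
    simp [eight]
  · simp [eight, hj]

theorem mem_stdCross_iff {y : P → ℤ} : y ∈ stdCross ↔ ∃ i, y = eight i ∨ y = - eight i := by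
  constructor
  · rintro ⟨i, s, hs | hs, rfl⟩
    · exact ⟨i, Or.inl (by rw [hs, single_eq_eight])⟩
    · exact ⟨i, Or.inr (by rw [hs, single_eq_neg_eight])⟩
  · rintro ⟨i, rfl | rfl⟩
    · exact ⟨i, 8, Or.inl rfl, (single_eq_eight i).symm⟩
    · exact ⟨i, -8, Or.inr rfl, (single_eq_neg_eight i).symm⟩

/-- Words of even vectors. -/
theorem word_of_even {x : P → ℤ} (hx : x ∈ leechLattice) {b : P → ZMod 2}
    (h : ∀ i, x i % 4 = 2 * bv (b i)) : b ∈ golayCode := by
  obtain ⟨m, a, s, hm, ha, hx1, hx2⟩ := leech_decomp (mem_lattice_iff.mp hx)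
  have hm0 : m = 0 := by
    have h1 := hx1 none
    have h2 := h none
    rcases hm with rfl | rfl
    · rfl
    · rcases bv_cases (a none) with ⟨_, h4⟩ | ⟨_, h4⟩ <;> rcases bv_cases (b none) with ⟨_, h5⟩ | ⟨_, h5⟩ <;>
        rw [h4] at h1 <;> rw [h5] at h2 <;> omega
  subst hm0
  have : b = a := by
    funext i
    have h1 := hx1 i
    have h2 := h i
    rcases bv_cases (a i) with ⟨h3, h4⟩ | ⟨h3, h4⟩ <;> rcases bv_cases (b i) with ⟨h5, h6⟩ | ⟨h5, h6⟩ <;>
      rw [h4] at h1 <;> rw [h6] at h2
    · rw [h3, h5]
    · omega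
    · omega
    · rw [h3, h5]
  rw [this]
  exact ha

/-- Words of odd vectors. -/
theorem word_of_odd {x : P → ℤ} (hx : x ∈ leechLattice) {b : P → ZMod 2}
    (h : ∀ i, x i % 4 = 1 + 2 * bv (b i)) : b ∈ golayCode := by
  obtain ⟨m, a, s, hm, ha, hx1, hx2⟩ := leech_decomp (mem_lattice_iff.mp hx)
  have hm0 : m = 1 := by
    have h1 := hx1 none
    have h2 := h none
    rcases hm with rfl | rfl
    · rcases bv_cases (a none) with ⟨_, h4⟩ | ⟨_, h4⟩ <;> rcases bv_cases (b none) with ⟨_, h5⟩ | ⟨_, h5⟩ <;>
        rw [h4] at h1 <;> rw [h5] at h2 <;> omega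
    · rfl
  subst hm0
  have : b = a := by
    funext i
    have h1 := hx1 i
    have h2 := h i
    rcases bv_cases (a i) with ⟨h3, h4⟩ | ⟨h3, h4⟩ <;> rcases bv_cases (b i) with ⟨h5, h6⟩ | ⟨h5, h6⟩ <;>
      rw [h4] at h1 <;> rw [h6] at h2
    · rw [h3, h5]
    · omega
    · omega
    · rw [h3, h5]
  rw [this]
  exact ha

/-- Elements preserving the standard cross are signed permutations. -/
theorem exists_param {g : Co0} (hg : PresCross g) :
    ∃ (e : P → ZMod 2) (σ : Equiv.Perm P), ∀ v : Lat, ((g • v : Lat) : P → ℤ) = sgn e (prm σ v) := by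
  classical
  have h1 : ∀ i, ∃ j, (g • E i : Lat).1 = eight j ∨ (g • E i : Lat).1 = - eight j := by
    intro i
    exact mem_stdCross_iff.mp (hg (E i) (mem_stdCross_iff.mpr ⟨i, Or.inl rfl⟩))
  choose π hπ using h1
  have hinj : Function.Injective π := by
    intro i i' h
    by_contra hne
    have h2 := hπ i
    have h3 := hπ i'
    rw [h] at h2
    have hE : E i = E i' ∨ E i = - E i' := by
      rcases h2 with h2 | h2 <;> rcases h3 with h3 | h3
      · left
        have : g • E i = g • E i' := Subtype.ext (h2.trans h3.symm)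
        exact MulAction.injective g this
      · right
        have : g • E i = g • (-E i') := by
          rw [smul_neg']
          apply Subtype.ext
          rw [h2]
          show _ = - (g • E i' : Lat).1
          rw [h3]
          simp
        exact MulAction.injective g this
      · right
        have : g • E i = g • (-E i') := by
          rw [smul_neg']
          apply Subtype.ext
          rw [h2]
          show _ = - (g • E i' : Lat).1
          rw [h3]
        exact MulAction.injective g this
      · left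
        have : g • E i = g • E i' := Subtype.ext (h2.trans h3.symm)
        exact MulAction.injective g this
    rcases hE with hE | hE
    · have := congrFun (congrArg Subtype.val hE) i
      have h4 : eight i i = eight i' i := this
      simp [eight, hne] at h4
    · have := congrFun (congrArg Subtype.val hE) i
      have h4 : eight i i = - eight i' i := this
      simp [eight, hne] at h4
  have hbij : Function.Bijective π := Finite.injective_iff_bijective.mp hinj
  let σ : Equiv.Perm P := Equiv.ofBijective π hbij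
  have hσ : ∀ i, σ i = π i := fun i => rfl
  let e : P → ZMod 2 := fun j => if (g • E (σ⁻¹ j) : Lat).1 = eight j then 0 else 1
  refine ⟨e, σ, fun v => ?_⟩
  have h8 := smul_formula g v
  funext j
  have h9 := congrFun (congrArg Subtype.val h8) j
  have h10 : (((8 : ℕ) • (g • v) : Lat) : P → ℤ) j = 8 * (g • v : Lat).1 j := by
    show (8 : ℕ) • ((g • v : Lat).1 j) = _
    simp
  rw [h10] at h9
  have h11 : ((∑ i, (v.1 i) • (g • E i) : Lat) : P → ℤ) j = ∑ i, v.1 i * (g • E i : Lat).1 j := by
    rw [AddSubgroup.val_finsetSum, Finset.sum_apply]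
    refine Finset.sum_congr rfl fun i _ => ?_
    show (v.1 i) • ((g • E i : Lat).1 j) = _
    simp
  rw [h11] at h9
  set i₀ := σ⁻¹ j with hi₀
  have hπ₀ : π i₀ = j := by
    rw [← hσ, hi₀]
    simp
  have hother : ∀ i, i ≠ i₀ → (g • E i : Lat).1 j = 0 := by
    intro i hi
    have hne : j ≠ π i := by
      intro h
      apply hi
      apply hinj
      rw [hπ₀, ← h]
    rcases hπ i with h | h <;> rw [h]
    · simp [eight, hne]
    · simp [eight, hne]
  rw [Finset.sum_eq_single i₀ (fun i _ hi => by rw [hother i hi, mul_zero]) (by simp)] at h9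
  have hval : (g • v : Lat).1 j = sgn e (prm σ v) j := by
    simp only [sgn, prm]
    rcases hπ i₀ with h | h
    · rw [hπ₀] at h
      have he : e j = 0 := by
        simp only [e]
        rw [if_pos h]
      rw [if_pos he]
      rw [h] at h9
      simp only [eight, if_true] at h9
      show _ = v.1 i₀
      linarith
    · rw [hπ₀] at h
      have hne : (g • E i₀ : Lat).1 ≠ eight j := by
        rw [h]
        intro h2
        have := congrFun h2 j
        simp [eight] at this
      have he : e j = 1 := by
        simp only [e]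
        rw [if_neg hne]
      rw [if_neg (by rw [he]; decide)]
      rw [h] at h9
      simp only [Pi.neg_apply, eight, if_true] at h9
      show _ = - v.1 i₀
      linarith
  exact hval

/-- The permutation part lies in the Mathieu group and the sign part in the code. -/
theorem param_mem {g : Co0} {e : P → ZMod 2} {σ : Equiv.Perm P}
    (h : ∀ v : Lat, ((g • v : Lat) : P → ℤ) = sgn e (prm σ v)) : e ∈ golayCode ∧ σ ∈ M24 := by
  have hmem : ∀ x, x ∈ leechLattice → sgn e (prm σ x) ∈ leechLattice := by
    intro x hx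
    rw [← h ⟨x, hx⟩]
    exact (g • (⟨x, hx⟩ : Lat)).2
  have hσ : σ ∈ M24 := by
    rw [mem_M24_iff]
    intro w hw
    apply word_of_even (hmem _ (twoW_mem hw))
    intro i
    simp only [sgn, prm, twoW, mapWord]
    rcases bv_cases (w (σ⁻¹ i)) with ⟨_, h4⟩ | ⟨_, h4⟩ <;> rw [h4] <;> by_cases he : e i = 0 <;> simp [he]
  refine ⟨?_, hσ⟩
  have hx := prm_mem (inv_mem hσ) oddV_mem
  have h1 := hmem _ hx
  rw [prm_prm_inv] at h1
  apply word_of_odd h1
  intro i
  simp only [sgn, oddV]
  rcases bv_cases (e i) with ⟨h3, h4⟩ | ⟨h3, h4⟩ <;> rw [h4] <;> by_cases hi : i = none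
  · subst hi
    simp [h3]
  · simp [h3, hi]
  · subst hi
    simp [h3]
  · simp [h3, hi]

/-- monomial elements preserve the standard cross -/
theorem pres_of_param {g : Co0} {e : P → ZMod 2} {σ : Equiv.Perm P}
    (h : ∀ v : Lat, ((g • v : Lat) : P → ℤ) = sgn e (prm σ v)) : PresCross g := by
  intro v hv
  rw [h, mem_stdCross_iff]
  obtain ⟨i, hi | hi⟩ := mem_stdCross_iff.mp hv
  · rw [hi, prm_eight, sgn_eight]
    refine ⟨σ i, ?_⟩
    by_cases he : e (σ i) = 0
    · rw [if_pos he]; exact Or.inl rfl
    · rw [if_neg he]; exact Or.inr rfl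
  · have : prm σ (- eight i) = - eight (σ i) := by
      funext j
      have := congrFun (prm_eight σ i) j
      simp only [prm, Pi.neg_apply] at this ⊢
      rw [this]
    rw [hi, this]
    refine ⟨σ i, ?_⟩
    by_cases he : e (σ i) = 0
    · right
      funext j
      simp only [sgn, Pi.neg_apply]
      by_cases hj : e j = 0
      · simp [hj]
      · simp only [hj, if_false, neg_neg, eight]
        by_cases hk : j = σ i
        · subst hk; exact absurd he hj
        · simp [hk]
    · left
      funext j
      simp only [sgn, Pi.neg_apply]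
      by_cases hj : e j = 0
      · simp only [hj, if_true, eight]
        by_cases hk : j = σ i
        · subst hk; exact absurd hj he
        · simp [hk]
      · simp [hj]

/-- the monomial element of a pair -/
noncomputable def Mon (p : golayCode × M24) : Co0 := (exists_mono p.1.2 p.2.2).choose

theorem Mon_spec (p : golayCode × M24) (v : Lat) :
    ((Mon p • v : Lat) : P → ℤ) = sgn p.1.1 (prm p.2.1 v) := (exists_mono p.1.2 p.2.2).choose_spec v

theorem sgn_prm_eight (e : P → ZMod 2) (σ : Equiv.Perm P) (i j : P) :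
    sgn e (prm σ (eight i)) j = if j = σ i then (if e j = 0 then 8 else -8) else 0 := by
  rw [prm_eight]
  simp only [sgn, eight]
  by_cases hj : j = σ i <;> by_cases he : e j = 0 <;> simp [hj, he]

theorem Mon_injective : Function.Injective Mon := by
  rintro ⟨⟨e, he⟩, ⟨σ, hσ⟩⟩ ⟨⟨e', he'⟩, ⟨σ', hσ'⟩⟩ h
  have h1 : ∀ i j, sgn e (prm σ (eight i)) j = sgn e' (prm σ' (eight i)) j := by
    intro i j
    have h2 := Mon_spec ⟨⟨e, he⟩, ⟨σ, hσ⟩⟩ (E i)
    rw [h] at h2
    have h3 := Mon_spec ⟨⟨e', he'⟩, ⟨σ', hσ'⟩⟩ (E i)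
    rw [h3] at h2
    exact (congrFun h2 j).symm
  have hσσ : σ = σ' := by
    refine Equiv.ext fun i => ?_
    have h2 := h1 i (σ i)
    rw [sgn_prm_eight, sgn_prm_eight, if_pos rfl] at h2
    by_contra hne
    rw [if_neg hne] at h2
    split_ifs at h2 <;> omega
  subst hσσ
  have hee : e = e' := by
    funext j
    have h2 := h1 (σ⁻¹ j) j
    rw [sgn_prm_eight, sgn_prm_eight] at h2
    have h3 : j = σ (σ⁻¹ j) := by simp
    rw [if_pos h3, if_pos h3] at h2
    rcases bv_cases (e j) with ⟨h4, _⟩ | ⟨h4, _⟩ <;> rcases bv_cases (e' j) with ⟨h5, _⟩ | ⟨h5, _⟩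
    · rw [h4, h5]
    · rw [h4, h5] at h2
      simp at h2
    · rw [h4, h5] at h2
      simp at h2
    · rw [h4, h5]
  subst hee
  rfl

theorem pres_iff (g : Co0) : PresCross g ↔ ∃ p, Mon p = g := by
  constructor
  · intro hg
    obtain ⟨e, σ, h⟩ := exists_param hg
    obtain ⟨he, hσ⟩ := param_mem h
    refine ⟨⟨⟨e, he⟩, ⟨σ, hσ⟩⟩, ?_⟩
    apply Subtype.ext
    apply Equiv.ext
    intro v
    apply Subtype.ext
    rw [show ((g : Equiv.Perm Lat) v) = g • v from rfl, h]
    exact Mon_spec _ v
  · rintro ⟨p, rfl⟩
    exact pres_of_param (Mon_spec p)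

theorem card_pres : Nat.card {g : Co0 // PresCross g} = 4096 * 244823040 := by
  have hbij : Function.Bijective (fun p : golayCode × M24 =>
      (⟨Mon p, (pres_iff _).mpr ⟨p, rfl⟩⟩ : {g : Co0 // PresCross g})) := by
    constructor
    · intro p q h
      exact Mon_injective (congrArg Subtype.val h)
    · rintro ⟨g, hg⟩
      obtain ⟨p, hp⟩ := (pres_iff g).mp hg
      exact ⟨p, Subtype.ext hp⟩
  rw [← Nat.card_congr (Equiv.ofBijective _ hbij), Nat.card_prod, card_golayCode, Cfsg.Agent.Lib.GolayChain.card_M24]

/-- The statement on the stabilizer of the standard cross. -/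
theorem stdCross_stab :
    (∀ g : Co0, PresCross g → ∃ f ∈ golayMonomialMaps, ∀ v : Lat, ((g • v : Lat) : P → ℤ) = f (v : P → ℤ)) ∧
    Nat.card {g : Co0 // PresCross g} = 4096 * 244823040 := by
  refine ⟨fun g hg => ?_, card_pres⟩
  obtain ⟨e, σ, h⟩ := exists_param hg
  obtain ⟨he, hσ⟩ := param_mem h
  refine ⟨signedPerm σ (support₂ e), ⟨σ, hσ, support₂ e, ⟨e, he, rfl⟩, rfl⟩, fun v => ?_⟩
  rw [h]
  funext i
  simp only [sgn, prm, signedPerm, support₂, Finset.mem_filter, Finset.mem_univ, true_and]
  have : σ⁻¹ i = σ.symm i := rfl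
  rw [this]
  by_cases he0 : e i = 0 <;> simp [he0]

end Cfsg.Agent.Lib.LeechMono
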