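/-
Transport of the certificates for the Higman-Sims configuration.
-/
import Mathlib
import Cfsg.Prelude.Def_Sporadic_a
import Cfsg.Agent.Lib.LeechCert3
import Cfsg.Agent.Lib.LeechCo3
import Cfsg.Agent.Lib.LeechCo3Facts
import Cfsg.Agent.Lib.LeechMcL
import Cfsg.Agent.Lib.LeechMcLFacts
import Cfsg.Agent.Lib.LeechHS
import Cfsg.Agent.Lib.LeechMono

set_option autoImplicit false
set_option linter.unusedSectionVars false
set_option linter.unusedSimpArgs false
set_option linter.unusedVariables false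

namespace Cfsg.Agent.Lib.LeechHSFacts

open Cfsg Cfsg.Agent.Lib.GolayCode Cfsg.Agent.Lib.GolayFacts Cfsg.Agent.Lib.GolayPerm
  Cfsg.Agent.Lib.LeechBase Cfsg.Agent.Lib.LeechCo Cfsg.Agent.Lib.LeechXi Cfsg.Agent.Lib.LeechOrb
  Cfsg.Agent.Lib.LeechCert Cfsg.Agent.Lib.LeechCo3 Cfsg.Agent.Lib.LeechCo3Facts Cfsg.Agent.Lib.LeechMcL
  Cfsg.Agent.Lib.LeechMcLFacts Cfsg.Agent.Lib.LeechHS

/-- the second base vector -/
def W₀ : leechLattice := ⟨dv wH, wH_mem⟩

/-- the third base vector -/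
def Z₀ : leechLattice := ⟨dv r11178, r11178_mem⟩

theorem W₀_eq : W₀ = -Z₀ - U₀ := Subtype.ext dv_wH

theorem dot_self (x : P → ℤ) : dotInt x x = sqNorm x := by
  simp only [dotInt, sqNorm, sq]

theorem exists_pair {v w : leechLattice} (hv : sqNorm (v : P → ℤ) = 48) (hw : sqNorm (w : P → ℤ) = 48)
    (hvw : dotInt (v : P → ℤ) (w : P → ℤ) = -32) :
    ∃ g : Co0, g • v = U₀ ∧ g • w = W₀ ∧ g • (-v - w) = Z₀ := by
  obtain ⟨g₀, hg⟩ := exists_to_base v hv
  set y : leechLattice := -v - w with hy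
  have hyc : (y : P → ℤ) = -((v : P → ℤ) + (w : P → ℤ)) := by
    rw [hy]
    show -(v : P → ℤ) - (w : P → ℤ) = _
    ring
  have hn : sqNorm (y : P → ℤ) = 32 := by
    rw [hyc, sqNorm_neg', sqNorm_add', hv, hw, hvw]
    norm_num
  have hd : dotInt (v : P → ℤ) (y : P → ℤ) = -16 := by
    have h1 : dotInt (v : P → ℤ) ((v : P → ℤ) + (w : P → ℤ)) = 16 := by
      simp only [dotInt, Pi.add_apply, mul_add, Finset.sum_add_distrib]
      have h2 : ∑ i, (v : P → ℤ) i * (w : P → ℤ) i = -32 := hvw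
      have h3 := dot_self (v : P → ℤ)
      rw [hv] at h3
      have h4 : ∑ i, (v : P → ℤ) i * (v : P → ℤ) i = 48 := h3
      rw [h2, h4]
      norm_num
    rw [hyc]
    simp only [dotInt, Pi.neg_apply, mul_neg, Finset.sum_neg_distrib]
    have h5 : ∑ i, (v : P → ℤ) i * ((v : P → ℤ) + (w : P → ℤ)) i = 16 := h1
    rw [h5]
  have h1 := (mem_SS1 (ha := uC_mem) hg (-16) y).mpr ⟨hn, hd⟩
  obtain ⟨hx, hy', k, hk1, hk2⟩ := (cover11178.2 _ h1).symm
  have hU : (k * g₀) • v = U₀ := by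
    rw [mul_smul, hg]
    exact hk1 uC (by simp) uC_mem
  have hZ : (k * g₀) • y = Z₀ := by
    rw [mul_smul]
    exact hk2
  refine ⟨k * g₀, hU, ?_, hZ⟩
  have e : w = -y - v := by
    rw [hy]
    abel
  rw [W₀_eq, e, LeechCert.smul_sub', Cfsg.Agent.Lib.LeechMono.smul_neg', hZ, hU]

theorem FR_lift2 {g : Co0} {v w : leechLattice} (h1 : g • v = U₀) (h2 : g • w = W₀) {U : List ℕ}
    (h3 : uC ∈ U) (h4 : wH ∈ U) {x x' : leechLattice}
    (h : FR U ((g • x : leechLattice) : P → ℤ) ((g • x' : leechLattice) : P → ℤ)) :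
    ∃ k : Co0, k • v = v ∧ k • w = w ∧ k • x = x' := by
  obtain ⟨k, hk1, hk2⟩ := lift_FR h
  exact ⟨k, hk1 uC h3 uC_mem v h1, hk1 wH h4 wH_mem w h2, hk2⟩

theorem mem_S100 {g : Co0} {v w : leechLattice} (h1 : g • v = U₀) (h2 : g • w = W₀) (x : leechLattice) :
    ((g • x : leechLattice) : P → ℤ) ∈ SS [(uC, 24), (wH, -24)] ↔
      sqNorm (x : P → ℤ) = 32 ∧ dotInt (v : P → ℤ) (x : P → ℤ) = 24 ∧ dotInt (w : P → ℤ) (x : P → ℤ) = -24 :=
  mem_SS2 (ha := uC_mem) (hb := wH_mem) h1 h2 24 (-24) x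

theorem exists_triple {v w x : leechLattice} (hv : sqNorm (v : P → ℤ) = 48) (hw : sqNorm (w : P → ℤ) = 48)
    (hvw : dotInt (v : P → ℤ) (w : P → ℤ) = -32)
    (hx : sqNorm (x : P → ℤ) = 32 ∧ dotInt (v : P → ℤ) (x : P → ℤ) = 24 ∧ dotInt (w : P → ℤ) (x : P → ℤ) = -24) :
    ∃ g : Co0, g • v = U₀ ∧ g • w = W₀ ∧ g • x = R₀ := by
  obtain ⟨g₁, h1, h2, _⟩ := exists_pair hv hw hvw
  have h3 := (mem_S100 h1 h2 x).mpr hx
  obtain ⟨hx', hy, k, hk1, hk2⟩ := (cover100.2 _ h3).symm
  refine ⟨k * g₁, ?_, ?_, ?_⟩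
  · rw [mul_smul, h1]
    exact hk1 uC (by simp) uC_mem
  · rw [mul_smul, h2]
    exact hk1 wH (by simp) wH_mem
  · rw [mul_smul]
    exact hk2

/-- The exchange. -/
theorem exists_swap : ∃ s : Co0, s • U₀ = W₀ ∧ s • W₀ = U₀ := by
  obtain ⟨s, hs⟩ := exists_of_atom swap_ok
  obtain ⟨h1, h2⟩ := swap_vals
  refine ⟨s, Subtype.ext ?_, Subtype.ext ?_⟩
  · have := hs uC uC_mem (by rw [h1]; decide +kernel)
    rw [h1] at this
    exact this
  · have := hs wH wH_mem (by rw [h2]; decide +kernel)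
    rw [h2] at this
    exact this

/-! ### The involution -/

/-- frame vector -/
def fA (i : ℕ) : ℕ := 4 <<< (4 * i) ||| 4 <<< (4 * ((i + 1) % 24))
/-- frame vector -/
def fB (i : ℕ) : ℕ := 4 <<< (4 * i) ||| 12 <<< (4 * ((i + 1) % 24))

theorem fAB_mem (i : ℕ) (hi : i < 24) : fA i ∈ frameCodes ∧ fB i ∈ frameCodes := by
  revert i
  decide +kernel

theorem frame_sum : ∀ p q : P, dv (fA (ptIdx p)) q + dv (fB (ptIdx p)) q = eight p q := by
  decide +kernel

theorem frame_mem : ∀ i < 24, dv (fA i) ∈ leechLattice ∧ dv (fB i) ∈ leechLattice := by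
  intro i hi
  exact ⟨lchk_spec (by revert i; decide +kernel), lchk_spec (by revert i; decide +kernel)⟩

/-- The involution and its properties. -/
theorem exists_involution : ∃ c : Co0, c * c = 1 ∧ c • U₀ = U₀ ∧ c • W₀ = W₀ ∧
    ∀ x ∈ SS [(uC, 24), (wH, -24)], ∀ hx : x ∈ leechLattice, c • (⟨x, hx⟩ : leechLattice) ≠ ⟨x, hx⟩ := by
  obtain ⟨c, hc⟩ := exists_of_atom inv_ok
  have hfx := inv_fix
  simp only [Bool.and_eq_true] at hfx
  have huf : wordC hsAtoms invW uC = uC := Nat.eq_of_beq_eq_true hfx.1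
  have hwf : wordC hsAtoms invW wH = wH := Nat.eq_of_beq_eq_true hfx.2
  refine ⟨c, ?_, ?_, ?_, ?_⟩
  · apply Cfsg.Agent.Lib.LeechMono.co0_ext
    intro p
    have hi := ptIdx_lt p
    obtain ⟨h1, h2⟩ := fAB_mem _ hi
    obtain ⟨m1, m2⟩ := frame_mem _ hi
    have key : ∀ n, n ∈ frameCodes → ∀ hn : dv n ∈ leechLattice, (c * c) • (⟨dv n, hn⟩ : leechLattice) = ⟨dv n, hn⟩ := by
      intro n hn hl
      have h3 := List.all_eq_true.mp inv_square n hn
      simp only [Bool.and_eq_true, Bool.not_eq_true'] at h3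
      obtain ⟨⟨h4, h5⟩, h6⟩ := h3
      have h4' := Nat.eq_of_beq_eq_true h4
      have h5' : wordC hsAtoms invW n ≠ 0 := by
        intro h0
        rw [h0] at h5
        exact absurd h5 (by decide)
      have h6' : wordC hsAtoms invW (wordC hsAtoms invW n) ≠ 0 := by
        intro h0
        rw [h0] at h6
        exact absurd h6 (by decide)
      have e1 := hc n hl h5'
      have hl2 : dv (wordC hsAtoms invW n) ∈ leechLattice := by
        rw [← e1]
        exact (c • (⟨dv n, hl⟩ : leechLattice)).2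
      have e2 := hc _ hl2 h6'
      apply Subtype.ext
      rw [mul_smul]
      have e3 : c • (⟨dv n, hl⟩ : leechLattice) = ⟨dv (wordC hsAtoms invW n), hl2⟩ := Subtype.ext e1
      rw [e3, e2]
      rw [← dv_normC (wordC hsAtoms invW (wordC hsAtoms invW n)), h4', dv_normC]
    have e : Cfsg.Agent.Lib.LeechMono.E p = (⟨dv (fA (ptIdx p)), m1⟩ : leechLattice) + ⟨dv (fB (ptIdx p)), m2⟩ := by
      apply Subtype.ext
      funext q
      exact (frame_sum p q).symm
    have h7 : (1 : Co0) • Cfsg.Agent.Lib.LeechMono.E p = Cfsg.Agent.Lib.LeechMono.E p := one_smul _ _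
    rw [h7, e, Cfsg.Agent.Lib.LeechMono.smul_add', key _ h1 m1, key _ h2 m2]
  · apply Subtype.ext
    have := hc uC uC_mem (by rw [huf]; decide +kernel)
    rw [huf] at this
    exact this
  · apply Subtype.ext
    have := hc wH wH_mem (by rw [hwf]; decide +kernel)
    rw [hwf] at this
    exact this
  · intro x hx hl heq
    obtain ⟨d, hd, rfl⟩ := exists_code_of_mem cover100.1 hx
    have hall := List.all_eq_true.mp inv_nofix d hd
    simp only [Bool.and_eq_true, Bool.not_eq_true'] at hall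
    obtain ⟨h1, h2⟩ := hall
    have h2' : wordC hsAtoms invW d ≠ 0 := by
      intro h0
      rw [h0] at h2
      exact absurd h2 (by decide)
    have e1 := hc d hl h2'
    have e2 : dv (wordC hsAtoms invW d) = dv d := by
      rw [← e1, heq]
    have e3 := normC_eq_of_dv e2
    rw [← (L100_props.2.2 d hd).1] at e3
    rw [e3] at h1
    have : Nat.beq d d = true := Nat.beq_refl d
    rw [this] at h1
    exact absurd h1 (by decide)

/-! ### The action on 11178 points -/

theorem hC_co3' : ∀ p ∈ [(uC, (-16 : ℤ))], p.1 ∈ [uC, wH, r11178] ∧ dv p.1 ∈ leechLattice := by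
  intro p hp
  simp only [List.mem_singleton] at hp
  subst hp
  exact ⟨by simp, uC_mem⟩

/-- the parts -/
def partsP : List (ℕ × List ℕ) := [(rP352, LP352), (rP1100, LP1100), (rP4125, LP4125), (rP5600, LP5600)]

theorem partsP_flat : partsP.flatMap Prod.snd = LP352 ++ (LP1100 ++ (LP4125 ++ LP5600)) := by
  simp [partsP, List.flatMap_cons]

theorem qq_352 : ∀ c ∈ LP352, c = normC c ∧ FR [uC, wH, r11178] (dv rP352) (dv c) := by
  unfold LP352
  refine runM_QQ (gfix_genW hsAtoms_ok hs_fix) _ _ _ ?_ ?_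
  · decide +kernel
  · exact lchk_spec (by decide +kernel)

theorem qq_1100 : ∀ c ∈ LP1100, c = normC c ∧ FR [uC, wH, r11178] (dv rP1100) (dv c) := by
  unfold LP1100
  refine runM_QQ (gfix_genW hsAtoms_ok hs_fix) _ _ _ ?_ ?_
  · decide +kernel
  · exact lchk_spec (by decide +kernel)

theorem qq_4125 : ∀ c ∈ LP4125, c = normC c ∧ FR [uC, wH, r11178] (dv rP4125) (dv c) := by
  unfold LP4125
  refine runM_QQ (gfix_genW hsAtoms_ok hs_fix) _ _ _ ?_ ?_
  · decide +kernel
  · exact lchk_spec (by decide +kernel)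

theorem qq_5600 : ∀ c ∈ LP5600, c = normC c ∧ FR [uC, wH, r11178] (dv rP5600) (dv c) := by
  unfold LP5600
  refine runM_QQ (gfix_genW hsAtoms_ok hs_fix) _ _ _ ?_ ?_
  · decide +kernel
  · exact lchk_spec (by decide +kernel)

theorem qq_P : ∀ p ∈ partsP, checkSS [(uC, -16)] p.1 = true ∧ ∀ c ∈ p.2, c = normC c ∧ FR [uC, wH, r11178] (dv p.1) (dv c) := by
  intro p hp
  simp only [partsP, List.mem_cons, List.not_mem_nil, or_false] at hp
  rcases hp with rfl | rfl | rfl | rfl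
  · exact ⟨by decide +kernel, qq_352⟩
  · exact ⟨by decide +kernel, qq_1100⟩
  · exact ⟨by decide +kernel, qq_4125⟩
  · exact ⟨by decide +kernel, qq_5600⟩

attribute [local irreducible] LP352 LP1100 LP4125 LP5600

theorem m0 : (rP352, LP352) ∈ partsP := by
  unfold partsP
  exact List.mem_cons_self

theorem m1 : (rP1100, LP1100) ∈ partsP := by
  unfold partsP
  exact List.mem_cons_of_mem _ List.mem_cons_self

theorem m2 : (rP4125, LP4125) ∈ partsP := by
  unfold partsP
  exact List.mem_cons_of_mem _ (List.mem_cons_of_mem _ List.mem_cons_self)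

theorem m3 : (rP5600, LP5600) ∈ partsP := by
  unfold partsP
  exact List.mem_cons_of_mem _ (List.mem_cons_of_mem _ (List.mem_cons_of_mem _ List.mem_cons_self))

theorem LP_spec : (r11178 :: partsP.flatMap Prod.snd).Nodup ∧ (r11178 :: partsP.flatMap Prod.snd).length = 11178 := by
  rw [partsP_flat]
  exact checkDistinct_spec (by norm_num) LP_ok

theorem cover_parts : SS [(uC, -16)] = dv '' {c | c ∈ r11178 :: partsP.flatMap Prod.snd} ∧
    ∀ p ∈ partsP, SS ([(uC, -16)] ++ [(r11178, dotZ r11178 p.1)]) = dv '' {c | c ∈ p.2} := by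
  apply parts_cover (U := [uC, wH, r11178]) (hC_co3' ) (by decide +kernel) (by simp) (by decide +kernel) qq_P LP_spec.1 LP_spec.2
    card11178 (by decide +kernel)

theorem hC_co4 : ∀ p ∈ [(uC, (-16 : ℤ))], p.1 ∈ [uC, r11178] ∧ dv p.1 ∈ leechLattice := by
  intro p hp
  simp only [List.mem_singleton] at hp
  subst hp
  exact ⟨by simp, uC_mem⟩

theorem orbits {u x : leechLattice} {g : Co0} (hg1 : g • u = U₀) (hg3 : g • x = Z₀) :
    ∀ p ∈ partsP, ∀ ha : dv p.1 ∈ leechLattice,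
      MulAction.orbit ↥(MulAction.stabilizer Co0 u ⊓ MulAction.stabilizer Co0 x) (g⁻¹ • (⟨dv p.1, ha⟩ : leechLattice)) =
        {y | ((g • y : leechLattice) : P → ℤ) ∈ SS ([(uC, -16)] ++ [(r11178, dotZ r11178 p.1)])} := by
  intro p hp ha
  apply orbit_part_eq (U := [uC, wH, r11178]) (U₁ := [uC, r11178]) (parts := partsP) cover_parts.2
    (fun q hq c hc => ((qq_P q hq).2 c hc).2) (fun q hq => (qq_P q hq).1) ⟨by simp, r11178_mem⟩ hC_co4 ?_ ?_ hp
  · intro h hh a ha' hla
    have hh1 : (h : Co0) • u = u := hh.1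
    have hh3 : (h : Co0) • x = x := hh.2
    simp only [List.mem_cons, List.not_mem_nil, or_false] at ha'
    rcases ha' with rfl | rfl
    · have e : (⟨dv uC, hla⟩ : leechLattice) = g • u := hg1.symm
      rw [e, mul_smul, mul_smul, inv_smul_smul, hh1]
    · have e : (⟨dv r11178, hla⟩ : leechLattice) = g • x := hg3.symm
      rw [e, mul_smul, mul_smul, inv_smul_smul, hh3]
  · intro t ht
    refine ⟨?_, ?_⟩
    · exact fixes_conj g t (by rw [hg1]; exact ht uC (by simp) uC_mem)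
    · exact fixes_conj g t (by rw [hg3]; exact ht r11178 (by simp) r11178_mem)

theorem rP_mem : dv rP352 ∈ leechLattice ∧ dv rP1100 ∈ leechLattice ∧ dv rP4125 ∈ leechLattice ∧ dv rP5600 ∈ leechLattice :=
  ⟨lchk_spec (by decide +kernel), lchk_spec (by decide +kernel), lchk_spec (by decide +kernel), lchk_spec (by decide +kernel)⟩

theorem LP_lengths : LP352.length = 352 ∧ LP1100.length = 1100 ∧ LP4125.length = 4125 ∧ LP5600.length = 5600 := by
  have h := LP_len
  simp only [Prod.mk.injEq] at h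
  obtain ⟨h1, h2, h3, h4⟩ := h
  have e : ∀ l : List ℕ, l.countP (fun _ => true) = l.length := fun l => by simp
  refine ⟨?_, ?_, ?_, ?_⟩
  · rw [← e]; exact countC_spec h1
  · rw [← e]; exact countC_spec h2
  · rw [← e]; exact countC_spec h3
  · rw [← e]; exact countC_spec h4

theorem ncard_orbit {H : Subgroup Co0} {g : Co0} {p : ℕ × List ℕ} (hp : p ∈ partsP) {ha : dv p.1 ∈ leechLattice}
    (h : MulAction.orbit H (g⁻¹ • (⟨dv p.1, ha⟩ : leechLattice)) =
        {y | ((g • y : leechLattice) : P → ℤ) ∈ SS ([(uC, -16)] ++ [(r11178, dotZ r11178 p.1)])}) :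
    (MulAction.orbit H (g⁻¹ • (⟨dv p.1, ha⟩ : leechLattice))).ncard = p.2.length := by
  rw [h, ncard_preimage (SS_subset _), cover_parts.2 p hp, ncard_image_list]
  · intro c hc
    exact ((qq_P p hp).2 c hc).1
  · have h1 := (List.nodup_cons.mp LP_spec.1).2
    rw [List.nodup_flatMap] at h1
    exact h1.1 p hp

/-- The statement for given vectors. -/
theorem main1641 (u x : leechLattice) (hu : sqNorm (u : P → ℤ) = 48)
    (hx : x ∈ {x : leechLattice | sqNorm (x : P → ℤ) = 32 ∧ dotInt (u : P → ℤ) (x : P → ℤ) = -16}) :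
    ∃ y₁ ∈ {x : leechLattice | sqNorm (x : P → ℤ) = 32 ∧ dotInt (u : P → ℤ) (x : P → ℤ) = -16},
    ∃ y₂ ∈ {x : leechLattice | sqNorm (x : P → ℤ) = 32 ∧ dotInt (u : P → ℤ) (x : P → ℤ) = -16},
    ∃ y₃ ∈ {x : leechLattice | sqNorm (x : P → ℤ) = 32 ∧ dotInt (u : P → ℤ) (x : P → ℤ) = -16},
    ∃ y₄ ∈ {x : leechLattice | sqNorm (x : P → ℤ) = 32 ∧ dotInt (u : P → ℤ) (x : P → ℤ) = -16},
      (MulAction.orbit ↥(MulAction.stabilizer Co0 u ⊓ MulAction.stabilizer Co0 x) y₁).ncard = 352 ∧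
      (MulAction.orbit ↥(MulAction.stabilizer Co0 u ⊓ MulAction.stabilizer Co0 x) y₂).ncard = 1100 ∧
      (MulAction.orbit ↥(MulAction.stabilizer Co0 u ⊓ MulAction.stabilizer Co0 x) y₃).ncard = 4125 ∧
      (MulAction.orbit ↥(MulAction.stabilizer Co0 u ⊓ MulAction.stabilizer Co0 x) y₄).ncard = 5600 ∧
      {x : leechLattice | sqNorm (x : P → ℤ) = 32 ∧ dotInt (u : P → ℤ) (x : P → ℤ) = -16} =
        {x} ∪ MulAction.orbit ↥(MulAction.stabilizer Co0 u ⊓ MulAction.stabilizer Co0 x) y₁ ∪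
        MulAction.orbit ↥(MulAction.stabilizer Co0 u ⊓ MulAction.stabilizer Co0 x) y₂ ∪
        MulAction.orbit ↥(MulAction.stabilizer Co0 u ⊓ MulAction.stabilizer Co0 x) y₃ ∪
        MulAction.orbit ↥(MulAction.stabilizer Co0 u ⊓ MulAction.stabilizer Co0 x) y₄ := by
  obtain ⟨g₀, h0⟩ := exists_to_base u hu
  have h3 := (mem_SS1 (ha := uC_mem) h0 (-16) x).mpr hx
  obtain ⟨hx1, hx2, t, ht1, ht2⟩ := (cover11178.2 _ h3).symm
  have hg1 : (t * g₀) • u = U₀ := by
    rw [mul_smul, h0]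
    exact ht1 uC (by simp) uC_mem
  have hg3 : (t * g₀) • x = Z₀ := by
    rw [mul_smul]
    exact ht2
  set g := t * g₀ with hg
  have key := fun y => mem_SS1 (ha := uC_mem) hg1 (-16) y
  have hO := orbits hg1 hg3
  have memb : ∀ (a : ℕ) (ha : dv a ∈ leechLattice), dv a ∈ SS [(uC, -16)] →
      (g⁻¹ • (⟨dv a, ha⟩ : leechLattice)) ∈ {x : leechLattice | sqNorm (x : P → ℤ) = 32 ∧ dotInt (u : P → ℤ) (x : P → ℤ) = -16} := by
    intro a ha hS
    refine (key _).mp ?_
    rw [smul_inv_smul]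
    exact hS
  obtain ⟨l0, l1, l2, l3⟩ := LP_lengths
  refine ⟨_, memb rP352 rP_mem.1 (mem_SS_of_check (qq_P _ m0).1), _, memb rP1100 rP_mem.2.1 (mem_SS_of_check (qq_P _ m1).1),
    _, memb rP4125 rP_mem.2.2.1 (mem_SS_of_check (qq_P _ m2).1), _, memb rP5600 rP_mem.2.2.2 (mem_SS_of_check (qq_P _ m3).1),
    ?_, ?_, ?_, ?_, ?_⟩
  · rw [← l0]
    exact ncard_orbit m0 (hO _ m0 rP_mem.1)
  · rw [← l1]
    exact ncard_orbit m1 (hO _ m1 rP_mem.2.1)
  · rw [← l2]
    exact ncard_orbit m2 (hO _ m2 rP_mem.2.2.1)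
  · rw [← l3]
    exact ncard_orbit m3 (hO _ m3 rP_mem.2.2.2)
  · rw [hO _ m0 rP_mem.1, hO _ m1 rP_mem.2.1, hO _ m2 rP_mem.2.2.1, hO _ m3 rP_mem.2.2.2]
    ext y
    simp only [Set.mem_union, Set.mem_ofPred_eq, Set.mem_singleton_iff]
    -- membership in a part gives membership in the whole set
    have back : ∀ T : ℤ, ((g • y : leechLattice) : P → ℤ) ∈ SS ([(uC, -16)] ++ [(r11178, T)]) →
        sqNorm (y : P → ℤ) = 32 ∧ dotInt (u : P → ℤ) (y : P → ℤ) = -16 := by
      intro T h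
      refine (key y).mp ⟨h.1, h.2.1, fun q hq => h.2.2 q (List.mem_append_left _ hq)⟩
    constructor
    · intro hy
      have hy' := (key y).mpr hy
      rw [cover_parts.1] at hy'
      obtain ⟨c, hc, hcy⟩ := hy'
      rcases List.mem_cons.mp hc with rfl | hc
      · left; left; left; left
        apply MulAction.injective g
        show g • y = g • x
        rw [hg3]
        exact Subtype.ext hcy.symm
      · obtain ⟨p, hp, hc⟩ := List.mem_flatMap.mp hc
        have h5 : ((g • y : leechLattice) : P → ℤ) ∈ SS ([(uC, -16)] ++ [(r11178, dotZ r11178 p.1)]) := by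
          rw [cover_parts.2 p hp]
          exact ⟨c, hc, hcy⟩
        simp only [partsP, List.mem_cons, List.not_mem_nil, or_false] at hp
        rcases hp with rfl | rfl | rfl | rfl
        · left; left; left; right; exact h5
        · left; left; right; exact h5
        · left; right; exact h5
        · right; exact h5
    · rintro (((( rfl | h) | h) | h) | h)
      · exact hx
      · exact back _ h
      · exact back _ h
      · exact back _ h
      · exact back _ h

end Cfsg.Agent.Lib.LeechHSFacts
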