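import Cfsg.Agent.Lib.GolayM12

/-!
# The lattice built from the length-24 code

`leechSub`: the subgroup whose carrier is `leechSet`; hence `leechLattice = leechSub`.
Parity facts: `sqNorm` is divisible by 16, and the minimum of the nonzero vectors is 32.
-/

set_option autoImplicit false

namespace Cfsg.Agent.Lib.LeechL

open Cfsg Cfsg.Agent.Lib.GolayCode Cfsg.Agent.Lib.GolayFacts Cfsg.Agent.Lib.GolayPerm
open Cfsg.Agent.Lib.GolayM12 Finset
open scoped Pointwise

/-- The family of supports of the code. -/
abbrev CS : Set (Finset GolayPt) := supports (golayCode : Set (GolayPt → ZMod 2))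

theorem empty_mem_CS : (∅ : Finset GolayPt) ∈ CS := by
  refine mem_supports_iff.mpr ⟨0, by norm_num, ?_⟩
  decide +kernel

theorem univ_mem_CS : (Finset.univ : Finset GolayPt) ∈ CS := by
  refine mem_supports_iff.mpr ⟨2048, by norm_num, ?_⟩
  decide +kernel

theorem compl_mem_CS {a : Finset GolayPt} (ha : a ∈ CS) : aᶜ ∈ CS := by
  have h := card_symmDiff_code univ_mem_CS ha
  have : symmDiff Finset.univ a = aᶜ := by
    ext p; simp [Finset.mem_symmDiff]
  rwa [this] at h

/-- Card of a code word is divisible by 4. -/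
theorem four_dvd_card {a : Finset GolayPt} (ha : a ∈ CS) : 4 ∣ a.card := by
  rcases card_of_mem_supports ha with h | h | h | h | h <;> rw [h] <;> norm_num

/-- Two code words meet in an even number of points. -/
theorem two_dvd_card_inter {a b : Finset GolayPt} (ha : a ∈ CS) (hb : b ∈ CS) : 2 ∣ (a ∩ b).card := by
  have h1 := four_dvd_card (card_symmDiff_code ha hb)
  have h2 := four_dvd_card ha
  have h3 := four_dvd_card hb
  have h4 := Cfsg.Agent.Lib.GolayFacts.card_symmDiff_add a b
  omega

/-- The pattern of a vector in residue `k`. -/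
abbrev pat (x : GolayPt → ℤ) (k : ℤ) : Finset GolayPt := Finset.univ.filter fun i => x i ≡ k [ZMOD 4]

theorem mem_pat {x : GolayPt → ℤ} {k : ℤ} {i : GolayPt} : i ∈ pat x k ↔ x i % 4 = k % 4 := by
  unfold pat
  rw [Finset.mem_filter]
  simp only [Finset.mem_univ, true_and, Int.ModEq]

/-- Membership reduces to a single residue. -/
theorem mem_leechSet_of {x : GolayPt → ℤ} {m : ℤ} (h1 : ∀ i, x i ≡ m [ZMOD 2])
    (h2 : ∑ i, x i ≡ 4 * m [ZMOD 8]) (h3 : pat x (m + 2) ∈ CS) : x ∈ leechSet := by
  refine ⟨m, h1, h2, fun k => ?_⟩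
  have hpar : ∀ i, x i % 2 = m % 2 := h1
  have hcases : (k % 4 = (m + 2) % 4) ∨ (k % 4 = m % 4) ∨ (k % 2 ≠ m % 2) := by omega
  rcases hcases with hk | hk | hk
  · have : pat x k = pat x (m + 2) := by
      ext i; simp only [mem_pat]; omega
    show pat x k ∈ CS
    rw [this]; exact h3
  · have : pat x k = (pat x (m + 2))ᶜ := by
      ext i
      simp only [mem_pat, Finset.mem_compl]
      have := hpar i
      omega
    have h4 := compl_mem_CS h3
    rw [← this] at h4
    exact h4
  · have : pat x k = ∅ := by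
      ext i
      simp only [mem_pat, Finset.notMem_empty, iff_false]
      have := hpar i
      omega
    show pat x k ∈ CS
    rw [this]
    exact empty_mem_CS

/-- The subgroup with carrier `leechSet`. -/
def leechSub : AddSubgroup (GolayPt → ℤ) where
  carrier := leechSet
  zero_mem' := by
    refine mem_leechSet_of (m := 0) (fun i => rfl) ?_ ?_
    · simp [Int.ModEq]
    · have : pat (0 : GolayPt → ℤ) (0 + 2) = ∅ := by
        ext i
        simp only [mem_pat, Pi.zero_apply, Finset.notMem_empty, iff_false]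
        decide
      rw [this]; exact empty_mem_CS
  add_mem' := by
    rintro x y ⟨m, hm1, hm2, hm3⟩ ⟨n, hn1, hn2, hn3⟩
    refine mem_leechSet_of (m := m + n) (fun i => ?_) ?_ ?_
    · have h1 : x i % 2 = m % 2 := hm1 i
      have h2 : y i % 2 = n % 2 := hn1 i
      show (x i + y i) % 2 = (m + n) % 2
      omega
    · have h1 : (∑ i, x i) % 8 = (4 * m) % 8 := hm2
      have h2 : (∑ i, y i) % 8 = (4 * n) % 8 := hn2
      show (∑ i, (x i + y i)) % 8 = (4 * (m + n)) % 8
      rw [Finset.sum_add_distrib]
      omega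
    · have h := card_symmDiff_code (hm3 (m + 2)) (hn3 (n + 2))
      have : pat (x + y) (m + n + 2) = symmDiff (pat x (m + 2)) (pat y (n + 2)) := by
        ext i
        have h1 : x i % 2 = m % 2 := hm1 i
        have h2 : y i % 2 = n % 2 := hn1 i
        simp only [mem_pat, Finset.mem_symmDiff, Pi.add_apply]
        omega
      rw [this]
      exact h
  neg_mem' := by
    rintro x ⟨m, hm1, hm2, hm3⟩
    refine mem_leechSet_of (m := -m) (fun i => ?_) ?_ ?_
    · have h1 : x i % 2 = m % 2 := hm1 i
      show (-x i) % 2 = (-m) % 2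
      omega
    · have h1 : (∑ i, x i) % 8 = (4 * m) % 8 := hm2
      show (∑ i, (-x) i) % 8 = (4 * (-m)) % 8
      simp only [Pi.neg_apply, Finset.sum_neg_distrib]
      omega
    · have : pat (-x) (-m + 2) = pat x (m + 2) := by
        ext i
        have h1 : x i % 2 = m % 2 := hm1 i
        simp only [mem_pat, Pi.neg_apply]
        omega
      rw [this]
      exact hm3 (m + 2)

theorem coe_leechSub : (leechSub : Set (GolayPt → ℤ)) = leechSet := rfl

theorem leechLattice_eq : leechLattice = leechSub := by
  rw [leechLattice, ← coe_leechSub]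
  exact AddSubgroup.closure_eq _

theorem mem_leechLattice {x : GolayPt → ℤ} : x ∈ leechLattice ↔ x ∈ leechSet := by
  rw [leechLattice_eq]; rfl

/-- Sum over a finset in terms of cards: divisibility form. -/
theorem dvd_sum_sub {ι : Type*} (s : Finset ι) (f g : ι → ℤ) (n : ℤ) (h : ∀ i ∈ s, n ∣ f i - g i) :
    n ∣ ∑ i ∈ s, f i - ∑ i ∈ s, g i := by
  rw [← Finset.sum_sub_distrib]
  exact Finset.dvd_sum h

theorem sum_ite_pat (a : Finset GolayPt) (c : ℤ) :
    ∑ i, (if i ∈ a then c else 0) = (a.card : ℤ) * c := by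
  rw [Finset.sum_ite_mem, Finset.univ_inter, Finset.sum_const, nsmul_eq_mul]

/-- Every vector of the lattice has norm divisible by 16. -/
theorem sixteen_dvd_sqNorm {x : GolayPt → ℤ} (hx : x ∈ leechSet) : (16 : ℤ) ∣ sqNorm x := by
  obtain ⟨m, hm1, hm2, hm3⟩ := hx
  have hpar : ∀ i, x i % 2 = m % 2 := hm1
  have hsum : (∑ i, x i) % 8 = (4 * m) % 8 := hm2
  rcases Int.emod_two_eq_zero_or_one m with h0 | h1
  · -- even case
    have h4 := four_dvd_card (hm3 2)
    have key := dvd_sum_sub Finset.univ (fun i => x i ^ 2)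
      (fun i => if i ∈ pat x 2 then 4 else 0) 16 (fun i _ => by
        have hi := hpar i
        by_cases h : i ∈ pat x 2
        · have h' := mem_pat.mp h
          simp only [h, if_true]
          obtain ⟨t, ht⟩ : ∃ t, x i = 4 * t + 2 := ⟨x i / 4, by omega⟩
          rw [ht]
          exact ⟨t ^ 2 + t, by ring⟩
        · have h' := fun hh => h (mem_pat.mpr hh)
          simp only [h, if_false]
          obtain ⟨t, ht⟩ : ∃ t, x i = 4 * t := ⟨x i / 4, by
            have : ¬ (x i % 4 = 2 % 4) := h'
            omega⟩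
          rw [ht]
          exact ⟨t ^ 2, by ring⟩)
    rw [sum_ite_pat] at key
    obtain ⟨t, ht⟩ := h4
    rw [ht] at key
    have e : sqNorm x = ∑ i, x i ^ 2 := rfl
    rw [e]
    have h5 : (16 : ℤ) ∣ ((4 * t : ℕ) : ℤ) * 4 := ⟨t, by push_cast; ring⟩
    exact (Int.dvd_iff_dvd_of_dvd_sub key).mpr h5
  · -- odd case
    have h4 := four_dvd_card (hm3 3)
    have key := dvd_sum_sub Finset.univ (fun i => x i ^ 2)
      (fun i => 2 * x i - 1 + if i ∈ pat x 3 then 4 else 0) 16 (fun i _ => by
        have hi := hpar i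
        by_cases h : i ∈ pat x 3
        · have h' := mem_pat.mp h
          simp only [h, if_true]
          obtain ⟨t, ht⟩ : ∃ t, x i = 4 * t + 3 := ⟨x i / 4, by omega⟩
          rw [ht]
          exact ⟨t ^ 2 + t, by ring⟩
        · have h' := fun hh => h (mem_pat.mpr hh)
          simp only [h, if_false]
          obtain ⟨t, ht⟩ : ∃ t, x i = 4 * t + 1 := ⟨x i / 4, by
            have : ¬ (x i % 4 = 3 % 4) := h'
            omega⟩
          rw [ht]
          exact ⟨t ^ 2, by ring⟩)
    rw [Finset.sum_add_distrib, Finset.sum_sub_distrib, sum_ite_pat, ← Finset.mul_sum] at key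
    obtain ⟨t, ht⟩ := h4
    rw [ht] at key
    have e : sqNorm x = ∑ i, x i ^ 2 := rfl
    rw [e]
    have hcard : (∑ _i : GolayPt, (1 : ℤ)) = 24 := by
      simp
    rw [hcard] at key
    have h5 : (16 : ℤ) ∣ 2 * ∑ i, x i - 24 + ((4 * t : ℕ) : ℤ) * 4 := by
      push_cast
      omega
    exact (Int.dvd_iff_dvd_of_dvd_sub key).mpr h5

/-- Nonzero vectors of the lattice have norm at least 32. -/
theorem thirtytwo_le_sqNorm {x : GolayPt → ℤ} (hx : x ∈ leechSet) (h0 : x ≠ 0) : 32 ≤ sqNorm x := by
  have h16 := sixteen_dvd_sqNorm hx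
  obtain ⟨m, hm1, hm2, hm3⟩ := hx
  have hpar : ∀ i, x i % 2 = m % 2 := hm1
  have hsum : (∑ i, x i) % 8 = (4 * m) % 8 := hm2
  have e : sqNorm x = ∑ i, x i ^ 2 := rfl
  rcases Int.emod_two_eq_zero_or_one m with h0m | h1m
  · by_cases he : pat x 2 = ∅
    · -- all coordinates divisible by 4
      have hall : ∀ i, x i % 4 = 0 := by
        intro i
        have hi := hpar i
        have : i ∉ pat x 2 := by rw [he]; simp
        have h' : ¬ (x i % 4 = 2 % 4) := fun hh => this (mem_pat.mpr hh)
        omega
      obtain ⟨i, hi⟩ : ∃ i, x i ≠ 0 := by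
        by_contra hne
        push Not at hne
        exact h0 (funext hne)
      by_contra hlt
      push Not at hlt
      have hsplit : ∑ j, x j ^ 2 = x i ^ 2 + ∑ j ∈ Finset.univ.erase i, x j ^ 2 :=
        (Finset.add_sum_erase _ _ (Finset.mem_univ i)).symm
      have hnn : 0 ≤ ∑ j ∈ Finset.univ.erase i, x j ^ 2 :=
        Finset.sum_nonneg fun j _ => sq_nonneg _
      have hxi : 16 ≤ x i ^ 2 := by
        obtain ⟨t, ht⟩ : ∃ t, x i = 4 * t := ⟨x i / 4, by have := hall i; omega⟩
        have ht0 : t ≠ 0 := by rintro rfl; exact hi (by simpa using ht)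
        rw [ht]
        have : 1 ≤ t ^ 2 := by
          have := sq_nonneg t
          have h2 : t ^ 2 ≠ 0 := pow_ne_zero _ ht0
          omega
        nlinarith
      have hrest : ∀ j ∈ Finset.univ.erase i, x j = 0 := by
        intro j hj
        have hle := Finset.single_le_sum (f := fun j => x j ^ 2) (fun j _ => sq_nonneg _) hj
        rw [e] at hlt
        have hlt2 : x j ^ 2 < 16 := by omega
        obtain ⟨t, ht⟩ : ∃ t, x j = 4 * t := ⟨x j / 4, by have := hall j; omega⟩
        rw [ht] at hlt2 ⊢
        have : t = 0 := by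
          by_contra ht0
          have h2 : t ^ 2 ≠ 0 := pow_ne_zero _ ht0
          have := sq_nonneg t
          have h3 : 1 ≤ t ^ 2 := by omega
          nlinarith
        rw [this]; simp
      have hsumx : ∑ j, x j = x i := by
        rw [← Finset.add_sum_erase _ _ (Finset.mem_univ i), Finset.sum_eq_zero hrest, add_zero]
      rw [hsumx] at hsum
      have hxi2 : x i ^ 2 < 32 := by rw [e] at hlt; omega
      obtain ⟨t, ht⟩ : ∃ t, x i = 4 * t := ⟨x i / 4, by have := hall i; omega⟩
      have ht0 : t ≠ 0 := by rintro rfl; exact hi (by simpa using ht)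
      have ht2 : t ^ 2 < 2 := by rw [ht] at hxi2; nlinarith
      have ht3 : t = 1 ∨ t = -1 := by
        have h1 : t ≤ 1 := by nlinarith
        have h2 : -1 ≤ t := by nlinarith
        omega
      rcases ht3 with rfl | rfl <;> rw [ht] at hsum <;> omega
    · -- a code word of positive weight
      have hcard : 8 ≤ (pat x 2).card := by
        have h : (pat x 2).card = 0 ∨ (pat x 2).card = 8 ∨ (pat x 2).card = 12 ∨ (pat x 2).card = 16 ∨
          (pat x 2).card = 24 := card_of_mem_supports (hm3 2)
        have hpos : 0 < (pat x 2).card := Finset.card_pos.mpr (Finset.nonempty_iff_ne_empty.mpr he)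
        rcases h with h | h | h | h | h <;> omega
      have hle : ∑ j ∈ pat x 2, (4 : ℤ) ≤ ∑ j, x j ^ 2 := by
        calc ∑ j ∈ pat x 2, (4 : ℤ) ≤ ∑ j ∈ pat x 2, x j ^ 2 := by
              apply Finset.sum_le_sum
              intro j hj
              have h' := mem_pat.mp hj
              have hx0 : x j ≠ 0 := by rintro h; rw [h] at h'; omega
              have hx1 : x j ≠ 1 := by rintro h; rw [h] at h'; omega
              have hx2 : x j ≠ -1 := by rintro h; rw [h] at h'; omega
              by_contra hlt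
              push Not at hlt
              have : x j ≤ 1 := by nlinarith
              have : -1 ≤ x j := by nlinarith
              omega
          _ ≤ ∑ j, x j ^ 2 := Finset.sum_le_sum_of_subset_of_nonneg (Finset.subset_univ _)
              (fun j _ _ => sq_nonneg _)
      rw [Finset.sum_const, nsmul_eq_mul] at hle
      rw [e]
      have : (8 : ℤ) ≤ ((pat x 2).card : ℤ) := by exact_mod_cast hcard
      linarith
  · -- odd vectors
    have hge : ∑ _j : GolayPt, (1 : ℤ) ≤ ∑ j, x j ^ 2 := by
      apply Finset.sum_le_sum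
      intro j _
      have hi := hpar j
      have hx0 : x j ≠ 0 := by rintro h; rw [h] at hi; omega
      have := sq_nonneg (x j)
      have h2 : x j ^ 2 ≠ 0 := pow_ne_zero _ hx0
      omega
    have hcard : (∑ _j : GolayPt, (1 : ℤ)) = 24 := by simp
    rw [hcard, ← e] at hge
    obtain ⟨t, ht⟩ := h16
    omega

/-- Lattice is invariant under permutations of the group. -/
theorem comp_mem {σ : Equiv.Perm GolayPt} (hσ : σ ∈ M24) {x : GolayPt → ℤ} (hx : x ∈ leechSet) :
    (fun i => x (σ i)) ∈ leechSet := by
  obtain ⟨m, hm1, hm2, hm3⟩ := hx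
  refine ⟨m, fun i => hm1 (σ i), ?_, fun k => ?_⟩
  · rw [Equiv.sum_comp σ x]
    exact hm2
  · have h1 := smul_mem_supports (inv_mem hσ) (hm3 k)
    have h2 : σ⁻¹ • (Finset.univ.filter fun i => x i ≡ k [ZMOD 4])
        = Finset.univ.filter fun i => x (σ i) ≡ k [ZMOD 4] := by
      ext i
      simp only [Finset.mem_smul_finset, Finset.mem_filter, Finset.mem_univ, true_and]
      constructor
      · rintro ⟨j, hj, rfl⟩
        simpa using hj
      · intro hi
        exact ⟨σ i, hi, by simp⟩
    rwa [h2] at h1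

/-- Sum of coordinates over a code word is divisible by 4. -/
theorem four_dvd_sum_word {x : GolayPt → ℤ} (hx : x ∈ leechSet) {c : Finset GolayPt} (hc : c ∈ CS) :
    (4 : ℤ) ∣ ∑ i ∈ c, x i := by
  obtain ⟨m, hm1, hm2, hm3⟩ := hx
  have hpar : ∀ i, x i % 2 = m % 2 := hm1
  have key := dvd_sum_sub c x (fun i => m + if i ∈ pat x (m + 2) then 2 else 0) 4 (fun i _ => by
    have hi := hpar i
    by_cases h : i ∈ pat x (m + 2)
    · have h' := mem_pat.mp h
      simp only [h, if_true]
      omega
    · have h' : ¬ (x i % 4 = (m + 2) % 4) := fun hh => h (mem_pat.mpr hh)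
      simp only [h, if_false]
      omega)
  rw [Finset.sum_add_distrib, Finset.sum_const, nsmul_eq_mul, Finset.sum_ite_mem, Finset.sum_const,
    nsmul_eq_mul] at key
  obtain ⟨t, ht⟩ := four_dvd_card hc
  obtain ⟨s, hs⟩ := two_dvd_card_inter hc (hm3 (m + 2))
  rw [ht, hs] at key
  have h5 : (4 : ℤ) ∣ ((4 * t : ℕ) : ℤ) * m + ((2 * s : ℕ) : ℤ) * 2 := ⟨t * m + s, by push_cast; ring⟩
  exact (Int.dvd_iff_dvd_of_dvd_sub key).mpr h5

/-- Lattice is invariant under sign changes on code words. -/
theorem sign_mem {c : Finset GolayPt} (hc : c ∈ CS) {x : GolayPt → ℤ} (hx : x ∈ leechSet) :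
    (fun i => if i ∈ c then -x i else x i) ∈ leechSet := by
  have h4 := four_dvd_sum_word hx hc
  obtain ⟨m, hm1, hm2, hm3⟩ := hx
  have hpar : ∀ i, x i % 2 = m % 2 := hm1
  have hsum : (∑ i, x i) % 8 = (4 * m) % 8 := hm2
  refine mem_leechSet_of (m := m) (fun i => ?_) ?_ ?_
  · show (if i ∈ c then -x i else x i) % 2 = m % 2
    have hi := hpar i
    split_ifs <;> omega
  · have e : ∑ i, (if i ∈ c then -x i else x i) = ∑ i, x i - 2 * ∑ i ∈ c, x i := by
      rw [Finset.mul_sum, ← Finset.sum_filter_add_sum_filter_not Finset.univ (· ∈ c) x]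
      rw [← Finset.sum_filter_add_sum_filter_not Finset.univ (· ∈ c) (fun i => if i ∈ c then -x i else x i)]
      have h1 : ∑ i ∈ Finset.univ.filter (· ∈ c), (if i ∈ c then -x i else x i)
          = - ∑ i ∈ Finset.univ.filter (· ∈ c), x i := by
        rw [← Finset.sum_neg_distrib]
        exact Finset.sum_congr rfl fun i hi => by simp [(Finset.mem_filter.mp hi).2]
      have h2 : ∑ i ∈ Finset.univ.filter (fun i => ¬ i ∈ c), (if i ∈ c then -x i else x i)
          = ∑ i ∈ Finset.univ.filter (fun i => ¬ i ∈ c), x i :=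
        Finset.sum_congr rfl fun i hi => by simp [(Finset.mem_filter.mp hi).2]
      have h3 : ∑ i ∈ c, 2 * x i = 2 * ∑ i ∈ Finset.univ.filter (· ∈ c), x i := by
        rw [← Finset.mul_sum]
        congr 1
        exact Finset.sum_congr (by ext; simp) (fun _ _ => rfl)
      rw [h1, h2, h3]
      ring
    show (∑ i, (if i ∈ c then -x i else x i)) % 8 = (4 * m) % 8
    rw [e]
    omega
  · rcases Int.emod_two_eq_zero_or_one m with h0 | h1
    · have : pat (fun i => if i ∈ c then -x i else x i) (m + 2) = pat x (m + 2) := by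
        ext i
        have hi := hpar i
        simp only [mem_pat]
        split_ifs <;> omega
      rw [this]
      exact hm3 (m + 2)
    · have : pat (fun i => if i ∈ c then -x i else x i) (m + 2) = symmDiff (pat x (m + 2)) c := by
        ext i
        have hi := hpar i
        simp only [mem_pat, Finset.mem_symmDiff]
        by_cases hic : i ∈ c <;> simp only [hic, if_true, if_false, not_true, not_false_iff, and_true, and_false, or_false, false_or, true_and, false_and] <;> omega
      rw [this]
      exact card_symmDiff_code (hm3 (m + 2)) hc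

end Cfsg.Agent.Lib.LeechL
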