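import Cfsg.Agent.Lib.LeechL

/-!
# The index of the lattice in `ℤ^24`

A chain `L ≤ B ≤ A ≤ ℤ^24`, each step the kernel of an explicit surjection.
-/

set_option autoImplicit false

namespace Cfsg.Agent.Lib.LeechLIndex

open Cfsg Cfsg.Agent.Lib.GolayCode Cfsg.Agent.Lib.GolayFacts Cfsg.Agent.Lib.GolayPerm
open Cfsg.Agent.Lib.GolayM12 Cfsg.Agent.Lib.LeechL Finset

/-- Parity differences. -/
def f1 : (GolayPt → ℤ) →+ (ZMod 23 → ZMod 2) :=
  AddMonoidHom.mk' (fun x j => ((x (some j) - x none : ℤ) : ZMod 2)) (by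
    intro x y
    funext j
    simp only [Pi.add_apply]
    push_cast
    ring)

/-- Vectors with all coordinates of the same parity. -/
abbrev A : AddSubgroup (GolayPt → ℤ) := f1.ker

theorem mem_A {x : GolayPt → ℤ} : x ∈ A ↔ ∀ i, x i % 2 = x none % 2 := by
  constructor
  · intro h i
    have h1 : f1 x = 0 := h
    cases i with
    | none => rfl
    | some j =>
      have h2 := congrFun h1 j
      have h3 : ((x (some j) - x none : ℤ) : ZMod 2) = 0 := h2
      rw [ZMod.intCast_zmod_eq_zero_iff_dvd] at h3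
      have h4 : (2 : ℤ) ∣ x (some j) - x none := by exact_mod_cast h3
      omega
  · intro h
    show f1 x = 0
    funext j
    show ((x (some j) - x none : ℤ) : ZMod 2) = 0
    rw [ZMod.intCast_zmod_eq_zero_iff_dvd]
    have h1 := h (some j)
    have : (2 : ℤ) ∣ x (some j) - x none := by omega
    exact_mod_cast this

theorem index_A : A.index = 2 ^ 23 := by
  rw [AddSubgroup.index_ker]
  have hs : Function.Surjective f1 := by
    intro t
    refine ⟨fun p => match p with
      | none => 0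
      | some j => ((t j).val : ℤ), ?_⟩
    funext j
    show ((((t j).val : ℤ) - 0 : ℤ) : ZMod 2) = t j
    simp
  rw [AddMonoidHom.range_eq_top.mpr hs]
  rw [Nat.card_congr (AddSubgroup.topEquiv).toEquiv]
  simp

/-- The code word attached to a vector of `A`. -/
def wordOf (x : GolayPt → ℤ) : GolayPt → ZMod 2 := fun i => (((x i - x none) / 2 : ℤ) : ZMod 2)

theorem wordOf_add {x y : GolayPt → ℤ} (hx : x ∈ A) (hy : y ∈ A) :
    wordOf (x + y) = wordOf x + wordOf y := by
  funext i
  have h1 := mem_A.mp hx i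
  have h2 := mem_A.mp hy i
  simp only [wordOf, Pi.add_apply]
  rw [← Int.cast_add]
  congr 1
  omega

/-- The syndrome map. -/
def f2 : A →+ (GolayPt → ZMod 2) ⧸ golayCode :=
  AddMonoidHom.mk' (fun x => Submodule.Quotient.mk (wordOf x.1)) (by
    intro x y
    rw [← Submodule.Quotient.mk_add]
    congr 1
    exact wordOf_add x.2 y.2)

theorem card_quot : Nat.card ((GolayPt → ZMod 2) ⧸ golayCode) = 2 ^ 12 := by
  have h := Submodule.card_eq_card_quotient_mul_card (golayCode : Submodule (ZMod 2) (GolayPt → ZMod 2))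
  rw [card_golayCode] at h
  have h2 : Nat.card (GolayPt → ZMod 2) = 2 ^ 24 := by
    simp [Nat.card_eq_fintype_card]
  rw [h2] at h
  omega

theorem one_mem_code : (1 : GolayPt → ZMod 2) ∈ golayCode :=
  Submodule.subset_span (Or.inr rfl)

theorem f2_surjective : Function.Surjective f2 := by
  intro q
  obtain ⟨w, rfl⟩ := Submodule.Quotient.mk_surjective _ q
  let x : GolayPt → ℤ := fun i => 2 * ((w i).val : ℤ)
  have hx : x ∈ A := by
    rw [mem_A]
    intro i
    show (2 * _) % 2 = (2 * _) % 2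
    omega
  refine ⟨⟨x, hx⟩, ?_⟩
  show Submodule.Quotient.mk (wordOf x) = Submodule.Quotient.mk w
  rw [Submodule.Quotient.eq]
  have : wordOf x - w = (- (w none)) • (1 : GolayPt → ZMod 2) := by
    funext i
    simp only [wordOf, x, Pi.sub_apply, Pi.smul_apply, Pi.one_apply, smul_eq_mul, mul_one]
    have h1 : (2 * ((w i).val : ℤ) - 2 * ((w none).val : ℤ)) / 2 = (w i).val - (w none).val := by omega
    rw [h1]
    push_cast
    simp
  rw [this]
  exact Submodule.smul_mem _ _ one_mem_code

/-- The second step. -/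
abbrev B : AddSubgroup (GolayPt → ℤ) := f2.ker.map A.subtype

theorem mem_B {x : GolayPt → ℤ} : x ∈ B ↔ x ∈ A ∧ wordOf x ∈ golayCode := by
  constructor
  · rintro ⟨y, hy, rfl⟩
    refine ⟨y.2, ?_⟩
    have h : f2 y = 0 := hy
    exact (Submodule.Quotient.mk_eq_zero _).mp h
  · rintro ⟨h1, h2⟩
    exact ⟨⟨x, h1⟩, (Submodule.Quotient.mk_eq_zero _).mpr h2, rfl⟩

theorem B_le_A : B ≤ A := AddSubgroup.map_subtype_le _

theorem relIndex_B : B.relIndex A = 2 ^ 12 := by
  show ((f2.ker.map A.subtype).comap A.subtype).index = _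
  rw [AddSubgroup.comap_map_eq_self_of_injective A.subtype_injective]
  rw [AddSubgroup.index_ker, AddMonoidHom.range_eq_top.mpr f2_surjective]
  rw [Nat.card_congr (AddSubgroup.topEquiv).toEquiv]
  exact card_quot

/-- A vector of `B` has coordinate sum divisible by 4. -/
theorem wordOf_support {x : GolayPt → ℤ} (hx : x ∈ A) :
    support₂ (wordOf x) = pat x (x none + 2) := by
  ext i
  have h1 := mem_A.mp hx i
  rw [mem_pat]
  unfold support₂
  rw [Finset.mem_filter]
  simp only [Finset.mem_univ, true_and, ne_eq]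
  show ¬ (((x i - x none) / 2 : ℤ) : ZMod 2) = 0 ↔ _
  rw [ZMod.intCast_zmod_eq_zero_iff_dvd]
  have : ¬ ((2 : ℕ) : ℤ) ∣ (x i - x none) / 2 ↔ x i % 4 = (x none + 2) % 4 := by
    push_cast
    omega
  exact this

theorem pat_mem_of_mem_B {x : GolayPt → ℤ} (hx : x ∈ B) : pat x (x none + 2) ∈ CS := by
  obtain ⟨h1, h2⟩ := mem_B.mp hx
  rw [← wordOf_support h1]
  exact ⟨_, h2, rfl⟩

theorem wordOf_mem_of_pat {x : GolayPt → ℤ} (hx : x ∈ A) (h : pat x (x none + 2) ∈ CS) :
    wordOf x ∈ golayCode := by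
  obtain ⟨w, hw, he⟩ := h
  have : w = wordOf x := by
    funext i
    have h2 := wordOf_support hx
    have h3 : i ∈ support₂ w ↔ i ∈ support₂ (wordOf x) := by rw [he, h2]
    simp only [support₂, Finset.mem_filter, Finset.mem_univ, true_and] at h3
    generalize w i = a at h3
    generalize wordOf x i = b at h3
    revert a b
    decide
  rw [← this]
  exact hw

theorem four_dvd_sum {x : GolayPt → ℤ} (hx : x ∈ B) : (4 : ℤ) ∣ ∑ i, x i := by
  have h1 := mem_A.mp (B_le_A hx)
  have h2 := pat_mem_of_mem_B hx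
  have key := dvd_sum_sub Finset.univ x (fun i => x none + if i ∈ pat x (x none + 2) then 2 else 0) 4
    (fun i _ => by
      have hi := h1 i
      by_cases h : i ∈ pat x (x none + 2)
      · have h' := mem_pat.mp h
        simp only [h, if_true]
        omega
      · have h' : ¬ (x i % 4 = (x none + 2) % 4) := fun hh => h (mem_pat.mpr hh)
        simp only [h, if_false]
        omega)
  rw [Finset.sum_add_distrib, sum_ite_pat, Finset.sum_const, nsmul_eq_mul] at key
  obtain ⟨t, ht⟩ := four_dvd_card h2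
  rw [ht] at key
  have h5 : (4 : ℤ) ∣ ((Finset.univ : Finset GolayPt).card : ℤ) * x none + ((4 * t : ℕ) : ℤ) * 2 := by
    have : ((Finset.univ : Finset GolayPt).card : ℤ) = 24 := by simp
    rw [this]
    exact ⟨6 * x none + 2 * t, by push_cast; ring⟩
  exact (Int.dvd_iff_dvd_of_dvd_sub key).mpr h5

/-- The last step. -/
def f3 : B →+ ZMod 2 :=
  AddMonoidHom.mk' (fun x => (((∑ i, x.1 i) / 4 + x.1 none : ℤ) : ZMod 2)) (by
    intro x y
    have h1 := four_dvd_sum x.2
    have h2 := four_dvd_sum y.2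
    rw [← Int.cast_add]
    congr 1
    simp only [AddSubgroup.coe_add, Pi.add_apply, Finset.sum_add_distrib]
    omega)

theorem f3_surjective : Function.Surjective f3 := by
  let x : GolayPt → ℤ := fun p => if p = some 0 then 4 else 0
  have hA : x ∈ A := by
    rw [mem_A]
    intro i
    simp only [x]
    split_ifs <;> simp_all
  have hw : wordOf x = 0 := by
    funext i
    show (((x i - x none) / 2 : ℤ) : ZMod 2) = 0
    rw [ZMod.intCast_zmod_eq_zero_iff_dvd]
    have h0 : x none = 0 := by simp [x]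
    rw [h0]
    by_cases h : i = some 0
    · simp [x, h]
    · simp [x, h]
  have hB : x ∈ B := mem_B.mpr ⟨hA, by rw [hw]; exact Submodule.zero_mem _⟩
  have hv : f3 ⟨x, hB⟩ = 1 := by
    show (((∑ i, x i) / 4 + x none : ℤ) : ZMod 2) = 1
    have : ∑ i, x i = 4 := by simp [x]
    rw [this]
    simp [x]
  intro t
  have ht : t = 0 ∨ t = 1 := by revert t; decide
  rcases ht with rfl | rfl
  · exact ⟨0, map_zero _⟩
  · exact ⟨_, hv⟩

/-- The final step. -/
abbrev L' : AddSubgroup (GolayPt → ℤ) := f3.ker.map B.subtype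

theorem mem_L' {x : GolayPt → ℤ} : x ∈ L' ↔ x ∈ leechSet := by
  constructor
  · rintro ⟨y, hy, rfl⟩
    have h1 := mem_A.mp (B_le_A y.2)
    have h2 := pat_mem_of_mem_B y.2
    have h4 := four_dvd_sum y.2
    have h3 : (((∑ i, y.1 i) / 4 + y.1 none : ℤ) : ZMod 2) = 0 := hy
    rw [ZMod.intCast_zmod_eq_zero_iff_dvd] at h3
    refine mem_leechSet_of (m := y.1 none) h1 ?_ h2
    show (∑ i, y.1 i) % 8 = (4 * y.1 none) % 8
    have h5 : (2 : ℤ) ∣ (∑ i, y.1 i) / 4 + y.1 none := by exact_mod_cast h3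
    omega
  · intro hx
    obtain ⟨m, hm1, hm2, hm3⟩ := id hx
    have hpar : ∀ i, x i % 2 = m % 2 := hm1
    have hA : x ∈ A := mem_A.mpr fun i => by rw [hpar i, hpar none]
    have hB : x ∈ B := mem_B.mpr ⟨hA, wordOf_mem_of_pat hA (hm3 _)⟩
    refine ⟨⟨x, hB⟩, ?_, rfl⟩
    show (((∑ i, x i) / 4 + x none : ℤ) : ZMod 2) = 0
    rw [ZMod.intCast_zmod_eq_zero_iff_dvd]
    have h4 := four_dvd_sum hB
    have hs : (∑ i, x i) % 8 = (4 * m) % 8 := hm2
    have hn := hpar none
    have : (2 : ℤ) ∣ (∑ i, x i) / 4 + x none := by omega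
    exact_mod_cast this

theorem L'_eq : L' = leechLattice := by
  rw [leechLattice_eq]
  ext x
  exact mem_L'

theorem L'_le_B : L' ≤ B := AddSubgroup.map_subtype_le _

theorem relIndex_L' : L'.relIndex B = 2 := by
  show ((f3.ker.map B.subtype).comap B.subtype).index = _
  rw [AddSubgroup.comap_map_eq_self_of_injective B.subtype_injective]
  rw [AddSubgroup.index_ker, AddMonoidHom.range_eq_top.mpr f3_surjective]
  rw [Nat.card_congr (AddSubgroup.topEquiv).toEquiv]
  simp

theorem index_leechLattice : leechLattice.index = 2 ^ 36 := by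
  rw [← L'_eq, ← AddSubgroup.relIndex_mul_index L'_le_B, ← AddSubgroup.relIndex_mul_index B_le_A,
    relIndex_L', relIndex_B, index_A]
  norm_num

end Cfsg.Agent.Lib.LeechLIndex
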