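/-
The action on 2025 points.
-/
import Mathlib
import Cfsg.Prelude.Def_Sporadic_a
import Cfsg.Agent.Lib.LeechCert3
import Cfsg.Agent.Lib.LeechCo2Facts
import Cfsg.Agent.Lib.LeechCo2b
import Cfsg.Agent.Lib.LeechMcLFacts

set_option autoImplicit false
set_option linter.unusedSectionVars false
set_option linter.unusedSimpArgs false
set_option linter.unusedVariables false

namespace Cfsg.Agent.Lib.LeechMcLFacts2

open Cfsg Cfsg.Agent.Lib.GolayCode Cfsg.Agent.Lib.GolayFacts Cfsg.Agent.Lib.GolayPerm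
  Cfsg.Agent.Lib.LeechBase Cfsg.Agent.Lib.LeechCo Cfsg.Agent.Lib.LeechXi Cfsg.Agent.Lib.LeechOrb
  Cfsg.Agent.Lib.LeechCert Cfsg.Agent.Lib.LeechCo3 Cfsg.Agent.Lib.LeechCo3Facts Cfsg.Agent.Lib.LeechMcL
  Cfsg.Agent.Lib.LeechMcLFacts

/-- the second base vector -/
def W₁ : leechLattice := ⟨dv wC, wC_mem⟩

/-- the third base vector -/
def X₁ : leechLattice := ⟨dv r2025, lchk_spec (by decide +kernel)⟩

theorem r2025_mem : dv r2025 ∈ leechLattice := X₁.2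

theorem vC_eq : Cfsg.Agent.Lib.LeechCo2.vC = r552 := by decide +kernel

theorem exists_pair {v w : leechLattice} (hv : sqNorm (v : P → ℤ) = 32) (hw : sqNorm (w : P → ℤ) = 32)
    (hd : dotInt (v : P → ℤ) (w : P → ℤ) = -8) : ∃ g : Co0, g • v = R₀ ∧ g • w = W₁ := by
  obtain ⟨g₀, hg⟩ := Cfsg.Agent.Lib.LeechCo2Facts.exists_to_base v hv
  have h1 := (Cfsg.Agent.Lib.LeechCo2Facts.mem_SS_iff hg (-8) w).mpr ⟨hw, hd⟩
  obtain ⟨hx, hy, k, hk1, hk2⟩ := (Cfsg.Agent.Lib.LeechCo2b.cover47104.2 _ h1).symm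
  refine ⟨k * g₀, ?_, ?_⟩
  · rw [mul_smul, hg]
    have := hk1 Cfsg.Agent.Lib.LeechCo2.vC (by simp) Cfsg.Agent.Lib.LeechCo2.vC_mem
    apply Subtype.ext
    have e : Subtype.val (k • Cfsg.Agent.Lib.LeechCo2Facts.V₀) = Cfsg.Agent.Lib.LeechCo2Facts.V₀.1 := congrArg Subtype.val this
    refine e.trans ?_
    show dv Cfsg.Agent.Lib.LeechCo2.vC = dv r552
    rw [vC_eq]
  · rw [mul_smul]
    apply Subtype.ext
    have e := congrArg Subtype.val hk2
    refine e.trans ?_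
    show dv Cfsg.Agent.Lib.LeechCo2b.r47104 = dv wC
    congr 1

theorem mem_S2025 {g : Co0} {v w : leechLattice} (h1 : g • v = R₀) (h2 : g • w = W₁) (x : leechLattice) :
    ((g • x : leechLattice) : P → ℤ) ∈ SS [(r552, 0), (wC, 16)] ↔
      sqNorm (x : P → ℤ) = 32 ∧ dotInt (v : P → ℤ) (x : P → ℤ) = 0 ∧ dotInt (w : P → ℤ) (x : P → ℤ) = 16 :=
  mem_SS2 (ha := r552_mem) (hb := wC_mem) h1 h2 0 16 x

/-- the parts -/
def partsZ : List (ℕ × List ℕ) := [(rZ0, LZ0), (rZ16, LZ16), (rZ8, LZ8)]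

theorem partsZ_flat : partsZ.flatMap Prod.snd = LZ0 ++ (LZ16 ++ LZ8) := by
  simp [partsZ, List.flatMap_cons]

theorem qq_0 : ∀ c ∈ LZ0, c = normC c ∧ FR [r552, wC, r2025] (dv rZ0) (dv c) := by
  unfold LZ0
  refine runM_QQ (gfix_genW mcAtoms_ok m22_fix) _ _ _ ?_ ?_
  · decide +kernel
  · exact lchk_spec (by decide +kernel)

theorem qq_16 : ∀ c ∈ LZ16, c = normC c ∧ FR [r552, wC, r2025] (dv rZ16) (dv c) := by
  unfold LZ16
  refine runM_QQ (gfix_genW mcAtoms_ok m22_fix) _ _ _ ?_ ?_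
  · decide +kernel
  · exact lchk_spec (by decide +kernel)

theorem qq_8 : ∀ c ∈ LZ8, c = normC c ∧ FR [r552, wC, r2025] (dv rZ8) (dv c) := by
  unfold LZ8
  refine runM_QQ (gfix_genW mcAtoms_ok m22_fix) _ _ _ ?_ ?_
  · decide +kernel
  · exact lchk_spec (by decide +kernel)

theorem qq_Z : ∀ p ∈ partsZ, checkSS [(r552, 0), (wC, 16)] p.1 = true ∧
    ∀ c ∈ p.2, c = normC c ∧ FR [r552, wC, r2025] (dv p.1) (dv c) := by
  intro p hp
  simp only [partsZ, List.mem_cons, List.not_mem_nil, or_false] at hp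
  rcases hp with rfl | rfl | rfl
  · exact ⟨by decide +kernel, qq_0⟩
  · exact ⟨by decide +kernel, qq_16⟩
  · exact ⟨by decide +kernel, qq_8⟩

attribute [local irreducible] LZ0 LZ16 LZ8

theorem LZ_spec : (r2025 :: partsZ.flatMap Prod.snd).Nodup ∧ (r2025 :: partsZ.flatMap Prod.snd).length = 2025 := by
  rw [partsZ_flat]
  exact checkDistinct_spec (by norm_num) LZ_ok

theorem hCZ : ∀ p ∈ [(r552, (0 : ℤ)), (wC, (16 : ℤ))], p.1 ∈ [r552, wC, r2025] ∧ dv p.1 ∈ leechLattice := by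
  intro p hp
  simp only [List.mem_cons, List.not_mem_nil, or_false] at hp
  rcases hp with rfl | rfl
  · exact ⟨by simp, r552_mem⟩
  · exact ⟨by simp, wC_mem⟩

theorem cover_parts : SS [(r552, 0), (wC, 16)] = dv '' {c | c ∈ r2025 :: partsZ.flatMap Prod.snd} ∧
    ∀ p ∈ partsZ, SS ([(r552, 0), (wC, 16)] ++ [(r2025, dotZ r2025 p.1)]) = dv '' {c | c ∈ p.2} :=
  parts_cover hCZ (by decide +kernel) (by simp) (by decide +kernel) qq_Z LZ_spec.1 LZ_spec.2
    card2025 (by decide +kernel)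

theorem LZ_lengths : LZ0.length = 330 ∧ LZ16.length = 462 ∧ LZ8.length = 1232 := by
  have h := LZ_len
  simp only [Prod.mk.injEq] at h
  obtain ⟨h1, h2, h3⟩ := h
  have e : ∀ l : List ℕ, l.countP (fun _ => true) = l.length := fun l => by simp
  refine ⟨?_, ?_, ?_⟩
  · rw [← e]; exact countC_spec h1
  · rw [← e]; exact countC_spec h2
  · rw [← e]; exact countC_spec h3

/-- The main theorem of this file, for a given point. -/
theorem orbits {v w x : leechLattice} (hv : sqNorm (v : P → ℤ) = 32) (hw : sqNorm (w : P → ℤ) = 32)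
    (hd : dotInt (v : P → ℤ) (w : P → ℤ) = -8)
    (hx : sqNorm (x : P → ℤ) = 32 ∧ dotInt (v : P → ℤ) (x : P → ℤ) = 0 ∧ dotInt (w : P → ℤ) (x : P → ℤ) = 16)
    {H : Subgroup Co0} (hH : H = MulAction.stabilizer Co0 v ⊓ MulAction.stabilizer Co0 w ⊓ MulAction.stabilizer Co0 x)
    {g : Co0} (hg1 : g • v = R₀) (hg2 : g • w = W₁) (hg3 : g • x = X₁) :
    ∀ p ∈ partsZ, ∀ ha : dv p.1 ∈ leechLattice,
      MulAction.orbit H (g⁻¹ • (⟨dv p.1, ha⟩ : leechLattice)) =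
        {y | ((g • y : leechLattice) : P → ℤ) ∈ SS ([(r552, 0), (wC, 16)] ++ [(r2025, dotZ r2025 p.1)])} := by
  intro p hp ha
  apply orbit_part_eq (U := [r552, wC, r2025]) (U₁ := [r552, wC, r2025]) (parts := partsZ) cover_parts.2
    (fun q hq c hc => ((qq_Z q hq).2 c hc).2) (fun q hq => (qq_Z q hq).1) ⟨by simp, r2025_mem⟩ hCZ ?_ ?_ hp
  · intro h hh a ha' hla
    subst hH
    have hh1 : (h : Co0) • v = v := hh.1.1
    have hh2 : (h : Co0) • w = w := hh.1.2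
    have hh3 : (h : Co0) • x = x := hh.2
    simp only [List.mem_cons, List.not_mem_nil, or_false] at ha'
    rcases ha' with rfl | rfl | rfl
    · have e : (⟨dv r552, hla⟩ : leechLattice) = g • v := hg1.symm
      rw [e, mul_smul, mul_smul, inv_smul_smul, hh1]
    · have e : (⟨dv wC, hla⟩ : leechLattice) = g • w := hg2.symm
      rw [e, mul_smul, mul_smul, inv_smul_smul, hh2]
    · have e : (⟨dv r2025, hla⟩ : leechLattice) = g • x := hg3.symm
      rw [e, mul_smul, mul_smul, inv_smul_smul, hh3]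
  · intro t ht
    subst hH
    refine ⟨⟨?_, ?_⟩, ?_⟩
    · exact fixes_conj g t (by rw [hg1]; exact ht r552 (by simp) r552_mem)
    · exact fixes_conj g t (by rw [hg2]; exact ht wC (by simp) wC_mem)
    · exact fixes_conj g t (by rw [hg3]; exact ht r2025 (by simp) r2025_mem)

theorem rZ_mem : dv rZ0 ∈ leechLattice ∧ dv rZ16 ∈ leechLattice ∧ dv rZ8 ∈ leechLattice :=
  ⟨lchk_spec (by decide +kernel), lchk_spec (by decide +kernel), lchk_spec (by decide +kernel)⟩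

theorem ncard_orbit {H : Subgroup Co0} {g : Co0} {p : ℕ × List ℕ} (hp : p ∈ partsZ) {ha : dv p.1 ∈ leechLattice}
    (h : MulAction.orbit H (g⁻¹ • (⟨dv p.1, ha⟩ : leechLattice)) =
        {y | ((g • y : leechLattice) : P → ℤ) ∈ SS ([(r552, 0), (wC, 16)] ++ [(r2025, dotZ r2025 p.1)])}) :
    (MulAction.orbit H (g⁻¹ • (⟨dv p.1, ha⟩ : leechLattice))).ncard = p.2.length := by
  rw [h, ncard_preimage (SS_subset _), cover_parts.2 p hp, ncard_image_list]
  · intro c hc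
    exact ((qq_Z p hp).2 c hc).1
  · have h1 := (List.nodup_cons.mp LZ_spec.1).2
    rw [List.nodup_flatMap] at h1
    exact h1.1 p hp

/-- The statement for given vectors. -/
theorem main (v w : leechLattice) (hv : sqNorm (v : P → ℤ) = 32) (hw : sqNorm (w : P → ℤ) = 32)
    (hd : dotInt (v : P → ℤ) (w : P → ℤ) = -8) :
    {x : leechLattice | sqNorm (x : P → ℤ) = 32 ∧ dotInt (v : P → ℤ) (x : P → ℤ) = 0 ∧ dotInt (w : P → ℤ) (x : P → ℤ) = 16}.ncard = 2025 ∧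
    (∀ x ∈ {x : leechLattice | sqNorm (x : P → ℤ) = 32 ∧ dotInt (v : P → ℤ) (x : P → ℤ) = 0 ∧ dotInt (w : P → ℤ) (x : P → ℤ) = 16},
      ∀ x' ∈ {x : leechLattice | sqNorm (x : P → ℤ) = 32 ∧ dotInt (v : P → ℤ) (x : P → ℤ) = 0 ∧ dotInt (w : P → ℤ) (x : P → ℤ) = 16},
      ∃ g : Co0, g • v = v ∧ g • w = w ∧ g • x = x') ∧
    ∀ x ∈ {x : leechLattice | sqNorm (x : P → ℤ) = 32 ∧ dotInt (v : P → ℤ) (x : P → ℤ) = 0 ∧ dotInt (w : P → ℤ) (x : P → ℤ) = 16},
      ∃ y₁ ∈ {x : leechLattice | sqNorm (x : P → ℤ) = 32 ∧ dotInt (v : P → ℤ) (x : P → ℤ) = 0 ∧ dotInt (w : P → ℤ) (x : P → ℤ) = 16},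
      ∃ y₂ ∈ {x : leechLattice | sqNorm (x : P → ℤ) = 32 ∧ dotInt (v : P → ℤ) (x : P → ℤ) = 0 ∧ dotInt (w : P → ℤ) (x : P → ℤ) = 16},
      ∃ y₃ ∈ {x : leechLattice | sqNorm (x : P → ℤ) = 32 ∧ dotInt (v : P → ℤ) (x : P → ℤ) = 0 ∧ dotInt (w : P → ℤ) (x : P → ℤ) = 16},
        (MulAction.orbit ↥(MulAction.stabilizer Co0 v ⊓ MulAction.stabilizer Co0 w ⊓ MulAction.stabilizer Co0 x) y₁).ncard = 330 ∧
        (MulAction.orbit ↥(MulAction.stabilizer Co0 v ⊓ MulAction.stabilizer Co0 w ⊓ MulAction.stabilizer Co0 x) y₂).ncard = 462 ∧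
        (MulAction.orbit ↥(MulAction.stabilizer Co0 v ⊓ MulAction.stabilizer Co0 w ⊓ MulAction.stabilizer Co0 x) y₃).ncard = 1232 := by
  obtain ⟨g, h1, h2⟩ := exists_pair hv hw hd
  have key := fun x => mem_S2025 h1 h2 x
  refine ⟨?_, fun x hx x' hx' => ?_, fun x hx => ?_⟩
  · exact (ncard_SS_of_iff (g := g) (C := [(r552, 0), (wC, 16)]) (fun x => (key x).symm)).trans card2025
  · have hFR := FR_of_mem_SS cover2025.2 ((key x).mpr hx) ((key x').mpr hx')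
    obtain ⟨k, hk1, hk2⟩ := lift_FR hFR
    exact ⟨k, hk1 r552 (by simp) r552_mem v h1, hk1 wC (by simp) wC_mem w h2, hk2⟩
  · -- move to the base point
    have h3 := (key x).mpr hx
    obtain ⟨hx1, hx2, t, ht1, ht2⟩ := (cover2025.2 _ h3).symm
    have hg1 : (t * g) • v = R₀ := by
      rw [mul_smul, h1]
      exact ht1 r552 (by simp) r552_mem
    have hg2 : (t * g) • w = W₁ := by
      rw [mul_smul, h2]
      exact ht1 wC (by simp) wC_mem
    have hg3 : (t * g) • x = X₁ := by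
      rw [mul_smul]
      exact ht2
    have hO := orbits hv hw hd hx rfl hg1 hg2 hg3
    have memb : ∀ (a : ℕ) (ha : dv a ∈ leechLattice), dv a ∈ SS [(r552, 0), (wC, 16)] →
        ((t * g)⁻¹ • (⟨dv a, ha⟩ : leechLattice)) ∈ {x : leechLattice | sqNorm (x : P → ℤ) = 32 ∧ dotInt (v : P → ℤ) (x : P → ℤ) = 0 ∧ dotInt (w : P → ℤ) (x : P → ℤ) = 16} := by
      intro a ha hS
      refine (mem_S2025 hg1 hg2 _).mp ?_
      rw [smul_inv_smul]
      exact hS
    have m0 : (rZ0, LZ0) ∈ partsZ := by simp [partsZ]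
    have m1 : (rZ16, LZ16) ∈ partsZ := by simp [partsZ]
    have m2 : (rZ8, LZ8) ∈ partsZ := by simp [partsZ]
    obtain ⟨l0, l1, l2⟩ := LZ_lengths
    refine ⟨_, memb rZ0 rZ_mem.1 (mem_SS_of_check (qq_Z _ m0).1), _, memb rZ16 rZ_mem.2.1 (mem_SS_of_check (qq_Z _ m1).1),
      _, memb rZ8 rZ_mem.2.2 (mem_SS_of_check (qq_Z _ m2).1), ?_, ?_, ?_⟩
    · rw [← l0]
      exact ncard_orbit m0 (hO _ m0 rZ_mem.1)
    · rw [← l1]
      exact ncard_orbit m1 (hO _ m1 rZ_mem.2.1)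
    · rw [← l2]
      exact ncard_orbit m2 (hO _ m2 rZ_mem.2.2)

end Cfsg.Agent.Lib.LeechMcLFacts2
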