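/-
Invariant quadratic forms on the Leech lattice modulo two.
-/
import Mathlib
import Cfsg.Prelude.Def_Sporadic_a
import Cfsg.Agent.Lib.LeechBase
import Cfsg.Agent.Lib.LeechClasses
import Cfsg.Agent.Lib.LeechOrb

set_option autoImplicit false
set_option linter.unusedSectionVars false
set_option linter.unusedSimpArgs false
set_option linter.unusedVariables false

namespace Cfsg.Agent.Lib.LeechQuad

open Cfsg Cfsg.Agent.Lib.GolayCode Cfsg.Agent.Lib.GolayFacts Cfsg.Agent.Lib.GolayPerm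
  Cfsg.Agent.Lib.LeechBase Cfsg.Agent.Lib.LeechXi Cfsg.Agent.Lib.LeechOrb Cfsg.Agent.Lib.LeechClasses

/-- a vector from a list of its coordinates -/
def vecOf (L : List ℤ) : P → ℤ := fun p => L.getD (ptIdx p) 0

def u1 : P → ℤ := vecOf [0, -2, 0, 0, 0, -2, 0, -2, 0, 0, 0, 2, 0, 2, -2, -2, 0, -2, 0, 0, 0, 0, 0, 0]
def v1 : P → ℤ := vecOf [0, 0, 0, -2, 2, -2, 0, 0, 0, 0, 0, 0, 0, -2, 2, 0, 2, 2, 0, 0, 0, 0, -2, 0]
def w1 : P → ℤ := vecOf [0, 0, 0, 0, 0, 0, 0, 0, 0, 0, 0, 0, 0, 0, 0, 4, 0, 0, 0, 0, 0, 0, 4, 0]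
def u2 : P → ℤ := vecOf [2, 0, 0, 0, 0, 0, 0, 2, 0, -2, 2, 0, -2, 0, 0, 0, 2, -2, 0, 0, -2, 0, 0, 0]
def v2 : P → ℤ := vecOf [-1, 1, 1, 1, -1, 1, 1, 1, -1, 1, 1, 1, 1, 1, -1, -1, -1, -3, 1, 1, 1, -1, -1, 1]
def w2 : P → ℤ := vecOf [0, 0, 0, 0, 0, 0, 0, 0, 0, 0, 0, 0, 0, 0, 0, 0, 0, 4, 0, 0, 0, 0, 4, 0]

theorem u1_mem : u1 ∈ leechLattice := lchk_spec (by decide +kernel)
theorem v1_mem : v1 ∈ leechLattice := lchk_spec (by decide +kernel)
theorem w1_mem : w1 ∈ leechLattice := lchk_spec (by decide +kernel)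
theorem u2_mem : u2 ∈ leechLattice := lchk_spec (by decide +kernel)
theorem v2_mem : v2 ∈ leechLattice := lchk_spec (by decide +kernel)
theorem w2_mem : w2 ∈ leechLattice := lchk_spec (by decide +kernel)

theorem sqNorm_add (x y : P → ℤ) : sqNorm (x + y) = sqNorm x + sqNorm y + 2 * dotInt x y := by
  simp only [sqNorm, dotInt, Pi.add_apply, Finset.mul_sum, ← Finset.sum_add_distrib]
  exact Finset.sum_congr rfl fun i _ => by ring

theorem dot_dvd {x y : P → ℤ} (hx : x ∈ leechLattice) (hy : y ∈ leechLattice) : (8 : ℤ) ∣ dotInt x y := by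
  have h1 := norm_dvd hx
  have h2 := norm_dvd hy
  have h3 := norm_dvd (add_mem hx hy)
  rw [sqNorm_add] at h3
  omega

theorem dotInt_add_right (x y z : P → ℤ) : dotInt x (y + z) = dotInt x y + dotInt x z := by
  simp only [dotInt, Pi.add_apply, mul_add, Finset.sum_add_distrib]

/-- norms modulo twice the lattice -/
theorem norm_shift {y z : P → ℤ} (hy : y ∈ leechLattice) (hz : z ∈ leechLattice) :
    ∃ k, sqNorm (y + (z + z)) = sqNorm y + 32 * k := by
  have h1 := norm_dvd hz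
  obtain ⟨c, hc⟩ := dot_dvd hy hz
  obtain ⟨d, hd⟩ := h1
  refine ⟨c + 2 * d, ?_⟩
  rw [sqNorm_add, sqNorm_add, dotInt_add_right, hc]
  have : dotInt z z = sqNorm z := by
    simp only [dotInt, sqNorm]
    exact Finset.sum_congr rfl fun i _ => by ring
  rw [this, hd]
  ring

theorem short_norm {y : P → ℤ} (hy : y ∈ leechLattice) (hN : sqNorm y ≤ 64) :
    sqNorm y = 0 ∨ sqNorm y = 32 ∨ sqNorm y = 48 ∨ sqNorm y = 64 := by
  by_cases h0 : y = 0
  · left
    rw [h0]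
    simp [sqNorm]
  · have h1 := norm_ge hy h0
    have h2 := norm_dvd hy
    right
    omega

/-- The uniqueness of the invariant quadratic form. -/
theorem quad_unique (Q : ↥leechLattice → ZMod 2) (hcoset : ∀ v w : ↥leechLattice, Q (v + (w + w)) = Q v)
    (hquad : ∀ u v w : ↥leechLattice, Q (u + v + w) + Q u + Q v + Q w = Q (u + v) + Q (u + w) + Q (v + w))
    (hinv : ∀ (g : ↥Co0) (v : ↥leechLattice), Q (g • v) = Q v) (hne : ∃ v : ↥leechLattice, Q v ≠ 0)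
    (v : ↥leechLattice) : Q v = ((sqNorm (v : P → ℤ) / 16 : ℤ) : ZMod 2) := by
  have h00 : Q 0 = 0 := by
    have h := hquad 0 0 0
    simp only [add_zero] at h
    generalize Q 0 = a at h
    revert a
    decide
  have hrl : ∀ {x y : ↥leechLattice}, Rl x y → Q x = Q y := by
    intro x y h
    obtain ⟨g, hg⟩ := exists_smul_of_rl h
    rw [← hg, hinv]
  set α := Q ⟨c32, c32_mem⟩ with hα
  set β := Q ⟨B48, B48_mem⟩ with hβ
  set γ := Q ⟨B64, B64_mem⟩ with hγ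
  have h32 : ∀ (x : P → ℤ) (hx : x ∈ leechLattice), sqNorm x = 32 → Q ⟨x, hx⟩ = α := fun x hx h =>
    hrl (x := ⟨x, hx⟩) (y := ⟨c32, c32_mem⟩) (to_c32 hx h)
  have h48 : ∀ (x : P → ℤ) (hx : x ∈ leechLattice), sqNorm x = 48 → Q ⟨x, hx⟩ = β := fun x hx h =>
    hrl (x := ⟨x, hx⟩) (y := ⟨B48, B48_mem⟩) (to_B48 hx h)
  have h64 : ∀ (x : P → ℤ) (hx : x ∈ leechLattice), sqNorm x = 64 → Q ⟨x, hx⟩ = γ := fun x hx h =>
    hrl (x := ⟨x, hx⟩) (y := ⟨B64, B64_mem⟩) (to_B64 hx h)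
  have hα0 : α = 0 := by
    have h := hquad ⟨u1, u1_mem⟩ ⟨v1, v1_mem⟩ ⟨w1, w1_mem⟩
    have e1 : Q ⟨u1, u1_mem⟩ = α := h32 _ _ (by decide +kernel)
    have e2 : Q ⟨v1, v1_mem⟩ = α := h32 _ _ (by decide +kernel)
    have e3 : Q ⟨w1, w1_mem⟩ = α := h32 _ _ (by decide +kernel)
    have e4 : Q (⟨u1, u1_mem⟩ + ⟨v1, v1_mem⟩) = β := h48 _ (add_mem u1_mem v1_mem) (by decide +kernel)
    have e5 : Q (⟨u1, u1_mem⟩ + ⟨w1, w1_mem⟩) = β := h48 _ (add_mem u1_mem w1_mem) (by decide +kernel)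
    have e6 : Q (⟨v1, v1_mem⟩ + ⟨w1, w1_mem⟩) = β := h48 _ (add_mem v1_mem w1_mem) (by decide +kernel)
    have e7 : Q (⟨u1, u1_mem⟩ + ⟨v1, v1_mem⟩ + ⟨w1, w1_mem⟩) = β :=
      h48 _ (add_mem (add_mem u1_mem v1_mem) w1_mem) (by decide +kernel)
    rw [e1, e2, e3, e4, e5, e6, e7] at h
    revert h
    generalize α = a
    generalize β = b
    revert a b
    decide
  have hγ0 : γ = 0 := by
    have h := hquad ⟨u2, u2_mem⟩ ⟨v2, v2_mem⟩ ⟨w2, w2_mem⟩
    have e1 : Q ⟨u2, u2_mem⟩ = α := h32 _ _ (by decide +kernel)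
    have e2 : Q ⟨v2, v2_mem⟩ = α := h32 _ _ (by decide +kernel)
    have e3 : Q ⟨w2, w2_mem⟩ = α := h32 _ _ (by decide +kernel)
    have e4 : Q (⟨u2, u2_mem⟩ + ⟨v2, v2_mem⟩) = γ := h64 _ (add_mem u2_mem v2_mem) (by decide +kernel)
    have e5 : Q (⟨u2, u2_mem⟩ + ⟨w2, w2_mem⟩) = β := h48 _ (add_mem u2_mem w2_mem) (by decide +kernel)
    have e6 : Q (⟨v2, v2_mem⟩ + ⟨w2, w2_mem⟩) = α := h32 _ (add_mem v2_mem w2_mem) (by decide +kernel)
    have e7 : Q (⟨u2, u2_mem⟩ + ⟨v2, v2_mem⟩ + ⟨w2, w2_mem⟩) = β :=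
      h48 _ (add_mem (add_mem u2_mem v2_mem) w2_mem) (by decide +kernel)
    rw [e1, e2, e3, e4, e5, e6, e7] at h
    revert h
    generalize α = a
    generalize β = b
    generalize γ = c
    revert a b c
    decide
  -- reduction to short vectors
  have hshort : ∀ x : ↥leechLattice, ∃ y : ↥leechLattice, sqNorm (y : P → ℤ) ≤ 64 ∧ Q x = Q y ∧
      ∃ k, sqNorm (x : P → ℤ) = sqNorm (y : P → ℤ) + 32 * k := by
    intro x
    obtain ⟨y, hy, hyN, z, hz, hxy⟩ := exists_short x x.2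
    refine ⟨⟨y, hy⟩, hyN, ?_, ?_⟩
    · have e : x = ⟨y, hy⟩ + (⟨z, hz⟩ + ⟨z, hz⟩) := by
        apply Subtype.ext
        show (x : P → ℤ) = y + (z + z)
        rw [← two_nsmul, ← hxy]
        abel
      rw [e, hcoset]
    · have e : (x : P → ℤ) = y + (z + z) := by
        rw [← two_nsmul, ← hxy]
        abel
      rw [e]
      exact norm_shift hy hz
  have hzero : ∀ y : ↥leechLattice, sqNorm (y : P → ℤ) = 0 → Q y = 0 := by
    intro y hy
    have : y = 0 := by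
      by_contra hcon
      have h1 : (y : P → ℤ) ≠ 0 := fun h => hcon (Subtype.ext h)
      have := norm_ge y.2 h1
      omega
    rw [this, h00]
  have hβ1 : β = 1 := by
    obtain ⟨v₀, hv₀⟩ := hne
    obtain ⟨y, hy1, hy2, -⟩ := hshort v₀
    rw [hy2] at hv₀
    have hβne : β ≠ 0 := by
      rcases short_norm y.2 hy1 with h | h | h | h
      · exact absurd (hzero y h) hv₀
      · exact absurd ((h32 y y.2 h).trans hα0) hv₀
      · rw [← h48 y y.2 h]
        exact hv₀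
      · exact absurd ((h64 y y.2 h).trans hγ0) hv₀
    revert hβne
    generalize β = b
    revert b
    decide
  obtain ⟨y, hy1, hy2, k, hk⟩ := hshort v
  rw [hy2, hk]
  rcases short_norm y.2 hy1 with h | h | h | h
  · rw [hzero y h, h]
    have : (0 + 32 * k) / 16 = 2 * k := by omega
    rw [this]
    push_cast
    have : (2 : ZMod 2) = 0 := rfl
    rw [this, zero_mul]
  · have e := h32 y y.2 h
    rw [show Q y = α from e, hα0, h]
    have : (32 + 32 * k) / 16 = 2 * (1 + k) := by omega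
    rw [this]
    push_cast
    have : (2 : ZMod 2) = 0 := rfl
    rw [this, zero_mul]
  · have e := h48 y y.2 h
    rw [show Q y = β from e, hβ1, h]
    have : (48 + 32 * k) / 16 = 1 + 2 * (1 + k) := by omega
    rw [this]
    push_cast
    have : (2 : ZMod 2) = 0 := rfl
    rw [this, zero_mul, add_zero]
  · have e := h64 y y.2 h
    rw [show Q y = γ from e, hγ0, h]
    have : (64 + 32 * k) / 16 = 2 * (2 + k) := by omega
    rw [this]
    push_cast
    have : (2 : ZMod 2) = 0 := rfl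
    rw [this, zero_mul]

end Cfsg.Agent.Lib.LeechQuad
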