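/-
The order of the automorphism group of the Leech lattice, and its action modulo two.
-/
import Mathlib
import Cfsg.Prelude.Def_Sporadic_a
import Cfsg.Prelude.Def_SporadicCombinatorics
import Cfsg.Agent.Lib.LeechBase
import Cfsg.Agent.Lib.LeechClasses
import Cfsg.Agent.Lib.LeechOrb
import Cfsg.Agent.Lib.LeechMono
import Cfsg.Agent.Lib.LeechQuad

set_option autoImplicit false
set_option linter.unusedSectionVars false
set_option linter.unusedSimpArgs false
set_option linter.unusedVariables false

namespace Cfsg.Agent.Lib.LeechOrder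

open Cfsg Cfsg.Agent.Lib.GolayCode Cfsg.Agent.Lib.GolayFacts Cfsg.Agent.Lib.GolayPerm
  Cfsg.Agent.Lib.LeechBase Cfsg.Agent.Lib.LeechGen Cfsg.Agent.Lib.LeechCo Cfsg.Agent.Lib.LeechXi
  Cfsg.Agent.Lib.LeechOrb Cfsg.Agent.Lib.LeechClasses Cfsg.Agent.Lib.GolayTrans
  Cfsg.Agent.Lib.LeechMono Cfsg.Agent.Lib.LeechQuad

theorem sqNorm_eight (i : P) : sqNorm (eight i) = 64 := by
  simp only [sqNorm, eight]
  rw [Finset.sum_eq_single i]
  · simp
  · intro b _ hb
    simp [hb]
  · simp

theorem sqNorm_neg_eight (i : P) : sqNorm (- eight i) = 64 := by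
  rw [sqNorm_neg', sqNorm_eight]

/-- the members of the standard cross -/
def crossF (p : P × Bool) : P → ℤ := if p.2 then eight p.1 else - eight p.1

theorem crossF_inj : Function.Injective crossF := by
  rintro ⟨i, b⟩ ⟨j, c⟩ h
  have hij : i = j := by
    by_contra hne
    have h1 := congrFun h i
    cases b <;> cases c <;> simp [crossF, eight, hne] at h1
  subst hij
  have h1 := congrFun h i
  cases b <;> cases c <;> simp [crossF, eight] at h1 ⊢

theorem stdCross_eq_image : stdCross = crossF '' Set.univ := by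
  ext y
  rw [mem_stdCross_iff]
  simp only [Set.image_univ, Set.mem_range]
  constructor
  · rintro ⟨i, rfl | rfl⟩
    · exact ⟨(i, true), by simp [crossF]⟩
    · exact ⟨(i, false), by simp [crossF]⟩
  · rintro ⟨⟨i, b⟩, rfl⟩
    cases b
    · exact ⟨i, Or.inr (by simp [crossF])⟩
    · exact ⟨i, Or.inl (by simp [crossF])⟩

theorem ncard_stdCross : stdCross.ncard = 48 := by
  rw [stdCross_eq_image, Set.ncard_image_of_injective _ crossF_inj, Set.ncard_univ, Nat.card_eq_fintype_card]
  simp

/-- The standard cross is the cross of a frame vector. -/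
theorem cross_eq : cross (eight none) = stdCross := by
  symm
  have hcr := ncard_cross (eight none) (eight_mem none) (sqNorm_eight none)
  apply Set.eq_of_subset_of_ncard_le
  · intro y hy
    obtain ⟨i, hi | hi⟩ := mem_stdCross_iff.mp hy
    · subst hi
      refine ⟨eight_mem i, by rw [sqNorm_eight, sqNorm_eight], ?_⟩
      refine ⟨fourV (ee none - ee i), fourV_mem' ?_, ?_⟩
      · simp only [Pi.sub_apply, Finset.sum_sub_distrib, sum_ee]
        norm_num
      · funext j
        simp only [Pi.sub_apply, eight, ee, fourV, Pi.smul_apply, nsmul_eq_mul]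
        split_ifs <;> norm_num
    · subst hi
      refine ⟨neg_mem (eight_mem i), by rw [sqNorm_neg_eight, sqNorm_eight], ?_⟩
      refine ⟨fourV (ee none + ee i), fourV_mem' ?_, ?_⟩
      · simp only [Pi.add_apply, Finset.sum_add_distrib, sum_ee]
        norm_num
      · funext j
        simp only [Pi.sub_apply, Pi.neg_apply, eight, ee, fourV, Pi.add_apply, Pi.smul_apply, nsmul_eq_mul]
        split_ifs <;> norm_num
  · rw [hcr, ncard_stdCross]
  · exact Set.finite_of_ncard_ne_zero (by rw [hcr]; norm_num)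

/-- Elements moving frame vectors by classes of twice the lattice preserve the standard cross. -/
theorem pres_of_congr {g : Co0} (h : ∀ v : LeechMono.Lat, (v : P → ℤ) ∈ stdCross → ∃ z ∈ leechLattice,
    (v : P → ℤ) - ((g • v : LeechMono.Lat) : P → ℤ) = (2 : ℕ) • z) : PresCross g := by
  intro v hv
  have hv0 := hv
  rw [← cross_eq] at hv ⊢
  obtain ⟨h1, h2, z, hz, h3⟩ := hv
  obtain ⟨w, hw, h4⟩ := h v hv0
  refine ⟨(g • v : LeechMono.Lat).2, by rw [sqNorm_smul]; exact h2, z + w, add_mem hz hw, ?_⟩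
  rw [smul_add, ← h3, ← h4]
  abel

/-- Fixing a frame vector implies preserving the standard cross. -/
theorem pres_of_fix {g : Co0} (h : g • E none = E none) : PresCross g := by
  intro v hv
  rw [← cross_eq] at hv ⊢
  obtain ⟨h1, h2, z, hz, h3⟩ := hv
  refine ⟨(g • v : LeechMono.Lat).2, by rw [sqNorm_smul]; exact h2, (g • (⟨z, hz⟩ : LeechMono.Lat) : LeechMono.Lat).1,
    (g • (⟨z, hz⟩ : LeechMono.Lat)).2, ?_⟩
  have h4 : E none - v = (2 : ℕ) • (⟨z, hz⟩ : LeechMono.Lat) := Subtype.ext h3
  have h5 : g • (E none - v) = (2 : ℕ) • (g • (⟨z, hz⟩ : LeechMono.Lat)) := by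
    rw [h4, smul_nsmul']
  rw [sub_eq_add_neg, smul_add', smul_neg', h] at h5
  have h6 := congrArg Subtype.val h5
  have h7 : eight none + -((g • v : LeechMono.Lat) : P → ℤ) = (2 : ℕ) • ((g • (⟨z, hz⟩ : LeechMono.Lat) : LeechMono.Lat) : P → ℤ) := h6
  rw [← h7]
  abel

/-- sign code words vanishing at a point -/
def evN : golayCode →+ ZMod 2 where
  toFun e := e.1 none
  map_zero' := rfl
  map_add' _ _ := rfl

theorem evN_surj : Function.Surjective evN := by
  intro a
  rcases bv_cases a with ⟨rfl, _⟩ | ⟨rfl, _⟩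
  · exact ⟨0, rfl⟩
  · exact ⟨⟨one', one_mem'⟩, rfl⟩

theorem card_kerN : Nat.card evN.ker = 2048 := by
  have h1 := AddSubgroup.card_mul_index evN.ker
  rw [AddSubgroup.index_ker, AddMonoidHom.range_eq_top.mpr evN_surj, card_golayCode] at h1
  have h3 : Nat.card (⊤ : AddSubgroup (ZMod 2)) = 2 := by simp
  rw [h3] at h1
  omega

/-- the stabilizer of a point in the Mathieu group, as a subtype -/
theorem card_MZ : Nat.card {σ : M24 // σ.1 none = none} = 10200960 := by
  rw [← card_stab_one none]
  apply Nat.card_congr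
  refine ⟨fun σ => ⟨σ.1.1, σ.1.2, ?_⟩, fun σ => ⟨⟨σ.1, σ.2.1⟩, ?_⟩, ?_, ?_⟩
  · simpa [MulAction.mem_stabilizer_iff] using σ.2
  · have := σ.2.2
    simpa [MulAction.mem_stabilizer_iff] using this
  · intro σ
    rfl
  · intro σ
    rfl

theorem Mon_fix_iff (p : golayCode × M24) : Mon p • E none = E none ↔ p.1.1 none = 0 ∧ p.2.1 none = none := by
  constructor
  · intro h
    have h1 := Mon_spec p (E none)
    rw [h] at h1
    have h2 : eight none = sgn p.1.1 (prm p.2.1 (eight none)) := h1
    have hσ : p.2.1 none = none := by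
      by_contra hne
      have h3 := congrFun h2 none
      rw [sgn_prm_eight, if_neg (Ne.symm hne)] at h3
      simp [eight] at h3
    refine ⟨?_, hσ⟩
    have h3 := congrFun h2 none
    rw [sgn_prm_eight, if_pos hσ.symm] at h3
    by_contra hne
    rw [if_neg hne] at h3
    simp [eight] at h3
  · rintro ⟨h1, h2⟩
    apply Subtype.ext
    rw [Mon_spec]
    funext j
    show sgn p.1.1 (prm p.2.1 (eight none)) j = eight none j
    rw [sgn_prm_eight, h2]
    by_cases hj : j = none
    · subst hj
      simp [eight, h1]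
    · simp [eight, hj]

theorem card_stabilizer : Nat.card (MulAction.stabilizer Co0 (E none)) = 2048 * 10200960 := by
  let φ : evN.ker × {σ : M24 // σ.1 none = none} → MulAction.stabilizer Co0 (E none) := fun p =>
    ⟨Mon (p.1.1, p.2.1), by
      rw [MulAction.mem_stabilizer_iff]
      exact (Mon_fix_iff _).mpr ⟨p.1.2, p.2.2⟩⟩
  have hφ : Function.Bijective φ := by
    constructor
    · rintro ⟨a, b⟩ ⟨c, d⟩ h
      have h1 := Mon_injective (show Mon (a.1, b.1) = Mon (c.1, d.1) from congrArg Subtype.val h)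
      have h2 : a.1 = c.1 := congrArg Prod.fst h1
      have h3 : b.1 = d.1 := congrArg Prod.snd h1
      have h4 : a = c := Subtype.ext h2
      have h5 : b = d := Subtype.ext h3
      rw [h4, h5]
    · rintro ⟨g, hg⟩
      rw [MulAction.mem_stabilizer_iff] at hg
      obtain ⟨p, rfl⟩ := (pres_iff g).mp (pres_of_fix hg)
      obtain ⟨h1, h2⟩ := (Mon_fix_iff p).mp hg
      exact ⟨(⟨p.1, h1⟩, ⟨p.2, h2⟩), rfl⟩
  rw [← Nat.card_congr (Equiv.ofBijective _ hφ), Nat.card_prod, card_kerN, card_MZ]

theorem orbit_E : MulAction.orbit Co0 (E none) = XS 64 := by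
  ext v
  constructor
  · rintro ⟨g, rfl⟩
    show sqNorm ((g • E none : LeechMono.Lat) : P → ℤ) = _
    rw [sqNorm_smul]
    exact_mod_cast sqNorm_eight none
  · intro hv
    have hv' : sqNorm (v : P → ℤ) = 64 := by exact_mod_cast hv
    obtain ⟨g, hg⟩ := trans_64 (E none) v (sqNorm_eight none) hv'
    exact ⟨g, hg⟩

theorem ncard_orbit : (MulAction.orbit Co0 (E none)).ncard = 398034000 := by
  rw [orbit_E, ncard_XS]
  simpa using Cfsg.Agent.Lib.LeechCensus.count_64

/-- The order of the automorphism group of the Leech lattice. -/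
theorem card_Co0 : Nat.card Co0 = 8315553613086720000 := by
  have h1 := Subgroup.index_mul_card (MulAction.stabilizer Co0 (E none))
  rw [MulAction.index_stabilizer, ncard_orbit, card_stabilizer] at h1
  rw [← h1]

/-! ### The action modulo two -/

/-- octads separating points -/
def octMasks : List ℕ := [2564625, 2232654, 705094, 42232, 1337732, 2702848, 5476616, 3277413, 6554826, 2675464,
  3182981, 1728778, 5210132, 6053905, 1121336, 126216, 8391797, 11669008, 13148440, 9748745]

theorem octMasks_spec : ∀ m ∈ octMasks, isCode m = true ∧ hw 24 m = 8 := by decide +kernel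

theorem oct_separate : ∀ i j : P, i ≠ j → ∃ m ∈ octMasks, dec m i = 1 ∧ dec m j = 0 := by decide +kernel

theorem oddV_odd : ∀ i, oddV i % 2 = 1 := by decide

/-- Elements acting trivially modulo two lattice are central. -/
theorem central_of_trivial (g : Co0) (h : ∀ v : LeechMono.Lat, ∃ w : LeechMono.Lat,
    ((g • v : LeechMono.Lat) : P → ℤ) - (v : P → ℤ) = (2 : ℕ) • (w : P → ℤ)) : g ∈ Subgroup.center Co0 := by
  have hpres : PresCross g := by
    apply pres_of_congr
    intro v hv
    obtain ⟨w, hw⟩ := h v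
    refine ⟨-(w : P → ℤ), neg_mem w.2, ?_⟩
    rw [smul_neg, ← hw]
    abel
  obtain ⟨e, σ, hg⟩ := exists_param hpres
  obtain ⟨he, hσ⟩ := param_mem hg
  -- the permutation part is trivial
  have hoct : ∀ m ∈ octMasks, mapWord σ (dec m) = dec m := by
    intro m hm
    obtain ⟨h1, h2⟩ := octMasks_spec m hm
    have hc : dec m ∈ golayCode := dec_mem_of_isCode h1
    obtain ⟨w, hw⟩ := h ⟨twoW (dec m), twoW_mem hc⟩
    obtain ⟨n, a, s, hn, ha, hx1, hx2⟩ := leech_decomp (mem_lattice_iff.mp w.2)
    rw [hg] at hw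
    -- compare modulo four
    have hcmp : ∀ i, bv (dec m (σ⁻¹ i)) ≡ bv (dec m i) + n [ZMOD 2] := by
      intro i
      have h3 := congrFun hw i
      have h4 := hx1 i
      simp only [sgn, prm, twoW, Pi.sub_apply, Pi.smul_apply, nsmul_eq_mul] at h3
      rw [h4] at h3
      apply Int.modEq_iff_dvd.mpr
      push_cast at h3
      by_cases hei : e i = 0
      · rw [if_pos hei] at h3
        exact ⟨- bv (a i) - 2 * s i, by linarith⟩
      · rw [if_neg hei] at h3
        refine ⟨- bv (dec m (σ⁻¹ i)) - bv (a i) - 2 * s i, ?_⟩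
        linarith
    have hn0 : n = 0 := by
      rcases hn with hn | hn
      · exact hn
      · exfalso
        -- the map would take the octad to its complement
        have h5 : ∀ i, bv (dec m (σ⁻¹ i)) = 1 - bv (dec m i) := by
          intro i
          have h6 := Int.modEq_iff_dvd.mp (hcmp i)
          rw [hn] at h6
          rcases bv_cases (dec m (σ⁻¹ i)) with ⟨_, h7⟩ | ⟨_, h7⟩ <;>
            rcases bv_cases (dec m i) with ⟨_, h8⟩ | ⟨_, h8⟩ <;> rw [h7, h8] at h6 ⊢ <;> omega
        have h6 : ∑ i, bv (dec m (σ⁻¹ i)) = ∑ i, bv (dec m i) :=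
          Equiv.sum_comp σ⁻¹ (fun i => bv (dec m i))
        have h7 : ∑ i, bv (dec m (σ⁻¹ i)) = 24 - ∑ i, bv (dec m i) := by
          rw [Finset.sum_congr rfl fun i _ => h5 i, Finset.sum_sub_distrib]
          simp [show Fintype.card P = 24 by decide]
        have h8 : ∑ i, bv (dec m i) = 8 := by
          rw [sum_bv, hammingNorm_dec, h2]
          rfl
        omega
    funext i
    have h6 := Int.modEq_iff_dvd.mp (hcmp i)
    rw [hn0] at h6
    show dec m (σ⁻¹ i) = dec m i
    rcases bv_cases (dec m (σ⁻¹ i)) with ⟨h7, h7'⟩ | ⟨h7, h7'⟩ <;>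
      rcases bv_cases (dec m i) with ⟨h8, h8'⟩ | ⟨h8, h8'⟩ <;> rw [h7', h8'] at h6
    · rw [h7, h8]
    · omega
    · omega
    · rw [h7, h8]
  have hσ1 : σ = 1 := by
    refine Equiv.ext fun j => ?_
    by_contra hne
    -- `σ⁻¹` moves `σ j` to `j`; separate
    have hne' : j ≠ σ j := fun h => hne h.symm
    obtain ⟨m, hm, h1, h2⟩ := oct_separate j (σ j) hne'
    have h3 := congrFun (hoct m hm) (σ j)
    have h4 : mapWord σ (dec m) (σ j) = dec m j := by
      show dec m (σ⁻¹ (σ j)) = dec m j
      simp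
    rw [h4, h1, h2] at h3
    exact absurd h3 (by decide)
  subst hσ1
  -- the sign part is trivial or everything
  have hprm : ∀ x : P → ℤ, prm 1 x = x := fun x => rfl
  have hg' : ∀ v : LeechMono.Lat, ((g • v : LeechMono.Lat) : P → ℤ) = sgn e v := by
    intro v
    rw [hg, hprm]
  obtain ⟨w, hw⟩ := h ⟨oddV, oddV_mem⟩
  rw [hg'] at hw
  obtain ⟨n, a, s, hn, ha, hx1, hx2⟩ := leech_decomp (mem_lattice_iff.mp w.2)
  have hev : ∀ i, e i = 0 ↔ n = 0 := by
    intro i
    have h3 := congrFun hw i
    have h4 := hx1 i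
    simp only [sgn, Pi.sub_apply, Pi.smul_apply, nsmul_eq_mul] at h3
    rw [h4] at h3
    push_cast at h3
    have hodd : oddV i % 2 = 1 := oddV_odd i
    by_cases hei : e i = 0
    · rw [if_pos hei] at h3
      refine ⟨fun _ => ?_, fun _ => hei⟩
      rcases hn with hn | hn
      · exact hn
      · exfalso
        rw [hn] at h3
        rcases bv_cases (a i) with ⟨_, h5⟩ | ⟨_, h5⟩ <;> rw [h5] at h3 <;> omega
    · rw [if_neg hei] at h3
      refine ⟨fun h => absurd h hei, fun hn0 => ?_⟩
      exfalso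
      rw [hn0] at h3
      rcases bv_cases (a i) with ⟨_, h5⟩ | ⟨_, h5⟩ <;> rw [h5] at h3 <;> omega
  rcases hn with hn | hn
  · have he0 : ∀ i, e i = 0 := fun i => (hev i).mpr hn
    have : g = 1 := by
      apply co0_ext
      intro i
      apply Subtype.ext
      rw [hg', one_smul]
      funext j
      simp [sgn, he0 j]
    rw [this]
    exact Subgroup.one_mem _
  · have he1 : ∀ i, e i ≠ 0 := fun i h => by
      have := (hev i).mp h
      omega
    obtain ⟨c, hc⟩ := exists_negE
    have hcc : c ∈ Subgroup.center Co0 := by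
      rw [Subgroup.mem_center_iff]
      intro g
      apply Subtype.ext
      apply Equiv.ext
      intro v
      show g • (c • v) = c • (g • v)
      rw [hc, hc, smul_neg']
    have : g = c := by
      apply co0_ext
      intro i
      apply Subtype.ext
      rw [hg', hc]
      funext j
      simp [sgn, he1 j]
    rw [this]
    exact hcc

def p48 : P → ℤ := vecOf [0, 2, 0, 0, 0, -2, 0, 2, 4, 0, -2, 0, 2, 0, 0, -2, 0, 0, 0, 0, -2, 0, -2, 0]
def q48 : P → ℤ := vecOf [1, -1, 1, 1, 1, -1, -1, -1, -3, 1, 1, -1, -3, -1, 1, 1, 1, -1, -1, -1, 1, -1, 3, -1]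

/-- a frame vector's partner -/
def q64 : P → ℤ := fun i => twoW (dec 2564625) i - eight (idxPt 0) i

theorem p48_mem : p48 ∈ leechLattice := lchk_spec (by decide +kernel)
theorem q48_mem : q48 ∈ leechLattice := lchk_spec (by decide +kernel)
theorem q64_mem : q64 ∈ leechLattice := lchk_spec (by decide +kernel)

/-- The module is irreducible. -/
theorem invariant_sub (M : AddSubgroup (P → ℤ)) (h2 : ∀ v ∈ leechLattice, (2 : ℤ) • v ∈ M) (hle : M ≤ leechLattice)
    (hinv : ∀ g : Co0, ∀ v : LeechMono.Lat, (v : P → ℤ) ∈ M → ((g • v : LeechMono.Lat) : P → ℤ) ∈ M) :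
    (∀ x ∈ M, ∃ w ∈ leechLattice, x = (2 : ℤ) • w) ∨ M = leechLattice := by
  by_cases hall : ∀ x ∈ M, ∃ w ∈ leechLattice, x = (2 : ℤ) • w
  · exact Or.inl hall
  right
  push Not at hall
  obtain ⟨x, hxM, hx⟩ := hall
  obtain ⟨y, hy, hyN, z, hz, hxy⟩ := exists_short x (hle hxM)
  have hyM : y ∈ M := by
    have h3 : y = x - (2 : ℤ) • z := by
      have : ((2 : ℕ) • z : P → ℤ) = (2 : ℤ) • z := by
        funext i
        simp
      rw [← this, ← hxy]
      abel
    rw [h3]
    exact sub_mem hxM (h2 z hz)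
  have hy0 : y ≠ 0 := by
    rintro rfl
    apply hx z hz
    have : ((2 : ℕ) • z : P → ℤ) = (2 : ℤ) • z := by
      funext i
      simp
    rw [← this, ← hxy]
    simp
  have hall32 : (∃ u ∈ M, sqNorm u = 32) → M = leechLattice := by
    rintro ⟨u, huM, hu⟩
    apply le_antisymm hle
    rw [← closure_minimal, AddSubgroup.closure_le]
    rintro v ⟨hv, hvN⟩
    obtain ⟨g, hg⟩ := trans_32 ⟨u, hle huM⟩ ⟨v, hv⟩ hu hvN
    have := hinv g ⟨u, hle huM⟩ huM
    rw [hg] at this
    exact this
  rcases short_norm hy hyN with h | h | h | h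
  · exfalso
    apply hy0
    by_contra hcon
    have := norm_ge hy hcon
    omega
  · exact hall32 ⟨y, hyM, h⟩
  · -- vectors of norm 48
    have hall48 : ∀ v ∈ leechLattice, sqNorm v = 48 → v ∈ M := by
      intro v hv hvN
      obtain ⟨g, hg⟩ := trans_48 ⟨y, hy⟩ ⟨v, hv⟩ h hvN
      have := hinv g ⟨y, hy⟩ hyM
      rw [hg] at this
      exact this
    apply hall32
    exact ⟨p48 + q48, add_mem (hall48 _ p48_mem (by decide +kernel)) (hall48 _ q48_mem (by decide +kernel)),
      by decide +kernel⟩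
  · -- vectors of norm 64
    have hall64 : ∀ v ∈ leechLattice, sqNorm v = 64 → v ∈ M := by
      intro v hv hvN
      obtain ⟨g, hg⟩ := trans_64 ⟨y, hy⟩ ⟨v, hv⟩ h hvN
      have := hinv g ⟨y, hy⟩ hyM
      rw [hg] at this
      exact this
    apply hall32
    exact ⟨eight (idxPt 0) + q64, add_mem (hall64 _ (eight_mem _) (sqNorm_eight _)) (hall64 _ q64_mem (by decide +kernel)),
      by decide +kernel⟩

end Cfsg.Agent.Lib.LeechOrder
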