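/-
Shapes of the vectors of norm 48 in the Leech lattice.
-/
import Mathlib
import Cfsg.Prelude.Def_Sporadic_a
import Cfsg.Agent.Lib.LeechBase
import Cfsg.Agent.Lib.LeechCensus

set_option autoImplicit false
set_option linter.unusedSectionVars false
set_option linter.unusedSimpArgs false
set_option linter.unusedVariables false

namespace Cfsg.Agent.Lib.LeechShape

open Cfsg Cfsg.Agent.Lib.GolayCode Cfsg.Agent.Lib.GolayFacts Cfsg.Agent.Lib.GolayPerm
  Cfsg.Agent.Lib.LeechBase Cfsg.Agent.Lib.LeechCensus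

/-- values in the family with a five -/
def U5 : ZMod 2 → Finset ℤ := fun b => if b = 0 then {1, 5} else {-1, -5}

theorem U5_sub : ∀ b, U5 b ⊆ VV 1 b := by decide

theorem cnt5 : [cntU U5 1 0 48, cntU U5 1 8 48, cntU U5 1 12 48, cntU U5 1 16 48, cntU U5 1 24 48] =
    [24, 24, 24, 24, 24] := by decide +kernel

theorem two_le_sum (f : P → ℤ) (hf : ∀ i, 0 ≤ f i) {i j : P} (h : i ≠ j) : f i + f j ≤ ∑ k, f k := by
  rw [← Finset.sum_pair h]
  exact Finset.sum_le_sum_of_subset_of_nonneg (Finset.subset_univ _) fun k _ _ => hf k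

/-- Coordinates of odd patterns -/
theorem pat1_odd {a : P → ZMod 2} {N : ℕ} {x : P → ℤ} (hx : x ∈ Pat 1 a N) (i : P) : x i % 2 = 1 := by
  have := Int.modEq_iff_dvd.mp (hx.1 i)
  rcases bv_cases (a i) with ⟨h3, h4⟩ | ⟨h3, h4⟩ <;> rw [h4] at this <;> omega

theorem odd_sq_ge {v : ℤ} (h : v % 2 = 1) : 1 ≤ v ^ 2 := by
  have : v ≠ 0 := by
    rintro rfl
    simp at h
  have h2 : 0 < v ^ 2 := by positivity
  omega

theorem odd_sq_cases {v : ℤ} (h : v % 2 = 1) (h2 : v ^ 2 ≤ 48) : |v| = 1 ∨ |v| = 3 ∨ |v| = 5 := by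
  have h3 : -6 ≤ v ∧ v ≤ 6 := by
    constructor <;> nlinarith
  obtain ⟨h4, h5⟩ := h3
  interval_cases v <;> simp_all

theorem sum_sq_sub_one (x : P → ℤ) : ∑ i, (x i ^ 2 - 1) = sqNorm x - 24 := by
  rw [Finset.sum_sub_distrib, sqNorm]
  simp [card_P]

/-- The set of odd vectors with a coordinate five. -/
def D5 (a : P → ZMod 2) : Set (P → ℤ) := {x | x ∈ Pat 1 a 48 ∧ ∃ i, |x i| = 5}

theorem mem_U5 {b : ZMod 2} {v : ℤ} (h1 : v ≡ 1 + 2 * bv b [ZMOD 4]) (h2 : |v| = 1 ∨ |v| = 5) : v ∈ U5 b := by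
  have h3 := Int.modEq_iff_dvd.mp h1
  have h4 : v = 1 ∨ v = -1 ∨ v = 5 ∨ v = -5 := by
    rcases h2 with h | h <;> rcases abs_eq (by norm_num : (0 : ℤ) ≤ _) |>.mp h with h | h <;> omega
  rcases bv_cases b with ⟨rfl, h5⟩ | ⟨rfl, h5⟩ <;> rw [h5] at h3 <;>
    rcases h4 with rfl | rfl | rfl | rfl <;> first | omega | decide

theorem D5_eq (a : P → ZMod 2) : D5 a = ↑((Fintype.piFinset fun i => U5 (a i)).filter
      (fun x => sqNorm x = ((48 : ℕ) : ℤ) ∧ ∑ i, x i ≡ 4 * 1 [ZMOD 8])) := by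
  ext x
  simp only [D5, Set.mem_ofPred_eq, Finset.coe_filter, Fintype.mem_piFinset]
  constructor
  · rintro ⟨hx, i₀, hi₀⟩
    have hsq : x i₀ ^ 2 = 25 := by
      rw [← sq_abs, hi₀]
      norm_num
    refine ⟨fun j => ?_, hx.2.1, hx.2.2⟩
    apply mem_U5 (hx.1 j)
    by_cases hj : j = i₀
    · rw [hj]
      exact Or.inr hi₀
    · left
      have h1 := two_le_sum (fun i => x i ^ 2 - 1) (fun i => by
        have := odd_sq_ge (pat1_odd hx i)
        show 0 ≤ x i ^ 2 - 1
        omega) hj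
      rw [sum_sq_sub_one, hx.2.1] at h1
      rw [hsq] at h1
      have h2 : x j ^ 2 ≤ 1 := by
        push_cast at h1
        omega
      have h3 := odd_sq_ge (pat1_odd hx j)
      have h4 : x j ^ 2 = 1 := by omega
      have h5 : |x j| ^ 2 = 1 := by rwa [sq_abs]
      have h6 := abs_nonneg (x j)
      nlinarith
  · rintro ⟨h1, h2, h3⟩
    have hmem : ∀ i, (x i ≡ 1 + 2 * bv (a i) [ZMOD 4]) ∧ x i ^ 2 ≤ 64 := fun i =>
      (mem_VV (Or.inr rfl)).mp (U5_sub _ (h1 i))
    refine ⟨⟨fun i => (hmem i).1, h2, h3⟩, ?_⟩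
    by_contra hcon
    push Not at hcon
    have h5 : ∀ i, x i ^ 2 = 1 := by
      intro i
      have h6 := h1 i
      have h7 := hcon i
      unfold U5 at h6
      split_ifs at h6 <;> simp only [Finset.mem_insert, Finset.mem_singleton] at h6 <;>
        rcases h6 with h6 | h6 <;> rw [h6] at h7 ⊢ <;> simp_all
    have h8 : sqNorm x = 24 := by
      simp only [sqNorm, h5]
      simp [card_P]
    rw [h8] at h2
    norm_num at h2

theorem ncard_D5 {a : P → ZMod 2} (ha : a ∈ golayCode) : (D5 a).ncard = 24 := by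
  rw [D5_eq, Set.ncard_coe_finset, card_pattern (Or.inr rfl) ha U5 U5_sub (by norm_num)]
  have hh := cnt5
  simp only [List.cons.injEq, and_true] at hh
  obtain ⟨h0, h1, h2, h3, h4⟩ := hh
  rcases weights_of_mem ha with h | h | h | h | h
  · rw [h]; exact h0
  · rw [h]; exact h1
  · rw [h]; exact h2
  · rw [h]; exact h3
  · rw [h]; exact h4

theorem D5_sub (a : P → ZMod 2) : D5 a ⊆ Pat 1 a 48 := fun x hx => hx.1

theorem D5_finite (a : P → ZMod 2) : (D5 a).Finite := by
  rw [D5_eq]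
  exact Finset.finite_toSet _

/-- Even coordinates. -/
theorem pat0_even {a : P → ZMod 2} {N : ℕ} {x : P → ℤ} (hx : x ∈ Pat 0 a N) (i : P) : x i % 2 = 0 := by
  have := Int.modEq_iff_dvd.mp (hx.1 i)
  rcases bv_cases (a i) with ⟨h3, h4⟩ | ⟨h3, h4⟩ <;> rw [h4] at this <;> omega

theorem pat0_sq_ge {a : P → ZMod 2} {N : ℕ} {x : P → ℤ} (hx : x ∈ Pat 0 a N) (i : P) :
    4 * bv (a i) ≤ x i ^ 2 := by
  have := Int.modEq_iff_dvd.mp (hx.1 i)
  rcases bv_cases (a i) with ⟨h3, h4⟩ | ⟨h3, h4⟩ <;> rw [h4] at this ⊢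
  · simpa using sq_nonneg (x i)
  · have h5 : x i ≠ 0 := by
      intro h
      rw [h] at this
      omega
    have h6 : x i ≠ 1 := by
      intro h
      rw [h] at this
      omega
    have h7 : x i ≠ -1 := by
      intro h
      rw [h] at this
      omega
    have h8 : 2 ≤ x i ∨ x i ≤ -2 := by omega
    rcases h8 with h8 | h8 <;> nlinarith

theorem sum_sq_sub_bv (x : P → ℤ) (a : P → ZMod 2) :
    ∑ i, (x i ^ 2 - 4 * bv (a i)) = sqNorm x - 4 * (hammingNorm a : ℤ) := by
  rw [Finset.sum_sub_distrib, sqNorm, ← Finset.mul_sum, sum_bv]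

/-- For a dodecad in norm 48 the shape is forced. -/
theorem pat0_of_weight {a : P → ZMod 2} {x : P → ℤ} (hx : x ∈ Pat 0 a 48) (hw : hammingNorm a = 12) (i : P) :
    x i ^ 2 = 4 * bv (a i) := by
  have h1 := sum_sq_sub_bv x a
  rw [hx.2.1, hw] at h1
  have h2 := (Finset.sum_eq_zero_iff_of_nonneg (s := Finset.univ)
    (f := fun i => x i ^ 2 - 4 * bv (a i)) (fun i _ => by
      have := pat0_sq_ge hx i
      show 0 ≤ x i ^ 2 - 4 * bv (a i)
      omega)).mp (by rw [h1]; norm_num)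
  have := h2 i (Finset.mem_univ i)
  beta_reduce at this
  omega

theorem sq_eq_four_cases {v : ℤ} (h : v ^ 2 = 4) : v = 2 ∨ v = -2 := by
  have : (v - 2) * (v + 2) = 0 := by ring_nf; omega
  rcases mul_eq_zero.mp this with h | h
  · left; omega
  · right; omega

/-- first family -/
def FA : Set (P → ℤ) := {x | x ∈ leechLattice ∧ sqNorm x = 48 ∧ ∀ i, x i = 0 ∨ x i = 2 ∨ x i = -2}

theorem FA_pat1 {a : P → ZMod 2} : FA ∩ Pat 1 a 48 = ∅ := by
  ext x
  simp only [Set.mem_inter_iff, Set.mem_empty_iff_false, iff_false, not_and]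
  rintro ⟨-, -, h⟩ hx
  have h1 := pat1_odd hx none
  rcases h none with h2 | h2 | h2 <;> rw [h2] at h1 <;> omega

theorem FA_pat0_eq {a : P → ZMod 2} (ha : a ∈ golayCode) (hw : hammingNorm a = 12) :
    FA ∩ Pat 0 a 48 = Pat 0 a 48 := by
  apply Set.inter_eq_right.mpr
  intro x hx
  refine ⟨pat_mem_lattice ha hx, hx.2.1, fun i => ?_⟩
  have h1 := pat0_of_weight hx hw i
  rcases bv_cases (a i) with ⟨h3, h4⟩ | ⟨h3, h4⟩ <;> rw [h4] at h1
  · left
    have : x i ^ 2 = 0 := by omega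
    exact pow_eq_zero_iff (by norm_num) |>.mp this
  · right
    exact sq_eq_four_cases (by omega)

theorem FA_pat0_empty {a : P → ZMod 2} (hw : hammingNorm a ≠ 12) : FA ∩ Pat 0 a 48 = ∅ := by
  ext x
  simp only [Set.mem_inter_iff, Set.mem_empty_iff_false, iff_false, not_and]
  rintro ⟨-, -, h⟩ hx
  apply hw
  have h1 : ∀ i, x i ^ 2 = 4 * bv (a i) := by
    intro i
    have h2 := Int.modEq_iff_dvd.mp (hx.1 i)
    rcases bv_cases (a i) with ⟨h3, h4⟩ | ⟨h3, h4⟩ <;> rw [h4] at h2 ⊢ <;>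
      rcases h i with h5 | h5 | h5 <;> rw [h5] at h2 ⊢ <;> first | omega | norm_num
  have h2 := sum_sq_sub_bv x a
  rw [Finset.sum_eq_zero (fun i _ => by rw [h1 i]; ring), hx.2.1] at h2
  push_cast at h2
  omega

theorem ncard_FA : FA.ncard = 5275648 := by
  rw [ncard_sep (N := 48) (by norm_num) (S := FA) (fun x hx => ⟨hx.1, hx.2.1⟩)]
  have h1 : ∀ k ∈ Finset.range 4096, (FA ∩ Pat 0 (dec (spanMask k)) 48).ncard + (FA ∩ Pat 1 (dec (spanMask k)) 48).ncard =
      (fun w => if w = 12 then 2048 else 0) (hw 24 (spanMask k)) := by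
    intro k hk
    have hc : dec (spanMask k) ∈ golayCode := mem_golayCode_iff.mpr ⟨k, Finset.mem_range.mp hk, rfl⟩
    rw [FA_pat1, Set.ncard_empty, add_zero]
    have hn := hammingNorm_dec (spanMask k)
    by_cases h : hw 24 (spanMask k) = 12
    · simp only [h, if_true]
      rw [FA_pat0_eq hc (by rw [hn, h]), ncard_pat (Or.inl rfl) hc (by norm_num), hn, h]
      have hh := cnt_48
      simp only [List.cons.injEq, and_true] at hh
      exact hh.2.2.2.2.1
    · simp only [h, if_false]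
      rw [FA_pat0_empty (by rw [hn]; exact h), Set.ncard_empty]
  rw [Finset.sum_congr rfl h1, sum_code (fun w => if w = 12 then 2048 else 0)]
  norm_num

/-- second family -/
def FB : Set (P → ℤ) :=
  {x | x ∈ leechLattice ∧ sqNorm x = 48 ∧ ∃ i j k, i ≠ j ∧ j ≠ k ∧ i ≠ k ∧ |x i| = 3 ∧ |x j| = 3 ∧ |x k| = 3}

theorem FB_pat0 {a : P → ZMod 2} : FB ∩ Pat 0 a 48 = ∅ := by
  ext x
  simp only [Set.mem_inter_iff, Set.mem_empty_iff_false, iff_false, not_and]
  rintro ⟨-, -, i, -, -, -, -, -, h, -⟩ hx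
  have h1 := pat0_even hx i
  rcases abs_eq (by norm_num : (0 : ℤ) ≤ 3) |>.mp h with h2 | h2 <;> rw [h2] at h1 <;> omega

theorem four_le_sum (f : P → ℤ) (hf : ∀ i, 0 ≤ f i) {i j k l : P} (h1 : i ≠ j) (h2 : i ≠ k) (h3 : i ≠ l)
    (h4 : j ≠ k) (h5 : j ≠ l) (h6 : k ≠ l) : f i + f j + f k + f l ≤ ∑ k, f k := by
  have : ∑ t ∈ ({i, j, k, l} : Finset P), f t = f i + f j + f k + f l := by
    rw [Finset.sum_insert (by simp [h1, h2, h3]), Finset.sum_insert (by simp [h4, h5]),
      Finset.sum_pair h6]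
    ring
  rw [← this]
  exact Finset.sum_le_sum_of_subset_of_nonneg (Finset.subset_univ _) fun k _ _ => hf k

theorem FB_pat1 {a : P → ZMod 2} (ha : a ∈ golayCode) : FB ∩ Pat 1 a 48 = Pat 1 a 48 \ D5 a := by
  classical
  ext x
  simp only [Set.mem_inter_iff, Set.mem_sdiff]
  constructor
  · rintro ⟨⟨-, -, i, j, k, hij, hjk, hik, hi, hj, hk⟩, hx⟩
    refine ⟨hx, ?_⟩
    rintro ⟨-, l, hl⟩
    have hli : l ≠ i := by
      rintro rfl
      rw [hi] at hl
      norm_num at hl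
    have hlj : l ≠ j := by
      rintro rfl
      rw [hj] at hl
      norm_num at hl
    have hlk : l ≠ k := by
      rintro rfl
      rw [hk] at hl
      norm_num at hl
    have h1 := four_le_sum (fun i => x i ^ 2 - 1) (fun i => by
        have := odd_sq_ge (pat1_odd hx i)
        show 0 ≤ x i ^ 2 - 1
        omega) hli hlj hlk hij hik hjk
    rw [sum_sq_sub_one, hx.2.1] at h1
    have e1 : x l ^ 2 = 25 := by rw [← sq_abs, hl]; norm_num
    have e2 : x i ^ 2 = 9 := by rw [← sq_abs, hi]; norm_num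
    have e3 : x j ^ 2 = 9 := by rw [← sq_abs, hj]; norm_num
    have e4 : x k ^ 2 = 9 := by rw [← sq_abs, hk]; norm_num
    rw [e1, e2, e3, e4] at h1
    norm_num at h1
  · rintro ⟨hx, h5⟩
    refine ⟨⟨pat_mem_lattice ha hx, hx.2.1, ?_⟩, hx⟩
    have hn : ∀ i, |x i| ≠ 5 := fun i h => h5 ⟨hx, i, h⟩
    have hcases : ∀ i, |x i| = 1 ∨ |x i| = 3 := by
      intro i
      have h1 := odd_sq_cases (pat1_odd hx i) (by
        have := sq_le_sqNorm x i
        rw [hx.2.1] at this
        exact_mod_cast this)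
      rcases h1 with h | h | h
      · exact Or.inl h
      · exact Or.inr h
      · exact absurd h (hn i)
    -- count the threes
    have hsq : ∀ i, x i ^ 2 = 1 + 8 * (if |x i| = 3 then 1 else 0) := by
      intro i
      rcases hcases i with h | h
      · rw [← sq_abs, h]
        simp
      · rw [← sq_abs, h]
        simp
    have hsum : sqNorm x = 24 + 8 * ((Finset.univ.filter fun i => |x i| = 3).card : ℤ) := by
      simp only [sqNorm]
      rw [Finset.sum_congr rfl fun i _ => hsq i, Finset.sum_add_distrib, ← Finset.mul_sum, Finset.card_filter]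
      push_cast
      simp [card_P]
    rw [hx.2.1] at hsum
    have hc : (Finset.univ.filter fun i => |x i| = 3).card = 3 := by
      push_cast at hsum
      omega
    obtain ⟨i, j, k, hij, hik, hjk, he⟩ := Finset.card_eq_three.mp hc
    have hmem : ∀ t, t ∈ ({i, j, k} : Finset P) → |x t| = 3 := by
      intro t ht
      rw [← he] at ht
      exact (Finset.mem_filter.mp ht).2
    exact ⟨i, j, k, hij, hjk, hik, hmem i (by simp), hmem j (by simp), hmem k (by simp)⟩

theorem ncard_FB : FB.ncard = 8290304 := by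
  rw [ncard_sep (N := 48) (by norm_num) (S := FB) (fun x hx => ⟨hx.1, hx.2.1⟩)]
  have h1 : ∀ k ∈ Finset.range 4096, (FB ∩ Pat 0 (dec (spanMask k)) 48).ncard + (FB ∩ Pat 1 (dec (spanMask k)) 48).ncard =
      (fun w => 2024) (hw 24 (spanMask k)) := by
    intro k hk
    have hc : dec (spanMask k) ∈ golayCode := mem_golayCode_iff.mpr ⟨k, Finset.mem_range.mp hk, rfl⟩
    rw [FB_pat0, Set.ncard_empty, zero_add, FB_pat1 hc,
      Set.ncard_sdiff (D5_sub _) (D5_finite _),
      ncard_pat (Or.inr rfl) hc (by norm_num), ncard_D5 hc]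
    have hh := cnt_48
    simp only [List.cons.injEq, and_true] at hh
    obtain ⟨h0, h1, h2, h3, h4, h5, h6, h7, h8, h9⟩ := hh
    rcases weights_of_mem hc with h | h | h | h | h <;> rw [h] <;> simp only [*]
  rw [Finset.sum_congr rfl h1, sum_code (fun w => 2024)]

/-- third family -/
def FC : Set (P → ℤ) := {x | x ∈ leechLattice ∧ sqNorm x = 48 ∧ ∃ i, |x i| = 4}

theorem FC_pat1 {a : P → ZMod 2} : FC ∩ Pat 1 a 48 = ∅ := by
  ext x
  simp only [Set.mem_inter_iff, Set.mem_empty_iff_false, iff_false, not_and]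
  rintro ⟨-, -, i, h⟩ hx
  have h1 := pat1_odd hx i
  rcases abs_eq (by norm_num : (0 : ℤ) ≤ 4) |>.mp h with h2 | h2 <;> rw [h2] at h1 <;> omega

theorem FC_pat0_eq {a : P → ZMod 2} (ha : a ∈ golayCode) (hw : hammingNorm a = 8) :
    FC ∩ Pat 0 a 48 = Pat 0 a 48 := by
  classical
  apply Set.inter_eq_right.mpr
  intro x hx
  refine ⟨pat_mem_lattice ha hx, hx.2.1, ?_⟩
  by_contra hcon
  push Not at hcon
  -- all the coordinates outside vanish or are large; all inside are `4 mod 32`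
  have h1 : ∀ i, ∃ t : ℤ, x i ^ 2 = 4 * bv (a i) + 32 * t := by
    intro i
    obtain ⟨c, hc⟩ := Int.modEq_iff_dvd.mp (hx.1 i)
    have hle := sq_le_sqNorm x i
    rw [hx.2.1] at hle
    have hle' : x i ^ 2 ≤ 48 := by exact_mod_cast hle
    have hb : -6 ≤ x i ∧ x i ≤ 6 := by
      constructor <;> nlinarith
    obtain ⟨hb1, hb2⟩ := hb
    have h4 := hcon i
    rcases bv_cases (a i) with ⟨h3, h5⟩ | ⟨h3, h5⟩ <;> rw [h5] at hc ⊢ <;>
      generalize x i = v at * <;> interval_cases v <;> first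
        | omega
        | exact ⟨0, by decide⟩
        | exact ⟨1, by decide⟩
        | exact absurd (by norm_num : |(4 : ℤ)| = 4) h4
        | exact absurd (by norm_num : |(-4 : ℤ)| = 4) h4
  choose t ht using h1
  have h2 : sqNorm x = 4 * (hammingNorm a : ℤ) + 32 * ∑ i, t i := by
    simp only [sqNorm]
    rw [Finset.sum_congr rfl fun i _ => ht i, Finset.sum_add_distrib, ← Finset.mul_sum, ← Finset.mul_sum, sum_bv]
  rw [hx.2.1, hw] at h2
  push_cast at h2
  omega

theorem FC_pat0_empty {a : P → ZMod 2} (ha : a ∈ golayCode) (hw : hammingNorm a ≠ 8) : FC ∩ Pat 0 a 48 = ∅ := by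
  by_cases h12 : hammingNorm a = 12
  · ext x
    simp only [Set.mem_inter_iff, Set.mem_empty_iff_false, iff_false, not_and]
    rintro ⟨-, -, i, h⟩ hx
    have h1 := pat0_of_weight hx h12 i
    rw [← sq_abs, h] at h1
    rcases bv_cases (a i) with ⟨h3, h4⟩ | ⟨h3, h4⟩ <;> rw [h4] at h1 <;> omega
  · have h0 : (Pat 0 a 48).ncard = 0 := by
      rw [ncard_pat (Or.inl rfl) ha (by norm_num)]
      have hh := cnt_48
      simp only [List.cons.injEq, and_true] at hh
      obtain ⟨h0, h1, h2, h3, h4, h5, h6, h7, h8, h9⟩ := hh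
      rcases weights_of_mem ha with h | h | h | h | h
      · rw [h]; exact h0
      · exact absurd h hw
      · exact absurd h h12
      · rw [h]; exact h6
      · rw [h]; exact h8
    have h1 := (Set.ncard_eq_zero (pat_finite (Or.inl rfl) a (by norm_num))).mp h0
    rw [h1, Set.inter_empty]

theorem ncard_FC : FC.ncard = 3108864 := by
  rw [ncard_sep (N := 48) (by norm_num) (S := FC) (fun x hx => ⟨hx.1, hx.2.1⟩)]
  have h1 : ∀ k ∈ Finset.range 4096, (FC ∩ Pat 0 (dec (spanMask k)) 48).ncard + (FC ∩ Pat 1 (dec (spanMask k)) 48).ncard =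
      (fun w => if w = 8 then 4096 else 0) (hw 24 (spanMask k)) := by
    intro k hk
    have hc : dec (spanMask k) ∈ golayCode := mem_golayCode_iff.mpr ⟨k, Finset.mem_range.mp hk, rfl⟩
    rw [FC_pat1, Set.ncard_empty, add_zero]
    have hn := hammingNorm_dec (spanMask k)
    by_cases h : hw 24 (spanMask k) = 8
    · simp only [h, if_true]
      rw [FC_pat0_eq hc (by rw [hn, h]), ncard_pat (Or.inl rfl) hc (by norm_num), hn, h]
      have hh := cnt_48
      simp only [List.cons.injEq, and_true] at hh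
      exact hh.2.2.1
    · simp only [h, if_false]
      rw [FC_pat0_empty hc (by rw [hn]; exact h), Set.ncard_empty]
  rw [Finset.sum_congr rfl h1, sum_code (fun w => if w = 8 then 4096 else 0)]
  norm_num

/-- fourth family -/
def FD : Set (P → ℤ) := {x | x ∈ leechLattice ∧ sqNorm x = 48 ∧ ∃ i, |x i| = 5}

theorem FD_pat0 {a : P → ZMod 2} : FD ∩ Pat 0 a 48 = ∅ := by
  ext x
  simp only [Set.mem_inter_iff, Set.mem_empty_iff_false, iff_false, not_and]
  rintro ⟨-, -, i, h⟩ hx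
  have h1 := pat0_even hx i
  rcases abs_eq (by norm_num : (0 : ℤ) ≤ 5) |>.mp h with h2 | h2 <;> rw [h2] at h1 <;> omega

theorem FD_pat1 {a : P → ZMod 2} (ha : a ∈ golayCode) : FD ∩ Pat 1 a 48 = D5 a := by
  ext x
  constructor
  · rintro ⟨⟨-, -, h⟩, hx⟩
    exact ⟨hx, h⟩
  · rintro ⟨hx, h⟩
    exact ⟨⟨pat_mem_lattice ha hx, hx.2.1, h⟩, hx⟩

theorem ncard_FD : FD.ncard = 98304 := by
  rw [ncard_sep (N := 48) (by norm_num) (S := FD) (fun x hx => ⟨hx.1, hx.2.1⟩)]
  have h1 : ∀ k ∈ Finset.range 4096, (FD ∩ Pat 0 (dec (spanMask k)) 48).ncard + (FD ∩ Pat 1 (dec (spanMask k)) 48).ncard =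
      (fun w => 24) (hw 24 (spanMask k)) := by
    intro k hk
    have hc : dec (spanMask k) ∈ golayCode := mem_golayCode_iff.mpr ⟨k, Finset.mem_range.mp hk, rfl⟩
    rw [FD_pat0, Set.ncard_empty, zero_add, FD_pat1 hc, ncard_D5 hc]
  rw [Finset.sum_congr rfl h1, sum_code (fun w => 24)]

end Cfsg.Agent.Lib.LeechShape
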