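import Cfsg.Prelude.Def_Sporadic_a
import Mathlib

set_option autoImplicit false

namespace Cfsg.Agent.Lib.SteinerCount

open Classical in
/-- Number of blocks of `B` containing `s`. -/
noncomputable def cnt {α : Type*} [Fintype α] (B : Set (Finset α)) (s : Finset α) : ℕ :=
  ((Finset.univ.filter (· ∈ B)).filter (s ⊆ ·)).card

open Classical in
theorem cnt_step {α : Type*} [Fintype α] [DecidableEq α] (B : Set (Finset α)) (k : ℕ)
    (hk : ∀ b ∈ B, b.card = k) (s : Finset α) (μ : ℕ)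
    (hμ : ∀ x, x ∉ s → cnt B (insert x s) = μ) :
    cnt B s * (k - s.card) = (Fintype.card α - s.card) * μ := by
  have h1 : ∑ x ∈ sᶜ, cnt B (insert x s) = (Fintype.card α - s.card) * μ := by
    rw [Finset.sum_congr rfl (fun x hx => hμ x (Finset.mem_compl.mp hx)), Finset.sum_const,
      Finset.card_compl, smul_eq_mul]
  rw [← h1]
  simp only [cnt, Finset.card_filter (fun b => insert _ s ⊆ b)]
  rw [Finset.sum_comm]
  rw [Finset.card_eq_sum_ones, Finset.sum_filter, Finset.sum_mul]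
  refine Finset.sum_congr rfl (fun b hb => ?_)
  have hbB : b ∈ B := (Finset.mem_filter.mp hb).2
  by_cases hs : s ⊆ b
  · rw [if_pos hs, one_mul]
    have h2 : ∀ (D : ∀ x, Decidable (insert x s ⊆ b)),
        ∑ x ∈ sᶜ, (@ite ℕ (insert x s ⊆ b) (D x) 1 0) = k - s.card := by
      intro D
      calc ∑ x ∈ sᶜ, (@ite ℕ (insert x s ⊆ b) (D x) 1 0)
          = ∑ x ∈ sᶜ, (if x ∈ b then 1 else 0) := by
            refine Finset.sum_congr rfl (fun x _ => ?_)
            by_cases hx : x ∈ b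
            · rw [if_pos hx, if_pos (Finset.insert_subset_iff.mpr ⟨hx, hs⟩)]
            · rw [if_neg hx, if_neg (fun h => hx ((Finset.insert_subset_iff.mp h).1))]
        _ = (sᶜ.filter (· ∈ b)).card := (Finset.card_filter _ _).symm
        _ = (b \ s).card := by
            congr 1
            ext x
            simp only [Finset.mem_filter, Finset.mem_compl, Finset.mem_sdiff]
            tauto
        _ = k - s.card := by rw [Finset.card_sdiff_of_subset hs, hk b hbB]
    exact (h2 _).symm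
  · rw [if_neg hs, zero_mul]
    symm
    apply Finset.sum_eq_zero
    intro x _
    rw [if_neg]
    intro h
    exact hs ((Finset.insert_subset_iff.mp h).2)

theorem cnt_of_steiner {α : Type*} [Fintype α] [DecidableEq α] {t k : ℕ} {B : Set (Finset α)}
    (hB : Cfsg.IsSteinerSystem t k B) (s : Finset α) (hs : s.card = t) : cnt B s = 1 := by
  classical
  obtain ⟨b, ⟨hb, hsb⟩, huniq⟩ := hB.2 s hs
  rw [cnt, Finset.card_eq_one]
  refine ⟨b, ?_⟩
  ext c
  simp only [Finset.mem_filter, Finset.mem_univ, true_and, Finset.mem_singleton]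
  constructor
  · exact fun h => huniq c h
  · rintro rfl
    exact ⟨hb, hsb⟩

/-- Derived counts: if all `i+1`-sets are in `μ` blocks, all `i`-sets are in `ν` blocks provided
`ν (k - i) = (v - i) μ`. -/
theorem cnt_down {α : Type*} [Fintype α] [DecidableEq α] (B : Set (Finset α)) (k i μ ν : ℕ)
    (hk : ∀ b ∈ B, b.card = k) (hki : 0 < k - i)
    (hμ : ∀ s : Finset α, s.card = i + 1 → cnt B s = μ)
    (hν : ν * (k - i) = (Fintype.card α - i) * μ)
    (s : Finset α) (hs : s.card = i) : cnt B s = ν := by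
  have h := cnt_step B k hk s μ (fun x hx => hμ _ (by rw [Finset.card_insert_of_notMem hx, hs]))
  rw [hs, ← hν] at h
  exact Nat.eq_of_mul_eq_mul_right hki h

theorem ncard_eq {α : Type*} [Fintype α] (B : Set (Finset α)) (p : Finset α → Prop)
    [DecidablePred p] [DecidablePred (· ∈ B)] :
    {b : Finset α | b ∈ B ∧ p b}.ncard = ∑ b ∈ Finset.univ.filter (· ∈ B), if p b then 1 else 0 := by
  rw [← Finset.card_filter]
  rw [← Set.ncard_coe_finset]
  congr 1
  ext b
  simp

theorem main_24 {α : Type*} [Fintype α] [DecidableEq α] (hα : Fintype.card α = 24) (B : Set (Finset α)) (hB : Cfsg.IsSteinerSystem 5 8 B) (Y : Finset α) (hY : Y.card = 3) : {b : Finset α | b ∈ B ∧ (b ∩ Y).card = 3}.ncard = 21 ∧ {b : Finset α | b ∈ B ∧ (b ∩ Y).card = 2}.ncard = 168 ∧ {b : Finset α | b ∈ B ∧ (b ∩ Y).card = 1}.ncard = 360 ∧ {b : Finset α | b ∈ B ∧ (b ∩ Y).card = 0}.ncard = 210 := by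
  classical
  have h5 := cnt_of_steiner hB
  have h4 := cnt_down B 8 4 1 5 hB.1 (by norm_num) h5 (by rw [hα])
  have h3 := cnt_down B 8 3 5 21 hB.1 (by norm_num) h4 (by rw [hα])
  have h2 := cnt_down B 8 2 21 77 hB.1 (by norm_num) h3 (by rw [hα])
  have h1 := cnt_down B 8 1 77 253 hB.1 (by norm_num) h2 (by rw [hα])
  have h0 := cnt_down B 8 0 253 759 hB.1 (by norm_num) h1 (by rw [hα])
  obtain ⟨y1, y2, y3, h12, h13, h23, rfl⟩ := Finset.card_eq_three.mp hY
  simp only [ncard_eq]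
  set B' := Finset.univ.filter (· ∈ B) with hB'
  have hcnt : ∀ s : Finset α, cnt B s = ∑ b ∈ B', if s ⊆ b then 1 else 0 := by
    intro s
    rw [cnt, Finset.card_filter]
    congr!
  have e0 := h0 ∅ rfl
  have e1 := h1 {y1} (by simp)
  have e2 := h1 {y2} (by simp)
  have e3 := h1 {y3} (by simp)
  have e12 := h2 {y1, y2} (by simp [h12])
  have e13 := h2 {y1, y3} (by simp [h13])
  have e23 := h2 {y2, y3} (by simp [h23])
  have e123 := h3 {y1, y2, y3} hY
  rw [hcnt] at e0 e1 e2 e3 e12 e13 e23 e123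
  -- membership pattern of a block
  have hpat : ∀ b : Finset α, (b ∩ {y1, y2, y3}).card =
      (if y1 ∈ b then 1 else 0) + (if y2 ∈ b then 1 else 0) + (if y3 ∈ b then 1 else 0) := by
    intro b
    by_cases c1 : y1 ∈ b <;> by_cases c2 : y2 ∈ b <;> by_cases c3 : y3 ∈ b <;>
      simp [Finset.inter_insert_of_mem, Finset.inter_insert_of_notMem, Finset.inter_singleton_of_mem,
        Finset.inter_singleton_of_notMem, c1, c2, c3, h12, h13, h23]
  have hsub1 : ∀ (y : α) (b : Finset α), ({y} ⊆ b) = (y ∈ b) := by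
    intro y b; simp
  have hsub2 : ∀ (y y' : α) (b : Finset α), ({y, y'} ⊆ b) = (y ∈ b ∧ y' ∈ b) := by
    intro y y' b; simp [Finset.insert_subset_iff]
  have hsub3 : ∀ (y y' y'' : α) (b : Finset α), ({y, y', y''} ⊆ b) = (y ∈ b ∧ y' ∈ b ∧ y'' ∈ b) := by
    intro y y' y'' b; simp [Finset.insert_subset_iff]
  set f3 : Finset α → ℕ := fun b => if (b ∩ {y1, y2, y3}).card = 3 then 1 else 0 with hf3
  set f2 : Finset α → ℕ := fun b => if (b ∩ {y1, y2, y3}).card = 2 then 1 else 0 with hf2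
  set f1 : Finset α → ℕ := fun b => if (b ∩ {y1, y2, y3}).card = 1 then 1 else 0 with hf1
  set f0 : Finset α → ℕ := fun b => if (b ∩ {y1, y2, y3}).card = 0 then 1 else 0 with hf0
  have i3 : ∑ b ∈ B', f3 b = 21 := by
    rw [← e123]
    refine Finset.sum_congr rfl (fun b _ => ?_)
    simp only [hf3, hpat, hsub3]
    by_cases c1 : y1 ∈ b <;> by_cases c2 : y2 ∈ b <;> by_cases c3 : y3 ∈ b <;> simp [c1, c2, c3]
  have i2 : ∑ b ∈ B', f2 b + 3 * ∑ b ∈ B', f3 b = 77 + 77 + 77 := by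
    nth_rewrite 1 [← e12]
    nth_rewrite 1 [← e13]
    rw [← e23, Finset.mul_sum, ← Finset.sum_add_distrib, ← Finset.sum_add_distrib, ← Finset.sum_add_distrib]
    refine Finset.sum_congr rfl (fun b _ => ?_)
    simp only [hf3, hf2, hpat, hsub2]
    by_cases c1 : y1 ∈ b <;> by_cases c2 : y2 ∈ b <;> by_cases c3 : y3 ∈ b <;> simp [c1, c2, c3]
  have i1 : ∑ b ∈ B', f1 b + 2 * ∑ b ∈ B', f2 b + 3 * ∑ b ∈ B', f3 b = 253 + 253 + 253 := by
    nth_rewrite 1 [← e1]
    nth_rewrite 1 [← e2]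
    rw [← e3, Finset.mul_sum, Finset.mul_sum, ← Finset.sum_add_distrib, ← Finset.sum_add_distrib, ← Finset.sum_add_distrib, ← Finset.sum_add_distrib]
    refine Finset.sum_congr rfl (fun b _ => ?_)
    simp only [hf3, hf2, hf1, hpat, hsub1]
    by_cases c1 : y1 ∈ b <;> by_cases c2 : y2 ∈ b <;> by_cases c3 : y3 ∈ b <;> simp [c1, c2, c3]
  have i0 : ∑ b ∈ B', f0 b + ∑ b ∈ B', f1 b + ∑ b ∈ B', f2 b + ∑ b ∈ B', f3 b = 759 := by
    rw [← e0, ← Finset.sum_add_distrib, ← Finset.sum_add_distrib, ← Finset.sum_add_distrib]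
    refine Finset.sum_congr rfl (fun b _ => ?_)
    simp only [hf3, hf2, hf1, hf0, hpat]
    by_cases c1 : y1 ∈ b <;> by_cases c2 : y2 ∈ b <;> by_cases c3 : y3 ∈ b <;> simp [c1, c2, c3]
  refine ⟨i3, ?_, ?_, ?_⟩
  · change ∑ b ∈ B', f2 b = 168
    omega
  · change ∑ b ∈ B', f1 b = 360
    omega
  · change ∑ b ∈ B', f0 b = 210
    omega

end Cfsg.Agent.Lib.SteinerCount
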