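import Mathlib
import Cfsg.Agent.Lib.SteinerCount

/-!
# Leech triangle of a Steiner system `S(5, 6, 12)`
-/

set_option autoImplicit false
set_option linter.all false

namespace Cfsg.Agent.Lib.LeechTwelve

open Cfsg Cfsg.Agent.Lib.SteinerCount

variable {α : Type*} [Fintype α] [DecidableEq α]

/-- Subsets of `b` containing `s`, of size `j`, counted. -/
theorem card_between (s b : Finset α) (hsb : s ⊆ b) (j : ℕ) (hj : s.card ≤ j) :
    (b.powerset.filter fun t => s ⊆ t ∧ t.card = j).card = (b.card - s.card).choose (j - s.card) := by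
  have h1 : (b.card - s.card).choose (j - s.card) = ((b \ s).powersetCard (j - s.card)).card := by
    rw [Finset.card_powersetCard, Finset.card_sdiff_of_subset hsb]
  rw [h1]
  symm
  refine Finset.card_bij (fun u _ => s ∪ u) ?_ ?_ ?_
  · intro u hu
    rw [Finset.mem_powersetCard] at hu
    have hdis : Disjoint s u := Finset.disjoint_of_subset_right hu.1 Finset.disjoint_sdiff
    simp only [Finset.mem_filter, Finset.mem_powerset]
    refine ⟨Finset.union_subset hsb (hu.1.trans Finset.sdiff_subset), Finset.subset_union_left, ?_⟩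
    rw [Finset.card_union_of_disjoint hdis, hu.2]
    omega
  · intro u hu v hv h
    rw [Finset.mem_powersetCard] at hu hv
    have hdu : Disjoint s u := Finset.disjoint_of_subset_right hu.1 Finset.disjoint_sdiff
    have hdv : Disjoint s v := Finset.disjoint_of_subset_right hv.1 Finset.disjoint_sdiff
    have e1 : (s ∪ u) \ s = u := by
      rw [Finset.union_sdiff_left]
      exact Finset.sdiff_eq_self_of_disjoint hdu.symm
    have e2 : (s ∪ v) \ s = v := by
      rw [Finset.union_sdiff_left]
      exact Finset.sdiff_eq_self_of_disjoint hdv.symm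
    rw [← e1, ← e2, h]
  · intro t ht
    simp only [Finset.mem_filter, Finset.mem_powerset] at ht
    refine ⟨t \ s, ?_, ?_⟩
    · rw [Finset.mem_powersetCard]
      refine ⟨Finset.sdiff_subset_sdiff ht.1 le_rfl, ?_⟩
      rw [Finset.card_sdiff_of_subset ht.2.1, ht.2.2]
    · exact Finset.union_sdiff_of_subset ht.2.1

/-- Grouping a sum over the interval `[s, b]` by size. -/
theorem sum_between (N : Finset α → ℕ) (n : ℕ → ℕ) (s b : Finset α) (hsb : s ⊆ b)
    (hN : ∀ t, t ⊆ b → s ⊂ t → N t = n t.card) :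
    ∑ t ∈ b.powerset.filter (fun t => s ⊆ t), N t =
      N s + ∑ j ∈ Finset.Ioc s.card b.card, (b.card - s.card).choose (j - s.card) * n j := by
  have h1 : b.powerset.filter (fun t => s ⊆ t) = insert s (b.powerset.filter fun t => s ⊂ t) := by
    ext t
    simp only [Finset.mem_filter, Finset.mem_powerset, Finset.mem_insert]
    constructor
    · rintro ⟨h1, h2⟩
      rcases eq_or_ssubset_of_subset h2 with rfl | h3
      · exact Or.inl rfl
      · exact Or.inr ⟨h1, h3⟩
    · rintro (rfl | ⟨h1, h2⟩)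
      · exact ⟨hsb, subset_rfl⟩
      · exact ⟨h1, h2.subset⟩
  rw [h1, Finset.sum_insert (by simp)]
  congr 1
  have h2 : ∀ t ∈ b.powerset.filter (fun t => s ⊂ t), t.card ∈ Finset.Ioc s.card b.card := by
    intro t ht
    simp only [Finset.mem_filter, Finset.mem_powerset] at ht
    rw [Finset.mem_Ioc]
    exact ⟨Finset.card_lt_card ht.2, Finset.card_le_card ht.1⟩
  rw [← Finset.sum_fiberwise_of_maps_to h2]
  refine Finset.sum_congr rfl fun j hj => ?_
  rw [Finset.mem_Ioc] at hj
  have h3 : ((b.powerset.filter (fun t => s ⊂ t)).filter fun t => t.card = j) =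
      b.powerset.filter fun t => s ⊆ t ∧ t.card = j := by
    ext t
    simp only [Finset.mem_filter, Finset.mem_powerset]
    constructor
    · rintro ⟨⟨h1, h2⟩, h3⟩
      exact ⟨h1, h2.subset, h3⟩
    · rintro ⟨h1, h2, h3⟩
      refine ⟨⟨h1, ?_⟩, h3⟩
      refine Finset.ssubset_iff_subset_ne.2 ⟨h2, ?_⟩
      rintro rfl
      omega
  rw [h3, ← card_between s b hsb j hj.1.le]
  rw [Finset.sum_congr rfl (g := fun _ => n j), Finset.sum_const, smul_eq_mul]
  intro t ht
  simp only [Finset.mem_filter, Finset.mem_powerset] at ht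
  rw [hN t ht.1 (Finset.ssubset_iff_subset_ne.2 ⟨ht.2.1, ?_⟩), ht.2.2]
  rintro rfl
  omega

open Classical in
/-- The number of blocks meeting `b` exactly in `s`. -/
noncomputable def meetN (B : Set (Finset α)) (b s : Finset α) : ℕ :=
  {c : Finset α | c ∈ B ∧ b ∩ c = s}.ncard

open Classical in
theorem cnt_eq_sum (B : Set (Finset α)) (b s : Finset α) (hsb : s ⊆ b) :
    cnt B s = ∑ t ∈ b.powerset.filter (fun t => s ⊆ t), meetN B b t := by
  have h2 : ∀ c ∈ (Finset.univ.filter (· ∈ B)).filter (s ⊆ ·), b ∩ c ∈ b.powerset.filter (fun t => s ⊆ t) := by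
    intro c hc
    simp only [Finset.mem_filter, Finset.mem_univ, true_and] at hc
    simp only [Finset.mem_filter, Finset.mem_powerset]
    exact ⟨Finset.inter_subset_left, Finset.subset_inter hsb hc.2⟩
  have h3 : cnt B s = ((Finset.univ.filter (· ∈ B)).filter (s ⊆ ·)).card := by
    unfold cnt
    congr!
  rw [h3, Finset.card_eq_sum_card_fiberwise h2]
  refine Finset.sum_congr rfl fun t ht => ?_
  simp only [Finset.mem_filter, Finset.mem_powerset] at ht
  rw [meetN, ← Set.ncard_coe_finset]
  congr 1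
  ext c
  simp only [Finset.coe_filter, Finset.mem_filter, Finset.mem_univ, true_and, Set.mem_setOf_eq]
  constructor
  · rintro ⟨⟨h1, h2⟩, h3⟩
    exact ⟨h1, h3⟩
  · rintro ⟨h1, h3⟩
    refine ⟨⟨h1, ?_⟩, h3⟩
    rw [← h3] at ht
    exact ht.2.trans Finset.inter_subset_right

/-- The rows of the triangle. -/
def row : ℕ → ℕ
  | 6 => 1
  | 5 => 0
  | 4 => 3
  | 3 => 2
  | 2 => 3
  | 1 => 0
  | _ => 0

theorem main (hα : Fintype.card α = 12) {B : Set (Finset α)} (hB : IsSteinerSystem 5 6 B) (b : Finset α)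
    (hb : b ∈ B) : ∀ i, 1 ≤ i → ∀ s, s ⊆ b → s.card = i → meetN B b s = row i := by
  classical
  have h5 := cnt_of_steiner hB
  have h4 := cnt_down B 6 4 1 4 hB.1 (by norm_num) h5 (by rw [hα])
  have h3 := cnt_down B 6 3 4 12 hB.1 (by norm_num) h4 (by rw [hα])
  have h2 := cnt_down B 6 2 12 30 hB.1 (by norm_num) h3 (by rw [hα])
  have h1 := cnt_down B 6 1 30 66 hB.1 (by norm_num) h2 (by rw [hα])
  have hb6 := hB.1 b hb
  have P6 : ∀ s, s ⊆ b → s.card = 6 → meetN B b s = 1 := by
    intro s hs hc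
    have hsb : s = b := Finset.eq_of_subset_of_card_le hs (by omega)
    subst hsb
    rw [meetN, Set.ncard_eq_one]
    refine ⟨s, ?_⟩
    ext c
    simp only [Set.mem_setOf_eq, Set.mem_singleton_iff]
    constructor
    · rintro ⟨hc1, hc2⟩
      have : s ⊆ c := Finset.inter_eq_left.1 hc2
      exact (Finset.eq_of_subset_of_card_le this (by rw [hB.1 c hc1, hc])).symm
    · rintro rfl
      exact ⟨hb, Finset.inter_self _⟩
  have P5 : ∀ s, s ⊆ b → s.card = 5 → meetN B b s = 0 := by
    intro s hs hc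
    rw [meetN, Set.ncard_eq_zero (Set.toFinite _)]
    ext c
    simp only [Set.mem_setOf_eq, Set.mem_empty_iff_false, iff_false, not_and]
    intro hc1 hc2
    have h6 : s ⊆ c := hc2 ▸ Finset.inter_subset_right
    have := (hB.2 s hc).unique ⟨hc1, h6⟩ ⟨hb, hs⟩
    subst this
    rw [Finset.inter_self] at hc2
    rw [hc2] at hb6
    omega
  have step : ∀ (i m : ℕ) (s : Finset α), s ⊆ b → s.card = i → cnt B s = m →
      (∀ t, t ⊆ b → s ⊂ t → meetN B b t = row t.card) →
      m = meetN B b s + ∑ j ∈ Finset.Ioc i 6, (6 - i).choose (j - i) * row j := by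
    intro i m s hs hc hm hN
    have := sum_between (meetN B b) row s b hs hN
    rw [← cnt_eq_sum B b s hs, hm, hc, hb6] at this
    exact this
  have P4 : ∀ s, s ⊆ b → s.card = 4 → meetN B b s = 3 := by
    intro s hs hc
    have := step 4 4 s hs hc (h4 s hc) (by
      intro t ht hst
      have h7 := Finset.card_lt_card hst
      have h8 := Finset.card_le_card ht
      have h9 : t.card = 5 ∨ t.card = 6 := by omega
      rcases h9 with h9 | h9
      · rw [h9, P5 t ht h9]; rfl
      · rw [h9, P6 t ht h9]; rfl)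
    have e : ∑ j ∈ Finset.Ioc 4 6, (6 - 4).choose (j - 4) * row j = 1 := by decide
    omega
  have P3 : ∀ s, s ⊆ b → s.card = 3 → meetN B b s = 2 := by
    intro s hs hc
    have := step 3 12 s hs hc (h3 s hc) (by
      intro t ht hst
      have h7 := Finset.card_lt_card hst
      have h8 := Finset.card_le_card ht
      have h9 : t.card = 4 ∨ t.card = 5 ∨ t.card = 6 := by omega
      rcases h9 with h9 | h9 | h9
      · rw [h9, P4 t ht h9]; rfl
      · rw [h9, P5 t ht h9]; rfl
      · rw [h9, P6 t ht h9]; rfl)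
    have e : ∑ j ∈ Finset.Ioc 3 6, (6 - 3).choose (j - 3) * row j = 10 := by decide
    omega
  have P2 : ∀ s, s ⊆ b → s.card = 2 → meetN B b s = 3 := by
    intro s hs hc
    have := step 2 30 s hs hc (h2 s hc) (by
      intro t ht hst
      have h7 := Finset.card_lt_card hst
      have h8 := Finset.card_le_card ht
      have h9 : t.card = 3 ∨ t.card = 4 ∨ t.card = 5 ∨ t.card = 6 := by omega
      rcases h9 with h9 | h9 | h9 | h9
      · rw [h9, P3 t ht h9]; rfl
      · rw [h9, P4 t ht h9]; rfl
      · rw [h9, P5 t ht h9]; rfl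
      · rw [h9, P6 t ht h9]; rfl)
    have e : ∑ j ∈ Finset.Ioc 2 6, (6 - 2).choose (j - 2) * row j = 27 := by decide
    omega
  have P1 : ∀ s, s ⊆ b → s.card = 1 → meetN B b s = 0 := by
    intro s hs hc
    have := step 1 66 s hs hc (h1 s hc) (by
      intro t ht hst
      have h7 := Finset.card_lt_card hst
      have h8 := Finset.card_le_card ht
      have h9 : t.card = 2 ∨ t.card = 3 ∨ t.card = 4 ∨ t.card = 5 ∨ t.card = 6 := by omega
      rcases h9 with h9 | h9 | h9 | h9 | h9
      · rw [h9, P2 t ht h9]; rfl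
      · rw [h9, P3 t ht h9]; rfl
      · rw [h9, P4 t ht h9]; rfl
      · rw [h9, P5 t ht h9]; rfl
      · rw [h9, P6 t ht h9]; rfl)
    have e : ∑ j ∈ Finset.Ioc 1 6, (6 - 1).choose (j - 1) * row j = 66 := by decide
    omega
  intro i hi s hs hc
  have h8 := Finset.card_le_card hs
  have h9 : i = 1 ∨ i = 2 ∨ i = 3 ∨ i = 4 ∨ i = 5 ∨ i = 6 := by omega
  rcases h9 with rfl | rfl | rfl | rfl | rfl | rfl
  · exact P1 s hs hc
  · exact P2 s hs hc
  · exact P3 s hs hc
  · exact P4 s hs hc
  · exact P5 s hs hc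
  · exact P6 s hs hc

end Cfsg.Agent.Lib.LeechTwelve
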