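import Cfsg.Agent.Lib.Jordan
import Cfsg.Prelude.Def_Sporadic

/-!
# Sharply `4`-transitive groups of degree `11` and sharply `5`-transitive groups of degree `12`
are simple, by Sylow and Frattini.
-/

set_option autoImplicit false
set_option linter.unusedSectionVars false
set_option linter.style.haveILetI false

namespace Cfsg.Agent.Lib.M11Simple

open Cfsg.Agent.Lib.Jordan Subgroup

universe u v

variable {G : Type u} {α : Type v} [Group G] [MulAction G α]

/-- Multiple transitivity, in terms of tuples. -/
def MT (G : Type u) (α : Type v) [Group G] [MulAction G α] (k : ℕ) : Prop :=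
  ∀ x y : Fin k → α, Function.Injective x → Function.Injective y → ∃ g : G, ∀ i, g • x i = y i

theorem MT.pre [Finite α] {k : ℕ} (h : MT G α (k + 1)) (hc : k < Nat.card α) : MT G α k := by
  intro x y hx hy
  have hex : ∀ z : Fin k → α, ∃ a, a ∉ Set.range z := by
    intro z
    by_contra hcon
    push Not at hcon
    have h1 : Function.Surjective z := fun a => by simpa using hcon a
    have h2 := Nat.card_le_card_of_surjective z h1
    simp at h2
    omega
  obtain ⟨a, ha⟩ := hex x
  obtain ⟨b, hb⟩ := hex y
  obtain ⟨g, hg⟩ := h (Fin.cons a x) (Fin.cons b y)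
    (Fin.cons_injective_iff.mpr ⟨ha, hx⟩) (Fin.cons_injective_iff.mpr ⟨hb, hy⟩)
  refine ⟨g, fun i => ?_⟩
  simpa using hg i.succ

theorem Sharp.mt {k : ℕ} (h : Sharp G α k) : MT G α k := h.ex

theorem pair_inj {a b : α} (hab : a ≠ b) : Function.Injective ![a, b] := by
  intro i j hij
  fin_cases i <;> fin_cases j <;> first | rfl | exact absurd hij hab | exact absurd hij.symm hab

theorem exists_pair (h2 : MT G α 2) {a b c d : α} (hab : a ≠ b) (hcd : c ≠ d) :
    ∃ g : G, g • a = c ∧ g • b = d := by
  obtain ⟨g, hg⟩ := h2 ![a, b] ![c, d] (pair_inj hab) (pair_inj hcd)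
  exact ⟨g, by simpa using hg 0, by simpa using hg 1⟩

/-- A normal subgroup moving a point is transitive. -/
theorem trans_of_normal (h2 : MT G α 2) (N : Subgroup G) [hN : N.Normal] {n : G} (hn : n ∈ N) {x : α}
    (hx : n • x ≠ x) (y z : α) : ∃ m ∈ N, m • y = z := by
  by_cases hyz : y = z
  · exact ⟨1, N.one_mem, by simp [hyz]⟩
  obtain ⟨g, h0, h1⟩ := exists_pair h2 hx.symm hyz
  refine ⟨g * n * g⁻¹, hN.conj_mem n hn g, ?_⟩
  rw [← h0, ← h1]
  simp [mul_smul]

/-- Transitivity from `2`-transitivity. -/
theorem trans_top (h2 : MT G α 2) (y z : α) : ∃ m ∈ (⊤ : Subgroup G), m • y = z := by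
  by_cases hyz : y = z
  · exact ⟨1, trivial, by simp [hyz]⟩
  obtain ⟨g, hg, _⟩ := exists_pair h2 hyz (Ne.symm hyz)
  exact ⟨g, trivial, hg⟩

/-- Orbit-stabilizer for transitive subgroups. -/
theorem card_of_trans [Finite α] (N : Subgroup G) (ht : ∀ y z : α, ∃ m ∈ N, m • y = z) (x : α) :
    (N ⊓ MulAction.stabilizer G x).relIndex N = Nat.card α := by
  haveI : MulAction.IsPretransitive N α := ⟨fun y z => by
    obtain ⟨m, hm, h⟩ := ht y z
    exact ⟨⟨m, hm⟩, h⟩⟩
  have h := MulAction.index_stabilizer_of_transitive N x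
  rw [← h, Subgroup.relIndex]
  congr 1
  ext m
  simp only [Subgroup.mem_subgroupOf, Subgroup.mem_inf, MulAction.mem_stabilizer_iff]
  exact ⟨fun h => h.2, fun h => ⟨m.2, h⟩⟩

theorem card_dvd_of_trans [Finite α] (N : Subgroup G) (ht : ∀ y z : α, ∃ m ∈ N, m • y = z) (x : α) :
    Nat.card α ∣ Nat.card N := by
  rw [← card_of_trans N ht x]
  exact Subgroup.relIndex_dvd_card _ _

/-- The order of a sharply transitive group. -/
theorem card_eq_sharp [Fintype α] {k : ℕ} (h : Sharp G α k) (hk : k ≤ Fintype.card α) :
    Nat.card G = (Fintype.card α).descFactorial k := by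
  classical
  obtain ⟨x₀⟩ : Nonempty (Fin k ↪ α) := Function.Embedding.nonempty_of_card_le (by simpa using hk)
  let f : G → (Fin k ↪ α) := fun g => ⟨fun i => g • x₀ i, fun i j hij => x₀.injective (by
    simpa using hij)⟩
  have hf : Function.Bijective f := by
    constructor
    · intro g g' hgg
      have h1 : g⁻¹ * g' = 1 := h.triv x₀ x₀.injective _ (fun i => by
        have : g • x₀ i = g' • x₀ i := DFunLike.congr_fun hgg i
        rw [mul_smul, ← this, inv_smul_smul])
      exact (inv_mul_eq_one.mp h1)
    · intro y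
      obtain ⟨g, hg⟩ := h.ex x₀ y x₀.injective y.injective
      exact ⟨g, Function.Embedding.ext hg⟩
  rw [Nat.card_eq_of_bijective f hf, Nat.card_eq_fintype_card, Fintype.card_embedding_eq]
  simp

/-- An element fixing all points is trivial. -/
theorem eq_one_of_fix {k : ℕ} [Fintype α] (h : Sharp G α k) (hk : k ≤ Fintype.card α) (g : G)
    (hg : ∀ x : α, g • x = x) : g = 1 := by
  classical
  obtain ⟨x₀⟩ : Nonempty (Fin k ↪ α) := Function.Embedding.nonempty_of_card_le (by simpa using hk)
  exact h.triv x₀ x₀.injective g (fun i => hg _)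

/-- Sharply `4`-transitive groups of degree `11`. -/
theorem m11 [Fintype α] (hα : Fintype.card α = 11) (h : Sharp G α 4) :
    IsSimpleGroup G ∧ Nat.card G = 7920 := by
  classical
  have hcard : Nat.card G = 7920 := by
    rw [card_eq_sharp h (by omega), hα]
    decide
  haveI : Finite G := Nat.finite_of_card_ne_zero (by omega)
  have hα' : Nat.card α = 11 := by rw [Nat.card_eq_fintype_card, hα]
  have h3 : MT G α 3 := (Sharp.mt h).pre (by omega)
  have h2 : MT G α 2 := h3.pre (by omega)
  haveI : Fact (Nat.Prime 11) := ⟨by norm_num⟩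
  obtain ⟨x⟩ : Nonempty α := by
    rw [← Fintype.card_pos_iff]
    omega
  have hnontriv : Nontrivial G := by
    rw [← Finite.one_lt_card_iff_nontrivial]
    omega
  refine ⟨⟨fun N hN => ?_⟩, hcard⟩
  by_cases hbot : N = ⊥
  · exact Or.inl hbot
  right
  obtain ⟨n, hnN, hn1⟩ : ∃ n : G, n ∈ N ∧ n ≠ 1 := by
    obtain ⟨n, hn⟩ := Subgroup.ne_bot_iff_exists_ne_one.mp hbot
    exact ⟨n.1, n.2, fun h => hn (Subtype.ext h)⟩
  obtain ⟨x0, hx0⟩ : ∃ x0 : α, n • x0 ≠ x0 := by
    by_contra hcon
    push Not at hcon
    exact hn1 (eq_one_of_fix h (by omega) n hcon)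
  have htN := trans_of_normal h2 N hnN hx0
  have h11N : 11 ∣ Nat.card N := by
    rw [← hα']
    exact card_dvd_of_trans N htN x
  have hNdvd : Nat.card N ∣ 7920 := by
    rw [← hcard]
    exact Subgroup.card_subgroup_dvd_card N
  -- Sylow
  let P : Sylow 11 N := default
  have hPcard : Nat.card P = 11 := by
    obtain ⟨k, hk⟩ := P.isPGroup'.exists_card_eq
    have h1 : 11 ∣ Nat.card P := P.dvd_card_of_dvd_card h11N
    have h2' : Nat.card P ∣ 7920 := (Subgroup.card_subgroup_dvd_card (P : Subgroup N)).trans hNdvd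
    rw [hk] at h1 h2' ⊢
    rcases k with _ | _ | k
    · simp at h1
    · simp
    · exfalso
      have : 121 ∣ 7920 := (Dvd.intro_left (11 ^ k) (by ring)).trans h2'
      omega
  let Q : Subgroup G := (P : Subgroup N).map N.subtype
  have hQcard : Nat.card Q = 11 := by
    rw [← hPcard]
    exact Subgroup.card_map_of_injective N.subtype_injective
  have hQidx : Q.index = 720 := by
    have := Subgroup.card_mul_index Q
    rw [hQcard, hcard] at this
    omega
  let S : Sylow 11 G := (IsPGroup.of_card (p := 11) (n := 1) (by simpa using hQcard)).toSylow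
    (by rw [hQidx]; norm_num)
  have hSQ : (S : Subgroup G) = Q := by simp [S]
  -- the stabilizer of a point has order 720
  have hstabz : ∀ z : α, Nat.card (MulAction.stabilizer G z) = 720 := by
    intro z
    have h4 := card_of_trans (⊤ : Subgroup G) (trans_top h2) z
    rw [top_inf_eq, Subgroup.relIndex_top_right, hα'] at h4
    have h5 := Subgroup.card_mul_index (MulAction.stabilizer G z)
    rw [h4, hcard] at h5
    omega
  have hstab := hstabz x
  -- `Q` acts freely
  have hQfree : ∀ z : α, ∀ q ∈ Q, q • z = z → q = 1 := by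
    intro z q hq hqz
    have h6 : orderOf q ∣ 11 := by
      rw [← hQcard]
      exact Subgroup.orderOf_dvd_natCard Q hq
    have h7 : orderOf q ∣ 720 := by
      rw [← hstabz z]
      exact Subgroup.orderOf_dvd_natCard _ (MulAction.mem_stabilizer_iff.mpr hqz)
    have h8 : orderOf q ∣ Nat.gcd 11 720 := Nat.dvd_gcd h6 h7
    have h9 : Nat.gcd 11 720 = 1 := by norm_num
    rw [h9, Nat.dvd_one] at h8
    exact orderOf_eq_one_iff.mp h8
  -- `Q` is transitive
  have hQtrans : ∀ z w : α, ∃ q ∈ Q, q • z = w := by
    intro z w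
    let f : Q → α := fun q => (q : G) • z
    have hf : Function.Injective f := by
      intro a b hab
      have h1 : ((b : G)⁻¹ * a) • z = z := by
        rw [mul_smul]
        have : (a : G) • z = (b : G) • z := hab
        rw [this, inv_smul_smul]
      have h2 := hQfree z _ (Q.mul_mem (Q.inv_mem b.2) a.2) h1
      exact Subtype.ext (inv_mul_eq_one.mp h2).symm
    haveI : Fintype Q := Fintype.ofFinite Q
    have hb : Function.Bijective f := by
      rw [Fintype.bijective_iff_injective_and_card]
      refine ⟨hf, ?_⟩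
      rw [hα, ← Nat.card_eq_fintype_card, hQcard]
    obtain ⟨q, hq⟩ := hb.2 w
    exact ⟨q, q.2, hq⟩
  -- the normalizer
  let H : Subgroup G := normalizer (Q : Set G)
  have hHcard : Nat.card H = 55 := by
    have hker : Nat.card (Q.normalizerMonoidHom.ker) ≤ 11 := by
      let f : Q.normalizerMonoidHom.ker → α := fun k => ((k : H) : G) • x
      have hf : Function.Injective f := by
        intro a b hab
        have hab' : (((a : H) : G)) • x = ((b : H) : G) • x := hab
        have hmem : ∀ c : Q.normalizerMonoidHom.ker, ((c : H) : G) ∈ centralizer (Q : Set G) := by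
          intro c
          have h1 : (c : H) ∈ (centralizer (Q : Set G)).subgroupOf (normalizer (Q : Set G)) := by
            rw [← normalizerMonoidHom_ker]
            exact c.2
          exact Subgroup.mem_subgroupOf.mp h1
        have ha := hmem a
        have hb := hmem b
        have hc : ((b : H) : G)⁻¹ * ((a : H) : G) ∈ centralizer (Q : Set G) :=
          Subgroup.mul_mem _ (Subgroup.inv_mem _ hb) ha
        have hfix : ∀ y : α, (((b : H) : G)⁻¹ * ((a : H) : G)) • y = y := by
          intro y
          obtain ⟨q, hq, rfl⟩ := hQtrans x y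
          have hcomm : ((b : H) : G)⁻¹ * ((a : H) : G) * q = q * (((b : H) : G)⁻¹ * ((a : H) : G)) :=
            (Subgroup.mem_centralizer_iff.mp hc q hq).symm
          rw [← mul_smul, hcomm, mul_smul, mul_smul, hab', inv_smul_smul]
        have h1 := eq_one_of_fix h (by omega) _ hfix
        have h2 : ((a : H) : G) = ((b : H) : G) := (inv_mul_eq_one.mp h1).symm
        exact Subtype.ext (Subtype.ext h2)
      have := Nat.card_le_card_of_injective f hf
      rwa [hα'] at this
    haveI : IsCyclic Q := isCyclic_of_prime_card hQcard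
    have hrange : Nat.card (Q.normalizerMonoidHom.range) ∣ 10 := by
      have h1 := Subgroup.card_subgroup_dvd_card (Q.normalizerMonoidHom.range)
      rwa [IsCyclic.card_mulAut, hQcard, show Nat.totient 11 = 10 by decide] at h1
    have hmul := Subgroup.card_mul_index (Q.normalizerMonoidHom.ker)
    rw [Subgroup.index_ker] at hmul
    have h11H : 11 ∣ Nat.card H := by
      rw [← hQcard]
      have hle : Q ≤ H := Subgroup.le_normalizer
      exact Subgroup.card_dvd_of_le hle
    have hkerval : Nat.card (Q.normalizerMonoidHom.ker) = 11 := by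
      have h1 : 11 ∣ Nat.card (Q.normalizerMonoidHom.ker) * Nat.card (Q.normalizerMonoidHom.range) := by
        rw [hmul]
        exact h11H
      have hp : Nat.Prime 11 := by norm_num
      rcases (Nat.Prime.dvd_mul hp).mp h1 with h1 | h1
      · have hpos : 0 < Nat.card (Q.normalizerMonoidHom.ker) := Nat.card_pos
        exact le_antisymm hker (Nat.le_of_dvd hpos h1)
      · exfalso
        have := h1.trans hrange
        omega
    rw [hkerval] at hmul
    have hsyl := card_sylow_modEq_one 11 G
    rw [S.card_eq_index_normalizer] at hsyl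
    have hsyl' : H.index ≡ 1 [MOD 11] := hsyl
    have hH := Subgroup.card_mul_index H
    rw [hcard] at hH
    obtain ⟨d, hd⟩ := hrange
    have hd' : Nat.card (Q.normalizerMonoidHom.range) ∣ 10 := ⟨d, hd⟩
    have hle := Nat.le_of_dvd (by norm_num) hd'
    generalize Nat.card (Q.normalizerMonoidHom.range) = r at *
    have hHr : Nat.card H = 11 * r := hmul.symm
    rw [hHr] at hH ⊢
    generalize H.index = I at *
    have hmod : I % 11 = 1 := hsyl'
    interval_cases r <;> first | omega | skip
  -- Frattini
  have hF : H ⊔ N = ⊤ := Sylow.normalizer_sup_eq_top P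
  have hidx : N.index ∣ 55 := by
    rw [← hHcard, ← Subgroup.relIndex_top_right, ← hF, Subgroup.relIndex_sup_right]
    exact Subgroup.relIndex_dvd_card _ _
  have hNc := Subgroup.index_mul_card N
  rw [hcard] at hNc
  have hidx15 : N.index = 1 ∨ N.index = 5 := by
    obtain ⟨c, hc⟩ := h11N
    have hle := Nat.le_of_dvd (by norm_num) hidx
    generalize N.index = I at *
    rw [hc] at hNc
    have : I ∈ Nat.divisors 55 := by
      simp [hidx]
    have hdiv : Nat.divisors 55 = {1, 5, 11, 55} := by decide
    rw [hdiv] at this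
    simp only [Finset.mem_insert, Finset.mem_singleton] at this
    rcases this with rfl | rfl | rfl | rfl
    · exact Or.inl rfl
    · exact Or.inr rfl
    · omega
    · omega
  rcases hidx15 with h1 | h5
  · exact Subgroup.index_eq_one.mp h1
  exfalso
  -- index 5
  let T : Subgroup G := MulAction.stabilizer G x
  have hsup : N ⊔ T = ⊤ := by
    rw [eq_top_iff]
    intro g _
    obtain ⟨m, hm, hmg⟩ := htN x (g • x)
    have h1 : m⁻¹ * g ∈ T := by
      show m⁻¹ * g ∈ MulAction.stabilizer G x
      rw [MulAction.mem_stabilizer_iff, mul_smul, ← hmg, inv_smul_smul]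
    have := Subgroup.mul_mem_sup hm h1
    simpa using this
  have hrel : N.relIndex T = 5 := by
    rw [← h5, ← Subgroup.relIndex_top_right, ← hsup, Subgroup.relIndex_sup_left]
  let M : Subgroup T := N.subgroupOf T
  haveI hMn : M.Normal := inferInstance
  have hMidx : M.index = 5 := hrel
  have hMcard : Nat.card M = 144 := by
    have h1 := Subgroup.card_mul_index M
    rw [hMidx] at h1
    have h2 : Nat.card T = 720 := hstab
    rw [h2] at h1
    omega
  -- `M` moves a point
  have hst : Sharp T (SubMulAction.ofStabilizer G x) 3 := Sharp.stab h x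
  have hcardα' : Nat.card (SubMulAction.ofStabilizer G x) = 10 := by
    rw [SubMulAction.nat_card_ofStabilizer_eq, hα']
  have hm2 : MT T (SubMulAction.ofStabilizer G x) 2 := (Sharp.mt hst).pre (by omega)
  have hMne : ∃ m : T, m ∈ M ∧ m ≠ 1 := by
    by_contra hcon
    push Not at hcon
    have : Nat.card M = 1 := by
      rw [Nat.card_eq_one_iff_unique]
      refine ⟨⟨fun a b => Subtype.ext (by rw [hcon a.1 a.2, hcon b.1 b.2])⟩, ⟨1⟩⟩
    omega
  obtain ⟨m, hmM, hm1⟩ := hMne
  obtain ⟨y0, hy0⟩ : ∃ y0 : SubMulAction.ofStabilizer G x, m • y0 ≠ y0 := by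
    by_contra hcon
    push Not at hcon
    apply hm1
    apply Subtype.ext
    show (m : G) = 1
    refine eq_one_of_fix h (by omega) _ (fun y => ?_)
    by_cases hy : y = x
    · rw [hy]
      exact MulAction.mem_stabilizer_iff.mp m.2
    · have := hcon ⟨y, (SubMulAction.mem_ofStabilizer_iff G x).mpr hy⟩
      exact congrArg Subtype.val this
  have htM := trans_of_normal hm2 M hmM hy0
  haveI : Finite (SubMulAction.ofStabilizer G x) := inferInstance
  have h10 := card_dvd_of_trans M htM y0
  rw [hcardα', hMcard] at h10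
  omega

/-- Sharply `5`-transitive groups of degree `12`. -/
theorem m12 [Fintype α] (hα : Fintype.card α = 12) (h : Sharp G α 5) :
    IsSimpleGroup G ∧ Nat.card G = 95040 := by
  classical
  have hcard : Nat.card G = 95040 := by
    rw [card_eq_sharp h (by omega), hα]
    decide
  haveI : Finite G := Nat.finite_of_card_ne_zero (by omega)
  have hα' : Nat.card α = 12 := by rw [Nat.card_eq_fintype_card, hα]
  have h2 : MT G α 2 := (((Sharp.mt h).pre (by omega)).pre (by omega)).pre (by omega)
  obtain ⟨x⟩ : Nonempty α := by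
    rw [← Fintype.card_pos_iff]
    omega
  have hnontriv : Nontrivial G := by
    rw [← Finite.one_lt_card_iff_nontrivial]
    omega
  refine ⟨⟨fun N hN => ?_⟩, hcard⟩
  by_cases hbot : N = ⊥
  · exact Or.inl hbot
  right
  obtain ⟨n, hnN, hn1⟩ : ∃ n : G, n ∈ N ∧ n ≠ 1 := by
    obtain ⟨n, hn⟩ := Subgroup.ne_bot_iff_exists_ne_one.mp hbot
    exact ⟨n.1, n.2, fun h => hn (Subtype.ext h)⟩
  obtain ⟨x0, hx0⟩ : ∃ x0 : α, n • x0 ≠ x0 := by
    by_contra hcon
    push Not at hcon
    exact hn1 (eq_one_of_fix h (by omega) n hcon)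
  have htN := trans_of_normal h2 N hnN hx0
  have h12N : 12 ∣ Nat.card N := by
    rw [← hα']
    exact card_dvd_of_trans N htN x
  let T : Subgroup G := MulAction.stabilizer G x
  have hst : Sharp T (SubMulAction.ofStabilizer G x) 4 := Sharp.stab h x
  haveI : Fintype (SubMulAction.ofStabilizer G x) := Fintype.ofFinite _
  have hcardα' : Fintype.card (SubMulAction.ofStabilizer G x) = 11 := by
    rw [← Nat.card_eq_fintype_card, SubMulAction.nat_card_ofStabilizer_eq, hα']
  have hT := m11 hcardα' hst
  have hm2 : MT T (SubMulAction.ofStabilizer G x) 2 :=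
    ((Sharp.mt hst).pre (by rw [Nat.card_eq_fintype_card]; omega)).pre (by rw [Nat.card_eq_fintype_card]; omega)
  haveI := hT.1
  rcases hT.1.eq_bot_or_eq_top_of_normal (N.subgroupOf T) inferInstance with hb | ht
  · exfalso
    have hfix : ∀ m ∈ N, m • x = x → m = 1 := by
      intro m hm hmx
      have h1 : (⟨m, MulAction.mem_stabilizer_iff.mpr hmx⟩ : T) ∈ N.subgroupOf T :=
        Subgroup.mem_subgroupOf.mpr hm
      rw [hb, Subgroup.mem_bot] at h1
      exact congrArg Subtype.val h1
    haveI : Fact (Nat.Prime 2) := ⟨by norm_num⟩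
    haveI : Fact (Nat.Prime 3) := ⟨by norm_num⟩
    obtain ⟨a, ha⟩ := exists_prime_orderOf_dvd_card' (G := N) 2 (by omega)
    obtain ⟨b, hb3⟩ := exists_prime_orderOf_dvd_card' (G := N) 3 (by omega)
    have hax : (a : G) • x ≠ x := by
      intro h1
      have := hfix a a.2 h1
      have h3 : a = 1 := Subtype.ext this
      rw [h3, orderOf_one] at ha
      omega
    have hbx : (b : G) • x ≠ x := by
      intro h1
      have := hfix b b.2 h1
      have h3 : b = 1 := Subtype.ext this
      rw [h3, orderOf_one] at hb3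
      omega
    obtain ⟨g, _, hg⟩ := trans_top hm2 (⟨(a : G) • x, (SubMulAction.mem_ofStabilizer_iff G x).mpr hax⟩ :
      SubMulAction.ofStabilizer G x) ⟨(b : G) • x, (SubMulAction.mem_ofStabilizer_iff G x).mpr hbx⟩
    have hg' : (g : G) • ((a : G) • x) = (b : G) • x := congrArg Subtype.val hg
    have hgx : (g : G) • x = x := MulAction.mem_stabilizer_iff.mp g.2
    have hgx' : (g : G)⁻¹ • x = x := by
      rw [inv_smul_eq_iff]
      exact hgx.symm
    let c : G := (g : G) * a * (g : G)⁻¹
    have hcN : c ∈ N := hN.conj_mem _ a.2 _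
    have hcx : c • x = (b : G) • x := by
      show ((g : G) * a * (g : G)⁻¹) • x = _
      rw [mul_smul, mul_smul, hgx', hg']
    have hbc : (b : G)⁻¹ * c = 1 := by
      apply hfix _ (N.mul_mem (N.inv_mem b.2) hcN)
      rw [mul_smul, hcx, inv_smul_smul]
    have hbeq : c = (b : G) := (inv_mul_eq_one.mp hbc).symm
    have ha2 : (a : G) * a = 1 := by
      have := pow_orderOf_eq_one a
      rw [ha, pow_two] at this
      exact congrArg Subtype.val this
    have hc2 : c * c = 1 := by
      show (g : G) * a * (g : G)⁻¹ * ((g : G) * a * (g : G)⁻¹) = 1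
      calc (g : G) * a * (g : G)⁻¹ * ((g : G) * a * (g : G)⁻¹) = (g : G) * ((a : G) * a) * (g : G)⁻¹ := by group
        _ = 1 := by rw [ha2]; group
    rw [hbeq] at hc2
    have hb2 : b ^ 2 = 1 := by
      rw [pow_two]
      exact Subtype.ext hc2
    have := orderOf_dvd_of_pow_eq_one hb2
    rw [hb3] at this
    omega
  · have hle : T ≤ N := Subgroup.subgroupOf_eq_top.mp ht
    rw [eq_top_iff]
    intro g _
    obtain ⟨m, hm, hmg⟩ := htN x (g • x)
    have h1 : m⁻¹ * g ∈ T := by
      show m⁻¹ * g ∈ MulAction.stabilizer G x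
      rw [MulAction.mem_stabilizer_iff, mul_smul, ← hmg, inv_smul_smul]
    have := N.mul_mem hm (hle h1)
    simpa using this

end Cfsg.Agent.Lib.M11Simple
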