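import Mathlib

/-!
# An explicit construction of the Mathieu groups of degrees 11 and 12
-/

set_option autoImplicit false
set_option maxHeartbeats 1000000
set_option maxRecDepth 100000

open scoped Pointwise

namespace Cfsg.Agent.Lib.M12Gens

/-- The generators. -/
def gS : Equiv.Perm (Fin 12) := Equiv.swap (3 : Fin 12) 5 * Equiv.swap (3 : Fin 12) 4 * Equiv.swap (6 : Fin 12) 8 * Equiv.swap (6 : Fin 12) 7 * Equiv.swap (9 : Fin 12) 11 * Equiv.swap (9 : Fin 12) 10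
def gT : Equiv.Perm (Fin 12) := Equiv.swap (3 : Fin 12) 9 * Equiv.swap (3 : Fin 12) 6 * Equiv.swap (4 : Fin 12) 10 * Equiv.swap (4 : Fin 12) 7 * Equiv.swap (5 : Fin 12) 11 * Equiv.swap (5 : Fin 12) 8
def gU : Equiv.Perm (Fin 12) := Equiv.swap (4 : Fin 12) 9 * Equiv.swap (4 : Fin 12) 5 * Equiv.swap (4 : Fin 12) 6 * Equiv.swap (7 : Fin 12) 10 * Equiv.swap (7 : Fin 12) 11 * Equiv.swap (7 : Fin 12) 8
def gV : Equiv.Perm (Fin 12) := Equiv.swap (4 : Fin 12) 11 * Equiv.swap (4 : Fin 12) 5 * Equiv.swap (4 : Fin 12) 7 * Equiv.swap (6 : Fin 12) 8 * Equiv.swap (6 : Fin 12) 9 * Equiv.swap (6 : Fin 12) 10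
def gW : Equiv.Perm (Fin 12) := Equiv.swap (4 : Fin 12) 8 * Equiv.swap (4 : Fin 12) 5 * Equiv.swap (4 : Fin 12) 10 * Equiv.swap (6 : Fin 12) 7 * Equiv.swap (6 : Fin 12) 9 * Equiv.swap (6 : Fin 12) 11
def gX1 : Equiv.Perm (Fin 12) := Equiv.swap (0 : Fin 12) 3 * Equiv.swap (6 : Fin 12) 7 * Equiv.swap (8 : Fin 12) 10 * Equiv.swap (9 : Fin 12) 11
def gX2 : Equiv.Perm (Fin 12) := Equiv.swap (0 : Fin 12) 1 * Equiv.swap (6 : Fin 12) 9 * Equiv.swap (7 : Fin 12) 10 * Equiv.swap (8 : Fin 12) 11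
def gX3 : Equiv.Perm (Fin 12) := Equiv.swap (1 : Fin 12) 2 * Equiv.swap (6 : Fin 12) 11 * Equiv.swap (7 : Fin 12) 9 * Equiv.swap (8 : Fin 12) 10

/-- The group of degree 12. -/
def M12' : Subgroup (Equiv.Perm (Fin 12)) := Subgroup.closure {gS, gT, gU, gV, gW, gX1, gX2, gX3}

/-- The group of degree 11. -/
def M11' : Subgroup (Equiv.Perm (Fin 12)) := Subgroup.closure {gS, gT, gU, gV, gW, gX1, gX2}

/-- The hexads as masks. -/
def Hm : List ℕ := [63,219,237,246,350,363,373,413,430,435,455,504,591,627,636,670,679,697,725,746,791,813,826,857,870,907,948,972,978,993,1117,1127,1146,1175,1195,1212,1230,1265,1295,1334,1337,1363,1388,1434,1445,1481,1492,1506,1563,1582,1589,1622,1641,1677,1714,1731,1752,1764,1820,1827,1861,1866,1904,1926,1937,1960,2135,2158,2169,2191,2229,2234,2268,2275,2331,2343,2364,2381,2418,2454,2473,2506,2513,2532,2589,2603,2614,2650,2661,2707,2732,2758,2761,2800,2830,2865,2883,2900,2920,2949,2968,2978,3102,3117,3123,3147,3188,3225,3238,3269,3282,3304,3349,3370,3398,3416,3425,3459,3468,3504,3591,3640,3660,3665,3682,3722,3732,3745,3849,3858,3876,4032]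

def W0 : List (List ℕ) := [[],[7],[6,7],[5,6,7],[0,5,6,7],[1,5,6,7],[0,0,5,6,7],[0,1,5,6,7],[1,1,5,6,7],[3,1,5,6,7],[4,1,5,6,7],[0,0,1,5,6,7]]

def W1 : List (List ℕ) := [[],[5],[6],[0,5],[1,5],[0,0,5],[0,1,5],[1,1,5],[3,1,5],[4,1,5],[0,0,1,5]]

def W2 : List (List ℕ) := [[],[5,6,5],[0,5,6,5],[1,5,6,5],[6,1,5,6],[0,0,5,6,5],[0,1,5,6,5],[0,6,1,5,6],[3,6,1,5,6],[4,1,5,6,5]]

def W3 : List (List ℕ) := [[],[0],[1],[0,0],[0,1],[1,1],[3,1],[4,1],[0,0,1]]

def W4 : List (List ℕ) := [[],[2],[3],[4],[2,2],[2,3],[3,4],[4,2]]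


theorem app_inv (g : Equiv.Perm (Fin 12)) (x : Fin 12) : g (g⁻¹ x) = x := by simp

theorem inv_app (g : Equiv.Perm (Fin 12)) (x : Fin 12) : g⁻¹ (g x) = x := by simp

/-- The set with a given mask. -/
def mk (m : ℕ) : Finset (Fin 12) := Finset.univ.filter (fun i => m.testBit i.val = true)

/-- The mask of the image of a mask under a map. -/
def imgMask (f : Fin 12 → Fin 12) (m : ℕ) : ℕ :=
  (List.finRange 12).foldr (fun (i : Fin 12) acc => (if m.testBit i.val = true then 2 ^ (f i).val else 0) ||| acc) 0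

theorem fold_testBit (f : Fin 12 → Fin 12) (m : ℕ) (L : List (Fin 12)) (x : ℕ) :
    (L.foldr (fun (i : Fin 12) acc => (if m.testBit i.val = true then 2 ^ (f i).val else 0) ||| acc) 0).testBit x = true ↔
      ∃ i ∈ L, m.testBit i.val = true ∧ (f i).val = x := by
  induction L with
  | nil => simp
  | cons a L ih =>
    simp only [List.foldr_cons, Nat.testBit_or, Bool.or_eq_true, ih, List.mem_cons, exists_eq_or_imp]
    refine or_congr ?_ Iff.rfl
    split_ifs with h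
    · simp only [Nat.testBit_two_pow, decide_eq_true_eq, h, true_and]
    · simp [h]

theorem fold_lt (f : Fin 12 → Fin 12) (m : ℕ) (L : List (Fin 12)) :
    L.foldr (fun (i : Fin 12) acc => (if m.testBit i.val = true then 2 ^ (f i).val else 0) ||| acc) 0 < 2 ^ 12 := by
  induction L with
  | nil => simp
  | cons a L ih =>
    simp only [List.foldr_cons]
    refine Nat.or_lt_two_pow ?_ ih
    split_ifs
    · exact Nat.pow_lt_pow_right (by norm_num) (f a).isLt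
    · positivity

theorem imgMask_lt (f : Fin 12 → Fin 12) (m : ℕ) : imgMask f m < 2 ^ 12 := fold_lt _ _ _

theorem mk_imgMask (g : Equiv.Perm (Fin 12)) (m : ℕ) : mk (imgMask g m) = g • mk m := by
  ext x
  simp only [mk, Finset.mem_filter, Finset.mem_univ, true_and, imgMask, fold_testBit, List.mem_finRange]
  rw [Finset.mem_smul_finset]
  constructor
  · rintro ⟨i, h1, h2⟩
    exact ⟨i, by simpa [mk] using h1, Fin.ext h2⟩
  · rintro ⟨i, h1, rfl⟩
    exact ⟨i, by simpa [mk] using h1, rfl⟩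

theorem mk_inj {a b : ℕ} (ha : a < 2 ^ 12) (hb : b < 2 ^ 12) (h : mk a = mk b) : a = b := by
  apply Nat.eq_of_testBit_eq
  intro i
  by_cases hi : i < 12
  · have h1 : (⟨i, hi⟩ : Fin 12) ∈ mk a ↔ (⟨i, hi⟩ : Fin 12) ∈ mk b := by rw [h]
    simp only [mk, Finset.mem_filter, Finset.mem_univ, true_and] at h1
    cases ha' : a.testBit i <;> cases hb' : b.testBit i <;> simp_all
  · have h5 : ∀ c, c < 2 ^ 12 → c.testBit i = false := fun c hc =>
      Nat.testBit_lt_two_pow (lt_of_lt_of_le hc (Nat.pow_le_pow_right (by norm_num) (by omega)))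
    rw [h5 a ha, h5 b hb]

/-- Preservation test. -/
def presv (f : Fin 12 → Fin 12) : Bool := Hm.all (fun m => Hm.contains (imgMask f m))

theorem Hm_lt : Hm.all (fun m => decide (m < 2 ^ 12)) = true := by decide +kernel

theorem Hm_nodup_mk : (Hm.map mk).Nodup := by
  refine List.Nodup.map_on ?_ (by decide +kernel)
  intro a ha b hb h
  exact mk_inj (by simpa using List.all_eq_true.mp Hm_lt a ha) (by simpa using List.all_eq_true.mp Hm_lt b hb) h

/-- The hexads. -/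
def HH : Finset (Finset (Fin 12)) := (Hm.map mk).toFinset

theorem smul_HH_of_presv {g : Equiv.Perm (Fin 12)} (h : presv g = true) : g • HH = HH := by
  classical
  apply Finset.eq_of_subset_of_card_le
  · intro t ht
    obtain ⟨t0, ht0, rfl⟩ := Finset.mem_smul_finset.mp ht
    simp only [HH, List.mem_toFinset, List.mem_map] at ht0
    obtain ⟨m, hm, rfl⟩ := ht0
    have h1 := List.all_eq_true.mp h m hm
    simp only [HH, List.mem_toFinset, List.mem_map]
    exact ⟨imgMask g m, List.contains_iff_mem.mp h1, mk_imgMask g m⟩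
  · rw [Finset.card_smul_finset]

theorem presv_S : presv gS = true := by decide +kernel
theorem presv_T : presv gT = true := by decide +kernel
theorem presv_U : presv gU = true := by decide +kernel
theorem presv_V : presv gV = true := by decide +kernel
theorem presv_W : presv gW = true := by decide +kernel
theorem presv_X1 : presv gX1 = true := by decide +kernel
theorem presv_X2 : presv gX2 = true := by decide +kernel
theorem presv_X3 : presv gX3 = true := by decide +kernel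

theorem M12_le : M12' ≤ MulAction.stabilizer (Equiv.Perm (Fin 12)) HH := by
  rw [M12', Subgroup.closure_le]
  intro g hg
  simp only [Set.mem_insert_iff, Set.mem_singleton_iff] at hg
  rw [SetLike.mem_coe, MulAction.mem_stabilizer_iff]
  rcases hg with rfl | rfl | rfl | rfl | rfl | rfl | rfl | rfl
  · exact smul_HH_of_presv presv_S
  · exact smul_HH_of_presv presv_T
  · exact smul_HH_of_presv presv_U
  · exact smul_HH_of_presv presv_V
  · exact smul_HH_of_presv presv_W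
  · exact smul_HH_of_presv presv_X1
  · exact smul_HH_of_presv presv_X2
  · exact smul_HH_of_presv presv_X3

set_option synthInstance.maxSize 100000 in
set_option synthInstance.maxHeartbeats 0 in
theorem chk_rigid : ∀ x5 : Fin 12, 5 ≤ x5.val → ∀ x6 : Fin 12, 5 ≤ x6.val → x6 ≠ x5 →
    ∀ x7 : Fin 12, 5 ≤ x7.val → x7 ≠ x5 → x7 ≠ x6 →
    ∀ x8 : Fin 12, 5 ≤ x8.val → x8 ≠ x5 → x8 ≠ x6 → x8 ≠ x7 →
    ∀ x9 : Fin 12, 5 ≤ x9.val → x9 ≠ x5 → x9 ≠ x6 → x9 ≠ x7 → x9 ≠ x8 →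
    ∀ x10 : Fin 12, 5 ≤ x10.val → x10 ≠ x5 → x10 ≠ x6 → x10 ≠ x7 → x10 ≠ x8 → x10 ≠ x9 →
    ∀ x11 : Fin 12, 5 ≤ x11.val → x11 ≠ x5 → x11 ≠ x6 → x11 ≠ x7 → x11 ≠ x8 → x11 ≠ x9 → x11 ≠ x10 →
    presv ![0, 1, 2, 3, 4, x5, x6, x7, x8, x9, x10, x11] = true →
      (x5 = 5 ∧ x6 = 6 ∧ x7 = 7 ∧ x8 = 8 ∧ x9 = 9 ∧ x10 = 10 ∧ x11 = 11) := by
  decide +kernel

theorem rigid {g : Equiv.Perm (Fin 12)} (hg : g • HH = HH) (h0 : g 0 = 0) (h1 : g 1 = 1) (h2 : g 2 = 2) (h3 : g 3 = 3)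
    (h4 : g 4 = 4) : g = 1 := by
  classical
  have hge : ∀ i : Fin 12, 5 ≤ i.val → 5 ≤ (g i).val := by
    intro i hi
    by_contra hc
    have key : ∀ v : Fin 12, v.val < 5 → v = 0 ∨ v = 1 ∨ v = 2 ∨ v = 3 ∨ v = 4 := by decide
    have hcases := key (g i) (by omega)
    have hne : ∀ j : Fin 12, j.val < 5 → g i ≠ g j := by
      intro j hj he
      have := g.injective he
      subst this
      omega
    rcases hcases with h | h | h | h | h
    · exact hne 0 (by decide) (by rw [h, h0])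
    · exact hne 1 (by decide) (by rw [h, h1])
    · exact hne 2 (by decide) (by rw [h, h2])
    · exact hne 3 (by decide) (by rw [h, h3])
    · exact hne 4 (by decide) (by rw [h, h4])
  have hne : ∀ i j : Fin 12, i ≠ j → g i ≠ g j := fun i j hij he => hij (g.injective he)
  have hf : (⇑g : Fin 12 → Fin 12) = ![0, 1, 2, 3, 4, g 5, g 6, g 7, g 8, g 9, g 10, g 11] := by
    funext i
    fin_cases i
    · exact h0
    · exact h1
    · exact h2
    · exact h3
    · exact h4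
    all_goals rfl
  have hp : presv ![0, 1, 2, 3, 4, g 5, g 6, g 7, g 8, g 9, g 10, g 11] = true := by
    rw [← hf]
    apply List.all_eq_true.mpr
    intro m hm
    have h5 : g • mk m ∈ HH := by
      rw [← hg]
      apply Finset.smul_mem_smul_finset
      simp only [HH, List.mem_toFinset, List.mem_map]
      exact ⟨m, hm, rfl⟩
    simp only [HH, List.mem_toFinset, List.mem_map] at h5
    obtain ⟨m', hm', he⟩ := h5
    rw [← mk_imgMask] at he
    have h6 := mk_inj (by simpa using List.all_eq_true.mp Hm_lt m' hm') (imgMask_lt _ _) he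
    rw [← h6]
    exact List.contains_iff_mem.mpr hm'
  obtain ⟨e5, e6, e7, e8, e9, e10, e11⟩ := chk_rigid (g 5) (hge 5 (by decide)) (g 6) (hge 6 (by decide)) (hne _ _ (by decide))
    (g 7) (hge 7 (by decide)) (hne _ _ (by decide)) (hne _ _ (by decide))
    (g 8) (hge 8 (by decide)) (hne _ _ (by decide)) (hne _ _ (by decide)) (hne _ _ (by decide))
    (g 9) (hge 9 (by decide)) (hne _ _ (by decide)) (hne _ _ (by decide)) (hne _ _ (by decide)) (hne _ _ (by decide))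
    (g 10) (hge 10 (by decide)) (hne _ _ (by decide)) (hne _ _ (by decide)) (hne _ _ (by decide)) (hne _ _ (by decide)) (hne _ _ (by decide))
    (g 11) (hge 11 (by decide)) (hne _ _ (by decide)) (hne _ _ (by decide)) (hne _ _ (by decide)) (hne _ _ (by decide)) (hne _ _ (by decide)) (hne _ _ (by decide))
    hp
  ext i
  fin_cases i
  · simp [h0]
  · simp [h1]
  · simp [h2]
  · simp [h3]
  · simp [h4]
  · simp [e5]
  · simp [e6]
  · simp [e7]
  · simp [e8]
  · simp [e9]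
  · simp [e10]
  · simp [e11]

/-- The generators as a list. -/
def gens8 : List (Equiv.Perm (Fin 12)) := [gS, gT, gU, gV, gW, gX1, gX2, gX3]

/-- Evaluation of a word. -/
def evalW (w : List ℕ) : Equiv.Perm (Fin 12) := w.foldr (fun i acc => gens8.getD i 1 * acc) 1

theorem evalW_mem {K : Subgroup (Equiv.Perm (Fin 12))} {w : List ℕ} (h : ∀ i ∈ w, gens8.getD i 1 ∈ K) : evalW w ∈ K := by
  induction w with
  | nil => exact one_mem _
  | cons a w ih =>
    simp only [evalW, List.foldr_cons]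
    exact mul_mem (h a (by simp)) (ih (fun i hi => h i (by simp [hi])))

theorem gens_mem12 : ∀ i, gens8.getD i 1 ∈ M12' := by
  intro i
  by_cases hi : i < 8
  · have h : gens8.getD i 1 ∈ ({gS, gT, gU, gV, gW, gX1, gX2, gX3} : Set (Equiv.Perm (Fin 12))) := by
      interval_cases i <;> simp [gens8]
    exact Subgroup.subset_closure h
  · rw [List.getD_eq_default _ _ (by simpa [gens8] using hi)]
    exact one_mem _

theorem gens_mem11 : ∀ i, i < 7 → gens8.getD i 1 ∈ M11' := by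
  intro i hi
  have h : gens8.getD i 1 ∈ ({gS, gT, gU, gV, gW, gX1, gX2} : Set (Equiv.Perm (Fin 12))) := by
    interval_cases i <;> simp [gens8]
  exact Subgroup.subset_closure h

theorem W0_ok : ∀ p : Fin 12, ∃ w ∈ W0, evalW w 2 = p := by decide +kernel

theorem W1_ok : ∀ p : Fin 12, p ≠ 2 → ∃ w ∈ W1, w.all (· < 7) = true ∧ evalW w 2 = 2 ∧ evalW w 0 = p := by
  decide +kernel

theorem W2_ok : ∀ p : Fin 12, p ≠ 2 → p ≠ 0 → ∃ w ∈ W2, w.all (· < 7) = true ∧ evalW w 2 = 2 ∧ evalW w 0 = 0 ∧ evalW w 1 = p := by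
  decide +kernel

theorem W3_ok : ∀ p : Fin 12, p ≠ 2 → p ≠ 0 → p ≠ 1 → ∃ w ∈ W3, w.all (· < 7) = true ∧ evalW w 2 = 2 ∧ evalW w 0 = 0 ∧ evalW w 1 = 1 ∧ evalW w 3 = p := by
  decide +kernel

theorem W4_ok : ∀ p : Fin 12, p ≠ 2 → p ≠ 0 → p ≠ 1 → p ≠ 3 → ∃ w ∈ W4, w.all (· < 7) = true ∧ evalW w 2 = 2 ∧ evalW w 0 = 0 ∧ evalW w 1 = 1 ∧ evalW w 3 = 3 ∧ evalW w 4 = p := by
  decide +kernel

theorem mem11_of_all {w : List ℕ} (h : w.all (· < 7) = true) : evalW w ∈ M11' := by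
  apply evalW_mem
  intro i hi
  exact gens_mem11 i (by simpa using List.all_eq_true.mp h i hi)

theorem exists_M11 {y1 y2 y3 y4 : Fin 12} (h1 : y1 ≠ 2) (h2 : y2 ≠ 2) (h3 : y3 ≠ 2) (h4 : y4 ≠ 2) (h12 : y1 ≠ y2) (h13 : y1 ≠ y3)
    (h14 : y1 ≠ y4) (h23 : y2 ≠ y3) (h24 : y2 ≠ y4) (h34 : y3 ≠ y4) :
    ∃ r ∈ M11', r 2 = 2 ∧ r 0 = y1 ∧ r 1 = y2 ∧ r 3 = y3 ∧ r 4 = y4 := by
  obtain ⟨w1, -, ha1, hb1, hc1⟩ := W1_ok y1 h1
  set r1 := evalW w1 with hr1
  have hy2 : r1⁻¹ y2 ≠ 2 := by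
    intro h
    rw [Equiv.Perm.inv_eq_iff_eq, hb1] at h
    exact h2 h
  have hy2' : r1⁻¹ y2 ≠ 0 := by
    intro h
    rw [Equiv.Perm.inv_eq_iff_eq, hc1] at h
    exact h12 h.symm
  obtain ⟨w2, -, ha2, hb2, hc2, hd2⟩ := W2_ok _ hy2 hy2'
  set r2 := evalW w2 with hr2
  have e2 : ∀ x, (r1 * r2)⁻¹ x = r2⁻¹ (r1⁻¹ x) := fun x => by rw [mul_inv_rev]; rfl
  have hy3 : (r1 * r2)⁻¹ y3 ≠ 2 := by
    intro h
    rw [Equiv.Perm.inv_eq_iff_eq, Equiv.Perm.mul_apply, hb2, hb1] at h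
    exact h3 h
  have hy3' : (r1 * r2)⁻¹ y3 ≠ 0 := by
    intro h
    rw [Equiv.Perm.inv_eq_iff_eq, Equiv.Perm.mul_apply, hc2, hc1] at h
    exact h13 h.symm
  have hy3'' : (r1 * r2)⁻¹ y3 ≠ 1 := by
    intro h
    rw [Equiv.Perm.inv_eq_iff_eq, Equiv.Perm.mul_apply, hd2, app_inv] at h
    exact h23 h.symm
  obtain ⟨w3, -, ha3, hb3, hc3, hd3, he3⟩ := W3_ok _ hy3 hy3' hy3''
  set r3 := evalW w3 with hr3
  have hy4 : (r1 * r2 * r3)⁻¹ y4 ≠ 2 := by
    intro h
    rw [Equiv.Perm.inv_eq_iff_eq, Equiv.Perm.mul_apply, Equiv.Perm.mul_apply, hb3, hb2, hb1] at h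
    exact h4 h
  have hy4' : (r1 * r2 * r3)⁻¹ y4 ≠ 0 := by
    intro h
    rw [Equiv.Perm.inv_eq_iff_eq, Equiv.Perm.mul_apply, Equiv.Perm.mul_apply, hc3, hc2, hc1] at h
    exact h14 h.symm
  have hy4'' : (r1 * r2 * r3)⁻¹ y4 ≠ 1 := by
    intro h
    rw [Equiv.Perm.inv_eq_iff_eq, Equiv.Perm.mul_apply, Equiv.Perm.mul_apply, hd3, hd2, app_inv] at h
    exact h24 h.symm
  have hy4c : (r1 * r2 * r3)⁻¹ y4 ≠ 3 := by
    intro h
    rw [Equiv.Perm.inv_eq_iff_eq, Equiv.Perm.mul_apply, he3, app_inv] at h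
    exact h34 h.symm
  obtain ⟨w4, -, ha4, hb4, hc4, hd4, he4, hf4⟩ := W4_ok _ hy4 hy4' hy4'' hy4c
  set r4 := evalW w4 with hr4
  refine ⟨r1 * r2 * r3 * r4, mul_mem (mul_mem (mul_mem (mem11_of_all ha1) (mem11_of_all ha2)) (mem11_of_all ha3)) (mem11_of_all ha4),
    ?_, ?_, ?_, ?_, ?_⟩
  · simp only [Equiv.Perm.mul_apply, hb4, hb3, hb2, hb1]
  · simp only [Equiv.Perm.mul_apply, hc4, hc3, hc2, hc1]
  · simp only [Equiv.Perm.mul_apply, hd4, hd3, hd2, app_inv]
  · simp only [Equiv.Perm.mul_apply, he4, he3]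
    have : r2 (r3 3) = r2 ((r1 * r2)⁻¹ y3) := by rw [he3]
    rw [e2, app_inv, app_inv]
  · rw [Equiv.Perm.mul_apply, hf4, app_inv]

/-- The base as a map. -/
def bE : Fin 5 → Fin 12 := ![2, 0, 1, 3, 4]

theorem M11_le_M12 : M11' ≤ M12' := by
  rw [M11', Subgroup.closure_le]
  intro g hg
  apply Subgroup.subset_closure
  simp only [Set.mem_insert_iff, Set.mem_singleton_iff] at hg ⊢
  tauto

theorem exists_b (y : Fin 5 ↪ Fin 12) : ∃ g ∈ M12', ∀ i, g (bE i) = y i := by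
  obtain ⟨w0, hw0, he⟩ := W0_ok (y 0)
  set r0 := evalW w0 with hr0
  have hr0m : r0 ∈ M12' := evalW_mem (fun i _ => gens_mem12 i)
  have hne : ∀ i : Fin 5, i ≠ 0 → r0⁻¹ (y i) ≠ 2 := by
    intro i hi h
    rw [Equiv.Perm.inv_eq_iff_eq, he] at h
    exact hi (y.injective h)
  have hne2 : ∀ i j : Fin 5, i ≠ j → r0⁻¹ (y i) ≠ r0⁻¹ (y j) := by
    intro i j hij h
    exact hij (y.injective (r0⁻¹.injective h))
  obtain ⟨r, hr, h2, h0', h1', h3', h4'⟩ := exists_M11 (hne 1 (by decide)) (hne 2 (by decide)) (hne 3 (by decide)) (hne 4 (by decide))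
    (hne2 _ _ (by decide)) (hne2 _ _ (by decide)) (hne2 _ _ (by decide)) (hne2 _ _ (by decide)) (hne2 _ _ (by decide)) (hne2 _ _ (by decide))
  refine ⟨r0 * r, mul_mem hr0m (M11_le_M12 hr), ?_⟩
  intro i
  fin_cases i
  · show (r0 * r) 2 = y 0
    rw [Equiv.Perm.mul_apply, h2, he]
  · show (r0 * r) 0 = y 1
    rw [Equiv.Perm.mul_apply, h0', app_inv]
  · show (r0 * r) 1 = y 2
    rw [Equiv.Perm.mul_apply, h1', app_inv]
  · show (r0 * r) 3 = y 3
    rw [Equiv.Perm.mul_apply, h3', app_inv]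
  · show (r0 * r) 4 = y 4
    rw [Equiv.Perm.mul_apply, h4', app_inv]

theorem eq_one_of_base {g : Equiv.Perm (Fin 12)} (hg : g ∈ M12') (h : ∀ i, g (bE i) = bE i) : g = 1 := by
  have hs := M12_le hg
  rw [MulAction.mem_stabilizer_iff] at hs
  exact rigid hs (h 1) (h 2) (h 0) (h 3) (h 4)

theorem eq_of_base {g h : Equiv.Perm (Fin 12)} (hg : g ∈ M12') (hh : h ∈ M12') (he : ∀ i, g (bE i) = h (bE i)) : g = h := by
  have h1 := eq_one_of_base (mul_mem (inv_mem hh) hg) (fun i => by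
    rw [Equiv.Perm.mul_apply, he i, inv_app])
  exact (inv_mul_eq_one.mp h1).symm

end Cfsg.Agent.Lib.M12Gens
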