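import Mathlib
import Cfsg.Agent.Lib.M12Gens

/-!
# An explicit construction of the Mathieu groups of degrees 11 and 12, continued
-/

set_option autoImplicit false
set_option maxHeartbeats 1000000

namespace Cfsg.Agent.Lib.M12Main

open Cfsg.Agent.Lib.M12Gens

theorem pretrans : MulAction.IsMultiplyPretransitive M12' (Fin 12) 5 := by
  refine ⟨fun x y => ?_⟩
  obtain ⟨g, hg, hgi⟩ := exists_b x
  obtain ⟨h, hh, hhi⟩ := exists_b y
  refine ⟨⟨h * g⁻¹, mul_mem hh (inv_mem hg)⟩, ?_⟩
  ext i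
  show ((h * g⁻¹) (x i)).val = (y i).val
  rw [← hgi i, Equiv.Perm.mul_apply, inv_app, hhi]

theorem stab_bot (y : Fin 5 ↪ Fin 12) : MulAction.stabilizer M12' y = ⊥ := by
  rw [eq_bot_iff]
  intro g hg
  rw [Subgroup.mem_bot]
  have hy : ∀ i, (g : Equiv.Perm (Fin 12)) (y i) = y i := fun i => by
    have := congrArg (fun z : Fin 5 ↪ Fin 12 => z i) (MulAction.mem_stabilizer_iff.mp hg)
    exact this
  obtain ⟨r, hr, hri⟩ := exists_b y
  have h1 : r⁻¹ * (g : Equiv.Perm (Fin 12)) * r = 1 :=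
    eq_one_of_base (mul_mem (mul_mem (inv_mem hr) g.2) hr) (fun i => by
      rw [Equiv.Perm.mul_apply, Equiv.Perm.mul_apply, hri, hy, ← hri, inv_app])
  apply Subtype.ext
  show (g : Equiv.Perm (Fin 12)) = 1
  have h2 : (g : Equiv.Perm (Fin 12)) = r * (r⁻¹ * (g : Equiv.Perm (Fin 12)) * r) * r⁻¹ := by group
  rw [h2, h1]
  group

/-- The base as an embedding. -/
def bEmb : Fin 5 ↪ Fin 12 := ⟨bE, by decide⟩

theorem card12 : Nat.card M12' = 95040 := by
  have hb : Function.Bijective (fun g : M12' => g • bEmb) := by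
    constructor
    · intro g h he
      apply Subtype.ext
      apply eq_of_base g.2 h.2
      intro i
      exact congrArg (fun z : Fin 5 ↪ Fin 12 => z i) he
    · intro y
      obtain ⟨g, hg, hgi⟩ := exists_b y
      refine ⟨⟨g, hg⟩, ?_⟩
      ext i
      show (g (bE i)).val = (y i).val
      rw [hgi]
  rw [Nat.card_eq_of_bijective _ hb, Nat.card_eq_fintype_card, Fintype.card_embedding_eq]
  simp only [Fintype.card_fin]
  rfl

theorem M11_eq : M11' = M12' ⊓ MulAction.stabilizer (Equiv.Perm (Fin 12)) (2 : Fin 12) := by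
  apply le_antisymm
  · refine le_inf M11_le_M12 ?_
    rw [M11', Subgroup.closure_le]
    intro g hg
    simp only [Set.mem_insert_iff, Set.mem_singleton_iff] at hg
    rw [SetLike.mem_coe, MulAction.mem_stabilizer_iff]
    rcases hg with rfl | rfl | rfl | rfl | rfl | rfl | rfl <;> decide
  · rintro g ⟨hg, hs⟩
    have hs' : g ∈ MulAction.stabilizer (Equiv.Perm (Fin 12)) (2 : Fin 12) := hs
    rw [MulAction.mem_stabilizer_iff] at hs'
    have h2 : g 2 = 2 := hs'
    have hne : ∀ a b : Fin 12, a ≠ b → g a ≠ g b := fun a b hab he => hab (g.injective he)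
    have hne2 : ∀ a : Fin 12, a ≠ 2 → g a ≠ 2 := fun a ha he => hne a 2 ha (by rw [he, h2])
    obtain ⟨r, hr, h2', h0', h1', h3', h4'⟩ := exists_M11 (hne2 0 (by decide)) (hne2 1 (by decide)) (hne2 3 (by decide))
      (hne2 4 (by decide)) (hne _ _ (by decide)) (hne _ _ (by decide)) (hne _ _ (by decide)) (hne _ _ (by decide))
      (hne _ _ (by decide)) (hne _ _ (by decide))
    have he : g = r := eq_of_base hg (M11_le_M12 hr) (by
      intro i
      fin_cases i
      · exact h2.trans h2'.symm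
      · exact h0'.symm
      · exact h1'.symm
      · exact h3'.symm
      · exact h4'.symm)
    rw [he]
    exact hr

theorem card11 : Nat.card M11' = 7920 := by
  classical
  have horb : (MulAction.orbit M12' (2 : Fin 12)).ncard = 12 := by
    have h1 : MulAction.orbit M12' (2 : Fin 12) = Set.univ := by
      ext p
      simp only [Set.mem_univ, iff_true]
      obtain ⟨w, -, he⟩ := W0_ok p
      exact ⟨⟨evalW w, evalW_mem (fun i _ => gens_mem12 i)⟩, he⟩
    rw [h1, Set.ncard_univ, Nat.card_eq_fintype_card, Fintype.card_fin]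
  have hidx := MulAction.index_stabilizer M12' (2 : Fin 12)
  have hcard := Subgroup.card_mul_index (MulAction.stabilizer M12' (2 : Fin 12))
  rw [hidx, horb, card12] at hcard
  have hk : Nat.card (MulAction.stabilizer M12' (2 : Fin 12)) = 7920 := by omega
  rw [← hk]
  refine Nat.card_congr ⟨fun y => ⟨⟨y.1, M11_le_M12 y.2⟩, ?_⟩, fun x => ⟨x.1.1, ?_⟩, fun y => rfl, fun x => rfl⟩
  · have h3 : (y : Equiv.Perm (Fin 12)) ∈ M12' ⊓ MulAction.stabilizer (Equiv.Perm (Fin 12)) (2 : Fin 12) := by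
      rw [← M11_eq]
      exact y.2
    have h4 : (y : Equiv.Perm (Fin 12)) ∈ MulAction.stabilizer (Equiv.Perm (Fin 12)) (2 : Fin 12) := h3.2
    rw [MulAction.mem_stabilizer_iff] at h4
    rw [MulAction.mem_stabilizer_iff]
    exact h4
  · rw [M11_eq]
    refine ⟨x.1.2, ?_⟩
    have h4 := x.2
    rw [MulAction.mem_stabilizer_iff] at h4
    show x.1.1 ∈ MulAction.stabilizer (Equiv.Perm (Fin 12)) (2 : Fin 12)
    rw [MulAction.mem_stabilizer_iff]
    exact h4

theorem main3362 : MulAction.IsMultiplyPretransitive M12' (Fin 12) 5 ∧ (∀ y : Fin 5 ↪ Fin 12, MulAction.stabilizer M12' y = ⊥) ∧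
    Nat.card M12' = 95040 ∧ Nat.card M11' = 7920 ∧
    M11' = M12' ⊓ MulAction.stabilizer (Equiv.Perm (Fin 12)) (2 : Fin 12) :=
  ⟨pretrans, stab_bot, card12, card11, M11_eq⟩

end Cfsg.Agent.Lib.M12Main
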