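import Cfsg.Prelude.Def_AxialAlgebras
import Mathlib

set_option autoImplicit false

namespace Cfsg.Agent.Lib.MajoranaSmall

open Cfsg.Axial

variable {V : Type*} [AddCommGroup V] [Module ℝ V]

theorem mem_eigen_iff (mul : V →ₗ[ℝ] V →ₗ[ℝ] V) (a u : V) (c : ℝ) :
    u ∈ eigen mul a c ↔ mul a u = c • u := Module.End.mem_eigenspace_iff

/-- A vector in both the `1/4`-eigenspace and `V₁ + V₀` vanishes. -/
theorem eigen_quarter_inter (mul : V →ₗ[ℝ] V →ₗ[ℝ] V) (a w : V)
    (h1 : mul a w = (1 / 4 : ℝ) • w) (h2 : w ∈ eigenSum mul a ({1, 0} : Set ℝ)) : w = 0 := by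
  have hle : eigenSum mul a ({1, 0} : Set ℝ) ≤ eigen mul a 1 ⊔ eigen mul a 0 := by
    apply iSup₂_le
    intro c hc
    rcases hc with rfl | hc
    · exact le_sup_left
    · rw [Set.mem_singleton_iff] at hc
      subst hc
      exact le_sup_right
  obtain ⟨p, hp, q, hq, rfl⟩ := Submodule.mem_sup.mp (hle h2)
  have hp' : mul a p = p := by
    have := (mem_eigen_iff mul a p 1).mp hp
    simpa using this
  have hq' : mul a q = 0 := by
    have := (mem_eigen_iff mul a q 0).mp hq
    simpa using this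
  rw [map_add, hp', hq', add_zero] at h1
  have hq3 : q = (3 : ℝ) • p := by
    have : (4 : ℝ) • p = p + q := by
      conv_lhs => rw [h1]
      module
    have h3 : q = (4 : ℝ) • p - p := by
      rw [this]
      abel
    rw [h3]
    module
  have hp0 : p = 0 := by
    have h4 := hq'
    rw [hq3, map_smul, hp'] at h4
    have := (smul_eq_zero.mp h4).resolve_left (by norm_num)
    exact this
  rw [hq3, hp0]
  simp

/-- The vector core. -/
theorem vec_core (mul : V →ₗ[ℝ] V →ₗ[ℝ] V) (ax ay az axy axz at' axt : V)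
    (R1 : mul ax ay = (1 / 8 : ℝ) • (ax + ay - axy))
    (R2 : mul ax axy = (1 / 8 : ℝ) • (ax + axy - ay))
    (R3 : mul ax az = (1 / 8 : ℝ) • (ax + az - axz))
    (R4 : mul ax axz = (1 / 8 : ℝ) • (ax + axz - az))
    (R5 : mul ax at' = (1 / 8 : ℝ) • (ax + at' - axt))
    (R6 : mul ax axt = (1 / 8 : ℝ) • (ax + axt - at'))
    (R7 : mul ay az = (1 / 8 : ℝ) • (ay + az - at'))
    (R8 : mul ay axz = (1 / 8 : ℝ) • (ay + axz - axt))
    (R9 : mul axy az = (1 / 8 : ℝ) • (axy + az - axt))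
    (R10 : mul axy axz = (1 / 8 : ℝ) • (axy + axz - at'))
    (R11 : mul at' axt = (1 / 8 : ℝ) • (at' + axt - ax))
    (hidx : mul ax ax = ax) (hidt : mul at' at' = at') (hne : at' ≠ 0)
    (hfus : ∀ u v : V, mul ax u = (1 / 4 : ℝ) • u → mul ax v = (1 / 4 : ℝ) • v →
      mul u v ∈ eigenSum mul ax ({1, 0} : Set ℝ)) : False := by
  have hu : mul ax (ay - axy) = (1 / 4 : ℝ) • (ay - axy) := by
    rw [map_sub, R1, R2]
    module
  have hv : mul ax (az - axz) = (1 / 4 : ℝ) • (az - axz) := by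
    rw [map_sub, R3, R4]
    module
  have hw := hfus _ _ hu hv
  have hwval : mul (ay - axy) (az - axz) = (-(1 / 4 : ℝ)) • (at' - axt) := by
    simp only [map_sub, LinearMap.sub_apply, R7, R8, R9, R10]
    module
  have hs : mul ax (at' - axt) = (1 / 4 : ℝ) • (at' - axt) := by
    rw [map_sub, R5, R6]
    module
  have h0 : mul (ay - axy) (az - axz) = 0 := by
    apply eigen_quarter_inter mul ax _ _ hw
    rw [hwval, map_smul, hs]
    module
  rw [hwval] at h0
  have hst : at' - axt = 0 := (smul_eq_zero.mp h0).resolve_left (by norm_num)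
  have heq : axt = at' := (sub_eq_zero.mp hst).symm
  rw [heq, hidt] at R11
  -- at' = (1/8)(2 at' - ax), so ax = -6 at'
  have hax : ax = (-6 : ℝ) • at' := by
    have h8 : (8 : ℝ) • at' = (8 : ℝ) • ((1 / 8 : ℝ) • (at' + at' - ax)) := by
      conv_lhs => rw [R11]
    have h9 : (8 : ℝ) • ((1 / 8 : ℝ) • (at' + at' - ax)) = at' + at' - ax := by module
    rw [h9] at h8
    have h10 : ax = at' + at' - (8 : ℝ) • at' := by
      rw [h8]
      abel
    rw [h10]
    module
  rw [hax, map_smul, map_smul, LinearMap.smul_apply, hidt] at hidx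
  have h42 : (42 : ℝ) • at' = 0 := by
    have h11 : (42 : ℝ) • at' = (-6 : ℝ) • (-6 : ℝ) • at' - (-6 : ℝ) • at' + (0 : ℝ) • at' + (0 : ℝ) • at' := by module
    rw [h11, hidx]
    simp
  exact hne ((smul_eq_zero.mp h42).resolve_left (by norm_num))

/-- The group core. -/
theorem grp_core {G : Type*} [CommGroup G] (hG : ∀ g : G, g * g = 1)
    (mul : V →ₗ[ℝ] V →ₗ[ℝ] V) (A : G → V)
    (h2A : ∀ s t : G, s ≠ 1 → t ≠ 1 → s ≠ t → mul (A s) (A t) = (1 / 8 : ℝ) • (A s + A t - A (s * t)))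
    (hid : ∀ s : G, s ≠ 1 → mul (A s) (A s) = A s) (hne : ∀ s : G, s ≠ 1 → A s ≠ 0)
    (hfus : ∀ s : G, s ≠ 1 → ∀ u v : V, mul (A s) u = (1 / 4 : ℝ) • u → mul (A s) v = (1 / 4 : ℝ) • v →
      mul u v ∈ eigenSum mul (A s) ({1, 0} : Set ℝ))
    (x y z : G) (hx : x ≠ 1) (hy : y ≠ 1) (hyx : y ≠ x) (hz : z ≠ 1) (hzx : z ≠ x) (hzy : z ≠ y)
    (hzxy : z ≠ x * y) : False := by
  have hinv : ∀ a b : G, a * b = 1 → a = b := by
    intro a b h
    calc a = a * (b * b) := by rw [hG, mul_one]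
      _ = (a * b) * b := by rw [mul_assoc]
      _ = b := by rw [h, one_mul]
  have hcan : ∀ a b : G, a * (a * b) = b := by
    intro a b
    rw [← mul_assoc, hG, one_mul]
  have hxy1 : x * y ≠ 1 := fun h => hyx (hinv x y h).symm
  have hxz1 : x * z ≠ 1 := fun h => hzx (hinv x z h).symm
  have ht1 : y * z ≠ 1 := fun h => hzy (hinv y z h).symm
  have hxt1 : x * (y * z) ≠ 1 := by
    intro h
    have h1 := hinv _ _ h
    apply hzxy
    calc z = y * (y * z) := (hcan y z).symm
      _ = y * x := by rw [← h1]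
      _ = x * y := mul_comm _ _
  have hne1 : ∀ a b : G, b ≠ 1 → a ≠ a * b := by
    intro a b hb h
    apply hb
    have : a * 1 = a * b := by rw [mul_one]; exact h
    exact (mul_left_cancel this).symm
  have hxt : x ≠ y * z := by
    intro h
    apply hxt1
    rw [← h, hG]
  refine vec_core mul (A x) (A y) (A z) (A (x * y)) (A (x * z)) (A (y * z)) (A (x * (y * z)))
    (h2A x y hx hy hyx.symm) ?_ (h2A x z hx hz hzx.symm) ?_ (h2A x (y * z) hx ht1 hxt) ?_
    (h2A y z hy hz hzy.symm) ?_ ?_ ?_ ?_ (hid x hx) (hid _ ht1) (hne _ ht1) (hfus x hx)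
  · have := h2A x (x * y) hx hxy1 (hne1 x y hy)
    rwa [hcan] at this
  · have := h2A x (x * z) hx hxz1 (hne1 x z hz)
    rwa [hcan] at this
  · have := h2A x (x * (y * z)) hx hxt1 (hne1 x _ ht1)
    rwa [hcan] at this
  · have h1 : y ≠ x * z := by
      intro h
      apply hzxy
      calc z = x * (x * z) := (hcan x z).symm
        _ = x * y := by rw [← h]
    have := h2A y (x * z) hy hxz1 h1
    rwa [mul_left_comm] at this
  · have := h2A (x * y) z hxy1 hz hzxy.symm
    rwa [mul_assoc] at this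
  · have h1 : x * y ≠ x * z := fun h => hzy (mul_left_cancel h).symm
    have := h2A (x * y) (x * z) hxy1 hxz1 h1
    have e : x * y * (x * z) = y * z := by
      calc x * y * (x * z) = (x * x) * (y * z) := by ac_rfl
        _ = y * z := by rw [hG, one_mul]
    rwa [e] at this
  · have h1 : y * z ≠ x * (y * z) := by
      intro h
      apply hx
      have h2 : 1 * (y * z) = x * (y * z) := by rw [one_mul]; exact h
      exact (mul_right_cancel h2).symm
    have := h2A (y * z) (x * (y * z)) ht1 hxt1 h1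
    have e : y * z * (x * (y * z)) = x := by
      calc y * z * (x * (y * z)) = x * ((y * z) * (y * z)) := by ac_rfl
        _ = x := by rw [hG, mul_one]
    rwa [e] at this

/-- Main. -/
theorem main5543 (mul : V →ₗ[ℝ] V →ₗ[ℝ] V) (B : LinearMap.BilinForm ℝ V)
    (X : Subgroup (V ≃ₗ[ℝ] V)) (hX : ∀ x ∈ X, x * x = 1) (ax : (V ≃ₗ[ℝ] V) → V)
    (hax : ∀ x ∈ X, x ≠ 1 → IsMajoranaPair mul B x (ax x))
    (h2A : ∀ x ∈ X, ∀ y ∈ X, x ≠ 1 → y ≠ 1 → x ≠ y → mul (ax x) (ax y) = (1 / 8 : ℝ) • (ax x + ax y - ax (x * y))) :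
    Nat.card ↥X ≤ 4 := by
  classical
  by_contra hcon
  push Not at hcon
  haveI : Finite X := Nat.finite_of_card_ne_zero (by omega)
  -- a subset of size ≤ 4 misses something
  have hmiss : ∀ S : Finset (V ≃ₗ[ℝ] V), S.card ≤ 4 → ∃ z ∈ X, z ∉ S := by
    intro S hS
    by_contra hall
    push Not at hall
    have h1 : (X : Set (V ≃ₗ[ℝ] V)) ⊆ (S : Set (V ≃ₗ[ℝ] V)) := fun z hz => hall z hz
    have h2 := Set.ncard_le_ncard h1 (Finset.finite_toSet S)
    rw [Set.ncard_coe_finset, ← Nat.card_coe_set_eq] at h2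
    have h3 : Nat.card (X : Set (V ≃ₗ[ℝ] V)) = Nat.card X := rfl
    omega
  obtain ⟨x, hxX, hx⟩ := hmiss {1} (by simp)
  obtain ⟨y, hyX, hy⟩ := hmiss {1, x} (Finset.card_le_two.trans (by norm_num))
  obtain ⟨z, hzX, hz⟩ := hmiss {1, x, y, x * y} Finset.card_le_four
  simp only [Finset.mem_singleton, Finset.mem_insert, not_or] at hx hy hz
  letI cG : CommGroup X :=
    { (inferInstance : Group X) with
      mul_comm := by
        intro a b
        have hsq : ∀ g : X, g * g = 1 := fun g => Subtype.ext (hX g g.2)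
        have hab := hsq (a * b)
        calc a * b = a * (a * b * (a * b)) * b := by rw [hab, mul_one]
          _ = (a * a) * b * a * (b * b) := by group
          _ = b * a := by rw [hsq a, hsq b, one_mul, mul_one] }
  apply grp_core (G := X) (fun g => Subtype.ext (hX g g.2)) mul (fun g => ax g)
    (fun s t hs ht hst => h2A s s.2 t t.2 (fun h => hs (Subtype.ext h)) (fun h => ht (Subtype.ext h))
      (fun h => hst (Subtype.ext h)))
    (fun s hs => (hax s s.2 (fun h => hs (Subtype.ext h))).2.2.1.1.2.1)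
    (fun s hs => (hax s s.2 (fun h => hs (Subtype.ext h))).2.2.1.1.1)
    (fun s hs u v hu hv => ?_)
    ⟨x, hxX⟩ ⟨y, hyX⟩ ⟨z, hzX⟩ (fun h => hx (congrArg Subtype.val h))
    (fun h => hy.1 (congrArg Subtype.val h)) (fun h => hy.2 (congrArg Subtype.val h))
    (fun h => hz.1 (congrArg Subtype.val h)) (fun h => hz.2.1 (congrArg Subtype.val h))
    (fun h => hz.2.2.1 (congrArg Subtype.val h)) (fun h => hz.2.2.2 (congrArg Subtype.val h))
  have hP := (hax s s.2 (fun h => hs (Subtype.ext h))).2.2.1.1.2.2.2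
  have hq : (1 / 4 : ℝ) ∈ majoranaSpectrum := by
    simp [majoranaSpectrum]
  have hfusion := hP (1 / 4) hq (1 / 4) hq u ((mem_eigen_iff _ _ _ _).mpr hu) v ((mem_eigen_iff _ _ _ _).mpr hv)
  have hlaw : monsterLaw (1 / 4 : ℝ) (1 / 32) (1 / 4) (1 / 4) = ({1, 0} : Set ℝ) := by
    unfold monsterLaw
    rw [if_neg (by norm_num), if_neg (by norm_num), if_pos ⟨rfl, rfl⟩]
  rw [hlaw] at hfusion
  exact hfusion

end Cfsg.Agent.Lib.MajoranaSmall
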