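import Mathlib
import Cfsg.Agent.Lib.FitSolv
import Cfsg.Agent.Lib.PGroupBasic
import Cfsg.Agent.Lib.H5Basic
import Cfsg.Agent.Lib.SchurZ

/-! Minimal normal subgroups, maximal Hall subgroups, maximal subgroups with trivial core. -/

set_option autoImplicit false
set_option linter.unusedVariables false
set_option linter.style.haveILetI false
set_option linter.unusedSectionVars false

namespace Cfsg.Agent.Lib.MaxHall

open Cfsg Subgroup
open scoped Pointwise

universe u

/-- Existence of a minimal normal subgroup. -/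
theorem exists_min_normal {G : Type*} [Group G] [Finite G] [Nontrivial G] :
    ∃ N : Subgroup G, N.Normal ∧ N ≠ ⊥ ∧ ∀ M : Subgroup G, M.Normal → M ≤ N → M = ⊥ ∨ M = N := by
  classical
  let S : Set (Subgroup G) := {N | N.Normal ∧ N ≠ ⊥}
  have hS : S.Nonempty := ⟨⊤, inferInstance, top_ne_bot⟩
  obtain ⟨N, hN⟩ := Set.Finite.exists_minimal (Set.toFinite S) hS
  refine ⟨N, hN.1.1, hN.1.2, fun M hM hMN => ?_⟩
  by_cases hb : M = ⊥
  · exact Or.inl hb
  · exact Or.inr (le_antisymm hMN (hN.2 ⟨hM, hb⟩ hMN))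

/-- A normal `p`-subgroup of index prime to `p` is the unique Sylow subgroup. -/
theorem sylow_normal_of {G : Type*} [Group G] [Finite G] {p : ℕ} [Fact p.Prime] (Q : Subgroup G) [hQ : Q.Normal]
    (hp : IsPGroup p Q) (hi : ¬ p ∣ Q.index) (P : Sylow p G) : (P : Subgroup G).Normal := by
  let Q₀ : Sylow p G := hp.toSylow hi
  have hQ₀ : (Q₀ : Subgroup G) = Q := hp.toSylow_coe hi
  haveI : Unique (Sylow p G) := Sylow.unique_of_normal Q₀ (by rw [hQ₀]; exact hQ)
  rw [Subsingleton.elim P Q₀, hQ₀]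
  exact hQ

/-- If all maximal subgroups of a nontrivial solvable group are Hall subgroups, some Sylow subgroup is normal. -/
theorem aux553 : ∀ (n : ℕ) (G : Type u) [Group G] [Finite G] [Group.IsSolvable G] [Nontrivial G],
    Nat.card G ≤ n → (∀ M : Subgroup G, IsCoatom M → (Nat.card M).Coprime M.index) →
    ∃ p : ℕ, p.Prime ∧ p ∣ Nat.card G ∧ ∀ P : Sylow p G, (P : Subgroup G).Normal := by
  intro n
  induction n with
  | zero =>
    intro G _ _ _ _ hc
    exact absurd hc (by have := Nat.card_pos (α := G); omega)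
  | succ n ih =>
    intro G _ _ _ _ hc h
    classical
    obtain ⟨N, hNn, hNb, hNm⟩ := exists_min_normal (G := G)
    haveI := hNn
    obtain ⟨hNc, p, hp, hNe⟩ := Cfsg.Agent.Lib.FitSolv.minimal_normal_elementary N hNb hNm
    haveI : Fact p.Prime := ⟨hp⟩
    have hNp : IsPGroup p N := fun g => ⟨1, by rw [pow_one]; exact Subtype.ext (hNe g g.2)⟩
    have hpN : p ∣ Nat.card N := by
      obtain ⟨k, hk⟩ := IsPGroup.iff_card.1 hNp
      have h1 : Nat.card N ≠ 1 := fun h => hNb (Subgroup.card_eq_one.1 h)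
      rw [hk] at h1 ⊢
      have : k ≠ 0 := by rintro rfl; simp at h1
      exact dvd_pow_self p this
    have hpG : p ∣ Nat.card G := hpN.trans (Subgroup.card_subgroup_dvd_card N)
    by_cases hNtop : N = ⊤
    · refine ⟨p, hp, hpG, ?_⟩
      apply sylow_normal_of N hNp
      rw [hNtop, Subgroup.index_top]
      exact hp.not_dvd_one
    let π : G →* G ⧸ N := QuotientGroup.mk' N
    have hπ : Function.Surjective π := QuotientGroup.mk'_surjective N
    have hker : π.ker = N := QuotientGroup.ker_mk' N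
    haveI : Nontrivial (G ⧸ N) := by
      obtain ⟨g, hg⟩ : ∃ g, g ∉ N := by
        by_contra hall
        push_neg at hall
        exact hNtop (eq_top_iff.2 fun g _ => hall g)
      refine ⟨⟨π g, 1, fun he => hg ?_⟩⟩
      exact (QuotientGroup.eq_one_iff g).1 he
    have hcard : Nat.card (G ⧸ N) ≤ n := by
      have h1 := Subgroup.card_eq_card_quotient_mul_card_subgroup N
      have h2 : 2 ≤ Nat.card N := hp.two_le.trans (Nat.le_of_dvd Nat.card_pos hpN)
      have h3 : 0 < Nat.card (G ⧸ N) := Nat.card_pos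
      have h4 : Nat.card (G ⧸ N) * 2 ≤ Nat.card G := by rw [h1]; exact Nat.mul_le_mul_left _ h2
      omega
    have hq := ih (G ⧸ N) hcard ?_
    swap
    · intro Mb hMb
      have hM := Subgroup.isCoatom_comap_of_surjective hπ hMb
      have h1 := h _ hM
      have h2 : (Mb.comap π).index = Mb.index := Subgroup.index_comap_of_surjective Mb hπ
      rw [h2] at h1
      have h3 : Nat.card Mb ∣ Nat.card (Mb.comap π) := by
        have h4 : (Mb.comap π).map π = Mb := Subgroup.map_comap_eq_self_of_surjective hπ Mb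
        have h5 := Subgroup.card_dvd_of_surjective (π.subgroupMap (Mb.comap π)) (π.subgroupMap_surjective (Mb.comap π))
        rwa [h4] at h5
      exact Nat.Coprime.coprime_dvd_left h3 h1
    obtain ⟨q, hq, hqd, hqn⟩ := hq
    haveI : Fact q.Prime := ⟨hq⟩
    have hqG : q ∣ Nat.card G := by
      refine hqd.trans ?_
      exact Subgroup.card_quotient_dvd_card N
    obtain ⟨S⟩ : Nonempty (Sylow q G) := inferInstance
    have hSn : ((S : Subgroup G).map π).Normal := by
      have := hqn (S.mapSurjective hπ)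
      simpa using this
    let L : Subgroup G := ((S : Subgroup G).map π).comap π
    haveI hLn : L.Normal := hSn.comap π
    have hLeq : L = (S : Subgroup G) ⊔ N := by
      rw [← hker]; exact Subgroup.comap_map_eq _ _
    have hSL : (S : Subgroup G) ≤ L := by rw [hLeq]; exact le_sup_left
    have hfr := Sylow.normalizer_sup_eq_top' S hSL
    have hfr2 : Subgroup.normalizer ((S : Subgroup G) : Set G) ⊔ N = ⊤ := by
      rw [eq_top_iff, ← hfr, hLeq]
      refine sup_le le_sup_left (sup_le ?_ le_sup_right)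
      exact Subgroup.le_normalizer.trans le_sup_left
    by_cases hnt : Subgroup.normalizer ((S : Subgroup G) : Set G) = ⊤
    · refine ⟨q, hq, hqG, ?_⟩
      haveI : (S : Subgroup G).Normal := Subgroup.normalizer_eq_top_iff.1 hnt
      exact sylow_normal_of (S : Subgroup G) S.isPGroup' S.not_dvd_index
    obtain ⟨M, hM, hSM⟩ := (eq_top_or_exists_le_coatom (Subgroup.normalizer ((S : Subgroup G) : Set G))).resolve_left hnt
    have hNM : N ⊔ M = ⊤ := by
      rw [eq_top_iff, ← hfr2, sup_comm]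
      exact sup_le_sup_left hSM _
    have hNnM : ¬ N ≤ M := by
      intro hle
      rw [sup_eq_right.2 hle] at hNM
      exact hM.1 hNM
    have hinf : N ⊓ M = ⊥ := by
      have hn : (N ⊓ M).Normal := by
        refine ⟨fun x hx g => ?_⟩
        have hg : g ∈ (N : Set G) * M := by
          rw [← Subgroup.normal_mul, hNM]; trivial
        obtain ⟨a, ha, b, hb, rfl⟩ := hg
        refine ⟨hNn.conj_mem x hx.1 _, ?_⟩
        have e : a * b * x * (a * b)⁻¹ = a * (b * x * b⁻¹) * a⁻¹ := by group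
        have h1 : b * x * b⁻¹ ∈ N := hNn.conj_mem x hx.1 b
        have h2 : a * (b * x * b⁻¹) * a⁻¹ = b * x * b⁻¹ := by
          rw [hNc a ha _ h1]; group
        show a * b * x * (a * b)⁻¹ ∈ M
        rw [e, h2]
        exact M.mul_mem (M.mul_mem hb hx.2) (M.inv_mem hb)
      rcases hNm _ hn inf_le_left with h | h
      · exact h
      · exact absurd (inf_eq_left.1 h) hNnM
    have hcomp : Subgroup.IsComplement' N M := by
      apply Subgroup.isComplement'_of_disjoint_and_mul_eq_univ
      · exact disjoint_iff.2 hinf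
      · rw [← Subgroup.normal_mul, hNM]; rfl
    have hidx : M.index = Nat.card N := by
      have h1 := hcomp.card_mul_card
      have h2 := M.index_mul_card
      have h3 : 0 < Nat.card M := Nat.card_pos
      exact Nat.eq_of_mul_eq_mul_right h3 (h2.trans h1.symm)
    have hidx2 : N.index = Nat.card M := by
      have h1 := hcomp.card_mul_card
      have h2 := N.card_mul_index
      have h3 : 0 < Nat.card N := Nat.card_pos
      exact Nat.eq_of_mul_eq_mul_left h3 (h2.trans h1.symm)
    have hcop := h M hM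
    rw [hidx] at hcop
    refine ⟨p, hp, hpG, ?_⟩
    apply sylow_normal_of N hNp
    rw [hidx2]
    intro hd
    have := Nat.dvd_gcd hd hpN
    rw [hcop] at this
    exact hp.not_dvd_one this

/-- Two maximal subgroups with trivial core of a solvable group are conjugate. -/
theorem conj551 {G : Type u} [Group G] [Finite G] [Group.IsSolvable G] (U V : Subgroup G)
    (hU : IsCoatom U) (hV : IsCoatom V) (hUc : U.normalCore = ⊥) (hVc : V.normalCore = ⊥) :
    ∃ g : G, MulAut.conj g • U = V := by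
  classical
  haveI : Nontrivial G := by
    by_contra h
    rw [not_nontrivial_iff_subsingleton] at h
    exact hU.1 (Subsingleton.elim _ _)
  obtain ⟨N, hNn, hNb, hNm⟩ := exists_min_normal (G := G)
  haveI := hNn
  obtain ⟨hNc, p, hp, hNe⟩ := Cfsg.Agent.Lib.FitSolv.minimal_normal_elementary N hNb hNm
  haveI : Fact p.Prime := ⟨hp⟩
  have hNp : IsPGroup p N := fun g => ⟨1, by rw [pow_one]; exact Subtype.ext (hNe g g.2)⟩
  have hNC : N ≤ Subgroup.centralizer (N : Set G) := by
    intro x hx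
    rw [Subgroup.mem_centralizer_iff]
    intro y hy
    exact hNc y hy x hx
  have key : ∀ W : Subgroup G, IsCoatom W → W.normalCore = ⊥ →
      N ⊔ W = ⊤ ∧ N ⊓ W = ⊥ ∧ Subgroup.centralizer (N : Set G) = N := by
    intro W hW hWc
    have hnle : ¬ N ≤ W := fun h => hNb (le_bot_iff.1 (hWc ▸ Subgroup.normal_le_normalCore.2 h))
    have hsup : N ⊔ W = ⊤ := hW.2 _ (lt_of_le_of_ne le_sup_right (fun h => hnle (by rw [h]; exact le_sup_left)))
    have hdec : ∀ g : G, ∃ a ∈ N, ∃ b ∈ W, g = a * b := by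
      intro g
      have hg : g ∈ (N : Set G) * W := by
        rw [← Subgroup.normal_mul, hsup]; trivial
      obtain ⟨a, ha, b, hb, he⟩ := hg
      exact ⟨a, ha, b, hb, he.symm⟩
    have hinf : N ⊓ W = ⊥ := by
      have hn : (N ⊓ W).Normal := by
        refine ⟨fun x hx g => ?_⟩
        obtain ⟨a, ha, b, hb, rfl⟩ := hdec g
        refine ⟨hNn.conj_mem x hx.1 _, ?_⟩
        have e : a * b * x * (a * b)⁻¹ = a * (b * x * b⁻¹) * a⁻¹ := by group
        have h1 : b * x * b⁻¹ ∈ N := hNn.conj_mem x hx.1 b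
        have h2 : a * (b * x * b⁻¹) * a⁻¹ = b * x * b⁻¹ := by
          rw [hNc a ha _ h1]; group
        show a * b * x * (a * b)⁻¹ ∈ W
        rw [e, h2]
        exact W.mul_mem (W.mul_mem hb hx.2) (W.inv_mem hb)
      rcases hNm _ hn inf_le_left with h | h
      · exact h
      · exact absurd (inf_eq_left.1 h) hnle
    refine ⟨hsup, hinf, ?_⟩
    haveI hCn : (Subgroup.centralizer (N : Set G)).Normal := Subgroup.normal_centralizer
    have hCW : Subgroup.centralizer (N : Set G) ⊓ W = ⊥ := by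
      have hn : (Subgroup.centralizer (N : Set G) ⊓ W).Normal := by
        refine ⟨fun x hx g => ?_⟩
        obtain ⟨a, ha, b, hb, rfl⟩ := hdec g
        refine ⟨hCn.conj_mem x hx.1 _, ?_⟩
        have e : a * b * x * (a * b)⁻¹ = a * (b * x * b⁻¹) * a⁻¹ := by group
        have h1 : b * x * b⁻¹ ∈ Subgroup.centralizer (N : Set G) := hCn.conj_mem x hx.1 b
        have h2 : a * (b * x * b⁻¹) * a⁻¹ = b * x * b⁻¹ := by
          have := (Subgroup.mem_centralizer_iff.1 h1) a ha
          rw [this]; group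
        show a * b * x * (a * b)⁻¹ ∈ W
        rw [e, h2]
        exact W.mul_mem (W.mul_mem hb hx.2) (W.inv_mem hb)
      rw [eq_bot_iff, ← hWc]
      exact Subgroup.normal_le_normalCore.2 inf_le_right
    apply le_antisymm _ hNC
    intro x hx
    obtain ⟨a, ha, b, hb, rfl⟩ := hdec x
    have h1 : b ∈ Subgroup.centralizer (N : Set G) := by
      have := Subgroup.mul_mem _ (Subgroup.inv_mem _ (hNC ha)) hx
      simpa using this
    have h2 : b ∈ Subgroup.centralizer (N : Set G) ⊓ W := ⟨h1, hb⟩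
    rw [hCW, Subgroup.mem_bot] at h2
    rw [h2, mul_one]
    exact ha
  obtain ⟨hUsup, hUinf, hC⟩ := key U hU hUc
  obtain ⟨hVsup, hVinf, -⟩ := key V hV hVc
  have hcomp : ∀ W : Subgroup G, N ⊔ W = ⊤ → N ⊓ W = ⊥ → Nat.card N * Nat.card W = Nat.card G := by
    intro W h1 h2
    have hc : Subgroup.IsComplement' N W := by
      apply Subgroup.isComplement'_of_disjoint_and_mul_eq_univ
      · exact disjoint_iff.2 h2
      · rw [← Subgroup.normal_mul, h1]; rfl
    exact hc.card_mul_card
  have hcardUV : Nat.card U = Nat.card V :=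
    Nat.eq_of_mul_eq_mul_left Nat.card_pos ((hcomp U hUsup hUinf).trans (hcomp V hVsup hVinf).symm)
  by_cases hNtop : N = ⊤
  · refine ⟨1, ?_⟩
    have hUb : U = ⊥ := by simpa [hNtop] using hUinf
    have hVb : V = ⊥ := by simpa [hNtop] using hVinf
    rw [hUb, hVb]
    simp
  let π : G →* G ⧸ N := QuotientGroup.mk' N
  have hπ : Function.Surjective π := QuotientGroup.mk'_surjective N
  have hker : π.ker = N := QuotientGroup.ker_mk' N
  have hπk : ∀ g, π g = 1 ↔ g ∈ N := fun g => QuotientGroup.eq_one_iff g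
  haveI : Nontrivial (G ⧸ N) := by
    obtain ⟨g, hg⟩ : ∃ g, g ∉ N := by
      by_contra hall
      push_neg at hall
      exact hNtop (eq_top_iff.2 fun g _ => hall g)
    exact ⟨⟨π g, 1, fun he => hg ((hπk g).1 he)⟩⟩
  obtain ⟨Lb, hLbn, hLbb, hLbm⟩ := exists_min_normal (G := G ⧸ N)
  haveI := hLbn
  obtain ⟨-, q, hq, hLbe⟩ := Cfsg.Agent.Lib.FitSolv.minimal_normal_elementary Lb hLbb hLbm
  haveI : Fact q.Prime := ⟨hq⟩
  let L : Subgroup G := Lb.comap π
  haveI hLn : L.Normal := hLbn.comap π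
  have hNL : N ≤ L := by
    intro x hx
    show π x ∈ Lb
    rw [(hπk x).2 hx]; exact Lb.one_mem
  have hLne : L ≠ N := by
    intro h
    apply hLbb
    rw [eq_bot_iff]
    intro y hy
    obtain ⟨g, rfl⟩ := hπ y
    have : g ∈ L := hy
    rw [h] at this
    rw [Subgroup.mem_bot, hπk]; exact this
  have hqp : q ≠ p := by
    rintro rfl
    have hLp : IsPGroup q L := by
      have h1 : IsPGroup q Lb := fun g => ⟨1, by rw [pow_one]; exact Subtype.ext (hLbe g g.2)⟩
      have h2 : IsPGroup q π.ker := by rw [hker]; exact hNp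
      exact h1.comap_of_ker_isPGroup π h2
    haveI : (N.subgroupOf L).Normal := inferInstance
    have hN' : N.subgroupOf L ≠ ⊥ := by
      intro hb
      apply hNb
      rw [eq_bot_iff]
      intro x hx
      have h1 : (⟨x, hNL hx⟩ : L) ∈ N.subgroupOf L := hx
      rw [hb, Subgroup.mem_bot] at h1
      simpa using congrArg Subtype.val h1
    obtain ⟨x, hx, hx1, hxc⟩ := Cfsg.Agent.Lib.PGroupBasic.exists_ne_one_mem_center_of_normal hLp (N.subgroupOf L) hN'
    haveI hCLn : (Subgroup.centralizer (L : Set G)).Normal := Subgroup.normal_centralizer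
    have hDn : (N ⊓ Subgroup.centralizer (L : Set G)).Normal := inferInstance
    have hxD : (x : G) ∈ N ⊓ Subgroup.centralizer (L : Set G) := by
      refine ⟨hx, Subgroup.mem_centralizer_iff.2 ?_⟩
      intro l hl
      have := (Subgroup.mem_center_iff.1 hxc) ⟨l, hl⟩
      exact congrArg Subtype.val this
    have hDe : N ⊓ Subgroup.centralizer (L : Set G) = N := by
      rcases hNm _ hDn inf_le_left with h | h
      · exfalso
        rw [h, Subgroup.mem_bot] at hxD
        exact hx1 (Subtype.ext hxD)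
      · exact h
    apply hLne
    apply le_antisymm _ hNL
    rw [← hC]
    intro l hl
    rw [Subgroup.mem_centralizer_iff]
    intro n hn
    have h1 : n ∈ Subgroup.centralizer (L : Set G) := (inf_eq_left.1 hDe) hn
    exact ((Subgroup.mem_centralizer_iff.1 h1) l hl).symm
  -- the structure of `W ⊓ L`
  have hstr : ∀ W : Subgroup G, IsCoatom W → N ⊔ W = ⊤ → N ⊓ W = ⊥ →
      N ⊔ (W ⊓ L) = L ∧ IsPGroup q ↥(W ⊓ L) ∧ Nat.card L = Nat.card N * Nat.card ↥(W ⊓ L) ∧
        Subgroup.normalizer ((W ⊓ L : Subgroup G) : Set G) = W := by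
    intro W hW hsup hinf
    have hdec : ∀ g : G, ∃ a ∈ N, ∃ b ∈ W, g = a * b := by
      intro g
      have hg : g ∈ (N : Set G) * W := by
        rw [← Subgroup.normal_mul, hsup]; trivial
      obtain ⟨a, ha, b, hb, he⟩ := hg
      exact ⟨a, ha, b, hb, he.symm⟩
    have h1 : N ⊔ (W ⊓ L) = L := by
      apply le_antisymm (sup_le hNL inf_le_right)
      intro l hl
      obtain ⟨a, ha, b, hb, rfl⟩ := hdec l
      have hbL : b ∈ L := by
        have := L.mul_mem (L.inv_mem (hNL ha)) hl
        simpa using this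
      exact Subgroup.mul_mem_sup ha ⟨hb, hbL⟩
    have h2 : IsPGroup q ↥(W ⊓ L) := by
      intro x
      refine ⟨1, ?_⟩
      rw [pow_one]
      apply Subtype.ext
      have hx1 : π (x : G) ∈ Lb := x.2.2
      have hx2 := hLbe _ hx1
      have hx3 : (x : G) ^ q ∈ N := by
        rw [← hπk, map_pow]; exact hx2
      have hx4 : (x : G) ^ q ∈ N ⊓ W := ⟨hx3, W.pow_mem x.2.1 q⟩
      rw [hinf, Subgroup.mem_bot] at hx4
      simpa using hx4
    have hd : N ⊓ (W ⊓ L) = ⊥ := by
      rw [eq_bot_iff, ← hinf]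
      exact inf_le_inf_left _ inf_le_left
    have h3 : Nat.card L = Nat.card N * Nat.card ↥(W ⊓ L) := by
      have := Cfsg.Agent.Lib.SchurZ.card_sup_of_disjoint N (W ⊓ L) hd
      rwa [h1] at this
    refine ⟨h1, h2, h3, ?_⟩
    have hle : W ≤ Subgroup.normalizer ((W ⊓ L : Subgroup G) : Set G) := by
      intro u hu
      apply Cfsg.Agent.Lib.H5Basic.mem_normalizer_of_map_conj_le
      rintro _ ⟨x, hx, rfl⟩
      exact ⟨W.mul_mem (W.mul_mem hu hx.1) (W.inv_mem hu), hLn.conj_mem x hx.2 u⟩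
    by_contra hne
    have hlt : W < Subgroup.normalizer ((W ⊓ L : Subgroup G) : Set G) := lt_of_le_of_ne hle (Ne.symm hne)
    have htop := hW.2 _ hlt
    haveI hW0n : (W ⊓ L).Normal := Subgroup.normalizer_eq_top_iff.1 htop
    apply hLne
    rw [← h1]
    have hbot : W ⊓ L = ⊥ := by
      rw [eq_bot_iff, ← hinf]
      intro x hx
      refine ⟨(?_ : x ∈ N), hx.1⟩
      rw [← hC, Subgroup.mem_centralizer_iff]
      intro n hn
      have hc1 : n * x * n⁻¹ * x⁻¹ ∈ W ⊓ L := by
        exact (W ⊓ L).mul_mem (hW0n.conj_mem x hx n) ((W ⊓ L).inv_mem hx)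
      have hc2 : n * x * n⁻¹ * x⁻¹ ∈ N := by
        have h5 : x * n⁻¹ * x⁻¹ ∈ N := hNn.conj_mem _ (N.inv_mem hn) x
        have := N.mul_mem hn h5
        have e : n * (x * n⁻¹ * x⁻¹) = n * x * n⁻¹ * x⁻¹ := by group
        rwa [e] at this
      have hc3 : n * x * n⁻¹ * x⁻¹ ∈ N ⊓ W := ⟨hc2, hc1.1⟩
      rw [hinf, Subgroup.mem_bot] at hc3
      calc n * x = n * x * n⁻¹ * x⁻¹ * (x * n) := by group
        _ = x * n := by rw [hc3, one_mul]
    rw [hbot, sup_bot_eq]
  obtain ⟨hU1, hU2, hU3, hU4⟩ := hstr U hU hUsup hUinf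
  obtain ⟨hV1, hV2, hV3, hV4⟩ := hstr V hV hVsup hVinf
  have hc : Nat.card ↥(V ⊓ L) = Nat.card ↥(U ⊓ L) :=
    Nat.eq_of_mul_eq_mul_left Nat.card_pos (hV3.symm.trans hU3)
  have hcop : Nat.Coprime (Nat.card N) (Nat.card ↥(U ⊓ L)) := by
    obtain ⟨i, hi⟩ := IsPGroup.iff_card.1 hNp
    obtain ⟨j, hj⟩ := IsPGroup.iff_card.1 hU2
    rw [hi, hj]
    exact Nat.Coprime.pow _ _ ((Nat.coprime_primes hp hq).2 hqp.symm)
  have hnor : U ⊓ L ≤ Subgroup.normalizer (N : Set G) := by
    rw [Subgroup.normalizer_eq_top_iff.2 hNn]; exact le_top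
  obtain ⟨n, hnN, hn⟩ := Cfsg.Agent.Lib.SchurZ.sz_conj_ambient N (U ⊓ L) (V ⊓ L) hnor
    (by rw [hU1]; exact inf_le_right) hc hcop (Or.inl inferInstance)
  refine ⟨n, ?_⟩
  have hconv : MulAut.conj n • U = U.map (MulAut.conj n).toMonoidHom := rfl
  rw [hconv]
  have hle : U.map (MulAut.conj n).toMonoidHom ≤ V := by
    rw [← hV4]
    rintro _ ⟨u, hu, rfl⟩
    apply Cfsg.Agent.Lib.H5Basic.mem_normalizer_of_map_conj_le
    rw [← hn]
    rintro _ ⟨_, ⟨x, hx, rfl⟩, rfl⟩
    have hu' : u ∈ Subgroup.normalizer ((U ⊓ L : Subgroup G) : Set G) := by rw [hU4]; exact hu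
    have h1 : u * x * u⁻¹ ∈ U ⊓ L := (Subgroup.mem_normalizer_iff.1 hu' x).1 hx
    refine ⟨u * x * u⁻¹, h1, ?_⟩
    simp only [MulEquiv.coe_toMonoidHom, MulAut.conj_apply]
    group
  apply Subgroup.eq_of_le_of_card_ge hle
  rw [Subgroup.card_map_of_injective (MulAut.conj n).injective, hcardUV]

end Cfsg.Agent.Lib.MaxHall
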