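import Mathlib
import Cfsg.Prelude.Def_SolvableStructure
import Cfsg.Agent.S0034
import Cfsg.Agent.Lib.FrobThm
import Cfsg.Agent.Lib.TypeP
import Cfsg.Agent.Lib.H5Basic
import Cfsg.Agent.Lib.H6Orb4b
import Cfsg.Agent.Lib.SchurZ

/-!
# Minimal non-nilpotent groups (Schmidt)
-/

set_option autoImplicit false
set_option linter.unusedVariables false
set_option linter.style.haveILetI false
set_option linter.unusedSectionVars false

namespace Cfsg.Agent.Lib.Schmidt

open Cfsg Subgroup
open scoped Pointwise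

universe u

section simple

variable {G : Type u} [Group G] [Finite G]

theorem coatom_ti [IsSimpleGroup G] (hall : ∀ H : Subgroup G, H ≠ ⊤ → Group.IsNilpotent H)
    (M M' : Subgroup G) (hM : IsCoatom M) (hM' : IsCoatom M') (hne : M ≠ M') : M ⊓ M' = ⊥ := by
  by_contra hD
  let S : Set (Subgroup G) := {D | D ≠ ⊥ ∧ ∃ A B : Subgroup G, IsCoatom A ∧ IsCoatom B ∧ A ≠ B ∧ D = A ⊓ B}
  have hS : S.Nonempty := ⟨M ⊓ M', hD, M, M', hM, hM', hne, rfl⟩
  obtain ⟨D, hDmax⟩ := (Set.toFinite S).exists_maximal hS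
  obtain ⟨hD1, A, B, hA, hB, hAB, rfl⟩ := hDmax.1
  have hD2 : ∀ y ∈ S, A ⊓ B ≤ y → y ≤ A ⊓ B := fun y hy hle => hDmax.2 hy hle
  have hNne : Subgroup.normalizer ((A ⊓ B : Subgroup G) : Set G) ≠ ⊤ := by
    intro h
    haveI : (A ⊓ B).Normal := Subgroup.normalizer_eq_top_iff.1 h
    rcases Subgroup.Normal.eq_bot_or_eq_top (inferInstance : (A ⊓ B).Normal) with h1 | h1
    · exact hD1 h1
    · exact hA.1 (top_le_iff.1 (h1 ▸ inf_le_left))
  obtain ⟨M₂, hM₂, hle⟩ := (eq_top_or_exists_le_coatom _).resolve_left hNne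
  have key : ∀ M₀ : Subgroup G, IsCoatom M₀ → A ⊓ B ≤ M₀ → A ⊓ B ≠ M₀ → M₀ = M₂ := by
    intro M₀ hM₀ hle₀ hne₀
    by_contra hne₂
    haveI := hall M₀ hM₀.1
    have hlt : (A ⊓ B).subgroupOf M₀ < ⊤ := by
      refine lt_top_iff_ne_top.2 ?_
      intro h
      exact hne₀ (le_antisymm hle₀ (Subgroup.subgroupOf_eq_top.1 h))
    have hnc := normalizerCondition_of_isNilpotent (G := M₀) _ hlt
    obtain ⟨x, hx, hxn⟩ := SetLike.exists_of_lt hnc
    have hxN : (x : G) ∈ Subgroup.normalizer ((A ⊓ B : Subgroup G) : Set G) := by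
      apply Cfsg.Agent.Lib.H5Basic.mem_normalizer_of_map_conj_le
      rintro _ ⟨y, hy, rfl⟩
      have hy' : (⟨y, hle₀ hy⟩ : M₀) ∈ (A ⊓ B).subgroupOf M₀ := Subgroup.mem_subgroupOf.2 hy
      have := (Subgroup.mem_normalizer_iff.1 hx _).1 hy'
      exact Subgroup.mem_subgroupOf.1 this
    have hxM₂ := hle hxN
    have hin : M₀ ⊓ M₂ ∈ S := by
      refine ⟨?_, M₀, M₂, hM₀, hM₂, hne₂, rfl⟩
      intro h0
      apply hD1
      rw [eq_bot_iff, ← h0]
      exact le_inf hle₀ (le_trans Subgroup.le_normalizer hle)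
    have hle2 := hD2 _ hin (le_inf hle₀ (le_trans Subgroup.le_normalizer hle))
    exact hxn (Subgroup.mem_subgroupOf.2 (hle2 ⟨x.2, hxM₂⟩))
  have h1 : A = M₂ := by
    refine key A hA inf_le_left ?_
    intro h
    have hAB' : A ≤ B := h ▸ inf_le_right
    exact hB.1 (hA.2 B (lt_of_le_of_ne hAB' hAB))
  have h2 : B = M₂ := by
    refine key B hB inf_le_right ?_
    intro h
    have hBA : B ≤ A := h ▸ inf_le_left
    exact hA.1 (hB.2 A (lt_of_le_of_ne hBA hAB.symm))
  exact hAB (h1.trans h2.symm)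

theorem simple_false [IsSimpleGroup G] (h : IsMinimalNonNilpotent G) : False := by
  have hcyc : ∀ x : G, Subgroup.zpowers x ≠ ⊤ := by
    intro x hx
    apply h.1
    haveI : IsCyclic G := isCyclic_iff_exists_zpowers_eq_top.2 ⟨x, hx⟩
    letI := IsCyclic.commGroup (α := G)
    exact inferInstance
  obtain ⟨M, hM, -⟩ := (eq_top_or_exists_le_coatom (⊥ : Subgroup G)).resolve_left bot_ne_top
  have hM1 : M ≠ ⊥ := by
    intro h0
    obtain ⟨x, hx⟩ := exists_ne (1 : G)
    refine hcyc x (hM.2 _ ?_)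
    rw [h0]
    refine bot_lt_iff_ne_bot.2 ?_
    intro h1
    exact hx (Subgroup.zpowers_eq_bot.1 h1)
  have hnorm : Subgroup.normalizer (M : Set G) ≤ M := by
    by_contra hn
    have hlt : M < Subgroup.normalizer (M : Set G) :=
      lt_of_le_of_ne Subgroup.le_normalizer (fun e => hn e.ge)
    have htop := hM.2 _ hlt
    haveI : M.Normal := Subgroup.normalizer_eq_top_iff.1 htop
    rcases Subgroup.Normal.eq_bot_or_eq_top (inferInstance : M.Normal) with h1 | h1
    · exact hM1 h1
    · exact hM.1 h1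
  have hF : IsFrobeniusComplement M := by
    refine ⟨hM1, hM.1, fun g hg => ?_⟩
    have hco : IsCoatom (M.map (MulAut.conj g).toMonoidHom) :=
      (OrderIso.isCoatom_iff (MulEquiv.mapSubgroup (MulAut.conj g)) M).2 hM
    refine coatom_ti (fun H hH => h.2 H hH) M _ hM hco ?_
    intro he
    exact hg (hnorm (Cfsg.Agent.Lib.H5Basic.mem_normalizer_of_map_conj_le he.ge))
  cases nonempty_fintype G
  obtain ⟨N, hNs, hNn⟩ := Cfsg.Agent.Lib.FrobThm.exists_normal_eq_kernel M hF
  have hc : Nat.card N = M.index := by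
    have := (Cfsg.Agent.S0034.result M hF).1
    rw [← hNs] at this
    exact this
  rcases Subgroup.Normal.eq_bot_or_eq_top hNn with h1 | h1
  · rw [h1, Subgroup.card_bot] at hc
    exact hM.1 (Subgroup.index_eq_one.1 hc.symm)
  · rw [h1, Subgroup.card_top] at hc
    have h2 := M.card_mul_index
    rw [← hc] at h2
    have h3 : Nat.card M = 1 := by
      have hpos : 0 < Nat.card G := Nat.card_pos
      exact Nat.eq_of_mul_eq_mul_right hpos (by rw [h2, one_mul])
    exact hM1 (Subgroup.card_eq_one.1 h3)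

end simple

theorem solvable_aux (n : ℕ) : ∀ (G : Type u) [Group G] [Finite G], Nat.card G = n →
    IsMinimalNonNilpotent G → Group.IsSolvable G := by
  induction n using Nat.strong_induction_on with
  | _ n ih =>
  intro G _ _ hn hG
  by_cases hs : ∃ N : Subgroup G, N.Normal ∧ N ≠ ⊥ ∧ N ≠ ⊤
  · obtain ⟨N, hNn, hN1, hN2⟩ := hs
    haveI := hNn
    haveI : Group.IsNilpotent N := hG.2 N hN2
    let π := QuotientGroup.mk' N
    have hπ : Function.Surjective π := QuotientGroup.mk'_surjective N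
    have hker : π.ker = N := QuotientGroup.ker_mk' N
    haveI hsol : Group.IsSolvable (G ⧸ N) := by
      by_cases hq : Group.IsNilpotent (G ⧸ N)
      · exact inferInstance
      · have hcard : Nat.card (G ⧸ N) * Nat.card N = Nat.card G :=
          (Subgroup.card_eq_card_quotient_mul_card_subgroup N).symm
        have hNc : 1 < Nat.card N := by
          have h0 : Nat.card N ≠ 1 := fun h => hN1 (Subgroup.card_eq_one.1 h)
          have h2 : 0 < Nat.card N := Nat.card_pos
          omega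
        have hlt : Nat.card (G ⧸ N) < n := by
          rw [← hn, ← hcard]
          have hpos : 0 < Nat.card (G ⧸ N) := Nat.card_pos
          nlinarith
        refine ih _ hlt (G ⧸ N) rfl ⟨hq, ?_⟩
        intro K hK
        have hK' : K.comap π ≠ ⊤ := by
          intro h
          apply hK
          have := Subgroup.map_comap_eq_self_of_surjective hπ K
          rw [h, Subgroup.map_top_of_surjective π hπ] at this
          exact this.symm
        haveI := hG.2 _ hK'
        have hm : (K.comap π).map π = K := Subgroup.map_comap_eq_self_of_surjective hπ K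
        have hnil : Group.IsNilpotent ((K.comap π).map π) :=
          nilpotent_of_surjective (π.subgroupMap (K.comap π)) (π.subgroupMap_surjective _)
        rw [hm] at hnil
        exact hnil
    exact solvable_of_ker_le_range N.subtype π (by rw [hker, Subgroup.range_subtype])
  · push_neg at hs
    haveI hnt : Nontrivial G := by
      by_contra hn0
      rw [not_nontrivial_iff_subsingleton] at hn0
      exact hG.1 inferInstance
    haveI : IsSimpleGroup G := ⟨fun N hN => by
      by_cases h : N = ⊥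
      · exact Or.inl h
      · by_contra hh
        push_neg at hh
        exact hh.2 (hs N hN hh.1)⟩
    exact (simple_false hG).elim

/-- Schmidt's theorem. -/
theorem schmidt {G : Type u} [Group G] [Finite G] (hG : IsMinimalNonNilpotent G) :
    ∃ p q : ℕ, p.Prime ∧ q.Prime ∧ p ≠ q ∧ ∃ (P : Sylow p G) (Q : Sylow q G),
      IsCyclic P ∧ (Q : Subgroup G).Normal ∧ (P : Subgroup G) ⊔ Q = ⊤ := by
  haveI hsolv : Group.IsSolvable G := solvable_aux _ G rfl hG
  haveI hnt : Nontrivial G := by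
    by_contra hn0
    rw [not_nontrivial_iff_subsingleton] at hn0
    exact hG.1 inferInstance
  obtain ⟨N, hNn, hNp⟩ := Cfsg.Agent.Lib.H6Orb4.exists_prime_index G
  haveI := hNn
  have hNne : N ≠ ⊤ := by
    intro h
    rw [h, Subgroup.index_top] at hNp
    exact Nat.not_prime_one hNp
  haveI hNnil : Group.IsNilpotent N := hG.2 N hNne
  obtain ⟨p, hpe⟩ : ∃ p, p = N.index := ⟨_, rfl⟩
  rw [← hpe] at hNp
  haveI : Fact p.Prime := ⟨hNp⟩
  have hord : ∀ (r : ℕ) (hr : r.Prime) (T : Sylow r G), ∀ x ∈ (T : Subgroup G), ∃ k, orderOf x = r ^ k := by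
    intro r hr T x hx
    haveI : Fact r.Prime := ⟨hr⟩
    obtain ⟨m, hm⟩ := IsPGroup.iff_card.1 T.isPGroup'
    have h1 : orderOf (⟨x, hx⟩ : (T : Subgroup G)) ∣ r ^ m := hm ▸ orderOf_dvd_natCard _
    rw [Subgroup.orderOf_mk] at h1
    obtain ⟨k, -, hk⟩ := (Nat.dvd_prime_pow hr).1 h1
    exact ⟨k, hk⟩
  have hSylN : ∀ (q : ℕ), q.Prime → q ≠ p → ∀ Q : Sylow q G, (Q : Subgroup G) ≤ N := by
    intro q hq hqp Q x hx
    obtain ⟨k, hk⟩ := hord q hq Q x hx
    have hcop : p.Coprime (orderOf x) := by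
      rw [hk]
      exact Nat.Coprime.pow_right _ ((Nat.coprime_primes hNp hq).2 hqp.symm)
    obtain ⟨m, hm⟩ := exists_pow_eq_self_of_coprime hcop
    rw [← hm, hpe]
    exact pow_mem (Subgroup.pow_index_mem N x) m
  have hQnormal : ∀ (q : ℕ), q.Prime → q ≠ p → ∀ Q : Sylow q G, (Q : Subgroup G).Normal := by
    intro q hq hqp Q
    haveI : Fact q.Prime := ⟨hq⟩
    refine ⟨fun x hx g => ?_⟩
    have hnorm : ((Q.subtype (hSylN q hq hqp Q)) : Subgroup N).Normal := by
      have htf : ∀ (p : ℕ) (_ : Fact p.Prime) (P : Sylow p N), (P : Subgroup N).Normal :=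
        ((isNilpotent_of_finite_tfae (G := N)).out 0 3).1 hNnil
      exact htf q ⟨hq⟩ _
    letI := Sylow.unique_of_normal _ hnorm
    have heq : (g • Q).subtype (hSylN q hq hqp (g • Q)) = Q.subtype (hSylN q hq hqp Q) :=
      Subsingleton.elim _ _
    have heq2 : g • Q = Q := Sylow.subtype_injective heq
    have := Cfsg.Agent.Lib.H5Basic.conj_mem_smul_sylow Q g x hx
    rwa [heq2] at this
  let P : Sylow p G := default
  have hPnn : ¬ (P : Subgroup G).Normal := by
    intro hP
    apply hG.1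
    refine ((isNilpotent_of_finite_tfae (G := G)).out 0 3).2 ?_
    intro q hq Q
    by_cases hqp : q = p
    · subst hqp
      letI := Sylow.unique_of_normal _ hP
      rw [Subsingleton.elim Q P]
      exact hP
    · exact hQnormal q hq.out hqp Q
  have hcomm : ∀ X : Subgroup G, X ≠ ⊤ → ∀ x ∈ X, ∀ y ∈ X, (orderOf x).Coprime (orderOf y) → x * y = y * x := by
    intro X hX x hx y hy hc
    haveI := hG.2 X hX
    have h1 := Cfsg.Agent.Lib.TypeP.nilp_comm_coprime (N := X) _ ⟨x, hx⟩ rfl ⟨y, hy⟩ (by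
      simpa [Subgroup.orderOf_mk] using hc)
    exact congrArg Subtype.val h1
  have hexq : ∃ (q : ℕ) (hq : q.Prime), q ≠ p ∧ ∃ Q : Sylow q G, (P : Subgroup G) ⊔ Q = ⊤ := by
    by_contra hno
    push_neg at hno
    apply hPnn
    rw [← Subgroup.normalizer_eq_top_iff, ← Subgroup.index_eq_one]
    by_contra hi
    obtain ⟨s, hs, hsd⟩ := Nat.exists_prime_and_dvd hi
    haveI : Fact s.Prime := ⟨hs⟩
    by_cases hsp : s = p
    · subst hsp
      have h1 : (Subgroup.normalizer ((P : Subgroup G) : Set G)).index ∣ (P : Subgroup G).index :=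
        Subgroup.index_dvd_of_le Subgroup.le_normalizer
      exact P.not_dvd_index (dvd_trans hsd h1)
    · let S : Sylow s G := default
      have hle : (S : Subgroup G) ≤ Subgroup.normalizer ((P : Subgroup G) : Set G) := by
        intro y hy
        refine Subgroup.centralizer_le_normalizer _ (Subgroup.mem_centralizer_iff.2 ?_)
        intro x hx
        refine hcomm _ (hno s hs hsp S) x (Subgroup.mem_sup_left hx) y (Subgroup.mem_sup_right hy) ?_
        obtain ⟨k, hk⟩ := hord p hNp P x hx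
        obtain ⟨l, hl⟩ := hord s hs S y hy
        rw [hk, hl]
        exact Nat.Coprime.pow _ _ ((Nat.coprime_primes hNp hs).2 (Ne.symm hsp))
      have h1 := Subgroup.index_dvd_of_le hle
      exact S.not_dvd_index (dvd_trans hsd h1)
  obtain ⟨q, hq, hqp, Q, hsup⟩ := hexq
  haveI : Fact q.Prime := ⟨hq⟩
  have hQn : (Q : Subgroup G).Normal := hQnormal q hq hqp Q
  refine ⟨p, q, hNp, hq, hqp.symm, P, Q, ?_, hQn, hsup⟩
  by_contra hnc
  apply hPnn
  rw [← Subgroup.normalizer_eq_top_iff, eq_top_iff, ← hsup]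
  refine sup_le Subgroup.le_normalizer ?_
  have hdisj : ∀ x ∈ (P : Subgroup G), (Q : Subgroup G) ⊓ Subgroup.zpowers x = ⊥ := by
    intro x hx
    rw [eq_bot_iff]
    rintro y ⟨hyQ, hyz⟩
    obtain ⟨k, hk⟩ := hord q hq Q y hyQ
    have hyP : y ∈ (P : Subgroup G) := (Subgroup.zpowers_le.2 hx) hyz
    obtain ⟨l, hl⟩ := hord p hNp P y hyP
    have hc : orderOf y = 1 := by
      have hcop : (q ^ k).Coprime (p ^ l) := Nat.Coprime.pow _ _ ((Nat.coprime_primes hq hNp).2 hqp)
      rw [← hk, ← hl] at hcop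
      exact Nat.coprime_self _ |>.1 hcop
    exact Subgroup.mem_bot.2 (orderOf_eq_one_iff.1 hc)
  have hdisjP : (Q : Subgroup G) ⊓ (P : Subgroup G) = ⊥ := by
    rw [eq_bot_iff]
    rintro y ⟨hyQ, hyP⟩
    obtain ⟨k, hk⟩ := hord q hq Q y hyQ
    obtain ⟨l, hl⟩ := hord p hNp P y hyP
    have hc : orderOf y = 1 := by
      have hcop : (q ^ k).Coprime (p ^ l) := Nat.Coprime.pow _ _ ((Nat.coprime_primes hq hNp).2 hqp)
      rw [← hk, ← hl] at hcop
      exact Nat.coprime_self _ |>.1 hcop
    exact Subgroup.mem_bot.2 (orderOf_eq_one_iff.1 hc)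
  have hcardG : Nat.card (Q : Subgroup G) * Nat.card (P : Subgroup G) = Nat.card G := by
    have h1 := Cfsg.Agent.Lib.SchurZ.card_sup_of_disjoint (Q : Subgroup G) (P : Subgroup G) hdisjP
    rw [sup_comm, hsup, Subgroup.card_top] at h1
    exact h1.symm
  intro y hy
  refine Subgroup.centralizer_le_normalizer _ (Subgroup.mem_centralizer_iff.2 ?_)
  intro x hx
  have hX : Subgroup.zpowers x ⊔ (Q : Subgroup G) ≠ ⊤ := by
    intro htop
    have h1 := Cfsg.Agent.Lib.SchurZ.card_sup_of_disjoint (Q : Subgroup G) (Subgroup.zpowers x) (hdisj x hx)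
    rw [sup_comm, htop, Subgroup.card_top] at h1
    have h2 : Nat.card (Subgroup.zpowers x) = Nat.card (P : Subgroup G) :=
      Nat.eq_of_mul_eq_mul_left (Nat.card_pos (α := (Q : Subgroup G))) (h1.symm.trans hcardG.symm)
    have h3 : Subgroup.zpowers x = (P : Subgroup G) :=
      Subgroup.eq_of_le_of_card_ge (Subgroup.zpowers_le.2 hx) h2.ge
    apply hnc
    rw [← h3]
    infer_instance
  refine hcomm _ hX x (Subgroup.mem_sup_left (Subgroup.mem_zpowers x)) y (Subgroup.mem_sup_right hy) ?_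
  obtain ⟨k, hk⟩ := hord p hNp P x hx
  obtain ⟨l, hl⟩ := hord q hq Q y hy
  rw [hk, hl]
  exact Nat.Coprime.pow _ _ ((Nat.coprime_primes hNp hq).2 hqp.symm)

end Cfsg.Agent.Lib.Schmidt
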