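import Mathlib
import Cfsg.Prelude.Def_SolvableStructure
import Cfsg.Prelude.Def_Transfer
import Cfsg.Agent.Lib.Schmidt
import Cfsg.Agent.Lib.CoprimeAB
import Cfsg.Agent.Lib.ThompsonFpf
import Cfsg.Agent.Lib.Carter
import Cfsg.Agent.Lib.PResidual
import Cfsg.Agent.Lib.TypeP
import Cfsg.Agent.Lib.SchurZ

/-!
# Minimal nonabelian groups
-/

set_option autoImplicit false
set_option linter.unusedVariables false
set_option linter.style.haveILetI false
set_option linter.unusedSectionVars false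

namespace Cfsg.Agent.Lib.MinNonab

open Cfsg Subgroup
open scoped Pointwise commutatorElement

universe u

variable {G : Type u} [Group G] [Finite G]

/-- Coprime automorphisms of an abelian `q`-group that are trivial on `Ω₁` are trivial. -/
theorem abelian_omega {q : ℕ} [hq : Fact q.Prime] {Q : Subgroup G} (hQ : IsPGroup q Q)
    (hcomm : ∀ a ∈ Q, ∀ b ∈ Q, a * b = b * a) {a : G} (haN : a ∈ Subgroup.normalizer (Q : Set G))
    (hao : (orderOf a).Coprime q) (h1 : ∀ x ∈ Q, x ^ q = 1 → a * x = x * a) :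
    ∀ x ∈ Q, a * x = x * a := by
  have key : ∀ k : ℕ, ∀ x ∈ Q, x ^ (q ^ k) = 1 → a * x = x * a := by
    intro k
    induction k with
    | zero =>
      intro x _ hx
      rw [pow_zero, pow_one] at hx
      rw [hx]; simp
    | succ k ih =>
      intro x hx hxk
      have hxq : x ^ q ∈ Q := pow_mem hx q
      have h2 : a * x ^ q = x ^ q * a := ih _ hxq (by
        rw [← pow_mul, ← pow_succ']
        exact hxk)
      have hax : a * x * a⁻¹ ∈ Q := (Subgroup.mem_normalizer_iff.1 haN x).1 hx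
      let y := a * x * a⁻¹ * x⁻¹
      have hyQ : y ∈ Q := mul_mem hax (inv_mem hx)
      have hyq : y ^ q = 1 := by
        have hc : Commute (a * x * a⁻¹) x⁻¹ := hcomm _ hax _ (inv_mem hx)
        have : y ^ q = (a * x * a⁻¹) ^ q * (x⁻¹) ^ q := hc.mul_pow q
        rw [this, conj_pow, h2, inv_pow]
        group
      have hya : a * y = y * a := h1 y hyQ hyq
      have hpow : ∀ n : ℕ, a ^ n * x * (a ^ n)⁻¹ = y ^ n * x := by
        intro n
        induction n with
        | zero => simp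
        | succ n ihn =>
          have h3 : a * x * a⁻¹ = y * x := by simp [y]
          have hcay : Commute a (y ^ n) := (show Commute a y from hya).pow_right n
          calc a ^ (n + 1) * x * (a ^ (n + 1))⁻¹ = a * (a ^ n * x * (a ^ n)⁻¹) * a⁻¹ := by
                rw [pow_succ']; group
            _ = a * (y ^ n * x) * a⁻¹ := by rw [ihn]
            _ = y ^ n * (a * x * a⁻¹) := by
                rw [← mul_assoc, hcay.eq]; group
            _ = y ^ (n + 1) * x := by
                rw [h3, pow_succ, mul_assoc (y ^ n)]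
      have h4 := hpow (orderOf a)
      rw [pow_orderOf_eq_one] at h4
      simp only [one_mul, inv_one, mul_one] at h4
      have h5 : y ^ orderOf a = 1 := by
        have := mul_right_cancel (h4.symm.trans (one_mul x).symm)
        exact this
      have h6 : orderOf y ∣ orderOf a := orderOf_dvd_of_pow_eq_one h5
      have h7 : orderOf y ∣ q := orderOf_dvd_of_pow_eq_one hyq
      have h8 : orderOf y = 1 := Nat.eq_one_of_dvd_coprimes hao h6 h7
      have h9 : y = 1 := orderOf_eq_one_iff.1 h8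
      have h10 : a * x * a⁻¹ = x := by
        have : a * x * a⁻¹ * x⁻¹ = 1 := h9
        exact mul_inv_eq_one.1 this
      exact mul_inv_eq_iff_eq_mul.1 h10
  intro x hx
  obtain ⟨k, hk⟩ := hQ ⟨x, hx⟩
  exact key k x hx (by simpa using congrArg Subtype.val hk)

theorem nil_of_comm {H : Type*} [Group H] (h : IsMulCommutative H) : Group.IsNilpotent H := by
  letI : CommGroup H := { (inferInstance : Group H) with mul_comm := mul_comm' }
  exact inferInstance

/-- Miller–Moreno. -/
theorem miller_moreno (hna : ¬ IsMulCommutative G) (h : ∀ H : Subgroup G, H ≠ ⊤ → IsMulCommutative H) :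
    (∃ p : ℕ, p.Prime ∧ IsPGroup p G) ∨ ∃ p q : ℕ, p.Prime ∧ q.Prime ∧ p ≠ q ∧ ∃ (P : Sylow p G) (Q : Sylow q G),
      IsCyclic P ∧ (Q : Subgroup G).Normal ∧ IsElementaryAbelian q (Q : Subgroup G) ∧ (P : Subgroup G) ⊔ Q = ⊤ := by
  classical
  have hsub : ∀ H : Subgroup G, H ≠ ⊤ → ∀ a ∈ H, ∀ b ∈ H, a * b = b * a := by
    intro H hH a ha b hb
    have := (h H hH).is_comm.comm ⟨a, ha⟩ ⟨b, hb⟩
    exact congrArg Subtype.val this
  by_cases hnil : Group.IsNilpotent G
  · left
    have hnt : Nat.card G ≠ 1 := by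
      intro h1
      apply hna
      haveI : Subsingleton G := (Nat.card_eq_one_iff_unique.1 h1).1
      exact ⟨⟨fun a b => Subsingleton.elim _ _⟩⟩
    obtain ⟨p, hp, hpd⟩ := Nat.exists_prime_and_dvd hnt
    refine ⟨p, hp, ?_⟩
    by_contra hnotp
    haveI : Fact p.Prime := ⟨hp⟩
    obtain ⟨P, K, hKn, hc⟩ := Cfsg.Agent.Lib.ThompsonFpf.npc_of_nilpotent (N := G) p
    have hPne : (P : Subgroup G) ≠ ⊤ := by
      intro h0
      apply hnotp
      intro x
      obtain ⟨k, hk⟩ := P.isPGroup' ⟨x, by rw [h0]; trivial⟩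
      exact ⟨k, by simpa using congrArg Subtype.val hk⟩
    have hKc : ¬ p ∣ Nat.card K := by
      have h2 := hc.index_eq_card
      rw [← h2]
      exact P.not_dvd_index
    have hKne : K ≠ ⊤ := by
      intro h0
      rw [h0, Subgroup.card_top] at hKc
      exact hKc hpd
    have hPK : ∀ a ∈ (P : Subgroup G), ∀ k ∈ K, a * k = k * a := by
      intro a ha k hk
      refine Cfsg.Agent.Lib.CoprimeAB.nilp_comm p P ha ?_
      have h2 : orderOf (⟨k, hk⟩ : K) ∣ Nat.card K := orderOf_dvd_natCard _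
      rw [Subgroup.orderOf_mk] at h2
      exact ((Nat.Prime.coprime_iff_not_dvd hp).2 (fun h => hKc (dvd_trans h h2))).symm
    apply hna
    refine ⟨⟨fun g₁ g₂ => ?_⟩⟩
    obtain ⟨⟨k₁, a₁⟩, h₁, -⟩ := hc.existsUnique g₁
    obtain ⟨⟨k₂, a₂⟩, h₂, -⟩ := hc.existsUnique g₂
    simp only at h₁ h₂
    rw [← h₁, ← h₂]
    have e1 := hPK a₁ a₁.2 k₂ k₂.2
    have e2 := hPK a₂ a₂.2 k₁ k₁.2
    have e3 := hsub K hKne k₁ k₁.2 k₂ k₂.2
    have e4 := hsub P hPne a₁ a₁.2 a₂ a₂.2
    calc (k₁ : G) * a₁ * (k₂ * a₂) = k₁ * (a₁ * k₂) * a₂ := by group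
      _ = k₁ * k₂ * (a₁ * a₂) := by rw [e1]; group
      _ = k₂ * k₁ * (a₂ * a₁) := by rw [e3, e4]
      _ = k₂ * (a₂ * k₁) * a₁ := by rw [e2]; group
      _ = k₂ * a₂ * (k₁ * a₁) := by group
  · right
    obtain ⟨p, q, hp, hq, hpq, P, Q, hcyc, hQn, hsup⟩ := Cfsg.Agent.Lib.Schmidt.schmidt (G := G)
      ⟨hnil, fun H hH => nil_of_comm (h H hH)⟩
    refine ⟨p, q, hp, hq, hpq, P, Q, hcyc, hQn, ?_, hsup⟩
    haveI : Fact p.Prime := ⟨hp⟩
    haveI : Fact q.Prime := ⟨hq⟩
    have hord : ∀ (r : ℕ) (hr : r.Prime) (T : Subgroup G), IsPGroup r T → ∀ x ∈ T, ∃ k, orderOf x = r ^ k := by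
      intro r hr T hT x hx
      haveI : Fact r.Prime := ⟨hr⟩
      obtain ⟨m, hm⟩ := IsPGroup.iff_card.1 hT
      have h1 : orderOf (⟨x, hx⟩ : T) ∣ r ^ m := hm ▸ orderOf_dvd_natCard _
      rw [Subgroup.orderOf_mk] at h1
      obtain ⟨k, -, hk⟩ := (Nat.dvd_prime_pow hr).1 h1
      exact ⟨k, hk⟩
    have hQne : (Q : Subgroup G) ≠ ⊤ := by
      intro h0
      apply hnil
      have hqg : IsPGroup q G := by
        intro x
        obtain ⟨k, hk⟩ := Q.isPGroup' ⟨x, by rw [h0]; trivial⟩
        exact ⟨k, by simpa using congrArg Subtype.val hk⟩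
      exact hqg.isNilpotent
    have hQc := hsub Q hQne
    refine ⟨h Q hQne, ?_⟩
    by_contra hexp
    push_neg at hexp
    obtain ⟨x₀, hx₀, hx₀q⟩ := hexp
    let Ω : Subgroup G :=
      { carrier := {x | x ∈ (Q : Subgroup G) ∧ x ^ q = 1}
        mul_mem' := by
          rintro a b ⟨ha, ha1⟩ ⟨hb, hb1⟩
          refine ⟨mul_mem ha hb, ?_⟩
          have hc : Commute a b := hQc a ha b hb
          rw [hc.mul_pow, ha1, hb1, one_mul]
        one_mem' := ⟨one_mem _, one_pow _⟩
        inv_mem' := by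
          rintro a ⟨ha, ha1⟩
          exact ⟨inv_mem ha, by rw [inv_pow, ha1, inv_one]⟩ }
    haveI hΩn : Ω.Normal := by
      refine ⟨fun x hx g => ⟨hQn.conj_mem x hx.1 g, ?_⟩⟩
      rw [conj_pow, hx.2]
      simp
    have hΩP : (P : Subgroup G) ⊔ Ω ≠ ⊤ := by
      intro h0
      have hx₀' : x₀ ∈ ((P : Subgroup G) ⊔ Ω : Subgroup G) := by rw [h0]; trivial
      rw [← SetLike.mem_coe, Subgroup.mul_normal] at hx₀'
      obtain ⟨a, ha, w, hw, rfl⟩ := hx₀'
      have haQ : a ∈ (Q : Subgroup G) := by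
        have := mul_mem hx₀ (inv_mem hw.1)
        simpa using this
      obtain ⟨k, hk⟩ := hord p hp _ P.isPGroup' a ha
      obtain ⟨l, hl⟩ := hord q hq _ Q.isPGroup' a haQ
      have hcop : (p ^ k).Coprime (q ^ l) := Nat.Coprime.pow _ _ ((Nat.coprime_primes hp hq).2 hpq)
      rw [← hk, ← hl] at hcop
      have ha1 : a = 1 := orderOf_eq_one_iff.1 (Nat.coprime_self _ |>.1 hcop)
      apply hx₀q
      simpa [ha1] using hw.2
    have hcomm1 := hsub _ hΩP
    have hPQ : ∀ a ∈ (P : Subgroup G), ∀ x ∈ (Q : Subgroup G), a * x = x * a := by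
      intro a ha
      refine abelian_omega Q.isPGroup' hQc (Subgroup.normalizer_eq_top_iff.2 hQn ▸ Subgroup.mem_top a) ?_ ?_
      · obtain ⟨k, hk⟩ := hord p hp _ P.isPGroup' a ha
        rw [hk]
        exact Nat.Coprime.pow_left _ ((Nat.coprime_primes hp hq).2 hpq)
      · intro x hx hxq
        exact hcomm1 a (Subgroup.mem_sup_left ha) x (Subgroup.mem_sup_right ⟨hx, hxq⟩)
    apply hnil
    have hn := Cfsg.Agent.Lib.Carter.nilp_sup_of_commute hPQ P.isPGroup'.isNilpotent Q.isPGroup'.isNilpotent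
    rw [hsup] at hn
    exact nilpotent_of_mulEquiv Subgroup.topEquiv

theorem mem_normal_sylow {H : Type*} [Group H] [Finite H] {p : ℕ} [hp : Fact p.Prime] (S : Sylow p H)
    (hS : (S : Subgroup H).Normal) {x : H} {k : ℕ} (hx : orderOf x = p ^ k) : x ∈ (S : Subgroup H) := by
  have hz : IsPGroup p (Subgroup.zpowers x) := by
    apply IsPGroup.of_card (n := k)
    rw [Nat.card_zpowers, hx]
  obtain ⟨T, hT⟩ := hz.exists_le_sylow
  letI := Sylow.unique_of_normal S hS
  rw [Subsingleton.elim S T]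
  exact hT (Subgroup.mem_zpowers x)

/-- The quotient of a minimal non-nilpotent group by the derived subgroup of the normal Sylow subgroup
is minimal nonabelian. -/
theorem min_quot (hG : IsMinimalNonNilpotent G) (q : ℕ) [hqf : Fact q.Prime] (hq : q ∣ Nat.card G)
    (Q : Sylow q G) (hQ : (Q : Subgroup G).Normal) (D : Subgroup G) [hDn : D.Normal]
    (hD : D = (commutator ↥(Q : Subgroup G)).map (Q : Subgroup G).subtype) :
    ¬ IsMulCommutative (G ⧸ D) ∧ ∀ K : Subgroup (G ⧸ D), K ≠ ⊤ → IsMulCommutative K := by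
  classical
  obtain ⟨p, r, hp, hr, hpr, P, R, hcyc, hRn, hsup⟩ := Cfsg.Agent.Lib.Schmidt.schmidt hG
  haveI : Fact p.Prime := ⟨hp⟩
  haveI : Fact r.Prime := ⟨hr⟩
  have hord : ∀ (s : ℕ) (hs : s.Prime) (T : Subgroup G), IsPGroup s T → ∀ x ∈ T, ∃ k, orderOf x = s ^ k := by
    intro s hs T hT x hx
    haveI : Fact s.Prime := ⟨hs⟩
    obtain ⟨m, hm⟩ := IsPGroup.iff_card.1 hT
    have h1 : orderOf (⟨x, hx⟩ : T) ∣ s ^ m := hm ▸ orderOf_dvd_natCard _
    rw [Subgroup.orderOf_mk] at h1
    obtain ⟨k, -, hk⟩ := (Nat.dvd_prime_pow hs).1 h1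
    exact ⟨k, hk⟩
  have hdisj : ∀ {s t : ℕ} (hs : s.Prime) (ht : t.Prime) (hst : s ≠ t) (S T : Subgroup G), IsPGroup s S → IsPGroup t T →
      ∀ x, x ∈ S → x ∈ T → x = 1 := by
    intro s t hs ht hst S T hS hT x hxS hxT
    obtain ⟨k, hk⟩ := hord s hs S hS x hxS
    obtain ⟨l, hl⟩ := hord t ht T hT x hxT
    have hcop : (s ^ k).Coprime (t ^ l) := Nat.Coprime.pow _ _ ((Nat.coprime_primes hs ht).2 hst)
    rw [← hk, ← hl] at hcop
    exact orderOf_eq_one_iff.1 (Nat.coprime_self _ |>.1 hcop)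
  have hnilPR : ∀ {s : ℕ} (hs : s.Prime) (S : Subgroup G), IsPGroup s S → s ≠ r → S.Normal → S ⊔ (R : Subgroup G) = ⊤ → False := by
    intro s hs S hS hsr hSn hsupS
    haveI : Fact s.Prime := ⟨hs⟩
    have hc : ∀ a ∈ S, ∀ b ∈ (R : Subgroup G), a * b = b * a := by
      intro a ha b hb
      refine (Subgroup.commute_of_normal_of_disjoint S R hSn hRn ?_ a b ha hb)
      rw [Subgroup.disjoint_def]
      intro x hx1 hx2
      exact hdisj hs hr hsr S R hS R.isPGroup' x hx1 hx2
    have hn := Cfsg.Agent.Lib.Carter.nilp_sup_of_commute hc hS.isNilpotent R.isPGroup'.isNilpotent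
    rw [hsupS] at hn
    exact hG.1 (nilpotent_of_mulEquiv Subgroup.topEquiv)
  have hqr : q = r := by
    have hcd : Nat.card G = Nat.card (R : Subgroup G) * Nat.card (P : Subgroup G) := by
      have hdd : (R : Subgroup G) ⊓ P = ⊥ := by
        rw [eq_bot_iff]
        rintro x ⟨h1, h2⟩
        exact hdisj hr hp hpr.symm _ _ R.isPGroup' P.isPGroup' x h1 h2
      haveI := hRn
      have h1 := Cfsg.Agent.Lib.SchurZ.card_sup_of_disjoint (R : Subgroup G) (P : Subgroup G) hdd
      rw [sup_comm, hsup, Subgroup.card_top] at h1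
      exact h1
    by_contra hne
    have hqp : q ≠ p := by
      rintro rfl
      letI := Sylow.unique_of_normal Q hQ
      have : P = Q := Subsingleton.elim _ _
      exact hnilPR hp P P.isPGroup' hpr (this ▸ hQ) hsup
    have hd := hq
    rw [hcd, hqf.out.dvd_mul] at hd
    obtain ⟨m, hm⟩ := IsPGroup.iff_card.1 R.isPGroup'
    obtain ⟨m', hm'⟩ := IsPGroup.iff_card.1 P.isPGroup'
    rcases hd with h | h
    · rw [hm] at h
      exact hne ((Nat.prime_dvd_prime_iff_eq hqf.out hr).1 (hqf.out.dvd_of_dvd_pow h))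
    · rw [hm'] at h
      exact hqp ((Nat.prime_dvd_prime_iff_eq hqf.out hp).1 (hqf.out.dvd_of_dvd_pow h))
  subst hqr
  have hRQ : R = Q := by
    letI := Sylow.unique_of_normal Q hQ
    exact Subsingleton.elim _ _
  subst hRQ
  have hDQ : D ≤ (R : Subgroup G) := by
    rw [hD]; exact Subgroup.map_subtype_le _
  have hDne : D ≠ (R : Subgroup G) := by
    intro h0
    haveI : Nontrivial (R : Subgroup G) := (Subgroup.nontrivial_iff_ne_bot _).2 (R.ne_bot_of_dvd_card hq)
    haveI : Group.IsNilpotent (R : Subgroup G) := R.isPGroup'.isNilpotent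
    have h1 := IsSolvable.commutator_lt_top_of_nontrivial (R : Subgroup G)
    apply h1.ne
    rw [eq_top_iff]
    intro x _
    have hx : (x : G) ∈ D := h0 ▸ x.2
    rw [hD] at hx
    obtain ⟨y, hy, hye⟩ := hx
    have : y = x := Subtype.ext hye
    rwa [← this]
  have hcommD : ∀ x ∈ (R : Subgroup G), ∀ y ∈ (R : Subgroup G), x * y * x⁻¹ * y⁻¹ ∈ D := by
    intro x hx y hy
    rw [hD]
    refine ⟨⁅(⟨x, hx⟩ : (R : Subgroup G)), ⟨y, hy⟩⁆, ?_, ?_⟩
    · exact Subgroup.commutator_mem_commutator (Subgroup.mem_top _) (Subgroup.mem_top _)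
    · simp [commutatorElement_def]
  constructor
  · intro hcomm
    have hc : ∀ g x : G, g * x * g⁻¹ * x⁻¹ ∈ D := by
      intro g x
      have h1 := hcomm.is_comm.comm (g : G ⧸ D) (x : G ⧸ D)
      rw [← QuotientGroup.eq_one_iff]
      simp only [QuotientGroup.mk_mul, QuotientGroup.mk_inv]
      have h2 : (g : G ⧸ D) * x = x * g := h1
      rw [h2]
      group
    have hne : (P : Subgroup G) ⊔ D ≠ ⊤ := by
      intro h0
      apply hDne
      refine le_antisymm hDQ ?_
      intro x hx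
      have hx' : x ∈ ((P : Subgroup G) ⊔ D : Subgroup G) := by rw [h0]; trivial
      rw [← SetLike.mem_coe, Subgroup.mul_normal] at hx'
      obtain ⟨a, ha, d, hd, rfl⟩ := hx'
      have haR : a ∈ (R : Subgroup G) := by
        have := mul_mem hx (inv_mem (hDQ hd))
        simpa using this
      have ha1 := hdisj hp hr hpr _ _ P.isPGroup' R.isPGroup' a ha haR
      simpa [ha1] using hd
    haveI hnil := hG.2 _ hne
    have hPle : (P : Subgroup G) ≤ (P : Subgroup G) ⊔ D := le_sup_left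
    have htf : ∀ (s : ℕ) (_ : Fact s.Prime) (S : Sylow s ↥((P : Subgroup G) ⊔ D)), (S : Subgroup ↥((P : Subgroup G) ⊔ D)).Normal :=
      ((isNilpotent_of_finite_tfae (G := ↥((P : Subgroup G) ⊔ D))).out 0 3).1 hnil
    have hS := htf p ⟨hp⟩ (P.subtype hPle)
    have hPn : (P : Subgroup G).Normal := by
      refine ⟨fun x hx g => ?_⟩
      have hmem : g * x * g⁻¹ ∈ ((P : Subgroup G) ⊔ D : Subgroup G) := by
        have h1 : g * x * g⁻¹ = x * (x⁻¹ * (g * x * g⁻¹ * x⁻¹) * x) := by group
        rw [h1]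
        exact Subgroup.mul_mem_sup hx (hDn.conj_mem' _ (hc g x) x)
      obtain ⟨k, hk⟩ := hord p hp _ P.isPGroup' x hx
      have hor : orderOf (⟨g * x * g⁻¹, hmem⟩ : ↥((P : Subgroup G) ⊔ D)) = p ^ k := by
        rw [Subgroup.orderOf_mk, ← MulAut.conj_apply, MulEquiv.orderOf_eq, hk]
      have := mem_normal_sylow (P.subtype hPle) hS hor
      exact Subgroup.mem_subgroupOf.1 this
    exact hnilPR hp P P.isPGroup' hpr hPn hsup
  · intro K hK
    let π := QuotientGroup.mk' D
    have hπ : Function.Surjective π := QuotientGroup.mk'_surjective D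
    let L : Subgroup G := K.comap π
    have hL : L ≠ ⊤ := by
      intro h0
      apply hK
      have := Subgroup.map_comap_eq_self_of_surjective hπ K
      rw [← this]
      show L.map π = ⊤
      rw [h0, Subgroup.map_top_of_surjective π hπ]
    haveI hLnil := hG.2 L hL
    have htf : ∀ (s : ℕ) (_ : Fact s.Prime) (S : Sylow s L), (S : Subgroup L).Normal :=
      ((isNilpotent_of_finite_tfae (G := L)).out 0 3).1 hLnil
    let SL : Sylow p L := default
    have hSLn : (SL : Subgroup L).Normal := htf p ⟨hp⟩ SL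
    have hSLc : ∀ a ∈ (SL : Subgroup L), ∀ b ∈ (SL : Subgroup L), a * b = b * a := by
      obtain ⟨T, hT⟩ := (SL.isPGroup'.map L.subtype).exists_le_sylow
      obtain ⟨g, hg⟩ := MulAction.exists_smul_eq G T P
      have hPc : ∀ a ∈ (P : Subgroup G), ∀ b ∈ (P : Subgroup G), a * b = b * a := by
        letI := IsCyclic.commGroup (α := (P : Subgroup G))
        intro a ha b hb
        have := mul_comm (⟨a, ha⟩ : (P : Subgroup G)) ⟨b, hb⟩
        exact congrArg Subtype.val this
      intro a ha b hb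
      have ha' := Cfsg.Agent.Lib.H5Basic.conj_mem_smul_sylow T g (a : G) (hT ⟨a, ha, rfl⟩)
      have hb' := Cfsg.Agent.Lib.H5Basic.conj_mem_smul_sylow T g (b : G) (hT ⟨b, hb, rfl⟩)
      rw [hg] at ha' hb'
      have h1 := hPc _ ha' _ hb'
      apply Subtype.ext
      have h2 : g * ((a : G) * b) * g⁻¹ = g * ((b : G) * a) * g⁻¹ := by
        calc g * ((a : G) * b) * g⁻¹ = (g * a * g⁻¹) * (g * b * g⁻¹) := by group
          _ = (g * b * g⁻¹) * (g * a * g⁻¹) := h1
          _ = g * ((b : G) * a) * g⁻¹ := by group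
      have h3 := mul_left_cancel (mul_right_cancel h2)
      simpa using h3
    have hkey : ∀ x ∈ L, ∀ y ∈ L, π x * π y = π y * π x := by
      intro x hx y hy
      obtain ⟨u, z, hxe, hc1, hu, ⟨k, hk⟩, huz, hzz⟩ := Cfsg.Agent.Lib.PResidual.exists_decomp (p := p) x
      obtain ⟨v, w, hye, hc2, hv, ⟨l, hl⟩, hvz, hwz⟩ := Cfsg.Agent.Lib.PResidual.exists_decomp (p := p) y
      have hzpx : Subgroup.zpowers x ≤ L := Subgroup.zpowers_le.2 hx
      have hzpy : Subgroup.zpowers y ≤ L := Subgroup.zpowers_le.2 hy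
      have hcommL : ∀ a ∈ L, ∀ b ∈ L, (orderOf a).Coprime (orderOf b) → a * b = b * a := by
        intro a ha b hb hab
        have h1 := Cfsg.Agent.Lib.TypeP.nilp_comm_coprime (N := L) _ ⟨a, ha⟩ rfl ⟨b, hb⟩ (by
          simpa [Subgroup.orderOf_mk] using hab)
        exact congrArg Subtype.val h1
      have hzw : z * w = w * z := by
        have h1 : (⟨z, hzpx hzz⟩ : L) ∈ (SL : Subgroup L) :=
          mem_normal_sylow SL hSLn (k := k) (by rw [Subgroup.orderOf_mk]; exact hk)
        have h2 : (⟨w, hzpy hwz⟩ : L) ∈ (SL : Subgroup L) :=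
          mem_normal_sylow SL hSLn (k := l) (by rw [Subgroup.orderOf_mk]; exact hl)
        exact congrArg Subtype.val (hSLc _ h1 _ h2)
      have hzv : z * v = v * z := hcommL z (hzpx hzz) v (hzpy hvz) (by
        rw [hk]; exact Nat.Coprime.pow_left _ hv.symm)
      have huw : u * w = w * u := hcommL u (hzpx huz) w (hzpy hwz) (by
        rw [hl]; exact Nat.Coprime.pow_right _ hu)
      -- `u`, `v` lie in `R`
      have hqel : ∀ t : G, (orderOf t).Coprime p → t ∈ (R : Subgroup G) := by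
        intro t ht
        have hcd : Nat.card G = Nat.card (R : Subgroup G) * Nat.card (P : Subgroup G) := by
          have hdd : (R : Subgroup G) ⊓ P = ⊥ := by
            rw [eq_bot_iff]
            rintro x ⟨h1, h2⟩
            exact hdisj hr hp hpr.symm _ _ R.isPGroup' P.isPGroup' x h1 h2
          haveI := hRn
          have h1 := Cfsg.Agent.Lib.SchurZ.card_sup_of_disjoint (R : Subgroup G) (P : Subgroup G) hdd
          rw [sup_comm, hsup, Subgroup.card_top] at h1
          exact h1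
        obtain ⟨m, hm⟩ := IsPGroup.iff_card.1 R.isPGroup'
        obtain ⟨m', hm'⟩ := IsPGroup.iff_card.1 P.isPGroup'
        have h1 : orderOf t ∣ Nat.card G := orderOf_dvd_natCard t
        rw [hcd, hm, hm'] at h1
        have h2 : orderOf t ∣ q ^ m := (Nat.Coprime.pow_right m' ht).dvd_of_dvd_mul_right h1
        obtain ⟨k', -, hk'⟩ := (Nat.dvd_prime_pow hr).1 h2
        exact mem_normal_sylow R hRn hk'
      have huv := hcommD u (hqel u hu) v (hqel v hv)
      have huv' : π u * π v = π v * π u := by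
        have h1 : π (u * v * u⁻¹ * v⁻¹) = 1 := (QuotientGroup.eq_one_iff _).2 huv
        simp only [map_mul, map_inv] at h1
        have h3 : π u * π v * (π u)⁻¹ = π v := mul_inv_eq_one.1 h1
        exact mul_inv_eq_iff_eq_mul.1 h3
      have hzw' : π z * π w = π w * π z := by rw [← map_mul, hzw, map_mul]
      have hzv' : π z * π v = π v * π z := by rw [← map_mul, hzv, map_mul]
      have huw' : π u * π w = π w * π u := by rw [← map_mul, huw, map_mul]
      rw [hxe, hye, map_mul, map_mul]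
      calc π u * π z * (π v * π w) = π u * (π z * π v) * π w := by group
        _ = π u * π v * (π z * π w) := by rw [hzv']; group
        _ = π v * π u * (π w * π z) := by rw [huv', hzw']
        _ = π v * (π u * π w) * π z := by group
        _ = π v * π w * (π u * π z) := by rw [huw']; group
    refine ⟨⟨fun a b => ?_⟩⟩
    apply Subtype.ext
    obtain ⟨x, hx⟩ := hπ (a : G ⧸ D)
    obtain ⟨y, hy⟩ := hπ (b : G ⧸ D)
    have hxL : x ∈ L := by
      show π x ∈ K
      rw [hx]; exact a.2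
    have hyL : y ∈ L := by
      show π y ∈ K
      rw [hy]; exact b.2
    show (a : G ⧸ D) * b = b * a
    rw [← hx, ← hy]
    exact hkey x hxL y hyL

end Cfsg.Agent.Lib.MinNonab
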