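import Mathlib

/-! Elementary tools for multiply transitive actions: prescribing an element on a finite set. -/

set_option autoImplicit false
set_option linter.all false

namespace Cfsg.Agent.Lib.MultTrans

open MulAction

variable {A α : Type*} [Group A] [MulAction A α] [Fintype α] [DecidableEq α]

/-- A `m`-transitive action can realise any injective map on a set of at most `m` points. -/
theorem lift_map {m : ℕ} (hT : IsMultiplyPretransitive A α m) (hm : m ≤ Fintype.card α) (D : Finset α)
    (hD : D.card ≤ m) (f : α → α) (hf : Set.InjOn f D) : ∃ g : A, ∀ x ∈ D, g • x = f x := by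
  classical
  have hT' : IsMultiplyPretransitive A α D.card :=
    isMultiplyPretransitive_of_le (n := m) hD (by rwa [Nat.card_eq_fintype_card])
  let E := D.equivFin
  let x : Fin D.card ↪ α := ⟨fun i => (E.symm i).1, fun i j h => E.symm.injective (Subtype.ext h)⟩
  let y : Fin D.card ↪ α := ⟨fun i => f (E.symm i).1, fun i j h => by
    have h1 := hf (E.symm i).2 (E.symm j).2 h
    exact E.symm.injective (Subtype.ext h1)⟩
  obtain ⟨g, hg⟩ := hT'.exists_smul_eq x y
  refine ⟨g, fun w hw => ?_⟩
  have h1 := DFunLike.congr_fun hg (E ⟨w, hw⟩)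
  have h2 : x (E ⟨w, hw⟩) = w := by
    show ((E.symm (E ⟨w, hw⟩)) : α) = w
    rw [Equiv.symm_apply_apply]
  have h3 : y (E ⟨w, hw⟩) = f w := by
    show f ((E.symm (E ⟨w, hw⟩)) : α) = f w
    rw [Equiv.symm_apply_apply]
  have h4 : (g • x) (E ⟨w, hw⟩) = g • (x (E ⟨w, hw⟩)) := rfl
  rw [h4, h2, h3] at h1
  exact h1

/-- Fix `s` pointwise and move two points. -/
theorem two_off {m : ℕ} (hT : IsMultiplyPretransitive A α m) (hm : m ≤ Fintype.card α) (s : Finset α)
    (hs : s.card + 2 ≤ m) (a b c d : α) (ha : a ∉ s) (hb : b ∉ s) (hc : c ∉ s) (hd : d ∉ s) (hab : a ≠ b) (hcd : c ≠ d) :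
    ∃ g : A, (∀ x ∈ s, g • x = x) ∧ g • a = c ∧ g • b = d := by
  classical
  let f : α → α := fun x => if x = a then c else if x = b then d else x
  have hfa : f a = c := if_pos rfl
  have hfb : f b = d := by simp [f, hab.symm]
  have hfs : ∀ x ∈ s, f x = x := by
    intro x hx
    have h1 : x ≠ a := fun h => ha (h ▸ hx)
    have h2 : x ≠ b := fun h => hb (h ▸ hx)
    simp [f, h1, h2]
  let D : Finset α := insert a (insert b s)
  have hD : D.card ≤ m := by
    calc D.card ≤ (insert b s).card + 1 := Finset.card_insert_le _ _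
      _ ≤ s.card + 1 + 1 := by
        have := Finset.card_insert_le b s
        omega
      _ ≤ m := by omega
  have hinj : Set.InjOn f D := by
    intro x hx y hy he
    simp only [D, Finset.coe_insert, Set.mem_insert_iff, Finset.mem_coe] at hx hy
    rcases hx with rfl | rfl | hx <;> rcases hy with rfl | rfl | hy
    · rfl
    · rw [hfa, hfb] at he
      exact absurd he hcd
    · rw [hfa, hfs y hy] at he
      exact absurd (he ▸ hy) hc
    · rw [hfa, hfb] at he
      exact absurd he.symm hcd
    · rfl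
    · rw [hfb, hfs y hy] at he
      exact absurd (he ▸ hy) hd
    · rw [hfs x hx, hfa] at he
      exact absurd (he ▸ hx) hc
    · rw [hfs x hx, hfb] at he
      exact absurd (he ▸ hx) hd
    · rwa [hfs x hx, hfs y hy] at he
  obtain ⟨g, hg⟩ := lift_map hT hm D hD f hinj
  refine ⟨g, fun x hx => ?_, ?_, ?_⟩
  · rw [hg x (by simp [D, hx]), hfs x hx]
  · rw [hg a (by simp [D]), hfa]
  · rw [hg b (by simp [D]), hfb]

/-- Single-coordinate extension of multiple transitivity. -/
theorem tuple_step {j : ℕ} (hj : IsMultiplyPretransitive A α j)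
    (h : ∀ s : Finset α, s.card = j → ∀ y z : α, y ∉ s → z ∉ s → ∃ m : A, (∀ x ∈ s, m • x = x) ∧ m • y = z) :
    IsMultiplyPretransitive A α (j + 1) := by
  classical
  refine ⟨fun x y => ?_⟩
  let x' : Fin j ↪ α := Fin.castSuccEmb.trans x
  let y' : Fin j ↪ α := Fin.castSuccEmb.trans y
  obtain ⟨n₁, hn₁⟩ := hj.exists_smul_eq x' y'
  have hn₁i : ∀ i : Fin j, n₁ • x i.castSucc = y i.castSucc := fun i => DFunLike.congr_fun hn₁ i
  let s : Finset α := Finset.univ.image y'
  have hs : s.card = j := by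
    rw [Finset.card_image_of_injective _ y'.injective]
    simp
  have hp : n₁ • x (Fin.last j) ∉ s := by
    intro h
    obtain ⟨i, -, hi⟩ := Finset.mem_image.1 h
    have h1 : y' i = n₁ • x i.castSucc := (hn₁i i).symm
    rw [h1] at hi
    have h2 := x.injective (MulAction.injective n₁ hi)
    exact absurd h2 (Fin.castSucc_lt_last i).ne
  have hq : y (Fin.last j) ∉ s := by
    intro h
    obtain ⟨i, -, hi⟩ := Finset.mem_image.1 h
    have h2 := y.injective hi
    exact absurd h2 (Fin.castSucc_lt_last i).ne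
  obtain ⟨m, hm1, hm2⟩ := h s hs _ _ hp hq
  refine ⟨m * n₁, ?_⟩
  ext i
  refine Fin.lastCases ?_ (fun i => ?_) i
  · show (m * n₁) • x (Fin.last j) = y (Fin.last j)
    rw [mul_smul, hm2]
  · show (m * n₁) • x i.castSucc = y i.castSucc
    rw [mul_smul, hn₁i]
    exact hm1 _ (Finset.mem_image.2 ⟨i, Finset.mem_univ _, rfl⟩)

/-- In a `j`-transitive action, triviality of one `j`-point pointwise stabiliser spreads to all. -/
theorem sharp_spread {j : ℕ} (hj : IsMultiplyPretransitive A α j) (hc : j ≤ Fintype.card α) (s₀ : Finset α) (hs₀ : s₀.card = j)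
    (h₀ : ∀ m : A, (∀ x ∈ s₀, m • x = x) → m = 1) :
    ∀ s : Finset α, s.card = j → ∀ m : A, (∀ x ∈ s, m • x = x) → m = 1 := by
  classical
  intro s hs m hm
  -- a bijection from `s₀` to `s`
  have hcard : s₀.card = s.card := by rw [hs₀, hs]
  let e : s₀ ≃ s := Finset.equivOfCardEq hcard
  let f : α → α := fun x => if h : x ∈ s₀ then (e ⟨x, h⟩ : α) else x
  have hf : Set.InjOn f s₀ := by
    intro x hx y hy he
    have hx' : x ∈ s₀ := hx
    have hy' : y ∈ s₀ := hy
    simp only [f, hx', hy', dif_pos] at he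
    have := e.injective (Subtype.ext he)
    exact congrArg Subtype.val this
  obtain ⟨n, hn⟩ := lift_map hj hc s₀ hs₀.le f hf
  have hns : ∀ x ∈ s₀, n • x ∈ s := by
    intro x hx
    rw [hn x hx]
    simp only [f, hx, dif_pos]
    exact (e ⟨x, hx⟩).2
  have h1 : n⁻¹ * m * n = 1 := by
    apply h₀
    intro x hx
    rw [mul_smul, mul_smul, hm _ (hns x hx), inv_smul_smul]
  calc m = n * (n⁻¹ * m * n) * n⁻¹ := by group
    _ = 1 := by rw [h1]; group

/-- A non-trivial element of a normal subgroup fixing `s` pointwise makes it transitive off `s`. -/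
theorem normal_step {m : ℕ} (hT : IsMultiplyPretransitive A α m) (hm : m ≤ Fintype.card α) (N : Subgroup A) (hN : N.Normal)
    (s : Finset α) (hs : s.card + 2 ≤ m) (n : A) (hnN : n ∈ N) (hns : ∀ x ∈ s, n • x = x) (x : α) (hx : n • x ≠ x)
    (y z : α) (hy : y ∉ s) (hz : z ∉ s) : ∃ k ∈ N, (∀ v ∈ s, k • v = v) ∧ k • y = z := by
  classical
  by_cases hyz : y = z
  · exact ⟨1, N.one_mem, fun v _ => one_smul _ _, by rw [hyz, one_smul]⟩
  have hxs : x ∉ s := fun h => hx (hns x h)
  have hxs' : n • x ∉ s := by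
    intro h
    have h1 := hns _ h
    exact hx (MulAction.injective n h1)
  obtain ⟨g, hg1, hg2, hg3⟩ := two_off hT hm s hs x (n • x) y z hxs hxs' hy hz hx.symm hyz
  refine ⟨g * n * g⁻¹, hN.conj_mem n hnN g, fun v hv => ?_, ?_⟩
  · have h1 : g⁻¹ • v = v := by rw [inv_smul_eq_iff, hg1 v hv]
    rw [mul_smul, mul_smul, h1, hns v hv, hg1 v hv]
  · have h1 : g⁻¹ • y = x := by rw [inv_smul_eq_iff, hg2]
    rw [mul_smul, mul_smul, h1, hg3]

end Cfsg.Agent.Lib.MultTrans
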