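import Mathlib
import Cfsg.Prelude.Def_LocalEven
import Cfsg.Agent.Lib.GL2Sylow

/-! Coordinates for a natural `SL₂(F)`-module inside a group. -/

set_option autoImplicit false
set_option linter.all false

namespace Cfsg.Agent.Lib.NatSL2

open Cfsg Subgroup Cfsg.Agent.Lib.GL2Sylow
open scoped MatrixGroups

variable {G : Type*} [Group G] {F : Type*} [Field F]

/-- Coordinates on `V` and `L`, with `T` the upper unitriangular group. -/
structure NatData (F : Type*) [Field F] (V L T : Subgroup G) where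
  vv : (Fin 2 → F) → G
  ρ : ↥L ≃* SL(2, F)
  vv_mem : ∀ u, vv u ∈ V
  vv_add : ∀ u w, vv (u + w) = vv u * vv w
  vv_surj : ∀ v ∈ V, ∃ u, v = vv u
  vv_inj : Function.Injective vv
  act : ∀ (l : ↥L) (u : Fin 2 → F), (l : G) * vv u * (l : G)⁻¹ =
    vv ((ρ l : Matrix (Fin 2) (Fin 2) F).mulVec u)
  T_iff : ∀ t : G, t ∈ T ↔ ∃ l : ↥L, (l : G) = t ∧ ∃ a, ρ l = uniS a

theorem mulVec_mul' (B C : SL(2, F)) (u : Fin 2 → F) :
    ((B * C : SL(2, F)) : Matrix (Fin 2) (Fin 2) F).mulVec u =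
      (B : Matrix (Fin 2) (Fin 2) F).mulVec ((C : Matrix (Fin 2) (Fin 2) F).mulVec u) := by
  rw [Matrix.SpecialLinearGroup.coe_mul, Matrix.mulVec_mulVec]

theorem mulVec_one' (u : Fin 2 → F) :
    ((1 : SL(2, F)) : Matrix (Fin 2) (Fin 2) F).mulVec u = u := by
  rw [Matrix.SpecialLinearGroup.coe_one, Matrix.one_mulVec]

theorem exists_natData {p n : ℕ} [Fact p.Prime] [Fintype F] (hF : Fintype.card F = p ^ n)
    (V L : Subgroup G) [Finite ↥L] (hnat : IsNaturalSL2Module F V L) (hf : L ⊓ centralizer (V : Set G) = ⊥)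
    (S : Sylow p ↥L) (T : Subgroup G) (hT : T = (S : Subgroup ↥L).map L.subtype) :
    Nonempty (NatData F V L T) := by
  classical
  obtain ⟨hLV, ρ₀, ψ, hsurj, hker, hact⟩ := hnat
  have hn : n ≠ 0 := by
    rintro rfl
    rw [pow_zero] at hF
    have := Fintype.one_lt_card (α := F)
    omega
  haveI : CharP F p := by
    apply (CharP.charP_iff_prime_eq_zero Fact.out).2
    have h1 : ((Fintype.card F : ℕ) : F) = 0 := Nat.cast_card_eq_zero F
    rw [hF, Nat.cast_pow] at h1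
    exact (pow_eq_zero_iff hn).1 h1
  have hinj : Function.Injective ρ₀ := by
    rw [injective_iff_map_eq_one]
    intro l hl
    have h1 : l ∈ ρ₀.ker := hl
    rw [hker] at h1
    have h2 : (l : G) ∈ L ⊓ centralizer (V : Set G) := ⟨l.2, h1⟩
    rw [hf] at h2
    exact Subtype.ext (Subgroup.mem_bot.1 h2)
  obtain ⟨US', hUS'⟩ := exists_sylow_eq_US (F := F) p
  obtain ⟨g, hg⟩ := MulAction.exists_smul_eq (SL(2, F)) US' (S.mapSurjective hsurj)
  have hU₁ : (S : Subgroup ↥L).map ρ₀ = (US : Subgroup (SL(2, F))).map (MulAut.conj g).toMonoidHom := by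
    have h1 : ((S.mapSurjective hsurj : Sylow p _) : Subgroup (SL(2, F))) =
        (US' : Subgroup (SL(2, F))).map (MulAut.conj g).toMonoidHom := by
      rw [← hg]; rfl
    rw [hUS'] at h1
    exact h1
  let ρ₁ : ↥L →* SL(2, F) := (MulAut.conj g⁻¹).toMonoidHom.comp ρ₀
  have hρ₁ : ∀ l, ρ₁ l = g⁻¹ * ρ₀ l * g := by
    intro l
    show g⁻¹ * ρ₀ l * g⁻¹⁻¹ = _
    rw [inv_inv]
  have hbij : Function.Bijective ρ₁ := by
    constructor
    · intro a b h
      rw [hρ₁, hρ₁] at h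
      apply hinj
      simpa using h
    · intro B
      obtain ⟨l, hl⟩ := hsurj (g * B * g⁻¹)
      refine ⟨l, ?_⟩
      rw [hρ₁, hl]
      group
  have hact' : ∀ (l : ↥L) (v : ↥V), (l : G) * (v : G) * (l : G)⁻¹ =
      ((ψ.symm ((ρ₀ l : Matrix (Fin 2) (Fin 2) F).mulVec (ψ (Additive.ofMul v)))).toMul : ↥V) := by
    intro l v
    obtain ⟨w, hw, hψ⟩ := hact l v
    rw [← hw, ← hψ]
    simp
  refine ⟨{ vv := fun u => ((ψ.symm ((g : Matrix (Fin 2) (Fin 2) F).mulVec u)).toMul : ↥V)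
            ρ := MulEquiv.ofBijective ρ₁ hbij
            vv_mem := fun u => Subtype.property _
            vv_add := ?_
            vv_surj := ?_
            vv_inj := ?_
            act := ?_
            T_iff := ?_ }⟩
  · intro u w
    rw [Matrix.mulVec_add, map_add]
    rfl
  · intro v hv
    refine ⟨((g⁻¹ : SL(2, F)) : Matrix (Fin 2) (Fin 2) F).mulVec (ψ (Additive.ofMul ⟨v, hv⟩)), ?_⟩
    rw [← mulVec_mul', mul_inv_cancel, mulVec_one', AddEquiv.symm_apply_apply]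
    rfl
  · intro u u' h
    have h1 := Subtype.ext h
    have h2 : ψ.symm ((g : Matrix (Fin 2) (Fin 2) F).mulVec u) = ψ.symm ((g : Matrix (Fin 2) (Fin 2) F).mulVec u') :=
      Additive.toMul.injective h1
    have h3 := ψ.symm.injective h2
    have h4 := congrArg (fun x => ((g⁻¹ : SL(2, F)) : Matrix (Fin 2) (Fin 2) F).mulVec x) h3
    simp only [← mulVec_mul', inv_mul_cancel, mulVec_one'] at h4
    exact h4
  · intro l u
    have h1 := hact' l ((ψ.symm ((g : Matrix (Fin 2) (Fin 2) F).mulVec u)).toMul)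
    refine h1.trans ?_
    have h2 : (ρ₀ l : Matrix (Fin 2) (Fin 2) F).mulVec (ψ (Additive.ofMul ((ψ.symm ((g : Matrix (Fin 2) (Fin 2) F).mulVec u)).toMul))) =
        (g : Matrix (Fin 2) (Fin 2) F).mulVec ((MulEquiv.ofBijective ρ₁ hbij l : Matrix (Fin 2) (Fin 2) F).mulVec u) := by
      have h3 : MulEquiv.ofBijective ρ₁ hbij l = g⁻¹ * ρ₀ l * g := hρ₁ l
      rw [h3, ← mulVec_mul']
      have h4 : g * (g⁻¹ * ρ₀ l * g) = ρ₀ l * g := by group
      rw [h4, mulVec_mul']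
      simp
    rw [h2]
  · intro t
    rw [hT]
    constructor
    · rintro ⟨l, hl, rfl⟩
      refine ⟨l, rfl, ?_⟩
      have h1 : ρ₀ l ∈ (S : Subgroup ↥L).map ρ₀ := ⟨l, hl, rfl⟩
      rw [hU₁] at h1
      obtain ⟨u, hu, hul⟩ := h1
      obtain ⟨a, rfl⟩ := mem_US.1 hu
      refine ⟨a, ?_⟩
      show ρ₁ l = _
      rw [hρ₁, ← hul]
      show g⁻¹ * (g * uniS a * g⁻¹) * g = _
      group
    · rintro ⟨l, rfl, a, ha⟩
      have h1 : ρ₀ l ∈ (S : Subgroup ↥L).map ρ₀ := by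
        rw [hU₁]
        refine ⟨uniS a, uniS_mem a, ?_⟩
        have h2 : g⁻¹ * ρ₀ l * g = uniS a := (hρ₁ l).symm.trans ha
        show g * uniS a * g⁻¹ = ρ₀ l
        rw [← h2]
        group
      obtain ⟨l', hl', hll⟩ := h1
      have h3 := hinj hll
      subst h3
      exact ⟨l', hl', rfl⟩

namespace NatData

variable {V L T : Subgroup G} (D : NatData F V L T)
include D

theorem vv_zero : D.vv 0 = 1 := by
  have := D.vv_add 0 0
  rw [add_zero] at this
  exact (mul_eq_left.1 this.symm)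

theorem vv_neg (u : Fin 2 → F) : D.vv (-u) = (D.vv u)⁻¹ := by
  rw [eq_inv_iff_mul_eq_one, ← D.vv_add, neg_add_cancel, D.vv_zero]

theorem vv_sub (u w : Fin 2 → F) : D.vv (u - w) = D.vv u * (D.vv w)⁻¹ := by
  rw [sub_eq_add_neg, D.vv_add, D.vv_neg]

theorem vv_comm (u w : Fin 2 → F) : D.vv u * D.vv w = D.vv w * D.vv u := by
  rw [← D.vv_add, ← D.vv_add, add_comm]

omit D in
/-- Elements of `L`. -/
noncomputable def ll (D : NatData F V L T) (B : SL(2, F)) : G := (D.ρ.symm B : ↥L)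

theorem ll_mem (B : SL(2, F)) : D.ll B ∈ L := Subtype.property _

theorem ll_mul (B C : SL(2, F)) : D.ll (B * C) = D.ll B * D.ll C := by
  unfold ll
  rw [map_mul]
  rfl

theorem ll_one : D.ll 1 = 1 := by
  unfold ll
  rw [map_one]
  rfl

theorem ll_inv (B : SL(2, F)) : D.ll B⁻¹ = (D.ll B)⁻¹ := by
  unfold ll
  rw [map_inv]
  rfl

theorem ll_pow (B : SL(2, F)) (n : ℕ) : D.ll (B ^ n) = (D.ll B) ^ n := by
  unfold ll
  rw [map_pow]
  rfl

theorem ll_inj {B C : SL(2, F)} (h : D.ll B = D.ll C) : B = C :=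
  D.ρ.symm.injective (Subtype.ext h)

theorem act' (B : SL(2, F)) (u : Fin 2 → F) :
    D.ll B * D.vv u * (D.ll B)⁻¹ = D.vv ((B : Matrix (Fin 2) (Fin 2) F).mulVec u) := by
  have h := D.act (D.ρ.symm B) u
  rw [MulEquiv.apply_symm_apply] at h
  exact h

theorem mem_L_iff {x : G} : x ∈ L ↔ ∃ B, x = D.ll B := by
  constructor
  · intro hx
    refine ⟨D.ρ ⟨x, hx⟩, ?_⟩
    unfold ll
    rw [MulEquiv.symm_apply_apply]
  · rintro ⟨B, rfl⟩
    exact D.ll_mem B

theorem mem_T_iff {t : G} : t ∈ T ↔ ∃ a, t = D.ll (uniS a) := by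
  rw [D.T_iff]
  constructor
  · rintro ⟨l, rfl, a, ha⟩
    refine ⟨a, ?_⟩
    unfold ll
    rw [← ha, MulEquiv.symm_apply_apply]
  · rintro ⟨a, rfl⟩
    refine ⟨D.ρ.symm (uniS a), rfl, a, ?_⟩
    rw [MulEquiv.apply_symm_apply]

theorem comm_vv_ll (u : Fin 2 → F) (B : SL(2, F)) :
    D.vv u * D.ll B * (D.vv u)⁻¹ * (D.ll B)⁻¹ = D.vv (u - (B : Matrix (Fin 2) (Fin 2) F).mulVec u) := by
  rw [D.vv_sub, ← D.act']
  group

omit D in
theorem uniS_mulVec (a : F) (u : Fin 2 → F) :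
    ((uniS a : SL(2, F)) : Matrix (Fin 2) (Fin 2) F).mulVec u = ![u 0 + a * u 1, u 1] := by
  rw [uniS_coe]
  ext i
  fin_cases i <;> simp [Matrix.mulVec, dotProduct, Fin.sum_univ_two]

omit D in
theorem sub_uniS (a : F) (u : Fin 2 → F) :
    u - ((uniS a : SL(2, F)) : Matrix (Fin 2) (Fin 2) F).mulVec u = ![-(a * u 1), 0] := by
  rw [uniS_mulVec]
  ext i
  fin_cases i <;> simp

theorem comm_T (u : Fin 2 → F) (a : F) :
    D.vv u * D.ll (uniS a) * (D.vv u)⁻¹ * (D.ll (uniS a))⁻¹ = D.vv ![-(a * u 1), 0] := by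
  rw [D.comm_vv_ll, sub_uniS]

theorem comm_iff (u : Fin 2 → F) (B : SL(2, F)) :
    D.ll B * D.vv u = D.vv u * D.ll B ↔ (B : Matrix (Fin 2) (Fin 2) F).mulVec u = u := by
  constructor
  · intro h
    apply D.vv_inj
    rw [← D.act', h]
    group
  · intro h
    have h1 := D.act' B u
    rw [h, mul_inv_eq_iff_eq_mul] at h1
    exact h1

theorem vec_ext (u : Fin 2 → F) : u = ![u 0, u 1] := by
  ext i
  fin_cases i <;> rfl

theorem mem_CVT_iff {x : G} : x ∈ V ⊓ centralizer (T : Set G) ↔ ∃ c, x = D.vv ![c, 0] := by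
  constructor
  · rintro ⟨hx, hxT⟩
    obtain ⟨u, rfl⟩ := D.vv_surj x hx
    have h1 := mem_centralizer_iff.1 hxT (D.ll (uniS 1)) (D.mem_T_iff.2 ⟨1, rfl⟩)
    have h2 := (D.comm_iff u (uniS 1)).1 h1
    rw [uniS_mulVec] at h2
    have h3 := congrFun h2 0
    simp at h3
    refine ⟨u 0, ?_⟩
    congr 1
    ext i
    fin_cases i
    · rfl
    · exact h3
  · rintro ⟨c, rfl⟩
    refine ⟨D.vv_mem _, mem_centralizer_iff.2 ?_⟩
    intro t ht
    obtain ⟨a, rfl⟩ := D.mem_T_iff.1 ht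
    apply (D.comm_iff _ _).2
    rw [uniS_mulVec]
    ext i
    fin_cases i <;> simp

theorem mem_CVs_iff {a : F} (ha : a ≠ 0) {x : G} :
    x ∈ V ⊓ centralizer ({D.ll (uniS a)} : Set G) ↔ ∃ c, x = D.vv ![c, 0] := by
  constructor
  · rintro ⟨hx, hxT⟩
    obtain ⟨u, rfl⟩ := D.vv_surj x hx
    have h1 := mem_centralizer_iff.1 hxT (D.ll (uniS a)) rfl
    have h2 := (D.comm_iff u (uniS a)).1 h1
    rw [uniS_mulVec] at h2
    have h3 := congrFun h2 0
    simp [ha] at h3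
    refine ⟨u 0, ?_⟩
    congr 1
    ext i
    fin_cases i
    · rfl
    · exact h3
  · rintro ⟨c, rfl⟩
    refine ⟨D.vv_mem _, mem_centralizer_iff.2 ?_⟩
    rintro t rfl
    apply (D.comm_iff _ _).2
    rw [uniS_mulVec]
    ext i
    fin_cases i <;> simp

theorem mem_normalizer_T {B : SL(2, F)} (h : B 1 0 = 0) : D.ll B ∈ normalizer (T : Set G) := by
  have key : ∀ C : SL(2, F), C 1 0 = 0 → ∀ t ∈ T, D.ll C * t * (D.ll C)⁻¹ ∈ T := by
    intro C hC t ht
    obtain ⟨a, rfl⟩ := D.mem_T_iff.1 ht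
    rw [← D.ll_inv, ← D.ll_mul, ← D.ll_mul]
    apply D.mem_T_iff.2
    rw [mul_uniS_of_entry hC]
    refine ⟨C 0 0 * a / C 1 1, ?_⟩
    congr 1
    group
  rw [mem_normalizer_iff]
  intro t
  constructor
  · exact key B h t
  · intro ht
    have h1 := key B⁻¹ (invS_entry h) _ ht
    rw [D.ll_inv] at h1
    simpa [mul_assoc] using h1

end NatData

/-- The diagonal element. -/
noncomputable def torus (a : F) (ha : a ≠ 0) : SL(2, F) :=
  ⟨!![a, 0; 0, a⁻¹], by
    rw [Matrix.det_fin_two_of]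
    field_simp
    ring⟩

theorem torus_entry (a : F) (ha : a ≠ 0) : (torus a ha) 1 0 = 0 := rfl

theorem torus_mulVec (a : F) (ha : a ≠ 0) (u : Fin 2 → F) :
    ((torus a ha : SL(2, F)) : Matrix (Fin 2) (Fin 2) F).mulVec u = ![a * u 0, a⁻¹ * u 1] := by
  show (!![a, 0; 0, a⁻¹] : Matrix (Fin 2) (Fin 2) F).mulVec u = _
  ext i
  fin_cases i <;> simp [Matrix.mulVec, dotProduct, Fin.sum_univ_two]

theorem uniS_pow (a : F) (n : ℕ) : (uniS a : SL(2, F)) ^ n = uniS ((n : F) * a) := by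
  induction n with
  | zero =>
    simp only [pow_zero, Nat.cast_zero, zero_mul]
    exact (uniSHom (F := F)).map_one.symm
  | succ n ih =>
    rw [pow_succ, ih]
    have h1 : uniS ((n : F) * a) * uniS a = uniS ((n : F) * a + a) :=
      (Matrix.SpecialLinearGroup.transvection_add _ _ _).symm
    rw [h1]
    congr 1
    push_cast
    ring

end Cfsg.Agent.Lib.NatSL2
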