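/-
The number of nilpotent matrices over a finite field (Fine and Herstein), through the Fitting decomposition.
-/
import Mathlib
import Cfsg.Agent.Lib.SylowCount
import Cfsg.Agent.Lib.JordanNil
import Cfsg.Agent.Lib.FlagCount

set_option autoImplicit false
set_option linter.all false

open scoped MatrixGroups Matrix
open Module

namespace Cfsg.Agent.Lib.NilCount

variable {F : Type*} [Field F] {k l : ℕ}

abbrev II (k l : ℕ) := Fin k ⊕ Fin l

/-- The block diagonal matrix. -/
abbrev dg (N : Matrix (Fin k) (Fin k) F) (B : Matrix (Fin l) (Fin l) F) : Matrix (II k l) (II k l) F :=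
  Matrix.fromBlocks N 0 0 B

theorem dg_mul (N N' : Matrix (Fin k) (Fin k) F) (B B' : Matrix (Fin l) (Fin l) F) :
    dg N B * dg N' B' = dg (N * N') (B * B') := by
  simp [dg, Matrix.fromBlocks_multiply]

theorem dg_one : dg (1 : Matrix (Fin k) (Fin k) F) (1 : Matrix (Fin l) (Fin l) F) = 1 := Matrix.fromBlocks_one

theorem dg_pow (N : Matrix (Fin k) (Fin k) F) (B : Matrix (Fin l) (Fin l) F) (m : ℕ) : dg N B ^ m = dg (N ^ m) (B ^ m) := by
  induction m with
  | zero => simp [dg_one]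
  | succ m ih => rw [pow_succ, ih, dg_mul, pow_succ, pow_succ]

/-- Block diagonal invertible matrices. -/
def DD (a : GL (Fin k) F) (d : GL (Fin l) F) : GL (II k l) F :=
  ⟨dg a.1 d.1, dg a⁻¹.1 d⁻¹.1, by
    rw [dg_mul, Units.mul_inv, Units.mul_inv, dg_one], by
    rw [dg_mul, Units.inv_mul, Units.inv_mul, dg_one]⟩

theorem DD_val (a : GL (Fin k) F) (d : GL (Fin l) F) : (DD a d).1 = dg a.1 d.1 := rfl

theorem DD_inv_val (a : GL (Fin k) F) (d : GL (Fin l) F) : ((DD a d)⁻¹).1 = dg a⁻¹.1 d⁻¹.1 := rfl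

/-- An invertible matrix intertwining two block diagonal matrices with nilpotent and invertible parts is block diagonal. -/
theorem key_block (h : GL (II k l) F) (N N₀ : Matrix (Fin k) (Fin k) F) (hN : IsNilpotent N) (hN₀ : IsNilpotent N₀)
    (B B₀ : GL (Fin l) F) (hh : h.1 * dg N B.1 = dg N₀ B₀.1 * h.1) :
    ∃ (a : GL (Fin k) F) (d : GL (Fin l) F), h = DD a d ∧ a.1 * N = N₀ * a.1 ∧ d.1 * B.1 = B₀.1 * d.1 := by
  obtain ⟨m₁, hm₁⟩ := hN
  obtain ⟨m₂, hm₂⟩ := hN₀
  let m := m₁ + m₂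
  have h1 : N ^ m = 0 := by
    show N ^ (m₁ + m₂) = 0
    rw [pow_add, hm₁, zero_mul]
  have h2 : N₀ ^ m = 0 := by
    show N₀ ^ (m₁ + m₂) = 0
    rw [pow_add, hm₂, mul_zero]
  have hp : h.1 * dg (N ^ m) (B.1 ^ m) = dg (N₀ ^ m) (B₀.1 ^ m) * h.1 := by
    rw [← dg_pow, ← dg_pow]
    exact (show SemiconjBy h.1 (dg N B.1) (dg N₀ B₀.1) from hh).pow_right m
  rw [h1, h2] at hp
  set a := h.1.toBlocks₁₁ with ha
  set b := h.1.toBlocks₁₂ with hb
  set c := h.1.toBlocks₂₁ with hc
  set d := h.1.toBlocks₂₂ with hd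
  have hblock : h.1 = Matrix.fromBlocks a b c d := (Matrix.fromBlocks_toBlocks h.1).symm
  rw [hblock, dg, dg, Matrix.fromBlocks_multiply, Matrix.fromBlocks_multiply] at hp
  have hp' := Matrix.fromBlocks_inj.1 hp
  have hb0 : b = 0 := by
    have h3 : b * (B ^ m).1 = 0 := by
      have := hp'.2.1
      simpa using this
    have h4 : b * (B ^ m).1 * ((B ^ m)⁻¹).1 = b := by
      rw [Matrix.mul_assoc, Units.mul_inv, Matrix.mul_one]
    rw [← h4, h3, Matrix.zero_mul]
  have hc0 : c = 0 := by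
    have h3 : (B₀ ^ m).1 * c = 0 := by
      have := hp'.2.2.1
      simpa using this.symm
    have h4 : ((B₀ ^ m)⁻¹).1 * ((B₀ ^ m).1 * c) = c := by
      rw [← Matrix.mul_assoc, Units.inv_mul, Matrix.one_mul]
    rw [← h4, h3, Matrix.mul_zero]
  have hblock' : h.1 = dg a d := by
    rw [hblock, hb0, hc0]
  have hdet : a.det * d.det ≠ 0 := by
    rw [← Matrix.det_fromBlocks_zero₂₁ a 0 d]
    have h5 := Matrix.GeneralLinearGroup.det_ne_zero h
    rw [hblock'] at h5
    exact h5
  let a' : GL (Fin k) F := Matrix.GeneralLinearGroup.mkOfDetNeZero a (left_ne_zero_of_mul hdet)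
  let d' : GL (Fin l) F := Matrix.GeneralLinearGroup.mkOfDetNeZero d (right_ne_zero_of_mul hdet)
  have hrel : dg (a * N) (d * B.1) = dg (N₀ * a) (B₀.1 * d) := by
    rw [← dg_mul, ← dg_mul, ← hblock']
    exact hh
  have hrel' := Matrix.fromBlocks_inj.1 hrel
  exact ⟨a', d', Units.ext hblock', hrel'.1, hrel'.2.2.2⟩

/-- The parameter set. -/
abbrev Om (F : Type*) [Field F] (k l : ℕ) := GL (II k l) F × {N : Matrix (Fin k) (Fin k) F // IsNilpotent N} × GL (Fin l) F

/-- The conjugate of a block diagonal matrix. -/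
def piMap (ω : Om F k l) : Matrix (II k l) (II k l) F := ω.1.1 * dg ω.2.1.1 ω.2.2.1 * (ω.1⁻¹).1

/-- Each fibre is a copy of the Levi factor. -/
theorem card_fiber [Finite F] (ω₀ : Om F k l) :
    Nat.card {ω : Om F k l // piMap ω = piMap ω₀} = Nat.card (GL (Fin k) F × GL (Fin l) F) := by
  obtain ⟨g₀, ⟨N₀, hN₀⟩, B₀⟩ := ω₀
  have hnil : ∀ a : GL (Fin k) F, IsNilpotent ((a⁻¹).1 * N₀ * a.1) := by
    intro a
    obtain ⟨m, hm⟩ := hN₀
    refine ⟨m, ?_⟩
    rw [Units.conj_pow' a N₀ m, hm]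
    simp
  have hconj : ∀ (a : GL (Fin k) F) (d : GL (Fin l) F),
      (DD a d).1 * dg ((a⁻¹).1 * N₀ * a.1) ((d⁻¹ * B₀ * d : GL (Fin l) F)).1 * ((DD a d)⁻¹).1 = dg N₀ B₀.1 := by
    intro a d
    rw [DD_val, DD_inv_val, dg_mul, dg_mul]
    congr 1
    · rw [← mul_assoc, ← mul_assoc, Units.mul_inv, one_mul, mul_assoc, Units.mul_inv, mul_one]
    · rw [← Units.val_mul, ← Units.val_mul]
      congr 1
      group
  symm
  refine Nat.card_congr (Equiv.ofBijective
    (fun x => ⟨(g₀ * DD x.1 x.2, ⟨(x.1⁻¹).1 * N₀ * x.1.1, hnil x.1⟩, x.2⁻¹ * B₀ * x.2), ?_⟩) ⟨?_, ?_⟩)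
  · show (g₀ * DD x.1 x.2).1 * dg ((x.1⁻¹).1 * N₀ * x.1.1) (x.2⁻¹ * B₀ * x.2 : GL (Fin l) F).1 * ((g₀ * DD x.1 x.2)⁻¹).1 = g₀.1 * dg N₀ B₀.1 * (g₀⁻¹).1
    have h := hconj x.1 x.2
    generalize dg ((x.1⁻¹).1 * N₀ * x.1.1) (x.2⁻¹ * B₀ * x.2 : GL (Fin l) F).1 = X at h ⊢
    rw [← h, mul_inv_rev, Units.val_mul, Units.val_mul]
    simp only [mul_assoc]
  · rintro ⟨a, d⟩ ⟨a', d'⟩ h
    have h1 := congrArg (fun z => z.1.1) h
    simp only at h1
    have h2 : DD a d = DD a' d' := mul_left_cancel h1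
    have h3 := congrArg Units.val h2
    rw [DD_val, DD_val] at h3
    have h4 := Matrix.fromBlocks_inj.1 h3
    exact Prod.ext (Units.ext h4.1) (Units.ext h4.2.2.2)
  · rintro ⟨⟨g, ⟨N, hN⟩, B⟩, hω⟩
    have hω' : g.1 * dg N B.1 * (g⁻¹).1 = g₀.1 * dg N₀ B₀.1 * (g₀⁻¹).1 := hω
    have h1 : (g₀⁻¹ * g).1 * dg N B.1 = dg N₀ B₀.1 * (g₀⁻¹ * g).1 := by
      have h2 : g.1 * dg N B.1 = g₀.1 * dg N₀ B₀.1 * (g₀⁻¹).1 * g.1 := by
        rw [← hω', mul_assoc _ (g⁻¹).1, Units.inv_mul, mul_one]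
      rw [Units.val_mul, mul_assoc, h2]
      simp only [← mul_assoc, Units.inv_mul, one_mul]
    obtain ⟨a, d, hh, h3, h4⟩ := key_block _ N N₀ hN hN₀ B B₀ h1
    refine ⟨(a, d), Subtype.ext ?_⟩
    have hg : g₀ * DD a d = g := by
      rw [← hh]
      group
    have hN' : (a⁻¹).1 * N₀ * a.1 = N := by
      rw [mul_assoc, ← h3, ← mul_assoc, Units.inv_mul, one_mul]
    have hB' : d⁻¹ * B₀ * d = B := by
      apply Units.ext
      rw [Units.val_mul, Units.val_mul, mul_assoc, ← h4, ← mul_assoc, Units.inv_mul, one_mul]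
    show (g₀ * DD a d, (⟨(a⁻¹).1 * N₀ * a.1, hnil a⟩ : {N : Matrix (Fin k) (Fin k) F // IsNilpotent N}), d⁻¹ * B₀ * d) = (g, ⟨N, hN⟩, B)
    rw [hg, hB']
    exact Prod.ext rfl (Prod.ext (Subtype.ext hN') rfl)

/-- The image of the conjugation map. -/
abbrev TT (F : Type*) [Field F] (k l : ℕ) := {A : Matrix (II k l) (II k l) F // ∃ ω : Om F k l, piMap ω = A}

theorem card_TT [Finite F] : Nat.card (Om F k l) = Nat.card (TT F k l) * Nat.card (GL (Fin k) F × GL (Fin l) F) := by
  let f : Om F k l → TT F k l := fun ω => ⟨piMap ω, ω, rfl⟩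
  refine Cfsg.Agent.Lib.SylowCount.card_eq_mul_of_fibers f _ ?_
  rintro ⟨_, ω₀, rfl⟩
  rw [← card_fiber ω₀]
  refine Nat.card_congr (Equiv.subtypeEquivRight (fun ω => ?_))
  exact Subtype.ext_iff

/-- The Fitting decomposition. -/
theorem fitting {n : ℕ} (A : Matrix (Fin n) (Fin n) F) : ∃ (k l : ℕ), k + l = n ∧
    ∃ (P : Matrix (Fin n) (II k l) F) (Q : Matrix (II k l) (Fin n) F) (N : Matrix (Fin k) (Fin k) F) (B : GL (Fin l) F),
      IsNilpotent N ∧ P * Q = 1 ∧ Q * P = 1 ∧ A * P = P * dg N B.1 := by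
  classical
  let f : Module.End F (Fin n → F) := Matrix.toLin' A
  obtain ⟨m, hm1, hm⟩ : ∃ m, 1 ≤ m ∧ IsCompl (LinearMap.ker (f ^ m)) (LinearMap.range (f ^ m)) := by
    have h1 := (Filter.eventually_ge_atTop 1).and f.eventually_isCompl_ker_pow_range_pow
    obtain ⟨m, hm⟩ := h1.exists
    exact ⟨m, hm.1, hm.2⟩
  let V₀ := LinearMap.ker (f ^ m)
  let V₁ := LinearMap.range (f ^ m)
  let k := Module.finrank F V₀
  let l := Module.finrank F V₁
  have hkl : k + l = n := by
    have := Submodule.finrank_add_eq_of_isCompl hm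
    rwa [Module.finrank_fin_fun] at this
  refine ⟨k, l, hkl, ?_⟩
  let b₀ : Basis (Fin k) F V₀ := Module.finBasisOfFinrankEq F V₀ rfl
  let b₁ : Basis (Fin l) F V₁ := Module.finBasisOfFinrankEq F V₁ rfl
  let E : (V₀ × V₁) ≃ₗ[F] (Fin n → F) := Submodule.prodEquivOfIsCompl V₀ V₁ hm
  let b : Basis (II k l) F (Fin n → F) := (b₀.prod b₁).map E
  have hb0 : ∀ i, b (Sum.inl i) = (b₀ i : Fin n → F) := by
    intro i
    simp [b, E, Basis.map_apply]
  have hb1 : ∀ j, b (Sum.inr j) = (b₁ j : Fin n → F) := by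
    intro j
    simp [b, E, Basis.map_apply]
  have hcoord0 : ∀ v ∈ V₀, ∀ j, b.repr v (Sum.inr j) = 0 := by
    intro v hv j
    have h1 : v = E (⟨v, hv⟩, 0) := by simp [E]
    rw [h1]
    simp only [b, Basis.map_repr, LinearEquiv.trans_apply, LinearEquiv.symm_apply_apply]
    rw [Basis.prod_repr_inr]
    simp
  have hcoord1 : ∀ v ∈ V₁, ∀ i, b.repr v (Sum.inl i) = 0 := by
    intro v hv i
    have h1 : v = E (0, ⟨v, hv⟩) := by simp [E]
    rw [h1]
    simp only [b, Basis.map_repr, LinearEquiv.trans_apply, LinearEquiv.symm_apply_apply]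
    rw [Basis.prod_repr_inl]
    simp
  have hf0 : ∀ v ∈ V₀, f v ∈ V₀ := by
    intro v hv
    have h1 : (f ^ m) v = 0 := hv
    show (f ^ m) (f v) = 0
    rw [← Module.End.mul_apply, ← pow_succ, pow_succ', Module.End.mul_apply, h1, map_zero]
  have hf1 : ∀ v ∈ V₁, f v ∈ V₁ := by
    rintro _ ⟨w, rfl⟩
    exact ⟨f w, by rw [← Module.End.mul_apply, ← pow_succ, pow_succ', Module.End.mul_apply]⟩
  let M : Matrix (II k l) (II k l) F := LinearMap.toMatrix b b f
  have hMent : ∀ x y, M x y = b.repr (f (b y)) x := fun x y => LinearMap.toMatrix_apply _ _ _ _ _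
  let N : Matrix (Fin k) (Fin k) F := M.toBlocks₁₁
  let B' : Matrix (Fin l) (Fin l) F := M.toBlocks₂₂
  have hMblock : M = dg N B' := by
    rw [← Matrix.fromBlocks_toBlocks M]
    congr 1
    · ext i j
      show M (Sum.inl i) (Sum.inr j) = 0
      rw [hMent, hb1]
      exact hcoord1 _ (hf1 _ (b₁ j).2) i
    · ext i j
      show M (Sum.inr i) (Sum.inl j) = 0
      rw [hMent, hb0]
      exact hcoord0 _ (hf0 _ (b₀ j).2) i
  have hMpow : M ^ m = LinearMap.toMatrix b b (f ^ m) := LinearMap.toMatrix_pow b f m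
  have hNnil : IsNilpotent N := by
    refine ⟨m, ?_⟩
    ext i j
    have h1 : (M ^ m) (Sum.inl i) (Sum.inl j) = (N ^ m) i j := by
      rw [hMblock, dg_pow]
      rfl
    rw [← h1, hMpow, LinearMap.toMatrix_apply, hb0]
    have h2 : (f ^ m) (b₀ j : Fin n → F) = 0 := (b₀ j).2
    rw [h2]
    simp
  have hB'det : IsUnit B'.det := by
    rw [isUnit_iff_ne_zero]
    intro hdet
    obtain ⟨w, hw0, hw⟩ := Matrix.exists_mulVec_eq_zero_iff.2 hdet
    let v : II k l → F := Sum.elim 0 w
    let x : Fin n → F := b.equivFun.symm v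
    have hx : b.repr x = Finsupp.equivFunOnFinite.symm v := by
      apply Finsupp.ext
      intro y
      show b.equivFun (b.equivFun.symm v) y = v y
      rw [LinearEquiv.apply_symm_apply]
    have h1 : M *ᵥ v = 0 := by
      rw [hMblock, dg, Matrix.fromBlocks_mulVec]
      funext y
      rcases y with y | y
      · simp [v, Function.comp_def]
        exact congrFun (Matrix.mulVec_zero N) y
      · simp [v, Function.comp_def, hw]
    have h2 : b.repr (f x) = 0 := by
      have h3 := LinearMap.toMatrix_mulVec_repr b b f x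
      have h4 : ⇑(b.repr x) = v := by
        rw [hx]
        rfl
      rw [h4, show LinearMap.toMatrix b b f = M from rfl, h1] at h3
      exact Finsupp.ext (fun y => (congrFun h3 y).symm)
    have h3 : f x = 0 := by
      simpa using h2
    have h4 : x ∈ V₀ := by
      show (f ^ m) x = 0
      obtain ⟨m', rfl⟩ : ∃ m', m = m' + 1 := ⟨m - 1, by omega⟩
      rw [pow_succ, Module.End.mul_apply, h3, map_zero]
    have h5 : x ∈ V₁ := by
      have h6 : x = ∑ y, v y • b y := by
        show b.equivFun.symm v = _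
        rw [Basis.equivFun_symm_apply]
      rw [h6]
      apply Submodule.sum_mem
      intro y _
      rcases y with y | y
      · simp [v]
      · apply Submodule.smul_mem
        rw [hb1]
        exact (b₁ y).2
    have h6 : x = 0 := by
      have := hm.disjoint.le_bot ⟨h4, h5⟩
      simpa using this
    apply hw0
    have h7 : v = 0 := by
      have h8 : b.equivFun x = v := by
        show b.equivFun (b.equivFun.symm v) = v
        rw [LinearEquiv.apply_symm_apply]
      rw [← h8, h6, map_zero]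
    funext j
    exact congrFun h7 (Sum.inr j)
  let B : GL (Fin l) F := Matrix.GeneralLinearGroup.mkOfDetNeZero B' hB'det.ne_zero
  let std : Basis (Fin n) F (Fin n → F) := Pi.basisFun F (Fin n)
  refine ⟨std.toMatrix b, b.toMatrix std, N, B, hNnil, Basis.toMatrix_mul_toMatrix_flip _ _, Basis.toMatrix_mul_toMatrix_flip _ _, ?_⟩
  have h1 : (B : Matrix (Fin l) (Fin l) F) = B' := rfl
  rw [h1, ← hMblock]
  have h2 : A = LinearMap.toMatrix std std f := by
    show A = LinearMap.toMatrix (Pi.basisFun F (Fin n)) (Pi.basisFun F (Fin n)) (Matrix.toLin' A)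
    rw [LinearMap.toMatrix_eq_toMatrix', LinearMap.toMatrix'_toLin']
  rw [h2, linearMap_toMatrix_mul_basis_toMatrix]
  show LinearMap.toMatrix b std f = std.toMatrix b * LinearMap.toMatrix b b f
  exact (basis_toMatrix_mul_linearMap_toMatrix (c := std) (c' := b) (b' := b) (f := f)).symm

section Count

/-- The invariant recording the size of the nilpotent part. -/
noncomputable def rr {ι : Type*} [Fintype ι] [DecidableEq ι] (A : Matrix ι ι F) : ℕ := A.charpoly.natTrailingDegree

theorem rr_dg (N : Matrix (Fin k) (Fin k) F) (hN : IsNilpotent N) (B : GL (Fin l) F) : rr (dg N B.1) = k := by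
  unfold rr
  have h1 : N.charpoly = Polynomial.X ^ k := by
    have h2 := Matrix.isNilpotent_charpoly_sub_pow_of_isNilpotent hN
    rw [Fintype.card_fin] at h2
    exact sub_eq_zero.1 h2.eq_zero
  rw [dg, Matrix.charpoly_fromBlocks_zero₂₁, h1]
  have h3 : (B.1).charpoly.coeff 0 ≠ 0 := by
    intro h0
    have h4 := Matrix.det_eq_sign_charpoly_coeff (B.1 : Matrix (Fin l) (Fin l) F)
    rw [h0, mul_zero] at h4
    exact Matrix.GeneralLinearGroup.det_ne_zero B h4
  have h5 : (B.1).charpoly ≠ 0 := by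
    intro h0
    rw [h0] at h3
    simp at h3
  rw [Polynomial.natTrailingDegree_mul (pow_ne_zero _ Polynomial.X_ne_zero) h5, Polynomial.natTrailingDegree_X_pow]
  have h6 : (B.1).charpoly.natTrailingDegree = 0 := Nat.eq_zero_of_le_zero (Polynomial.natTrailingDegree_le_of_ne_zero h3)
  omega

theorem rr_piMap (ω : Om F k l) : rr (piMap ω) = k := by
  have h1 : rr (piMap ω) = rr (dg ω.2.1.1 ω.2.2.1) := by
    unfold rr piMap
    rw [Matrix.coe_units_inv, Matrix.charpoly_units_conj]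
  rw [h1]
  exact rr_dg _ ω.2.1.2 _

theorem rr_submatrix {ι κ : Type*} [Fintype ι] [DecidableEq ι] [Fintype κ] [DecidableEq κ] (e : ι ≃ κ) (A : Matrix κ κ F) :
    rr (A.submatrix e e) = rr A := by
  unfold rr
  have := Matrix.charpoly_reindex e.symm A
  simp only [Matrix.reindex_apply, Equiv.symm_symm] at this
  rw [this]

theorem fit_mem {n : ℕ} (A : Matrix (Fin n) (Fin n) F) (e : II k l ≃ Fin n) (P : Matrix (Fin n) (II k l) F) (Q : Matrix (II k l) (Fin n) F)
    (N : Matrix (Fin k) (Fin k) F) (B : GL (Fin l) F) (hN : IsNilpotent N) (h1 : P * Q = 1) (h2 : Q * P = 1) (h3 : A * P = P * dg N B.1) :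
    ∃ ω : Om F k l, piMap ω = A.submatrix e e := by
  have hP' : P.submatrix e (Equiv.refl _) * Q.submatrix (Equiv.refl _) e = 1 := by
    rw [Matrix.submatrix_mul_equiv, h1, Matrix.submatrix_one_equiv]
  have hQ' : Q.submatrix (Equiv.refl _) e * P.submatrix e (Equiv.refl _) = 1 := by
    rw [Matrix.submatrix_mul_equiv, h2, Matrix.submatrix_one_equiv]
  let g : GL (II k l) F := ⟨P.submatrix e (Equiv.refl _), Q.submatrix (Equiv.refl _) e, hP', hQ'⟩
  refine ⟨(g, ⟨N, hN⟩, B), ?_⟩
  show P.submatrix e (Equiv.refl _) * dg N B.1 * Q.submatrix (Equiv.refl _) e = _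
  have h4 : A.submatrix e e * P.submatrix e (Equiv.refl _) = P.submatrix e (Equiv.refl _) * dg N B.1 := by
    rw [Matrix.submatrix_mul_equiv, h3]
    ext x y
    rfl
  rw [← h4, mul_assoc, hP', mul_one]

/-- The canonical identification of the index sets. -/
def e₀ {n : ℕ} (h : k + l = n) : II k l ≃ Fin n := finSumFinEquiv.trans (finCongr h)

theorem card_fiber_rr {n : ℕ} (h : k + l = n) : Nat.card {A : Matrix (Fin n) (Fin n) F // rr A = k} = Nat.card (TT F k l) := by
  refine Nat.card_congr ⟨fun A => ⟨A.1.submatrix (e₀ h) (e₀ h), ?_⟩, fun A => ⟨A.1.submatrix (e₀ h).symm (e₀ h).symm, ?_⟩, ?_, ?_⟩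
  · obtain ⟨A, hA⟩ := A
    obtain ⟨k', l', hkl', P, Q, N, B, hN, h1, h2, h3⟩ := fitting A
    obtain ⟨ω, hω⟩ := fit_mem A (e₀ hkl') P Q N B hN h1 h2 h3
    have hk : k' = k := by
      have h4 := rr_piMap ω
      rw [hω, rr_submatrix, hA] at h4
      exact h4.symm
    subst hk
    have hl : l' = l := by omega
    subst hl
    exact fit_mem A (e₀ h) P Q N B hN h1 h2 h3
  · obtain ⟨_, ω, rfl⟩ := A
    show rr ((piMap ω).submatrix (e₀ h).symm (e₀ h).symm) = k
    rw [rr_submatrix, rr_piMap]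
  · rintro ⟨A, hA⟩
    apply Subtype.ext
    ext x y
    simp
  · rintro ⟨A, hA⟩
    apply Subtype.ext
    ext x y
    simp

variable [Fintype F]

theorem rr_le {n : ℕ} (A : Matrix (Fin n) (Fin n) F) : rr A < n + 1 := by
  have h1 : rr A ≤ A.charpoly.natDegree := Polynomial.natTrailingDegree_le_natDegree _
  rw [Matrix.charpoly_natDegree_eq_dim, Fintype.card_fin] at h1
  omega

theorem count_matrices (n : ℕ) : Fintype.card F ^ (n * n) = ∑ m ∈ Finset.range (n + 1), Nat.card (TT F m (n - m)) := by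
  classical
  let rf : Matrix (Fin n) (Fin n) F → Fin (n + 1) := fun A => ⟨rr A, rr_le A⟩
  have h1 : Nat.card (Matrix (Fin n) (Fin n) F) = Fintype.card F ^ (n * n) := by
    show Nat.card (Fin n → Fin n → F) = _
    rw [Nat.card_fun, Nat.card_fun, Nat.card_eq_fintype_card (α := F), ← pow_mul]
    simp
  rw [← h1, ← Nat.card_congr (Equiv.sigmaFiberEquiv rf), Nat.card_sigma,
    ← Fin.sum_univ_eq_sum_range (fun m => Nat.card (TT F m (n - m))) (n + 1)]
  apply Finset.sum_congr rfl
  intro x _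
  have hx : (x : ℕ) + (n - x) = n := by
    have := x.2
    omega
  rw [← card_fiber_rr hx]
  refine Nat.card_congr (Equiv.subtypeEquivRight (fun A => ?_))
  show rf A = x ↔ rr A = x
  rw [Fin.ext_iff]

/-- The number of nilpotent matrices of size `m`. -/
noncomputable def aa (F : Type*) [Field F] (m : ℕ) : ℕ := Nat.card {N : Matrix (Fin m) (Fin m) F // IsNilpotent N}

/-- The order of the general linear group. -/
noncomputable def GG (F : Type*) [Field F] (m : ℕ) : ℕ := Nat.card (GL (Fin m) F)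

theorem GG_pos (m : ℕ) : 0 < GG F m := Nat.card_pos

theorem TT_rel (m l : ℕ) : Nat.card (TT F m l) * GG F m = GG F (m + l) * aa F m := by
  have h1 := card_TT (F := F) (k := m) (l := l)
  have h2 : Nat.card (GL (II m l) F) = GG F (m + l) := by
    unfold GG
    rw [Cfsg.Agent.Lib.FlagCount.card_GL_sub (k := m + l) (II m l) (by simp), Matrix.card_GL_field]
  rw [Nat.card_prod, Nat.card_prod, Nat.card_prod, h2] at h1
  have hpos : 0 < GG F l := GG_pos l
  apply Nat.eq_of_mul_eq_mul_right hpos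
  have h3 : GG F (m + l) * (aa F m * GG F l) = Nat.card (TT F m l) * (GG F m * GG F l) := h1
  calc Nat.card (TT F m l) * GG F m * GG F l = Nat.card (TT F m l) * (GG F m * GG F l) := by ring
    _ = GG F (m + l) * (aa F m * GG F l) := h3.symm
    _ = _ := by ring

theorem GG_succ (m : ℕ) : (GG F (m + 1) : ℚ) = ((Fintype.card F : ℚ) ^ (m + 1) - 1) * (Fintype.card F : ℚ) ^ m * GG F m := by
  have h1 : ∀ m, GG F m = ∏ i ∈ Finset.range m, (Fintype.card F ^ m - Fintype.card F ^ i) := by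
    intro m
    unfold GG
    rw [Matrix.card_GL_field, Fin.prod_univ_eq_prod_range (fun i => Fintype.card F ^ m - Fintype.card F ^ i) m]
  rw [h1, h1, Finset.prod_range_succ']
  have h2 : ∀ i ∈ Finset.range m, Fintype.card F ^ (m + 1) - Fintype.card F ^ (i + 1) = Fintype.card F * (Fintype.card F ^ m - Fintype.card F ^ i) := by
    intro i _
    rw [pow_succ' _ m, pow_succ' _ i, Nat.mul_sub]
  rw [Finset.prod_congr rfl h2, Finset.prod_mul_distrib, Finset.prod_const, Finset.card_range]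
  have h3 : 1 ≤ Fintype.card F ^ (m + 1) := Nat.one_le_pow _ _ Fintype.card_pos
  push_cast [Nat.cast_sub, pow_zero, h3]
  ring

theorem tele (m : ℕ) : ∑ j ∈ Finset.range (m + 1), ((Fintype.card F : ℚ) ^ (j * (j - 1))) / GG F j =
    ((Fintype.card F : ℚ) ^ (m * m)) / GG F m := by
  induction m with
  | zero => simp
  | succ m ih =>
    rw [Finset.sum_range_succ, ih]
    have hq : (1 : ℚ) < Fintype.card F := by exact_mod_cast Fintype.one_lt_card
    have hq0 : (Fintype.card F : ℚ) ≠ 0 := by linarith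
    have hG : (GG F m : ℚ) ≠ 0 := by exact_mod_cast (GG_pos m).ne'
    have hq1 : (Fintype.card F : ℚ) ^ (m + 1) - 1 ≠ 0 := by
      have : (1 : ℚ) < (Fintype.card F : ℚ) ^ (m + 1) := one_lt_pow₀ hq (by omega)
      linarith
    rw [GG_succ]
    have h1 : (m + 1) * (m + 1 - 1) = m * m + m := by
      simp only [Nat.add_sub_cancel]
      ring
    have h2 : (m + 1) * (m + 1) = m * m + m + (m + 1) := by ring
    have hqm : (Fintype.card F : ℚ) ^ m ≠ 0 := pow_ne_zero _ hq0
    have h3 : (Fintype.card F : ℚ) ^ (m * m + m) = (Fintype.card F : ℚ) ^ (m * m) * (Fintype.card F : ℚ) ^ m := pow_add _ _ _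
    have h4 : (Fintype.card F : ℚ) ^ (m * m + m + (m + 1)) = (Fintype.card F : ℚ) ^ (m * m) * (Fintype.card F : ℚ) ^ m * (Fintype.card F : ℚ) ^ (m + 1) := by
      rw [pow_add, pow_add]
    rw [h1, h2, h3, h4]
    generalize (Fintype.card F : ℚ) ^ (m + 1) = Y at *
    generalize (Fintype.card F : ℚ) ^ m = X at *
    generalize (Fintype.card F : ℚ) ^ (m * m) = Q at *
    field_simp
    ring

theorem card_nil (n : ℕ) : aa F n = Fintype.card F ^ (n * (n - 1)) := by
  induction n using Nat.strong_induction_on with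
  | _ n ih =>
    have hG : (GG F n : ℚ) ≠ 0 := by exact_mod_cast (GG_pos n).ne'
    have h1 : ((Fintype.card F : ℚ) ^ (n * n)) / GG F n = ∑ j ∈ Finset.range (n + 1), (aa F j : ℚ) / GG F j := by
      have h2 : ((Fintype.card F ^ (n * n) : ℕ) : ℚ) = ∑ j ∈ Finset.range (n + 1), (Nat.card (TT F j (n - j)) : ℚ) := by
        rw [count_matrices n]
        push_cast
        rfl
      push_cast at h2
      rw [h2, Finset.sum_div]
      apply Finset.sum_congr rfl
      intro j hj
      have hj' : j + (n - j) = n := by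
        have := Finset.mem_range.1 hj
        omega
      have h3 := TT_rel (F := F) j (n - j)
      rw [hj'] at h3
      have hGj : (GG F j : ℚ) ≠ 0 := by exact_mod_cast (GG_pos j).ne'
      have h4 : (Nat.card (TT F j (n - j)) : ℚ) * GG F j = GG F n * aa F j := by exact_mod_cast h3
      field_simp
      linarith
    have h2 := tele (F := F) n
    rw [h1, Finset.sum_range_succ, Finset.sum_range_succ] at h2
    have h3 : ∑ j ∈ Finset.range n, ((Fintype.card F : ℚ) ^ (j * (j - 1))) / GG F j = ∑ j ∈ Finset.range n, (aa F j : ℚ) / GG F j := by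
      apply Finset.sum_congr rfl
      intro j hj
      rw [ih j (Finset.mem_range.1 hj)]
      push_cast
      rfl
    rw [h3] at h2
    have h4 := add_left_cancel h2
    have h5 : (aa F n : ℚ) = (Fintype.card F : ℚ) ^ (n * (n - 1)) := ((div_left_inj' hG).1 h4).symm
    exact_mod_cast h5

end Count

/-- The number of unipotent elements of the general linear group. -/
theorem card_unip {F : Type*} [Field F] [Fintype F] (p : ℕ) [Fact p.Prime] [CharP F p] (n : ℕ) :
    Nat.card {g : Matrix.GeneralLinearGroup (Fin n) F // ∃ k : ℕ, orderOf g = p ^ k} = Fintype.card F ^ (n * (n - 1)) := by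
  rw [← card_nil n]
  unfold aa
  refine Nat.card_congr ⟨fun g => ⟨g.1.1 - 1, (Cfsg.Agent.Lib.JordanNil.unip_iff p _).1 g.2⟩,
    fun N => ⟨(N.2.isUnit_one_add).unit, (Cfsg.Agent.Lib.JordanNil.unip_iff p _).2 (by simpa using N.2)⟩, ?_, ?_⟩
  · rintro ⟨g, hg⟩
    apply Subtype.ext
    apply Units.ext
    simp
  · rintro ⟨N, hN⟩
    apply Subtype.ext
    simp

end Cfsg.Agent.Lib.NilCount
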