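import Cfsg.Agent.Lib.DegKer
import Cfsg.Agent.Lib.FitCore
import Cfsg.Agent.Lib.CharIso

/-!
# Nilpotent length is bounded by the number of character degrees (Berger)
-/

set_option autoImplicit false
set_option linter.all false

namespace Cfsg.Agent.Lib.NilLength

open Cfsg Cfsg.Agent.Lib.DegKer Cfsg.Agent.Lib.CharIrr Cfsg.Agent.Lib.CharInflate Cfsg.Agent.Lib.CharOps Cfsg.Agent.Lib.CharAb Cfsg.Agent.Lib.CharBlockDefect

universe u

/-- Chains with nilpotent factors. -/
def NL (n : ℕ) (G : Type u) [Group G] : Prop :=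
  ∃ N : ℕ → Subgroup G, (∀ i, (N i).Normal) ∧ N 0 = ⊥ ∧ (∀ i, n ≤ i → N i = ⊤) ∧ Monotone N ∧
    ∀ i, ∀ h : ((N i).subgroupOf (N (i + 1))).Normal,
      Group.IsNilpotent (↥(N (i + 1)) ⧸ (N i).subgroupOf (N (i + 1)))

theorem NL_mono {G : Type u} [Group G] {n m : ℕ} (h : n ≤ m) (hn : NL n G) : NL m G := by
  obtain ⟨N, h1, h2, h3, h4, h5⟩ := hn
  exact ⟨N, h1, h2, fun i hi => h3 i (h.trans hi), h4, h5⟩

theorem nil_of_inj {X Y : Type*} [Group X] [Group Y] (f : X →* Y) (hf : Function.Injective f)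
    [Group.IsNilpotent Y] : Group.IsNilpotent X :=
  (Group.isNilpotent_congr (MonoidHom.ofInjective hf)).2 inferInstance

theorem nil_comap {G H : Type*} [Group G] [Group H] (f : G →* H) (A B : Subgroup H)
    (hA : (A.subgroupOf B).Normal) (hn : Group.IsNilpotent (↥B ⧸ A.subgroupOf B))
    (hA' : ((A.comap f).subgroupOf (B.comap f)).Normal) :
    Group.IsNilpotent (↥(B.comap f) ⧸ (A.comap f).subgroupOf (B.comap f)) := by
  let ρ : (B.comap f) →* B := (f.comp (B.comap f).subtype).codRestrict B (fun x => x.2)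
  let φ : (B.comap f) →* (↥B ⧸ A.subgroupOf B) := (QuotientGroup.mk' _).comp ρ
  have hker : ∀ x : (B.comap f), x ∈ (A.comap f).subgroupOf (B.comap f) ↔ φ x = 1 := by
    intro x
    show f x ∈ A ↔ ((ρ x : B) : ↥B ⧸ A.subgroupOf B) = 1
    rw [QuotientGroup.eq_one_iff]
    rfl
  let φ' := QuotientGroup.lift ((A.comap f).subgroupOf (B.comap f)) φ (fun x hx => (hker x).1 hx)
  apply nil_of_inj φ'
  rw [injective_iff_map_eq_one]
  intro q hq
  obtain ⟨x, rfl⟩ := QuotientGroup.mk_surjective q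
  rw [QuotientGroup.eq_one_iff]
  exact (hker x).2 hq

theorem NL_zero {H : Type u} [Group H] [Subsingleton H] : NL 0 H := by
  refine ⟨fun _ => ⊤, fun _ => inferInstance, Subsingleton.elim _ _, fun _ _ => rfl, fun _ _ _ => le_rfl, ?_⟩
  intro i h
  infer_instance

theorem NL_pull {G : Type u} [Group G] (F : Subgroup G) [hF : F.Normal] (hFn : Group.IsNilpotent F) {m : ℕ}
    (h : NL m (G ⧸ F)) : NL (m + 1) G := by
  obtain ⟨N, h1, h2, h3, h4, h5⟩ := h
  let π := QuotientGroup.mk' F
  let N' : ℕ → Subgroup G := fun i => Nat.casesOn i ⊥ (fun j => (N j).comap π)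
  have hN'0 : N' 0 = ⊥ := rfl
  have hN's : ∀ j, N' (j + 1) = (N j).comap π := fun j => rfl
  have hN'1 : N' 1 = F := by
    show (N 0).comap π = F
    rw [h2]
    show π.ker = F
    exact QuotientGroup.ker_mk' F
  refine ⟨N', ?_, rfl, ?_, ?_, ?_⟩
  · intro i
    cases i with
    | zero => rw [hN'0]; infer_instance
    | succ j =>
      rw [hN's]
      haveI := h1 j
      exact Subgroup.Normal.comap (h1 j) π
  · intro i hi
    cases i with
    | zero => omega
    | succ j =>
      rw [hN's, h3 j (by omega)]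
      exact Subgroup.comap_top _
  · apply monotone_nat_of_le_succ
    intro i
    cases i with
    | zero => rw [hN'0]; exact bot_le
    | succ j =>
      rw [hN's, hN's]
      exact Subgroup.comap_mono (h4 (Nat.le_succ j))
  · intro i hi
    cases i with
    | zero =>
      have hle : N' (0 + 1) ≤ F := by
        rw [show 0 + 1 = 1 from rfl, hN'1]
      haveI : Group.IsNilpotent (N' (0 + 1)) := by
        let f : N' (0 + 1) →* F := Subgroup.inclusion hle
        exact nil_of_inj f (Subgroup.inclusion_injective hle)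
      infer_instance
    | succ j =>
      haveI := h1 j
      exact nil_comap π (N j) (N (j + 1)) (Subgroup.normal_subgroupOf) (h5 j Subgroup.normal_subgroupOf) hi

/-- The degree set. -/
def cdSet (G : Type u) [Group G] : Set ℕ := {d | ∃ χ : IrrCharacter G, charDegree (χ : G → ℂ) = d}

theorem cdSet_finite (G : Type u) [Group G] [Finite G] : (cdSet G).Finite := by
  classical
  letI : Fintype G := Fintype.ofFinite _
  have h : cdSet G = Set.range (fun χ : IrrCharacter G => charDegree (χ : G → ℂ)) := rfl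
  rw [h]
  exact Set.finite_range _

theorem card_quot_lt {G : Type u} [Group G] [Finite G] (hs : Group.IsSolvable G)
    (hF : fittingSubgroup G ≠ ⊤) [hn : (fittingSubgroup G).Normal] :
    (cdSet (G ⧸ fittingSubgroup G)).ncard < (cdSet G).ncard := by
  classical
  letI : Fintype (G ⧸ fittingSubgroup G) := Fintype.ofFinite _
  letI : Fintype G := Fintype.ofFinite _
  let F := fittingSubgroup G
  obtain ⟨χb, hmax⟩ : ∃ χb : IrrCharacter (G ⧸ F), ∀ θ : IrrCharacter (G ⧸ F),
      charDegree (θ : G ⧸ F → ℂ) ≤ charDegree (χb : G ⧸ F → ℂ) := by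
    haveI : Nonempty (IrrCharacter (G ⧸ F)) := ⟨⟨_, Cfsg.Agent.Lib.CharIso.isIrr_one⟩⟩
    exact Finite.exists_max (fun θ : IrrCharacter (G ⧸ F) => charDegree (θ : G ⧸ F → ℂ))
  have hχ : IsIrrCharacter G (fun g : G => (χb : G ⧸ F → ℂ) (g : G ⧸ F)) := isIrr_inflate F χb.2
  let χ : IrrCharacter G := ⟨_, hχ⟩
  have hχc := IsIrrCharacter.isCharacter' χ.2
  let K := kerSub hχc
  haveI hKn : K.Normal := kerSub_normal hχc
  have hFK : F ≤ K := by
    intro f hf
    rw [mem_kerSub]
    show (χb : G ⧸ F → ℂ) (f : G ⧸ F) = (χb : G ⧸ F → ℂ) ((1 : G) : G ⧸ F)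
    rw [(QuotientGroup.eq_one_iff f).2 hf, QuotientGroup.mk_one]
  have hdeg : charDegree (χ : G → ℂ) = charDegree (χb : G ⧸ F → ℂ) := rfl
  obtain ⟨ψ, hψ, -⟩ : Concl χ K := by
    apply degree_kernel χ K (fun g => Iff.rfl)
    by_cases hKF : K ≤ fittingSubgroup G
    · right
      have h1 : K = fittingSubgroup G := le_antisymm hKF hFK
      refine ⟨h1, ?_, by rw [h1]; exact hF⟩
      infer_instance
    · exact Or.inl hKF
  apply Set.ncard_lt_ncard _ (cdSet_finite G)
  refine ⟨?_, ?_⟩
  · rintro d ⟨θ, rfl⟩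
    exact ⟨⟨_, isIrr_inflate F θ.2⟩, rfl⟩
  · intro hsub
    obtain ⟨θ, hθ⟩ := hsub (show charDegree (ψ : G → ℂ) ∈ cdSet G from ⟨ψ, rfl⟩)
    have h1 := hmax θ
    rw [hθ, ← hdeg] at h1
    omega

theorem nl_of_card (n : ℕ) : ∀ (G : Type u) [Group G] [Finite G], Group.IsSolvable G → (cdSet G).ncard ≤ n → NL n G := by
  induction n with
  | zero =>
    intro G _ _ hs hc
    exfalso
    classical
    letI : Fintype G := Fintype.ofFinite _
    have h1 : (cdSet G).Nonempty := ⟨_, ⟨_, Cfsg.Agent.Lib.CharIso.isIrr_one⟩, rfl⟩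
    have h2 := (Set.ncard_pos (cdSet_finite G)).2 h1
    omega
  | succ n ih =>
    intro G _ _ hs hc
    haveI hn : (fittingSubgroup G).Normal := Cfsg.Agent.Lib.FitCore.fitting_normal
    have hnil : Group.IsNilpotent (fittingSubgroup G) := Cfsg.Agent.Lib.FitCore.fitting_isNilpotent
    by_cases hF : fittingSubgroup G = ⊤
    · haveI : Subsingleton (G ⧸ fittingSubgroup G) := by
        rw [hF]
        exact QuotientGroup.subsingleton_quotient_top
      exact NL_mono (by omega) (NL_pull _ hnil (NL_zero (H := G ⧸ fittingSubgroup G)))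
    · have h1 := card_quot_lt hs hF
      exact NL_pull _ hnil (ih (G ⧸ fittingSubgroup G) inferInstance (by omega))

end Cfsg.Agent.Lib.NilLength
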