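import Mathlib
import Cfsg.Agent.Lib.NormalE
import Cfsg.Agent.Lib.H6OddNormal
import Cfsg.Agent.Lib.Taussky
import Cfsg.Agent.Lib.ZCoprime

/-!
# `p`-groups all of whose normal abelian subgroups are cyclic
-/

set_option autoImplicit false
set_option linter.unusedVariables false
set_option linter.style.haveILetI false
set_option linter.unusedSectionVars false

namespace Cfsg.Agent.Lib.NoNormalFour

open Cfsg Subgroup
open scoped Pointwise commutatorElement

universe u

variable {P : Type u} [Group P] [Finite P]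

theorem exists_pow_conj {a : P} (hn : (zpowers a).Normal) (g : P) : ∃ k : ℕ, g * a * g⁻¹ = a ^ k := by
  have h1 : g * a * g⁻¹ ∈ zpowers a := hn.conj_mem a (mem_zpowers a) g
  have h2 := (mem_powers_iff_mem_zpowers).2 h1
  obtain ⟨k, hk⟩ := Submonoid.mem_powers_iff _ _ |>.1 h2
  exact ⟨k, hk.symm⟩

theorem conj_pow_eq {a g : P} {k : ℕ} (h : g * a * g⁻¹ = a ^ k) (m : ℕ) :
    g * a ^ m * g⁻¹ = a ^ (k * m) := by
  rw [← conj_pow, h, ← pow_mul]

/-- `P / ⟨a⟩` is abelian. -/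
theorem commutator_mem {a : P} (hn : (zpowers a).Normal) (hself : ∀ x, x * a = a * x → x ∈ zpowers a)
    (g h : P) : g * h * g⁻¹ * h⁻¹ ∈ zpowers a := by
  apply hself
  obtain ⟨s, hs⟩ := exists_pow_conj hn g⁻¹
  obtain ⟨t, ht⟩ := exists_pow_conj hn h⁻¹
  have e1 : (g⁻¹ * h⁻¹) * a * (g⁻¹ * h⁻¹)⁻¹ = a ^ (t * s) := by
    have : (g⁻¹ * h⁻¹) * a * (g⁻¹ * h⁻¹)⁻¹ = g⁻¹ * (h⁻¹ * a * h⁻¹⁻¹) * g⁻¹⁻¹ := by group
    rw [this, ht, conj_pow_eq hs, mul_comm]
  have e2 : (h⁻¹ * g⁻¹) * a * (h⁻¹ * g⁻¹)⁻¹ = a ^ (t * s) := by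
    have : (h⁻¹ * g⁻¹) * a * (h⁻¹ * g⁻¹)⁻¹ = h⁻¹ * (g⁻¹ * a * g⁻¹⁻¹) * h⁻¹⁻¹ := by group
    rw [this, hs, conj_pow_eq ht]
  have e3 : (g⁻¹ * h⁻¹) * a * (g⁻¹ * h⁻¹)⁻¹ = (h⁻¹ * g⁻¹) * a * (h⁻¹ * g⁻¹)⁻¹ := by rw [e1, e2]
  have e4 : (g * h * g⁻¹ * h⁻¹) * a * (g * h * g⁻¹ * h⁻¹)⁻¹ =
      (g * h) * ((g⁻¹ * h⁻¹) * a * (g⁻¹ * h⁻¹)⁻¹) * (g * h)⁻¹ := by group
  have e5 : (g * h) * ((h⁻¹ * g⁻¹) * a * (h⁻¹ * g⁻¹)⁻¹) * (g * h)⁻¹ = a := by group
  rw [e3, e5, mul_inv_eq_iff_eq_mul] at e4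
  exact e4

theorem fourOf_comm (z e : P) (hz : z * z = 1) (he : e * e = 1) (hc : e * z = z * e) :
    ∀ u ∈ Cfsg.Agent.Lib.NormalE.fourOf z e hz he hc, ∀ v ∈ Cfsg.Agent.Lib.NormalE.fourOf z e hz he hc,
      u * v = v * u := by
  intro u hu v hv
  rw [Cfsg.Agent.Lib.NormalE.mem_fourOf] at hu hv
  have c1 : Commute z e := hc.symm
  have hz' : Commute u z := by
    rcases hu with rfl | rfl | rfl | rfl
    · exact Commute.one_left _
    · exact Commute.refl _
    · exact c1.symm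
    · exact (Commute.refl z).mul_left c1.symm
  have he' : Commute u e := by
    rcases hu with rfl | rfl | rfl | rfl
    · exact Commute.one_left _
    · exact c1
    · exact Commute.refl _
    · exact c1.mul_left (Commute.refl e)
  rcases hv with rfl | rfl | rfl | rfl
  · exact (Commute.one_right u).eq
  · exact hz'.eq
  · exact he'.eq
  · exact (hz'.mul_right he').eq

/-- The `A₄`-free heart: an element centralising `a ^ (2 * 2 ^ n)` lies in `⟨a⟩`. -/
theorem fixes_u_mem (hP : IsPGroup 2 P) (a : P) (n : ℕ) (ha : orderOf a = 2 ^ (n + 3))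
    (hAn : (zpowers a).Normal) (hself : ∀ x, x * a = a * x → x ∈ zpowers a)
    (hcyc : ∀ A : Subgroup P, A.Normal → IsMulCommutative A → IsCyclic A)
    (x : P) (hx : x * a ^ (2 * 2 ^ n) = a ^ (2 * 2 ^ n) * x) : x ∈ zpowers a := by
  classical
  haveI hfact : Fact (Nat.Prime 2) := ⟨Nat.prime_two⟩
  by_contra hxM
  set T := 2 ^ n with hT
  have hTpos : 0 < T := by positivity
  have hTc : ∀ m : ℕ, Odd m → Nat.Coprime T m := by
    intro m hm
    exact Nat.Coprime.pow_left n (Nat.coprime_two_left.2 hm)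
  have ha8 : orderOf a = 8 * T := by rw [ha, hT]; ring
  -- reduce to `x₁`
  obtain ⟨J, hJ⟩ := IsPGroup.iff_orderOf.1 hP x
  have hex : ∃ j, x ^ 2 ^ j ∈ zpowers a := ⟨J, by rw [← hJ, pow_orderOf_eq_one]; exact one_mem _⟩
  let j := Nat.find hex
  have hj : x ^ 2 ^ j ∈ zpowers a := Nat.find_spec hex
  have hj0 : j ≠ 0 := by
    intro h0
    rw [h0] at hj
    simp only [pow_zero, pow_one] at hj
    exact hxM hj
  obtain ⟨j', hj'⟩ := Nat.exists_eq_succ_of_ne_zero hj0
  have hnot : x ^ 2 ^ j' ∉ zpowers a := Nat.find_min hex (by omega)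
  let x₁ := x ^ 2 ^ j'
  have hx₁ : x₁ ∉ zpowers a := hnot
  have hx₁2 : x₁ * x₁ ∈ zpowers a := by
    have : x₁ * x₁ = x ^ 2 ^ j := by
      show x ^ 2 ^ j' * x ^ 2 ^ j' = _
      rw [hj', ← pow_add, Nat.succ_eq_add_one, pow_succ]
      congr 1
      ring
    rw [this]
    exact hj
  have hx₁u : x₁ * a ^ (2 * T) = a ^ (2 * T) * x₁ :=
    ((Commute.pow_left (show Commute x (a ^ (2 * T)) from hx) _).eq)
  -- `x₁ a x₁⁻¹ = a ^ k`
  obtain ⟨k, hk⟩ := exists_pow_conj hAn x₁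
  have hk1 : k % 4 = 1 := by
    have e1 : a ^ (k * (2 * T)) = a ^ (1 * (2 * T)) := by
      rw [← conj_pow_eq hk, one_mul, hx₁u, mul_inv_cancel_right]
    have e2 := (pow_eq_pow_iff_modEq).1 e1
    rw [ha8] at e2
    have e3 : k * (2 * T) ≡ 1 * (2 * T) [MOD 4 * (2 * T)] := by
      have : 4 * (2 * T) = 8 * T := by ring
      rw [this]
      exact e2
    have e4 := Nat.ModEq.mul_right_cancel' (by positivity : 2 * T ≠ 0) e3
    exact e4
  obtain ⟨c, hc⟩ : ∃ c, k = 4 * c + 1 := ⟨k / 4, by omega⟩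
  -- `x₁²` centralises `a`
  have hx₁2c : (x₁ * x₁) * a = a * (x₁ * x₁) := by
    obtain ⟨i, hi⟩ := mem_zpowers_iff.1 hx₁2
    rw [← hi]
    exact ((Commute.refl a).zpow_left i).eq
  have hkk : k * k ≡ 1 [MOD 8 * T] := by
    rw [← ha8]
    have e1 : a ^ (k * k) = a ^ 1 := by
      rw [← conj_pow_eq hk, ← hk, pow_one]
      have : x₁ * (x₁ * a * x₁⁻¹) * x₁⁻¹ = (x₁ * x₁) * a * (x₁ * x₁)⁻¹ := by group
      rw [this, hx₁2c, mul_inv_cancel_right]
    exact (pow_eq_pow_iff_modEq).1 e1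
  obtain ⟨e, he⟩ : T ∣ c := by
    have e1 : k * k = 8 * (c * (2 * c + 1)) + 1 := by rw [hc]; ring
    have e2 : 8 * (c * (2 * c + 1)) + 1 ≡ 0 + 1 [MOD 8 * T] := by
      rw [← e1, zero_add]
      exact hkk
    have e3 : 8 * (c * (2 * c + 1)) ≡ 0 [MOD 8 * T] := Nat.ModEq.add_right_cancel' 1 e2
    have e4 : 8 * T ∣ 8 * (c * (2 * c + 1)) := (Nat.modEq_zero_iff_dvd).1 e3
    have e5 : T ∣ c * (2 * c + 1) := Nat.dvd_of_mul_dvd_mul_left (by norm_num) e4
    exact (hTc _ ⟨c, rfl⟩).dvd_of_dvd_mul_right e5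
  -- `z`
  let z := a ^ (4 * T)
  have hz2 : z * z = 1 := by
    show a ^ (4 * T) * a ^ (4 * T) = 1
    rw [← pow_add, show 4 * T + 4 * T = 8 * T by ring, ← ha8, pow_orderOf_eq_one]
  have hz1 : z ≠ 1 := by
    intro h1
    have h2 : orderOf a ∣ 4 * T := orderOf_dvd_of_pow_eq_one h1
    rw [ha8] at h2
    have := Nat.le_of_dvd (by positivity) h2
    omega
  have hzpow : ∀ m : ℕ, Even m → z ^ m = 1 := by
    rintro m ⟨r, rfl⟩
    rw [← two_mul, pow_mul, pow_two, hz2, one_pow]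
  have hzpow' : ∀ m : ℕ, Odd m → z ^ m = z := by
    rintro m ⟨r, rfl⟩
    rw [pow_succ, pow_mul, pow_two, hz2, one_pow, one_mul]
  have hzM : z ∈ zpowers a := pow_mem (mem_zpowers a) _
  have hcaz : a * z = z * a := (Commute.pow_right (Commute.refl a) _).eq
  -- involutions in `⟨a⟩`
  have hinvol : ∀ m : ℕ, (a ^ m) * (a ^ m) = 1 → a ^ m = 1 ∨ a ^ m = z := by
    intro m hm
    have h1 : orderOf a ∣ m * 2 := by
      apply orderOf_dvd_of_pow_eq_one
      rw [pow_mul, pow_two, hm]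
    rw [ha8, show 8 * T = 4 * T * 2 by ring] at h1
    obtain ⟨r, rfl⟩ := Nat.dvd_of_mul_dvd_mul_right (by norm_num) h1
    rw [pow_mul]
    rcases Nat.even_or_odd r with hr | hr
    · left
      exact hzpow r hr
    · right
      exact hzpow' r hr
  -- `z` central
  have hzcen : ∀ g : P, g * z * g⁻¹ = z := by
    intro g
    have h1 : g * z * g⁻¹ ∈ zpowers a := hAn.conj_mem z hzM g
    have h2 := (mem_powers_iff_mem_zpowers).2 h1
    obtain ⟨m, hm⟩ := Submonoid.mem_powers_iff _ _ |>.1 h2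
    have h3 : (g * z * g⁻¹) * (g * z * g⁻¹) = 1 := by
      have : (g * z * g⁻¹) * (g * z * g⁻¹) = g * (z * z) * g⁻¹ := by group
      rw [this, hz2]
      group
    rw [← hm] at h3
    rcases hinvol m h3 with h4 | h4
    · exfalso
      apply hz1
      have h5 : g * z * g⁻¹ = 1 := by rw [← hm, h4]
      calc z = g⁻¹ * (g * z * g⁻¹) * g := by group
        _ = g⁻¹ * 1 * g := by rw [h5]
        _ = 1 := by group
    · rw [← hm, h4]
  have hzcomm : ∀ g : P, g * z = z * g := by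
    intro g
    have := hzcen g
    rwa [mul_inv_eq_iff_eq_mul] at this
  -- `x₁ a x₁⁻¹ = a z`
  have hk2 : x₁ * a * x₁⁻¹ = a * z := by
    have e1 : k = 4 * T * e + 1 := by rw [hc, he]; ring
    have he_odd : Odd e := by
      by_contra hev
      rw [Nat.not_odd_iff_even] at hev
      apply hx₁
      apply hself
      have e2 : x₁ * a * x₁⁻¹ = a := by
        calc x₁ * a * x₁⁻¹ = a ^ k := hk
          _ = a ^ (4 * T * e + 1) := by rw [e1]
          _ = (a ^ (4 * T)) ^ e * a := by rw [pow_succ, pow_mul]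
          _ = z ^ e * a := rfl
          _ = a := by rw [hzpow e hev, one_mul]
      rwa [mul_inv_eq_iff_eq_mul] at e2
    calc x₁ * a * x₁⁻¹ = a ^ k := hk
      _ = a ^ (4 * T * e + 1) := by rw [e1]
      _ = (a ^ (4 * T)) ^ e * a := by rw [pow_succ, pow_mul]
      _ = z ^ e * a := rfl
      _ = z * a := by rw [hzpow' e he_odd]
      _ = a * z := hcaz.symm
  have hconjpow : ∀ m : ℕ, x₁ * a ^ m * x₁⁻¹ = a ^ m * z ^ m := by
    intro m
    rw [← conj_pow, hk2, (show Commute a z from hcaz).mul_pow]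
  -- `x₁² = a ^ (2 i)`
  obtain ⟨jj, hjj⟩ : ∃ jj : ℕ, x₁ * x₁ = a ^ jj := by
    have h2 := (mem_powers_iff_mem_zpowers).2 hx₁2
    obtain ⟨m, hm⟩ := Submonoid.mem_powers_iff _ _ |>.1 h2
    exact ⟨m, hm.symm⟩
  obtain ⟨i, hi⟩ : Even jj := by
    by_contra hodd
    rw [Nat.not_even_iff_odd] at hodd
    have hcop : Nat.Coprime jj (orderOf a) := by
      rw [ha]
      exact Nat.Coprime.pow_right _ (Nat.coprime_two_right.2 hodd)
    obtain ⟨m, hm⟩ := exists_pow_eq_self_of_coprime hcop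
    apply hx₁
    apply hself
    have hcm : Commute x₁ (a ^ jj) := by
      rw [← hjj]
      exact ((Commute.refl x₁).mul_right (Commute.refl x₁))
    rw [← hm]
    exact (hcm.pow_right m).eq
  rw [← two_mul] at hi
  -- the involution `y`
  obtain ⟨s, hs⟩ : ∃ s, 2 * T = s + 1 := ⟨2 * T - 1, by omega⟩
  let m := i * s
  let y := x₁ * a ^ m
  have hsq : ∀ r : ℕ, (x₁ * a ^ r) * (x₁ * a ^ r) = (x₁ * x₁) * a ^ (2 * r) * z ^ r := by
    intro r
    have e1 : (x₁ * a ^ r) * (x₁ * a ^ r) = (x₁ * a ^ r * x₁⁻¹) * (x₁ * x₁) * a ^ r := by group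
    rw [e1, hconjpow, hjj, two_mul, pow_add]
    have hc1 : Commute (z ^ r) (a ^ jj) := (Commute.pow_left (show Commute z (a ^ jj) from (hzcomm _).symm) r)
    have hc2 : Commute (z ^ r) (a ^ r) := (Commute.pow_left (show Commute z (a ^ r) from (hzcomm _).symm) r)
    have hc3 : Commute (a ^ r) (a ^ jj) := (Commute.refl a).pow_pow _ _
    calc a ^ r * z ^ r * a ^ jj * a ^ r = a ^ r * (z ^ r * a ^ jj) * a ^ r := by group
      _ = a ^ r * (a ^ jj * z ^ r) * a ^ r := by rw [hc1.eq]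
      _ = (a ^ r * a ^ jj) * (z ^ r * a ^ r) := by group
      _ = (a ^ jj * a ^ r) * (a ^ r * z ^ r) := by rw [hc2.eq, hc3.eq]
      _ = a ^ jj * (a ^ r * a ^ r) * z ^ r := by group
  have hy2 : y * y = 1 := by
    show (x₁ * a ^ m) * (x₁ * a ^ m) = 1
    rw [hsq, hjj, hi, ← pow_add]
    have e1 : 2 * i + 2 * m = (4 * T) * i := by
      show 2 * i + 2 * (i * s) = _
      have : 4 * T = 2 * (s + 1) := by rw [← hs]; ring
      rw [this]
      ring
    rw [e1, pow_mul]
    show z ^ i * z ^ m = 1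
    rw [← pow_add]
    apply hzpow
    refine ⟨T * i, ?_⟩
    show i + i * s = T * i + T * i
    have : (T * i + T * i) = (2 * T) * i := by ring
    rw [this, hs]
    ring
  have hyM : y ∉ zpowers a := by
    intro h1
    apply hx₁
    have : x₁ = y * (a ^ m)⁻¹ := by
      show x₁ = x₁ * a ^ m * (a ^ m)⁻¹
      group
    rw [this]
    exact mul_mem h1 (inv_mem (pow_mem (mem_zpowers a) m))
  have hyinv : y⁻¹ = y := inv_eq_of_mul_eq_one_left hy2
  have hyconj : ∀ r : ℕ, y * a ^ r * y⁻¹ = a ^ r * z ^ r := by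
    intro r
    have e1 : y * a ^ r * y⁻¹ = x₁ * (a ^ m * a ^ r * (a ^ m)⁻¹) * x₁⁻¹ := by
      show (x₁ * a ^ m) * a ^ r * (x₁ * a ^ m)⁻¹ = _
      group
    rw [e1, (Commute.pow_pow (Commute.refl a) m r).eq, mul_inv_cancel_right, hconjpow]
  -- conjugates of `y`
  have hyconj2 : ∀ h : P, h * y * h⁻¹ = y ∨ h * y * h⁻¹ = y * z := by
    intro h
    have h1 : y⁻¹ * h * y * h⁻¹ ∈ zpowers a := by
      have := commutator_mem hAn hself y⁻¹ h
      have e : y⁻¹ * h * y⁻¹⁻¹ * h⁻¹ = y⁻¹ * h * y * h⁻¹ := by rw [inv_inv]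
      rwa [e] at this
    have h2 := (mem_powers_iff_mem_zpowers).2 h1
    obtain ⟨r, hr⟩ := Submonoid.mem_powers_iff _ _ |>.1 h2
    have h3 : h * y * h⁻¹ = y * a ^ r := by
      rw [hr]
      group
    have h4 : (h * y * h⁻¹) * (h * y * h⁻¹) = 1 := by
      have : (h * y * h⁻¹) * (h * y * h⁻¹) = h * (y * y) * h⁻¹ := by group
      rw [this, hy2]
      group
    rw [h3] at h4
    have h5 : (y * a ^ r) * (y * a ^ r) = a ^ r * a ^ r * z ^ r := by
      have e1 : (y * a ^ r) * (y * a ^ r) = (y * a ^ r * y⁻¹) * (y * y) * a ^ r := by group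
      rw [e1, hyconj, hy2, mul_one]
      have hc2 : Commute (z ^ r) (a ^ r) := (Commute.pow_left (show Commute z (a ^ r) from (hzcomm _).symm) r)
      rw [mul_assoc, hc2.eq, mul_assoc]
    rw [h5] at h4
    rcases Nat.even_or_odd r with hr2 | hr2
    · rw [hzpow r hr2, mul_one] at h4
      rcases hinvol r h4 with h6 | h6
      · left
        rw [h3, h6, mul_one]
      · right
        rw [h3, h6]
    · exfalso
      rw [hzpow' r hr2] at h4
      -- `a ^ (2 r) = z`, so `a ^ (4 r) = 1`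
      have h6 : a ^ r * a ^ r = z := by
        have := mul_eq_one_iff_eq_inv.1 h4
        rw [this, inv_eq_of_mul_eq_one_left hz2]
      have h7 : a ^ (r * 4) = 1 := by
        have e : r * 4 = r + r + (r + r) := by ring
        rw [e, pow_add, pow_add, h6, hz2]
      have h8 : orderOf a ∣ r * 4 := orderOf_dvd_of_pow_eq_one h7
      rw [ha8, show 8 * T = 2 * T * 4 by ring] at h8
      have h9 := Nat.dvd_of_mul_dvd_mul_right (by norm_num) h8
      have h10 : 2 ∣ r := (Dvd.intro _ rfl : 2 ∣ 2 * T).trans h9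
      obtain ⟨w, hw⟩ := hr2
      omega
  -- the normal four group
  have hyz : y * z = z * y := hzcomm y
  let V := Cfsg.Agent.Lib.NormalE.fourOf z y hz2 hy2 hyz
  have hVn : V.Normal := by
    refine ⟨fun u hu h => ?_⟩
    rw [Cfsg.Agent.Lib.NormalE.mem_fourOf] at hu ⊢
    rcases hu with rfl | rfl | rfl | rfl
    · left
      group
    · right; left
      exact hzcen h
    · rcases hyconj2 h with h1 | h1
      · right; right; left
        exact h1
      · right; right; right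
        rw [h1, hyz]
    · have e : h * (z * y) * h⁻¹ = z * (h * y * h⁻¹) := by
        have : h * (z * y) * h⁻¹ = (h * z * h⁻¹) * (h * y * h⁻¹) := by group
        rw [this, hzcen]
      rw [e]
      rcases hyconj2 h with h1 | h1
      · right; right; right
        rw [h1]
      · right; right; left
        rw [h1, hyz, ← mul_assoc, hz2, one_mul]
  have hVc : IsMulCommutative V := ⟨⟨fun u v => Subtype.ext (fourOf_comm z y hz2 hy2 hyz u u.2 v v.2)⟩⟩
  haveI hVcyc : IsCyclic V := hcyc V hVn hVc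
  have hzV : z ∈ V := by
    rw [Cfsg.Agent.Lib.NormalE.mem_fourOf]
    right; left; rfl
  have hyV : y ∈ V := by
    rw [Cfsg.Agent.Lib.NormalE.mem_fourOf]
    right; right; left; rfl
  have hzo : orderOf (⟨z, hzV⟩ : V) = 2 := by
    rw [← Subgroup.orderOf_coe]
    exact orderOf_eq_prime (by rw [pow_two]; exact hz2) hz1
  have hyp : (⟨y, hyV⟩ : V) ^ 2 = 1 := by
    apply Subtype.ext
    show y ^ 2 = 1
    rw [pow_two, hy2]
  obtain ⟨r, hr⟩ := Cfsg.Agent.Lib.ZCoprime.mem_zpowers_of_pow (by norm_num) hzo hyp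
  apply hyM
  have hr' := congrArg Subtype.val hr
  have : y = z ^ r := by simpa using hr'.symm
  rw [this]
  exact zpow_mem hzM r

/-- The structure theorem. -/
theorem main {p : ℕ} [hp : Fact p.Prime]
    (hP : IsPGroup p P) (hn : ∀ A : Subgroup P, A.Normal → IsMulCommutative A → IsCyclic A)
    (hm : ∃ B : Subgroup P, IsMulCommutative B ∧ ¬ IsCyclic B) :
    p = 2 ∧ ((∃ n : ℕ, Nonempty (P ≃* QuaternionGroup n)) ∨ (∃ n : ℕ, 8 ≤ n ∧ Nonempty (P ≃* DihedralGroup n)) ∨
      Cfsg.IsQuasiDihedral P) := by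
  classical
  have hPnc : ¬ IsCyclic P := by
    intro hc
    obtain ⟨B, -, hB⟩ := hm
    exact hB inferInstance
  by_cases hp2 : p = 2
  swap
  · exfalso
    obtain ⟨U, hUn, hUc, hUe, hUcard⟩ := Cfsg.Agent.Lib.H6OddNormal.exists_normal_elem_odd hp2 hP hPnc
    haveI hUcyc : IsCyclic U := hn U hUn ⟨⟨fun u v => Subtype.ext (hUc u u.2 v v.2)⟩⟩
    obtain ⟨g, hg⟩ := IsCyclic.exists_generator (α := U)
    have h1 : orderOf g = p ^ 2 := by
      rw [← hUcard]
      exact orderOf_eq_card_of_forall_mem_zpowers hg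
    have h2 : orderOf g ∣ p := by
      apply orderOf_dvd_of_pow_eq_one
      apply Subtype.ext
      exact hUe _ g.2
    rw [h1] at h2
    have h3 := Nat.le_of_dvd hp.out.pos h2
    have h4 := hp.out.two_le
    nlinarith
  subst hp2
  refine ⟨rfl, ?_⟩
  obtain ⟨M, hMn, hMc, hMself⟩ := Cfsg.Agent.Lib.NormalE.exists_self_centralizing hP
  haveI hMcyc : IsCyclic M := hn M hMn ⟨⟨fun u v => Subtype.ext (hMc u u.2 v v.2)⟩⟩
  obtain ⟨a₀, ha₀⟩ := IsCyclic.exists_generator (α := M)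
  obtain ⟨a, hadef⟩ : ∃ a : P, a = a₀ := ⟨_, rfl⟩
  have hMa : M = zpowers a := by
    apply le_antisymm
    · intro m hm'
      obtain ⟨i, hi⟩ := ha₀ ⟨m, hm'⟩
      refine ⟨i, ?_⟩
      have := congrArg Subtype.val hi
      rw [hadef]
      simpa using this
    · rw [zpowers_le, hadef]
      exact a₀.2
  subst hMa
  haveI hAn := hMn
  have hself : ∀ x, x * a = a * x → x ∈ zpowers a := by
    intro x hx
    apply hMself
    intro w hw
    obtain ⟨i, rfl⟩ := mem_zpowers_iff.1 hw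
    exact (Commute.zpow_right (show Commute x a from hx) i).eq
  obtain ⟨N, hN⟩ := IsPGroup.iff_orderOf.1 hP a
  have hMtop : zpowers a ≠ ⊤ := by
    intro htop
    apply hPnc
    exact isCyclic_of_surjective (Subgroup.topEquiv.toMonoidHom.comp (Subgroup.inclusion (le_of_eq htop))) (by
      intro y
      exact ⟨⟨y, by rw [htop]; trivial⟩, rfl⟩)
  have hMtop' : ¬ ∀ x, x ∈ zpowers a := by
    intro hall
    apply hMtop
    rw [eq_top_iff]
    intro x _
    exact hall x
  obtain ⟨x₀, hx₀⟩ := not_forall.1 hMtop'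
  -- `N ≥ 2`
  have hN2 : 2 ≤ N := by
    by_contra hlt
    apply hMtop'
    have ha2 : a ^ 2 = 1 := by
      have h1 : orderOf a ∣ 2 := by
        rw [hN]
        exact pow_dvd_pow 2 (by omega : N ≤ 1)
      exact orderOf_dvd_iff_pow_eq_one.1 h1
    intro x
    apply hself
    obtain ⟨k, hk⟩ := exists_pow_conj hAn x
    rcases Nat.even_or_odd k with h1 | h1
    · obtain ⟨r, rfl⟩ := h1
      rw [← two_mul, pow_mul, ha2, one_pow] at hk
      have h3 : a = 1 := by
        calc a = x⁻¹ * (x * a * x⁻¹) * x := by group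
          _ = x⁻¹ * 1 * x := by rw [hk]
          _ = 1 := by group
      rw [h3, mul_one, one_mul]
    · obtain ⟨r, rfl⟩ := h1
      rw [pow_succ, pow_mul, ha2, one_pow, one_mul, mul_inv_eq_iff_eq_mul] at hk
      exact hk
  obtain ⟨n, rfl⟩ : ∃ n, N = n + 2 := ⟨N - 2, by omega⟩
  -- oddness of the conjugating exponents
  have hodd : ∀ g : P, ∀ k : ℕ, g * a * g⁻¹ = a ^ k → Odd k := by
    intro g k hk
    by_contra hev
    rw [Nat.not_odd_iff_even] at hev
    obtain ⟨r, rfl⟩ := hev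
    have h1 : orderOf (g * a * g⁻¹) = 2 ^ (n + 2) := by
      rw [Cfsg.Agent.Lib.NormalE.orderOf_conj', hN]
    have h2 : (g * a * g⁻¹) ^ (2 ^ (n + 1)) = 1 := by
      rw [hk, ← two_mul, ← pow_mul]
      have : 2 * r * 2 ^ (n + 1) = 2 ^ (n + 2) * r := by ring
      rw [this, pow_mul, ← hN, pow_orderOf_eq_one, one_pow]
    have h3 := orderOf_dvd_of_pow_eq_one h2
    rw [h1] at h3
    have h4 := Nat.le_of_dvd (by positivity) h3
    have h5 : 2 ^ (n + 2) = 2 * 2 ^ (n + 1) := by ring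
    have h6 : 0 < 2 ^ (n + 1) := by positivity
    omega
  let u := a ^ 2 ^ n
  have hu4 : u ^ 4 = 1 := by
    show (a ^ 2 ^ n) ^ 4 = 1
    rw [← pow_mul]
    have : 2 ^ n * 4 = 2 ^ (n + 2) := by ring
    rw [this, ← hN, pow_orderOf_eq_one]
  have hfix : ∀ x : P, x * u = u * x → x ∈ zpowers a := by
    intro x hx
    cases n with
    | zero =>
      apply hself
      simpa [u] using hx
    | succ n' =>
      refine fixes_u_mem hP a n' hN hAn hself hn x ?_
      have : 2 * 2 ^ n' = 2 ^ (n' + 1) := by ring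
      rw [this]
      exact hx
  -- elements outside act as `-1` mod `4`
  have hk3 : ∀ x : P, x ∉ zpowers a → ∀ k : ℕ, x * a * x⁻¹ = a ^ k → k % 4 = 3 := by
    intro x hx k hk
    have h1 := hodd x k hk
    by_contra h3
    have h4 : k % 4 = 1 := by
      obtain ⟨r, rfl⟩ := h1
      omega
    apply hx
    apply hfix
    have h5 : x * u * x⁻¹ = u := by
      show x * a ^ 2 ^ n * x⁻¹ = a ^ 2 ^ n
      rw [conj_pow_eq hk]
      have h6 : k = 4 * (k / 4) + 1 := by omega
      have h7 : a ^ (k * 2 ^ n) = (u ^ 4) ^ (k / 4) * u := by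
        show _ = ((a ^ 2 ^ n) ^ 4) ^ (k / 4) * a ^ 2 ^ n
        rw [← pow_mul, ← pow_mul, ← pow_add]
        congr 1
        conv_lhs => rw [h6]
        ring
      rw [h7, hu4, one_pow, one_mul]
    rwa [mul_inv_eq_iff_eq_mul] at h5
  have hinvu : ∀ x : P, x ∉ zpowers a → x * u * x⁻¹ = u⁻¹ := by
    intro x hx
    obtain ⟨k, hk⟩ := exists_pow_conj hAn x
    have h1 := hk3 x hx k hk
    show x * a ^ 2 ^ n * x⁻¹ = (a ^ 2 ^ n)⁻¹
    rw [conj_pow_eq hk]
    have h6 : k = 4 * (k / 4) + 3 := by omega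
    have h7 : a ^ (k * 2 ^ n) * u = (u ^ 4) ^ (k / 4) * u ^ 4 := by
      show a ^ (k * 2 ^ n) * a ^ 2 ^ n = ((a ^ 2 ^ n) ^ 4) ^ (k / 4) * (a ^ 2 ^ n) ^ 4
      simp only [← pow_mul, ← pow_add]
      congr 1
      conv_lhs => rw [h6]
      ring
    rw [hu4, one_pow, mul_one] at h7
    exact eq_inv_of_mul_eq_one_left h7
  -- index two
  have hA2 : (zpowers a).index = 2 := by
    rw [Subgroup.index_eq_two_iff]
    refine ⟨x₀, fun b => ?_⟩
    by_cases hb : b ∈ zpowers a
    · refine Or.inr ⟨hb, ?_⟩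
      intro h1
      apply hx₀
      have e : x₀ = b⁻¹ * (b * x₀) := by group
      rw [e]
      exact mul_mem (inv_mem hb) h1
    · refine Or.inl ⟨?_, hb⟩
      apply hfix
      have h1 : (b * x₀) * u * (b * x₀)⁻¹ = u := by
        have e : (b * x₀) * u * (b * x₀)⁻¹ = b * (x₀ * u * x₀⁻¹) * b⁻¹ := by group
        rw [e, hinvu x₀ hx₀]
        have e2 : b * u⁻¹ * b⁻¹ = (b * u * b⁻¹)⁻¹ := by group
        rw [e2, hinvu b hb, inv_inv]
      rwa [mul_inv_eq_iff_eq_mul] at h1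
  have hcardA : Nat.card (zpowers a) = 2 ^ (n + 2) := by rw [Nat.card_zpowers, hN]
  have hcardP : Nat.card P = 2 ^ (n + 3) := by
    rw [← Subgroup.card_mul_index (zpowers a), hcardA, hA2]
    ring
  -- `|P| ≠ 8`
  have hn0 : n ≠ 0 := by
    rintro rfl
    obtain ⟨B, hBc, hBnc⟩ := hm
    have hB8 : Nat.card B ∣ 8 := by
      have := Subgroup.card_subgroup_dvd_card B
      rw [hcardP] at this
      simpa using this
    have hBn : B.Normal := by
      have hc : Nat.card B ∣ 2 ^ 3 := by simpa using hB8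
      obtain ⟨e, he, he2⟩ := (Nat.dvd_prime_pow Nat.prime_two).1 hc
      interval_cases e
      · exfalso
        apply hBnc
        have : Nat.card B = 1 := by simpa using he2
        haveI := (Nat.card_eq_one_iff_unique.1 this).1
        infer_instance
      · exfalso
        apply hBnc
        have : Nat.card B = 2 := by simpa using he2
        haveI : Fact (Nat.card B).Prime := ⟨by rw [this]; exact Nat.prime_two⟩
        exact isCyclic_of_prime_card rfl
      · apply Subgroup.normal_of_index_eq_two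
        have := Subgroup.card_mul_index B
        rw [he2, hcardP] at this
        omega
      · have : B = ⊤ := by
          apply (Subgroup.card_eq_iff_eq_top B).1
          rw [he2, hcardP]
        rw [this]
        infer_instance
    exact hBnc (hn B hBn hBc)
  -- the commutator subgroup
  obtain ⟨k₀, hk₀⟩ := exists_pow_conj hAn x₀
  have hk₀3 := hk3 x₀ hx₀ k₀ hk₀
  obtain ⟨c, hc⟩ : ∃ c, k₀ = 4 * c + 3 := ⟨k₀ / 4, by omega⟩
  have hw : a ^ (2 * (2 * c + 1)) ∈ commutator P := by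
    have h1 : ⁅x₀, a⁆ ∈ commutator P := by
      rw [_root_.commutator_def]
      exact commutator_mem_commutator trivial trivial
    rw [commutatorElement_def, hk₀, hc] at h1
    have h2 : a ^ (4 * c + 3) * a⁻¹ = a ^ (2 * (2 * c + 1)) := by
      have : 4 * c + 3 = 2 * (2 * c + 1) + 1 := by ring
      rw [this, pow_succ, mul_inv_cancel_right]
    rwa [h2] at h1
  have ha2c : a ^ 2 ∈ commutator P := by
    have hcop : Nat.Coprime (2 * c + 1) (orderOf (a ^ 2)) := by
      obtain ⟨e, he⟩ := IsPGroup.iff_orderOf.1 hP (a ^ 2)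
      rw [he]
      exact Nat.Coprime.pow_right _ (Nat.coprime_two_right.2 ⟨c, rfl⟩)
    obtain ⟨m, hm'⟩ := exists_pow_eq_self_of_coprime hcop
    have e : a ^ 2 = (a ^ (2 * (2 * c + 1))) ^ m := by
      rw [pow_mul]
      exact hm'.symm
    rw [e]
    exact pow_mem hw m
  let N₂ : Subgroup P := zpowers (a ^ 2)
  have hN₂n : N₂.Normal := by
    refine ⟨fun y hy g => ?_⟩
    obtain ⟨i, rfl⟩ := mem_zpowers_iff.1 hy
    obtain ⟨k, hk⟩ := exists_pow_conj hAn g
    have e : g * (a ^ 2) ^ i * g⁻¹ = (g * a ^ 2 * g⁻¹) ^ i := (conj_zpow).symm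
    rw [e, ← conj_pow, hk, ← pow_mul, mul_comm, pow_mul]
    exact zpow_mem (pow_mem (mem_zpowers _) _) i
  haveI := hN₂n
  have hcardN₂ : Nat.card N₂ = 2 ^ (n + 1) := by
    rw [Nat.card_zpowers, orderOf_pow' a (by norm_num), hN]
    have : Nat.gcd (2 ^ (n + 2)) 2 = 2 := Nat.gcd_eq_right (dvd_pow_self 2 (by omega))
    rw [this]
    have : 2 ^ (n + 2) = 2 ^ (n + 1) * 2 := by ring
    rw [this]
    simp
  have hindN₂ : N₂.index = 4 := by
    have := Subgroup.card_mul_index N₂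
    rw [hcardN₂, hcardP] at this
    have e : 2 ^ (n + 3) = 2 ^ (n + 1) * 4 := by ring
    rw [e] at this
    exact Nat.eq_of_mul_eq_mul_left (by positivity) this
  have hcomm_le : commutator P ≤ N₂ := by
    apply Subgroup.Normal.quotient_commutative_iff_commutator_le.1
    have hcq : Nat.card (P ⧸ N₂) = 2 ^ 2 := by
      rw [show Nat.card (P ⧸ N₂) = N₂.index from rfl, hindN₂]
      norm_num
    have := IsPGroup.commutative_of_card_eq_prime_sq hcq
    exact ⟨⟨this⟩⟩
  have hN₂le : N₂ ≤ commutator P := by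
    rw [zpowers_le]
    exact ha2c
  have hD : (commutator P).index = 4 := by
    rw [le_antisymm hcomm_le hN₂le]
    exact hindN₂
  have hne : Nat.card P ≠ 4 := by
    rw [hcardP]
    intro h
    have : 2 ^ (n + 3) = 8 * 2 ^ n := by ring
    have h2 : 0 < 2 ^ n := by positivity
    omega
  rcases Cfsg.Agent.Lib.Taussky.classify hP hD a hA2 hne with h | h | h
  · obtain ⟨k, ⟨e⟩⟩ := h
    right; left
    refine ⟨2 ^ (k + 2), ?_, ⟨e⟩⟩
    have hc2 := Nat.card_congr e.toEquiv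
    rw [DihedralGroup.nat_card, hcardP] at hc2
    have hk0 : k ≠ 0 := by
      rintro rfl
      have e2 : 2 ^ (n + 3) = 8 * 2 ^ n := by ring
      have h3 : 2 ^ n ≥ 2 := by
        obtain ⟨n', rfl⟩ := Nat.exists_eq_succ_of_ne_zero hn0
        have : 2 ^ (n' + 1) = 2 * 2 ^ n' := by ring
        have : 0 < 2 ^ n' := by positivity
        simp only [Nat.succ_eq_add_one]
        omega
      simp at hc2
      omega
    obtain ⟨k', rfl⟩ := Nat.exists_eq_succ_of_ne_zero hk0
    have : 2 ^ (k' + 1 + 2) = 8 * 2 ^ k' := by ring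
    simp only [Nat.succ_eq_add_one]
    have h2 : 0 < 2 ^ k' := by positivity
    omega
  · obtain ⟨k, hk, x, y, hx, hy, hxy⟩ := h
    right; right
    refine ⟨k + 3, by omega, hk, x, y, hx, hy, ?_⟩
    simpa using hxy
  · obtain ⟨k, ⟨e⟩⟩ := h
    left
    exact ⟨_, ⟨e⟩⟩

end Cfsg.Agent.Lib.NoNormalFour
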