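import Mathlib

/-!
# Norms along `F_p`-lines of a finite extension
-/

set_option autoImplicit false
set_option linter.all false

namespace Cfsg.Agent.Lib.NormLine

open Polynomial

variable {K L : Type*} [Field K] [Field L] [Algebra K L] [FiniteDimensional K L]

/-- The characteristic polynomial computes norms on the line through `s`. -/
theorem exists_norm_poly (s : L) : ∃ P : K[X], P.Monic ∧ P.natDegree = Module.finrank K L ∧
    ∀ k : K, P.eval k = Algebra.norm K (algebraMap K L k - s) := by
  classical
  let b := Module.finBasis K L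
  let M := Algebra.leftMulMatrix b s
  refine ⟨M.charpoly, M.charpoly_monic, ?_, ?_⟩
  · rw [Matrix.charpoly_natDegree_eq_dim]
    simp
  · intro k
    rw [Matrix.eval_charpoly, Algebra.norm_eq_matrix_det b, map_sub]
    congr 2
    rw [AlgHom.commutes]
    rfl

/-- The polynomial is also minimal whenever it annihilates `s` with the right degree. -/
theorem norm_poly_eq_of_root (s : L) (Q : K[X]) (hQm : Q.Monic) (hQd : Q.natDegree = Module.finrank K L)
    (hQi : Irreducible Q) (hroot : aeval s Q = 0) (k : K) :
    Q.eval k = Algebra.norm K (algebraMap K L k - s) := by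
  classical
  let b := Module.finBasis K L
  let M := Algebra.leftMulMatrix b s
  have hM : aeval s M.charpoly = 0 := by
    have h1 : aeval M M.charpoly = 0 := Matrix.aeval_self_charpoly M
    have h2 : aeval M M.charpoly = Algebra.leftMulMatrix b (aeval s M.charpoly) := by
      rw [← Polynomial.aeval_algHom_apply]
    rw [h2] at h1
    exact (Algebra.leftMulMatrix_injective b) (by rw [h1, map_zero])
  have hmin : Q = minpoly K s := minpoly.eq_of_irreducible_of_monic hQi hroot hQm
  have hdvd : Q ∣ M.charpoly := by
    rw [hmin]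
    exact minpoly.dvd K s hM
  have heq : Q = M.charpoly := by
    symm
    apply Polynomial.eq_of_monic_of_dvd_of_natDegree_le hQm M.charpoly_monic hdvd
    rw [hQd, Matrix.charpoly_natDegree_eq_dim]
    simp
  rw [heq, Matrix.eval_charpoly, Algebra.norm_eq_matrix_det b, map_sub]
  congr 2
  rw [AlgHom.commutes]
  rfl

/-- The Bender-Glauberman line argument: if the norm-one pairs set is closed under inversion and has
at least two elements, then the characteristic is at most the degree. -/
theorem char_le_of_inv_closed {p : ℕ} [Fact p.Prime] {L : Type*} [Field L] [Algebra (ZMod p) L]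
    [FiniteDimensional (ZMod p) L] (hq0 : Module.finrank (ZMod p) L ≠ 0)
    (hinv : ∀ a : L, Algebra.norm (ZMod p) a = 1 → Algebra.norm (ZMod p) (2 - a) = 1 →
      Algebra.norm (ZMod p) a⁻¹ = 1 ∧ Algebra.norm (ZMod p) (2 - a⁻¹) = 1)
    (a : L) (haE : Algebra.norm (ZMod p) a = 1 ∧ Algebra.norm (ZMod p) (2 - a) = 1) (ha1 : a ≠ 1) :
    p ≤ Module.finrank (ZMod p) L := by
  classical
  have hN0 : (Algebra.norm (ZMod p) (0 : L)) = 0 := by
    rw [Algebra.norm_eq_zero_iff]
  let E : Set L := {a : L | Algebra.norm (ZMod p) a = 1 ∧ Algebra.norm (ZMod p) (2 - a) = 1}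
  have hne0 : ∀ b ∈ E, b ≠ 0 := by
    rintro b ⟨hb, -⟩ rfl
    rw [hN0] at hb
    exact zero_ne_one hb
  have hstep : ∀ b ∈ E, 2 - b⁻¹ ∈ E := by
    intro b hb
    have h1 := hinv b hb.1 hb.2
    refine ⟨h1.2, ?_⟩
    have h2' : (2 : L) - (2 - b⁻¹) = b⁻¹ := by ring
    rw [h2']
    exact h1.1
  set s : L := (a - 1)⁻¹ with hs
  have hs0 : s ≠ 0 := inv_ne_zero (sub_ne_zero.2 ha1)
  have hk : ∀ k : ℕ, s + k ≠ 0 ∧ 1 + (s + k)⁻¹ ∈ E := by
    intro k
    induction k with
    | zero =>
      refine ⟨by simpa using hs0, ?_⟩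
      have : 1 + (s + ((0 : ℕ) : L))⁻¹ = a := by
        simp [hs]
      rw [this]
      exact haE
    | succ k ih =>
      obtain ⟨ih1, ih2⟩ := ih
      set t : L := s + k with ht
      have hb0 := hne0 _ ih2
      have ht1 : t + 1 ≠ 0 := by
        intro h
        apply hb0
        have : 1 + t⁻¹ = (t + 1) * t⁻¹ := by
          field_simp
        rw [this, h, zero_mul]
      have e1 : s + ((k + 1 : ℕ) : L) = t + 1 := by
        rw [ht]
        push_cast
        ring
      rw [e1]
      refine ⟨ht1, ?_⟩
      have e2 : 1 + (t + 1)⁻¹ = 2 - (1 + t⁻¹)⁻¹ := by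
        field_simp
        ring
      rw [e2]
      exact hstep _ ih2
  have hNk : ∀ k : ℕ, Algebra.norm (ZMod p) (s + k) = Algebra.norm (ZMod p) s := by
    intro k
    induction k with
    | zero => simp
    | succ k ih =>
      obtain ⟨h1, h2'⟩ := hk k
      have e1 : s + ((k + 1 : ℕ) : L) = (1 + (s + (k : L))⁻¹) * (s + k) := by
        push_cast
        field_simp
        ring
      rw [e1, map_mul, h2'.1, one_mul, ih]
  -- the polynomial
  obtain ⟨P, hPm, hPd, hPe⟩ := exists_norm_poly (K := ZMod p) (-s : L)
  have hroot : ∀ k : ZMod p, (P - Polynomial.C (Algebra.norm (ZMod p) s)).eval k = 0 := by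
    intro k
    rw [Polynomial.eval_sub, Polynomial.eval_C, hPe, sub_eq_zero]
    have h1 := hNk k.val
    have h2' : algebraMap (ZMod p) L k - (-s) = s + (k.val : L) := by
      have : (k.val : L) = algebraMap (ZMod p) L k := by
        have h3 : algebraMap (ZMod p) L ((k.val : ℕ) : ZMod p) = (k.val : L) := map_natCast _ _
        rw [ZMod.natCast_zmod_val k] at h3
        exact h3.symm
      rw [this]
      ring
    rw [h2']
    exact h1
  have hne : P - Polynomial.C (Algebra.norm (ZMod p) s) ≠ 0 := by
    intro h
    have h1 : P = Polynomial.C (Algebra.norm (ZMod p) s) := sub_eq_zero.1 h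
    rw [h1, Polynomial.natDegree_C] at hPd
    exact hq0 hPd.symm
  have hdeg : (P - Polynomial.C (Algebra.norm (ZMod p) s)).natDegree = Module.finrank (ZMod p) L := by
    rw [Polynomial.natDegree_sub_C, hPd]
  have hcard := Polynomial.card_le_degree_of_subset_roots (p := P - Polynomial.C (Algebra.norm (ZMod p) s))
    (Z := (Finset.univ : Finset (ZMod p))) (by
      intro k _
      rw [Polynomial.mem_roots hne]
      exact hroot k)
  rw [hdeg, Finset.card_univ, ZMod.card] at hcard
  exact hcard

end Cfsg.Agent.Lib.NormLine
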