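import Mathlib
import Cfsg.Agent.Lib.NormLine

/-!
# Counting solutions of two norm equations with Jacobi sums
-/

set_option autoImplicit false
set_option linter.all false

namespace Cfsg.Agent.Lib.NormJacobi

open Polynomial Finset

variable {p : ℕ} [Fact p.Prime] {L : Type*} [Field L] [Fintype L] [Algebra (ZMod p) L]

/-- Norm-composed multiplicative characters. -/
noncomputable def liftChar (χ : MulChar (ZMod p) ℂ) : MulChar L ℂ where
  toFun a := χ (Algebra.norm (ZMod p) a)
  map_one' := by simp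
  map_mul' a b := by simp
  map_nonunit' a ha := by
    have h0 : a = 0 := by
      by_contra h
      exact ha (isUnit_iff_ne_zero.2 h)
    subst h0
    rw [Algebra.norm_zero]
    exact MulChar.map_zero χ

theorem liftChar_apply (χ : MulChar (ZMod p) ℂ) (a : L) :
    liftChar χ a = χ (Algebra.norm (ZMod p) a) := rfl

theorem liftChar_one : liftChar (1 : MulChar (ZMod p) ℂ) = (1 : MulChar L ℂ) := by
  ext a
  simp only [liftChar_apply, MulChar.one_apply_coe]
  rw [MulChar.one_apply]
  exact (a.isUnit.map (Algebra.norm (ZMod p)))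

theorem liftChar_mul (χ φ : MulChar (ZMod p) ℂ) :
    liftChar (χ * φ) = (liftChar χ * liftChar φ : MulChar L ℂ) := by
  ext a
  simp [liftChar_apply, MulChar.mul_apply]

theorem liftChar_ne_one (χ : MulChar (ZMod p) ℂ) (hχ : χ ≠ 1) : (liftChar χ : MulChar L ℂ) ≠ 1 := by
  haveI : Finite (ZMod p) := inferInstance
  intro h
  apply hχ
  ext c
  obtain ⟨x, hx⟩ := FiniteField.norm_surjective (ZMod p) L (c : ZMod p)
  have hx0 : x ≠ 0 := by
    rintro rfl
    rw [Algebra.norm_zero] at hx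
    exact c.ne_zero hx.symm
  have h1 := congrArg (fun ψ : MulChar L ℂ => ψ x) h
  simp only [liftChar_apply, hx] at h1
  rw [h1, MulChar.one_apply (isUnit_iff_ne_zero.2 hx0), MulChar.one_apply c.isUnit]

section bound

variable {F : Type*} [Field F] [Fintype F]

theorem norm_jacobi_le (hodd : (2 : F) ≠ 0) (χ φ : MulChar F ℂ) (hχ : χ ≠ 1) (hφ : φ ≠ 1) :
    ‖jacobiSum χ φ‖ ^ 2 ≤ Fintype.card F := by
  by_cases h : χ * φ = 1
  · have hφ' : φ = χ⁻¹ := eq_inv_of_mul_eq_one_right h
    subst hφ'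
    rw [jacobiSum_nontrivial_inv hχ, norm_neg]
    have h1 : (χ (-1)) ^ 2 = 1 := by
      rw [sq, ← map_mul]
      simp
    have h2 : ‖χ (-1)‖ ^ 2 = 1 := by
      rw [← norm_pow, h1, norm_one]
    rw [h2]
    have : 1 ≤ Fintype.card F := Fintype.card_pos
    exact_mod_cast this
  · have h1 : ringChar ℂ ≠ ringChar F := by
      rw [ringChar.eq_zero]
      have : ringChar F ≠ 0 := CharP.char_ne_zero_of_finite F (ringChar F)
      exact this.symm
    have h2 := jacobiSum_mul_jacobiSum_inv h1 hχ hφ h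
    have h3 : jacobiSum χ⁻¹ φ⁻¹ = star (jacobiSum χ φ) := by
      unfold jacobiSum
      rw [star_sum]
      refine Finset.sum_congr rfl fun x _ => ?_
      rw [star_mul', MulChar.star_apply', MulChar.star_apply']
    rw [h3, Complex.star_def, Complex.mul_conj, Complex.normSq_eq_norm_sq] at h2
    have h4 : ‖jacobiSum χ φ‖ ^ 2 = Fintype.card F := by
      exact_mod_cast h2
    exact h4.le

end bound

section main

theorem double_sum_bound {X : Type*} [Fintype X] [DecidableEq X] (f : X → X → ℂ) (o : X) (R : ℝ)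
    (hR : ∀ x y, ¬ (x = o ∧ y = o) → ‖f x y‖ ≤ R) :
    ‖(∑ x, ∑ y, f x y) - f o o‖ ≤ (((Fintype.card X) ^ 2 - 1 : ℕ) : ℝ) * R := by
  have h1 : (∑ x, ∑ y, f x y) = ∑ x ∈ (Finset.univ : Finset (X × X)), f x.1 x.2 := by
    rw [← Finset.univ_product_univ, Finset.sum_product]
  have h2 : (∑ x ∈ (Finset.univ : Finset (X × X)), f x.1 x.2) =
      f o o + ∑ x ∈ (Finset.univ : Finset (X × X)).erase (o, o), f x.1 x.2 :=
    (Finset.add_sum_erase _ (fun x : X × X => f x.1 x.2) (Finset.mem_univ (o, o))).symm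
  rw [h1, h2, add_sub_cancel_left]
  have h3 : ((Finset.univ : Finset (X × X)).erase (o, o)).card = (Fintype.card X) ^ 2 - 1 := by
    rw [Finset.card_erase_of_mem (Finset.mem_univ _), Finset.card_univ, Fintype.card_prod, sq]
  rw [← h3, ← nsmul_eq_mul, ← Finset.sum_const]
  apply norm_sum_le_of_le
  rintro ⟨x, y⟩ hx
  apply hR
  rintro ⟨h4, h5⟩
  apply (Finset.mem_erase.1 hx).1
  simp only [Prod.mk.injEq]
  exact ⟨h4, h5⟩

variable [FiniteDimensional (ZMod p) L]

/-- The double character sum. -/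
theorem sum_lift_eq (h2 : (2 : L) ≠ 0) (χ φ : MulChar (ZMod p) ℂ) :
    ∑ a : L, χ (Algebra.norm (ZMod p) a) * φ (Algebra.norm (ZMod p) (2 - a)) =
      (liftChar χ : MulChar L ℂ) 2 * (liftChar φ : MulChar L ℂ) 2 * jacobiSum (liftChar χ : MulChar L ℂ) (liftChar φ) := by
  unfold jacobiSum
  rw [Finset.mul_sum]
  refine (Fintype.sum_bijective (fun x : L => 2 * x) (mulLeft_bijective₀ 2 h2) _ _ ?_).symm
  intro x
  have e1 : (2 : L) - 2 * x = 2 * (1 - x) := by ring
  rw [e1]
  simp only [liftChar_apply, map_mul]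
  ring

theorem norm_lift_le (χ : MulChar (ZMod p) ℂ) (a : L) : ‖(liftChar χ : MulChar L ℂ) a‖ ≤ 1 := by
  rw [liftChar_apply]
  exact DirichletCharacter.norm_le_one (χ : DirichletCharacter ℂ p) _

theorem norm_term_le (h2 : (2 : L) ≠ 0) (χ φ : MulChar (ZMod p) ℂ) (hne : ¬ (χ = 1 ∧ φ = 1)) :
    ‖∑ a : L, χ (Algebra.norm (ZMod p) a) * φ (Algebra.norm (ZMod p) (2 - a))‖ ≤
      Real.sqrt (Fintype.card L) := by
  rw [sum_lift_eq h2, norm_mul, norm_mul]
  have hJ : ‖jacobiSum (liftChar χ : MulChar L ℂ) (liftChar φ)‖ ≤ Real.sqrt (Fintype.card L) := by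
    have hone : (1 : ℝ) ≤ Real.sqrt (Fintype.card L) := by
      rw [Real.one_le_sqrt]
      have : 1 ≤ Fintype.card L := Fintype.card_pos
      exact_mod_cast this
    by_cases hχ : χ = 1
    · have hφ : φ ≠ 1 := fun h => hne ⟨hχ, h⟩
      subst hχ
      rw [liftChar_one, jacobiSum_one_nontrivial (liftChar_ne_one φ hφ), norm_neg, norm_one]
      exact hone
    · by_cases hφ : φ = 1
      · subst hφ
        rw [jacobiSum_comm, liftChar_one, jacobiSum_one_nontrivial (liftChar_ne_one χ hχ), norm_neg, norm_one]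
        exact hone
      · apply Real.le_sqrt_of_sq_le
        exact norm_jacobi_le h2 _ _ (liftChar_ne_one χ hχ) (liftChar_ne_one φ hφ)
  have h1 := norm_lift_le χ (2 : L)
  have h3 := norm_lift_le φ (2 : L)
  calc _ ≤ 1 * 1 * Real.sqrt (Fintype.card L) := by
        gcongr
    _ = _ := by ring

theorem exists_second_solution (hp2 : p ≠ 2) (h2 : (2 : L) ≠ 0) (hL : p ^ 4 ≤ Fintype.card L) :
    ∃ a : L, a ≠ 1 ∧ Algebra.norm (ZMod p) a = 1 ∧ Algebra.norm (ZMod p) (2 - a) = 1 := by
  classical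
  by_contra hcon
  push Not at hcon
  have hp : p.Prime := Fact.out
  have hp3 : 3 ≤ p := by
    have := hp.two_le
    omega
  set Sol : Finset L := Finset.univ.filter
    (fun a : L => Algebra.norm (ZMod p) a = 1 ∧ Algebra.norm (ZMod p) (2 - a) = 1) with hSol
  have hT : Sol.card ≤ 1 := by
    rw [Finset.card_le_one]
    intro a ha b hb
    simp only [hSol, Finset.mem_filter, Finset.mem_univ, true_and] at ha hb
    have h1 : a = 1 := by
      by_contra h
      exact hcon a h ha.1 ha.2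
    have h3 : b = 1 := by
      by_contra h
      exact hcon b h hb.1 hb.2
    rw [h1, h3]
  set c : ℕ := p.totient with hc
  have hcp : c = p - 1 := Nat.totient_prime hp
  let S : DirichletCharacter ℂ p → DirichletCharacter ℂ p → ℂ := fun χ φ =>
    ∑ a : L, χ (Algebra.norm (ZMod p) a) * φ (Algebra.norm (ZMod p) (2 - a))
  have hsum : (∑ χ : DirichletCharacter ℂ p, ∑ φ : DirichletCharacter ℂ p, S χ φ) = (c : ℂ) ^ 2 * Sol.card := by
    have e1 : ∀ a : L, (∑ χ : DirichletCharacter ℂ p, ∑ φ : DirichletCharacter ℂ p,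
        χ (Algebra.norm (ZMod p) a) * φ (Algebra.norm (ZMod p) (2 - a))) =
        (if Algebra.norm (ZMod p) a = 1 then (c : ℂ) else 0) *
          (if Algebra.norm (ZMod p) (2 - a) = 1 then (c : ℂ) else 0) := by
      intro a
      rw [← DirichletCharacter.sum_characters_eq ℂ (Algebra.norm (ZMod p) a),
        ← DirichletCharacter.sum_characters_eq ℂ (Algebra.norm (ZMod p) (2 - a)), Finset.sum_mul]
      refine Finset.sum_congr rfl fun χ _ => ?_
      rw [Finset.mul_sum]
    have e2 : (∑ χ : DirichletCharacter ℂ p, ∑ φ : DirichletCharacter ℂ p, S χ φ) =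
        ∑ a : L, ∑ χ : DirichletCharacter ℂ p, ∑ φ : DirichletCharacter ℂ p,
          χ (Algebra.norm (ZMod p) a) * φ (Algebra.norm (ZMod p) (2 - a)) := by
      simp only [S]
      have e3 : ∀ χ : DirichletCharacter ℂ p, (∑ φ : DirichletCharacter ℂ p, ∑ a : L,
          χ (Algebra.norm (ZMod p) a) * φ (Algebra.norm (ZMod p) (2 - a))) =
          ∑ a : L, ∑ φ : DirichletCharacter ℂ p,
          χ (Algebra.norm (ZMod p) a) * φ (Algebra.norm (ZMod p) (2 - a)) := fun χ => Finset.sum_comm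
      simp only [e3]
      exact Finset.sum_comm
    rw [e2]
    simp only [e1]
    rw [hSol, Finset.card_filter]
    push_cast
    rw [Finset.mul_sum]
    refine Finset.sum_congr rfl fun a _ => ?_
    by_cases h1 : Algebra.norm (ZMod p) a = 1 <;> by_cases h3 : Algebra.norm (ZMod p) (2 - a) = 1 <;>
      simp [h1, h3, sq]
  have hS11 : S 1 1 = (Fintype.card L : ℂ) - 2 := by
    simp only [S]
    rw [sum_lift_eq h2, liftChar_one, jacobiSum_one_one,
      MulChar.one_apply (isUnit_iff_ne_zero.2 h2)]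
    simp
  have hcard : Fintype.card (DirichletCharacter ℂ p) = c := by
    rw [← Nat.card_eq_fintype_card]
    exact DirichletCharacter.card_eq_totient_of_hasEnoughRootsOfUnity ℂ p
  set R : ℝ := Real.sqrt (Fintype.card L) with hR
  have hb := double_sum_bound S 1 R (fun χ φ h => norm_term_le h2 χ φ h)
  rw [hcard, hsum, hS11] at hb
  have hRsq : R * R = Fintype.card L := Real.mul_self_sqrt (Nat.cast_nonneg _)
  have hR0 : 0 ≤ R := Real.sqrt_nonneg _
  have hRp : (p : ℝ) ^ 2 ≤ R := by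
    apply Real.le_sqrt_of_sq_le
    have : ((p ^ 4 : ℕ) : ℝ) ≤ (Fintype.card L : ℝ) := by exact_mod_cast hL
    push_cast at this
    calc ((p : ℝ) ^ 2) ^ 2 = (p : ℝ) ^ 4 := by ring
      _ ≤ _ := this
  have hp3' : (3 : ℝ) ≤ p := by exact_mod_cast hp3
  have hcr : (c : ℝ) = p - 1 := by
    rw [hcp, Nat.cast_sub hp.one_le]
    simp
  have hc1 : 1 ≤ c ^ 2 := by
    rw [hcp]
    have : 1 ≤ p - 1 := by omega
    exact Nat.one_le_pow _ _ this
  have hcc : (((c ^ 2 - 1 : ℕ)) : ℝ) = (p - 1) ^ 2 - 1 := by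
    rw [Nat.cast_sub hc1]
    push_cast
    rw [hcr]
  rw [hcc] at hb
  have hreal : ((c : ℂ) ^ 2 * (Sol.card : ℂ) - ((Fintype.card L : ℂ) - 2)) =
      (((c : ℝ) ^ 2 * (Sol.card : ℝ) - ((Fintype.card L : ℝ) - 2) : ℝ) : ℂ) := by
    push_cast
    ring
  rw [hreal, Complex.norm_real, Real.norm_eq_abs, hcr] at hb
  have hb2 := (abs_le.1 hb).1
  have hT' : (Sol.card : ℝ) ≤ 1 := by exact_mod_cast hT
  have hcsq : (0 : ℝ) ≤ ((p : ℝ) - 1) ^ 2 := sq_nonneg _
  have h5 : ((p : ℝ) - 1) ^ 2 * (Sol.card : ℝ) ≤ ((p : ℝ) - 1) ^ 2 := by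
    calc _ ≤ ((p : ℝ) - 1) ^ 2 * 1 := by gcongr
      _ = _ := by ring
  rw [← hRsq] at hb2
  have h6 : R * (R - (p : ℝ) ^ 2) ≥ 0 := mul_nonneg hR0 (by linarith)
  have h7 : 2 * (p : ℝ) * R ≥ 2 * (p : ℝ) * (p : ℝ) ^ 2 := by
    apply mul_le_mul_of_nonneg_left hRp
    positivity
  have h8 : (2 : ℝ) * p * (p : ℝ) ^ 2 - 2 > ((p : ℝ) - 1) ^ 2 := by
    nlinarith [sq_nonneg ((p : ℝ) - 1), mul_nonneg (sub_nonneg.2 hp3') (sub_nonneg.2 hp3')]
  nlinarith

end main

section three

theorem exists_second_solution_three [FiniteDimensional (ZMod p) L]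
    (hfr : Module.finrank (ZMod p) L = 3) :
    ∃ a : L, a ≠ 1 ∧ Algebra.norm (ZMod p) a = 1 ∧ Algebra.norm (ZMod p) (2 - a) = 1 := by
  classical
  -- a value not attained by the cubic map
  have hns : ¬ Function.Surjective (fun x : ZMod p => x ^ 3 - x) := by
    intro h
    have hi := Finite.injective_iff_surjective.2 h
    have h0 : (0 : ZMod p) = 1 := hi (by simp)
    exact zero_ne_one h0
  simp only [Function.Surjective, not_forall, not_exists] at hns
  obtain ⟨d, hd⟩ := hns
  have hd0 : d ≠ 0 := by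
    rintro rfl
    exact hd 0 (by simp)
  let P : (ZMod p)[X] := X ^ 3 - X - C d
  have hPdeg : P.natDegree = 3 := by
    simp only [P]
    compute_degree!
  have hPm : P.Monic := by
    simp only [P]
    monicity!
  have hProot : P.roots = 0 := by
    rw [Multiset.eq_zero_iff_forall_notMem]
    intro x hx
    have h1 := (Polynomial.mem_roots'.1 hx).2
    simp only [P, Polynomial.IsRoot.def, Polynomial.eval_sub, Polynomial.eval_pow, Polynomial.eval_X, Polynomial.eval_C] at h1
    exact hd x (sub_eq_zero.1 h1)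
  have hPi : Irreducible P :=
    (Polynomial.Monic.irreducible_iff_roots_eq_zero_of_degree_le_three hPm (by omega) (by omega)).2 hProot
  haveI : Fact (Irreducible P) := ⟨hPi⟩
  let A := AdjoinRoot P
  haveI : Module.Finite (ZMod p) A := (AdjoinRoot.powerBasis hPi.ne_zero).finite
  haveI : Finite A := Module.finite_of_finite (ZMod p)
  letI : Fintype A := Fintype.ofFinite A
  have hfA : Module.finrank (ZMod p) A = 3 := by
    rw [(AdjoinRoot.powerBasis hPi.ne_zero).finrank, AdjoinRoot.powerBasis_dim, hPdeg]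
  have hcard : Fintype.card A = Fintype.card L := by
    rw [Module.card_eq_pow_finrank (K := ZMod p) (V := A), Module.card_eq_pow_finrank (K := ZMod p) (V := L), hfA, hfr]
  let φ : A ≃ₐ[ZMod p] L := FiniteField.algEquivOfCardEq p hcard
  let w : L := φ (AdjoinRoot.root P)
  have hw : aeval w P = 0 := by
    have h1 : aeval (AdjoinRoot.root P) P = 0 := AdjoinRoot.eval₂_root P
    have h2 : aeval w P = φ (aeval (AdjoinRoot.root P) P) := by
      simp only [w]
      exact Polynomial.aeval_algHom_apply φ.toAlgHom _ P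
    rw [h2, h1, map_zero]
  have hev := Cfsg.Agent.Lib.NormLine.norm_poly_eq_of_root w P hPm (by rw [hPdeg, hfr]) hPi hw
  have hneg : ∀ x : L, Algebra.norm (ZMod p) (-x) = - Algebra.norm (ZMod p) x := by
    intro x
    have e1 : -x = algebraMap (ZMod p) L (-1) * x := by
      simp
    rw [e1, map_mul, Algebra.norm_algebraMap, hfr]
    have : ((-1 : ZMod p)) ^ 3 = -1 := by ring
    rw [this]
    ring
  have h0 := hev 0
  have h1 := hev 1
  have hm1 := hev (-1)
  simp only [P, Polynomial.eval_sub, Polynomial.eval_pow, Polynomial.eval_X, Polynomial.eval_C, map_zero, map_one, map_neg] at h0 h1 hm1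
  have hNw : Algebra.norm (ZMod p) w = d := by
    have e1 : (0 : L) - w = -w := by ring
    rw [e1, hneg] at h0
    have e2 : (0 : ZMod p) ^ 3 - 0 - d = -d := by ring
    rw [e2] at h0
    exact neg_injective h0.symm
  have hNwp : Algebra.norm (ZMod p) (w + 1) = d := by
    have e1 : (-1 : L) - w = -(w + 1) := by ring
    rw [e1, hneg] at hm1
    have e2 : (-1 : ZMod p) ^ 3 - (-1) - d = -d := by ring
    rw [e2] at hm1
    exact neg_injective hm1.symm
  have hNwm : Algebra.norm (ZMod p) (w - 1) = d := by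
    have e1 : (1 : L) - w = -(w - 1) := by ring
    rw [e1, hneg] at h1
    have e2 : (1 : ZMod p) ^ 3 - 1 - d = -d := by ring
    rw [e2] at h1
    exact neg_injective h1.symm
  have hw0 : w ≠ 0 := by
    rintro h
    rw [h, Algebra.norm_zero] at hNw
    exact hd0 hNw.symm
  refine ⟨1 + w⁻¹, ?_, ?_, ?_⟩
  · intro h
    have : w⁻¹ = 0 := by simpa using h
    exact hw0 (inv_eq_zero.1 this)
  · have e1 : 1 + w⁻¹ = (w + 1) * w⁻¹ := by
      field_simp
    have e2 : Algebra.norm (ZMod p) w⁻¹ * d = 1 := by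
      rw [← hNw, ← map_mul, inv_mul_cancel₀ hw0, map_one]
    rw [e1, map_mul, hNwp, mul_comm, e2]
  · have e1 : 2 - (1 + w⁻¹) = (w - 1) * w⁻¹ := by
      field_simp
      try ring
    have e2 : Algebra.norm (ZMod p) w⁻¹ * d = 1 := by
      rw [← hNw, ← map_mul, inv_mul_cancel₀ hw0, map_one]
    rw [e1, map_mul, hNwm, mul_comm, e2]

end three

end Cfsg.Agent.Lib.NormJacobi
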