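import Cfsg.Agent.Lib.OmegaOrder

/-! Tools for the exceptional isomorphisms of orthogonal groups in small dimension: a representation
with small kernel onto `Ω` induces an isomorphism of `PΩ` with the central quotient. -/

set_option autoImplicit false
set_option linter.unusedSectionVars false
set_option linter.unusedVariables false

namespace Cfsg.Agent.Lib.OmegaIso

open Cfsg Cfsg.Geo
open Cfsg.Agent.Lib.QuadSiegel
open scoped Matrix MatrixGroups

section Abstract

variable {G H P : Type*} [Group G] [Group H] [Group P]

/-- A surjection with central kernel induces an isomorphism of the central quotient. -/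
theorem quot_center_equiv (f : G →* H) (hf : Function.Surjective f) (π : G →* P)
    (hπ : Function.Surjective π) (hP : Subgroup.center P = ⊥) (h1 : f.ker ≤ π.ker)
    (h2 : π.ker ≤ Subgroup.center G) : Nonempty ((H ⧸ Subgroup.center H) ≃* P) := by
  let ψ : G →* H ⧸ Subgroup.center H := (QuotientGroup.mk' (Subgroup.center H)).comp f
  have hψ : Function.Surjective ψ := (QuotientGroup.mk'_surjective _).comp hf
  have hker : ψ.ker = π.ker := by
    ext x
    rw [MonoidHom.mem_ker, MonoidHom.mem_ker]
    have e : ψ x = 1 ↔ f x ∈ Subgroup.center H := QuotientGroup.eq_one_iff (f x)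
    rw [e]
    constructor
    · intro h
      have h3 : π x ∈ Subgroup.center P := by
        rw [Subgroup.mem_center_iff]
        intro p
        obtain ⟨y, rfl⟩ := hπ p
        have h4 : f (y * x * y⁻¹ * x⁻¹) = 1 := by
          rw [map_mul, map_mul, map_mul, map_inv, map_inv, Subgroup.mem_center_iff.1 h (f y)]
          group
        have h5 : π (y * x * y⁻¹ * x⁻¹) = 1 := h1 h4
        rw [map_mul, map_mul, map_mul, map_inv, map_inv] at h5
        have h6 : π y * π x * (π y)⁻¹ = π x := by
          rw [mul_inv_eq_one] at h5
          exact h5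
        rw [mul_inv_eq_iff_eq_mul] at h6
        exact h6
      rw [hP] at h3
      exact h3
    · intro h
      have h3 : x ∈ Subgroup.center G := h2 h
      rw [Subgroup.mem_center_iff]
      intro y
      obtain ⟨z, rfl⟩ := hf y
      rw [← map_mul, ← map_mul, Subgroup.mem_center_iff.1 h3 z]
  exact ⟨(QuotientGroup.quotientKerEquivOfSurjective ψ hψ).symm.trans
    ((QuotientGroup.quotientMulEquivOfEq hker).trans
      (QuotientGroup.quotientKerEquivOfSurjective π hπ))⟩

/-- A homomorphism from a perfect group lands in the commutator subgroup. -/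
theorem range_le_of_perfect (f : G →* H) (h : commutator G = ⊤) : f.range ≤ commutator H := by
  rintro _ ⟨x, rfl⟩
  have hx : x ∈ commutator G := by rw [h]; trivial
  have h1 : (commutator G).map f ≤ commutator H := by
    rw [commutator_def, commutator_def, Subgroup.map_commutator]
    exact Subgroup.commutator_mono le_top le_top
  exact h1 ⟨x, hx, rfl⟩

/-- A range inside a subgroup of the right order. -/
theorem range_eq_of_card [Finite G] [Finite H] (f : G →* H) {C : Subgroup H} {k : ℕ}
    (hle : f.range ≤ C) (hk : C.index = k) (hk0 : 0 < k)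
    (hcard : Nat.card H * Nat.card f.ker ≤ k * Nat.card G) : f.range = C := by
  have h1 : Nat.card C * k = Nat.card H := by
    rw [← hk]
    exact Subgroup.card_mul_index C
  have h2 : Nat.card f.range * Nat.card f.ker = Nat.card G := by
    have h3 := Subgroup.card_eq_card_quotient_mul_card_subgroup f.ker
    rw [Nat.card_congr (QuotientGroup.quotientKerEquivRange f).toEquiv] at h3
    exact h3.symm
  have hker : 0 < Nat.card f.ker := Nat.card_pos
  refine Subgroup.eq_of_le_of_card_ge hle ?_
  rw [← h1, ← h2] at hcard
  have h4 : k * (Nat.card C * Nat.card f.ker) ≤ k * (Nat.card f.range * Nat.card f.ker) := by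
    calc k * (Nat.card C * Nat.card f.ker) = Nat.card C * k * Nat.card f.ker := by ring
      _ ≤ k * (Nat.card f.range * Nat.card f.ker) := hcard
  exact Nat.le_of_mul_le_mul_right (Nat.le_of_mul_le_mul_left h4 hk0) hker

/-- In a simple perfect group the centre is trivial. -/
theorem center_eq_bot_of_simple [IsSimpleGroup P] (h : commutator P = ⊤) : Subgroup.center P = ⊥ := by
  rcases (Subgroup.Normal.eq_bot_or_eq_top (inferInstance : (Subgroup.center P).Normal)) with h1 | h1
  · exact h1
  · exfalso
    have hab : commutator P = ⊥ := by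
      rw [eq_bot_iff, commutator_def, Subgroup.commutator_le]
      intro x _ y _
      have : x ∈ Subgroup.center P := by rw [h1]; trivial
      rw [commutatorElement_eq_one_iff_mul_comm.2 (Subgroup.mem_center_iff.1 this y).symm]
      exact one_mem _
    rw [h] at hab
    obtain ⟨a, b, hab2⟩ := (inferInstance : Nontrivial P)
    have h2 : ∀ x : P, x = 1 := by
      intro x
      have : x ∈ (⊥ : Subgroup P) := by rw [← hab]; trivial
      exact this
    exact hab2 (by rw [h2 a, h2 b])

theorem commutator_top_of_surjective (f : G →* H) (hf : Function.Surjective f) (h : commutator G = ⊤) :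
    commutator H = ⊤ := by
  rw [eq_top_iff]
  rintro y -
  obtain ⟨x, rfl⟩ := hf y
  have h2 : f.range ≤ commutator H := range_le_of_perfect f h
  exact h2 ⟨x, rfl⟩

/-- A two-step recipe. -/
theorem card_two_of_squares {F : Type*} [Field F] [Finite F] (h2 : (2 : F) ≠ 0) :
    Nat.card {d : F // d * d = 1} = 2 := by
  classical
  rw [Nat.card_eq_two_iff]
  have hne : (1 : F) ≠ -1 := by
    intro h
    apply h2
    linear_combination h
  refine ⟨⟨1, one_mul 1⟩, ⟨-1, by ring⟩, ?_, ?_⟩
  · intro h
    exact hne (congrArg Subtype.val h)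
  · ext ⟨d, hd⟩
    simp only [Set.mem_insert_iff, Set.mem_singleton_iff, Set.mem_univ, iff_true]
    rcases mul_self_eq_one_iff.1 hd with h | h
    · left
      exact Subtype.ext h
    · right
      exact Subtype.ext h

theorem card_one_of_squares {F : Type*} [Field F] [Finite F] (h2 : (2 : F) = 0) :
    Nat.card {d : F // d * d = 1} = 1 := by
  classical
  rw [Nat.card_eq_one_iff_unique]
  refine ⟨⟨?_⟩, ⟨⟨1, one_mul 1⟩⟩⟩
  have key : ∀ x : {d : F // d * d = 1}, x.1 = 1 := by
    rintro ⟨d, hd⟩
    rcases mul_self_eq_one_iff.1 hd with h | h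
    · exact h
    · change d = 1
      rw [h]
      linear_combination -h2
  intro a b
  exact Subtype.ext ((key a).trans (key b).symm)

end Abstract

section Rep

variable {ι : Type} [Fintype ι] [DecidableEq ι] {F : Type*} [Field F] {Q : (ι → F) → F}
  {G X : Type*} [Group G] [AddCommGroup X] [Module F X]

/-- The representation on coordinates, from a representation on a bigger space. -/
def repOf (mat : (ι → F) →ₗ[F] X) (vec : X →ₗ[F] (ι → F)) (T : G →* Module.End F X)
    (h1 : ∀ v, vec (mat v) = v) (h2 : ∀ g v, mat (vec (T g (mat v))) = T g (mat v)) :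
    G →* Module.End F (ι → F) where
  toFun g := vec ∘ₗ T g ∘ₗ mat
  map_one' := by
    ext1
    apply LinearMap.ext
    intro c
    simp [h1]
  map_mul' g g' := by
    apply LinearMap.ext
    intro v
    simp only [map_mul, LinearMap.comp_apply, Module.End.mul_apply]
    rw [h2]

theorem repOf_apply (mat : (ι → F) →ₗ[F] X) (vec : X →ₗ[F] (ι → F)) (T : G →* Module.End F X)
    (h1 : ∀ v, vec (mat v) = v) (h2 : ∀ g v, mat (vec (T g (mat v))) = T g (mat v)) (g : G) (v : ι → F) :
    repOf mat vec T h1 h2 g v = vec (T g (mat v)) := rfl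

/-- A representation as matrices. -/
noncomputable def repGL (L : G →* Module.End F (ι → F)) : G →* GL ι F :=
  MonoidHom.toHomUnits
    { toFun := fun g => LinearMap.toMatrix' (L g)
      map_one' := by
        rw [map_one]
        exact LinearMap.toMatrix'_id
      map_mul' := fun g g' => by
        rw [map_mul]
        exact LinearMap.toMatrix'_comp _ _ }

theorem repGL_mulVec (L : G →* Module.End F (ι → F)) (g : G) (v : ι → F) :
    ((repGL L g : GL ι F) : Matrix ι ι F) *ᵥ v = L g v := by
  change (LinearMap.toMatrix' (L g)) *ᵥ v = L g v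
  exact LinearMap.toMatrix'_mulVec _ _

/-- A representation preserving `Q`. -/
noncomputable def repIsom (L : G →* Module.End F (ι → F)) (h : ∀ g v, Q (L g v) = Q v) :
    G →* isometryGroup F Q :=
  (repGL L).codRestrict (isometryGroup F Q) (fun g => mem_isometryGroup_iff.2 (fun v => by
    rw [repGL_mulVec]
    exact h g v))

theorem repIsom_mulVec (L : G →* Module.End F (ι → F)) (h : ∀ g v, Q (L g v) = Q v) (g : G) (v : ι → F) :
    (((repIsom L h g : isometryGroup F Q) : GL ι F) : Matrix ι ι F) *ᵥ v = L g v :=
  repGL_mulVec L g v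

theorem mem_ker_repIsom (L : G →* Module.End F (ι → F)) (h : ∀ g v, Q (L g v) = Q v) (g : G) :
    g ∈ (repIsom L h).ker ↔ ∀ v, L g v = v := by
  rw [MonoidHom.mem_ker]
  constructor
  · intro h1 v
    rw [← repIsom_mulVec L h, h1]
    simp
  · intro h1
    apply Subtype.ext
    apply Cfsg.Agent.Lib.Transvection.gl_ext_mulVec
    intro v
    rw [repIsom_mulVec, h1]
    simp

/-- The final step. -/
theorem pomega_equiv {P : Type*} [Group P] (ρ : G →* isometryGroup F Q) (π : G →* P)
    (hπ : Function.Surjective π) (hP : Subgroup.center P = ⊥) (h1 : ρ.ker ≤ π.ker)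
    (h2 : π.ker ≤ Subgroup.center G) (hr : ρ.range = commutator (isometryGroup F Q)) :
    Nonempty (POmega F Q ≃* P) := by
  have hm : ∀ g, ρ g ∈ Omega F Q := by
    intro g
    change ρ g ∈ commutator (isometryGroup F Q)
    rw [← hr]
    exact ⟨g, rfl⟩
  let f : G →* Omega F Q := ρ.codRestrict (Omega F Q) hm
  have hf : Function.Surjective f := by
    rintro ⟨x, hx⟩
    change x ∈ commutator (isometryGroup F Q) at hx
    rw [← hr] at hx
    obtain ⟨g, rfl⟩ := hx
    exact ⟨g, rfl⟩
  have hk : f.ker ≤ π.ker := by
    intro g hg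
    apply h1
    have h3 : f g = 1 := hg
    have h4 := congrArg Subtype.val h3
    exact h4
  exact quot_center_equiv f hf π hπ hP hk h2

end Rep

section Act

variable {F : Type*} [Field F] {G : Type*} [Group G] {κ : Type*} [Fintype κ] [DecidableEq κ]

/-- The action `A ↦ g A gᵀ`. -/
def congT (M : G →* Matrix κ κ F) : G →* Module.End F (Matrix κ κ F) where
  toFun g :=
    { toFun := fun A => M g * A * (M g)ᵀ
      map_add' := fun A B => by rw [Matrix.mul_add, Matrix.add_mul]
      map_smul' := fun c A => by simp [Matrix.mul_smul, Matrix.smul_mul] }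
  map_one' := by
    apply LinearMap.ext
    intro A
    simp
  map_mul' g g' := by
    apply LinearMap.ext
    intro A
    simp [Matrix.transpose_mul, Matrix.mul_assoc]

@[simp] theorem congT_apply (M : G →* Matrix κ κ F) (g : G) (A : Matrix κ κ F) :
    congT M g A = M g * A * (M g)ᵀ := rfl

end Act

section Scalar

variable {F : Type*} [Field F] {G : Type*} [Group G] {κ : Type*} [Fintype κ] [DecidableEq κ]

/-- A subgroup of scalars of square one. -/
theorem card_ker_le [Finite F] [Nonempty κ] (K : Subgroup G) (M : G → Matrix κ κ F)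
    (hM : Function.Injective M) (h : ∀ g ∈ K, ∃ d : F, d * d = 1 ∧ M g = d • (1 : Matrix κ κ F)) :
    Nat.card K ≤ Nat.card {d : F // d * d = 1} := by
  classical
  let φ : K → {d : F // d * d = 1} := fun g =>
    ⟨Classical.choose (h g.1 g.2), (Classical.choose_spec (h g.1 g.2)).1⟩
  have hφ : Function.Injective φ := by
    rintro ⟨a, ha⟩ ⟨b, hb⟩ hab
    apply Subtype.ext
    apply hM
    have e1 := (Classical.choose_spec (h a ha)).2
    have e2 := (Classical.choose_spec (h b hb)).2
    have e3 : Classical.choose (h a ha) = Classical.choose (h b hb) := congrArg Subtype.val hab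
    change M a = M b
    rw [e1, e2, e3]
  exact Nat.card_le_card_of_injective φ hφ

variable {ι : Type} [Fintype ι] [DecidableEq ι] {Q : (ι → F) → F}

/-- The index of `Ω` in characteristic two, in general. -/
theorem index_char2 [Fintype F] (hQ : IsNondegenerateQuadraticForm Q) (hn : 1 ≤ Fintype.card ι)
    (h2 : (2 : F) = 0) (h : Fintype.card F ≠ 2 ∨ Fintype.card ι ≠ 4) :
    (commutator (isometryGroup F Q)).index = 2 := by
  classical
  haveI : CharP F 2 := CharTwo.of_one_ne_zero_of_two_eq_zero one_ne_zero h2
  have h' : (QuadraticMap.polarBilin (OrthChain.toQF hQ)).Nondegenerate := by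
    constructor
    · intro x hx
      by_contra hne
      obtain ⟨y, hy⟩ := (hQ.nondegenerate x hne).2
      exact hy (hx y)
    · intro x hx
      by_contra hne
      obtain ⟨y, hy⟩ := (hQ.nondegenerate x hne).1
      exact hy (hx y)
  exact Cfsg.Agent.Lib.Dickson.comm_index2 (OrthChain.toQF hQ) h' hn h

end Scalar

end Cfsg.Agent.Lib.OmegaIso
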