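import Mathlib
import Cfsg.Agent.Lib.OmegaIso
import Cfsg.Agent.Lib.OrthFam

/-! The orthogonal group `O₄⁺(2)` is the wreath product `S₃ ≀ C₂`. -/

set_option autoImplicit false
set_option linter.all false

namespace Cfsg.Agent.Lib.O4Two

open Cfsg Cfsg.Geo Cfsg.Agent.Lib.OmegaIso

abbrev V4 := Fin 2 ⊕ Fin 2 → ZMod 2

/-- The natural action of `S₃` on the plane: permuting the three non-zero vectors.
We use the matrices of `SL₂(2)`. -/
def R : Equiv.Perm (Fin 3) → Matrix (Fin 2) (Fin 2) (ZMod 2) := fun σ =>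
  -- the non-zero vectors: 0 ↦ (1,0), 1 ↦ (0,1), 2 ↦ (1,1)
  let w : Fin 3 → (Fin 2 → ZMod 2) := ![![1, 0], ![0, 1], ![1, 1]]
  Matrix.of fun i j => w (σ (if j = 0 then 0 else 1)) i

theorem R_mul : ∀ σ τ : Equiv.Perm (Fin 3), R (σ * τ) = R σ * R τ := by decide +kernel

theorem R_one : R 1 = 1 := by decide +kernel

/-- `v = (x₀, x₁, y₀, y₁)` as the matrix `!![x₀, x₁; y₁, y₀]`, of determinant `x₀y₀ + x₁y₁` (char 2). -/
def toM (v : V4) : Matrix (Fin 2) (Fin 2) (ZMod 2) := !![v (.inl 0), v (.inl 1); v (.inr 1), v (.inr 0)]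

def ofM (M : Matrix (Fin 2) (Fin 2) (ZMod 2)) : V4 := Sum.elim ![M 0 0, M 0 1] ![M 1 1, M 1 0]

theorem ofM_toM (v : V4) : ofM (toM v) = v := by
  ext i
  rcases i with i | i <;> fin_cases i <;> rfl

theorem toM_ofM (M : Matrix (Fin 2) (Fin 2) (ZMod 2)) : toM (ofM M) = M := by
  ext i j
  fin_cases i <;> fin_cases j <;> rfl

/-- Left multiplication. -/
def repA : Equiv.Perm (Fin 3) →* Module.End (ZMod 2) V4 where
  toFun σ :=
    { toFun := fun v => ofM (R σ * toM v)
      map_add' := by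
        revert σ
        decide +kernel
      map_smul' := by
        revert σ
        decide +kernel }
  map_one' := by
    apply LinearMap.ext
    intro v
    show ofM (R 1 * toM v) = v
    rw [R_one, one_mul, ofM_toM]
  map_mul' σ τ := by
    apply LinearMap.ext
    intro v
    show ofM (R (σ * τ) * toM v) = ofM (R σ * toM (ofM (R τ * toM v)))
    rw [toM_ofM, R_mul, mul_assoc]

/-- Right multiplication by the inverse. -/
def repB : Equiv.Perm (Fin 3) →* Module.End (ZMod 2) V4 where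
  toFun σ :=
    { toFun := fun v => ofM (toM v * R σ⁻¹)
      map_add' := by
        revert σ
        decide +kernel
      map_smul' := by
        revert σ
        decide +kernel }
  map_one' := by
    apply LinearMap.ext
    intro v
    show ofM (toM v * R 1⁻¹) = v
    rw [inv_one, R_one, mul_one, ofM_toM]
  map_mul' σ τ := by
    apply LinearMap.ext
    intro v
    show ofM (toM v * R (σ * τ)⁻¹) = ofM (toM (ofM (toM v * R τ⁻¹)) * R σ⁻¹)
    rw [toM_ofM, mul_inv_rev, R_mul, mul_assoc]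

theorem repA_apply (σ : Equiv.Perm (Fin 3)) (v : V4) : repA σ v = ofM (R σ * toM v) := rfl
theorem repB_apply (σ : Equiv.Perm (Fin 3)) (v : V4) : repB σ v = ofM (toM v * R σ⁻¹) := rfl

theorem repA_isom : ∀ (σ : Equiv.Perm (Fin 3)) (v : V4),
    quadFormPlus 2 (ZMod 2) (repA σ v) = quadFormPlus 2 (ZMod 2) v := by
  intro σ v
  revert σ v
  simp only [repA_apply]
  unfold quadFormPlus
  decide +kernel

theorem repB_isom : ∀ (σ : Equiv.Perm (Fin 3)) (v : V4),
    quadFormPlus 2 (ZMod 2) (repB σ v) = quadFormPlus 2 (ZMod 2) v := by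
  intro σ v
  revert σ v
  simp only [repB_apply]
  unfold quadFormPlus
  decide +kernel

/-- The swap. -/
def sw (v : V4) : V4 := Sum.elim ![v (.inl 0), v (.inr 1)] ![v (.inr 0), v (.inl 1)]

def repC : Equiv.Perm (Fin 2) →* Module.End (ZMod 2) V4 where
  toFun σ :=
    { toFun := fun v => if σ = 1 then v else sw v
      map_add' := by
        revert σ
        decide +kernel
      map_smul' := by
        revert σ
        decide +kernel }
  map_one' := by
    apply LinearMap.ext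
    intro v
    simp
  map_mul' σ τ := by
    apply LinearMap.ext
    intro v
    show (if σ * τ = 1 then v else sw v) = if σ = 1 then (if τ = 1 then v else sw v) else sw (if τ = 1 then v else sw v)
    revert σ τ v
    decide +kernel

theorem repC_apply (σ : Equiv.Perm (Fin 2)) (v : V4) : repC σ v = if σ = 1 then v else sw v := rfl

theorem repC_isom : ∀ (σ : Equiv.Perm (Fin 2)) (v : V4),
    quadFormPlus 2 (ZMod 2) (repC σ v) = quadFormPlus 2 (ZMod 2) v := by
  simp only [repC_apply]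
  unfold quadFormPlus
  decide +kernel

theorem A_inj : ∀ σ : Equiv.Perm (Fin 3), (∀ v, repA σ v = v) → σ = 1 := by
  simp only [repA_apply]
  decide +kernel

theorem B_inj : ∀ σ : Equiv.Perm (Fin 3), (∀ v, repB σ v = v) → σ = 1 := by
  simp only [repB_apply]
  decide +kernel

theorem AB_inj : ∀ σ τ : Equiv.Perm (Fin 3), (∀ v, repA σ v = repB τ v) → σ = 1 := by
  simp only [repA_apply, repB_apply]
  decide +kernel

theorem AB_comm : ∀ (σ τ : Equiv.Perm (Fin 3)) (v : V4), repA σ (repB τ v) = repB τ (repA σ v) := by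
  simp only [repA_apply, repB_apply]
  decide +kernel

theorem sw_conj : ∀ σ : Equiv.Perm (Fin 3), ∃ τ : Equiv.Perm (Fin 3), ∀ v, sw (repA σ (sw v)) = repB τ v := by
  simp only [repA_apply, repB_apply]
  decide +kernel

abbrev O4 := ↥(isometryGroup (ZMod 2) (quadFormPlus 2 (ZMod 2)))

noncomputable def rhoA : Equiv.Perm (Fin 3) →* O4 := repIsom repA repA_isom
noncomputable def rhoB : Equiv.Perm (Fin 3) →* O4 := repIsom repB repB_isom
noncomputable def rhoC : Equiv.Perm (Fin 2) →* O4 := repIsom repC repC_isom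

abbrev GL4 := Matrix.GeneralLinearGroup (Fin 2 ⊕ Fin 2) (ZMod 2)
abbrev M4 := Matrix (Fin 2 ⊕ Fin 2) (Fin 2 ⊕ Fin 2) (ZMod 2)

/-- The action on vectors. -/
def mvv (x : O4) (v : V4) : V4 := (((x : GL4) : M4)).mulVec v

theorem ext_O4 {x y : O4} (h : ∀ v, mvv x v = mvv y v) : x = y := by
  apply Subtype.ext
  exact Cfsg.Agent.Lib.Transvection.gl_ext_mulVec h

theorem mulVec_mul (x y : O4) (v : V4) : mvv (x * y) v = mvv x (mvv y v) := by
  unfold mvv
  rw [Matrix.mulVec_mulVec]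
  rfl

theorem mvv_one (v : V4) : mvv 1 v = v := by
  unfold mvv
  exact Matrix.one_mulVec v

theorem rhoA_mv (σ : Equiv.Perm (Fin 3)) (v : V4) : mvv (rhoA σ) v = repA σ v := repIsom_mulVec _ _ _ _

theorem rhoB_mv (σ : Equiv.Perm (Fin 3)) (v : V4) : mvv (rhoB σ) v = repB σ v := repIsom_mulVec _ _ _ _

theorem rhoC_mv (σ : Equiv.Perm (Fin 2)) (v : V4) : mvv (rhoC σ) v = repC σ v := repIsom_mulVec _ _ _ _

theorem inj_A : Function.Injective rhoA := by
  rw [injective_iff_map_eq_one]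
  intro σ h
  refine A_inj σ (fun v => ?_)
  rw [← rhoA_mv, h, mvv_one]

theorem inj_B : Function.Injective rhoB := by
  rw [injective_iff_map_eq_one]
  intro σ h
  refine B_inj σ (fun v => ?_)
  rw [← rhoB_mv, h, mvv_one]

theorem card_S3 : Nat.card (Equiv.Perm (Fin 3)) = 6 := by
  rw [Nat.card_eq_fintype_card, Fintype.card_perm, Fintype.card_fin]
  decide

theorem main :
    Nat.card O4 = 72 ∧
    ∃ (A B : Subgroup O4),
      Nonempty (↥A ≃* Equiv.Perm (Fin 3)) ∧ Nonempty (↥B ≃* Equiv.Perm (Fin 3)) ∧ A ⊓ B = ⊥ ∧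
      (∀ a ∈ A, ∀ b ∈ B, a * b = b * a) ∧
      (A ⊔ B).index = 2 ∧ ∃ g : O4, A.map (MulAut.conj g).toMonoidHom = B := by
  classical
  have h72 : Nat.card O4 = 72 := by
    rw [Cfsg.Agent.Lib.OrthFam.card_plus (F := ZMod 2) (q := 2) (by simp) 2 (by norm_num)]
    decide
  haveI : Finite O4 := Nat.finite_of_card_ne_zero (by rw [h72]; norm_num)
  have hcomm : ∀ σ τ, rhoA σ * rhoB τ = rhoB τ * rhoA σ := by
    intro σ τ
    apply ext_O4
    intro v
    rw [mulVec_mul, mulVec_mul, rhoA_mv, rhoB_mv, rhoA_mv, rhoB_mv, AB_comm]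
  have hinter : rhoA.range ⊓ rhoB.range = ⊥ := by
    rw [eq_bot_iff]
    rintro x ⟨⟨σ, rfl⟩, ⟨τ, hτ⟩⟩
    have : σ = 1 := by
      refine AB_inj σ τ (fun v => ?_)
      rw [← rhoA_mv, ← rhoB_mv, hτ]
    rw [this, map_one]
    exact one_mem _
  have hcard : Nat.card ↥(rhoA.range ⊔ rhoB.range) = 36 := by
    let φ := MonoidHom.noncommCoprod rhoA rhoB hcomm
    have hr : φ.range = rhoA.range ⊔ rhoB.range := MonoidHom.noncommCoprod_range rhoA rhoB hcomm
    have hinj : Function.Injective φ := by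
      rw [injective_iff_map_eq_one]
      rintro ⟨σ, τ⟩ h
      have h1 : rhoA σ * rhoB τ = 1 := h
      have h2 : rhoA σ = rhoB τ⁻¹ := by
        rw [map_inv]
        exact eq_inv_of_mul_eq_one_left h1
      have h3 : rhoA σ ∈ rhoA.range ⊓ rhoB.range := ⟨⟨σ, rfl⟩, ⟨τ⁻¹, h2.symm⟩⟩
      rw [hinter, Subgroup.mem_bot] at h3
      have h4 : σ = 1 := inj_A (h3.trans (map_one _).symm)
      have h5 : rhoB τ = 1 := by
        rw [h3, one_mul] at h1
        exact h1
      have h6 : τ = 1 := inj_B (h5.trans (map_one _).symm)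
      rw [h4, h6]
      rfl
    rw [← hr, Nat.card_congr (MonoidHom.ofInjective hinj).symm.toEquiv, Nat.card_prod, card_S3]
  refine ⟨h72, rhoA.range, rhoB.range, ⟨(MonoidHom.ofInjective inj_A).symm⟩,
    ⟨(MonoidHom.ofInjective inj_B).symm⟩, hinter, ?_, ?_, ?_⟩
  · rintro _ ⟨σ, rfl⟩ _ ⟨τ, rfl⟩
    exact hcomm σ τ
  · have := Subgroup.card_mul_index (rhoA.range ⊔ rhoB.range)
    rw [hcard, h72] at this
    omega
  · obtain ⟨c, hc⟩ : ∃ c : Equiv.Perm (Fin 2), c ≠ 1 ∧ c⁻¹ = c := ⟨Equiv.swap 0 1, by decide, by decide⟩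
    refine ⟨rhoC c, ?_⟩
    apply Subgroup.eq_of_le_of_card_ge
    · rintro _ ⟨_, ⟨σ, rfl⟩, rfl⟩
      obtain ⟨τ, hτ⟩ := sw_conj σ
      refine ⟨τ, ?_⟩
      apply ext_O4
      intro v
      show mvv (rhoB τ) v = mvv (rhoC c * rhoA σ * (rhoC c)⁻¹) v
      rw [mulVec_mul, mulVec_mul, ← map_inv, hc.2, rhoC_mv, rhoC_mv, rhoA_mv, rhoB_mv, repC_apply, repC_apply,
        if_neg hc.1, if_neg hc.1, hτ]
    · rw [Subgroup.card_map_of_injective (MulAut.conj (rhoC c)).injective,
        Nat.card_congr (MonoidHom.ofInjective inj_A).symm.toEquiv,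
        Nat.card_congr (MonoidHom.ofInjective inj_B).symm.toEquiv]

end Cfsg.Agent.Lib.O4Two
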