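import Mathlib

/-!
Odd-order automorphisms of doubly transitive groups: the symmetric design argument.
-/

set_option autoImplicit false

namespace Cfsg.Agent.Lib.OddAutDesign

open Matrix

/-- The arithmetic at the end of the design argument. -/
theorem numeric (n k lam d a b : ℤ) (j : ℕ) (hk1 : 1 ≤ k) (hkn : k < n)
    (hlam : 0 ≤ lam) (hd : d = k - lam) (h1 : d + lam * n = k ^ 2)
    (h2 : a ^ 2 = d ^ (2 * j + 1)) (h3 : a + b * n = k ^ (2 * j + 1))
    (hcop : IsCoprime k n) : k = 1 ∨ k = n - 1 := by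
  have hl1 : lam * (n - 1) = k * (k - 1) := by subst hd; linear_combination h1
  have hdpos : 0 < d := by
    by_contra hcon
    have hkl : k ≤ lam := by linarith
    have hn1 : 0 < n - 1 := by linarith
    have hk1' : k - 1 < n - 1 := by linarith
    nlinarith
  have hdj : d ^ j ≠ 0 := pow_ne_zero _ hdpos.ne'
  have hdvd : d ^ j ∣ a := by
    have : (d ^ j) ^ 2 ∣ a ^ 2 := by
      rw [h2]; exact ⟨d, by ring⟩
    exact (Int.pow_dvd_pow_iff two_ne_zero).1 this
  obtain ⟨μ, hμ⟩ := hdvd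
  have hμ2 : μ ^ 2 = d := by
    have h4 : (d ^ j) ^ 2 * μ ^ 2 = (d ^ j) ^ 2 * d := by
      rw [hμ] at h2
      calc (d ^ j) ^ 2 * μ ^ 2 = (d ^ j * μ) ^ 2 := by ring
        _ = d ^ (2 * j + 1) := h2
        _ = _ := by ring
    exact mul_left_cancel₀ (pow_ne_zero _ hdj) h4
  have ha : a = μ ^ (2 * j + 1) := by
    rw [hμ, ← hμ2]; ring
  -- `n` divides `k - μ`
  have hsq : k ^ 2 - μ ^ 2 = lam * n := by rw [hμ2]; linarith
  have hd1 : n ∣ (k ^ 2) ^ j - (μ ^ 2) ^ j :=
    (Dvd.intro_left _ hsq.symm).trans (sub_dvd_pow_sub_pow _ _ _)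
  have hd2 : n ∣ k ^ (2 * j) * (k - μ) := by
    obtain ⟨c, hc⟩ := hd1
    refine ⟨b - c * μ, ?_⟩
    have e1 : k ^ (2 * j) = (k ^ 2) ^ j := by rw [pow_mul]
    have e2 : μ ^ (2 * j) = (μ ^ 2) ^ j := by rw [pow_mul]
    have e3 : k ^ (2 * j + 1) = k ^ (2 * j) * k := by rw [pow_succ]
    have e4 : μ ^ (2 * j + 1) = μ ^ (2 * j) * μ := by rw [pow_succ]
    rw [ha, e4, e3] at h3
    rw [← e1, ← e2] at hc
    linear_combination (-1 : ℤ) * h3 - hc * μ
  have hd3 : n ∣ k - μ :=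
    IsCoprime.dvd_of_dvd_mul_left (hcop.symm.pow_right) hd2
  obtain ⟨s, hs⟩ := hd3
  have hn0 : n ≠ 0 := by
    intro h; rw [h] at hkn; linarith
  have hls : lam = s * (k + μ) := by
    apply mul_right_cancel₀ hn0
    have : (k - μ) * (k + μ) = lam * n := by rw [← hsq]; ring
    rw [hs] at this
    linear_combination -this
  rcases lt_trichotomy s 0 with hsn | hs0 | hsp
  · -- impossible
    exfalso
    have hμge : k + n ≤ μ := by nlinarith
    have hdk : d ≤ k := by linarith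
    nlinarith
  · left
    rw [hs0, zero_mul] at hls
    rw [hs0, mul_zero] at hs
    have e : μ = k := by linarith
    have h5 : k ^ 2 = k := by
      have h6 := hμ2
      rw [e] at h6
      rw [h6, hd, hls]; simp
    nlinarith
  · right
    have hs1 : 1 ≤ s := hsp
    have hμneg : μ ≤ k - n := by nlinarith
    have hν : 1 ≤ -μ := by linarith
    have hdk : d ≤ k := by linarith
    have hνle : -μ ≤ k := by nlinarith
    have hslt : s < 2 := by
      by_contra hcon
      have : 2 ≤ s := by linarith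
      nlinarith
    have hs1' : s = 1 := by linarith
    subst hs1'
    have hμe : μ = k - n := by linarith
    have hl2 : lam = k + μ := by linarith
    have he : d = -μ := by linarith
    have he2 : μ ^ 2 = -μ := by rw [hμ2, he]
    have : -μ = 1 := by nlinarith
    linarith

variable {Ω : Type*} [Fintype Ω] [DecidableEq Ω]

/-- The all-ones matrix. -/
def Jm (Ω : Type*) [Fintype Ω] : Matrix Ω Ω ℤ := Matrix.of fun _ _ => 1

theorem Jm_transpose : (Jm Ω)ᵀ = Jm Ω := by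
  ext x y; simp [Jm]

theorem Jm_mul_self : Jm Ω * Jm Ω = (Fintype.card Ω : ℤ) • Jm Ω := by
  ext x y; simp [Jm, Matrix.mul_apply]

theorem coef_eq {o o' : Ω} (hne : o ≠ o') (x y x' y' : ℤ)
    (h : x • (1 : Matrix Ω Ω ℤ) + y • Jm Ω = x' • (1 : Matrix Ω Ω ℤ) + y' • Jm Ω) :
    x = x' ∧ y = y' := by
  have h1 := congrFun (congrFun h o) o
  have h2 := congrFun (congrFun h o) o'
  simp only [Matrix.add_apply, Matrix.smul_apply, Matrix.one_apply_eq, Matrix.one_apply_ne hne, Jm,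
    Matrix.of_apply, smul_eq_mul, mul_one, mul_zero, zero_add] at h1 h2
  constructor <;> linarith

/-- The matrix computation. -/
theorem matrix_lemma (M : Matrix Ω Ω ℤ) (n k d lam a b : ℤ) (m : ℕ)
    (hn : n = Fintype.card Ω)
    (coef : ∀ x y x' y' : ℤ,
      x • (1 : Matrix Ω Ω ℤ) + y • Jm Ω = x' • (1 : Matrix Ω Ω ℤ) + y' • Jm Ω → x = x' ∧ y = y')
    (hMJ : M * Jm Ω = k • Jm Ω) (hNJ : Mᵀ * Jm Ω = k • Jm Ω)
    (hMN : M * Mᵀ = d • 1 + lam • Jm Ω) (hP : M ^ m = a • 1 + b • Jm Ω) :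
    a ^ 2 = d ^ m ∧ a + b * n = k ^ m ∧ d + lam * n = k ^ 2 := by
  subst hn
  have hJN : Jm Ω * Mᵀ = k • Jm Ω := by
    have := congrArg Matrix.transpose hMJ
    rwa [Matrix.transpose_mul, Jm_transpose, Matrix.transpose_smul, Jm_transpose] at this
  have hJJ := Jm_mul_self (Ω := Ω)
  have h3 : d + lam * (Fintype.card Ω : ℤ) = k ^ 2 := by
    have e1 : (M * Mᵀ) * Jm Ω = (k ^ 2) • Jm Ω := by
      rw [Matrix.mul_assoc, hNJ, Matrix.mul_smul, hMJ, smul_smul, sq]
    have e2 : (M * Mᵀ) * Jm Ω = (d + lam * (Fintype.card Ω : ℤ)) • Jm Ω := by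
      rw [hMN, Matrix.add_mul, Matrix.smul_mul, Matrix.one_mul, Matrix.smul_mul, hJJ, smul_smul,
        add_smul]
    have := (coef 0 (d + lam * (Fintype.card Ω : ℤ)) 0 (k ^ 2) (by
      rw [zero_smul, ← e2, e1])).2
    exact this
  have hpowJ : ∀ j : ℕ, M ^ j * Jm Ω = (k ^ j) • Jm Ω := by
    intro j
    induction j with
    | zero => simp
    | succ j ih =>
      rw [pow_succ, Matrix.mul_assoc, hMJ, Matrix.mul_smul, ih, smul_smul, pow_succ, mul_comm]
  have h2 : a + b * (Fintype.card Ω : ℤ) = k ^ m := by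
    have e1 := hpowJ m
    rw [hP, Matrix.add_mul, Matrix.smul_mul, Matrix.one_mul, Matrix.smul_mul, hJJ, smul_smul,
      ← add_smul] at e1
    exact (coef 0 (a + b * (Fintype.card Ω : ℤ)) 0 (k ^ m) (by
      rw [zero_smul, e1])).2
  have hring : ∀ j : ℕ, ∃ c : ℤ, M ^ j * (Mᵀ) ^ j = (d ^ j) • 1 + c • Jm Ω := by
    intro j
    induction j with
    | zero => exact ⟨0, by simp⟩
    | succ j ih =>
      obtain ⟨c, hc⟩ := ih
      refine ⟨d ^ j * lam + c * k * k, ?_⟩
      have e : M ^ (j + 1) * (Mᵀ) ^ (j + 1) = M * (M ^ j * (Mᵀ) ^ j) * Mᵀ := by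
        rw [pow_succ' M, pow_succ (Mᵀ)]
        simp only [Matrix.mul_assoc]
      rw [e, hc, Matrix.mul_add, Matrix.add_mul, Matrix.mul_smul, Matrix.smul_mul, Matrix.mul_one,
        hMN, Matrix.mul_smul, Matrix.smul_mul, hMJ, Matrix.smul_mul, hJN, pow_succ]
      module
  have h1 : a ^ 2 = d ^ m := by
    obtain ⟨c, hc⟩ := hring m
    rw [← Matrix.transpose_pow, hP, Matrix.transpose_add, Matrix.transpose_smul,
      Matrix.transpose_smul, Matrix.transpose_one, Jm_transpose] at hc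
    have e : (a • (1 : Matrix Ω Ω ℤ) + b • Jm Ω) * (a • (1 : Matrix Ω Ω ℤ) + b • Jm Ω)
        = (a ^ 2) • (1 : Matrix Ω Ω ℤ)
          + (2 * a * b + b * b * (Fintype.card Ω : ℤ)) • Jm Ω := by
      simp only [Matrix.mul_add, Matrix.add_mul, Matrix.mul_smul, Matrix.smul_mul, Matrix.mul_one,
        Matrix.one_mul, hJJ]
      module
    rw [e] at hc
    exact (coef _ _ _ _ hc).1
  exact ⟨h1, h2, h3⟩

variable {Γ : Type*} [Group Γ] [MulAction Γ Ω]

/-- The incidence matrix of the twisted design. -/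
def Mat (α : MulAut Γ) (t : Ω → Γ) (B : Finset Ω) : Matrix Ω Ω ℤ :=
  Matrix.of fun x y => if (α (t x))⁻¹ • y ∈ B then 1 else 0

section
variable {α : MulAut Γ} {t : Ω → Γ} {B : Finset Ω} {o : Ω}

theorem Mat_eq (ht : ∀ x, t x • o = x)
    (hB : ∀ h : Γ, h • o = o → ∀ y ∈ B, α h • y ∈ B) (g : Γ) (x y : Ω) (hg : g • o = x) :
    Mat α t B x y = if (α g)⁻¹ • y ∈ B then 1 else 0 := by
  have hh : ((t x)⁻¹ * g) • o = o := by
    rw [mul_smul, hg, inv_smul_eq_iff, ht]
  have hh' : (g⁻¹ * t x) • o = o := by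
    rw [mul_smul, ht, inv_smul_eq_iff, hg]
  have e1 : (α g)⁻¹ • y = α (g⁻¹ * t x) • (α (t x))⁻¹ • y := by
    rw [map_mul, map_inv, mul_smul, smul_inv_smul]
  have e2 : (α (t x))⁻¹ • y = α ((t x)⁻¹ * g) • (α g)⁻¹ • y := by
    rw [map_mul, map_inv, mul_smul, smul_inv_smul]
  have iff : (α (t x))⁻¹ • y ∈ B ↔ (α g)⁻¹ • y ∈ B := by
    constructor
    · intro h; rw [e1]; exact hB _ hh' _ h
    · intro h; rw [e2]; exact hB _ hh _ h
  simp only [Mat, Matrix.of_apply, iff]

theorem Mat_twist (ht : ∀ x, t x • o = x)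
    (hB : ∀ h : Γ, h • o = o → ∀ y ∈ B, α h • y ∈ B) (g : Γ) (x y : Ω) :
    Mat α t B (g • x) (α g • y) = Mat α t B x y := by
  rw [Mat_eq ht hB (g * t x) (g • x) _ (by rw [mul_smul, ht])]
  have : (α (g * t x))⁻¹ • α g • y = (α (t x))⁻¹ • y := by
    rw [map_mul, _root_.mul_inv_rev, mul_smul, inv_smul_smul]
  simp only [Mat, Matrix.of_apply, this]

theorem Mat_row (x : Ω) : ∑ y, Mat α t B x y = (B.card : ℤ) := by
  rw [← Equiv.sum_comp (MulAction.toPerm (α (t x))) (fun y => Mat α t B x y)]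
  simp only [Mat, Matrix.of_apply, MulAction.toPerm_apply, inv_smul_smul]
  rw [Finset.sum_boole]
  simp

theorem Mat_col (ht : ∀ x, t x • o = x)
    (hB : ∀ h : Γ, h • o = o → ∀ y ∈ B, α h • y ∈ B)
    (htr : ∀ a b : Ω, ∃ g : Γ, g • a = b) (y : Ω) :
    ∑ x, Mat α t B x y = (B.card : ℤ) := by
  have hconst : ∀ y', ∑ x, Mat α t B x y' = ∑ x, Mat α t B x y := by
    intro y'
    obtain ⟨u, hu⟩ := htr y y'
    have hu' : α (α.symm u) • y = y' := by simpa using hu
    rw [← Equiv.sum_comp (MulAction.toPerm (α.symm u)) (fun x => Mat α t B x y')]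
    refine Finset.sum_congr rfl fun x _ => ?_
    simp only [MulAction.toPerm_apply]
    rw [← hu', Mat_twist ht hB]
  have htot : ∑ y', ∑ x, Mat α t B x y' = ∑ x, ∑ y', Mat α t B x y' := Finset.sum_comm
  simp only [hconst, Mat_row, Finset.sum_const, Finset.card_univ] at htot
  have hn : (Fintype.card Ω : ℤ) ≠ 0 := by
    have : Nonempty Ω := ⟨y⟩
    exact_mod_cast Fintype.card_ne_zero
  simp only [nsmul_eq_mul] at htot
  exact mul_left_cancel₀ hn htot

theorem Mat_sq (x y : Ω) : Mat α t B x y * Mat α t B x y = Mat α t B x y := by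
  simp only [Mat, Matrix.of_apply]; split_ifs <;> simp

theorem Mat_nonneg (x y : Ω) : 0 ≤ Mat α t B x y := by
  simp only [Mat, Matrix.of_apply]; split_ifs <;> simp

theorem Mat_pow_twist (ht : ∀ x, t x • o = x)
    (hB : ∀ h : Γ, h • o = o → ∀ y ∈ B, α h • y ∈ B) (j : ℕ) :
    ∀ (g : Γ) (x z : Ω), (Mat α t B ^ j) (g • x) ((α ^ j) g • z) = (Mat α t B ^ j) x z := by
  induction j with
  | zero =>
    intro g x z
    simp only [pow_zero, MulAut.one_apply, Matrix.one_apply, smul_left_cancel_iff]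
  | succ j ih =>
    intro g x z
    have e : (α ^ (j + 1)) g = (α ^ j) (α g) := by rw [pow_succ]; rfl
    rw [e, pow_succ' (Mat α t B), Matrix.mul_apply, Matrix.mul_apply,
      ← Equiv.sum_comp (MulAction.toPerm (α g))]
    refine Finset.sum_congr rfl fun y _ => ?_
    simp only [MulAction.toPerm_apply]
    rw [Mat_twist ht hB, ih]

end

/-- Invariant matrices under a doubly transitive action. -/
theorem inv_form (h2 : ∀ a b c d : Ω, a ≠ b → c ≠ d → ∃ g : Γ, g • a = c ∧ g • b = d)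
    (htr : ∀ a b : Ω, ∃ g : Γ, g • a = b) (Q : Matrix Ω Ω ℤ)
    (hQ : ∀ (g : Γ) (x y : Ω), Q (g • x) (g • y) = Q x y) {o o' : Ω} (hne : o ≠ o') :
    Q = (Q o o - Q o o') • (1 : Matrix Ω Ω ℤ) + (Q o o') • Jm Ω := by
  ext x y
  by_cases hxy : x = y
  · subst hxy
    obtain ⟨g, rfl⟩ := htr o x
    rw [hQ]
    simp only [Matrix.add_apply, Matrix.smul_apply, Matrix.one_apply_eq, Jm, Matrix.of_apply,
      smul_eq_mul, mul_one]
    ring
  · obtain ⟨g, rfl, rfl⟩ := h2 o o' x y hne hxy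
    rw [hQ]
    simp only [Matrix.add_apply, Matrix.smul_apply, Matrix.one_apply_ne hxy, Jm, Matrix.of_apply,
      smul_eq_mul, mul_one, mul_zero, zero_add]

/-- The main theorem of the design argument. -/
theorem design_main (h2 : ∀ a b c d : Ω, a ≠ b → c ≠ d → ∃ g : Γ, g • a = c ∧ g • b = d)
    (htr : ∀ a b : Ω, ∃ g : Γ, g • a = b) (α : MulAut Γ) (m : ℕ) (hodd : Odd m)
    (hm : ∀ g, (α ^ m) g = g) (o : Ω) (B : Finset Ω)
    (hB : ∀ h : Γ, h • o = o → ∀ y ∈ B, α h • y ∈ B) (hne : B.Nonempty)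
    (hcop : Nat.Coprime B.card (Fintype.card Ω)) :
    B.card = 1 ∨ B.card = Fintype.card Ω - 1 := by
  have hk1 : 1 ≤ B.card := Finset.card_pos.2 hne
  have hkn : B.card ≤ Fintype.card Ω := Finset.card_le_univ B
  have hnpos : 0 < Fintype.card Ω := by omega
  by_cases hn1 : Fintype.card Ω = 1
  · left; omega
  have hn2 : 1 < Fintype.card Ω := by omega
  have : Nontrivial Ω := Fintype.one_lt_card_iff_nontrivial.1 hn2
  obtain ⟨o', hoo'⟩ := exists_ne o
  have hoo : o ≠ o' := hoo'.symm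
  have hklt : B.card < Fintype.card Ω := by
    refine lt_of_le_of_ne hkn fun h => ?_
    rw [h, Nat.coprime_self] at hcop
    exact hn1 hcop
  choose t ht using fun x : Ω => htr o x
  set M := Mat α t B with hM
  have hMJ : M * Jm Ω = (B.card : ℤ) • Jm Ω := by
    ext x y
    simp only [Matrix.mul_apply, Jm, Matrix.of_apply, mul_one, Matrix.smul_apply, smul_eq_mul,
      hM]
    rw [Mat_row]
  have hNJ : Mᵀ * Jm Ω = (B.card : ℤ) • Jm Ω := by
    ext x y
    simp only [Matrix.mul_apply, Jm, Matrix.of_apply, mul_one, Matrix.smul_apply, smul_eq_mul,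
      Matrix.transpose_apply, hM]
    rw [Mat_col ht hB htr]
  -- `M * Mᵀ`
  have hQinv : ∀ (g : Γ) (x y : Ω), (M * Mᵀ) (g • x) (g • y) = (M * Mᵀ) x y := by
    intro g x y
    simp only [Matrix.mul_apply, Matrix.transpose_apply]
    rw [← Equiv.sum_comp (MulAction.toPerm (α g))]
    refine Finset.sum_congr rfl fun z _ => ?_
    simp only [MulAction.toPerm_apply, hM, Mat_twist ht hB]
  have hQform := inv_form h2 htr (M * Mᵀ) hQinv hoo
  have hdiag : (M * Mᵀ) o o = (B.card : ℤ) := by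
    simp only [Matrix.mul_apply, Matrix.transpose_apply, hM, Mat_sq, Mat_row]
  have hlam : 0 ≤ (M * Mᵀ) o o' := by
    simp only [Matrix.mul_apply, Matrix.transpose_apply, hM]
    exact Finset.sum_nonneg fun z _ => mul_nonneg (Mat_nonneg _ _) (Mat_nonneg _ _)
  -- `M ^ m`
  have hPinv : ∀ (g : Γ) (x y : Ω), (M ^ m) (g • x) (g • y) = (M ^ m) x y := by
    intro g x y
    have := Mat_pow_twist ht hB m g x y
    rwa [hm] at this
  have hPform := inv_form h2 htr (M ^ m) hPinv hoo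
  obtain ⟨h1, h2', h3⟩ := matrix_lemma M (Fintype.card Ω : ℤ) (B.card : ℤ)
    ((M * Mᵀ) o o - (M * Mᵀ) o o') ((M * Mᵀ) o o') _ _ m rfl (coef_eq hoo) hMJ hNJ hQform hPform
  obtain ⟨j, rfl⟩ := hodd
  have hcop' : IsCoprime (B.card : ℤ) (Fintype.card Ω : ℤ) := Nat.isCoprime_iff_coprime.2 hcop
  rcases numeric (Fintype.card Ω : ℤ) (B.card : ℤ) _ _ _ _ j (by exact_mod_cast hk1)
    (by exact_mod_cast hklt) hlam (by rw [hdiag]) h3 h1 h2' hcop' with h | h
  · left; exact_mod_cast h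
  · right; omega

/-- A twisted-equivariant bijection from a fixed point of the twisted stabilizer. -/
theorem exists_twist_perm (htr : ∀ a b : Ω, ∃ g : Γ, g • a = b) (α : MulAut Γ) (o ω₀ : Ω)
    (hfix : ∀ h : Γ, h • o = o → α h • ω₀ = ω₀) :
    ∃ σ : Equiv.Perm Ω, ∀ (g : Γ) (x : Ω), σ (g • x) = α g • σ x := by
  choose t ht using fun x : Ω => htr o x
  let f : Ω → Ω := fun x => α (t x) • ω₀
  have hf : ∀ (g : Γ) (x : Ω), f (g • x) = α g • f x := by
    intro g x
    have hh : ((t (g • x))⁻¹ * (g * t x)) • o = o := by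
      rw [mul_smul, mul_smul, ht, inv_smul_eq_iff, ht]
    have e := hfix _ hh
    show α (t (g • x)) • ω₀ = α g • α (t x) • ω₀
    rw [map_mul, map_inv, map_mul, mul_smul, mul_smul, inv_smul_eq_iff] at e
    rw [e]
  have hfo : f o = ω₀ := hfix _ (ht o)
  have hsurj : Function.Surjective f := by
    intro y
    obtain ⟨u, hu⟩ := htr ω₀ y
    refine ⟨α.symm u • o, ?_⟩
    rw [hf, hfo]
    simpa using hu
  have hbij : Function.Bijective f := ⟨Finite.injective_iff_surjective.2 hsurj, hsurj⟩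
  exact ⟨Equiv.ofBijective f hbij, fun g x => hf g x⟩

end Cfsg.Agent.Lib.OddAutDesign
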