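import Mathlib
import Cfsg.Prelude
import Cfsg.Agent.Lib.QdStable
import Cfsg.Agent.Lib.PCore
import Cfsg.Agent.Lib.SolvCore
import Cfsg.Agent.Lib.FitCore
import Cfsg.Agent.Lib.PComps

/-! Groups of odd order are `p`-stable for odd `p`: `Qd(p)` has even order. -/

set_option autoImplicit false
set_option linter.all false

namespace Cfsg.Agent.Lib.OddStable

open Cfsg

/-- `Qd(p)` has even order. -/
theorem two_dvd_card_qd {p : ℕ} [hpp : Fact p.Prime] (hp : p ≠ 2) : 2 ∣ Nat.card ↥(Cfsg.qd p) := by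
  classical
  haveI : NeZero p := ⟨hpp.out.ne_zero⟩
  have hne : (-1 : ZMod p) ≠ 1 := by
    intro h
    have h2 : (2 : ZMod p) = 0 := by
      have : (1 : ZMod p) + 1 = 0 := by
        nth_rewrite 1 [← h]
        ring
      rw [← this]
      norm_num
    have h3 : ((2 : ℕ) : ZMod p) = 0 := by exact_mod_cast h2
    rw [ZMod.natCast_eq_zero_iff] at h3
    have := (Nat.prime_dvd_prime_iff_eq hpp.out Nat.prime_two).1 h3
    exact hp this
  let M : Matrix.SpecialLinearGroup (Fin 3) (ZMod p) :=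
    ⟨Matrix.diagonal ![-1, -1, 1], by simp [Matrix.det_diagonal, Fin.prod_univ_three]⟩
  have hMv : (M : Matrix (Fin 3) (Fin 3) (ZMod p)) = Matrix.diagonal ![-1, -1, 1] := rfl
  have hM : M ∈ Cfsg.qd p := by
    apply Subgroup.subset_closure
    show (M : Matrix (Fin 3) (Fin 3) (ZMod p)) 2 0 = 0 ∧ (M : Matrix (Fin 3) (Fin 3) (ZMod p)) 2 1 = 0 ∧ (M : Matrix (Fin 3) (Fin 3) (ZMod p)) 2 2 = 1
    rw [hMv]
    simp
  have hM2 : (⟨M, hM⟩ : ↥(Cfsg.qd p)) ^ 2 = 1 := by
    apply Subtype.ext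
    apply Subtype.ext
    show ((M ^ 2 : Matrix.SpecialLinearGroup (Fin 3) (ZMod p)) : Matrix (Fin 3) (Fin 3) (ZMod p)) = 1
    rw [Matrix.SpecialLinearGroup.coe_pow, hMv, Matrix.diagonal_pow]
    ext i j
    fin_cases i <;> fin_cases j <;> simp
  have hM1 : (⟨M, hM⟩ : ↥(Cfsg.qd p)) ≠ 1 := by
    intro h
    have h1 : (M : Matrix (Fin 3) (Fin 3) (ZMod p)) = 1 := congrArg Subtype.val (congrArg Subtype.val h)
    rw [hMv] at h1
    have h2 := congrFun (congrFun h1 0) 0
    simp at h2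
    exact hne h2
  have h3 : orderOf (⟨M, hM⟩ : ↥(Cfsg.qd p)) = 2 := orderOf_eq_prime hM2 hM1
  rw [← h3]
  exact orderOf_dvd_natCard _

/-- A finite group of odd order is `p`-stable in the normalizer form for odd `p`. -/
theorem stable_of_odd {X : Type*} [Group X] [Finite X] {p : ℕ} [hpp : Fact p.Prime] (hp : p ≠ 2)
    (hodd : Odd (Nat.card X)) : IsNormalizerPStable p X := by
  by_contra h
  obtain ⟨K, Θ, hΘ⟩ := Cfsg.Agent.Lib.QdStable.invTo_of_not_stable hp h
  have h1 : Nat.card ↥(Cfsg.qd p) ∣ Nat.card K := Subgroup.card_dvd_of_surjective Θ hΘ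
  have h2 : Nat.card K ∣ Nat.card X := Subgroup.card_subgroup_dvd_card K
  have h3 := (two_dvd_card_qd hp).trans (h1.trans h2)
  rcases hodd with ⟨k, hk⟩
  omega

/-- The quadratic criterion for a normal `p`-subgroup. -/
theorem mk_mem_pCore {X : Type*} [Group X] [Finite X] {p : ℕ} [hpp : Fact p.Prime] (hp : p ≠ 2)
    (hodd : Odd (Nat.card X)) (P : Subgroup X) [hPn : P.Normal] (hP : IsPGroup p P) (g : X)
    (hq : ⁅⁅P, Subgroup.zpowers g⁆, Subgroup.zpowers g⁆ = ⊥) :
    (QuotientGroup.mk' (Subgroup.centralizer (P : Set X))) g ∈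
      pCore p (X ⧸ Subgroup.centralizer (P : Set X)) := by
  have hN : Subgroup.normalizer (P : Set X) = ⊤ := Subgroup.normalizer_eq_top P
  have hgN : ∀ x : X, x ∈ Subgroup.normalizer (P : Set X) := fun x => by rw [hN]; trivial
  let f : (↥(Subgroup.normalizer (P : Set X)) ⧸ (Subgroup.centralizer (P : Set X)).subgroupOf (Subgroup.normalizer (P : Set X)))
      →* (X ⧸ Subgroup.centralizer (P : Set X)) :=
    QuotientGroup.map _ _ (Subgroup.normalizer (P : Set X)).subtype (fun x hx => hx)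
  have hf : Function.Surjective f := by
    intro y
    obtain ⟨x, rfl⟩ := QuotientGroup.mk'_surjective _ y
    exact ⟨QuotientGroup.mk ⟨x, hgN x⟩, rfl⟩
  have key := stable_of_odd hp hodd P hP g (hgN g) hq
  have h2 : (pCore p (↥(Subgroup.normalizer (P : Set X)) ⧸ (Subgroup.centralizer (P : Set X)).subgroupOf (Subgroup.normalizer (P : Set X)))).map f ≤
      pCore p (X ⧸ Subgroup.centralizer (P : Set X)) := by
    apply Cfsg.Agent.Lib.PCore.le_pCore
    · haveI := Cfsg.Agent.Lib.PCore.pCore_normal p (↥(Subgroup.normalizer (P : Set X)) ⧸ (Subgroup.centralizer (P : Set X)).subgroupOf (Subgroup.normalizer (P : Set X)))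
      exact Subgroup.Normal.map this f hf
    · exact (Cfsg.Agent.Lib.PCore.isPGroup_pCore p _).map f
  exact h2 ⟨_, key, rfl⟩

/-- Centralizer of a normal `p`-subgroup when `O_{p'}(G) = 1` and `O_p(G) ∩ C(P) ≤ P`. -/
theorem centralizer_isPGroup {X : Type*} [Group X] [Finite X] [hs : Group.IsSolvable X] {p : ℕ} [hpp : Fact p.Prime]
    (P : Subgroup X) [hPn : P.Normal]
    (hO : pPrimeCore p X = ⊥) (hC : pCore p X ⊓ Subgroup.centralizer (P : Set X) ≤ P) :
    IsPGroup p (Subgroup.centralizer (P : Set X)) := by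
  classical
  set C := Subgroup.centralizer (P : Set X) with hCdef
  haveI hCn : C.Normal := inferInstance
  haveI hc1 : (pCore p ↥C).Characteristic := by
    rw [Subgroup.characteristic_iff_map_eq]
    intro e
    exact Cfsg.Agent.Lib.PCore.pCore_map_equiv e
  haveI hc2 : (pPrimeCore p ↥C).Characteristic := Cfsg.Agent.Lib.PComps.pPrimeCore_characteristic
  have h1 : pPrimeCore p ↥C = ⊥ := by
    have hn := Cfsg.Agent.Lib.FitCore.map_subtype_normal_of_char C (pPrimeCore p ↥C)
    have h2 : ¬ p ∣ Nat.card ↥((pPrimeCore p ↥C).map C.subtype) := by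
      rw [Subgroup.card_map_of_injective C.subtype_injective]
      exact Cfsg.Agent.Lib.FitCore.not_dvd_card_pPrimeCore p hpp.out
    have h3 := Cfsg.Agent.Lib.SolvCore.eq_bot_of_normal_not_dvd hO _ hn h2
    exact (Subgroup.map_eq_bot_iff_of_injective _ C.subtype_injective).1 h3
  have h2 : (pCore p ↥C).map C.subtype ≤ P := by
    refine le_trans (le_inf ?_ ?_) hC
    · apply Cfsg.Agent.Lib.PCore.le_pCore (Cfsg.Agent.Lib.FitCore.map_subtype_normal_of_char C (pCore p ↥C))
      exact (Cfsg.Agent.Lib.PCore.isPGroup_pCore p _).map _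
    · rintro _ ⟨x, -, rfl⟩
      exact x.2
  have h3 : (⊤ : Subgroup ↥C) ≤ Subgroup.centralizer (pCore p ↥C : Set ↥C) := by
    intro c _
    rw [Subgroup.mem_centralizer_iff]
    intro y hy
    have hyP : (y : X) ∈ P := h2 ⟨y, hy, rfl⟩
    apply Subtype.ext
    exact (Subgroup.mem_centralizer_iff.1 c.2 _ hyP)
  have h4 := h3.trans (Cfsg.Agent.Lib.SolvCore.centralizer_pCore_le (p := p) inferInstance h1)
  have h5 : IsPGroup p (⊤ : Subgroup ↥C) := (Cfsg.Agent.Lib.PCore.isPGroup_pCore p _).to_le h4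
  intro c
  obtain ⟨k, hk⟩ := h5 ⟨c, trivial⟩
  exact ⟨k, by simpa [Subtype.ext_iff] using congrArg (fun z => ((z : ↥C) : ↥C)) (congrArg Subtype.val hk)⟩

end Cfsg.Agent.Lib.OddStable
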