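import Mathlib

/-! The Pfaffian of alternating `4 × 4` matrices. -/

set_option autoImplicit false
set_option linter.unusedSectionVars false
set_option linter.unusedVariables false

namespace Cfsg.Agent.Lib.Pf4

open scoped Matrix

variable {F : Type*} [Field F]

/-- Alternating matrices. -/
def IsAlt (A : Matrix (Fin 4) (Fin 4) F) : Prop := (∀ i, A i i = 0) ∧ ∀ i j, A j i = - A i j

/-- The Pfaffian. -/
def Pf (A : Matrix (Fin 4) (Fin 4) F) : F := A 0 1 * A 2 3 - A 0 2 * A 1 3 + A 0 3 * A 1 2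

theorem conj_apply (g A : Matrix (Fin 4) (Fin 4) F) (hA : IsAlt A) (i j : Fin 4) :
    (g * A * g.transpose) i j =
      (g i 0 * g j 1 - g i 1 * g j 0) * A 0 1 + (g i 0 * g j 2 - g i 2 * g j 0) * A 0 2 +
      (g i 0 * g j 3 - g i 3 * g j 0) * A 0 3 + (g i 1 * g j 2 - g i 2 * g j 1) * A 1 2 +
      (g i 1 * g j 3 - g i 3 * g j 1) * A 1 3 + (g i 2 * g j 3 - g i 3 * g j 2) * A 2 3 := by
  obtain ⟨h0, hs⟩ := hA
  simp only [Matrix.mul_apply, Fin.sum_univ_four, Matrix.transpose_apply]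
  rw [h0 0, h0 1, h0 2, h0 3, hs 0 1, hs 0 2, hs 0 3, hs 1 2, hs 1 3, hs 2 3]
  ring

theorem alt_conj (g A : Matrix (Fin 4) (Fin 4) F) (hA : IsAlt A) : IsAlt (g * A * g.transpose) := by
  constructor
  · intro i
    rw [conj_apply g A hA]
    ring
  · intro i j
    rw [conj_apply g A hA, conj_apply g A hA]
    ring

theorem det4 (g : Matrix (Fin 4) (Fin 4) F) : g.det =
   g 0 0 * (g 1 1 * (g 2 2 * g 3 3 - g 2 3 * g 3 2) - g 1 2 * (g 2 1 * g 3 3 - g 2 3 * g 3 1) + g 1 3 * (g 2 1 * g 3 2 - g 2 2 * g 3 1))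
   - g 0 1 * (g 1 0 * (g 2 2 * g 3 3 - g 2 3 * g 3 2) - g 1 2 * (g 2 0 * g 3 3 - g 2 3 * g 3 0) + g 1 3 * (g 2 0 * g 3 2 - g 2 2 * g 3 0))
   + g 0 2 * (g 1 0 * (g 2 1 * g 3 3 - g 2 3 * g 3 1) - g 1 1 * (g 2 0 * g 3 3 - g 2 3 * g 3 0) + g 1 3 * (g 2 0 * g 3 1 - g 2 1 * g 3 0))
   - g 0 3 * (g 1 0 * (g 2 1 * g 3 2 - g 2 2 * g 3 1) - g 1 1 * (g 2 0 * g 3 2 - g 2 2 * g 3 0) + g 1 2 * (g 2 0 * g 3 1 - g 2 1 * g 3 0)) := by
  simp [Matrix.det_succ_row_zero, Fin.sum_univ_succ, Matrix.submatrix, Fin.succAbove]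
  ring

theorem Pf_conj (g A : Matrix (Fin 4) (Fin 4) F) (hA : IsAlt A) :
    Pf (g * A * g.transpose) = g.det * Pf A := by
  simp only [Pf, conj_apply g A hA, det4 g]
  ring

/-- Basic alternating matrices. -/
def altE (i j : Fin 4) : Matrix (Fin 4) (Fin 4) F := Matrix.single i j 1 - Matrix.single j i 1

theorem altE_alt {i j : Fin 4} (hij : i ≠ j) : IsAlt (altE i j : Matrix (Fin 4) (Fin 4) F) := by
  constructor
  · intro k
    simp only [altE, Matrix.sub_apply, Matrix.single_apply]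
    by_cases h1 : i = k
    · subst h1
      have : ¬ (j = i) := fun h => hij h.symm
      simp [hij, this]
    · simp [h1]
  · intro a b
    simp only [altE, Matrix.sub_apply, Matrix.single_apply]
    have e1 : (i = b ∧ j = a) ↔ (j = a ∧ i = b) := and_comm
    have e2 : (j = b ∧ i = a) ↔ (i = a ∧ j = b) := and_comm
    simp only [e1, e2]
    ring

theorem single_conj (g : Matrix (Fin 4) (Fin 4) F) (i j k l : Fin 4) :
    (g * (Matrix.single i j (1 : F)) * g.transpose) k l = g k i * g l j := by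
  rw [Matrix.mul_apply, Finset.sum_eq_single j]
  · simp [Matrix.mul_single_apply_same]
  · intro b _ hb
    rw [Matrix.mul_single_apply_of_ne _ _ _ _ _ hb, zero_mul]
  · simp

theorem altE_conj (g : Matrix (Fin 4) (Fin 4) F) (i j k l : Fin 4) :
    (g * (altE i j : Matrix (Fin 4) (Fin 4) F) * g.transpose) k l = g k i * g l j - g k j * g l i := by
  simp only [altE, Matrix.mul_sub, Matrix.sub_mul, Matrix.sub_apply]
  rw [single_conj, single_conj]

/-- The kernel of the action on alternating matrices. -/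
theorem scalar_of_fix (g : Matrix (Fin 4) (Fin 4) F) (h : ∀ A, IsAlt A → g * A * g.transpose = A) :
    ∃ d : F, d * d = 1 ∧ g = d • (1 : Matrix (Fin 4) (Fin 4) F) := by
  have H : ∀ i j k l : Fin 4, i ≠ j → g k i * g l j - g k j * g l i = (altE i j : Matrix (Fin 4) (Fin 4) F) k l := by
    intro i j k l hij
    rw [← altE_conj, h _ (altE_alt hij)]
  have hE : ∀ i j k l : Fin 4, (altE i j : Matrix (Fin 4) (Fin 4) F) k l =
      (if i = k ∧ j = l then 1 else 0) - (if j = k ∧ i = l then 1 else 0) := by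
    intro i j k l
    simp only [altE, Matrix.sub_apply, Matrix.single_apply]
  have e1 : ∀ i j : Fin 4, i ≠ j → g i i * g j j - g i j * g j i = 1 := by
    intro i j hij
    rw [H i j i j hij, hE]
    simp [hij, hij.symm]
  have hoff : ∀ k i : Fin 4, k ≠ i → g k i = 0 := by
    intro k i hki
    have hex : ∀ i k : Fin 4, ∃ j : Fin 4, j ≠ i ∧ j ≠ k := by decide
    obtain ⟨j, hj1, hj2⟩ := hex i k
    have e2 : g k i * g i j - g k j * g i i = 0 := by
      rw [H i j k i (Ne.symm hj1), hE]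
      simp [hki.symm, hj2, hj1]
    have e3 : g k i * g j j - g k j * g j i = 0 := by
      rw [H i j k j (Ne.symm hj1), hE]
      simp [hki.symm, hj2]
    have e4 := e1 i j (Ne.symm hj1)
    linear_combination (g i i) * e3 - (g j i) * e2 - (g k i) * e4
  have hd : ∀ i j : Fin 4, i ≠ j → g i i * g j j = 1 := by
    intro i j hij
    have := e1 i j hij
    rw [hoff i j hij, zero_mul, sub_zero] at this
    exact this
  have hne : ∀ i : Fin 4, g i i ≠ 0 := by
    intro i h0
    have hex : ∀ i : Fin 4, ∃ j : Fin 4, i ≠ j := by decide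
    obtain ⟨j, hj⟩ := hex i
    have := hd i j hj
    rw [h0, zero_mul] at this
    exact zero_ne_one this
  have heq : ∀ i j : Fin 4, g i i = g j j := by
    intro i j
    by_cases hij : i = j
    · rw [hij]
    have hex : ∀ i j : Fin 4, ∃ k : Fin 4, i ≠ k ∧ j ≠ k := by decide
    obtain ⟨k, hk1, hk2⟩ := hex i j
    have h1 := hd i k hk1
    have h2 := hd j k hk2
    have h3 : (g i i - g j j) * g k k = 0 := by linear_combination h1 - h2
    exact sub_eq_zero.1 ((mul_eq_zero.1 h3).resolve_right (hne k))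
  refine ⟨g 0 0, ?_, ?_⟩
  · have := hd 0 1 (by decide)
    rwa [← heq 0 1] at this
  · ext i j
    by_cases hij : i = j
    · subst hij
      simp [heq i 0]
    · simp [hoff i j hij, hij]

end Cfsg.Agent.Lib.Pf4
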