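import Cfsg.Agent.Lib.OmegaIso
import Cfsg.Agent.Lib.Pf4
import Cfsg.Agent.Lib.SpSimple
import Cfsg.Agent.Lib.QuadStab
import Cfsg.Agent.Lib.IsomChain

/-! The isomorphism `PΩ₅(q) ≅ PSp₄(q)` for odd `q`. -/

set_option autoImplicit false
set_option linter.unusedSectionVars false
set_option linter.unusedVariables false

namespace Cfsg.Agent.Lib.OmegaFive

open Cfsg Cfsg.Geo
open Cfsg.Agent.Lib.OmegaIso Cfsg.Agent.Lib.Pf4
open scoped Matrix MatrixGroups

variable {F : Type*} [Field F]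

/-- The alternating matrix of a vector. -/
def mat2 : (Unit ⊕ (Fin 2 ⊕ Fin 2) → F) →ₗ[F] Matrix (Fin 4) (Fin 4) F where
  toFun v := !![0, v (.inr (.inl 0)), v (.inl ()), v (.inr (.inl 1));
    -v (.inr (.inl 0)), 0, v (.inr (.inr 1)), -v (.inl ());
    -v (.inl ()), -v (.inr (.inr 1)), 0, v (.inr (.inr 0));
    -v (.inr (.inl 1)), v (.inl ()), -v (.inr (.inr 0)), 0]
  map_add' x y := by
    ext i j
    fin_cases i <;> fin_cases j <;> simp <;> ring
  map_smul' c x := by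
    ext i j
    fin_cases i <;> fin_cases j <;> simp

/-- The coordinates. -/
def vec2 : Matrix (Fin 4) (Fin 4) F →ₗ[F] (Unit ⊕ (Fin 2 ⊕ Fin 2) → F) where
  toFun A := Sum.elim (fun _ => A 0 2) (Sum.elim ![A 0 1, A 0 3] ![A 2 3, A 1 2])
  map_add' A B := by
    ext (i | i | i)
    · simp
    · fin_cases i <;> simp
    · fin_cases i <;> simp
  map_smul' c A := by
    ext (i | i | i)
    · simp
    · fin_cases i <;> simp
    · fin_cases i <;> simp

theorem vec_mat (v : Unit ⊕ (Fin 2 ⊕ Fin 2) → F) : vec2 (mat2 v) = v := by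
  ext (i | i | i)
  · simp [vec2, mat2]
  · fin_cases i <;> simp [vec2, mat2]
  · fin_cases i <;> simp [vec2, mat2]

/-- The subspace. -/
def IsW (A : Matrix (Fin 4) (Fin 4) F) : Prop := IsAlt A ∧ A 0 2 + A 1 3 = 0

theorem mat_vec {A : Matrix (Fin 4) (Fin 4) F} (hA : IsW A) : mat2 (vec2 A) = A := by
  obtain ⟨⟨h0, hs⟩, h⟩ := hA
  have h13 : A 1 3 = - A 0 2 := by linear_combination h
  ext i j
  fin_cases i <;> fin_cases j <;> simp [vec2, mat2, h0, hs 0 1, hs 0 2, hs 0 3, hs 1 2, hs 1 3, hs 2 3, h13]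

theorem isW_mat (v : Unit ⊕ (Fin 2 ⊕ Fin 2) → F) : IsW (mat2 v) := by
  refine ⟨⟨?_, ?_⟩, ?_⟩
  · intro i
    fin_cases i <;> simp [mat2]
  · intro i j
    fin_cases i <;> fin_cases j <;> simp [mat2]
  · simp [mat2]

theorem Q_eq (v : Unit ⊕ (Fin 2 ⊕ Fin 2) → F) : quadFormOdd 2 F v = Pf (mat2 v) := by
  simp [quadFormOdd, Fin.sum_univ_two, Pf, mat2]
  ring

/-- The labelling of the indices. -/
def e4 : Fin 4 ≃ Fin 2 ⊕ Fin 2 where
  toFun := ![.inl 0, .inl 1, .inr 0, .inr 1]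
  invFun := Sum.elim ![0, 1] ![2, 3]
  left_inv := by
    intro i
    fin_cases i <;> rfl
  right_inv := by
    rintro (i | i) <;> fin_cases i <;> rfl

@[simp] theorem e4_0 : e4 0 = .inl 0 := rfl
@[simp] theorem e4_1 : e4 1 = .inl 1 := rfl
@[simp] theorem e4_2 : e4 2 = .inr 0 := rfl
@[simp] theorem e4_3 : e4 3 = .inr 1 := rfl

/-- Symplectic matrices on `Fin 4`. -/
def spM : Matrix.symplecticGroup (Fin 2) F →* Matrix (Fin 4) (Fin 4) F where
  toFun g := (g : Matrix (Fin 2 ⊕ Fin 2) (Fin 2 ⊕ Fin 2) F).submatrix e4 e4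
  map_one' := by
    ext i j
    simp [Matrix.one_apply]
  map_mul' a b := by
    change ((a : Matrix (Fin 2 ⊕ Fin 2) (Fin 2 ⊕ Fin 2) F) * (b : Matrix (Fin 2 ⊕ Fin 2) (Fin 2 ⊕ Fin 2) F)).submatrix e4 e4 = _
    rw [Matrix.submatrix_mul_equiv]

/-- The form on `Fin 4`. -/
def J4 : Matrix (Fin 4) (Fin 4) F := (Matrix.J (Fin 2) F).submatrix e4 e4

theorem J4_entries : (J4 : Matrix (Fin 4) (Fin 4) F) = !![0, 0, -1, 0; 0, 0, 0, -1; 1, 0, 0, 0; 0, 1, 0, 0] := by
  ext i j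
  fin_cases i <;> fin_cases j <;> simp [J4, Matrix.J]

theorem J4_alt : IsAlt (J4 : Matrix (Fin 4) (Fin 4) F) := by
  rw [J4_entries]
  constructor
  · intro i
    fin_cases i <;> simp
  · intro i j
    fin_cases i <;> fin_cases j <;> simp

theorem Pf_J4 : Pf (J4 : Matrix (Fin 4) (Fin 4) F) = -1 := by
  rw [J4_entries]
  simp [Pf]

theorem Pf_add_J (A : Matrix (Fin 4) (Fin 4) F) : Pf (A + J4) = Pf A + (A 0 2 + A 1 3) - 1 := by
  rw [J4_entries]
  simp [Pf]
  ring

theorem spM_J (g : Matrix.symplecticGroup (Fin 2) F) : spM g * J4 * (spM g)ᵀ = J4 := by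
  have h := SymplecticGroup.mem_iff.1 g.2
  have h1 : ((g : Matrix (Fin 2 ⊕ Fin 2) (Fin 2 ⊕ Fin 2) F) * Matrix.J (Fin 2) F * (g : Matrix (Fin 2 ⊕ Fin 2) (Fin 2 ⊕ Fin 2) F)ᵀ).submatrix e4 e4 =
      (Matrix.J (Fin 2) F).submatrix e4 e4 := by rw [h]
  rw [← Matrix.submatrix_mul_equiv _ _ _ e4 _, ← Matrix.submatrix_mul_equiv _ _ _ e4 _] at h1
  exact h1

theorem det_spM (g : Matrix.symplecticGroup (Fin 2) F) : (spM g).det = 1 := by
  have h := Pf_conj (spM g) J4 J4_alt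
  rw [spM_J, Pf_J4] at h
  linear_combination h

theorem isW_conj (g : Matrix.symplecticGroup (Fin 2) F) {A : Matrix (Fin 4) (Fin 4) F} (hA : IsW A) :
    IsW (spM g * A * (spM g)ᵀ) := by
  refine ⟨alt_conj _ _ hA.1, ?_⟩
  have h0 : IsAlt (A + J4) := by
    obtain ⟨⟨h1, h2⟩, -⟩ := hA
    obtain ⟨h3, h4⟩ := J4_alt (F := F)
    constructor
    · intro i
      rw [Matrix.add_apply, h1, h3, add_zero]
    · intro i j
      rw [Matrix.add_apply, Matrix.add_apply, h2 i j, h4 i j]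
      ring
  have h1 := Pf_conj (spM g) _ h0
  have h2 : spM g * (A + J4) * (spM g)ᵀ = spM g * A * (spM g)ᵀ + J4 := by
    rw [Matrix.mul_add, Matrix.add_mul, spM_J]
  rw [h2, Pf_add_J, Pf_add_J, det_spM, one_mul, Pf_conj _ _ hA.1, det_spM, one_mul, hA.2] at h1
  linear_combination h1

/-- The action in coordinates. -/
def rep : Matrix.symplecticGroup (Fin 2) F →* Module.End F (Unit ⊕ (Fin 2 ⊕ Fin 2) → F) :=
  repOf mat2 vec2 (congT spM) vec_mat (fun g v => mat_vec (isW_conj g (isW_mat v)))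

theorem mat_rep (g : Matrix.symplecticGroup (Fin 2) F) (v : Unit ⊕ (Fin 2 ⊕ Fin 2) → F) :
    mat2 (rep g v) = spM g * mat2 v * (spM g)ᵀ :=
  mat_vec (isW_conj g (isW_mat v))

theorem rep_isom (g : Matrix.symplecticGroup (Fin 2) F) (v : Unit ⊕ (Fin 2 ⊕ Fin 2) → F) :
    quadFormOdd 2 F (rep g v) = quadFormOdd 2 F v := by
  rw [Q_eq, Q_eq, mat_rep, Pf_conj _ _ (isW_mat v).1, det_spM, one_mul]

/-- The representation in the isometry group. -/
noncomputable def rho : Matrix.symplecticGroup (Fin 2) F →* isometryGroup F (quadFormOdd 2 F) :=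
  repIsom rep rep_isom

theorem ker_scalar (h2 : (2 : F) ≠ 0) (g : Matrix.symplecticGroup (Fin 2) F) (hg : g ∈ (rho (F := F)).ker) :
    ∃ d : F, d * d = 1 ∧ spM g = d • (1 : Matrix (Fin 4) (Fin 4) F) := by
  rw [rho, mem_ker_repIsom] at hg
  apply scalar_of_fix
  intro A hA
  have hJ := J4_entries (F := F)
  set c : F := -(A 0 2 + A 1 3) / 2 with hc
  have hc2 : 2 * c = -(A 0 2 + A 1 3) := by
    rw [hc]
    field_simp
  clear_value c
  have hW : IsW (A - c • J4) := by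
    obtain ⟨h1, h3⟩ := hA
    obtain ⟨h4, h5⟩ := J4_alt (F := F)
    refine ⟨⟨?_, ?_⟩, ?_⟩
    · intro i
      simp [h1, h4]
    · intro i j
      simp only [Matrix.sub_apply, Matrix.smul_apply, smul_eq_mul, h3 i j, h5 i j]
      ring
    · simp [hJ]
      linear_combination hc2
  have h1 := mat_rep g (vec2 (A - c • J4))
  rw [hg, mat_vec hW] at h1
  have h3 : A = (A - c • J4) + c • J4 := by abel
  rw [h3, Matrix.mul_add, Matrix.add_mul, ← h1, Matrix.mul_smul, Matrix.smul_mul, spM_J]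

theorem spM_inj : Function.Injective (spM : Matrix.symplecticGroup (Fin 2) F →* Matrix (Fin 4) (Fin 4) F) := by
  intro a b h
  apply Subtype.ext
  ext i j
  have := congrFun (congrFun h (e4.symm i)) (e4.symm j)
  simpa [spM] using this

theorem val_of_scalar {g : Matrix.symplecticGroup (Fin 2) F} {d : F}
    (h : spM g = d • (1 : Matrix (Fin 4) (Fin 4) F)) :
    (g : Matrix (Fin 2 ⊕ Fin 2) (Fin 2 ⊕ Fin 2) F) = d • 1 := by
  ext i j
  have := congrFun (congrFun h (e4.symm i)) (e4.symm j)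
  simpa [spM, Matrix.one_apply] using this

/-- `PΩ₅(q) ≅ PSp₄(q)`. -/
theorem main [Fintype F] (hodd : Odd (Fintype.card F)) :
    Nonempty (POmega F (quadFormOdd 2 F) ≃* PSp 2 F) := by
  classical
  have h20 : (2 : F) ≠ 0 := Cfsg.Agent.Lib.Spinor2.two_ne_of_odd rfl hodd
  have hQ : IsNondegenerateQuadraticForm (quadFormOdd 2 F) := Cfsg.Agent.Lib.QuadStab.quadFormOdd_nondeg h20 2
  have h3 : 3 ≤ Fintype.card F := by
    have : 1 < Fintype.card F := Fintype.one_lt_card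
    obtain ⟨k, hk⟩ := hodd
    omega
  have hperf : commutator (Matrix.symplecticGroup (Fin 2) F) = ⊤ :=
    Cfsg.Agent.Lib.SpSimple.commutator_eq_top (Or.inr (Or.inl ⟨rfl, h3⟩))
  have : IsSimpleGroup (PSp 2 F) := Cfsg.Agent.Lib.SpSimple.isSimple_PSp (by norm_num) (fun _ => h3)
  have hP : Subgroup.center (PSp 2 F) = ⊥ :=
    center_eq_bot_of_simple (commutator_top_of_surjective (QuotientGroup.mk' _) (QuotientGroup.mk'_surjective _) hperf)
  let π : Matrix.symplecticGroup (Fin 2) F →* PSp 2 F := QuotientGroup.mk' _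
  have hπ : Function.Surjective π := QuotientGroup.mk'_surjective _
  have hπk : π.ker = Subgroup.center (Matrix.symplecticGroup (Fin 2) F) := QuotientGroup.ker_mk' _
  have h1 : (rho (F := F)).ker ≤ π.ker := by
    rw [hπk]
    intro g hg
    obtain ⟨d, hd, h⟩ := ker_scalar h20 g hg
    exact (Cfsg.Agent.Lib.SpSimple.mem_center_iff (by norm_num) g).2 ⟨d, hd, val_of_scalar h⟩
  have h2 : π.ker ≤ Subgroup.center (Matrix.symplecticGroup (Fin 2) F) := hπk.le
  have hle := range_le_of_perfect (rho (F := F)) hperf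
  have hkc := card_ker_le (rho (F := F)).ker (fun g => spM g) spM_inj (fun g hg => ker_scalar h20 g hg)
  rw [card_two_of_squares h20] at hkc
  have hO := Cfsg.Agent.Lib.OrthFam.card_odd (F := F) rfl hodd 2
  have hS := Cfsg.Agent.Lib.IsomChain.card_symplecticGroup (F := F) 2
  have hn : 2 ≤ Fintype.card (Unit ⊕ (Fin 2 ⊕ Fin 2)) := by simp
  have hOS : Nat.card (isometryGroup F (quadFormOdd 2 F)) = 2 * Nat.card (Matrix.symplecticGroup (Fin 2) F) := by
    rw [hO, hS]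
    ring
  refine pomega_equiv (rho (F := F)) π hπ hP h1 h2 ?_
  refine range_eq_of_card _ hle (Cfsg.Agent.Lib.Spinor.omega_index hQ h20 hn) (by norm_num) ?_
  rw [hOS]
  calc 2 * Nat.card (Matrix.symplecticGroup (Fin 2) F) * Nat.card (rho (F := F)).ker
      ≤ 2 * Nat.card (Matrix.symplecticGroup (Fin 2) F) * 2 := Nat.mul_le_mul_left _ hkc
    _ = 4 * Nat.card (Matrix.symplecticGroup (Fin 2) F) := by ring

end Cfsg.Agent.Lib.OmegaFive
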