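import Cfsg.Agent.Lib.OmegaIso
import Cfsg.Agent.Lib.SLNormal
import Cfsg.Agent.Lib.GL2Sylow
import Cfsg.Agent.Lib.QuadPlus
import Cfsg.Agent.Lib.QuadStab
import Cfsg.Agent.Lib.MkSL

/-! The isomorphisms `PΩ₃(q) ≅ PSL₂(q)` and `PΩ⁺₄(q) ≅ PSL₂(q) × PSL₂(q)`. -/

set_option autoImplicit false
set_option linter.unusedSectionVars false
set_option linter.unusedVariables false

namespace Cfsg.Agent.Lib.OmegaFour

open Cfsg Cfsg.Geo
open Cfsg.Agent.Lib.OmegaIso Cfsg.Agent.Lib.MkSL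
open scoped Matrix MatrixGroups

variable {F : Type*} [Field F]

theorem scalar_of_comm (g : Matrix (Fin 2) (Fin 2) F)
    (h1 : g * !![0, 1; 0, 0] = !![0, 1; 0, 0] * g) (h2 : g * !![0, 0; 1, 0] = !![0, 0; 1, 0] * g) :
    g 0 1 = 0 ∧ g 1 0 = 0 ∧ g 0 0 = g 1 1 := by
  have e1 := congrFun (congrFun h1 0) 0
  have e2 := congrFun (congrFun h1 0) 1
  have e3 := congrFun (congrFun h2 0) 0
  simp [Matrix.mul_apply, Fin.sum_univ_two] at e1 e2 e3
  exact ⟨e3, e1.symm, e2⟩

theorem mem_center_of_entries (g : SL(2, F)) (h1 : g.1 0 1 = 0) (h2 : g.1 1 0 = 0) (h3 : g.1 0 0 = g.1 1 1) :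
    g ∈ Subgroup.center (SL(2, F)) := by
  rw [Matrix.SpecialLinearGroup.mem_center_iff]
  refine ⟨g.1 0 0, ?_, ?_⟩
  · have h4 := g.2
    rw [Matrix.det_fin_two, h1, h3] at h4
    simp only [Fintype.card_fin]
    rw [h3]
    linear_combination h4
  · ext i j
    fin_cases i <;> fin_cases j <;> simp [Matrix.scalar_apply, Matrix.diagonal_apply, h1, h2, h3]

theorem comm_of_central {g : SL(2, F)}
    (hg : (QuotientGroup.mk g : Matrix.ProjectiveSpecialLinearGroup (Fin 2) F) ∈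
      Subgroup.center (Matrix.ProjectiveSpecialLinearGroup (Fin 2) F)) (h : SL(2, F)) :
    ∃ r : F, r * r = 1 ∧ g.1 * h.1 = r • (h.1 * g.1) := by
  have h1 := Subgroup.mem_center_iff.1 hg (QuotientGroup.mk h)
  have h2 : (QuotientGroup.mk (g * h * g⁻¹ * h⁻¹) : Matrix.ProjectiveSpecialLinearGroup (Fin 2) F) = 1 := by
    simp only [QuotientGroup.mk_mul, QuotientGroup.mk_inv]
    rw [← h1]
    group
  rw [QuotientGroup.eq_one_iff, Matrix.SpecialLinearGroup.mem_center_iff] at h2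
  obtain ⟨r, hr, h3⟩ := h2
  refine ⟨r, ?_, ?_⟩
  · simp only [Fintype.card_fin] at hr
    linear_combination hr
  · have h4 : (g * h * g⁻¹ * h⁻¹ * (h * g)).1 = (g * h).1 := by
      have h8 : g * h * g⁻¹ * h⁻¹ * (h * g) = g * h := by simp [mul_assoc]
      rw [h8]
    have h5 : (g * h * g⁻¹ * h⁻¹ * (h * g)).1 = (g * h * g⁻¹ * h⁻¹).1 * (h * g).1 := rfl
    rw [h5, ← h3] at h4
    have h6 : (g * h).1 = g.1 * h.1 := rfl
    have h7 : (h * g).1 = h.1 * g.1 := rfl
    rw [h6, h7] at h4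
    rw [← h4]
    ext i j
    simp [Matrix.scalar_apply, Matrix.mul_apply, Matrix.diagonal_apply, Matrix.smul_apply]

/-- `PSL₂` has trivial centre over every field. -/
theorem center_PSL2 : Subgroup.center (Matrix.ProjectiveSpecialLinearGroup (Fin 2) F) = ⊥ := by
  rw [eq_bot_iff]
  intro x hx
  obtain ⟨g, rfl⟩ := QuotientGroup.mk_surjective x
  rw [Subgroup.mem_bot, QuotientGroup.eq_one_iff]
  have hdet := g.2
  rw [Matrix.det_fin_two] at hdet
  obtain ⟨r, hr, h1⟩ := comm_of_central hx (mkSL (1 : F) 1 0 1 (by ring))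
  obtain ⟨s, hs, h2⟩ := comm_of_central hx (mkSL (1 : F) 0 1 1 (by ring))
  have e1 := congrFun (congrFun h1 0) 0
  have e2 := congrFun (congrFun h1 0) 1
  have e3 := congrFun (congrFun h1 1) 0
  have e4 := congrFun (congrFun h1 1) 1
  have f1 := congrFun (congrFun h2 0) 0
  have f2 := congrFun (congrFun h2 0) 1
  have f3 := congrFun (congrFun h2 1) 0
  have f4 := congrFun (congrFun h2 1) 1
  simp [mkSL, Matrix.mul_apply, Fin.sum_univ_two, Matrix.vecMul, dotProduct] at e1 e2 e3 e4 f1 f2 f3 f4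
  obtain ⟨a, ha⟩ : ∃ a, a = g.1 0 0 := ⟨_, rfl⟩
  obtain ⟨b, hb⟩ : ∃ a, a = g.1 0 1 := ⟨_, rfl⟩
  obtain ⟨c, hc⟩ : ∃ a, a = g.1 1 0 := ⟨_, rfl⟩
  obtain ⟨d, hd⟩ : ∃ a, a = g.1 1 1 := ⟨_, rfl⟩
  rw [← ha, ← hb, ← hc, ← hd] at hdet
  simp only [← ha, ← hb, ← hc, ← hd] at e1 e2 e3 e4 f1 f2 f3 f4
  have key : ∀ t : F, t * t = 1 → 2 * (t - 1) = 0 → t = 1 := by
    intro t ht h
    by_cases h20 : (2 : F) = 0
    · have h3 : (t - 1) * (t - 1) = 0 := by linear_combination ht + (1 - t) * h20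
      exact sub_eq_zero.1 (mul_self_eq_zero.1 h3)
    · exact sub_eq_zero.1 ((mul_eq_zero.1 h).resolve_left h20)
  have hr1 : r = 1 := by
    apply key r hr
    linear_combination -(d * e1 - c * e2 + a * e4 - b * e3) - 2 * (r - 1) * hdet
  have hs1 : s = 1 := by
    apply key s hs
    linear_combination -(a * f4 + d * f1 - b * f3 - c * f2) - 2 * (s - 1) * hdet
  subst hr1 hs1
  simp only [one_mul] at e1 e2 e3 e4 f1 f2 f3 f4
  refine mem_center_of_entries g ?_ ?_ ?_
  · rw [← hb]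
    linear_combination f1
  · rw [← hc]
    linear_combination -e1
  · rw [← ha, ← hd]
    linear_combination e2

/-- A homomorphism from `SL₂` lands in a normal subgroup of index four, in odd characteristic:
transvections are fourth powers. -/
theorem range_le_of_fourth {ι : Type*} [Fintype ι] [DecidableEq ι] {H : Type*} [Group H]
    (f : Matrix.SpecialLinearGroup ι F →* H) (C : Subgroup H) [C.Normal]
    (hC : C.index = 4) (h2 : (2 : F) ≠ 0) : f.range ≤ C := by
  rintro _ ⟨A, rfl⟩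
  refine Cfsg.Agent.Lib.SLn.transvection_induction (fun A => f A ∈ C) ?_ ?_ ?_ A
  · intro i j hij c
    have h4 : (4 : F) ≠ 0 := by
      have : (4 : F) = 2 * 2 := by norm_num
      rw [this]
      exact mul_ne_zero h2 h2
    have hmul : ∀ a b : F, Matrix.SpecialLinearGroup.transvection hij a *
        Matrix.SpecialLinearGroup.transvection hij b = Matrix.SpecialLinearGroup.transvection hij (a + b) := by
      intro a b
      apply Subtype.ext
      exact Matrix.transvection_mul_transvection_same (i := i) (j := j) hij a b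
    have e : Matrix.SpecialLinearGroup.transvection hij c = (Matrix.SpecialLinearGroup.transvection hij (c / 4)) ^ 4 := by
      rw [pow_succ, pow_succ, pow_succ, pow_one, hmul, hmul, hmul]
      congr 1
      field_simp
      ring
    rw [e, map_pow]
    have := Subgroup.pow_index_mem C (f (Matrix.SpecialLinearGroup.transvection hij (c / 4)))
    rwa [hC] at this
  · intro A B hA hB
    rw [map_mul]
    exact C.mul_mem hA hB
  · rw [map_one]
    exact C.one_mem

/-- The order of `SL₂`. -/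
theorem card_SL2 [Fintype F] {q : ℕ} (hF : Fintype.card F = q) :
    Nat.card (SL(2, F)) = q * (q ^ 2 - 1) := by
  have hq2 : 2 ≤ q := by
    rw [← hF]
    exact Fintype.one_lt_card
  rw [Cfsg.Agent.Lib.GL2Sylow.card_SL₂, hF]
  congr 1
  have h1 : q ^ 2 - 1 = (q + 1) * (q - 1) := by
    have := Nat.sq_sub_sq q 1
    simpa using this
  rw [h1]
  ring

/-! ### `PΩ₃ ≅ PSL₂` -/

/-- The traceless matrix of a vector. -/
def mat1 : (Unit ⊕ (Fin 1 ⊕ Fin 1) → F) →ₗ[F] Matrix (Fin 2) (Fin 2) F where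
  toFun v := !![v (.inl ()), v (.inr (.inl 0)); v (.inr (.inr 0)), -v (.inl ())]
  map_add' x y := by
    ext i j
    fin_cases i <;> fin_cases j <;> simp <;> ring
  map_smul' c x := by
    ext i j
    fin_cases i <;> fin_cases j <;> simp

/-- The coordinates of a matrix. -/
def vec1 : Matrix (Fin 2) (Fin 2) F →ₗ[F] (Unit ⊕ (Fin 1 ⊕ Fin 1) → F) where
  toFun A := Sum.elim (fun _ => A 0 0) (Sum.elim (fun _ => A 0 1) (fun _ => A 1 0))
  map_add' A B := by
    ext (i | i | i) <;> simp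
  map_smul' c A := by
    ext (i | i | i) <;> simp

theorem vec_mat1 (v : Unit ⊕ (Fin 1 ⊕ Fin 1) → F) : vec1 (mat1 v) = v := by
  ext (i | i | i)
  · simp [vec1, mat1]
  · fin_cases i
    simp [vec1, mat1]
  · fin_cases i
    simp [vec1, mat1]

theorem mat_vec1 {A : Matrix (Fin 2) (Fin 2) F} (hA : A.trace = 0) : mat1 (vec1 A) = A := by
  rw [Matrix.trace_fin_two] at hA
  have h1 : A 1 1 = - A 0 0 := by linear_combination hA
  ext i j
  fin_cases i <;> fin_cases j <;> simp [vec1, mat1, h1]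

theorem trace_mat1 (v : Unit ⊕ (Fin 1 ⊕ Fin 1) → F) : (mat1 v).trace = 0 := by
  rw [Matrix.trace_fin_two]
  simp [mat1]

theorem Q_eq1 (v : Unit ⊕ (Fin 1 ⊕ Fin 1) → F) : quadFormOdd 1 F v = - (mat1 v).det := by
  rw [Matrix.det_fin_two]
  simp [quadFormOdd, mat1]
  ring

/-- Conjugation. -/
def adT : SL(2, F) →* Module.End F (Matrix (Fin 2) (Fin 2) F) where
  toFun g :=
    { toFun := fun A => g.1 * A * (g⁻¹).1
      map_add' := fun A B => by rw [Matrix.mul_add, Matrix.add_mul]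
      map_smul' := fun c A => by simp }
  map_one' := by
    apply LinearMap.ext
    intro A
    simp
  map_mul' g g' := by
    apply LinearMap.ext
    intro A
    simp [Matrix.mul_assoc]

@[simp] theorem adT_apply (g : SL(2, F)) (A : Matrix (Fin 2) (Fin 2) F) : adT g A = g.1 * A * (g⁻¹).1 := rfl

theorem inv_mul_val (g : SL(2, F)) : (g⁻¹).1 * g.1 = 1 := by
  have : (g⁻¹ * g).1 = (1 : SL(2, F)).1 := by rw [inv_mul_cancel]
  exact this

theorem trace_adT (g : SL(2, F)) {A : Matrix (Fin 2) (Fin 2) F} (hA : A.trace = 0) :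
    (g.1 * A * (g⁻¹).1).trace = 0 := by
  rw [Matrix.trace_mul_cycle, inv_mul_val, Matrix.one_mul, hA]

theorem det_adT (g : SL(2, F)) (A : Matrix (Fin 2) (Fin 2) F) : (g.1 * A * (g⁻¹).1).det = A.det := by
  rw [Matrix.det_mul, Matrix.det_mul, g.2, (g⁻¹).2]
  ring

/-- The adjoint representation in coordinates. -/
def rep1 : SL(2, F) →* Module.End F (Unit ⊕ (Fin 1 ⊕ Fin 1) → F) :=
  repOf mat1 vec1 adT vec_mat1 (fun g v => mat_vec1 (trace_adT g (trace_mat1 v)))

theorem mat_rep1 (g : SL(2, F)) (v : Unit ⊕ (Fin 1 ⊕ Fin 1) → F) :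
    mat1 (rep1 g v) = g.1 * mat1 v * (g⁻¹).1 :=
  mat_vec1 (trace_adT g (trace_mat1 v))

theorem rep1_isom (g : SL(2, F)) (v : Unit ⊕ (Fin 1 ⊕ Fin 1) → F) :
    quadFormOdd 1 F (rep1 g v) = quadFormOdd 1 F v := by
  rw [Q_eq1, Q_eq1, mat_rep1, det_adT]

/-- The adjoint representation. -/
noncomputable def rho1 : SL(2, F) →* isometryGroup F (quadFormOdd 1 F) := repIsom rep1 rep1_isom

theorem comm_of_fix {g : SL(2, F)} {A : Matrix (Fin 2) (Fin 2) F} (h : g.1 * A * (g⁻¹).1 = A) :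
    g.1 * A = A * g.1 := by
  calc g.1 * A = g.1 * A * ((g⁻¹).1 * g.1) := by rw [inv_mul_val, Matrix.mul_one]
    _ = g.1 * A * (g⁻¹).1 * g.1 := by rw [← Matrix.mul_assoc]
    _ = A * g.1 := by rw [h]

theorem ker_scalar1 (g : SL(2, F)) (hg : g ∈ (rho1 (F := F)).ker) :
    ∃ d : F, d * d = 1 ∧ g.1 = d • (1 : Matrix (Fin 2) (Fin 2) F) := by
  rw [rho1, mem_ker_repIsom] at hg
  have key : ∀ A : Matrix (Fin 2) (Fin 2) F, A.trace = 0 → g.1 * A = A * g.1 := by
    intro A hA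
    have h1 := mat_rep1 g (vec1 A)
    rw [hg, mat_vec1 hA] at h1
    exact comm_of_fix h1.symm
  obtain ⟨h1, h2, h3⟩ := scalar_of_comm g.1 (key _ (by simp [Matrix.trace_fin_two])) (key _ (by simp [Matrix.trace_fin_two]))
  refine ⟨g.1 0 0, ?_, ?_⟩
  · have h4 := g.2
    rw [Matrix.det_fin_two, h1, ← h3] at h4
    linear_combination h4
  · ext i j
    fin_cases i <;> fin_cases j <;> simp [h1, h2, h3]

/-- `PΩ₃(q) ≅ PSL₂(q)`. -/
theorem main3 [Fintype F] (hodd : Odd (Fintype.card F)) :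
    Nonempty (POmega F (quadFormOdd 1 F) ≃* Matrix.ProjectiveSpecialLinearGroup (Fin 2) F) := by
  classical
  have h20 : (2 : F) ≠ 0 := Cfsg.Agent.Lib.Spinor2.two_ne_of_odd rfl hodd
  have hQ : IsNondegenerateQuadraticForm (quadFormOdd 1 F) := Cfsg.Agent.Lib.QuadStab.quadFormOdd_nondeg h20 1
  have hn : 2 ≤ Fintype.card (Unit ⊕ (Fin 1 ⊕ Fin 1)) := by simp
  let π : SL(2, F) →* Matrix.ProjectiveSpecialLinearGroup (Fin 2) F := QuotientGroup.mk' _
  have hπ : Function.Surjective π := QuotientGroup.mk'_surjective _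
  have hπk : π.ker = Subgroup.center (SL(2, F)) := QuotientGroup.ker_mk' _
  have h1 : (rho1 (F := F)).ker ≤ π.ker := by
    rw [hπk]
    intro g hg
    obtain ⟨d, hd, h⟩ := ker_scalar1 g hg
    refine mem_center_of_entries g ?_ ?_ ?_ <;> simp [h]
  have h2 : π.ker ≤ Subgroup.center (SL(2, F)) := hπk.le
  have hidx := Cfsg.Agent.Lib.Spinor.omega_index hQ h20 hn
  have hle := range_le_of_fourth (rho1 (F := F)) _ hidx h20
  have hkc := card_ker_le (rho1 (F := F)).ker (fun g : SL(2, F) => g.1) Subtype.val_injective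
    (fun g hg => ker_scalar1 g hg)
  rw [card_two_of_squares h20] at hkc
  have hO := Cfsg.Agent.Lib.OrthFam.card_odd (F := F) rfl hodd 1
  have hS := card_SL2 (F := F) rfl
  have hOS : Nat.card (isometryGroup F (quadFormOdd 1 F)) = 2 * Nat.card (SL(2, F)) := by
    rw [hO, hS]
    simp
    ring
  refine pomega_equiv (rho1 (F := F)) π hπ center_PSL2 h1 h2 ?_
  refine range_eq_of_card _ hle hidx (by norm_num) ?_
  rw [hOS]
  calc 2 * Nat.card (SL(2, F)) * Nat.card (rho1 (F := F)).ker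
      ≤ 2 * Nat.card (SL(2, F)) * 2 := Nat.mul_le_mul_left _ hkc
    _ = 4 * Nat.card (SL(2, F)) := by ring

/-! ### `PΩ⁺₄ ≅ PSL₂ × PSL₂` -/

/-- The matrix of a vector. -/
def mat4 : (Fin 2 ⊕ Fin 2 → F) →ₗ[F] Matrix (Fin 2) (Fin 2) F where
  toFun v := !![v (.inl 0), v (.inl 1); -v (.inr 1), v (.inr 0)]
  map_add' x y := by
    ext i j
    fin_cases i <;> fin_cases j <;> simp <;> ring
  map_smul' c x := by
    ext i j
    fin_cases i <;> fin_cases j <;> simp

/-- The coordinates of a matrix. -/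
def vec4 : Matrix (Fin 2) (Fin 2) F →ₗ[F] (Fin 2 ⊕ Fin 2 → F) where
  toFun A := Sum.elim ![A 0 0, A 0 1] ![A 1 1, -A 1 0]
  map_add' A B := by
    ext (i | i) <;> fin_cases i <;> simp <;> ring
  map_smul' c A := by
    ext (i | i) <;> fin_cases i <;> simp

theorem vec_mat4 (v : Fin 2 ⊕ Fin 2 → F) : vec4 (mat4 v) = v := by
  ext (i | i) <;> fin_cases i <;> simp [vec4, mat4]

theorem mat_vec4 (A : Matrix (Fin 2) (Fin 2) F) : mat4 (vec4 A) = A := by
  ext i j
  fin_cases i <;> fin_cases j <;> simp [vec4, mat4]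

theorem Q_eq4 (v : Fin 2 ⊕ Fin 2 → F) : quadFormPlus 2 F v = (mat4 v).det := by
  rw [Matrix.det_fin_two]
  simp [quadFormPlus, mat4, Fin.sum_univ_two]

/-- The action `A ↦ g A h⁻¹`. -/
def biT : SL(2, F) × SL(2, F) →* Module.End F (Matrix (Fin 2) (Fin 2) F) where
  toFun x :=
    { toFun := fun A => x.1.1 * A * (x.2⁻¹).1
      map_add' := fun A B => by rw [Matrix.mul_add, Matrix.add_mul]
      map_smul' := fun c A => by simp }
  map_one' := by
    apply LinearMap.ext
    intro A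
    simp
  map_mul' g g' := by
    apply LinearMap.ext
    intro A
    simp [Matrix.mul_assoc]

/-- The representation in coordinates. -/
def rep4 : SL(2, F) × SL(2, F) →* Module.End F (Fin 2 ⊕ Fin 2 → F) :=
  repOf mat4 vec4 biT vec_mat4 (fun g v => mat_vec4 _)

theorem mat_rep4 (x : SL(2, F) × SL(2, F)) (v : Fin 2 ⊕ Fin 2 → F) :
    mat4 (rep4 x v) = x.1.1 * mat4 v * (x.2⁻¹).1 :=
  mat_vec4 _

theorem rep4_isom (x : SL(2, F) × SL(2, F)) (v : Fin 2 ⊕ Fin 2 → F) :
    quadFormPlus 2 F (rep4 x v) = quadFormPlus 2 F v := by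
  rw [Q_eq4, Q_eq4, mat_rep4, Matrix.det_mul, Matrix.det_mul, x.1.2, (x.2⁻¹).2]
  ring

/-- The representation. -/
noncomputable def rho4 : SL(2, F) × SL(2, F) →* isometryGroup F (quadFormPlus 2 F) :=
  repIsom rep4 rep4_isom

theorem ker_scalar4 (x : SL(2, F) × SL(2, F)) (hx : x ∈ (rho4 (F := F)).ker) :
    x.1 = x.2 ∧ ∃ d : F, d * d = 1 ∧ x.1.1 = d • (1 : Matrix (Fin 2) (Fin 2) F) := by
  rw [rho4, mem_ker_repIsom] at hx
  have key : ∀ A : Matrix (Fin 2) (Fin 2) F, x.1.1 * A * (x.2⁻¹).1 = A := by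
    intro A
    have h1 := mat_rep4 x (vec4 A)
    rw [hx, mat_vec4] at h1
    exact h1.symm
  have h0 : x.1 = x.2 := by
    have h1 := key 1
    rw [Matrix.mul_one] at h1
    have h2 : x.1 * x.2⁻¹ = 1 := Subtype.ext h1
    exact mul_inv_eq_one.1 h2
  refine ⟨h0, ?_⟩
  obtain ⟨g, h⟩ := x
  obtain rfl : g = h := h0
  obtain ⟨h1, h2, h3⟩ := scalar_of_comm g.1 (comm_of_fix (key _)) (comm_of_fix (key _))
  refine ⟨g.1 0 0, ?_, ?_⟩
  · have h4 := g.2
    rw [Matrix.det_fin_two, h1, ← h3] at h4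
    linear_combination h4
  · ext i j
    fin_cases i <;> fin_cases j <;> simp [h1, h2, h3]

theorem exists_ne_zero_one [Fintype F] (hF : 3 ≤ Fintype.card F) : ∃ a : F, a ≠ 0 ∧ a ≠ 1 := by
  classical
  by_contra hcon
  push Not at hcon
  have h1 : (Finset.univ : Finset F) ⊆ {0, 1} := by
    intro a _
    by_cases h : a = 0
    · simp [h]
    · simp [hcon a h]
  have h2 := Finset.card_le_card h1
  have h3 : ({0, 1} : Finset F).card ≤ 2 := Finset.card_le_two
  rw [Finset.card_univ] at h2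
  omega

/-- `PΩ⁺₄(q) ≅ PSL₂(q) × PSL₂(q)`. -/
theorem main4 [Fintype F] (hF : 3 ≤ Fintype.card F) :
    Nonempty (POmega F (quadFormPlus 2 F) ≃* Matrix.ProjectiveSpecialLinearGroup (Fin 2) F ×
      Matrix.ProjectiveSpecialLinearGroup (Fin 2) F) := by
  classical
  have hQ : IsNondegenerateQuadraticForm (quadFormPlus 2 F) := Cfsg.Agent.Lib.QuadPlus.quadFormPlus_nondeg 2
  have hn : 2 ≤ Fintype.card (Fin 2 ⊕ Fin 2) := by simp
  let p : SL(2, F) →* Matrix.ProjectiveSpecialLinearGroup (Fin 2) F := QuotientGroup.mk' _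
  have hp : Function.Surjective p := QuotientGroup.mk'_surjective _
  have hpk : ∀ g, p g = 1 ↔ g ∈ Subgroup.center (SL(2, F)) := fun g => QuotientGroup.eq_one_iff g
  let π : SL(2, F) × SL(2, F) →* Matrix.ProjectiveSpecialLinearGroup (Fin 2) F ×
      Matrix.ProjectiveSpecialLinearGroup (Fin 2) F := p.prodMap p
  have hπ : Function.Surjective π := hp.prodMap hp
  have hπk : ∀ x, x ∈ π.ker ↔ x.1 ∈ Subgroup.center (SL(2, F)) ∧ x.2 ∈ Subgroup.center (SL(2, F)) := by
    intro x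
    rw [MonoidHom.mem_ker, ← hpk, ← hpk]
    exact Prod.ext_iff
  have hcent : ∀ g : SL(2, F), ∀ d : F, g.1 = d • (1 : Matrix (Fin 2) (Fin 2) F) → g ∈ Subgroup.center (SL(2, F)) := by
    intro g d h
    refine mem_center_of_entries g ?_ ?_ ?_ <;> simp [h]
  have h1 : (rho4 (F := F)).ker ≤ π.ker := by
    intro x hx
    obtain ⟨h0, d, hd, h⟩ := ker_scalar4 x hx
    rw [hπk]
    refine ⟨hcent _ d h, ?_⟩
    rw [← h0]
    exact hcent _ d h
  have h2 : π.ker ≤ Subgroup.center (SL(2, F) × SL(2, F)) := by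
    intro x hx
    obtain ⟨h3, h4⟩ := (hπk x).1 hx
    rw [Subgroup.mem_center_iff]
    intro y
    exact Prod.ext (Subgroup.mem_center_iff.1 h3 y.1) (Subgroup.mem_center_iff.1 h4 y.2)
  have hP : Subgroup.center (Matrix.ProjectiveSpecialLinearGroup (Fin 2) F ×
      Matrix.ProjectiveSpecialLinearGroup (Fin 2) F) = ⊥ := by
    rw [eq_bot_iff]
    intro x hx
    have h3 : x.1 ∈ Subgroup.center (Matrix.ProjectiveSpecialLinearGroup (Fin 2) F) := by
      rw [Subgroup.mem_center_iff]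
      intro y
      exact congrArg Prod.fst (Subgroup.mem_center_iff.1 hx (y, 1))
    have h4 : x.2 ∈ Subgroup.center (Matrix.ProjectiveSpecialLinearGroup (Fin 2) F) := by
      rw [Subgroup.mem_center_iff]
      intro y
      exact congrArg Prod.snd (Subgroup.mem_center_iff.1 hx (1, y))
    rw [center_PSL2] at h3 h4
    rw [Subgroup.mem_bot]
    exact Prod.ext h3 h4
  let f₁ : SL(2, F) →* isometryGroup F (quadFormPlus 2 F) := (rho4 (F := F)).comp (MonoidHom.inl _ _)
  let f₂ : SL(2, F) →* isometryGroup F (quadFormPlus 2 F) := (rho4 (F := F)).comp (MonoidHom.inr _ _)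
  have hsplit : ∀ {C : Subgroup (isometryGroup F (quadFormPlus 2 F))}, f₁.range ≤ C → f₂.range ≤ C →
      (rho4 (F := F)).range ≤ C := by
    rintro C h3 h4 _ ⟨⟨g, h⟩, rfl⟩
    have e : (g, h) = (g, 1) * ((1 : SL(2, F)), h) := by simp
    rw [e, map_mul]
    exact C.mul_mem (h3 ⟨g, rfl⟩) (h4 ⟨h, rfl⟩)
  have hkc : Nat.card (rho4 (F := F)).ker ≤ Nat.card {d : F // d * d = 1} := by
    let φ : (rho4 (F := F)).ker → {d : F // d * d = 1} := fun x =>
      ⟨Classical.choose (ker_scalar4 x.1 x.2).2, (Classical.choose_spec (ker_scalar4 x.1 x.2).2).1⟩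
    have hφ : Function.Injective φ := by
      rintro ⟨a, ha⟩ ⟨b, hb⟩ hab
      have e1 := (Classical.choose_spec (ker_scalar4 a ha).2).2
      have e2 := (Classical.choose_spec (ker_scalar4 b hb).2).2
      have e3 : Classical.choose (ker_scalar4 a ha).2 = Classical.choose (ker_scalar4 b hb).2 :=
        congrArg Subtype.val hab
      rw [e3, ← e2] at e1
      have e4 : a.1 = b.1 := Subtype.ext e1
      apply Subtype.ext
      apply Prod.ext e4
      rw [← (ker_scalar4 a ha).1, ← (ker_scalar4 b hb).1, e4]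
    exact Nat.card_le_card_of_injective φ hφ
  have hO := Cfsg.Agent.Lib.OrthFam.card_plus (F := F) rfl 2 (by norm_num)
  have hS := card_SL2 (F := F) rfl
  have hOS : Nat.card (isometryGroup F (quadFormPlus 2 F)) = 2 * Nat.card (SL(2, F) × SL(2, F)) := by
    rw [hO, Nat.card_prod, hS]
    norm_num [Finset.prod_range_succ]
    ring
  refine pomega_equiv (rho4 (F := F)) π hπ hP h1 h2 ?_
  by_cases h20 : (2 : F) = 0
  · rw [card_one_of_squares h20] at hkc
    have hq : ∃ a : F, a ≠ 0 ∧ a ^ 2 ≠ 1 := by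
      obtain ⟨a, h3, h4⟩ := exists_ne_zero_one hF
      refine ⟨a, h3, fun h5 => h4 ?_⟩
      have h6 : (a - 1) * (a - 1) = 0 := by linear_combination h5 + (1 - a) * h20
      exact sub_eq_zero.1 (mul_self_eq_zero.1 h6)
    have hperf := Cfsg.Agent.Lib.SLNormal.perfect_SL2 hq
    have hle := hsplit (range_le_of_perfect f₁ hperf) (range_le_of_perfect f₂ hperf)
    refine range_eq_of_card _ hle (index_char2 hQ (by omega) h20 (Or.inl (by omega))) (by norm_num) ?_
    rw [hOS]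
    calc 2 * Nat.card (SL(2, F) × SL(2, F)) * Nat.card (rho4 (F := F)).ker
        ≤ 2 * Nat.card (SL(2, F) × SL(2, F)) * 1 := Nat.mul_le_mul_left _ hkc
      _ = 2 * Nat.card (SL(2, F) × SL(2, F)) := by ring
  · rw [card_two_of_squares h20] at hkc
    have hidx := Cfsg.Agent.Lib.Spinor.omega_index hQ h20 hn
    have hle := hsplit (range_le_of_fourth f₁ _ hidx h20) (range_le_of_fourth f₂ _ hidx h20)
    refine range_eq_of_card _ hle hidx (by norm_num) ?_
    rw [hOS]
    calc 2 * Nat.card (SL(2, F) × SL(2, F)) * Nat.card (rho4 (F := F)).ker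
        ≤ 2 * Nat.card (SL(2, F) × SL(2, F)) * 2 := Nat.mul_le_mul_left _ hkc
      _ = 4 * Nat.card (SL(2, F) × SL(2, F)) := by ring

end Cfsg.Agent.Lib.OmegaFour
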