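import Cfsg.Agent.Lib.OmegaFour
import Cfsg.Agent.Lib.OrthMinus
import Cfsg.Agent.Lib.SpSimple
import Cfsg.Agent.Lib.UnitaryHerm

/-! The isomorphism `PΩ⁻₄(q) ≅ PSL₂(q²)`: `SL₂(q²)` acts on Hermitian matrices. -/

set_option autoImplicit false
set_option linter.unusedSectionVars false
set_option linter.unusedVariables false

namespace Cfsg.Agent.Lib.OmegaMinus4

open Cfsg Cfsg.Geo
open Cfsg.Agent.Lib.OmegaIso Cfsg.Agent.Lib.OmegaFour
open scoped Matrix MatrixGroups

section Abstract

variable {G H : Type*} [Group G] [Group H]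

/-- A subgroup of index two inside the commutator subgroup is the commutator subgroup. -/
theorem eq_comm_of_index_two (I : Subgroup H) (hle : I ≤ commutator H) (h : I.index = 2) :
    I = commutator H := by
  refine le_antisymm hle ?_
  have hn : I.Normal := Subgroup.normal_of_index_eq_two h
  have hc : Nat.card (H ⧸ I) = 2 := by rw [← Subgroup.index_eq_card, h]
  have : Fact (Nat.card (H ⧸ I)).Prime := ⟨by rw [hc]; exact Nat.prime_two⟩
  have hcyc : IsCyclic (H ⧸ I) := isCyclic_of_prime_card rfl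
  rw [commutator_def, Subgroup.commutator_le]
  intro x _ y _
  have hcomm : ∀ a b : H ⧸ I, a * b = b * a := by
    intro a b
    exact (IsCyclic.isMulCommutative (α := H ⧸ I)).is_comm.comm a b
  rw [← QuotientGroup.eq_one_iff, commutatorElement_def]
  have := hcomm x y
  simp only [QuotientGroup.mk_mul, QuotientGroup.mk_inv]
  rw [this]
  group

end Abstract

section Herm

variable {F K : Type*} [Field F] [Field K] [Algebra F K]

local notation "j" => algebraMap F K

/-- Conjugate transpose. -/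
def st (σ : K ≃+* K) (A : Matrix (Fin 2) (Fin 2) K) : Matrix (Fin 2) (Fin 2) K := (A.map σ)ᵀ

variable (σ : K ≃+* K)

theorem st_apply (A : Matrix (Fin 2) (Fin 2) K) (a b : Fin 2) : st σ A a b = σ (A b a) := rfl

theorem st_mul (A B : Matrix (Fin 2) (Fin 2) K) : st σ (A * B) = st σ B * st σ A := by
  unfold st
  rw [Matrix.map_mul, Matrix.transpose_mul]

theorem st_one : st σ (1 : Matrix (Fin 2) (Fin 2) K) = 1 := by
  ext a b
  rw [st_apply]
  simp [Matrix.one_apply, eq_comm]

theorem det_st (A : Matrix (Fin 2) (Fin 2) K) : (st σ A).det = σ A.det := by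
  simp [st, Matrix.det_fin_two]

theorem st_st (h2 : ∀ x, σ (σ x) = x) (A : Matrix (Fin 2) (Fin 2) K) : st σ (st σ A) = A := by
  ext a b
  rw [st_apply, st_apply, h2]

/-- The Hermitian matrices. -/
def HH (h1 : ∀ c : F, σ (j c) = j c) : Submodule F (Matrix (Fin 2) (Fin 2) K) where
  carrier := {A | st σ A = A}
  add_mem' := by
    intro A B hA hB
    ext a b
    have h3 := congrFun (congrFun hA a) b
    have h4 := congrFun (congrFun hB a) b
    rw [st_apply] at h3 h4 ⊢
    simp only [Matrix.add_apply, map_add, h3, h4]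
  zero_mem' := by
    ext a b
    rw [st_apply]
    simp
  smul_mem' := by
    intro c A hA
    ext a b
    have h3 := congrFun (congrFun hA a) b
    rw [st_apply] at h3 ⊢
    simp only [Matrix.smul_apply, Algebra.smul_def, map_mul, h1, h3]

variable (h1 : ∀ c : F, σ (algebraMap F K c) = algebraMap F K c) (h2 : ∀ x, σ (σ x) = x)

/-- The action of one matrix on Hermitian matrices. -/
def hL (g : SL(2, K)) : Module.End F (HH σ h1) where
  toFun A := ⟨g.1 * A.1 * st σ g.1, by
    change st σ _ = _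
    have hA : st σ A.1 = A.1 := A.2
    rw [st_mul, st_mul, st_st σ h2, hA, Matrix.mul_assoc]⟩
  map_add' A B := by
    apply Subtype.ext
    change g.1 * (A.1 + B.1) * st σ g.1 = g.1 * A.1 * st σ g.1 + g.1 * B.1 * st σ g.1
    rw [Matrix.mul_add, Matrix.add_mul]
  map_smul' c A := by
    apply Subtype.ext
    change g.1 * (c • A.1) * st σ g.1 = c • (g.1 * A.1 * st σ g.1)
    rw [Matrix.mul_smul, Matrix.smul_mul]

/-- The action on Hermitian matrices. -/
def hT : SL(2, K) →* Module.End F (HH σ h1) where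
  toFun g := hL σ h1 h2 g
  map_one' := by
    apply LinearMap.ext
    intro A
    apply Subtype.ext
    change (1 : SL(2, K)).1 * A.1 * st σ (1 : SL(2, K)).1 = A.1
    rw [Matrix.SpecialLinearGroup.coe_one, st_one, Matrix.one_mul, Matrix.mul_one]
  map_mul' g g' := by
    apply LinearMap.ext
    intro A
    apply Subtype.ext
    change (g * g').1 * A.1 * st σ (g * g').1 = g.1 * (g'.1 * A.1 * st σ g'.1) * st σ g.1
    rw [Matrix.SpecialLinearGroup.coe_mul, st_mul]
    simp only [Matrix.mul_assoc]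

theorem hT_val (g : SL(2, K)) (A : HH σ h1) : (hT σ h1 h2 g A).1 = g.1 * A.1 * st σ g.1 := rfl

/-- The data of a quadratic extension adapted to an anisotropic binary form. -/
structure Model (F K : Type*) [Field F] [Field K] [Algebra F K] [Fintype F] [Fintype K] (q : ℕ) (a b : F) where
  θ : K
  σ : K ≃+* K
  hF : Fintype.card F = q
  hK : Fintype.card K = q ^ 2
  hσ : ∀ x, σ x = x ^ q
  hθ : θ * θ = algebraMap F K a * θ - algebraMap F K b
  hψ : ∀ x : K, ∃ c d : F, x = algebraMap F K c + algebraMap F K d * θ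
  hne : θ ^ q ≠ θ
  hind : ∀ c d : F, algebraMap F K c + algebraMap F K d * θ = 0 → c = 0 ∧ d = 0

universe u v

open Cfsg.Agent.Lib.Aniso in
/-- Models exist. -/
theorem exists_model {F : Type u} {K : Type v} [Field F] [Fintype F] [Field K] [Fintype K] {q : ℕ}
    (hF : Fintype.card F = q) (hK : Fintype.card K = q ^ 2) (a b : F)
    (hab : ∀ z₁ z₂ : F, z₁ ^ 2 + a * z₁ * z₂ + b * z₂ ^ 2 = 0 → z₁ = 0 ∧ z₂ = 0) :
    ∃ _ : Algebra F K, Nonempty (Model F K q a b) := by
  classical
  obtain ⟨K', _, _, _, θ, hK', hθ, hψ, hne, hind⟩ := Cfsg.Agent.Lib.Aniso.exists_quad_ext hF a b hab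
  let e : K' ≃+* K := FiniteField.ringEquivOfCardEq (hK'.trans hK.symm)
  letI alg : Algebra F K := (e.toRingHom.comp (algebraMap F K')).toAlgebra
  have halg : ∀ c : F, algebraMap F K c = e (algebraMap F K' c) := fun c => rfl
  obtain ⟨σ, hσ⟩ := Cfsg.Agent.Lib.UnitaryHerm.exists_sigma hK
  refine ⟨alg, ⟨⟨e θ, σ, hF, hK, hσ, ?_, ?_, ?_, ?_⟩⟩⟩
  · rw [halg, halg, ← map_mul, ← map_mul, hθ, map_sub, map_mul]
  · intro x
    obtain ⟨c, d, h⟩ := hψ (e.symm x)
    refine ⟨c, d, ?_⟩
    rw [halg, halg, ← map_mul, ← map_add, ← h]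
    simp
  · intro h
    apply hne
    apply e.injective
    rw [map_pow, h]
  · intro c d h
    apply hind
    apply e.injective
    rw [map_add, map_mul, map_zero, ← halg, ← halg]
    exact h

end Herm

namespace Model

variable {F K : Type*} [Field F] [Field K] [Algebra F K] [Fintype F] [Fintype K] {q : ℕ} {a b : F}
  (M : Model F K q a b)

theorem h1 (c : F) : M.σ (algebraMap F K c) = algebraMap F K c := by
  rw [M.hσ]
  exact Cfsg.Agent.Lib.Aniso.pow_q_algebraMap M.hK M.hF c

theorem h2 (x : K) : M.σ (M.σ x) = x := by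
  rw [M.hσ, M.hσ, ← pow_mul, ← pow_two, ← M.hK, FiniteField.pow_card]

theorem hσθ : M.σ M.θ = algebraMap F K a - M.θ := by
  rw [M.hσ]
  exact Cfsg.Agent.Lib.Aniso.sigma_theta M.hK M.hF M.hθ M.hne

theorem hfix {x : K} (hx : M.σ x = x) : ∃ c : F, x = algebraMap F K c := by
  obtain ⟨c, d, rfl⟩ := M.hψ x
  refine ⟨c, ?_⟩
  rw [map_add, map_mul, M.h1, M.h1, M.hσθ] at hx
  have h3 : algebraMap F K d * (algebraMap F K a - M.θ - M.θ) = 0 := by
    linear_combination hx
  rcases mul_eq_zero.1 h3 with h4 | h4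
  · rw [h4]
    ring
  · exfalso
    apply M.hne
    rw [← M.hσ, M.hσθ]
    linear_combination h4

theorem norm_eq (x y : F) : (algebraMap F K x + algebraMap F K y * M.θ) *
    (algebraMap F K x + algebraMap F K y * (algebraMap F K a - M.θ)) =
    algebraMap F K (x ^ 2 + a * x * y + b * y ^ 2) := by
  simp only [map_add, map_mul, map_pow]
  linear_combination (-(algebraMap F K y) ^ 2) * M.hθ

/-- The Hermitian matrix of a vector. -/
def matH : ((Fin 1 ⊕ Fin 1) ⊕ Fin 2 → F) →ₗ[F] Matrix (Fin 2) (Fin 2) K where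
  toFun v := !![-algebraMap F K (v (.inl (.inl 0))),
      algebraMap F K (v (.inr 0)) + algebraMap F K (v (.inr 1)) * M.θ;
    algebraMap F K (v (.inr 0)) + algebraMap F K (v (.inr 1)) * (algebraMap F K a - M.θ),
      algebraMap F K (v (.inl (.inr 0)))]
  map_add' x y := by
    ext i j
    fin_cases i <;> fin_cases j <;> simp <;> ring
  map_smul' c x := by
    ext i j
    fin_cases i <;> fin_cases j <;> simp [Algebra.smul_def] <;> ring

theorem det_matH (v : (Fin 1 ⊕ Fin 1) ⊕ Fin 2 → F) :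
    (M.matH v).det = - algebraMap F K (quadFormMinus 1 F a b v) := by
  rw [Matrix.det_fin_two]
  have h3 := M.norm_eq (v (.inr 0)) (v (.inr 1))
  simp only [matH, quadFormMinus]
  simp
  simp only [map_add, map_mul, map_pow] at h3 ⊢
  linear_combination -h3

theorem isH_matH (v : (Fin 1 ⊕ Fin 1) ⊕ Fin 2 → F) : st M.σ (M.matH v) = M.matH v := by
  ext i j
  rw [st_apply]
  fin_cases i <;> fin_cases j <;> simp [matH, M.h1, M.hσθ]

/-- The coordinates. -/
noncomputable def eH : ((Fin 1 ⊕ Fin 1) ⊕ Fin 2 → F) ≃ₗ[F] HH M.σ M.h1 :=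
  LinearEquiv.ofBijective (M.matH.codRestrict (HH M.σ M.h1) M.isH_matH) (by
    constructor
    · rw [injective_iff_map_eq_zero]
      intro v hv
      have h0 : M.matH v = 0 := congrArg Subtype.val hv
      have e00 := congrFun (congrFun h0 0) 0
      have e01 := congrFun (congrFun h0 0) 1
      have e11 := congrFun (congrFun h0 1) 1
      simp [matH] at e00 e01 e11
      have h3 := M.hind _ _ e01
      funext i
      rcases i with (i | i) | i
      · fin_cases i
        exact e00
      · fin_cases i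
        exact e11
      · fin_cases i
        · exact h3.1
        · exact h3.2
    · rintro ⟨A, hA⟩
      have hA' : st M.σ A = A := hA
      have e00 := congrFun (congrFun hA' 0) 0
      have e11 := congrFun (congrFun hA' 1) 1
      have e10 := congrFun (congrFun hA' 1) 0
      rw [st_apply] at e00 e11 e10
      obtain ⟨c₀, h3⟩ := M.hfix e00
      obtain ⟨c₁, h4⟩ := M.hfix e11
      obtain ⟨c, d, h5⟩ := M.hψ (A 0 1)
      refine ⟨Sum.elim (Sum.elim (fun _ => -c₀) (fun _ => c₁)) ![c, d], ?_⟩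
      apply Subtype.ext
      change M.matH _ = A
      ext i j
      fin_cases i <;> fin_cases j
      · simp [matH, h3]
      · simp [matH, h5]
      · have h6 : A 1 0 = M.σ (A 0 1) := e10.symm
        change M.matH _ 1 0 = A 1 0
        rw [h6, h5, map_add, map_mul, M.h1, M.h1, M.hσθ]
        simp [matH]
      · simp [matH, h4])

theorem eH_val (v : (Fin 1 ⊕ Fin 1) ⊕ Fin 2 → F) : (M.eH v).1 = M.matH v := rfl

/-- The representation in coordinates. -/
noncomputable def rep : SL(2, K) →* Module.End F ((Fin 1 ⊕ Fin 1) ⊕ Fin 2 → F) :=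
  repOf (M.eH : ((Fin 1 ⊕ Fin 1) ⊕ Fin 2 → F) →ₗ[F] HH M.σ M.h1) (M.eH.symm : HH M.σ M.h1 →ₗ[F] ((Fin 1 ⊕ Fin 1) ⊕ Fin 2 → F))
    (hT M.σ M.h1 M.h2) (fun v => by simp) (fun g v => by simp)

theorem mat_rep (g : SL(2, K)) (v : (Fin 1 ⊕ Fin 1) ⊕ Fin 2 → F) :
    M.matH (M.rep g v) = g.1 * M.matH v * st M.σ g.1 := by
  rw [← eH_val]
  have h3 : M.eH (M.rep g v) = hT M.σ M.h1 M.h2 g (M.eH v) := by
    change M.eH (M.eH.symm _) = _
    simp
  rw [h3, hT_val, eH_val]

theorem rep_isom (g : SL(2, K)) (v : (Fin 1 ⊕ Fin 1) ⊕ Fin 2 → F) :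
    quadFormMinus 1 F a b (M.rep g v) = quadFormMinus 1 F a b v := by
  apply (algebraMap F K).injective
  have h3 := M.det_matH (M.rep g v)
  rw [mat_rep, Matrix.det_mul, Matrix.det_mul, det_st, g.2, map_one, one_mul, mul_one, det_matH] at h3
  exact (neg_inj.1 h3).symm

/-- The representation in the isometry group. -/
noncomputable def rho : SL(2, K) →* isometryGroup F (quadFormMinus 1 F a b) := repIsom M.rep M.rep_isom

theorem ker_scalar (g : SL(2, K)) (hg : g ∈ M.rho.ker) :
    ∃ d : K, d * d = 1 ∧ g.1 = d • (1 : Matrix (Fin 2) (Fin 2) K) := by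
  rw [rho, mem_ker_repIsom] at hg
  have key : ∀ A : Matrix (Fin 2) (Fin 2) K, st M.σ A = A → g.1 * A * st M.σ g.1 = A := by
    intro A hA
    have h3 := M.mat_rep g (M.eH.symm ⟨A, hA⟩)
    rw [hg, ← eH_val] at h3
    simp only [LinearEquiv.apply_symm_apply] at h3
    exact h3.symm
  have hone : g.1 * st M.σ g.1 = 1 := by
    have := key 1 (st_one M.σ)
    rwa [Matrix.mul_one] at this
  have hone' : st M.σ g.1 * g.1 = 1 := mul_eq_one_comm.1 hone
  have hcomm : ∀ A : Matrix (Fin 2) (Fin 2) K, st M.σ A = A → g.1 * A = A * g.1 := by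
    intro A hA
    calc g.1 * A = g.1 * A * (st M.σ g.1 * g.1) := by rw [hone', Matrix.mul_one]
      _ = g.1 * A * st M.σ g.1 * g.1 := by rw [← Matrix.mul_assoc]
      _ = A * g.1 := by rw [key A hA]
  have hE : st M.σ (!![1, 0; 0, 0] : Matrix (Fin 2) (Fin 2) K) = !![1, 0; 0, 0] := by
    ext i j
    rw [st_apply]
    fin_cases i <;> fin_cases j <;> simp
  have hP : st M.σ (!![0, 1; 1, 0] : Matrix (Fin 2) (Fin 2) K) = !![0, 1; 1, 0] := by
    ext i j
    rw [st_apply]
    fin_cases i <;> fin_cases j <;> simp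
  have e1 := hcomm _ hE
  have e2 := hcomm _ hP
  have f1 := congrFun (congrFun e1 0) 1
  have f2 := congrFun (congrFun e1 1) 0
  have f3 := congrFun (congrFun e2 0) 1
  simp [Matrix.mul_apply, Fin.sum_univ_two] at f1 f2 f3
  have f1' := f1.symm
  have hdet := g.2
  rw [Matrix.det_fin_two, f1', f2] at hdet
  refine ⟨g.1 0 0, ?_, ?_⟩
  · linear_combination hdet + (g.1 0 0) * f3
  · ext i j
    fin_cases i <;> fin_cases j <;> simp [f1', f2, f3]

end Model

/-- `PΩ⁻₄(q) ≅ PSL₂(q²)`. -/
theorem main {F K : Type*} [Field F] [Fintype F] [Field K] [Fintype K] {q : ℕ}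
    (hF : Fintype.card F = q) (hK : Fintype.card K = q ^ 2) (a b : F)
    (hab : ∀ z₁ z₂ : F, z₁ ^ 2 + a * z₁ * z₂ + b * z₂ ^ 2 = 0 → z₁ = 0 ∧ z₂ = 0) :
    Nonempty (POmega F (quadFormMinus 1 F a b) ≃* Matrix.ProjectiveSpecialLinearGroup (Fin 2) K) := by
  classical
  obtain ⟨alg, ⟨M⟩⟩ := exists_model hF hK a b hab
  have hQ : IsNondegenerateQuadraticForm (quadFormMinus 1 F a b) :=
    Cfsg.Agent.Lib.OrthMinus.minus_nondeg 1 a b hab
  have hn : 2 ≤ Fintype.card ((Fin 1 ⊕ Fin 1) ⊕ Fin 2) := by simp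
  let π : SL(2, K) →* Matrix.ProjectiveSpecialLinearGroup (Fin 2) K := QuotientGroup.mk' _
  have hπ : Function.Surjective π := QuotientGroup.mk'_surjective _
  have hπk : π.ker = Subgroup.center (SL(2, K)) := QuotientGroup.ker_mk' _
  have h1 : M.rho.ker ≤ π.ker := by
    rw [hπk]
    intro g hg
    obtain ⟨d, hd, h⟩ := M.ker_scalar g hg
    refine mem_center_of_entries g ?_ ?_ ?_ <;> simp [h]
  have h2 : π.ker ≤ Subgroup.center (SL(2, K)) := hπk.le
  have hq2 : 2 ≤ q := by
    rw [← hF]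
    exact Fintype.one_lt_card
  have h4K : 4 ≤ Fintype.card K := by
    rw [hK]
    nlinarith
  have hperf : commutator (SL(2, K)) = ⊤ := by
    obtain ⟨c, hc0, hc⟩ := Cfsg.Agent.Lib.SpSimple.exists_scale h4K
    refine Cfsg.Agent.Lib.SLNormal.perfect_SL2 ⟨c, hc0, fun h => hc ?_⟩
    rw [← pow_two]
    exact h
  have hle := range_le_of_perfect M.rho hperf
  have hkc := card_ker_le M.rho.ker (fun g : SL(2, K) => g.1) Subtype.val_injective
    (fun g hg => M.ker_scalar g hg)
  have hO : Nat.card (isometryGroup F (quadFormMinus 1 F a b)) = _ :=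
    Cfsg.Agent.Lib.OrthMinus.card_minus hF 2 (by norm_num) a b hab
  have hS := card_SL2 (F := K) hK
  have hOS : Nat.card (isometryGroup F (quadFormMinus 1 F a b)) = 2 * Nat.card (SL(2, K)) := by
    rw [hO, hS]
    have e : (q ^ 2) ^ 2 - 1 = (q ^ 2 + 1) * (q ^ 2 - 1) := by
      have := Nat.sq_sub_sq (q ^ 2) 1
      simpa using this
    rw [e]
    norm_num [Finset.prod_range_succ]
    ring
  refine pomega_equiv M.rho π hπ center_PSL2 h1 h2 ?_
  by_cases h20 : (2 : F) = 0
  · have h20K : (2 : K) = 0 := by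
      have := congrArg (algebraMap F K) h20
      rwa [map_ofNat, map_zero] at this
    rw [card_one_of_squares h20K] at hkc
    refine eq_comm_of_index_two _ hle ?_
    have hk1 : Nat.card M.rho.ker = 1 := le_antisymm hkc Nat.card_pos
    have h3 : Nat.card M.rho.range * Nat.card M.rho.ker = Nat.card (SL(2, K)) := by
      have h3 := Subgroup.card_eq_card_quotient_mul_card_subgroup M.rho.ker
      rw [Nat.card_congr (QuotientGroup.quotientKerEquivRange M.rho).toEquiv] at h3
      exact h3.symm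
    rw [hk1, mul_one] at h3
    have h5 := Subgroup.index_mul_card M.rho.range
    rw [hOS, h3] at h5
    have h6 : 0 < Nat.card (SL(2, K)) := Nat.card_pos
    exact Nat.eq_of_mul_eq_mul_right h6 h5
  · have h20K : (2 : K) ≠ 0 := by
      intro h
      apply h20
      apply (algebraMap F K).injective
      rwa [map_ofNat, map_zero]
    rw [card_two_of_squares h20K] at hkc
    refine range_eq_of_card _ hle (Cfsg.Agent.Lib.Spinor.omega_index hQ h20 hn) (by norm_num) ?_
    rw [hOS]
    calc 2 * Nat.card (SL(2, K)) * Nat.card M.rho.ker ≤ 2 * Nat.card (SL(2, K)) * 2 :=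
          Nat.mul_le_mul_left _ hkc
      _ = 4 * Nat.card (SL(2, K)) := by ring

end Cfsg.Agent.Lib.OmegaMinus4
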