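import Cfsg.Agent.Lib.UnitaryHerm
import Cfsg.Agent.Lib.SubspaceStab

/-! Maximality of stabilisers of totally singular and of non-degenerate subspaces in special unitary
groups. -/

set_option autoImplicit false
set_option linter.unusedSectionVars false
set_option linter.unusedSimpArgs false
set_option linter.unusedVariables false

open scoped MatrixGroups Matrix
open Cfsg Cfsg.Geo
open Cfsg.Agent.Lib.Transvection Cfsg.Agent.Lib.LinAlgAux Cfsg.Agent.Lib.UnitaryBase
  Cfsg.Agent.Lib.UnitaryGen Cfsg.Agent.Lib.SubspaceStab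
open Cfsg.Agent.Lib.SymplecticTv (IsIsom Ind)

namespace Cfsg.Agent.Lib.UnitaryMax

variable {ι : Type} [Fintype ι] [DecidableEq ι] {F : Type*} [Field F] {σ : F ≃+* F}
  {f : (ι → F) → (ι → F) → F}

/-- A stabiliser membership criterion: it suffices to map `W` into `W`. -/
theorem mem_stab_of_map {W : Submodule F (ι → F)} {g : GL ι F}
    (h : ∀ v ∈ W, (g : Matrix ι ι F) *ᵥ v ∈ W) : g ∈ subspaceStabilizer W := by
  by_contra hg
  obtain ⟨v, hv, hgv⟩ := exists_moved_of_not_mem_stab hg
  exact hgv (h v hv)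

/-- The common final step. -/
theorem le_of_full [Finite F] (hf : IsUnitaryForm σ f) (hN : ∀ c, σ c = c → ∃ l, l * σ l = c)
    (hcard : 4 ≤ Fintype.card ι) {G M : Subgroup (GL ι F)}
    (hG : ∀ g, g ∈ G ↔ IsIsom f g ∧ g ∈ specialLinear ι F)
    (hall : ∀ b, f b b = 0 → Full hf M b) : G ≤ M := by
  intro g hg
  obtain ⟨h1, h2⟩ := (hG g).1 hg
  exact (uG_le (fun a _ ha => hall a ha)) (isom_mem_uG hf hN hcard h1 h2)

theorem eich_mem_G {G : Subgroup (GL ι F)} (hf : IsUnitaryForm σ f)
    (hG : ∀ g, g ∈ G ↔ IsIsom f g ∧ g ∈ specialLinear ι F) {a z : ι → F} {c : F}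
    (h1 : f a a = 0) (h2 : f a z = 0) (hc : c + σ c + f z z = 0) : eich hf a z c ∈ G :=
  (hG _).2 ⟨eich_isIsom hf h1 h2 hc, eich_mem_specialLinear hf a z c⟩

theorem tt_mem_G {G : Subgroup (GL ι F)} (hf : IsUnitaryForm σ f)
    (hG : ∀ g, g ∈ G ↔ IsIsom f g ∧ g ∈ specialLinear ι F) {a : ι → F} {c : F}
    (h1 : f a a = 0) (hc : c + σ c = 0) : tt hf a c ∈ G :=
  (hG _).2 ⟨tt_isIsom hf h1 hc, tt_mem_specialLinear hf a c⟩

/-- The stabiliser of a non-zero totally singular subspace is maximal. -/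
theorem totallySingular_isMaximalIn [Finite F] (hf : IsUnitaryForm σ f)
    (hN : ∀ c, σ c = c → ∃ l, l * σ l = c) (hcard : 4 ≤ Fintype.card ι) {G : Subgroup (GL ι F)}
    (hG : ∀ g, g ∈ G ↔ IsIsom f g ∧ g ∈ specialLinear ι F) {W : Submodule F (ι → F)}
    (hW0 : W ≠ ⊥) (hW : IsTotallySingularFor f W) :
    IsMaximalIn G (subspaceStabilizer W ⊓ G) := by
  classical
  obtain ⟨δ, hδ0, hδ⟩ := exists_tr0 hf
  constructor
  · refine lt_of_le_of_ne inf_le_right ?_
    intro heq
    obtain ⟨y, hy, hy0⟩ := Submodule.exists_mem_ne_zero_of_ne_bot hW0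
    obtain ⟨u, -, huy, huu⟩ := (proj_top f).exists_partner hf Submodule.mem_top hy0 (hW y hy y hy)
    have h1 : tt hf u δ ∈ G := tt_mem_G hf hG huu hδ
    rw [← heq] at h1
    refine not_mem_stab_of hy ?_ h1.1
    rw [tt_mulVec hf _ huu]
    intro hm
    have hyu : f y u = 1 := by rw [hf.herm, huy, map_one]
    rw [hyu, mul_one] at hm
    have h2 := W.sub_mem hm hy
    simp only [add_sub_cancel_left] at h2
    have h3 := W.smul_mem δ⁻¹ h2
    rw [smul_smul, inv_mul_cancel₀ hδ0, one_smul] at h3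
    have := hW y hy u h3
    rw [hyu] at this
    exact one_ne_zero this
  · intro M hHM hMG
    by_cases hEq : M = subspaceStabilizer W ⊓ G
    · exact Or.inl hEq
    right
    have hex : ∃ g ∈ M, g ∉ subspaceStabilizer W := by
      by_contra hcon
      push Not at hcon
      exact hEq (le_antisymm (fun g hg => ⟨hcon g hg, hMG hg⟩) hHM)
    obtain ⟨g, hgM, hg⟩ := hex
    have hgi : IsIsom f g := ((hG g).1 (hMG hgM)).1
    obtain ⟨v, hv, hgv⟩ := exists_moved_of_not_mem_stab hg
    have hvv : f v v = 0 := hW v hv v hv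
    -- vectors orthogonal to `W` are full
    have hFull : ∀ b, f b b = 0 → (∀ y ∈ W, f y b = 0) → Full hf M b := by
      intro b hb hbW c hc
      refine hHM ⟨mem_stab_of_map fun y hy => ?_, tt_mem_G hf hG hb hc⟩
      rw [tt_mulVec hf _ hb, hbW y hy]
      simpa using hy
    -- the radical at a vector of `W`
    have hQ : AllQ hf M v := by
      intro z c hz hc
      refine hHM ⟨mem_stab_of_map fun y hy => ?_, eich_mem_G hf hG hvv hz hc⟩
      rw [eich_mulVec hf c hvv hz, hW y hy v hv]
      simp only [zero_smul, add_zero, mul_zero, sub_eq_add_neg]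
      exact W.add_mem hy (W.neg_mem (W.smul_mem _ hv))
    set x := (g : Matrix ι ι F) *ᵥ v with hx
    have hxx : f x x = 0 := by rw [hx, hgi, hvv]
    -- an isotropic vector orthogonal to `W` and not orthogonal to `x`
    have hb : ∃ b, f b b = 0 ∧ (∀ y ∈ W, f y b = 0) ∧ f x b ≠ 0 := by
      by_cases hxo : ∀ y ∈ W, f y x = 0
      · obtain ⟨φ, h1, h2⟩ := exists_functional_of_notMem hgv
        obtain ⟨b₀, hb₀⟩ := exists_formL_eq hf φ
        have h3 : ∀ y, f y b₀ = φ y := fun y => by rw [← hb₀]; rfl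
        have h4 : f x b₀ = 1 := by rw [h3, h1]
        have h4' : f b₀ x = 1 := by rw [hf.herm, h4, map_one]
        obtain ⟨α, hα⟩ := exists_trace_eq hf (c := - f b₀ b₀) (by rw [map_neg, f_self_fix hf])
        refine ⟨b₀ + α • x, ?_, ?_, ?_⟩
        · simp only [hf.add_left, f_add_right hf, hf.smul_left, f_smul_right hf, hxx, h4, h4']
          linear_combination hα
        · intro y hy
          rw [f_add_right hf, f_smul_right hf, hxo y hy, h3, h2 y hy]
          ring
        · rw [f_add_right hf, f_smul_right hf, hxx, h4]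
          simp
      · push Not at hxo
        obtain ⟨y, hy, hyx⟩ := hxo
        exact ⟨y, hW y hy y hy, fun z hz => hW z hz y hy, f_comm_ne hf hyx⟩
    obtain ⟨b, hbb, hbW, hxb⟩ := hb
    set u := ((g⁻¹ : GL ι F) : Matrix ι ι F) *ᵥ b with hu
    have hgu : (g : Matrix ι ι F) *ᵥ u = b := by rw [hu, gl_mulVec_inv_mulVec]
    have huu : f u u = 0 := by rw [← hgi, hgu, hbb]
    have hFu : Full hf M u := (hFull b hbb hbW).image hbb (M.inv_mem hgM) hgi.inv
    have huv : f u v ≠ 0 := by
      apply f_comm_ne hf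
      rw [← hgi, hgu]
      exact hxb
    exact le_antisymm hMG (le_of_full hf hN hcard hG fun b hb =>
      full_all_of_allQ hvv hQ huu hFu huv hb)

/-- Riesz on a non-degenerate subspace. -/
theorem proj_of_nondeg [Finite F] (hf : IsUnitaryForm σ f) {W : Submodule F (ι → F)}
    (hW : IsNondegenerateOn f W) : Proj f W := by
  classical
  let Φ : W → (W →ₗ[F] F) := fun a =>
    { toFun := fun y => f y a
      map_add' := fun x y => hf.add_left _ _ _
      map_smul' := fun c x => by simpa using hf.smul_left c _ _ }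
  have hinj : Function.Injective Φ := by
    intro a b hab
    by_contra hne
    have hne' : (a : ι → F) - b ≠ 0 := sub_ne_zero.2 fun h => hne (Subtype.ext h)
    obtain ⟨x, hx, hxne⟩ := (hW _ (W.sub_mem a.2 b.2) hne').1
    apply hxne
    rw [f_sub_right hf]
    have := LinearMap.congr_fun hab ⟨x, hx⟩
    change f x a = f x b at this
    rw [this, sub_self]
  have e : (W →ₗ[F] F) ≃ₗ[F] (Fin (Module.finrank F W) → F) :=
    (Module.finBasis F W).dualBasis.equivFun
  have e' : W ≃ₗ[F] (Fin (Module.finrank F W) → F) := (Module.finBasis F W).equivFun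
  have hfin := Finite.of_equiv _ e.symm.toEquiv
  have hbij := hinj.bijective_of_nat_card_le
    (le_of_eq ((Nat.card_congr e.toEquiv).trans (Nat.card_congr e'.toEquiv).symm))
  intro x
  let ψ : W →ₗ[F] F :=
    { toFun := fun y => f y x
      map_add' := fun a b => hf.add_left _ _ _
      map_smul' := fun c a => by simpa using hf.smul_left c _ _ }
  obtain ⟨a, ha⟩ := hbij.2 ψ
  refine ⟨a, a.2, fun y hy => ?_⟩
  have := LinearMap.congr_fun ha ⟨y, hy⟩
  exact this.symm

/-- The orthogonal of a subspace. -/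
def orthL (hf : IsUnitaryForm σ f) (W : Submodule F (ι → F)) : Submodule F (ι → F) where
  carrier := {x | ∀ a ∈ W, f x a = 0}
  add_mem' {x y} hx hy a ha := by rw [hf.add_left, hx a ha, hy a ha, add_zero]
  zero_mem' a _ := f_zero_left hf a
  smul_mem' c x hx a ha := by rw [hf.smul_left, hx a ha, mul_zero]

theorem mem_orthL (hf : IsUnitaryForm σ f) {W : Submodule F (ι → F)} {x : ι → F} :
    x ∈ orthL hf W ↔ ∀ a ∈ W, f x a = 0 := Iff.rfl

section Nondeg

variable (hf : IsUnitaryForm σ f) {W : Submodule F (ι → F)}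
include hf

theorem decomp_orthL (hP : Proj f W) (z : ι → F) : ∃ z₁ ∈ W, z - z₁ ∈ orthL hf W := by
  obtain ⟨z₁, h1, h2⟩ := hP z
  refine ⟨z₁, h1, fun a ha => f_comm_zero hf ?_⟩
  rw [f_sub_right hf, h2 a ha, sub_self]

theorem proj_orthL (hP : Proj f W) : Proj f (orthL hf W) := by
  intro x
  obtain ⟨x₁, h1, h2⟩ := decomp_orthL hf hP x
  refine ⟨x - x₁, h2, fun y hy => ?_⟩
  rw [f_sub_right hf, f_comm_zero hf (f_comm_zero hf (hy x₁ h1)), sub_zero]

theorem mem_of_orth (hP : Proj f W) {z : ι → F} (hz : ∀ u ∈ orthL hf W, f u z = 0) : z ∈ W := by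
  obtain ⟨z₁, h1, h2⟩ := decomp_orthL hf hP z
  have h3 : z - z₁ = 0 := by
    by_contra hne
    obtain ⟨u, hu⟩ := exists_left_ne hf hne
    obtain ⟨u₁, h4, h5⟩ := decomp_orthL hf hP u
    apply hu
    have e : u = u₁ + (u - u₁) := by abel
    rw [e, hf.add_left, f_comm_zero hf (h2 u₁ h4), zero_add, f_sub_right hf, hz _ h5, h5 z₁ h1,
      sub_zero]
  rw [sub_eq_zero.1 h3]
  exact h1

theorem inf_orthL_eq_zero (hW : IsNondegenerateOn f W) {x : ι → F} (h1 : x ∈ W)
    (h2 : x ∈ orthL hf W) : x = 0 := by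
  by_contra hne
  obtain ⟨y, hy, hxy⟩ := (hW x h1 hne).2
  exact hxy (h2 y hy)

theorem finrank_orthL (hW : IsNondegenerateOn f W) (hP : Proj f W) :
    Module.finrank F W + Module.finrank F (orthL hf W) = Fintype.card ι := by
  have hc : IsCompl W (orthL hf W) := by
    constructor
    · rw [Submodule.disjoint_def]
      intro x h1 h2
      exact inf_orthL_eq_zero hf hW h1 h2
    · rw [codisjoint_iff, eq_top_iff]
      intro z _
      obtain ⟨z₁, h1, h2⟩ := decomp_orthL hf hP z
      have : z = z₁ + (z - z₁) := by abel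
      rw [this]
      exact Submodule.add_mem_sup h1 h2
  rw [Submodule.finrank_add_eq_of_isCompl hc, Module.finrank_fintype_fun_eq_card]

end Nondeg

theorem finrank_map_gl (g : GL ι F) (X : Submodule F (ι → F)) :
    Module.finrank F (X.map (glLin g)) = Module.finrank F X := by
  have hinj : Function.Injective (glLin g) := by
    intro x y hxy
    have h := congrArg (glLin g⁻¹) hxy
    simpa [gl_inv_mulVec_mulVec] using h
  exact (LinearEquiv.finrank_eq (Submodule.equivMapOfInjective (glLin g) hinj X)).symm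

/-- The stabiliser of a non-degenerate subspace of dimension less than half is maximal. -/
theorem nondegenerate_isMaximalIn [Finite F] (hf : IsUnitaryForm σ f)
    (hN : ∀ c, σ c = c → ∃ l, l * σ l = c) (hcard : 7 ≤ Fintype.card ι) {G : Subgroup (GL ι F)}
    (hG : ∀ g, g ∈ G ↔ IsIsom f g ∧ g ∈ specialLinear ι F) {W : Submodule F (ι → F)}
    (hW0 : W ≠ ⊥) (hW : IsNondegenerateOn f W)
    (hdim : 2 * Module.finrank F W < Fintype.card ι) :
    IsMaximalIn G (subspaceStabilizer W ⊓ G) := by
  classical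
  have hP : Proj f W := proj_of_nondeg hf hW
  set W' := orthL hf W with hW'def
  have hP' : Proj f W' := proj_orthL hf hP
  have hfin := finrank_orthL hf hW hP
  rw [← hW'def] at hfin
  have hW'4 : 4 ≤ Module.finrank F W' := by omega
  obtain ⟨δ, hδ0, hδ⟩ := exists_tr0 hf
  have horth1 : ∀ {y}, y ∈ W' → ∀ {x}, x ∈ W → f y x = 0 := fun hy _ hx => hy _ hx
  have horth2 : ∀ {y}, y ∈ W' → ∀ {x}, x ∈ W → f x y = 0 := fun hy _ hx => f_comm_zero hf (hy _ hx)
  -- elements of `H`
  have hHE : ∀ a ∈ W', ∀ z ∈ W', f a a = 0 → f a z = 0 → ∀ c, c + σ c + f z z = 0 →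
      eich hf a z c ∈ subspaceStabilizer W ⊓ G := by
    intro a ha z hz haa haz c hc
    refine ⟨mem_stab_of_map fun y hy => ?_, eich_mem_G hf hG haa haz hc⟩
    rw [eich_mulVec hf c haa haz, horth2 ha hy, horth2 hz hy]
    simpa using hy
  have hHT : ∀ w ∈ W, f w w = 0 → ∀ c, c + σ c = 0 → tt hf w c ∈ subspaceStabilizer W ⊓ G := by
    intro w hw hww c hc
    refine ⟨mem_stab_of_map fun y hy => ?_, tt_mem_G hf hG hww hc⟩
    rw [tt_mulVec hf _ hww]
    exact W.add_mem hy (W.smul_mem _ hw)
  constructor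
  · refine lt_of_le_of_ne inf_le_right ?_
    intro heq
    obtain ⟨x, hx, hx0⟩ := Submodule.exists_mem_ne_zero_of_ne_bot hW0
    obtain ⟨x₂, hx₂, hx₂x⟩ := (hW x hx hx0).1
    obtain ⟨h₀, hh₀, hh₀0, hh₀h₀⟩ := exists_iso_of_finrank hf hN (Y := W') (by omega)
    obtain ⟨h', hh', hh'h, hh'h'⟩ := hP'.exists_partner hf hh₀ hh₀0 hh₀h₀
    have hhh' : f h₀ h' = 1 := by rw [hf.herm, hh'h, map_one]
    obtain ⟨α, hα⟩ := exists_trace_eq hf (c := - f x₂ x₂) (by rw [map_neg, f_self_fix hf])
    set y := h' + α • h₀ with hy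
    have hyW' : y ∈ W' := W'.add_mem hh' (W'.smul_mem _ hh₀)
    have hyy : f y y = - f x₂ x₂ := by
      simp only [hy, hf.add_left, f_add_right hf, hf.smul_left, f_smul_right hf, hh₀h₀, hh'h', hh'h,
        hhh']
      linear_combination hα
    have hy0 : y ≠ 0 := by
      intro h0
      have : f y h₀ = 0 := by rw [h0, f_zero_left hf]
      rw [hy, hf.add_left, hf.smul_left, hh₀h₀, hh'h] at this
      simp at this
    have hu : f (x₂ + y) (x₂ + y) = 0 := by
      simp only [hf.add_left, f_add_right hf, horth1 hyW' hx₂, horth2 hyW' hx₂, hyy]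
      ring
    have h1 : tt hf (x₂ + y) δ ∈ G := tt_mem_G hf hG hu hδ
    rw [← heq] at h1
    refine not_mem_stab_of hx ?_ h1.1
    rw [tt_mulVec hf _ hu, f_add_right hf, horth2 hyW' hx, add_zero]
    intro hm
    have h2 := W.sub_mem hm hx
    simp only [add_sub_cancel_left] at h2
    have hxx₂ : f x x₂ ≠ 0 := f_comm_ne hf hx₂x
    have h3 := W.smul_mem (δ * f x x₂)⁻¹ h2
    rw [smul_smul, inv_mul_cancel₀ (mul_ne_zero hδ0 hxx₂), one_smul] at h3
    have h4 := W.sub_mem h3 hx₂
    simp only [add_sub_cancel_left] at h4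
    exact hy0 (inf_orthL_eq_zero hf hW h4 hyW')
  · intro M hHM hMG
    by_cases hEq : M = subspaceStabilizer W ⊓ G
    · exact Or.inl hEq
    right
    have hex : ∃ g ∈ M, g ∉ subspaceStabilizer W := by
      by_contra hcon
      push Not at hcon
      exact hEq (le_antisymm (fun g hg => ⟨hcon g hg, hMG hg⟩) hHM)
    obtain ⟨g, hgM, hg⟩ := hex
    have hgi : IsIsom f g := ((hG g).1 (hMG hgM)).1
    obtain ⟨v, hv, hgv⟩ := exists_moved_of_not_mem_stab hg
    have hFW' : ∀ a ∈ W', f a a = 0 → Full hf M a := by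
      intro a ha haa c hc
      exact hHM (hHE a ha 0 W'.zero_mem haa (f_zero_right hf a) c
        (by rw [f_zero_left hf, hc, add_zero]))
    have hFW : ∀ a ∈ W, f a a = 0 → Full hf M a := fun a ha haa c hc => hHM (hHT a ha haa c hc)
    -- a mixed image
    have hA : ∃ b ∈ W', f b b = 0 ∧ (g : Matrix ι ι F) *ᵥ b ∉ W' := by
      by_contra hcon
      push Not at hcon
      have h1 : ∀ y ∈ W', (g : Matrix ι ι F) *ᵥ y ∈ W' := by
        intro y hy
        refine hP'.iso_induction hf hN (by omega) (fun y => (g : Matrix ι ι F) *ᵥ y ∈ W') hcon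
          ?_ hy
        intro a _ b _ h1 h2
        simp only [Matrix.mulVec_add]
        exact W'.add_mem h1 h2
      have h2 : W'.map (glLin g) ≤ W' := by
        rintro _ ⟨y, hy, rfl⟩
        simpa using h1 y hy
      have h3 : W'.map (glLin g) = W' :=
        Submodule.eq_of_le_of_finrank_eq h2 (finrank_map_gl g W')
      apply hgv
      refine mem_of_orth hf hP fun u hu => ?_
      rw [← hW'def] at hu
      rw [← h3] at hu
      obtain ⟨u₀, hu₀, rfl⟩ := hu
      simp only [glLin_apply]
      rw [hgi]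
      exact hu₀ v hv
    have hB : ∃ b ∈ W', f b b = 0 ∧ (g : Matrix ι ι F) *ᵥ b ∉ W := by
      by_contra hcon
      push Not at hcon
      have h1 : ∀ y ∈ W', (g : Matrix ι ι F) *ᵥ y ∈ W := by
        intro y hy
        refine hP'.iso_induction hf hN (by omega) (fun y => (g : Matrix ι ι F) *ᵥ y ∈ W) hcon
          ?_ hy
        intro a _ b _ h1 h2
        simp only [Matrix.mulVec_add]
        exact W.add_mem h1 h2
      have h2 : W'.map (glLin g) ≤ W := by
        rintro _ ⟨y, hy, rfl⟩
        simpa using h1 y hy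
      have h3 := Submodule.finrank_mono h2
      rw [finrank_map_gl] at h3
      omega
    obtain ⟨b₁, hb₁, hb₁b₁, hgb₁⟩ := hA
    obtain ⟨b₂, hb₂, hb₂b₂, hgb₂⟩ := hB
    have hC : ∃ b ∈ W', f b b = 0 ∧ (g : Matrix ι ι F) *ᵥ b ∉ W ∧ (g : Matrix ι ι F) *ᵥ b ∉ W' := by
      by_cases h1 : (g : Matrix ι ι F) *ᵥ b₁ ∈ W
      · by_cases h2 : (g : Matrix ι ι F) *ᵥ b₂ ∈ W'
        · have h3 : f b₁ b₂ = 0 := by
            rw [← hgi]
            exact horth2 h2 h1
          refine ⟨b₁ + b₂, W'.add_mem hb₁ hb₂, ?_, ?_, ?_⟩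
          · simp only [hf.add_left, f_add_right hf, hb₁b₁, hb₂b₂, h3, f_comm_zero hf h3]
            simp
          · rw [Matrix.mulVec_add]
            intro h4
            apply hgb₂
            have := W.sub_mem h4 h1
            rwa [add_sub_cancel_left] at this
          · rw [Matrix.mulVec_add]
            intro h4
            apply hgb₁
            have := W'.sub_mem h4 h2
            rwa [add_sub_cancel_right] at this
        · exact ⟨b₂, hb₂, hb₂b₂, hgb₂, h2⟩
      · exact ⟨b₁, hb₁, hb₁b₁, h1, hgb₁⟩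
    obtain ⟨b, hb, hbb, hgb1, hgb2⟩ := hC
    set u := (g : Matrix ι ι F) *ᵥ b with hu
    have huu : f u u = 0 := by rw [hu, hgi, hbb]
    have hFu : Full hf M u := (hFW' b hb hbb).image hbb hgM hgi
    obtain ⟨x, hx, hy'⟩ := decomp_orthL hf hP u
    set y := u - x with hy
    have hue : u = x + y := by rw [hy]; abel
    have hx0 : x ≠ 0 := by
      rintro rfl
      apply hgb2
      rw [hue, zero_add]
      exact hy'
    have hy0 : y ≠ 0 := by
      intro h0
      apply hgb1
      rw [hue, h0, add_zero]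
      exact hx
    -- choice of the centre
    have hne : y ∉ (⊥ : Submodule F (ι → F)) := by simpa using hy0
    obtain ⟨ψ, hψ1, -⟩ := exists_functional_of_notMem hne
    have h1 := Cfsg.Agent.Lib.SymplecticTv.finrank_inf_ker_add_one W' (formL hf y)
    have h2 := Cfsg.Agent.Lib.SymplecticTv.finrank_inf_ker_add_one
      (W' ⊓ LinearMap.ker (formL hf y)) ψ
    obtain ⟨a₀, ha₀, ha₀0, ha₀a₀⟩ := exists_iso_of_finrank hf hN
      (Y := W' ⊓ LinearMap.ker (formL hf y) ⊓ LinearMap.ker ψ) (by omega)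
    have ha₀W' : a₀ ∈ W' := ha₀.1.1
    have ha₀y : f a₀ y = 0 := ha₀.1.2
    have hya₀ : f y a₀ = 0 := f_comm_zero hf ha₀y
    have hψa₀ : ψ a₀ = 0 := ha₀.2
    have hFa₀ : Full hf M a₀ := hFW' a₀ ha₀W' ha₀a₀
    have hua₀ : f u a₀ = 0 := by
      rw [hue, hf.add_left, horth2 ha₀W' hx, hya₀, add_zero]
    have ha₀u : f a₀ u = 0 := f_comm_zero hf hua₀
    -- translating `u`
    have hstep4 : ∀ l : F, l ≠ 0 → Full hf M (u + l • a₀) := by
      intro l hl
      set a := l • a₀ with ha
      have haW' : a ∈ W' := W'.smul_mem _ ha₀W'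
      have haa : f a a = 0 := by
        simp only [ha, hf.smul_left, f_smul_right hf, ha₀a₀, mul_zero]
      have hay : f a y = 0 := by rw [ha, hf.smul_left, ha₀y, mul_zero]
      have hya : f y a = 0 := f_comm_zero hf hay
      have hn1 : y ∉ Submodule.span F {a} := by
        intro hm
        obtain ⟨c, hc⟩ := Submodule.mem_span_singleton.1 hm
        have h3 := congrArg ψ hc
        simp only [ha, map_smul, hψa₀, hψ1, smul_eq_mul, mul_zero] at h3
        exact zero_ne_one h3
      obtain ⟨φ, hφ1, hφ2⟩ := exists_functional_of_notMem hn1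
      have hφa : φ a = 0 := hφ2 a (Submodule.mem_span_singleton_self a)
      obtain ⟨c₀, hc₀⟩ := exists_formL_eq hf (-φ)
      obtain ⟨z, hz, hz'⟩ := hP' c₀
      have hyz : f y z = -1 := by
        rw [← hz' y hy']
        have := LinearMap.congr_fun hc₀ y
        simpa [hφ1] using this
      have haz : f a z = 0 := by
        rw [← hz' a haW']
        have := LinearMap.congr_fun hc₀ a
        simpa [hφa] using this
      obtain ⟨c, hc⟩ := exists_trace_eq hf (c := - f z z) (by rw [map_neg, f_self_fix hf])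
      have hE := hHM (hHE a haW' z hz haa haz c (by rw [hc]; ring))
      have hEi : IsIsom f (eich hf a z c) :=
        eich_isIsom hf haa haz (by rw [hc]; ring)
      have h3 := hFu.image huu hE hEi
      have hua : f u a = 0 := by rw [ha, f_smul_right hf, hua₀, mul_zero]
      have huz : f u z = -1 := by
        rw [hue, hf.add_left, horth2 hz hx, hyz, zero_add]
      rw [eich_mulVec hf c haa haz, hua, huz] at h3
      have e : u + (0 : F) • z - (-1 : F) • a + (c * 0) • a = u + a := by simp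
      rwa [e] at h3
    -- radical elements
    have hQu : ∀ μ : F, μ ≠ 0 → QS hf M a₀ (μ • u) := by
      intro μ hμ
      refine QS.of_iso ha₀a₀ ?_ ?_ hFa₀ (hFu.smul huu μ) ?_
      · simp only [hf.smul_left, f_smul_right hf, huu, mul_zero]
      · rw [f_smul_right hf, ha₀u, mul_zero]
      · intro l hl
        have hlμ : l * μ ≠ 0 := mul_ne_zero hl hμ
        have e : a₀ + l • μ • u = (l * μ) • (u + (l * μ)⁻¹ • a₀) := by
          rw [smul_add, smul_smul (l * μ) (l * μ)⁻¹, mul_inv_cancel₀ hlμ, one_smul, smul_smul,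
            add_comm]
        rw [e]
        refine (hstep4 _ (inv_ne_zero hlμ)).smul ?_ _
        simp only [hf.add_left, f_add_right hf, hf.smul_left, f_smul_right hf, huu, ha₀a₀, hua₀,
          ha₀u]
        simp
    have hQW' : ∀ z ∈ W', f a₀ z = 0 → QS hf M a₀ z := by
      intro z hz haz
      obtain ⟨c, hc⟩ := exists_trace_eq hf (c := - f z z) (by rw [map_neg, f_self_fix hf])
      have hc' : c + σ c + f z z = 0 := by rw [hc]; ring
      exact ⟨c, hc', hHM (hHE a₀ ha₀W' z hz ha₀a₀ haz c hc')⟩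
    have ha₀x : f a₀ x = 0 := horth1 ha₀W' hx
    have hQx : ∀ μ : F, μ ≠ 0 → QS hf M a₀ (μ • x) := by
      intro μ hμ
      have h3 := (hQu μ hμ).add (hQW' ((-μ) • y) (W'.smul_mem _ hy') (by
        rw [f_smul_right hf, ha₀y, mul_zero])) ha₀a₀ (by rw [f_smul_right hf, ha₀u, mul_zero])
        (by rw [f_smul_right hf, ha₀y, mul_zero])
      have e : μ • u + (-μ) • y = μ • x := by
        rw [hue]
        module
      rwa [e] at h3
    have hQ0 : QS hf M a₀ 0 := hQW' 0 W'.zero_mem (f_zero_right hf a₀)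
    -- all of `W`
    have hQW : ∀ w ∈ W, QS hf M a₀ w := by
      by_cases h2W : 2 ≤ Module.finrank F W
      · -- isotropic vectors not orthogonal to `x`
        have key : ∀ w₁ ∈ W, f w₁ w₁ = 0 → f x w₁ ≠ 0 → ∀ l : F, QS hf M a₀ (l • w₁) := by
          intro w₁ hw₁ hw₁w₁ hxw₁ l
          by_cases hl : l = 0
          · rw [hl, zero_smul]
            exact hQ0
          set μ := l / (δ * f x w₁) with hμ
          have hμ0 : μ ≠ 0 := div_ne_zero hl (mul_ne_zero hδ0 hxw₁)
          have hs : tt hf w₁ δ ∈ M := hFW w₁ hw₁ hw₁w₁ δ hδ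
          have hsi : IsIsom f (tt hf w₁ δ) := tt_isIsom hf hw₁w₁ hδ
          have h3 := (hQx μ hμ0).image hs hsi ha₀a₀ (by rw [f_smul_right hf, ha₀x, mul_zero])
          have e1 : ((tt hf w₁ δ : GL ι F) : Matrix ι ι F) *ᵥ a₀ = a₀ := by
            rw [tt_mulVec hf _ hw₁w₁, horth1 ha₀W' hw₁]
            simp
          have e2 : ((tt hf w₁ δ : GL ι F) : Matrix ι ι F) *ᵥ (μ • x) = μ • x + l • w₁ := by
            rw [tt_mulVec hf _ hw₁w₁, hf.smul_left]
            congr 2
            rw [hμ]
            field_simp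
          rw [e1, e2] at h3
          have h4 := h3.add (hQx (-μ) (neg_ne_zero.2 hμ0)) ha₀a₀
            (by
              rw [f_add_right hf, f_smul_right hf, f_smul_right hf, ha₀x, horth1 ha₀W' hw₁]
              simp)
            (by rw [f_smul_right hf, ha₀x, mul_zero])
          have e3 : μ • x + l • w₁ + (-μ) • x = l • w₁ := by module
          rwa [e3] at h4
        obtain ⟨w₁, hw₁, hw₁w₁, hxw₁⟩ : ∃ w₁ ∈ W, f w₁ w₁ = 0 ∧ f x w₁ ≠ 0 := by
          by_contra hcon
          push Not at hcon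
          obtain ⟨w, hw, hxw⟩ := (hW x hx hx0).2
          apply hxw
          refine hP.iso_induction hf hN h2W (fun w => f x w = 0) hcon ?_ hw
          intro a _ b _ h3 h4
          simp only [f_add_right hf, h3, h4, add_zero]
        intro w hw
        refine hP.iso_induction hf hN h2W (QS hf M a₀) ?_ ?_ hw
        · intro w hw hww
          by_cases hxw : f x w = 0
          · obtain ⟨l, hl0, hl⟩ : ∃ l : F, l ≠ 0 ∧ l * f w₁ w + σ (l * f w₁ w) = 0 := by
              by_cases h0 : f w₁ w = 0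
              · exact ⟨1, one_ne_zero, by simp [h0]⟩
              · refine ⟨δ / f w₁ w, div_ne_zero hδ0 h0, ?_⟩
                rw [div_mul_cancel₀ _ h0]
                exact hδ
            have hw₂ : f (l • w₁ + w) (l • w₁ + w) = 0 := by
              simp only [hf.add_left, f_add_right hf, hf.smul_left, f_smul_right hf, hw₁w₁, hww]
              rw [map_mul, sigma_f hf] at hl
              linear_combination hl
            have hxw₂ : f x (l • w₁ + w) ≠ 0 := by
              rw [f_add_right hf, f_smul_right hf, hxw, add_zero]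
              exact mul_ne_zero (by simpa using hl0) hxw₁
            have h3 := key _ (W.add_mem (W.smul_mem _ hw₁) hw) hw₂ hxw₂ 1
            rw [one_smul] at h3
            have h4 := key w₁ hw₁ hw₁w₁ hxw₁ (-l)
            have h5 := h3.add h4 ha₀a₀ (horth1 ha₀W' (W.add_mem (W.smul_mem _ hw₁) hw))
              (horth1 ha₀W' (W.smul_mem _ hw₁))
            have e : l • w₁ + w + (-l) • w₁ = w := by module
            rwa [e] at h5
          · have := key w hw hww hxw 1
            rwa [one_smul] at this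
        · intro a ha b hb h3 h4
          exact h3.add h4 ha₀a₀ (horth1 ha₀W' ha) (horth1 ha₀W' hb)
      · -- a line
        have hx1 : Module.finrank F W = 1 := by
          have : 0 < Module.finrank F W := by
            rw [Module.finrank_pos_iff_exists_ne_zero]
            exact ⟨⟨x, hx⟩, fun h => hx0 (congrArg Subtype.val h)⟩
          omega
        intro w hw
        have hne' : (⟨x, hx⟩ : W) ≠ 0 := fun h => hx0 (congrArg Subtype.val h)
        obtain ⟨μ, hμ⟩ := (finrank_eq_one_iff_of_nonzero' (⟨x, hx⟩ : W) hne').1 hx1 ⟨w, hw⟩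
        have e : μ • x = w := congrArg Subtype.val hμ
        by_cases hμ0 : μ = 0
        · rw [← e, hμ0, zero_smul]
          exact hQ0
        · rw [← e]
          exact hQx μ hμ0
    -- the whole radical
    have hQ : AllQ hf M a₀ := by
      intro z c hz hc
      obtain ⟨z₁, hz₁, hz₂⟩ := decomp_orthL hf hP z
      have h3 := (hQW z₁ hz₁).add (hQW' (z - z₁) hz₂ (by
        rw [f_sub_right hf, hz, horth1 ha₀W' hz₁, sub_zero])) ha₀a₀ (horth1 ha₀W' hz₁) (by
        rw [f_sub_right hf, hz, horth1 ha₀W' hz₁, sub_zero])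
      rw [add_sub_cancel] at h3
      exact h3.mem hFa₀ ha₀a₀ hz hc
    obtain ⟨a₁, ha₁, ha₁a₀, ha₁a₁⟩ := hP'.exists_partner hf ha₀W' ha₀0 ha₀a₀
    exact le_antisymm hMG (le_of_full hf hN (by omega) hG fun b hb =>
      full_all_of_allQ ha₀a₀ hQ ha₁a₁ (hFW' a₁ ha₁ ha₁a₁) (by rw [ha₁a₀]; exact one_ne_zero) hb)

end Cfsg.Agent.Lib.UnitaryMax
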