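import Cfsg.Agent.Lib.SUCenter
import Cfsg.Agent.Lib.UnitaryMax

/-! Simplicity of the projective special unitary groups. -/

set_option autoImplicit false
set_option linter.unusedSectionVars false
set_option linter.unusedVariables false

namespace Cfsg.Agent.Lib.SUSimple

open Cfsg Cfsg.Geo
open Cfsg.Agent.Lib.Transvection Cfsg.Agent.Lib.UnitaryBase Cfsg.Agent.Lib.UnitaryGen Cfsg.Agent.Lib.Unitary3 Cfsg.Agent.Lib.UnitaryHerm
open Cfsg.Agent.Lib.SymplecticTv (IsIsom)
open scoped Matrix MatrixGroups LinearAlgebra.Projectivization Pointwise commutatorElement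

variable {F : Type*} [Field F] {q n : ℕ} {σ : F ≃+* F}

local notation "f" => hermForm n F q

theorem smul_def' (g : GL (Fin n) F) (v : Fin n → F) : g • v = (g : Matrix (Fin n) (Fin n) F) *ᵥ v := rfl

theorem su_ne_zero (A : SU n F q) {v : Fin n → F} (hv : v ≠ 0) :
    ((suHom n q F A : GL (Fin n) F) : Matrix (Fin n) (Fin n) F) *ᵥ v ≠ 0 := by
  intro h
  apply hv
  have h1 := gl_inv_mulVec_mulVec (suHom n q F A) v
  rw [h, Matrix.mulVec_zero] at h1
  exact h1.symm

/-- Isotropic points. -/
def IsoP (n : ℕ) (F : Type*) [Field F] (q : ℕ) (p : ℙ F (Fin n → F)) : Prop :=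
  ∃ (v : Fin n → F) (hv : v ≠ 0), p = Projectivization.mk F v hv ∧ hermForm n F q v v = 0

/-- The isotropic points. -/
def Pts (n : ℕ) (F : Type*) [Field F] (q : ℕ) : Type _ := {p : ℙ F (Fin n → F) // IsoP n F q p}

/-- The point of an isotropic vector. -/
def mkP {v : Fin n → F} (hv : v ≠ 0) (hvv : f v v = 0) : Pts n F q :=
  ⟨Projectivization.mk F v hv, v, hv, rfl, hvv⟩

theorem isom_of_su (A : SU n F q) : IsIsom f (suHom n q F A) := suHom_isIsom A

/-- The action of `SU` on the isotropic points. -/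
noncomputable instance ptsAct : MulAction (SU n F q) (Pts n F q) where
  smul A x := ⟨suHom n q F A • x.1, by
    obtain ⟨v, hv, hp, hvv⟩ := x.2
    refine ⟨suHom n q F A • v, su_ne_zero A hv, ?_, ?_⟩
    · rw [hp, Projectivization.smul_mk]
    · rw [smul_def', isom_of_su]
      exact hvv⟩
  one_smul x := by
    apply Subtype.ext
    change suHom n q F 1 • x.1 = x.1
    rw [map_one, one_smul]
  mul_smul A B x := by
    apply Subtype.ext
    change suHom n q F (A * B) • x.1 = suHom n q F A • suHom n q F B • x.1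
    rw [map_mul, mul_smul]

theorem smul_mkP (A : SU n F q) {v : Fin n → F} (hv : v ≠ 0) (hvv : f v v = 0) :
    A • (mkP hv hvv : Pts n F q) = mkP (su_ne_zero A hv) (by rw [isom_of_su]; exact hvv) := by
  apply Subtype.ext
  change suHom n q F A • Projectivization.mk F v hv = _
  rw [Projectivization.smul_mk]
  rfl

theorem smul_mkP_eq_iff (A : SU n F q) {v : Fin n → F} (hv : v ≠ 0) (hvv : f v v = 0) :
    A • (mkP hv hvv : Pts n F q) = mkP hv hvv ↔ ∃ l : F, ((suHom n q F A : GL (Fin n) F) : Matrix (Fin n) (Fin n) F) *ᵥ v = l • v := by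
  rw [smul_mkP]
  constructor
  · intro h
    have h1 := congrArg Subtype.val h
    change Projectivization.mk F _ _ = Projectivization.mk F v hv at h1
    rw [Projectivization.mk_eq_mk_iff'] at h1
    obtain ⟨a, ha⟩ := h1
    exact ⟨a, ha.symm⟩
  · rintro ⟨l, hl⟩
    apply Subtype.ext
    change Projectivization.mk F _ _ = Projectivization.mk F v hv
    rw [Projectivization.mk_eq_mk_iff']
    exact ⟨l, hl.symm⟩

variable (hf : IsUnitaryForm σ (hermForm n F q))
include hf

theorem pt_rep (x : Pts n F q) : ∃ (v : Fin n → F) (hv : v ≠ 0) (hvv : f v v = 0), x = mkP hv hvv := by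
  obtain ⟨v, hv, hp, hvv⟩ := x.2
  exact ⟨v, hv, hvv, Subtype.ext hp⟩

/-- Isotropy of a point does not depend on the representative. -/
theorem rep_iso (x : Pts n F q) : f x.1.rep x.1.rep = 0 := by
  obtain ⟨v, hv, hp, hvv⟩ := x.2
  rw [hp]
  obtain ⟨a, ha⟩ := Projectivization.exists_smul_eq_mk_rep F v hv
  rw [← ha, Units.smul_def, hf.smul_left, f_smul_right hf, hvv]
  simp

theorem tt_add {a : Fin n → F} (c d : F) (h1 : f a a = 0) : tt hf a c * tt hf a d = tt hf a (c + d) := by
  apply gl_ext_mulVec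
  intro x
  rw [gl_mul_mulVec, tt_mulVec hf _ h1, tt_mulVec hf _ h1, tt_mulVec hf _ h1]
  simp only [hf.add_left, hf.smul_left, h1, mul_zero, add_zero]
  module

theorem tt_zero {a : Fin n → F} (h1 : f a a = 0) : tt hf a 0 = 1 := by
  apply gl_ext_mulVec
  intro x
  rw [tt_mulVec hf _ h1]
  simp

theorem tt_vec_zero (c : F) : tt hf (0 : Fin n → F) c = 1 := by
  apply gl_ext_mulVec
  intro x
  rw [tt_mulVec hf _ (f_zero_right hf 0)]
  simp

/-- The root group of an isotropic point. -/
noncomputable def rootT (x : Pts n F q) : Subgroup (SU n F q) where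
  carrier := {A | ∃ c, c + σ c = 0 ∧ suHom n q F A = tt hf x.1.rep c}
  mul_mem' := by
    rintro A B ⟨c, hc, hA⟩ ⟨d, hd, hB⟩
    refine ⟨c + d, ?_, ?_⟩
    · rw [map_add]
      linear_combination hc + hd
    · rw [map_mul, hA, hB, tt_add hf _ _ (rep_iso hf x)]
  one_mem' := ⟨0, by simp, by rw [map_one, tt_zero hf (rep_iso hf x)]⟩
  inv_mem' := by
    rintro A ⟨c, hc, hA⟩
    refine ⟨-c, ?_, ?_⟩
    · rw [map_neg]
      linear_combination -hc
    · rw [map_inv, hA, tt_inv_eq c (rep_iso hf x)]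

theorem mem_rootT_mkP {v : Fin n → F} (hv : v ≠ 0) (hvv : f v v = 0) (A : SU n F q) :
    A ∈ rootT hf (mkP hv hvv) ↔ ∃ c, c + σ c = 0 ∧ suHom n q F A = tt hf v c := by
  obtain ⟨a, ha⟩ := Projectivization.exists_smul_eq_mk_rep F v hv
  have ha0 : (a : F) ≠ 0 := a.ne_zero
  have hN0 : (a : F) * σ (a : F) ≠ 0 := mul_ne_zero ha0 (by simpa using ha0)
  have hrep : (mkP hv hvv : Pts n F q).1.rep = (a : F) • v := by
    rw [← Units.smul_def, ha]
    rfl
  have hfix : σ ((a : F) * σ (a : F)) = (a : F) * σ (a : F) := by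
    rw [map_mul, hf.involutive, mul_comm]
  constructor
  · rintro ⟨c, hc, hA⟩
    rw [hrep, tt_smul hf _ _ hvv] at hA
    exact ⟨_, tr0_mul_fix hf hc hfix, hA⟩
  · rintro ⟨c, hc, hA⟩
    refine ⟨c / ((a : F) * σ (a : F)), ?_, ?_⟩
    · rw [div_eq_mul_inv]
      refine tr0_mul_fix hf hc ?_
      rw [map_inv₀, hfix]
    · rw [hrep, tt_smul hf _ _ hvv, hA]
      congr 1
      field_simp

theorem rootT_comm (x : Pts n F q) : IsMulCommutative (rootT hf x) := by
  refine ⟨⟨?_⟩⟩
  rintro ⟨A, c, hc, hA⟩ ⟨B, d, hd, hB⟩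
  apply Subtype.ext
  apply suHom_injective (n := n) (q := q) (K := F)
  change suHom n q F (A * B) = suHom n q F (B * A)
  rw [map_mul, map_mul, hA, hB, tt_add hf _ _ (rep_iso hf x), tt_add hf _ _ (rep_iso hf x), add_comm]

theorem rootT_conj (g : SU n F q) (x : Pts n F q) : rootT hf (g • x) = MulAut.conj g • rootT hf x := by
  obtain ⟨v, hv, hvv, rfl⟩ := pt_rep hf x
  ext A
  rw [Subgroup.mem_pointwise_smul_iff_inv_smul_mem]
  have hconj : (MulAut.conj g)⁻¹ • A = g⁻¹ * A * g := by
    simp [MulAut.smul_def, MulAut.conj_inv_apply]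
  rw [hconj, smul_mkP, mem_rootT_mkP, mem_rootT_mkP]
  have key : ∀ c, suHom n q F A = tt hf (((suHom n q F g : GL (Fin n) F) : Matrix (Fin n) (Fin n) F) *ᵥ v) c ↔
      suHom n q F (g⁻¹ * A * g) = tt hf v c := by
    intro c
    rw [← conj_tt hf (isom_of_su g) c hvv]
    constructor
    · intro h
      rw [map_mul, map_mul, map_inv, h]
      group
    · intro h
      have h2 : A = g * (g⁻¹ * A * g) * g⁻¹ := by group
      conv_lhs => rw [h2]
      rw [map_mul, map_mul, h, map_inv]
  constructor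
  · rintro ⟨c, hc, h⟩
    exact ⟨c, hc, (key c).1 h⟩
  · rintro ⟨c, hc, h⟩
    exact ⟨c, hc, (key c).2 h⟩

theorem tt_mem_rootT_iSup {a : Fin n → F} (h1 : f a a = 0) {c : F} (hc : c + σ c = 0) :
    ∃ A ∈ iSup (rootT hf), suHom n q F A = tt hf a c := by
  by_cases ha : a = 0
  · subst ha
    exact ⟨1, one_mem _, by rw [map_one, tt_vec_zero]⟩
  · obtain ⟨A, hA⟩ := exists_suHom_eq (q := q) (tt_isIsom hf h1 hc) (tt_mem_specialLinear hf a c)
    refine ⟨A, ?_, hA⟩
    exact (le_iSup (rootT hf) (mkP ha h1)) ((mem_rootT_mkP hf ha h1 A).2 ⟨c, hc, hA⟩)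

/-- The Iwasawa structure, given generation by transvections. -/
noncomputable def iwasawa (hgen : ∀ A : SU n F q, suHom n q F A ∈ uG hf ⊤) :
    MulAction.IwasawaStructure (SU n F q) (Pts n F q) where
  T := rootT hf
  is_comm := rootT_comm hf
  is_conj := rootT_conj hf
  is_generator := by
    rw [eq_top_iff]
    intro A _
    have h1 : uG hf ⊤ ≤ (iSup (rootT hf)).map (suHom n q F) := by
      unfold uG
      rw [Subgroup.closure_le]
      rintro s ⟨a, -, h1, c, hc, rfl⟩
      obtain ⟨B, hB, h2⟩ := tt_mem_rootT_iSup hf h1 hc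
      exact ⟨B, hB, h2⟩
    obtain ⟨B, hB, h2⟩ := h1 (hgen A)
    rwa [← suHom_injective h2]

/-- All transvections are commutators, so the group is perfect. -/
theorem perfect (hgen : ∀ A : SU n F q, suHom n q F A ∈ uG hf ⊤)
    (hcomm : ∀ (v : Fin n → F) (c : F), v ≠ 0 → f v v = 0 → c + σ c = 0 →
      ∃ s t : GL (Fin n) F, IsIsom f s ∧ s ∈ specialLinear (Fin n) F ∧ IsIsom f t ∧
        t ∈ specialLinear (Fin n) F ∧ s * t * s⁻¹ * t⁻¹ = tt hf v c) :
    commutator (SU n F q) = ⊤ := by
  rw [eq_top_iff]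
  intro A _
  have h1 : uG hf ⊤ ≤ (commutator (SU n F q)).map (suHom n q F) := by
    unfold uG
    rw [Subgroup.closure_le]
    rintro s ⟨a, -, h1, c, hc, rfl⟩
    by_cases ha : a = 0
    · subst ha
      rw [tt_vec_zero]
      exact one_mem _
    obtain ⟨s, t, h2, h3, h4, h5, h6⟩ := hcomm a c ha h1 hc
    obtain ⟨S, rfl⟩ := exists_suHom_eq h2 h3
    obtain ⟨T, rfl⟩ := exists_suHom_eq h4 h5
    refine ⟨⁅S, T⁆, Subgroup.commutator_mem_commutator (Subgroup.mem_top S) (Subgroup.mem_top T), ?_⟩
    rw [← h6, commutatorElement_def, map_mul, map_mul, map_mul, map_inv, map_inv]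
  obtain ⟨B, hB, h2⟩ := h1 (hgen A)
  rwa [← suHom_injective h2]

/-- Matrices with all isotropic vectors as eigenvectors are scalar. -/
theorem scalar_of_eigen [Fintype F] (hF : Fintype.card F = q ^ 2) (M : Matrix (Fin n) (Fin n) F)
    (hM : ∀ v : Fin n → F, v ≠ 0 → f v v = 0 → ∃ l : F, M *ᵥ v = l • v) (i j : Fin n) (hij : i ≠ j) :
    M i j = 0 ∧ M i i = M j j := by
  classical
  have hq := q_two_le hF
  obtain ⟨e₁, e₂, e₃, h₁, h₂, h₃, h12, h13, h23⟩ := SUCenter.exists_three hF
  have key : ∀ e : F, e ^ (q + 1) = -1 → M i j * e ^ 2 + (M i i - M j j) * e - M j i = 0 := by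
    intro e he
    let v : Fin n → F := Pi.single i 1 + e • Pi.single j 1
    have hvi : v i = 1 := by simp [v, Pi.single_apply, hij.symm]
    have hvj : v j = e := by simp [v, Pi.single_apply, hij]
    have hv0 : v ≠ 0 := by
      intro h
      have := congrFun h i
      rw [hvi] at this
      exact one_ne_zero this
    have hvv : hermForm n F q v v = 0 := by
      rw [hermForm, Finset.sum_eq_add i j hij (by
        intro k _ hk
        have : v k = 0 := by
          simp [v, Pi.single_apply, hk.1, hk.2]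
        rw [this, zero_mul]) (by simp) (by simp), hvi, hvj, one_pow, one_mul, ← pow_succ', he]
      ring
    obtain ⟨l, hl⟩ := hM v hv0 hvv
    have hi := congrFun hl i
    have hj := congrFun hl j
    have hMv : ∀ k, (M *ᵥ v) k = M k i + e * M k j := by
      intro k
      simp [Matrix.mulVec, dotProduct, v, Pi.single_apply, add_mul, mul_add, Finset.sum_add_distrib]
      ring
    rw [hMv] at hi hj
    simp only [Pi.smul_apply, smul_eq_mul, hvi, hvj, mul_one] at hi hj
    rw [← hi] at hj
    linear_combination (-1 : F) * hj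
  have k1 := key e₁ h₁
  have k2 := key e₂ h₂
  have k3 := key e₃ h₃
  have d12 : (e₁ - e₂) * (M i j * (e₁ + e₂) + (M i i - M j j)) = 0 := by linear_combination k1 - k2
  have d13 : (e₁ - e₃) * (M i j * (e₁ + e₃) + (M i i - M j j)) = 0 := by linear_combination k1 - k3
  have d12' := (mul_eq_zero.1 d12).resolve_left (sub_ne_zero.2 h12)
  have d13' := (mul_eq_zero.1 d13).resolve_left (sub_ne_zero.2 h13)
  have d : (e₂ - e₃) * M i j = 0 := by linear_combination d12' - d13'
  have c0 : M i j = 0 := (mul_eq_zero.1 d).resolve_left (sub_ne_zero.2 h23)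
  refine ⟨c0, ?_⟩
  rw [c0] at d12'
  linear_combination d12'

/-- Elements fixing all isotropic points are central. -/
theorem central_of_fix [Fintype F] (hF : Fintype.card F = q ^ 2) (A : SU n F q)
    (hA : ∀ x : Pts n F q, A • x = x) : A ∈ Subgroup.center (SU n F q) := by
  classical
  have hM : ∀ v : Fin n → F, v ≠ 0 → f v v = 0 → ∃ l : F, ((suHom n q F A : GL (Fin n) F) : Matrix (Fin n) (Fin n) F) *ᵥ v = l • v := by
    intro v hv hvv
    exact (smul_mkP_eq_iff A hv hvv).1 (hA _)
  have h1 := scalar_of_eigen hf hF _ hM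
  rw [Subgroup.mem_center_iff]
  intro g
  apply suHom_injective (n := n) (q := q) (K := F)
  rw [map_mul, map_mul]
  apply Units.ext
  ext i j
  simp only [suHom_coe] at h1
  rw [Units.val_mul, Units.val_mul, suHom_coe, suHom_coe, Matrix.mul_apply, Matrix.mul_apply]
  rw [Finset.sum_eq_single j (fun k _ hk ↦ by rw [(h1 k j hk).1, mul_zero]) (by simp),
    Finset.sum_eq_single i (fun k _ hk ↦ by rw [(h1 i k hk.symm).1, zero_mul]) (by simp)]
  by_cases h : i = j
  · subst h
    rw [mul_comm]
  · rw [(h1 i j h).2, mul_comm]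

/-- A normal subgroup is central or contains the commutator subgroup. -/
theorem normal_central_or [Fintype F] (hF : Fintype.card F = q ^ 2) (hgen : ∀ A : SU n F q, suHom n q F A ∈ uG hf ⊤)
    (hprim : MulAction.IsPreprimitive (SU n F q) (Pts n F q)) (N : Subgroup (SU n F q)) (hN : N.Normal) :
    N ≤ Subgroup.center (SU n F q) ∨ commutator (SU n F q) ≤ N := by
  by_cases hfix : MulAction.fixedPoints N (Pts n F q) = Set.univ
  · left
    intro A hA
    refine central_of_fix hf hF A (fun x ↦ ?_)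
    have h1 : x ∈ MulAction.fixedPoints N (Pts n F q) := by
      rw [hfix]; trivial
    exact h1 ⟨A, hA⟩
  · right
    exact (iwasawa hf hgen).commutator_le N hfix

/-- An isotropic vector exists in dimension two and more. -/
theorem exists_iso [Fintype F] (hF : Fintype.card F = q ^ 2) (hn : 2 ≤ n) :
    ∃ v : Fin n → F, v ≠ 0 ∧ f v v = 0 := by
  classical
  have hq := q_two_le hF
  obtain ⟨e, _, _, he, _, _, _, _, _⟩ := SUCenter.exists_three hF
  let i : Fin n := ⟨0, by omega⟩
  let j : Fin n := ⟨1, by omega⟩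
  have hij : i ≠ j := by simp [i, j, Fin.ext_iff]
  let v : Fin n → F := Pi.single i 1 + e • Pi.single j 1
  have hvi : v i = 1 := by simp [v, Pi.single_apply, hij.symm]
  have hvj : v j = e := by simp [v, Pi.single_apply, hij]
  refine ⟨v, ?_, ?_⟩
  · intro h
    have := congrFun h i
    rw [hvi] at this
    exact one_ne_zero this
  · rw [hermForm, Finset.sum_eq_add i j hij (by
      intro k _ hk
      have : v k = 0 := by
        simp [v, Pi.single_apply, hk.1, hk.2]
      rw [this, zero_mul]) (by simp) (by simp), hvi, hvj, one_pow, one_mul, ← pow_succ', he]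
    ring

/-- Simplicity. -/
theorem isSimple_of [Fintype F] (hF : Fintype.card F = q ^ 2) (hn : 2 ≤ n) (hgen : ∀ A : SU n F q, suHom n q F A ∈ uG hf ⊤)
    (hprim : MulAction.IsPreprimitive (SU n F q) (Pts n F q)) (hperf : commutator (SU n F q) = ⊤) :
    IsSimpleGroup (PSU n F q) := by
  classical
  have hnt : Nontrivial (PSU n F q) := by
    have hne : Subgroup.center (SU n F q) ≠ ⊤ := by
      intro htop
      obtain ⟨v, hv0, hvv⟩ := exists_iso (n := n) hf hF hn
      obtain ⟨c, hc0, hc⟩ := exists_tr0 hf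
      obtain ⟨A, hA⟩ := exists_suHom_eq (q := q) (tt_isIsom hf hvv hc) (tt_mem_specialLinear hf v c)
      have h1 : A ∈ Subgroup.center (SU n F q) := by rw [htop]; trivial
      obtain ⟨i, hi⟩ := Function.ne_iff.1 hv0
      have hi' : v i ≠ 0 := hi
      -- a vector with `f x v ≠ 0`
      obtain ⟨x, -, hxv, hxx⟩ := (proj_top f).exists_partner hf Submodule.mem_top hv0 hvv
      have hAv : ((suHom n q F A : GL (Fin n) F) : Matrix (Fin n) (Fin n) F) *ᵥ v = v := by
        rw [hA, tt_mulVec hf _ hvv, hvv]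
        simp
      have hAx : ((suHom n q F A : GL (Fin n) F) : Matrix (Fin n) (Fin n) F) *ᵥ x = x + c • v := by
        rw [hA, tt_mulVec hf _ hvv, hxv, mul_one]
      have hq := q_two_le hF
      -- `A` commutes with a transvection moving `v`
      obtain ⟨B, hB⟩ := exists_suHom_eq (q := q) (tt_isIsom hf hxx hc) (tt_mem_specialLinear hf x c)
      have h2 := (Subgroup.mem_center_iff.1 h1 B)
      have hvx : f v x = 1 := by
        rw [hf.herm, hxv, map_one]
      have hBv : ((suHom n q F B : GL (Fin n) F) : Matrix (Fin n) (Fin n) F) *ᵥ v = v + c • x := by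
        rw [hB, tt_mulVec hf _ hxx, hvx, mul_one]
      have h3 : ((suHom n q F B : GL (Fin n) F) : Matrix (Fin n) (Fin n) F) *ᵥ (((suHom n q F A : GL (Fin n) F) : Matrix (Fin n) (Fin n) F) *ᵥ v) =
          ((suHom n q F A : GL (Fin n) F) : Matrix (Fin n) (Fin n) F) *ᵥ (((suHom n q F B : GL (Fin n) F) : Matrix (Fin n) (Fin n) F) *ᵥ v) := by
        rw [← gl_mul_mulVec, ← gl_mul_mulVec, ← map_mul, ← map_mul, h2]
      rw [hAv, hBv, Matrix.mulVec_add, Matrix.mulVec_smul, hAv, hAx] at h3
      have h5 : (c * c) • v = 0 := by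
        rw [← smul_smul]
        have h7 : v + c • x + (0 : Fin n → F) = v + c • x + c • c • v := by
          rw [add_zero]
          calc v + c • x = v + c • (x + c • v) := h3
            _ = _ := by rw [smul_add]; abel
        exact (add_left_cancel h7).symm
      have h6 := (smul_eq_zero.1 h5).resolve_right hv0
      exact hc0 (mul_self_eq_zero.1 h6)
    by_contra hcon
    rw [not_nontrivial_iff_subsingleton] at hcon
    apply hne
    rw [eq_top_iff]
    intro x _
    rw [← QuotientGroup.eq_one_iff]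
    exact Subsingleton.elim _ _
  refine ⟨?_⟩
  intro N' hN'
  let π : SU n F q →* PSU n F q := QuotientGroup.mk' _
  have hπ : Function.Surjective π := QuotientGroup.mk'_surjective _
  let N : Subgroup (SU n F q) := N'.comap π
  have hN : N.Normal := hN'.comap π
  rcases normal_central_or hf hF hgen hprim N hN with h1 | h1
  · left
    rw [eq_bot_iff]
    intro x hx
    obtain ⟨y, rfl⟩ := hπ x
    have hy : y ∈ N := hx
    have := h1 hy
    rw [Subgroup.mem_bot]
    exact (QuotientGroup.eq_one_iff y).2 this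
  · right
    rw [hperf] at h1
    rw [eq_top_iff]
    intro x _
    obtain ⟨y, rfl⟩ := hπ x
    exact h1 (Subgroup.mem_top y)

/-! ### Primitivity -/

/-- Two hyperbolic pairs orthogonal to each other need dimension four. -/
theorem four_le_of_pairs {e b d b' : Fin n → F} (hee : f e e = 0) (hbb : f b b = 0) (hbe : f b e = 1)
    (hdd : f d d = 0) (hb'b' : f b' b' = 0) (hb'd : f b' d = 1) (hde : f d e = 0) (hdb : f d b = 0)
    (hb'e : f b' e = 0) (hb'b : f b' b = 0) : 4 ≤ n := by
  classical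
  have hind : LinearIndependent F ![e, b, d, b'] := by
    rw [Fintype.linearIndependent_iff]
    intro g hg
    rw [Fin.sum_univ_four] at hg
    simp only [Matrix.cons_val_zero, Matrix.cons_val_one, Matrix.cons_val] at hg
    have hebx : f e b = 1 := by rw [hf.herm, hbe, map_one]
    have hdb'x : f d b' = 1 := by rw [hf.herm, hb'd, map_one]
    have hed : f e d = 0 := f_comm_zero hf hde
    have hbd : f b d = 0 := f_comm_zero hf hdb
    have heb' : f e b' = 0 := f_comm_zero hf hb'e
    have hbb' : f b b' = 0 := f_comm_zero hf hb'b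
    have app : ∀ y, g 0 * f e y + g 1 * f b y + g 2 * f d y + g 3 * f b' y = 0 := by
      intro y
      have h := congrArg (fun z ↦ f z y) hg
      simp only [hf.add_left, hf.smul_left, f_zero_left hf] at h
      exact h
    have h1 := app b
    have h0 := app e
    have h3 := app d
    have h2 := app b'
    simp only [hebx, hbb, hdb, hb'b, mul_zero, mul_one, add_zero, zero_add] at h1
    simp only [hee, hbe, hde, hb'e, mul_zero, mul_one, add_zero, zero_add] at h0
    simp only [hed, hbd, hdd, hb'd, mul_zero, mul_one, add_zero, zero_add] at h3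
    simp only [heb', hbb', hdb'x, hb'b', mul_zero, mul_one, add_zero, zero_add] at h2
    intro i
    fin_cases i
    · exact h1
    · exact h0
    · exact h2
    · exact h3
  have h := hind.fintype_card_le_finrank
  simpa using h

/-- In dimension three, two isotropic vectors that are orthogonal are proportional. -/
theorem prop_of_orth (hn : n = 3) [Finite F] {e d : Fin n → F} (he0 : e ≠ 0) (hee : f e e = 0) (hdd : f d d = 0) (hde : f d e = 0) :
    ∃ l : F, d = l • e := by
  classical
  obtain ⟨b, -, hbe, hbb⟩ := (proj_top f).exists_partner hf Submodule.mem_top he0 hee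
  have heb : f e b = 1 := by rw [hf.herm, hbe, map_one]
  have hed : f e d = 0 := f_comm_zero hf hde
  set d' := d - f d b • e with hd'
  have hd'e : f d' e = 0 := by
    rw [hd', f_sub_left hf, hf.smul_left, hde, hee]
    simp
  have hd'b : f d' b = 0 := by
    rw [hd', f_sub_left hf, hf.smul_left, heb]
    simp
  have hd'd' : f d' d' = 0 := by
    have h1 : f d' d = 0 := by
      rw [hd', f_sub_left hf, hf.smul_left, hdd, hed]
      simp
    rw [hd', f_sub_right hf, ← hd', h1, f_smul_right hf, hd'e]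
    simp
  by_cases hd0 : d' = 0
  · exact ⟨f d b, sub_eq_zero.1 hd0⟩
  exfalso
  have hY : Proj f ((⊤ : Submodule F (Fin n → F)) ⊓ LinearMap.ker (formL hf e) ⊓ LinearMap.ker (formL hf b)) :=
    (proj_top f).perp_pair hf Submodule.mem_top Submodule.mem_top hee hbb hbe
  have hd'Y : d' ∈ (⊤ : Submodule F (Fin n → F)) ⊓ LinearMap.ker (formL hf e) ⊓ LinearMap.ker (formL hf b) :=
    ⟨⟨Submodule.mem_top, hd'e⟩, hd'b⟩
  obtain ⟨b', hb'Y, hb'd', hb'b'⟩ := hY.exists_partner hf hd'Y hd0 hd'd'
  have := four_le_of_pairs hf hee hbb hbe hd'd' hb'b' hb'd' hd'e hd'b hb'Y.1.2 hb'Y.2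
  omega

theorem pretrans (hmove : ∀ e d : Fin n → F, e ≠ 0 → d ≠ 0 → f e e = 0 → f d d = 0 →
    ∃ s ∈ uG hf ⊤, (s : Matrix (Fin n) (Fin n) F) *ᵥ e = d) : MulAction.IsPretransitive (SU n F q) (Pts n F q) := by
  refine ⟨fun x y ↦ ?_⟩
  obtain ⟨v, hv, hvv, rfl⟩ := pt_rep hf x
  obtain ⟨w, hw, hww, rfl⟩ := pt_rep hf y
  obtain ⟨s, hs, hsv⟩ := hmove v w hv hw hvv hww
  obtain ⟨A, rfl⟩ := exists_suHom_eq (q := q) (uG_isIsom hs) (uG_det hs)
  refine ⟨A, ?_⟩
  rw [smul_mkP]
  congr 1

/-- Primitivity in dimension three. -/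
theorem prim3 [Finite F] (hn : n = 3) {μ : F} (hμ : σ μ = μ) (hμ0 : μ ≠ 0) (hμ1 : μ ≠ 1)
    (hN : ∀ c, σ c = c → ∃ l, l * σ l = c) (hex : ∃ v : Fin n → F, v ≠ 0 ∧ f v v = 0) :
    MulAction.IsPreprimitive (SU n F q) (Pts n F q) := by
  classical
  have hcard : 3 ≤ Fintype.card (Fin n) := by simp [hn]
  have htr : MulAction.IsPretransitive (SU n F q) (Pts n F q) :=
    pretrans hf (fun e d he hd hee hdd ↦ move_any3 hf hμ hμ0 hμ1 hN hcard he hd hee hdd)
  obtain ⟨e, he0, hee⟩ := hex
  refine MulAction.IsPreprimitive.of_isTrivialBlock_base (mkP he0 hee : Pts n F q) ?_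
  intro B haB hB
  by_cases hsub : B.Subsingleton
  · exact Or.inl hsub
  right
  rw [Set.not_subsingleton_iff] at hsub
  obtain ⟨b, hb, hba⟩ := hsub.exists_ne (mkP he0 hee)
  obtain ⟨d, hd0, hdd, rfl⟩ := pt_rep hf b
  ext c
  simp only [Set.mem_univ, iff_true]
  by_cases hca : c = mkP he0 hee
  · rw [hca]; exact haB
  obtain ⟨w, hw0, hww, rfl⟩ := pt_rep hf c
  have hnon : ∀ (u : Fin n → F) (hu : u ≠ 0) (huu : f u u = 0), (mkP hu huu : Pts n F q) ≠ mkP he0 hee → f u e ≠ 0 := by
    intro u hu huu hne h0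
    obtain ⟨l, hl⟩ := prop_of_orth hf hn he0 hee huu h0
    apply hne
    apply Subtype.ext
    change Projectivization.mk F u hu = Projectivization.mk F e he0
    rw [Projectivization.mk_eq_mk_iff']
    exact ⟨l, hl.symm⟩
  have hde := hnon d hd0 hdd hba
  have hwe := hnon w hw0 hww hca
  have hscale : ∀ (u : Fin n → F), f u u = 0 → f u e ≠ 0 → f ((f u e)⁻¹ • u) ((f u e)⁻¹ • u) = 0 ∧ f ((f u e)⁻¹ • u) e = 1 := by
    intro u huu hue
    constructor
    · rw [hf.smul_left, f_smul_right hf, huu]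
      simp
    · rw [hf.smul_left]
      exact inv_mul_cancel₀ hue
  obtain ⟨h1, h2⟩ := hscale d hdd hde
  obtain ⟨h3, h4⟩ := hscale w hww hwe
  obtain ⟨s, hs, hse, hsd⟩ := move_pair3 hf hμ hμ0 hμ1 hN hcard hee h1 hee h3 h2 h4
  obtain ⟨A, rfl⟩ := exists_suHom_eq (q := q) (uG_isIsom hs) (uG_det hs)
  have hfix : A • (mkP he0 hee : Pts n F q) = mkP he0 hee := (smul_mkP_eq_iff A he0 hee).2 ⟨1, by rw [hse, one_smul]⟩
  have hmove : A • (mkP hd0 hdd : Pts n F q) = mkP hw0 hww := by
    rw [smul_mkP]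
    apply Subtype.ext
    change Projectivization.mk F _ _ = Projectivization.mk F w hw0
    rw [Projectivization.mk_eq_mk_iff']
    refine ⟨f d e * (f w e)⁻¹, ?_⟩
    rw [Matrix.mulVec_smul] at hsd
    rw [mul_smul, ← hsd, smul_smul, mul_inv_cancel₀ hde, one_smul]
  have hbl := (MulAction.isBlock_iff_smul_eq_or_disjoint.1 hB) A
  have hAB : A • B = B := by
    refine hbl.resolve_right ?_
    rw [Set.not_disjoint_iff]
    exact ⟨mkP he0 hee, ⟨_, haB, hfix⟩, haB⟩
  rw [← hAB, ← hmove]
  exact ⟨_, hb, rfl⟩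

/-- Primitivity in dimension at least four. -/
theorem prim4 [Finite F] (hn : 4 ≤ n) (hN : ∀ c, σ c = c → ∃ l, l * σ l = c)
    (hex : ∃ v w : Fin n → F, ∃ (hv : v ≠ 0) (hw : w ≠ 0) (hvv : f v v = 0) (hww : f w w = 0),
      (mkP hv hvv : Pts n F q) ≠ mkP hw hww) :
    MulAction.IsPreprimitive (SU n F q) (Pts n F q) := by
  classical
  have hcard : 4 ≤ Fintype.card (Fin n) := by simpa using hn
  have hfin : Module.finrank F (⊤ : Submodule F (Fin n → F)) = n := by
    rw [finrank_top, Module.finrank_fintype_fun_eq_card]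
    simp
  have htr : MulAction.IsPretransitive (SU n F q) (Pts n F q) :=
    pretrans hf (fun e d he hd hee hdd ↦ move_any hf hN (proj_top f) (by rw [hfin]; exact hn) Submodule.mem_top Submodule.mem_top he hd hee hdd)
  obtain ⟨v, w, hv, hw, hvv, hww, hne⟩ := hex
  have hnt : Nontrivial (Pts n F q) := ⟨⟨_, _, hne⟩⟩
  refine (MulAction.isCoatom_stabilizer_iff_preprimitive (SU n F q) (mkP hv hvv : Pts n F q)).1 ?_
  let W : Submodule F (Fin n → F) := Submodule.span F {v}
  have hW0 : W ≠ ⊥ := by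
    simp [W, hv]
  have hW : IsTotallySingularFor f W := by
    intro x hx y hy
    obtain ⟨a, rfl⟩ := Submodule.mem_span_singleton.1 hx
    obtain ⟨b, rfl⟩ := Submodule.mem_span_singleton.1 hy
    rw [hf.smul_left, f_smul_right hf, hvv]
    simp
  have hG : ∀ g, g ∈ (suHom n q F).range ↔ IsIsom f g ∧ g ∈ specialLinear (Fin n) F := by
    intro g
    constructor
    · rintro ⟨A, rfl⟩
      exact ⟨suHom_isIsom A, suHom_det A⟩
    · rintro ⟨h1, h2⟩
      obtain ⟨A, rfl⟩ := exists_suHom_eq (q := q) h1 h2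
      exact ⟨A, rfl⟩
  obtain ⟨hlt, hmax⟩ := UnitaryMax.totallySingular_isMaximalIn hf hN hcard hG hW0 hW
  have key : ∀ A : SU n F q, suHom n q F A ∈ subspaceStabilizer W ↔ A ∈ MulAction.stabilizer (SU n F q) (mkP hv hvv : Pts n F q) := by
    intro A
    rw [MulAction.mem_stabilizer_iff, smul_mkP_eq_iff]
    constructor
    · intro h
      have h1 : ((suHom n q F A : GL (Fin n) F) : Matrix (Fin n) (Fin n) F) *ᵥ v ∈ W := (h v).1 (Submodule.mem_span_singleton_self v)
      obtain ⟨l, hl⟩ := Submodule.mem_span_singleton.1 h1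
      exact ⟨l, hl.symm⟩
    · rintro ⟨l, hl⟩
      apply UnitaryMax.mem_stab_of_map
      intro x hx
      obtain ⟨a, rfl⟩ := Submodule.mem_span_singleton.1 hx
      rw [Matrix.mulVec_smul, hl, smul_smul]
      exact Submodule.smul_mem _ _ (Submodule.mem_span_singleton_self v)
  constructor
  · intro htop
    obtain ⟨hle, hne⟩ := SetLike.lt_iff_le_and_exists.1 hlt
    obtain ⟨g, ⟨A, rfl⟩, hnot⟩ := hne
    apply hnot
    refine ⟨(key A).2 ?_, ⟨A, rfl⟩⟩
    rw [htop]
    trivial
  · intro H hH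
    have hle : subspaceStabilizer W ⊓ (suHom n q F).range ≤ H.map (suHom n q F) := by
      rintro g ⟨h1, A, rfl⟩
      exact ⟨A, hH.le ((key A).1 h1), rfl⟩
    have hle2 : H.map (suHom n q F) ≤ (suHom n q F).range := by
      rintro _ ⟨A, -, rfl⟩
      exact ⟨A, rfl⟩
    rcases hmax _ hle hle2 with h | h
    · exfalso
      apply hH.not_ge
      intro A hA
      have h1 : suHom n q F A ∈ H.map (suHom n q F) := ⟨A, hA, rfl⟩
      rw [h] at h1
      exact (key A).1 h1.1
    · rw [eq_top_iff]
      intro A _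
      have h1 : suHom n q F A ∈ H.map (suHom n q F) := by
        rw [h]
        exact ⟨A, rfl⟩
      obtain ⟨B, hB, h2⟩ := h1
      rwa [← suHom_injective h2]

omit hf in
/-- `PSU_n(q)` is simple for `n ≥ 3`, `(n, q) ≠ (3, 2)`. -/
theorem isSimple_PSU [Fintype F] (hF : Fintype.card F = q ^ 2) (hn : 3 ≤ n) (h : ¬ (n = 3 ∧ q = 2)) :
    IsSimpleGroup (PSU n F q) := by
  classical
  obtain ⟨σ, hσ⟩ := exists_sigma hF
  have hf : IsUnitaryForm σ (hermForm n F q) := hermForm_isUnitary hF hσ
  have hN := norm_surjective hF hσ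
  have hq := q_two_le hF
  by_cases h4 : 4 ≤ n
  · have hcard : 4 ≤ Fintype.card (Fin n) := by simpa using h4
    have hgen : ∀ A : SU n F q, suHom n q F A ∈ uG hf ⊤ := fun A ↦
      isom_mem_uG hf hN hcard (suHom_isIsom A) (suHom_det A)
    have hperf := perfect hf hgen (fun v c hv hvv hc ↦ tt_commutator4 hf hN hcard hv hvv hc)
    have hprim : MulAction.IsPreprimitive (SU n F q) (Pts n F q) := by
      refine prim4 hf h4 hN ?_
      obtain ⟨e₁, e₂, _, h₁, h₂, _, h12, _, _⟩ := SUCenter.exists_three hF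
      let i : Fin n := ⟨0, by omega⟩
      let j : Fin n := ⟨1, by omega⟩
      have hij : i ≠ j := by simp [i, j, Fin.ext_iff]
      have hiso : ∀ e : F, e ^ (q + 1) = -1 → (Pi.single i 1 + e • Pi.single j 1 : Fin n → F) ≠ 0 ∧
          hermForm n F q (Pi.single i 1 + e • Pi.single j 1 : Fin n → F) (Pi.single i 1 + e • Pi.single j 1 : Fin n → F) = 0 := by
        intro e he
        set v : Fin n → F := Pi.single i 1 + e • Pi.single j 1 with hv
        have hvi : v i = 1 := by simp [v, Pi.single_apply, hij.symm]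
        have hvj : v j = e := by simp [v, Pi.single_apply, hij]
        constructor
        · intro h
          have := congrFun h i
          rw [hvi] at this
          exact one_ne_zero this
        · rw [hermForm, Finset.sum_eq_add i j hij (by
            intro k _ hk
            have : v k = 0 := by
              simp [v, Pi.single_apply, hk.1, hk.2]
            rw [this, zero_mul]) (by simp) (by simp), hvi, hvj, one_pow, one_mul, ← pow_succ', he]
          ring
      obtain ⟨h01, h02⟩ := hiso e₁ h₁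
      obtain ⟨h03, h04⟩ := hiso e₂ h₂
      refine ⟨_, _, h01, h03, h02, h04, ?_⟩
      intro heq
      have h5 := congrArg Subtype.val heq
      change Projectivization.mk F _ _ = Projectivization.mk F _ _ at h5
      rw [Projectivization.mk_eq_mk_iff'] at h5
      obtain ⟨a, ha⟩ := h5
      have hi1 := congrFun ha i
      have hj1 := congrFun ha j
      simp [Pi.single_apply, hij, hij.symm] at hi1 hj1
      rw [hi1] at hj1
      simp at hj1
      exact h12 hj1.symm
    exact isSimple_of hf hF (by omega) hgen hprim hperf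
  · have hn3 : n = 3 := by omega
    have hq3 : 3 ≤ q := by
      by_contra hcon
      exact h ⟨hn3, by omega⟩
    have hcard : 3 ≤ Fintype.card (Fin n) := by simpa using hn
    obtain ⟨μ, hμ, hμ0, hμ1⟩ := exists_fix_ne hF hq3 hσ
    have hgen : ∀ A : SU n F q, suHom n q F A ∈ uG hf ⊤ := fun A ↦
      isom_mem_uG3 hf hμ hμ0 hμ1 hN hcard (suHom_isIsom A) (suHom_det A)
    have hperf := perfect hf hgen (fun v c hv hvv hc ↦ tt_commutator3 hf hμ hμ0 hμ1 hN hcard hv hvv hc)
    have hprim : MulAction.IsPreprimitive (SU n F q) (Pts n F q) :=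
      prim3 hf hn3 hμ hμ0 hμ1 hN (exists_iso hf hF (by omega))
    exact isSimple_of hf hF (by omega) hgen hprim hperf

end Cfsg.Agent.Lib.SUSimple
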