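import Cfsg.Agent.Lib.OmegaMinus4
import Cfsg.Agent.Lib.Pf4
import Cfsg.Agent.Lib.SUSimple
import Cfsg.Agent.S0278

/-! The isomorphism `PΩ⁻₆(q) ≅ PSU₄(q)`: `SU₄` acts on a real form of the exterior square. -/

set_option autoImplicit false
set_option linter.unusedSectionVars false
set_option linter.unusedVariables false

namespace Cfsg.Agent.Lib.OmegaMinus6

open Cfsg Cfsg.Geo
open Cfsg.Agent.Lib.OmegaIso Cfsg.Agent.Lib.Pf4 Cfsg.Agent.Lib.OmegaMinus4
open scoped Matrix MatrixGroups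

section Hodge

variable {F : Type*} [Field F]

/-- The Hodge dual of an alternating matrix. -/
def hodge (A : Matrix (Fin 4) (Fin 4) F) : Matrix (Fin 4) (Fin 4) F :=
  !![0, A 2 3, -A 1 3, A 1 2;
    -A 2 3, 0, A 0 3, -A 0 2;
    A 1 3, -A 0 3, 0, A 0 1;
    -A 1 2, A 0 2, -A 0 1, 0]

theorem hodge_conj_entry (g A : Matrix (Fin 4) (Fin 4) F) (hA : IsAlt A) (i j : Fin 4) :
    (g.transpose * hodge (g * A * g.transpose) * g) i j = g.det * hodge A i j := by
  have h1 : ∀ X : Matrix (Fin 4) (Fin 4) F, (g.transpose * hodge X * g) i j =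
      g 0 i * (X 2 3 * g 1 j - X 1 3 * g 2 j + X 1 2 * g 3 j) +
      g 1 i * (- X 2 3 * g 0 j + X 0 3 * g 2 j - X 0 2 * g 3 j) +
      g 2 i * (X 1 3 * g 0 j - X 0 3 * g 1 j + X 0 1 * g 3 j) +
      g 3 i * (- X 1 2 * g 0 j + X 0 2 * g 1 j - X 0 1 * g 2 j) := by
    intro X
    simp [Matrix.mul_apply, Fin.sum_univ_four, hodge]
    ring
  rw [h1]
  simp only [conj_apply g A hA, det4 g]
  fin_cases i <;> fin_cases j <;> simp [hodge] <;> ring

theorem hodge_conj {g A : Matrix (Fin 4) (Fin 4) F} (hA : IsAlt A) (hg : g.det = 1) :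
    g.transpose * hodge (g * A * g.transpose) * g = hodge A := by
  ext i j
  rw [hodge_conj_entry g A hA, hg, one_mul]

end Hodge

section Model

variable {F K : Type*} [Field F] [Field K] [Algebra F K] [Fintype F] [Fintype K] {q : ℕ} {a b : F}

/-- Two more constants of the quadratic extension. -/
structure Extra (M : Model F K q a b) where
  l : K
  c₀ : K
  hl : l * M.σ l = -1
  hc : c₀ + M.σ c₀ = 1

theorem hδ (M : Model F K q a b) : M.θ - M.σ M.θ ≠ 0 := by
  rw [M.hσ]
  exact sub_ne_zero.2 (Ne.symm M.hne)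

theorem exists_extra (M : Model F K q a b) : Nonempty (Extra M) := by
  obtain ⟨l, hl⟩ := Cfsg.Agent.Lib.UnitaryHerm.norm_surjective M.hK M.hσ (-1) (by simp)
  have hσθ := M.hσθ
  by_cases ha : algebraMap F K a = 0
  · have h2 : (2 : K) ≠ 0 := by
      intro h
      apply hδ M
      rw [hσθ, ha]
      linear_combination M.θ * h
    exact ⟨⟨l, 2⁻¹, hl, by
      simp only [map_inv₀, map_ofNat]
      field_simp
      norm_num⟩⟩
  · refine ⟨⟨l, M.θ * (algebraMap F K a)⁻¹, hl, ?_⟩⟩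
    rw [map_mul, map_inv₀, M.h1, hσθ]
    field_simp
    ring

variable (M : Model F K q a b) (E : Extra M)

/-- The index set. -/
abbrev I6 := (Fin 2 ⊕ Fin 2) ⊕ Fin 2

/-- The inverse of `θ - σ θ`. -/
noncomputable def iδ : K := (M.θ - M.σ M.θ)⁻¹

theorem iδ_mul : iδ M * (M.θ - M.σ M.θ) = 1 := inv_mul_cancel₀ (hδ M)

theorem σ_iδ : M.σ (iδ M) = - iδ M := by
  unfold iδ
  rw [map_inv₀, map_sub, M.h2, ← inv_neg, neg_sub]

/-- Coordinates. -/
noncomputable def fV (v : I6 → F) : K :=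
  algebraMap F K (v (.inl (.inl 0))) + algebraMap F K (v (.inl (.inl 1))) * M.θ

/-- Coordinates. -/
noncomputable def fP (v : I6 → F) : K :=
  (algebraMap F K (v (.inl (.inr 0))) * M.θ - algebraMap F K (v (.inl (.inr 1)))) * iδ M

/-- Coordinates. -/
noncomputable def fT (v : I6 → F) : K :=
  algebraMap F K (v (.inr 0)) + algebraMap F K (v (.inr 1)) * M.θ

/-- Coordinates. -/
noncomputable def fU (v : I6 → F) : K := fV M v + (1 - E.c₀) * fP M v

/-- Coordinates. -/
noncomputable def fW (v : I6 → F) : K := E.l * (fV M v - E.c₀ * fP M v)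

theorem key_identity {K : Type*} [Field K] (x₁ x₂ y₁ y₂ θ θ' i c c' l l' : K) (h1 : l * l' = -1)
    (h2 : c + c' = 1) (h3 : i * (θ - θ') = 1) :
    ((x₁ + x₂ * θ) + (1 - c) * ((y₁ * θ - y₂) * i)) * ((x₁ + x₂ * θ') + (1 - c') * (-(y₁ * θ' - y₂) * i)) +
      l * ((x₁ + x₂ * θ) - c * ((y₁ * θ - y₂) * i)) * (l' * ((x₁ + x₂ * θ') - c' * (-(y₁ * θ' - y₂) * i))) =
        x₁ * y₁ + x₂ * y₂ := by
  have key : ∀ V V' P P' : K, V = x₁ + x₂ * θ → V' = x₁ + x₂ * θ' → P = (y₁ * θ - y₂) * i →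
      P' = -(y₁ * θ' - y₂) * i →
      (V + (1 - c) * P) * (V' + (1 - c') * P') + l * (V - c * P) * (l' * (V' - c' * P')) =
        x₁ * y₁ + x₂ * y₂ := by
    intro V V' P P' e1 e2 e3 e4
    have e5 : V * P' + P * V' = x₁ * y₁ + x₂ * y₂ := by
      rw [e1, e2, e3, e4]
      linear_combination (x₁ * y₁ + x₂ * y₂) * h3
    linear_combination (V - c * P) * (V' - c' * P') * h1 - P * P' * h2 + e5
  exact key _ _ _ _ rfl rfl rfl rfl

theorem norm_identity (v : I6 → F) :
    fU M E v * M.σ (fU M E v) + fW M E v * M.σ (fW M E v) + fT M v * M.σ (fT M v) =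
      algebraMap F K (quadFormMinus 2 F a b v) := by
  have hQ : quadFormMinus 2 F a b v = v (.inl (.inl 0)) * v (.inl (.inr 0)) +
      v (.inl (.inl 1)) * v (.inl (.inr 1)) +
      ((v (.inr 0)) ^ 2 + a * v (.inr 0) * v (.inr 1) + b * (v (.inr 1)) ^ 2) := by
    simp [quadFormMinus, Fin.sum_univ_two]
  rw [hQ, map_add, map_add, map_mul, map_mul]
  have hT : fT M v * M.σ (fT M v) = algebraMap F K
      ((v (.inr 0)) ^ 2 + a * v (.inr 0) * v (.inr 1) + b * (v (.inr 1)) ^ 2) := by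
    rw [← M.norm_eq]
    unfold fT
    rw [map_add, map_mul, M.h1, M.h1, M.hσθ]
  rw [hT]
  have h1 := E.hl
  have h2 := E.hc
  have h3 := iδ_mul M
  have h4 := σ_iδ M
  have hV : M.σ (fV M v) = algebraMap F K (v (.inl (.inl 0))) + algebraMap F K (v (.inl (.inl 1))) * M.σ M.θ := by
    unfold fV
    rw [map_add, map_mul, M.h1, M.h1]
  have hP : M.σ (fP M v) = - (algebraMap F K (v (.inl (.inr 0))) * M.σ M.θ - algebraMap F K (v (.inl (.inr 1)))) * iδ M := by
    unfold fP
    rw [map_mul, map_sub, map_mul, M.h1, M.h1, h4]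
    ring
  have hU : M.σ (fU M E v) = M.σ (fV M v) + (1 - M.σ E.c₀) * M.σ (fP M v) := by
    unfold fU
    rw [map_add, map_mul, map_sub, map_one]
  have hW : M.σ (fW M E v) = M.σ E.l * (M.σ (fV M v) - M.σ E.c₀ * M.σ (fP M v)) := by
    unfold fW
    rw [map_mul, map_sub, map_mul]
  rw [hU, hW, hV, hP]
  unfold fU fW fV fP
  have := key_identity (algebraMap F K (v (.inl (.inl 0)))) (algebraMap F K (v (.inl (.inl 1))))
    (algebraMap F K (v (.inl (.inr 0)))) (algebraMap F K (v (.inl (.inr 1)))) M.θ (M.σ M.θ) (iδ M)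
    E.c₀ (M.σ E.c₀) E.l (M.σ E.l) h1 h2 h3
  linear_combination this

/-- An alternating matrix with three coordinates. -/
def matA (u w t : K) : Matrix (Fin 4) (Fin 4) K :=
  !![0, u, w, t;
     -u, 0, M.σ t, -M.σ w;
     -w, -M.σ t, 0, M.σ u;
     -t, M.σ w, -M.σ u, 0]

theorem matA_alt (u w t : K) : IsAlt (matA M u w t) := by
  constructor
  · intro i
    fin_cases i <;> simp [matA]
  · intro i j
    fin_cases i <;> fin_cases j <;> simp [matA]

theorem hodge_matA (u w t : K) : hodge (matA M u w t) = (matA M u w t).map M.σ := by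
  ext i j
  fin_cases i <;> fin_cases j <;> simp [matA, hodge, M.h2]

theorem Pf_matA (u w t : K) : Pf (matA M u w t) = u * M.σ u + w * M.σ w + t * M.σ t := by
  simp [Pf, matA]

theorem hodge_add (A B : Matrix (Fin 4) (Fin 4) K) : hodge (A + B) = hodge A + hodge B := by
  ext i j
  fin_cases i <;> fin_cases j <;> simp [hodge] <;> ring

theorem hodge_smul (c : F) (A : Matrix (Fin 4) (Fin 4) K) : hodge (c • A) = c • hodge A := by
  ext i j
  fin_cases i <;> fin_cases j <;> simp [hodge]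

/-- The real form of the exterior square. -/
def HV : Submodule F (Matrix (Fin 4) (Fin 4) K) where
  carrier := {A | IsAlt A ∧ hodge A = A.map M.σ}
  add_mem' := by
    rintro A B ⟨⟨h1, h2⟩, h3⟩ ⟨⟨h4, h5⟩, h6⟩
    refine ⟨⟨fun i => by rw [Matrix.add_apply, h1, h4, add_zero], fun i j => ?_⟩, ?_⟩
    · rw [Matrix.add_apply, Matrix.add_apply, h2 i j, h5 i j]
      ring
    · rw [hodge_add, h3, h6]
      ext i j
      simp
  zero_mem' := by
    refine ⟨⟨fun i => rfl, fun i j => by simp⟩, ?_⟩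
    ext i j
    fin_cases i <;> fin_cases j <;> simp [hodge]
  smul_mem' := by
    rintro c A ⟨⟨h1, h2⟩, h3⟩
    refine ⟨⟨fun i => by rw [Matrix.smul_apply, h1, smul_zero], fun i j => ?_⟩, ?_⟩
    · rw [Matrix.smul_apply, Matrix.smul_apply, h2 i j, smul_neg]
    · rw [hodge_smul, h3]
      ext i j
      rw [Matrix.smul_apply, Matrix.map_apply, Matrix.map_apply, Matrix.smul_apply, Algebra.smul_def,
        Algebra.smul_def, map_mul, M.h1]

theorem eq_matA {A : Matrix (Fin 4) (Fin 4) K} (hA : A ∈ HV M) : A = matA M (A 0 1) (A 0 2) (A 0 3) := by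
  obtain ⟨⟨h1, h2⟩, h3⟩ := hA
  have e1 := congrFun (congrFun h3 0) 1
  have e2 := congrFun (congrFun h3 0) 2
  have e3 := congrFun (congrFun h3 0) 3
  simp [hodge] at e1 e2 e3
  ext i j
  fin_cases i <;> fin_cases j <;> simp [matA, h1, h2 0 1, h2 0 2, h2 0 3, h2 1 2, h2 1 3, h2 2 3, ← e1, ← e2, ← e3]

/-- The group acting. -/
def gM : SU 4 K q →* Matrix (Fin 4) (Fin 4) K where
  toFun g := g.1.1
  map_one' := rfl
  map_mul' _ _ := rfl

theorem gM_det (g : SU 4 K q) : (gM g).det = 1 := g.1.2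

/-- The unitary relation. -/
theorem unitary_rel (g : SU 4 K q) : (gM g)ᵀ * (gM g).map M.σ = 1 := by
  have hq : q ≠ 0 := by
    have := Cfsg.Agent.Lib.UnitaryHerm.q_two_le M.hK
    omega
  ext i j
  have h := g.2 (Pi.single i 1) (Pi.single j 1)
  change hermForm 4 K q ((gM g) *ᵥ Pi.single i 1) ((gM g) *ᵥ Pi.single j 1) = _ at h
  simp only [hermForm] at h
  simp only [Matrix.mulVec_single_one] at h
  rw [Matrix.mul_apply]
  simp only [Matrix.transpose_apply, Matrix.map_apply, M.hσ, Matrix.one_apply]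
  simp only [Matrix.col_apply] at h
  rw [h]
  by_cases hij : i = j
  · subst hij
    rw [Finset.sum_eq_single i]
    · simp
    · intro b _ hb
      simp [Pi.single_apply, hb, hq]
    · simp
  · rw [if_neg hij]
    apply Finset.sum_eq_zero
    intro b _
    by_cases hb : b = i
    · subst hb
      simp [Pi.single_apply, Ne.symm hij, hq, hij]
    · simp [Pi.single_apply, hb]

theorem conj_mem (g : SU 4 K q) {A : Matrix (Fin 4) (Fin 4) K} (hA : A ∈ HV M) :
    gM g * A * (gM g)ᵀ ∈ HV M := by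
  refine ⟨alt_conj _ _ hA.1, ?_⟩
  obtain ⟨G, hG⟩ : ∃ G, G = gM g := ⟨_, rfl⟩
  rw [← hG]
  have h1 : Gᵀ * G.map M.σ = 1 := by rw [hG]; exact unitary_rel M g
  have h2 : G.map M.σ * Gᵀ = 1 := mul_eq_one_comm.1 h1
  have h3 : G * (G.map M.σ)ᵀ = 1 := by
    have := congrArg Matrix.transpose h2
    rwa [Matrix.transpose_mul, Matrix.transpose_transpose, Matrix.transpose_one] at this
  have h4 := hodge_conj hA.1 (hG ▸ gM_det g : G.det = 1)
  calc hodge (G * A * Gᵀ) = (G.map M.σ * Gᵀ) * hodge (G * A * Gᵀ) * (G * (G.map M.σ)ᵀ) := by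
        rw [h2, h3, Matrix.one_mul, Matrix.mul_one]
    _ = G.map M.σ * (Gᵀ * hodge (G * A * Gᵀ) * G) * (G.map M.σ)ᵀ := by simp only [Matrix.mul_assoc]
    _ = G.map M.σ * A.map M.σ * (G.map M.σ)ᵀ := by rw [h4, hA.2]
    _ = (G * A * Gᵀ).map M.σ := by
        rw [Matrix.map_mul, Matrix.map_mul, Matrix.transpose_map]

/-- One element on the real form. -/
def hL (g : SU 4 K q) : Module.End F (HV M) where
  toFun A := ⟨gM g * A.1 * (gM g)ᵀ, conj_mem M g A.2⟩
  map_add' A B := by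
    apply Subtype.ext
    change gM g * (A.1 + B.1) * (gM g)ᵀ = gM g * A.1 * (gM g)ᵀ + gM g * B.1 * (gM g)ᵀ
    rw [Matrix.mul_add, Matrix.add_mul]
  map_smul' c A := by
    apply Subtype.ext
    change gM g * (c • A.1) * (gM g)ᵀ = c • (gM g * A.1 * (gM g)ᵀ)
    rw [Matrix.mul_smul, Matrix.smul_mul]

/-- The action on the real form. -/
def hT6 : SU 4 K q →* Module.End F (HV M) where
  toFun g := hL M g
  map_one' := by
    apply LinearMap.ext
    intro A
    apply Subtype.ext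
    change gM 1 * A.1 * (gM 1)ᵀ = A.1
    rw [map_one, Matrix.transpose_one, Matrix.one_mul, Matrix.mul_one]
  map_mul' g g' := by
    apply LinearMap.ext
    intro A
    apply Subtype.ext
    change gM (g * g') * A.1 * (gM (g * g'))ᵀ = gM g * (gM g' * A.1 * (gM g')ᵀ) * (gM g)ᵀ
    rw [map_mul, Matrix.transpose_mul]
    simp only [Matrix.mul_assoc]

theorem hT6_val (g : SU 4 K q) (A : HV M) : (hT6 M g A).1 = gM g * A.1 * (gM g)ᵀ := rfl

theorem fU_add (x y : I6 → F) : fU M E (x + y) = fU M E x + fU M E y := by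
  simp only [fU, fV, fP, Pi.add_apply, map_add]
  ring

theorem fW_add (x y : I6 → F) : fW M E (x + y) = fW M E x + fW M E y := by
  simp only [fW, fV, fP, Pi.add_apply, map_add]
  ring

theorem fT_add (x y : I6 → F) : fT M (x + y) = fT M x + fT M y := by
  simp only [fT, Pi.add_apply, map_add]
  ring

theorem fU_smul (c : F) (x : I6 → F) : fU M E (c • x) = c • fU M E x := by
  simp only [fU, fV, fP, Pi.smul_apply, smul_eq_mul, map_mul, Algebra.smul_def]
  ring

theorem fW_smul (c : F) (x : I6 → F) : fW M E (c • x) = c • fW M E x := by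
  simp only [fW, fV, fP, Pi.smul_apply, smul_eq_mul, map_mul, Algebra.smul_def]
  ring

theorem fT_smul (c : F) (x : I6 → F) : fT M (c • x) = c • fT M x := by
  simp only [fT, Pi.smul_apply, smul_eq_mul, map_mul, Algebra.smul_def]
  ring

/-- The coordinate map. -/
noncomputable def mat6 : (I6 → F) →ₗ[F] Matrix (Fin 4) (Fin 4) K where
  toFun v := matA M (fU M E v) (fW M E v) (fT M v)
  map_add' x y := by
    rw [fU_add, fW_add, fT_add]
    ext i j
    fin_cases i <;> fin_cases j <;> simp [matA] <;> ring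
  map_smul' c x := by
    rw [fU_smul, fW_smul, fT_smul]
    ext i j
    fin_cases i <;> fin_cases j <;> simp [matA, Algebra.smul_def, M.h1]

theorem mat6_mem (v : I6 → F) : mat6 M E v ∈ HV M := ⟨matA_alt M _ _ _, hodge_matA M _ _ _⟩

theorem l_ne_zero : E.l ≠ 0 := by
  intro h
  have := E.hl
  rw [h, zero_mul] at this
  have h2 : (1 : K) = 0 := by linear_combination this
  exact one_ne_zero h2

theorem iδ_ne_zero : iδ M ≠ 0 := inv_ne_zero (hδ M)

/-- The coordinates on the real form. -/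
noncomputable def eH : (I6 → F) ≃ₗ[F] HV M :=
  LinearEquiv.ofBijective ((mat6 M E).codRestrict (HV M) (mat6_mem M E)) (by
    constructor
    · rw [injective_iff_map_eq_zero]
      intro v hv
      have h0 : mat6 M E v = 0 := congrArg Subtype.val hv
      have e1 : fU M E v = 0 := congrFun (congrFun h0 0) 1
      have e2 : fW M E v = 0 := congrFun (congrFun h0 0) 2
      have e3 : fT M v = 0 := congrFun (congrFun h0 0) 3
      have h3 := M.hind _ _ e3
      have e4 : fV M v - E.c₀ * fP M v = 0 := (mul_eq_zero.1 e2).resolve_left (l_ne_zero M E)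
      have e5 : fP M v = 0 := by
        unfold fU at e1
        linear_combination e1 - e4
      have e6 : fV M v = 0 := by
        rw [e5] at e4
        linear_combination e4
      have h4 := M.hind _ _ e6
      have e7 := (mul_eq_zero.1 e5).resolve_right (iδ_ne_zero M)
      have h5 := M.hind (-(v (.inl (.inr 1)))) (v (.inl (.inr 0))) (by
        rw [map_neg]
        linear_combination e7)
      funext i
      rcases i with (i | i) | i
      · fin_cases i
        · exact h4.1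
        · exact h4.2
      · fin_cases i
        · exact h5.2
        · exact neg_eq_zero.1 h5.1
      · fin_cases i
        · exact h3.1
        · exact h3.2
    · rintro ⟨A, hA⟩
      have h1 := eq_matA M hA
      obtain ⟨u, hu⟩ : ∃ u, u = A 0 1 := ⟨_, rfl⟩
      obtain ⟨w, hw⟩ : ∃ u, u = A 0 2 := ⟨_, rfl⟩
      obtain ⟨t, ht⟩ : ∃ u, u = A 0 3 := ⟨_, rfl⟩
      rw [← hu, ← hw, ← ht] at h1
      have hl := l_ne_zero M E
      obtain ⟨w', hw'⟩ : ∃ x, x = E.l⁻¹ * w := ⟨_, rfl⟩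
      obtain ⟨P, hP⟩ : ∃ x, x = u - w' := ⟨_, rfl⟩
      obtain ⟨c₁, d₁, h2⟩ := M.hψ (w' + E.c₀ * P)
      obtain ⟨c₂, d₂, h3⟩ := M.hψ (P * (M.θ - M.σ M.θ))
      obtain ⟨c₃, d₃, h4⟩ := M.hψ t
      refine ⟨Sum.elim (Sum.elim ![c₁, d₁] ![d₂, -c₂]) ![c₃, d₃], ?_⟩
      apply Subtype.ext
      change matA M _ _ _ = A
      have hV : fV M (Sum.elim (Sum.elim ![c₁, d₁] ![d₂, -c₂]) ![c₃, d₃]) = w' + E.c₀ * P := by
        rw [h2]
        rfl
      have hP' : fP M (Sum.elim (Sum.elim ![c₁, d₁] ![d₂, -c₂]) ![c₃, d₃]) = P := by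
        have e1 : fP M (Sum.elim (Sum.elim ![c₁, d₁] ![d₂, -c₂]) ![c₃, d₃]) =
            (algebraMap F K d₂ * M.θ - algebraMap F K (-c₂)) * iδ M := rfl
        rw [e1, map_neg]
        have hi := iδ_mul M
        linear_combination P * hi - iδ M * h3
      have hT : fT M (Sum.elim (Sum.elim ![c₁, d₁] ![d₂, -c₂]) ![c₃, d₃]) = t := by
        rw [h4]
        rfl
      have hU : fU M E (Sum.elim (Sum.elim ![c₁, d₁] ![d₂, -c₂]) ![c₃, d₃]) = u := by
        unfold fU
        rw [hV, hP', hP]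
        ring
      have hW : fW M E (Sum.elim (Sum.elim ![c₁, d₁] ![d₂, -c₂]) ![c₃, d₃]) = w := by
        unfold fW
        rw [hV, hP', hw']
        field_simp
        ring
      rw [hU, hW, hT, ← h1])

theorem eH_val (v : I6 → F) : (eH M E v).1 = mat6 M E v := rfl

/-- The representation in coordinates. -/
noncomputable def rep : SU 4 K q →* Module.End F (I6 → F) :=
  repOf (eH M E : (I6 → F) →ₗ[F] HV M) ((eH M E).symm : HV M →ₗ[F] (I6 → F))
    (hT6 M) (fun v => by simp) (fun g v => by simp)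

theorem mat_rep (g : SU 4 K q) (v : I6 → F) :
    mat6 M E (rep M E g v) = gM g * mat6 M E v * (gM g)ᵀ := by
  rw [← eH_val]
  have h3 : eH M E (rep M E g v) = hT6 M g (eH M E v) := by
    change eH M E ((eH M E).symm _) = _
    simp
  rw [h3, hT6_val, eH_val]

theorem Pf_mat6 (v : I6 → F) : Pf (mat6 M E v) = algebraMap F K (quadFormMinus 2 F a b v) := by
  rw [← norm_identity M E]
  exact Pf_matA M _ _ _

theorem rep_isom (g : SU 4 K q) (v : I6 → F) :
    quadFormMinus 2 F a b (rep M E g v) = quadFormMinus 2 F a b v := by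
  apply (algebraMap F K).injective
  rw [← Pf_mat6 M E, ← Pf_mat6 M E, mat_rep, Pf_conj _ _ (mat6_mem M E v).1, gM_det, one_mul]

/-- The representation in the isometry group. -/
noncomputable def rho : SU 4 K q →* isometryGroup F (quadFormMinus 2 F a b) :=
  repIsom (rep M E) (rep_isom M E)

theorem ker_scalar (g : SU 4 K q) (hg : g ∈ (rho M E).ker) :
    ∃ d : K, d * d = 1 ∧ gM g = d • (1 : Matrix (Fin 4) (Fin 4) K) := by
  rw [rho, mem_ker_repIsom] at hg
  obtain ⟨G, hG⟩ : ∃ G, G = gM g := ⟨_, rfl⟩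
  rw [← hG]
  have key : ∀ A : Matrix (Fin 4) (Fin 4) K, A ∈ HV M → G * A * Gᵀ = A := by
    intro A hA
    have h3 := mat_rep M E g ((eH M E).symm ⟨A, hA⟩)
    rw [hg, ← eH_val] at h3
    simp only [LinearEquiv.apply_symm_apply] at h3
    rw [hG]
    exact h3.symm
  have hmat : ∀ u w t : K, G * matA M u w t * Gᵀ = matA M u w t := fun u w t =>
    key _ ⟨matA_alt M _ _ _, hodge_matA M _ _ _⟩
  have hsmul : ∀ (c : K) (A : Matrix (Fin 4) (Fin 4) K), G * A * Gᵀ = A → G * (c • A) * Gᵀ = c • A := by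
    intro c A h
    rw [Matrix.mul_smul, Matrix.smul_mul, h]
  have hadd : ∀ A B : Matrix (Fin 4) (Fin 4) K, G * A * Gᵀ = A → G * B * Gᵀ = B → G * (A + B) * Gᵀ = A + B := by
    intro A B h1 h2
    rw [Matrix.mul_add, Matrix.add_mul, h1, h2]
  apply scalar_of_fix
  intro B hB
  have hi := iδ_mul M
  obtain ⟨h0, hs⟩ := hB
  obtain ⟨θ, hθ⟩ : ∃ x, x = M.θ := ⟨_, rfl⟩
  have hσθ : M.σ θ = M.σ M.θ := by rw [hθ]
  have hdec : B = ((B 0 1 - (B 0 1 - B 2 3) * iδ M * M.θ) • matA M 1 0 0 + ((B 0 1 - B 2 3) * iδ M) • matA M M.θ 0 0) +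
      ((B 0 2 - (B 0 2 + B 1 3) * iδ M * M.θ) • matA M 0 1 0 + ((B 0 2 + B 1 3) * iδ M) • matA M 0 M.θ 0) +
      ((B 0 3 - (B 0 3 - B 1 2) * iδ M * M.θ) • matA M 0 0 1 + ((B 0 3 - B 1 2) * iδ M) • matA M 0 0 M.θ) := by
    ext i j
    fin_cases i <;> fin_cases j
    · simp [matA, h0]
    · simp [matA]
    · simp [matA]
    · simp [matA]
    · simp [matA, hs 0 1]
      ring
    · simp [matA, h0]
    · simp [matA]
      linear_combination ((B 0 3 - B 1 2)) * hi
    · simp [matA]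
      linear_combination (-(B 0 2 + B 1 3)) * hi
    · simp [matA, hs 0 2]
      ring
    · simp [matA, hs 1 2]
      linear_combination (-(B 0 3 - B 1 2)) * hi
    · simp [matA, h0]
    · simp [matA]
      linear_combination ((B 0 1 - B 2 3)) * hi
    · simp [matA, hs 0 3]
      ring
    · simp [matA, hs 1 3]
      linear_combination ((B 0 2 + B 1 3)) * hi
    · simp [matA, hs 2 3]
      linear_combination (-(B 0 1 - B 2 3)) * hi
    · simp [matA, h0]
  rw [hdec]
  refine hadd _ _ (hadd _ _ (hadd _ _ (hsmul _ _ (hmat _ _ _)) (hsmul _ _ (hmat _ _ _)))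
    (hadd _ _ (hsmul _ _ (hmat _ _ _)) (hsmul _ _ (hmat _ _ _))))
    (hadd _ _ (hsmul _ _ (hmat _ _ _)) (hsmul _ _ (hmat _ _ _)))

end Model

open Cfsg.Agent.Lib.UnitaryHerm Cfsg.Agent.Lib.UnitaryGen Cfsg.Agent.Lib.Unitary3 Cfsg.Agent.Lib.SUSimple in
/-- `SU₄(q)` is perfect. -/
theorem perfect_SU4 {K : Type*} [Field K] [Fintype K] {q : ℕ} (hK : Fintype.card K = q ^ 2) :
    commutator (SU 4 K q) = ⊤ := by
  classical
  obtain ⟨σ, hσ⟩ := exists_sigma hK
  have hf : IsUnitaryForm σ (hermForm 4 K q) := hermForm_isUnitary hK hσ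
  have hN := norm_surjective hK hσ
  have hcard : 4 ≤ Fintype.card (Fin 4) := by simp
  have hgen : ∀ A : SU 4 K q, suHom 4 q K A ∈ uG hf ⊤ := fun A ↦
    isom_mem_uG hf hN hcard (suHom_isIsom A) (suHom_det A)
  exact perfect hf hgen (fun v c hv hvv hc ↦ tt_commutator4 hf hN hcard hv hvv hc)

/-- The order of `SU₄(q)`. -/
theorem card_SU4 {K : Type*} [Field K] [Fintype K] {q : ℕ} (hK : Fintype.card K = q ^ 2) :
    Nat.card (SU 4 K q) = q ^ 6 * (q ^ 2 - 1) * (q ^ 3 + 1) * (q ^ 4 - 1) := by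
  have h := Cfsg.Agent.S0278.result hK 4 (by norm_num)
  have h1 : (q + 1) * Nat.card (SU 4 K q) = (q + 1) * (q ^ 6 * (q ^ 2 - 1) * (q ^ 3 + 1) * (q ^ 4 - 1)) := by
    rw [h]
    have e3 : ¬ Even 3 := by decide
    have e1 : ¬ Even 1 := by decide
    have e2 : Even 2 := by decide
    simp [Finset.prod_range_succ, e1, e2, e3]
    ring
  exact Nat.eq_of_mul_eq_mul_left (by omega) h1

/-- `PΩ⁻₆(q) ≅ PSU₄(q)`. -/
theorem main {F K : Type*} [Field F] [Fintype F] [Field K] [Fintype K] {q : ℕ}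
    (hF : Fintype.card F = q) (hK : Fintype.card K = q ^ 2) (a b : F)
    (hab : ∀ z₁ z₂ : F, z₁ ^ 2 + a * z₁ * z₂ + b * z₂ ^ 2 = 0 → z₁ = 0 ∧ z₂ = 0) :
    Nonempty (POmega F (quadFormMinus 2 F a b) ≃* PSU 4 K q) := by
  classical
  obtain ⟨alg, ⟨M⟩⟩ := exists_model hF hK a b hab
  obtain ⟨E⟩ := exists_extra M
  have hQ : IsNondegenerateQuadraticForm (quadFormMinus 2 F a b) :=
    Cfsg.Agent.Lib.OrthMinus.minus_nondeg 2 a b hab
  have hn : 2 ≤ Fintype.card ((Fin 2 ⊕ Fin 2) ⊕ Fin 2) := by simp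
  have hperf := perfect_SU4 hK
  have : IsSimpleGroup (PSU 4 K q) := Cfsg.Agent.Lib.SUSimple.isSimple_PSU hK (by norm_num) (by simp)
  have hP : Subgroup.center (PSU 4 K q) = ⊥ :=
    center_eq_bot_of_simple (commutator_top_of_surjective (QuotientGroup.mk' _) (QuotientGroup.mk'_surjective _) hperf)
  let π : SU 4 K q →* PSU 4 K q := QuotientGroup.mk' _
  have hπ : Function.Surjective π := QuotientGroup.mk'_surjective _
  have hπk : π.ker = Subgroup.center (SU 4 K q) := QuotientGroup.ker_mk' _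
  have h1 : (rho M E).ker ≤ π.ker := by
    rw [hπk]
    intro g hg
    obtain ⟨d, hd, h⟩ := ker_scalar M E g hg
    rw [Subgroup.mem_center_iff]
    intro x
    apply Subtype.ext
    apply Subtype.ext
    change gM x * gM g = gM g * gM x
    rw [h]
    simp
  have h2 : π.ker ≤ Subgroup.center (SU 4 K q) := hπk.le
  have hle := range_le_of_perfect (rho M E) hperf
  have hkc := card_ker_le (rho M E).ker (fun g : SU 4 K q => gM g)
    (fun x y h => Subtype.ext (Subtype.ext h)) (fun g hg => ker_scalar M E g hg)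
  have hO : Nat.card (isometryGroup F (quadFormMinus 2 F a b)) = _ :=
    Cfsg.Agent.Lib.OrthMinus.card_minus hF 3 (by norm_num) a b hab
  have hS := card_SU4 hK
  have hOS : Nat.card (isometryGroup F (quadFormMinus 2 F a b)) = 2 * Nat.card (SU 4 K q) := by
    rw [hO, hS]
    norm_num [Finset.prod_range_succ]
    ring
  refine pomega_equiv (rho M E) π hπ hP h1 h2 ?_
  by_cases h20 : (2 : F) = 0
  · have h20K : (2 : K) = 0 := by
      have := congrArg (algebraMap F K) h20
      rwa [map_ofNat, map_zero] at this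
    rw [card_one_of_squares h20K] at hkc
    refine range_eq_of_card _ hle (index_char2 hQ (by omega) h20 (Or.inr (by simp))) (by norm_num) ?_
    rw [hOS]
    calc 2 * Nat.card (SU 4 K q) * Nat.card (rho M E).ker ≤ 2 * Nat.card (SU 4 K q) * 1 :=
          Nat.mul_le_mul_left _ hkc
      _ = 2 * Nat.card (SU 4 K q) := by ring
  · have h20K : (2 : K) ≠ 0 := by
      intro h
      apply h20
      apply (algebraMap F K).injective
      rwa [map_ofNat, map_zero]
    rw [card_two_of_squares h20K] at hkc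
    refine range_eq_of_card _ hle (Cfsg.Agent.Lib.Spinor.omega_index hQ h20 hn) (by norm_num) ?_
    rw [hOS]
    calc 2 * Nat.card (SU 4 K q) * Nat.card (rho M E).ker ≤ 2 * Nat.card (SU 4 K q) * 2 :=
          Nat.mul_le_mul_left _ hkc
      _ = 4 * Nat.card (SU 4 K q) := by ring

end Cfsg.Agent.Lib.OmegaMinus6
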