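import Cfsg.Agent.Lib.OmegaSimple
import Cfsg.Agent.Lib.Dickson
import Cfsg.Agent.Lib.OrthMinus

/-! The centre of `Ω(Q)` and the orders of the simple orthogonal groups. -/

set_option autoImplicit false
set_option linter.unusedSectionVars false
set_option linter.unusedVariables false

namespace Cfsg.Agent.Lib.OmegaOrder

open Cfsg Cfsg.Geo
open Cfsg.Agent.Lib.Transvection Cfsg.Agent.Lib.LinAlgAux Cfsg.Agent.Lib.QuadBase Cfsg.Agent.Lib.QuadSiegel
open Cfsg.Agent.Lib.OmegaSimple
open QuadraticMap (polar)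
open scoped Matrix MatrixGroups

variable {ι : Type} [Fintype ι] [DecidableEq ι] {F : Type*} [Field F] [Fintype F] {Q : (ι → F) → F}
  (hQ : IsNondegenerateQuadraticForm Q)

include hQ

/-- Central elements preserve singular points. -/
theorem central_eigen (hn : 7 ≤ Fintype.card ι) {A : Omega F Q} (hA : A ∈ Subgroup.center (Omega F Q))
    {a : ι → F} (ha0 : a ≠ 0) (ha : Q a = 0) :
    ∃ l : F, (toGL Q A : Matrix ι ι F) *ᵥ a = l • a := by
  classical
  have step : ∀ b b' : ι → F, Q b = 0 → polar Q b' b = 1 → polar Q b a = 0 → polar Q b' a = 0 →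
      ∃ r s : F, (toGL Q A : Matrix ι ι F) *ᵥ a = r • a + s • b := by
    intro b b' hb hbb' h1 h2
    have hab : polar Q a b = 0 := by rw [QuadraticMap.polar_comm]; exact h1
    obtain ⟨S, hS⟩ := exists_toGL_eq (sg_mem_omega hQ hn ha hab)
    have hcomm := Subgroup.mem_center_iff.1 hA S
    have h3 : toGL Q S * toGL Q A = toGL Q A * toGL Q S := by
      rw [← map_mul, ← map_mul, hcomm]
    have h4 := congrArg (fun g : GL ι F => (g : Matrix ι ι F) *ᵥ b') h3
    simp only [gl_mul_mulVec] at h4
    rw [hS, sg_mulVec hQ ha hab, sg_mulVec hQ ha hab, h2, hbb', hb] at h4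
    simp only [one_smul, zero_smul, zero_mul, add_zero, Matrix.mulVec_sub, sub_zero] at h4
    set y := (toGL Q A : Matrix ι ι F) *ᵥ b' with hy
    refine ⟨polar Q y b, -polar Q y a, ?_⟩
    have h5 : y + polar Q y a • b - polar Q y b • a = y - (toGL Q A : Matrix ι ι F) *ᵥ a := h4
    rw [neg_smul]
    have h6 : (toGL Q A : Matrix ι ι F) *ᵥ a = y - (y + polar Q y a • b - polar Q y b • a) := by
      rw [h5]
      abel
    rw [h6]
    abel
  obtain ⟨b, b', hb, hb', hbb', hl⟩ := exists_hyp hQ [a] (by simp; omega)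
  obtain ⟨c, c', hc, hc', hcc', hl2⟩ := exists_hyp hQ [a, b] (by simp; omega)
  obtain ⟨r, s, h1⟩ := step b b' hb hbb' (hl a (by simp)).1 (hl a (by simp)).2
  obtain ⟨r', s', h2⟩ := step c c' hc hcc' (hl2 a (by simp)).1 (hl2 a (by simp)).2
  have h3 : polar Q c' ((toGL Q A : Matrix ι ι F) *ᵥ a) = 0 := by
    rw [h1, pol_add_right hQ, pol_smul_right hQ, pol_smul_right hQ, (hl2 a (by simp)).2,
      (hl2 b (by simp)).2]
    ring
  rw [h2, pol_add_right hQ, pol_smul_right hQ, pol_smul_right hQ, (hl2 a (by simp)).2, hcc'] at h3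
  have h4 : s' = 0 := by linear_combination h3
  refine ⟨r', ?_⟩
  rw [h2, h4, zero_smul, add_zero]

/-- The centre of `Ω` consists of `±1`. -/
theorem mem_center_iff (hn : 7 ≤ Fintype.card ι) (A : Omega F Q) :
    A ∈ Subgroup.center (Omega F Q) ↔ toGL Q A = 1 ∨ toGL Q A = -1 := by
  classical
  constructor
  · intro hA
    obtain ⟨l, hl⟩ := scalar_of_eigen hQ hn (toGL Q A : Matrix ι ι F)
      (fun v hv hvv => central_eigen hQ hn hA hv hvv)
    obtain ⟨h, h', hh, hh', hh'h, -⟩ := exists_hyp hQ ([] : List (ι → F)) (by simp; omega)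
    have h1 : Q (h + h') = 1 := by
      rw [Q_add (Q := Q), hh, hh', QuadraticMap.polar_comm, hh'h]
      ring
    have h2 := toGL_isom A (h + h')
    rw [hl, hQ.smul, h1, mul_one] at h2
    rcases mul_self_eq_one_iff.1 (by rw [← pow_two]; exact h2 : l * l = 1) with h3 | h3
    · left
      apply gl_ext_mulVec
      intro x
      rw [hl, h3]
      simp
    · right
      apply gl_ext_mulVec
      intro x
      rw [hl, h3, Units.val_neg, Units.val_one, Matrix.neg_mulVec, Matrix.one_mulVec]
      simp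
  · intro h
    rw [Subgroup.mem_center_iff]
    intro g
    apply toGL_inj (Q := Q)
    rw [map_mul, map_mul]
    rcases h with h | h
    · rw [h]
      group
    · rw [h]
      simp

/-- The group `PΩ` has order `|Ω|/|Z(Ω)|`. -/
theorem card_split : Nat.card (Omega F Q) = Nat.card (POmega F Q) * Nat.card (Subgroup.center (Omega F Q)) :=
  Subgroup.card_eq_card_quotient_mul_card_subgroup _

/-- No `-1` in `Ω`: the centre is trivial. -/
theorem card_center_one (hn : 7 ≤ Fintype.card ι) (h : ∀ A : Omega F Q, toGL Q A = -1 → toGL Q A = 1) :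
    Nat.card (Subgroup.center (Omega F Q)) = 1 := by
  rw [Nat.card_eq_one_iff_unique]
  refine ⟨⟨?_⟩, ⟨1⟩⟩
  rintro ⟨A, hA⟩ ⟨B, hB⟩
  have key : ∀ A : Omega F Q, A ∈ Subgroup.center (Omega F Q) → A = 1 := by
    intro A hA
    apply toGL_inj (Q := Q)
    rw [map_one]
    rcases (mem_center_iff hQ hn A).1 hA with h1 | h1
    · exact h1
    · exact h _ h1
  apply Subtype.ext
  change A = B
  rw [key A hA, key B hB]

/-- `-1` in `Ω` in odd characteristic: the centre has order two. -/
theorem card_center_two (hn : 7 ≤ Fintype.card ι) (h2 : (2 : F) ≠ 0) {A₀ : Omega F Q} (hA₀ : toGL Q A₀ = -1) :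
    Nat.card (Subgroup.center (Omega F Q)) = 2 := by
  classical
  have hne : (1 : GL ι F) ≠ -1 := by
    intro h
    have h1 := congrArg (fun g : GL ι F => (g : Matrix ι ι F) *ᵥ (1 : ι → F)) h
    have : Nonempty ι := by
      apply Fintype.card_pos_iff.1
      omega
    obtain ⟨i⟩ := this
    have h3 := congrFun h1 i
    simp [Matrix.neg_mulVec] at h3
    apply h2
    linear_combination h3
  have hA₀c : A₀ ∈ Subgroup.center (Omega F Q) := (mem_center_iff hQ hn A₀).2 (Or.inr hA₀)
  rw [Nat.card_eq_two_iff]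
  refine ⟨1, ⟨A₀, hA₀c⟩, ?_, ?_⟩
  · intro h
    have h3 : (1 : Omega F Q) = A₀ := congrArg Subtype.val h
    rw [← h3, map_one] at hA₀
    exact hne hA₀
  · ext ⟨A, hA⟩
    simp only [Set.mem_insert_iff, Set.mem_singleton_iff, Set.mem_univ, iff_true]
    rcases (mem_center_iff hQ hn A).1 hA with h1 | h1
    · left
      apply Subtype.ext
      apply toGL_inj (Q := Q)
      rw [h1]
      exact (map_one _).symm
    · right
      apply Subtype.ext
      apply toGL_inj (Q := Q)
      change toGL Q A = toGL Q A₀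
      rw [h1, hA₀]

/-- The order of `Ω` from the order of the isometry group. -/
theorem card_omega_mul {k : ℕ} (hk : (commutator (isometryGroup F Q)).index = k) :
    Nat.card (Omega F Q) * k = Nat.card (isometryGroup F Q) := by
  rw [← hk]
  exact Subgroup.card_mul_index _

theorem card_center_of_mem (hn : 7 ≤ Fintype.card ι) (h2 : (2 : F) ≠ 0)
    (h : ∃ g : isometryGroup F Q, g ∈ commutator (isometryGroup F Q) ∧
      ((g : GL ι F) : Matrix ι ι F) = -1) :
    Nat.card (Subgroup.center (Omega F Q)) = 2 := by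
  obtain ⟨g, hg, h3⟩ := h
  refine card_center_two hQ hn h2 (A₀ := ⟨g, hg⟩) ?_
  apply Units.ext
  rw [Units.val_neg, Units.val_one, ← h3]
  rfl

theorem card_center_of_not_mem (hn : 7 ≤ Fintype.card ι)
    (h : ¬ ∃ g : isometryGroup F Q, g ∈ commutator (isometryGroup F Q) ∧
      ((g : GL ι F) : Matrix ι ι F) = -1) :
    Nat.card (Subgroup.center (Omega F Q)) = 1 := by
  refine card_center_one hQ hn (fun A hA => ?_)
  exfalso
  apply h
  refine ⟨A.1, A.2, ?_⟩
  have : ((toGL Q A : GL ι F) : Matrix ι ι F) = -1 := by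
    rw [hA, Units.val_neg, Units.val_one]
  exact this

theorem card_center_char2 (hn : 7 ≤ Fintype.card ι) (h2 : (2 : F) = 0) :
    Nat.card (Subgroup.center (Omega F Q)) = 1 := by
  refine card_center_one hQ hn (fun A hA => ?_)
  rw [hA]
  apply Units.ext
  rw [Units.val_neg, Units.val_one]
  ext i j
  have h3 : (-1 : F) = 1 := by linear_combination -h2
  simp [Matrix.one_apply]
  split_ifs
  · exact h3
  · exact neg_zero

/-- The index of `Ω` in characteristic two. -/
theorem index_char2 (hn : 7 ≤ Fintype.card ι) (h2 : (2 : F) = 0) :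
    (commutator (isometryGroup F Q)).index = 2 := by
  classical
  haveI : CharP F 2 := CharTwo.of_one_ne_zero_of_two_eq_zero one_ne_zero h2
  have h : (QuadraticMap.polarBilin (OrthChain.toQF hQ)).Nondegenerate := by
    constructor
    · intro x hx
      by_contra hne
      obtain ⟨y, hy⟩ := (hQ.nondegenerate x hne).2
      exact hy (hx y)
    · intro x hx
      by_contra hne
      obtain ⟨y, hy⟩ := (hQ.nondegenerate x hne).1
      exact hy (hx y)
  exact Cfsg.Agent.Lib.Dickson.comm_index2 (OrthChain.toQF hQ) h (by omega) (Or.inr (by omega))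

omit hQ in
theorem two_eq_zero_of_not_odd {q : ℕ} (hF : Fintype.card F = q) (hodd : ¬ Odd q) : (2 : F) = 0 := by
  have h1 : ringChar F = 2 := FiniteField.even_card_iff_char_two.2 (by
    rw [hF]
    exact Nat.not_odd_iff.1 hodd)
  have h3 := ringChar.Nat.cast_ringChar (R := F)
  rw [h1] at h3
  exact_mod_cast h3

omit hQ in
theorem gcd_four_left {N : ℕ} (h : 4 ∣ N) : Nat.gcd 4 N = 4 := Nat.gcd_eq_left h

omit hQ in
theorem gcd_four_two {N : ℕ} (h : N % 4 = 2) : Nat.gcd 4 N = 2 := by
  rw [Nat.gcd_rec, h]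
  rfl

omit hQ in
theorem gcd_four_one {N : ℕ} (h : N % 2 = 1) : Nat.gcd 4 N = 1 := by
  rw [Nat.gcd_rec]
  have : N % 4 = 1 ∨ N % 4 = 3 := by omega
  rcases this with h1 | h1 <;> rw [h1] <;> rfl

end Cfsg.Agent.Lib.OmegaOrder
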