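import Cfsg.Agent.Lib.QuadSiegel

/-! Simplicity of `PΩ(Q)` for a nondegenerate quadratic form in dimension at least seven over a
finite field: the Iwasawa criterion for the action on singular points. -/

set_option autoImplicit false
set_option linter.unusedSectionVars false
set_option linter.unusedVariables false

namespace Cfsg.Agent.Lib.OmegaSimple

open Cfsg Cfsg.Geo
open Cfsg.Agent.Lib.Transvection Cfsg.Agent.Lib.LinAlgAux Cfsg.Agent.Lib.QuadBase Cfsg.Agent.Lib.QuadSiegel
open QuadraticMap (polar)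
open scoped Matrix MatrixGroups LinearAlgebra.Projectivization Pointwise commutatorElement

variable {ι : Type} [Fintype ι] [DecidableEq ι] {F : Type*} [Field F] {Q : (ι → F) → F}

/-- The inclusion of `Ω` in `GL`. -/
def toGL (Q : (ι → F) → F) : Omega F Q →* GL ι F :=
  (isometryGroup F Q).subtype.comp (Omega F Q).subtype

theorem toGL_inj : Function.Injective (toGL Q) :=
  (Subtype.val_injective).comp (Subtype.val_injective)

theorem toGL_range : (toGL Q).range = omegaGL Q := by
  unfold toGL omegaGL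
  rw [MonoidHom.range_comp, Subgroup.range_subtype]

theorem toGL_mem (A : Omega F Q) : toGL Q A ∈ omegaGL Q := by
  rw [← toGL_range]
  exact ⟨A, rfl⟩

theorem exists_toGL_eq {g : GL ι F} (hg : g ∈ omegaGL Q) : ∃ A, toGL Q A = g := by
  rw [← toGL_range] at hg
  exact hg

theorem toGL_isom (A : Omega F Q) : QIsom Q (toGL Q A) :=
  mem_isometryGroup_iff.1 (A : isometryGroup F Q).2

theorem smul_def' (g : GL ι F) (v : ι → F) : g • v = (g : Matrix ι ι F) *ᵥ v := rfl

theorem gl_ne_zero (g : GL ι F) {v : ι → F} (hv : v ≠ 0) : (g : Matrix ι ι F) *ᵥ v ≠ 0 := by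
  intro h
  apply hv
  have h1 := gl_inv_mulVec_mulVec g v
  rw [h, Matrix.mulVec_zero] at h1
  exact h1.symm

/-- Singular points. -/
def IsSP (Q : (ι → F) → F) (p : ℙ F (ι → F)) : Prop :=
  ∃ (v : ι → F) (hv : v ≠ 0), p = Projectivization.mk F v hv ∧ Q v = 0

/-- The singular points. -/
def Pts (Q : (ι → F) → F) : Type _ := {p : ℙ F (ι → F) // IsSP Q p}

/-- The point of a singular vector. -/
def mkP {v : ι → F} (hv : v ≠ 0) (hvv : Q v = 0) : Pts Q :=
  ⟨Projectivization.mk F v hv, v, hv, rfl, hvv⟩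

/-- The action on singular points. -/
noncomputable instance ptsAct : MulAction (Omega F Q) (Pts Q) where
  smul A x := ⟨toGL Q A • x.1, by
    obtain ⟨v, hv, hp, hvv⟩ := x.2
    refine ⟨toGL Q A • v, gl_ne_zero _ hv, ?_, ?_⟩
    · rw [hp, Projectivization.smul_mk]
    · rw [smul_def', toGL_isom A v]
      exact hvv⟩
  one_smul x := by
    apply Subtype.ext
    change toGL Q 1 • x.1 = x.1
    rw [map_one, one_smul]
  mul_smul A B x := by
    apply Subtype.ext
    change toGL Q (A * B) • x.1 = toGL Q A • toGL Q B • x.1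
    rw [map_mul, mul_smul]

theorem smul_mkP (A : Omega F Q) {v : ι → F} (hv : v ≠ 0) (hvv : Q v = 0) :
    A • (mkP hv hvv : Pts Q) = mkP (gl_ne_zero (toGL Q A) hv) (by rw [toGL_isom A v]; exact hvv) := by
  apply Subtype.ext
  change toGL Q A • Projectivization.mk F v hv = _
  rw [Projectivization.smul_mk]
  rfl

theorem mkP_eq_iff {v w : ι → F} (hv : v ≠ 0) (hvv : Q v = 0) (hw : w ≠ 0) (hww : Q w = 0) :
    (mkP hv hvv : Pts Q) = mkP hw hww ↔ ∃ l : F, v = l • w := by
  constructor
  · intro h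
    have h1 := congrArg Subtype.val h
    change Projectivization.mk F _ _ = Projectivization.mk F _ _ at h1
    rw [Projectivization.mk_eq_mk_iff'] at h1
    obtain ⟨a, ha⟩ := h1
    exact ⟨a, ha.symm⟩
  · rintro ⟨l, hl⟩
    apply Subtype.ext
    change Projectivization.mk F _ _ = Projectivization.mk F _ _
    rw [Projectivization.mk_eq_mk_iff']
    exact ⟨l, hl.symm⟩

theorem smul_mkP_eq_iff (A : Omega F Q) {v : ι → F} (hv : v ≠ 0) (hvv : Q v = 0) :
    A • (mkP hv hvv : Pts Q) = mkP hv hvv ↔ ∃ l : F, (toGL Q A : Matrix ι ι F) *ᵥ v = l • v := by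
  rw [smul_mkP, mkP_eq_iff]

theorem pt_rep (x : Pts Q) : ∃ (v : ι → F) (hv : v ≠ 0) (hvv : Q v = 0), x = mkP hv hvv := by
  obtain ⟨v, hv, hp, hvv⟩ := x.2
  exact ⟨v, hv, hvv, Subtype.ext hp⟩

section Root

variable (hQ : IsNondegenerateQuadraticForm Q)
include hQ

/-- The representative of a singular point is singular. -/
theorem rep_sing (x : Pts Q) : Q x.1.rep = 0 := by
  obtain ⟨v, hv, hp, hvv⟩ := x.2
  rw [hp]
  obtain ⟨a, ha⟩ := Projectivization.exists_smul_eq_mk_rep F v hv
  rw [← ha, Units.smul_def, hQ.smul, hvv, mul_zero]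

/-- The root group of a singular point. -/
noncomputable def rootT (x : Pts Q) : Subgroup (Omega F Q) where
  carrier := {A | ∃ b, polar Q x.1.rep b = 0 ∧ toGL Q A = sg hQ x.1.rep b}
  mul_mem' := by
    rintro A B ⟨c, hc, hA⟩ ⟨d, hd, hB⟩
    refine ⟨c + d, ?_, ?_⟩
    · rw [pol_add_right hQ, hc, hd, add_zero]
    · rw [map_mul, hA, hB, sg_add hQ (rep_sing hQ x) hc hd]
  one_mem' := ⟨0, pol_zero_right hQ _, by rw [map_one, sg_zero_right hQ (rep_sing hQ x)]⟩
  inv_mem' := by
    rintro A ⟨c, hc, hA⟩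
    refine ⟨-c, ?_, ?_⟩
    · rw [pol_neg_right hQ, hc, neg_zero]
    · rw [map_inv, hA, sg_neg hQ (rep_sing hQ x) hc]

theorem mem_rootT_mkP {v : ι → F} (hv : v ≠ 0) (hvv : Q v = 0) (A : Omega F Q) :
    A ∈ rootT hQ (mkP hv hvv) ↔ ∃ b, polar Q v b = 0 ∧ toGL Q A = sg hQ v b := by
  obtain ⟨a, ha⟩ := Projectivization.exists_smul_eq_mk_rep F v hv
  have ha0 : (a : F) ≠ 0 := a.ne_zero
  have hrep : (mkP hv hvv : Pts Q).1.rep = (a : F) • v := by
    rw [← Units.smul_def, ha]
    rfl
  change (∃ b, polar Q (mkP hv hvv : Pts Q).1.rep b = 0 ∧ toGL Q A = sg hQ (mkP hv hvv : Pts Q).1.rep b) ↔ _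
  rw [hrep]
  constructor
  · rintro ⟨b, hb, hA⟩
    have h1 : polar Q v b = 0 := by
      rw [pol_smul_left hQ] at hb
      exact (mul_eq_zero.1 hb).resolve_left ha0
    refine ⟨(a : F) • b, by rw [pol_smul_right hQ, h1, mul_zero], ?_⟩
    rw [hA, sg_smul_left hQ _ hvv h1]
  · rintro ⟨b, hb, hA⟩
    have h1 : polar Q v ((a : F)⁻¹ • b) = 0 := by rw [pol_smul_right hQ, hb, mul_zero]
    refine ⟨(a : F)⁻¹ • b, ?_, ?_⟩
    · rw [pol_smul_left hQ, h1, mul_zero]
    · rw [hA, sg_smul_left hQ _ hvv h1, smul_smul, mul_inv_cancel₀ ha0, one_smul]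

theorem rootT_comm (x : Pts Q) : IsMulCommutative (rootT hQ x) := by
  refine ⟨⟨?_⟩⟩
  rintro ⟨A, c, hc, hA⟩ ⟨B, d, hd, hB⟩
  apply Subtype.ext
  apply toGL_inj (Q := Q)
  change toGL Q (A * B) = toGL Q (B * A)
  rw [map_mul, map_mul, hA, hB, sg_add hQ (rep_sing hQ x) hc hd, sg_add hQ (rep_sing hQ x) hd hc,
    add_comm]

theorem rootT_conj (g : Omega F Q) (x : Pts Q) : rootT hQ (g • x) = MulAut.conj g • rootT hQ x := by
  obtain ⟨v, hv, hvv, rfl⟩ := pt_rep x
  ext A
  rw [Subgroup.mem_pointwise_smul_iff_inv_smul_mem]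
  have hconj : (MulAut.conj g)⁻¹ • A = g⁻¹ * A * g := by
    simp [MulAut.smul_def, MulAut.conj_inv_apply]
  rw [hconj, smul_mkP, mem_rootT_mkP, mem_rootT_mkP]
  have hi := toGL_isom g
  set s := toGL Q g with hs
  constructor
  · rintro ⟨b, hb, hA⟩
    have h1 : polar Q v (((s⁻¹ : GL ι F) : Matrix ι ι F) *ᵥ b) = 0 := by
      rw [← hi.pol, gl_mulVec_inv_mulVec, hb]
    refine ⟨_, h1, ?_⟩
    have h2 := conj_sg hQ hi hvv h1
    rw [gl_mulVec_inv_mulVec] at h2
    rw [map_mul, map_mul, map_inv, hA, ← h2, ← hs]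
    group
  · rintro ⟨b, hb, hA⟩
    refine ⟨_, by rw [hi.pol]; exact hb, ?_⟩
    have h2 := conj_sg hQ hi hvv hb
    rw [← h2, ← hA, map_mul, map_mul, map_inv, ← hs]
    group

/-- The Iwasawa structure. -/
noncomputable def iwasawa [Fintype F] (hn : 7 ≤ Fintype.card ι) :
    MulAction.IwasawaStructure (Omega F Q) (Pts Q) where
  T := rootT hQ
  is_comm := rootT_comm hQ
  is_conj := rootT_conj hQ
  is_generator := by
    rw [eq_top_iff]
    intro A _
    have h1 : sigmaG hQ ≤ (iSup (rootT hQ)).map (toGL Q) := by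
      refine (Subgroup.closure_le _).2 ?_
      rintro s ⟨a, b, h1, h2, rfl⟩
      by_cases ha : a = 0
      · subst ha
        rw [sg_zero_left]
        exact one_mem _
      obtain ⟨B, hB⟩ := exists_toGL_eq (sg_mem_omega hQ hn h1 h2)
      exact ⟨B, (le_iSup (rootT hQ) (mkP ha h1)) ((mem_rootT_mkP hQ ha h1 B).2 ⟨b, h2, hB⟩), hB⟩
    have h2 : toGL Q A ∈ sigmaG hQ := by
      rw [← omegaGL_eq_sigmaG hQ hn]
      exact toGL_mem A
    obtain ⟨B, hB, h3⟩ := h1 h2
    rwa [← toGL_inj h3]

/-- `Ω` is perfect. -/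
theorem perfect [Fintype F] (hn : 7 ≤ Fintype.card ι) : commutator (Omega F Q) = ⊤ := by
  rw [eq_top_iff]
  intro A _
  let M : Subgroup (GL ι F) := (commutator (Omega F Q)).map (toGL Q)
  have hsing : ∀ {a b : ι → F}, Q a = 0 → polar Q a b = 0 → Q b = 0 → sg hQ a b ∈ M := by
    intro a b h1 h2 h3
    obtain ⟨v, u, hv, hu, huv, hl⟩ := exists_hyp hQ [a, b] (by simp; omega)
    have hva : polar Q v a = 0 := (hl a (by simp)).1
    have hvb : polar Q v b = 0 := (hl b (by simp)).1
    have hua : polar Q u a = 0 := (hl a (by simp)).2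
    have hub : polar Q u b = 0 := (hl b (by simp)).2
    have hav : polar Q a v = 0 := by rw [QuadraticMap.polar_comm]; exact hva
    have hau : polar Q a u = 0 := by rw [QuadraticMap.polar_comm]; exact hua
    have hs := sg_isom hQ hv hvb
    have e1 : sg hQ v b * sg hQ a u * (sg hQ v b)⁻¹ = sg hQ a (b + u) := by
      rw [conj_sg hQ hs h1 hau, sg_mulVec hQ hv hvb, sg_mulVec hQ hv hvb, hav, h2, h3, huv, hub]
      simp only [zero_smul, add_zero, sub_zero, zero_mul, one_smul]
      rw [add_comm]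
    have e2 : sg hQ v b * sg hQ a u * (sg hQ v b)⁻¹ * (sg hQ a u)⁻¹ = sg hQ a b := by
      rw [e1, ← sg_add hQ h1 h2 hau, mul_assoc, mul_inv_cancel, mul_one]
    obtain ⟨S, hS⟩ := exists_toGL_eq (sg_mem_omega hQ hn hv hvb)
    obtain ⟨T, hT⟩ := exists_toGL_eq (sg_mem_omega hQ hn h1 hau)
    refine ⟨⁅S, T⁆, Subgroup.commutator_mem_commutator (Subgroup.mem_top S) (Subgroup.mem_top T), ?_⟩
    rw [commutatorElement_def, map_mul, map_mul, map_mul, map_inv, map_inv, hS, hT, e2]
  have hall : ∀ {a b : ι → F}, Q a = 0 → polar Q a b = 0 → sg hQ a b ∈ M := by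
    intro a b h1 h2
    obtain ⟨h, h', hh, hh', hh'h, hl⟩ := exists_hyp hQ [a] (by simp; omega)
    have hmem : b ∈ LinearMap.ker (formL hQ a) := by
      change polar Q b a = 0
      rw [QuadraticMap.polar_comm]
      exact h2
    refine sing_induction hQ (Y := LinearMap.ker (formL hQ a)) (h := h) (h' := h')
      (hl a (by simp)).1 (hl a (by simp)).2 hh hh' hh'h (fun b => sg hQ a b ∈ M) ?_ ?_ hmem
    · intro c hc hcs
      have : polar Q a c = 0 := by
        rw [QuadraticMap.polar_comm]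
        exact hc
      exact hsing h1 this hcs
    · intro c hc d hd h3 h4
      have hc' : polar Q a c = 0 := by
        rw [QuadraticMap.polar_comm]
        exact hc
      have hd' : polar Q a d = 0 := by
        rw [QuadraticMap.polar_comm]
        exact hd
      change sg hQ a (c + d) ∈ M
      rw [← sg_add hQ h1 hc' hd']
      exact M.mul_mem h3 h4
  have h1 : sigmaG hQ ≤ M := by
    refine (Subgroup.closure_le _).2 ?_
    rintro s ⟨a, b, h1, h2, rfl⟩
    exact hall h1 h2
  have h2 : toGL Q A ∈ sigmaG hQ := by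
    rw [← omegaGL_eq_sigmaG hQ hn]
    exact toGL_mem A
  obtain ⟨B, hB, h3⟩ := h1 h2
  rwa [← toGL_inj h3]

/-- A matrix having all singular vectors as eigenvectors is scalar. -/
theorem scalar_of_eigen [Fintype F] (hn : 7 ≤ Fintype.card ι) (M : Matrix ι ι F)
    (hM : ∀ v : ι → F, v ≠ 0 → Q v = 0 → ∃ l : F, M *ᵥ v = l • v) :
    ∃ l : F, ∀ y, M *ᵥ y = l • y := by
  classical
  have key : ∀ {v h h' : ι → F} {l c : F}, v ≠ 0 → Q v = 0 → Q h = 0 → polar Q h' h = 1 →
      polar Q h v = 0 → polar Q h' v = 0 → M *ᵥ v = l • v → M *ᵥ h = c • h → l = c := by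
    intro v h h' l c hv0 hv hh hh'h h1 h2 hl hc
    have hhh' : polar Q h h' = 1 := by rw [QuadraticMap.polar_comm, hh'h]
    have hvh' : polar Q v h' = 0 := by rw [QuadraticMap.polar_comm, h2]
    have hs : Q (v + h) = 0 := by
      rw [Q_add (Q := Q), hv, hh, QuadraticMap.polar_comm, h1]
      ring
    have hne : v + h ≠ 0 := by
      intro h0
      have := pol_add_left hQ v h h'
      rw [h0, pol_zero_left hQ, hvh', hhh'] at this
      simp at this
    obtain ⟨d, hd⟩ := hM _ hne hs
    rw [Matrix.mulVec_add, hl, hc] at hd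
    have e1 : (l - d) • v = (d - c) • h := by
      rw [sub_smul, sub_smul, smul_add] at *
      have := hd
      rw [sub_eq_sub_iff_add_eq_add, hd]
      abel
    have e2 := congrArg (fun x => polar Q x h') e1
    simp only [pol_smul_left hQ, hvh', hhh', mul_zero, mul_one] at e2
    have e3 : d = c := by linear_combination -e2
    subst e3
    rw [sub_self, zero_smul] at e1
    have e4 := (smul_eq_zero.1 e1).resolve_right hv0
    exact sub_eq_zero.1 e4
  obtain ⟨h, h', hh, hh', hh'h, -⟩ := exists_hyp hQ ([] : List (ι → F)) (by simp; omega)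
  have hh0 : h ≠ 0 := by
    rintro rfl
    rw [pol_zero_right hQ] at hh'h
    exact zero_ne_one hh'h
  obtain ⟨c, hc⟩ := hM h hh0 hh
  have hall : ∀ v, Q v = 0 → M *ᵥ v = c • v := by
    intro v hv
    by_cases hv0 : v = 0
    · subst hv0
      simp
    obtain ⟨l, hl⟩ := hM v hv0 hv
    obtain ⟨k, k', hk, hk', hkk, hlk⟩ := exists_hyp hQ [v, h] (by simp; omega)
    have hk0 : k ≠ 0 := by
      rintro rfl
      rw [pol_zero_right hQ] at hkk
      exact zero_ne_one hkk
    obtain ⟨d, hd⟩ := hM k hk0 hk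
    have e1 : l = d := key hv0 hv hk hkk (hlk v (by simp)).1 (hlk v (by simp)).2 hl hd
    have e2 : c = d := key hh0 hh hk hkk (hlk h (by simp)).1 (hlk h (by simp)).2 hc hd
    rw [hl, e1, e2]
  refine ⟨c, fun y => ?_⟩
  refine sing_induction hQ (Y := ⊤) (h := h) (h' := h') trivial trivial hh hh' hh'h
    (fun y => M *ᵥ y = c • y) (fun a _ ha => hall a ha) ?_ (Submodule.mem_top (x := y))
  intro a _ b _ h1 h2
  rw [Matrix.mulVec_add, h1, h2, smul_add]

/-- Elements fixing all singular points are central. -/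
theorem central_of_fix [Fintype F] (hn : 7 ≤ Fintype.card ι) (A : Omega F Q)
    (hA : ∀ x : Pts Q, A • x = x) : A ∈ Subgroup.center (Omega F Q) := by
  obtain ⟨l, hl⟩ := scalar_of_eigen hQ hn (toGL Q A : Matrix ι ι F)
    (fun v hv hvv => (smul_mkP_eq_iff A hv hvv).1 (hA _))
  rw [Subgroup.mem_center_iff]
  intro g
  apply toGL_inj (Q := Q)
  rw [map_mul, map_mul]
  apply gl_ext_mulVec
  intro x
  rw [gl_mul_mulVec, gl_mul_mulVec, hl, hl, Matrix.mulVec_smul]

end Root

section Prim

variable (hQ : IsNondegenerateQuadraticForm Q) [Fintype F]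
include hQ

/-- A singular vector not orthogonal to two given non-zero vectors. -/
theorem exists_common (hn : 7 ≤ Fintype.card ι) {a c : ι → F} (ha0 : a ≠ 0) (hc0 : c ≠ 0) :
    ∃ w, Q w = 0 ∧ polar Q a w ≠ 0 ∧ polar Q c w ≠ 0 := by
  classical
  obtain ⟨x, hx⟩ := exists_right_ne hQ ha0
  obtain ⟨y, hy⟩ := exists_right_ne hQ hc0
  obtain ⟨v, hv1, hv2⟩ : ∃ v, polar Q a v ≠ 0 ∧ polar Q c v ≠ 0 := by
    by_cases h1 : polar Q c x = 0
    · by_cases h2 : polar Q a y = 0
      · refine ⟨x + y, ?_, ?_⟩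
        · rw [pol_add_right hQ, h2, add_zero]
          exact hx
        · rw [pol_add_right hQ, h1, zero_add]
          exact hy
      · exact ⟨y, h2, hy⟩
    · exact ⟨x, hx, h1⟩
  obtain ⟨w, hw, -, hwl⟩ := exists_singular_adjust hQ [a, c] (by simp; omega) v
  refine ⟨w, hw, ?_, ?_⟩
  · rw [hwl a (by simp)]; exact hv1
  · rw [hwl c (by simp)]; exact hv2

theorem pretrans (hn : 7 ≤ Fintype.card ι) : MulAction.IsPretransitive (Omega F Q) (Pts Q) := by
  refine ⟨fun x y => ?_⟩
  obtain ⟨a, ha0, ha, rfl⟩ := pt_rep x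
  obtain ⟨c, hc0, hc, rfl⟩ := pt_rep y
  obtain ⟨w, hw, h1, h2⟩ := exists_common hQ hn ha0 hc0
  set k := polar Q a w with hk
  set l := polar Q c w with hl
  have hua : polar Q (k⁻¹ • a) w = 1 := by rw [pol_smul_left hQ, ← hk, inv_mul_cancel₀ h1]
  have hca : polar Q (l⁻¹ • c) w = 1 := by rw [pol_smul_left hQ, ← hl, inv_mul_cancel₀ h2]
  have hu : Q (k⁻¹ • a) = 0 := by rw [hQ.smul, ha, mul_zero]
  have hc' : Q (l⁻¹ • c) = 0 := by rw [hQ.smul, hc, mul_zero]
  have h3 : polar Q w (l⁻¹ • c - k⁻¹ • a) = 0 := by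
    rw [QuadraticMap.polar_comm, pol_sub_left hQ, hua, hca, sub_self]
  obtain ⟨A, hA⟩ := exists_toGL_eq (sg_mem_omega hQ hn hw h3)
  refine ⟨A, ?_⟩
  have h4 := sg_move hQ hw hu hc' hua hca
  rw [← hA, Matrix.mulVec_smul] at h4
  change A • _ = _
  rw [smul_mkP, mkP_eq_iff]
  refine ⟨k * l⁻¹, ?_⟩
  rw [mul_smul, ← h4, smul_smul, mul_inv_cancel₀ h1, one_smul]

/-- A vector orthogonal to `a` but not to `c`, for non-proportional `a`, `c`. -/
theorem exists_sep {a c : ι → F} (ha0 : a ≠ 0) (hc : ∀ l : F, c ≠ l • a) :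
    ∃ z, polar Q a z = 0 ∧ polar Q c z ≠ 0 := by
  obtain ⟨y, hy⟩ := exists_right_ne hQ ha0
  set t := polar Q c y / polar Q a y with ht
  have hd : c - t • a ≠ 0 := sub_ne_zero.2 (hc t)
  obtain ⟨x, hx⟩ := exists_right_ne hQ hd
  have hdy : polar Q (c - t • a) y = 0 := by
    rw [pol_sub_left hQ, pol_smul_left hQ, ht]
    field_simp
    ring
  refine ⟨x - (polar Q a x / polar Q a y) • y, ?_, ?_⟩
  · rw [pol_sub_right hQ, pol_smul_right hQ]
    field_simp
    ring
  · have h1 : polar Q c (x - (polar Q a x / polar Q a y) • y) = polar Q (c - t • a) x := by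
      have h2 : polar Q a (x - (polar Q a x / polar Q a y) • y) = 0 := by
        rw [pol_sub_right hQ, pol_smul_right hQ]
        field_simp
        ring
      have h3 : polar Q (c - t • a) (x - (polar Q a x / polar Q a y) • y) = polar Q (c - t • a) x := by
        rw [pol_sub_right hQ, pol_smul_right hQ, hdy]
        ring
      rw [← h3, pol_sub_left hQ, pol_smul_left hQ, h2]
      ring
    rw [h1]
    exact hx

theorem primitive (hn : 7 ≤ Fintype.card ι) : MulAction.IsPreprimitive (Omega F Q) (Pts Q) := by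
  classical
  have htr := pretrans hQ hn
  obtain ⟨a, a', ha, ha', ha'a, -⟩ := exists_hyp hQ ([] : List (ι → F)) (by simp; omega)
  have ha0 : a ≠ 0 := by
    rintro rfl
    rw [pol_zero_right hQ] at ha'a
    exact zero_ne_one ha'a
  have ha'0 : a' ≠ 0 := by
    rintro rfl
    rw [pol_zero_left hQ] at ha'a
    exact zero_ne_one ha'a
  have hne : (mkP ha0 ha : Pts Q) ≠ mkP ha'0 ha' := by
    intro h
    obtain ⟨l, hl⟩ := (mkP_eq_iff _ _ _ _).1 h
    rw [hl, pol_smul_right hQ, pol_self hQ, ha'] at ha'a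
    simp at ha'a
  have hnt : Nontrivial (Pts Q) := ⟨⟨_, _, hne⟩⟩
  refine (MulAction.isCoatom_stabilizer_iff_preprimitive (Omega F Q) (mkP ha0 ha : Pts Q)).1 ?_
  constructor
  · intro htop
    obtain ⟨g, hg⟩ := htr.exists_smul_eq (mkP ha0 ha : Pts Q) (mkP ha'0 ha')
    have : g ∈ MulAction.stabilizer (Omega F Q) (mkP ha0 ha : Pts Q) := by rw [htop]; trivial
    rw [MulAction.mem_stabilizer_iff, hg] at this
    exact hne this.symm
  intro H hH
  obtain ⟨hle, g, hgH, hg⟩ := SetLike.lt_iff_le_and_exists.1 hH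
  let M : Subgroup (GL ι F) := H.map (toGL Q)
  have hMi : ∀ s ∈ M, QIsom Q s := by
    rintro _ ⟨A, -, rfl⟩
    exact toGL_isom A
  have hstab : ∀ {b : ι → F}, polar Q a b = 0 → (∀ A : Omega F Q, toGL Q A = sg hQ a b → A ∈ H) := by
    intro b hb A hA
    apply hle
    rw [MulAction.mem_stabilizer_iff, smul_mkP_eq_iff]
    refine ⟨1, ?_⟩
    rw [hA, sg_mulVec hQ ha hb, pol_self hQ, ha, hb]
    simp
  have hstab2 : ∀ {e f : ι → F}, Q e = 0 → polar Q e f = 0 → polar Q a e = 0 → polar Q a f = 0 →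
      sg hQ e f ∈ M := by
    intro e f he hef h1 h2
    obtain ⟨A, hA⟩ := exists_toGL_eq (sg_mem_omega hQ hn he hef)
    refine ⟨A, ?_, hA⟩
    apply hle
    rw [MulAction.mem_stabilizer_iff, smul_mkP_eq_iff]
    refine ⟨1, ?_⟩
    rw [hA, sg_mulVec hQ he hef, h1, h2]
    simp
  have hFa : Full hQ M a := by
    intro b hb
    obtain ⟨A, hA⟩ := exists_toGL_eq (sg_mem_omega hQ hn ha hb)
    exact ⟨A, hstab hb A hA, hA⟩
  have hgM : toGL Q g ∈ M := ⟨g, hgH, rfl⟩
  set c := (toGL Q g : Matrix ι ι F) *ᵥ a with hcdef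
  have hc : Q c = 0 := by rw [hcdef, toGL_isom g a, ha]
  have hFc : Full hQ M c := hFa.image ha hgM (toGL_isom g)
  have hnotprop : ∀ l : F, c ≠ l • a := by
    intro l hl
    apply hg
    rw [MulAction.mem_stabilizer_iff, smul_mkP_eq_iff]
    exact ⟨l, hl⟩
  have hall : ∀ d, Q d = 0 → Full hQ M d := by
    intro d hd
    by_cases hca : polar Q c a = 0
    · obtain ⟨z, hz1, hz2⟩ := exists_sep hQ ha0 hnotprop
      obtain ⟨e, he, -, hel⟩ := exists_singular_adjust hQ [a, c] (by simp; omega) z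
      have hae : polar Q a e = 0 := by rw [hel a (by simp)]; exact hz1
      have hce : polar Q c e ≠ 0 := by rw [hel c (by simp)]; exact hz2
      obtain ⟨k, k', hk, hk', hkk, hlk⟩ := exists_hyp hQ [e, a] (by simp; omega)
      have h1 : polar Q e (k + k') = 0 := by
        rw [pol_add_right hQ, QuadraticMap.polar_comm, (hlk e (by simp)).1,
          QuadraticMap.polar_comm Q e k', (hlk e (by simp)).2, add_zero]
      have h2 : polar Q a (k + k') = 0 := by
        rw [pol_add_right hQ, QuadraticMap.polar_comm, (hlk a (by simp)).1,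
          QuadraticMap.polar_comm Q a k', (hlk a (by simp)).2, add_zero]
      have h3 : Q (k + k') = 1 := by
        rw [Q_add (Q := Q), hk, hk', QuadraticMap.polar_comm, hkk]
        ring
      have hs := hstab2 he h1 hae h2
      have hci := sg_isom hQ he h1
      have hFc' := hFc.image hc hs hci
      have hc' : Q ((sg hQ e (k + k') : Matrix ι ι F) *ᵥ c) = 0 := by rw [hci c, hc]
      have hp' : ∀ f, Q f = 1 → ∀ h1 : polar Q e f = 0,
          polar Q ((sg hQ e f : Matrix ι ι F) *ᵥ c) c ≠ 0 := by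
        intro f h3 h1
        rw [sg_mulVec hQ he h1]
        simp only [pol_add_left hQ, pol_sub_left hQ, pol_smul_left hQ, pol_self hQ c, hc, h3]
        rw [QuadraticMap.polar_comm Q e c, QuadraticMap.polar_comm Q f c]
        have : 2 * (0 : F) + polar Q c e * polar Q c f - polar Q c f * polar Q c e -
            1 * polar Q c e * polar Q c e = - (polar Q c e * polar Q c e) := by ring
        rw [this]
        exact neg_ne_zero.2 (mul_ne_zero hce hce)
      have hp := hp' _ h3 h1
      exact full_all hn hc hc' hd hFc hFc' hp hMi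
    · exact full_all hn ha hc hd hFa hFc hca hMi
  have hsig : sigmaG hQ ≤ M := sigmaG_le hQ hall
  rw [eq_top_iff]
  intro A _
  have h2 : toGL Q A ∈ sigmaG hQ := by
    rw [← omegaGL_eq_sigmaG hQ hn]
    exact toGL_mem A
  obtain ⟨B, hB, h3⟩ := hsig h2
  rwa [← toGL_inj h3]

/-- A normal subgroup is central or everything. -/
theorem normal_central_or (hn : 7 ≤ Fintype.card ι) (N : Subgroup (Omega F Q)) (hN : N.Normal) :
    N ≤ Subgroup.center (Omega F Q) ∨ N = ⊤ := by
  have := primitive hQ hn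
  by_cases hfix : MulAction.fixedPoints N (Pts Q) = Set.univ
  · left
    intro A hA
    refine central_of_fix hQ hn A (fun x ↦ ?_)
    have h1 : x ∈ MulAction.fixedPoints N (Pts Q) := by
      rw [hfix]; trivial
    exact h1 ⟨A, hA⟩
  · right
    have h := (iwasawa hQ hn).commutator_le N hfix
    rw [perfect hQ hn] at h
    exact top_le_iff.1 h

/-- `PΩ` is simple in dimension at least seven. -/
theorem isSimple_POmega (hn : 7 ≤ Fintype.card ι) : IsSimpleGroup (POmega F Q) := by
  classical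
  have hnt : Nontrivial (POmega F Q) := by
    have hne : Subgroup.center (Omega F Q) ≠ ⊤ := by
      intro htop
      have hab : commutator (Omega F Q) = ⊥ := by
        rw [eq_bot_iff]
        rw [commutator_def, Subgroup.commutator_le]
        intro x _ y _
        have : x ∈ Subgroup.center (Omega F Q) := by rw [htop]; trivial
        rw [commutatorElement_eq_one_iff_mul_comm.2 (Subgroup.mem_center_iff.1 this y).symm]
        exact one_mem _
      have hbot : (⊥ : Subgroup (Omega F Q)) = ⊤ := by rw [← hab, perfect hQ hn]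
      obtain ⟨h, h', hh, hh', hh'h, -⟩ := exists_hyp hQ ([] : List (ι → F)) (by simp; omega)
      obtain ⟨k, k', hk, hk', hkk, hlk⟩ := exists_hyp hQ [h, h'] (by simp; omega)
      have h1 : polar Q h k = 0 := by
        rw [QuadraticMap.polar_comm]; exact (hlk h (by simp)).1
      obtain ⟨A, hA⟩ := exists_toGL_eq (sg_mem_omega hQ hn hh h1)
      have hA1 : A = 1 := by
        have : A ∈ (⊥ : Subgroup (Omega F Q)) := by rw [hbot]; trivial
        exact this
      have h2 := sg_mulVec hQ hh h1 h'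
      rw [← hA, hA1, map_one, Units.val_one, Matrix.one_mulVec, hh'h, QuadraticMap.polar_comm Q h' k,
        (hlk h' (by simp)).1, hk] at h2
      simp only [one_smul, zero_smul, zero_mul, sub_zero] at h2
      have h3 : k = 0 := by
        have := add_eq_left.1 h2.symm
        exact this
      rw [h3, pol_zero_right hQ] at hkk
      exact zero_ne_one hkk
    by_contra hcon
    rw [not_nontrivial_iff_subsingleton] at hcon
    apply hne
    rw [eq_top_iff]
    intro x _
    rw [← QuotientGroup.eq_one_iff]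
    exact Subsingleton.elim _ _
  refine ⟨?_⟩
  intro N' hN'
  let π : Omega F Q →* POmega F Q := QuotientGroup.mk' _
  have hπ : Function.Surjective π := QuotientGroup.mk'_surjective _
  let N : Subgroup (Omega F Q) := N'.comap π
  have hN : N.Normal := hN'.comap π
  rcases normal_central_or hQ hn N hN with h1 | h1
  · left
    rw [eq_bot_iff]
    intro x hx
    obtain ⟨y, rfl⟩ := hπ x
    have hy : y ∈ N := hx
    have := h1 hy
    rw [Subgroup.mem_bot]
    exact (QuotientGroup.eq_one_iff y).2 this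
  · right
    rw [eq_top_iff]
    intro x _
    obtain ⟨y, rfl⟩ := hπ x
    have : y ∈ N := by rw [h1]; trivial
    exact this

end Prim

end Cfsg.Agent.Lib.OmegaSimple
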