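import Cfsg.Agent.Lib.OmegaIso
import Cfsg.Agent.Lib.Pf4
import Cfsg.Agent.Lib.SLn
import Cfsg.Agent.Lib.QuadPlus

/-! The isomorphism `PΩ⁺₆(q) ≅ PSL₄(q)` through the exterior square. -/

set_option autoImplicit false
set_option linter.unusedSectionVars false
set_option linter.unusedVariables false

namespace Cfsg.Agent.Lib.OmegaSix

open Cfsg Cfsg.Geo
open Cfsg.Agent.Lib.OmegaIso Cfsg.Agent.Lib.Pf4
open scoped Matrix MatrixGroups

variable {F : Type*} [Field F]

/-- The alternating matrix of a vector. -/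
def mat3 : (Fin 3 ⊕ Fin 3 → F) →ₗ[F] Matrix (Fin 4) (Fin 4) F where
  toFun v := !![0, v (.inl 0), -v (.inl 1), v (.inl 2);
    -v (.inl 0), 0, v (.inr 2), v (.inr 1);
    v (.inl 1), -v (.inr 2), 0, v (.inr 0);
    -v (.inl 2), -v (.inr 1), -v (.inr 0), 0]
  map_add' x y := by
    ext i j
    fin_cases i <;> fin_cases j <;> simp <;> ring
  map_smul' c x := by
    ext i j
    fin_cases i <;> fin_cases j <;> simp

/-- The coordinates of an alternating matrix. -/
def vec3 : Matrix (Fin 4) (Fin 4) F →ₗ[F] (Fin 3 ⊕ Fin 3 → F) where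
  toFun A := Sum.elim ![A 0 1, -A 0 2, A 0 3] ![A 2 3, A 1 3, A 1 2]
  map_add' A B := by
    ext (i | i) <;> fin_cases i <;> simp <;> ring
  map_smul' c A := by
    ext (i | i) <;> fin_cases i <;> simp

theorem vec_mat (v : Fin 3 ⊕ Fin 3 → F) : vec3 (mat3 v) = v := by
  ext (i | i) <;> fin_cases i <;> simp [vec3, mat3]

theorem mat_vec {A : Matrix (Fin 4) (Fin 4) F} (hA : IsAlt A) : mat3 (vec3 A) = A := by
  obtain ⟨h0, hs⟩ := hA
  ext i j
  fin_cases i <;> fin_cases j <;> simp [vec3, mat3, h0, hs 0 1, hs 0 2, hs 0 3, hs 1 2, hs 1 3, hs 2 3]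

theorem isAlt_mat (v : Fin 3 ⊕ Fin 3 → F) : IsAlt (mat3 v) := by
  constructor
  · intro i
    fin_cases i <;> simp [mat3]
  · intro i j
    fin_cases i <;> fin_cases j <;> simp [mat3]

theorem Q_eq (v : Fin 3 ⊕ Fin 3 → F) : quadFormPlus 3 F v = Pf (mat3 v) := by
  simp [quadFormPlus, Fin.sum_univ_three, Pf, mat3]

/-- The inclusion of `SL₄` in matrices. -/
def slM : SL(4, F) →* Matrix (Fin 4) (Fin 4) F where
  toFun g := (g : Matrix (Fin 4) (Fin 4) F)
  map_one' := rfl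
  map_mul' _ _ := rfl

/-- The exterior square in coordinates. -/
def rep : SL(4, F) →* Module.End F (Fin 3 ⊕ Fin 3 → F) :=
  repOf mat3 vec3 (congT slM) vec_mat (fun g v => mat_vec (alt_conj _ _ (isAlt_mat v)))

theorem mat_rep (g : SL(4, F)) (v : Fin 3 ⊕ Fin 3 → F) :
    mat3 (rep g v) = (g : Matrix (Fin 4) (Fin 4) F) * mat3 v * (g : Matrix (Fin 4) (Fin 4) F)ᵀ :=
  mat_vec (alt_conj _ _ (isAlt_mat v))

theorem rep_isom (g : SL(4, F)) (v : Fin 3 ⊕ Fin 3 → F) : quadFormPlus 3 F (rep g v) = quadFormPlus 3 F v := by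
  rw [Q_eq, Q_eq, mat_rep, Pf_conj _ _ (isAlt_mat v), g.2, one_mul]

/-- The representation in the isometry group. -/
noncomputable def rho : SL(4, F) →* isometryGroup F (quadFormPlus 3 F) := repIsom rep rep_isom

theorem ker_scalar (g : SL(4, F)) (hg : g ∈ (rho (F := F)).ker) :
    ∃ d : F, d * d = 1 ∧ (g : Matrix (Fin 4) (Fin 4) F) = d • (1 : Matrix (Fin 4) (Fin 4) F) := by
  rw [rho, mem_ker_repIsom] at hg
  apply scalar_of_fix
  intro A hA
  have h1 := mat_rep g (vec3 A)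
  rw [hg, mat_vec hA] at h1
  exact h1.symm

theorem mem_center_of_scalar (g : SL(4, F)) {d : F}
    (h : (g : Matrix (Fin 4) (Fin 4) F) = d • (1 : Matrix (Fin 4) (Fin 4) F)) :
    g ∈ Subgroup.center (SL(4, F)) := by
  rw [Subgroup.mem_center_iff]
  intro x
  apply Subtype.ext
  change (x : Matrix (Fin 4) (Fin 4) F) * (g : Matrix (Fin 4) (Fin 4) F) = (g : Matrix (Fin 4) (Fin 4) F) * (x : Matrix (Fin 4) (Fin 4) F)
  rw [h]
  simp

theorem card_SL4 [Fintype F] {q : ℕ} (hF : Fintype.card F = q) :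
    Nat.card (SL(4, F)) = q ^ 6 * (q ^ 3 - 1) * (q ^ 2 - 1) * (q ^ 4 - 1) := by
  have hq2 : 2 ≤ q := by
    rw [← hF]
    exact Fintype.one_lt_card
  have h1 : Nat.card (GL (Fin 4) F) = Nat.card (SL(4, F)) * (Fintype.card F - 1) :=
    Cfsg.Agent.Lib.SLn.card_GL_eq
  rw [Matrix.card_GL_field, Fin.prod_univ_four, hF] at h1
  have e1 : q ^ 4 - q ^ ((1 : Fin 4) : ℕ) = q * (q ^ 3 - 1) := by
    rw [Nat.mul_sub]
    change q ^ 4 - q ^ 1 = _
    congr 1 <;> ring
  have e2 : q ^ 4 - q ^ ((2 : Fin 4) : ℕ) = q ^ 2 * (q ^ 2 - 1) := by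
    rw [Nat.mul_sub]
    change q ^ 4 - q ^ 2 = _
    congr 1 <;> ring
  have e3 : q ^ 4 - q ^ ((3 : Fin 4) : ℕ) = q ^ 3 * (q - 1) := by
    rw [Nat.mul_sub]
    change q ^ 4 - q ^ 3 = _
    congr 1 <;> ring
  have e0 : q ^ 4 - q ^ ((0 : Fin 4) : ℕ) = q ^ 4 - 1 := by simp
  rw [e0, e1, e2, e3] at h1
  have h2 : 0 < q - 1 := by omega
  apply Nat.eq_of_mul_eq_mul_right h2
  rw [← h1]
  ring

/-- `PΩ⁺₆(q) ≅ PSL₄(q)`. -/
theorem main [Fintype F] :
    Nonempty (POmega F (quadFormPlus 3 F) ≃* Matrix.ProjectiveSpecialLinearGroup (Fin 4) F) := by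
  classical
  have hQ : IsNondegenerateQuadraticForm (quadFormPlus 3 F) := Cfsg.Agent.Lib.QuadPlus.quadFormPlus_nondeg 3
  have hperf : commutator (SL(4, F)) = ⊤ := Cfsg.Agent.Lib.SLn.commutator_eq_top_of_three (by simp)
  have : IsSimpleGroup (Matrix.ProjectiveSpecialLinearGroup (Fin 4) F) :=
    Cfsg.Agent.Lib.SLn.isSimpleGroup_PSL (by simp)
  have hP : Subgroup.center (Matrix.ProjectiveSpecialLinearGroup (Fin 4) F) = ⊥ :=
    center_eq_bot_of_simple (commutator_top_of_surjective (QuotientGroup.mk' _) (QuotientGroup.mk'_surjective _) hperf)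
  let π : SL(4, F) →* Matrix.ProjectiveSpecialLinearGroup (Fin 4) F := QuotientGroup.mk' _
  have hπ : Function.Surjective π := QuotientGroup.mk'_surjective _
  have hπk : π.ker = Subgroup.center (SL(4, F)) := QuotientGroup.ker_mk' _
  have h1 : (rho (F := F)).ker ≤ π.ker := by
    rw [hπk]
    intro g hg
    obtain ⟨d, -, h⟩ := ker_scalar g hg
    exact mem_center_of_scalar g h
  have h2 : π.ker ≤ Subgroup.center (SL(4, F)) := hπk.le
  have hle := range_le_of_perfect (rho (F := F)) hperf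
  have hkc := card_ker_le (rho (F := F)).ker (fun g : SL(4, F) => (g : Matrix (Fin 4) (Fin 4) F)) Subtype.val_injective
    (fun g hg => ker_scalar g hg)
  have hO := Cfsg.Agent.Lib.OrthFam.card_plus (F := F) rfl 3 (by norm_num)
  have hS := card_SL4 (F := F) rfl
  have hn : 2 ≤ Fintype.card (Fin 3 ⊕ Fin 3) := by simp
  have hOS : Nat.card (isometryGroup F (quadFormPlus 3 F)) = 2 * Nat.card (SL(4, F)) := by
    rw [hO, hS]
    norm_num [Finset.prod_range_succ]
    ring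
  refine pomega_equiv (rho (F := F)) π hπ hP h1 h2 ?_
  by_cases h20 : (2 : F) = 0
  · have hcard := card_one_of_squares h20
    rw [hcard] at hkc
    refine range_eq_of_card _ hle (index_char2 hQ (by omega) h20 (Or.inr (by simp))) (by norm_num) ?_
    rw [hOS]
    calc 2 * Nat.card (SL(4, F)) * Nat.card (rho (F := F)).ker ≤ 2 * Nat.card (SL(4, F)) * 1 :=
          Nat.mul_le_mul_left _ hkc
      _ = 2 * Nat.card (SL(4, F)) := by ring
  · have hcard := card_two_of_squares h20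
    rw [hcard] at hkc
    refine range_eq_of_card _ hle (Cfsg.Agent.Lib.Spinor.omega_index hQ h20 hn) (by norm_num) ?_
    rw [hOS]
    calc 2 * Nat.card (SL(4, F)) * Nat.card (rho (F := F)).ker ≤ 2 * Nat.card (SL(4, F)) * 2 :=
          Nat.mul_le_mul_left _ hkc
      _ = 4 * Nat.card (SL(4, F)) := by ring

end Cfsg.Agent.Lib.OmegaSix
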