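import Mathlib

/-! Counting orbits: invariant sets of `p`-groups, sizes of invariant sets. -/

set_option autoImplicit false
set_option linter.all false

namespace Cfsg.Agent.Lib.OrbitCount

open MulAction

variable {A α : Type*} [Group A] [MulAction A α]

theorem card_set_modEq [Finite α] {p : ℕ} [Fact p.Prime] (hP : IsPGroup p A) (O : Set α)
    (hO : ∀ (g : A), ∀ y ∈ O, g • y ∈ O) :
    Nat.card O ≡ Nat.card ↥(O ∩ fixedPoints A α) [MOD p] := by
  let S : SubMulAction A α := ⟨O, fun g {y} hy => hO g y hy⟩
  have h1 : Nat.card S ≡ Nat.card (fixedPoints A S) [MOD p] := hP.card_modEq_card_fixedPoints S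
  have e1 : Nat.card S = Nat.card O := rfl
  let e2 : fixedPoints A S ≃ ↥(O ∩ fixedPoints A α) :=
    { toFun := fun y => ⟨y.1.1, y.1.2, fun g => congrArg Subtype.val (y.2 g)⟩
      invFun := fun y => ⟨⟨y.1, y.2.1⟩, fun g => Subtype.ext (y.2.2 g)⟩
      left_inv := fun y => rfl
      right_inv := fun y => rfl }
  rw [e1, Nat.card_congr e2] at h1
  exact h1

theorem dvd_card_of_orbits {T : Type*} [MulAction A T] [Finite T] (r : ℕ)
    (h : ∀ z : T, Nat.card (orbit A z) = r) : r ∣ Nat.card T := by
  classical
  haveI : Fintype (orbitRel.Quotient A T) := Fintype.ofFinite _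
  rw [Nat.card_congr (selfEquivSigmaOrbits' A T), Nat.card_sigma]
  apply Finset.dvd_sum
  intro ω _
  induction ω using Quotient.inductionOn with
  | _ z =>
    have : orbitRel.Quotient.orbit (Quotient.mk _ z : orbitRel.Quotient A T) = orbit A z :=
      orbitRel.Quotient.orbit_mk z
    rw [this, h z]

theorem card_orbit_mul {T : Type*} [MulAction A T] (b : T) :
    Nat.card (orbit A b) * Nat.card (stabilizer A b) = Nat.card A := by
  rw [← Nat.card_prod, Nat.card_congr (orbitProdStabilizerEquivGroup A b)]

theorem dvd_card_of_stabilizers [Finite A] [Finite α] (S : SubMulAction A α) (m r : ℕ) (hm : 0 < m)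
    (hrm : r * m = Nat.card A) (h : ∀ z ∈ S, Nat.card (stabilizer A z) = m) : r ∣ Nat.card S := by
  apply dvd_card_of_orbits (A := A)
  intro z
  have h1 := card_orbit_mul (A := A) z
  have h2 : stabilizer A z = stabilizer A (z : α) := SubMulAction.stabilizer_of_subMul z
  rw [h2, h z z.2, ← hrm] at h1
  exact Nat.eq_of_mul_eq_mul_right hm h1

/-- the stabilizer in a pointwise stabilizer is a pointwise stabilizer -/
theorem card_stabilizer_fixing {G : Type*} [Group G] [MulAction G α] (t : Set α) (z : α) :
    Nat.card (stabilizer (fixingSubgroup G t) z) = Nat.card (fixingSubgroup G (insert z t)) := by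
  apply Nat.card_congr
  exact
    { toFun := fun g => ⟨g.1.1, by
        rw [mem_fixingSubgroup_iff]
        rintro y (rfl | hy)
        · exact g.2
        · exact (mem_fixingSubgroup_iff G).1 g.1.2 y hy⟩
      invFun := fun g => ⟨⟨g.1, by
          rw [mem_fixingSubgroup_iff]
          intro y hy
          exact (mem_fixingSubgroup_iff G).1 g.2 y (Set.mem_insert_of_mem _ hy)⟩, by
          exact (mem_fixingSubgroup_iff G).1 g.2 z (Set.mem_insert _ _)⟩
      left_inv := fun g => rfl
      right_inv := fun g => rfl }

end Cfsg.Agent.Lib.OrbitCount
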