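import Mathlib

/-! Subgroups of order three of `PSL₃(4)`. -/

set_option autoImplicit false
set_option linter.all false

namespace Cfsg.Agent.Lib.Ord3F4

open Matrix
open scoped MatrixGroups Pointwise

variable {F : Type*} [Field F]

/-- The trace. -/
def T (x : Matrix (Fin 3) (Fin 3) F) : F := x 0 0 + x 1 1 + x 2 2

/-- The second coefficient. -/
def E (x : Matrix (Fin 3) (Fin 3) F) : F :=
  x 0 0 * x 1 1 + x 0 0 * x 2 2 + x 1 1 * x 2 2 - x 0 1 * x 1 0 - x 0 2 * x 2 0 - x 1 2 * x 2 1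

theorem cayley (x : Matrix (Fin 3) (Fin 3) F) :
    x * x * x = T x • (x * x) - E x • x + x.det • (1 : Matrix (Fin 3) (Fin 3) F) := by
  ext i j
  fin_cases i <;> fin_cases j <;>
    simp [Matrix.mul_apply, Fin.sum_univ_three, T, E, Matrix.det_fin_three] <;> ring

theorem det_sub_one (x : Matrix (Fin 3) (Fin 3) F) : (x - 1).det = x.det - E x + T x - 1 := by
  simp [Matrix.det_fin_three, T, E, Matrix.one_apply]
  ring

theorem smul_one_inj {a b : F} (h : a • (1 : Matrix (Fin 3) (Fin 3) F) = b • 1) : a = b := by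
  have := congrFun (congrFun h 0) 0
  simpa using this

theorem scalar_case (hs : ∀ s : F, s ≠ 0 → s ^ 3 = 1) {x : Matrix (Fin 3) (Fin 3) F} {l s : F}
    (hx : x * x * x = l • 1) (hd : x.det = 1) (e : x = s • 1) : l = 1 := by
  have hs0 : s ≠ 0 := by
    intro h
    rw [h, zero_smul] at e
    rw [e] at hd
    simp at hd
  have h1 : x * x * x = (s ^ 3) • (1 : Matrix (Fin 3) (Fin 3) F) := by
    rw [e]
    simp only [smul_mul_assoc, mul_smul_comm, mul_one, smul_smul]
    congr 1
    ring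
  rw [hx, hs s hs0] at h1
  exact smul_one_inj h1

theorem key (h2 : (2 : F) = 0) (hs : ∀ s : F, s ≠ 0 → s ^ 3 = 1) {x : Matrix (Fin 3) (Fin 3) F} {l : F}
    (hx : x * x * x = l • 1) (hd : x.det = 1) :
    l = 1 ∧ ((∃ s : F, x = s • 1) ∨ (x - 1).det = 0) := by
  have hl0 : l ≠ 0 := by
    intro h
    rw [h, zero_smul] at hx
    have := congrArg Matrix.det hx
    rw [Matrix.det_mul, Matrix.det_mul, hd] at this
    simp at this
  have hc := cayley x
  rw [hx, hd] at hc
  by_cases hT : T x = 0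
  · rw [hT, zero_smul, zero_sub] at hc
    by_cases hE : E x = 0
    · rw [hE, zero_smul, neg_zero, zero_add] at hc
      have hl : l = 1 := smul_one_inj hc
      refine ⟨hl, Or.inr ?_⟩
      rw [det_sub_one, hd, hE, hT]
      ring
    · have e : x = ((1 - l) / E x) • 1 := by
        have h3 : E x • x = (1 - l) • (1 : Matrix (Fin 3) (Fin 3) F) := by
          have h4 : l • (1 : Matrix (Fin 3) (Fin 3) F) - (1 : F) • 1 + E x • x = 0 := by
            rw [hc]
            abel
          rw [sub_smul]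
          rw [← sub_eq_zero]
          rw [← h4]
          abel
        rw [div_eq_inv_mul, mul_smul, ← h3, smul_smul, inv_mul_cancel₀ hE, one_smul]
      exact ⟨scalar_case hs hx hd e, Or.inl ⟨_, e⟩⟩
  · set b := E x / T x with hb
    set c := (l - 1) / T x with hcdef
    have hxx : x * x = b • x + c • 1 := by
      have h3 : T x • (x * x) = E x • x + (l - 1) • (1 : Matrix (Fin 3) (Fin 3) F) := by
        rw [sub_smul, one_smul]
        have h4 : l • (1 : Matrix (Fin 3) (Fin 3) F) - (1 : F) • 1 = T x • (x * x) - E x • x := by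
          rw [hc]
          abel
        rw [one_smul] at h4
        rw [h4]
        abel
      have h5 : x * x = (T x)⁻¹ • (T x • (x * x)) := by
        rw [smul_smul, inv_mul_cancel₀ hT, one_smul]
      rw [h5, h3, smul_add, smul_smul, smul_smul, hb, hcdef, div_eq_inv_mul, div_eq_inv_mul]
    have hxxx : x * x * x = (b * b + c) • x + (b * c) • 1 := by
      rw [hxx]
      simp only [add_mul, smul_mul_assoc, one_mul]
      rw [hxx]
      module
    rw [hx] at hxxx
    by_cases hu : b * b + c = 0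
    · exfalso
      rw [hu, zero_smul, zero_add] at hxxx
      have hl : l = b * c := smul_one_inj hxxx
      have hcb : c = b * b := by
        linear_combination hu - (b * b) * h2
      have hb0 : b ≠ 0 := by
        intro h
        rw [h] at hl
        apply hl0
        rw [hl]
        ring
      have hb3 := hs b hb0
      have hl1 : l = 1 := by
        rw [hl, hcb]
        linear_combination hb3
      have hc0 : c = 0 := by
        rw [hcdef, hl1]
        simp
      apply hb0
      have : b * b = 0 := by rw [← hcb, hc0]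
      simpa using this
    · have e : x = ((l - b * c) / (b * b + c)) • 1 := by
        have h3 : (b * b + c) • x = (l - b * c) • (1 : Matrix (Fin 3) (Fin 3) F) := by
          rw [sub_smul, hxxx]
          abel
        rw [div_eq_inv_mul, mul_smul, ← h3, smul_smul, inv_mul_cancel₀ hu, one_smul]
      exact ⟨scalar_case hs hx hd e, Or.inl ⟨_, e⟩⟩

theorem exists_eig (h2 : (2 : F) = 0) (hs : ∀ s : F, s ≠ 0 → s ^ 3 = 1) {x : Matrix (Fin 3) (Fin 3) F}
    (hx : x * x * x = 1) (hd : x.det = 1) (hns : ¬ ∃ s : F, x = s • 1) {r : F} (hr : r ≠ 0) :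
    ∃ v : Fin 3 → F, v ≠ 0 ∧ x *ᵥ v = r • v := by
  have hri := hs r⁻¹ (inv_ne_zero hr)
  have h1 : (r⁻¹ • x) * (r⁻¹ • x) * (r⁻¹ • x) = (1 : F) • 1 := by
    simp only [smul_mul_assoc, mul_smul_comm, smul_smul, hx]
    congr 1
    rw [← hri]
    ring
  have h3 : (r⁻¹ • x).det = 1 := by
    rw [Matrix.det_smul, hd, Fintype.card_fin, hri, mul_one]
  obtain ⟨-, h4⟩ := key h2 hs h1 h3
  rcases h4 with ⟨s, hsx⟩ | h4
  · exfalso
    apply hns
    refine ⟨r * s, ?_⟩
    rw [mul_smul, ← hsx, smul_smul, mul_inv_cancel₀ hr, one_smul]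
  · obtain ⟨v, hv0, hv⟩ := Matrix.exists_mulVec_eq_zero_iff.2 h4
    refine ⟨v, hv0, ?_⟩
    rw [Matrix.sub_mulVec, Matrix.one_mulVec, sub_eq_zero, Matrix.smul_mulVec] at hv
    calc x *ᵥ v = r • (r⁻¹ • (x *ᵥ v)) := by rw [smul_smul, mul_inv_cancel₀ hr, one_smul]
      _ = r • v := by rw [hv]

/-- The diagonal matrix. -/
def dM (w : F) : Matrix (Fin 3) (Fin 3) F := Matrix.diagonal ![1, w, w * w]

theorem exists_P (h2 : (2 : F) = 0) (hs : ∀ s : F, s ≠ 0 → s ^ 3 = 1) {x : Matrix (Fin 3) (Fin 3) F}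
    (hx : x * x * x = 1) (hd : x.det = 1) (hns : ¬ ∃ s : F, x = s • 1) {w : F} (hw : w * w + w + 1 = 0) :
    ∃ P : Matrix (Fin 3) (Fin 3) F, P.det = 1 ∧ x * P = P * dM w := by
  have hw0 : w ≠ 0 := by
    rintro rfl
    simp at hw
  have hw3 : w * w * w = 1 := by
    have := hs w hw0
    linear_combination this
  have hww : w * w ≠ w := by
    intro e
    have : w = 1 := mul_right_cancel₀ hw0 (by rw [e, one_mul])
    rw [this] at hw
    have h3 : (1 : F) = 0 := by linear_combination hw - h2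
    exact one_ne_zero h3
  obtain ⟨v₁, hv₁, e₁⟩ := exists_eig h2 hs hx hd hns (r := 1) one_ne_zero
  obtain ⟨v₂, hv₂, e₂⟩ := exists_eig h2 hs hx hd hns (r := w) hw0
  obtain ⟨v₃, hv₃, e₃⟩ := exists_eig h2 hs hx hd hns (r := w * w) (mul_ne_zero hw0 hw0)
  let P₀ : Matrix (Fin 3) (Fin 3) F := Matrix.of fun i j => (![v₁, v₂, v₃] : Fin 3 → Fin 3 → F) j i
  have hP₀ : x * P₀ = P₀ * dM w := by
    ext i j
    have h1 : (x * P₀) i j = (x *ᵥ (![v₁, v₂, v₃] : Fin 3 → Fin 3 → F) j) i := rfl
    rw [h1, dM, Matrix.mul_diagonal]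
    fin_cases j
    · show (x *ᵥ v₁) i = v₁ i * 1
      rw [e₁]
      simp
    · show (x *ᵥ v₂) i = v₂ i * w
      rw [e₂]
      simp [mul_comm]
    · show (x *ᵥ v₃) i = v₃ i * (w * w)
      rw [e₃]
      simp [mul_comm]
  have hdet : P₀.det ≠ 0 := by
    intro h0
    obtain ⟨c, hc0, hc⟩ := Matrix.exists_mulVec_eq_zero_iff.2 h0
    have hsum : c 0 • v₁ + c 1 • v₂ + c 2 • v₃ = 0 := by
      ext i
      have := congrFun hc i
      simp only [Matrix.mulVec, dotProduct, Fin.sum_univ_three, P₀, Matrix.of_apply] at this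
      simp only [Pi.add_apply, Pi.smul_apply, smul_eq_mul, Pi.zero_apply]
      simp at this
      linear_combination this
    have hx1 : c 0 • v₁ + (c 1 * w) • v₂ + (c 2 * (w * w)) • v₃ = 0 := by
      have := congrArg (fun u => x *ᵥ u) hsum
      simp only [Matrix.mulVec_add, Matrix.mulVec_smul, e₁, e₂, e₃, Matrix.mulVec_zero] at this
      rw [← this]
      module
    have hx2 : c 0 • v₁ + (c 1 * (w * w)) • v₂ + (c 2 * w) • v₃ = 0 := by
      have := congrArg (fun u => x *ᵥ u) hx1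
      simp only [Matrix.mulVec_add, Matrix.mulVec_smul, e₁, e₂, e₃, Matrix.mulVec_zero] at this
      rw [← this]
      simp only [smul_smul]
      have h5 : c 2 * (w * w) * (w * w) = c 2 * w := by
        linear_combination (c 2 * w) * hw3
      rw [h5]
      module
    have hc1 : c 0 = 0 := by
      have h6 : c 0 • v₁ = 0 := by
        have h7 : (c 0 • v₁ + c 1 • v₂ + c 2 • v₃) + (c 0 • v₁ + (c 1 * w) • v₂ + (c 2 * (w * w)) • v₃)
            + (c 0 • v₁ + (c 1 * (w * w)) • v₂ + (c 2 * w) • v₃) = 0 := by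
          rw [hsum, hx1, hx2]
          simp
        have h8 : (c 0 • v₁ + c 1 • v₂ + c 2 • v₃) + (c 0 • v₁ + (c 1 * w) • v₂ + (c 2 * (w * w)) • v₃)
            + (c 0 • v₁ + (c 1 * (w * w)) • v₂ + (c 2 * w) • v₃) =
            (3 * c 0) • v₁ + (c 1 * (w * w + w + 1)) • v₂ + (c 2 * (w * w + w + 1)) • v₃ := by
          module
        rw [h8, hw] at h7
        simp only [mul_zero, zero_smul, add_zero] at h7
        have h9 : (3 : F) * c 0 = c 0 := by linear_combination c 0 * h2
        rwa [h9] at h7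
      exact (smul_eq_zero.1 h6).resolve_right hv₁
    rw [hc1, zero_smul, zero_add] at hsum hx1
    have hc3 : c 2 = 0 := by
      have h6 : (c 2 * (w - w * w)) • v₃ = 0 := by
        have h7 : w • (c 1 • v₂ + c 2 • v₃) - ((c 1 * w) • v₂ + (c 2 * (w * w)) • v₃) = 0 := by
          rw [hsum, hx1]
          simp
        rw [← h7]
        module
      have h8 := (smul_eq_zero.1 h6).resolve_right hv₃
      exact (mul_eq_zero.1 h8).resolve_right (sub_ne_zero.2 hww.symm)
    rw [hc3, zero_smul, add_zero] at hsum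
    have hc2 : c 1 = 0 := (smul_eq_zero.1 hsum).resolve_right hv₂
    apply hc0
    ext k
    fin_cases k
    · exact hc1
    · exact hc2
    · exact hc3
  let D : Matrix (Fin 3) (Fin 3) F := Matrix.diagonal ![P₀.det⁻¹, 1, 1]
  have hD : D * dM w = dM w * D := by
    simp only [D, dM, Matrix.diagonal_mul_diagonal]
    congr 1
    ext k
    fin_cases k <;> simp [mul_comm]
  refine ⟨P₀ * D, ?_, ?_⟩
  · rw [Matrix.det_mul, Matrix.det_diagonal, Fin.prod_univ_three]
    simp [hdet]
  · rw [← Matrix.mul_assoc, hP₀, Matrix.mul_assoc, Matrix.mul_assoc, hD]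

/-- The diagonal element of `SL₃`. -/
def dS {w : F} (hw : w * w + w + 1 = 0) (h3 : w * w * w = 1) : SL(3, F) :=
  ⟨dM w, by
    rw [dM, Matrix.det_diagonal, Fin.prod_univ_three]
    simp
    linear_combination h3⟩

theorem facts {F : Type*} [Field F] [Fintype F] (hF : Fintype.card F = 4) :
    (2 : F) = 0 ∧ (∀ s : F, s ≠ 0 → s ^ 3 = 1) ∧ ∃ w : F, w * w + w + 1 = 0 := by
  classical
  have h2 : (2 : F) = 0 := by
    have h4 : (Fintype.card F) • (1 : F) = 0 := card_nsmul_eq_zero
    rw [hF] at h4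
    have h5 : (2 : F) * 2 = 0 := by
      have : (4 : ℕ) • (1 : F) = 2 * 2 := by
        norm_num
      rw [← this]
      exact h4
    exact mul_self_eq_zero.1 h5
  have hs : ∀ s : F, s ≠ 0 → s ^ 3 = 1 := by
    intro s hs
    have := FiniteField.pow_card_sub_one_eq_one s hs
    rwa [hF] at this
  refine ⟨h2, hs, ?_⟩
  obtain ⟨a, ha⟩ : ∃ a : F, a ∉ ({0, 1} : Finset F) := by
    by_contra hc
    push Not at hc
    have : (Finset.univ : Finset F) ⊆ {0, 1} := fun x _ => hc x
    have h3 := Finset.card_le_card this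
    have h4 : ({0, 1} : Finset F).card ≤ 2 := Finset.card_le_two
    rw [Finset.card_univ, hF] at h3
    omega
  simp only [Finset.mem_insert, Finset.mem_singleton, not_or] at ha
  refine ⟨a, ?_⟩
  have h3 := hs a ha.1
  have h4 : (a - 1) * (a * a + a + 1) = 0 := by linear_combination h3
  exact (mul_eq_zero.1 h4).resolve_left (sub_ne_zero.2 ha.2)

section Main

variable [Fintype F] (hF : Fintype.card F = 4)
include hF

/-- Generators of subgroups of order three are conjugate to a diagonal element. -/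
theorem exists_gen {w : F} (hw : w * w + w + 1 = 0) (h3 : w * w * w = 1)
    (X : Subgroup (Matrix.ProjectiveSpecialLinearGroup (Fin 3) F)) (hX : Nat.card ↥X = 3) :
    ∃ P : SL(3, F), X = Subgroup.zpowers (QuotientGroup.mk (P * dS hw h3 * P⁻¹) :
      Matrix.ProjectiveSpecialLinearGroup (Fin 3) F) := by
  obtain ⟨h2, hs, -⟩ := facts hF
  have hne : X ≠ ⊥ := by
    intro h
    rw [h] at hX
    simp at hX
  obtain ⟨⟨z, hzX⟩, hz1⟩ := Subgroup.ne_bot_iff_exists_ne_one.1 hne
  have hz1' : z ≠ 1 := fun e => hz1 (Subtype.ext e)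
  have hz3 : z ^ 3 = 1 := by
    have := pow_card_eq_one' (x := (⟨z, hzX⟩ : X))
    rw [hX] at this
    exact congrArg Subtype.val this
  obtain ⟨x, rfl⟩ := QuotientGroup.mk_surjective z
  -- the lift
  have hx3 : x ^ 3 ∈ Subgroup.center (SL(3, F)) := by
    rw [← QuotientGroup.eq_one_iff, QuotientGroup.mk_pow]
    exact hz3
  rw [Matrix.SpecialLinearGroup.mem_center_iff] at hx3
  obtain ⟨l, -, hl⟩ := hx3
  have hxm : (x : Matrix (Fin 3) (Fin 3) F) * x * x = l • 1 := by
    have h4 : ((x ^ 3 : SL(3, F)) : Matrix (Fin 3) (Fin 3) F) = x * x * x := by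
      rw [pow_succ, pow_two]
      rfl
    rw [← h4, ← hl]
    ext i j
    simp [Matrix.scalar_apply, Matrix.one_apply, Matrix.diagonal_apply]
  obtain ⟨hl1, -⟩ := key h2 hs hxm x.2
  rw [hl1, one_smul] at hxm
  have hns : ¬ ∃ s : F, (x : Matrix (Fin 3) (Fin 3) F) = s • 1 := by
    rintro ⟨s, hsx⟩
    apply hz1'
    rw [QuotientGroup.eq_one_iff, Matrix.SpecialLinearGroup.mem_center_iff]
    refine ⟨s, ?_, ?_⟩
    · have h4 := x.2
      rw [hsx, Matrix.det_smul, Fintype.card_fin] at h4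
      simpa using h4
    · rw [hsx]
      ext i j
      simp [Matrix.scalar_apply, Matrix.one_apply, Matrix.diagonal_apply]
  obtain ⟨P, hPd, hP⟩ := exists_P h2 hs hxm x.2 hns hw
  let PS : SL(3, F) := ⟨P, hPd⟩
  have hPS : x * PS = PS * dS hw h3 := Subtype.ext hP
  refine ⟨PS, ?_⟩
  have hxe : x = PS * dS hw h3 * PS⁻¹ := eq_mul_inv_of_mul_eq hPS
  rw [← hxe]
  symm
  apply Subgroup.eq_of_le_of_card_ge
  · rw [Subgroup.zpowers_le]
    exact hzX
  · rw [hX, Nat.card_zpowers]
    have : orderOf (QuotientGroup.mk x : Matrix.ProjectiveSpecialLinearGroup (Fin 3) F) = 3 :=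
      orderOf_eq_prime hz3 hz1'
    rw [this]

theorem main (X Y : Subgroup (Matrix.ProjectiveSpecialLinearGroup (Fin 3) F)) (hX : Nat.card ↥X = 3)
    (hY : Nat.card ↥Y = 3) :
    ∃ g : Matrix.ProjectiveSpecialLinearGroup (Fin 3) F, MulAut.conj g • X = Y := by
  obtain ⟨h2, hs, w, hw⟩ := facts hF
  have hw0 : w ≠ 0 := by
    rintro rfl
    simp at hw
  have h3 : w * w * w = 1 := by
    have := hs w hw0
    linear_combination this
  obtain ⟨P, rfl⟩ := exists_gen hF hw h3 X hX
  obtain ⟨Q, rfl⟩ := exists_gen hF hw h3 Y hY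
  refine ⟨QuotientGroup.mk (Q * P⁻¹), ?_⟩
  change (Subgroup.zpowers _).map (MulAut.conj (QuotientGroup.mk (Q * P⁻¹) :
    Matrix.ProjectiveSpecialLinearGroup (Fin 3) F)).toMonoidHom = _
  rw [MonoidHom.map_zpowers]
  congr 1
  show (QuotientGroup.mk (Q * P⁻¹) : Matrix.ProjectiveSpecialLinearGroup (Fin 3) F) *
    QuotientGroup.mk (P * dS hw h3 * P⁻¹) * (QuotientGroup.mk (Q * P⁻¹))⁻¹ = _
  rw [← QuotientGroup.mk_inv, ← QuotientGroup.mk_mul, ← QuotientGroup.mk_mul]
  congr 1
  group

end Main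

end Cfsg.Agent.Lib.Ord3F4
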