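import Cfsg.Agent.Lib.Order8
import Cfsg.Agent.S1012

/-!
Structure of a simple group of order 168.
-/

set_option autoImplicit false
set_option linter.all false

namespace Cfsg.Agent.Lib.Order168

open Subgroup
open Cfsg.Agent.Lib.SylowCount

theorem factPrimeSeven : Fact (Nat.Prime 7) := ⟨by norm_num⟩
attribute [local instance] factPrimeSeven

variable {G : Type*} [Group G] [Finite G]

/-- A `p`-element lies in a Sylow subgroup. -/
theorem exists_sylow_mem {p : ℕ} [Fact p.Prime] {x : G} {k : ℕ} (hx : orderOf x = p ^ k) :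
    ∃ S : Sylow p G, x ∈ (S : Subgroup G) := by
  have hpg : IsPGroup p (zpowers x) := by
    apply IsPGroup.of_card (n := k)
    rw [Nat.card_zpowers, hx]
  obtain ⟨S, hS⟩ := hpg.exists_le_sylow
  exact ⟨S, hS (mem_zpowers x)⟩

/-- An element commuting with a generator of a subgroup of prime order centralizes the subgroup. -/
theorem mem_centralizer_of_commute {p : ℕ} [Fact p.Prime] {S : Subgroup G} (hS : Nat.card S = p) {x y : G}
    (hx : x ∈ S) (hx1 : x ≠ 1) (hc : Commute y x) : y ∈ centralizer (S : Set G) := by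
  rw [mem_centralizer_iff]
  intro w hw
  rw [← zpowers_eq_of_card_prime S hS hx hx1] at hw
  obtain ⟨k, hk⟩ := hw
  simp only at hk
  rw [← hk]
  exact (hc.zpow_right k).symm.eq

variable [IsSimpleGroup G]

theorem nonComm (h : Nat.card G = 168) : ¬ IsMulCommutative G :=
  not_comm_of_not_prime (by rw [h]; norm_num)

theorem card7 (h : Nat.card G = 168) (S : Sylow 7 G) : Nat.card (S : Subgroup G) = 7 := by
  rw [card_sylow_of_factor S 1 24 (by rw [h]; norm_num) (by norm_num), pow_one]

theorem card3 (h : Nat.card G = 168) (S : Sylow 3 G) : Nat.card (S : Subgroup G) = 3 := by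
  rw [card_sylow_of_factor S 1 56 (by rw [h]; norm_num) (by norm_num), pow_one]

theorem card2 (h : Nat.card G = 168) (S : Sylow 2 G) : Nat.card (S : Subgroup G) = 8 := by
  rw [card_sylow_of_factor S 3 21 (by rw [h]; norm_num) (by norm_num)]; norm_num

theorem n7 (h : Nat.card G = 168) : Nat.card (Sylow 7 G) = 8 := by
  have h1 := card_sylow_dvd_cofactor (G := G) (p := 7) 1 24 (by rw [h]; norm_num) (by norm_num)
  have h2 := card_sylow_mod (G := G) 7
  have h3 := card_sylow_ne_one_of_simple (G := G) (p := 7) (nonComm h) (by rw [h]; norm_num)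
  generalize Nat.card (Sylow 7 G) = n at *
  have hle : n ≤ 24 := Nat.le_of_dvd (by norm_num) h1
  interval_cases n <;> first | rfl | omega

theorem card_N7 (h : Nat.card G = 168) (S : Sylow 7 G) :
    Nat.card (normalizer ((S : Subgroup G) : Set G)) = 21 :=
  card_normalizer_of_card_sylow S 8 21 (n7 h) (by rw [h]) (by norm_num)

/-- The form of Burnside's theorem used below. -/
theorem burnside_dvd (h : Nat.card G = 168) {p : ℕ} [Fact p.Prime] (S : Sylow p G) (hp : p ∣ 168)
    (hd : Nat.card (normalizer ((S : Subgroup G) : Set G)) ∣ Nat.card (centralizer ((S : Subgroup G) : Set G))) :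
    False := by
  apply not_normalizer_le_centralizer_of_simple (nonComm h) S (by rw [h]; exact hp)
  have h1 : centralizer ((S : Subgroup G) : Set G) = normalizer ((S : Subgroup G) : Set G) :=
    Subgroup.eq_of_le_of_card_ge (centralizer_le_normalizer _) (Nat.le_of_dvd Nat.card_pos hd)
  rw [h1]

/-- A Sylow 7 subgroup is not centralized by an element of order three. -/
theorem no_comm_7_3 (h : Nat.card G = 168) {v u : G} (hv : orderOf v = 7) (hu : orderOf u = 3)
    (hc : Commute u v) : False := by
  obtain ⟨S, hS⟩ := exists_sylow_mem (p := 7) (k := 1) (x := v) (by rw [hv, pow_one])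
  have hv1 : v ≠ 1 := by
    rintro rfl; rw [orderOf_one] at hv; omega
  have h1 := mem_centralizer_of_commute (card7 h S) hS hv1 hc
  have h2 : v ∈ centralizer ((S : Subgroup G) : Set G) :=
    mem_centralizer_of_commute (card7 h S) hS hv1 (Commute.refl v)
  have h3 : 3 ∣ Nat.card (centralizer ((S : Subgroup G) : Set G)) := by
    have := Subgroup.orderOf_dvd_natCard _ h1; rwa [hu] at this
  have h4 : 7 ∣ Nat.card (centralizer ((S : Subgroup G) : Set G)) := by
    have := Subgroup.orderOf_dvd_natCard _ h2; rwa [hv] at this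
  apply burnside_dvd h S (by norm_num)
  rw [card_N7 h S]
  exact Nat.Coprime.mul_dvd_of_dvd_of_dvd (by norm_num : Nat.Coprime 3 7) h3 h4

theorem no_comm_7_2 (h : Nat.card G = 168) {v t : G} (hv : orderOf v = 7) (ht : orderOf t = 2)
    (hc : Commute t v) : False := by
  obtain ⟨S, hS⟩ := exists_sylow_mem (p := 7) (k := 1) (x := v) (by rw [hv, pow_one])
  have hv1 : v ≠ 1 := by
    rintro rfl; rw [orderOf_one] at hv; omega
  have h1 := mem_centralizer_of_commute (card7 h S) hS hv1 hc
  have h2 := centralizer_le_normalizer _ h1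
  have h3 := Subgroup.orderOf_dvd_natCard _ h2
  rw [card_N7 h S, ht] at h3
  omega

/-- The Sylow 3-subgroups. -/
theorem n3_ne_seven (h : Nat.card G = 168) : Nat.card (Sylow 3 G) ≠ 7 := by
  intro hn
  have hnc := nonComm h
  -- every element of order three normalizes every Sylow 7-subgroup
  have key : ∀ (P : Sylow 7 G) (x : G), orderOf x = 3 → x ∈ normalizer ((P : Subgroup G) : Set G) := by
    intro P x hx
    set N := normalizer ((P : Subgroup G) : Set G) with hN
    have hcN : Nat.card N = 21 := card_N7 h P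
    have hfacN : Nat.card N = 3 ^ 1 * 7 := by rw [hcN]; norm_num
    have h1 := card_sylow_dvd_cofactor (G := N) (p := 3) 1 7 hfacN (by norm_num)
    have hcQ : ∀ Q : Sylow 3 N, Nat.card (Q : Subgroup N) = 3 := fun Q => by
      rw [card_sylow_of_factor Q 1 7 hfacN (by norm_num), pow_one]
    have hn1 : Nat.card (Sylow 3 N) ≠ 1 := by
      intro hn1
      haveI := (Nat.card_eq_one_iff_unique.1 hn1).1
      obtain ⟨Q⟩ : Nonempty (Sylow 3 N) := inferInstance
      haveI hQn : (Q : Subgroup N).Normal := Sylow.normal_of_subsingleton Q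
      haveI hPn : ((P : Subgroup G).subgroupOf N).Normal := Subgroup.normal_in_normalizer
      have hcP : Nat.card ((P : Subgroup G).subgroupOf N) = 7 := by
        have : Nat.card ((P : Subgroup G).subgroupOf N) = Nat.card (P : Subgroup G) :=
          Nat.card_congr (Subgroup.subgroupOfEquivOfLe Subgroup.le_normalizer).toEquiv
        rw [this, card7 h P]
      have hdisj : Disjoint (Q : Subgroup N) ((P : Subgroup G).subgroupOf N) := by
        rw [Subgroup.disjoint_def]
        intro x h1 h2
        have h3 := Subgroup.orderOf_dvd_natCard _ h1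
        have h4 := Subgroup.orderOf_dvd_natCard _ h2
        rw [hcQ Q] at h3
        rw [hcP] at h4
        have h5 : orderOf x ∣ Nat.gcd 3 7 := Nat.dvd_gcd h3 h4
        have h6 : orderOf x = 1 := by simpa using h5
        exact orderOf_eq_one_iff.1 h6
      obtain ⟨u, hu⟩ := exists_prime_orderOf_dvd_card' (G := (Q : Subgroup N)) 3 (by rw [hcQ Q])
      obtain ⟨v, hv⟩ := exists_prime_orderOf_dvd_card' (G := (P : Subgroup G)) 7 (by rw [card7 h P])
      have hu' : orderOf ((u : N) : G) = 3 := by
        rw [Subgroup.orderOf_coe, Subgroup.orderOf_coe]; exact hu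
      have hv' : orderOf (v : G) = 7 := by rw [Subgroup.orderOf_coe]; exact hv
      have hvm : (⟨(v : G), Subgroup.le_normalizer v.2⟩ : N) ∈ (P : Subgroup G).subgroupOf N := by
        rw [Subgroup.mem_subgroupOf]; exact v.2
      have hcomm := Subgroup.commute_of_normal_of_disjoint _ _ hQn hPn hdisj (u : N) _ u.2 hvm
      have hcomm2 : Commute ((u : N) : G) (v : G) := by
        have := congrArg Subtype.val hcomm.eq
        exact this
      exact no_comm_7_3 h hv' hu' hcomm2
    have hn7 : Nat.card (Sylow 3 N) = 7 := by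
      rcases (Nat.dvd_prime (by norm_num)).1 h1 with h2 | h2
      · exact absurd h2 hn1
      · exact h2
    have hcN3 := card_orderOf_eq_of_sylow_prime hcQ
    rw [hn7] at hcN3
    have hcG3 := card_orderOf_eq_of_sylow_prime (card3 h)
    rw [hn] at hcG3
    let f : {y : N // orderOf y = 3} → {y : G // orderOf y = 3} :=
      fun y => ⟨(y.1 : G), by rw [Subgroup.orderOf_coe]; exact y.2⟩
    have hf : Function.Injective f := by
      intro a b hab
      have h9 : (a.1 : G) = (b.1 : G) := congrArg (fun z : {y : G // orderOf y = 3} => z.1) hab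
      exact Subtype.ext (Subtype.ext h9)
    have hb := hf.bijective_of_nat_card_le (by rw [hcN3, hcG3])
    obtain ⟨y, hy⟩ := hb.2 ⟨x, hx⟩
    have : (y.1 : G) = x := congrArg Subtype.val hy
    rw [← this]
    exact y.1.2
  -- an element of order three
  obtain ⟨x, hx⟩ := exists_prime_orderOf_dvd_card' (G := G) 3 (by rw [h]; norm_num)
  have hx1 : x ≠ 1 := by
    rintro rfl; rw [orderOf_one] at hx; omega
  let φ : G →* Equiv.Perm (Sylow 7 G) := MulAction.toPermHom G (Sylow 7 G)
  have hxk : x ∈ φ.ker := by
    rw [MonoidHom.mem_ker]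
    ext1 P
    exact Sylow.smul_eq_iff_mem_normalizer.2 (key P x hx)
  rcases IsSimpleGroup.eq_bot_or_eq_top_of_normal φ.ker inferInstance with h3 | h3
  · rw [h3] at hxk
    exact hx1 (Subgroup.mem_bot.1 hxk)
  · obtain ⟨P⟩ : Nonempty (Sylow 7 G) := inferInstance
    apply sylow_not_normal_of_simple hnc P (by rw [h]; norm_num)
    rw [← Subgroup.normalizer_eq_top_iff, eq_top_iff]
    intro g _
    have : g ∈ φ.ker := by rw [h3]; exact mem_top g
    have h4 : φ g = 1 := this
    exact Sylow.smul_eq_iff_mem_normalizer.1 (Equiv.congr_fun h4 P)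

theorem n3 (h : Nat.card G = 168) : Nat.card (Sylow 3 G) = 28 := by
  have h1 := card_sylow_dvd_cofactor (G := G) (p := 3) 1 56 (by rw [h]; norm_num) (by norm_num)
  have h2 := card_sylow_mod (G := G) 3
  have h3 := card_sylow_ne_one_of_simple (G := G) (p := 3) (nonComm h) (by rw [h]; norm_num)
  have h4 := n3_ne_seven (G := G) h
  have h5 : Nat.card (Sylow 3 G) ≠ 4 := by
    intro hn
    obtain ⟨P⟩ : Nonempty (Sylow 3 G) := inferInstance
    have hidx : (normalizer ((P : Subgroup G) : Set G)).index = 4 :=
      (Sylow.card_eq_index_normalizer P).symm.trans hn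
    have hne : normalizer ((P : Subgroup G) : Set G) ≠ ⊤ := by
      intro hh
      rw [hh, Subgroup.index_top] at hidx
      omega
    have := two_mul_card_dvd_factorial (nonComm h) _ hne
    rw [hidx, h] at this
    revert this
    decide
  generalize Nat.card (Sylow 3 G) = n at *
  have hle : n ≤ 56 := Nat.le_of_dvd (by norm_num) h1
  interval_cases n <;> first | rfl | omega

theorem card_N3 (h : Nat.card G = 168) (S : Sylow 3 G) :
    Nat.card (normalizer ((S : Subgroup G) : Set G)) = 6 :=
  card_normalizer_of_card_sylow S 28 6 (n3 h) (by rw [h]) (by norm_num)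

theorem no_comm_3_2 (h : Nat.card G = 168) {u t : G} (hu : orderOf u = 3) (ht : orderOf t = 2)
    (hc : Commute t u) : False := by
  obtain ⟨S, hS⟩ := exists_sylow_mem (p := 3) (k := 1) (x := u) (by rw [hu, pow_one])
  have hu1 : u ≠ 1 := by
    rintro rfl; rw [orderOf_one] at hu; omega
  have h1 := mem_centralizer_of_commute (card3 h S) hS hu1 hc
  have h2 : u ∈ centralizer ((S : Subgroup G) : Set G) :=
    mem_centralizer_of_commute (card3 h S) hS hu1 (Commute.refl u)
  have h3 : 2 ∣ Nat.card (centralizer ((S : Subgroup G) : Set G)) := by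
    have := Subgroup.orderOf_dvd_natCard _ h1; rwa [ht] at this
  have h4 : 3 ∣ Nat.card (centralizer ((S : Subgroup G) : Set G)) := by
    have := Subgroup.orderOf_dvd_natCard _ h2; rwa [hu] at this
  apply burnside_dvd h S (by norm_num)
  rw [card_N3 h S]
  exact Nat.Coprime.mul_dvd_of_dvd_of_dvd (by norm_num : Nat.Coprime 2 3) h3 h4

/-- Power of an element having a prescribed order dividing the order. -/
theorem exists_pow_orderOf {H : Type*} [Group H] [Finite H] (g : H) (k : ℕ) (hk : k ∣ orderOf g) :
    orderOf (g ^ (orderOf g / k)) = k :=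
  orderOf_pow_orderOf_div (orderOf_pos g).ne' hk

theorem not_six_dvd (h : Nat.card G = 168) (g : G) : ¬ 6 ∣ orderOf g := by
  intro h6
  have h2 := exists_pow_orderOf g 2 (Dvd.dvd.trans (by norm_num) h6)
  have h3 := exists_pow_orderOf g 3 (Dvd.dvd.trans (by norm_num) h6)
  exact no_comm_3_2 h h3 h2 ((Commute.refl g).pow_pow _ _)

theorem not_fourteen_dvd (h : Nat.card G = 168) (g : G) : ¬ 14 ∣ orderOf g := by
  intro h6
  have h2 := exists_pow_orderOf g 2 (Dvd.dvd.trans (by norm_num) h6)
  have h3 := exists_pow_orderOf g 7 (Dvd.dvd.trans (by norm_num) h6)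
  exact no_comm_7_2 h h3 h2 ((Commute.refl g).pow_pow _ _)

theorem not_twentyone_dvd (h : Nat.card G = 168) (g : G) : ¬ 21 ∣ orderOf g := by
  intro h6
  have h2 := exists_pow_orderOf g 3 (Dvd.dvd.trans (by norm_num) h6)
  have h3 := exists_pow_orderOf g 7 (Dvd.dvd.trans (by norm_num) h6)
  exact no_comm_7_3 h h3 h2 ((Commute.refl g).pow_pow _ _)

/-- Number of Sylow 2-subgroups. -/
theorem n2 (h : Nat.card G = 168) : Nat.card (Sylow 2 G) = 21 := by
  classical
  have h1 := card_sylow_dvd_cofactor (G := G) (p := 2) 3 21 (by rw [h]; norm_num) (by norm_num)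
  have h2 := card_sylow_mod (G := G) 2
  have h3 := card_sylow_ne_one_of_simple (G := G) (p := 2) (nonComm h) (by rw [h]; norm_num)
  obtain ⟨T⟩ : Nonempty (Sylow 2 G) := inferInstance
  have h5 : Nat.card (Sylow 2 G) ≠ 3 := by
    intro hn
    have hidx : (normalizer ((T : Subgroup G) : Set G)).index = 3 :=
      (Sylow.card_eq_index_normalizer T).symm.trans hn
    have hne : normalizer ((T : Subgroup G) : Set G) ≠ ⊤ := by
      intro hh
      rw [hh, Subgroup.index_top] at hidx
      omega
    have := two_mul_card_dvd_factorial (nonComm h) _ hne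
    rw [hidx, h] at this
    revert this
    decide
  have h6 : Nat.card (Sylow 2 G) ≠ 7 := by
    intro hn
    have hN : Nat.card (normalizer ((T : Subgroup G) : Set G)) = 24 :=
      card_normalizer_of_card_sylow T 7 24 hn (by rw [h]) (by norm_num)
    obtain ⟨e⟩ := Cfsg.Agent.S1012.result (G := normalizer ((T : Subgroup G) : Set G)) hN (by
      intro g hg
      apply not_six_dvd h (g : G)
      rw [Subgroup.orderOf_coe, hg])
    -- elements of square-free... with x ^ 8 = 1 lie in T
    have hmem : ∀ x : normalizer ((T : Subgroup G) : Set G), x ^ 8 = 1 → (x : G) ∈ (T : Subgroup G) := by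
      intro x hx
      have hx8 : orderOf (x : G) ∣ 2 ^ 3 := by
        rw [Subgroup.orderOf_coe]
        exact orderOf_dvd_of_pow_eq_one (by simpa using hx)
      obtain ⟨k, -, hk⟩ := (Nat.dvd_prime_pow Nat.prime_two).1 hx8
      have hpg : IsPGroup 2 (zpowers (x : G)) := by
        apply IsPGroup.of_card (n := k)
        rw [Nat.card_zpowers, hk]
      have h7 := hpg.inf_normalizer_sylow T
      have hm : (x : G) ∈ zpowers (x : G) ⊓ normalizer ((T : Subgroup G) : Set G) :=
        ⟨mem_zpowers _, x.2⟩
      exact (h7.le hm).2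
    -- count
    have hcount : (Finset.univ.filter (fun x : Equiv.Perm (Fin 4) => x ^ 8 = 1)).card = 16 := by decide +kernel
    have hle : Nat.card {x : Equiv.Perm (Fin 4) // x ^ 8 = 1} ≤ Nat.card (T : Subgroup G) := by
      refine Nat.card_le_card_of_injective (fun x => ⟨((e.symm x.1 : normalizer ((T : Subgroup G) : Set G)) : G), hmem _ ?_⟩) ?_
      · rw [← map_pow, x.2, map_one]
      · intro a b hab
        have h8 : ((e.symm a.1 : normalizer ((T : Subgroup G) : Set G)) : G) = (e.symm b.1 : normalizer ((T : Subgroup G) : Set G)) :=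
          congrArg (fun z : (T : Subgroup G) => (z : G)) hab
        exact Subtype.ext (e.symm.injective (Subtype.ext h8))
    rw [Nat.card_eq_fintype_card, Fintype.card_subtype, hcount, card2 h T] at hle
    omega
  generalize Nat.card (Sylow 2 G) = n at *
  have hle : n ≤ 21 := Nat.le_of_dvd (by norm_num) h1
  interval_cases n <;> first | rfl | omega

theorem normalizer_T (h : Nat.card G = 168) (T : Sylow 2 G) :
    normalizer ((T : Subgroup G) : Set G) = T := by
  have hN : Nat.card (normalizer ((T : Subgroup G) : Set G)) = 8 :=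
    card_normalizer_of_card_sylow T 21 8 (n2 h) (by rw [h]) (by norm_num)
  symm
  apply Subgroup.eq_of_le_of_card_ge Subgroup.le_normalizer
  rw [hN, card2 h T]

theorem T_noncomm (h : Nat.card G = 168) (T : Sylow 2 G) :
    ¬ ∀ a b : (T : Subgroup G), a * b = b * a := by
  intro hcomm
  apply not_normalizer_le_centralizer_of_simple (nonComm h) T (by rw [h]; norm_num)
  rw [normalizer_T h T]
  intro x hx
  rw [mem_centralizer_iff]
  intro y hy
  exact congrArg Subtype.val (hcomm ⟨y, hy⟩ ⟨x, hx⟩)

/-- A non-identity element commuting with a Sylow 2-subgroup has centralizer that subgroup. -/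
theorem centralizer_eq (h : Nat.card G = 168) (T : Sylow 2 G) {z : G} (hz : z ∈ (T : Subgroup G)) (hz1 : z ≠ 1)
    (hc : ∀ t ∈ (T : Subgroup G), t * z = z * t) : centralizer ({z} : Set G) = T := by
  have hle : (T : Subgroup G) ≤ centralizer ({z} : Set G) := by
    intro t ht
    rw [mem_centralizer_singleton_iff]
    exact hc t ht
  have hoz : 2 ∣ orderOf z := by
    have h1 : orderOf z ∣ 8 := by rw [← card2 h T]; exact Subgroup.orderOf_dvd_natCard _ hz
    have h2 : orderOf z ≠ 1 := fun h3 => hz1 (orderOf_eq_one_iff.1 h3)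
    have hle := Nat.le_of_dvd (by norm_num) h1
    generalize orderOf z = m at *
    interval_cases m <;> first | omega | decide
  have ho := exists_pow_orderOf z 2 hoz
  set w := z ^ (orderOf z / 2) with hw
  have hcz : ∀ c : centralizer ({z} : Set G), Commute (w) (c : G) := by
    intro c
    have := mem_centralizer_singleton_iff.1 c.2
    exact (show Commute z (c : G) from this.symm).pow_left _
  have h3 : ¬ 3 ∣ Nat.card (centralizer ({z} : Set G)) := by
    intro h4
    obtain ⟨c, hc3⟩ := exists_prime_orderOf_dvd_card' (G := centralizer ({z} : Set G)) 3 h4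
    exact no_comm_3_2 h (u := (c : G)) (t := w) (by rw [Subgroup.orderOf_coe]; exact hc3) ho (hcz c)
  have h7 : ¬ 7 ∣ Nat.card (centralizer ({z} : Set G)) := by
    intro h4
    obtain ⟨c, hc3⟩ := exists_prime_orderOf_dvd_card' (G := centralizer ({z} : Set G)) 7 h4
    exact no_comm_7_2 h (v := (c : G)) (t := w) (by rw [Subgroup.orderOf_coe]; exact hc3) ho (hcz c)
  symm
  apply Subgroup.eq_of_le_of_card_ge hle
  have hd8 : 8 ∣ Nat.card (centralizer ({z} : Set G)) := by
    rw [← card2 h T]; exact Subgroup.card_dvd_of_le hle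
  have hd168 : Nat.card (centralizer ({z} : Set G)) ∣ 168 := by
    rw [← h]; exact Subgroup.card_subgroup_dvd_card _
  rw [card2 h T]
  generalize Nat.card (centralizer ({z} : Set G)) = m at *
  have hm : m ≤ 168 := Nat.le_of_dvd (by norm_num) hd168
  obtain ⟨k, rfl⟩ := hd8
  have hk : k ≤ 21 := by omega
  interval_cases k <;> first | omega | (exfalso; revert h3; decide) | (exfalso; revert h7; decide) | (exfalso; revert hd168; decide)

/-- An element of order dividing 8: a power is an involution. -/
theorem exists_invol_of_mem (h : Nat.card G = 168) (T : Sylow 2 G) {x : G} (hx : x ∈ (T : Subgroup G)) (hx1 : x ≠ 1) :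
    ∃ k : ℕ, orderOf (x ^ k) = 2 := by
  have hoz : 2 ∣ orderOf x := by
    have h1 : orderOf x ∣ 8 := by rw [← card2 h T]; exact Subgroup.orderOf_dvd_natCard _ hx
    have h2 : orderOf x ≠ 1 := fun h3 => hx1 (orderOf_eq_one_iff.1 h3)
    have hle := Nat.le_of_dvd (by norm_num) h1
    generalize orderOf x = m at *
    interval_cases m <;> first | omega | decide
  exact ⟨_, exists_pow_orderOf x 2 hoz⟩

/-- The number of elements of order three and seven. -/
theorem card_order3 (h : Nat.card G = 168) : Nat.card {g : G // orderOf g = 3} = 56 := by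
  rw [card_orderOf_eq_of_sylow_prime (card3 h), n3 h]

theorem card_order7 (h : Nat.card G = 168) : Nat.card {g : G // orderOf g = 7} = 48 := by
  rw [card_orderOf_eq_of_sylow_prime (card7 h), n7 h]

/-- A Sylow 2-subgroup does not have a unique involution. -/
theorem not_unique_invol (h : Nat.card G = 168)
    (hQ : ∀ T : Sylow 2 G, ∀ w ∈ (T : Subgroup G), ∀ w' ∈ (T : Subgroup G), orderOf w = 2 → orderOf w' = 2 → w = w') :
    False := by
  classical
  -- Sylow subgroups are disjoint
  have hdisj : ∀ (T T' : Sylow 2 G) (x : G), x ∈ (T : Subgroup G) → x ∈ (T' : Subgroup G) → x ≠ 1 → T = T' := by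
    intro T T' x hx hx' hx1
    obtain ⟨k, hk⟩ := exists_invol_of_mem h T hx hx1
    set w := x ^ k
    have hw : w ∈ (T : Subgroup G) := (T : Subgroup G).pow_mem hx k
    have hw' : w ∈ (T' : Subgroup G) := (T' : Subgroup G).pow_mem hx' k
    have hw1 : w ≠ 1 := by
      intro h1; rw [h1, orderOf_one] at hk; omega
    have hcen : ∀ S : Sylow 2 G, w ∈ (S : Subgroup G) → ∀ t ∈ (S : Subgroup G), t * w = w * t := by
      intro S hS t ht
      have h1 : t * w * t⁻¹ ∈ (S : Subgroup G) := (S : Subgroup G).mul_mem ((S : Subgroup G).mul_mem ht hS) ((S : Subgroup G).inv_mem ht)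
      have h2 : orderOf (t * w * t⁻¹) = 2 := by
        rw [← hk]
        exact (orderOf_eq_of_isConj (isConj_iff.2 ⟨t, rfl⟩)).symm
      have h3 := hQ S _ h1 _ hS h2 hk
      calc t * w = (t * w * t⁻¹) * t := by group
        _ = w * t := by rw [h3]
    have h1 := centralizer_eq h T hw hw1 (hcen T hw)
    have h2 := centralizer_eq h T' hw' hw1 (hcen T' hw')
    exact Sylow.ext (h1.symm.trans h2)
  -- counting
  let A := (Σ T : Sylow 2 G, {x : (T : Subgroup G) // x ≠ 1}) ⊕ ({g : G // orderOf g = 3} ⊕ {g : G // orderOf g = 7})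
  let f : A → G := fun a => match a with
    | Sum.inl x => ((x.2.1 : (x.1 : Subgroup G)) : G)
    | Sum.inr (Sum.inl g) => g.1
    | Sum.inr (Sum.inr g) => g.1
  have ho8 : ∀ (T : Sylow 2 G) (x : (T : Subgroup G)), orderOf (x : G) ∣ 8 := by
    intro T x
    rw [← card2 h T]; exact Subgroup.orderOf_dvd_natCard _ x.2
  have hf : Function.Injective f := by
    rintro (⟨T, x, hx⟩ | ⟨g, hg⟩ | ⟨g, hg⟩) (⟨T', x', hx'⟩ | ⟨g', hg'⟩ | ⟨g', hg'⟩) hab
    · simp only [f] at hab
      have hx1 : (x : G) ≠ 1 := fun h1 => hx (Subtype.ext h1)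
      have hT : T = T' := hdisj T T' _ x.2 (by rw [hab]; exact x'.2) hx1
      subst hT
      have : x = x' := Subtype.ext hab
      subst this
      rfl
    · exfalso
      simp only [f] at hab
      have := ho8 T x
      rw [hab, hg'] at this
      omega
    · exfalso
      simp only [f] at hab
      have := ho8 T x
      rw [hab, hg'] at this
      omega
    · exfalso
      simp only [f] at hab
      have := ho8 T' x'
      rw [← hab, hg] at this
      omega
    · simp only [f] at hab
      subst hab
      rfl
    · exfalso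
      simp only [f] at hab
      rw [hab, hg'] at hg
      omega
    · exfalso
      simp only [f] at hab
      have := ho8 T' x'
      rw [← hab, hg] at this
      omega
    · exfalso
      simp only [f] at hab
      rw [hab, hg'] at hg
      omega
    · simp only [f] at hab
      subst hab
      rfl
  have hle := Nat.card_le_card_of_injective f hf
  haveI := Fintype.ofFinite (Sylow 2 G)
  have hcA : Nat.card A = 21 * 7 + (56 + 48) := by
    simp only [A]
    rw [Nat.card_sum, Nat.card_sum, Nat.card_sigma, card_order3 h, card_order7 h]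
    have h7 : ∀ T : Sylow 2 G, Nat.card {x : (T : Subgroup G) // x ≠ 1} = 7 := by
      intro T
      haveI := Fintype.ofFinite (T : Subgroup G)
      have h2 := card2 h T
      rw [Nat.card_eq_fintype_card] at h2 ⊢
      rw [Fintype.card_subtype_compl]
      simp [h2]
    simp only [h7, Finset.sum_const, smul_eq_mul, Finset.card_univ]
    rw [← Nat.card_eq_fintype_card, n2 h]
  rw [hcA, h] at hle
  omega

/-- Generators of a Sylow 2-subgroup. -/
theorem exists_gens (h : Nat.card G = 168) (T : Sylow 2 G) :
    ∃ a s : (T : Subgroup G), orderOf a = 4 ∧ s ^ 2 = 1 ∧ s ∉ zpowers a := by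
  obtain ⟨a, ha⟩ := Cfsg.Agent.Lib.Order8.exists_order_four (T := (T : Subgroup G)) (card2 h T) (T_noncomm h T)
  by_contra hcon
  push Not at hcon
  have hall := fun s => hcon a s ha
  -- unique involution in T
  have hu : ∀ w ∈ (T : Subgroup G), orderOf w = 2 → w = ((a ^ 2 : (T : Subgroup G)) : G) := by
    intro w hw hw2
    have h1 : (⟨w, hw⟩ : (T : Subgroup G)) ^ 2 = 1 := by
      apply Subtype.ext
      simp only [SubmonoidClass.mk_pow, OneMemClass.coe_one]
      rw [← hw2]; exact pow_orderOf_eq_one w
    have h2 := hall _ h1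
    have hw3 : orderOf (⟨w, hw⟩ : (T : Subgroup G)) = 2 := by
      rw [← Subgroup.orderOf_coe]; exact hw2
    rcases Cfsg.Agent.Lib.Order8.mem_zpowers_four ha h2 with h3 | h3 | h3 | h3
    · rw [h3, orderOf_one] at hw3; omega
    · rw [h3, ha] at hw3; omega
    · exact congrArg Subtype.val h3
    · rw [h3, orderOf_inv, ha] at hw3; omega
  apply not_unique_invol h
  intro T' w hw w' hw' ho ho'
  obtain ⟨g, hg⟩ := MulAction.exists_smul_eq G T' T
  have hconj : ∀ y ∈ (T' : Subgroup G), g * y * g⁻¹ ∈ (T : Subgroup G) := by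
    intro y hy
    rw [← hg]
    refine (mem_smul_sylow g _ T').2 ?_
    have : g⁻¹ * (g * y * g⁻¹) * g = y := by group
    rw [this]; exact hy
  have h1 := hu _ (hconj w hw) (by rw [← ho]; exact (orderOf_eq_of_isConj (isConj_iff.2 ⟨g, rfl⟩)).symm)
  have h2 := hu _ (hconj w' hw') (by rw [← ho']; exact (orderOf_eq_of_isConj (isConj_iff.2 ⟨g, rfl⟩)).symm)
  have h3 := h1.trans h2.symm
  have e : w = g⁻¹ * (g * w * g⁻¹) * g := by group
  rw [e, h3]; group

/-- Sylow 2-subgroups are dihedral. -/
theorem dihedral_T (h : Nat.card G = 168) (T : Sylow 2 G) :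
    Nonempty ((T : Subgroup G) ≃* DihedralGroup 4) := by
  obtain ⟨a, s, ha, hs, hsn⟩ := exists_gens h T
  exact Cfsg.Agent.Lib.Order8.nonempty_mulEquiv_dihedral_four (card2 h T) (T_noncomm h T) ha hs hsn

/-- The orders of elements. -/
theorem orders (h : Nat.card G = 168) (g : G) :
    orderOf g = 1 ∨ orderOf g = 2 ∨ orderOf g = 3 ∨ orderOf g = 4 ∨ orderOf g = 7 := by
  have h1 : orderOf g ∣ 168 := by rw [← h]; exact orderOf_dvd_natCard g
  have h6 := not_six_dvd h g
  have h14 := not_fourteen_dvd h g
  have h21 := not_twentyone_dvd h g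
  have h8 : ¬ 8 ∣ orderOf g := by
    intro h8
    have ho := exists_pow_orderOf g 8 h8
    set x := g ^ (orderOf g / 8)
    obtain ⟨T, hT⟩ := exists_sylow_mem (p := 2) (k := 3) (x := x) (by rw [ho]; norm_num)
    apply T_noncomm h T
    haveI : IsCyclic (T : Subgroup G) := isCyclic_of_orderOf_eq_card (⟨x, hT⟩ : (T : Subgroup G)) (by
      rw [card2 h T, ← Subgroup.orderOf_coe]; exact ho)
    exact (IsCyclic.commutative : IsMulCommutative (T : Subgroup G)).is_comm.comm
  have hle := Nat.le_of_dvd (by norm_num) h1
  generalize orderOf g = m at *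
  interval_cases m <;> first | omega | (exfalso; revert h1; decide) | (exfalso; revert h6; decide) | (exfalso; revert h14; decide) | (exfalso; revert h21; decide) | (exfalso; revert h8; decide)

/-- Every involution is conjugate to the square of an element of order four of a given Sylow subgroup. -/
theorem invol_conj_sq (h : Nat.card G = 168) (T : Sylow 2 G) (a : (T : Subgroup G)) (ha : orderOf a = 4)
    {u : G} (hu : orderOf u = 2) : IsConj u ((a : G) ^ 2) := by
  classical
  have hoa : orderOf (a : G) = 4 := by rw [Subgroup.orderOf_coe]; exact ha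
  set M : Subgroup G := zpowers (a : G) with hM
  have hMc : Nat.card M = 4 := by rw [hM, Nat.card_zpowers, hoa]
  have hMi : M.index = 42 := by
    have := M.card_mul_index
    rw [hMc, h] at this
    omega
  have hcΩ : Nat.card (G ⧸ M) = 42 := hMi
  -- some conjugate of u lies in M
  have hex : ∃ g : G, g⁻¹ * u * g ∈ M := by
    by_contra hcon
    push Not at hcon
    haveI : Fintype (G ⧸ M) := Fintype.ofFinite _
    have hsq : u ^ 2 = 1 := by rw [← hu]; exact pow_orderOf_eq_one u
    have hF : Nat.card (MulAction.fixedBy (G ⧸ M) u) = 0 := by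
      haveI : IsEmpty (MulAction.fixedBy (G ⧸ M) u) := by
        constructor
        rintro ⟨q, hq⟩
        induction q using QuotientGroup.induction_on with
        | H g => exact hcon g ((mem_fixedBy_mk_iff M u g).1 hq)
      exact Nat.card_of_isEmpty
    obtain ⟨hev, hsign⟩ := sign_toPerm_of_sq_one (Ω := G ⧸ M) u hsq
    rw [hcΩ, hF] at hsign
    have hs1 := sign_eq_one_of_simple (nonComm h) (MulAction.toPermHom G (G ⧸ M)) u
    have hs2 : Equiv.Perm.sign (MulAction.toPermHom G (G ⧸ M) u) = (-1 : ℤˣ) ^ 21 := hsign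
    rw [hs2] at hs1
    revert hs1
    decide
  obtain ⟨g, hg⟩ := hex
  have hconj : IsConj u (g⁻¹ * u * g) := isConj_iff.2 ⟨g⁻¹, by group⟩
  have hord : orderOf (g⁻¹ * u * g) = 2 := by rw [← orderOf_eq_of_isConj hconj, hu]
  rcases Cfsg.Agent.Lib.Order8.mem_zpowers_four hoa hg with h1 | h1 | h1 | h1
  · rw [h1, orderOf_one] at hord; omega
  · rw [h1, hoa] at hord; omega
  · rw [h1] at hconj; exact hconj
  · rw [h1, orderOf_inv, hoa] at hord; omega

/-- The central square in a Sylow subgroup has the Sylow subgroup as centralizer. -/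
theorem centralizer_sq (h : Nat.card G = 168) (T : Sylow 2 G) (a : (T : Subgroup G)) (ha : orderOf a = 4) :
    centralizer ({(a : G) ^ 2} : Set G) = T := by
  apply centralizer_eq h T ((T : Subgroup G).pow_mem a.2 2)
  · intro h1
    apply Cfsg.Agent.Lib.Order8.sq_ne_one_of_four ha
    exact Subtype.ext (by simpa using h1)
  · intro t ht
    have := Cfsg.Agent.Lib.Order8.sq_central (card2 h T) ha ⟨t, ht⟩
    exact congrArg Subtype.val this

/-- Number of involutions. -/
theorem card_order2 (h : Nat.card G = 168) : Nat.card {g : G // orderOf g = 2} = 21 := by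
  obtain ⟨T⟩ : Nonempty (Sylow 2 G) := inferInstance
  obtain ⟨a, s, ha, hs, hsn⟩ := exists_gens h T
  have hoa : orderOf (a : G) = 4 := by rw [Subgroup.orderOf_coe]; exact ha
  have ho2 : orderOf ((a : G) ^ 2) = 2 := by
    have := exists_pow_orderOf (a : G) 2 (by rw [hoa]; norm_num)
    rwa [hoa] at this
  have h1 : Nat.card {g : G // orderOf g = 2} = Nat.card {g : G // IsConj ((a : G) ^ 2) g} := by
    refine Nat.card_congr (Equiv.subtypeEquivRight fun g => ⟨fun hg => (invol_conj_sq h T a ha hg).symm, fun hg => ?_⟩)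
    rw [← orderOf_eq_of_isConj hg, ho2]
  have h2 := card_class_mul_centralizer ((a : G) ^ 2)
  rw [centralizer_sq h T a ha, card2 h T, h] at h2
  rw [h1]
  omega

/-- Any two involutions are conjugate. -/
theorem invol_conj (h : Nat.card G = 168) {s t : G} (hs : orderOf s = 2) (ht : orderOf t = 2) : IsConj s t := by
  obtain ⟨T⟩ : Nonempty (Sylow 2 G) := inferInstance
  obtain ⟨a, s', ha, -, -⟩ := exists_gens h T
  exact (invol_conj_sq h T a ha hs).trans (invol_conj_sq h T a ha ht).symm

/-- Order one. -/
theorem card_order1 : Nat.card {g : G // orderOf g = 1} = 1 := by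
  rw [Nat.card_eq_one_iff_unique]
  refine ⟨⟨fun a b => ?_⟩, ⟨⟨1, orderOf_one⟩⟩⟩
  apply Subtype.ext
  rw [orderOf_eq_one_iff.1 a.2, orderOf_eq_one_iff.1 b.2]

/-- Number of elements of order four. -/
theorem card_order4 (h : Nat.card G = 168) : Nat.card {g : G // orderOf g = 4} = 42 := by
  classical
  have hsum := sum_card_orderOf_divisors (G := G)
  have hzero : ∀ d ∈ (Nat.card G).divisors, d ∉ ({1, 2, 3, 4, 7} : Finset ℕ) → Nat.card {g : G // orderOf g = d} = 0 := by
    intro d _ hd
    haveI : IsEmpty {g : G // orderOf g = d} := by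
      constructor
      rintro ⟨g, hg⟩
      apply hd
      have := orders h g
      rw [hg] at this
      simpa using this
    exact Nat.card_of_isEmpty
  have hsub : ({1, 2, 3, 4, 7} : Finset ℕ) ⊆ (Nat.card G).divisors := by
    rw [h]; decide
  rw [← Finset.sum_subset hsub (fun d hd hd2 => hzero d hd hd2)] at hsum
  rw [h] at hsum
  have e : ∑ d ∈ ({1, 2, 3, 4, 7} : Finset ℕ), Nat.card {g : G // orderOf g = d} =
      Nat.card {g : G // orderOf g = 1} + (Nat.card {g : G // orderOf g = 2} + (Nat.card {g : G // orderOf g = 3} + (Nat.card {g : G // orderOf g = 4} + Nat.card {g : G // orderOf g = 7}))) := by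
    rw [Finset.sum_insert (by decide), Finset.sum_insert (by decide), Finset.sum_insert (by decide), Finset.sum_insert (by decide), Finset.sum_singleton]
  rw [e, card_order1, card_order2 h, card_order3 h, card_order7 h] at hsum
  omega

/-- Centralizer of an element of order four. -/
theorem centralizer_order4 (h : Nat.card G = 168) {x : G} (hx : orderOf x = 4) :
    centralizer ({x} : Set G) = zpowers x := by
  obtain ⟨T, hT⟩ := exists_sylow_mem (p := 2) (k := 2) (x := x) (by rw [hx]; norm_num)
  let a : (T : Subgroup G) := ⟨x, hT⟩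
  have ha : orderOf a = 4 := by rw [← Subgroup.orderOf_coe]; exact hx
  have h1 := centralizer_sq h T a ha
  apply le_antisymm
  · intro y hy
    rw [mem_centralizer_singleton_iff] at hy
    have hy2 : y ∈ centralizer ({(a : G) ^ 2} : Set G) := by
      rw [mem_centralizer_singleton_iff]
      have : Commute y x := hy
      exact (this.pow_right 2).eq
    rw [h1] at hy2
    have h3 : (⟨y, hy2⟩ : (T : Subgroup G)) * a = a * ⟨y, hy2⟩ := by
      apply Subtype.ext
      exact hy
    have h4 := Cfsg.Agent.Lib.Order8.mem_zpowers_of_commute (card2 h T) (T_noncomm h T) ha h3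
    obtain ⟨k, hk⟩ := h4
    exact ⟨k, congrArg Subtype.val hk⟩
  · intro y hy
    rw [mem_centralizer_singleton_iff]
    obtain ⟨k, hk⟩ := hy
    simp only at hk
    rw [← hk]
    exact ((Commute.refl x).zpow_left k).eq

/-- Centralizer of an element of order seven. -/
theorem centralizer_order7 (h : Nat.card G = 168) {x : G} (hx : orderOf x = 7) :
    centralizer ({x} : Set G) = zpowers x := by
  obtain ⟨S, hS⟩ := exists_sylow_mem (p := 7) (k := 1) (x := x) (by rw [hx, pow_one])
  have hx1 : x ≠ 1 := by
    rintro rfl; rw [orderOf_one] at hx; omega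
  symm
  apply Subgroup.eq_of_le_of_card_ge
  · intro y hy
    rw [mem_centralizer_singleton_iff]
    obtain ⟨k, hk⟩ := hy
    simp only at hk
    rw [← hk]
    exact ((Commute.refl x).zpow_left k).eq
  · rw [Nat.card_zpowers, hx]
    have hC : centralizer ({x} : Set G) ≤ normalizer ((S : Subgroup G) : Set G) := by
      intro y hy
      rw [mem_centralizer_singleton_iff] at hy
      have : Commute y x := hy
      exact centralizer_le_normalizer _ (mem_centralizer_of_commute (card7 h S) hS hx1 this)
    have hd := Subgroup.card_dvd_of_le hC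
    rw [card_N7 h S] at hd
    have h7 : ¬ 3 ∣ Nat.card (centralizer ({x} : Set G)) := by
      intro h4
      obtain ⟨c, hc3⟩ := exists_prime_orderOf_dvd_card' (G := centralizer ({x} : Set G)) 3 h4
      have hcc : Commute (c : G) x := mem_centralizer_singleton_iff.1 c.2
      exact no_comm_7_3 h hx (by rw [Subgroup.orderOf_coe]; exact hc3) hcc
    generalize Nat.card (centralizer ({x} : Set G)) = m at *
    have hle := Nat.le_of_dvd (by norm_num) hd
    interval_cases m <;> first | omega | (exfalso; revert h7; decide) | (exfalso; revert hd; decide)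

/-- Elements of order seven have classes of size 24. -/
theorem class_order7 (h : Nat.card G = 168) {x : G} (hx : orderOf x = 7) :
    Nat.card {g : G // IsConj x g} = 24 := by
  have h2 := card_class_mul_centralizer x
  rw [centralizer_order7 h hx, Nat.card_zpowers, hx, h] at h2
  omega

/-- An element of order seven is not conjugate to its inverse. -/
theorem not_conj_inv_order7 (h : Nat.card G = 168) {x : G} (hx : orderOf x = 7) : ¬ IsConj x x⁻¹ := by
  intro hc
  obtain ⟨g, hg⟩ := isConj_iff.1 hc
  -- g ^ 2 commutes with x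
  have hg2 : g ^ 2 * x * (g ^ 2)⁻¹ = x := by
    calc g ^ 2 * x * (g ^ 2)⁻¹ = g * (g * x * g⁻¹) * g⁻¹ := by rw [pow_two]; group
      _ = g * x⁻¹ * g⁻¹ := by rw [hg]
      _ = (g * x * g⁻¹)⁻¹ := by group
      _ = x := by rw [hg, inv_inv]
  have hc2 : g ^ 2 ∈ centralizer ({x} : Set G) := by
    rw [mem_centralizer_singleton_iff]
    calc g ^ 2 * x = (g ^ 2 * x * (g ^ 2)⁻¹) * g ^ 2 := by group
      _ = x * g ^ 2 := by rw [hg2]
  have hxx : x ≠ x⁻¹ := by
    intro h1
    have h2 : x ^ 2 = 1 := by
      rw [pow_two]; nth_rewrite 1 [h1]; exact inv_mul_cancel x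
    have := orderOf_dvd_of_pow_eq_one h2
    rw [hx] at this
    omega
  -- g normalizes ⟨x⟩; its normalizer has odd order
  obtain ⟨S, hS⟩ := exists_sylow_mem (p := 7) (k := 1) (x := x) (by rw [hx, pow_one])
  have hx1 : x ≠ 1 := by
    rintro rfl; rw [orderOf_one] at hx; omega
  have hzS := zpowers_eq_of_card_prime _ (card7 h S) hS hx1
  have hgN : g ∈ normalizer ((S : Subgroup G) : Set G) := by
    have hmap : ((S : Subgroup G)).map (MulAut.conj g).toMonoidHom = (S : Subgroup G) := by
      conv_lhs => rw [← hzS]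
      rw [MonoidHom.map_zpowers]
      show zpowers (g * x * g⁻¹) = _
      rw [hg, zpowers_inv, hzS]
    rw [mem_normalizer_iff]
    intro w
    constructor
    · intro hw
      rw [← hmap]
      exact ⟨w, hw, rfl⟩
    · intro hw
      rw [← hmap] at hw
      obtain ⟨w', hw', hw2⟩ := hw
      have hw3 : g * w' * g⁻¹ = g * w * g⁻¹ := hw2
      have : w' = w := by simpa using hw3
      rwa [← this]
  have hog : orderOf g ∣ 21 := by
    rw [← card_N7 h S]
    exact Subgroup.orderOf_dvd_natCard _ hgN
  obtain ⟨m, hm⟩ : Odd (orderOf g) := Odd.of_dvd_nat (by decide) hog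
  have hgpow : g ∈ zpowers (g ^ 2) := by
    have e : (g ^ 2) ^ (m + 1) = g := by
      rw [← pow_mul, show 2 * (m + 1) = orderOf g + 1 by omega, pow_succ, pow_orderOf_eq_one, one_mul]
    have := (zpowers (g ^ 2)).pow_mem (mem_zpowers (g ^ 2)) (m + 1)
    rwa [e] at this
  apply hxx
  have hgC : g ∈ centralizer ({x} : Set G) := by
    obtain ⟨k, hk⟩ := hgpow
    simp only at hk
    rw [← hk]
    exact Subgroup.zpow_mem _ hc2 k
  rw [mem_centralizer_singleton_iff] at hgC
  calc x = g * x * g⁻¹ := by rw [hgC]; group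
    _ = x⁻¹ := hg

end Cfsg.Agent.Lib.Order168
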