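/-
`SO₃(3) ≅ S₄`.
-/
import Mathlib
import Cfsg.Agent.Lib.EvenWeight

set_option autoImplicit false
set_option linter.all false
set_option maxRecDepth 100000

open scoped MatrixGroups Matrix
open Cfsg Cfsg.Geo Finset
open Cfsg.Agent.Lib.QuadSiegel Cfsg.Agent.Lib.QuadRefl Cfsg.Agent.Lib.QuadBase
open Cfsg.Agent.Lib.EvenWeight

namespace Cfsg.Agent.Lib.OrthS4

abbrev B := Unit ⊕ (Fin 1 ⊕ Fin 1)

/-- The basis. -/
def A : B → Fin 4 → ZMod 3
  | .inl _ => ![0, 0, 1, 2]
  | .inr (.inl _) => ![0, 1, 1, 1]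
  | .inr (.inr _) => ![2, 0, 2, 2]

/-- The dual basis. -/
def D : B → Fin 4 → ZMod 3
  | .inl _ => ![0, 0, 2, 1]
  | .inr (.inl _) => ![2, 0, 2, 2]
  | .inr (.inr _) => ![0, 1, 1, 1]

/-- The sign in the field. -/
def sgn3 (π : Equiv.Perm (Fin 4)) : ZMod 3 := if Equiv.Perm.sign π = 1 then 1 else -1

/-- The matrix of a permutation. -/
def Mat (π : Equiv.Perm (Fin 4)) : Matrix B B (ZMod 3) :=
  fun b c => sgn3 π * ∑ i, A c (π⁻¹ i) * D b i

abbrev Q₀ : (B → ZMod 3) → ZMod 3 := quadFormOdd 1 (ZMod 3)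

theorem h_one : Mat 1 = 1 := by decide +kernel

theorem h_mul : ∀ π ρ, Mat (π * ρ) = Mat π * Mat ρ := by decide +kernel

theorem h_det : ∀ π, (Mat π).det = 1 := by decide +kernel

theorem h_isom : ∀ π v, Q₀ (Mat π *ᵥ v) = Q₀ v := by decide +kernel

theorem h_inj : ∀ π ρ, Mat π = Mat ρ → π = ρ := by decide +kernel

/-- A matrix from its columns. -/
def ofCols (c₁ c₂ c₃ : B → ZMod 3) : Matrix B B (ZMod 3)
  | b, .inl _ => c₁ b
  | b, .inr (.inl _) => c₂ b
  | b, .inr (.inr _) => c₃ b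

set_option synthInstance.maxSize 1000 in
set_option synthInstance.maxHeartbeats 200000 in
theorem h_surj₀ : ∀ c₁, Q₀ c₁ = 1 → ∀ c₂, Q₀ c₂ = 0 → ∀ c₃, Q₀ c₃ = 0 →
    (∀ v, Q₀ (ofCols c₁ c₂ c₃ *ᵥ v) = Q₀ v) → (ofCols c₁ c₂ c₃).det = 1 →
    ∃ π, Mat π = ofCols c₁ c₂ c₃ := by
  decide +kernel

theorem h_surj (M : Matrix B B (ZMod 3)) (h1 : ∀ v, Q₀ (M *ᵥ v) = Q₀ v) (h2 : M.det = 1) :
    ∃ π, Mat π = M := by
  have e : ofCols (M *ᵥ Pi.single (.inl ()) 1) (M *ᵥ Pi.single (.inr (.inl 0)) 1)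
      (M *ᵥ Pi.single (.inr (.inr 0)) 1) = M := by
    ext b c
    rcases c with _ | (c | c)
    · simp [ofCols]
    · have : c = 0 := Subsingleton.elim _ _
      subst this
      simp [ofCols]
    · have : c = 0 := Subsingleton.elim _ _
      subst this
      simp [ofCols]
  have := h_surj₀ (M *ᵥ Pi.single (.inl ()) 1) (by rw [h1]; decide +kernel)
    (M *ᵥ Pi.single (.inr (.inl 0)) 1) (by rw [h1]; decide +kernel)
    (M *ᵥ Pi.single (.inr (.inr 0)) 1) (by rw [h1]; decide +kernel)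
    (by rw [e]; exact h1) (by rw [e]; exact h2)
  rwa [e] at this

/-- The main isomorphism over the prime field. -/
theorem main : Nonempty (specialIsometryGroup (ZMod 3) Q₀ ≃* Equiv.Perm (Fin 4)) := by
  have hg : ∀ π : Equiv.Perm (Fin 4), (Mat π).det ≠ 0 := fun π => by
    rw [h_det π]
    decide
  let toGL : Equiv.Perm (Fin 4) →* GL B (ZMod 3) :=
    { toFun := fun π => Matrix.GeneralLinearGroup.mkOfDetNeZero (Mat π) (hg π)
      map_one' := by
        apply Units.ext
        exact h_one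
      map_mul' := fun π ρ => by
        apply Units.ext
        exact h_mul π ρ }
  have hval : ∀ π, ((toGL π : GL B (ZMod 3)) : Matrix B B (ZMod 3)) = Mat π := fun π => rfl
  let toO : Equiv.Perm (Fin 4) →* isometryGroup (ZMod 3) Q₀ :=
    toGL.codRestrict _ (fun π => mem_isometryGroup_iff.2 (fun v => by
      rw [hval]
      exact h_isom π v))
  let toS : Equiv.Perm (Fin 4) →* specialIsometryGroup (ZMod 3) Q₀ :=
    toO.codRestrict _ (fun π => by
      rw [specialIsometryGroup, MonoidHom.mem_ker]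
      apply Units.ext
      exact h_det π)
  have hbij : Function.Bijective toS := by
    constructor
    · intro π ρ h
      apply h_inj
      have h1 := congrArg (fun x : specialIsometryGroup (ZMod 3) Q₀ =>
        (((x : isometryGroup (ZMod 3) Q₀) : GL B (ZMod 3)) : Matrix B B (ZMod 3))) h
      exact h1
    · rintro ⟨⟨g, hg1⟩, hg2⟩
      have h1 : ∀ v, Q₀ ((g : Matrix B B (ZMod 3)) *ᵥ v) = Q₀ v := mem_isometryGroup_iff.1 hg1
      have h2 : (g : Matrix B B (ZMod 3)).det = 1 := by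
        rw [specialIsometryGroup, MonoidHom.mem_ker] at hg2
        exact congrArg Units.val hg2
      obtain ⟨π, hπ⟩ := h_surj _ h1 h2
      refine ⟨π, ?_⟩
      apply Subtype.ext
      apply Subtype.ext
      apply Units.ext
      exact hπ
  exact ⟨(MulEquiv.ofBijective toS hbij).symm⟩

/-- Transfer of the special subgroup. -/
theorem result_gen {F : Type*} [Field F] [Fintype F] (hF : Fintype.card F = 3) :
    Nonempty (specialIsometryGroup F (quadFormOdd 1 F) ≃* Equiv.Perm (Fin 4)) := by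
  obtain ⟨e₀⟩ := main
  let e : F ≃+* ZMod 3 := (ZMod.ringEquivOfPrime F Nat.prime_three hF).symm
  have hv : ∀ v : B → F, quadFormOdd 1 (ZMod 3) (fun i => e (v i)) = e (quadFormOdd 1 F v) := fun v => by
    simp [quadFormOdd, map_sum]
  let E := isomEquiv e hv
  have hdet : ∀ g : isometryGroup F (quadFormOdd 1 F),
      g ∈ specialIsometryGroup F (quadFormOdd 1 F) ↔ E g ∈ specialIsometryGroup (ZMod 3) (quadFormOdd 1 (ZMod 3)) := by
    intro g
    rw [specialIsometryGroup, specialIsometryGroup, MonoidHom.mem_ker, MonoidHom.mem_ker,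
      ← Units.val_inj, ← Units.val_inj]
    change ((g : GL B F) : Matrix B B F).det = 1 ↔ (((g : GL B F) : Matrix B B F).map e).det = 1
    have : (((g : GL B F) : Matrix B B F).map e).det = e ((g : GL B F) : Matrix B B F).det := by
      exact (RingHom.map_det (e : F →+* ZMod 3) _).symm
    rw [this]
    constructor
    · intro h
      rw [h, map_one]
    · intro h
      apply e.injective
      rw [h, map_one]
  let E' := E.subgroupMap (specialIsometryGroup F (quadFormOdd 1 F))
  have hmap : (specialIsometryGroup F (quadFormOdd 1 F)).map E.toMonoidHom =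
      specialIsometryGroup (ZMod 3) (quadFormOdd 1 (ZMod 3)) := by
    ext x
    constructor
    · rintro ⟨g, hg, rfl⟩
      exact (hdet g).1 hg
    · intro hx
      refine ⟨E.symm x, (hdet _).2 ?_, by simp⟩
      simpa using hx
  exact ⟨(E'.trans (MulEquiv.subgroupCongr hmap)).trans e₀⟩

end Cfsg.Agent.Lib.OrthS4
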