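/-
`O⁺₆(2) ≅ S₈`.
-/
import Mathlib
import Cfsg.Agent.Lib.EvenWeight
import Cfsg.Agent.Lib.QuadPlus

set_option autoImplicit false
set_option linter.all false
set_option maxRecDepth 100000

open scoped MatrixGroups Matrix
open Cfsg Cfsg.Geo Finset
open Cfsg.Agent.Lib.QuadSiegel Cfsg.Agent.Lib.QuadRefl
open Cfsg.Agent.Lib.EvenWeight

namespace Cfsg.Agent.Lib.OrthS8

/-- The vectors `a_k`. -/
def aV : Fin 3 → Fin 8 → ZMod 2 :=
  ![![0, 1, 0, 1, 0, 1, 0, 1], ![0, 0, 1, 1, 0, 0, 1, 1], ![0, 0, 0, 0, 1, 1, 1, 1]]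

/-- The vectors `b_k`. -/
def bV : Fin 3 → Fin 8 → ZMod 2 :=
  ![![1, 0, 1, 0, 1, 0, 0, 1], ![1, 0, 0, 1, 1, 1, 0, 0], ![1, 0, 0, 0, 0, 1, 1, 1]]

/-- The first family. -/
def A : Fin 3 ⊕ Fin 3 → Fin 8 → ZMod 2 := Sum.elim aV bV

/-- The dual family. -/
def D : Fin 3 ⊕ Fin 3 → Fin 8 → ZMod 2 := Sum.elim bV aV

theorem frame : Frame A D where
  dual := by decide +kernel
  sumA := by decide +kernel
  sumD := by decide +kernel
  ker := by decide +kernel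

theorem hQw : ∀ y : Fin 8 → ZMod 2, ∑ i, y i = 0 → quadFormPlus 3 (ZMod 2) (tauL D y) = wtQ y := by
  decide +kernel

theorem hall : ∀ v : Fin 3 ⊕ Fin 3 → ZMod 2, quadFormPlus 3 (ZMod 2) v ≠ 0 →
    ∃ i j : Fin 8, i ≠ j ∧ tauL D (pairV i j) = v := by
  decide +kernel

theorem hpol (u : Fin 3 ⊕ Fin 3 → ZMod 2) (y : Fin 8 → ZMod 2) :
    dotP (sigL A u) y = QuadraticMap.polar (quadFormPlus 3 (ZMod 2)) u (tauL D y) := by
  rw [Cfsg.Agent.Lib.QuadPlus.quadFormPlus_polar, sigL_apply, dotP_sum_left, Fintype.sum_sum_type,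
    ← Finset.sum_add_distrib]
  apply Finset.sum_congr rfl
  intro k _
  simp only [dotP_smul_left, tauL_apply]
  have e1 : dotP (A (Sum.inl k)) y = dotP y (D (Sum.inr k)) := by
    simp [dotP, A, D, mul_comm]
  have e2 : dotP (A (Sum.inr k)) y = dotP y (D (Sum.inl k)) := by
    simp [dotP, A, D, mul_comm]
  rw [e1, e2]
  ring

theorem main : Nonempty (isometryGroup (ZMod 2) (quadFormPlus 3 (ZMod 2)) ≃* Equiv.Perm (Fin 8)) := by
  have hQ : IsNondegenerateQuadraticForm (quadFormPlus 3 (ZMod 2)) :=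
    Cfsg.Agent.Lib.QuadPlus.quadFormPlus_nondeg 3
  exact exists_equiv hQ frame (by simp) hQw (fun π y => wtQ_permV π y) (fun u y _ => hpol u y) hall
    (fun g hg => isom_mem_rfG hQ (Or.inr (by simp)) hg)

theorem result_gen {F : Type*} [Field F] [Fintype F] (hF : Fintype.card F = 2) :
    Nonempty (isometryGroup F (quadFormPlus 3 F) ≃* Equiv.Perm (Fin 8)) := by
  obtain ⟨e₀⟩ := main
  let e : F ≃+* ZMod 2 := (ZMod.ringEquivOfPrime F Nat.prime_two hF).symm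
  exact ⟨(isomEquiv e (fun v => by simp [quadFormPlus, map_sum])).trans e₀⟩

end Cfsg.Agent.Lib.OrthS8
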