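/-
Semisimple elements of odd order of orthogonal groups.
-/
import Mathlib
import Cfsg.Agent.Lib.SpSemi
import Cfsg.Agent.Lib.Witt
import Cfsg.Agent.Lib.JordanQuad

set_option autoImplicit false
set_option linter.all false

open scoped Matrix
open Matrix

namespace Cfsg.Agent.Lib.OrthSemi

open Cfsg.Agent.Lib.NormRing Cfsg.Agent.Lib.SpSemi

universe u

variable {F : Type u} [Field F] {ι : Type} [Fintype ι] [DecidableEq ι]

/-- The norm equation away from the fixed space, for a general adjoint. -/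
theorem exists_r [Fintype F] (st : Matrix ι ι F →+ Matrix ι ι F) (hst1 : st 1 = 1)
    (hstm : ∀ a b, st (a * b) = st b * st a) (hst2 : ∀ a, st (st a) = a) (hsts : ∀ (c : F) X, st (c • X) = c • st X)
    (A h Hi : Matrix ι ι F) {d : ℕ} (hd : (d : F) ≠ 0) (hAd : A ^ d = 1)
    (hA : st A * A = 1) (hst : st h = h) (hc : Commute h A) (hHi : h * Hi = 1) :
    st (avg d (A * A)) = avg d (A * A) ∧
    ∃ r, st r * r = (1 - avg d (A * A)) * h + avg d (A * A) ∧ Commute r A ∧ Commute r h ∧ Commute r (st r) := by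
  classical
  have hAS : A * st A = 1 := mul_eq_one_comm.1 hA
  have hHi' : Hi * h = 1 := mul_eq_one_comm.1 hHi
  set u := A * A with hu
  have huA : Commute A A := Commute.refl A
  have hud : u ^ d = 1 := by
    rw [hu, huA.mul_pow, hAd, one_mul]
  have hsu : st u * u = 1 := by
    rw [hu, hstm]
    calc st A * st A * (A * A) = st A * (st A * A) * A := by simp only [mul_assoc]
      _ = 1 := by rw [hA, mul_one, hA]
  set o := avg d u with ho
  have hoo : o * o = o := avg_idem hd hud
  have hp : ∀ k : ℕ, st (u ^ k) = st u ^ k := by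
    intro k
    induction k with
    | zero => simp [hst1]
    | succ k ih => rw [pow_succ, hstm, ih, pow_succ']
  have host : st o = o := by
    have hsC : (st u) ^ d = 1 := by
      rw [← hp, hud, hst1]
    have h1 : st (avg d u) = avg d (st u) := by
      unfold avg
      rw [hsts, map_sum]
      simp only [hp]
    have h2 : avg d (st u) * u = avg d (st u) := by
      calc avg d (st u) * u = (avg d (st u) * st u) * u := by rw [avg_mul hsC]
        _ = avg d (st u) * (st u * u) := mul_assoc ..
        _ = avg d (st u) := by rw [hsu, mul_one]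
    have h3 : st u * avg d u = avg d u := by
      calc st u * avg d u = st u * (u * avg d u) := by rw [mul_avg hud]
        _ = (st u * u) * avg d u := (mul_assoc ..).symm
        _ = avg d u := by rw [hsu, one_mul]
    rw [ho, h1]
    calc avg d (st u) = avg d (st u) * avg d u := (avg_left hd h2).symm
      _ = avg d u := avg_right hd h3
  have hw : (u - 1) * avgW d u = 1 - o := sub_one_mul_avgW hd hud
  -- the commutative subring
  let S : Set (Matrix ι ι F) := {A, st A, h}
  have hAsA : Commute A (st A) := by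
    show A * st A = st A * A
    rw [hAS, hA]
  have hsAh : Commute h (st A) := by
    have h3 := congrArg st hc.eq
    rw [hstm, hstm, hst] at h3
    exact h3.symm
  have hs : ∀ a ∈ S, ∀ b ∈ S, Commute a b := by
    rintro a (rfl | rfl | rfl) b (rfl | rfl | rfl)
    · exact Commute.refl _
    · exact hAsA
    · exact hc.symm
    · exact hAsA.symm
    · exact Commute.refl _
    · exact hsAh.symm
    · exact hc
    · exact hsAh
    · exact Commute.refl _
  let T : Subring (Matrix ι ι F) := biC S
  have hcT : ∀ a ∈ T, ∀ b ∈ T, a * b = b * a := biC_comm hs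
  have hAT : A ∈ T := self_mem_biC (by simp [S])
  have hsAT : st A ∈ T := self_mem_biC (by simp [S])
  have hhT : h ∈ T := self_mem_biC (by simp [S])
  have hHiT : Hi ∈ T := inv_mem_biC hhT hHi hHi'
  have hsc : ∀ c : F, c • (1 : Matrix ι ι F) ∈ T := by
    intro c y _
    exact (Commute.one_left y).smul_left c
  have hsm : ∀ (c : F) (x : Matrix ι ι F), x ∈ T → c • x ∈ T := by
    intro c x hx
    have : c • x = (c • (1 : Matrix ι ι F)) * x := by
      rw [Matrix.smul_mul, one_mul]
    rw [this]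
    exact T.mul_mem (hsc c) hx
  have huT : u ∈ T := T.mul_mem hAT hAT
  have hoT : o ∈ T := by
    apply hsm
    exact T.sum_mem (fun i _ => T.pow_mem huT i)
  have hwT : avgW d u ∈ T := by
    apply hsm
    exact T.sum_mem (fun i _ => hsm _ _ (T.pow_mem huT i))
  have hTst : ∀ x ∈ T, st x ∈ T := by
    intro x hx y hy
    have h3 : Commute x (st y) := hx (st y) (by
      intro a ha
      rcases ha with ha | ha | ha
      · rw [ha]
        have h5 : Commute y (st A) := hy _ (by simp [S])
        have h6 := congrArg st h5.eq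
        rw [hstm, hstm, hst2] at h6
        exact h6.symm
      · rw [show a = st A from ha]
        have h5 : Commute y A := hy _ (by simp [S])
        have h6 := congrArg st h5.eq
        rw [hstm, hstm] at h6
        exact h6.symm
      · rw [show a = h from ha]
        have h5 : Commute y h := hy _ (by simp [S])
        have h6 := congrArg st h5.eq
        rw [hstm, hstm, hst] at h6
        exact h6.symm)
    have h4 := congrArg st h3.eq
    rw [hstm, hstm, hst2] at h4
    exact h4.symm
  have hθz : (A - st A) * (A * avgW d u) = 1 - o := by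
    rw [← mul_assoc, sub_mul, hA, ← hu]
    exact hw
  obtain ⟨r, hrT, hr⟩ := norm_in_subring_idem T hcT st hst1 hstm hst2 hTst hoT hoo host hAT
    (T.mul_mem hAT hwT) hθz hhT hHiT hHi hst
  exact ⟨host, r, hr, hrT A (fun a ha => hs _ (by simp [S]) _ ha), hrT h (fun a ha => hs _ (by simp [S]) _ ha),
    hcT _ hrT _ (hTst _ hrT)⟩

/-- Adjoint with respect to a matrix. -/
def stM (M MI : Matrix ι ι F) : Matrix ι ι F →+ Matrix ι ι F where
  toFun X := MI * Xᵀ * M
  map_zero' := by simp
  map_add' X Y := by simp [Matrix.transpose_add, mul_add, add_mul]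

theorem stM_apply (M MI X : Matrix ι ι F) : stM M MI X = MI * Xᵀ * M := rfl

theorem stM_one {M MI : Matrix ι ι F} (h : MI * M = 1) : stM M MI 1 = 1 := by
  simp [stM_apply, h]

theorem stM_mul {M MI : Matrix ι ι F} (h : M * MI = 1) (a b : Matrix ι ι F) :
    stM M MI (a * b) = stM M MI b * stM M MI a := by
  simp only [stM_apply, Matrix.transpose_mul]
  calc MI * (bᵀ * aᵀ) * M = MI * bᵀ * (M * MI) * aᵀ * M := by rw [h, mul_one]; simp only [mul_assoc]
    _ = _ := by simp only [mul_assoc]

theorem stM_st {M MI : Matrix ι ι F} (h1 : M * MI = 1) (h2 : MI * M = 1) (ht : Mᵀ = M) (a : Matrix ι ι F) :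
    stM M MI (stM M MI a) = a := by
  simp only [stM_apply, Matrix.transpose_mul, Matrix.transpose_transpose, ht]
  have h3 : MIᵀ = MI := by
    have h4 : MIᵀ * M = 1 := by
      have := congrArg Matrix.transpose h1
      rwa [Matrix.transpose_mul, ht, Matrix.transpose_one] at this
    calc MIᵀ = MIᵀ * (M * MI) := by rw [h1, mul_one]
      _ = (MIᵀ * M) * MI := (mul_assoc ..).symm
      _ = MI := by rw [h4, one_mul]
  rw [h3]
  calc MI * (M * (a * MI)) * M = (MI * M) * a * (MI * M) := by simp only [mul_assoc]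
    _ = a := by rw [h2, one_mul, mul_one]

theorem stM_smul (M MI : Matrix ι ι F) (c : F) (X : Matrix ι ι F) : stM M MI (c • X) = c • stM M MI X := by
  simp only [stM_apply, Matrix.transpose_smul, Matrix.mul_smul, Matrix.smul_mul]

theorem dot_adj {M MI : Matrix ι ι F} (h : M * MI = 1) (X : Matrix ι ι F) (x y : ι → F) :
    (X *ᵥ x) ⬝ᵥ (M *ᵥ y) = x ⬝ᵥ (M *ᵥ (stM M MI X *ᵥ y)) := by
  rw [stM_apply, Matrix.mulVec_mulVec, ← mul_assoc, ← mul_assoc, h, one_mul, ← Matrix.mulVec_mulVec]
  rw [Matrix.dotProduct_mulVec x Xᵀ, Matrix.vecMul_transpose]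

/-- Conjugacy in `GL` implies conjugacy in the isometry group. -/
theorem orth_conj [Fintype F] {n : ℕ} (Q : QuadraticForm F (Fin n → F))
    (hQ : (QuadraticMap.polarBilin Q).Nondegenerate) (A B : Matrix (Fin n) (Fin n) F)
    (hAQ : ∀ v, Q (A *ᵥ v) = Q v) (hBQ : ∀ v, Q (B *ᵥ v) = Q v)
    {d : ℕ} (hd : (d : F) ≠ 0) (hdodd : Odd d) (hAd : A ^ d = 1)
    (G Gi : Matrix (Fin n) (Fin n) F) (hGGi : G * Gi = 1) (hGA : G * A = B * G) :
    ∃ g gi : Matrix (Fin n) (Fin n) F, g * gi = 1 ∧ gi * g = 1 ∧ (∀ v, Q (g *ᵥ v) = Q v) ∧ g * A = B * g := by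
  classical
  have hGiG : Gi * G = 1 := mul_eq_one_comm.1 hGGi
  obtain ⟨M, hM⟩ := Cfsg.Agent.Lib.JordanQuad.exists_polar_matrix Q
  obtain ⟨hMu, hMt, hMA⟩ := Cfsg.Agent.Lib.JordanQuad.polar_props hQ hM A hAQ
  obtain ⟨-, -, hMB⟩ := Cfsg.Agent.Lib.JordanQuad.polar_props hQ hM B hBQ
  set MI := M⁻¹ with hMIdef
  have hMI : M * MI = 1 := Matrix.mul_nonsing_inv _ hMu
  have hIM : MI * M = 1 := Matrix.nonsing_inv_mul _ hMu
  set st := stM M MI with hstdef
  have hst1 : st 1 = 1 := stM_one hIM
  have hstm : ∀ a b, st (a * b) = st b * st a := stM_mul hMI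
  have hst2 : ∀ a, st (st a) = a := stM_st hMI hIM hMt
  have hsts : ∀ (c : F) X, st (c • X) = c • st X := stM_smul M MI
  set P := QuadraticMap.polarBilin Q with hPdef
  have hPadj : ∀ X x y, P (X *ᵥ x) y = P x (st X *ᵥ y) := by
    intro X x y
    rw [← hM, ← hM]
    exact dot_adj hMI X x y
  have hsA : st A * A = 1 := by
    rw [hstdef, stM_apply]
    calc MI * Aᵀ * M * A = MI * (Aᵀ * M * A) := by simp only [mul_assoc]
      _ = 1 := by rw [hMA, hIM]
  have hsB : st B * B = 1 := by
    rw [hstdef, stM_apply]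
    calc MI * Bᵀ * M * B = MI * (Bᵀ * M * B) := by simp only [mul_assoc]
      _ = 1 := by rw [hMB, hIM]
  have has : A * st A = 1 := mul_eq_one_comm.1 hsA
  have hbs : B * st B = 1 := mul_eq_one_comm.1 hsB
  set h := st G * G with hh
  have hStar : st G * B = A * st G := by
    have h1 : st A * st G = st G * st B := by
      rw [← hstm, ← hstm, hGA]
    calc st G * B = (A * st A) * st G * B := by rw [has, one_mul]
      _ = A * (st A * st G) * B := by simp only [mul_assoc]
      _ = A * (st G * st B) * B := by rw [h1]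
      _ = A * st G * (st B * B) := by simp only [mul_assoc]
      _ = A * st G := by rw [hsB, mul_one]
  have hcomm : Commute h A := by
    show st G * G * A = A * (st G * G)
    calc st G * G * A = st G * (G * A) := by rw [mul_assoc]
      _ = st G * (B * G) := by rw [hGA]
      _ = (st G * B) * G := by rw [mul_assoc]
      _ = A * st G * G := by rw [hStar]
      _ = A * (st G * G) := by rw [mul_assoc]
  have hSh : st h = h := by
    rw [hh, hstm, hst2]
  set Hi := Gi * st Gi with hHidef
  have hhw : h * Hi = 1 := by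
    calc h * Hi = st G * (G * Gi) * st Gi := by rw [hh, hHidef]; simp only [mul_assoc]
      _ = st (Gi * G) := by rw [hGGi, mul_one, hstm]
      _ = 1 := by rw [hGiG, hst1]
  have hwh : Hi * h = 1 := mul_eq_one_comm.1 hhw
  obtain ⟨host, r, hr, hrA, hrh, hrs⟩ := exists_r st hst1 hstm hst2 hsts A h Hi hd hAd hsA hSh hcomm hhw
  -- the idempotent
  set u := A * A with hu
  have hud : u ^ d = 1 := by
    rw [hu, (Commute.refl A).mul_pow, hAd, one_mul]
  set o := avg d u with ho
  set W := avgW d u with hW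
  have hoo : o * o = o := avg_idem hd hud
  have hwW : (u - 1) * W = 1 - o := sub_one_mul_avgW hd hud
  have hcomA : ∀ X : Matrix (Fin n) (Fin n) F, Commute X A → Commute X o ∧ Commute X W := by
    intro X hX
    have hXu : Commute X u := hX.mul_right hX
    constructor
    · apply Commute.smul_right
      exact Commute.sum_right _ _ _ (fun i _ => hXu.pow_right i)
    · apply Commute.smul_right
      exact Commute.sum_right _ _ _ (fun i _ => (hXu.pow_right i).smul_right _)
  have hoA : Commute o A := (hcomA A (Commute.refl A)).1.symm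
  have hWA : Commute W A := (hcomA A (Commute.refl A)).2.symm
  have hoh : Commute o h := (hcomA h hcomm).1.symm
  have hoW : Commute o W := by
    apply Commute.symm
    exact (hcomA W hWA).1
  have hAo : A * o = o := by
    obtain ⟨k, hk⟩ := hdodd
    have h1 : u ^ (k + 1) = A := by
      rw [hu, (Commute.refl A).mul_pow, ← pow_add]
      have h2 : A ^ (k + 1 + (k + 1)) = A ^ d * A := by
        rw [hk, ← pow_succ]
        congr 1
        omega
      rw [h2, hAd, one_mul]
    have h3 : ∀ j : ℕ, u ^ j * o = o := by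
      intro j
      induction j with
      | zero => simp
      | succ j ih => rw [pow_succ, mul_assoc, mul_avg hud, ih]
    conv_lhs => rw [← h1]
    exact h3 _
  set q := 1 - o with hq
  have hqq : q * q = q := by
    rw [hq, sub_mul, one_mul, mul_sub, mul_one, hoo, sub_self, sub_zero]
  have hqo : q * o = 0 := by rw [hq, sub_mul, one_mul, hoo, sub_self]
  have hoq : o * q = 0 := by rw [hq, mul_sub, mul_one, hoo, sub_self]
  have hoHi : o * Hi = Hi * o := by
    calc o * Hi = (Hi * h) * o * Hi := by rw [hwh, one_mul]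
      _ = Hi * (h * o) * Hi := by simp only [mul_assoc]
      _ = Hi * (o * h) * Hi := by rw [hoh.eq]
      _ = Hi * o * (h * Hi) := by simp only [mul_assoc]
      _ = Hi * o := by rw [hhw, mul_one]
  have hqHi : q * Hi = Hi * q := by
    rw [hq, sub_mul, mul_sub, one_mul, mul_one, hoHi]
  set Z' := q * Hi + o with hZ'
  have hZ'Z : Z' * (q * h + o) = 1 := by
    rw [hZ']
    simp only [add_mul, mul_add]
    have e1 : q * Hi * (q * h) = q := by
      calc q * Hi * (q * h) = q * (Hi * q) * h := by simp only [mul_assoc]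
        _ = q * (q * Hi) * h := by rw [hqHi]
        _ = (q * q) * (Hi * h) := by simp only [mul_assoc]
        _ = q := by rw [hqq, hwh, mul_one]
    have e2 : q * Hi * o = 0 := by rw [mul_assoc, ← hoHi, ← mul_assoc, hqo, zero_mul]
    have e3 : o * (q * h) = 0 := by rw [← mul_assoc, hoq, zero_mul]
    rw [e1, e2, e3, hoo, hq]
    noncomm_ring
  have hZZ' : (q * h + o) * Z' = 1 := mul_eq_one_comm.1 hZ'Z
  set s := Z' * st r with hs
  have hsr : s * r = 1 := by
    rw [hs, mul_assoc, hr, hZ'Z]
  have hrs' : r * s = 1 := mul_eq_one_comm.1 hsr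
  have hsA' : s * A = A * s := by
    calc s * A = s * (A * (r * s)) := by rw [hrs', mul_one]
      _ = s * (A * r * s) := by rw [mul_assoc A]
      _ = s * (r * A * s) := by rw [hrA.eq.symm]
      _ = (s * r) * (A * s) := by simp only [mul_assoc]
      _ = A * s := by rw [hsr, one_mul]
  have hsh' : s * h = h * s := by
    calc s * h = s * (h * (r * s)) := by rw [hrs', mul_one]
      _ = s * (h * r * s) := by rw [mul_assoc h]
      _ = s * (r * h * s) := by rw [hrh.eq.symm]
      _ = (s * r) * (h * s) := by simp only [mul_assoc]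
      _ = h * s := by rw [hsr, one_mul]
  have hss : st s * s = Z' := by
    have h1 : st s * s * (q * h + o) = 1 := by
      rw [← hr, ← hrs.eq]
      calc st s * s * (r * st r) = st s * (s * r) * st r := by simp only [mul_assoc]
        _ = st (r * s) := by rw [hsr, mul_one, hstm r s]
        _ = 1 := by rw [hrs', hst1]
    calc st s * s = st s * s * ((q * h + o) * Z') := by rw [hZZ', mul_one]
      _ = (st s * s * (q * h + o)) * Z' := (mul_assoc ..).symm
      _ = Z' := by rw [h1, one_mul]
  set w := G * s with hw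
  have hwA : w * A = B * w := by
    calc G * s * A = G * (s * A) := mul_assoc ..
      _ = G * (A * s) := by rw [hsA']
      _ = (G * A) * s := (mul_assoc ..).symm
      _ = B * G * s := by rw [hGA]
      _ = B * (G * s) := mul_assoc ..
  have hstw : st w * w = q + o * h := by
    rw [hw, hstm]
    calc st s * st G * (G * s) = st s * (h * s) := by rw [hh]; simp only [mul_assoc]
      _ = (st s * s) * h := by rw [← hsh']; simp only [mul_assoc]
      _ = q + o * h := by rw [hss, hZ', add_mul, mul_assoc, hwh, mul_one]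
  set wi := r * Gi with hwi
  have hwiw : wi * w = 1 := by
    calc r * Gi * (G * s) = r * (Gi * G) * s := by simp only [mul_assoc]
      _ = 1 := by rw [hGiG, mul_one, hrs']
  have hwwi : w * wi = 1 := mul_eq_one_comm.1 hwiw
  have hPo : ∀ x y, P (o *ᵥ x) y = P x (o *ᵥ y) := by
    intro x y
    rw [hPadj, host]
  have hPw : ∀ x y, o *ᵥ x = 0 → P (w *ᵥ x) (w *ᵥ y) = P x y := by
    intro x y hx
    rw [hPadj, Matrix.mulVec_mulVec, hstw, Matrix.add_mulVec, map_add, hq, Matrix.sub_mulVec, Matrix.one_mulVec,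
      map_sub, ← hPo x y, hx, ← Matrix.mulVec_mulVec, ← hPo x, hx]
    simp
  have hoAz : ∀ z, o *ᵥ z = 0 → o *ᵥ (A *ᵥ z) = 0 := by
    intro z hz
    rw [Matrix.mulVec_mulVec, hoA.eq, ← Matrix.mulVec_mulVec, hz, Matrix.mulVec_zero]
  have hwAv : ∀ v, w *ᵥ (A *ᵥ v) = B *ᵥ (w *ᵥ v) := by
    intro v
    rw [Matrix.mulVec_mulVec, Matrix.mulVec_mulVec, hwA]
  have hQw : ∀ z, o *ᵥ z = 0 → Q (w *ᵥ z) = Q z := by
    intro z hz
    by_cases h2 : (2 : F) = 0
    · obtain ⟨x', hx'⟩ : ∃ x', x' = ((A + 1) * W) *ᵥ z := ⟨_, rfl⟩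
      have hox' : o *ᵥ x' = 0 := by
        rw [hx', Matrix.mulVec_mulVec, ← mul_assoc, (hoA.add_right (Commute.one_right o)).eq, mul_assoc, hoW.eq,
          ← mul_assoc, ← Matrix.mulVec_mulVec, hz, Matrix.mulVec_zero]
      have hneg : ∀ v : Fin n → F, v + v = 0 := by
        intro v
        ext i
        simp only [Pi.add_apply, Pi.zero_apply]
        rw [← two_mul, h2, zero_mul]
      have hzx : z = A *ᵥ x' + x' := by
        have h3 : (A - 1) *ᵥ x' = z := by
          rw [hx', Matrix.mulVec_mulVec, ← mul_assoc]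
          have h4 : (A - 1) * (A + 1) = u - 1 := by
            rw [hu]
            noncomm_ring
          rw [h4, hwW, Matrix.sub_mulVec, Matrix.one_mulVec, hz, sub_zero]
        rw [Matrix.sub_mulVec, Matrix.one_mulVec] at h3
        rw [← h3, sub_eq_add_neg]
        congr 1
        exact neg_eq_of_add_eq_zero_left (hneg x')
      have hQQ : ∀ t : F, t + t = 0 := by
        intro t
        rw [← two_mul, h2, zero_mul]
      have e1 : Q z = P (A *ᵥ x') x' := by
        rw [hzx, Cfsg.Agent.Lib.Witt.Q_add, hAQ, hQQ, zero_add]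
      have e2 : Q (w *ᵥ z) = P (A *ᵥ x') x' := by
        rw [hzx, Matrix.mulVec_add, Cfsg.Agent.Lib.Witt.Q_add, hwAv, hBQ, hQQ, zero_add, ← hwAv,
          hPw _ _ (hoAz x' hox')]
      rw [e1, e2]
    · have h3 : 2 * Q (w *ᵥ z) = 2 * Q z := by
        rw [← Cfsg.Agent.Lib.Witt.pb_self, ← Cfsg.Agent.Lib.Witt.pb_self]
        exact hPw z z hz
      exact mul_left_cancel₀ h2 h3
  let V₁ : Submodule F (Fin n → F) := LinearMap.ker (Matrix.mulVecLin o)
  have hV₁ : ∀ x : V₁, o *ᵥ (x : Fin n → F) = 0 := fun x => x.2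
  let f : V₁ →ₗ[F] (Fin n → F) := (Matrix.mulVecLin w).comp V₁.subtype
  have hf : Function.Injective f := by
    intro x y hxy
    have h3 : w *ᵥ (x : Fin n → F) = w *ᵥ (y : Fin n → F) := hxy
    have h4 := congrArg (wi *ᵥ ·) h3
    simp only [Matrix.mulVec_mulVec, hwiw, Matrix.one_mulVec] at h4
    exact Subtype.ext h4
  have hT : ∀ x x' : V₁, Q (f x + f x') = Q ((x : Fin n → F) + x') := by
    intro x x'
    show Q (w *ᵥ (x : Fin n → F) + w *ᵥ (x' : Fin n → F)) = _
    rw [← Matrix.mulVec_add]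
    apply hQw
    rw [Matrix.mulVec_add, hV₁, hV₁, add_zero]
  obtain ⟨g, hg1, hg2⟩ := Cfsg.Agent.Lib.Witt.extend (Cfsg.Agent.Lib.Witt.quad_step Q hQ) V₁ f hf hT
  have hgQ : ∀ x, Q (g x) = Q x := by
    intro x
    have h3 := hg1 x 0
    simpa using h3
  have hgP : ∀ x y, P (g x) (g y) = P x y :=
    Cfsg.Agent.Lib.Witt.pb_of_pres Q (L := g.toLinearMap) hgQ
  have hgw : ∀ x, o *ᵥ x = 0 → g x = w *ᵥ x := fun x hx => hg2 ⟨x, hx⟩
  have hp1 : ∀ x, o *ᵥ x = 0 → g (A *ᵥ x) = B *ᵥ g x := by
    intro x hx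
    rw [hgw _ (hoAz x hx), hgw x hx, hwAv]
  have hPB : ∀ x y, P (B *ᵥ x) (B *ᵥ y) = P x y := by
    intro x y
    rw [hPadj, Matrix.mulVec_mulVec, hsB, Matrix.one_mulVec]
  have hp2 : ∀ v, B *ᵥ g (o *ᵥ v) = g (o *ᵥ v) := by
    intro v
    have hz : ∀ y, P (B *ᵥ g (o *ᵥ v) - g (o *ᵥ v)) y = 0 := by
      intro y
      obtain ⟨y', hy'⟩ : ∃ y', y = B *ᵥ (w *ᵥ y') := by
        refine ⟨wi *ᵥ (st B *ᵥ y), ?_⟩
        rw [Matrix.mulVec_mulVec _ w wi, hwwi, Matrix.one_mulVec, Matrix.mulVec_mulVec _ B (st B), hbs, Matrix.one_mulVec]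
      rw [map_sub, LinearMap.sub_apply, hy', hPB, ← hwAv]
      have hoz : o *ᵥ (y' - A *ᵥ y') = 0 := by
        rw [Matrix.mulVec_sub, Matrix.mulVec_mulVec, hoA.eq, hAo, sub_self]
      rw [← map_sub, ← Matrix.mulVec_sub, ← hgw _ hoz, hgP, hPo, hoz]
      simp
    have h3 := hQ.1 _ hz
    exact sub_eq_zero.1 h3
  have hI : ∀ v, g (A *ᵥ v) = B *ᵥ g v := by
    intro v
    have h1 : o *ᵥ (v - o *ᵥ v) = 0 := by
      rw [Matrix.mulVec_sub, Matrix.mulVec_mulVec, hoo, sub_self]
    have h2 : v = (v - o *ᵥ v) + o *ᵥ v := by abel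
    have h3 : A *ᵥ (o *ᵥ v) = o *ᵥ v := by rw [Matrix.mulVec_mulVec, hAo]
    conv_lhs => rw [h2, Matrix.mulVec_add, map_add, hp1 _ h1, h3, ← hp2 v]
    conv_rhs => rw [h2, map_add, Matrix.mulVec_add]
  refine ⟨LinearMap.toMatrix' g.toLinearMap, LinearMap.toMatrix' g.symm.toLinearMap, ?_, ?_, ?_, ?_⟩
  · rw [← LinearMap.toMatrix'_comp]
    have : g.toLinearMap ∘ₗ g.symm.toLinearMap = LinearMap.id := by
      ext1 v
      simp
    rw [this, LinearMap.toMatrix'_id]
  · rw [← LinearMap.toMatrix'_comp]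
    have : g.symm.toLinearMap ∘ₗ g.toLinearMap = LinearMap.id := by
      ext1 v
      simp
    rw [this, LinearMap.toMatrix'_id]
  · intro v
    rw [LinearMap.toMatrix'_mulVec]
    exact hgQ v
  · apply Matrix.mulVec_injective
    funext v
    rw [← Matrix.mulVec_mulVec, ← Matrix.mulVec_mulVec, LinearMap.toMatrix'_mulVec, LinearMap.toMatrix'_mulVec]
    exact hI v

end Cfsg.Agent.Lib.OrthSemi
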