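/-
Quadratic forms polarising to a symplectic form in characteristic two: the isometry group of `Q` is maximal in the
symplectic group.
-/
import Mathlib
import Cfsg.Prelude.Def_GeometricClasses
import Cfsg.Agent.Lib.SymplecticTv

set_option autoImplicit false
set_option linter.unusedSectionVars false
set_option linter.unusedSimpArgs false

namespace Cfsg.Agent.Lib.OrthogChar2

open scoped MatrixGroups Matrix
open Cfsg Cfsg.Geo Cfsg.Agent.Lib.Transvection Cfsg.Agent.Lib.SymplecticTv

variable {ι : Type} [Fintype ι] [DecidableEq ι] {F : Type*} [Field F]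
  {f : (ι → F) → (ι → F) → F} {Q : (ι → F) → F}

/-- The standing assumptions: `Q` is a quadratic form with polar form the symplectic form `f`, characteristic two,
all elements squares. -/
structure Setup (f : (ι → F) → (ι → F) → F) (Q : (ι → F) → F) : Prop where
  hf : IsSymplecticForm f
  smul : ∀ (c : F) (v : ι → F), Q (c • v) = c ^ 2 * Q v
  polar : ∀ u v, QuadraticMap.polar Q u v = f u v
  two : (2 : F) = 0
  sq : ∀ a : F, ∃ s : F, s ^ 2 = a
  card : 7 ≤ Fintype.card ι

namespace Setup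

variable (S : Setup f Q)
include S

theorem add (u v : ι → F) : Q (u + v) = Q u + Q v + f u v := by
  have := S.polar u v
  rw [QuadraticMap.polar] at this
  rw [← this]
  ring

theorem neg_eq (a : F) : -a = a := by
  have h : a + a = 0 := by
    have : a + a = 2 * a := by ring
    rw [this, S.two, zero_mul]
  exact neg_eq_of_add_eq_zero_left h

theorem sub_eq (a b : F) : a - b = a + b := by
  rw [sub_eq_add_neg, S.neg_eq]

theorem add_self (a : F) : a + a = 0 := by
  have : a + a = 2 * a := by ring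
  rw [this, S.two, zero_mul]

theorem Q_zero : Q 0 = 0 := by
  have := S.smul 0 0
  simpa using this

/-- `x ↦ x + f x w • w`. -/
noncomputable def T (w : ι → F) : GL ι F := stv S.hf w 1

@[simp] theorem T_mulVec (w x : ι → F) :
    ((S.T w : GL ι F) : Matrix ι ι F) *ᵥ x = x + f x w • w := by
  simp [T]

theorem T_isIsom (w : ι → F) : IsIsom f (S.T w) := stv_isIsom S.hf w 1

theorem Q_T (w x : ι → F) :
    Q (((S.T w : GL ι F) : Matrix ι ι F) *ᵥ x) = Q x + (f x w) ^ 2 * (Q w + 1) := by
  rw [T_mulVec, S.add, S.smul, S.hf.bilinear.smul_right]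
  ring

theorem Q_T_of_one {w : ι → F} (hw : Q w = 1) (x : ι → F) :
    Q (((S.T w : GL ι F) : Matrix ι ι F) *ᵥ x) = Q x := by
  rw [S.Q_T, hw, S.add_self, mul_zero, add_zero]

/-- The group of elements of `Sp` preserving `Q` up to a scalar. -/
abbrev SpQ (f : (ι → F) → (ι → F) → F) (Q : (ι → F) → F) : Subgroup (GL ι F) :=
  quadSimilarityGroup Q ⊓ preserving (glToMat ι F) f

omit S in
theorem mem_sp_iff {g : GL ι F} : g ∈ preserving (glToMat ι F) f ↔ IsIsom f g := Iff.rfl

theorem mem_SpQ_of (g : GL ι F) (hg : IsIsom f g) (hQ : ∀ x, Q ((g : Matrix ι ι F) *ᵥ x) = Q x) :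
    g ∈ SpQ f Q :=
  ⟨⟨1, fun v => by simpa using hQ v⟩, hg⟩

theorem exists_ne_both {a b : ι → F} (ha : a ≠ 0) (hb : b ≠ 0) :
    ∃ z, f a z ≠ 0 ∧ f b z ≠ 0 := by
  obtain ⟨y₁, hy₁⟩ := exists_ne_right S.hf ha
  obtain ⟨y₂, hy₂⟩ := exists_ne_right S.hf hb
  by_cases h3 : f b y₁ = 0
  · by_cases h4 : f a y₂ = 0
    · refine ⟨y₁ + y₂, ?_, ?_⟩
      · rw [S.hf.bilinear.add_right, h4, add_zero]
        exact hy₁
      · rw [S.hf.bilinear.add_right, h3, zero_add]
        exact hy₂
    · exact ⟨y₂, h4, hy₂⟩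
  · exact ⟨y₁, hy₁, h3⟩

/-- A non-isotropic subspace carries all values of `Q`. -/
theorem exists_Q_eq_on {W : Submodule F (ι → F)} (hW : ∃ y ∈ W, ∃ y' ∈ W, f y y' ≠ 0) (r : F) :
    ∃ t ∈ W, Q t = r := by
  obtain ⟨y, hy, y', hy', hyy⟩ := hW
  obtain ⟨s₀, hs₀, hQs⟩ : ∃ s₀ ∈ W, Q s₀ ≠ 0 := by
    by_contra hcon
    push Not at hcon
    have h1 := hcon y hy
    have h2 := hcon y' hy'
    have h3 := hcon (y + y') (W.add_mem hy hy')
    rw [S.add, h1, h2] at h3
    apply hyy
    simpa using h3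
  obtain ⟨c, hc⟩ := S.sq (r / Q s₀)
  refine ⟨c • s₀, W.smul_mem _ hs₀, ?_⟩
  rw [S.smul, hc]
  field_simp

/-- Lower bound for triple intersections of perps. -/
theorem exists_ne_perp2 (a b : ι → F) :
    ∃ y ∈ perp S.hf a ⊓ perp S.hf b, ∃ y' ∈ perp S.hf a ⊓ perp S.hf b, f y y' ≠ 0 := by
  apply exists_ne_of_finrank S.hf
  have h1 := finrank_perp_inf S.hf ⊤ a
  have h2 := finrank_perp_inf S.hf (⊤ ⊓ perp S.hf a) b
  rw [top_inf_eq] at h1 h2
  rw [finrank_top, Module.finrank_fintype_fun_eq_card] at h1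
  have := S.card
  omega

theorem exists_ne_perp3 (a b c : ι → F) :
    ∃ y ∈ perp S.hf a ⊓ perp S.hf b ⊓ perp S.hf c, ∃ y' ∈ perp S.hf a ⊓ perp S.hf b ⊓ perp S.hf c,
      f y y' ≠ 0 := by
  apply exists_ne_of_finrank S.hf
  have h1 := finrank_perp_inf S.hf ⊤ a
  have h2 := finrank_perp_inf S.hf (⊤ ⊓ perp S.hf a) b
  have h3 := finrank_perp_inf S.hf (⊤ ⊓ perp S.hf a ⊓ perp S.hf b) c
  rw [top_inf_eq] at h1 h2 h3
  rw [finrank_top, Module.finrank_fintype_fun_eq_card] at h1
  have := S.card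
  omega

/-- The one-step move in the orthogonal group. -/
theorem exists_O_step {z z' : ι → F} (hQ : Q z = Q z') (h : f z z' ≠ 0) :
    ∃ w, Q w = 1 ∧ ((S.T w : GL ι F) : Matrix ι ι F) *ᵥ z = z' := by
  obtain ⟨s, hs⟩ := S.sq (f z z')
  have hs0 : s ≠ 0 := by
    rintro rfl
    apply h
    rw [← hs]
    ring
  refine ⟨s⁻¹ • (z + z'), ?_, ?_⟩
  · rw [S.smul, S.add, hQ, S.add_self, zero_add, ← hs]
    field_simp
  · rw [T_mulVec, S.hf.bilinear.smul_right, S.hf.bilinear.add_right, S.hf.alternating, zero_add,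
      smul_smul, ← hs]
    have : s⁻¹ * s ^ 2 * s⁻¹ = 1 := by field_simp
    rw [this, one_smul, ← add_assoc]
    have h2 : z + z = 0 := by
      ext i
      simp [S.add_self]
    rw [h2, zero_add]

/-- `Q`-isometries are transitive on non-zero vectors of the same value. -/
theorem exists_O_move {z z' : ι → F} (hz : z ≠ 0) (hz' : z' ≠ 0) (hQ : Q z = Q z') :
    ∃ h ∈ SpQ f Q, (h : Matrix ι ι F) *ᵥ z = z' := by
  have hT : ∀ {w : ι → F}, Q w = 1 → S.T w ∈ SpQ f Q := fun {w} hw =>
    S.mem_SpQ_of _ (S.T_isIsom w) (S.Q_T_of_one hw)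
  by_cases h : f z z' = 0
  · -- intermediate vector
    obtain ⟨v, hv₁, hv₂⟩ := S.exists_ne_both hz hz'
    obtain ⟨t, ht, hQt⟩ := S.exists_Q_eq_on (S.exists_ne_perp3 z z' v) (Q z - Q v)
    have ht₁ : f t z = 0 := (mem_perp S.hf _ _).1 ht.1.1
    have ht₂ : f t z' = 0 := (mem_perp S.hf _ _).1 ht.1.2
    have ht₃ : f t v = 0 := (mem_perp S.hf _ _).1 ht.2
    have hzt : f z t = 0 := by rw [S.hf.skew, ht₁, neg_zero]
    have hz't : f z' t = 0 := by rw [S.hf.skew, ht₂, neg_zero]
    have hvt : f v t = 0 := by rw [S.hf.skew, ht₃, neg_zero]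
    set z₁ := v + t with hz₁
    have hQz₁ : Q z₁ = Q z := by
      rw [hz₁, S.add, hQt, hvt]
      ring
    have h₁ : f z z₁ ≠ 0 := by
      rw [hz₁, S.hf.bilinear.add_right, hzt, add_zero]
      exact hv₁
    have h₂ : f z₁ z' ≠ 0 := by
      rw [S.hf.skew, hz₁, S.hf.bilinear.add_right, hz't, add_zero]
      exact neg_ne_zero.2 hv₂
    obtain ⟨w₁, hw₁, hw₁'⟩ := S.exists_O_step hQz₁.symm h₁
    obtain ⟨w₂, hw₂, hw₂'⟩ := S.exists_O_step (hQz₁.trans hQ) h₂
    exact ⟨S.T w₂ * S.T w₁, (SpQ f Q).mul_mem (hT hw₂) (hT hw₁), by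
      rw [gl_mul_mulVec, hw₁', hw₂']⟩
  · obtain ⟨w, hw, hw'⟩ := S.exists_O_step hQ h
    exact ⟨S.T w, hT hw, hw'⟩

/-- Existence of a pair with prescribed values. -/
theorem exists_pair (c a : F) (ha : a ≠ 0) :
    ∃ x y : ι → F, Q x = 1 ∧ Q y = c ∧ f x y = a := by
  obtain ⟨x, -, hx⟩ := S.exists_Q_eq_on (W := ⊤) (by
    obtain ⟨y, _, y', _, h⟩ := S.exists_ne_perp2 0 0
    exact ⟨y, Submodule.mem_top, y', Submodule.mem_top, h⟩) 1
  have hx0 : x ≠ 0 := by
    rintro rfl
    rw [S.Q_zero] at hx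
    exact zero_ne_one hx
  obtain ⟨y₁, hy₁⟩ := exists_ne_right S.hf hx0
  set y₀ := (a / f x y₁) • y₁ with hy₀
  have hxy₀ : f x y₀ = a := by
    rw [hy₀, S.hf.bilinear.smul_right]
    field_simp
  obtain ⟨t, ht, hQt⟩ := S.exists_Q_eq_on (S.exists_ne_perp2 x y₀) (c - Q y₀)
  have ht₁ : f t x = 0 := (mem_perp S.hf _ _).1 ht.1
  have ht₂ : f t y₀ = 0 := (mem_perp S.hf _ _).1 ht.2
  refine ⟨x, y₀ + t, hx, ?_, ?_⟩
  · rw [S.add, hQt, S.hf.skew, ht₂, neg_zero]
    ring
  · rw [S.hf.bilinear.add_right, hxy₀, S.hf.skew x t, ht₁, neg_zero, add_zero]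

/-- An element of `Sp` not preserving `Q` moves the value of `Q` away from `1` on a vector of value `1`. -/
theorem exists_value_move {g : GL ι F} (hg : IsIsom f g)
    (hgQ : ¬ ∀ x, Q ((g : Matrix ι ι F) *ᵥ x) = Q x) :
    ∃ w, Q w = 1 ∧ Q ((g : Matrix ι ι F) *ᵥ w) ≠ 1 := by
  classical
  -- the defect of `g`
  let l : (ι → F) → F := fun x => Q ((g : Matrix ι ι F) *ᵥ x) + Q x
  have hl_add : ∀ x y, l (x + y) = l x + l y := by
    intro x y
    simp only [l]
    rw [Matrix.mulVec_add, S.add, S.add, hg]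
    have : ∀ a b c d e : F, a + b + e + (c + d + e) = a + c + (b + d) + (e + e) := by
      intros
      ring
    rw [this, S.add_self, add_zero]
  have hl_smul : ∀ (c : F) x, l (c • x) = c ^ 2 * l x := by
    intro c x
    simp only [l]
    rw [Matrix.mulVec_smul, S.smul, S.smul]
    ring
  have hl_zero : l 0 = 0 := by
    simpa using hl_smul 0 0
  let K : Submodule F (ι → F) :=
    { carrier := {x | l x = 0}
      add_mem' := fun {a b} ha hb => by
        change l (a + b) = 0
        rw [hl_add, show l a = 0 from ha, show l b = 0 from hb, add_zero]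
      zero_mem' := hl_zero
      smul_mem' := fun c x hx => by
        change l (c • x) = 0
        rw [hl_smul, show l x = 0 from hx, mul_zero] }
  have hK : ∀ x, x ∈ K ↔ l x = 0 := fun x => Iff.rfl
  -- a vector with non-zero defect
  obtain ⟨v, hv⟩ : ∃ v, l v ≠ 0 := by
    by_contra hcon
    push Not at hcon
    apply hgQ
    intro x
    have := hcon x
    simp only [l] at this
    rw [← S.neg_eq (Q x)]
    exact eq_neg_of_add_eq_zero_left this
  -- `K` has codimension at most one
  have hsup : K ⊔ Submodule.span F {v} = ⊤ := by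
    rw [eq_top_iff]
    intro x _
    obtain ⟨c, hc⟩ := S.sq (l x / l v)
    have h1 : x + c • v ∈ K := by
      rw [hK, hl_add, hl_smul, hc, div_mul_cancel₀ _ hv, S.add_self]
    have h2 : x = (x + c • v) + c • v := by
      rw [add_assoc, ← add_smul, S.add_self, zero_smul, add_zero]
    rw [h2]
    exact Submodule.add_mem_sup h1 (Submodule.smul_mem _ _ (Submodule.mem_span_singleton_self v))
  have hfinK : Fintype.card ι ≤ Module.finrank F K + 1 := by
    have h1 := Submodule.finrank_add_le_finrank_add_finrank K (Submodule.span F {v})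
    rw [hsup, finrank_top, Module.finrank_fintype_fun_eq_card] at h1
    have hv0 : v ≠ 0 := by
      rintro rfl
      exact hv hl_zero
    have h2 : Module.finrank F (Submodule.span F {v}) ≤ 1 := (finrank_span_singleton hv0).le
    omega
  -- there is a nonsingular vector with non-zero defect
  obtain ⟨u, hu, hQu⟩ : ∃ u, l u ≠ 0 ∧ Q u ≠ 0 := by
    by_contra hcon
    push Not at hcon
    have hQv := hcon v hv
    obtain ⟨y, hy, y', hy', hyy⟩ := exists_ne_of_finrank S.hf K (by
      have := S.card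
      omega)
    have hval : ∀ t ∈ K, Q t = f v t := by
      intro t ht
      have h1 : l (v + t) ≠ 0 := by
        rw [hl_add, (hK t).1 ht, add_zero]
        exact hv
      have h2 := hcon _ h1
      rw [S.add, hQv, zero_add] at h2
      rw [eq_neg_of_add_eq_zero_left h2, S.neg_eq]
    have h3 := hval (y + y') (K.add_mem hy hy')
    rw [S.add, hval y hy, hval y' hy', S.hf.bilinear.add_right] at h3
    apply hyy
    linear_combination h3
  obtain ⟨c, hc⟩ := S.sq (Q u)⁻¹
  have hc0 : c ≠ 0 := by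
    rintro rfl
    have : (Q u)⁻¹ = 0 := by rw [← hc]; ring
    exact (inv_ne_zero hQu) this
  refine ⟨c • u, ?_, ?_⟩
  · rw [S.smul, hc]
    field_simp
  · intro h
    rw [Matrix.mulVec_smul, S.smul, hc] at h
    apply hu
    simp only [l]
    have h2 : Q ((g : Matrix ι ι F) *ᵥ u) = Q u := by
      field_simp at h
      exact h
    rw [h2, S.add_self]

/-- Every element of `Sp` which rescales `Q` preserves `Q`. -/
theorem isometry_of_mem (g : GL ι F) (hg : g ∈ SpQ f Q) (x : ι → F) :
    Q ((g : Matrix ι ι F) *ᵥ x) = Q x := by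
  obtain ⟨⟨c, hc⟩, hiso⟩ := hg
  have hiso' : IsIsom f g := hiso
  obtain ⟨i⟩ : Nonempty ι := Fintype.card_pos_iff.1 (by have := S.card; omega)
  have hne : (Pi.single i 1 : ι → F) ≠ 0 := by
    intro h
    simpa using congrFun h i
  obtain ⟨y, hy⟩ := exists_ne_right S.hf hne
  have h1 : f (Pi.single i 1) y = c * f (Pi.single i 1) y := by
    have h2 := S.add ((g : Matrix ι ι F) *ᵥ (Pi.single i 1)) ((g : Matrix ι ι F) *ᵥ y)
    rw [← Matrix.mulVec_add, hc, hc, hc, S.add, hiso'] at h2
    linear_combination -h2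
  have hc1 : (c : F) = 1 := by
    have h3 : (1 - (c : F)) * f (Pi.single i 1) y = 0 := by linear_combination h1
    have := (mul_eq_zero.1 h3).resolve_right hy
    exact (sub_eq_zero.1 this).symm
  rw [hc, hc1, one_mul]

/-- The main theorem. -/
theorem isMaximalIn (hgen : preserving (glToMat ι F) f ≤ stvGroup S.hf ⊤) :
    IsMaximalIn (preserving (glToMat ι F) f) (SpQ f Q) := by
  have hTsp : ∀ w, S.T w ∈ preserving (glToMat ι F) f := fun w => S.T_isIsom w
  have hT1 : ∀ {w : ι → F}, Q w = 1 → S.T w ∈ SpQ f Q := fun {w} hw =>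
    S.mem_SpQ_of _ (S.T_isIsom w) (S.Q_T_of_one hw)
  have hconj : ∀ {h : GL ι F}, IsIsom f h → ∀ w : ι → F,
      h * S.T w * h⁻¹ = S.T ((h : Matrix ι ι F) *ᵥ w) := fun {h} hh w =>
    isIsom_conj_stv S.hf hh w 1
  refine ⟨lt_of_le_of_ne inf_le_right ?_, ?_⟩
  · -- properness
    intro hEq
    obtain ⟨u, v, hind, huv⟩ := exists_ind_pair S.hf (by have := S.card; omega)
    -- a non-zero vector with value different from `1`
    obtain ⟨w, hw0, hw1⟩ : ∃ w : ι → F, w ≠ 0 ∧ Q w ≠ 1 := by
      by_cases h1 : Q u = 1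
      · by_cases h2 : Q v = 1
        · refine ⟨u + v, ?_, ?_⟩
          · intro h0
            have := hind 1 1 (by simpa using h0)
            exact one_ne_zero this.1
          · rw [S.add, h1, h2, S.hf.skew, huv, neg_zero, add_zero, S.add_self]
            exact zero_ne_one
        · exact ⟨v, hind.ne_zero_right, h2⟩
      · exact ⟨u, hind.ne_zero_left, h1⟩
    have hmem : S.T w ∈ SpQ f Q := by
      rw [hEq]
      exact hTsp w
    obtain ⟨x, hx⟩ : ∃ x, f x w ≠ 0 := (S.hf.nondegenerate w hw0).1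
    have h1 := S.isometry_of_mem _ hmem x
    rw [S.Q_T] at h1
    have h2 : (f x w) ^ 2 * (Q w + 1) = 0 := by linear_combination h1
    rcases mul_eq_zero.1 h2 with h3 | h3
    · exact hx (by simpa using h3)
    · apply hw1
      rw [← S.neg_eq 1]
      exact eq_neg_of_add_eq_zero_left h3
  · intro M hSM hM
    by_cases hEq : M = SpQ f Q
    · exact Or.inl hEq
    right
    obtain ⟨g, hgM, hg⟩ : ∃ g ∈ M, g ∉ SpQ f Q := by
      by_contra hcon
      push Not at hcon
      exact hEq (le_antisymm hcon hSM)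
    have hgiso : IsIsom f g := hM hgM
    have hgQ : ¬ ∀ x, Q ((g : Matrix ι ι F) *ᵥ x) = Q x := fun h =>
      hg (S.mem_SpQ_of g hgiso h)
    obtain ⟨w, hw, hgw⟩ := S.exists_value_move hgiso hgQ
    set u := (g : Matrix ι ι F) *ᵥ w with hu
    have hw0 : w ≠ 0 := by
      rintro rfl
      rw [S.Q_zero] at hw
      exact zero_ne_one hw
    have hu0 : u ≠ 0 := by
      intro h
      apply hw0
      have := gl_inv_mulVec_mulVec g w
      rw [← hu, h, Matrix.mulVec_zero] at this
      exact this.symm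
    have hTu : S.T u ∈ M := by
      rw [hu, ← hconj hgiso w]
      exact M.mul_mem (M.mul_mem hgM (hSM (hT1 hw))) (M.inv_mem hgM)
    have hSiso : ∀ {h : GL ι F}, h ∈ SpQ f Q → IsIsom f h := fun hh => hh.2
    -- all vectors of value `Q u`, and then all
    have hTval : ∀ {y z : ι → F}, S.T y ∈ M → y ≠ 0 → z ≠ 0 → Q y = Q z → S.T z ∈ M := by
      intro y z hy hy0 hz0 hval
      obtain ⟨h, hh, hh'⟩ := S.exists_O_move hy0 hz0 hval
      rw [← hh', ← hconj (hSiso hh) y]
      exact M.mul_mem (M.mul_mem (hSM hh) hy) (M.inv_mem (hSM hh))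
    have hTall : ∀ z : ι → F, S.T z ∈ M := by
      intro z
      by_cases hz0 : z = 0
      · subst hz0
        have : S.T 0 = 1 := by
          apply gl_ext_mulVec
          intro x
          simp
        rw [this]
        exact M.one_mem
      by_cases hz1 : Q z = 1
      · exact hSM (hT1 hz1)
      -- the main computation
      have hc : Q u + 1 ≠ 0 := fun h => hgw (by
        rw [← S.neg_eq 1]
        exact eq_neg_of_add_eq_zero_left h)
      have hd : Q z + 1 ≠ 0 := fun h => hz1 (by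
        rw [← S.neg_eq 1]
        exact eq_neg_of_add_eq_zero_left h)
      obtain ⟨a, ha⟩ := S.sq ((Q z + 1) / (Q u + 1))
      have ha0 : a ≠ 0 := by
        rintro rfl
        have h3 : (Q z + 1) / (Q u + 1) = 0 := by rw [← ha]; ring
        exact (div_ne_zero hd hc) h3
      obtain ⟨x, y, hx, hy, hxy⟩ := S.exists_pair (Q u) a ha0
      have hx0 : x ≠ 0 := by
        rintro rfl
        rw [S.Q_zero] at hx
        exact zero_ne_one hx
      have hy0 : y ≠ 0 := by
        rintro rfl
        rw [f_zero_right S.hf] at hxy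
        exact ha0 hxy.symm
      have hTy : S.T y ∈ M := hTval hTu hu0 hy0 hy.symm
      set x' := ((S.T y : GL ι F) : Matrix ι ι F) *ᵥ x with hx'
      have hx'0 : x' ≠ 0 := by
        intro h
        apply hx0
        have := gl_inv_mulVec_mulVec (S.T y) x
        rw [← hx', h, Matrix.mulVec_zero] at this
        exact this.symm
      have hTx' : S.T x' ∈ M := by
        rw [hx', ← hconj (S.T_isIsom y) x]
        exact M.mul_mem (M.mul_mem hTy (hSM (hT1 hx))) (M.inv_mem hTy)
      have hQx' : Q x' = Q z := by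
        rw [hx', S.Q_T, hx, hy, hxy, ha, div_mul_cancel₀ _ hc]
        linear_combination S.two
      exact hTval hTx' hx'0 hz0 hQx'
    -- all symplectic transvections
    have hstv : ∀ (a : ι → F) (c : F), stv S.hf a c ∈ M := by
      intro a c
      obtain ⟨d, hd⟩ := S.sq c
      have : stv S.hf a c = S.T (d • a) := by
        apply gl_ext_mulVec
        intro x
        simp only [stv_mulVec, T_mulVec, S.hf.bilinear.smul_right, smul_smul]
        rw [← hd]
        congr 2
        ring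
      rw [this]
      exact hTall _
    exact le_antisymm hM (hgen.trans (stvGroup_le S.hf fun u _ c => hstv u c))

end Setup

end Cfsg.Agent.Lib.OrthogChar2
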