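import Mathlib

/-! Polynomial functions on `ZMod p` with values in a field of characteristic `p`, and
circulant difference operators. -/

set_option autoImplicit false
set_option linter.all false

namespace Cfsg.Agent.Lib.PrimeDeg

open Polynomial

variable {p : ℕ} [hp : Fact p.Prime] {K : Type*} [Field K] [CharP K p]

/-- polynomial function -/
noncomputable def pf (K : Type*) [Field K] (p : ℕ) (P : K[X]) : ZMod p → K :=
  fun j => P.eval (ZMod.cast j : K)

theorem cast_inj {a b : ZMod p} (h : (ZMod.cast a : K) = ZMod.cast b) : a = b :=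
  ZMod.castHom_injective (R := K) (n := p) (by simpa using h)

theorem cast_add' (a b : ZMod p) : (ZMod.cast (a + b) : K) = ZMod.cast a + ZMod.cast b :=
  map_add (ZMod.castHom (dvd_refl p) K) a b

theorem cast_mul' (a b : ZMod p) : (ZMod.cast (a * b) : K) = ZMod.cast a * ZMod.cast b :=
  map_mul (ZMod.castHom (dvd_refl p) K) a b

theorem cast_sub' (a b : ZMod p) : (ZMod.cast (a - b) : K) = ZMod.cast a - ZMod.cast b :=
  map_sub (ZMod.castHom (dvd_refl p) K) a b

theorem cast_one' : (ZMod.cast (1 : ZMod p) : K) = 1 :=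
  map_one (ZMod.castHom (dvd_refl p) K)

theorem cast_zero' : (ZMod.cast (0 : ZMod p) : K) = 0 :=
  map_zero (ZMod.castHom (dvd_refl p) K)

theorem pf_add (P Q : K[X]) : pf K p (P + Q) = pf K p P + pf K p Q := by
  funext j
  simp [pf]

theorem pf_sub (P Q : K[X]) : pf K p (P - Q) = pf K p P - pf K p Q := by
  funext j
  simp [pf]

theorem pf_smul (c : K) (P : K[X]) : pf K p (c • P) = c • pf K p P := by
  funext j
  simp [pf]

theorem pf_mul (P Q : K[X]) (j : ZMod p) : pf K p (P * Q) j = pf K p P j * pf K p Q j := by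
  simp [pf]

theorem pf_pow (P : K[X]) (n : ℕ) (j : ZMod p) : pf K p (P ^ n) j = pf K p P j ^ n := by
  simp [pf]

include hp

theorem eq_zero_of_pf {P : K[X]} (hd : P.natDegree < p) (h : pf K p P = 0) : P = 0 := by
  classical
  apply Polynomial.eq_zero_of_natDegree_lt_card_of_eval_eq_zero' P
    (Finset.univ.image (fun j : ZMod p => (ZMod.cast j : K)))
  · intro x hx
    obtain ⟨j, -, rfl⟩ := Finset.mem_image.1 hx
    exact congrFun h j
  · rw [Finset.card_image_of_injective _ (fun a b h => cast_inj (K := K) h), Finset.card_univ, ZMod.card]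
    exact hd

theorem pf_inj {P Q : K[X]} (hP : P.natDegree < p) (hQ : Q.natDegree < p) (h : pf K p P = pf K p Q) : P = Q := by
  have h1 : P - Q = 0 := by
    apply eq_zero_of_pf (lt_of_le_of_lt (natDegree_sub_le _ _) (max_lt hP hQ))
    rw [pf_sub, h, sub_self]
  exact sub_eq_zero.1 h1

theorem exists_pf (f : ZMod p → K) : ∃ P : K[X], P.natDegree < p ∧ pf K p P = f := by
  classical
  have hinj : Set.InjOn (fun j : ZMod p => (ZMod.cast j : K)) (Finset.univ : Finset (ZMod p)) :=
    fun a _ b _ h => cast_inj (K := K) h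
  refine ⟨Lagrange.interpolate Finset.univ (fun j : ZMod p => (ZMod.cast j : K)) f, ?_, ?_⟩
  · have h1 := Lagrange.degree_interpolate_lt (s := (Finset.univ : Finset (ZMod p))) (v := fun j : ZMod p => (ZMod.cast j : K)) f hinj
    rw [Finset.card_univ, ZMod.card] at h1
    by_cases h0 : Lagrange.interpolate Finset.univ (fun j : ZMod p => (ZMod.cast j : K)) f = 0
    · rw [h0, natDegree_zero]
      exact hp.out.pos
    · exact (natDegree_lt_iff_degree_lt h0).2 h1
  · funext j
    exact Lagrange.eval_interpolate_at_node f hinj (Finset.mem_univ j)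

/-- the polynomial functions of degree less than `r` -/
noncomputable def V (K : Type*) [Field K] (p r : ℕ) [Fact p.Prime] [CharP K p] : Submodule K (ZMod p → K) where
  carrier := {f | ∃ P : K[X], P.degree < r ∧ pf K p P = f}
  add_mem' := by
    rintro _ _ ⟨P, hP, rfl⟩ ⟨Q, hQ, rfl⟩
    exact ⟨P + Q, lt_of_le_of_lt (degree_add_le _ _) (max_lt hP hQ), pf_add _ _⟩
  zero_mem' := ⟨0, by rw [degree_zero]; exact WithBot.bot_lt_coe _, by funext j; simp [pf]⟩
  smul_mem' := by
    rintro c _ ⟨P, hP, rfl⟩
    exact ⟨c • P, lt_of_le_of_lt (degree_smul_le _ _) hP, pf_smul _ _⟩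

theorem mem_V {r : ℕ} {f : ZMod p → K} : f ∈ V K p r ↔ ∃ P : K[X], P.degree < r ∧ pf K p P = f := Iff.rfl

theorem pf_mem_V {r : ℕ} {P : K[X]} (h : P.degree < r) : pf K p P ∈ V K p r := ⟨P, h, rfl⟩

/-- membership is detected by the degree of any representative -/
theorem mem_V_iff {r : ℕ} (hr : r ≤ p) {P : K[X]} (hP : P.natDegree < p) :
    pf K p P ∈ V K p r ↔ P.degree < r := by
  refine ⟨?_, pf_mem_V⟩
  rintro ⟨Q, hQ, he⟩
  have hQ' : Q.natDegree < p := by
    by_cases h0 : Q = 0
    · rw [h0, natDegree_zero]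
      exact hp.out.pos
    · exact lt_of_lt_of_le ((natDegree_lt_iff_degree_lt h0).2 hQ) hr
  rwa [← pf_inj hQ' hP he]

theorem V_top : V K p p = ⊤ := by
  rw [eq_top_iff]
  intro f _
  obtain ⟨P, hP, rfl⟩ := exists_pf (K := K) f
  refine pf_mem_V ?_
  by_cases h0 : P = 0
  · rw [h0, degree_zero]
    exact WithBot.bot_lt_coe _
  · exact (natDegree_lt_iff_degree_lt h0).1 hP

theorem V_zero : V K p 0 = ⊥ := by
  rw [eq_bot_iff]
  rintro _ ⟨P, hP, rfl⟩
  rw [Submodule.mem_bot]
  have : P = 0 := by
    rw [← degree_eq_bot]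
    simpa using hP
  rw [this]
  funext j
  simp [pf]

theorem finrank_V {r : ℕ} (hr : r ≤ p) : Module.finrank K (V K p r) = r := by
  classical
  let L : degreeLT K r →ₗ[K] (ZMod p → K) :=
    { toFun := fun P => pf K p P.1
      map_add' := fun P Q => pf_add _ _
      map_smul' := fun c P => pf_smul _ _ }
  have hinj : Function.Injective L := by
    intro P Q h
    have hd : ∀ R : degreeLT K r, (R : K[X]).natDegree < p := by
      intro R
      by_cases h0 : (R : K[X]) = 0
      · rw [h0, natDegree_zero]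
        exact hp.out.pos
      · exact lt_of_lt_of_le ((natDegree_lt_iff_degree_lt h0).2 (mem_degreeLT.1 R.2)) hr
    exact Subtype.ext (pf_inj (hd P) (hd Q) h)
  have hrange : LinearMap.range L = V K p r := by
    ext f
    constructor
    · rintro ⟨P, rfl⟩
      exact pf_mem_V (mem_degreeLT.1 P.2)
    · rintro ⟨P, hP, rfl⟩
      exact ⟨⟨P, mem_degreeLT.2 hP⟩, rfl⟩
  rw [← hrange, LinearMap.finrank_range_of_inj hinj, LinearEquiv.finrank_eq (degreeLTEquiv K r)]
  simp

/-! ### the difference operator -/

/-- `Σ_{t ∈ T} (P(X + t) - P)` -/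
noncomputable def bT (T : Finset K) (P : K[X]) : K[X] :=
  ∑ t ∈ T, (taylor t P - P)

theorem pf_bT [DecidableEq K] (T : Finset (ZMod p)) (P : K[X]) (j : ZMod p) :
    pf K p (bT (T.image (fun t : ZMod p => (ZMod.cast t : K))) P) j =
      ∑ t ∈ T, (pf K p P (j + t) - pf K p P j) := by
  classical
  rw [bT, Finset.sum_image (fun a _ b _ h => cast_inj (K := K) h)]
  simp only [pf, eval_finset_sum, eval_sub, taylor_apply, eval_comp, eval_add, eval_X, eval_C]
  apply Finset.sum_congr rfl
  intro t _
  rw [cast_add']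

/-- the coefficient formula -/
theorem coeff_bT (T : Finset K) (P : K[X]) {N : ℕ} (hN : P.natDegree < N) (j : ℕ) :
    (bT T P).coeff j = ∑ i ∈ (Finset.range N).erase 0,
      ((i + j).choose j : K) * P.coeff (i + j) * ∑ t ∈ T, t ^ i := by
  classical
  have hN0 : 0 ∈ Finset.range N := Finset.mem_range.2 (by omega)
  have h1 : ∀ t : K, (taylor t P).coeff j = ∑ i ∈ Finset.range N, ((i + j).choose j : K) * P.coeff (i + j) * t ^ i := by
    intro t
    rw [taylor_coeff, eval_eq_sum_range' (n := N) (lt_of_le_of_lt (natDegree_hasseDeriv_le _ _) (lt_of_le_of_lt (Nat.sub_le _ _) hN))]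
    apply Finset.sum_congr rfl
    intro i _
    rw [hasseDeriv_coeff]
  have h2 : (bT T P).coeff j = ∑ t ∈ T, ((taylor t P).coeff j - P.coeff j) := by
    rw [bT, finset_sum_coeff]
    simp
  have h3 : ∀ t : K, (taylor t P).coeff j - P.coeff j = ∑ i ∈ (Finset.range N).erase 0, ((i + j).choose j : K) * P.coeff (i + j) * t ^ i := by
    intro t
    rw [h1 t, ← Finset.add_sum_erase _ _ hN0]
    simp
  rw [h2, Finset.sum_congr rfl (fun t _ => h3 t), Finset.sum_comm]
  apply Finset.sum_congr rfl
  intro i _
  rw [Finset.mul_sum]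

/-- vanishing and exact drop of the degree -/
theorem bT_drop (T : Finset K) {m : ℕ} (hm0 : 1 ≤ m) (hs : ∀ l, 1 ≤ l → l < m → ∑ t ∈ T, t ^ l = 0)
    (hsm : ∑ t ∈ T, t ^ m ≠ 0) {P : K[X]} (hP : P.natDegree < p) :
    (P.natDegree < m → bT T P = 0) ∧ (m ≤ P.natDegree → (bT T P).natDegree = P.natDegree - m ∧ bT T P ≠ 0) := by
  classical
  set d := P.natDegree with hd
  have hcoefzero : ∀ j, d < j + m → (bT T P).coeff j = 0 := by
    intro j hj
    rw [coeff_bT T P (N := p) hP j]
    apply Finset.sum_eq_zero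
    intro i hi
    have hi0 : i ≠ 0 := Finset.ne_of_mem_erase hi
    by_cases him : i < m
    · rw [hs i (by omega) him, mul_zero]
    · have : P.coeff (i + j) = 0 := coeff_eq_zero_of_natDegree_lt (by omega)
      rw [this, mul_zero, zero_mul]
  constructor
  · intro hlt
    ext j
    rw [hcoefzero j (by omega), coeff_zero]
  · intro hle
    have hP0 : P ≠ 0 := by
      rintro rfl
      rw [hd, natDegree_zero] at hle
      omega
    have hcoef : (bT T P).coeff (d - m) = ((d.choose (d - m) : ℕ) : K) * P.leadingCoeff * ∑ t ∈ T, t ^ m := by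
      rw [coeff_bT T P (N := p) hP (d - m)]
      have hmem : m ∈ (Finset.range p).erase 0 :=
        Finset.mem_erase.2 ⟨by omega, Finset.mem_range.2 (by omega)⟩
      rw [Finset.sum_eq_single_of_mem m hmem]
      · rw [show m + (d - m) = d by omega, leadingCoeff]
      · intro i hi him
        have hi0 : i ≠ 0 := Finset.ne_of_mem_erase hi
        rcases lt_or_gt_of_ne him with h | h
        · rw [hs i (by omega) h, mul_zero]
        · have : P.coeff (i + (d - m)) = 0 := coeff_eq_zero_of_natDegree_lt (by omega)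
          rw [this, mul_zero, zero_mul]
    have hchoose : ((d.choose (d - m) : ℕ) : K) ≠ 0 := by
      intro h
      have h1 : p ∣ d.choose (d - m) := (CharP.cast_eq_zero_iff K p _).1 h
      have h2 : p ∣ d.factorial := by
        rw [← Nat.choose_mul_factorial_mul_factorial (Nat.sub_le d m)]
        exact Dvd.dvd.mul_right (Dvd.dvd.mul_right h1 _) _
      have h3 := (Nat.Prime.dvd_factorial hp.out).1 h2
      omega
    have hne : (bT T P).coeff (d - m) ≠ 0 := by
      rw [hcoef]
      exact mul_ne_zero (mul_ne_zero hchoose (leadingCoeff_ne_zero.2 hP0)) hsm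
    have hb0 : bT T P ≠ 0 := by
      intro h
      rw [h, coeff_zero] at hne
      exact hne rfl
    refine ⟨?_, hb0⟩
    apply le_antisymm
    · rw [natDegree_le_iff_coeff_eq_zero]
      intro j hj
      exact hcoefzero j (by omega)
    · exact le_natDegree_of_ne_zero hne

/-! ### shift invariant subspaces -/

theorem shift_spread (W : Submodule K (ZMod p → K)) (hW : ∀ f ∈ W, (fun j => f (j - 1)) ∈ W) :
    ∀ (d : ℕ) (P : K[X]), P.natDegree = d → d < p → P ≠ 0 → pf K p P ∈ W →
      ∀ Q : K[X], Q.natDegree ≤ d → pf K p Q ∈ W := by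
  classical
  let T : Finset K := ({-1} : Finset (ZMod p)).image (fun t : ZMod p => (ZMod.cast t : K))
  have hT : ∀ (P : K[X]) j, pf K p (bT T P) j = pf K p P (j - 1) - pf K p P j := by
    intro P j
    rw [pf_bT]
    simp [sub_eq_add_neg]
  have hs : ∑ t ∈ T, t ^ 1 ≠ 0 := by
    simp only [T, Finset.image_singleton, Finset.sum_singleton, pow_one]
    intro h
    rw [← cast_zero' (p := p) (K := K)] at h
    have h2 := cast_inj (K := K) h
    exact one_ne_zero (neg_eq_zero.1 h2)
  intro d
  induction d with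
  | zero =>
    intro P hd _ hP0 hPW Q hQ
    have hP : P = C (P.coeff 0) := eq_C_of_natDegree_eq_zero hd
    have hQ' : Q = C (Q.coeff 0) := eq_C_of_natDegree_eq_zero (by omega)
    have hc : P.coeff 0 ≠ 0 := by
      intro h
      rw [h, C_0] at hP
      exact hP0 hP
    have : pf K p Q = (Q.coeff 0 / P.coeff 0) • pf K p P := by
      funext j
      rw [hQ', hP]
      simp [pf]
      field_simp
    rw [this]
    exact W.smul_mem _ hPW
  | succ d ih =>
    intro P hd hdp hP0 hPW Q hQ
    have hdrop := (bT_drop T (m := 1) (le_refl 1) (fun l h1 h2 => by omega) hs (P := P) (by omega)).2 (by omega)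
    have hBW : pf K p (bT T P) ∈ W := by
      have : pf K p (bT T P) = (fun j => pf K p P (j - 1)) - pf K p P := by
        funext j
        rw [hT]
        rfl
      rw [this]
      exact W.sub_mem (hW _ hPW) hPW
    have hIH := ih (bT T P) (by rw [hdrop.1, hd]; rfl) (by omega) hdrop.2 hBW
    have hlc : P.leadingCoeff ≠ 0 := leadingCoeff_ne_zero.2 hP0
    set c := Q.coeff (d + 1) / P.leadingCoeff with hc
    have hQ' : (Q - c • P).natDegree ≤ d := by
      rw [natDegree_le_iff_coeff_eq_zero]
      intro N hN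
      rw [coeff_sub, coeff_smul, smul_eq_mul]
      rcases Nat.lt_or_ge (d + 1) N with h | h
      · rw [coeff_eq_zero_of_natDegree_lt (by omega), coeff_eq_zero_of_natDegree_lt (by omega : P.natDegree < N)]
        simp
      · have hN' : N = d + 1 := by omega
        rw [hN', hc, ← hd, coeff_natDegree]
        rw [hd]
        field_simp
        simp
    have hEq : pf K p Q = pf K p (Q - c • P) + c • pf K p P := by
      rw [pf_sub, pf_smul]
      abel
    rw [hEq]
    exact W.add_mem (hIH _ hQ') (W.smul_mem _ hPW)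

theorem shift_invariant_eq (W : Submodule K (ZMod p → K)) (hW : ∀ f ∈ W, (fun j => f (j - 1)) ∈ W) :
    ∃ r, r ≤ p ∧ W = V K p r := by
  classical
  have hex : ∃ r, W ≤ V K p r := ⟨p, by rw [V_top]; exact le_top⟩
  refine ⟨Nat.find hex, Nat.find_min' hex (by rw [V_top]; exact le_top), ?_⟩
  apply le_antisymm (Nat.find_spec hex)
  have hrp : Nat.find hex ≤ p := Nat.find_min' hex (by rw [V_top]; exact le_top)
  rcases h : Nat.find hex with _ | d
  · rw [V_zero]
    exact bot_le
  · have hmin : ¬ W ≤ V K p d := Nat.find_min hex (by omega)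
    obtain ⟨f, hfW, hfV⟩ := SetLike.not_le_iff_exists.1 hmin
    have hfmem : f ∈ V K p (d + 1) := by
      rw [← h]
      exact Nat.find_spec hex hfW
    obtain ⟨P, hP, rfl⟩ := hfmem
    have hP0 : P ≠ 0 := by
      rintro rfl
      apply hfV
      exact pf_mem_V (by rw [degree_zero]; exact WithBot.bot_lt_coe _)
    have hPd : P.natDegree = d := by
      have h1 : P.natDegree < d + 1 := (natDegree_lt_iff_degree_lt hP0).2 hP
      by_contra hne
      apply hfV
      apply pf_mem_V
      exact (natDegree_lt_iff_degree_lt hP0).1 (by omega)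
    have hspread := shift_spread W hW d P hPd (by omega) hP0 hfW
    rintro _ ⟨Q, hQ, rfl⟩
    apply hspread
    by_cases hQ0 : Q = 0
    · rw [hQ0, natDegree_zero]
      exact Nat.zero_le _
    · have := (natDegree_lt_iff_degree_lt hQ0).2 hQ
      omega

/-! ### stable spaces of polynomial functions -/

/-- Permutations of `ZMod p` stabilizing the polynomial functions of small degree are affine. -/
theorem affine_of_stable {r : ℕ} (hr2 : 2 ≤ r) (h2 : 2 * (r - 1) < p) (π : Equiv.Perm (ZMod p))
    (hπ : ∀ f ∈ V K p r, f ∘ π ∈ V K p r) : ∃ a b : ZMod p, a ≠ 0 ∧ ∀ j, π j = a * j + b := by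
  classical
  obtain ⟨P, hPd, hP⟩ := exists_pf (K := K) (fun j => (ZMod.cast (π j) : K))
  have hr_p : r ≤ p := by omega
  have hdeg : P.natDegree ≤ 1 := by
    by_contra hcon
    push Not at hcon
    set t := P.natDegree with ht
    set e := r - 1 with he
    have he1 : 1 ≤ e := by omega
    set m₁ := (p - 1) / t with hm₁
    have htp : t ≤ p - 1 := by omega
    have hm₁1 : 1 ≤ m₁ := Nat.div_pos htp (by omega)
    have hm₁t : m₁ * t ≤ p - 1 := Nat.div_mul_le_self _ _
    have hm₁t2 : p - 1 < (m₁ + 1) * t := by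
      have h5 := Nat.lt_mul_div_succ (p - 1) (show 0 < t by omega)
      rw [mul_comm] at h5
      exact h5
    set m := min m₁ e with hm
    have hmt : m * t ≤ p - 1 := le_trans (Nat.mul_le_mul_right _ (min_le_left _ _)) hm₁t
    have hmr : (X ^ m : K[X]).degree < r := by
      rw [degree_X_pow]
      have : m ≤ e := min_le_right _ _
      exact_mod_cast (by omega : m < r)
    have hmem := hπ _ (pf_mem_V (p := p) hmr)
    obtain ⟨Q, hQ, hQe⟩ := hmem
    have hPm : pf K p (P ^ m) = pf K p Q := by
      rw [hQe]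
      funext j
      rw [pf_pow, hP]
      simp [pf]
    have hm1 : 1 ≤ m := le_min hm₁1 he1
    have hP0 : P ≠ 0 := by
      rintro rfl
      rw [natDegree_zero] at ht
      omega
    have hdegPm : (P ^ m).natDegree = m * t := natDegree_pow _ _
    have hQ0 : Q.natDegree < p := by
      by_cases h0 : Q = 0
      · rw [h0, natDegree_zero]
        exact hp.out.pos
      · have := (natDegree_lt_iff_degree_lt h0).2 hQ
        omega
    have hEq := pf_inj (by rw [hdegPm]; omega) hQ0 hPm
    have hfin : m * t < r := by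
      have h0 : P ^ m ≠ 0 := pow_ne_zero _ hP0
      have := (natDegree_lt_iff_degree_lt h0).2 (by rw [hEq]; exact hQ)
      rwa [hdegPm] at this
    rcases le_total m₁ e with hle | hle
    · have hmm : m = m₁ := min_eq_left hle
      rw [hmm] at hfin
      have h3 : t ≤ m₁ * t := Nat.le_mul_of_pos_left t (by omega)
      have h4 : p - 1 < m₁ * t + t := by
        have : (m₁ + 1) * t = m₁ * t + t := by ring
        omega
      omega
    · have hmm : m = e := min_eq_right hle
      rw [hmm] at hfin
      have : e * 2 ≤ e * t := Nat.mul_le_mul_left _ hcon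
      omega
  have hform : ∀ j, (ZMod.cast (π j) : K) = P.coeff 1 * (ZMod.cast j : K) + P.coeff 0 := by
    intro j
    have h1 := congrFun hP j
    have h3 := eq_X_add_C_of_natDegree_le_one hdeg
    rw [← h1]
    conv_lhs => rw [pf, h3]
    simp
  refine ⟨π 1 - π 0, π 0, ?_, ?_⟩
  · intro h
    have h1 : π 1 = π 0 := sub_eq_zero.1 h
    exact one_ne_zero (π.injective h1)
  · intro j
    apply cast_inj (K := K)
    have h0 := hform 0
    have h1 := hform 1
    rw [cast_zero', mul_zero, zero_add] at h0
    rw [cast_one', mul_one] at h1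
    rw [cast_add', cast_mul', cast_sub', hform j, h1, h0]
    ring

/-- sum of a polynomial function -/
theorem sum_pf {R : K[X]} (hR : R.natDegree < p) : ∑ j : ZMod p, pf K p R j = - R.coeff (p - 1) := by
  classical
  have hp2 := hp.out.two_le
  have hsum : ∀ i, i < p → ∑ j : ZMod p, (ZMod.cast j : K) ^ i = if i = p - 1 then -1 else 0 := by
    intro i hi
    have h1 : ∑ j : ZMod p, (ZMod.cast j : K) ^ i = ZMod.cast (∑ j : ZMod p, j ^ i) := by
      have := map_sum (ZMod.castHom (dvd_refl p) K) (fun j : ZMod p => j ^ i) Finset.univ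
      simp only [ZMod.castHom_apply, map_pow] at this
      simpa using this.symm
    rw [h1]
    split_ifs with h
    · subst h
      have h2 : ∑ j : ZMod p, j ^ (p - 1) = -1 := by
        rw [← Finset.add_sum_erase _ _ (Finset.mem_univ (0 : ZMod p))]
        rw [zero_pow (by omega), zero_add]
        have h3 : ∀ j ∈ Finset.univ.erase (0 : ZMod p), j ^ (p - 1) = 1 := fun j hj =>
          ZMod.pow_card_sub_one_eq_one (Finset.ne_of_mem_erase hj)
        rw [Finset.sum_congr rfl h3, Finset.sum_const, Finset.card_erase_of_mem (Finset.mem_univ _),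
          Finset.card_univ, ZMod.card, nsmul_one, Nat.cast_sub (by omega), Nat.cast_one, ZMod.natCast_self, zero_sub]
      rw [h2]
      have := map_neg (ZMod.castHom (dvd_refl p) K) (1 : ZMod p)
      simpa using this
    · have h2 : ∑ j : ZMod p, j ^ i = 0 := FiniteField.sum_pow_lt_card_sub_one (ZMod p) i (by
        rw [ZMod.card]
        omega)
      rw [h2, cast_zero']
  have h1 : ∀ j : ZMod p, pf K p R j = ∑ i ∈ Finset.range p, R.coeff i * (ZMod.cast j : K) ^ i :=
    fun j => eval_eq_sum_range' hR _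
  simp_rw [h1]
  rw [Finset.sum_comm]
  simp_rw [← Finset.mul_sum]
  rw [Finset.sum_congr rfl (fun i hi => by rw [hsum i (Finset.mem_range.1 hi)])]
  rw [Finset.sum_eq_single (p - 1)]
  · simp
  · intro i _ hi
    simp [hi]
  · intro h
    exact absurd (Finset.mem_range.2 (by omega)) h

/-- dual stability -/
theorem dual_stable {r : ℕ} (hr1 : 1 ≤ r) (hr : r ≤ p) (π : Equiv.Perm (ZMod p))
    (hπ : ∀ f ∈ V K p r, f ∘ π.symm ∈ V K p r) : ∀ h ∈ V K p (p - r), h ∘ π ∈ V K p (p - r) := by
  classical
  rintro _ ⟨H, hH, rfl⟩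
  obtain ⟨Q, hQd, hQ⟩ := exists_pf (K := K) (pf K p H ∘ π)
  rw [← hQ]
  apply pf_mem_V
  by_contra hcon
  have hQ0 : Q ≠ 0 := by
    rintro rfl
    apply hcon
    rw [degree_zero]
    exact WithBot.bot_lt_coe _
  have hd : p - r ≤ Q.natDegree := by
    by_contra hlt
    apply hcon
    exact (natDegree_lt_iff_degree_lt hQ0).1 (by omega)
  set d := Q.natDegree with hd'
  set u := p - 1 - d with hu
  have hur : (X ^ u : K[X]).degree < r := by
    rw [degree_X_pow]
    exact_mod_cast (by omega : u < r)
  obtain ⟨F, hF, hFe⟩ := hπ _ (pf_mem_V (p := p) hur)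
  -- two evaluations of one sum
  have hA : ∑ j : ZMod p, pf K p (X ^ u * Q) j = - Q.leadingCoeff := by
    have hnd : (X ^ u * Q).natDegree = p - 1 := by
      rw [natDegree_mul (pow_ne_zero _ X_ne_zero) hQ0, natDegree_X_pow]
      omega
    rw [sum_pf (by omega)]
    rw [← hnd, coeff_natDegree, leadingCoeff_mul, leadingCoeff_X_pow, one_mul]
  have hB : ∑ j : ZMod p, pf K p (F * H) j = 0 := by
    by_cases h0 : F * H = 0
    · rw [h0]
      simp [pf]
    · have hF0 : F ≠ 0 := left_ne_zero_of_mul h0
      have hH0 : H ≠ 0 := right_ne_zero_of_mul h0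
      have h1 := (natDegree_lt_iff_degree_lt hF0).2 hF
      have h2 := (natDegree_lt_iff_degree_lt hH0).2 hH
      have hnd : (F * H).natDegree = F.natDegree + H.natDegree := natDegree_mul hF0 hH0
      rw [sum_pf (by omega), coeff_eq_zero_of_natDegree_lt (by omega), neg_zero]
  have hEq : ∑ j : ZMod p, pf K p (X ^ u * Q) j = ∑ j : ZMod p, pf K p (F * H) j := by
    rw [← Equiv.sum_comp π (fun j => pf K p (F * H) j)]
    apply Finset.sum_congr rfl
    intro j _
    rw [pf_mul, pf_mul, hQ]
    have h5 : pf K p F (π j) = (pf K p (X ^ u) ∘ π.symm) (π j) := by rw [hFe]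
    rw [h5]
    simp
  rw [hA, hB, neg_eq_zero] at hEq
  exact (leadingCoeff_ne_zero.2 hQ0) hEq

end Cfsg.Agent.Lib.PrimeDeg
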