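import Mathlib
import Cfsg.Prelude.Def_Perm
import Cfsg.Agent.Lib.PrimeDeg
import Cfsg.Agent.Lib.OrbitCount

/-! Transitive groups of prime degree: the permutation module and Burnside's theorem. -/

set_option autoImplicit false
set_option linter.all false

namespace Cfsg.Agent.Lib.PrimeDeg2

open Polynomial Cfsg.Agent.Lib.PrimeDeg

variable {α : Type*} [Fintype α] [DecidableEq α] {p : ℕ} [hp : Fact p.Prime]

/-- labelling by a `p`-cycle in the group -/
theorem exists_label (hα : Fintype.card α = p) (G : Subgroup (Equiv.Perm α)) [MulAction.IsPretransitive G α] :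
    ∃ (σ : G) (ι : ZMod p ≃ α), ∀ j, (σ : Equiv.Perm α) (ι j) = ι (j + 1) := by
  classical
  have hpp := hp.out
  have hαne : Nonempty α := by
    rw [← Fintype.card_pos_iff, hα]
    exact hpp.pos
  obtain ⟨a⟩ := hαne
  have hdvd : p ∣ Nat.card G := by
    have h1 := Cfsg.Agent.Lib.OrbitCount.card_orbit_mul (A := G) a
    rw [MulAction.orbit_eq_univ, Nat.card_univ, Nat.card_eq_fintype_card, hα] at h1
    exact ⟨_, h1.symm⟩
  obtain ⟨σ, hσ⟩ := exists_prime_orderOf_dvd_card' p hdvd
  have hσ1 : σ ≠ 1 := by
    rintro rfl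
    rw [orderOf_one] at hσ
    exact hpp.one_lt.ne hσ
  obtain ⟨a₀, ha₀⟩ : ∃ a₀ : α, σ • a₀ ≠ a₀ := by
    by_contra hn
    push Not at hn
    apply hσ1
    apply Subtype.ext
    ext y
    exact hn y
  let f : ZMod p → α := fun j => (σ ^ j.val) • a₀
  have hstep : ∀ j, σ • f j = f (j + 1) := by
    intro j
    show σ • (σ ^ j.val) • a₀ = (σ ^ (j + 1).val) • a₀
    rw [← mul_smul, ← pow_succ']
    have h1 : (j + 1).val = (j.val + 1) % p := by
      rw [ZMod.val_add, ZMod.val_one_eq_one_mod]
      simp
    have h2 : σ ^ (j + 1).val = σ ^ (j.val + 1) := by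
      have h3 := pow_mod_orderOf σ (j.val + 1)
      rw [hσ] at h3
      rw [h1]
      exact h3
    rw [h2]
  have hinj : Function.Injective f := by
    have key : ∀ j j' : ZMod p, j.val < j'.val → f j ≠ f j' := by
      intro j j' hlt he
      have hk : (σ ^ (j'.val - j.val)) • a₀ = a₀ := by
        have h1 : (σ ^ j.val) • a₀ = (σ ^ j'.val) • a₀ := he
        have h2 : σ ^ j'.val = σ ^ j.val * σ ^ (j'.val - j.val) := by
          rw [← pow_add]
          congr 1
          omega
        rw [h2, mul_smul] at h1
        exact (MulAction.injective (σ ^ j.val) h1).symm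
      have hcop : (j'.val - j.val).Coprime (orderOf σ) := by
        rw [hσ]
        have h1 : j'.val < p := ZMod.val_lt j'
        apply Nat.Coprime.symm
        rw [Nat.Prime.coprime_iff_not_dvd hpp]
        intro hd
        have := Nat.le_of_dvd (by omega) hd
        omega
      obtain ⟨u, hu⟩ := exists_pow_eq_self_of_coprime hcop
      apply ha₀
      rw [← hu]
      have : ∀ n : ℕ, ((σ ^ (j'.val - j.val)) ^ n) • a₀ = a₀ := by
        intro n
        induction n with
        | zero => simp
        | succ n ih => rw [pow_succ, mul_smul, hk, ih]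
      exact this u
    intro j j' he
    rcases lt_trichotomy j.val j'.val with h | h | h
    · exact absurd he (key j j' h)
    · exact ZMod.val_injective p h
    · exact absurd he.symm (key j' j h)
  have hbij : Function.Bijective f := by
    rw [Fintype.bijective_iff_injective_and_card]
    exact ⟨hinj, by rw [ZMod.card, hα]⟩
  let ι := Equiv.ofBijective f hbij
  exact ⟨σ, ι, fun j => hstep j⟩

/-- the group in coordinates -/
def pi (ι : ZMod p ≃ α) (G : Subgroup (Equiv.Perm α)) : G →* Equiv.Perm (ZMod p) where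
  toFun g := ι.trans ((g : Equiv.Perm α).trans ι.symm)
  map_one' := by
    ext j
    simp
  map_mul' g h := by
    ext j
    simp

theorem pi_apply (ι : ZMod p ≃ α) (G : Subgroup (Equiv.Perm α)) (g : G) (j : ZMod p) :
    pi ι G g j = ι.symm ((g : Equiv.Perm α) (ι j)) := rfl

theorem pi_inj (ι : ZMod p ≃ α) (G : Subgroup (Equiv.Perm α)) : Function.Injective (pi ι G) := by
  intro g h he
  apply Subtype.ext
  ext x
  obtain ⟨j, rfl⟩ := ι.surjective x
  have := congrArg (fun q : Equiv.Perm (ZMod p) => q j) he
  simp only [pi_apply] at this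
  exact ι.symm.injective this

theorem solvable_of_affine {H : Type*} [Group H] (φ : H →* Equiv.Perm (ZMod p)) (hinj : Function.Injective φ)
    (haff : ∀ g, ∃ a b : ZMod p, a ≠ 0 ∧ ∀ j, φ g j = a * j + b) : Group.IsSolvable H := by
  classical
  choose a b ha hab using haff
  have hslope : ∀ g, a g = φ g 1 - φ g 0 := by
    intro g
    rw [hab g, hab g]
    ring
  let s : H →* (ZMod p)ˣ :=
    { toFun := fun g => Units.mk0 (a g) (ha g)
      map_one' := by
        apply Units.ext
        show a 1 = 1
        rw [hslope, φ.map_one]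
        simp
      map_mul' := by
        intro g h
        apply Units.ext
        show a (g * h) = a g * a h
        rw [hslope (g * h), φ.map_mul]
        simp only [Equiv.Perm.coe_mul, Function.comp_apply]
        rw [hab g, hab g]
        have : φ h 1 - φ h 0 = a h := (hslope h).symm
        rw [← this]
        ring }
  have hker : ∀ g h : s.ker, (g : H) * h = h * g := by
    intro g h
    have hg : a (g : H) = 1 := congrArg Units.val (MonoidHom.mem_ker.1 g.2)
    have hh : a (h : H) = 1 := congrArg Units.val (MonoidHom.mem_ker.1 h.2)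
    apply hinj
    ext j
    rw [φ.map_mul, φ.map_mul]
    simp only [Equiv.Perm.coe_mul, Function.comp_apply]
    rw [hab (g : H), hab (h : H), hab (g : H), hab (h : H), hg, hh]
    ring
  haveI : Group.IsSolvable s.ker := by
    letI : CommGroup s.ker := { (inferInstance : Group s.ker) with
      mul_comm := fun g h => Subtype.ext (hker g h) }
    infer_instance
  exact solvable_of_ker_le_range s.ker.subtype s (by simp)

variable {K : Type*} [Field K] [CharP K p]

/-- Stability of some space of polynomial functions forces solvability. -/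
theorem solvable_of_stable (ι : ZMod p ≃ α) (G : Subgroup (Equiv.Perm α)) {r : ℕ}
    (hr : (2 ≤ r ∧ r + 2 ≤ p) ∨ (r = 2 ∧ 3 ≤ p))
    (hst : ∀ g : G, ∀ f ∈ V K p r, f ∘ pi ι G g ∈ V K p r) : Group.IsSolvable G := by
  apply solvable_of_affine (pi ι G) (pi_inj ι G)
  intro g
  have hr2 : 2 ≤ r := by
    rcases hr with h | h
    · exact h.1
    · omega
  by_cases hsmall : 2 * (r - 1) < p
  · exact affine_of_stable (K := K) hr2 hsmall _ (hst g)
  · have hr' : r + 2 ≤ p := by
      rcases hr with h | h
      · exact h.2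
      · omega
    have hsymm : (pi ι G g).symm = pi ι G g⁻¹ := by
      rw [map_inv]
      rfl
    have hd := dual_stable (K := K) (r := r) (by omega) (by omega) (pi ι G g) (by
      rw [hsymm]
      exact hst g⁻¹)
    exact affine_of_stable (K := K) (r := p - r) (by omega) (by omega) _ hd

/-- The heart of the permutation module of a nonsolvable group of prime degree is irreducible. -/
theorem heart_irreducible (hα : Fintype.card α = p) (G : Subgroup (Equiv.Perm α))
    [MulAction.IsPretransitive G α] (hG : ¬ Group.IsSolvable G)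
    (W : Subrepresentation (Cfsg.permRep K G α))
    (h₁ : (Cfsg.permConstants K G α).toSubmodule ≤ W.toSubmodule)
    (h₂ : W.toSubmodule ≤ (Cfsg.permSumZero K G α).toSubmodule) :
    W = Cfsg.permConstants K G α ∨ W = Cfsg.permSumZero K G α := by
  classical
  have hpp := hp.out
  obtain ⟨σ, ι, hσι⟩ := exists_label hα G
  let E : (α → K) ≃ₗ[K] (ZMod p → K) := LinearEquiv.funCongrLeft K K ι
  have hE : ∀ h : α → K, E h = h ∘ ι := fun h => rfl
  have hEs : ∀ f : ZMod p → K, E.symm f = f ∘ ι.symm := by
    intro f
    apply E.injective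
    rw [LinearEquiv.apply_symm_apply, hE]
    funext j
    simp
  let W' : Submodule K (ZMod p → K) := W.toSubmodule.map E.toLinearMap
  have hmem : ∀ f, f ∈ W' ↔ f ∘ ι.symm ∈ W.toSubmodule := by
    intro f
    constructor
    · rintro ⟨h, hh, rfl⟩
      have : (E h) ∘ ι.symm = h := by
        funext x
        simp [hE]
      change (E h) ∘ ι.symm ∈ _
      rwa [this]
    · intro h
      refine ⟨f ∘ ι.symm, h, ?_⟩
      show E (f ∘ ι.symm) = f
      rw [hE]
      funext j
      simp
  have hshift : ∀ f ∈ W', (fun j => f (j - 1)) ∈ W' := by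
    intro f hf
    rw [hmem] at hf ⊢
    have h1 := W.apply_mem_toSubmodule (σ : G) hf
    have h2 : (fun j => f (j - 1)) ∘ ι.symm = Cfsg.permRep K G α σ (f ∘ ι.symm) := by
      funext x
      obtain ⟨j, rfl⟩ := ι.surjective x
      show f (ι.symm (ι j) - 1) = f (ι.symm ((σ : Equiv.Perm α)⁻¹ (ι j)))
      have h3 : (σ : Equiv.Perm α)⁻¹ (ι j) = ι (j - 1) := by
        rw [Equiv.Perm.inv_eq_iff_eq, hσι]
        simp
      rw [h3]
      simp
    rw [h2]
    exact h1
  obtain ⟨r, hrp, hr⟩ := shift_invariant_eq W' hshift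
  have hone : (fun _ : α => (1 : K)) ∈ W.toSubmodule :=
    h₁ (Submodule.mem_span_singleton_self _)
  have hstab : ∀ g : G, ∀ f ∈ V K p r, f ∘ pi ι G g ∈ V K p r := by
    intro g f hf
    rw [← hr] at hf ⊢
    rw [hmem] at hf ⊢
    have h1 := W.apply_mem_toSubmodule (g⁻¹ : G) hf
    have h2 : (f ∘ pi ι G g) ∘ ι.symm = Cfsg.permRep K G α g⁻¹ (f ∘ ι.symm) := by
      funext x
      show f (ι.symm ((g : Equiv.Perm α) (ι (ι.symm x)))) = f (ι.symm (((g⁻¹ : G)⁻¹ : G) • x))
      rw [inv_inv, Equiv.apply_symm_apply]
      rfl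
    rw [h2]
    exact h1
  have hconstV : (fun _ : ZMod p => (1 : K)) ∈ V K p r := by
    rw [← hr, hmem]
    exact hone
  have hr1 : 1 ≤ r := by
    by_contra hlt
    have hr0 : r = 0 := by omega
    rw [hr0, V_zero, Submodule.mem_bot] at hconstV
    exact one_ne_zero (congrFun hconstV 0)
  have hrne : r ≠ p := by
    intro hrp'
    have h1 : pf K p (X ^ (p - 1) : K[X]) ∈ V K p r := by
      rw [hrp', V_top]
      trivial
    rw [← hr, hmem] at h1
    have h2 : ∑ x, (pf K p (X ^ (p - 1) : K[X]) ∘ ι.symm) x = 0 := h₂ h1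
    have h3 : ∑ x, (pf K p (X ^ (p - 1) : K[X]) ∘ ι.symm) x = ∑ j, pf K p (X ^ (p - 1) : K[X]) j :=
      Equiv.sum_comp ι.symm (pf K p (X ^ (p - 1) : K[X]))
    rw [h3, sum_pf (by rw [natDegree_X_pow]; omega)] at h2
    rw [coeff_X_pow, if_pos rfl] at h2
    exact one_ne_zero (neg_eq_zero.1 h2)
  by_cases h1 : r = 1
  · left
    apply Subrepresentation.toSubmodule_injective
    apply le_antisymm _ h₁
    intro h hh
    have h3 : h ∘ ι ∈ V K p r := by
      rw [← hr, hmem]
      have : (h ∘ ι) ∘ ι.symm = h := by
        funext x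
        simp
      rwa [this]
    rw [h1] at h3
    obtain ⟨P, hP, hPe⟩ := h3
    have hP' : P.natDegree = 0 := by
      by_cases h0 : P = 0
      · rw [h0, natDegree_zero]
      · have := (natDegree_lt_iff_degree_lt h0).2 hP
        omega
    have hPc := eq_C_of_natDegree_eq_zero hP'
    show h ∈ Submodule.span K {fun _ => (1 : K)}
    rw [Submodule.mem_span_singleton]
    refine ⟨P.coeff 0, ?_⟩
    funext x
    obtain ⟨j, rfl⟩ := ι.surjective x
    have h5 := congrFun hPe j
    simp only [Function.comp_apply] at h5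
    rw [← h5, pf, hPc]
    simp
  by_cases h2 : r = p - 1
  · right
    apply Subrepresentation.toSubmodule_injective
    apply le_antisymm h₂
    intro h hh
    have hh' : ∑ x, h x = 0 := hh
    obtain ⟨P, hPd, hP⟩ := exists_pf (K := K) (h ∘ ι)
    have hsum : ∑ j, pf K p P j = 0 := by
      rw [hP]
      have := Equiv.sum_comp ι h
      simp only [Function.comp_apply]
      rw [this, hh']
    rw [sum_pf hPd, neg_eq_zero] at hsum
    have hlow : P.degree < (p - 1 : ℕ) := by
      by_cases h0 : P = 0
      · rw [h0, degree_zero]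
        exact WithBot.bot_lt_coe _
      · apply (natDegree_lt_iff_degree_lt h0).1
        by_contra hnot
        have hnd : P.natDegree = p - 1 := by omega
        rw [← hnd, coeff_natDegree] at hsum
        exact (leadingCoeff_ne_zero.2 h0) hsum
    have hmemV : pf K p P ∈ V K p r := by
      rw [h2]
      exact pf_mem_V hlow
    rw [← hr, hmem, hP] at hmemV
    have : (h ∘ ι) ∘ ι.symm = h := by
      funext x
      simp
    rwa [this] at hmemV
  · exfalso
    apply hG
    exact solvable_of_stable (K := K) ι G (Or.inl ⟨by omega, by omega⟩) hstab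

end Cfsg.Agent.Lib.PrimeDeg2
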