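import Mathlib
import Cfsg.Agent.Lib.PrimeDeg2

/-! Burnside's theorem on transitive groups of prime degree. -/

set_option autoImplicit false
set_option linter.all false

namespace Cfsg.Agent.Lib.PrimeDeg3

open Polynomial Cfsg.Agent.Lib.PrimeDeg Cfsg.Agent.Lib.PrimeDeg2

variable {p : ℕ} [hp : Fact p.Prime]

/-- a nonempty proper subset of the nonzero residues has a nonvanishing power sum -/
theorem exists_power_sum (T : Finset (ZMod p)) (t₀ : ZMod p) (ht₀ : t₀ ∈ T) (h0 : (0 : ZMod p) ∉ T)
    (hT : T.card + 2 ≤ p) : ∃ l, 1 ≤ l ∧ l + 2 ≤ p ∧ ∑ t ∈ T, t ^ l ≠ 0 := by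
  classical
  by_contra hall
  push Not at hall
  let R : (ZMod p)[X] := X * ∏ t ∈ T.erase t₀, (X - C t)
  have hdeg : R.natDegree = T.card := by
    rw [natDegree_mul X_ne_zero (Finset.prod_ne_zero_iff.2 fun t _ => X_sub_C_ne_zero t), natDegree_X,
      natDegree_prod_of_monic _ _ (fun t _ => monic_X_sub_C t)]
    simp only [natDegree_X_sub_C, Finset.sum_const, smul_eq_mul, mul_one]
    rw [Finset.card_erase_of_mem ht₀]
    have := Finset.card_pos.2 ⟨t₀, ht₀⟩
    omega
  have hRt : ∀ t ∈ T, t ≠ t₀ → R.eval t = 0 := by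
    intro t ht hne
    simp only [R, eval_mul, eval_X, eval_prod, eval_sub, eval_C]
    rw [Finset.prod_eq_zero (Finset.mem_erase.2 ⟨hne, ht⟩) (sub_self t), mul_zero]
  have hRt₀ : R.eval t₀ ≠ 0 := by
    simp only [R, eval_mul, eval_X, eval_prod, eval_sub, eval_C]
    apply mul_ne_zero
    · rintro rfl
      exact h0 ht₀
    · rw [Finset.prod_ne_zero_iff]
      intro t ht
      exact sub_ne_zero.2 (Finset.ne_of_mem_erase ht).symm
  have hR0 : R.coeff 0 = 0 := by
    simp [R]
  have hsum1 : ∑ t ∈ T, R.eval t = R.eval t₀ := by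
    apply Finset.sum_eq_single_of_mem t₀ ht₀
    intro t ht hne
    exact hRt t ht hne
  have hsum2 : ∑ t ∈ T, R.eval t = 0 := by
    have h1 : ∀ t : ZMod p, R.eval t = ∑ i ∈ Finset.range (p - 1), R.coeff i * t ^ i :=
      fun t => eval_eq_sum_range' (by rw [hdeg]; omega) t
    simp_rw [h1]
    rw [Finset.sum_comm]
    apply Finset.sum_eq_zero
    intro i hi
    rw [← Finset.mul_sum]
    rcases Nat.eq_zero_or_pos i with rfl | hi0
    · rw [hR0, zero_mul]
    · have := Finset.mem_range.1 hi
      rw [hall i hi0 (by omega), mul_zero]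
  rw [hsum2] at hsum1
  exact hRt₀ hsum1.symm

variable {α : Type*} [Fintype α] [DecidableEq α]

/-- Burnside -/
theorem burnside (hα : Fintype.card α = p) (G : Subgroup (Equiv.Perm α)) [MulAction.IsPretransitive G α] :
    Group.IsSolvable G ∨ MulAction.IsMultiplyPretransitive G α 2 := by
  classical
  have hpp := hp.out
  obtain ⟨σ, ι, hσι⟩ := exists_label hα G
  set π := pi ι G with hπ
  have hπσ : ∀ j, π σ j = j + 1 := by
    intro j
    show ι.symm ((σ : Equiv.Perm α) (ι j)) = j + 1
    rw [hσι]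
    simp
  -- translations
  have htrans : ∀ u : ZMod p, ∃ g : G, ∀ j, π g j = j + u := by
    intro u
    have hk : ∀ k : ℕ, ∀ j, π (σ ^ k) j = j + k := by
      intro k
      induction k with
      | zero =>
        intro j
        simp
      | succ k ih =>
        intro j
        rw [pow_succ, π.map_mul]
        simp only [Equiv.Perm.coe_mul, Function.comp_apply]
        rw [hπσ, ih]
        push_cast
        ring
    refine ⟨σ ^ u.val, fun j => ?_⟩
    rw [hk]
    simp
  by_cases h2 : MulAction.IsMultiplyPretransitive G α 2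
  · exact Or.inr h2
  left
  -- a pair not reached by the stabiliser of `0`
  have hpair : ∃ t₁ t₂ : ZMod p, t₁ ≠ 0 ∧ t₂ ≠ 0 ∧ ∀ g : G, π g 0 = 0 → π g t₁ ≠ t₂ := by
    by_contra hn
    push Not at hn
    apply h2
    rw [MulAction.is_two_pretransitive_iff]
    intro a b c d hab hcd
    have hab' : ι.symm a ≠ ι.symm b := fun h => hab (ι.symm.injective h)
    have hcd' : ι.symm c ≠ ι.symm d := fun h => hcd (ι.symm.injective h)
    obtain ⟨g₁, hg₁⟩ := htrans (- ι.symm a)
    obtain ⟨g₂, hg₂⟩ := htrans (- ι.symm c)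
    obtain ⟨h, hh0, hh⟩ := hn (ι.symm b - ι.symm a) (ι.symm d - ι.symm c)
      (sub_ne_zero.2 hab'.symm) (sub_ne_zero.2 hcd'.symm)
    refine ⟨g₂⁻¹ * h * g₁, ?_, ?_⟩
    · apply ι.symm.injective
      have e1 : π g₁ (ι.symm a) = 0 := by rw [hg₁]; ring
      have e2 : π g₂ (ι.symm c) = 0 := by rw [hg₂]; ring
      have e3 : ι.symm ((g₂⁻¹ * h * g₁) • a) = π (g₂⁻¹ * h * g₁) (ι.symm a) := by
        rw [hπ, pi_apply, Equiv.apply_symm_apply]
        rfl
      rw [e3, π.map_mul, π.map_mul, map_inv]
      simp only [Equiv.Perm.coe_mul, Function.comp_apply]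
      rw [e1, hh0, Equiv.Perm.inv_eq_iff_eq, e2]
    · apply ι.symm.injective
      have e1 : π g₁ (ι.symm b) = ι.symm b - ι.symm a := by rw [hg₁]; ring
      have e2 : π g₂ (ι.symm d) = ι.symm d - ι.symm c := by rw [hg₂]; ring
      have e3 : ι.symm ((g₂⁻¹ * h * g₁) • b) = π (g₂⁻¹ * h * g₁) (ι.symm b) := by
        rw [hπ, pi_apply, Equiv.apply_symm_apply]
        rfl
      rw [e3, π.map_mul, π.map_mul, map_inv]
      simp only [Equiv.Perm.coe_mul, Function.comp_apply]
      rw [e1, hh, Equiv.Perm.inv_eq_iff_eq, e2]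
  obtain ⟨t₁, t₂, ht₁, ht₂, hno⟩ := hpair
  let T : Finset (ZMod p) := Finset.univ.filter (fun t => ∃ g : G, π g 0 = 0 ∧ π g t₁ = t)
  have hmemT : ∀ t, t ∈ T ↔ ∃ g : G, π g 0 = 0 ∧ π g t₁ = t := by
    intro t
    simp [T]
  have ht₁T : t₁ ∈ T := (hmemT _).2 ⟨1, by simp, by simp⟩
  have ht₂T : t₂ ∉ T := by
    rw [hmemT]
    rintro ⟨g, h1, h2⟩
    exact hno g h1 h2
  have h0T : (0 : ZMod p) ∉ T := by
    rw [hmemT]
    rintro ⟨g, h1, h2⟩
    have := (π g).injective (h1.trans h2.symm)
    exact ht₁ this.symm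
  have hTcard : T.card + 2 ≤ p := by
    have hsub : insert (0 : ZMod p) (insert t₂ T) ⊆ Finset.univ := Finset.subset_univ _
    have h1 := Finset.card_le_card hsub
    rw [Finset.card_insert_of_notMem, Finset.card_insert_of_notMem ht₂T, Finset.card_univ, ZMod.card] at h1
    · omega
    · rw [Finset.mem_insert, not_or]
      exact ⟨ht₂.symm, h0T⟩
  have hex := exists_power_sum T t₁ ht₁T h0T hTcard
  -- the least nonvanishing power sum
  let m := Nat.find hex
  obtain ⟨hm1, hm2, hm3⟩ : 1 ≤ m ∧ m + 2 ≤ p ∧ ∑ t ∈ T, t ^ m ≠ 0 := Nat.find_spec hex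
  have hmin : ∀ l, 1 ≤ l → l < m → ∑ t ∈ T, t ^ l = 0 := by
    intro l hl hlm
    by_contra hne
    exact Nat.find_min hex hlm ⟨hl, by omega, hne⟩
  let T' : Finset (ZMod p) := T.image (fun t : ZMod p => (ZMod.cast t : ZMod p))
  have hcast : ∀ t : ZMod p, (ZMod.cast t : ZMod p) = t := fun t => ZMod.cast_id _ t
  have hpow : ∀ l, ∑ t ∈ T', t ^ l = ∑ t ∈ T, t ^ l := by
    intro l
    rw [Finset.sum_image (fun a _ b _ h => cast_inj (K := ZMod p) h)]
    exact Finset.sum_congr rfl (fun t _ => by rw [hcast])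
  have hdrop : ∀ {P : (ZMod p)[X]}, P.natDegree < p → _ := fun {P} hP =>
    bT_drop T' hm1 (fun l h1 h2 => by rw [hpow]; exact hmin l h1 h2) (by rw [hpow]; exact hm3) (P := P) hP
  -- the difference operator commutes with the group
  let B : (ZMod p → ZMod p) → (ZMod p → ZMod p) := fun f j => ∑ t ∈ T, (f (j + t) - f j)
  have hBpf : ∀ (P : (ZMod p)[X]) , B (pf (ZMod p) p P) = pf (ZMod p) p (bT T' P) := by
    intro P
    funext j
    rw [pf_bT]
  have hBcomm : ∀ (g : G) (f : ZMod p → ZMod p), B (f ∘ π g) = (B f) ∘ π g := by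
    intro g f
    funext j
    show ∑ t ∈ T, (f (π g (j + t)) - f (π g j)) = ∑ t ∈ T, (f (π g j + t) - f (π g j))
    -- the permutation of `T`
    obtain ⟨τ₁, hτ₁⟩ := htrans j
    obtain ⟨τ₂, hτ₂⟩ := htrans (- π g j)
    have hmap : ∀ t ∈ T, π g (j + t) - π g j ∈ T := by
      intro t ht
      obtain ⟨h, hh0, hh⟩ := (hmemT t).1 ht
      refine (hmemT _).2 ⟨τ₂ * g * τ₁ * h, ?_, ?_⟩
      · simp only [π.map_mul, Equiv.Perm.coe_mul, Function.comp_apply]
        rw [hh0, hτ₁, hτ₂]
        simp
      · simp only [π.map_mul, Equiv.Perm.coe_mul, Function.comp_apply]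
        rw [hh, hτ₁, hτ₂]
        ring
    refine Finset.sum_bij (fun t _ => π g (j + t) - π g j) hmap ?_ ?_ ?_
    · intro a _ b _ hab
      have h1 : π g (j + a) = π g (j + b) := sub_left_injective hab
      exact add_left_cancel ((π g).injective h1)
    · intro b hb
      -- surjectivity from finiteness
      have hinj : Set.InjOn (fun t => π g (j + t) - π g j) (T : Set (ZMod p)) := by
        intro a _ c _ hac
        have h1 : π g (j + a) = π g (j + c) := sub_left_injective hac
        exact add_left_cancel ((π g).injective h1)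
      have himg : T.image (fun t => π g (j + t) - π g j) = T := by
        apply Finset.eq_of_subset_of_card_le
        · intro y hy
          obtain ⟨t, ht, rfl⟩ := Finset.mem_image.1 hy
          exact hmap t ht
        · rw [Finset.card_image_of_injOn hinj]
      rw [← himg] at hb
      obtain ⟨t, ht, hte⟩ := Finset.mem_image.1 hb
      exact ⟨t, ht, hte⟩
    · intro t _
      show f (π g (j + t)) - f (π g j) = f (π g j + (π g (j + t) - π g j)) - f (π g j)
      congr 2
      ring
  -- kernels and preimages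
  have hP0lt : 0 < p := hpp.pos
  have hkerV : ∀ f, B f = 0 ↔ f ∈ V (ZMod p) p m := by
    intro f
    obtain ⟨P, hPd, rfl⟩ := exists_pf (K := ZMod p) f
    rw [hBpf, mem_V_iff (by omega) hPd]
    constructor
    · intro hb
      by_contra hnot
      have hmd : m ≤ P.natDegree := by
        by_contra hlt
        apply hnot
        by_cases h0 : P = 0
        · rw [h0, degree_zero]
          exact WithBot.bot_lt_coe _
        · exact (natDegree_lt_iff_degree_lt h0).1 (by omega)
      obtain ⟨h5, h6⟩ := (hdrop hPd).2 hmd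
      apply h6
      exact eq_zero_of_pf (by omega) hb
    · intro hlt
      have : bT T' P = 0 := by
        apply (hdrop hPd).1
        by_cases h0 : P = 0
        · rw [h0, natDegree_zero]
          omega
        · exact (natDegree_lt_iff_degree_lt h0).2 hlt
      rw [this]
      funext j
      simp [pf]
  have hpreV : ∀ f, B f ∈ V (ZMod p) p 1 ↔ f ∈ V (ZMod p) p (m + 1) := by
    intro f
    obtain ⟨P, hPd, rfl⟩ := exists_pf (K := ZMod p) f
    rw [hBpf, mem_V_iff (by omega) hPd]
    constructor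
    · rintro ⟨Q, hQ, hQe⟩
      by_contra hnot
      have hP0 : P ≠ 0 := by
        rintro rfl
        apply hnot
        rw [degree_zero]
        exact WithBot.bot_lt_coe _
      have hmd : m + 1 ≤ P.natDegree := by
        by_contra hlt
        apply hnot
        exact (natDegree_lt_iff_degree_lt hP0).1 (by omega)
      obtain ⟨h5, h6⟩ := (hdrop hPd).2 (by omega)
      have hQ0 : Q.natDegree < p := by
        by_cases h0 : Q = 0
        · rw [h0, natDegree_zero]
          omega
        · have := (natDegree_lt_iff_degree_lt h0).2 hQ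
          omega
      have h7 := pf_inj hQ0 (by omega) hQe
      have h8 : (bT T' P).natDegree = 0 := by
        rw [← h7]
        by_cases h0 : Q = 0
        · rw [h0, natDegree_zero]
        · have := (natDegree_lt_iff_degree_lt h0).2 hQ
          omega
      omega
    · intro hlt
      by_cases hmd : m ≤ P.natDegree
      · obtain ⟨h5, h6⟩ := (hdrop hPd).2 hmd
        apply pf_mem_V
        apply (natDegree_lt_iff_degree_lt h6).1
        have hP0 : P ≠ 0 := by
          rintro rfl
          rw [natDegree_zero] at hmd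
          omega
        have := (natDegree_lt_iff_degree_lt hP0).2 hlt
        omega
      · have : bT T' P = 0 := (hdrop hPd).1 (by omega)
        rw [this]
        apply pf_mem_V
        rw [degree_zero]
        exact WithBot.bot_lt_coe _
  by_cases hm : 2 ≤ m
  · apply solvable_of_stable (K := ZMod p) (r := m) ι G (Or.inl ⟨hm, hm2⟩)
    intro g f hf
    rw [← hkerV, hBcomm, (hkerV f).2 hf]
    rfl
  · have hm1' : m = 1 := by omega
    apply solvable_of_stable (K := ZMod p) (r := 2) ι G (Or.inr ⟨rfl, by omega⟩)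
    intro g f hf
    have hf' : f ∈ V (ZMod p) p (m + 1) := by
      rw [hm1']
      exact hf
    have h3 := (hpreV f).2 hf'
    have h4 : (f ∘ π g) ∈ V (ZMod p) p (m + 1) := by
      rw [← hpreV, hBcomm]
      obtain ⟨Q, hQ, hQe⟩ := h3
      have hQ' : Q.natDegree = 0 := by
        by_cases h0 : Q = 0
        · rw [h0, natDegree_zero]
        · have := (natDegree_lt_iff_degree_lt h0).2 hQ
          omega
      have hQc := eq_C_of_natDegree_eq_zero hQ'
      refine ⟨Q, hQ, ?_⟩
      rw [← hQe]
      funext j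
      rw [hQc]
      simp [pf]
    rw [hm1'] at h4
    exact h4

end Cfsg.Agent.Lib.PrimeDeg3
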