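import Mathlib
import Cfsg.Agent.Lib.OddAutDesign
import Cfsg.Agent.Lib.PrimeDeg3
import Cfsg.Prelude.Def_KGroupFacts

/-!
The outer automorphism group of a finite simple group with a subgroup of prime index.
-/

set_option autoImplicit false
set_option linter.all false

namespace Cfsg.Agent.Lib.OutPrime

open Cfsg.Agent.Lib.OddAutDesign

section Twist

variable {Γ Ω : Type*} [Group Γ] [MulAction Γ Ω]

/-- Odd-order automorphisms of a doubly transitive group with Hall stabilizers are induced by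
permutations. -/
theorem twist_of_hall [Finite Γ] [Fintype Ω]
    (h2 : ∀ a b c d : Ω, a ≠ b → c ≠ d → ∃ g : Γ, g • a = c ∧ g • b = d)
    (htr : ∀ a b : Ω, ∃ g : Γ, g • a = b) (α : MulAut Γ) (hα : Odd (orderOf α)) (o : Ω)
    (hHall : Nat.Coprime (Nat.card (MulAction.stabilizer Γ o)) (Fintype.card Ω)) :
    ∃ σ : Equiv.Perm Ω, ∀ (g : Γ) (x : Ω), σ (g • x) = α g • σ x := by
  classical
  set K := (MulAction.stabilizer Γ o).map α.toMonoidHom with hK
  let B : Finset Ω := (MulAction.orbit K o).toFinset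
  have hBcard : Nat.card (MulAction.orbit K o) = B.card := by
    rw [Nat.card_eq_fintype_card, Set.toFinset_card]
  have hBmem : ∀ y, y ∈ B ↔ y ∈ MulAction.orbit K o := fun y => Set.mem_toFinset
  have hωB : o ∈ B := (hBmem o).2 (MulAction.mem_orbit_self o)
  have hB : ∀ h : Γ, h • o = o → ∀ y ∈ B, α h • y ∈ B := by
    intro h hh y hy
    rw [hBmem] at hy ⊢
    obtain ⟨u, rfl⟩ := hy
    have hmem : α h ∈ K := Subgroup.mem_map_of_mem _ (MulAction.mem_stabilizer_iff.2 hh)
    refine ⟨⟨α h, hmem⟩ * u, ?_⟩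
    simp only [mul_smul]
    rfl
  have hcop : Nat.Coprime B.card (Fintype.card Ω) := by
    rw [← hBcard]
    have hdvd : Nat.card (MulAction.orbit K o) ∣ Nat.card (MulAction.stabilizer Γ o) := by
      have h1 : Nat.card (MulAction.orbit K o) ∣ Nat.card K := by
        rw [Nat.card_congr (MulAction.orbitEquivQuotientStabilizer _ o)]
        exact Subgroup.card_quotient_dvd_card _
      have h3 : Nat.card K = Nat.card (MulAction.stabilizer Γ o) :=
        Subgroup.card_map_of_injective α.injective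
      rwa [h3] at h1
    exact Nat.Coprime.coprime_dvd_left hdvd hHall
  have hαm : ∀ g, (α ^ orderOf α) g = g := by
    intro g; rw [pow_orderOf_eq_one]; rfl
  have hmain := design_main h2 htr α _ hα hαm o B hB ⟨o, hωB⟩ hcop
  have hfix : ∃ ω₀ : Ω, ∀ h : Γ, h • o = o → α h • ω₀ = ω₀ := by
    rcases hmain with h1 | h1
    · refine ⟨o, fun h hh => ?_⟩
      exact Finset.card_le_one.1 h1.le _ (hB h hh _ hωB) _ hωB
    · have hpos : 0 < B.card := Finset.card_pos.2 ⟨o, hωB⟩
      have hc : (Bᶜ).card = 1 := by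
        rw [Finset.card_compl]; omega
      obtain ⟨ω₀, hω₀⟩ := Finset.card_eq_one.1 hc
      have hω₀' : ω₀ ∈ Bᶜ := by rw [hω₀]; exact Finset.mem_singleton_self _
      refine ⟨ω₀, fun h hh => ?_⟩
      have hnot : α h • ω₀ ∈ Bᶜ := by
        rw [Finset.mem_compl]
        intro hcon
        have hh' : h⁻¹ • o = o := by rw [inv_smul_eq_iff, hh]
        have := hB h⁻¹ hh' _ hcon
        rw [map_inv, inv_smul_smul] at this
        exact (Finset.mem_compl.1 hω₀') this
      rw [hω₀] at hnot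
      exact Finset.mem_singleton.1 hnot
  obtain ⟨ω₀, hω₀⟩ := hfix
  exact exists_twist_perm htr α o ω₀ hω₀

variable (Γ Ω) in
/-- The automorphisms induced by permutations. -/
def twistSub : Subgroup (MulAut Γ) where
  carrier := {α | ∃ σ : Equiv.Perm Ω, ∀ (g : Γ) (x : Ω), σ (g • x) = α g • σ x}
  mul_mem' := by
    rintro a b ⟨σ, hσ⟩ ⟨τ, hτ⟩
    refine ⟨σ * τ, fun g x => ?_⟩
    simp only [Equiv.Perm.mul_apply, hτ, hσ, MulAut.mul_apply]
  one_mem' := ⟨1, fun g x => by simp⟩
  inv_mem' := by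
    rintro a ⟨σ, hσ⟩
    refine ⟨σ⁻¹, fun g x => ?_⟩
    rw [Equiv.Perm.inv_eq_iff_eq, hσ]
    simp [MulAut.inv_def]

theorem mem_twistSub {α : MulAut Γ} :
    α ∈ twistSub Γ Ω ↔ ∃ σ : Equiv.Perm Ω, ∀ (g : Γ) (x : Ω), σ (g • x) = α g • σ x := Iff.rfl

theorem conj_mem_twistSub (g₁ : Γ) : MulAut.conj g₁ ∈ twistSub Γ Ω := by
  refine ⟨MulAction.toPerm g₁, fun g x => ?_⟩
  simp [MulAut.conj_apply, mul_smul]

/-- An automorphism induced by a permutation and fixing an element of prime order on a set of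
that size is inner. -/
theorem inn_of_fix [Fintype Ω] [FaithfulSMul Γ Ω] {p : ℕ} [hp : Fact p.Prime]
    (hcard : Fintype.card Ω = p)
    (c : Γ) (hc : orderOf c = p) (γ : MulAut Γ) (hγt : γ ∈ twistSub Γ Ω) (hγ : γ c = c) :
    γ ∈ Cfsg.Inn Γ := by
  classical
  obtain ⟨ρ, hρ⟩ := hγt
  have hc1 : c ≠ 1 := by
    rintro rfl
    rw [orderOf_one] at hc
    exact hp.out.one_lt.ne hc
  obtain ⟨x₀, hx₀⟩ : ∃ x₀ : Ω, c • x₀ ≠ x₀ := by
    by_contra hcon
    push_neg at hcon
    apply hc1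
    apply eq_of_smul_eq_smul (α := Ω)
    intro x
    simp [hcon]
  set P := Subgroup.zpowers c with hP
  have hPcard : Nat.card P = p := by rw [hP, Nat.card_zpowers, hc]
  have : Finite P := Nat.finite_of_card_ne_zero (by rw [hPcard]; exact hp.out.ne_zero)
  have hdvd : Nat.card (MulAction.orbit P x₀) ∣ p := by
    rw [Nat.card_congr (MulAction.orbitEquivQuotientStabilizer _ x₀), ← hPcard]
    exact Subgroup.card_quotient_dvd_card _
  have hcx : c • x₀ ∈ MulAction.orbit P x₀ :=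
    ⟨⟨c, Subgroup.mem_zpowers c⟩, rfl⟩
  have horb1 : Nat.card (MulAction.orbit P x₀) ≠ 1 := by
    intro h1
    rw [Nat.card_coe_set_eq, Set.ncard_eq_one] at h1
    obtain ⟨w, hw⟩ := h1
    have h3 : x₀ ∈ MulAction.orbit P x₀ := MulAction.mem_orbit_self x₀
    rw [hw] at h3 hcx
    rw [Set.mem_singleton_iff] at h3 hcx
    exact hx₀ (hcx.trans h3.symm)
  have horbp : Nat.card (MulAction.orbit P x₀) = p :=
    (Nat.dvd_prime hp.out).1 hdvd |>.resolve_left horb1
  have horbu : MulAction.orbit P x₀ = Set.univ := by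
    rw [Set.eq_univ_iff_ncard, ← Nat.card_coe_set_eq, horbp, Nat.card_eq_fintype_card, hcard]
  have hall : ∀ y : Ω, ∃ i : ℤ, c ^ i • x₀ = y := by
    intro y
    have hy : y ∈ MulAction.orbit P x₀ := by rw [horbu]; trivial
    obtain ⟨⟨u, i, rfl⟩, rfl⟩ := hy
    exact ⟨i, rfl⟩
  obtain ⟨i, hi⟩ := hall (ρ x₀)
  have hρy : ∀ y : Ω, ρ y = c ^ i • y := by
    intro y
    obtain ⟨j, rfl⟩ := hall y
    rw [hρ, map_zpow, hγ, ← hi, smul_smul, smul_smul, ← zpow_add, ← zpow_add, add_comm]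
  refine ⟨c ^ i, ?_⟩
  ext g
  apply eq_of_smul_eq_smul (α := Ω)
  intro x
  have hx := hρ g ((c ^ i)⁻¹ • x)
  rw [hρy, hρy, smul_inv_smul] at hx
  rw [← hx]
  show (c ^ i * g * (c ^ i)⁻¹) • x = _
  rw [mul_smul, mul_smul]

end Twist

section Main

variable {G : Type*} [Group G] [Finite G]

/-- In a finite group in which the square of a prime does not divide the order, two elements of
that prime order generate conjugate subgroups. -/
theorem exists_conj_of_order {p : ℕ} [hp : Fact p.Prime] (hsq : ¬ p ^ 2 ∣ Nat.card G) (c d : G)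
    (hc : orderOf c = p) (hd : orderOf d = p) : ∃ g : G, g * d * g⁻¹ ∈ Subgroup.zpowers c := by
  have key : ∀ e : G, orderOf e = p → ∃ Q : Sylow p G, (Q : Subgroup G) = Subgroup.zpowers e := by
    intro e he
    have hcard : Nat.card (Subgroup.zpowers e) = p := by rw [Nat.card_zpowers, he]
    have hpg : IsPGroup p (Subgroup.zpowers e) := by
      apply IsPGroup.of_card (n := 1)
      rw [hcard, pow_one]
    obtain ⟨Q, hQ⟩ := hpg.exists_le_sylow
    refine ⟨Q, ?_⟩
    obtain ⟨k, hk⟩ := IsPGroup.iff_card.1 Q.isPGroup'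
    have hdvd : Nat.card Q ∣ Nat.card G := Subgroup.card_subgroup_dvd_card _
    have hk1 : k ≤ 1 := by
      by_contra hcon
      apply hsq
      have : p ^ 2 ∣ p ^ k := pow_dvd_pow _ (by omega)
      exact this.trans (hk ▸ hdvd)
    have hle : Nat.card (Subgroup.zpowers e) ≤ Nat.card Q :=
      Subgroup.card_le_of_le hQ
    have heq : Nat.card Q ≤ Nat.card (Subgroup.zpowers e) := by
      rw [hk, hcard]
      calc p ^ k ≤ p ^ 1 := Nat.pow_le_pow_right hp.out.pos hk1
        _ = p := pow_one p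
    exact (Subgroup.eq_of_le_of_card_ge hQ heq).symm
  obtain ⟨Q₁, hQ₁⟩ := key d hd
  obtain ⟨Q₂, hQ₂⟩ := key c hc
  obtain ⟨g, hg⟩ := MulAction.exists_smul_eq G Q₁ Q₂
  refine ⟨g, ?_⟩
  rw [← hQ₂, ← hg, Sylow.coe_subgroup_smul, Subgroup.mem_pointwise_smul_iff_inv_smul_mem]
  simp [MulAut.smul_def, MulAut.conj_apply, hQ₁, mul_assoc, Subgroup.mem_zpowers]

theorem aut_comm_of_comm (hcomm : ∀ a b : G, a * b = b * a) [IsSimpleGroup G] (a b : MulAut G) :
    a * b = b * a := by
  letI : CommGroup G := { (inferInstance : Group G) with mul_comm := hcomm }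
  have : IsCyclic G := IsSimpleGroup.isCyclic
  obtain ⟨g, hg⟩ := IsCyclic.exists_generator (α := G)
  obtain ⟨i, hi⟩ := hg (a g)
  obtain ⟨j, hj⟩ := hg (b g)
  ext x
  obtain ⟨k, rfl⟩ := hg x
  simp only [MulAut.mul_apply, map_zpow, ← hi, ← hj]
  simp only [← zpow_mul]
  rw [mul_comm i j]

/-- The Schreier conjecture in the presence of a subgroup of prime index. -/
theorem out_solvable [IsSimpleGroup G] (H : Subgroup G) (hH : H.index.Prime) :
    Group.IsSolvable (Cfsg.Out G) := by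
  classical
  by_cases hcomm : ∀ a b : G, a * b = b * a
  · have : Group.IsSolvable (MulAut G) := isSolvable_of_comm (aut_comm_of_comm hcomm)
    exact Group.isSolvable_of_surjective (f := QuotientGroup.mk' (Cfsg.Inn G))
      (QuotientGroup.mk'_surjective _)
  set p := H.index with hp
  haveI hpf : Fact p.Prime := ⟨hH⟩
  let Ω := G ⧸ H
  letI : Fintype Ω := Fintype.ofFinite Ω
  have hcard : Fintype.card Ω = p := by
    rw [← Nat.card_eq_fintype_card]; rfl
  let φ := MulAction.toPermHom G Ω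
  have hHtop : H ≠ ⊤ := by
    rintro rfl
    rw [Subgroup.index_top] at hp
    exact hH.one_lt.ne hp.symm
  have hker : φ.ker = ⊥ := by
    refine (Subgroup.Normal.eq_bot_or_eq_top (MonoidHom.normal_ker φ)).resolve_right fun htop => hHtop ?_
    rw [eq_top_iff]
    intro g _
    have hg : g ∈ φ.ker := by rw [htop]; trivial
    have h1 : φ g ((1 : G) : Ω) = ((1 : G) : Ω) := by
      rw [MonoidHom.mem_ker.1 hg]; rfl
    have h2 : g • ((1 : G) : Ω) = ((1 : G) : Ω) := h1
    have h3 : g ∈ MulAction.stabilizer G ((1 : G) : Ω) := h2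
    rwa [MulAction.stabilizer_quotient] at h3
  have hinj : Function.Injective φ := (MonoidHom.ker_eq_bot_iff _).1 hker
  haveI : FaithfulSMul G Ω := ⟨fun {g₁ g₂} h => hinj (Equiv.ext h)⟩
  -- doubly transitive
  let G₁ := φ.range
  haveI : MulAction.IsPretransitive G₁ Ω := ⟨fun a b => by
    obtain ⟨g, hg⟩ := MulAction.exists_smul_eq G a b
    exact ⟨⟨φ g, g, rfl⟩, hg⟩⟩
  have htr : ∀ a b : Ω, ∃ g : G, g • a = b := fun a b => MulAction.exists_smul_eq G a b
  have h2 : ∀ a b c d : Ω, a ≠ b → c ≠ d → ∃ g : G, g • a = c ∧ g • b = d := by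
    rcases Cfsg.Agent.Lib.PrimeDeg3.burnside hcard G₁ with hsol | h22
    · exfalso
      have : Group.IsSolvable G := Group.isSolvable_of_isSolvable_injective
        (f := φ.rangeRestrict) (MonoidHom.rangeRestrict_injective_iff.2 hinj)
      exact hcomm (IsSimpleGroup.comm_iff_isSolvable.2 this)
    · intro a b c d hab hcd
      obtain ⟨⟨_, g, rfl⟩, hg1, hg2⟩ := (MulAction.is_two_pretransitive_iff.1 h22) hab hcd
      exact ⟨g, hg1, hg2⟩
  -- orders
  have hcardG : Nat.card G = Nat.card H * p := (Subgroup.card_mul_index H).symm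
  have hdvdfact : Nat.card G ∣ p.factorial := by
    have h1 : Nat.card G = Nat.card φ.range := Nat.card_congr (MonoidHom.ofInjective hinj).toEquiv
    rw [h1]
    have h3 := Subgroup.card_subgroup_dvd_card φ.range
    rwa [Nat.card_eq_fintype_card (α := Equiv.Perm Ω), Fintype.card_perm, hcard] at h3
  have hsq : ¬ p ^ 2 ∣ Nat.card G := by
    intro hd
    have h1 : p ^ 2 ∣ p.factorial := hd.trans hdvdfact
    obtain ⟨q, hq⟩ : ∃ q, p = q + 1 := ⟨p - 1, by have := hH.pos; omega⟩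
    have h4 : p.factorial = p * (p - 1).factorial := by
      rw [hq]; simp [Nat.factorial_succ]
    rw [h4, sq] at h1
    have h5 : p ∣ (p - 1).factorial := Nat.dvd_of_mul_dvd_mul_left hH.pos h1
    rw [hH.dvd_factorial] at h5
    have := hH.pos
    omega
  have hHcop : Nat.Coprime (Nat.card H) p := by
    rw [Nat.coprime_comm, hH.coprime_iff_not_dvd]
    intro hd
    apply hsq
    rw [hcardG, sq]
    exact mul_dvd_mul_right hd p
  have hstab : Nat.Coprime (Nat.card (MulAction.stabilizer G ((1 : G) : Ω))) (Fintype.card Ω) := by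
    rw [MulAction.stabilizer_quotient, hcard]; exact hHcop
  have hodd : ∀ α : MulAut G, Odd (orderOf α) → α ∈ twistSub G Ω := fun α hα =>
    twist_of_hall h2 htr α hα _ hstab
  -- the element of order `p`
  have hpdvd : p ∣ Nat.card G := ⟨Nat.card H, by rw [hcardG, mul_comm]⟩
  obtain ⟨c, hc⟩ := exists_prime_orderOf_dvd_card' (p := p) hpdvd
  -- commutativity modulo inner automorphisms
  have hnorm : ∀ α ∈ twistSub G Ω, ∃ α₁ ∈ twistSub G Ω, (α₁ c ∈ Subgroup.zpowers c) ∧
      ((α₁ : MulAut G) : MulAut G ⧸ Cfsg.Inn G) = (α : MulAut G ⧸ Cfsg.Inn G) := by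
    intro α hα
    have hord : orderOf (α c) = p := by rw [MulEquiv.orderOf_eq, hc]
    obtain ⟨g₁, hg₁⟩ := exists_conj_of_order hsq c (α c) hc hord
    refine ⟨MulAut.conj g₁ * α, (twistSub G Ω).mul_mem (conj_mem_twistSub g₁) hα, ?_, ?_⟩
    · simpa [MulAut.conj_apply] using hg₁
    · rw [QuotientGroup.eq]
      have h5 := (inferInstance : (Cfsg.Inn G).Normal).conj_mem _
        ((Cfsg.Inn G).inv_mem ⟨g₁, rfl⟩) α⁻¹
      simpa [mul_assoc] using h5
  have hcm : ∀ α ∈ twistSub G Ω, ∀ β ∈ twistSub G Ω,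
      (α : MulAut G ⧸ Cfsg.Inn G) * (β : MulAut G ⧸ Cfsg.Inn G)
        = (β : MulAut G ⧸ Cfsg.Inn G) * (α : MulAut G ⧸ Cfsg.Inn G) := by
    intro α hα β hβ
    obtain ⟨α₁, hα₁, ⟨i, hi⟩, e1⟩ := hnorm α hα
    obtain ⟨β₁, hβ₁, ⟨j, hj⟩, e2⟩ := hnorm β hβ
    rw [← e1, ← e2, ← QuotientGroup.mk_mul, ← QuotientGroup.mk_mul, QuotientGroup.eq]
    apply inn_of_fix hcard c hc
    · exact (twistSub G Ω).mul_mem ((twistSub G Ω).inv_mem ((twistSub G Ω).mul_mem hα₁ hβ₁))
        ((twistSub G Ω).mul_mem hβ₁ hα₁)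
    · have e3 : (α₁ * β₁) c = (β₁ * α₁) c := by
        simp only [MulAut.mul_apply, ← hi, ← hj, map_zpow]
        simp only [← zpow_mul, mul_comm]
      rw [MulAut.mul_apply, ← e3]
      exact MulAut.inv_apply_self _ _ c
  -- the subgroup generated by elements of odd order
  let O : Subgroup (MulAut G) := Subgroup.normalClosure {a | Odd (orderOf a)}
  have hOle : O ≤ twistSub G Ω := by
    refine (Subgroup.closure_le _).2 ?_
    intro a ha
    obtain ⟨b, hb, hba⟩ := Group.mem_conjugatesOfSet_iff.1 ha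
    apply hodd
    obtain ⟨u, rfl⟩ := isConj_iff.1 hba
    have : orderOf (u * b * u⁻¹) = orderOf b := by
      rw [← MulAut.conj_apply, MulEquiv.orderOf_eq]
    rw [this]
    exact hb
  let T : Subgroup (Cfsg.Out G) := O.map (QuotientGroup.mk' (Cfsg.Inn G))
  haveI hTn : T.Normal := Subgroup.Normal.map inferInstance _ (QuotientGroup.mk'_surjective _)
  haveI hTs : Group.IsSolvable T := by
    apply isSolvable_of_comm
    rintro ⟨_, a, ha, rfl⟩ ⟨_, b, hb, rfl⟩
    apply Subtype.ext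
    exact hcm a (hOle ha) b (hOle hb)
  haveI hQ2 : Fact (Nat.Prime 2) := ⟨Nat.prime_two⟩
  have hP2 : IsPGroup 2 (Cfsg.Out G ⧸ T) := by
    intro x
    obtain ⟨y, rfl⟩ := QuotientGroup.mk'_surjective T x
    obtain ⟨a, rfl⟩ := QuotientGroup.mk'_surjective (Cfsg.Inn G) y
    have hne : orderOf a ≠ 0 := (orderOf_pos a).ne'
    obtain ⟨e, m, hm, hem⟩ := Nat.exists_eq_two_pow_mul_odd hne
    refine ⟨e, ?_⟩
    have hb : Odd (orderOf (a ^ (2 ^ e))) := by
      refine Odd.of_dvd_nat hm (orderOf_dvd_of_pow_eq_one ?_)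
      rw [← pow_mul, ← hem, pow_orderOf_eq_one]
    have hbO : a ^ (2 ^ e) ∈ O := Subgroup.subset_normalClosure hb
    rw [← map_pow, ← map_pow]
    apply (QuotientGroup.eq_one_iff _).2
    exact ⟨_, hbO, rfl⟩
  haveI : Group.IsSolvable (Cfsg.Out G ⧸ T) := by
    have := hP2.isNilpotent
    infer_instance
  refine Group.isSolvable_of_ker_le_range T.subtype (QuotientGroup.mk' T) ?_
  intro x hx
  rw [QuotientGroup.ker_mk'] at hx
  exact ⟨⟨x, hx⟩, rfl⟩

end Main

end Cfsg.Agent.Lib.OutPrime
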