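import Cfsg.Agent.Lib.GLPrimeOrd
import Mathlib

/-!
Involution classes of `PGL`.
-/

set_option linter.all false

open scoped MatrixGroups
open Polynomial

noncomputable section

namespace Cfsg.Agent.Lib.PGLInv

open Cfsg.Agent.Lib

variable {F : Type*} [Field F] [Fintype F] {n : ℕ}

/-- The projective group. -/
abbrev PG (n : ℕ) (F : Type*) [Field F] [Fintype F] : Type _ :=
  GL (Fin n) F ⧸ Subgroup.center (GL (Fin n) F)

/-- Scalars. -/
abbrev sc (u : Fˣ) : GL (Fin n) F := Matrix.GeneralLinearGroup.scalar (Fin n) u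

theorem sc_mem (u : Fˣ) : (sc u : GL (Fin n) F) ∈ Subgroup.center (GL (Fin n) F) := by
  rw [Matrix.GeneralLinearGroup.center_eq_range_scalar]
  exact ⟨u, rfl⟩

theorem mk_sc_mul (u : Fˣ) (g : GL (Fin n) F) : ((sc u * g : GL (Fin n) F) : PG n F) = (g : PG n F) := by
  rw [QuotientGroup.mk_mul, (QuotientGroup.eq_one_iff _).2 (sc_mem u), one_mul]

theorem sc_inj (hn : 2 ≤ n) {u v : Fˣ} (h : (sc u : GL (Fin n) F) = sc v) : u = v := by
  haveI : Nonempty (Fin n) := ⟨⟨0, by omega⟩⟩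
  have h1 := congrArg Units.val h
  rw [Matrix.GeneralLinearGroup.coe_scalar, Matrix.GeneralLinearGroup.coe_scalar] at h1
  exact Units.ext (Matrix.scalar_inj.1 h1)

theorem sc_one : (sc 1 : GL (Fin n) F) = 1 := map_one _
theorem sc_pow (u : Fˣ) (k : ℕ) : (sc (u ^ k) : GL (Fin n) F) = sc u ^ k := map_pow _ _ _
theorem sc_inv (u : Fˣ) : (sc u⁻¹ : GL (Fin n) F) = (sc u)⁻¹ := map_inv _ _
theorem sc_mul (u v : Fˣ) : (sc (u * v) : GL (Fin n) F) = sc u * sc v := map_mul _ _ _

theorem sq_sc_mul (u : Fˣ) (g : GL (Fin n) F) : (sc u * g) ^ 2 = sc (u ^ 2) * g ^ 2 := by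
  rw [(show Commute (sc u) g from Matrix.GeneralLinearGroup.scalar_commute u g).mul_pow, sc_pow]

theorem val_sc_neg_mul (g : GL (Fin n) F) :
    ((sc (-1) * g : GL (Fin n) F) : Matrix (Fin n) (Fin n) F) = -(g : Matrix (Fin n) (Fin n) F) := by
  rw [Units.val_mul, Matrix.GeneralLinearGroup.coe_scalar, Matrix.scalar_apply]
  ext i j
  simp [Matrix.diagonal_mul]

theorem cl_eq_iff (g g' : GL (Fin n) F) :
    ConjClasses.mk (g : PG n F) = ConjClasses.mk (g' : PG n F) ↔
      ∃ (c : GL (Fin n) F) (u : Fˣ), c * g * c⁻¹ = sc u * g' := by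
  rw [ConjClasses.mk_eq_mk_iff_isConj, isConj_iff]
  constructor
  · rintro ⟨c', hc⟩
    obtain ⟨c, rfl⟩ := QuotientGroup.mk_surjective c'
    have h1 : ((c * g * c⁻¹ : GL (Fin n) F) : PG n F) = (g' : PG n F) := by
      rw [QuotientGroup.mk_mul, QuotientGroup.mk_mul, QuotientGroup.mk_inv]
      exact hc
    rw [QuotientGroup.eq, Matrix.GeneralLinearGroup.center_eq_range_scalar] at h1
    obtain ⟨v, hv⟩ := h1
    refine ⟨c, v⁻¹, ?_⟩
    have h2 : g' = (c * g * c⁻¹) * Matrix.GeneralLinearGroup.scalar (Fin n) v := by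
      rw [hv]
      group
    rw [h2, ← Matrix.GeneralLinearGroup.scalar_commute, sc_inv, inv_mul_cancel_left]
  · rintro ⟨c, u, h⟩
    refine ⟨(c : PG n F), ?_⟩
    rw [← QuotientGroup.mk_inv, ← QuotientGroup.mk_mul, ← QuotientGroup.mk_mul, h, mk_sc_mul]

theorem orderOf_mk_eq_two {g : GL (Fin n) F} (h1 : g ^ 2 ∈ Subgroup.center (GL (Fin n) F))
    (h2 : g ∉ Subgroup.center (GL (Fin n) F)) : orderOf (g : PG n F) = 2 := by
  apply orderOf_eq_prime
  · rw [← QuotientGroup.mk_pow, QuotientGroup.eq_one_iff]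
    exact h1
  · rw [Ne, QuotientGroup.eq_one_iff]
    exact h2

theorem charpoly_conj' (c g : GL (Fin n) F) :
    ((c * g * c⁻¹ : GL (Fin n) F) : Matrix (Fin n) (Fin n) F).charpoly = (g : Matrix (Fin n) (Fin n) F).charpoly := by
  have := Matrix.charpoly_units_conj (c : (Matrix (Fin n) (Fin n) F)ˣ) (g : Matrix (Fin n) (Fin n) F)
  rw [Units.val_mul, Units.val_mul, Matrix.coe_units_inv]
  exact this

theorem coprime_of_sq {p : ℕ} [Fact p.Prime] [CharP F p] (hp2 : p ≠ 2) {g : GL (Fin n) F} {l : Fˣ}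
    (h : g ^ 2 = sc l) : (orderOf g).Coprime p := by
  have hp : p.Prime := Fact.out
  have h1 : g ^ (2 * (Fintype.card F - 1)) = 1 := by
    rw [pow_mul, h, ← map_pow]
    have : l ^ (Fintype.card F - 1) = 1 := Units.ext (by
      rw [Units.val_pow_eq_pow_val, FiniteField.pow_card_sub_one_eq_one _ l.ne_zero, Units.val_one])
    rw [this, map_one]
  have h2 := orderOf_dvd_of_pow_eq_one h1
  refine Nat.Coprime.coprime_dvd_left h2 ?_
  rw [Nat.coprime_comm, Nat.Prime.coprime_iff_not_dvd hp]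
  intro h3
  rcases (Nat.Prime.dvd_mul hp).1 h3 with h4 | h4
  · exact hp2 ((Nat.prime_dvd_prime_iff_eq hp Nat.prime_two).1 h4)
  · obtain ⟨k, hpk, hk⟩ := FiniteField.card F p
    have h5 : p ∣ Fintype.card F := by
      rw [hk]
      exact dvd_pow_self p k.ne_zero
    have h6 : 0 < Fintype.card F := Fintype.card_pos
    have h7 := Nat.dvd_sub h5 h4
    have h8 : Fintype.card F - (Fintype.card F - 1) = 1 := by omega
    rw [h8] at h7
    exact hp.one_lt.ne' (Nat.dvd_one.1 h7)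

theorem charpoly_dvd_of_sq {A : Matrix (Fin n) (Fin n) F} {l : F} (hA : A ^ 2 = Matrix.scalar (Fin n) l) :
    A.charpoly ∣ (X ^ 2 - C l) ^ n := by
  have hc : Commute (Matrix.scalar (Fin n) (X : F[X])) (C.mapMatrix A) :=
    Matrix.scalar_commute _ (fun r => Commute.all _ _) _
  have h := hc.geom_sum₂_mul 2
  have h0 : (C.mapMatrix (Matrix.scalar (Fin n) l) : Matrix (Fin n) (Fin n) F[X]) = Matrix.scalar (Fin n) (C l) := by
    ext i j
    by_cases hij : i = j
    · subst hij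
      simp
    · simp [hij]
  have h2 : (Matrix.scalar (Fin n) (X : F[X])) ^ 2 - (C.mapMatrix A) ^ 2 =
      Matrix.scalar (Fin n) (X ^ 2 - C l : F[X]) := by
    rw [← map_pow, ← map_pow, hA, h0, map_sub, map_pow]
  rw [h2] at h
  have h3 := congrArg Matrix.det h
  rw [Matrix.det_mul] at h3
  have h4 : (Matrix.scalar (Fin n) (X ^ 2 - C l : F[X])).det = (X ^ 2 - C l) ^ n := by
    rw [Matrix.scalar_apply, Matrix.det_diagonal]
    simp
  rw [h4] at h3
  have h5 : A.charpoly = ((Matrix.scalar (Fin n)) X - C.mapMatrix A).det := rfl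
  rw [h5]
  exact Dvd.intro_left _ h3

theorem charpoly_neg' (A : Matrix (Fin n) (Fin n) F) :
    (-A).charpoly = (-1) ^ n * A.charpoly.comp (-X) := by
  have h1 : A.charpoly.comp (-X) = (compRingHom (-X : F[X])) A.charpoly := rfl
  have h2 : (compRingHom (-X : F[X])).mapMatrix (Matrix.charmatrix A) = -Matrix.charmatrix (-A) := by
    refine Matrix.ext fun i j => ?_
    by_cases hij : i = j
    · subst hij
      simp [Matrix.charmatrix_apply_eq]
      ring
    · simp [Matrix.charmatrix_apply_ne, hij]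
  have h3 : A.charpoly = (Matrix.charmatrix A).det := rfl
  rw [h1, h3, RingHom.map_det, h2, Matrix.det_neg, Fintype.card_fin, ← mul_assoc, ← mul_pow]
  simp [Matrix.charpoly]

theorem charpoly_neg_of {A : Matrix (Fin n) (Fin n) F} {a b : ℕ} (hab : a + b = n)
    (h : A.charpoly = (X + 1) ^ b * (X - 1) ^ a) : (-A).charpoly = (X + 1) ^ a * (X - 1) ^ b := by
  rw [charpoly_neg', h, mul_comp, pow_comp, pow_comp, add_comp, sub_comp, X_comp, one_comp, ← hab, pow_add]
  have h1 : (-X + 1 : F[X]) = (-1) * (X - 1) := by ring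
  have h2 : (-X - 1 : F[X]) = (-1) * (X + 1) := by ring
  rw [h1, h2, mul_pow, mul_pow]
  have h3 : ∀ k : ℕ, ((-1 : F[X]) ^ k) * ((-1 : F[X]) ^ k) = 1 := by
    intro k
    rw [← mul_pow]
    simp
  calc (-1 : F[X]) ^ a * (-1) ^ b * ((-1) ^ b * (X - 1) ^ b * ((-1) ^ a * (X + 1) ^ a))
      = (((-1 : F[X]) ^ a) * ((-1 : F[X]) ^ a)) * (((-1 : F[X]) ^ b) * ((-1 : F[X]) ^ b)) * ((X + 1) ^ a * (X - 1) ^ b) := by ring
    _ = _ := by rw [h3, h3, one_mul, one_mul]

theorem monic_Xp : (X + 1 : F[X]).Monic := by simpa using monic_X_add_C (1 : F)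
theorem monic_Xm : (X - 1 : F[X]).Monic := by simpa using monic_X_sub_C (1 : F)
theorem irr_Xp : Irreducible (X + 1 : F[X]) := by simpa using irreducible_X_sub_C (-1 : F)
theorem irr_Xm : Irreducible (X - 1 : F[X]) := by simpa using irreducible_X_sub_C (1 : F)
theorem deg_Xp : (X + 1 : F[X]).natDegree = 1 := by simpa using natDegree_X_add_C (1 : F)
theorem deg_Xm : (X - 1 : F[X]).natDegree = 1 := by simpa using natDegree_X_sub_C (1 : F)

theorem deg_prod (a b : ℕ) : ((X + 1 : F[X]) ^ b * (X - 1) ^ a).natDegree = a + b := by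
  rw [(monic_Xp.pow b).natDegree_mul (monic_Xm.pow a), monic_Xp.natDegree_pow, monic_Xm.natDegree_pow,
    deg_Xp, deg_Xm]
  ring

theorem rm_eq (hneg : (-1 : F) ≠ 1) (i a : ℕ) :
    rootMultiplicity (-1 : F) ((X + 1 : F[X]) ^ i * (X - 1) ^ a) = i := by
  have h1 : (X + 1 : F[X]) = X - C (-1) := by simp
  have h2 : ((X + 1 : F[X]) ^ i * (X - 1) ^ a) ≠ 0 := ((monic_Xp.pow i).mul (monic_Xm.pow a)).ne_zero
  rw [rootMultiplicity_mul h2, rootMultiplicity_eq_zero (p := (X - 1 : F[X]) ^ a), add_zero]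
  · rw [h1, rootMultiplicity_X_sub_C_pow]
  · intro h
    rw [IsRoot.def, eval_pow, eval_sub, eval_X, eval_one] at h
    exact pow_ne_zero a (sub_ne_zero.2 hneg) h

theorem charpoly_of_sq_one {A : Matrix (Fin n) (Fin n) F} (hA : A ^ 2 = 1) :
    ∃ a b : ℕ, a + b = n ∧ A.charpoly = (X + 1) ^ b * (X - 1) ^ a := by
  have h1 := GLPrimeOrd.charpoly_dvd_pow A hA
  have h2 : (X ^ 2 - 1 : F[X]) ^ n = (X + 1) ^ n * (X - 1) ^ n := by
    rw [← mul_pow]
    congr 1
    ring
  rw [h2] at h1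
  obtain ⟨f1, f2, h3, h4, h5⟩ := exists_dvd_and_dvd_of_dvd_mul h1
  obtain ⟨b, _, hb⟩ := (dvd_prime_pow irr_Xp.prime n).1 h3
  obtain ⟨a, _, ha⟩ := (dvd_prime_pow irr_Xm.prime n).1 h4
  have h6 : A.charpoly = (X + 1) ^ b * (X - 1) ^ a := by
    apply eq_of_monic_of_associated (Matrix.charpoly_monic A) ((monic_Xp.pow b).mul (monic_Xm.pow a))
    rw [h5]
    exact hb.mul_mul ha
  refine ⟨a, b, ?_, h6⟩
  have h7 := congrArg natDegree h6
  rw [Matrix.charpoly_natDegree_eq_dim, Fintype.card_fin, deg_prod] at h7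
  exact h7.symm

theorem charpoly_of_nonsq {g : GL (Fin n) F} {l : Fˣ} (h : g ^ 2 = sc l) (hl : ¬ IsSquare (l : F)) :
    Even n ∧ (g : Matrix (Fin n) (Fin n) F).charpoly = (X ^ 2 - C (l : F)) ^ (n / 2) := by
  have hirr : Irreducible (X ^ 2 - C (l : F)) :=
    X_pow_sub_C_irreducible_of_prime Nat.prime_two (fun b hb => hl ⟨b, by rw [← hb, sq]⟩)
  have hm : (X ^ 2 - C (l : F)).Monic := monic_X_pow_sub_C _ (by norm_num)
  have hA : (g : Matrix (Fin n) (Fin n) F) ^ 2 = Matrix.scalar (Fin n) (l : F) := by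
    rw [← Units.val_pow_eq_pow_val, h, Matrix.GeneralLinearGroup.coe_scalar]
  have h1 := charpoly_dvd_of_sq hA
  obtain ⟨k, _, hk⟩ := (dvd_prime_pow hirr.prime n).1 h1
  have h2 : (g : Matrix (Fin n) (Fin n) F).charpoly = (X ^ 2 - C (l : F)) ^ k :=
    eq_of_monic_of_associated (Matrix.charpoly_monic _) (hm.pow k) hk
  have h3 := congrArg natDegree h2
  rw [Matrix.charpoly_natDegree_eq_dim, Fintype.card_fin, hm.natDegree_pow, natDegree_X_pow_sub_C] at h3
  have h4 : n / 2 = k := by omega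
  refine ⟨⟨k, by omega⟩, ?_⟩
  rw [h4]
  exact h2

theorem aeval_of_charpoly {p : ℕ} [Fact p.Prime] [CharP F p] (x : GL (Fin n) F) (hx : (orderOf x).Coprime p)
    {b : F[X]} (hb : b ≠ 0) (hQ : ∀ Q, Irreducible Q → Q ∣ (x : Matrix (Fin n) (Fin n) F).charpoly → Q ∣ b) :
    aeval (x : Matrix (Fin n) (Fin n) F) b = 0 := by
  have hNp : ((orderOf x : ℕ) : F) ≠ 0 := by
    intro h
    rw [CharP.cast_eq_zero_iff F p] at h
    have h1 := Nat.Coprime.eq_one_of_dvd hx.symm h
    exact (Fact.out : p.Prime).one_lt.ne' h1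
  have hsep : (X ^ orderOf x - C (1 : F)).Separable := separable_X_pow_sub_C 1 hNp one_ne_zero
  have hpowx : (x : Matrix (Fin n) (Fin n) F) ^ orderOf x = 1 := by
    rw [← Units.val_pow_eq_pow_val, pow_orderOf_eq_one, Units.val_one]
  have hM1 : minpoly F (x : Matrix (Fin n) (Fin n) F) ∣ X ^ orderOf x - C 1 := minpoly.dvd F _ (by
    simp [hpowx])
  have hsq : Squarefree (minpoly F (x : Matrix (Fin n) (Fin n) F)) := hsep.squarefree.squarefree_of_dvd hM1
  have hM2 : minpoly F (x : Matrix (Fin n) (Fin n) F) ∣ (x : Matrix (Fin n) (Fin n) F).charpoly :=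
    Matrix.minpoly_dvd_charpoly _
  have hM3 : minpoly F (x : Matrix (Fin n) (Fin n) F) ∣ b :=
    GLPrimeOrd.dvd_of_squarefree hb hsq (fun Q h1 h2 => hQ Q h1 (h2.trans hM2))
  obtain ⟨c, hc⟩ := hM3
  rw [hc, map_mul, minpoly.aeval, zero_mul]

theorem exists_x {p : ℕ} [Fact p.Prime] [CharP F p] (i : ℕ) (hi : i ≤ n) :
    ∃ x : GL (Fin n) F, x ^ 2 = 1 ∧ (x : Matrix (Fin n) (Fin n) F).charpoly = (X + 1) ^ i * (X - 1) ^ (n - i) := by
  have hf : ((X + 1 : F[X]) ^ i * (X - 1) ^ (n - i)).Monic := (monic_Xp.pow i).mul (monic_Xm.pow _)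
  have hd : ((X + 1 : F[X]) ^ i * (X - 1) ^ (n - i)).natDegree = n := by
    rw [deg_prod]
    omega
  have h0 : ((X + 1 : F[X]) ^ i * (X - 1) ^ (n - i)).coeff 0 ≠ 0 := by
    rw [coeff_zero_eq_eval_zero, eval_mul, eval_pow, eval_pow]
    simp
  obtain ⟨x, hx1, hx2⟩ := GLClass.exists_element (p := p) _ hf hd h0
  have hb : (X ^ 2 - 1 : F[X]) ≠ 0 := by
    have := monic_X_pow_sub_C (1 : F) (n := 2) (by norm_num)
    rw [C_1] at this
    exact this.ne_zero
  have h1 := aeval_of_charpoly (p := p) x hx2 hb (by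
    intro Q hQ h
    rw [hx1] at h
    have h3 : (X ^ 2 - 1 : F[X]) = (X + 1) * (X - 1) := by ring
    rw [h3]
    rcases hQ.prime.dvd_or_dvd h with h2 | h2
    · exact (hQ.prime.dvd_of_dvd_pow h2).trans (dvd_mul_right _ _)
    · exact (hQ.prime.dvd_of_dvd_pow h2).trans (dvd_mul_left _ _))
  have h2 : (x : Matrix (Fin n) (Fin n) F) ^ 2 = 1 := by
    simpa [sub_eq_zero] using h1
  exact ⟨x, Units.ext (by rw [Units.val_pow_eq_pow_val, h2, Units.val_one]), hx1⟩

theorem exists_y {p : ℕ} [Fact p.Prime] [CharP F p] (hn : Even n) (l : Fˣ) (hl : ¬ IsSquare (l : F)) :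
    ∃ y : GL (Fin n) F, y ^ 2 = sc l ∧ (y : Matrix (Fin n) (Fin n) F).charpoly = (X ^ 2 - C (l : F)) ^ (n / 2) := by
  have hirr : Irreducible (X ^ 2 - C (l : F)) :=
    X_pow_sub_C_irreducible_of_prime Nat.prime_two (fun b hb => hl ⟨b, by rw [← hb, sq]⟩)
  have hm : (X ^ 2 - C (l : F)).Monic := monic_X_pow_sub_C _ (by norm_num)
  have hd : ((X ^ 2 - C (l : F)) ^ (n / 2)).natDegree = n := by
    rw [hm.natDegree_pow, natDegree_X_pow_sub_C]
    obtain ⟨k, rfl⟩ := hn
    omega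
  have h0 : ((X ^ 2 - C (l : F)) ^ (n / 2)).coeff 0 ≠ 0 := by
    rw [coeff_zero_eq_eval_zero, eval_pow]
    apply pow_ne_zero
    simp
  obtain ⟨y, hy1, hy2⟩ := GLClass.exists_element (p := p) _ (hm.pow _) hd h0
  have h1 := aeval_of_charpoly (p := p) y hy2 hm.ne_zero (by
    intro Q hQ h
    rw [hy1] at h
    exact hQ.prime.dvd_of_dvd_pow h)
  have h2 : (y : Matrix (Fin n) (Fin n) F) ^ 2 = Matrix.scalar (Fin n) (l : F) := by
    rw [map_sub, map_pow, aeval_X, aeval_C, sub_eq_zero] at h1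
    rw [h1]
    ext i j
    by_cases hij : i = j
    · subst hij
      simp [Matrix.algebraMap_matrix_apply]
    · simp [Matrix.algebraMap_matrix_apply, hij]
  refine ⟨y, Units.ext ?_, hy1⟩
  rw [Units.val_pow_eq_pow_val, h2, Matrix.GeneralLinearGroup.coe_scalar]

/-- Elements of order two modulo scalars, in normal form. -/
theorem one_of_charpoly {p : ℕ} [Fact p.Prime] [CharP F p] (hp2 : p ≠ 2) {h : GL (Fin n) F} (h2 : h ^ 2 = 1)
    (hc : (h : Matrix (Fin n) (Fin n) F).charpoly = (X - 1) ^ n) : h = 1 := by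
  have h3 : IsConj h 1 := GLClass.conj_of_charpoly (p := p) h 1
    (coprime_of_sq (l := 1) hp2 (by rw [sc_one]; exact h2)) (by simp)
    (by rw [hc, Units.val_one, Matrix.charpoly_one, Fintype.card_fin])
  exact isConj_one_right.1 h3.symm

theorem cl_of_isConj {g g' : GL (Fin n) F} (h : IsConj g g') :
    ConjClasses.mk (g : PG n F) = ConjClasses.mk (g' : PG n F) :=
  ConjClasses.mk_eq_mk_iff_isConj.2 (MonoidHom.map_isConj (QuotientGroup.mk' _) h)

theorem cl_sc_mul (u : Fˣ) (g : GL (Fin n) F) :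
    ConjClasses.mk ((sc u * g : GL (Fin n) F) : PG n F) = ConjClasses.mk (g : PG n F) := by
  rw [mk_sc_mul]

theorem sq_rel (hn : 2 ≤ n) {c g g' : GL (Fin n) F} {u l l' : Fˣ} (hc : c * g * c⁻¹ = sc u * g')
    (hg : g ^ 2 = sc l) (hg' : g' ^ 2 = sc l') : l = u ^ 2 * l' := by
  have h : (c * g * c⁻¹) ^ 2 = (sc u * g') ^ 2 := by rw [hc]
  rw [conj_pow, hg, sq_sc_mul, hg', ← sc_mul, ← Matrix.GeneralLinearGroup.scalar_commute, mul_inv_cancel_right] at h
  exact sc_inj hn h

theorem exists_ratio (hrc : ringChar F ≠ 2) {l l₀ : Fˣ} (h : ¬ IsSquare (l : F)) (h₀ : ¬ IsSquare (l₀ : F)) :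
    ∃ v : Fˣ, v ^ 2 * l = l₀ := by
  have h1 : (l : F) ^ (Fintype.card F / 2) = -1 := by
    rcases FiniteField.pow_dichotomy hrc l.ne_zero with h2 | h2
    · exact absurd ((FiniteField.isSquare_iff hrc l.ne_zero).2 h2) h
    · exact h2
  have h2 : (l₀ : F) ^ (Fintype.card F / 2) = -1 := by
    rcases FiniteField.pow_dichotomy hrc l₀.ne_zero with h2 | h2
    · exact absurd ((FiniteField.isSquare_iff hrc l₀.ne_zero).2 h2) h₀
    · exact h2
  have h3 : ((l₀ : F) / l) ≠ 0 := div_ne_zero l₀.ne_zero l.ne_zero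
  have h4 : IsSquare ((l₀ : F) / l) := by
    rw [FiniteField.isSquare_iff hrc h3, div_pow, h1, h2]
    norm_num
  obtain ⟨w, hw⟩ := h4
  have hw0 : w ≠ 0 := by
    rintro rfl
    rw [mul_zero] at hw
    exact h3 hw
  refine ⟨Units.mk0 w hw0, Units.ext ?_⟩
  rw [Units.val_mul, Units.val_pow_eq_pow_val, Units.val_mk0, sq, ← hw, div_mul_cancel₀ _ l.ne_zero]

theorem bounds_of_not_center {p : ℕ} [Fact p.Prime] [CharP F p] (hp2 : p ≠ 2) {h : GL (Fin n) F} {a b : ℕ}
    (h2 : h ^ 2 = 1) (hab : a + b = n) (hc : (h : Matrix (Fin n) (Fin n) F).charpoly = (X + 1) ^ b * (X - 1) ^ a)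
    (hZ : h ∉ Subgroup.center (GL (Fin n) F)) : 1 ≤ a ∧ 1 ≤ b := by
  constructor
  · by_contra hne
    have ha : a = 0 := by omega
    subst ha
    have hbn : b = n := by omega
    subst hbn
    have h3 : ((sc (-1) * h : GL (Fin b) F) : Matrix (Fin b) (Fin b) F).charpoly = (X - 1) ^ b := by
      rw [val_sc_neg_mul, charpoly_neg_of hab hc, pow_zero, one_mul]
    have h4 : (sc (-1) * h) ^ 2 = 1 := by
      rw [sq_sc_mul, h2, mul_one]
      simp [sc_one]
    have h5 := one_of_charpoly (p := p) hp2 h4 h3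
    apply hZ
    have h6 : h = (sc (-1))⁻¹ := eq_inv_of_mul_eq_one_right h5
    rw [h6]
    exact inv_mem (sc_mem _)
  · by_contra hne
    have hb : b = 0 := by omega
    subst hb
    have han : a = n := by omega
    subst han
    have h3 : (h : Matrix (Fin a) (Fin a) F).charpoly = (X - 1) ^ a := by
      rw [hc, pow_zero, one_mul]
    have h5 := one_of_charpoly (p := p) hp2 h2 h3
    apply hZ
    rw [h5]
    exact one_mem _

theorem not_center_of_bounds (hn : 2 ≤ n) (hneg : (-1 : F) ≠ 1) {h : GL (Fin n) F} {a b : ℕ} (ha : 1 ≤ a) (hb : 1 ≤ b)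
    (h2 : h ^ 2 = 1) (hab : a + b = n) (hc : (h : Matrix (Fin n) (Fin n) F).charpoly = (X + 1) ^ b * (X - 1) ^ a) :
    h ∉ Subgroup.center (GL (Fin n) F) := by
  intro hZ
  rw [Matrix.GeneralLinearGroup.center_eq_range_scalar] at hZ
  obtain ⟨u, rfl⟩ := hZ
  have hu : u ^ 2 = 1 := sc_inj hn (by rw [sc_pow, sc_one]; exact h2)
  have hu' : (u : F) * u = 1 := by
    have := congrArg Units.val hu
    simpa [sq] using this
  rcases mul_self_eq_one_iff.1 hu' with h3 | h3
  · have h4 : u = 1 := Units.ext h3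
    subst h4
    have h5 : ((Matrix.GeneralLinearGroup.scalar (Fin n) (1 : Fˣ) : GL (Fin n) F) : Matrix (Fin n) (Fin n) F).charpoly
        = (X + 1) ^ 0 * (X - 1) ^ n := by
      rw [show (Matrix.GeneralLinearGroup.scalar (Fin n) (1 : Fˣ) : GL (Fin n) F) = 1 from map_one _, Units.val_one, Matrix.charpoly_one, Fintype.card_fin, pow_zero, one_mul]
    rw [h5] at hc
    have h6 := congrArg (rootMultiplicity (-1 : F)) hc
    rw [rm_eq hneg, rm_eq hneg] at h6
    omega
  · have h4 : u = -1 := Units.ext (by simpa using h3)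
    subst h4
    have h0 : ((1 : Matrix (Fin n) (Fin n) F)).charpoly = (X + 1) ^ 0 * (X - 1) ^ n := by
      rw [Matrix.charpoly_one, Fintype.card_fin, pow_zero, one_mul]
    have h5 := charpoly_neg_of (a := n) (b := 0) (by omega) h0
    have h7 : ((Matrix.GeneralLinearGroup.scalar (Fin n) (-1 : Fˣ) : GL (Fin n) F) : Matrix (Fin n) (Fin n) F) = -1 := by
      simpa using val_sc_neg_mul (1 : GL (Fin n) F)
    rw [h7, h5] at hc
    have h6 := congrArg (rootMultiplicity (-1 : F)) hc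
    rw [rm_eq hneg, rm_eq hneg] at h6
    omega

theorem count {p : ℕ} [Fact p.Prime] [CharP F p] (hp2 : p ≠ 2) (hn : 2 ≤ n) :
    Nat.card {C : ConjClasses (PG n F) // ∃ g : PG n F, ConjClasses.mk g = C ∧ orderOf g = 2} =
      n / 2 + (if Even n then 1 else 0) := by
  classical
  have hp : p.Prime := Fact.out
  have h2F : (2 : F) ≠ 0 := by
    intro h
    have h1 : ((2 : ℕ) : F) = 0 := by exact_mod_cast h
    rw [CharP.cast_eq_zero_iff F p] at h1
    exact hp2 ((Nat.prime_dvd_prime_iff_eq hp Nat.prime_two).1 h1)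
  have hneg : (-1 : F) ≠ 1 := by
    intro h
    apply h2F
    have h3 : (2 : F) = 1 - (-1) := by ring
    rw [h3, h, sub_self]
  have hrc : ringChar F ≠ 2 := by
    rw [ringChar.eq F p]
    exact hp2
  obtain ⟨l₀, hl₀⟩ : ∃ l : Fˣ, ¬ IsSquare (l : F) := by
    obtain ⟨a, ha⟩ := FiniteField.exists_nonsquare hrc
    have ha0 : a ≠ 0 := by
      rintro rfl
      exact ha IsSquare.zero
    exact ⟨Units.mk0 a ha0, ha⟩
  have hex : ∀ i : ℕ, ∃ x : GL (Fin n) F, i ≤ n → x ^ 2 = 1 ∧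
      (x : Matrix (Fin n) (Fin n) F).charpoly = (X + 1) ^ i * (X - 1) ^ (n - i) := by
    intro i
    by_cases hi : i ≤ n
    · obtain ⟨x, h1, h2⟩ := exists_x (F := F) (n := n) (p := p) i hi
      exact ⟨x, fun _ => ⟨h1, h2⟩⟩
    · exact ⟨1, fun h => absurd h hi⟩
  choose x hx using hex
  have hey : ∀ he : Even n, ∃ y : GL (Fin n) F, y ^ 2 = sc l₀ ∧
      (y : Matrix (Fin n) (Fin n) F).charpoly = (X ^ 2 - C (l₀ : F)) ^ (n / 2) :=
    fun he => exists_y (p := p) he l₀ hl₀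
  choose y hy1 hy2 using hey
  have hlen : ∀ j ∈ Finset.Icc 1 (n / 2), j ≤ n ∧ 1 ≤ j ∧ j ≤ n / 2 ∧ 1 ≤ n - j := by
    intro j hj
    rw [Finset.mem_Icc] at hj
    omega
  have hordx : ∀ j ∈ Finset.Icc 1 (n / 2), orderOf (x j : PG n F) = 2 := by
    intro j hj
    obtain ⟨h1, h2, h3, h4⟩ := hlen j hj
    obtain ⟨h5, h6⟩ := hx j h1
    apply orderOf_mk_eq_two
    · rw [h5]
      exact one_mem _
    · exact not_center_of_bounds hn hneg h4 h2 h5 (by omega) h6
  have hordy : ∀ he : Even n, orderOf (y he : PG n F) = 2 := by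
    intro he
    apply orderOf_mk_eq_two
    · rw [hy1]
      exact sc_mem _
    · intro hZ
      rw [Matrix.GeneralLinearGroup.center_eq_range_scalar] at hZ
      obtain ⟨v, hv⟩ := hZ
      have h1 := hy1 he
      rw [← hv, ← map_pow] at h1
      have h2 : v ^ 2 = l₀ := sc_inj hn h1
      apply hl₀
      rw [← h2]
      exact ⟨(v : F), by rw [Units.val_pow_eq_pow_val, sq]⟩
  have hinjx : ∀ j ∈ Finset.Icc 1 (n / 2), ∀ j' ∈ Finset.Icc 1 (n / 2),
      ConjClasses.mk (x j : PG n F) = ConjClasses.mk (x j' : PG n F) → j = j' := by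
    intro j hj j' hj' h
    obtain ⟨h1, h2, h3, h4⟩ := hlen j hj
    obtain ⟨h1', h2', h3', h4'⟩ := hlen j' hj'
    obtain ⟨h5, h6⟩ := hx j h1
    obtain ⟨h5', h6'⟩ := hx j' h1'
    obtain ⟨c, u, hc⟩ := (cl_eq_iff _ _).1 h
    have hu := sq_rel (l := 1) (l' := 1) hn hc (by rw [sc_one]; exact h5) (by rw [sc_one]; exact h5')
    have hu' : (u : F) * u = 1 := by
      have h7 := congrArg Units.val hu
      simpa [sq] using h7.symm
    have hchar := charpoly_conj' c (x j)
    rw [hc, h6] at hchar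
    rcases mul_self_eq_one_iff.1 hu' with h7 | h7
    · have h8 : u = 1 := Units.ext h7
      subst h8
      rw [sc_one, one_mul, h6'] at hchar
      have h9 := congrArg (rootMultiplicity (-1 : F)) hchar
      rw [rm_eq hneg, rm_eq hneg] at h9
      exact h9.symm
    · have h8 : u = -1 := Units.ext (by simpa using h7)
      subst h8
      rw [val_sc_neg_mul, charpoly_neg_of (a := n - j') (b := j') (by omega) h6'] at hchar
      have h9 := congrArg (rootMultiplicity (-1 : F)) hchar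
      rw [rm_eq hneg, rm_eq hneg] at h9
      omega
  have hsep : ∀ j ∈ Finset.Icc 1 (n / 2), ∀ he : Even n,
      ConjClasses.mk (x j : PG n F) ≠ ConjClasses.mk (y he : PG n F) := by
    intro j hj he h
    obtain ⟨h1, h2, h3, h4⟩ := hlen j hj
    obtain ⟨h5, h6⟩ := hx j h1
    obtain ⟨c, u, hc⟩ := (cl_eq_iff _ _).1 h
    have hu := sq_rel (l := 1) (l' := l₀) hn hc (by rw [sc_one]; exact h5) (hy1 he)
    apply hl₀
    have h7 : (l₀ : F) = (u⁻¹ : Fˣ) * (u⁻¹ : Fˣ) := by
      have h8 : l₀ = u⁻¹ * u⁻¹ := by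
        have h9 : (u⁻¹ * u⁻¹) * (u ^ 2 * l₀) = l₀ := by
          rw [sq]
          group
        rw [← hu, mul_one] at h9
        exact h9.symm
      rw [h8, Units.val_mul]
    exact ⟨_, h7⟩
  have hclass : ∀ g : GL (Fin n) F, orderOf (g : PG n F) = 2 →
      (∃ j ∈ Finset.Icc 1 (n / 2), ConjClasses.mk (g : PG n F) = ConjClasses.mk (x j : PG n F)) ∨
      (∃ he : Even n, ConjClasses.mk (g : PG n F) = ConjClasses.mk (y he : PG n F)) := by
    intro g hg
    have h1 : g ^ 2 ∈ Subgroup.center (GL (Fin n) F) := by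
      rw [← QuotientGroup.eq_one_iff, QuotientGroup.mk_pow, ← hg, pow_orderOf_eq_one]
    have h2 : g ∉ Subgroup.center (GL (Fin n) F) := by
      intro h
      rw [← QuotientGroup.eq_one_iff] at h
      rw [h, orderOf_one] at hg
      omega
    rw [Matrix.GeneralLinearGroup.center_eq_range_scalar] at h1
    obtain ⟨l, hl⟩ := h1
    by_cases hs : IsSquare (l : F)
    · left
      obtain ⟨v, hv⟩ := hs
      have hv0 : v ≠ 0 := by
        rintro rfl
        rw [mul_zero] at hv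
        exact l.ne_zero hv
      obtain ⟨w, hw⟩ : ∃ w : Fˣ, w ^ 2 * l = 1 := by
        refine ⟨(Units.mk0 v hv0)⁻¹, Units.ext ?_⟩
        rw [Units.val_mul, hv, Units.val_pow_eq_pow_val, Units.val_inv_eq_inv_val, Units.val_mk0, Units.val_one]
        field_simp
      have hh : (sc w * g) ^ 2 = 1 := by
        rw [sq_sc_mul, ← hl]
        show sc (w ^ 2) * sc l = 1
        rw [← sc_mul, hw, sc_one]
      have hnot : sc w * g ∉ Subgroup.center (GL (Fin n) F) := by
        intro hh'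
        apply h2
        rw [← QuotientGroup.eq_one_iff] at hh' ⊢
        rwa [mk_sc_mul] at hh'
      have hA : ((sc w * g : GL (Fin n) F) : Matrix (Fin n) (Fin n) F) ^ 2 = 1 := by
        rw [← Units.val_pow_eq_pow_val, hh, Units.val_one]
      obtain ⟨a, b, hab, hc⟩ := charpoly_of_sq_one hA
      obtain ⟨ha, hb⟩ := bounds_of_not_center (p := p) hp2 hh hab hc hnot
      by_cases hb2 : b ≤ n / 2
      · have hbm : b ∈ Finset.Icc 1 (n / 2) := Finset.mem_Icc.2 ⟨hb, hb2⟩
        obtain ⟨h5, h6⟩ := hx b (by omega)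
        refine ⟨b, hbm, ?_⟩
        rw [← cl_sc_mul w g]
        apply cl_of_isConj
        apply GLClass.conj_of_charpoly (p := p) _ _
          (coprime_of_sq (l := 1) hp2 (by rw [sc_one]; exact hh))
          (coprime_of_sq (l := 1) hp2 (by rw [sc_one]; exact h5))
        rw [hc, h6]
        have : n - b = a := by omega
        rw [this]
      · have ham : a ∈ Finset.Icc 1 (n / 2) := Finset.mem_Icc.2 ⟨ha, by omega⟩
        obtain ⟨h5, h6⟩ := hx a (by omega)
        refine ⟨a, ham, ?_⟩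
        rw [← cl_sc_mul w g, ← cl_sc_mul (-1) (sc w * g)]
        apply cl_of_isConj
        have hh2 : (sc (-1) * (sc w * g)) ^ 2 = 1 := by
          rw [sq_sc_mul, hh, mul_one]
          simp [sc_one]
        apply GLClass.conj_of_charpoly (p := p) _ _
          (coprime_of_sq (l := 1) hp2 (by rw [sc_one]; exact hh2))
          (coprime_of_sq (l := 1) hp2 (by rw [sc_one]; exact h5))
        rw [val_sc_neg_mul, charpoly_neg_of hab hc, h6]
        have : n - a = b := by omega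
        rw [this]
    · right
      have hg2 : g ^ 2 = sc l := hl.symm
      have he := (charpoly_of_nonsq hg2 hs).1
      refine ⟨he, ?_⟩
      obtain ⟨v, hv⟩ := exists_ratio hrc hs hl₀
      have hh : (sc v * g) ^ 2 = sc l₀ := by
        rw [sq_sc_mul, hg2, ← sc_mul, hv]
      rw [← cl_sc_mul v g]
      apply cl_of_isConj
      apply GLClass.conj_of_charpoly (p := p) _ _ (coprime_of_sq hp2 hh) (coprime_of_sq hp2 (hy1 he))
      rw [(charpoly_of_nonsq hh hl₀).2, hy2]
  -- assemble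
  have hcardJ : Nat.card (Finset.Icc 1 (n / 2) : Finset ℕ) = n / 2 := by
    rw [Nat.card_eq_fintype_card, Fintype.card_coe, Nat.card_Icc]
    omega
  have hcardE : Nat.card {z : Unit // Even n} = if Even n then 1 else 0 := by
    split_ifs with he
    · haveI : Unique {z : Unit // Even n} := ⟨⟨⟨(), he⟩⟩, fun z => Subtype.ext rfl⟩
      exact Nat.card_unique
    · haveI : IsEmpty {z : Unit // Even n} := ⟨fun z => he z.2⟩
      exact Nat.card_of_isEmpty
  rw [← hcardJ, ← hcardE, ← Nat.card_sum]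
  symm
  refine Nat.card_congr (Equiv.ofBijective (Sum.elim
    (fun j => ⟨ConjClasses.mk (x j.1 : PG n F), _, rfl, hordx j.1 j.2⟩)
    (fun z => ⟨ConjClasses.mk (y z.2 : PG n F), _, rfl, hordy z.2⟩)) ⟨?_, ?_⟩)
  · rintro (j | z) (j' | z') h
    · have h1 := congrArg Subtype.val h
      exact congrArg Sum.inl (Subtype.ext (hinjx _ j.2 _ j'.2 h1))
    · exact absurd (congrArg Subtype.val h) (hsep _ j.2 _)
    · exact absurd (congrArg Subtype.val h).symm (hsep _ j'.2 _)
    · exact congrArg Sum.inr (Subtype.ext rfl)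
  · rintro ⟨C, g, rfl, hg⟩
    obtain ⟨g, rfl⟩ := QuotientGroup.mk_surjective g
    rcases hclass g hg with ⟨j, hj, h⟩ | ⟨he, h⟩
    · exact ⟨Sum.inl ⟨j, hj⟩, Subtype.ext h.symm⟩
    · exact ⟨Sum.inr ⟨(), he⟩, Subtype.ext h.symm⟩

end Cfsg.Agent.Lib.PGLInv
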