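import Cfsg.Agent.Lib.PGLInv
import Cfsg.Agent.Lib.SLn
import Mathlib

/-!
Classes of elements of prime order of `PGL` when the prime divides `q - 1`.
-/

set_option linter.all false

open scoped MatrixGroups
open Polynomial

noncomputable section

namespace Cfsg.Agent.Lib.PGLPrime

open Cfsg.Agent.Lib PGLInv

variable {F : Type*} [Field F] [Fintype F] {n r : ℕ}

/-- Products of linear factors. -/
def prodX (m : Multiset F) : F[X] := (m.map (fun a => X - C a)).prod

theorem prodX_monic (m : Multiset F) : (prodX m).Monic :=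
  monic_multiset_prod_of_monic _ _ (fun a _ => monic_X_sub_C a)

theorem prodX_natDegree (m : Multiset F) : (prodX m).natDegree = Multiset.card m := by
  unfold prodX
  exact natDegree_multiset_prod_X_sub_C_eq_card m

theorem prodX_roots (m : Multiset F) : (prodX m).roots = m := roots_multiset_prod_X_sub_C m

theorem prodX_scale (c : F) (hc : c ≠ 0) (m : Multiset F) :
    C (c ^ Multiset.card m) * (prodX m).comp (C c⁻¹ * X) = prodX (m.map (fun a => c * a)) := by
  unfold prodX
  induction m using Multiset.induction with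
  | empty => simp
  | cons a s ih =>
    simp only [Multiset.map_cons, Multiset.prod_cons, Multiset.card_cons, mul_comp, ← ih]
    have h1 : C (c ^ (Multiset.card s + 1)) = C (c ^ Multiset.card s) * C c := by
      rw [pow_succ, C_mul]
    have h2 : C c * ((X - C a).comp (C c⁻¹ * X)) = X - C (c * a) := by
      simp only [sub_comp, X_comp, C_comp, mul_sub, ← mul_assoc, ← C_mul, mul_inv_cancel₀ hc, C_1, one_mul]
    rw [h1, ← h2]
    ring

theorem charpoly_smul' (A : Matrix (Fin n) (Fin n) F) (c : F) (hc : c ≠ 0) :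
    (c • A).charpoly = C (c ^ n) * A.charpoly.comp (C c⁻¹ * X) := by
  have h1 : A.charpoly.comp (C c⁻¹ * X) = (compRingHom (C c⁻¹ * X : F[X])) A.charpoly := rfl
  have h2 : (compRingHom (C c⁻¹ * X : F[X])).mapMatrix (Matrix.charmatrix A) =
      (C c⁻¹ : F[X]) • Matrix.charmatrix (c • A) := by
    refine Matrix.ext fun i j => ?_
    by_cases hij : i = j
    · subst hij
      simp only [RingHom.mapMatrix_apply, Matrix.map_apply, Matrix.charmatrix_apply_eq, Matrix.smul_apply, smul_eq_mul,
        coe_compRingHom_apply, sub_comp, X_comp, C_comp, mul_sub, ← C_mul, inv_mul_cancel_left₀ hc]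
    · simp only [RingHom.mapMatrix_apply, Matrix.map_apply, Matrix.charmatrix_apply_ne _ _ _ hij, Matrix.smul_apply, smul_eq_mul,
        coe_compRingHom_apply, neg_comp, C_comp, mul_neg, ← C_mul, inv_mul_cancel_left₀ hc]
  have h3 : A.charpoly = (Matrix.charmatrix A).det := rfl
  rw [h1, h3, RingHom.map_det, h2, Matrix.det_smul, Fintype.card_fin, ← mul_assoc, ← C_pow, ← C_mul, ← mul_pow,
    mul_inv_cancel₀ hc, one_pow, C_1, one_mul]
  rfl

theorem val_sc_mul (u : Fˣ) (g : GL (Fin n) F) :
    ((sc u * g : GL (Fin n) F) : Matrix (Fin n) (Fin n) F) = (u : F) • (g : Matrix (Fin n) (Fin n) F) := by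
  rw [Units.val_mul, Matrix.GeneralLinearGroup.coe_scalar, Matrix.scalar_apply, Matrix.smul_eq_diagonal_mul]

theorem charpoly_sc_mul (u : Fˣ) (g : GL (Fin n) F) {m : Multiset F} (hm : Multiset.card m = n)
    (h : (g : Matrix (Fin n) (Fin n) F).charpoly = prodX m) :
    ((sc u * g : GL (Fin n) F) : Matrix (Fin n) (Fin n) F).charpoly = prodX (m.map (fun a => (u : F) * a)) := by
  rw [val_sc_mul, charpoly_smul' _ _ u.ne_zero, h, ← hm, prodX_scale _ u.ne_zero]

theorem orderOf_mk_eq_prime (hr : r.Prime) {g : GL (Fin n) F} (h1 : g ^ r ∈ Subgroup.center (GL (Fin n) F))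
    (h2 : g ∉ Subgroup.center (GL (Fin n) F)) : orderOf (g : PG n F) = r := by
  haveI : Fact r.Prime := ⟨hr⟩
  apply orderOf_eq_prime
  · rw [← QuotientGroup.mk_pow, QuotientGroup.eq_one_iff]
    exact h1
  · rw [Ne, QuotientGroup.eq_one_iff]
    exact h2

theorem coprime_of_pow {p : ℕ} [Fact p.Prime] [CharP F p] (hr : r.Prime) (hpr : p ≠ r) {g : GL (Fin n) F} {l : Fˣ}
    (h : g ^ r = sc l) : (orderOf g).Coprime p := by
  have hp : p.Prime := Fact.out
  have h1 : g ^ (r * (Fintype.card F - 1)) = 1 := by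
    rw [pow_mul, h, ← map_pow]
    have : l ^ (Fintype.card F - 1) = 1 := Units.ext (by
      rw [Units.val_pow_eq_pow_val, FiniteField.pow_card_sub_one_eq_one _ l.ne_zero, Units.val_one])
    rw [this, map_one]
  have h2 := orderOf_dvd_of_pow_eq_one h1
  refine Nat.Coprime.coprime_dvd_left h2 ?_
  rw [Nat.coprime_comm, Nat.Prime.coprime_iff_not_dvd hp]
  intro h3
  rcases (Nat.Prime.dvd_mul hp).1 h3 with h4 | h4
  · exact hpr ((Nat.prime_dvd_prime_iff_eq hp hr).1 h4)
  · obtain ⟨k, hpk, hk⟩ := FiniteField.card F p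
    have h5 : p ∣ Fintype.card F := by
      rw [hk]
      exact dvd_pow_self p k.ne_zero
    have h6 : 0 < Fintype.card F := Fintype.card_pos
    have h7 := Nat.dvd_sub h5 h4
    have h8 : Fintype.card F - (Fintype.card F - 1) = 1 := by omega
    rw [h8] at h7
    exact hp.one_lt.ne' (Nat.dvd_one.1 h7)

theorem charpoly_dvd_of_pow {A : Matrix (Fin n) (Fin n) F} {l : F} (hA : A ^ r = Matrix.scalar (Fin n) l) :
    A.charpoly ∣ (X ^ r - C l) ^ n := by
  have hc : Commute (Matrix.scalar (Fin n) (X : F[X])) (C.mapMatrix A) :=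
    Matrix.scalar_commute _ (fun r => Commute.all _ _) _
  have h := hc.geom_sum₂_mul r
  have h0 : (C.mapMatrix (Matrix.scalar (Fin n) l) : Matrix (Fin n) (Fin n) F[X]) = Matrix.scalar (Fin n) (C l) := by
    ext i j
    by_cases hij : i = j
    · subst hij
      simp
    · simp [hij]
  have h2 : (Matrix.scalar (Fin n) (X : F[X])) ^ r - (C.mapMatrix A) ^ r =
      Matrix.scalar (Fin n) (X ^ r - C l : F[X]) := by
    rw [← map_pow, ← map_pow, hA, h0, map_sub, map_pow]
  rw [h2] at h
  have h3 := congrArg Matrix.det h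
  rw [Matrix.det_mul] at h3
  have h4 : (Matrix.scalar (Fin n) (X ^ r - C l : F[X])).det = (X ^ r - C l) ^ n := by
    rw [Matrix.scalar_apply, Matrix.det_diagonal]
    simp
  rw [h4] at h3
  have h5 : A.charpoly = ((Matrix.scalar (Fin n)) X - C.mapMatrix A).det := rfl
  rw [h5]
  exact Dvd.intro_left _ h3

theorem charpoly_of_nonpow (hr : r.Prime) {g : GL (Fin n) F} {l : Fˣ} (h : g ^ r = sc l)
    (hl : ∀ b : Fˣ, b ^ r ≠ l) :
    r ∣ n ∧ (g : Matrix (Fin n) (Fin n) F).charpoly = (X ^ r - C (l : F)) ^ (n / r) := by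
  have hl' : ∀ b : F, b ^ r ≠ (l : F) := by
    intro b hb
    have hb0 : b ≠ 0 := by
      rintro rfl
      rw [zero_pow hr.ne_zero] at hb
      exact l.ne_zero hb.symm
    apply hl (Units.mk0 b hb0)
    apply Units.ext
    rw [Units.val_pow_eq_pow_val, Units.val_mk0, hb]
  have hirr : Irreducible (X ^ r - C (l : F)) := X_pow_sub_C_irreducible_of_prime hr hl'
  have hm : (X ^ r - C (l : F)).Monic := monic_X_pow_sub_C _ hr.ne_zero
  have hA : (g : Matrix (Fin n) (Fin n) F) ^ r = Matrix.scalar (Fin n) (l : F) := by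
    rw [← Units.val_pow_eq_pow_val, h, Matrix.GeneralLinearGroup.coe_scalar]
  have h1 := charpoly_dvd_of_pow hA
  obtain ⟨k, _, hk⟩ := (dvd_prime_pow hirr.prime n).1 h1
  have h2 : (g : Matrix (Fin n) (Fin n) F).charpoly = (X ^ r - C (l : F)) ^ k :=
    eq_of_monic_of_associated (Matrix.charpoly_monic _) (hm.pow k) hk
  have h3 := congrArg natDegree h2
  rw [Matrix.charpoly_natDegree_eq_dim, Fintype.card_fin, hm.natDegree_pow, natDegree_X_pow_sub_C] at h3
  have h4 : n / r = k := by
    rw [h3]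
    exact Nat.mul_div_cancel _ hr.pos
  refine ⟨⟨k, by rw [h3, mul_comm]⟩, ?_⟩
  rw [h4]
  exact h2

theorem exists_y {p : ℕ} [Fact p.Prime] [CharP F p] (hr : r.Prime) (hn : r ∣ n) (l : Fˣ) :
    ∃ y : GL (Fin n) F, y ^ r = sc l ∧ (y : Matrix (Fin n) (Fin n) F).charpoly = (X ^ r - C (l : F)) ^ (n / r) := by
  have hm : (X ^ r - C (l : F)).Monic := monic_X_pow_sub_C _ hr.ne_zero
  have hd : ((X ^ r - C (l : F)) ^ (n / r)).natDegree = n := by
    rw [hm.natDegree_pow, natDegree_X_pow_sub_C]
    exact Nat.div_mul_cancel hn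
  have h0 : ((X ^ r - C (l : F)) ^ (n / r)).coeff 0 ≠ 0 := by
    rw [coeff_zero_eq_eval_zero, eval_pow]
    apply pow_ne_zero
    simp [hr.ne_zero]
  obtain ⟨y, hy1, hy2⟩ := GLClass.exists_element (p := p) _ (hm.pow _) hd h0
  have h1 := aeval_of_charpoly (p := p) y hy2 hm.ne_zero (by
    intro Q hQ h
    rw [hy1] at h
    exact hQ.prime.dvd_of_dvd_pow h)
  have h2 : (y : Matrix (Fin n) (Fin n) F) ^ r = Matrix.scalar (Fin n) (l : F) := by
    rw [map_sub, map_pow, aeval_X, aeval_C, sub_eq_zero] at h1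
    rw [h1]
    ext i j
    by_cases hij : i = j
    · subst hij
      simp [Matrix.algebraMap_matrix_apply]
    · simp [Matrix.algebraMap_matrix_apply, hij]
  refine ⟨y, Units.ext ?_, hy1⟩
  rw [Units.val_pow_eq_pow_val, h2, Matrix.GeneralLinearGroup.coe_scalar]

theorem pow_rel (hn : 2 ≤ n) {c g g' : GL (Fin n) F} {u l l' : Fˣ} (hc : c * g * c⁻¹ = sc u * g')
    (hg : g ^ r = sc l) (hg' : g' ^ r = sc l') : l = u ^ r * l' := by
  have h : (c * g * c⁻¹) ^ r = (sc u * g') ^ r := by rw [hc]
  rw [conj_pow, hg, (show Commute (sc u) g' from Matrix.GeneralLinearGroup.scalar_commute u g').mul_pow, hg',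
    ← sc_pow, ← sc_mul, ← Matrix.GeneralLinearGroup.scalar_commute, mul_inv_cancel_right] at h
  exact sc_inj hn h

/-- The `r`-th roots of unity, coerced to the field. -/
def toF (u : rootsOfUnity r F) : F := ((u : Fˣ) : F)

theorem toF_injective : Function.Injective (toF (r := r) (F := F)) := fun _ _ h =>
  Subtype.ext (Units.ext h)

theorem toF_mul (u v : rootsOfUnity r F) : toF (u * v) = toF u * toF v := rfl

theorem toF_pow (u : rootsOfUnity r F) : toF u ^ r = 1 := by
  have h := (mem_rootsOfUnity r (u : Fˣ)).1 u.2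
  have h1 := congrArg Units.val h
  simpa [toF] using h1

/-- The characteristic polynomial attached to a multiset of roots of unity. -/
def chi (s : Sym (rootsOfUnity r F) n) : F[X] := prodX (s.1.map toF)

theorem chi_monic (s : Sym (rootsOfUnity r F) n) : (chi s).Monic := prodX_monic _

theorem chi_natDegree (s : Sym (rootsOfUnity r F) n) : (chi s).natDegree = n := by
  unfold chi
  rw [prodX_natDegree, Multiset.card_map]
  exact s.2

theorem chi_injective : Function.Injective (chi (r := r) (n := n) (F := F)) := by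
  intro s s' h
  have h1 := congrArg roots h
  unfold chi at h1
  rw [prodX_roots, prodX_roots] at h1
  exact Subtype.ext (Multiset.map_injective toF_injective h1)

/-- The translation action. -/
instance smulSym : MulAction (rootsOfUnity r F) (Sym (rootsOfUnity r F) n) where
  smul u s := Sym.map (fun v => u * v) s
  one_smul s := by
    apply Subtype.ext
    show s.1.map (fun v => 1 * v) = s.1
    simp
  mul_smul a b s := by
    apply Subtype.ext
    show s.1.map (fun v => (a * b) * v) = (s.1.map (fun v => b * v)).map (fun v => a * v)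
    rw [Multiset.map_map]
    congr 1
    funext v
    simp [mul_assoc]

theorem smul_val (u : rootsOfUnity r F) (s : Sym (rootsOfUnity r F) n) :
    (u • s).1 = s.1.map (fun v => u * v) := rfl

theorem chi_smul (u : rootsOfUnity r F) (s : Sym (rootsOfUnity r F) n) :
    chi (u • s) = prodX ((s.1.map toF).map (fun a => ((u : Fˣ) : F) * a)) := by
  unfold chi
  rw [smul_val, Multiset.map_map, Multiset.map_map]
  rfl

theorem charpoly_sc_mul_chi (u : rootsOfUnity r F) (g : GL (Fin n) F) {s : Sym (rootsOfUnity r F) n}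
    (h : (g : Matrix (Fin n) (Fin n) F).charpoly = chi s) :
    ((sc (u : Fˣ) * g : GL (Fin n) F) : Matrix (Fin n) (Fin n) F).charpoly = chi (u • s) := by
  rw [chi_smul]
  exact charpoly_sc_mul _ g (by rw [Multiset.card_map]; exact s.2) h

/-- The concentrated multiset. -/
def conc (n : ℕ) (u : rootsOfUnity r F) : Sym (rootsOfUnity r F) n := Sym.replicate n u

theorem smul_conc (u v : rootsOfUnity r F) : u • conc n v = conc n (u * v) := by
  apply Subtype.ext
  show (Multiset.replicate n v).map (fun w => u * w) = Multiset.replicate n (u * v)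
  rw [Multiset.map_replicate]

theorem charpoly_one_chi : (((1 : GL (Fin n) F)) : Matrix (Fin n) (Fin n) F).charpoly =
    chi (conc n (1 : rootsOfUnity r F)) := by
  rw [Units.val_one, Matrix.charpoly_one, Fintype.card_fin]
  show _ = prodX ((Multiset.replicate n (1 : rootsOfUnity r F)).map toF)
  unfold prodX
  rw [Multiset.map_replicate, Multiset.map_replicate, Multiset.prod_replicate]
  simp [toF]

theorem charpoly_sc_chi (u : rootsOfUnity r F) :
    ((sc (u : Fˣ) : GL (Fin n) F) : Matrix (Fin n) (Fin n) F).charpoly = chi (conc n u) := by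
  have h := charpoly_sc_mul_chi u (1 : GL (Fin n) F) (charpoly_one_chi (r := r))
  rwa [mul_one, smul_conc, mul_one] at h

theorem exists_x {p : ℕ} [Fact p.Prime] [CharP F p] (hr : r.Prime) (s : Sym (rootsOfUnity r F) n) :
    ∃ x : GL (Fin n) F, x ^ r = 1 ∧ (x : Matrix (Fin n) (Fin n) F).charpoly = chi s := by
  have hm := chi_monic s
  have hd := chi_natDegree s
  have h0 : (chi s).coeff 0 ≠ 0 := by
    rw [coeff_zero_eq_eval_zero]
    unfold chi prodX
    rw [eval_multiset_prod]
    intro h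
    rw [Multiset.prod_eq_zero_iff] at h
    obtain ⟨f, hf, hf0⟩ := Multiset.mem_map.1 h
    obtain ⟨a, ha, rfl⟩ := Multiset.mem_map.1 hf
    obtain ⟨u, _, rfl⟩ := Multiset.mem_map.1 ha
    simp only [eval_sub, eval_X, eval_C, zero_sub, neg_eq_zero] at hf0
    exact (u : Fˣ).ne_zero hf0
  have hb : (X ^ r - 1 : F[X]) ≠ 0 := by
    have := monic_X_pow_sub_C (1 : F) hr.ne_zero
    rw [C_1] at this
    exact this.ne_zero
  obtain ⟨x, hx1, hx2⟩ := GLClass.exists_element (p := p) (n := n) _ hm hd h0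
  have h1 := aeval_of_charpoly (p := p) x hx2 hb (by
    intro Q hQ h
    rw [hx1] at h
    obtain ⟨f, hf, hQf⟩ := hQ.prime.exists_mem_multiset_dvd h
    obtain ⟨a, ha, rfl⟩ := Multiset.mem_map.1 hf
    obtain ⟨u, _, rfl⟩ := Multiset.mem_map.1 ha
    refine hQf.trans (dvd_iff_isRoot.2 ?_)
    simp [IsRoot.def, toF_pow])
  have h2 : (x : Matrix (Fin n) (Fin n) F) ^ r = 1 := by
    simpa [sub_eq_zero] using h1
  exact ⟨x, Units.ext (by rw [Units.val_pow_eq_pow_val, h2, Units.val_one]), hx1⟩

theorem exists_chi (hr : r.Prime) {ξ : F} (hξ : IsPrimitiveRoot ξ r) {h : GL (Fin n) F} (hh : h ^ r = 1) :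
    ∃ s : Sym (rootsOfUnity r F) n, (h : Matrix (Fin n) (Fin n) F).charpoly = chi s := by
  have hb : (X ^ r - 1 : F[X]) ≠ 0 := by
    have := monic_X_pow_sub_C (1 : F) hr.ne_zero
    rw [C_1] at this
    exact this.ne_zero
  have hsp : (X ^ r - 1 : F[X]).Splits := by
    have := X_pow_sub_one_splits hξ
    rwa [C_1] at this
  have hA : (h : Matrix (Fin n) (Fin n) F) ^ r = 1 := by
    rw [← Units.val_pow_eq_pow_val, hh, Units.val_one]
  have hd := GLPrimeOrd.charpoly_dvd_pow _ hA
  have hS : ((h : Matrix (Fin n) (Fin n) F).charpoly).Splits := (hsp.pow n).of_dvd (pow_ne_zero _ hb) hd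
  have hprod := hS.eq_prod_roots_of_monic (Matrix.charpoly_monic _)
  have hroot : ∀ a ∈ ((h : Matrix (Fin n) (Fin n) F).charpoly).roots, a ^ r = 1 := by
    intro a ha
    have h1 := isRoot_of_mem_roots ha
    have h2 : eval a ((X ^ r - 1 : F[X]) ^ n) = 0 := by
      obtain ⟨c, hc⟩ := hd
      rw [hc, eval_mul, show eval a _ = 0 from h1, zero_mul]
    rw [eval_pow] at h2
    have h3 : eval a (X ^ r - 1 : F[X]) = 0 := by
      by_contra hne
      exact pow_ne_zero n hne h2
    simpa [sub_eq_zero] using h3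
  have ha0 : ∀ a ∈ ((h : Matrix (Fin n) (Fin n) F).charpoly).roots, a ≠ 0 := by
    intro a ha h0
    have := hroot a ha
    rw [h0, zero_pow hr.ne_zero] at this
    exact zero_ne_one this
  let s₀ : Multiset (rootsOfUnity r F) := ((h : Matrix (Fin n) (Fin n) F).charpoly).roots.pmap
    (fun a ha => ⟨Units.mk0 a (ha0 a ha), (mem_rootsOfUnity _ _).2 (Units.ext (by
      rw [Units.val_pow_eq_pow_val, Units.val_mk0, hroot a ha, Units.val_one]))⟩) (fun a ha => ha)
  have hs₀ : s₀.map toF = ((h : Matrix (Fin n) (Fin n) F).charpoly).roots := by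
    simp only [s₀, Multiset.map_pmap]
    exact (Multiset.pmap_eq_map _ (fun a => a) _ _).trans (Multiset.map_id' _)
  have hc₀ : Multiset.card s₀ = n := by
    have h1 := hS.natDegree_eq_card_roots
    rw [Matrix.charpoly_natDegree_eq_dim, Fintype.card_fin] at h1
    simp only [s₀, Multiset.card_pmap]
    exact h1.symm
  refine ⟨⟨s₀, hc₀⟩, ?_⟩
  show _ = prodX (s₀.map toF)
  rw [hs₀]
  exact hprod

section burnside

variable (n r F)

theorem fixed_eq [DecidableEq (rootsOfUnity r F)] (hr : r.Prime) (hcard : Nat.card (rootsOfUnity r F) = r) {u : rootsOfUnity r F} (hu : u ≠ 1)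
    (s : Sym (rootsOfUnity r F) n) (hs : u • s = s) (v : rootsOfUnity r F) :
    Multiset.count v s.1 = Multiset.count (1 : rootsOfUnity r F) s.1 := by
  haveI : Fact r.Prime := ⟨hr⟩
  have hstep : ∀ w : rootsOfUnity r F, Multiset.count (u * w) s.1 = Multiset.count w s.1 := by
    intro w
    have h1 : s.1 = s.1.map (fun v => u * v) := by
      conv_lhs => rw [← hs]
      rfl
    conv_lhs => rw [h1]
    exact Multiset.count_map_eq_count' _ _ (mul_right_injective u) w
  have key : ∀ k : ℕ, Multiset.count (u ^ k) s.1 = Multiset.count (1 : rootsOfUnity r F) s.1 := by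
    intro k
    induction k with
    | zero => simp
    | succ k ih =>
      rw [pow_succ', hstep]
      exact ih
  have hv : v ∈ Subgroup.zpowers u := mem_zpowers_of_prime_card hcard hu
  obtain ⟨k, rfl⟩ := Submonoid.mem_powers_iff _ _ |>.1 ((mem_powers_iff_mem_zpowers).2 hv)
  exact key k

theorem card_fixedBy (hr : r.Prime) (hcard : Nat.card (rootsOfUnity r F) = r) {u : rootsOfUnity r F} (hu : u ≠ 1) :
    Nat.card (MulAction.fixedBy (Sym (rootsOfUnity r F) n) u) = if r ∣ n then 1 else 0 := by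
  classical
  letI : Fintype (rootsOfUnity r F) := Fintype.ofFinite _
  have hcard' : Fintype.card (rootsOfUnity r F) = r := by
    rw [← Nat.card_eq_fintype_card, hcard]
  have hform : ∀ s : Sym (rootsOfUnity r F) n, u • s = s →
      s.1 = Multiset.count (1 : rootsOfUnity r F) s.1 • (Finset.univ : Finset (rootsOfUnity r F)).val := by
    intro s hs
    ext v
    rw [Multiset.count_nsmul, Multiset.count_eq_one_of_mem Finset.univ.nodup (Finset.mem_univ v), mul_one]
    exact fixed_eq F n r hr hcard hu s hs v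
  have hcardform : ∀ s : Sym (rootsOfUnity r F) n, u • s = s →
      n = Multiset.count (1 : rootsOfUnity r F) s.1 * r := by
    intro s hs
    have h1 := congrArg Multiset.card (hform s hs)
    rw [Multiset.card_nsmul, s.2] at h1
    have h2 : Multiset.card (Finset.univ : Finset (rootsOfUnity r F)).val = r := hcard'
    rwa [h2] at h1
  by_cases hrn : r ∣ n
  · rw [if_pos hrn]
    obtain ⟨c, hc⟩ := hrn
    have hcu : Multiset.card (c • (Finset.univ : Finset (rootsOfUnity r F)).val) = n := by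
      rw [Multiset.card_nsmul, hc, mul_comm]
      congr 1
    let s₁ : Sym (rootsOfUnity r F) n := ⟨c • (Finset.univ : Finset (rootsOfUnity r F)).val, hcu⟩
    have hfix : u • s₁ = s₁ := by
      apply Subtype.ext
      show (c • (Finset.univ : Finset (rootsOfUnity r F)).val).map (fun v => u * v) = c • (Finset.univ : Finset (rootsOfUnity r F)).val
      ext v
      have h1 : v = u * (u⁻¹ * v) := by simp
      conv_lhs => rw [h1]
      rw [Multiset.count_map_eq_count' _ _ (mul_right_injective u), Multiset.count_nsmul, Multiset.count_nsmul,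
        Multiset.count_eq_one_of_mem Finset.univ.nodup (Finset.mem_univ _),
        Multiset.count_eq_one_of_mem Finset.univ.nodup (Finset.mem_univ _)]
    have huniq : ∀ s : Sym (rootsOfUnity r F) n, u • s = s → s = s₁ := by
      intro s hs
      apply Subtype.ext
      have h1 := hcardform s hs
      have h2 : Multiset.count (1 : rootsOfUnity r F) s.1 = c := by
        have h3 : Multiset.count (1 : rootsOfUnity r F) s.1 * r = c * r := by
          rw [← h1, hc, mul_comm]
        exact Nat.eq_of_mul_eq_mul_right hr.pos h3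
      have h4 := hform s hs
      rw [h2] at h4
      exact h4
    haveI : Unique (MulAction.fixedBy (Sym (rootsOfUnity r F) n) u) :=
      ⟨⟨⟨s₁, MulAction.mem_fixedBy.2 hfix⟩⟩, fun s => Subtype.ext (huniq s.1 (MulAction.mem_fixedBy.1 s.2))⟩
    exact Nat.card_unique
  · rw [if_neg hrn]
    haveI : IsEmpty (MulAction.fixedBy (Sym (rootsOfUnity r F) n) u) :=
      ⟨fun s => hrn ⟨_, (hcardform s.1 (MulAction.mem_fixedBy.1 s.2)).trans (mul_comm _ _)⟩⟩
    exact Nat.card_of_isEmpty

theorem orbit_count (hr : r.Prime) (hcard : Nat.card (rootsOfUnity r F) = r) :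
    Nat.card (Quotient (MulAction.orbitRel (rootsOfUnity r F) (Sym (rootsOfUnity r F) n))) * r =
      Nat.choose (n + r - 1) (r - 1) + (r - 1) * (if r ∣ n then 1 else 0) := by
  classical
  letI : Fintype (rootsOfUnity r F) := Fintype.ofFinite _
  letI : Fintype (Quotient (MulAction.orbitRel (rootsOfUnity r F) (Sym (rootsOfUnity r F) n))) := Fintype.ofFinite _
  letI : ∀ g : rootsOfUnity r F, Fintype (MulAction.fixedBy (Sym (rootsOfUnity r F) n) g) := fun g => Fintype.ofFinite _
  have hcard' : Fintype.card (rootsOfUnity r F) = r := by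
    rw [← Nat.card_eq_fintype_card, hcard]
  have hB := MulAction.sum_card_fixedBy_eq_card_orbits_mul_card_group (rootsOfUnity r F) (Sym (rootsOfUnity r F) n)
  rw [← Finset.add_sum_erase _ _ (Finset.mem_univ (1 : rootsOfUnity r F)), hcard'] at hB
  have h1 : Fintype.card (MulAction.fixedBy (Sym (rootsOfUnity r F) n) (1 : rootsOfUnity r F)) =
      Nat.choose (n + r - 1) (r - 1) := by
    have h2 : Fintype.card (MulAction.fixedBy (Sym (rootsOfUnity r F) n) (1 : rootsOfUnity r F)) = Fintype.card (Sym (rootsOfUnity r F) n) :=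
      Fintype.card_congr (Equiv.subtypeUnivEquiv (fun s => MulAction.mem_fixedBy.2 (one_smul _ s)))
    rw [h2, Sym.card_sym_eq_choose, hcard']
    have h3 : r + n - 1 = n + r - 1 := by omega
    rw [h3]
    exact Nat.choose_symm_of_eq_add (by have := hr.pos; omega)
  have h2 : ∑ g ∈ Finset.univ.erase (1 : rootsOfUnity r F), Fintype.card (MulAction.fixedBy (Sym (rootsOfUnity r F) n) g) =
      (r - 1) * (if r ∣ n then 1 else 0) := by
    have h2' : ∀ g ∈ Finset.univ.erase (1 : rootsOfUnity r F), Fintype.card (MulAction.fixedBy (Sym (rootsOfUnity r F) n) g) =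
        (if r ∣ n then 1 else 0) := by
      intro g hg
      rw [← Nat.card_eq_fintype_card]
      exact card_fixedBy F n r hr hcard (Finset.ne_of_mem_erase hg)
    rw [Finset.sum_congr rfl h2', Finset.sum_const, Finset.card_erase_of_mem (Finset.mem_univ _),
      Finset.card_univ, hcard', smul_eq_mul]
  rw [h1, h2] at hB
  rw [Nat.card_eq_fintype_card]
  exact hB.symm

end burnside

theorem coprime_of_sq' {p : ℕ} [Fact p.Prime] [CharP F p] (hr : r.Prime) (hpr : p ≠ r) {u : Fˣ} (hu : u ^ r = 1) :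
    (orderOf (sc u : GL (Fin n) F)).Coprime p :=
  coprime_of_pow (l := 1) hr hpr (by rw [← sc_pow, hu])

theorem pow_sc_mul (u : Fˣ) (g : GL (Fin n) F) (k : ℕ) : (sc u * g) ^ k = sc (u ^ k) * g ^ k := by
  rw [(show Commute (sc u) g from Matrix.GeneralLinearGroup.scalar_commute u g).mul_pow, sc_pow]

theorem count {p : ℕ} [Fact p.Prime] [CharP F p] (hn : 2 ≤ n) (hr : r.Prime) (hrq : r ∣ Fintype.card F - 1) :
    Nat.card {C : ConjClasses (PG n F) // ∃ g : PG n F, ConjClasses.mk g = C ∧ orderOf g = r} =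
      (Nat.choose (n + r - 1) (r - 1) - r - (if r ∣ n then 1 else 0)) / r + r * (if r ∣ n then 1 else 0) := by
  classical
  have hp : p.Prime := Fact.out
  have hq2 : 2 ≤ Fintype.card F := Fintype.one_lt_card
  have hpr : p ≠ r := by
    rintro rfl
    obtain ⟨k, _, hk⟩ := FiniteField.card F p
    have h1 : p ∣ Fintype.card F := by
      rw [hk]
      exact dvd_pow_self p k.ne_zero
    have h2 := Nat.dvd_sub h1 hrq
    have h3 : Fintype.card F - (Fintype.card F - 1) = 1 := by omega
    rw [h3] at h2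
    exact hp.one_lt.ne' (Nat.dvd_one.1 h2)
  haveI : Fact r.Prime := ⟨hr⟩
  have hcardU : Nat.card (rootsOfUnity r F) = r := by
    rw [SLn.card_rootsOfUnity']
    exact Nat.gcd_eq_right hrq
  have hcardUF : Nat.card Fˣ = Fintype.card F - 1 := by
    rw [Nat.card_eq_fintype_card, Fintype.card_units]
  obtain ⟨ξ, hξ⟩ : ∃ ξ : F, IsPrimitiveRoot ξ r := by
    obtain ⟨g, hg⟩ := IsCyclic.exists_ofOrder_eq_natCard (α := Fˣ)
    obtain ⟨c, hc⟩ := hrq
    have hc0 : c ≠ 0 := by
      rintro rfl
      omega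
    have hζ : orderOf (g ^ c) = r := by
      rw [orderOf_pow_of_dvd hc0 ⟨r, by rw [hg, hcardUF, hc, mul_comm]⟩, hg, hcardUF, hc]
      exact Nat.mul_div_cancel _ (Nat.pos_of_ne_zero hc0)
    refine ⟨((g ^ c : Fˣ) : F), ?_⟩
    rw [IsPrimitiveRoot.coe_units_iff]
    have := IsPrimitiveRoot.orderOf (g ^ c)
    rwa [hζ] at this
  have hex := fun s : Sym (rootsOfUnity r F) n => exists_x (F := F) (n := n) (p := p) hr s
  choose x hx1 hx2 using hex
  have hcx : ∀ s, (orderOf (x s)).Coprime p := fun s =>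
    coprime_of_pow (l := 1) hr hpr (by rw [sc_one]; exact hx1 s)
  have hey := fun (l : Fˣ) (h : r ∣ n) => exists_y (F := F) (n := n) (p := p) hr h l
  choose y hy1 hy2 using hey
  let x₀ : Quotient (MulAction.orbitRel (rootsOfUnity r F) (Sym (rootsOfUnity r F) n)) :=
    Quotient.mk _ (conc n 1)
  have hsame : ∀ s s' : Sym (rootsOfUnity r F) n,
      (Quotient.mk (MulAction.orbitRel (rootsOfUnity r F) (Sym (rootsOfUnity r F) n)) s) = Quotient.mk _ s' ↔
        ∃ u : rootsOfUnity r F, u • s' = s := by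
    intro s s'
    constructor
    · intro h
      exact MulAction.orbitRel_apply.1 (Quotient.exact h)
    · rintro ⟨u, rfl⟩
      exact Quotient.sound (MulAction.orbitRel_apply.2 (MulAction.mem_orbit _ _))
  have hoverU : ∀ {v : Fˣ}, v ^ r = 1 → v ∈ rootsOfUnity r F := fun h => (mem_rootsOfUnity _ _).2 h
  have hcl1 : ∀ s s' : Sym (rootsOfUnity r F) n, (∃ u : rootsOfUnity r F, u • s' = s) →
      ConjClasses.mk (x s : PG n F) = ConjClasses.mk (x s' : PG n F) := by
    rintro s s' ⟨u, rfl⟩
    rw [← cl_sc_mul (u : Fˣ) (x s')]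
    apply cl_of_isConj
    have hu : ((u : Fˣ)) ^ r = 1 := (mem_rootsOfUnity _ _).1 u.2
    apply GLClass.conj_of_charpoly (p := p) _ _ (hcx _)
      (coprime_of_pow (l := 1) hr hpr (by rw [pow_sc_mul, hu, sc_one, one_mul, hx1]))
    rw [hx2, charpoly_sc_mul_chi u (x s') (hx2 s')]
  have hcl2 : ∀ s s' : Sym (rootsOfUnity r F) n,
      ConjClasses.mk (x s : PG n F) = ConjClasses.mk (x s' : PG n F) → ∃ u : rootsOfUnity r F, u • s' = s := by
    intro s s' h
    obtain ⟨c, v, hc⟩ := (cl_eq_iff _ _).1 h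
    have hv := pow_rel (l := 1) (l' := 1) hn hc (by rw [sc_one]; exact hx1 s) (by rw [sc_one]; exact hx1 s')
    rw [mul_one] at hv
    have hv' : v ∈ rootsOfUnity r F := hoverU hv.symm
    refine ⟨⟨v, hv'⟩, ?_⟩
    apply chi_injective
    rw [← hx2 s, ← charpoly_conj' c (x s), hc]
    exact (charpoly_sc_mul_chi ⟨v, hv'⟩ (x s') (hx2 s')).symm
  have hnotZ : ∀ s : Sym (rootsOfUnity r F) n,
      Quotient.mk (MulAction.orbitRel (rootsOfUnity r F) (Sym (rootsOfUnity r F) n)) s ≠ x₀ →
      x s ∉ Subgroup.center (GL (Fin n) F) := by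
    intro s hs hZ
    rw [Matrix.GeneralLinearGroup.center_eq_range_scalar] at hZ
    obtain ⟨v, hv⟩ := hZ
    have hv1 : v ^ r = 1 := by
      apply sc_inj hn
      rw [sc_pow, sc_one]
      show (Matrix.GeneralLinearGroup.scalar (Fin n) v) ^ r = 1
      rw [hv]
      exact hx1 s
    have hv' : v ∈ rootsOfUnity r F := hoverU hv1
    apply hs
    apply (hsame _ _).2
    refine ⟨⟨v, hv'⟩, ?_⟩
    rw [smul_conc, mul_one]
    apply chi_injective
    rw [← hx2 s, ← hv]
    exact (charpoly_sc_chi ⟨v, hv'⟩).symm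
  have hWcard : Nat.card (Fˣ ⧸ (powMonoidHom r : Fˣ →* Fˣ).range) = r := by
    have h := IsCyclic.index_powMonoidHom_range (G := Fˣ) r
    rw [hcardUF, Nat.gcd_eq_right hrq] at h
    exact h
  have hnonR : ∀ c : Fˣ ⧸ (powMonoidHom r : Fˣ →* Fˣ).range, c ≠ 1 → ∀ b : Fˣ, b ^ r ≠ c.out := by
    intro c hc b hb
    apply hc
    have h1 : ((c.out : Fˣ) : Fˣ ⧸ (powMonoidHom r : Fˣ →* Fˣ).range) = c := QuotientGroup.out_eq' c
    rw [← h1, QuotientGroup.eq_one_iff]
    exact ⟨b, hb⟩
  have hcardE : Nat.card {c : Fˣ ⧸ (powMonoidHom r : Fˣ →* Fˣ).range // c ≠ 1 ∧ r ∣ n} =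
      (if r ∣ n then 1 else 0) * (r - 1) := by
    by_cases hrn : r ∣ n
    · rw [if_pos hrn, one_mul]
      haveI : Finite (Fˣ ⧸ (powMonoidHom r : Fˣ →* Fˣ).range) := inferInstance
      have h := GLPrimeOrd.card_subtype_ne' (1 : Fˣ ⧸ (powMonoidHom r : Fˣ →* Fˣ).range)
      rw [hWcard] at h
      rw [← h]
      exact Nat.card_congr ⟨fun c => ⟨c.1, c.2.1⟩, fun c => ⟨c.1, c.2, hrn⟩, fun c => rfl, fun c => rfl⟩
    · rw [if_neg hrn, zero_mul]
      haveI : IsEmpty {c : Fˣ ⧸ (powMonoidHom r : Fˣ →* Fˣ).range // c ≠ 1 ∧ r ∣ n} := ⟨fun c => hrn c.2.2⟩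
      exact Nat.card_of_isEmpty
  have hO := orbit_count F n r hr hcardU
  haveI : Finite (Quotient (MulAction.orbitRel (rootsOfUnity r F) (Sym (rootsOfUnity r F) n))) := inferInstance
  have hOcard := GLPrimeOrd.card_subtype_ne' x₀
  have hordx : ∀ z : {z : Quotient (MulAction.orbitRel (rootsOfUnity r F) (Sym (rootsOfUnity r F) n)) // z ≠ x₀},
      orderOf (x z.1.out : PG n F) = r := by
    intro z
    apply orderOf_mk_eq_prime hr
    · rw [hx1]
      exact one_mem _
    · apply hnotZ
      rw [Quotient.out_eq]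
      exact z.2
  have hordy : ∀ c : {c : Fˣ ⧸ (powMonoidHom r : Fˣ →* Fˣ).range // c ≠ 1 ∧ r ∣ n},
      orderOf (y c.1.out c.2.2 : PG n F) = r := by
    intro c
    apply orderOf_mk_eq_prime hr
    · rw [hy1]
      exact sc_mem _
    · intro hZ
      rw [Matrix.GeneralLinearGroup.center_eq_range_scalar] at hZ
      obtain ⟨v, hv⟩ := hZ
      apply hnonR c.1 c.2.1 v
      apply sc_inj hn
      rw [sc_pow, ← hy1 c.1.out c.2.2]
      show (Matrix.GeneralLinearGroup.scalar (Fin n) v) ^ r = _
      rw [hv]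
  have hmain : Nat.card {C : ConjClasses (PG n F) // ∃ g : PG n F, ConjClasses.mk g = C ∧ orderOf g = r} =
      Nat.card ({z : Quotient (MulAction.orbitRel (rootsOfUnity r F) (Sym (rootsOfUnity r F) n)) // z ≠ x₀} ⊕
        {c : Fˣ ⧸ (powMonoidHom r : Fˣ →* Fˣ).range // c ≠ 1 ∧ r ∣ n}) := by
    symm
    refine Nat.card_congr (Equiv.ofBijective (Sum.elim
      (fun z => ⟨ConjClasses.mk (x z.1.out : PG n F), _, rfl, hordx z⟩)
      (fun c => ⟨ConjClasses.mk (y c.1.out c.2.2 : PG n F), _, rfl, hordy c⟩)) ⟨?_, ?_⟩)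
    · rintro (z | c) (z' | c') h
      · have h1 := hcl2 _ _ (congrArg Subtype.val h)
        have h2 := (hsame _ _).2 h1
        rw [Quotient.out_eq, Quotient.out_eq] at h2
        exact congrArg Sum.inl (Subtype.ext h2)
      · exfalso
        obtain ⟨c₁, v, hc₁⟩ := (cl_eq_iff _ _).1 (congrArg Subtype.val h)
        have hv := pow_rel (l := 1) hn hc₁ (by rw [sc_one]; exact hx1 _) (hy1 c'.1.out c'.2.2)
        apply hnonR c'.1 c'.2.1 v⁻¹
        have h5 : (v⁻¹) ^ r = (v⁻¹) ^ r * (v ^ r * c'.1.out) := by rw [← hv, mul_one]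
        rw [h5, inv_pow, inv_mul_cancel_left]
      · exfalso
        obtain ⟨c₁, v, hc₁⟩ := (cl_eq_iff _ _).1 (congrArg Subtype.val h)
        have hv := pow_rel (l' := 1) hn hc₁ (hy1 c.1.out c.2.2) (by rw [sc_one]; exact hx1 _)
        apply hnonR c.1 c.2.1 v
        rw [hv, mul_one]
      · obtain ⟨c₁, v, hc₁⟩ := (cl_eq_iff _ _).1 (congrArg Subtype.val h)
        have hv := pow_rel hn hc₁ (hy1 c.1.out c.2.2) (hy1 c'.1.out c'.2.2)
        apply congrArg Sum.inr
        apply Subtype.ext
        rw [← QuotientGroup.out_eq' c.1, ← QuotientGroup.out_eq' c'.1, eq_comm, QuotientGroup.eq, hv]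
        refine ⟨v, ?_⟩
        simp [mul_comm]
    · rintro ⟨C, g', rfl, hg⟩
      obtain ⟨g, rfl⟩ := QuotientGroup.mk_surjective g'
      have h1 : g ^ r ∈ Subgroup.center (GL (Fin n) F) := by
        rw [← QuotientGroup.eq_one_iff, QuotientGroup.mk_pow, ← hg, pow_orderOf_eq_one]
      have h2 : g ∉ Subgroup.center (GL (Fin n) F) := by
        intro h
        rw [← QuotientGroup.eq_one_iff] at h
        rw [h, orderOf_one] at hg
        exact hr.one_lt.ne hg
      rw [Matrix.GeneralLinearGroup.center_eq_range_scalar] at h1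
      obtain ⟨l, hl⟩ := h1
      have hg2 : g ^ r = sc l := hl.symm
      by_cases hpow : ∃ b : Fˣ, b ^ r = l
      · obtain ⟨b, hb⟩ := hpow
        have hh : (sc b⁻¹ * g) ^ r = 1 := by
          rw [pow_sc_mul, hg2, ← sc_mul, inv_pow, hb, inv_mul_cancel, sc_one]
        obtain ⟨s, hs⟩ := exists_chi hr hξ hh
        have hnz : sc b⁻¹ * g ∉ Subgroup.center (GL (Fin n) F) := by
          intro hh'
          apply h2
          rw [← QuotientGroup.eq_one_iff] at hh' ⊢
          rwa [mk_sc_mul] at hh'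
        have hcop : (orderOf (sc b⁻¹ * g)).Coprime p := coprime_of_pow (l := 1) hr hpr (by rw [sc_one]; exact hh)
        have hz : Quotient.mk (MulAction.orbitRel (rootsOfUnity r F) (Sym (rootsOfUnity r F) n)) s ≠ x₀ := by
          intro h0
          obtain ⟨u, hu⟩ := (hsame _ _).1 h0
          rw [smul_conc, mul_one] at hu
          apply hnz
          have hu1 : ((u : Fˣ)) ^ r = 1 := (mem_rootsOfUnity _ _).1 u.2
          have hcj : IsConj (sc b⁻¹ * g) (sc (u : Fˣ)) := GLClass.conj_of_charpoly (p := p) _ _ hcop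
            (coprime_of_sq' hr hpr hu1) (by rw [hs, ← hu, charpoly_sc_chi])
          rw [hcj.eq_of_right_mem_center (sc_mem _)]
          exact sc_mem _
        refine ⟨Sum.inl ⟨_, hz⟩, ?_⟩
        apply Subtype.ext
        show ConjClasses.mk (x (Quotient.out (Quotient.mk _ s)) : PG n F) = ConjClasses.mk (g : PG n F)
        obtain ⟨u, hu⟩ := (hsame _ _).1 (Quotient.out_eq (Quotient.mk (MulAction.orbitRel (rootsOfUnity r F) (Sym (rootsOfUnity r F) n)) s))
        have hu1 : ((u : Fˣ)) ^ r = 1 := (mem_rootsOfUnity _ _).1 u.2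
        rw [← cl_sc_mul b⁻¹ g, ← cl_sc_mul (u : Fˣ) (sc b⁻¹ * g)]
        apply cl_of_isConj
        apply GLClass.conj_of_charpoly (p := p) _ _ (hcx _)
          (coprime_of_pow (l := 1) hr hpr (by rw [pow_sc_mul, hu1, sc_one, one_mul, hh]))
        rw [hx2, charpoly_sc_mul_chi u _ hs, hu]
      · have hpow' : ∀ b : Fˣ, b ^ r ≠ l := fun b hb => hpow ⟨b, hb⟩
        obtain ⟨hrn, hch⟩ := charpoly_of_nonpow hr hg2 hpow'
        let c : Fˣ ⧸ (powMonoidHom r : Fˣ →* Fˣ).range := (l : Fˣ)
        have hc1 : c ≠ 1 := by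
          intro h
          rw [QuotientGroup.eq_one_iff] at h
          obtain ⟨b, hb⟩ := h
          exact hpow' b hb
        have hcout : ((c.out : Fˣ) : Fˣ ⧸ (powMonoidHom r : Fˣ →* Fˣ).range) = (l : Fˣ) := QuotientGroup.out_eq' c
        rw [QuotientGroup.eq] at hcout
        obtain ⟨b, hb⟩ := hcout
        have hb' : (powMonoidHom r : Fˣ →* Fˣ) b = b ^ r := rfl
        rw [hb'] at hb
        have hvr : (b⁻¹) ^ r * l = c.out := by
          rw [inv_pow, hb]
          simp
        have hh : (sc b⁻¹ * g) ^ r = sc c.out := by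
          rw [pow_sc_mul, hg2, ← sc_mul, hvr]
        refine ⟨Sum.inr ⟨c, hc1, hrn⟩, ?_⟩
        apply Subtype.ext
        show ConjClasses.mk (y c.out hrn : PG n F) = ConjClasses.mk (g : PG n F)
        rw [← cl_sc_mul b⁻¹ g]
        apply cl_of_isConj
        apply GLClass.conj_of_charpoly (p := p) _ _ (coprime_of_pow hr hpr (hy1 _ _)) (coprime_of_pow hr hpr hh)
        rw [hy2, (charpoly_of_nonpow hr hh (hnonR c hc1)).2]
  rw [hmain, Nat.card_sum, hcardE, hOcard]
  have hr2 := hr.two_le
  have hC : 2 ≤ Nat.choose (n + r - 1) (r - 1) := by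
    obtain ⟨k, hk⟩ : ∃ k, r = k + 2 := ⟨r - 2, by omega⟩
    have h1 : n + r - 1 = (n + k) + 1 := by omega
    have h2 : r - 1 = k + 1 := by omega
    rw [h1, h2, Nat.choose_succ_succ']
    have h3 : 0 < Nat.choose (n + k) k := Nat.choose_pos (by omega)
    have h4 : 0 < Nat.choose (n + k) (k + 1) := Nat.choose_pos (by omega)
    omega
  generalize Nat.choose (n + r - 1) (r - 1) = CC at hO hC ⊢
  generalize Nat.card (Quotient (MulAction.orbitRel (rootsOfUnity r F) (Sym (rootsOfUnity r F) n))) = O at hO ⊢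
  by_cases hrn : r ∣ n
  · simp only [if_pos hrn, mul_one, one_mul] at hO ⊢
    have hO2 : 2 ≤ O := by
      by_contra h
      have h5 : O ≤ 1 := by omega
      have h6 : O * r ≤ 1 * r := Nat.mul_le_mul_right _ h5
      omega
    obtain ⟨O', rfl⟩ : ∃ O', O = O' + 2 := ⟨O - 2, by omega⟩
    have h7 : (O' + 2) * r = O' * r + 2 * r := by ring
    have h8 : CC - r - 1 = O' * r := by omega
    rw [h8, Nat.mul_div_cancel _ hr.pos]
    omega
  · simp only [if_neg hrn, mul_zero, zero_mul, add_zero, Nat.sub_zero] at hO ⊢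
    have hO1 : 1 ≤ O := by
      by_contra h
      have h5 : O = 0 := by omega
      rw [h5, zero_mul] at hO
      omega
    obtain ⟨O', rfl⟩ : ∃ O', O = O' + 1 := ⟨O - 1, by omega⟩
    have h7 : (O' + 1) * r = O' * r + r := by ring
    have h8 : CC - r = O' * r := by omega
    rw [h8, Nat.mul_div_cancel _ hr.pos]
    omega

end Cfsg.Agent.Lib.PGLPrime
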