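/-
Classes of elements of prime order of `PGU` when the prime divides `q + 1`.
-/
import Mathlib
import Cfsg.Agent.Lib.PGLPrime
import Cfsg.Agent.Lib.GUPrimeOrd
import Cfsg.Agent.Lib.GUQuot

set_option autoImplicit false
set_option linter.all false

open scoped MatrixGroups
open Polynomial

noncomputable section

namespace Cfsg.Agent.Lib.PGUPrime

open Cfsg Cfsg.Agent.Lib PGLInv PGLPrime DualPoly GUConj

universe u

variable {K : Type u} [Field K] [Fintype K] {q n r : ℕ}

/-- The scalars of the unitary group. -/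
abbrev Mu (q : ℕ) (K : Type u) [Field K] : Type u := ↥(rootsOfUnity (q + 1) K)

/-- The projective group. -/
abbrev PU (n : ℕ) (K : Type u) [Field K] [Fintype K] (q : ℕ) : Type u := ↥(GU n K q) ⧸ Subgroup.center ↥(GU n K q)

theorem mu_pow (v : Mu q K) : ((v.1 : Kˣ) : K) ^ (q + 1) = 1 := by
  have h := (mem_rootsOfUnity (q + 1) (v : Kˣ)).1 v.2
  have h1 := congrArg Units.val h
  simpa using h1

theorem sc_memGU (v : Mu q K) : (sc v.1 : GL (Fin n) K) ∈ GU n K q := by
  have h := GUQuot.diagGL_mem (n := n) (q := q) (fun _ => ((v.1 : Kˣ) : K)) (fun _ => Units.ne_zero _) (fun _ => mu_pow v)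
  convert h using 1
  apply Units.ext
  rw [GUQuot.diagGL_coe, Matrix.GeneralLinearGroup.coe_scalar, Matrix.scalar_apply]

/-- Scalars as elements. -/
def sM : Mu q K →* ↥(GU n K q) where
  toFun v := ⟨sc v.1, sc_memGU v⟩
  map_one' := Subtype.ext (map_one _)
  map_mul' a b := Subtype.ext (map_mul _ _ _)

theorem sM_coe (v : Mu q K) : ((sM v : ↥(GU n K q)) : GL (Fin n) K) = sc v.1 := rfl

theorem sM_mem (v : Mu q K) : (sM v : ↥(GU n K q)) ∈ Subgroup.center ↥(GU n K q) := by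
  rw [Subgroup.mem_center_iff]
  intro g
  apply Subtype.ext
  exact (Matrix.GeneralLinearGroup.scalar_commute v.1 (g : GL (Fin n) K)).symm

theorem sM_commute (v : Mu q K) (g : ↥(GU n K q)) : Commute (sM v) g := by
  apply Subtype.ext
  exact (Matrix.GeneralLinearGroup.scalar_commute v.1 (g : GL (Fin n) K))

theorem sM_inj (hn : 2 ≤ n) {u v : Mu q K} (h : (sM u : ↥(GU n K q)) = sM v) : u = v :=
  Subtype.ext (sc_inj hn (congrArg Subtype.val h))

theorem center_sM (hK : Fintype.card K = q ^ 2) (hn : 2 ≤ n) {z : ↥(GU n K q)} (hz : z ∈ Subgroup.center ↥(GU n K q)) :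
    ∃ v : Mu q K, z = sM v := by
  classical
  obtain ⟨ω, hω, hωm⟩ := GUQuot.exists_normOne hK
  have hq := UnitaryHerm.q_two_le hK
  have hω1 : ((ω : Kˣ) : K) ≠ 1 := by
    intro h
    have h1 : ω = 1 := Units.ext h
    rw [h1, orderOf_one] at hω
    omega
  have hωp : ((ω : Kˣ) : K) ^ (q + 1) = 1 := by
    have h1 := pow_orderOf_eq_one ω
    rw [hω] at h1
    have h2 := congrArg Units.val h1
    simpa using h2
  obtain ⟨l, hl⟩ := GUQuot.center_scalar hK hn ω.ne_zero hω1 hωp hz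
  obtain ⟨σ, hσ⟩ := UnitaryHerm.exists_sigma hK
  have hS := (mem_GU_iff_St hK hσ (z : GL (Fin n) K)).1 z.2
  rw [hl, Cfsg.Agent.Lib.GUJordan.St_smul, St_one, smul_mul_smul_comm, one_mul, hσ] at hS
  haveI : Nonempty (Fin n) := ⟨⟨0, by omega⟩⟩
  have hl1 : l ^ q * l = 1 := by
    have h3 := congrFun (congrFun hS ⟨0, by omega⟩) ⟨0, by omega⟩
    simpa using h3
  have hl0 : l ≠ 0 := by
    rintro rfl
    simp at hl1
  have hlp : (Units.mk0 l hl0) ^ (q + 1) = 1 := by
    apply Units.ext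
    rw [Units.val_pow_eq_pow_val, Units.val_mk0, pow_succ, hl1, Units.val_one]
  refine ⟨⟨Units.mk0 l hl0, (mem_rootsOfUnity _ _).2 hlp⟩, ?_⟩
  apply Subtype.ext
  apply Units.ext
  rw [hl, sM_coe, Matrix.GeneralLinearGroup.coe_scalar, Matrix.scalar_apply]
  ext i j
  simp [Matrix.one_apply, Matrix.diagonal_apply]

theorem mk_sM_mul (u : Mu q K) (g : ↥(GU n K q)) : ((sM u * g : ↥(GU n K q)) : PU n K q) = (g : PU n K q) := by
  rw [QuotientGroup.mk_mul, (QuotientGroup.eq_one_iff _).2 (sM_mem u), one_mul]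

theorem cl_eq_iff' (hK : Fintype.card K = q ^ 2) (hn : 2 ≤ n) (g g' : ↥(GU n K q)) :
    ConjClasses.mk (g : PU n K q) = ConjClasses.mk (g' : PU n K q) ↔
      ∃ (c : ↥(GU n K q)) (u : Mu q K), c * g * c⁻¹ = sM u * g' := by
  rw [ConjClasses.mk_eq_mk_iff_isConj, isConj_iff]
  constructor
  · rintro ⟨c', hc⟩
    obtain ⟨c, rfl⟩ := QuotientGroup.mk_surjective c'
    have h1 : ((c * g * c⁻¹ : ↥(GU n K q)) : PU n K q) = (g' : PU n K q) := by
      rw [QuotientGroup.mk_mul, QuotientGroup.mk_mul, QuotientGroup.mk_inv]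
      exact hc
    rw [QuotientGroup.eq] at h1
    obtain ⟨v, hv⟩ := center_sM hK hn h1
    refine ⟨c, v⁻¹, ?_⟩
    have h2 : g' = (c * g * c⁻¹) * sM v := by
      rw [← hv]
      group
    rw [h2, (sM_commute v (c * g * c⁻¹)).symm.eq, map_inv, inv_mul_cancel_left]
  · rintro ⟨c, u, h⟩
    refine ⟨(c : PU n K q), ?_⟩
    rw [← QuotientGroup.mk_inv, ← QuotientGroup.mk_mul, ← QuotientGroup.mk_mul, h, mk_sM_mul]

theorem cl_of_isConj' {g g' : ↥(GU n K q)} (h : IsConj g g') :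
    ConjClasses.mk (g : PU n K q) = ConjClasses.mk (g' : PU n K q) :=
  ConjClasses.mk_eq_mk_iff_isConj.2 (MonoidHom.map_isConj (QuotientGroup.mk' _) h)

theorem cl_sM_mul (u : Mu q K) (g : ↥(GU n K q)) :
    ConjClasses.mk ((sM u * g : ↥(GU n K q)) : PU n K q) = ConjClasses.mk (g : PU n K q) := by
  rw [mk_sM_mul]

theorem orderOf_mk (hr : r.Prime) {g : ↥(GU n K q)} (h1 : g ^ r ∈ Subgroup.center ↥(GU n K q))
    (h2 : g ∉ Subgroup.center ↥(GU n K q)) : orderOf (g : PU n K q) = r := by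
  haveI : Fact r.Prime := ⟨hr⟩
  apply orderOf_eq_prime
  · rw [← QuotientGroup.mk_pow, QuotientGroup.eq_one_iff]
    exact h1
  · rw [Ne, QuotientGroup.eq_one_iff]
    exact h2

theorem pow_sM_mul (u : Mu q K) (g : ↥(GU n K q)) (k : ℕ) : (sM u * g) ^ k = sM (u ^ k) * g ^ k := by
  rw [(sM_commute u g).mul_pow, map_pow]

theorem pow_rel' (hn : 2 ≤ n) {c g g' : ↥(GU n K q)} {u l l' : Mu q K} (hc : c * g * c⁻¹ = sM u * g')
    (hg : g ^ r = sM l) (hg' : g' ^ r = sM l') : l = u ^ r * l' := by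
  have h : (c * g * c⁻¹) ^ r = (sM u * g') ^ r := by rw [hc]
  rw [conj_pow, hg, pow_sM_mul, hg', ← map_mul, (sM_commute l c).symm.eq, mul_inv_cancel_right] at h
  exact sM_inj hn h

section prime

variable {p : ℕ} [Fact p.Prime] [CharP K p]

theorem cop (hr : r.Prime) (hpr : p ≠ r) {g : ↥(GU n K q)} {l : Mu q K} (h : g ^ r = sM l) : (orderOf g).Coprime p := by
  rw [← Subgroup.orderOf_coe]
  exact coprime_of_pow (l := l.1) hr hpr (by rw [← Subgroup.coe_pow, h]; rfl)

theorem conj_cp (hK : Fintype.card K = q ^ 2) (x y : ↥(GU n K q)) (hx : (orderOf x).Coprime p) (hy : (orderOf y).Coprime p)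
    (h : ((x : GL (Fin n) K) : Matrix (Fin n) (Fin n) K).charpoly = ((y : GL (Fin n) K) : Matrix (Fin n) (Fin n) K).charpoly) : IsConj x y := by
  have h1 := GLClass.conj_of_charpoly (p := p) (x : GL (Fin n) K) (y : GL (Fin n) K)
    (by rwa [Subgroup.orderOf_coe]) (by rwa [Subgroup.orderOf_coe]) h
  obtain ⟨c, hc⟩ := isConj_iff.1 h1
  obtain ⟨g, hg, hg2⟩ := exists_GU_conj hK (x : GL (Fin n) K) y c x.2 y.2 hc
  refine isConj_iff.2 ⟨⟨g, hg⟩, ?_⟩
  apply Subtype.ext
  exact hg2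

/-- Elements with a self-dual characteristic polynomial. -/
theorem exists_GU (hK : Fintype.card K = q ^ 2) {σ : K ≃+* K} (hσ : ∀ x, σ x = x ^ q) (f : K[X]) (hf : f.Monic)
    (hd : f.natDegree = n) (h0 : f.coeff 0 ≠ 0) (hdual : dual σ f = f) :
    ∃ B : ↥(GU n K q), ((B : GL (Fin n) K) : Matrix (Fin n) (Fin n) K).charpoly = f ∧ (orderOf B).Coprime p := by
  classical
  obtain ⟨x, hx1, hx2⟩ := Cfsg.Agent.Lib.GLClass.exists_element (p := p) f hf hd h0
  let y : GL (Fin n) K := ⟨St σ (x⁻¹).1, St σ x.1, by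
    rw [← St_mul, show x.1 * (x⁻¹).1 = 1 from x.mul_inv, St_one], by
    rw [← St_mul, show (x⁻¹).1 * x.1 = 1 from x.inv_mul, St_one]⟩
  have hy1 : (y : Matrix (Fin n) (Fin n) K).charpoly = f := by
    show (St σ (x⁻¹).1).charpoly = f
    rw [GUPrimeOrd.charpoly_St_inv σ x.1 (x⁻¹).1 x.mul_inv, hx1, hdual]
  have hyN : y ^ orderOf x = 1 := by
    apply Units.ext
    show (St σ (x⁻¹).1) ^ orderOf x = 1
    have h1 : (x⁻¹).1 ^ orderOf x = 1 := by
      rw [← Units.val_pow_eq_pow_val, inv_pow, pow_orderOf_eq_one, inv_one, Units.val_one]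
    have h2 : ∀ k : ℕ, (St σ (x⁻¹).1) ^ k = St σ ((x⁻¹).1 ^ k) := by
      intro k
      induction k with
      | zero => simp [St_one]
      | succ k ih => rw [pow_succ, ih, pow_succ', St_mul]
    rw [h2, h1, St_one]
  have hy2 : (orderOf y).Coprime p := Nat.Coprime.coprime_dvd_left (orderOf_dvd_of_pow_eq_one hyN) hx2
  have h1 := Cfsg.Agent.Lib.GLClass.conj_of_charpoly (p := p) x y hx2 hy2 (by rw [hx1, hy1])
  obtain ⟨c, hc⟩ := isConj_iff.1 h1
  have hc2 : c.1 * x.1 = y.1 * c.1 := by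
    have h2 : c * x = y * c := by rw [← hc]; group
    exact congrArg Units.val h2
  have hAP : St σ x.1 * c.1 * x.1 = c.1 := by
    calc St σ x.1 * c.1 * x.1 = St σ x.1 * (c.1 * x.1) := mul_assoc ..
      _ = (St σ x.1 * St σ (x⁻¹).1) * c.1 := by rw [hc2, mul_assoc]
      _ = c.1 := by rw [← St_mul, show (x⁻¹).1 * x.1 = 1 from x.inv_mul, St_one, one_mul]
  obtain ⟨B, hB⟩ := Cfsg.Agent.Lib.GUSimilar.exists_conj_GU hK hσ x c.1 (c⁻¹).1 c.mul_inv hAP
  obtain ⟨d, hd'⟩ := isConj_iff.1 hB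
  refine ⟨B, ?_, ?_⟩
  · rw [← hd', ← hx1]
    exact charpoly_conj' d x
  · rw [← Subgroup.orderOf_coe, ← hd']
    rw [← MulAut.conj_apply, MulEquiv.orderOf_eq]
    exact hx2

end prime

/-- The dual of a binomial. -/
theorem dual_X_pow_sub_C (σ : K ≃+* K) {r : ℕ} (hr : 0 < r) {a : K} (ha : a ≠ 0) :
    dual σ (X ^ r - C a) = X ^ r - C (σ a)⁻¹ := by
  have hd : (X ^ r - C a : K[X]).natDegree = r := natDegree_X_pow_sub_C
  have h1 : reverse (X ^ r - C a : K[X]) = 1 - C a * X ^ r := by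
    ext k
    rw [coeff_reverse, hd]
    by_cases hk : k ≤ r
    · rw [revAt_le hk]
      rcases Nat.eq_zero_or_pos k with rfl | hk0
      · simp [coeff_X_pow, coeff_C, coeff_one, hr.ne', hr.ne]
      · by_cases hkr : k = r
        · subst hkr
          simp [coeff_X_pow, coeff_C, coeff_one, hr.ne', hr.ne]
        · have h3 : r - k ≠ r := by omega
          have h4 : r - k ≠ 0 := by omega
          have h5 : k ≠ 0 := by omega
          simp [coeff_X_pow, coeff_C, coeff_one, h3, h4, h5, hkr]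
    · rw [revAt_eq_self_of_lt (by omega)]
      have h3 : k ≠ r := by omega
      have h4 : k ≠ 0 := by omega
      simp [coeff_X_pow, coeff_C, coeff_one, h3, h4]
  unfold dual
  rw [h1]
  have h0 : (X ^ r - C a : K[X]).coeff 0 = -a := by
    simp [coeff_X_pow, coeff_C, hr.ne]
  rw [h0]
  have ha' : σ a ≠ 0 := by simpa using ha
  simp only [Polynomial.map_sub, Polynomial.map_one, Polynomial.map_mul, map_C, Polynomial.map_pow, map_X, map_neg]
  rw [inv_neg, C_neg, neg_mul, mul_sub, mul_one, ← mul_assoc, ← C_mul]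
  simp [inv_mul_cancel₀ ha']

theorem sigma_inv {σ : K ≃+* K} (hσ : ∀ x, σ x = x ^ q) {a : K} (ha : a ^ (q + 1) = 1) :
    (σ a)⁻¹ = a := by
  rw [hσ]
  have h : a ^ q * a = 1 := by rw [← pow_succ]; exact ha
  exact inv_eq_of_mul_eq_one_right h

theorem dual_X_sub_C (σ : K ≃+* K) (hσ : ∀ x, σ x = x ^ q) {a : K} (ha : a ^ (q + 1) = 1) :
    dual σ (X - C a) = X - C a := by
  have ha0 : a ≠ 0 := by
    rintro rfl
    simp at ha
  have h := dual_X_pow_sub_C σ (r := 1) one_pos ha0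
  rw [pow_one, sigma_inv hσ ha] at h
  exact h

theorem dual_prodX (σ : K ≃+* K) (hσ : ∀ x, σ x = x ^ q) (m : Multiset K) (hm : ∀ a ∈ m, a ^ (q + 1) = 1) :
    dual σ (prodX m) = prodX m := by
  unfold prodX
  induction m using Multiset.induction with
  | empty => simp [dual_one]
  | cons a s ih =>
    simp only [Multiset.map_cons, Multiset.prod_cons]
    rw [dual_mul, dual_X_sub_C σ hσ (hm a (Multiset.mem_cons_self a s)),
      ih (fun b hb => hm b (Multiset.mem_cons_of_mem hb))]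

theorem toF_pow_q (hrq : r ∣ q + 1) (u : rootsOfUnity r K) : toF u ^ (q + 1) = 1 := by
  obtain ⟨c, hc⟩ := hrq
  rw [hc, pow_mul, toF_pow, one_pow]

theorem dual_chi (σ : K ≃+* K) (hσ : ∀ x, σ x = x ^ q) (hrq : r ∣ q + 1) (s : Sym (rootsOfUnity r K) n) :
    dual σ (chi s) = chi s := by
  unfold chi
  apply dual_prodX σ hσ
  intro a ha
  obtain ⟨u, _, rfl⟩ := Multiset.mem_map.1 ha
  exact toF_pow_q hrq u

section prime2

theorem exists_x' {p : ℕ} [Fact p.Prime] [CharP K p] (hK : Fintype.card K = q ^ 2) (hr : r.Prime) (hrq : r ∣ q + 1) (s : Sym (rootsOfUnity r K) n) :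
    ∃ x : ↥(GU n K q), x ^ r = 1 ∧ ((x : GL (Fin n) K) : Matrix (Fin n) (Fin n) K).charpoly = chi s := by
  obtain ⟨σ, hσ⟩ := UnitaryHerm.exists_sigma hK
  have hm := chi_monic s
  have hd := chi_natDegree s
  have h0 : (chi s).coeff 0 ≠ 0 := by
    rw [coeff_zero_eq_eval_zero]
    unfold chi prodX
    rw [eval_multiset_prod]
    intro h
    rw [Multiset.prod_eq_zero_iff] at h
    obtain ⟨f, hf, hf0⟩ := Multiset.mem_map.1 h
    obtain ⟨a, ha, rfl⟩ := Multiset.mem_map.1 hf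
    obtain ⟨u, _, rfl⟩ := Multiset.mem_map.1 ha
    simp only [eval_sub, eval_X, eval_C, zero_sub, neg_eq_zero] at hf0
    exact (u : Kˣ).ne_zero hf0
  have hb : (X ^ r - 1 : K[X]) ≠ 0 := by
    have := monic_X_pow_sub_C (1 : K) hr.ne_zero
    rw [C_1] at this
    exact this.ne_zero
  obtain ⟨x, hx1, hx2⟩ := exists_GU (p := p) hK hσ _ hm hd h0 (dual_chi σ hσ hrq s)
  have h1 := aeval_of_charpoly (p := p) (x : GL (Fin n) K) (by rwa [Subgroup.orderOf_coe]) hb (by
    intro Q hQ h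
    rw [hx1] at h
    obtain ⟨f, hf, hQf⟩ := hQ.prime.exists_mem_multiset_dvd h
    obtain ⟨a, ha, rfl⟩ := Multiset.mem_map.1 hf
    obtain ⟨u, _, rfl⟩ := Multiset.mem_map.1 ha
    refine hQf.trans (dvd_iff_isRoot.2 ?_)
    simp [IsRoot.def, toF_pow])
  have h2 : ((x : GL (Fin n) K) : Matrix (Fin n) (Fin n) K) ^ r = 1 := by
    simpa [sub_eq_zero] using h1
  refine ⟨x, Subtype.ext (Units.ext ?_), hx1⟩
  rw [Subgroup.coe_pow, Units.val_pow_eq_pow_val, h2]
  rfl

theorem exists_y' {p : ℕ} [Fact p.Prime] [CharP K p] (hK : Fintype.card K = q ^ 2) (hr : r.Prime) (hn : r ∣ n) (l : Mu q K) :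
    ∃ y : ↥(GU n K q), y ^ r = sM l ∧ ((y : GL (Fin n) K) : Matrix (Fin n) (Fin n) K).charpoly = (X ^ r - C ((l.1 : Kˣ) : K)) ^ (n / r) := by
  obtain ⟨σ, hσ⟩ := UnitaryHerm.exists_sigma hK
  have hm : (X ^ r - C ((l.1 : Kˣ) : K)).Monic := monic_X_pow_sub_C _ hr.ne_zero
  have hd : ((X ^ r - C ((l.1 : Kˣ) : K)) ^ (n / r)).natDegree = n := by
    rw [hm.natDegree_pow, natDegree_X_pow_sub_C]
    exact Nat.div_mul_cancel hn
  have h0 : ((X ^ r - C ((l.1 : Kˣ) : K)) ^ (n / r)).coeff 0 ≠ 0 := by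
    rw [coeff_zero_eq_eval_zero, eval_pow]
    apply pow_ne_zero
    simp [hr.ne_zero]
  have hdual : dual σ ((X ^ r - C ((l.1 : Kˣ) : K)) ^ (n / r)) = (X ^ r - C ((l.1 : Kˣ) : K)) ^ (n / r) := by
    rw [dual_pow, dual_X_pow_sub_C σ hr.pos (Units.ne_zero _), sigma_inv hσ (mu_pow l)]
  obtain ⟨y, hy1, hy2⟩ := exists_GU (p := p) hK hσ _ (hm.pow _) hd h0 hdual
  have h1 := aeval_of_charpoly (p := p) (y : GL (Fin n) K) (by rwa [Subgroup.orderOf_coe]) hm.ne_zero (by
    intro Q hQ h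
    rw [hy1] at h
    exact hQ.prime.dvd_of_dvd_pow h)
  have h2 : ((y : GL (Fin n) K) : Matrix (Fin n) (Fin n) K) ^ r = Matrix.scalar (Fin n) ((l.1 : Kˣ) : K) := by
    rw [map_sub, map_pow, aeval_X, aeval_C, sub_eq_zero] at h1
    rw [h1]
    ext i j
    by_cases hij : i = j
    · subst hij
      simp [Matrix.algebraMap_matrix_apply]
    · simp [Matrix.algebraMap_matrix_apply, hij]
  refine ⟨y, Subtype.ext (Units.ext ?_), hy1⟩
  rw [Subgroup.coe_pow, Units.val_pow_eq_pow_val, h2, sM_coe, Matrix.GeneralLinearGroup.coe_scalar]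

end prime2

theorem pow_lift (hK : Fintype.card K = q ^ 2) (hr : r.Prime) (hr2 : r ≠ 2) (hrq : r ∣ q + 1) {b : Kˣ}
    (hb : (b ^ r) ^ (q + 1) = 1) : b ^ (q + 1) = 1 := by
  classical
  have hq := UnitaryHerm.q_two_le hK
  have hcop : Nat.Coprime r (q - 1) := by
    rw [hr.coprime_iff_not_dvd]
    intro h
    have h1 : r ∣ (q + 1) - (q - 1) := Nat.dvd_sub hrq h
    have h2 : (q + 1) - (q - 1) = 2 := by omega
    rw [h2] at h1
    exact hr2 ((Nat.prime_dvd_prime_iff_eq hr Nat.prime_two).1 h1)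
  have hcard : b ^ ((q + 1) * (q - 1)) = 1 := by
    have h1 : Fintype.card Kˣ = (q + 1) * (q - 1) := by
      rw [Fintype.card_units, hK, ← Nat.sq_sub_sq q 1]
    rw [← h1]
    exact pow_card_eq_one
  have h1 : (b ^ (q + 1)) ^ r = 1 := by
    rw [← pow_mul, mul_comm, pow_mul]
    exact hb
  have h2 : (b ^ (q + 1)) ^ (q - 1) = 1 := by
    rw [← pow_mul]
    exact hcard
  have h3 := Nat.dvd_gcd (orderOf_dvd_of_pow_eq_one h1) (orderOf_dvd_of_pow_eq_one h2)
  rw [hcop] at h3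
  exact orderOf_eq_one_iff.1 (Nat.dvd_one.1 h3)

/-- Roots of unity of order dividing `r` as scalars of the unitary group. -/
def em (hrq : r ∣ q + 1) (u : rootsOfUnity r K) : Mu q K :=
  ⟨u.1, (mem_rootsOfUnity _ _).2 (by
    obtain ⟨c, hc⟩ := hrq
    rw [hc, pow_mul, (mem_rootsOfUnity _ _).1 u.2, one_pow])⟩

theorem em_val (hrq : r ∣ q + 1) (u : rootsOfUnity r K) : ((em hrq u).1 : Kˣ) = u.1 := rfl

theorem em_pow (hrq : r ∣ q + 1) (u : rootsOfUnity r K) : (em hrq u) ^ r = 1 := by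
  apply Subtype.ext
  show ((u.1 : Kˣ)) ^ r = 1
  exact (mem_rootsOfUnity _ _).1 u.2

theorem count' {p : ℕ} [Fact p.Prime] [CharP K p] (hK : Fintype.card K = q ^ 2) (hn : 2 ≤ n) (hr : r.Prime) (hr2' : r ≠ 2) (hrq : r ∣ q + 1) :
    Nat.card {C : ConjClasses (PU n K q) // ∃ g : PU n K q, ConjClasses.mk g = C ∧ orderOf g = r} =
      (Nat.choose (n + r - 1) (r - 1) - r - (if r ∣ n then 1 else 0)) / r + r * (if r ∣ n then 1 else 0) := by
  classical
  have hp : p.Prime := Fact.out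
  have hq := UnitaryHerm.q_two_le hK
  have hKq : Fintype.card K - 1 = (q + 1) * (q - 1) := by
    rw [hK, ← Nat.sq_sub_sq q 1]
  have hpr : p ≠ r := by
    rintro rfl
    obtain ⟨k, _, hk⟩ := FiniteField.card K p
    have h1 : p ∣ q ^ 2 := by
      rw [← hK, hk]
      exact dvd_pow_self p k.ne_zero
    have h1' := hp.dvd_of_dvd_pow h1
    have h2 := Nat.dvd_sub hrq h1'
    have h3 : q + 1 - q = 1 := by omega
    rw [h3] at h2
    exact hp.one_lt.ne' (Nat.dvd_one.1 h2)
  haveI : Fact r.Prime := ⟨hr⟩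
  have hrq' : r ∣ Fintype.card K - 1 := by
    rw [hKq]
    exact Dvd.dvd.mul_right hrq _
  have hcardU : Nat.card (rootsOfUnity r K) = r := by
    rw [SLn.card_rootsOfUnity']
    exact Nat.gcd_eq_right hrq'
  have hcardM : Nat.card (Mu q K) = q + 1 := by
    rw [SLn.card_rootsOfUnity', hKq]
    exact Nat.gcd_eq_right (Dvd.intro _ rfl)
  have hcardUF : Nat.card Kˣ = Fintype.card K - 1 := by
    rw [Nat.card_eq_fintype_card, Fintype.card_units]
  obtain ⟨ξ, hξ⟩ : ∃ ξ : K, IsPrimitiveRoot ξ r := by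
    obtain ⟨g, hg⟩ := IsCyclic.exists_ofOrder_eq_natCard (α := Kˣ)
    obtain ⟨c, hc⟩ := hrq'
    have hc0 : c ≠ 0 := by
      rintro rfl
      have h3 : Fintype.card K = q ^ 2 := hK
      have h4 : 4 ≤ q ^ 2 := by nlinarith
      omega
    have hζ : orderOf (g ^ c) = r := by
      rw [orderOf_pow_of_dvd hc0 ⟨r, by rw [hg, hcardUF, hc, mul_comm]⟩, hg, hcardUF, hc]
      exact Nat.mul_div_cancel _ (Nat.pos_of_ne_zero hc0)
    refine ⟨((g ^ c : Kˣ) : K), ?_⟩
    rw [IsPrimitiveRoot.coe_units_iff]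
    have := IsPrimitiveRoot.orderOf (g ^ c)
    rwa [hζ] at this
  have hlift : ∀ l : Mu q K, (∀ b : Mu q K, b ^ r ≠ l) → ∀ b : Kˣ, b ^ r ≠ l.1 := by
    intro l hl b hb
    have h1 : b ^ (q + 1) = 1 := pow_lift hK hr hr2' hrq (by
      rw [hb]
      exact (mem_rootsOfUnity _ _).1 l.2)
    apply hl ⟨b, (mem_rootsOfUnity _ _).2 h1⟩
    apply Subtype.ext
    exact hb
  have hex := fun s : Sym (rootsOfUnity r K) n => exists_x' (K := K) (n := n) (p := p) hK hr hrq s
  choose x hx1 hx2 using hex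
  have hcx : ∀ s, (orderOf (x s)).Coprime p := fun s =>
    cop (l := 1) hr hpr (by rw [map_one]; exact hx1 s)
  have hey := fun (l : Mu q K) (h : r ∣ n) => exists_y' (K := K) (n := n) (p := p) hK hr h l
  choose y hy1 hy2 using hey
  let x₀ : Quotient (MulAction.orbitRel (rootsOfUnity r K) (Sym (rootsOfUnity r K) n)) :=
    Quotient.mk _ (conc n 1)
  have hsame : ∀ s s' : Sym (rootsOfUnity r K) n,
      (Quotient.mk (MulAction.orbitRel (rootsOfUnity r K) (Sym (rootsOfUnity r K) n)) s) = Quotient.mk _ s' ↔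
        ∃ u : rootsOfUnity r K, u • s' = s := by
    intro s s'
    constructor
    · intro h
      exact MulAction.orbitRel_apply.1 (Quotient.exact h)
    · rintro ⟨u, rfl⟩
      exact Quotient.sound (MulAction.orbitRel_apply.2 (MulAction.mem_orbit _ _))
  have hoverU : ∀ {v : Mu q K}, v ^ r = 1 → ∃ u : rootsOfUnity r K, em hrq u = v := fun {v} h =>
    ⟨⟨v.1, (mem_rootsOfUnity _ _).2 (congrArg Subtype.val h)⟩, rfl⟩
  have hcl1 : ∀ s s' : Sym (rootsOfUnity r K) n, (∃ u : rootsOfUnity r K, u • s' = s) →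
      ConjClasses.mk (x s : PU n K q) = ConjClasses.mk (x s' : PU n K q) := by
    rintro s s' ⟨u, rfl⟩
    rw [← cl_sM_mul (em hrq u) (x s')]
    apply cl_of_isConj'
    apply conj_cp (p := p) hK _ _ (hcx _)
      (cop (l := 1) hr hpr (by rw [pow_sM_mul, em_pow, map_one, one_mul, hx1]))
    rw [hx2]
    exact (charpoly_sc_mul_chi u (x s' : GL (Fin n) K) (hx2 s')).symm
  have hcl2 : ∀ s s' : Sym (rootsOfUnity r K) n,
      ConjClasses.mk (x s : PU n K q) = ConjClasses.mk (x s' : PU n K q) → ∃ u : rootsOfUnity r K, u • s' = s := by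
    intro s s' h
    obtain ⟨c, v, hc⟩ := (cl_eq_iff' hK hn _ _).1 h
    have hv := pow_rel' (l := 1) (l' := 1) hn hc (by rw [map_one]; exact hx1 s) (by rw [map_one]; exact hx1 s')
    rw [mul_one] at hv
    obtain ⟨u, rfl⟩ := hoverU hv.symm
    refine ⟨u, ?_⟩
    apply chi_injective
    rw [← hx2 s, ← charpoly_conj' (c : GL (Fin n) K) (x s : GL (Fin n) K)]
    have h4 : ((c : GL (Fin n) K) * (x s : GL (Fin n) K) * (c : GL (Fin n) K)⁻¹ : GL (Fin n) K) = ((c * x s * c⁻¹ : ↥(GU n K q)) : GL (Fin n) K) := rfl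
    rw [h4, hc]
    exact (charpoly_sc_mul_chi u (x s' : GL (Fin n) K) (hx2 s')).symm
  have hnotZ : ∀ s : Sym (rootsOfUnity r K) n,
      Quotient.mk (MulAction.orbitRel (rootsOfUnity r K) (Sym (rootsOfUnity r K) n)) s ≠ x₀ →
      x s ∉ Subgroup.center ↥(GU n K q) := by
    intro s hs hZ
    obtain ⟨v, hv⟩ := center_sM hK hn hZ
    have hv1 : v ^ r = 1 := by
      apply sM_inj hn
      rw [map_pow, ← hv, hx1, map_one]
    obtain ⟨u, rfl⟩ := hoverU hv1
    apply hs
    apply (hsame _ _).2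
    refine ⟨u, ?_⟩
    rw [smul_conc, mul_one]
    apply chi_injective
    rw [← hx2 s, hv]
    exact (charpoly_sc_chi u).symm
  have hWcard : Nat.card (Mu q K ⧸ (powMonoidHom r : Mu q K →* Mu q K).range) = r := by
    have h := IsCyclic.index_powMonoidHom_range (G := Mu q K) r
    rw [hcardM, Nat.gcd_eq_right hrq] at h
    exact h
  have hnonR : ∀ c : Mu q K ⧸ (powMonoidHom r : Mu q K →* Mu q K).range, c ≠ 1 → ∀ b : Mu q K, b ^ r ≠ c.out := by
    intro c hc b hb
    apply hc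
    have h1 : ((c.out : Mu q K) : Mu q K ⧸ (powMonoidHom r : Mu q K →* Mu q K).range) = c := QuotientGroup.out_eq' c
    rw [← h1, QuotientGroup.eq_one_iff]
    exact ⟨b, hb⟩
  have hcardE : Nat.card {c : Mu q K ⧸ (powMonoidHom r : Mu q K →* Mu q K).range // c ≠ 1 ∧ r ∣ n} =
      (if r ∣ n then 1 else 0) * (r - 1) := by
    by_cases hrn : r ∣ n
    · rw [if_pos hrn, one_mul]
      haveI : Finite (Mu q K ⧸ (powMonoidHom r : Mu q K →* Mu q K).range) := inferInstance
      have h := GLPrimeOrd.card_subtype_ne' (1 : Mu q K ⧸ (powMonoidHom r : Mu q K →* Mu q K).range)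
      rw [hWcard] at h
      rw [← h]
      exact Nat.card_congr ⟨fun c => ⟨c.1, c.2.1⟩, fun c => ⟨c.1, c.2, hrn⟩, fun c => rfl, fun c => rfl⟩
    · rw [if_neg hrn, zero_mul]
      haveI : IsEmpty {c : Mu q K ⧸ (powMonoidHom r : Mu q K →* Mu q K).range // c ≠ 1 ∧ r ∣ n} := ⟨fun c => hrn c.2.2⟩
      exact Nat.card_of_isEmpty
  have hO := orbit_count K n r hr hcardU
  haveI : Finite (Quotient (MulAction.orbitRel (rootsOfUnity r K) (Sym (rootsOfUnity r K) n))) := inferInstance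
  have hOcard := GLPrimeOrd.card_subtype_ne' x₀
  have hordx : ∀ z : {z : Quotient (MulAction.orbitRel (rootsOfUnity r K) (Sym (rootsOfUnity r K) n)) // z ≠ x₀},
      orderOf (x z.1.out : PU n K q) = r := by
    intro z
    apply orderOf_mk hr
    · rw [hx1]
      exact one_mem _
    · apply hnotZ
      rw [Quotient.out_eq]
      exact z.2
  have hordy : ∀ c : {c : Mu q K ⧸ (powMonoidHom r : Mu q K →* Mu q K).range // c ≠ 1 ∧ r ∣ n},
      orderOf (y c.1.out c.2.2 : PU n K q) = r := by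
    intro c
    apply orderOf_mk hr
    · rw [hy1]
      exact sM_mem _
    · intro hZ
      obtain ⟨v, hv⟩ := center_sM hK hn hZ
      apply hnonR c.1 c.2.1 v
      apply sM_inj hn
      rw [map_pow, ← hv, hy1]
  have hmain : Nat.card {C : ConjClasses (PU n K q) // ∃ g : PU n K q, ConjClasses.mk g = C ∧ orderOf g = r} =
      Nat.card ({z : Quotient (MulAction.orbitRel (rootsOfUnity r K) (Sym (rootsOfUnity r K) n)) // z ≠ x₀} ⊕
        {c : Mu q K ⧸ (powMonoidHom r : Mu q K →* Mu q K).range // c ≠ 1 ∧ r ∣ n}) := by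
    symm
    refine Nat.card_congr (Equiv.ofBijective (Sum.elim
      (fun z => ⟨ConjClasses.mk (x z.1.out : PU n K q), _, rfl, hordx z⟩)
      (fun c => ⟨ConjClasses.mk (y c.1.out c.2.2 : PU n K q), _, rfl, hordy c⟩)) ⟨?_, ?_⟩)
    · rintro (z | c) (z' | c') h
      · have h1 := hcl2 _ _ (congrArg Subtype.val h)
        have h2 := (hsame _ _).2 h1
        rw [Quotient.out_eq, Quotient.out_eq] at h2
        exact congrArg Sum.inl (Subtype.ext h2)
      · exfalso
        obtain ⟨c₁, v, hc₁⟩ := (cl_eq_iff' hK hn _ _).1 (congrArg Subtype.val h)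
        have hv := pow_rel' (l := 1) hn hc₁ (by rw [map_one]; exact hx1 _) (hy1 c'.1.out c'.2.2)
        apply hnonR c'.1 c'.2.1 v⁻¹
        have h5 : (v⁻¹) ^ r = (v⁻¹) ^ r * (v ^ r * c'.1.out) := by rw [← hv, mul_one]
        rw [h5, inv_pow, inv_mul_cancel_left]
      · exfalso
        obtain ⟨c₁, v, hc₁⟩ := (cl_eq_iff' hK hn _ _).1 (congrArg Subtype.val h)
        have hv := pow_rel' (l' := 1) hn hc₁ (hy1 c.1.out c.2.2) (by rw [map_one]; exact hx1 _)
        apply hnonR c.1 c.2.1 v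
        rw [hv, mul_one]
      · obtain ⟨c₁, v, hc₁⟩ := (cl_eq_iff' hK hn _ _).1 (congrArg Subtype.val h)
        have hv := pow_rel' hn hc₁ (hy1 c.1.out c.2.2) (hy1 c'.1.out c'.2.2)
        apply congrArg Sum.inr
        apply Subtype.ext
        rw [← QuotientGroup.out_eq' c.1, ← QuotientGroup.out_eq' c'.1, eq_comm, QuotientGroup.eq, hv]
        refine ⟨v, ?_⟩
        simp [mul_comm]
    · rintro ⟨C, g', rfl, hg⟩
      obtain ⟨g, rfl⟩ := QuotientGroup.mk_surjective g'
      have h1 : g ^ r ∈ Subgroup.center ↥(GU n K q) := by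
        rw [← QuotientGroup.eq_one_iff, QuotientGroup.mk_pow, ← hg, pow_orderOf_eq_one]
      have h2 : g ∉ Subgroup.center ↥(GU n K q) := by
        intro h
        rw [← QuotientGroup.eq_one_iff] at h
        rw [h, orderOf_one] at hg
        exact hr.one_lt.ne hg
      obtain ⟨l, hl⟩ := center_sM hK hn h1
      have hg2 : g ^ r = sM l := hl
      by_cases hpow : ∃ b : Mu q K, b ^ r = l
      · obtain ⟨b, hb⟩ := hpow
        have hh : (sM b⁻¹ * g) ^ r = 1 := by
          rw [pow_sM_mul, hg2, ← map_mul, inv_pow, hb, inv_mul_cancel, map_one]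
        obtain ⟨s, hs⟩ := exists_chi hr hξ (h := ((sM b⁻¹ * g : ↥(GU n K q)) : GL (Fin n) K)) (by
          rw [← Subgroup.coe_pow, hh]
          rfl)
        have hnz : sM b⁻¹ * g ∉ Subgroup.center ↥(GU n K q) := by
          intro hh'
          apply h2
          rw [← QuotientGroup.eq_one_iff] at hh' ⊢
          rwa [mk_sM_mul] at hh'
        have hcop : (orderOf (sM b⁻¹ * g)).Coprime p := cop (l := 1) hr hpr (by rw [map_one]; exact hh)
        have hz : Quotient.mk (MulAction.orbitRel (rootsOfUnity r K) (Sym (rootsOfUnity r K) n)) s ≠ x₀ := by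
          intro h0
          obtain ⟨u, hu⟩ := (hsame _ _).1 h0
          rw [smul_conc, mul_one] at hu
          apply hnz
          have hcj : IsConj (sM b⁻¹ * g) (sM (em hrq u)) := conj_cp (p := p) hK _ _ hcop
            (cop (l := 1) hr hpr (by rw [← map_pow, em_pow])) (by
              rw [hs, ← hu]
              exact (charpoly_sc_chi u).symm)
          rw [hcj.eq_of_right_mem_center (sM_mem _)]
          exact sM_mem _
        refine ⟨Sum.inl ⟨_, hz⟩, ?_⟩
        apply Subtype.ext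
        show ConjClasses.mk (x (Quotient.out (Quotient.mk _ s)) : PU n K q) = ConjClasses.mk (g : PU n K q)
        obtain ⟨u, hu⟩ := (hsame _ _).1 (Quotient.out_eq (Quotient.mk (MulAction.orbitRel (rootsOfUnity r K) (Sym (rootsOfUnity r K) n)) s))
        rw [← cl_sM_mul b⁻¹ g, ← cl_sM_mul (em hrq u) (sM b⁻¹ * g)]
        apply cl_of_isConj'
        apply conj_cp (p := p) hK _ _ (hcx _)
          (cop (l := 1) hr hpr (by rw [pow_sM_mul, em_pow, map_one, one_mul, hh]))
        rw [hx2]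
        refine Eq.trans ?_ (charpoly_sc_mul_chi u _ hs).symm
        rw [hu]
      · have hpow' : ∀ b : Mu q K, b ^ r ≠ l := fun b hb => hpow ⟨b, hb⟩
        obtain ⟨hrn, hch⟩ := charpoly_of_nonpow hr (g := (g : GL (Fin n) K)) (l := l.1) (by
          rw [← Subgroup.coe_pow, hg2]
          rfl) (hlift l hpow')
        let c : Mu q K ⧸ (powMonoidHom r : Mu q K →* Mu q K).range := (l : Mu q K)
        have hc1 : c ≠ 1 := by
          intro h
          rw [QuotientGroup.eq_one_iff] at h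
          obtain ⟨b, hb⟩ := h
          exact hpow' b hb
        have hcout : ((c.out : Mu q K) : Mu q K ⧸ (powMonoidHom r : Mu q K →* Mu q K).range) = (l : Mu q K) := QuotientGroup.out_eq' c
        rw [QuotientGroup.eq] at hcout
        obtain ⟨b, hb⟩ := hcout
        have hb' : (powMonoidHom r : Mu q K →* Mu q K) b = b ^ r := rfl
        rw [hb'] at hb
        have hvr : (b⁻¹) ^ r * l = c.out := by
          rw [inv_pow, hb]
          simp
        have hh : (sM b⁻¹ * g) ^ r = sM c.out := by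
          rw [pow_sM_mul, hg2, ← map_mul, hvr]
        refine ⟨Sum.inr ⟨c, hc1, hrn⟩, ?_⟩
        apply Subtype.ext
        show ConjClasses.mk (y c.out hrn : PU n K q) = ConjClasses.mk (g : PU n K q)
        rw [← cl_sM_mul b⁻¹ g]
        apply cl_of_isConj'
        apply conj_cp (p := p) hK _ _ (cop hr hpr (hy1 _ _)) (cop hr hpr hh)
        rw [hy2, (charpoly_of_nonpow hr (g := ((sM b⁻¹ * g : ↥(GU n K q)) : GL (Fin n) K)) (l := c.out.1) (by
          rw [← Subgroup.coe_pow, hh]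
          rfl) (hlift _ (hnonR c hc1))).2]
  rw [hmain, Nat.card_sum, hcardE, hOcard]
  have hr2 := hr.two_le
  have hC : 2 ≤ Nat.choose (n + r - 1) (r - 1) := by
    obtain ⟨k, hk⟩ : ∃ k, r = k + 2 := ⟨r - 2, by omega⟩
    have h1 : n + r - 1 = (n + k) + 1 := by omega
    have h2 : r - 1 = k + 1 := by omega
    rw [h1, h2, Nat.choose_succ_succ']
    have h3 : 0 < Nat.choose (n + k) k := Nat.choose_pos (by omega)
    have h4 : 0 < Nat.choose (n + k) (k + 1) := Nat.choose_pos (by omega)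
    omega
  generalize Nat.choose (n + r - 1) (r - 1) = CC at hO hC ⊢
  generalize Nat.card (Quotient (MulAction.orbitRel (rootsOfUnity r K) (Sym (rootsOfUnity r K) n))) = O at hO ⊢
  by_cases hrn : r ∣ n
  · simp only [if_pos hrn, mul_one, one_mul] at hO ⊢
    have hO2 : 2 ≤ O := by
      by_contra h
      have h5 : O ≤ 1 := by omega
      have h6 : O * r ≤ 1 * r := Nat.mul_le_mul_right _ h5
      omega
    obtain ⟨O', rfl⟩ : ∃ O', O = O' + 2 := ⟨O - 2, by omega⟩
    have h7 : (O' + 2) * r = O' * r + 2 * r := by ring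
    have h8 : CC - r - 1 = O' * r := by omega
    rw [h8, Nat.mul_div_cancel _ hr.pos]
    omega
  · simp only [if_neg hrn, mul_zero, zero_mul, add_zero, Nat.sub_zero] at hO ⊢
    have hO1 : 1 ≤ O := by
      by_contra h
      have h5 : O = 0 := by omega
      rw [h5, zero_mul] at hO
      omega
    obtain ⟨O', rfl⟩ : ∃ O', O = O' + 1 := ⟨O - 1, by omega⟩
    have h7 : (O' + 1) * r = O' * r + r := by ring
    have h8 : CC - r = O' * r := by omega
    rw [h8, Nat.mul_div_cancel _ hr.pos]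
    omega


end Cfsg.Agent.Lib.PGUPrime
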