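import Mathlib
import Cfsg.Agent.Lib.PGroupBasic

/-! Chains of normal subgroups of `p`-groups and centralizer index bounds (helper4). -/

namespace Cfsg.Agent.Lib.PNormal

variable {G : Type*} [Group G] [Finite G] {p : ℕ} [hp : Fact p.Prime]

/-- A nontrivial normal subgroup `B` of a `p`-group has a normal subgroup `B₁` of `G` of index `p`
in `B`, with `[G, B] ≤ B₁`; moreover `B = B₁ ⟨b₀⟩`. -/
theorem exists_normal_index_p (hG : IsPGroup p G) (B : Subgroup G) [hBn : B.Normal] (hB : B ≠ ⊥) :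
    ∃ (B₁ : Subgroup G) (b₀ : G), B₁.Normal ∧ B₁ ≤ B ∧ b₀ ∈ B ∧ b₀ ∉ B₁ ∧
      (∀ b ∈ B, ∃ k : ℤ, (b₀ ^ k)⁻¹ * b ∈ B₁) ∧ (∀ g : G, ∀ b ∈ B, g * b * g⁻¹ * b⁻¹ ∈ B₁) ∧
      Nat.card B = p * Nat.card B₁ := by
  classical
  let F : Set (Subgroup G) := {N | N.Normal ∧ N ≤ B ∧ N ≠ B}
  have hbot : (⊥ : Subgroup G) ∈ F := ⟨inferInstance, bot_le, hB.symm⟩
  obtain ⟨B₁, hB₁le, hB₁max⟩ := (Set.toFinite F).exists_le_maximal hbot
  obtain ⟨hB₁n, hB₁B, hB₁ne⟩ := hB₁max.prop
  haveI := hB₁n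
  let Q := G ⧸ B₁
  let π : G →* Q := QuotientGroup.mk' B₁
  have hπ : Function.Surjective π := QuotientGroup.mk'_surjective B₁
  have hQ : IsPGroup p Q := hG.of_surjective π hπ
  let B' : Subgroup Q := B.map π
  haveI : B'.Normal := Subgroup.Normal.map hBn π hπ
  have hB'1 : B' ≠ ⊥ := by
    intro e
    apply hB₁ne
    apply le_antisymm hB₁B
    intro b hb
    have h1 : π b ∈ B' := ⟨b, hb, rfl⟩
    rw [e, Subgroup.mem_bot] at h1
    exact (QuotientGroup.eq_one_iff b).mp h1
  obtain ⟨w₀, hw₀, hw₀1, hw₀c⟩ := Cfsg.Agent.Lib.PGroupBasic.exists_ne_one_mem_center_of_normal hQ B' hB'1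
  -- a power of `w₀` of order `p`
  obtain ⟨k, hk⟩ := IsPGroup.iff_orderOf.mp hQ w₀
  have hk0 : k ≠ 0 := by
    rintro rfl
    rw [pow_zero] at hk
    exact hw₀1 (orderOf_eq_one_iff.mp hk)
  let w := w₀ ^ (p ^ (k - 1))
  have hwB' : w ∈ B' := B'.pow_mem hw₀ _
  have hwc : w ∈ Subgroup.center Q := (Subgroup.center Q).pow_mem hw₀c _
  have hw1 : w ≠ 1 := by
    refine pow_ne_one_of_lt_orderOf (pow_ne_zero _ hp.out.ne_zero) ?_
    rw [hk]
    exact Nat.pow_lt_pow_right hp.out.one_lt (by omega)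
  have hwp : w ^ p = 1 := by
    show (w₀ ^ (p ^ (k - 1))) ^ p = 1
    rw [← pow_mul, ← pow_succ, show k - 1 + 1 = k by omega, ← hk, pow_orderOf_eq_one]
  have hwo : orderOf w = p := orderOf_eq_prime hwp hw1
  let W : Subgroup Q := Subgroup.zpowers w
  haveI hWn : W.Normal := by
    refine ⟨fun n hn g => ?_⟩
    have hnc : n ∈ Subgroup.center Q := (Subgroup.zpowers_le.mpr hwc) hn
    rw [(Subgroup.mem_center_iff.mp hnc g), mul_assoc, mul_inv_cancel, mul_one]
    exact hn
  let N : Subgroup G := W.comap π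
  haveI hNn : N.Normal := Subgroup.Normal.comap hWn π
  have hB₁N : B₁ ≤ N := by
    intro b hb
    show π b ∈ W
    rw [show π b = 1 from (QuotientGroup.eq_one_iff b).mpr hb]
    exact W.one_mem
  have hNB : N ≤ B := by
    intro n hn
    have h1 : π n ∈ B' := (Subgroup.zpowers_le.mpr hwB') hn
    obtain ⟨b, hb, hbe⟩ := h1
    have h2 : b⁻¹ * n ∈ B₁ := by
      have := QuotientGroup.eq.mp hbe
      exact this
    have h3 : n = b * (b⁻¹ * n) := by group
    rw [h3]
    exact B.mul_mem hb (hB₁B h2)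
  have hN1 : B₁ ≠ N := by
    intro e
    obtain ⟨n, hnw⟩ := hπ w
    have h1 : n ∈ N := by
      show π n ∈ W
      rw [hnw]
      exact Subgroup.mem_zpowers _
    rw [← e] at h1
    apply hw1
    rw [← hnw]
    exact (QuotientGroup.eq_one_iff n).mpr h1
  have hNeq : N = B := by
    by_contra hne
    have hNF : N ∈ F := ⟨hNn, hNB, hne⟩
    exact hN1 (le_antisymm hB₁N (hB₁max.le_of_ge hNF hB₁N))
  obtain ⟨b₀, hb₀⟩ := hπ w
  have hb₀B : b₀ ∈ B := by
    rw [← hNeq]
    show π b₀ ∈ W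
    rw [hb₀]
    exact Subgroup.mem_zpowers _
  have hb₀B₁ : b₀ ∉ B₁ := by
    intro h
    apply hw1
    rw [← hb₀]
    exact (QuotientGroup.eq_one_iff b₀).mpr h
  refine ⟨B₁, b₀, hB₁n, hB₁B, hb₀B, hb₀B₁, ?_, ?_, ?_⟩
  · intro b hb
    rw [← hNeq] at hb
    obtain ⟨k, hk⟩ : π b ∈ W := hb
    refine ⟨k, ?_⟩
    have h1 : π ((b₀ ^ k)⁻¹ * b) = 1 := by
      rw [map_mul, map_inv, map_zpow, hb₀]
      show (w ^ k)⁻¹ * π b = 1
      rw [← hk]
      show (w ^ k)⁻¹ * w ^ k = 1
      group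
    exact (QuotientGroup.eq_one_iff _).mp h1
  · intro g b hb
    rw [← hNeq] at hb
    have hb' : π b ∈ W := hb
    have hbc : π b ∈ Subgroup.center Q := (Subgroup.zpowers_le.mpr hwc) hb'
    have h1 : π (g * b * g⁻¹ * b⁻¹) = 1 := by
      rw [map_mul, map_mul, map_mul, map_inv, map_inv, (Subgroup.mem_center_iff.mp hbc (π g))]
      group
    exact (QuotientGroup.eq_one_iff _).mp h1
  · rw [← hNeq]
    have h1 : N.index = W.index := Subgroup.index_comap_of_surjective W hπ
    have h2 := Subgroup.card_mul_index N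
    have h3 := Subgroup.card_mul_index W
    have h4 := Subgroup.card_mul_index B₁
    have hWc : Nat.card W = p := by rw [Nat.card_zpowers, hwo]
    rw [hWc] at h3
    have h5 : Nat.card G = Nat.card B₁ * (p * W.index) := by
      rw [h3]
      exact h4.symm
    rw [← h2, h1] at h5
    have h6 : 0 < W.index := Nat.pos_of_ne_zero Subgroup.index_ne_zero_of_finite
    have h7 : Nat.card N * W.index = (p * Nat.card B₁) * W.index := by
      rw [h5]; ring
    exact Nat.eq_of_mul_eq_mul_right h6 h7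

/-- A normal subgroup of order `p ^ b` of a `p`-group contains normal subgroups of order `p ^ c`
for each `c ≤ b`. -/
theorem exists_normal_card (hG : IsPGroup p G) :
    ∀ (b : ℕ) (B : Subgroup G), B.Normal → Nat.card B = p ^ b → ∀ c ≤ b,
      ∃ D : Subgroup G, D.Normal ∧ D ≤ B ∧ Nat.card D = p ^ c := by
  intro b
  induction b with
  | zero =>
    intro B hB hc c hcb
    obtain rfl : c = 0 := by omega
    exact ⟨B, hB, le_rfl, hc⟩
  | succ b ih =>
    intro B hB hc c hcb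
    by_cases hcb' : c = b + 1
    · subst hcb'
      exact ⟨B, hB, le_rfl, hc⟩
    · have hB1 : B ≠ ⊥ := by
        intro e
        rw [e, Subgroup.card_bot] at hc
        have : 1 < p ^ (b + 1) := Nat.one_lt_pow (by omega) hp.out.one_lt
        omega
      obtain ⟨B₁, b₀, hB₁n, hB₁B, -, -, -, -, hcard⟩ := exists_normal_index_p hG B hB1
      have hc1 : Nat.card B₁ = p ^ b := by
        rw [hc, pow_succ, mul_comm] at hcard
        exact (Nat.eq_of_mul_eq_mul_left hp.out.pos hcard).symm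
      obtain ⟨D, hD, hDB, hDc⟩ := ih B₁ hB₁n hc1 c (by omega)
      exact ⟨D, hD, hDB.trans hB₁B, hDc⟩

/-- The index of the centralizer of a normal subgroup of order `p ^ a`. -/
theorem index_centralizer_le (hG : IsPGroup p G) :
    ∀ (a : ℕ) (B : Subgroup G), B.Normal → Nat.card B = p ^ a →
      (Subgroup.centralizer (B : Set G)).index ≤ p ^ (a * (a - 1) / 2) := by
  classical
  intro a
  induction a with
  | zero =>
    intro B hB hc
    have h1 : B = ⊥ := (Subgroup.eq_bot_iff_card B).mpr (by simpa using hc)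
    have h2 : Subgroup.centralizer (B : Set G) = ⊤ := by
      rw [h1, eq_top_iff]
      intro x _
      rw [Subgroup.mem_centralizer_iff]
      intro b hb
      have hb1 : b = 1 := Subgroup.mem_bot.mp hb
      rw [hb1, one_mul, mul_one]
    rw [h2, Subgroup.index_top]
    simp
  | succ a ih =>
    intro B hB hc
    haveI := hB
    have hB1 : B ≠ ⊥ := by
      intro e
      rw [e, Subgroup.card_bot] at hc
      have : 1 < p ^ (a + 1) := Nat.one_lt_pow (by omega) hp.out.one_lt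
      omega
    obtain ⟨B₁, b₀, hB₁n, hB₁B, hb₀B, hb₀B₁, hgen, hcomm, hcard⟩ := exists_normal_index_p hG B hB1
    have hc1 : Nat.card B₁ = p ^ a := by
      rw [hc, pow_succ, mul_comm] at hcard
      exact (Nat.eq_of_mul_eq_mul_left hp.out.pos hcard).symm
    have h1 := ih B₁ hB₁n hc1
    set C₁ := Subgroup.centralizer (B₁ : Set G) with hC₁
    set C := Subgroup.centralizer (B : Set G) with hC
    have hCC₁ : C ≤ C₁ := Subgroup.centralizer_le (by exact_mod_cast hB₁B)
    have h2 := Subgroup.relIndex_mul_index hCC₁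
    have h3 : C.relIndex C₁ ≤ p ^ a := by
      rw [← hc1]
      let S := C.subgroupOf C₁
      have hfun : ∀ q : C₁ ⧸ S, ((Quotient.out q : C₁) : G) * b₀ * ((Quotient.out q : C₁) : G)⁻¹ * b₀⁻¹ ∈ B₁ :=
        fun q => hcomm _ _ hb₀B
      let f : C₁ ⧸ S → B₁ := fun q => ⟨_, hfun q⟩
      have hf : Function.Injective f := by
        intro q q' h
        have h4 : ((Quotient.out q : C₁) : G) * b₀ * ((Quotient.out q : C₁) : G)⁻¹ * b₀⁻¹ =
            ((Quotient.out q' : C₁) : G) * b₀ * ((Quotient.out q' : C₁) : G)⁻¹ * b₀⁻¹ :=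
          congrArg Subtype.val h
        have h5 := mul_right_cancel h4
        rw [← QuotientGroup.out_eq' q, ← QuotientGroup.out_eq' q']
        apply QuotientGroup.eq.mpr
        rw [Subgroup.mem_subgroupOf]
        set x : C₁ := Quotient.out q
        set y : C₁ := Quotient.out q'
        show (((x⁻¹ * y : C₁) : C₁) : G) ∈ C
        rw [hC, Subgroup.mem_centralizer_iff]
        intro b hb
        have hxy : ((x⁻¹ * y : C₁) : G) = (x : G)⁻¹ * y := rfl
        rw [hxy]
        have h6 : ((x : G)⁻¹ * y) * b₀ = b₀ * ((x : G)⁻¹ * y) := by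
          have h7 : (x : G) * b₀ * (x : G)⁻¹ * y = (y : G) * b₀ := by
            rw [h5]; group
          calc ((x : G)⁻¹ * y) * b₀ = (x : G)⁻¹ * ((y : G) * b₀) := by group
            _ = (x : G)⁻¹ * ((x : G) * b₀ * (x : G)⁻¹ * y) := by rw [h7]
            _ = b₀ * ((x : G)⁻¹ * y) := by group
        have hmemC₁ : (x : G)⁻¹ * y ∈ C₁ := (x⁻¹ * y).2
        obtain ⟨k, hk⟩ := hgen b hb
        have h8 := (Subgroup.mem_centralizer_iff.mp hmemC₁) _ hk
        have h9 : Commute ((x : G)⁻¹ * y) (b₀ ^ k) := (Commute.zpow_right (show Commute _ _ from h6) k)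
        have hb' : b = b₀ ^ k * ((b₀ ^ k)⁻¹ * b) := by group
        rw [hb']
        calc b₀ ^ k * ((b₀ ^ k)⁻¹ * b) * ((x : G)⁻¹ * y)
            = b₀ ^ k * (((b₀ ^ k)⁻¹ * b) * ((x : G)⁻¹ * y)) := by group
          _ = b₀ ^ k * (((x : G)⁻¹ * y) * ((b₀ ^ k)⁻¹ * b)) := by rw [h8]
          _ = (b₀ ^ k * ((x : G)⁻¹ * y)) * ((b₀ ^ k)⁻¹ * b) := by group
          _ = (((x : G)⁻¹ * y) * b₀ ^ k) * ((b₀ ^ k)⁻¹ * b) := by rw [h9.eq]
          _ = ((x : G)⁻¹ * y) * (b₀ ^ k * ((b₀ ^ k)⁻¹ * b)) := by group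
      have := Nat.card_le_card_of_injective f hf
      exact this
    rw [← h2]
    calc C.relIndex C₁ * C₁.index ≤ p ^ a * p ^ (a * (a - 1) / 2) := Nat.mul_le_mul h3 h1
      _ = p ^ (a + a * (a - 1) / 2) := by rw [pow_add]
      _ = p ^ ((a + 1) * (a + 1 - 1) / 2) := by
        congr 1
        rcases a with _ | a
        · rfl
        · have : (a + 1 + 1) * (a + 1 + 1 - 1) = 2 * (a + 1) + (a + 1) * (a + 1 - 1) := by
            simp only [Nat.add_sub_cancel]
            ring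
          rw [this, Nat.add_div_of_dvd_right (by exact dvd_mul_right _ _)]
          simp

end Cfsg.Agent.Lib.PNormal
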