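import Mathlib
import Cfsg.Agent.Lib.GrunFusion
import Cfsg.Agent.Lib.FusionHypGroup

/-!
# `p`-normal groups: residuals are controlled by the normalizer of the center of a Sylow
-/

set_option autoImplicit false
set_option linter.style.haveILetI false
set_option linter.unusedSectionVars false
set_option linter.unusedVariables false

namespace Cfsg.Agent.Lib.PNormalFusion

open Cfsg Cfsg.FusionSystem Cfsg.Agent.Lib.GrunFusion Cfsg.Agent.Lib.FusionHypGroup
  Cfsg.Agent.Lib.PResidual Cfsg.Agent.Lib.FusionAut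

universe u

variable {G : Type*} [Group G] [Finite G] {p : ℕ} [hp : Fact p.Prime]

/-- A version of `exists_coprime_conj` giving a power of the given element. -/
theorem exists_coprime_conj_pow {P : Subgroup G} {α : MulAut P} {g : G}
    (h : ∀ x : P, ((α x : P) : G) = g * x * g⁻¹) (hα : (orderOf α).Coprime p) :
    ∃ k : ℕ, (orderOf (g ^ k)).Coprime p ∧ ∀ x : P, ((α x : P) : G) = g ^ k * x * (g ^ k)⁻¹ := by
  have hn0 : orderOf g ≠ 0 := (orderOf_pos g).ne'
  obtain ⟨a, n', hn', e⟩ := Nat.exists_eq_pow_mul_and_not_dvd hn0 p hp.out.ne_one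
  have hc : Nat.Coprime (orderOf α) (p ^ a) := Nat.Coprime.pow_right a hα
  let k := Nat.chineseRemainder hc 1 0
  have hk1 : (k : ℕ) ≡ 1 [MOD orderOf α] := k.2.1
  have hk2 : (k : ℕ) ≡ 0 [MOD p ^ a] := k.2.2
  refine ⟨(k : ℕ), ?_, ?_⟩
  · have hd : orderOf (g ^ (k : ℕ)) ∣ n' := by
      apply orderOf_dvd_of_pow_eq_one
      rw [← pow_mul]
      apply orderOf_dvd_iff_pow_eq_one.mp
      rw [e]
      have : p ^ a ∣ (k : ℕ) := (Nat.modEq_zero_iff_dvd).mp hk2
      exact Nat.mul_dvd_mul_right this n'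
    exact Nat.Coprime.coprime_dvd_left hd ((Nat.Prime.coprime_iff_not_dvd hp.out).mpr hn').symm
  · intro x
    have h2 : α ^ (k : ℕ) = α ^ 1 := pow_eq_pow_iff_modEq.mpr hk1
    have h3 := pow_conj h k x
    rw [h2, pow_one] at h3
    exact h3

/-- The hypothesis of `p`-normality yields weak closure of the center. -/
theorem weaklyClosed_center (P : Sylow p G)
    (hn : ∀ Q : Sylow p G, (P : Subgroup G) ⊓ Subgroup.centralizer (P : Set G) ≤ (Q : Subgroup G) →
      (Q : Subgroup G) ⊓ Subgroup.centralizer (Q : Set G) =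
        (P : Subgroup G) ⊓ Subgroup.centralizer (P : Set G)) :
    IsWeaklyClosed ((P : Subgroup G) ⊓ Subgroup.centralizer (P : Set G)) P := by
  refine ⟨inf_le_left, fun g hg => ?_⟩
  set Z := (P : Subgroup G) ⊓ Subgroup.centralizer (P : Set G) with hZ
  have hle : Z ≤ ((g⁻¹ • P : Sylow p G) : Subgroup G) := by
    intro z hz
    refine (Cfsg.Agent.Lib.SylowCount.mem_smul_sylow g⁻¹ z P).2 ?_
    rw [inv_inv]
    have : g * z * g⁻¹ ∈ Z.map (MulAut.conj g).toMonoidHom := ⟨z, hz, rfl⟩
    exact hg this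
  have h1 := hn (g⁻¹ • P) hle
  have mQ : ∀ y : G, y ∈ ((g⁻¹ • P : Sylow p G) : Subgroup G) ↔ g * y * g⁻¹ ∈ (P : Subgroup G) := by
    intro y
    have := Cfsg.Agent.Lib.SylowCount.mem_smul_sylow g⁻¹ y P
    rwa [inv_inv] at this
  have key : ∀ y : G, g * y * g⁻¹ ∈ Z ↔ y ∈ Z := by
    intro y
    have hy : y ∈ Z ↔ y ∈ (((g⁻¹ • P : Sylow p G) : Subgroup G) ⊓
        Subgroup.centralizer ((g⁻¹ • P : Sylow p G) : Set G)) := by rw [h1]
    rw [hy]
    constructor
    · rintro ⟨h2, h3⟩
      refine ⟨(mQ y).2 h2, Subgroup.mem_centralizer_iff.2 ?_⟩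
      intro q hq
      have hq' := (mQ q).1 hq
      have h4 := Subgroup.mem_centralizer_iff.1 h3 _ hq'
      have h5 : g * q * g⁻¹ * (g * y * g⁻¹) = g * (q * y) * g⁻¹ := by group
      have h6 : g * y * g⁻¹ * (g * q * g⁻¹) = g * (y * q) * g⁻¹ := by group
      rw [h5, h6] at h4
      exact mul_left_cancel (mul_right_cancel h4)
    · rintro ⟨h2, h3⟩
      refine ⟨(mQ y).1 h2, Subgroup.mem_centralizer_iff.2 ?_⟩
      intro r hr
      have hq : g⁻¹ * r * g ∈ ((g⁻¹ • P : Sylow p G) : Subgroup G) := by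
        rw [mQ]
        have : g * (g⁻¹ * r * g) * g⁻¹ = r := by group
        rwa [this]
      have h4 := Subgroup.mem_centralizer_iff.1 h3 _ hq
      have h5 : r * (g * y * g⁻¹) = g * ((g⁻¹ * r * g) * y) * g⁻¹ := by group
      have h6 : g * y * g⁻¹ * r = g * (y * (g⁻¹ * r * g)) * g⁻¹ := by group
      rw [h5, h6, h4]
  ext x
  have e : g * (g⁻¹ * x * g) * g⁻¹ = x := by group
  constructor
  · rintro ⟨y, hy, rfl⟩
    exact (key y).2 hy
  · intro hx
    refine ⟨g⁻¹ * x * g, (key _).1 (by rwa [e]), ?_⟩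
    show g * (g⁻¹ * x * g) * g⁻¹ = x
    exact e

/-- **Theorem** (p-normal groups). -/
theorem residual_eq (P : Sylow p G)
    (hn : ∀ Q : Sylow p G, (P : Subgroup G) ⊓ Subgroup.centralizer (P : Set G) ≤ (Q : Subgroup G) →
      (Q : Subgroup G) ⊓ Subgroup.centralizer (Q : Set G) =
        (P : Subgroup G) ⊓ Subgroup.centralizer (P : Set G)) (V : Subgroup G)
    (hV : Subgroup.normalizer (((P : Subgroup G) ⊓ Subgroup.centralizer (P : Set G) : Subgroup G) : Set G) ≤ V) :
    (P : Subgroup G) ⊓ pResidual p G = (P : Subgroup G) ⊓ (pResidual p V).map V.subtype := by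
  classical
  have hW := weaklyClosed_center P hn
  set Z := (P : Subgroup G) ⊓ Subgroup.centralizer (P : Set G) with hZ
  have hZc : Z ≤ Subgroup.centralizer (P : Set G) := inf_le_right
  set R := (pResidual p V).map V.subtype with hR
  have hRle : R ≤ pResidual p G := by
    rw [hR, Subgroup.map_le_iff_le_comap]
    show Subgroup.closure _ ≤ _
    rw [Subgroup.closure_le]
    intro v hv
    show ((v : V) : G) ∈ pResidual p G
    apply mem_pResidual_of_coprime
    have hv' : (orderOf v).Coprime p := hv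
    rwa [Subgroup.orderOf_coe]
  have hPN : (P : Subgroup G) ≤ Subgroup.normalizer ((Z : Subgroup G) : Set G) := by
    intro x hx
    rw [Subgroup.mem_normalizer_iff]
    intro z
    constructor
    · intro hz
      have h3 := Subgroup.mem_centralizer_iff.1 (hZc hz) x hx
      have : x * z * x⁻¹ = z := by
        rw [h3]
        group
      rwa [this]
    · intro hz
      have hzz : x * z * x⁻¹ ∈ Z := hz
      have h4 := Subgroup.mem_centralizer_iff.1 (hZc hzz) x hx
      have h6 : z = x * z * x⁻¹ := by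
        calc z = x⁻¹ * (x * z * x⁻¹ * x) := by group
          _ = x⁻¹ * (x * (x * z * x⁻¹)) := by rw [h4]
          _ = x * z * x⁻¹ := by group
      rw [h6]
      exact hz
  have hRn : ∀ v ∈ V, ∀ r ∈ R, v * r * v⁻¹ ∈ R := by
    rintro v hv _ ⟨r, hr, rfl⟩
    have h1 : (pResidual p V).Normal := pResidual_normal p V
    have h2 := h1.conj_mem r hr ⟨v, hv⟩
    exact ⟨_, h2, rfl⟩
  apply le_antisymm
  · rw [← hyp_eq P]
    refine le_inf (Cfsg.Agent.Lib.FusionHyp.hyp_le _) ?_
    rw [hyperfocalSubgroup, Subgroup.closure_le]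
    rintro _ ⟨Q, α, x, hQ, hα, rfl⟩
    haveI hfinQ : Finite Q := inferInstance
    have key : ∀ β ∈ pResidual p ((groupFusionSystem (P : Subgroup G)).autGroup Q), ∀ x : Q,
        (x : G)⁻¹ * ((β : MulAut Q) x : Q) ∈ R := by
      intro β hβ
      induction hβ using Subgroup.closure_induction with
      | mem β hβ =>
        intro x
        obtain ⟨g, hg⟩ := aut_conj_exists hQ β.2
        have hc : (orderOf (β : MulAut Q)).Coprime p := by
          rw [Subgroup.orderOf_coe]
          exact hβ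
        have hcj : cj g Q ≤ (P : Subgroup G) := by
          rintro _ ⟨y, hy, rfl⟩
          have h1 := hg ⟨y, hy⟩
          have h2 : ((MulAut.conj g).toMonoidHom y) = ((β : MulAut Q) ⟨y, hy⟩ : Q) := by
            rw [h1]
            rfl
          rw [h2]
          exact hQ ((β : MulAut Q) ⟨y, hy⟩ : Q).2
        obtain ⟨m, hm, hma⟩ := control_fusion P Z hZc hW Q hQ g hcj
        have hg' : ∀ x : Q, (((β : MulAut Q) x : Q) : G) = m * x * m⁻¹ := by
          intro x
          rw [hg x, hma _ x.2]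
        obtain ⟨k, ht, e⟩ := exists_coprime_conj_pow hg' hc
        rw [e]
        have hmV : m ∈ V := hV hm
        have htV : m ^ k ∈ V := V.pow_mem hmV k
        have htR : m ^ k ∈ R := by
          refine ⟨⟨m ^ k, htV⟩, ?_, rfl⟩
          apply mem_pResidual_of_coprime
          have h9 : orderOf (⟨m ^ k, htV⟩ : V) = orderOf (m ^ k) := Subgroup.orderOf_mk _ _
          rw [h9]
          exact ht
        have hxV : (x : G) ∈ V := hV (hPN (hQ x.2))
        have h1 : (x : G)⁻¹ * m ^ k * (x : G)⁻¹⁻¹ ∈ R := hRn _ (V.inv_mem hxV) _ htR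
        have h2 : (x : G)⁻¹ * (m ^ k * x * (m ^ k)⁻¹) = ((x : G)⁻¹ * m ^ k * (x : G)⁻¹⁻¹) * (m ^ k)⁻¹ := by group
        rw [h2]
        exact Subgroup.mul_mem _ h1 (Subgroup.inv_mem _ htR)
      | one =>
        intro x
        simp
      | mul a b _ _ ha hb =>
        intro x
        have h1 := hb x
        have h2 := ha ((b : MulAut Q) x)
        have e : (x : G)⁻¹ * (((a * b : (groupFusionSystem (P : Subgroup G)).autGroup Q) : MulAut Q) x : Q) =
            ((x : G)⁻¹ * ((b : MulAut Q) x : Q)) * ((((b : MulAut Q) x : Q) : G)⁻¹ * ((a : MulAut Q) ((b : MulAut Q) x) : Q)) := by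
          show (x : G)⁻¹ * ((a : MulAut Q) ((b : MulAut Q) x) : Q) = _
          group
        rw [e]
        exact Subgroup.mul_mem _ h1 h2
      | inv a _ ha =>
        intro x
        set y := (a⁻¹ : (groupFusionSystem (P : Subgroup G)).autGroup Q).1 x with hy
        have h1 := ha y
        have h2 : ((a : MulAut Q) y) = x := by
          rw [hy]
          show (a : MulAut Q) ((a : MulAut Q)⁻¹ x) = x
          simp
        rw [h2] at h1
        have h3 := Subgroup.inv_mem _ h1
        have e : ((y : G)⁻¹ * (x : G))⁻¹ = (x : G)⁻¹ * (y : G) := by group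
        rw [e] at h3
        exact h3
    exact key α hα x
  · exact inf_le_inf_left _ hRle

end Cfsg.Agent.Lib.PNormalFusion
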