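import Mathlib
import Cfsg.Agent.Lib.H7Ito
import Cfsg.Agent.Lib.CharBlockNormal
import Cfsg.Agent.S0169

/-!
# Groups all of whose irreducible degrees are powers of a prime `p`
-/

set_option autoImplicit false
set_option linter.style.haveILetI false
set_option linter.unusedSectionVars false
set_option linter.unusedVariables false

namespace Cfsg.Agent.Lib.PPowerDeg

open scoped ComplexConjugate
open Module Cfsg Cfsg.Agent.Lib.CharOps Cfsg.Agent.Lib.CharIrr Cfsg.Agent.Lib.CharAb Cfsg.Agent.Lib.H7Ito
  Cfsg.Agent.Lib.CharCliff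

universe u

/-- A linear character of prime order has a kernel of prime index. -/
theorem exists_index_prime {G : Type u} [Group G] [Fintype G] {p : ℕ} [hp : Fact p.Prime]
    (h : p ∣ (commutator G).index) : ∃ N : Subgroup G, N.Normal ∧ N.index = p := by
  classical
  rw [← card_hom_eq_index] at h
  haveI : Finite (G →* ℂˣ) := by
    apply Nat.finite_of_card_ne_zero
    rw [card_hom_eq_index]
    exact Subgroup.index_ne_zero_of_finite
  obtain ⟨l, hl⟩ := exists_prime_orderOf_dvd_card' p h
  refine ⟨l.ker, MonoidHom.normal_ker l, ?_⟩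
  rw [Subgroup.index_ker]
  have hsub : l.range ≤ rootsOfUnity p ℂ := by
    rintro _ ⟨g, rfl⟩
    have h1 : l ^ p = 1 := by rw [← hl]; exact pow_orderOf_eq_one l
    have h2 := congrArg (fun f : G →* ℂˣ => f g) h1
    simp only [MonoidHom.one_apply, MonoidHom.pow_apply] at h2
    rw [mem_rootsOfUnity]
    exact h2
  have hcard : Nat.card (rootsOfUnity p ℂ) = p := by
    exact Complex.card_rootsOfUnity p
  have hd : Nat.card l.range ∣ p := by
    rw [← hcard]
    exact Subgroup.card_dvd_of_le hsub
  rcases (Nat.dvd_prime hp.out).1 hd with h1 | h1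
  · exfalso
    have h2 : l.range = ⊥ := Subgroup.eq_bot_of_card_eq _ h1
    have h3 : l = 1 := by
      rw [MonoidHom.range_eq_bot_iff] at h2
      exact h2
    rw [h3, orderOf_one] at hl
    exact hp.out.one_lt.ne hl
  · exact h1

/-- Degrees power of `p`: `p` divides the order of the group forces a normal subgroup of index `p`. -/
theorem prime_dvd_index {G : Type u} [Group G] [Fintype G] {p : ℕ} [hp : Fact p.Prime]
    (hdeg : ∀ χ : IrrCharacter G, ∃ k : ℕ, deg χ = p ^ k) (hdvd : p ∣ Nat.card G) :
    p ∣ (commutator G).index := by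
  classical
  letI : Fintype (IrrCharacter G) := Fintype.ofFinite _
  have hsum := sum_deg_sq (G := G)
  have hlin := card_linear (G := G)
  have hiff1 : ∀ χ : IrrCharacter G, (χ : G → ℂ) 1 = 1 ↔ deg χ = 1 := by
    intro χ
    rw [apply_one_eq_deg]
    norm_cast
  have hcount : (commutator G).index = ∑ χ : IrrCharacter G, if deg χ = 1 then 1 else 0 := by
    rw [← hlin, Nat.card_eq_fintype_card, Fintype.card_subtype, Finset.sum_boole]
    simp [hiff1]
  have hmod : ∀ χ : IrrCharacter G, deg χ ^ 2 = (if deg χ = 1 then 1 else 0) + (if deg χ = 1 then 0 else deg χ ^ 2) := by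
    intro χ
    by_cases h : deg χ = 1
    · simp [h]
    · simp [h]
  have hsplit : Nat.card G = (commutator G).index + ∑ χ : IrrCharacter G, (if deg χ = 1 then 0 else deg χ ^ 2) := by
    rw [← hsum, hcount, ← Finset.sum_add_distrib]
    exact Finset.sum_congr rfl fun χ _ => hmod χ
  have h2 : p ∣ ∑ χ : IrrCharacter G, (if deg χ = 1 then 0 else deg χ ^ 2) := by
    apply Finset.dvd_sum
    intro χ _
    by_cases h : deg χ = 1
    · simp [h]
    · simp only [h, if_false]
      obtain ⟨k, hk⟩ := hdeg χ
      have hk0 : k ≠ 0 := by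
        rintro rfl
        simp at hk
        exact h hk
      rw [hk]
      exact dvd_pow (dvd_pow_self p hk0) two_ne_zero
  rw [hsplit] at hdvd
  exact (Nat.dvd_add_left h2).1 hdvd

/-- The degree of a constituent over a normal subgroup divides the degree. -/
theorem deg_dvd_of_normal {G : Type u} [Group G] [Fintype G] (N : Subgroup G) [N.Normal] [Fintype N]
    (θ : IrrCharacter N) : ∃ χ : IrrCharacter G, deg θ ∣ deg χ := by
  obtain ⟨χ, hχ⟩ := exists_over N θ
  obtain ⟨e, -, he⟩ := deg_eq_of_constituent N χ θ hχ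
  exact ⟨χ, ⟨(inertia N (θ : N → ℂ)).index * e, by rw [he]; ring⟩⟩

/-- The main theorem: normal abelian `p`-complement. -/
theorem exists_complement (p : ℕ) [hp : Fact p.Prime] (m : ℕ) :
    ∀ (G : Type u) [Group G] [Fintype G], Nat.card G = m →
      (∀ χ : IrrCharacter G, ∃ k : ℕ, deg χ = p ^ k) →
      ∃ A : Subgroup G, A.Normal ∧ (∀ a ∈ A, ∀ b ∈ A, a * b = b * a) ∧ Nat.Coprime (Nat.card A) p ∧
        ∃ k : ℕ, A.index = p ^ k := by
  induction m using Nat.strong_induction_on with
  | _ m ih =>
    intro G _ _ hm hdeg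
    classical
    by_cases hdvd : p ∣ Nat.card G
    · -- a normal subgroup of index `p`
      obtain ⟨N, hNn, hNi⟩ := exists_index_prime (prime_dvd_index hdeg hdvd)
      haveI := hNn
      letI : Fintype N := Fintype.ofFinite _
      have hlt : Nat.card N < m := by
        rw [← hm]
        have h1 := Subgroup.card_mul_index N
        rw [hNi] at h1
        have h2 : 0 < Nat.card N := Nat.card_pos
        have h3 := hp.out.one_lt
        rw [← h1]
        nlinarith
      obtain ⟨A₀, hA₀n, hA₀a, hA₀c, k, hk⟩ := ih _ hlt N rfl (fun θ => by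
        obtain ⟨χ, hχ⟩ := deg_dvd_of_normal N θ
        obtain ⟨k, hk⟩ := hdeg χ
        rw [hk] at hχ
        obtain ⟨j, -, hj⟩ := (Nat.dvd_prime_pow hp.out).1 hχ
        exact ⟨j, hj⟩)
      let A : Subgroup G := A₀.map N.subtype
      have hcA : Nat.card A = Nat.card A₀ := Subgroup.card_map_of_injective N.subtype_injective
      have hidx : A.index = p ^ (k + 1) := by
        have : A.index = A₀.index * N.index := Subgroup.index_map_subtype A₀
        rw [this, hk, hNi, pow_succ]
      -- the elements of `A` are the `p`-regular ones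
      have hmemA : ∀ x : G, x ∈ A ↔ ¬ p ∣ orderOf x := by
        intro x
        constructor
        · rintro ⟨y, hy, rfl⟩
          intro h
          have h1 : orderOf (y : G) ∣ Nat.card A₀ := by
            have h2 : orderOf (N.subtype y) = orderOf (⟨y, hy⟩ : A₀) := by
              simp [Subgroup.orderOf_mk]
            change orderOf (y : G) ∣ _
            have h3 : orderOf (y : G) = orderOf (⟨y, hy⟩ : A₀) := by
              simp [Subgroup.orderOf_mk]
            rw [h3]
            exact orderOf_dvd_natCard _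
          have h4 : p ∣ Nat.card A₀ := h.trans h1
          have h5 := Nat.Coprime.eq_one_of_dvd hA₀c.symm h4
          exact hp.out.one_lt.ne' h5
        · intro h
          have hxN : x ∈ N := Cfsg.Agent.Lib.CharBlockNormal.mem_of_regular_of_index hp.out (N := N) ⟨1, by rw [hNi, pow_one]⟩ h
          letI : Fintype A₀ := Fintype.ofFinite _
          have h1 : ¬ p ∣ orderOf (⟨x, hxN⟩ : N) := by
            rwa [Subgroup.orderOf_mk]
          have hxA := Cfsg.Agent.Lib.CharBlockNormal.mem_of_regular_of_index hp.out (N := A₀) ⟨k, hk⟩ h1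
          exact ⟨_, hxA, rfl⟩
      have hAn : A.Normal := by
        constructor
        intro x hx g
        rw [hmemA] at hx ⊢
        rwa [Cfsg.Agent.Lib.CharBlockOrth.orderOf_conj']
      refine ⟨A, hAn, ?_, ?_, k + 1, hidx⟩
      · rintro _ ⟨a, ha, rfl⟩ _ ⟨b, hb, rfl⟩
        exact congrArg Subtype.val (hA₀a a ha b hb)
      · rw [hcA]; exact hA₀c
    · -- all degrees are one
      refine ⟨⊤, inferInstance, ?_, ?_, 0, by simp⟩
      · intro a _ b _
        refine commutative_iff_deg_one.2 (fun χ => ?_) a b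
        obtain ⟨k, hk⟩ := hdeg χ
        by_contra h
        have hk0 : k ≠ 0 := by
          rintro rfl
          simp at hk
          exact h hk
        apply hdvd
        have h1 : deg χ ∣ Nat.card G := by
          have h2 := Cfsg.Agent.Lib.CharBlockDefect.charDegree_dvd_card χ.2
          have h3 := Cfsg.Agent.Lib.CharBlockDefect.charDegree_cast (IsIrrCharacter.isCharacter' χ.2)
          rw [apply_one_eq_deg] at h3
          have h4 : charDegree (χ : G → ℂ) = deg χ := by exact_mod_cast h3
          rwa [h4] at h2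
        rw [hk] at h1
        exact (dvd_pow_self p hk0).trans h1
      · rw [Subgroup.card_top, Nat.coprime_comm]

        exact (Nat.Prime.coprime_iff_not_dvd hp.out).2 hdvd

/-- All degrees powers of `p` iff normal abelian `p`-complement. -/
theorem iff_complement {G : Type u} [Group G] [Finite G] (p : ℕ) (hp : p.Prime) :
    (∀ χ : IrrCharacter G, ∃ k : ℕ, (χ : G → ℂ) 1 = (p : ℂ) ^ k) ↔
      ∃ A : Subgroup G, A.Normal ∧ (∀ a ∈ A, ∀ b ∈ A, a * b = b * a) ∧ Nat.Coprime (Nat.card A) p ∧
        ∃ k : ℕ, A.index = p ^ k := by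
  classical
  cases nonempty_fintype G
  haveI : Fact p.Prime := ⟨hp⟩
  constructor
  · intro h
    refine exists_complement p _ G rfl fun χ => ?_
    obtain ⟨k, hk⟩ := h χ
    refine ⟨k, ?_⟩
    rw [apply_one_eq_deg] at hk
    exact_mod_cast hk
  · rintro ⟨A, hAn, hAa, -, k, hk⟩ χ
    haveI := hAn
    obtain ⟨χ, hχ⟩ := χ
    obtain ⟨n, ρ, hρ, rfl⟩ := hχ
    haveI := hρ
    have h1 := Cfsg.Agent.S0169.result ρ A hAa
    rw [Module.finrank_fin_fun, hk] at h1
    obtain ⟨j, -, hj⟩ := (Nat.dvd_prime_pow hp).1 h1
    refine ⟨j, ?_⟩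
    show LinearMap.trace ℂ (Fin n → ℂ) (ρ 1) = (p : ℂ) ^ j
    rw [map_one, LinearMap.trace_one, Module.finrank_fin_fun, hj]
    push_cast
    rfl

end Cfsg.Agent.Lib.PPowerDeg
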