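import Mathlib

/-!
# `PSL₂(11)` by machine: its two classes of `A₅`
-/

set_option autoImplicit false
set_option maxHeartbeats 1000000
set_option maxRecDepth 100000
set_option linter.style.haveILetI false
set_option linter.constructorNameAsVariable false

open scoped Pointwise

namespace Cfsg.Agent.Lib.PSL211

abbrev SLZ := Matrix.SpecialLinearGroup (Fin 2) (ZMod 11)

/-- Code of a four-tuple. -/
def enc (a b c d : ℕ) : ℕ := a + 11 * b + 121 * c + 1331 * d
/-- Digits. -/
def d0 (x : ℕ) : ℕ := x % 11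
/-- Digits. -/
def d1 (x : ℕ) : ℕ := x / 11 % 11
/-- Digits. -/
def d2 (x : ℕ) : ℕ := x / 121 % 11
/-- Digits. -/
def d3 (x : ℕ) : ℕ := x / 1331 % 11

/-- Product of codes. -/
def mm (x y : ℕ) : ℕ :=
  enc ((d0 x * d0 y + d1 x * d2 y) % 11) ((d0 x * d1 y + d1 x * d3 y) % 11)
      ((d2 x * d0 y + d3 x * d2 y) % 11) ((d2 x * d1 y + d3 x * d3 y) % 11)

/-- Code of a matrix. -/
def cd (A : SLZ) : ℕ := enc (A.1 0 0).val (A.1 0 1).val (A.1 1 0).val (A.1 1 1).val

theorem d0_enc {a b c d : ℕ} (ha : a < 11) (hb : b < 11) (hc : c < 11) (hd : d < 11) : d0 (enc a b c d) = a := by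
  unfold d0 enc; omega
theorem d1_enc {a b c d : ℕ} (ha : a < 11) (hb : b < 11) (hc : c < 11) (hd : d < 11) : d1 (enc a b c d) = b := by
  unfold d1 enc; omega
theorem d2_enc {a b c d : ℕ} (ha : a < 11) (hb : b < 11) (hc : c < 11) (hd : d < 11) : d2 (enc a b c d) = c := by
  unfold d2 enc; omega
theorem d3_enc {a b c d : ℕ} (ha : a < 11) (hb : b < 11) (hc : c < 11) (hd : d < 11) : d3 (enc a b c d) = d := by
  unfold d3 enc; omega

theorem vlt (x : ZMod 11) : x.val < 11 := ZMod.val_lt x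

theorem val_am (a b c d : ZMod 11) : (a * b + c * d).val = (a.val * b.val + c.val * d.val) % 11 := by
  rw [ZMod.val_add, ZMod.val_mul, ZMod.val_mul]
  exact (Nat.add_mod _ _ _).symm

theorem d0_cd (A : SLZ) : d0 (cd A) = (A.1 0 0).val := d0_enc (vlt _) (vlt _) (vlt _) (vlt _)
theorem d1_cd (A : SLZ) : d1 (cd A) = (A.1 0 1).val := d1_enc (vlt _) (vlt _) (vlt _) (vlt _)
theorem d2_cd (A : SLZ) : d2 (cd A) = (A.1 1 0).val := d2_enc (vlt _) (vlt _) (vlt _) (vlt _)
theorem d3_cd (A : SLZ) : d3 (cd A) = (A.1 1 1).val := d3_enc (vlt _) (vlt _) (vlt _) (vlt _)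

theorem cd_mul (A B : SLZ) : cd (A * B) = mm (cd A) (cd B) := by
  unfold mm
  rw [d0_cd, d1_cd, d2_cd, d3_cd, d0_cd, d1_cd, d2_cd, d3_cd]
  unfold cd
  simp only [Matrix.SpecialLinearGroup.coe_mul, Matrix.mul_apply, Fin.sum_univ_two]
  rw [val_am, val_am, val_am, val_am]

theorem ext_ent {A B : SLZ} (h00 : A.1 0 0 = B.1 0 0) (h01 : A.1 0 1 = B.1 0 1) (h10 : A.1 1 0 = B.1 1 0)
    (h11 : A.1 1 1 = B.1 1 1) : A = B := by
  apply Subtype.ext
  ext i j
  fin_cases i <;> fin_cases j
  · exact h00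
  · exact h01
  · exact h10
  · exact h11

theorem cd_inj {A B : SLZ} (h : cd A = cd B) : A = B := by
  have h0 := d0_cd A
  have h1 := d1_cd A
  have h2 := d2_cd A
  have h3 := d3_cd A
  rw [h] at h0 h1 h2 h3
  rw [d0_cd] at h0
  rw [d1_cd] at h1
  rw [d2_cd] at h2
  rw [d3_cd] at h3
  exact ext_ent (ZMod.val_injective 11 h0.symm) (ZMod.val_injective 11 h1.symm) (ZMod.val_injective 11 h2.symm)
    (ZMod.val_injective 11 h3.symm)

/-- Decoding a code. -/
def dec (x : ℕ) : SLZ :=
  if h : ((d0 x : ZMod 11) * (d3 x : ZMod 11) - (d1 x : ZMod 11) * (d2 x : ZMod 11) = 1) then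
    ⟨!![(d0 x : ZMod 11), (d1 x : ZMod 11); (d2 x : ZMod 11), (d3 x : ZMod 11)], by
      rw [Matrix.det_fin_two_of]; exact h⟩
  else 1

theorem dec_of {x : ℕ} (h : ((d0 x : ZMod 11) * (d3 x : ZMod 11) - (d1 x : ZMod 11) * (d2 x : ZMod 11) = 1)) :
    dec x = ⟨!![(d0 x : ZMod 11), (d1 x : ZMod 11); (d2 x : ZMod 11), (d3 x : ZMod 11)], by
      rw [Matrix.det_fin_two_of]; exact h⟩ := dif_pos h

theorem lt_of_blt {a b : ℕ} (h : Nat.blt a b = true) : a < b := Nat.le_of_ble_eq_true h

theorem det2 (A : SLZ) : A.1 0 0 * A.1 1 1 - A.1 0 1 * A.1 1 0 = 1 := by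
  have h := A.2
  rwa [Matrix.det_fin_two] at h

theorem dec_cd (A : SLZ) : dec (cd A) = A := by
  have h0 : ((d0 (cd A) : ℕ) : ZMod 11) = A.1 0 0 := by rw [d0_cd, ZMod.natCast_zmod_val]
  have h1 : ((d1 (cd A) : ℕ) : ZMod 11) = A.1 0 1 := by rw [d1_cd, ZMod.natCast_zmod_val]
  have h2 : ((d2 (cd A) : ℕ) : ZMod 11) = A.1 1 0 := by rw [d2_cd, ZMod.natCast_zmod_val]
  have h3 : ((d3 (cd A) : ℕ) : ZMod 11) = A.1 1 1 := by rw [d3_cd, ZMod.natCast_zmod_val]
  have hd : ((d0 (cd A) : ℕ) : ZMod 11) * ((d3 (cd A) : ℕ) : ZMod 11) - ((d1 (cd A) : ℕ) : ZMod 11) * ((d2 (cd A) : ℕ) : ZMod 11) = 1 := by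
    rw [h0, h1, h2, h3]
    exact det2 A
  rw [dec_of hd]
  apply ext_ent
  · exact h0
  · exact h1
  · exact h2
  · exact h3

/-- A valid code. -/
def vd (x : ℕ) : Bool := Nat.beq ((d0 x * d3 x + 10 * (d1 x * d2 x)) % 11) 1 && Nat.blt x 14641

theorem cd_dec {x : ℕ} (hv : vd x = true) : cd (dec x) = x := by
  unfold vd at hv
  rw [Bool.and_eq_true] at hv
  have h1 := Nat.eq_of_beq_eq_true hv.1
  have h2 : x < 14641 := lt_of_blt hv.2
  have h3 : ((d0 x : ZMod 11) * (d3 x : ZMod 11) - (d1 x : ZMod 11) * (d2 x : ZMod 11) = 1) := by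
    have h4 := congrArg (fun n : ℕ => (n : ZMod 11)) h1
    simp only [ZMod.natCast_mod] at h4
    push_cast at h4
    have h10 : (10 : ZMod 11) + 1 = 0 := by decide
    linear_combination h4 - ((d1 x : ZMod 11) * (d2 x : ZMod 11)) * h10
  rw [dec_of h3]
  unfold cd
  have e0 : ((d0 x : ZMod 11)).val = d0 x := by
    rw [ZMod.val_natCast]; unfold d0; omega
  have e1 : ((d1 x : ZMod 11)).val = d1 x := by
    rw [ZMod.val_natCast]; unfold d1; omega
  have e2 : ((d2 x : ZMod 11)).val = d2 x := by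
    rw [ZMod.val_natCast]; unfold d2; omega
  have e3 : ((d3 x : ZMod 11)).val = d3 x := by
    rw [ZMod.val_natCast]; unfold d3; omega
  show enc ((d0 x : ZMod 11)).val ((d1 x : ZMod 11)).val ((d2 x : ZMod 11)).val ((d3 x : ZMod 11)).val = x
  rw [e0, e1, e2, e3]
  unfold enc d0 d1 d2 d3
  omega

theorem vd_cd (A : SLZ) : vd (cd A) = true := by
  unfold vd
  rw [d0_cd, d1_cd, d2_cd, d3_cd]
  rw [Bool.and_eq_true]
  constructor
  · have h1 := det2 A
    have h2 : (((A.1 0 0).val * (A.1 1 1).val + 10 * ((A.1 0 1).val * (A.1 1 0).val) : ℕ) : ZMod 11) = ((1 : ℕ) : ZMod 11) := by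
      push_cast
      simp only [ZMod.natCast_zmod_val]
      have h10 : (10 : ZMod 11) + 1 = 0 := by decide
      linear_combination h1 + (A.1 0 1 * A.1 1 0) * h10
    rw [ZMod.natCast_eq_natCast_iff'] at h2
    rw [h2]
    rfl
  · unfold cd enc
    have h0 := vlt (A.1 0 0)
    have h1 := vlt (A.1 0 1)
    have h2 := vlt (A.1 1 0)
    have h3 := vlt (A.1 1 1)
    apply Nat.ble_eq_true_of_le
    omega

theorem vd_mm {x y : ℕ} (hx : vd x = true) (hy : vd y = true) : vd (mm x y) = true := by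
  have h := vd_cd (dec x * dec y)
  rwa [cd_mul, cd_dec hx, cd_dec hy] at h

/-- Minus the identity. -/
def mO : SLZ := ⟨!![10, 0; 0, 10], by rw [Matrix.det_fin_two_of]; decide⟩

theorem mO_mO : mO * mO = 1 := by
  apply Subtype.ext
  decide

/-- Code of minus the identity. -/
def c0 : ℕ := 13320

theorem cd_mO : cd mO = c0 := by decide +kernel

/-- The identity's code. -/
def ci : ℕ := 1332

theorem cd_one : cd 1 = ci := by decide +kernel

/-- Normal form. -/
def nm (x : ℕ) : ℕ := min x (mm c0 x)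

/-- What is needed of the projection. -/
structure Pres {G : Type*} [Group G] (π : SLZ →* G) : Prop where
  surj : Function.Surjective π
  eq_iff : ∀ A B, π A = π B ↔ A = B ∨ B = mO * A

section gen

variable {G : Type*} [Group G] {π : SLZ →* G}

/-- Image of a code. -/
def gl (π : SLZ →* G) (x : ℕ) : G := π (dec x)

theorem pi_mO (P : Pres π) : π mO = 1 := by
  have h := (P.eq_iff 1 mO).mpr (Or.inr (by rw [mul_one]))
  rw [map_one] at h
  exact h.symm

theorem gl_mul {x y : ℕ} (hx : vd x = true) (hy : vd y = true) : gl π x * gl π y = gl π (mm x y) := by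
  unfold gl
  rw [← map_mul]
  congr 1
  apply cd_inj
  rw [cd_mul, cd_dec hx, cd_dec hy, cd_dec (vd_mm hx hy)]

theorem vd_c0 : vd c0 = true := by decide +kernel

theorem vd_ci : vd ci = true := by decide +kernel

theorem mm_c0_c0 {x : ℕ} (hx : vd x = true) : mm c0 (mm c0 x) = x := by
  have h := congrArg cd (show mO * (mO * dec x) = dec x by rw [← mul_assoc, mO_mO, one_mul])
  rwa [cd_mul, cd_mul, cd_mO, cd_dec hx] at h

theorem gl_eq_iff (P : Pres π) {x y : ℕ} (hx : vd x = true) (hy : vd y = true) : gl π x = gl π y ↔ nm x = nm y := by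
  constructor
  · intro h
    rcases (P.eq_iff _ _).mp h with h1 | h1
    · have := congrArg cd h1
      rw [cd_dec hx, cd_dec hy] at this
      rw [this]
    · have h2 := congrArg cd h1
      rw [cd_dec hy, cd_mul, cd_mO, cd_dec hx] at h2
      unfold nm
      rw [h2, mm_c0_c0 hx]
      omega
  · intro h
    unfold nm at h
    have h3 : x = y ∨ x = mm c0 y ∨ mm c0 x = y ∨ mm c0 x = mm c0 y := by omega
    have hdx : dec x = dec (cd (dec x)) := by rw [dec_cd]
    have key : ∀ {u v : ℕ}, vd u = true → vd v = true → mm c0 u = v → gl π u = gl π v := by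
      intro u v hu hv he
      rw [← he, ← gl_mul vd_c0 hu]
      have : gl π c0 = 1 := by
        unfold gl
        have : dec c0 = mO := by rw [← cd_mO, dec_cd]
        rw [this, pi_mO P]
      rw [this, one_mul]
    rcases h3 with h3 | h3 | h3 | h3
    · rw [h3]
    · exact (key hy hx h3.symm).symm
    · exact key hx hy h3
    · have h4 := congrArg (mm c0) h3
      simp only [mm_c0_c0 hx, mm_c0_c0 hy] at h4
      rw [h4]

theorem vd_nm {x : ℕ} (hx : vd x = true) : vd (nm x) = true := by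
  unfold nm
  rcases min_choice x (mm c0 x) with h | h
  · rw [h]; exact hx
  · rw [h]; exact vd_mm vd_c0 hx

theorem nm_nm {x : ℕ} (hx : vd x = true) : nm (nm x) = nm x := by
  unfold nm
  rcases min_choice x (mm c0 x) with h | h
  · rw [h]
    rw [h]
  · rw [h, mm_c0_c0 hx]
    omega

theorem gl_nm (P : Pres π) {x : ℕ} (hx : vd x = true) : gl π (nm x) = gl π x :=
  (gl_eq_iff P (vd_nm hx) hx).mpr (nm_nm hx)

theorem exists_gl (P : Pres π) (g : G) : ∃ x, vd x = true ∧ gl π x = g := by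
  obtain ⟨A, rfl⟩ := P.surj g
  exact ⟨cd A, vd_cd A, by unfold gl; rw [dec_cd]⟩

end gen

/-- The normal forms. -/
def LG : List ℕ := [231,232,233,234,235,236,237,238,239,240,241,297,298,299,300,301,302,303,304,305,306,307,440,441,442,443,444,445,446,447,448,449,450,572,573,574,575,576,577,578,579,580,581,582,627,628,629,630,631,632,633,634,635,636,637,1332,1343,1354,1365,1376,1387,1398,1409,1420,1431,1442,1453,1465,1477,1489,1501,1513,1525,1537,1549,1561,1562,1574,1587,1600,1613,1626,1628,1641,1654,1667,1680,1693,1695,1709,1723,1737,1740,1754,1768,1771,1785,1799,1813,1816,1831,1846,1850,1865,1880,1884,1899,1903,1918,1933,1937,1953,1958,1974,1990,1995,2011,2016,2032,2037,2053,2058,2075,2081,2098,2104,2121,2127,2144,2150,2156,2173,2179,2197,2204,2211,2229,2236,2254,2261,2268,2286,2293,2300,2319,2327,2335,2343,2362,2370,2378,2397,2405,2413,2421,2441,2450,2459,2468,2477,2486,2506,2515,2524,2533,2542,2552,2573,2583,2593,2603,2613,2623,2633,2643,2653,2668,2679,26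90,2701,2712,2723,2734,2745,2756,2767,2778,2789,2795,2812,2818,2835,2841,2858,2864,2881,2887,2893,2910,2922,2934,2946,2958,2959,2971,2983,2995,3007,3019,3031,3038,3056,3063,3070,3088,3095,3102,3120,3127,3145,3152,3165,3178,3180,3193,3206,3219,3232,3234,3247,3260,3273,3281,3289,3308,3316,3324,3343,3351,3359,3367,3386,3394,3408,3411,3425,3439,3453,3456,3470,3484,3487,3501,3515,3524,3533,3542,3562,3571,3580,3589,3598,3618,3627,3636,3651,3655,3670,3674,3689,3704,3708,3723,3738,3742,3757,3767,3777,3787,3797,3807,3817,3838,3848,3858,3868,3878,3883,3899,3915,3920,3936,3941,3957,3962,3978,3983,3997,4008,4019,4030,4041,4052,4063,4074,4085,4096,4107,4118,4133,4137,4152,4167,4171,4186,4201,4205,4220,4224,4239,4247,4266,4274,4282,4290,4309,4317,4325,4344,4352,4360,4372,4384,4396,4408,4420,4432,4433,4445,4457,4469,4481,4497,4502,4518,4523,4539,4544,4560,4565,4581,4597,4602,4611,4620,4640,4649,4658,4667,4676,4696,4705,4714,4723,4736,4749,4762,4764,4777,4790,4803,4816,4818,4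831,4844,4861,4867,4873,4890,4896,4913,4919,4936,4942,4959,4965,4975,4985,4995,5005,5026,5036,5046,5056,5066,5076,5086,5100,5114,5117,5131,5145,5148,5162,5176,5190,5193,5207,5214,5232,5239,5257,5264,5271,5289,5296,5303,5321,5327,5338,5349,5360,5371,5382,5393,5404,5415,5426,5437,5448,5462,5476,5479,5493,5507,5521,5524,5538,5552,5555,5569,5586,5592,5609,5615,5621,5638,5644,5661,5667,5684,5690,5699,5719,5728,5737,5746,5755,5764,5784,5793,5802,5811,5823,5835,5847,5859,5871,5883,5895,5896,5908,5920,5932,5947,5951,5966,5981,5985,6000,6015,6019,6034,6049,6053,6071,6078,6085,6103,6110,6117,6135,6142,6149,6167,6174,6184,6194,6204,6225,6235,6245,6255,6265,6275,6285,6295,6308,6321,6334,6336,6349,6362,6375,6388,6401,6403,6416,6432,6437,6453,6458,6474,6479,6495,6511,6516,6532,6537,6545,6564,6572,6580,6599,6607,6615,6623,6642,6650,6664,6675,6686,6697,6708,6719,6730,6741,6752,6763,6774,6785,6794,6803,6812,6821,6841,6850,6859,6868,6877,6886,6906,6913,6920,6938,6945,6952,6970,6977,6995,7002,7009,7027,7032,7048,7053,7069,7074,7090,7095,7111,7127,7132,7148,7151,7165,7179,7193,7196,7210,7224,7227,7241,7255,7269,7281,7282,7294,7306,7318,7330,7342,7354,7366,7378,7390,7400,7410,7420,7430,7440,7450,7460,7470,7480,7501,7511,7519,7527,7535,7554,7562,7570,7589,7597,7605,7613,7632,7638,7655,7661,7667,7684,7690,7707,7713,7730,7736,7753,7757,7772,7787,7791,7806,7810,7825,7840,7844,7859,7874,7876,7889,7902,7915,7928,7941,7943,7956,7969,7982]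

theorem LG_vd : ∀ y ∈ LG, vd y = true ∧ nm y = y := by decide +kernel

theorem LG_cover : (List.range 14641).all (fun x => !vd x || LG.contains (nm x)) = true := by decide +kernel

theorem LG_nodup : LG.Nodup := by decide +kernel

theorem LG_len : LG.length = 660 := by decide +kernel

section gen2

variable {G : Type*} [Group G] {π : SLZ →* G}

theorem mem_LG {x : ℕ} (hx : vd x = true) : nm x ∈ LG := by
  have h2 : x < 14641 := by
    unfold vd at hx
    rw [Bool.and_eq_true] at hx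
    exact lt_of_blt hx.2
  have h := List.all_eq_true.mp LG_cover x (List.mem_range.mpr h2)
  rw [hx] at h
  simpa using h

theorem exists_LG (P : Pres π) (g : G) : ∃ y ∈ LG, gl π y = g := by
  obtain ⟨x, hx, rfl⟩ := exists_gl P g
  exact ⟨nm x, mem_LG hx, gl_nm P hx⟩

theorem card_G (P : Pres π) : Nat.card G = 660 := by
  classical
  have hb : Function.Bijective (fun y : LG.toFinset => gl π y.1) := by
    constructor
    · rintro ⟨y, hy⟩ ⟨z, hz⟩ h
      have hy' := List.mem_toFinset.mp hy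
      have hz' := List.mem_toFinset.mp hz
      apply Subtype.ext
      have := (gl_eq_iff P (LG_vd y hy').1 (LG_vd z hz').1).mp h
      rwa [(LG_vd y hy').2, (LG_vd z hz').2] at this
    · intro g
      obtain ⟨y, hy, rfl⟩ := exists_LG P g
      exact ⟨⟨y, List.mem_toFinset.mpr hy⟩, rfl⟩
  rw [← Nat.card_eq_of_bijective _ hb, Nat.card_eq_fintype_card, Fintype.card_coe, List.toFinset_card_of_nodup LG_nodup, LG_len]

end gen2

/-- Code of a permutation of five points. -/
def pc (σ : Equiv.Perm (Fin 5)) : ℕ := (σ 0).val + 5 * (σ 1).val + 25 * (σ 2).val + 125 * (σ 3).val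

/-- Look up the table. -/
def lk (t : List (ℕ × ℕ)) (k : ℕ) : ℕ := ((t.lookup k).getD 0)

/-- The first table. -/
def t0 : List (ℕ × ℕ) := [(430,1332),(580,7069),(355,5737),(535,231),(210,6135),(485,6245),(290,4803),(565,7179),(240,4133),(420,4913),(195,5847),(345,2397),(551,2254),(326,2573),(476,440),(386,5462),(586,3708),(111,3206),(516,1465),(66,4352),(366,2887),(271,3997),(446,6474),(96,2477),(402,6794),(577,5327),(227,3983),(507,2144),(82,7366),(482,6564),(142,572),(542,7460),(117,7009),(397,1693),(47,1850),(222,3411),(528,7570),(178,5684),(353,2971),(258,6034),(558,6388),(108,5145),(513,3598),(38,4518),(238,6664),(148,3767),(298,3063),(73,627),(279,1740),(429,7806),(204,7889),(384,5232),(59,5056),(334,297),(139,3316),(414,4408),(89,7713),(269,2037),(44,2668),(194,4705)]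

/-- The second table. -/
def t1 : List (ℕ × ℕ) := [(430,1332),(580,4649),(355,5981),(535,231),(210,6375),(485,6265),(290,7707),(565,4539),(240,5321),(420,7597),(195,5871),(345,1737),(551,5046),(326,297),(476,4749),(386,4396),(586,2378),(111,3470),(516,2668),(66,4220),(366,6877),(271,7053),(446,6970),(96,2081),(402,5728),(577,3723),(227,6664),(507,4936),(82,6078),(482,6432),(142,4309),(542,7196),(117,3019),(397,627),(47,3180),(222,3807),(528,7306),(178,5552),(353,3367),(258,7410),(558,7982),(108,572),(513,2268),(38,1990),(238,2795),(148,7757),(298,5327),(73,2441),(279,3070),(429,5638),(204,3899),(384,5100),(59,6650),(334,1561),(139,3580),(414,1880),(89,3997),(269,1641),(44,2653),(194,440)]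

/-- Second component. -/
def L0 : List ℕ := [231,297,440,572,627,1332,1465,1693,1740,1850,2037,2144,2254,2397,2477,2573,2668,2887,2971,3063,3206,3316,3411,3598,3708,3767,3983,3997,4133,4352,4408,4518,4705,4803,4913,5056,5145,5232,5327,5462,5684,5737,5847,6034,6135,6245,6388,6474,6564,6664,6794,7009,7069,7179,7366,7460,7570,7713,7806,7889]

/-- Second component. -/
def L1 : List ℕ := [231,297,440,572,627,1332,1561,1641,1737,1880,1990,2081,2268,2378,2441,2653,2668,2795,3019,3070,3180,3367,3470,3580,3723,3807,3899,3997,4220,4309,4396,4539,4649,4749,4936,5046,5100,5321,5327,5552,5638,5728,5871,5981,6078,6265,6375,6432,6650,6664,6877,6970,7053,7196,7306,7410,7597,7707,7757,7982]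

/-- Is it even? -/
def isE (t : List (ℕ × ℕ)) (σ : Equiv.Perm (Fin 5)) : Bool := (t.lookup (pc σ)).isSome

/-- What the table must satisfy. -/
structure Tab (t : List (ℕ × ℕ)) (L : List ℕ) : Prop where
  even : ∀ σ : Equiv.Perm (Fin 5), Equiv.Perm.sign σ = 1 → isE t σ = true
  val : ∀ σ : Equiv.Perm (Fin 5), isE t σ = true → vd (lk t (pc σ)) = true ∧ nm (lk t (pc σ)) = lk t (pc σ) ∧ lk t (pc σ) ∈ L
  mul : ∀ σ τ : Equiv.Perm (Fin 5), isE t σ = true → isE t τ = true →
    nm (mm (lk t (pc σ)) (lk t (pc τ))) = lk t (pc (σ * τ))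
  inj : ∀ σ : Equiv.Perm (Fin 5), isE t σ = true → lk t (pc σ) = lk t (pc 1) → σ = 1
  onto : ∀ y ∈ L, ∃ σ : Equiv.Perm (Fin 5), Equiv.Perm.sign σ = 1 ∧ lk t (pc σ) = y

theorem even1 (t : List (ℕ × ℕ)) (L : List ℕ) (h : Tab t L) (σ : alternatingGroup (Fin 5)) : isE t σ.1 = true :=
  h.even _ (Equiv.Perm.mem_alternatingGroup.mp σ.2)

theorem tab0 : Tab t0 L0 := by
  refine ⟨by decide +kernel, by decide +kernel, ?_, by decide +kernel, by decide +kernel⟩
  decide +kernel

theorem tab1 : Tab t1 L1 := by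
  refine ⟨by decide +kernel, by decide +kernel, ?_, by decide +kernel, by decide +kernel⟩
  decide +kernel

section gen3

variable {G : Type*} [Group G] {π : SLZ →* G}

/-- The embedding of `A₅`. -/
def phi (P : Pres π) {t : List (ℕ × ℕ)} {L : List ℕ} (h : Tab t L) : alternatingGroup (Fin 5) →* G :=
  MonoidHom.mk' (fun σ => gl π (lk t (pc σ.1))) (by
    intro a b
    have ha := even1 t L h a
    have hb := even1 t L h b
    have hab := even1 t L h (a * b)
    obtain ⟨h1, -, -⟩ := h.val _ ha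
    obtain ⟨h2, -, -⟩ := h.val _ hb
    obtain ⟨h3, h3', -⟩ := h.val _ hab
    rw [gl_mul h1 h2]
    symm
    rw [gl_eq_iff P (vd_mm h1 h2) h3, h3']
    exact (h.mul _ _ ha hb))

theorem phi_apply (P : Pres π) {t : List (ℕ × ℕ)} {L : List ℕ} (h : Tab t L) (σ : alternatingGroup (Fin 5)) :
    phi P h σ = gl π (lk t (pc σ.1)) := rfl

theorem phi_inj (P : Pres π) {t : List (ℕ × ℕ)} {L : List ℕ} (h : Tab t L) : Function.Injective (phi P h) := by
  rw [injective_iff_map_eq_one]
  intro σ hσ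
  have h1 : phi P h σ = phi P h 1 := by rw [hσ, map_one]
  rw [phi_apply, phi_apply] at h1
  have hs := even1 t L h σ
  have ho := even1 t L h 1
  obtain ⟨v1, n1, -⟩ := h.val _ hs
  obtain ⟨v2, n2, -⟩ := h.val _ ho
  have h2 := (gl_eq_iff P v1 v2).mp h1
  rw [n1, n2] at h2
  exact Subtype.ext (h.inj _ hs h2)

theorem card_A5 : Nat.card (alternatingGroup (Fin 5)) = 60 := by
  rw [Nat.card_eq_fintype_card]
  decide +kernel

/-- The subgroup. -/
def HH (P : Pres π) {t : List (ℕ × ℕ)} {L : List ℕ} (h : Tab t L) : Subgroup G := (phi P h).range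

theorem HH_equiv (P : Pres π) {t : List (ℕ × ℕ)} {L : List ℕ} (h : Tab t L) :
    Nonempty (HH P h ≃* alternatingGroup (Fin 5)) :=
  ⟨(MonoidHom.ofInjective (phi_inj P h)).symm⟩

theorem card_HH (P : Pres π) {t : List (ℕ × ℕ)} {L : List ℕ} (h : Tab t L) : Nat.card (HH P h) = 60 := by
  obtain ⟨e⟩ := HH_equiv P h
  rw [Nat.card_congr e.toEquiv, card_A5]

theorem mem_HH (P : Pres π) {t : List (ℕ × ℕ)} {L : List ℕ} (h : Tab t L) {y : ℕ} (hy : vd y = true) :
    gl π y ∈ HH P h ↔ nm y ∈ L := by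
  constructor
  · rintro ⟨σ, hσ⟩
    rw [phi_apply] at hσ
    have hs := even1 t L h σ
    obtain ⟨v1, n1, m1⟩ := h.val _ hs
    have h2 := (gl_eq_iff P v1 hy).mp hσ
    rw [← h2, n1]
    exact m1
  · intro hm
    obtain ⟨σ, hσ, he⟩ := h.onto _ hm
    refine ⟨⟨σ, Equiv.Perm.mem_alternatingGroup.mpr hσ⟩, ?_⟩
    rw [phi_apply]
    show gl π (lk t (pc σ)) = gl π y
    rw [he]
    exact gl_nm P hy

theorem index_HH (P : Pres π) {t : List (ℕ × ℕ)} {L : List ℕ} (h : Tab t L) : (HH P h).index = 11 := by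
  have h1 := Subgroup.card_mul_index (HH P h)
  rw [card_HH, card_G P] at h1
  omega

end gen3

/-- The double coset representative. -/
def x0 : ℕ := 232

/-- The double coset table. -/
def cov : List (ℕ × ℕ × ℕ) := [(232,2,31),(233,18,48),(234,4,58),(235,3,41),(236,1,22),(237,8,42),(238,7,37),(239,6,25),(240,0,6),(241,11,47),(298,8,24),(299,2,41),(300,7,40),(301,18,25),(302,6,12),(303,4,31),(304,0,58),(305,3,22),(306,11,23),(307,1,6),(441,3,58),(442,6,33),(443,2,6),(444,1,31),(445,0,41),(446,18,57),(447,8,50),(448,11,54),(449,4,22),(450,7,13),(573,4,41),(574,8,10),(575,0,31),(576,2,22),(577,3,6),(578,7,20),(579,11,8),(580,18,12),(581,1,58),(582,6,57),(628,0,22),(629,7,55),(630,1,41),(631,4,6),(632,2,58),(633,11,28),(634,6,48),(635,8,36),(636,3,31),(637,18,33),(1343,2,46),(1354,18,9),(1365,4,21),(1376,3,34),(1387,1,51),(1398,8,45),(1409,7,8),(1420,6,18),(1431,0,15),(1442,11,20),(1453,11,50),(1477,2,14),(1489,18,58),(1501,4,48),(1513,3,10),(1525,1,40),(1537,8,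3),(1549,7,45),(1561,6,44),(1562,0,0),(1574,2,38),(1587,18,29),(1600,4,28),(1613,3,39),(1626,1,35),(1628,8,37),(1641,7,17),(1654,6,1),(1667,0,19),(1680,11,16),(1695,7,25),(1709,6,6),(1723,0,37),(1737,11,46),(1754,2,33),(1768,18,49),(1771,4,4),(1785,3,26),(1799,1,24),(1813,8,12),(1816,6,37),(1831,0,25),(1846,11,32),(1865,2,50),(1880,18,17),(1884,4,53),(1899,3,20),(1903,1,1),(1918,8,35),(1933,7,6),(1937,18,40),(1953,4,36),(1958,3,3),(1974,1,12),(1990,8,6),(1995,7,49),(2011,6,24),(2016,0,30),(2032,11,56),(2053,2,13),(2058,3,27),(2075,1,32),(2081,8,21),(2098,7,2),(2104,6,59),(2121,0,56),(2127,11,30),(2150,2,54),(2156,18,47),(2173,4,45),(2179,1,49),(2197,8,26),(2204,7,34),(2211,6,28),(2229,0,52),(2236,11,48),(2261,2,29),(2268,18,30),(2286,4,7),(2293,3,8),(2300,4,16),(2319,3,44),(2327,1,11),(2335,8,52),(2343,7,32),(2362,6,46),(2370,0,47),(2378,11,6),(2405,2,18),(2413,18,3),(2421,8,54),(2441,7,53),(2450,6,5),(2459,0,42),(2468,11,3),(2486,2,2),(2506,18,10),(2515,4,55)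,(2524,3,57),(2533,1,43),(2542,0,5),(2552,11,11),(2583,2,17),(2593,18,21),(2603,4,9),(2613,3,59),(2623,1,23),(2633,8,38),(2643,7,42),(2653,6,53),(2679,8,29),(2690,2,34),(2701,7,23),(2712,18,18),(2723,6,39),(2734,4,46),(2745,0,21),(2756,3,51),(2767,11,40),(2778,1,15),(2789,2,27),(2795,7,44),(2812,18,59),(2818,6,0),(2835,4,54),(2841,0,45),(2858,3,32),(2864,11,38),(2881,1,56),(2893,8,55),(2910,6,55),(2922,4,14),(2934,0,48),(2946,3,40),(2958,11,52),(2959,1,0),(2983,8,56),(2995,2,10),(3007,7,22),(3019,18,44),(3031,3,49),(3038,11,53),(3056,1,52),(3070,8,46),(3088,2,8),(3095,7,3),(3102,18,28),(3120,6,11),(3127,4,29),(3145,0,7),(3152,4,38),(3165,0,28),(3178,3,35),(3180,11,22),(3193,1,19),(3219,8,9),(3232,2,39),(3234,7,52),(3247,18,1),(3260,6,34),(3273,0,16),(3281,3,11),(3289,11,19),(3308,1,47),(3324,8,27),(3343,2,44),(3351,7,36),(3359,18,46),(3367,6,14),(3386,4,18),(3394,11,10),(3408,1,37),(3425,8,1),(3439,2,26),(3453,7,29),(3456,18,6),(3470,6,35),(3484,4,33),(3487,0,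4),(3501,3,24),(3515,7,48),(3524,18,5),(3533,6,22),(3542,4,2),(3562,0,55),(3571,3,43),(3580,11,34),(3589,1,42),(3618,8,25),(3627,2,57),(3636,18,37),(3651,6,42),(3655,4,50),(3670,0,53),(3674,3,1),(3689,11,7),(3704,1,25),(3723,8,22),(3738,2,20),(3742,7,5),(3757,1,5),(3777,8,43),(3787,2,59),(3797,7,51),(3807,18,53),(3817,6,54),(3838,4,17),(3848,0,9),(3858,3,23),(3868,11,33),(3878,8,8),(3883,2,3),(3899,7,14),(3915,18,24),(3920,6,16),(3936,4,13),(3941,0,36),(3957,3,12),(3962,11,1),(3978,1,30),(4008,3,21),(4019,6,52),(4030,2,15),(4041,1,46),(4052,0,34),(4063,18,32),(4074,8,11),(4085,11,55),(4096,4,51),(4107,7,28),(4118,7,57),(4137,3,53),(4152,6,31),(4167,2,25),(4171,1,50),(4186,0,20),(4201,18,38),(4205,8,33),(4220,11,15),(4224,4,1),(4239,3,16),(4247,6,45),(4266,2,47),(4274,1,18),(4282,0,44),(4290,18,8),(4309,8,51),(4317,11,26),(4325,4,11),(4344,7,0),(4360,8,47),(4372,11,4),(4384,4,40),(4396,7,43),(4420,3,48),(4432,6,27),(4433,2,0),(4445,1,14),(4457,0,10),(4469,18,36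),(4481,11,42),(4497,4,12),(4502,7,11),(4523,3,36),(4539,6,7),(4544,2,30),(4560,1,13),(4565,0,3),(4581,18,41),(4597,8,4),(4602,6,20),(4611,2,42),(4620,1,2),(4640,0,57),(4649,18,56),(4658,8,17),(4667,11,18),(4676,4,43),(4696,7,31),(4714,3,55),(4723,1,38),(4736,0,39),(4749,18,26),(4762,8,53),(4764,11,12),(4777,4,35),(4790,7,21),(4816,3,28),(4818,6,23),(4831,2,19),(4844,0,27),(4861,18,51),(4867,8,5),(4873,11,29),(4890,4,32),(4896,7,10),(4919,3,45),(4936,6,43),(4942,2,56),(4959,1,54),(4965,2,5),(4975,1,17),(4985,0,59),(4995,18,19),(5005,8,20),(5026,11,49),(5036,4,23),(5046,7,56),(5066,3,9),(5076,6,2),(5086,18,13),(5100,8,31),(5114,11,44),(5117,4,24),(5131,7,38),(5148,3,4),(5162,6,50),(5176,2,37),(5190,1,33),(5193,0,26),(5207,4,49),(5214,7,18),(5239,3,7),(5257,6,15),(5264,2,52),(5271,1,29),(5289,0,8),(5296,18,4),(5303,8,39),(5321,11,31),(5338,4,34),(5349,8,59),(5360,0,46),(5371,2,51),(5382,3,15),(5393,7,47),(5404,11,37),(5415,18,39),(5426,1,21),(5437,6,32),(5448,6,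13),(5476,4,26),(5479,8,7),(5493,0,33),(5507,2,24),(5521,3,37),(5524,7,41),(5538,11,9),(5552,18,35),(5555,1,4),(5569,4,27),(5586,8,18),(5592,0,54),(5609,2,32),(5615,3,56),(5621,7,9),(5638,11,41),(5644,18,0),(5661,1,45),(5667,6,51),(5690,11,24),(5699,18,22),(5719,1,55),(5728,6,56),(5746,4,57),(5755,8,0),(5764,0,2),(5784,2,43),(5793,3,42),(5802,7,59),(5811,18,55),(5823,1,48),(5835,6,36),(5859,4,10),(5871,8,41),(5883,0,14),(5895,2,40),(5896,3,0),(5908,7,16),(5920,11,17),(5932,8,23),(5947,0,50),(5951,2,1),(5966,3,25),(5981,7,26),(5985,11,0),(6000,18,42),(6015,1,53),(6019,6,38),(6049,4,20),(6053,2,49),(6071,3,52),(6078,7,35),(6085,11,27),(6103,18,11),(6110,1,7),(6117,6,4),(6142,4,8),(6149,8,13),(6167,0,29),(6174,3,5),(6184,7,1),(6194,11,14),(6204,18,54),(6225,1,9),(6235,6,19),(6255,4,59),(6265,8,34),(6275,0,17),(6285,2,23),(6295,0,38),(6308,2,35),(6321,3,19),(6334,7,50),(6336,11,45),(6349,18,34),(6362,1,28),(6375,6,26),(6401,4,39),(6403,8,49),(6416,7,33),(6432,11,5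1),(6437,18,16),(6453,1,36),(6458,6,41),(6479,4,3),(6495,8,48),(6511,0,13),(6516,2,12),(6532,3,30),(6537,1,16),(6545,6,8),(6572,4,44),(6580,8,30),(6599,0,18),(6607,2,11),(6615,3,47),(6623,7,15),(6642,11,57),(6650,18,14),(6675,0,51),(6686,7,54),(6697,1,34),(6708,4,15),(6719,2,21),(6730,11,13),(6741,6,9),(6752,8,19),(6763,3,46),(6774,18,52),(6785,18,20),(6803,0,43),(6812,7,27),(6821,1,57),(6841,4,42),(6850,2,55),(6859,11,35),(6868,6,10),(6877,8,58),(6886,3,2),(6906,0,49),(6913,7,24),(6920,1,8),(6938,4,52),(6945,2,7),(6952,11,59),(6970,6,30),(6977,8,16),(6995,3,29),(7002,18,15),(7027,6,40),(7032,8,44),(7048,3,13),(7053,18,7),(7074,0,12),(7090,7,58),(7095,1,3),(7111,4,30),(7127,2,36),(7132,11,39),(7148,8,28),(7151,3,33),(7165,18,50),(7193,0,24),(7196,7,30),(7210,1,26),(7224,4,37),(7227,2,4),(7241,11,2),(7255,6,49),(7269,7,12),(7281,1,10),(7282,4,0),(7294,2,48),(7306,11,21),(7318,6,58),(7330,8,57),(7342,3,14),(7354,18,27),(7378,0,40),(7390,4,5),(7400,2,9),(7410,11,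58),(7420,6,21),(7430,8,32),(7440,3,17),(7450,18,2),(7470,0,23),(7480,7,39),(7501,1,59),(7511,2,16),(7519,11,5),(7527,6,3),(7535,8,40),(7554,3,18),(7562,18,45),(7589,0,11),(7597,7,7),(7605,1,44),(7613,4,47),(7632,1,27),(7638,4,56),(7655,2,45),(7661,11,25),(7667,6,47),(7684,8,14),(7690,3,54),(7707,18,43),(7730,0,32),(7736,7,46),(7753,11,36),(7757,6,17),(7772,8,2),(7787,3,50),(7791,18,31),(7810,0,1),(7825,7,19),(7840,1,20),(7844,4,25),(7859,2,53),(7874,3,38),(7876,18,23),(7902,0,35),(7915,7,4),(7928,1,39),(7941,4,19),(7943,2,28),(7956,11,43),(7969,6,29),(7982,8,15)]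

/-- The double coset check. -/
def okDC : Bool := LG.all fun y => L0.contains y ||
  match cov.lookup y with
  | none => false
  | some (i, j) => L0.contains (L0.getD i 0) && L0.contains (L0.getD j 0) &&
      Nat.beq (nm (mm (mm (L0.getD i 0) x0) (L0.getD j 0))) y

theorem okDC_true : okDC = true := by decide +kernel

theorem x0_notin : (!L0.contains (nm x0) && vd x0) = true := by decide +kernel

theorem pretrans_of_double {G : Type*} [Group G] (H : Subgroup G) (x : G) (hx : x ∉ H)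
    (h : ∀ g, g ∉ H → ∃ a ∈ H, ∃ b ∈ H, g = a * x * b) : MulAction.IsMultiplyPretransitive G (G ⧸ H) 2 := by
  have hb : ((1 : G) : G ⧸ H) ≠ ((x : G) : G ⧸ H) := by
    intro he
    rw [QuotientGroup.eq] at he
    apply hx
    simpa using he
  let b0 : Fin 2 ↪ G ⧸ H := ⟨![((1 : G) : G ⧸ H), ((x : G) : G ⧸ H)], by
    intro i j hij
    fin_cases i <;> fin_cases j
    · rfl
    · exact absurd hij hb
    · exact absurd hij.symm hb
    · rfl⟩
  have key : ∀ v : Fin 2 ↪ G ⧸ H, ∃ g : G, g • b0 = v := by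
    intro v
    obtain ⟨a, ha⟩ := QuotientGroup.mk_surjective (v 0)
    obtain ⟨b, hb'⟩ := QuotientGroup.mk_surjective (v 1)
    have hne : a⁻¹ * b ∉ H := by
      intro hm
      have : ((a : G) : G ⧸ H) = ((b : G) : G ⧸ H) := QuotientGroup.eq.mpr hm
      rw [ha, hb'] at this
      exact absurd (v.injective this) (by decide)
    obtain ⟨c, hc, d, hd, he⟩ := h _ hne
    refine ⟨a * c, ?_⟩
    apply Function.Embedding.ext
    intro i
    fin_cases i
    · show (a * c) • ((1 : G) : G ⧸ H) = v 0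
      rw [← ha]
      show (((a * c * 1 : G)) : G ⧸ H) = (a : G ⧸ H)
      rw [QuotientGroup.eq]
      simpa [mul_assoc] using inv_mem hc
    · show (a * c) • ((x : G) : G ⧸ H) = v 1
      rw [← hb']
      show (((a * c * x : G)) : G ⧸ H) = (b : G ⧸ H)
      rw [QuotientGroup.eq]
      have : b = a * (c * x * d) := by rw [← he]; group
      rw [this]
      have h5 : (a * c * x)⁻¹ * (a * (c * x * d)) = d := by group
      rw [h5]
      exact hd
  refine ⟨fun v w => ?_⟩
  obtain ⟨g, rfl⟩ := key v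
  obtain ⟨g', rfl⟩ := key w
  exact ⟨g' * g⁻¹, by rw [smul_smul, inv_mul_cancel_right]⟩

theorem L0_vd : ∀ y ∈ L0, vd y = true := by decide +kernel

theorem L0_nm : ∀ y ∈ L0, nm y = y := by decide +kernel

section gen4

variable {G : Type*} [Group G] {π : SLZ →* G}

theorem pretrans_HH (P : Pres π) : MulAction.IsMultiplyPretransitive G (G ⧸ HH P tab0) 2 := by
  have hx0 : vd x0 = true := by decide +kernel
  apply pretrans_of_double (HH P tab0) (gl π x0)
  · rw [mem_HH P tab0 hx0]
    decide +kernel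
  · intro g hg
    obtain ⟨y, hy, rfl⟩ := exists_LG P g
    have hv := LG_vd y hy
    have h1 := List.all_eq_true.mp okDC_true y hy
    rw [mem_HH P tab0 hv.1, hv.2] at hg
    rw [Bool.or_eq_true] at h1
    rcases h1 with h1 | h1
    · exact absurd (List.contains_iff_mem.mp h1) hg
    · split at h1
      · exact absurd h1 (by simp)
      · rename_i i j _
        simp only [Bool.and_eq_true] at h1
        obtain ⟨⟨h2, h3⟩, h4⟩ := h1
        have h2' := List.contains_iff_mem.mp h2
        have h3' := List.contains_iff_mem.mp h3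
        have v2 : vd (L0.getD i 0) = true := L0_vd _ h2'
        have v3 : vd (L0.getD j 0) = true := L0_vd _ h3'
        have n2 : nm (L0.getD i 0) = L0.getD i 0 := L0_nm _ h2'
        have n3 : nm (L0.getD j 0) = L0.getD j 0 := L0_nm _ h3'
        refine ⟨gl π (L0.getD i 0), (mem_HH P tab0 v2).mpr (by rw [n2]; exact h2'), gl π (L0.getD j 0),
          (mem_HH P tab0 v3).mpr (by rw [n3]; exact h3'), ?_⟩
        rw [gl_mul v2 hx0, gl_mul (vd_mm v2 hx0) v3, gl_eq_iff P hv.1 (vd_mm (vd_mm v2 hx0) v3), hv.2]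
        exact (Nat.eq_of_beq_eq_true h4).symm

end gen4

/-- The statement, for any quotient. -/
theorem main2542' {G : Type*} [Group G] {π : SLZ →* G} (P : Pres π) :
    ∃ H : Subgroup G, H.index = 11 ∧ Nonempty (H ≃* alternatingGroup (Fin 5)) ∧
      MulAction.IsMultiplyPretransitive G (G ⧸ H) 2 :=
  ⟨HH P tab0, index_HH P tab0, HH_equiv P tab0, pretrans_HH P⟩

/-- The projection, for an abstract field. -/
noncomputable def proj {F : Type*} [Field F] (e : ZMod 11 ≃+* F) : SLZ →* Matrix.ProjectiveSpecialLinearGroup (Fin 2) F :=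
  (QuotientGroup.mk' _).comp (Matrix.SpecialLinearGroup.map (e : ZMod 11 →+* F))

theorem mO_coe : (mO.1 : Matrix (Fin 2) (Fin 2) (ZMod 11)) = (10 : ZMod 11) • (1 : Matrix (Fin 2) (Fin 2) (ZMod 11)) := by
  ext i j
  fin_cases i <;> fin_cases j <;> decide

theorem mO_comm (X : SLZ) : X * mO = mO * X := by
  apply Subtype.ext
  show X.1 * mO.1 = mO.1 * X.1
  rw [mO_coe, Matrix.mul_smul, Matrix.smul_mul, Matrix.mul_one, Matrix.one_mul]

theorem mO_map {F : Type*} [Field F] (e : ZMod 11 ≃+* F) (i j : Fin 2) :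
    e (mO.1 i j) = (Matrix.scalar (Fin 2) (-1 : F)) i j := by
  have h10 : e (10 : ZMod 11) = -1 := by
    have : (10 : ZMod 11) = -1 := by decide
    rw [this, map_neg, map_one]
  fin_cases i <;> fin_cases j
  · show e 10 = (Matrix.scalar (Fin 2) (-1 : F)) 0 0
    rw [h10]; simp
  · show e 0 = (Matrix.scalar (Fin 2) (-1 : F)) 0 1
    rw [map_zero]; simp
  · show e 0 = (Matrix.scalar (Fin 2) (-1 : F)) 1 0
    rw [map_zero]; simp
  · show e 10 = (Matrix.scalar (Fin 2) (-1 : F)) 1 1
    rw [h10]; simp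

theorem pres_proj {F : Type*} [Field F] (e : ZMod 11 ≃+* F) : Pres (proj e) := by
  constructor
  · intro g
    obtain ⟨M, rfl⟩ := QuotientGroup.mk'_surjective _ g
    refine ⟨Matrix.SpecialLinearGroup.map (e.symm : F →+* ZMod 11) M, ?_⟩
    show ((Matrix.SpecialLinearGroup.map (e : ZMod 11 →+* F) (Matrix.SpecialLinearGroup.map (e.symm : F →+* ZMod 11) M) : Matrix.SpecialLinearGroup (Fin 2) F) : Matrix.ProjectiveSpecialLinearGroup (Fin 2) F) = _
    congr 1
    ext i j
    exact e.apply_symm_apply _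
  · intro A B
    constructor
    · intro h
      have h1 := QuotientGroup.eq.mp h
      rw [Matrix.SpecialLinearGroup.mem_center_iff] at h1
      obtain ⟨r, hr, hs⟩ := h1
      have hr2 : r = 1 ∨ r = -1 := by
        have : (r - 1) * (r + 1) = 0 := by
          have : r ^ Fintype.card (Fin 2) = r ^ 2 := by simp
          rw [this] at hr
          linear_combination hr
        rcases mul_eq_zero.mp this with h2 | h2
        · left; linear_combination h2
        · right; linear_combination h2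
      have h3 : ∀ i j, (e ((A⁻¹ * B).1 i j)) = (Matrix.scalar (Fin 2) r) i j := by
        intro i j
        rw [hs, ← map_inv, ← map_mul]
        rfl
      rcases hr2 with rfl | rfl
      · left
        have h4 : A⁻¹ * B = 1 := by
          apply Subtype.ext
          ext i j
          apply e.injective
          rw [h3]
          fin_cases i <;> fin_cases j <;> simp [Matrix.scalar_apply, Matrix.one_apply]
        exact (inv_mul_eq_one.mp h4)
      · right
        have h4 : A⁻¹ * B = mO := by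
          apply Subtype.ext
          ext i j
          apply e.injective
          rw [h3]
          exact (mO_map e i j).symm
        have h5 : B = A * mO := by rw [← h4]; group
        rw [h5, mO_comm]
    · rintro (rfl | rfl)
      · rfl
      · apply QuotientGroup.eq.mpr
        rw [Matrix.SpecialLinearGroup.mem_center_iff]
        refine ⟨-1, by simp, ?_⟩
        have h7 : ∀ X : SLZ, X⁻¹ * (mO * X) = mO := by
          intro X
          rw [← mO_comm, inv_mul_cancel_left]
        show Matrix.scalar (Fin 2) (-1 : F) = ((Matrix.SpecialLinearGroup.map (e : ZMod 11 →+* F) A)⁻¹ * Matrix.SpecialLinearGroup.map (e : ZMod 11 →+* F) (mO * A) : Matrix.SpecialLinearGroup (Fin 2) F).1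
        rw [← map_inv, ← map_mul, h7]
        ext i j
        exact (mO_map e i j).symm

/-- The field. -/
noncomputable def fe {F : Type*} [Field F] [Fintype F] (hF : Fintype.card F = 11) : ZMod 11 ≃+* F :=
  ZMod.ringEquivOfPrime F (by norm_num) hF

theorem main2542 {F : Type*} [Field F] [Fintype F] (hF : Fintype.card F = 11) :
    ∃ H : Subgroup (Matrix.ProjectiveSpecialLinearGroup (Fin 2) F), H.index = 11 ∧ Nonempty (H ≃* alternatingGroup (Fin 5)) ∧
      MulAction.IsMultiplyPretransitive (Matrix.ProjectiveSpecialLinearGroup (Fin 2) F) ((Matrix.ProjectiveSpecialLinearGroup (Fin 2) F) ⧸ H) 2 :=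
  main2542' (pres_proj (fe hF))

end Cfsg.Agent.Lib.PSL211
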