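import Mathlib
import Cfsg.Agent.Lib.PSL211

/-!
# `PSL₂(11)` has exactly `22` subgroups `A₅`
-/

set_option autoImplicit false
set_option maxHeartbeats 1000000
set_option maxRecDepth 100000
set_option linter.style.haveILetI false
set_option linter.constructorNameAsVariable false

open scoped Pointwise

namespace Cfsg.Agent.Lib.PSL211b

open Cfsg.Agent.Lib.PSL211

/-- Conjugators with their inverses. -/
def Rl : List (ℕ × ℕ) := [(231,231),(232,2552),(233,3883),(234,5214),(235,6545),(236,7876),(237,6886),(238,5555),(239,4224),(240,2893),(241,1562),(231,231),(232,2552),(233,3883),(234,5214),(235,6545),(236,7876),(237,6886),(238,5555),(239,4224),(240,2893),(241,1562)]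

/-- Which list. -/
def jL (p : ℕ) : List ℕ := if p < 11 then L0 else L1

/-- Membership in the `p`-th subgroup. -/
def inK (p y : ℕ) : Bool :=
  (jL p).contains (nm (mm (mm (Rl.getD p (0, 0)).2 y) (Rl.getD p (0, 0)).1))

/-- The code of the identity in normal form. -/
def nci : ℕ := nm ci

theorem Rl_ok : (List.range 22).all (fun p => vd (Rl.getD p (0, 0)).1 && vd (Rl.getD p (0, 0)).2 &&
    Nat.beq (nm (mm (Rl.getD p (0, 0)).1 (Rl.getD p (0, 0)).2)) nci) = true := by decide +kernel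

/-- Involutions and the subgroups containing them. -/
def IP : List (ℕ × List ℕ) := [(231,[0,3,10,11,12,19]),(297,[0,4,6,11,16,18]),(440,[0,1,7,11,15,21]),(572,[0,8,9,11,13,14]),(627,[0,2,5,11,17,20]),(1561,[2,9,10,11,18,21]),(1693,[0,5,9,12,16,21]),(1737,[3,7,8,11,17,18]),(1880,[5,6,8,11,19,21]),(1990,[2,4,7,11,13,19]),(2144,[0,3,9,15,18,20]),(2254,[0,1,3,14,16,17]),(2397,[0,4,5,14,15,19]),(2441,[1,6,10,11,13,17]),(2573,[0,1,4,12,13,20]),(2858,[1,8,9,17,20,21]),(2946,[3,5,10,15,17,21]),(3056,[3,4,10,13,14,18]),(3232,[2,3,5,16,18,19]),(3386,[4,6,9,13,15,21]),(3408,[1,7,9,13,16,18]),(3562,[3,4,6,17,19,20]),(3738,[4,8,9,12,18,19]),(3848,[1,5,7,12,17,19]),(3936,[1,2,5,13,14,21]),(4133,[0,7,8,16,19,20]),(4309,[4,8,10,11,15,20]),(4408,[0,6,10,14,20,21]),(4518,[0,2,10,13,15,16]),(4705,[0,6,8,12,15,17]),(4749,[5,7,10,11,14,16]),(4936,[6,7,9,11,12,20]),(5046,[1,2,8,11,12,16]),(5145,[0,2,7,12,14,18]),(5321,[2,3,6,11,14,15]),(5507,[6,7,10,15,18,19]),(5661,[2,4,9,14,16,20]),(5793,[2,6,7,16,17,21]),(5859,[7,8,10,12,13,21]),(5947,[2,8,10,14,17,19]),(6167,[3,5,8,12,14,20]),(6255,[1,9,10,12,14,15]),(6321,[1,5,6,15,16,20]),(6453,[2,6,8,13,18,20]),(6607,[3,4,7,12,15,16]),(6859,[5,6,9,14,17,18]),(7002,[3,7,9,14,19,21]),(7090,[2,3,9,12,13,17]),(7255,[4,5,7,18,20,21]),(7354,[1,4,10,16,19,21]),(7420,[1,3,6,12,18,21]),(7519,[1,2,4,15,17,18]),(7684,[5,9,10,13,19,20]),(7772,[1,3,8,13,15,19]),(7915,[4,5,8,13,16,17])]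

/-- Elements of order three. -/
def Ord3 : List ℕ := [232,241,298,307,441,450,573,582,628,637,1549,1562,1626,1628,1771,1813,1846,1903,1958,2011,2121,2156,2211,2286,2319,2343,2486,2506,2552,2583,2835,2881,2934,2958,3088,3145,3165,3178,3308,3343,3453,3484,3618,3627,3651,3704,3838,3858,3915,3957,4167,4220,4266,4352,4396,4420,4497,4539,4640,4649,4803,4816,4913,4959,5036,5056,5100,5190,5232,5289,5462,5552,5638,5684,5728,5737,5847,5871,5981,6034,6078,6135,6245,6265,6375,6388,6432,6474,6564,6650,6794,6803,6913,6970,7069,7111,7179,7210,7342,7366,7410,7430,7562,7597,7661,7707,7806,7859,7969,7982]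

/-- Is it an involution? -/
def isInv (u : ℕ) : Bool := Nat.beq (nm (mm u u)) nci && !Nat.beq u nci

/-- Order three? -/
def isThird (v : ℕ) : Bool := Nat.beq (nm (mm (mm v v) v)) nci && !Nat.beq v nci

/-- Order five of the product? -/
def fiveP (u v : ℕ) : Bool :=
  Nat.beq (nm (mm (mm (mm (nm (mm u v)) (nm (mm u v))) (mm (nm (mm u v)) (nm (mm u v)))) (nm (mm u v)))) nci

theorem IP_cov : LG.all (fun u => !isInv u || (IP.map Prod.fst).contains u) = true := by decide +kernel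

theorem Ord3_cov : LG.all (fun v => !isThird v || Ord3.contains v) = true := by decide +kernel

theorem okPairs : IP.all (fun r => Ord3.all (fun v => !fiveP r.1 v ||
    r.2.any (fun p => Nat.blt p 22 && inK p r.1 && inK p v))) = true := by decide +kernel

/-- Distinctness. -/
theorem okDist : (List.range 22).all (fun p => (List.range 22).all (fun q => Nat.beq p q ||
    LG.any (fun y => inK p y != inK q y))) = true := by decide +kernel

/-- Non-conjugacy. -/
theorem okNC : LG.all (fun w => L0.any (fun h => L1.all (fun h' => !Nat.beq (nm (mm w h)) (nm (mm h' w))))) = true := by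
  decide +kernel

/-- The generators of `A₅`. -/
def pa : Equiv.Perm (Fin 5) := ⟨![0,2,1,4,3], ![0,2,1,4,3], by decide, by decide⟩

/-- The generators of `A₅`. -/
def pb : Equiv.Perm (Fin 5) := ⟨![1,3,2,0,4], ![3,0,2,1,4], by decide, by decide⟩

/-- A generator. -/
def gp (n : ℕ) : Equiv.Perm (Fin 5) := if n = 0 then pa else pb

/-- Words. -/
def wd : List (ℕ × List ℕ) := [(430,[]),(580,[0,1,0,1,0,1,1]),(355,[1,1,0,1,0,1]),(535,[0]),(210,[0,1,1,0,1,0,1]),(485,[1,0,1,0,1,1]),(290,[0,1,0,1,0,1,1,0]),(565,[0,1,0,1,1,0,1,1]),(240,[0,1,0,1,1,0,1,0,1,1,0,1]),(420,[1,0,1,1,0,1,1]),(195,[1,0,1,0,1,1,0]),(345,[1,0,1,1,0,1,0,1,1,0,1]),(551,[1,0,1,0,1,1,0,1,1]),(326,[0,1,1,0,1,0]),(476,[0,1,0,1,1,0,1,0,1,1,0]),(386,[1,0,1,1,0,1,0,1]),(586,[1,0]),(111,[1,1,0,1,0,1,1]),(516,[0,1,1,0,1]),(66,[1]),(366,[0,1,0,1]),(271,[0,1,0,1,1,0,1,0,1,1]),(446,[1,1,0,1,0,1,1,0]),(96,[0,1,0,1,0]),(402,[0,1,0,1,0,1,1,0,1,1]),(577,[1,0,1,1,0,1,0,1,1,0]),(227,[1,1,0,1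,0]),(507,[0,1,0,1,1,0,1,0,1]),(82,[0,1,1,0,1,0,1,1]),(482,[0,1,0]),(142,[1,0,1,1,0,1,0,1,1]),(542,[0,1,1,0,1,0,1,1,0]),(117,[1,0,1,0]),(397,[1,1,0,1]),(47,[0,1]),(222,[1,0,1]),(528,[1,0,1,1,0,1]),(178,[1,1]),(353,[1,0,1,0,1]),(258,[1,0,1,1,0,1,0]),(558,[0,1,0,1,0,1,1,0,1,0]),(108,[0,1,1,0,1,0,1,1,0,1,0]),(513,[1,1,0]),(38,[0,1,0,1,0,1,1,0,1]),(238,[0,1,0,1,1]),(148,[0,1,1,0,1,1]),(298,[0,1,1,0,1,0,1,1,0,1]),(73,[0,1,0,1,1,0]),(279,[0,1,1]),(429,[0,1,0,1,1,0,1]),(204,[0,1,0,1,0,1]),(384,[0,1,1,0]),(59,[1,0,1,0,1,1,0,1]),(334,[1,0,1,1]),(139,[0,1,0,1,1,0,1,0]),(414,[1,0,1,0,1,1,0,1,0]),(89,[1,1,0,1,0,1,1,0,1,0]),(269,[1,1,0,1,1]),(44,[1,0,1,1,0]),(194,[1,1,0,1,0,1,1,0,1])]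

theorem words_ok : ∀ σ : Equiv.Perm (Fin 5), Equiv.Perm.sign σ = 1 → ((((wd.lookup (pc σ)).getD []).map gp).prod) = σ := by
  decide +kernel

theorem pa_even : Equiv.Perm.sign pa = 1 := by decide +kernel
theorem pb_even : Equiv.Perm.sign pb = 1 := by decide +kernel
theorem pa_rel : pa * pa = 1 := by decide +kernel
theorem pb_rel : pb * pb * pb = 1 := by decide +kernel
theorem pab_rel : (pa * pb) * (pa * pb) * ((pa * pb) * (pa * pb)) * (pa * pb) = 1 := by decide +kernel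
theorem pa_ne : pa ≠ 1 := by decide +kernel
theorem pb_ne : pb ≠ 1 := by decide +kernel

theorem beq_of_eq_h9 {a b : ℕ} (h : a = b) : Nat.beq a b = true := by
  rw [h]
  exact Nat.beq_refl b

theorem mem_conj_iff {G : Type*} [Group G] (g x : G) (H : Subgroup G) : x ∈ MulAut.conj g • H ↔ g⁻¹ * x * g ∈ H := by
  rw [Subgroup.mem_pointwise_smul_iff_inv_smul_mem, MulAut.smul_def, MulAut.conj_inv_apply]

theorem conj_conj {G : Type*} [Group G] (g : G) (H : Subgroup G) : MulAut.conj g⁻¹ • (MulAut.conj g • H) = H := by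
  rw [smul_smul, ← map_mul, inv_mul_cancel, map_one, one_smul]

section gen

variable {G : Type*} [Group G] {π : SLZ →* G}

theorem gl_ci : gl π ci = 1 := by
  unfold gl
  have : dec ci = 1 := by rw [← cd_one, dec_cd]
  rw [this, map_one]

theorem gl_eq_one (P : Pres π) {x : ℕ} (hx : vd x = true) : gl π x = 1 ↔ nm x = nci := by
  rw [← gl_ci (π := π), gl_eq_iff P hx vd_ci]
  rfl

theorem mem_conj_gl (P : Pres π) {t : List (ℕ × ℕ)} {L : List ℕ} (h : Tab t L) {g g' y : ℕ} (hg : vd g = true)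
    (hg' : vd g' = true) (he : nm (mm g g') = nci) (hy : vd y = true) :
    gl π y ∈ MulAut.conj (gl π g) • HH P h ↔ L.contains (nm (mm (mm g' y) g)) = true := by
  have h1 : (gl π g)⁻¹ = gl π g' := by
    apply inv_eq_of_mul_eq_one_right
    rw [gl_mul hg hg', gl_eq_one P (vd_mm hg hg')]
    exact he
  rw [mem_conj_iff, h1, gl_mul hg' hy, gl_mul (vd_mm hg' hy) hg, mem_HH P h (vd_mm (vd_mm hg' hy) hg),
    List.contains_iff_mem]

/-- The subgroups. -/
noncomputable def KK (P : Pres π) (p : ℕ) : Subgroup G :=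
  MulAut.conj (gl π (Rl.getD p (0, 0)).1) • (if p < 11 then HH P tab0 else HH P tab1)

theorem Rl_at {p : ℕ} (hp : p < 22) : vd (Rl.getD p (0, 0)).1 = true ∧ vd (Rl.getD p (0, 0)).2 = true ∧
    nm (mm (Rl.getD p (0, 0)).1 (Rl.getD p (0, 0)).2) = nci := by
  have h := List.all_eq_true.mp Rl_ok p (List.mem_range.mpr hp)
  simp only [Bool.and_eq_true] at h
  exact ⟨h.1.1, h.1.2, Nat.eq_of_beq_eq_true h.2⟩

theorem mem_KK (P : Pres π) {p y : ℕ} (hp : p < 22) (hy : vd y = true) : gl π y ∈ KK P p ↔ inK p y = true := by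
  obtain ⟨h1, h2, h3⟩ := Rl_at hp
  unfold KK inK jL
  split_ifs with h
  · exact mem_conj_gl P tab0 h1 h2 h3 hy
  · exact mem_conj_gl P tab1 h1 h2 h3 hy

theorem KK_equiv (P : Pres π) (p : ℕ) : Nonempty (KK P p ≃* alternatingGroup (Fin 5)) := by
  by_cases h : p < 11
  · have e1 : KK P p = MulAut.conj (gl π (Rl.getD p (0, 0)).1) • HH P tab0 := by
      unfold KK
      rw [if_pos h]
    rw [e1]
    obtain ⟨e⟩ := HH_equiv P tab0
    exact ⟨(Subgroup.equivSMul _ _).symm.trans e⟩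
  · have e1 : KK P p = MulAut.conj (gl π (Rl.getD p (0, 0)).1) • HH P tab1 := by
      unfold KK
      rw [if_neg h]
    rw [e1]
    obtain ⟨e⟩ := HH_equiv P tab1
    exact ⟨(Subgroup.equivSMul _ _).symm.trans e⟩

theorem card_KK (P : Pres π) (p : ℕ) : Nat.card (KK P p) = 60 := by
  obtain ⟨e⟩ := KK_equiv P p
  rw [Nat.card_congr e.toEquiv, card_A5]

theorem KK_inj (P : Pres π) {p q : ℕ} (hp : p < 22) (hq : q < 22) (h : KK (π := π) P p = KK P q) : p = q := by
  by_contra hne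
  have h1 := List.all_eq_true.mp (List.all_eq_true.mp okDist p (List.mem_range.mpr hp)) q (List.mem_range.mpr hq)
  rw [Bool.or_eq_true] at h1
  rcases h1 with h1 | h1
  · exact hne (Nat.eq_of_beq_eq_true h1)
  · obtain ⟨y, hy, hd⟩ := List.any_eq_true.mp h1
    have hv := (LG_vd y hy).1
    have h2 := mem_KK P hp hv
    have h3 := mem_KK P hq hv
    rw [h] at h2
    have h4 : inK p y = inK q y := by
      rw [Bool.eq_iff_iff]
      exact h2.symm.trans h3
    rw [h4] at hd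
    simp at hd

theorem code_rel (P : Pres π) {L : Subgroup G} (f : L ≃* alternatingGroup (Fin 5)) :
    ∃ p, p < 22 ∧ L = KK P p := by
  have hGfin : Finite G := Nat.finite_of_card_ne_zero (by rw [card_G P]; norm_num)
  let a : alternatingGroup (Fin 5) := ⟨pa, Equiv.Perm.mem_alternatingGroup.mpr pa_even⟩
  let b : alternatingGroup (Fin 5) := ⟨pb, Equiv.Perm.mem_alternatingGroup.mpr pb_even⟩
  let ψ : alternatingGroup (Fin 5) →* G := L.subtype.comp f.symm.toMonoidHom
  have hψ : Function.Injective ψ := by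
    intro u v huv
    exact f.symm.injective (Subtype.ext huv)
  have ha1 : ψ a * ψ a = 1 := by
    rw [← map_mul]
    have : a * a = 1 := Subtype.ext pa_rel
    rw [this, map_one]
  have hb1 : ψ b * ψ b * ψ b = 1 := by
    rw [← map_mul, ← map_mul]
    have : a * a = 1 := Subtype.ext pa_rel
    have : b * b * b = 1 := Subtype.ext pb_rel
    rw [this, map_one]
  have hab1 : (ψ a * ψ b) * (ψ a * ψ b) * ((ψ a * ψ b) * (ψ a * ψ b)) * (ψ a * ψ b) = 1 := by
    simp only [← map_mul]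
    have : (a * b) * (a * b) * ((a * b) * (a * b)) * (a * b) = 1 := Subtype.ext pab_rel
    rw [this, map_one]
  have ha2 : ψ a ≠ 1 := by
    intro h
    have : a = 1 := hψ (by rw [h, map_one])
    exact pa_ne (congrArg Subtype.val this)
  have hb2 : ψ b ≠ 1 := by
    intro h
    have : b = 1 := hψ (by rw [h, map_one])
    exact pb_ne (congrArg Subtype.val this)
  obtain ⟨u, hu, hu'⟩ := exists_LG P (ψ a)
  obtain ⟨v, hv, hv'⟩ := exists_LG P (ψ b)
  obtain ⟨uv, un⟩ := LG_vd u hu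
  obtain ⟨vv, vn⟩ := LG_vd v hv
  have hi : isInv u = true := by
    unfold isInv
    rw [Bool.and_eq_true]
    constructor
    · apply beq_of_eq_h9
      rw [← gl_eq_one P (vd_mm uv uv), ← gl_mul uv uv, hu', ha1]
    · rw [Bool.not_eq_true']
      by_contra hc
      have hc' : ¬ (Nat.beq u nci = false) := hc
      have hc2 : u = nci := by
        cases hb : Nat.beq u nci
        · exact absurd hb hc'
        · exact Nat.eq_of_beq_eq_true hb
      apply ha2
      rw [← hu', gl_eq_one P uv, un, hc2]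
  have ht : isThird v = true := by
    unfold isThird
    rw [Bool.and_eq_true]
    constructor
    · apply beq_of_eq_h9
      rw [← gl_eq_one P (vd_mm (vd_mm vv vv) vv), ← gl_mul (vd_mm vv vv) vv, ← gl_mul vv vv, hv', hb1]
    · rw [Bool.not_eq_true']
      by_contra hc
      have hc' : ¬ (Nat.beq v nci = false) := hc
      have hc2 : v = nci := by
        cases hb : Nat.beq v nci
        · exact absurd hb hc'
        · exact Nat.eq_of_beq_eq_true hb
      apply hb2
      rw [← hv', gl_eq_one P vv, vn, hc2]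
  have hf : fiveP u v = true := by
    unfold fiveP
    apply beq_of_eq_h9
    have hw : gl π (nm (mm u v)) = ψ a * ψ b := by
      rw [gl_nm P (vd_mm uv vv), ← gl_mul uv vv, hu', hv']
    have vw := vd_nm (vd_mm uv vv)
    rw [← gl_eq_one P (vd_mm (vd_mm (vd_mm vw vw) (vd_mm vw vw)) vw), ← gl_mul (vd_mm (vd_mm vw vw) (vd_mm vw vw)) vw,
      ← gl_mul (vd_mm vw vw) (vd_mm vw vw), ← gl_mul vw vw, hw, hab1]
  have hm1 : u ∈ IP.map Prod.fst := by
    have := List.all_eq_true.mp IP_cov u hu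
    rw [hi] at this
    exact List.contains_iff_mem.mp (by simpa using this)
  have hm2 : v ∈ Ord3 := by
    have := List.all_eq_true.mp Ord3_cov v hv
    rw [ht] at this
    exact List.contains_iff_mem.mp (by simpa using this)
  obtain ⟨r, hr, rfl⟩ := List.mem_map.mp hm1
  have h1 := List.all_eq_true.mp (List.all_eq_true.mp okPairs r hr) v hm2
  rw [hf] at h1
  simp only [Bool.not_true, Bool.false_or] at h1
  obtain ⟨p, -, hp⟩ := List.any_eq_true.mp h1
  simp only [Bool.and_eq_true] at hp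
  obtain ⟨⟨hp1, hp2⟩, hp3⟩ := hp
  have hp22 : p < 22 := lt_of_blt hp1
  refine ⟨p, hp22, ?_⟩
  have hma : ψ a ∈ KK P p := by
    rw [← hu']
    exact (mem_KK P hp22 uv).mpr hp2
  have hmb : ψ b ∈ KK P p := by
    rw [← hv']
    exact (mem_KK P hp22 vv).mpr hp3
  let W : Subgroup (Equiv.Perm (Fin 5)) := ((KK P p).comap ψ).map (alternatingGroup (Fin 5)).subtype
  have hWa : pa ∈ W := ⟨a, hma, rfl⟩
  have hWb : pb ∈ W := ⟨b, hmb, rfl⟩
  have hall : ∀ σ : alternatingGroup (Fin 5), ψ σ ∈ KK P p := by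
    intro σ
    have hσ := Equiv.Perm.mem_alternatingGroup.mp σ.2
    have h2 := words_ok σ.1 hσ
    have h3 : σ.1 ∈ W := by
      rw [← h2]
      apply Subgroup.list_prod_mem
      intro g hg
      obtain ⟨n, -, rfl⟩ := List.mem_map.mp hg
      unfold gp
      split_ifs
      · exact hWa
      · exact hWb
    obtain ⟨τ, hτ, he⟩ := h3
    have : τ = σ := Subtype.ext he
    rw [← this]
    exact hτ
  have hle : L ≤ KK P p := by
    intro z hz
    have := hall (f ⟨z, hz⟩)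
    simpa [ψ] using this
  have h5 : Nat.card L = 60 := by
    rw [Nat.card_congr f.toEquiv, card_A5]
  apply Subgroup.eq_of_le_of_card_ge hle
  rw [card_KK, h5]

theorem main2543' (P : Pres π) :
    Nat.card {H : Subgroup G // Nonempty (H ≃* alternatingGroup (Fin 5))} = 22 ∧
    ∃ H K : Subgroup G, Nonempty (H ≃* alternatingGroup (Fin 5)) ∧ Nonempty (K ≃* alternatingGroup (Fin 5)) ∧
      (∀ g : G, MulAut.conj g • H ≠ K) ∧
      ∀ L : Subgroup G, Nonempty (L ≃* alternatingGroup (Fin 5)) → ∃ g : G, MulAut.conj g • L = H ∨ MulAut.conj g • L = K := by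
  constructor
  · have hb : Function.Bijective (fun p : Fin 22 =>
        (⟨KK P p.val, KK_equiv P p.val⟩ : {H : Subgroup G // Nonempty (H ≃* alternatingGroup (Fin 5))})) := by
      constructor
      · intro p q h
        exact Fin.ext (KK_inj P p.isLt q.isLt (congrArg Subtype.val h))
      · rintro ⟨L, ⟨f⟩⟩
        obtain ⟨p, hp, rfl⟩ := code_rel P f
        exact ⟨⟨p, hp⟩, rfl⟩
    rw [← Nat.card_eq_of_bijective _ hb, Nat.card_eq_fintype_card, Fintype.card_fin]
  · refine ⟨HH P tab0, HH P tab1, HH_equiv P tab0, HH_equiv P tab1, ?_, ?_⟩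
    · intro g h
      obtain ⟨w, hw, rfl⟩ := exists_LG P g
      obtain ⟨wv, -⟩ := LG_vd w hw
      obtain ⟨h0, hh0, hd⟩ := List.any_eq_true.mp (List.all_eq_true.mp okNC w hw)
      have v0 := L0_vd h0 hh0
      have n0 := L0_nm h0 hh0
      have hm0 : gl π h0 ∈ HH P tab0 := (mem_HH P tab0 v0).mpr (by rw [n0]; exact hh0)
      have h1 : gl π w * gl π h0 * (gl π w)⁻¹ ∈ HH P tab1 := by
        rw [← h, mem_conj_iff]
        have : (gl π w)⁻¹ * (gl π w * gl π h0 * (gl π w)⁻¹) * gl π w = gl π h0 := by group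
        rw [this]
        exact hm0
      obtain ⟨y, hy, he⟩ := exists_LG P (gl π w * gl π h0 * (gl π w)⁻¹)
      obtain ⟨yv, yn⟩ := LG_vd y hy
      rw [← he, mem_HH P tab1 yv, yn] at h1
      have h2 := List.all_eq_true.mp hd y h1
      have h3 : gl π (mm w h0) = gl π (mm y w) := by
        rw [← gl_mul wv v0, ← gl_mul yv wv, he]
        group
      have h4 := (gl_eq_iff P (vd_mm wv v0) (vd_mm yv wv)).mp h3
      rw [h4] at h2
      simp at h2
    · rintro L ⟨f⟩
      obtain ⟨p, hp, rfl⟩ := code_rel P f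
      refine ⟨(gl π (Rl.getD p (0, 0)).1)⁻¹, ?_⟩
      unfold KK
      rw [conj_conj]
      split_ifs
      · exact Or.inl rfl
      · exact Or.inr rfl

end gen

theorem main2543 {F : Type*} [Field F] [Fintype F] (hF : Fintype.card F = 11) :
    Nat.card {H : Subgroup (Matrix.ProjectiveSpecialLinearGroup (Fin 2) F) // Nonempty (H ≃* alternatingGroup (Fin 5))} = 22 ∧
    ∃ H K : Subgroup (Matrix.ProjectiveSpecialLinearGroup (Fin 2) F), Nonempty (H ≃* alternatingGroup (Fin 5)) ∧ Nonempty (K ≃* alternatingGroup (Fin 5)) ∧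
      (∀ g : Matrix.ProjectiveSpecialLinearGroup (Fin 2) F, MulAut.conj g • H ≠ K) ∧
      ∀ L : Subgroup (Matrix.ProjectiveSpecialLinearGroup (Fin 2) F), Nonempty (L ≃* alternatingGroup (Fin 5)) →
        ∃ g : Matrix.ProjectiveSpecialLinearGroup (Fin 2) F, MulAut.conj g • L = H ∨ MulAut.conj g • L = K :=
  main2543' (pres_proj (fe hF))

end Cfsg.Agent.Lib.PSL211b
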