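/-
Counting the Klein four-subgroups of `PSL₂(q)`, `q` odd.
-/
import Mathlib
import Cfsg.Agent.Lib.PSL2Inv

set_option autoImplicit false
set_option linter.all false

open scoped MatrixGroups Matrix
open Finset
open Cfsg.Agent.Lib.MkSL Cfsg.Agent.Lib.GL2Conj Cfsg.Agent.Lib.PSL2Inv

namespace Cfsg.Agent.Lib.PSL2V4

variable {F : Type*} [Field F]

theorem sq_of_anti (h2 : (2 : F) ≠ 0) {a b : SL(2, F)} (h : a * b = mO * (b * a)) : b * b = mO := by
  rw [sq_eq_mO_iff h2]
  have e : IsConj b (mO * b) := by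
    refine isConj_iff.2 ⟨a, ?_⟩
    rw [h, mul_assoc, mul_assoc, mul_inv_cancel, mul_one]
  have h1 := tr_of_isConj e
  have h3 : (mO * b : SL(2, F)) 0 0 = - b 0 0 := by simp [mO, mul_ij]
  have h4 : (mO * b : SL(2, F)) 1 1 = - b 1 1 := by simp [mO, mul_ij]
  rw [h3, h4] at h1
  have h5 : (2 : F) * (b 0 0 + b 1 1) = 0 := by linear_combination -h1
  exact (mul_eq_zero.1 h5).resolve_left h2

section Finite

variable [Fintype F] (hodd : Odd (Fintype.card F))

include hodd in
theorem exists_anti {a : SL(2, F)} (ha : a * a = mO) : ∃ t : SL(2, F), a * t = mO * (t * a) := by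
  have hinv : a⁻¹ * a⁻¹ = mO := by
    rw [← mul_inv_rev, ha]
    exact inv_eq_of_mul_eq_one_left mO_mul_mO
  obtain ⟨t, ht⟩ := isConj_iff.1 (isConj_of_sq hodd ha hinv)
  refine ⟨t, ?_⟩
  rw [inv_eq_of_sq ha] at ht
  have h1 : t * a = mO * a * t := by
    rw [← ht]
    group
  rw [h1, ← mul_assoc, ← mul_assoc, mO_mul_mO, one_mul]

include hodd in
theorem card_anti {a : SL(2, F)} (ha : a * a = mO) :
    Nat.card {b : SL(2, F) // a * b = mO * (b * a)} = Nat.card (Subgroup.centralizer ({a} : Set (SL(2, F)))) := by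
  obtain ⟨t, ht⟩ := exists_anti hodd ha
  refine Nat.card_congr ⟨fun b => ⟨t⁻¹ * b.1, ?_⟩, fun c => ⟨t * c.1, ?_⟩, ?_, ?_⟩
  · rw [Subgroup.mem_centralizer_singleton_iff]
    apply mul_left_cancel (a := mO * t)
    have hb := b.2
    calc mO * t * (t⁻¹ * b.1 * a) = mO * (b.1 * a) := by group
      _ = a * b.1 := hb.symm
      _ = (a * t) * (t⁻¹ * b.1) := by group
      _ = mO * (t * a) * (t⁻¹ * b.1) := by rw [ht]
      _ = mO * t * (a * (t⁻¹ * b.1)) := by group
  · have hc := Subgroup.mem_centralizer_singleton_iff.1 c.2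
    calc a * (t * c.1) = (a * t) * c.1 := by group
      _ = mO * (t * a) * c.1 := by rw [ht]
      _ = mO * t * (a * c.1) := by group
      _ = mO * t * (c.1 * a) := by rw [hc]
      _ = mO * (t * c.1 * a) := by group
  · intro b
    apply Subtype.ext
    simp
  · intro c
    apply Subtype.ext
    simp

/-- Pairs of anticommuting elements of square `-1`. -/
def TT (F : Type*) [Field F] := {p : SL(2, F) × SL(2, F) // p.1 * p.1 = mO ∧ p.2 * p.2 = mO ∧ p.1 * p.2 = mO * (p.2 * p.1)}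

instance : Finite (TT F) := by
  unfold TT
  infer_instance

include hodd in
theorem card_TT : Nat.card (TT F) = Nat.card (SL(2, F)) := by
  have h2 := two_ne_zero_of_odd hodd
  let w : {b : SL(2, F) // b * b = mO} := ⟨wS, wS_sq h2⟩
  haveI : Nonempty {b : SL(2, F) // b * b = mO} := ⟨w⟩
  have hk : ∀ s : {b : SL(2, F) // b * b = mO},
      Nat.card (Subgroup.centralizer ({s.1} : Set (SL(2, F)))) =
        Nat.card (Subgroup.centralizer ({wS} : Set (SL(2, F)))) := by
    intro s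
    apply Nat.eq_of_mul_eq_mul_left (Nat.card_pos (α := {b : SL(2, F) // b * b = mO}))
    rw [card_sq_mul_centralizer hodd s.2, card_sq_mul_centralizer hodd (wS_sq h2)]
  have key := Cfsg.Agent.Lib.SylowCount.card_eq_mul_of_fibers
    (fun p : TT F => (⟨p.1.1, p.2.1⟩ : {b : SL(2, F) // b * b = mO}))
    (Nat.card (Subgroup.centralizer ({wS} : Set (SL(2, F))))) (by
      intro s
      rw [← hk s, ← card_anti hodd s.2]
      refine Nat.card_congr ⟨fun p => ⟨p.1.1.2, ?_⟩, fun b => ⟨⟨(s.1, b.1), s.2, sq_of_anti h2 b.2, b.2⟩, ?_⟩, ?_, ?_⟩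
      · have hs : p.1.1.1 = s.1 := congrArg Subtype.val p.2
        have := p.1.2.2.2
        rwa [hs] at this
      · apply Subtype.ext
        rfl
      · intro p
        apply Subtype.ext
        apply Subtype.ext
        apply Prod.ext
        · exact (congrArg Subtype.val p.2).symm
        · rfl
      · intro b
        rfl)
  rw [key, card_sq_mul_centralizer hodd (wS_sq h2)]

/-- Ordered pairs of distinct commuting involutions of `PSL₂`. -/
def PP (F : Type*) [Field F] := {p : Matrix.ProjectiveSpecialLinearGroup (Fin 2) F ×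
    Matrix.ProjectiveSpecialLinearGroup (Fin 2) F //
  orderOf p.1 = 2 ∧ orderOf p.2 = 2 ∧ p.1 ≠ p.2 ∧ p.1 * p.2 = p.2 * p.1}

theorem sq_of_orderOf_mkP (h2 : (2 : F) ≠ 0) {g : SL(2, F)} (hx : orderOf (mkP g) = 2) : g * g = mO := by
  have h1 : mkP g ^ 2 = 1 := by
    have := pow_orderOf_eq_one (mkP g)
    rwa [hx] at this
  have h3 : mkP g ≠ 1 := by
    intro h
    rw [h, orderOf_one] at hx
    omega
  rw [sq, ← map_mul, mkP_eq_one h2] at h1
  rcases h1 with h | h
  · exfalso
    apply h3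
    rw [mkP_eq_one h2]
    exact sq_eq_one h2 h
  · exact h

theorem ne_of_anti (h2 : (2 : F) ≠ 0) {a b : SL(2, F)} (ha : a * a = mO) (hb : b * b = mO)
    (h : a * b = mO * (b * a)) : mkP a ≠ mkP b := by
  rw [Ne, mkP_eq h2]
  rintro (rfl | rfl)
  · rw [ha, mO_mul_mO] at h
    exact mO_ne_one h2 h
  · have h3 : b * (mO * b) = mO * (b * b) := by
      rw [← mul_assoc, ← mO_central, mul_assoc]
    have h4 : mO * b * b = mO * (b * b) := by rw [mul_assoc]
    rw [h3, h4, hb, mO_mul_mO, mul_one] at h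
    exact mO_ne_one h2 h.symm

theorem anti_of_comm (h2 : (2 : F) ≠ 0) {a b : SL(2, F)} (ha : a * a = mO) (hb : b * b = mO)
    (hne : mkP a ≠ mkP b) (hc : mkP a * mkP b = mkP b * mkP a) : a * b = mO * (b * a) := by
  rw [← map_mul, ← map_mul, mkP_eq h2] at hc
  rcases hc with hc | hc
  · exfalso
    apply hne
    have h3 : (a * b) * (a * b) = 1 := by
      calc (a * b) * (a * b) = a * (b * a) * b := by group
        _ = a * (a * b) * b := by rw [hc]
        _ = (a * a) * (b * b) := by group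
        _ = 1 := by rw [ha, hb, mO_mul_mO]
    rw [mkP_eq h2]
    have hbi : b⁻¹ = mO * b := inv_eq_of_sq hb
    rcases sq_eq_one h2 h3 with h | h
    · right
      rw [← hbi]
      exact eq_inv_of_mul_eq_one_left h
    · left
      have h4 : a = mO * b⁻¹ := by
        rw [← h]
        group
      rw [h4, hbi, ← mul_assoc, mO_mul_mO, one_mul]
  · exact hc

/-- The map from `TT` to `PP`. -/
noncomputable def fT (h2 : (2 : F) ≠ 0) (p : TT F) : PP F :=
  ⟨(mkP p.1.1, mkP p.1.2), orderOf_mkP h2 p.2.1, orderOf_mkP h2 p.2.2.1, ne_of_anti h2 p.2.1 p.2.2.1 p.2.2.2, by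
    show mkP p.1.1 * mkP p.1.2 = mkP p.1.2 * mkP p.1.1
    rw [← map_mul, ← map_mul, mkP_eq h2]
    exact Or.inr p.2.2.2⟩

theorem card_fiber_mkP (h2 : (2 : F) ≠ 0) (x : Matrix.ProjectiveSpecialLinearGroup (Fin 2) F) :
    Nat.card {a : SL(2, F) // mkP a = x} = 2 := by
  obtain ⟨a, rfl⟩ := mkP_surjective x
  rw [Nat.card_eq_two_iff]
  refine ⟨⟨a, rfl⟩, ⟨mO * a, ?_⟩, ?_, ?_⟩
  · rw [mkP_eq h2]
    right
    rfl
  · intro h
    have h1 : a = mO * a := congrArg Subtype.val h
    apply mO_ne_one h2 (F := F)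
    exact (mul_right_cancel (a := mO) (b := a) (c := 1) (by rw [one_mul]; exact h1.symm))
  · ext b
    simp only [Set.mem_univ, iff_true, Set.mem_insert_iff, Set.mem_singleton_iff]
    rcases (mkP_eq h2 _ _).1 b.2 with h | h
    · left
      exact Subtype.ext h
    · right
      exact Subtype.ext h

theorem card_fiber_fT (h2 : (2 : F) ≠ 0) (p : PP F) : Nat.card {t : TT F // fT h2 t = p} = 4 := by
  have e : {t : TT F // fT h2 t = p} ≃ {a : SL(2, F) // mkP a = p.1.1} × {a : SL(2, F) // mkP a = p.1.2} := by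
    refine ⟨fun t => (⟨t.1.1.1, ?_⟩, ⟨t.1.1.2, ?_⟩), fun b => ⟨⟨(b.1.1, b.2.1), ?_, ?_, ?_⟩, ?_⟩, ?_, ?_⟩
    · have := congrArg Subtype.val t.2
      exact congrArg Prod.fst this
    · have := congrArg Subtype.val t.2
      exact congrArg Prod.snd this
    · apply sq_of_orderOf_mkP h2
      rw [b.1.2]
      exact p.2.1
    · apply sq_of_orderOf_mkP h2
      rw [b.2.2]
      exact p.2.2.1
    · apply anti_of_comm h2
      · apply sq_of_orderOf_mkP h2
        rw [b.1.2]
        exact p.2.1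
      · apply sq_of_orderOf_mkP h2
        rw [b.2.2]
        exact p.2.2.1
      · rw [b.1.2, b.2.2]
        exact p.2.2.2.1
      · rw [b.1.2, b.2.2]
        exact p.2.2.2.2
    · apply Subtype.ext
      apply Prod.ext
      · exact b.1.2
      · exact b.2.2
    · intro t
      rfl
    · intro b
      rfl
  rw [Nat.card_congr e, Nat.card_prod, card_fiber_mkP h2, card_fiber_mkP h2]

/-- Klein subgroups. -/
noncomputable def gP (h2 : (2 : F) ≠ 0) (p : PP F) :
    {V : Subgroup (Matrix.ProjectiveSpecialLinearGroup (Fin 2) F) // IsKleinFour V} :=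
  have hx : p.1.1 * p.1.1 = 1 := by
    have := pow_orderOf_eq_one p.1.1
    rwa [p.2.1, sq] at this
  have hy : p.1.2 * p.1.2 = 1 := by
    have := pow_orderOf_eq_one p.1.2
    rwa [p.2.2.1, sq] at this
  ⟨Cfsg.Agent.Lib.H2Basic.kleinOf p.1.1 p.1.2 hx hy p.2.2.2.2, by
    apply Cfsg.Agent.Lib.H2Basic.isKleinFour_of
    · apply Cfsg.Agent.Lib.H2Basic.card_kleinOf
      · intro h
        have := p.2.1
        rw [h, orderOf_one] at this
        omega
      · intro h
        have := p.2.2.1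
        rw [h, orderOf_one] at this
        omega
      · exact p.2.2.2.1
    · intro a ha
      rcases Cfsg.Agent.Lib.H2Basic.mem_kleinOf.1 ha with rfl | rfl | rfl | rfl
      · simp
      · exact hx
      · exact hy
      · calc p.1.1 * p.1.2 * (p.1.1 * p.1.2) = p.1.1 * (p.1.2 * p.1.1) * p.1.2 := by group
          _ = (p.1.1 * p.1.1) * (p.1.2 * p.1.2) := by
            rw [← p.2.2.2.2]
            group
          _ = 1 := by rw [hx, hy, one_mul]⟩

theorem card_pairs_four {α : Type*} (h : Nat.card α = 4) (e : α) :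
    Nat.card {w : α × α // w.1 ≠ e ∧ w.2 ≠ e ∧ w.1 ≠ w.2} = 6 := by
  classical
  haveI : Finite α := Nat.finite_of_card_ne_zero (by omega)
  have φ : α ≃ Fin 4 := Finite.equivFinOfCardEq h
  have key : ∀ k : Fin 4, Fintype.card {w : Fin 4 × Fin 4 // w.1 ≠ k ∧ w.2 ≠ k ∧ w.1 ≠ w.2} = 6 := by decide
  have e1 : {w : α × α // w.1 ≠ e ∧ w.2 ≠ e ∧ w.1 ≠ w.2} ≃
      {w : Fin 4 × Fin 4 // w.1 ≠ φ e ∧ w.2 ≠ φ e ∧ w.1 ≠ w.2} := by
    refine Equiv.subtypeEquiv (φ.prodCongr φ) ?_
    intro w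
    simp [φ.injective.eq_iff]
  rw [Nat.card_congr e1, Nat.card_eq_fintype_card, key]

theorem card_fiber_gP (h2 : (2 : F) ≠ 0)
    (V : {V : Subgroup (Matrix.ProjectiveSpecialLinearGroup (Fin 2) F) // IsKleinFour V}) :
    Nat.card {p : PP F // gP h2 p = V} = 6 := by
  have hV := V.2
  have e : {p : PP F // gP h2 p = V} ≃ {w : V.1 × V.1 // w.1 ≠ 1 ∧ w.2 ≠ 1 ∧ w.1 ≠ w.2} := by
    have hm1 : ∀ p : {p : PP F // gP h2 p = V}, p.1.1.1 ∈ V.1 := by
      intro p
      have h1 : V.1 = (gP h2 p.1).1 := (congrArg Subtype.val p.2).symm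
      rw [h1]
      exact Or.inr (Or.inl rfl)
    have hm2 : ∀ p : {p : PP F // gP h2 p = V}, p.1.1.2 ∈ V.1 := by
      intro p
      have h1 : V.1 = (gP h2 p.1).1 := (congrArg Subtype.val p.2).symm
      rw [h1]
      exact Or.inr (Or.inr (Or.inl rfl))
    have ho : ∀ u : V.1, u ≠ 1 → orderOf u.1 = 2 := by
      intro u hu
      apply orderOf_eq_prime (p := 2)
      · rw [sq]
        exact Cfsg.Agent.Lib.H2Basic.mul_self_of_isKleinFour hV u.2
      · intro h
        exact hu (Subtype.ext h)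
    refine ⟨fun p => ⟨(⟨p.1.1.1, hm1 p⟩, ⟨p.1.1.2, hm2 p⟩), ?_, ?_, ?_⟩,
      fun w => ⟨⟨(w.1.1.1, w.1.2.1), ho _ w.2.1, ho _ w.2.2.1, ?_, ?_⟩, ?_⟩, ?_, ?_⟩
    · intro h
      have h1 : p.1.1.1 = 1 := congrArg Subtype.val h
      have := p.1.2.1
      rw [h1, orderOf_one] at this
      omega
    · intro h
      have h1 : p.1.1.2 = 1 := congrArg Subtype.val h
      have := p.1.2.2.1
      rw [h1, orderOf_one] at this
      omega
    · intro h
      have h1 : p.1.1.1 = p.1.1.2 := congrArg Subtype.val h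
      exact p.1.2.2.2.1 h1
    · intro h
      exact w.2.2.2 (Subtype.ext h)
    · exact Cfsg.Agent.Lib.H2Basic.comm_of_isKleinFour hV w.1.1.2 w.1.2.2
    · apply Subtype.ext
      apply Subgroup.eq_of_le_of_card_ge
      · intro x hx
        have hx' : x = 1 ∨ x = w.1.1.1 ∨ x = w.1.2.1 ∨ x = w.1.1.1 * w.1.2.1 := hx
        rcases hx' with rfl | rfl | rfl | rfl
        · exact Subgroup.one_mem _
        · exact w.1.1.2
        · exact w.1.2.2
        · exact Subgroup.mul_mem _ w.1.1.2 w.1.2.2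
      · rw [(gP h2 ⟨(w.1.1.1, w.1.2.1), ho _ w.2.1, ho _ w.2.2.1, fun h => w.2.2.2 (Subtype.ext h),
          Cfsg.Agent.Lib.H2Basic.comm_of_isKleinFour hV w.1.1.2 w.1.2.2⟩).2.card_four]
        exact le_of_eq hV.card_four
    · intro p
      rfl
    · intro w
      rfl
  rw [Nat.card_congr e]
  exact card_pairs_four hV.card_four 1

include hodd in
theorem main {q : ℕ} (hF : Fintype.card F = q) :
    12 * Nat.card {V : Subgroup (Matrix.ProjectiveSpecialLinearGroup (Fin 2) F) // IsKleinFour V} =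
      Nat.card (Matrix.ProjectiveSpecialLinearGroup (Fin 2) F) := by
  have h2 := two_ne_zero_of_odd hodd
  haveI : Finite (PP F) := by
    unfold PP
    infer_instance
  have h1 := Cfsg.Agent.Lib.SylowCount.card_eq_mul_of_fibers (fT h2) 4 (card_fiber_fT h2)
  have h3 := Cfsg.Agent.Lib.SylowCount.card_eq_mul_of_fibers (gP h2) 6 (card_fiber_gP h2)
  have h4 := card_TT hodd
  have h5 := Cfsg.Agent.Lib.SLn.card_SL_eq_center_mul (ι := Fin 2) (F := F)
  have h6 : Nat.gcd (Fintype.card (Fin 2)) (Fintype.card F - 1) = 2 := by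
    rw [Fintype.card_fin]
    apply Nat.gcd_eq_left
    rcases hodd with ⟨k, hk⟩
    rw [hk]
    simp
  rw [h6] at h5
  omega

end Finite

end Cfsg.Agent.Lib.PSL2V4
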