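import Mathlib
import Cfsg.Agent.Lib.PSL2Eleven3
import Cfsg.Agent.Lib.PSL2Sub
import Cfsg.Agent.Lib.PSL2V4
import Cfsg.Agent.Lib.SubfieldPSL

/-! The two classes of `A₅` in `PSL₂(11)`. -/

set_option autoImplicit false
set_option linter.all false
set_option maxRecDepth 100000

open scoped MatrixGroups Pointwise

namespace Cfsg.Agent.Lib.PSL2Eleven4

open Cfsg.Agent.Lib.PSL2Eleven3 Cfsg.Agent.Lib.PSL2Eleven2 Cfsg.Agent.Lib.PSL2Inv

abbrev P := Matrix.ProjectiveSpecialLinearGroup (Fin 2) (ZMod 11)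
abbrev pr : S →* P := mkP
abbrev A5' := alternatingGroup (Fin 5)

theorem h2 : (2 : ZMod 11) ≠ 0 := by decide

theorem tup_mO : tup (mO : S) = 13320 := by decide +kernel

section Facts

variable {F : Type*} [Field F] [Fintype F]

theorem facts (hF : Fintype.card F = 11) :
    Nat.card (Matrix.ProjectiveSpecialLinearGroup (Fin 2) F) = 660 ∧
    55 ≤ Nat.card (Sylow 2 (Matrix.ProjectiveSpecialLinearGroup (Fin 2) F)) := by
  haveI : Fact (Nat.Prime 2) := ⟨Nat.prime_two⟩
  have hodd : Odd (Fintype.card F) := by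
    rw [hF]
    decide
  have hG : Nat.card (Matrix.ProjectiveSpecialLinearGroup (Fin 2) F) = 660 := by
    have := Cfsg.Agent.Lib.PSL2Sub.two_mul_card_psl (F := F) hodd
    rw [hF] at this
    omega
  refine ⟨hG, ?_⟩
  have h1 := Cfsg.Agent.Lib.PSL2V4.main hodd hF
  rw [hG] at h1
  have h55 : Nat.card {V : Subgroup (Matrix.ProjectiveSpecialLinearGroup (Fin 2) F) // IsKleinFour V} = 55 := by omega
  rw [← h55]
  have hc : ∀ V : {V : Subgroup (Matrix.ProjectiveSpecialLinearGroup (Fin 2) F) // IsKleinFour V}, Nat.card V.1 = 4 := by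
    intro V
    haveI := V.2
    exact IsKleinFour.card_four
  have hp : ∀ V : {V : Subgroup (Matrix.ProjectiveSpecialLinearGroup (Fin 2) F) // IsKleinFour V}, IsPGroup 2 V.1 := by
    intro V
    exact IsPGroup.of_card (n := 2) (by rw [hc V]; norm_num)
  have hi : ∀ V : {V : Subgroup (Matrix.ProjectiveSpecialLinearGroup (Fin 2) F) // IsKleinFour V}, ¬ 2 ∣ V.1.index := by
    intro V
    have := Subgroup.index_mul_card V.1
    rw [hc V, hG] at this
    have h15 : V.1.index = 165 := by omega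
    rw [h15]
    norm_num
  refine Nat.card_le_card_of_injective (fun V => (hp V).toSylow (hi V)) ?_
  intro V W h
  apply Subtype.ext
  have e1 : (((hp V).toSylow (hi V) : Sylow 2 _) : Subgroup _) = V.1 := IsPGroup.toSylow_coe (hp V) (hi V)
  have e2 : (((hp W).toSylow (hi W) : Sylow 2 _) : Subgroup _) = W.1 := IsPGroup.toSylow_coe (hp W) (hi W)
  rw [← e1, ← e2]
  exact congrArg _ h

end Facts

theorem card_P : Nat.card P = 660 := (facts (F := ZMod 11) (ZMod.card 11)).1
theorem syl_P : 55 ≤ Nat.card (Sylow 2 P) := (facts (F := ZMod 11) (ZMod.card 11)).2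

theorem card_S : Nat.card S = 1320 := by
  classical
  have h := Cfsg.Agent.Lib.GL2Sylow.card_SL₂ (F := ZMod 11)
  rw [ZMod.card] at h
  simpa using h

def HT : Subgroup S := carr listH one_H (closed_of closed_H)
def QT : Subgroup S := carr listV one_V (closed_of closed_V)

theorem mem_HT (M : S) : M ∈ HT ↔ tup M ∈ listH := Iff.rfl
theorem mem_QT (M : S) : M ∈ QT ↔ tup M ∈ listV := Iff.rfl
theorem card_HT : Nat.card HT = 120 := by
  unfold HT
  rw [card_carr _ _ _ nd_H ok_H, len_H]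
theorem card_QT : Nat.card QT = 8 := by
  unfold QT
  rw [card_carr _ _ _ nd_V ok_V, len_V]

theorem mO_HT : (mO : S) ∈ HT := by
  rw [mem_HT, tup_mO]
  exact mO_H
theorem mO_QT : (mO : S) ∈ QT := by
  rw [mem_QT, tup_mO]
  exact mO_V

theorem ker_le (T : Subgroup S) (h : (mO : S) ∈ T) : (pr).ker ≤ T := by
  intro g hg
  rw [MonoidHom.mem_ker, mkP_eq_one h2] at hg
  rcases hg with rfl | rfl
  · exact T.one_mem
  · exact h

theorem mem_map_iff (T : Subgroup S) (h : (mO : S) ∈ T) (M : S) : pr M ∈ T.map pr ↔ M ∈ T := by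
  constructor
  · rintro ⟨N, hN, hNM⟩
    have hNM' := (mkP_eq h2 N M).1 hNM
    rcases hNM' with rfl | hNM'
    · exact hN
    · have : M = mO * N := by rw [hNM', ← mul_assoc, mO_mul_mO, one_mul]
      rw [this]
      exact T.mul_mem h hN
  · intro hM
    exact ⟨M, hM, rfl⟩

theorem card_map (T : Subgroup S) (h : (mO : S) ∈ T) : 2 * Nat.card (T.map pr) = Nat.card T := by
  have e1 : (T.map pr).index = T.index := Subgroup.index_map_eq T mkP_surjective (ker_le T h)
  have h1 := Subgroup.index_mul_card (T.map pr)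
  have h2' := Subgroup.index_mul_card T
  rw [card_P, e1] at h1
  rw [card_S] at h2'
  have hpos : 0 < T.index := by
    rcases Nat.eq_zero_or_pos T.index with h0 | h0
    · rw [h0] at h2'
      omega
    · exact h0
  have : T.index * (2 * Nat.card (T.map pr)) = T.index * Nat.card T := by
    rw [h2']
    calc T.index * (2 * Nat.card (T.map pr)) = 2 * (T.index * Nat.card (T.map pr)) := by ring
      _ = 1320 := by rw [h1]
  exact Nat.eq_of_mul_eq_mul_left hpos this

/-- The diagonal automorphism. -/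
def dM (M : S) : S := ⟨!![M 0 0, -M 0 1; -M 1 0, M 1 1], by
  rw [Matrix.det_fin_two_of]
  have hdet := M.2
  rw [Matrix.det_fin_two] at hdet
  linear_combination hdet⟩

theorem dM_mul (M N : S) : dM (M * N) = dM M * dM N := by
  ext i j
  fin_cases i <;> fin_cases j
  · show (M * N) 0 0 = (dM M * dM N) 0 0
    rw [mul_ij, mul_ij]
    show _ = M 0 0 * N 0 0 + (-M 0 1) * (-N 1 0)
    ring
  · show -(M * N) 0 1 = (dM M * dM N) 0 1
    rw [mul_ij, mul_ij]
    show _ = M 0 0 * (-N 0 1) + (-M 0 1) * (N 1 1)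
    ring
  · show -(M * N) 1 0 = (dM M * dM N) 1 0
    rw [mul_ij, mul_ij]
    show _ = (-M 1 0) * N 0 0 + (M 1 1) * (-N 1 0)
    ring
  · show (M * N) 1 1 = (dM M * dM N) 1 1
    rw [mul_ij, mul_ij]
    show _ = (-M 1 0) * (-N 0 1) + (M 1 1) * (N 1 1)
    ring

theorem dM_dM (M : S) : dM (dM M) = M := by
  ext i j
  fin_cases i <;> fin_cases j
  · rfl
  · show - - M 0 1 = M 0 1
    simp
  · show - - M 1 0 = M 1 0
    simp
  · rfl

def dhat : S ≃* S :=
  { toFun := dM, invFun := dM, left_inv := dM_dM, right_inv := dM_dM, map_mul' := dM_mul }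

theorem nval : ∀ a : ZMod 11, (-a).val = (11 - a.val) % 11 := by decide

theorem tup_dM (M : S) : tup (dM M) = dlt (tup M) := by
  obtain ⟨a0, a1, a2, a3⟩ := tup_d M
  unfold dlt
  rw [a0, a1, a2, a3]
  show enc (M 0 0).val (-M 0 1).val (-M 1 0).val (M 1 1).val = _
  rw [nval, nval]

theorem center_map : (Subgroup.center S).map dhat.toMonoidHom = Subgroup.center S :=
  (Subgroup.characteristic_iff_map_eq.1 inferInstance) dhat

noncomputable def dbar : P ≃* P := QuotientGroup.congr _ _ dhat center_map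

theorem dbar_pr (M : S) : dbar (pr M) = pr (dM M) := rfl

noncomputable def Vp : Subgroup P := QT.map pr
noncomputable def Hp : Subgroup P := HT.map pr
noncomputable def Kp : Subgroup P := Hp.map dbar.toMonoidHom

theorem mem_Hp (M : S) : pr M ∈ Hp ↔ tup M ∈ listH := mem_map_iff HT mO_HT M
theorem mem_Vp (M : S) : pr M ∈ Vp ↔ tup M ∈ listV := mem_map_iff QT mO_QT M

theorem mem_Kp (M : S) : pr M ∈ Kp ↔ tup (dM M) ∈ listH := by
  constructor
  · rintro ⟨x, hx, hxM⟩
    obtain ⟨N, rfl⟩ := mkP_surjective x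
    have h1 : pr (dM N) = pr M := hxM
    have e2 : pr N = pr (dM M) := by
      have := congrArg dbar h1
      rw [dbar_pr, dbar_pr, dM_dM] at this
      exact this
    rw [← mem_Hp, ← e2]
    exact hx
  · intro h
    refine ⟨pr (dM M), (mem_Hp _).2 h, ?_⟩
    show dbar (pr (dM M)) = pr M
    rw [dbar_pr, dM_dM]

theorem card_Vp : Nat.card Vp = 4 := by
  have := card_map QT mO_QT
  rw [card_QT] at this
  show Nat.card (QT.map pr) = 4
  omega

theorem card_Hp : Nat.card Hp = 60 := by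
  have := card_map HT mO_HT
  rw [card_HT] at this
  show Nat.card (HT.map pr) = 60
  omega

noncomputable def eHK : Hp ≃* Kp := dbar.subgroupMap Hp

theorem card_Kp : Nat.card Kp = 60 := by
  rw [← Nat.card_congr eHK.toEquiv, card_Hp]

theorem Vp_le_Hp : Vp ≤ Hp := by
  rintro _ ⟨u, hu, rfl⟩
  exact (mem_Hp u).2 (V_sub_H _ hu)

theorem Vp_le_Kp : Vp ≤ Kp := by
  rintro _ ⟨u, hu, rfl⟩
  show pr u ∈ Kp
  rw [mem_Kp, tup_dM]
  exact V_sub_H _ (dlt_V _ hu)

theorem Hp_ne_Kp : Hp ≠ Kp := by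
  intro h
  obtain ⟨w1, w2, w3⟩ := witness
  obtain ⟨M, hM⟩ := exists_of_code w1
  have h1 : pr M ∈ Hp := (mem_Hp M).2 (by rw [hM]; exact w2)
  rw [h, mem_Kp, tup_dM, hM] at h1
  exact w3 h1

theorem a5_fact : ∀ x : A5', x ^ 2 = 1 ∨ x ^ 3 = 1 ∨ x ^ 5 = 1 := by decide

theorem norm_A' (s : S) (hs : tup s ∈ listA) : pr s ∈ Subgroup.normalizer ((Vp : Subgroup P) : Set P) := by
  apply mem_norm_of_sub
  rintro _ ⟨u, hu, rfl⟩
  have h := norm_A _ hs
  unfold normB at h
  rw [List.all_eq_true] at h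
  have h3 := h (tup u) hu
  rw [List.any_eq_true] at h3
  obtain ⟨w, hw, hw2⟩ := h3
  rw [Nat.beq_eq] at hw2
  obtain ⟨w', rfl⟩ := exists_of_code (ok_V w hw)
  rw [← tup_mul, ← tup_mul] at hw2
  have e := tup_inj hw2
  have e3 : pr s * pr u * (pr s)⁻¹ = pr w' := by
    rw [← map_mul, e, map_mul]
    group
  rw [e3]
  exact ⟨w', hw, rfl⟩

theorem badE_ne {x : ℕ} (h : badE x = true) : x ≠ 1332 ∧ x ≠ 13320 := by
  constructor
  · rintro rfl
    revert h
    decide
  · rintro rfl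
    revert h
    decide

theorem not_bad (z : S) (hb : bad (tup z) = true) (L : Subgroup P) (e : L ≃* A5') (hy : pr z ∈ L) : False := by
  have hfact := a5_fact (e ⟨pr z, hy⟩)
  have aux0 : ∀ n : ℕ, (e ⟨pr z, hy⟩) ^ n = 1 → (pr z) ^ n = 1 := by
    intro n hn
    have h0 : (⟨pr z, hy⟩ : L) ^ n = 1 := e.injective (by rw [map_pow, hn, map_one])
    exact congrArg Subtype.val h0
  have t2 : tup (z ^ 2) = mulc (tup z) (tup z) := by rw [sq, tup_mul]
  have t3 : tup (z ^ 3) = mulc (mulc (tup z) (tup z)) (tup z) := by rw [pow_succ, tup_mul, t2]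
  have t5 : tup (z ^ 5) = mulc (mulc (tup z) (tup z)) (mulc (mulc (tup z) (tup z)) (tup z)) := by
    rw [show (5 : ℕ) = 2 + 3 from rfl, pow_add, tup_mul, t2, t3]
  have aux : ∀ n : ℕ, (pr z) ^ n = 1 → tup (z ^ n) = 1332 ∨ tup (z ^ n) = 13320 := by
    intro n h
    rw [← map_pow, mkP_eq_one h2] at h
    rcases h with h | h
    · left
      rw [h, tup_one]
    · right
      rw [h, tup_mO]
  unfold bad at hb
  simp only [Bool.and_eq_true] at hb
  obtain ⟨⟨b2, b3⟩, b5⟩ := hb
  have c2 := badE_ne b2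
  have c3 := badE_ne b3
  have c5 := badE_ne b5
  rcases hfact with h | h | h
  · have := aux 2 (aux0 2 h)
    rw [t2] at this
    rcases this with h' | h'
    · exact c2.1 h'
    · exact c2.2 h'
  · have := aux 3 (aux0 3 h)
    rw [t3] at this
    rcases this with h' | h'
    · exact c3.1 h'
    · exact c3.2 h'
  · have := aux 5 (aux0 5 h)
    rw [t5] at this
    rcases this with h' | h'
    · exact c5.1 h'
    · exact c5.2 h'

theorem hcl (L : Subgroup P) (hL : Nonempty (L ≃* A5'))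
    (hN : Subgroup.normalizer ((Vp : Subgroup P) : Set P) ≤ L) : L = Hp ∨ L = Kp := by
  obtain ⟨e⟩ := hL
  have key : ∀ x ∈ L, x ∈ Hp ∨ x ∈ Kp := by
    intro x hx
    obtain ⟨M, rfl⟩ := mkP_surjective x
    have hfc := fc_tup M
    unfold fc at hfc
    simp only [Bool.or_eq_true, List.any_eq_true, meml_iff] at hfc
    rcases hfc with (h | h) | ⟨s, hs, hb⟩
    · exact Or.inl ((mem_Hp _).2 h)
    · right
      rw [mem_Kp, tup_dM]
      exact h
    · exfalso
      obtain ⟨s', rfl⟩ := exists_of_code (ok_A s hs)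
      have hsn := hN (norm_A' s' hs)
      have hy : pr (s' * M) ∈ L := by
        rw [map_mul]
        exact L.mul_mem hsn hx
      rw [← tup_mul] at hb
      exact not_bad _ hb L e hy
  have hH : L ≤ Hp ∨ L ≤ Kp := by
    by_contra hcon
    rw [not_or] at hcon
    obtain ⟨h1, h2⟩ := hcon
    obtain ⟨a, ha, ha'⟩ := SetLike.not_le_iff_exists.1 h1
    obtain ⟨b, hb, hb'⟩ := SetLike.not_le_iff_exists.1 h2
    have ha2 : a ∈ Kp := (key a ha).resolve_left ha'
    have hb2 : b ∈ Hp := (key b hb).resolve_right hb'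
    rcases key (a * b) (L.mul_mem ha hb) with h | h
    · apply ha'
      have := Hp.mul_mem h (Hp.inv_mem hb2)
      simpa using this
    · apply hb'
      have := Kp.mul_mem (Kp.inv_mem ha2) h
      simpa using this
  have cL : Nat.card L = 60 := card_H L e
  rcases hH with h | h
  · left
    exact Subgroup.eq_of_le_of_card_ge h (by rw [card_Hp, cL])
  · right
    exact Subgroup.eq_of_le_of_card_ge h (by rw [card_Kp, cL])

/-- Every `A₅` has a conjugate containing a given four-subgroup. -/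
theorem exists_conj_contains {G : Type*} [Group G] [Finite G] (hG : Nat.card G = 660) (V : Subgroup G)
    (cV : Nat.card V = 4) (L : Subgroup G) (e : L ≃* A5') : ∃ g : G, V ≤ MulAut.conj g • L := by
  classical
  haveI : Fact (Nat.Prime 2) := ⟨Nat.prime_two⟩
  have hc := card_H L e
  obtain ⟨W', hW'⟩ := Sylow.exists_subgroup_card_pow_prime (G := L) 2 (n := 2) (by rw [hc]; norm_num)
  set W : Subgroup G := W'.map L.subtype with hW
  have cW : Nat.card W = 4 := by
    rw [hW, Nat.card_congr (W'.equivMapOfInjective _ L.subtype_injective).symm.toEquiv, hW']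
    norm_num
  have hWL : W ≤ L := by
    rintro _ ⟨y, -, rfl⟩
    exact y.2
  have key : ∀ U : Subgroup G, Nat.card U = 4 → ∃ Q : Sylow 2 G, (Q : Subgroup G) = U := by
    intro U cU
    have hp : IsPGroup 2 U := IsPGroup.of_card (n := 2) (by rw [cU]; norm_num)
    have hi : ¬ 2 ∣ U.index := by
      have := Subgroup.index_mul_card U
      rw [cU, hG] at this
      have h15 : U.index = 165 := by omega
      rw [h15]
      norm_num
    exact ⟨hp.toSylow hi, IsPGroup.toSylow_coe hp hi⟩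
  obtain ⟨Q₁, hQ₁⟩ := key W cW
  obtain ⟨Q₂, hQ₂⟩ := key V cV
  obtain ⟨g, hg⟩ := MulAction.exists_smul_eq G Q₁ Q₂
  have h4 : MulAut.conj g • (Q₁ : Subgroup G) = (Q₂ : Subgroup G) := by
    rw [← hg]
    rfl
  rw [hQ₁, hQ₂] at h4
  refine ⟨g, ?_⟩
  rw [← h4]
  intro x hx
  rw [conj_smul_mem] at hx ⊢
  exact hWL hx

theorem iso_Hp : Nonempty (Hp ≃* A5') := by
  have hodd : Odd (Fintype.card (ZMod 11)) := by
    rw [ZMod.card]
    decide
  obtain ⟨H, ⟨e⟩⟩ := Cfsg.Agent.Lib.PSL2Sub.exists_a5_odd (F := ZMod 11) hodd (by rw [ZMod.card]; norm_num)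
  obtain ⟨g, hg⟩ := exists_conj_contains card_P Vp card_Vp H e
  have hL' := iso_conj H g ⟨e⟩
  obtain ⟨e'⟩ := id hL'
  rcases hcl _ hL' (norm_le_H card_P syl_P _ e' Vp card_Vp hg) with h | h
  · rw [← h]
    exact hL'
  · rw [h] at e'
    exact ⟨eHK.trans e'⟩

theorem iso_Kp : Nonempty (Kp ≃* A5') := by
  obtain ⟨e⟩ := iso_Hp
  exact ⟨eHK.symm.trans e⟩

/-- Transport of the configuration along an isomorphism. -/
theorem transport {G₁ G₂ : Type*} [Group G₁] [Group G₂] (E : G₁ ≃* G₂) (V H₀ K₀ : Subgroup G₁)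
    (cV : Nat.card V = 4) (hVH : V ≤ H₀) (hVK : V ≤ K₀) (e₁ : Nonempty (H₀ ≃* A5'))
    (e₂ : Nonempty (K₀ ≃* A5')) (hne : H₀ ≠ K₀)
    (hcl : ∀ L : Subgroup G₁, Nonempty (L ≃* A5') →
      Subgroup.normalizer ((V : Subgroup G₁) : Set G₁) ≤ L → L = H₀ ∨ L = K₀) :
    ∃ V' H' K' : Subgroup G₂, Nat.card V' = 4 ∧ V' ≤ H' ∧ V' ≤ K' ∧ Nonempty (H' ≃* A5') ∧
      Nonempty (K' ≃* A5') ∧ H' ≠ K' ∧ ∀ L : Subgroup G₂, Nonempty (L ≃* A5') →
      Subgroup.normalizer ((V' : Subgroup G₂) : Set G₂) ≤ L → L = H' ∨ L = K' := by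
  refine ⟨V.map E.toMonoidHom, H₀.map E.toMonoidHom, K₀.map E.toMonoidHom, ?_, Subgroup.map_mono hVH,
    Subgroup.map_mono hVK, ?_, ?_, ?_, ?_⟩
  · have := Nat.card_congr (E.subgroupMap V).toEquiv
    rw [cV] at this
    exact this.symm
  · obtain ⟨e⟩ := e₁
    exact ⟨(E.subgroupMap H₀).symm.trans e⟩
  · obtain ⟨e⟩ := e₂
    exact ⟨(E.subgroupMap K₀).symm.trans e⟩
  · intro h
    apply hne
    exact Subgroup.map_injective E.injective h
  · intro L hL hN
    have hL₁ : Nonempty (L.map E.symm.toMonoidHom ≃* A5') := by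
      obtain ⟨e⟩ := hL
      exact ⟨(E.symm.subgroupMap L).symm.trans e⟩
    have hN₁ : Subgroup.normalizer ((V : Subgroup G₁) : Set G₁) ≤ L.map E.symm.toMonoidHom := by
      intro x hx
      have h1 : E x ∈ Subgroup.normalizer (((V.map E.toMonoidHom : Subgroup G₂)) : Set G₂) := by
        rw [← Subgroup.map_equiv_normalizer_eq]
        exact ⟨x, hx, rfl⟩
      exact ⟨E x, hN h1, by simp⟩
    have back : L = (L.map E.symm.toMonoidHom).map E.toMonoidHom := by
      ext x
      constructor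
      · intro hx
        exact ⟨E.symm x, ⟨x, hx, rfl⟩, by simp⟩
      · rintro ⟨_, ⟨y, hy, rfl⟩, rfl⟩
        simpa using hy
    rcases hcl _ hL₁ hN₁ with h | h
    · left
      rw [back, h]
    · right
      rw [back, h]

variable {F : Type*} [Field F] [Fintype F]

theorem config (hF : Fintype.card F = 11) :
    ∃ V' H' K' : Subgroup (Matrix.ProjectiveSpecialLinearGroup (Fin 2) F), Nat.card V' = 4 ∧ V' ≤ H' ∧ V' ≤ K' ∧
      Nonempty (H' ≃* A5') ∧ Nonempty (K' ≃* A5') ∧ H' ≠ K' ∧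
      ∀ L : Subgroup (Matrix.ProjectiveSpecialLinearGroup (Fin 2) F), Nonempty (L ≃* A5') →
      Subgroup.normalizer ((V' : Subgroup _) : Set _) ≤ L → L = H' ∨ L = K' := by
  obtain ⟨φ⟩ := Cfsg.Agent.Lib.SubfieldPSL.exists_ringHom (K := ZMod 11) (F := F) (m := 1) le_rfl
    (by rw [ZMod.card, hF]; norm_num)
  have hb : Function.Bijective (Cfsg.Agent.Lib.SubfieldPSL.pslMap φ) := by
    rw [Nat.bijective_iff_injective_and_card]
    exact ⟨Cfsg.Agent.Lib.SubfieldPSL.pslMap_injective φ, by rw [card_P, (facts hF).1]⟩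
  exact transport (MulEquiv.ofBijective _ hb) Vp Hp Kp card_Vp Vp_le_Hp Vp_le_Kp iso_Hp iso_Kp Hp_ne_Kp hcl

end Cfsg.Agent.Lib.PSL2Eleven4
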