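/-
Conjugacy classes of Klein four-subgroups of `PSL₂(q)`, `q` odd.
-/
import Mathlib
import Cfsg.Agent.Lib.PSL2V4
import Cfsg.Agent.Lib.PSL2Sub

set_option autoImplicit false
set_option linter.all false

open scoped MatrixGroups Matrix
open Cfsg.Agent.Lib.MkSL Cfsg.Agent.Lib.GL2Conj Cfsg.Agent.Lib.PSL2Inv Cfsg.Agent.Lib.PSL2V4
  Cfsg.Agent.Lib.H2Basic

namespace Cfsg.Agent.Lib.PSL2V4b

variable {F : Type*} [Field F] [Fintype F] (hodd : Odd (Fintype.card F))

/-- The anticommuting partner of `wS`. -/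
def bS (p r : F) (h : p * p + r * r = -1) : SL(2, F) := mkSL p r r (-p) (by linear_combination -h)

theorem bS_sq (h2 : (2 : F) ≠ 0) (p r : F) (h : p * p + r * r = -1) : bS p r h * bS p r h = mO := by
  rw [sq_eq_mO_iff h2]
  simp [bS]

theorem wS_mul_bS (p r : F) (h : p * p + r * r = -1) (h' : (-r) * (-r) + p * p = -1) :
    wS * bS p r h = bS (-r) p h' := by
  apply ext2 <;> simp [mul_ij, wS, cS, bS]

theorem anti_wS (p r : F) (h : p * p + r * r = -1) : wS * bS p r h = mO * (bS p r h * wS) := by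
  apply ext2 <;> simp [mul_ij, wS, cS, bS, mO]

theorem eq_bS (h2 : (2 : F) ≠ 0) {b : SL(2, F)} (h : wS * b = mO * (b * wS)) :
    ∃ p r, ∃ hh : p * p + r * r = -1, b = bS p r hh := by
  have e00 := congrArg (fun m : SL(2, F) => m 0 0) h
  have e01 := congrArg (fun m : SL(2, F) => m 0 1) h
  simp [mul_ij, wS, cS, mO] at e00 e01
  have h3 : b 1 0 = b 0 1 := e00
  have h4 : b 1 1 = - b 0 0 := by linear_combination -e01
  have hd := det2 b
  rw [h3, h4] at hd
  refine ⟨b 0 0, b 0 1, by linear_combination -hd, ?_⟩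
  apply ext2 <;> simp [bS, h3, h4]

/-- Two Klein groups containing the same two distinct non-trivial elements are equal. -/
theorem klein_unique {G : Type*} [Group G] {U U' : Subgroup G} (hU : IsKleinFour U) (hU' : IsKleinFour U')
    {x y : G} (hx : x ∈ U) (hy : y ∈ U) (hx' : x ∈ U') (hy' : y ∈ U') (hx1 : x ≠ 1) (hy1 : y ≠ 1) (hxy : x ≠ y) :
    U = U' := by
  have h1 := mul_self_of_isKleinFour hU hx
  have h2 := mul_self_of_isKleinFour hU hy
  have h3 := comm_of_isKleinFour hU hx hy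
  have hc := card_kleinOf (ha := h1) (hb := h2) (hab := h3) hx1 hy1 hxy
  have key : ∀ W : Subgroup G, IsKleinFour W → x ∈ W → y ∈ W → kleinOf x y h1 h2 h3 = W := by
    intro W hW hxW hyW
    haveI : Finite W := Nat.finite_of_card_ne_zero (by rw [hW.card_four]; omega)
    apply Subgroup.eq_of_le_of_card_ge
    · intro g hg
      rcases mem_kleinOf.1 hg with rfl | rfl | rfl | rfl
      · exact Subgroup.one_mem _
      · exact hxW
      · exact hyW
      · exact Subgroup.mul_mem _ hxW hyW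
    · rw [hc, hW.card_four]
  rw [← key U hU hx hy, key U' hU' hx' hy']

/-- The conjugacy relation. -/
def Cj {G : Type*} [Group G] (U U' : Subgroup G) : Prop := ∃ g : G, U' = U.map (MulAut.conj g).toMonoidHom

theorem Cj.refl {G : Type*} [Group G] (U : Subgroup G) : Cj U U := ⟨1, by
  ext x
  simp [mem_map_conj_iff]⟩

theorem Cj.trans {G : Type*} [Group G] {U V W : Subgroup G} (h1 : Cj U V) (h2 : Cj V W) : Cj U W := by
  obtain ⟨g, rfl⟩ := h1
  obtain ⟨h, rfl⟩ := h2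
  exact ⟨h * g, map_conj_mul U g h⟩

theorem Cj.symm {G : Type*} [Group G] {U V : Subgroup G} (h1 : Cj U V) : Cj V U := by
  obtain ⟨g, rfl⟩ := h1
  refine ⟨g⁻¹, ?_⟩
  rw [map_conj_mul, inv_mul_cancel]
  ext x
  simp [mem_map_conj_iff]

theorem isKleinFour_map_conj {G : Type*} [Group G] {U : Subgroup G} (hU : IsKleinFour U) (g : G) :
    IsKleinFour (U.map (MulAut.conj g).toMonoidHom) := by
  apply isKleinFour_of
  · rw [card_map_conj]
    exact hU.card_four
  · intro a ha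
    rw [mem_map_conj_iff] at ha
    have := mul_self_of_isKleinFour hU ha
    calc a * a = g * (g⁻¹ * a * g * (g⁻¹ * a * g)) * g⁻¹ := by group
      _ = 1 := by rw [this]; group

/-- Standard position. -/
def Std (V : Subgroup (PSL(2, F))) (p r : F) (h : p * p + r * r = -1) : Prop :=
  IsKleinFour V ∧ mkP wS ∈ V ∧ mkP (bS p r h) ∈ V

theorem ne_one_of_order {G : Type*} [Group G] {x : G} (h : orderOf x = 2) : x ≠ 1 := by
  intro h1
  rw [h1, orderOf_one] at h
  omega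

include hodd in
theorem std_ne (p r : F) (h : p * p + r * r = -1) :
    mkP (wS : SL(2, F)) ≠ 1 ∧ mkP (bS p r h) ≠ 1 ∧ mkP (wS : SL(2, F)) ≠ mkP (bS p r h) := by
  have h2 := two_ne_zero_of_odd hodd
  refine ⟨ne_one_of_order (orderOf_mkP h2 (wS_sq h2)), ne_one_of_order (orderOf_mkP h2 (bS_sq h2 p r h)), ?_⟩
  exact ne_of_anti h2 (wS_sq h2) (bS_sq h2 p r h) (anti_wS p r h)

theorem exists_two_ne {G : Type*} [Group G] {V : Subgroup G} (hV : IsKleinFour V) :
    ∃ x ∈ V, ∃ y ∈ V, x ≠ 1 ∧ y ≠ 1 ∧ x ≠ y := by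
  classical
  have hc := hV.card_four
  have h1 : ∃ x ∈ V, x ≠ 1 := by
    by_contra hcon
    push Not at hcon
    have := card_subgroup_le_of_subset V ({1} : Finset G) (fun g hg => by simp [hcon g hg])
    rw [Finset.card_singleton] at this
    omega
  obtain ⟨x, hx, hx1⟩ := h1
  have h3 : ∃ y ∈ V, y ≠ 1 ∧ x ≠ y := by
    by_contra hcon
    push Not at hcon
    have := card_subgroup_le_of_subset V ({1, x} : Finset G) (fun g hg => by
      by_cases hg1 : g = 1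
      · simp [hg1]
      · simp [(hcon g hg hg1).symm])
    have h4 := Finset.card_le_two (a := (1 : G)) (b := x)
    omega
  obtain ⟨y, hy, hy1, hxy⟩ := h3
  exact ⟨x, hx, y, hy, hx1, hy1, hxy⟩

include hodd in
theorem exists_std (V : Subgroup (PSL(2, F))) (hV : IsKleinFour V) :
    ∃ p r, ∃ h : p * p + r * r = -1, ∃ V', Cj V V' ∧ Std V' p r h := by
  have h2 := two_ne_zero_of_odd hodd
  obtain ⟨x, hx, y, hy, hx1, hy1, hxy⟩ := exists_two_ne hV
  have hox : orderOf x = 2 := orderOf_eq_prime (by rw [sq]; exact mul_self_of_isKleinFour hV hx) hx1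
  have hoy : orderOf y = 2 := orderOf_eq_prime (by rw [sq]; exact mul_self_of_isKleinFour hV hy) hy1
  obtain ⟨a, rfl, ha⟩ := exists_lift_of_order_two h2 x hox
  obtain ⟨b, rfl, hb⟩ := exists_lift_of_order_two h2 y hoy
  have hab := anti_of_comm h2 ha hb hxy (comm_of_isKleinFour hV hx hy)
  obtain ⟨P, hP⟩ := isConj_iff.1 (isConj_of_sq hodd ha (wS_sq h2))
  have hb1 : wS * (P * b * P⁻¹) = mO * ((P * b * P⁻¹) * wS) := by
    rw [← hP]
    calc P * a * P⁻¹ * (P * b * P⁻¹) = P * (a * b) * P⁻¹ := by group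
      _ = P * (mO * (b * a)) * P⁻¹ := by rw [hab]
      _ = (P * mO) * (b * a) * P⁻¹ := by group
      _ = (mO * P) * (b * a) * P⁻¹ := by rw [mO_central]
      _ = _ := by group
  obtain ⟨p, r, h, hbS⟩ := eq_bS h2 hb1
  refine ⟨p, r, h, V.map (MulAut.conj (mkP P)).toMonoidHom, ⟨mkP P, rfl⟩, isKleinFour_map_conj hV _, ?_, ?_⟩
  · have := conj_mem_map_conj (mkP P) hx
    rwa [← map_inv, ← map_mul, ← map_mul, hP] at this
  · have := conj_mem_map_conj (mkP P) hy
    rwa [← map_inv, ← map_mul, ← map_mul, hbS] at this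

/-- The intertwining relation. -/
def IsRel (α β p₁ r₁ p₂ r₂ : F) : Prop :=
  α * (p₁ - p₂) = β * (r₁ + r₂) ∧ α * (r₁ - r₂) = -β * (p₁ + p₂)

include hodd in
theorem Std_conj {V W : Subgroup (PSL(2, F))} {p₁ r₁ p₂ r₂ α β t : F} {h₁ : p₁ * p₁ + r₁ * r₁ = -1}
    {h₂ : p₂ * p₂ + r₂ * r₂ = -1} (hV : Std V p₁ r₁ h₁) (hW : Std W p₂ r₂ h₂) (hR : IsRel α β p₁ r₁ p₂ r₂)
    (ht : t ≠ 0) (hd : α * α + β * β = t * t) : Cj V W := by
  obtain ⟨e1, e2⟩ := hR
  let g : SL(2, F) := mkSL (α / t) (-β / t) (β / t) (α / t) (by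
    field_simp
    linear_combination hd)
  have g1 : g * wS = wS * g := by
    apply ext2 <;> simp [mul_ij, g, wS, cS] <;> ring
  have g2 : g * bS p₁ r₁ h₁ = bS p₂ r₂ h₂ * g := by
    apply ext2 <;> simp only [mul_ij, g, bS, mkSL_00, mkSL_01, mkSL_10, mkSL_11] <;> field_simp
    · linear_combination e1
    · linear_combination e2
    · linear_combination e2
    · linear_combination (-1 : F) * e1
  obtain ⟨ne1, ne2, ne3⟩ := std_ne hodd p₂ r₂ h₂
  refine ⟨mkP g, ?_⟩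
  apply klein_unique hW.1 (isKleinFour_map_conj hV.1 _) hW.2.1 hW.2.2 ?_ ?_ ne1 ne2 ne3
  · have := conj_mem_map_conj (mkP g) hV.2.1
    rwa [← map_inv, ← map_mul, ← map_mul, g1, mul_inv_cancel_right] at this
  · have := conj_mem_map_conj (mkP g) hV.2.2
    rwa [← map_inv, ← map_mul, ← map_mul, g2, mul_inv_cancel_right] at this

theorem Std_swap {V : Subgroup (PSL(2, F))} {p r : F} {h : p * p + r * r = -1}
    (hV : Std V p r h) (h' : (-r) * (-r) + p * p = -1) : Std V (-r) p h' := by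
  refine ⟨hV.1, hV.2.1, ?_⟩
  rw [← wS_mul_bS p r h h', map_mul]
  exact Subgroup.mul_mem _ hV.2.1 hV.2.2

include hodd in
theorem exists_rel (p₁ r₁ p₂ r₂ : F) (h₁ : p₁ * p₁ + r₁ * r₁ = -1) (h₂ : p₂ * p₂ + r₂ * r₂ = -1) :
    ∃ α β : F, IsRel α β p₁ r₁ p₂ r₂ ∧ α * α + β * β ≠ 0 := by
  have h2 := two_ne_zero_of_odd hodd
  by_cases hu : p₁ * p₂ + r₁ * r₂ = 1
  · refine ⟨0, 1, ?_, by simp⟩
    have hv : p₂ * r₁ - r₂ * p₁ = 0 := by
      have : (p₂ * r₁ - r₂ * p₁) * (p₂ * r₁ - r₂ * p₁) = 0 := by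
        linear_combination (p₂ * p₂ + r₂ * r₂) * h₁ - h₂ - (p₁ * p₂ + r₁ * r₂ + 1) * hu
      exact mul_self_eq_zero.1 this
    have e1 : p₂ + p₁ = 0 := by
      linear_combination p₂ * h₁ - p₁ * hu - r₁ * hv
    have e2 : r₂ + r₁ = 0 := by
      linear_combination r₂ * h₁ - r₁ * hu + p₁ * hv
    constructor
    · linear_combination (-1 : F) * e2
    · linear_combination e1
  · refine ⟨1 - (p₁ * p₂ + r₁ * r₂), p₂ * r₁ - r₂ * p₁, ⟨?_, ?_⟩, ?_⟩
    · linear_combination p₁ * h₂ - p₂ * h₁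
    · linear_combination r₁ * h₂ - r₂ * h₁
    · have e : (1 - (p₁ * p₂ + r₁ * r₂)) * (1 - (p₁ * p₂ + r₁ * r₂)) + (p₂ * r₁ - r₂ * p₁) * (p₂ * r₁ - r₂ * p₁) =
          2 * (1 - (p₁ * p₂ + r₁ * r₂)) := by
        linear_combination (p₂ * p₂ + r₂ * r₂) * h₁ - h₂
      rw [e]
      exact mul_ne_zero h2 (sub_ne_zero.2 (Ne.symm hu))

theorem rel_symm {α β p₁ r₁ p₂ r₂ : F} (h : IsRel α β p₁ r₁ p₂ r₂) : IsRel α (-β) p₂ r₂ p₁ r₁ := by
  obtain ⟨e1, e2⟩ := h
  constructor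
  · linear_combination (-1 : F) * e1
  · linear_combination (-1 : F) * e2

theorem rel_comp {α₁ β₁ α₂ β₂ p₁ r₁ p₂ r₂ p₃ r₃ : F} (h₁ : IsRel α₁ β₁ p₁ r₁ p₂ r₂) (h₂ : IsRel α₂ β₂ p₂ r₂ p₃ r₃) :
    IsRel (α₁ * α₂ - β₁ * β₂) (α₁ * β₂ + β₁ * α₂) p₁ r₁ p₃ r₃ := by
  obtain ⟨e1, e2⟩ := h₁
  obtain ⟨e3, e4⟩ := h₂
  constructor
  · linear_combination α₂ * e1 - β₂ * e2 + α₁ * e3 + β₁ * e4
  · linear_combination α₂ * e2 + β₂ * e1 - β₁ * e3 + α₁ * e4

theorem rel_swap {α β p₁ r₁ p₂ r₂ : F} (h : IsRel α β p₁ r₁ p₂ r₂) :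
    IsRel (α + β) (β - α) (-r₁) p₁ p₂ r₂ := by
  have h0 : IsRel (1 : F) (1 : F) p₁ r₁ (-r₁) p₁ := by
    constructor <;> ring
  have := rel_comp (rel_symm h0) h
  have e1 : (1 : F) * α - (-1) * β = α + β := by ring
  have e2 : (1 : F) * β + (-1) * α = β - α := by ring
  rwa [e1, e2] at this

include hodd in
theorem mul_isSquare {x y : F} (hx : ¬ IsSquare x) (hy : ¬ IsSquare y) : IsSquare (x * y) := by
  classical
  have hF2 := Cfsg.Agent.Lib.PSL2Sub.ringChar_ne_two_of_odd hodd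
  have hx0 : x ≠ 0 := by
    rintro rfl
    exact hx (IsSquare.zero)
  have hy0 : y ≠ 0 := by
    rintro rfl
    exact hy (IsSquare.zero)
  rw [← quadraticChar_one_iff_isSquare (mul_ne_zero hx0 hy0), map_mul,
    quadraticChar_neg_one_iff_not_isSquare.2 hx, quadraticChar_neg_one_iff_not_isSquare.2 hy]
  norm_num

include hodd in
theorem all_conj (h2ns : ¬ IsSquare (2 : F)) (V W : Subgroup (PSL(2, F))) (hV : IsKleinFour V) (hW : IsKleinFour W) :
    Cj V W := by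
  obtain ⟨p₁, r₁, h₁, V', cV, sV⟩ := exists_std hodd V hV
  obtain ⟨p₂, r₂, h₂, W', cW, sW⟩ := exists_std hodd W hW
  obtain ⟨α, β, R, nz⟩ := exists_rel hodd p₁ r₁ p₂ r₂ h₁ h₂
  refine cV.trans (Cj.trans ?_ cW.symm)
  by_cases hd : IsSquare (α * α + β * β)
  · obtain ⟨t, ht⟩ := hd
    refine Std_conj hodd sV sW R (t := t) ?_ ht
    rintro rfl
    exact nz (by simpa using ht)
  · obtain ⟨t, ht⟩ := mul_isSquare hodd h2ns hd
    have h₁' : (-r₁) * (-r₁) + p₁ * p₁ = -1 := by linear_combination h₁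
    have h2 := two_ne_zero_of_odd hodd
    refine Std_conj hodd (Std_swap sV h₁') sW (rel_swap R) (t := t) ?_ ?_
    · rintro rfl
      simp only [mul_zero] at ht
      exact (mul_ne_zero h2 nz) ht
    · rw [← ht]
      ring

include hodd in
theorem dichotomy {U U' U'' : Subgroup (PSL(2, F))} (hU : IsKleinFour U) (hU' : IsKleinFour U') (hU'' : IsKleinFour U'')
    (h1 : ¬ Cj U U') (h2 : ¬ Cj U U'') : Cj U' U'' := by
  obtain ⟨p, r, hh, V, cV, sV⟩ := exists_std hodd U hU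
  obtain ⟨p₁, r₁, h₁, V₁, cV₁, sV₁⟩ := exists_std hodd U' hU'
  obtain ⟨p₂, r₂, h₂, V₂, cV₂, sV₂⟩ := exists_std hodd U'' hU''
  obtain ⟨α₁, β₁, R₁, nz₁⟩ := exists_rel hodd p r p₁ r₁ hh h₁
  obtain ⟨α₂, β₂, R₂, nz₂⟩ := exists_rel hodd p r p₂ r₂ hh h₂
  have key : ∀ {x y a b : F} {h : x * x + y * y = -1} {W : Subgroup (PSL(2, F))}, Std W x y h → IsRel a b p r x y →
      a * a + b * b ≠ 0 → ¬ Cj V W → ¬ IsSquare (a * a + b * b) := by
    intro x y a b h W hW R nz hnc hsq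
    obtain ⟨t, ht⟩ := hsq
    apply hnc
    refine Std_conj hodd sV hW R (t := t) ?_ ht
    rintro rfl
    exact nz (by simpa using ht)
  have n1 := key sV₁ R₁ nz₁ (fun h => h1 (cV.trans (h.trans cV₁.symm)))
  have n2 := key sV₂ R₂ nz₂ (fun h => h2 (cV.trans (h.trans cV₂.symm)))
  obtain ⟨t, ht⟩ := mul_isSquare hodd n1 n2
  refine cV₁.trans (Cj.trans ?_ cV₂.symm)
  refine Std_conj hodd sV₁ sV₂ (rel_comp (rel_symm R₁) R₂) (t := t) ?_ ?_
  · rintro rfl
    simp only [mul_zero] at ht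
    exact (mul_ne_zero nz₁ nz₂) ht
  · rw [← ht]
    ring

include hodd in
theorem card_normalizer_of_all_conj (V : Subgroup (PSL(2, F))) (hV : IsKleinFour V)
    (hall : ∀ W : Subgroup (PSL(2, F)), IsKleinFour W → Cj V W) :
    Nat.card (Subgroup.normalizer (V : Set (PSL(2, F)))) = 12 := by
  have h1 := Cfsg.Agent.Lib.SylowCount.card_eq_mul_of_fibers
    (fun g : PSL(2, F) => (⟨V.map (MulAut.conj g).toMonoidHom, isKleinFour_map_conj hV g⟩ :
      {W : Subgroup (PSL(2, F)) // IsKleinFour W}))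
    (Nat.card (Subgroup.normalizer (V : Set (PSL(2, F))))) (by
      rintro ⟨W, hW⟩
      obtain ⟨g₀, rfl⟩ := hall W hW
      refine Nat.card_congr ⟨fun g => ⟨g₀⁻¹ * g.1, ?_⟩, fun c => ⟨g₀ * c.1, ?_⟩, ?_, ?_⟩
      · apply mem_normalizer_of_map_conj_eq
        have h2 : V.map (MulAut.conj g.1).toMonoidHom = V.map (MulAut.conj g₀).toMonoidHom :=
          congrArg Subtype.val g.2
        rw [← map_conj_mul, h2, map_conj_mul, inv_mul_cancel]
        ext x
        simp [mem_map_conj_iff]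
      · apply Subtype.ext
        show V.map (MulAut.conj (g₀ * c.1)).toMonoidHom = V.map (MulAut.conj g₀).toMonoidHom
        rw [← map_conj_mul, map_conj_eq_of_mem_normalizer c.2]
      · intro g
        apply Subtype.ext
        simp
      · intro c
        apply Subtype.ext
        simp)
  have h3 := main hodd rfl
  have hT : 0 < Nat.card {W : Subgroup (PSL(2, F)) // IsKleinFour W} := by
    haveI : Nonempty {W : Subgroup (PSL(2, F)) // IsKleinFour W} := ⟨⟨V, hV⟩⟩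
    exact Nat.card_pos
  rw [h1, mul_comm] at h3
  exact (Nat.eq_of_mul_eq_mul_left hT h3).symm

/-- The Klein group of `S₄`. -/
def P4 (a : Equiv.Perm (Fin 4)) : Prop :=
  a = 1 ∨ a = Equiv.swap 0 1 * Equiv.swap 2 3 ∨ a = Equiv.swap 0 2 * Equiv.swap 1 3 ∨
    a = (Equiv.swap 0 1 * Equiv.swap 2 3) * (Equiv.swap 0 2 * Equiv.swap 1 3)

theorem P4_conj : ∀ g a : Equiv.Perm (Fin 4), P4 a → P4 (g * a * g⁻¹) := by
  unfold P4
  decide

include hodd in
theorem exists_nonconj (h2s : IsSquare (2 : F)) :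
    ∃ V W : Subgroup (PSL(2, F)), IsKleinFour V ∧ IsKleinFour W ∧ ¬ Cj V W := by
  have hq : Fintype.card F % 8 ≠ 3 ∧ Fintype.card F % 8 ≠ 5 := FiniteField.isSquare_two_iff.1 h2s
  obtain ⟨H, ⟨e⟩⟩ := Cfsg.Agent.Lib.PSL2Sub.exists_s4_odd hodd hq
  let ψ : Equiv.Perm (Fin 4) →* PSL(2, F) := H.subtype.comp e.symm.toMonoidHom
  have hψ : Function.Injective ψ := H.subtype_injective.comp e.symm.injective
  let σ : Equiv.Perm (Fin 4) := Equiv.swap 0 1 * Equiv.swap 2 3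
  let τ : Equiv.Perm (Fin 4) := Equiv.swap 0 2 * Equiv.swap 1 3
  have s1 : σ * σ = 1 := by decide
  have s2 : τ * τ = 1 := by decide
  have s3 : σ * τ = τ * σ := by decide
  have s4 : σ ≠ 1 := by decide
  have s5 : τ ≠ 1 := by decide
  have s6 : σ ≠ τ := by decide
  have hx : ψ σ * ψ σ = 1 := by rw [← map_mul, s1, map_one]
  have hy : ψ τ * ψ τ = 1 := by rw [← map_mul, s2, map_one]
  have hxy : ψ σ * ψ τ = ψ τ * ψ σ := by rw [← map_mul, s3, map_mul]
  have hx1 : ψ σ ≠ 1 := fun h => s4 (hψ (by rw [h, map_one]))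
  have hy1 : ψ τ ≠ 1 := fun h => s5 (hψ (by rw [h, map_one]))
  have hne : ψ σ ≠ ψ τ := fun h => s6 (hψ h)
  have hc := card_kleinOf (ha := hx) (hb := hy) (hab := hxy) hx1 hy1 hne
  let V₀ := kleinOf (ψ σ) (ψ τ) hx hy hxy
  have hV₀ : IsKleinFour V₀ := by
    apply isKleinFour_of _ hc
    intro a ha
    rcases mem_kleinOf.1 ha with rfl | rfl | rfl | rfl
    · simp
    · exact hx
    · exact hy
    · calc ψ σ * ψ τ * (ψ σ * ψ τ) = ψ σ * (ψ τ * ψ σ) * ψ τ := by group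
        _ = (ψ σ * ψ σ) * (ψ τ * ψ τ) := by
          rw [← hxy]
          group
        _ = 1 := by rw [hx, hy, one_mul]
  have hmem : ∀ a, P4 a → ψ a ∈ V₀ := by
    rintro a (rfl | rfl | rfl | rfl)
    · rw [map_one]
      exact Subgroup.one_mem _
    · exact Or.inr (Or.inl rfl)
    · exact Or.inr (Or.inr (Or.inl rfl))
    · rw [map_mul]
      exact Or.inr (Or.inr (Or.inr rfl))
  have hrange : ψ.range ≤ Subgroup.normalizer (V₀ : Set (PSL(2, F))) := by
    rintro _ ⟨g, rfl⟩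
    haveI : Finite V₀ := Nat.finite_of_card_ne_zero (by rw [hc]; omega)
    apply mem_normalizer_of_conj_le
    intro a ha
    have ha' : ∃ a', P4 a' ∧ ψ a' = a := by
      rcases mem_kleinOf.1 ha with rfl | rfl | rfl | rfl
      · exact ⟨1, Or.inl rfl, map_one _⟩
      · exact ⟨σ, Or.inr (Or.inl rfl), rfl⟩
      · exact ⟨τ, Or.inr (Or.inr (Or.inl rfl)), rfl⟩
      · exact ⟨σ * τ, Or.inr (Or.inr (Or.inr rfl)), map_mul _ _ _⟩
    obtain ⟨a', h1, rfl⟩ := ha'
    have : ψ g * ψ a' * (ψ g)⁻¹ = ψ (g * a' * g⁻¹) := by simp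
    rw [this]
    exact hmem _ (P4_conj g a' h1)
  refine ⟨V₀, ?_⟩
  by_contra hcon
  push Not at hcon
  have hall : ∀ W : Subgroup (PSL(2, F)), IsKleinFour W → Cj V₀ W := fun W hW => hcon W hV₀ hW
  have h12 := card_normalizer_of_all_conj hodd V₀ hV₀ hall
  have h24 : Nat.card ψ.range = 24 := by
    rw [← Nat.card_congr (MonoidHom.ofInjective hψ).toEquiv, Nat.card_eq_fintype_card, Fintype.card_perm, Fintype.card_fin]
    rfl
  have hd := Subgroup.card_dvd_of_le hrange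
  rw [h24, h12] at hd
  omega

end Cfsg.Agent.Lib.PSL2V4b
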