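/-
`PSL₃(4)`: involutions are conjugate, no elements of order fifteen.
-/
import Mathlib
import Cfsg.Agent.Lib.Transvection

set_option autoImplicit false
set_option linter.all false

open scoped MatrixGroups Matrix
open Finset

namespace Cfsg.Agent.Lib.PSL34

section Normal

variable {F : Type*} [Field F]

/-- The standard transvection. -/
def tMat : Matrix (Fin 3) (Fin 3) F := !![1, 0, 1; 0, 1, 0; 0, 0, 1]

/-- A matrix from three columns. -/
def colMat (u v w : Fin 3 → F) : Matrix (Fin 3) (Fin 3) F := Matrix.of fun i => ![u i, v i, w i]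

theorem colMat_mulVec (u v w x : Fin 3 → F) :
    colMat u v w *ᵥ x = x 0 • u + x 1 • v + x 2 • w := by
  funext i
  simp [colMat, Matrix.mulVec, dotProduct, Fin.sum_univ_three]
  ring

theorem colMat_smul_det (u v w : Fin 3 → F) (c : F) :
    (colMat u (c • v) w).det = c * (colMat u v w).det := by
  simp [colMat, Matrix.det_fin_three]
  ring

/-- Normal form of a matrix `h` with `(h - 1)² = 0`, `h ≠ 1`. -/
theorem exists_normal (h : SL(3, F)) (h0 : ((h : Matrix (Fin 3) (Fin 3) F) - 1) * ((h : Matrix (Fin 3) (Fin 3) F) - 1) = 0)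
    (hne : h ≠ 1) :
    ∃ P : SL(3, F), (h : Matrix (Fin 3) (Fin 3) F) * (P : Matrix (Fin 3) (Fin 3) F) =
      (P : Matrix (Fin 3) (Fin 3) F) * tMat := by
  set t : Matrix (Fin 3) (Fin 3) F := (h : Matrix (Fin 3) (Fin 3) F) - 1 with ht
  have hh : ∀ x, (h : Matrix (Fin 3) (Fin 3) F) *ᵥ x = x + t *ᵥ x := by
    intro x
    rw [ht, Matrix.sub_mulVec, Matrix.one_mulVec]
    abel
  have ht0 : t ≠ 0 := by
    intro h1
    apply hne
    apply Subtype.ext
    rw [ht, sub_eq_zero] at h1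
    exact h1
  -- a vector moved by `t`
  obtain ⟨x₀, hx₀⟩ : ∃ x, t *ᵥ x ≠ 0 := by
    by_contra hcon
    push Not at hcon
    apply ht0
    apply Cfsg.Agent.Lib.Transvection.matrix_ext_mulVec
    intro x
    rw [hcon, Matrix.zero_mulVec]
  set w := t *ᵥ x₀ with hw
  have htw : t *ᵥ w = 0 := by
    rw [hw, Matrix.mulVec_mulVec, h0, Matrix.zero_mulVec]
  -- dimensions
  set L := Matrix.mulVecLin t with hL
  have hle : LinearMap.range L ≤ LinearMap.ker L := by
    rintro _ ⟨y, rfl⟩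
    rw [LinearMap.mem_ker, hL, Matrix.mulVecLin_apply, Matrix.mulVecLin_apply, Matrix.mulVec_mulVec, h0,
      Matrix.zero_mulVec]
  have hdim := LinearMap.finrank_range_add_finrank_ker L
  have hV : Module.finrank F (Fin 3 → F) = 3 := by simp
  have h3 := Submodule.finrank_mono hle
  have hk : 2 ≤ Module.finrank F (LinearMap.ker L) := by omega
  -- a second vector in the kernel
  have hnot : ¬ LinearMap.ker L ≤ Submodule.span F {w} := by
    intro h4
    have h5 := Submodule.finrank_mono h4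
    have h6 : Module.finrank F (Submodule.span F {w}) ≤ 1 := (finrank_span_singleton hx₀).le
    omega
  obtain ⟨v, hv1, hv2⟩ := SetLike.not_le_iff_exists.1 hnot
  have htv : t *ᵥ v = 0 := hv1
  have hw0 : w ≠ 0 := hx₀
  -- invertibility of the matrix of columns
  set P₀ := colMat w v x₀ with hP₀
  have hinj : Function.Injective P₀.mulVec := by
    show Function.Injective (Matrix.mulVecLin P₀)
    rw [injective_iff_map_eq_zero (Matrix.mulVecLin P₀)]
    intro y hy
    have hy' : y 0 • w + y 1 • v + y 2 • x₀ = 0 := by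
      rw [← colMat_mulVec]
      exact hy
    have h7 : t *ᵥ (y 0 • w + y 1 • v + y 2 • x₀) = y 2 • w := by
      rw [Matrix.mulVec_add, Matrix.mulVec_add, Matrix.mulVec_smul, Matrix.mulVec_smul, Matrix.mulVec_smul,
        htw, htv]
      simp [hw]
    rw [hy', Matrix.mulVec_zero] at h7
    have hy2 : y 2 = 0 := by
      have := h7.symm
      rw [smul_eq_zero] at this
      exact this.resolve_right hw0
    rw [hy2, zero_smul, add_zero] at hy'
    have hy1 : y 1 = 0 := by
      by_contra hne1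
      apply hv2
      rw [Submodule.mem_span_singleton]
      refine ⟨- (y 1)⁻¹ * y 0, ?_⟩
      have : y 1 • v = - (y 0 • w) := by
        rw [eq_neg_iff_add_eq_zero, add_comm]
        exact hy'
      calc (- (y 1)⁻¹ * y 0) • w = (y 1)⁻¹ • (- (y 0 • w)) := by
            rw [smul_neg, smul_smul]
            simp
        _ = (y 1)⁻¹ • (y 1 • v) := by rw [this]
        _ = v := by rw [smul_smul, inv_mul_cancel₀ hne1, one_smul]
    rw [hy1, zero_smul, add_zero, smul_eq_zero] at hy'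
    have hy0 : y 0 = 0 := hy'.resolve_right hw0
    funext i
    fin_cases i
    · exact hy0
    · exact hy1
    · exact hy2
  have hdet : P₀.det ≠ 0 := by
    have := Matrix.mulVec_injective_iff_isUnit.1 hinj
    exact ((Matrix.isUnit_iff_isUnit_det _).1 this).ne_zero
  -- normalise the determinant
  set v' := (P₀.det)⁻¹ • v with hv'
  set P₁ := colMat w v' x₀ with hP₁
  have hdet1 : P₁.det = 1 := by
    rw [hP₁, hv', colMat_smul_det, ← hP₀, inv_mul_cancel₀ hdet]
  refine ⟨⟨P₁, hdet1⟩, ?_⟩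
  apply Cfsg.Agent.Lib.Transvection.matrix_ext_mulVec
  intro y
  have htv' : t *ᵥ v' = 0 := by
    rw [hv', Matrix.mulVec_smul, htv, smul_zero]
  change ((h : Matrix (Fin 3) (Fin 3) F) * P₁) *ᵥ y = (P₁ * tMat) *ᵥ y
  have e : t *ᵥ (y 0 • w + y 1 • v' + y 2 • x₀) = y 2 • w := by
    simp only [Matrix.mulVec_add, Matrix.mulVec_smul, htw, htv', ← hw, smul_zero, zero_add]
  rw [← Matrix.mulVec_mulVec, ← Matrix.mulVec_mulVec, hh, hP₁, colMat_mulVec, colMat_mulVec, e]
  have h8 : (tMat (F := F) *ᵥ y) 0 = y 0 + y 2 := by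
    simp [tMat, Matrix.mulVec, dotProduct, Fin.sum_univ_three]
  have h9 : (tMat (F := F) *ᵥ y) 1 = y 1 := by
    simp [tMat, Matrix.mulVec, dotProduct, Fin.sum_univ_three]
  have h10 : (tMat (F := F) *ᵥ y) 2 = y 2 := by
    simp [tMat, Matrix.mulVec, dotProduct, Fin.sum_univ_three]
  rw [h8, h9, h10, add_smul]
  abel

theorem isConj_of_normal (h h' : SL(3, F))
    (h0 : ((h : Matrix (Fin 3) (Fin 3) F) - 1) * ((h : Matrix (Fin 3) (Fin 3) F) - 1) = 0) (hne : h ≠ 1)
    (h0' : ((h' : Matrix (Fin 3) (Fin 3) F) - 1) * ((h' : Matrix (Fin 3) (Fin 3) F) - 1) = 0) (hne' : h' ≠ 1) :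
    IsConj h h' := by
  obtain ⟨P, hP⟩ := exists_normal h h0 hne
  obtain ⟨P', hP'⟩ := exists_normal h' h0' hne'
  rw [isConj_iff]
  refine ⟨P' * P⁻¹, ?_⟩
  apply Subtype.ext
  -- matrices
  have h1 : (h : Matrix (Fin 3) (Fin 3) F) = (P : Matrix (Fin 3) (Fin 3) F) * tMat * ((P⁻¹ : SL(3, F)) : Matrix (Fin 3) (Fin 3) F) := by
    rw [← hP, mul_assoc, ← Matrix.SpecialLinearGroup.coe_mul, mul_inv_cancel]
    simp
  have h2 : ((P'⁻¹ : SL(3, F)) : Matrix (Fin 3) (Fin 3) F) * (h' : Matrix (Fin 3) (Fin 3) F) * (P' : Matrix (Fin 3) (Fin 3) F) = tMat := by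
    rw [mul_assoc, hP', ← mul_assoc, ← Matrix.SpecialLinearGroup.coe_mul, inv_mul_cancel]
    simp
  have h3 : (h' * (P' * P⁻¹) : SL(3, F)) = (P' * P⁻¹) * h := by
    apply Subtype.ext
    simp only [Matrix.SpecialLinearGroup.coe_mul]
    rw [h1]
    have h4 : (P⁻¹ : SL(3, F)).1 * (P : Matrix (Fin 3) (Fin 3) F) = 1 := by
      rw [← Matrix.SpecialLinearGroup.coe_mul, inv_mul_cancel]
      simp
    calc (h' : Matrix (Fin 3) (Fin 3) F) * (P'.1 * (P⁻¹ : SL(3, F)).1) = ((h' : Matrix (Fin 3) (Fin 3) F) * P'.1) * (P⁻¹ : SL(3, F)).1 := by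
          rw [mul_assoc]
      _ = (P'.1 * tMat) * (P⁻¹ : SL(3, F)).1 := by rw [hP']
      _ = P'.1 * (P⁻¹ : SL(3, F)).1 * (P.1 * tMat * (P⁻¹ : SL(3, F)).1) := by
          simp only [mul_assoc]
          rw [← mul_assoc (P⁻¹ : SL(3, F)).1 P.1, h4, one_mul]
  have h5 : (P' * P⁻¹) * h * (P' * P⁻¹)⁻¹ = h' := by
    rw [← h3]
    group
  exact congrArg Subtype.val h5

end Normal

section Main

variable {F : Type*} [Field F] [Fintype F]

theorem two_eq (hF : Fintype.card F = 4) : (2 : F) = 0 := by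
  have h1 := FiniteField.cast_card_eq_zero F
  rw [hF] at h1
  have h2 : (2 : F) * 2 = 0 := by
    have : (2 : F) * 2 = ((4 : ℕ) : F) := by norm_num
    rw [this, h1]
  exact mul_self_eq_zero.1 h2

theorem central_cube (z : SL(3, F)) (hz : z ∈ Subgroup.center SL(3, F)) : z ^ 3 = 1 := by
  obtain ⟨r, hr, hz'⟩ := Matrix.SpecialLinearGroup.mem_center_iff.1 hz
  rw [Fintype.card_fin] at hr
  apply Subtype.ext
  simp only [Matrix.SpecialLinearGroup.coe_pow, Matrix.SpecialLinearGroup.coe_one]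
  rw [← hz', ← map_pow, hr, map_one]

/-- Lift of an involution of `PSL₃(4)`. -/
theorem exists_lift (hF : Fintype.card F = 4) (x : Matrix.ProjectiveSpecialLinearGroup (Fin 3) F)
    (hx : orderOf x = 2) :
    ∃ h : SL(3, F), QuotientGroup.mk h = x ∧
      ((h : Matrix (Fin 3) (Fin 3) F) - 1) * ((h : Matrix (Fin 3) (Fin 3) F) - 1) = 0 ∧ h ≠ 1 := by
  obtain ⟨g, rfl⟩ := QuotientGroup.mk_surjective x
  have hx2 : (QuotientGroup.mk g : Matrix.ProjectiveSpecialLinearGroup (Fin 3) F) ^ 2 = 1 := by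
    rw [← hx]
    exact pow_orderOf_eq_one _
  have hg2 : g ^ 2 ∈ Subgroup.center SL(3, F) := by
    rw [← QuotientGroup.eq_one_iff]
    rw [QuotientGroup.mk_pow]
    exact hx2
  have hcube := central_cube _ hg2
  refine ⟨g ^ 3, ?_, ?_, ?_⟩
  · rw [QuotientGroup.mk_pow, pow_succ, hx2, one_mul]
  · have h1 : (g ^ 3) * (g ^ 3) = 1 := by
      rw [← hcube]
      group
    have h2 : ((g ^ 3 : SL(3, F)) : Matrix (Fin 3) (Fin 3) F) * ((g ^ 3 : SL(3, F)) : Matrix (Fin 3) (Fin 3) F) = 1 := by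
      rw [← Matrix.SpecialLinearGroup.coe_mul, h1]
      simp
    have h3 : ((2 : F) • (1 : Matrix (Fin 3) (Fin 3) F)) = 0 := by
      rw [two_eq hF, zero_smul]
    set M : Matrix (Fin 3) (Fin 3) F := ((g ^ 3 : SL(3, F)) : Matrix (Fin 3) (Fin 3) F) with hM
    have h4 : (M - 1) * (M - 1) = M * M - (2 : F) • M + 1 := by
      rw [two_smul]
      noncomm_ring
    rw [h4, h2, two_eq hF, zero_smul, sub_zero]
    have h5 : (1 : Matrix (Fin 3) (Fin 3) F) + 1 = (2 : F) • 1 := by
      rw [two_smul]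
    rw [h5, h3]
  · intro h1
    have h2 : (QuotientGroup.mk g : Matrix.ProjectiveSpecialLinearGroup (Fin 3) F) = 1 := by
      have h3 : (QuotientGroup.mk (g ^ 3) : Matrix.ProjectiveSpecialLinearGroup (Fin 3) F) = 1 := by
        rw [h1]
        rfl
      rw [QuotientGroup.mk_pow, pow_succ, hx2, one_mul] at h3
      exact h3
    rw [h2, orderOf_one] at hx
    omega

/-- Any two involutions of `PSL₃(4)` are conjugate. -/
theorem involutions_conj (hF : Fintype.card F = 4) (x y : Matrix.ProjectiveSpecialLinearGroup (Fin 3) F)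
    (hx : orderOf x = 2) (hy : orderOf y = 2) : IsConj x y := by
  obtain ⟨h, rfl, h0, hne⟩ := exists_lift hF x hx
  obtain ⟨h', rfl, h0', hne'⟩ := exists_lift hF y hy
  have := isConj_of_normal h h' h0 hne h0' hne'
  exact MonoidHom.map_isConj (QuotientGroup.mk' (Subgroup.center SL(3, F))) this

end Main

end Cfsg.Agent.Lib.PSL34
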