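/-
`PSL₃(4)` has no element of order fifteen.
-/
import Mathlib
import Cfsg.Agent.Lib.F4Model

set_option autoImplicit false
set_option linter.all false

open scoped MatrixGroups Matrix
open Finset
open Cfsg.Agent.Lib.F4Model

namespace Cfsg.Agent.Lib.PSL34b

/-- Cayley-Hamilton in size three. -/
theorem cayley3 {R : Type*} [CommRing R] (M : Matrix (Fin 3) (Fin 3) R) :
    M * M * M = M.trace • (M * M) -
      (M 0 0 * M 1 1 - M 0 1 * M 1 0 + (M 0 0 * M 2 2 - M 0 2 * M 2 0) + (M 1 1 * M 2 2 - M 1 2 * M 2 1)) • M +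
      M.det • 1 := by
  ext i j
  fin_cases i <;> fin_cases j <;>
    simp [Matrix.mul_apply, Fin.sum_univ_three, Matrix.det_fin_three, Matrix.trace, Matrix.add_apply,
      Matrix.sub_apply, Matrix.smul_apply, Matrix.one_apply] <;> ring

/-- Multiplication by `x` in `K₄[x]/(x³ + a x² + b x + 1)`. -/
def stepK (a b : K4) (t : K4 × K4 × K4) : K4 × K4 × K4 :=
  (t.2.2, t.1 + t.2.2 * b, t.2.1 + t.2.2 * a)

/-- The powers of `x`. -/
def triK (a b : K4) : ℕ → K4 × K4 × K4
  | 0 => (1, 0, 0)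
  | k + 1 => stepK a b (triK a b k)

theorem check : ∀ a b : K4, (triK a b 3).2 = (0, 0) ∨ (triK a b 4).2 = (0, 0) ∨
    (triK a b 5).2 = (0, 0) ∨ (triK a b 21).2 = (0, 0) := by
  decide

theorem neg_K4 (x : K4) : - x = x := rfl

theorem pow_tri (M : Matrix (Fin 3) (Fin 3) K4) (a b : K4)
    (h3 : M * M * M = a • (M * M) + b • M + 1) (k : ℕ) :
    M ^ k = (triK a b k).1 • 1 + (triK a b k).2.1 • M + (triK a b k).2.2 • (M * M) := by
  induction k with
  | zero =>
    simp [triK]
  | succ k ih =>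
    rw [pow_succ, ih, show triK a b (k + 1) = stepK a b (triK a b k) from rfl]
    obtain ⟨c₀, c₁, c₂⟩ := triK a b k
    simp only [stepK]
    rw [add_mul, add_mul, smul_mul_assoc, smul_mul_assoc, smul_mul_assoc, one_mul, h3]
    simp only [smul_add, smul_smul, add_smul, mul_one]
    abel_nf

/-- Some power is scalar. -/
theorem exists_scalar_pow (M : Matrix (Fin 3) (Fin 3) K4) (hd : M.det = 1) :
    ∃ k ∈ ({3, 4, 5, 21} : Finset ℕ), ∃ c : K4, M ^ k = c • 1 := by
  set a := M.trace with ha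
  set b := (M 0 0 * M 1 1 - M 0 1 * M 1 0 + (M 0 0 * M 2 2 - M 0 2 * M 2 0) + (M 1 1 * M 2 2 - M 1 2 * M 2 1)) with hb
  have h3 : M * M * M = a • (M * M) + b • M + 1 := by
    rw [cayley3, hd, one_smul, sub_eq_add_neg, ← neg_smul, ← ha, ← hb, neg_K4]
  have key : ∀ k, (triK a b k).2 = (0, 0) → M ^ k = (triK a b k).1 • 1 := by
    intro k hk
    rw [pow_tri M a b h3 k]
    have h1 : (triK a b k).2.1 = 0 := congrArg Prod.fst hk
    have h2 : (triK a b k).2.2 = 0 := congrArg Prod.snd hk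
    rw [h1, h2]
    simp
  rcases check a b with h | h | h | h
  · exact ⟨3, by simp, _, key 3 h⟩
  · exact ⟨4, by simp, _, key 4 h⟩
  · exact ⟨5, by simp, _, key 5 h⟩
  · exact ⟨21, by simp, _, key 21 h⟩

variable {F : Type*} [Field F] [Fintype F]

theorem no_order15 (hF : Fintype.card F = 4) (x : Matrix.ProjectiveSpecialLinearGroup (Fin 3) F) :
    orderOf x ≠ 15 := by
  intro hx
  obtain ⟨g, rfl⟩ := QuotientGroup.mk_surjective x
  set e := equivK4 hF with he
  have hd : (g.1.map e).det = 1 := by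
    have : (g.1.map e).det = e g.1.det := (RingHom.map_det (e : F →+* K4) g.1).symm
    rw [this, g.2, map_one]
  obtain ⟨k, hk, c, hc⟩ := exists_scalar_pow _ hd
  have hgk : ((g ^ k : SL(3, F)) : Matrix (Fin 3) (Fin 3) F) = (e.symm c) • 1 := by
    ext i j
    apply e.injective
    have h1 := congrFun (congrFun hc i) j
    have h2 : ((g ^ k : SL(3, F)) : Matrix (Fin 3) (Fin 3) F).map e = (g.1.map e) ^ k := by
      rw [Matrix.SpecialLinearGroup.coe_pow]
      exact map_pow (RingHom.mapMatrix (e : F →+* K4)) g.1 k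
    rw [← h2] at h1
    change e (((g ^ k : SL(3, F)) : Matrix (Fin 3) (Fin 3) F) i j) = _ at h1
    rw [h1]
    by_cases hij : i = j
    · subst hij
      simp
    · simp [Matrix.one_apply, hij]
  have hcen : g ^ k ∈ Subgroup.center SL(3, F) := by
    rw [Matrix.SpecialLinearGroup.mem_center_iff]
    refine ⟨e.symm c, ?_, ?_⟩
    · have h2 := (g ^ k : SL(3, F)).2
      rw [hgk] at h2
      simpa [Matrix.det_smul] using h2
    · rw [hgk]
      ext i j
      simp [Matrix.smul_apply, Matrix.one_apply, Matrix.scalar_apply, Matrix.diagonal_apply]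
  have h1 : (QuotientGroup.mk g : Matrix.ProjectiveSpecialLinearGroup (Fin 3) F) ^ k = 1 := by
    rw [← QuotientGroup.mk_pow]
    exact (QuotientGroup.eq_one_iff _).2 hcen
  have h2 := orderOf_dvd_of_pow_eq_one h1
  rw [hx] at h2
  simp only [mem_insert, mem_singleton] at hk
  rcases hk with rfl | rfl | rfl | rfl <;> omega

end Cfsg.Agent.Lib.PSL34b
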