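import Mathlib
import Cfsg.Agent.Lib.OmegaIso
import Cfsg.Agent.Lib.OmegaSix

/-! `PΩ₆⁺(2) ≅ A₈` through the even part of the permutation module of `S₈`, and so `PSL₄(2) ≅ A₈`. -/

set_option autoImplicit false
set_option linter.all false

namespace Cfsg.Agent.Lib.PSL4A8

open Cfsg Cfsg.Geo Cfsg.Agent.Lib.OmegaIso

abbrev V8 := Fin 8 → ZMod 2
abbrev V6 := Fin 3 ⊕ Fin 3 → ZMod 2

def eV : Fin 3 → V8 := ![![1,1,1,1,0,0,0,0], ![1,0,0,1,1,1,0,0], ![0,0,1,1,1,0,1,0]]
def fV : Fin 3 → V8 := ![![1,1,1,0,1,0,0,0], ![0,1,0,1,1,1,0,0], ![1,1,0,0,0,1,1,0]]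

def dot8 (x y : V8) : ZMod 2 := ∑ j, x j * y j

def matF (v : V6) : V8 := fun j => ∑ i, (v (.inl i) * eV i j + v (.inr i) * fV i j)
def vecF (w : V8) : V6 := Sum.elim (fun i => dot8 (fV i) w) (fun i => dot8 (eV i) w)

def wt (w : V8) : ℕ := (Finset.univ.filter (fun i => w i = 1)).card

set_option maxRecDepth 100000 in
theorem h_even : ∀ w : V8, (∑ i, w i = 0) → matF (vecF w) = w ∨ matF (vecF w) = w + 1 := by
  decide +kernel

set_option maxRecDepth 100000 in
theorem h_vm : ∀ v : V6, vecF (matF v) = v := by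
  decide +kernel

set_option maxRecDepth 100000 in
theorem h_Q : ∀ w : V8, (∑ i, w i = 0) →
    (∑ i, vecF w (.inl i) * vecF w (.inr i)) = ((wt w / 2 : ℕ) : ZMod 2) := by
  decide +kernel

set_option maxRecDepth 100000 in
theorem h_sum : ∀ v : V6, ∑ i, matF v i = 0 := by
  decide +kernel

set_option maxRecDepth 100000 in
theorem h_one : vecF (fun _ => 1) = 0 := by
  decide +kernel

/-- Two-point vectors. -/
def pr (a b : Fin 8) : V8 := fun i => (if i = a then 1 else 0) + (if i = b then 1 else 0)

set_option maxRecDepth 100000 in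
theorem h_pair : ∀ a b c d : Fin 8, a ≠ b → c ≠ d → vecF (pr a b) = vecF (pr c d) →
    (a = c ∧ b = d) ∨ (a = d ∧ b = c) := by
  decide +kernel

set_option maxRecDepth 100000 in
theorem h_prsum : ∀ a b : Fin 8, ∑ i, pr a b i = 0 := by
  decide +kernel

theorem vecF_add (x y : V8) : vecF (x + y) = vecF x + vecF y := by
  ext i
  rcases i with i | i <;>
  · simp only [vecF, dot8, Sum.elim_inl, Sum.elim_inr, Pi.add_apply, mul_add, Finset.sum_add_distrib]

theorem vecF_smul (c : ZMod 2) (x : V8) : vecF (c • x) = c • vecF x := by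
  ext i
  rcases i with i | i <;>
  · simp only [vecF, dot8, Sum.elim_inl, Sum.elim_inr, Pi.smul_apply, smul_eq_mul, Finset.mul_sum]
    exact Finset.sum_congr rfl (fun _ _ => by ring)

theorem matF_add (x y : V6) : matF (x + y) = matF x + matF y := by
  ext j
  simp only [matF, Pi.add_apply, ← Finset.sum_add_distrib]
  exact Finset.sum_congr rfl (fun _ _ => by ring)

theorem matF_smul (c : ZMod 2) (x : V6) : matF (c • x) = c • matF x := by
  ext j
  simp only [matF, Pi.smul_apply, smul_eq_mul, Finset.mul_sum]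
  exact Finset.sum_congr rfl (fun _ _ => by ring)

/-- Linear versions. -/
def vecL : V8 →ₗ[ZMod 2] V6 where
  toFun := vecF
  map_add' := vecF_add
  map_smul' := vecF_smul

def matL : V6 →ₗ[ZMod 2] V8 where
  toFun := matF
  map_add' := matF_add
  map_smul' := matF_smul

/-- Permuting coordinates. -/
def permT : Equiv.Perm (Fin 8) →* Module.End (ZMod 2) V8 where
  toFun g :=
    { toFun := fun w i => w (g⁻¹ i)
      map_add' := fun _ _ => rfl
      map_smul' := fun _ _ => rfl }
  map_one' := by
    apply LinearMap.ext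
    intro w
    rfl
  map_mul' g h := by
    apply LinearMap.ext
    intro w
    rfl

theorem permT_apply (g : Equiv.Perm (Fin 8)) (w : V8) (i : Fin 8) : permT g w i = w (g⁻¹ i) := rfl

theorem sum_permT (g : Equiv.Perm (Fin 8)) (w : V8) : ∑ i, permT g w i = ∑ i, w i :=
  Equiv.sum_comp g⁻¹ w

theorem wt_permT (g : Equiv.Perm (Fin 8)) (w : V8) : wt (permT g w) = wt w := by
  unfold wt
  apply Finset.card_bij (fun i _ => g⁻¹ i)
  · intro a ha
    exact Finset.mem_filter.2 ⟨Finset.mem_univ _, (Finset.mem_filter.1 ha).2⟩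
  · intro a _ b _ h
    exact g⁻¹.injective h
  · intro b hb
    refine ⟨g b, ?_, by simp⟩
    refine Finset.mem_filter.2 ⟨Finset.mem_univ _, ?_⟩
    rw [permT_apply, Equiv.Perm.inv_def, Equiv.symm_apply_apply]
    exact (Finset.mem_filter.1 hb).2

theorem permT_one (g : Equiv.Perm (Fin 8)) : permT g (fun _ => 1) = fun _ => 1 := rfl

theorem vec_perm_mat (g : Equiv.Perm (Fin 8)) (w : V8) (hw : ∑ i, w i = 0) :
    vecF (permT g (matF (vecF w))) = vecF (permT g w) := by
  rcases h_even w hw with h | h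
  · rw [h]
  · rw [h, map_add]
    have : vecF (permT g w + permT g 1) = vecF (permT g w) + vecF (permT g 1) := vecF_add _ _
    rw [this]
    have h2 : permT g (1 : V8) = fun _ => 1 := rfl
    rw [h2, h_one, add_zero]

/-- The representation on the six-dimensional space. -/
def repL : Equiv.Perm (Fin 8) →* Module.End (ZMod 2) V6 where
  toFun g := vecL ∘ₗ permT g ∘ₗ matL
  map_one' := by
    apply LinearMap.ext
    intro v
    show vecF (permT 1 (matF v)) = v
    rw [map_one]
    exact h_vm v
  map_mul' g h := by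
    apply LinearMap.ext
    intro v
    show vecF (permT (g * h) (matF v)) = vecF (permT g (matF (vecF (permT h (matF v)))))
    rw [vec_perm_mat g _ (by rw [sum_permT]; exact h_sum v), map_mul]
    rfl

theorem repL_apply (g : Equiv.Perm (Fin 8)) (v : V6) : repL g v = vecF (permT g (matF v)) := rfl

theorem repL_isom (g : Equiv.Perm (Fin 8)) (v : V6) :
    quadFormPlus 3 (ZMod 2) (repL g v) = quadFormPlus 3 (ZMod 2) v := by
  unfold quadFormPlus
  rw [repL_apply, h_Q _ (by rw [sum_permT]; exact h_sum v), wt_permT, ← h_Q _ (h_sum v), h_vm]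

theorem eq_one_of_fix (g : Equiv.Perm (Fin 8)) (h : ∀ v, repL g v = v) : g = 1 := by
  have h1 : ∀ a b : Fin 8, a ≠ b → (g a = a ∧ g b = b) ∨ (g a = b ∧ g b = a) := by
    intro a b hab
    have h2 := h (vecF (pr a b))
    rw [repL_apply, vec_perm_mat g _ (h_prsum a b)] at h2
    have h3 : permT g (pr a b) = pr (g a) (g b) := by
      ext i
      simp only [permT_apply, pr, Equiv.Perm.inv_def, Equiv.symm_apply_eq]
    rw [h3] at h2
    exact h_pair _ _ _ _ (fun e => hab (g.injective e)) hab h2
  apply Equiv.ext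
  intro i
  rw [Equiv.Perm.one_apply]
  by_contra hne
  obtain ⟨j, hj1, hj2⟩ : ∃ j : Fin 8, j ≠ i ∧ j ≠ g i := by
    clear hne
    generalize g i = k
    clear h1 h g
    revert i k
    decide
  rcases h1 i j hj1.symm with ⟨h3, _⟩ | ⟨h3, _⟩
  · exact hne h3
  · exact hj2 h3.symm

/-- The main isomorphism over the field of two elements. -/
theorem main_z2 : Nonempty (POmega (ZMod 2) (quadFormPlus 3 (ZMod 2)) ≃* alternatingGroup (Fin 8)) := by
  classical
  have h5 : 5 ≤ Nat.card (Fin 8) := by simp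
  haveI : IsSimpleGroup (alternatingGroup (Fin 8)) := alternatingGroup.isSimpleGroup h5
  have hperf : commutator (alternatingGroup (Fin 8)) = ⊤ := commutator_alternatingGroup_eq_top h5
  have hQ : IsNondegenerateQuadraticForm (quadFormPlus 3 (ZMod 2)) :=
    Cfsg.Agent.Lib.QuadPlus.quadFormPlus_nondeg 3
  let ρ : alternatingGroup (Fin 8) →* isometryGroup (ZMod 2) (quadFormPlus 3 (ZMod 2)) :=
    (repIsom repL repL_isom).comp (alternatingGroup (Fin 8)).subtype
  have hker : ρ.ker = ⊥ := by
    rw [eq_bot_iff]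
    intro g hg
    have h1 : (g : Equiv.Perm (Fin 8)) ∈ (repIsom repL repL_isom).ker := hg
    rw [mem_ker_repIsom] at h1
    rw [Subgroup.mem_bot]
    exact Subtype.ext (eq_one_of_fix _ h1)
  have hr : ρ.range = commutator (isometryGroup (ZMod 2) (quadFormPlus 3 (ZMod 2))) := by
    refine range_eq_of_card ρ (range_le_of_perfect ρ hperf)
      (index_char2 hQ (by simp) (by decide) (by right; simp)) (by norm_num) ?_
    rw [hker, Subgroup.card_bot, Cfsg.Agent.Lib.OrthFam.card_plus (F := ZMod 2) (q := 2) (by simp) 3 (by norm_num)]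
    rw [two_mul_nat_card_alternatingGroup, Nat.card_eq_fintype_card, Fintype.card_perm, Fintype.card_fin]
    decide
  exact pomega_equiv ρ (MonoidHom.id _) Function.surjective_id
    (center_eq_bot_of_simple hperf) (by rw [hker]; exact bot_le)
    (by
      rw [MonoidHom.ker_id]
      exact bot_le) hr

/-- The commutator subgroup itself. -/
theorem omega_z2 : (Omega (ZMod 2) (quadFormPlus 3 (ZMod 2))).index = 2 ∧
    Nonempty (↥(Omega (ZMod 2) (quadFormPlus 3 (ZMod 2))) ≃* alternatingGroup (Fin 8)) := by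
  classical
  have h5 : 5 ≤ Nat.card (Fin 8) := by simp
  have hperf : commutator (alternatingGroup (Fin 8)) = ⊤ := commutator_alternatingGroup_eq_top h5
  have hQ : IsNondegenerateQuadraticForm (quadFormPlus 3 (ZMod 2)) :=
    Cfsg.Agent.Lib.QuadPlus.quadFormPlus_nondeg 3
  let ρ : alternatingGroup (Fin 8) →* isometryGroup (ZMod 2) (quadFormPlus 3 (ZMod 2)) :=
    (repIsom repL repL_isom).comp (alternatingGroup (Fin 8)).subtype
  have hker : ρ.ker = ⊥ := by
    rw [eq_bot_iff]
    intro g hg
    have h1 : (g : Equiv.Perm (Fin 8)) ∈ (repIsom repL repL_isom).ker := hg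
    rw [mem_ker_repIsom] at h1
    rw [Subgroup.mem_bot]
    exact Subtype.ext (eq_one_of_fix _ h1)
  have hidx : (commutator (isometryGroup (ZMod 2) (quadFormPlus 3 (ZMod 2)))).index = 2 :=
    index_char2 hQ (by simp) (by decide) (by right; simp)
  have hr : ρ.range = commutator (isometryGroup (ZMod 2) (quadFormPlus 3 (ZMod 2))) := by
    refine range_eq_of_card ρ (range_le_of_perfect ρ hperf) hidx (by norm_num) ?_
    rw [hker, Subgroup.card_bot, Cfsg.Agent.Lib.OrthFam.card_plus (F := ZMod 2) (q := 2) (by simp) 3 (by norm_num)]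
    rw [two_mul_nat_card_alternatingGroup, Nat.card_eq_fintype_card, Fintype.card_perm, Fintype.card_fin]
    decide
  refine ⟨hidx, ⟨?_⟩⟩
  have hinj : Function.Injective ρ := (MonoidHom.ker_eq_bot_iff ρ).1 hker
  exact ((MonoidHom.ofInjective hinj).trans (MulEquiv.subgroupCongr hr)).symm

/-- Transport of `PSL` along a ring isomorphism. -/
theorem psl_congr {F K : Type*} [Field F] [Field K] (n : ℕ) (e : F ≃+* K) :
    Nonempty (Matrix.ProjectiveSpecialLinearGroup (Fin n) F ≃* Matrix.ProjectiveSpecialLinearGroup (Fin n) K) := by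
  let f : Matrix.SpecialLinearGroup (Fin n) F →* Matrix.SpecialLinearGroup (Fin n) K :=
    Matrix.SpecialLinearGroup.map (e : F →+* K)
  let g : Matrix.SpecialLinearGroup (Fin n) K →* Matrix.SpecialLinearGroup (Fin n) F :=
    Matrix.SpecialLinearGroup.map (e.symm : K →+* F)
  have h1 : g.comp f = MonoidHom.id _ := by
    ext x i j
    exact e.symm_apply_apply _
  have h2 : f.comp g = MonoidHom.id _ := by
    ext x i j
    exact e.apply_symm_apply _
  let E := MonoidHom.toMulEquiv f g h1 h2
  have hc : (Subgroup.center (Matrix.SpecialLinearGroup (Fin n) F)).map E.toMonoidHom =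
      Subgroup.center (Matrix.SpecialLinearGroup (Fin n) K) := by
    ext x
    constructor
    · rintro ⟨y, hy, rfl⟩
      have hy := Subgroup.mem_center_iff.1 hy
      rw [Subgroup.mem_center_iff]
      intro z
      obtain ⟨w, rfl⟩ := E.surjective z
      have := hy w
      show E w * E y = E y * E w
      rw [← map_mul, ← map_mul, this]
    · intro hx
      refine ⟨E.symm x, ?_, by simp⟩
      have hx := Subgroup.mem_center_iff.1 hx
      refine Subgroup.mem_center_iff.2 ?_
      intro z
      apply E.injective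
      rw [map_mul, map_mul, E.apply_symm_apply]
      exact hx _
  exact ⟨QuotientGroup.congr _ _ E hc⟩

theorem main {F : Type*} [Field F] [Fintype F] (hF : Fintype.card F = 2) :
    Nonempty (Matrix.ProjectiveSpecialLinearGroup (Fin 4) F ≃* alternatingGroup (Fin 8)) := by
  classical
  haveI : Fact (Nat.Prime 2) := ⟨Nat.prime_two⟩
  haveI : CharP F 2 := charP_of_card_eq_prime hF
  obtain ⟨e1⟩ := psl_congr 4 (ZMod.ringEquivOfPrime F Nat.prime_two hF)
  obtain ⟨e2⟩ := Cfsg.Agent.Lib.OmegaSix.main (F := ZMod 2)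
  obtain ⟨e3⟩ := main_z2
  exact ⟨e1.symm.trans (e2.symm.trans e3)⟩

end Cfsg.Agent.Lib.PSL4A8
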