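/-
Elements commuting with a unipotent element of `PSL_n`.
-/
import Mathlib
import Cfsg.Agent.Lib.SLn

set_option autoImplicit false
set_option linter.all false

open scoped MatrixGroups Matrix

namespace Cfsg.Agent.Lib.PSLCommute

variable {F : Type*} [Field F] [Fintype F] {p r : ℕ} [Fact p.Prime] [CharP F p] {n : ℕ}

theorem not_dvd_card (hr : r.Prime) (hrp : r ≠ p) : ¬ r ∣ Fintype.card F := by
  obtain ⟨k, hpp, hcard⟩ := FiniteField.card F p
  intro h
  rw [hcard] at h
  exact hrp ((Nat.prime_dvd_prime_iff_eq hr hpp).1 (hr.dvd_of_dvd_pow h))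

/-- Counting fixed points on an invariant subspace. -/
theorem exists_pow_of_invariant (hr : r.Prime) (hrp : r ≠ p) {V : Type*} [AddCommGroup V] [Module F V] [Finite V]
    (Y : V →ₗ[F] V) (hY : Y ^ r = 1) (S : Submodule F V) (hS : ∀ v ∈ S, Y v ∈ S) (hne : ∃ v ∈ S, Y v ≠ v) :
    Module.finrank F (S ⊓ LinearMap.ker (Y - LinearMap.id) : Submodule F V) < Module.finrank F S ∧
      r ∣ Fintype.card F ^ (Module.finrank F S - Module.finrank F (S ⊓ LinearMap.ker (Y - LinearMap.id) : Submodule F V)) - 1 := by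
  classical
  haveI : Fact r.Prime := ⟨hr⟩
  haveI : Module.Finite F V := Module.Finite.of_finite
  let T : Submodule F V := S ⊓ LinearMap.ker (Y - LinearMap.id)
  let f : Function.End S := fun x => ⟨Y x, hS x x.2⟩
  have hpow : ∀ (k : ℕ) (x : S), (((f ^ k) x : S) : V) = (Y ^ k) x := by
    intro k
    induction k with
    | zero => intro x; rfl
    | succ k ih =>
      intro x
      rw [pow_succ, pow_succ]
      show (((f ^ k) (f x) : S) : V) = (Y ^ k) (Y x)
      rw [ih]
  have hf : f ^ r ^ 1 = 1 := by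
    rw [pow_one]
    funext x
    apply Subtype.ext
    rw [hpow, hY]
    rfl
  letI : Fintype S := Fintype.ofFinite _
  have hm := Equiv.Perm.card_fixedPoints_modEq hf
  have hfix : Nat.card (Function.fixedPoints f) = Nat.card T := by
    refine Nat.card_congr ⟨fun x => ⟨x.1.1, x.1.2, ?_⟩, fun x => ⟨⟨x.1, x.2.1⟩, ?_⟩, fun x => rfl, fun x => rfl⟩
    · have h3 : f x.1 = x.1 := x.2
      have h4 : Y x.1.1 = x.1.1 := congrArg Subtype.val h3
      show (Y - LinearMap.id : V →ₗ[F] V) x.1.1 = 0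
      simp [h4]
    · apply Subtype.ext
      have h3 : (Y - LinearMap.id : V →ₗ[F] V) x.1 = 0 := x.2.2
      have h4 : Y x.1 = x.1 := by
        simpa [sub_eq_zero] using h3
      exact h4
  rw [← Nat.card_eq_fintype_card, ← Nat.card_eq_fintype_card, hfix, Module.natCard_eq_pow_finrank (K := F) (V := S), Module.natCard_eq_pow_finrank (K := F) (V := T),
    Nat.card_eq_fintype_card (α := F)] at hm
  have hlt : Module.finrank F T < Module.finrank F S := by
    apply Submodule.finrank_lt_finrank_of_lt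
    refine lt_of_le_of_ne inf_le_left ?_
    intro h
    obtain ⟨v, hv, hv'⟩ := hne
    have h3 : v ∈ T := by
      rw [h]
      exact hv
    have h4 : (Y - LinearMap.id : V →ₗ[F] V) v = 0 := h3.2
    apply hv'
    simpa [sub_eq_zero] using h4
  refine ⟨hlt, ?_⟩
  have hq : ¬ r ∣ Fintype.card F := not_dvd_card (p := p) hr hrp
  have hq1 : 1 ≤ Fintype.card F := Fintype.card_pos
  have h5 : Fintype.card F ^ Module.finrank F T ≤ Fintype.card F ^ Module.finrank F S :=
    Nat.pow_le_pow_right hq1 hlt.le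
  have h6 := (Nat.modEq_iff_dvd' h5).1 hm.symm
  have h7 : Fintype.card F ^ Module.finrank F S - Fintype.card F ^ Module.finrank F T =
      Fintype.card F ^ Module.finrank F T * (Fintype.card F ^ (Module.finrank F S - Module.finrank F T) - 1) := by
    rw [Nat.mul_sub, mul_one, ← pow_add]
    congr 2
    omega
  rw [h7] at h6
  refine (Nat.Coprime.dvd_of_dvd_mul_left ?_ h6)
  exact Nat.Coprime.pow_right _ ((Nat.Prime.coprime_iff_not_dvd hr).2 hq)

/-- The exponent bound. -/
theorem key_exp (hr : r.Prime) (hrp : r ≠ p) (hn : 4 ≤ n) (M Y : Matrix (Fin n) (Fin n) F) (hM0 : M ≠ 0) (hMM : M * M = 0)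
    (hYM : Y * M = M * Y) (hYr : Y ^ r = 1) (hY1 : Y ≠ 1) :
    ∃ i, 1 ≤ i ∧ i ≤ n - 2 ∧ r ∣ Fintype.card F ^ i - 1 := by
  classical
  let M' : (Fin n → F) →ₗ[F] (Fin n → F) := M.mulVecLin
  let Y' : (Fin n → F) →ₗ[F] (Fin n → F) := Y.mulVecLin
  have hMv : ∀ v, M' v = M *ᵥ v := fun v => rfl
  have hYv : ∀ v, Y' v = Y *ᵥ v := fun v => rfl
  have hYpow : ∀ k : ℕ, ∀ v, (Y' ^ k) v = (Y ^ k) *ᵥ v := by
    intro k
    induction k with
    | zero => intro v; simp
    | succ k ih =>
      intro v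
      rw [pow_succ, pow_succ, Module.End.mul_apply, ih, hYv, Matrix.mulVec_mulVec]
  have hY'r : Y' ^ r = 1 := by
    apply LinearMap.ext
    intro v
    rw [hYpow, hYr, Matrix.one_mulVec]
    rfl
  let I : Submodule F (Fin n → F) := LinearMap.range M'
  let W : Submodule F (Fin n → F) := LinearMap.ker M'
  have hIW : I ≤ W := by
    rintro _ ⟨v, rfl⟩
    show M' (M' v) = 0
    rw [hMv, hMv, Matrix.mulVec_mulVec, hMM, Matrix.zero_mulVec]
  have hfin : Module.finrank F I + Module.finrank F W = n := by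
    have := LinearMap.finrank_range_add_finrank_ker M'
    rwa [Module.finrank_fin_fun] at this
  have hd : 1 ≤ Module.finrank F I := by
    rw [Submodule.one_le_finrank_iff]
    intro h
    apply hM0
    apply Matrix.ext_of_mulVec_single
    intro j
    have h3 : M' (Pi.single j 1) ∈ I := ⟨_, rfl⟩
    rw [h] at h3
    have h4 : M' (Pi.single j 1) = 0 := h3
    rw [hMv] at h4
    rw [h4, Matrix.zero_mulVec]
  have hle : Module.finrank F I ≤ Module.finrank F W := Submodule.finrank_mono hIW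
  have hcomm : ∀ v, M *ᵥ (Y *ᵥ v) = Y *ᵥ (M *ᵥ v) := by
    intro v
    rw [Matrix.mulVec_mulVec, Matrix.mulVec_mulVec, hYM]
  have hYI : ∀ v ∈ I, Y' v ∈ I := by
    rintro _ ⟨v, rfl⟩
    refine ⟨Y' v, ?_⟩
    rw [hMv, hYv, hYv, hMv, hcomm]
  have hYW : ∀ v ∈ W, Y' v ∈ W := by
    intro v hv
    have h3 : M *ᵥ v = 0 := hv
    show M *ᵥ (Y *ᵥ v) = 0
    rw [hcomm, h3, Matrix.mulVec_zero]
  by_cases hA : ∃ v ∈ I, Y' v ≠ v
  · obtain ⟨h1, h3⟩ := exists_pow_of_invariant (p := p) hr hrp Y' hY'r I hYI hA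
    refine ⟨_, ?_, ?_, h3⟩ <;> omega
  · push Not at hA
    by_cases hB : ∃ v ∈ W, Y' v ≠ v
    · obtain ⟨h1, h3⟩ := exists_pow_of_invariant (p := p) hr hrp Y' hY'r W hYW hB
      have h4 : Module.finrank F I ≤ Module.finrank F (W ⊓ LinearMap.ker (Y' - LinearMap.id) : Submodule F (Fin n → F)) := by
        apply Submodule.finrank_mono
        intro v hv
        refine ⟨hIW hv, ?_⟩
        show (Y' - LinearMap.id : (Fin n → F) →ₗ[F] (Fin n → F)) v = 0
        simp [hA v hv]
      refine ⟨_, ?_, ?_, h3⟩ <;> omega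
    · exfalso
      push Not at hB
      let D := Y - 1
      have hDD : D * D = 0 := by
        apply Matrix.ext_of_mulVec_single
        intro j
        rw [Matrix.zero_mulVec, ← Matrix.mulVec_mulVec]
        generalize (Pi.single j 1 : Fin n → F) = v
        have h1 : D *ᵥ v = Y *ᵥ v - v := by
          simp [D, Matrix.sub_mulVec]
        have h3 : D *ᵥ v ∈ W := by
          show M *ᵥ (D *ᵥ v) = 0
          rw [h1, Matrix.mulVec_sub, hcomm]
          have h4 : Y *ᵥ (M *ᵥ v) = M *ᵥ v := hA _ ⟨v, rfl⟩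
          rw [h4, sub_self]
        have h5 : Y *ᵥ (D *ᵥ v) = D *ᵥ v := hB _ h3
        have h6 : D *ᵥ (D *ᵥ v) = Y *ᵥ (D *ᵥ v) - D *ᵥ v := by
          simp [D, Matrix.sub_mulVec]
        rw [h6, h5, sub_self]
      have hpowk : ∀ k : ℕ, Y ^ k = 1 + (k : F) • D := by
        intro k
        induction k with
        | zero => simp
        | succ k ih =>
          have hY : Y = 1 + D := by simp [D]
          rw [pow_succ, ih]
          calc (1 + (k : F) • D) * Y = (1 + (k : F) • D) * (1 + D) := by rw [← hY]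
            _ = 1 + ((k + 1 : ℕ) : F) • D := by
              simp only [mul_add, add_mul, smul_mul_assoc, hDD, smul_zero, one_mul, mul_one, add_zero]
              push_cast
              rw [add_smul, one_smul]
              abel
      have h1 := hpowk r
      rw [hYr] at h1
      have h3 : (r : F) • D = 0 := by
        have := add_left_cancel (a := (1 : Matrix (Fin n) (Fin n) F)) (b := (r : F) • D) (c := 0) (by rw [← h1, add_zero])
        exact this
      have hr0 : (r : F) ≠ 0 := by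
        rw [Ne, CharP.cast_eq_zero_iff F p]
        intro h
        exact hrp ((Nat.prime_dvd_prime_iff_eq (Fact.out : p.Prime) hr).1 h).symm
      rcases smul_eq_zero.1 h3 with h4 | h4
      · exact hr0 h4
      · exact hY1 (sub_eq_zero.1 h4)

/-- The order of `SL_k`. -/
theorem card_SL_factor (k : ℕ) (hk : 1 ≤ k) :
    Nat.card (Matrix.SpecialLinearGroup (Fin k) F) =
      Fintype.card F ^ (k - 1) * ∏ j ∈ Finset.univ.erase (⟨k - 1, by omega⟩ : Fin k), (Fintype.card F ^ k - Fintype.card F ^ (j : ℕ)) := by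
  classical
  haveI : Nonempty (Fin k) := ⟨⟨0, by omega⟩⟩
  have h1 : Nat.card (GL (Fin k) F) = _ := Matrix.card_GL_field (𝔽 := F) k
  have h2 := Cfsg.Agent.Lib.SLn.card_GL_eq (ι := Fin k) (F := F)
  rw [← Finset.mul_prod_erase Finset.univ _ (Finset.mem_univ (⟨k - 1, by omega⟩ : Fin k))] at h1
  rw [h2] at h1
  have hq : 1 < Fintype.card F := Fintype.one_lt_card
  have h3 : Fintype.card F ^ k - Fintype.card F ^ (k - 1) = Fintype.card F ^ (k - 1) * (Fintype.card F - 1) := by
    rw [Nat.mul_sub, mul_one, ← pow_succ]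
    congr 2
    omega
  simp only [h3] at h1
  apply Nat.eq_of_mul_eq_mul_right (show 0 < Fintype.card F - 1 by omega)
  rw [h1]
  ring

theorem p_dvd_card_SL {k : ℕ} (hk : 2 ≤ k) : p ∣ Nat.card (Matrix.SpecialLinearGroup (Fin k) F) := by
  rw [card_SL_factor k (by omega)]
  apply Dvd.dvd.mul_right
  obtain ⟨m, hpp, hcard⟩ := FiniteField.card F p
  rw [hcard]
  apply dvd_pow _ (by omega)
  exact dvd_pow_self _ m.ne_zero

theorem dvd_card_SL {k i : ℕ} (hi : 2 ≤ i) (hik : i ≤ k) (h : r ∣ Fintype.card F ^ i - 1) :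
    r ∣ Nat.card (Matrix.SpecialLinearGroup (Fin k) F) := by
  classical
  rw [card_SL_factor k (by omega)]
  apply Dvd.dvd.mul_left
  have hmem : (⟨k - i, by omega⟩ : Fin k) ∈ Finset.univ.erase (⟨k - 1, by omega⟩ : Fin k) := by
    rw [Finset.mem_erase]
    refine ⟨?_, Finset.mem_univ _⟩
    intro h3
    have := congrArg Fin.val h3
    simp at this
    omega
  refine dvd_trans ?_ (Finset.dvd_prod_of_mem _ hmem)
  have h3 : Fintype.card F ^ k - Fintype.card F ^ (k - i) = Fintype.card F ^ (k - i) * (Fintype.card F ^ i - 1) := by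
    rw [Nat.mul_sub, mul_one, ← pow_add]
    congr 2
    omega
  show r ∣ Fintype.card F ^ k - Fintype.card F ^ (k - i)
  rw [h3]
  exact Dvd.dvd.mul_left h _

/-- The exponent attached to a prime divisor of an element commuting with a unipotent element. -/
theorem exists_exp (hn : 4 ≤ n) (a b : Matrix.ProjectiveSpecialLinearGroup (Fin n) F) (ha : orderOf a = p) (hab : Commute a b)
    (hr : r.Prime) (hrd : r ∣ orderOf b) (hrp : r ≠ p) : ∃ i, 1 ≤ i ∧ i ≤ n - 2 ∧ r ∣ Fintype.card F ^ i - 1 := by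
  classical
  haveI : Nonempty (Fin n) := ⟨⟨0, by omega⟩⟩
  have hp : p.Prime := Fact.out
  obtain ⟨A, rfl⟩ := QuotientGroup.mk_surjective a
  obtain ⟨B, rfl⟩ := QuotientGroup.mk_surjective b
  have hAp : A ^ p ∈ Subgroup.center (Matrix.SpecialLinearGroup (Fin n) F) := by
    rw [← QuotientGroup.eq_one_iff, QuotientGroup.mk_pow, ← ha, pow_orderOf_eq_one]
  obtain ⟨l, hl1, hl⟩ := Matrix.SpecialLinearGroup.mem_center_iff.1 hAp
  have hcomm : (B * A)⁻¹ * (A * B) ∈ Subgroup.center (Matrix.SpecialLinearGroup (Fin n) F) := by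
    rw [← QuotientGroup.eq]
    exact hab.symm.eq
  obtain ⟨κ, hκ1, hκ⟩ := Matrix.SpecialLinearGroup.mem_center_iff.1 hcomm
  let σ : F ≃+* F := (frobeniusEquiv F p).symm
  have hμ : σ l ^ p = l := frobenius_apply_frobeniusEquiv_symm F p l
  have hl0 : l ≠ 0 := by
    rintro rfl
    rw [Fintype.card_fin, zero_pow (by omega)] at hl1
    exact zero_ne_one hl1
  have hμ0 : σ l ≠ 0 := fun h => hl0 (by rw [← hμ, h, zero_pow hp.ne_zero])
  generalize σ l = μ at hμ hμ0
  let A₀ : Matrix (Fin n) (Fin n) F := A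
  let B₀ : Matrix (Fin n) (Fin n) F := B
  let A' : Matrix (Fin n) (Fin n) F := μ⁻¹ • A₀
  have hA₀p : A₀ ^ p = l • 1 := by
    have h1 : ((A ^ p : Matrix.SpecialLinearGroup (Fin n) F) : Matrix (Fin n) (Fin n) F) = A₀ ^ p := by
      simp [A₀]
    rw [← h1, ← hl]
    ext i j
    simp [Matrix.scalar_apply, Matrix.diagonal_apply, Matrix.one_apply]
  have hA'p : A' ^ p = 1 := by
    show (μ⁻¹ • A₀) ^ p = 1
    rw [smul_pow, hA₀p, smul_smul, inv_pow, hμ, inv_mul_cancel₀ hl0, one_smul]
  have hκ' : A₀ * B₀ = κ • (B₀ * A₀) := by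
    have h1 : A * B = B * A * ((B * A)⁻¹ * (A * B)) := by group
    have h3 : ((A * B : Matrix.SpecialLinearGroup (Fin n) F) : Matrix (Fin n) (Fin n) F) =
        ((B * A : Matrix.SpecialLinearGroup (Fin n) F) : Matrix (Fin n) (Fin n) F) *
          (((B * A)⁻¹ * (A * B) : Matrix.SpecialLinearGroup (Fin n) F) : Matrix (Fin n) (Fin n) F) := by
      rw [← Matrix.SpecialLinearGroup.coe_mul, ← h1]
    rw [← hκ] at h3
    have h4 : A₀ * B₀ = ((A * B : Matrix.SpecialLinearGroup (Fin n) F) : Matrix (Fin n) (Fin n) F) := rfl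
    have h5 : B₀ * A₀ = ((B * A : Matrix.SpecialLinearGroup (Fin n) F) : Matrix (Fin n) (Fin n) F) := rfl
    rw [h4, h5, h3]
    ext i j
    simp [Matrix.scalar_apply, Matrix.diagonal_apply, Matrix.mul_apply]
    exact mul_comm _ _
  have hA'B : A' * B₀ = κ • (B₀ * A') := by
    show (μ⁻¹ • A₀) * B₀ = κ • (B₀ * (μ⁻¹ • A₀))
    rw [smul_mul_assoc, hκ', mul_smul_comm, smul_comm]
  have hpowB : ∀ k : ℕ, A' ^ k * B₀ = κ ^ k • (B₀ * A' ^ k) := by
    intro k
    induction k with
    | zero => simp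
    | succ k ih =>
      rw [pow_succ, mul_assoc, hA'B, mul_smul_comm, ← mul_assoc, ih, smul_mul_assoc, smul_smul, pow_succ, mul_assoc, mul_comm κ]
  have hB₀0 : B₀ ≠ 0 := by
    intro h
    have h1 : B₀.det = 1 := B.2
    rw [h, Matrix.det_zero] at h1
    exact zero_ne_one h1
  have hκp : κ ^ p = 1 := by
    have h1 := hpowB p
    rw [hA'p, one_mul, mul_one] at h1
    have h3 : (κ ^ p - 1) • B₀ = 0 := by
      rw [sub_smul, one_smul, ← h1, sub_self]
    rcases smul_eq_zero.1 h3 with h4 | h4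
    · exact sub_eq_zero.1 h4
    · exact absurd h4 hB₀0
  have hκ1' : κ = 1 := by
    have h1 : (κ - 1) ^ p = 0 := by
      rw [sub_pow_char, hκp, one_pow, sub_self]
    exact sub_eq_zero.1 (pow_eq_zero_iff hp.ne_zero |>.1 h1)
  have hAB : Commute A' B₀ := by
    show A' * B₀ = B₀ * A'
    rw [hA'B, hκ1', one_smul]
  let N : Matrix (Fin n) (Fin n) F := A' - 1
  have hNB : Commute N B₀ := hAB.sub_left (Commute.one_left _)
  have hN0 : N ≠ 0 := by
    intro h
    have h1 : A' = 1 := sub_eq_zero.1 h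
    have h3 : A₀ = μ • 1 := by
      have : A₀ = μ • A' := by
        show A₀ = μ • (μ⁻¹ • A₀)
        rw [smul_smul, mul_inv_cancel₀ hμ0, one_smul]
      rw [this, h1]
    have h4 : A ∈ Subgroup.center (Matrix.SpecialLinearGroup (Fin n) F) := by
      rw [Matrix.SpecialLinearGroup.mem_center_iff]
      refine ⟨μ, ?_, ?_⟩
      · have h5 : A₀.det = 1 := A.2
        rw [h3, Matrix.det_smul, Matrix.det_one, mul_one] at h5
        exact h5
      · show Matrix.scalar (Fin n) μ = A₀
        rw [h3]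
        ext i j
        simp [Matrix.scalar_apply, Matrix.diagonal_apply, Matrix.one_apply]
    have h5 : ((A : Matrix.SpecialLinearGroup (Fin n) F) : Matrix.ProjectiveSpecialLinearGroup (Fin n) F) = 1 :=
      (QuotientGroup.eq_one_iff _).2 h4
    rw [h5, orderOf_one] at ha
    exact hp.one_lt.ne ha
  have hNp : N ^ p = 0 := by
    show (A' - 1) ^ p = 0
    rw [sub_pow_char_of_commute p (Commute.one_right A'), hA'p, one_pow, sub_self]
  have hex : ∃ j, N ^ j = 0 := ⟨p, hNp⟩
  have hj0 : Nat.find hex ≠ 0 := by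
    intro h
    have h1 := Nat.find_spec hex
    rw [h, pow_zero] at h1
    exact one_ne_zero h1
  have hj1 : Nat.find hex ≠ 1 := by
    intro h
    have h1 := Nat.find_spec hex
    rw [h, pow_one] at h1
    exact hN0 h1
  obtain ⟨k, hk⟩ : ∃ k, Nat.find hex = k + 1 := ⟨Nat.find hex - 1, by omega⟩
  have hk1 : 1 ≤ k := by omega
  have hNk : N ^ k ≠ 0 := Nat.find_min hex (by omega)
  have hNk1 : N ^ (k + 1) = 0 := by
    rw [← hk]
    exact Nat.find_spec hex
  have hMM : N ^ k * N ^ k = 0 := by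
    rw [← pow_add]
    have : k + k = (k + 1) + (k - 1) := by omega
    rw [this, pow_add, hNk1, zero_mul]
  have hdiv : orderOf ((B : Matrix.SpecialLinearGroup (Fin n) F) : Matrix.ProjectiveSpecialLinearGroup (Fin n) F) ∣ orderOf B :=
    orderOf_map_dvd (QuotientGroup.mk' _) B
  have hrB : r ∣ orderOf B := hrd.trans hdiv
  have hordB : orderOf B ≠ 0 := (orderOf_pos B).ne'
  have hY := orderOf_pow_orderOf_div hordB hrB
  let y := B ^ (orderOf B / r)
  let Y : Matrix (Fin n) (Fin n) F := y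
  have hYv : Y = B₀ ^ (orderOf B / r) := by
    simp [Y, y, B₀]
  have hYr : Y ^ r = 1 := by
    have h1 : y ^ r = 1 := by rw [← hY]; exact pow_orderOf_eq_one _
    have h3 : ((y ^ r : Matrix.SpecialLinearGroup (Fin n) F) : Matrix (Fin n) (Fin n) F) = Y ^ r := by
      simp [Y]
    rw [← h3, h1]
    rfl
  have hY1 : Y ≠ 1 := by
    intro h
    have h1 : y = 1 := Subtype.ext h
    have h3 : orderOf y = 1 := by rw [h1, orderOf_one]
    rw [show orderOf y = r from hY] at h3
    exact hr.one_lt.ne' h3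
  have hYM : Y * N ^ k = N ^ k * Y := by
    rw [hYv]
    exact (((hNB.pow_right _).pow_left k).symm).eq
  exact key_exp (p := p) hr hrp hn (N ^ k) Y hNk hMM hYM hYr hY1

end Cfsg.Agent.Lib.PSLCommute
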