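import Mathlib
import Cfsg.Agent.Lib.PConstr

/-! `p`-stability modulo the `p'`-core. -/

set_option autoImplicit false
set_option linter.all false

namespace Cfsg.Agent.Lib.PStableQ

open Cfsg Subgroup Cfsg.Agent.Lib.PComps2 Cfsg.Agent.Lib.PComps
open scoped commutatorElement

variable {G : Type*} [Group G] [Finite G] {p : ℕ} [hp : Fact p.Prime]

theorem pCore_quot_ne_bot (h : pCore p G ≠ ⊥) : pCore p (G ⧸ pPrimeCore p G) ≠ ⊥ := by
  haveI hOn : (pPrimeCore p G).Normal := Cfsg.Agent.Lib.FitCore.pPrimeCore_normal p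
  intro h0
  apply h
  have hQn : (pCore p G).Normal := Cfsg.Agent.Lib.FitCore.pCore_normal p
  have hQp : IsPGroup p (pCore p G) := Cfsg.Agent.Lib.FitCore.pCore_isPGroup p
  have h1 : (pCore p G).map (QuotientGroup.mk' (pPrimeCore p G)) ≤ pCore p (G ⧸ pPrimeCore p G) :=
    Cfsg.Agent.Lib.PCore.le_pCore (Subgroup.Normal.map hQn _ (QuotientGroup.mk'_surjective _)) (hQp.map _)
  rw [h0, le_bot_iff, Subgroup.map_eq_bot_iff, QuotientGroup.ker_mk'] at h1
  rw [eq_bot_iff]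
  intro x hx
  have hO : ¬ p ∣ Nat.card (pPrimeCore p G) := Cfsg.Agent.Lib.FitCore.not_dvd_card_pPrimeCore p Fact.out
  exact Cfsg.Agent.Lib.ZJQuot.eq_one_of_mem hO hQp (h1 hx) hx

/-- a normal subgroup in which quotient elements act as `p`-elements lies in the `p`-core -/
theorem map_le_pCore_of_pow {G : Type*} [Group G] {C : Subgroup G} [C.Normal] {F : Subgroup G} (hFn : F.Normal)
    (hF : ∀ y ∈ F, ∃ k : ℕ, y ^ p ^ k ∈ C) :
    F.map (QuotientGroup.mk' C) ≤ pCore p (G ⧸ C) := by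
  apply Cfsg.Agent.Lib.PCore.le_pCore (Subgroup.Normal.map hFn _ (QuotientGroup.mk'_surjective _))
  rintro ⟨_, y, hy, rfl⟩
  obtain ⟨k, hk⟩ := hF y hy
  refine ⟨k, ?_⟩
  apply Subtype.ext
  show (QuotientGroup.mk' C y) ^ p ^ k = 1
  rw [← map_pow]
  exact (QuotientGroup.eq_one_iff _).2 hk

theorem stable_quot (hs : IsPStable p G) : IsPStable p (G ⧸ pPrimeCore p G) := by
  classical
  haveI hOn : (pPrimeCore p G).Normal := Cfsg.Agent.Lib.FitCore.pPrimeCore_normal p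
  have hO : ¬ p ∣ Nat.card (pPrimeCore p G) := Cfsg.Agent.Lib.FitCore.not_dvd_card_pPrimeCore p Fact.out
  obtain ⟨hodd, hne, -⟩ := id hs
  refine ⟨hodd, pCore_quot_ne_bot hne, ?_⟩
  intro Ab Pb hAb hPb hact hle hnorm hcomm
  have h0 : pPrimeCore p (G ⧸ pPrimeCore p G) = ⊥ := pPrimeCore_quotient_eq_bot
  have hPn : Pb.Normal := by rwa [h0, bot_sup_eq] at hnorm
  obtain ⟨E, hEn, hCE, hEp, hEq⟩ :=
    Cfsg.Agent.Lib.ZJLift.stabOn_quot hO (Cfsg.Agent.Lib.ZJLift.stabHyp_of_pStable hs) hPn hPb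
  rintro _ ⟨⟨a, ha⟩, haA, rfl⟩
  have haA' : a ∈ Ab := haA
  have haE : a ∈ E := by
    apply hEq a
    · obtain ⟨k, hk⟩ := hAb ⟨a, haA'⟩
      exact ⟨k, by simpa using congrArg Subtype.val hk⟩
    · intro b hb
      have h1 : ⁅⁅b, a⁆, a⁆ ∈ ⁅⁅Pb, Ab⁆, Ab⁆ :=
        Subgroup.commutator_mem_commutator (Subgroup.commutator_mem_commutator hb haA') haA'
      rw [hcomm] at h1
      exact (Subgroup.mem_bot).1 h1
  set Nb := Subgroup.normalizer (Pb : Set (G ⧸ pPrimeCore p G)) with hNb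
  have hEs : (E.subgroupOf Nb).Normal := by infer_instance
  set Cb := (Subgroup.centralizer (Pb : Set (G ⧸ pPrimeCore p G))).subgroupOf Nb with hCb
  haveI hCbn : Cb.Normal := by rw [hCb, hNb]; infer_instance
  have key : ∀ y ∈ E.subgroupOf Nb, ∃ k : ℕ, y ^ p ^ k ∈ Cb := by
    rintro ⟨y, hyN⟩ hy
    obtain ⟨k, hk⟩ := hEp y hy
    refine ⟨k, ?_⟩
    rw [hCb, Subgroup.mem_subgroupOf]
    simpa using hk
  have hF := map_le_pCore_of_pow (p := p) hEs key
  exact hF ⟨⟨a, ha⟩, haE, rfl⟩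

theorem stable_of_quot (hne : pCore p G ≠ ⊥) (hs : IsPStable p (G ⧸ pPrimeCore p G)) : IsPStable p G := by
  classical
  haveI hOn : (pPrimeCore p G).Normal := Cfsg.Agent.Lib.FitCore.pPrimeCore_normal p
  have hO : ¬ p ∣ Nat.card (pPrimeCore p G) := Cfsg.Agent.Lib.FitCore.not_dvd_card_pPrimeCore p Fact.out
  obtain ⟨hodd, -, hst⟩ := id hs
  refine ⟨hodd, hne, ?_⟩
  intro A P hA hP hact hle hnorm hcomm
  set π := QuotientGroup.mk' (pPrimeCore p G) with hπ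
  have hPn : (P.map π).Normal := by
    have h2 : ((pPrimeCore p G) ⊔ P).map π = P.map π := by
      rw [Subgroup.map_sup]
      have h3 : (pPrimeCore p G).map π = ⊥ := by
        rw [Subgroup.map_eq_bot_iff, QuotientGroup.ker_mk']
      rw [h3, bot_sup_eq]
    rw [← h2]
    exact Subgroup.Normal.map hnorm _ (QuotientGroup.mk'_surjective _)
  have h0 : pPrimeCore p (G ⧸ pPrimeCore p G) = ⊥ := pPrimeCore_quotient_eq_bot
  haveI hO'n : (pPrimeCore p (G ⧸ pPrimeCore p G)).Normal := Cfsg.Agent.Lib.FitCore.pPrimeCore_normal p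
  have hq := hst (A.map π) (P.map π) (hA.map _) (hP.map _)
    (fun a _ x hx => hPn.conj_mem x hx a)
    (by
      intro x hx
      show QuotientGroup.mk' _ x ∈ pCore p _
      have h4 : (P.map π).map (QuotientGroup.mk' (pPrimeCore p (G ⧸ pPrimeCore p G))) ≤ pCore p _ :=
        Cfsg.Agent.Lib.PCore.le_pCore (Subgroup.Normal.map hPn _ (QuotientGroup.mk'_surjective _)) ((hP.map _).map _)
      exact h4 ⟨x, hx, rfl⟩)
    (by rw [h0, bot_sup_eq]; exact hPn)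
    (by rw [← Subgroup.map_commutator, ← Subgroup.map_commutator, hcomm, Subgroup.map_bot])
  set Nb := Subgroup.normalizer ((P.map π : Subgroup _) : Set (G ⧸ pPrimeCore p G)) with hNb
  set Cb := (Subgroup.centralizer ((P.map π : Subgroup _) : Set (G ⧸ pPrimeCore p G))).subgroupOf Nb with hCb
  set N := Subgroup.normalizer (P : Set G) with hN
  set C := (Subgroup.centralizer (P : Set G)).subgroupOf N with hC
  haveI hCbn : Cb.Normal := by rw [hCb, hNb]; infer_instance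
  haveI hCn : C.Normal := by rw [hC, hN]; infer_instance
  have hNtop : ∀ x : G ⧸ pPrimeCore p G, x ∈ Nb := by
    intro x
    rw [hNb, Subgroup.normalizer_eq_top_iff.2 hPn]
    trivial
  let φ : ↥N →* ↥Nb := (π.comp N.subtype).codRestrict Nb (fun n => hNtop _)
  let ρ : ↥N →* (↥Nb ⧸ Cb) := (QuotientGroup.mk' Cb).comp φ
  set F := (pCore p (↥Nb ⧸ Cb)).comap ρ with hF
  haveI hcn : (pCore p (↥Nb ⧸ Cb)).Normal := Cfsg.Agent.Lib.FitCore.pCore_normal p
  have hFn : F.Normal := Subgroup.Normal.comap hcn _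
  have hcp : IsPGroup p (pCore p (↥Nb ⧸ Cb)) := Cfsg.Agent.Lib.FitCore.pCore_isPGroup p
  have hFe := map_le_pCore_of_pow (p := p) (C := C) hFn (by
    rintro ⟨y, hyN⟩ hy
    have hy' : ρ ⟨y, hyN⟩ ∈ pCore p (↥Nb ⧸ Cb) := hy
    obtain ⟨k, hk⟩ := hcp ⟨_, hy'⟩
    refine ⟨k, ?_⟩
    have h5 : (ρ ⟨y, hyN⟩) ^ p ^ k = 1 := by
      simpa using congrArg Subtype.val hk
    rw [← map_pow] at h5
    have h6 : φ (⟨y, hyN⟩ ^ p ^ k) ∈ Cb := (QuotientGroup.eq_one_iff _).1 h5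
    have h7 : π (y ^ p ^ k) ∈ Subgroup.centralizer ((P.map π : Subgroup _) : Set (G ⧸ pPrimeCore p G)) := by
      have := Subgroup.mem_subgroupOf.1 h6
      simpa [φ] using this
    rw [Subgroup.mem_subgroupOf]
    have h8 : y ^ p ^ k ∈ Subgroup.centralizer (P : Set G) := by
      apply Cfsg.Agent.Lib.ZJLift.key_centralizer hO hP (N.pow_mem hyN _)
      intro u hu
      exact Subgroup.mem_centralizer_iff.1 h7 _ ⟨u, hu, rfl⟩
    simpa using h8)
  rintro _ ⟨⟨a, ha⟩, haA, rfl⟩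
  have haA' : a ∈ A := haA
  apply hFe
  refine ⟨⟨a, ha⟩, ?_, rfl⟩
  show ρ ⟨a, ha⟩ ∈ pCore p (↥Nb ⧸ Cb)
  exact hq ⟨⟨π a, hNtop _⟩, ⟨a, haA', rfl⟩, rfl⟩

theorem stable_iff (hO : pCore p G ≠ ⊥) : IsPStable p G ↔ IsPStable p (G ⧸ pPrimeCore p G) :=
  ⟨stable_quot, stable_of_quot hO⟩

end Cfsg.Agent.Lib.PStableQ
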