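/-
Maximal parabolic subgroups of `GL_n`: the stabilisers of coordinate subspaces.
-/
import Mathlib
import Cfsg.Prelude.Def_ClassicalGeometry
import Cfsg.Agent.Lib.SubspaceStab

set_option autoImplicit false
set_option linter.all false

namespace Cfsg.Agent.Lib.ParabGL

open scoped MatrixGroups Matrix
open Cfsg Cfsg.Geo Cfsg.Agent.Lib.Transvection Cfsg.Agent.Lib.LinAlgAux Cfsg.Agent.Lib.SubspaceStab

variable {F : Type*} [Field F] {n : ℕ}

/-- The span of the first `k` coordinate vectors. -/
def coordSub (n k : ℕ) (F : Type*) [Field F] : Submodule F (Fin n → F) where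
  carrier := {v | ∀ i : Fin n, k ≤ (i : ℕ) → v i = 0}
  add_mem' := by
    intro a b ha hb i hi
    simp [ha i hi, hb i hi]
  zero_mem' := by
    intro i hi
    rfl
  smul_mem' := by
    intro c a ha i hi
    simp [ha i hi]

theorem mem_coordSub {k : ℕ} {v : Fin n → F} : v ∈ coordSub n k F ↔ ∀ i : Fin n, k ≤ (i : ℕ) → v i = 0 :=
  Iff.rfl

theorem stab_eq (k : ℕ) : stabilizing (glToMat (Fin n) F) {v : Fin n → F | ∀ i : Fin n, k ≤ (i : ℕ) → v i = 0} =
    subspaceStabilizer (coordSub n k F) := rfl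

theorem coordSub_ne_bot {k : ℕ} (h0 : 0 < k) (hn : k < n) : coordSub n k F ≠ ⊥ := by
  intro h
  have h1 : (Pi.single (⟨0, by omega⟩ : Fin n) 1 : Fin n → F) ∈ coordSub n k F := by
    intro i hi
    have : i ≠ ⟨0, by omega⟩ := by
      intro h2
      rw [h2] at hi
      simp at hi
      omega
    simp [Pi.single_eq_of_ne this]
  rw [h] at h1
  have h2 := congrFun ((Submodule.mem_bot F).1 h1) ⟨0, by omega⟩
  simp at h2

theorem coordSub_ne_top {k : ℕ} (hn : k < n) : coordSub n k F ≠ ⊤ := by
  intro h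
  have h1 : (Pi.single (⟨k, hn⟩ : Fin n) 1 : Fin n → F) ∈ coordSub n k F := by
    rw [h]
    trivial
  have h2 := h1 ⟨k, hn⟩ le_rfl
  simp at h2

/-- The dimension of the coordinate subspace. -/
theorem finrank_coordSub {k : ℕ} (hk : k ≤ n) : Module.finrank F (coordSub n k F) = k := by
  let e : coordSub n k F ≃ₗ[F] (Fin k → F) :=
    { toFun := fun v j => (v : Fin n → F) (Fin.castLE hk j)
      map_add' := fun a b => by ext; rfl
      map_smul' := fun c a => by ext; rfl
      invFun := fun w => ⟨fun i => if h : (i : ℕ) < k then w ⟨i, h⟩ else 0, by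
        intro i hi
        exact dif_neg (by omega)⟩
      left_inv := by
        rintro ⟨v, hv⟩
        apply Subtype.ext
        funext i
        by_cases h : (i : ℕ) < k
        · simp [h, Fin.castLE]
        · simp only [dif_neg h]
          exact (hv i (by omega)).symm
      right_inv := by
        intro w
        funext j
        simp [Fin.castLE] }
  rw [e.finrank_eq, Module.finrank_fintype_fun_eq_card, Fintype.card_fin]

/-- Block description of the stabiliser. -/
theorem mem_stab_iff_entries {k : ℕ} {g : GL (Fin n) F} :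
    g ∈ subspaceStabilizer (coordSub n k F) ↔
      ∀ i j : Fin n, k ≤ (i : ℕ) → (j : ℕ) < k → (g : Matrix (Fin n) (Fin n) F) i j = 0 := by
  constructor
  · intro hg i j hi hj
    have h1 : (Pi.single j 1 : Fin n → F) ∈ coordSub n k F := by
      intro a ha
      have : a ≠ j := by
        rintro rfl
        omega
      simp [Pi.single_eq_of_ne this]
    have h2 := ((hg _).1 h1) i hi
    simpa [Matrix.mulVec_single_one] using h2
  · intro h
    by_contra hg
    obtain ⟨v, hv, hgv⟩ := exists_moved_of_not_mem_stab hg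
    apply hgv
    intro i hi
    show Matrix.mulVec _ v i = 0
    rw [Matrix.mulVec, dotProduct]
    apply Finset.sum_eq_zero
    intro j _
    by_cases hj : (j : ℕ) < k
    · rw [h i j hi hj, zero_mul]
    · rw [hv j (by omega), mul_zero]

/-- An element of the stabiliser with any given determinant. -/
theorem exists_stab_det {k : ℕ} (hn : 0 < n) (d : Fˣ) :
    ∃ p ∈ subspaceStabilizer (coordSub n k F), Matrix.GeneralLinearGroup.det p = d := by
  let i₀ : Fin n := ⟨0, hn⟩
  let dv : Fin n → F := fun i => if i = i₀ then (d : F) else 1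
  let dv' : Fin n → F := fun i => if i = i₀ then ((d⁻¹ : Fˣ) : F) else 1
  let p : GL (Fin n) F := ⟨Matrix.diagonal dv, Matrix.diagonal dv', by
    rw [Matrix.diagonal_mul_diagonal, ← Matrix.diagonal_one]
    congr 1
    ext k
    by_cases hk : k = i₀ <;> simp [dv, dv', hk], by
    rw [Matrix.diagonal_mul_diagonal, ← Matrix.diagonal_one]
    congr 1
    ext k
    by_cases hk : k = i₀ <;> simp [dv, dv', hk]⟩
  refine ⟨p, ?_, ?_⟩
  · rw [mem_stab_iff_entries]
    intro i j hi hj
    have : i ≠ j := by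
      rintro rfl
      omega
    exact Matrix.diagonal_apply_ne _ this
  · apply Units.ext
    show (Matrix.diagonal dv).det = d
    rw [Matrix.det_diagonal, Finset.prod_eq_single i₀]
    · simp [dv]
    · intro b _ hb
      simp [dv, hb]
    · simp

/-- The maximal parabolic subgroups of `GL_n` are maximal. -/
theorem stab_isCoatom {k : ℕ} (h0 : 0 < k) (hn : k < n) :
    IsCoatom (subspaceStabilizer (coordSub n k F)) := by
  classical
  set P := subspaceStabilizer (coordSub n k F) with hP
  have hmax := stab_isMaximalIn (coordSub_ne_bot (F := F) h0 hn) (coordSub_ne_top hn)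
  have hn0 : 0 < n := by omega
  constructor
  · intro htop
    apply hmax.1.ne
    apply le_antisymm inf_le_right
    intro g hg
    refine ⟨?_, hg⟩
    rw [← hP, htop]
    trivial
  · intro H hH
    have hPH := hH.le
    rcases hmax.2 (H ⊓ specialLinear (Fin n) F) (inf_le_inf_right _ hPH) inf_le_right with h1 | h1
    · exfalso
      obtain ⟨x, hxH, hxP⟩ := SetLike.exists_of_lt hH
      obtain ⟨p, hp, hpd⟩ := exists_stab_det (k := k) hn0 (Matrix.GeneralLinearGroup.det x)
      have h2 : x * p⁻¹ ∈ H ⊓ specialLinear (Fin n) F := by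
        refine ⟨H.mul_mem hxH (H.inv_mem (hPH hp)), ?_⟩
        show Matrix.GeneralLinearGroup.det (x * p⁻¹) = 1
        rw [map_mul, map_inv, hpd, mul_inv_cancel]
      rw [h1] at h2
      apply hxP
      have h3 : x = (x * p⁻¹) * p := by group
      rw [h3]
      exact P.mul_mem h2.1 hp
    · rw [eq_top_iff]
      intro x _
      obtain ⟨p, hp, hpd⟩ := exists_stab_det (k := k) hn0 (Matrix.GeneralLinearGroup.det x)
      have h2 : x * p⁻¹ ∈ specialLinear (Fin n) F := by
        show Matrix.GeneralLinearGroup.det (x * p⁻¹) = 1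
        rw [map_mul, map_inv, hpd, mul_inv_cancel]
      rw [← h1] at h2
      have h3 : x = (x * p⁻¹) * p := by group
      rw [h3]
      exact H.mul_mem h2.1 (hPH hp)

/-- A stabiliser determines its subspace. -/
theorem eq_of_stab_le {ι : Type} [Fintype ι] [DecidableEq ι] {U U' : Submodule F (ι → F)} (h0 : U' ≠ ⊥) (h1 : U' ≠ ⊤)
    (h : subspaceStabilizer U ≤ subspaceStabilizer U') : U = U' := by
  classical
  by_cases hsub : U ≤ U'
  · by_contra hne
    have hlt : U < U' := lt_of_le_of_ne hsub hne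
    obtain ⟨x, hxU', hxU⟩ := SetLike.exists_of_lt hlt
    obtain ⟨w, hw⟩ : ∃ w, w ∉ U' := by
      by_contra hcon
      push Not at hcon
      exact h1 (eq_top_iff.2 fun y _ => hcon y)
    have hx : x ∉ U ⊔ Submodule.span F {w} := by
      intro hm
      obtain ⟨u, hu, z, hz, hsum⟩ := Submodule.mem_sup.1 hm
      obtain ⟨c, rfl⟩ := Submodule.mem_span_singleton.1 hz
      by_cases hc : c = 0
      · subst hc
        simp only [zero_smul, add_zero] at hsum
        exact hxU (hsum ▸ hu)
      · apply hw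
        have h2 : w = c⁻¹ • (x - u) := by
          rw [← hsum]
          simp [smul_smul, hc]
        rw [h2]
        exact U'.smul_mem _ (U'.sub_mem hxU' (hsub hu))
    obtain ⟨φ, hφx, hφ⟩ := exists_functional_of_notMem hx
    have hφw : φ w = 0 := hφ w (Submodule.mem_sup_right (Submodule.mem_span_singleton_self w))
    have hφU : ∀ y ∈ U, φ y = 0 := fun y hy => hφ y (Submodule.mem_sup_left hy)
    have h2 := h (tv_mem_stab_of_ann φ hφw hφU)
    have h3 : ((tv φ w hφw : GL ι F) : Matrix ι ι F) *ᵥ x ∈ U' := (h2 x).1 hxU'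
    rw [tv_mulVec, hφx, one_smul] at h3
    apply hw
    have h4 := U'.sub_mem h3 hxU'
    simpa using h4
  · exfalso
    obtain ⟨w, hwU, hw⟩ := SetLike.not_le_iff_exists.1 hsub
    obtain ⟨v, hv, hv0⟩ := Submodule.exists_mem_ne_zero_of_ne_bot h0
    have hvw : v ∉ Submodule.span F {w} := by
      intro hm
      obtain ⟨c, rfl⟩ := Submodule.mem_span_singleton.1 hm
      have hc : c ≠ 0 := by
        rintro rfl
        simp at hv0
      apply hw
      have h2 := U'.smul_mem c⁻¹ hv
      simpa [smul_smul, hc] using h2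
    obtain ⟨φ, hφv, hφw⟩ := exists_functional_of_not_mem_span hvw
    have h2 := h (tv_mem_stab_of_center φ hφw hwU)
    have h3 : ((tv φ w hφw : GL ι F) : Matrix ι ι F) *ᵥ v ∈ U' := (h2 v).1 hv
    rw [tv_mulVec, hφv, one_smul] at h3
    apply hw
    have h4 := U'.sub_mem h3 hv
    simpa using h4

/-- The conjugate of a stabiliser. -/
theorem stab_map_le {ι : Type} [Fintype ι] [DecidableEq ι] (U : Submodule F (ι → F)) (g : GL ι F) :
    subspaceStabilizer (U.map (glLin g)) ≤ (subspaceStabilizer U).map (MulAut.conj g).toMonoidHom := by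
  intro t ht
  refine ⟨g⁻¹ * t * g, ?_, by simp [MulAut.conj_apply]; group⟩
  intro v
  have hmemmap : ∀ x, x ∈ U ↔ (g : Matrix ι ι F) *ᵥ x ∈ U.map (glLin g) := by
    intro x
    constructor
    · intro hx
      exact ⟨x, hx, rfl⟩
    · rintro ⟨y, hy, hyx⟩
      have : y = x := by
        have h2 := congrArg (fun z => ((g⁻¹ : GL ι F) : Matrix ι ι F) *ᵥ z) hyx
        simpa using h2
      exact this ▸ hy
  show v ∈ U ↔ ((g⁻¹ * t * g : GL ι F) : Matrix ι ι F) *ᵥ v ∈ U
  rw [gl_mul_mulVec, gl_mul_mulVec, hmemmap v, hmemmap (((g⁻¹ : GL ι F) : Matrix ι ι F) *ᵥ ((t : Matrix ι ι F) *ᵥ ((g : Matrix ι ι F) *ᵥ v))),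
    gl_mulVec_inv_mulVec]
  exact ht _

theorem finrank_map_glLin {ι : Type} [Fintype ι] [DecidableEq ι] (g : GL ι F) (T : Submodule F (ι → F)) :
    Module.finrank F (T.map (glLin g)) = Module.finrank F T := by
  have hinj : Function.Injective (glLin g) := by
    intro x y hxy
    have h := congrArg (glLin g⁻¹) hxy
    simpa [gl_inv_mulVec_mulVec] using h
  exact (LinearEquiv.finrank_eq (Submodule.equivMapOfInjective (glLin g) hinj T)).symm

/-- Inverse transpose twisted by the reversal of the coordinates. -/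
def revEquiv (n : ℕ) : Fin n ≃ Fin n := Fin.revPerm

def tauFun (g : GL (Fin n) F) : GL (Fin n) F where
  val := (((g⁻¹ : GL (Fin n) F) : Matrix (Fin n) (Fin n) F)ᵀ).submatrix (revEquiv n) (revEquiv n)
  inv := ((g : Matrix (Fin n) (Fin n) F)ᵀ).submatrix (revEquiv n) (revEquiv n)
  val_inv := by
    rw [Matrix.submatrix_mul_equiv, ← Matrix.transpose_mul, ← Units.val_mul, mul_inv_cancel, Units.val_one,
      Matrix.transpose_one, Matrix.submatrix_one_equiv]
  inv_val := by
    rw [Matrix.submatrix_mul_equiv, ← Matrix.transpose_mul, ← Units.val_mul, inv_mul_cancel, Units.val_one,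
      Matrix.transpose_one, Matrix.submatrix_one_equiv]

def tauHom (n : ℕ) (F : Type*) [Field F] : GL (Fin n) F →* GL (Fin n) F where
  toFun := tauFun
  map_one' := by
    apply Units.ext
    simp [tauFun, Matrix.submatrix_one_equiv]
  map_mul' a b := by
    apply Units.ext
    show ((((a * b)⁻¹ : GL (Fin n) F) : Matrix (Fin n) (Fin n) F)ᵀ).submatrix _ _ = _
    rw [mul_inv_rev, Units.val_mul, Matrix.transpose_mul]
    show _ = (((a⁻¹ : GL (Fin n) F) : Matrix (Fin n) (Fin n) F)ᵀ).submatrix _ _ * (((b⁻¹ : GL (Fin n) F) : Matrix (Fin n) (Fin n) F)ᵀ).submatrix _ _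
    rw [Matrix.submatrix_mul_equiv]

theorem tauHom_invol (g : GL (Fin n) F) : tauHom n F (tauHom n F g) = g := by
  apply Units.ext
  ext i j
  show (((tauFun g)⁻¹ : GL (Fin n) F) : Matrix (Fin n) (Fin n) F) (revEquiv n j) (revEquiv n i) = _
  show (g : Matrix (Fin n) (Fin n) F) _ _ = _
  simp [revEquiv]

theorem tau_mem_iff {k : ℕ} (hk : k ≤ n) (g : GL (Fin n) F) :
    tauHom n F g ∈ subspaceStabilizer (coordSub n (n - k) F) ↔ g ∈ subspaceStabilizer (coordSub n k F) := by
  rw [mem_stab_iff_entries, ← Subgroup.inv_mem_iff, mem_stab_iff_entries]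
  constructor
  · intro h a b ha hb
    have h1 := h (revEquiv n b) (revEquiv n a) (by simp [revEquiv, Fin.val_rev]; omega) (by simp [revEquiv, Fin.val_rev]; have := a.2; omega)
    have h2 : (tauHom n F g : Matrix (Fin n) (Fin n) F) (revEquiv n b) (revEquiv n a) = ((g⁻¹ : GL (Fin n) F) : Matrix (Fin n) (Fin n) F) a b := by
      show ((g⁻¹ : GL (Fin n) F) : Matrix (Fin n) (Fin n) F) (revEquiv n (revEquiv n a)) (revEquiv n (revEquiv n b)) = _
      simp [revEquiv]
    rw [← h2]
    exact h1
  · intro h a b ha hb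
    show ((g⁻¹ : GL (Fin n) F) : Matrix (Fin n) (Fin n) F) (revEquiv n b) (revEquiv n a) = 0
    apply h
    · simp [revEquiv, Fin.val_rev]
      have := b.2
      omega
    · simp [revEquiv, Fin.val_rev]
      have := a.2
      omega

/-- The stabilisers of dimension `k` and `n - k` are isomorphic. -/
theorem stab_equiv {k : ℕ} (hk : k ≤ n) :
    Nonempty (subspaceStabilizer (coordSub n k F) ≃* subspaceStabilizer (coordSub n (n - k) F)) := by
  have hbij : Function.Bijective (tauHom n F) :=
    Function.Involutive.bijective (f := tauHom n F) tauHom_invol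
  let τ : GL (Fin n) F ≃* GL (Fin n) F := MulEquiv.ofBijective (tauHom n F) hbij
  have hmap : (subspaceStabilizer (coordSub n k F)).map τ.toMonoidHom = subspaceStabilizer (coordSub n (n - k) F) := by
    ext x
    constructor
    · rintro ⟨g, hg, rfl⟩
      exact (tau_mem_iff hk g).2 hg
    · intro hx
      refine ⟨tauHom n F x, ?_, tauHom_invol x⟩
      exact (tau_mem_iff hk _).1 (by rw [tauHom_invol]; exact hx)
  exact ⟨(τ.subgroupMap _).trans (MulEquiv.subgroupCongr hmap)⟩

theorem stab_not_conj {k : ℕ} (h0 : 0 < k) (hn : k < n) (h2 : 2 * k ≠ n) (g : GL (Fin n) F) :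
    (subspaceStabilizer (coordSub n k F)).map (MulAut.conj g).toMonoidHom ≠
      subspaceStabilizer (coordSub n (n - k) F) := by
  intro heq
  have h1 := stab_map_le (coordSub n k F) g
  rw [heq] at h1
  have h3 := eq_of_stab_le (coordSub_ne_bot (F := F) (k := n - k) (by omega) (by omega)) (coordSub_ne_top (by omega)) h1
  have h4 := congrArg (fun T : Submodule F (Fin n → F) => Module.finrank F T) h3
  simp only [finrank_map_glLin, finrank_coordSub hn.le, finrank_coordSub (show n - k ≤ n by omega)] at h4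
  omega

/-- The order of the maximal parabolic. -/
theorem card_stab [Fintype F] {k : ℕ} (hk : k ≤ n) :
    Nat.card (subspaceStabilizer (coordSub n k F)) =
      Fintype.card F ^ (k * (n - k)) * (∏ i : Fin k, (Fintype.card F ^ k - Fintype.card F ^ (i : ℕ))) *
        ∏ i : Fin (n - k), (Fintype.card F ^ (n - k) - Fintype.card F ^ (i : ℕ)) := by
  classical
  obtain ⟨m, rfl⟩ : ∃ m, n = k + m := ⟨n - k, by omega⟩
  rw [Nat.add_sub_cancel_left]
  let e : Fin k ⊕ Fin m ≃ Fin (k + m) := finSumFinEquiv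
  have hel : ∀ a : Fin k, ((e (Sum.inl a) : Fin (k + m)) : ℕ) = a := fun a => by simp [e]
  have her : ∀ a : Fin m, ((e (Sum.inr a) : Fin (k + m)) : ℕ) = k + a := fun a => by simp [e]
  -- the block matrix of an element
  let bm : Matrix (Fin (k + m)) (Fin (k + m)) F → Matrix (Fin k ⊕ Fin m) (Fin k ⊕ Fin m) F := fun M => M.submatrix e e
  have hblock : ∀ g : subspaceStabilizer (coordSub (k + m) k F), (bm (g.1 : Matrix _ _ F)).toBlocks₂₁ = 0 := by
    intro g
    ext a b
    exact (mem_stab_iff_entries.1 g.2) (e (Sum.inr a)) (e (Sum.inl b)) (by rw [her]; omega) (by rw [hel]; exact b.2)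
  have hdetb : ∀ M : Matrix (Fin (k + m)) (Fin (k + m)) F, (bm M).det = M.det := by
    intro M
    exact Matrix.det_submatrix_equiv_self e M
  have hfrom : ∀ g : subspaceStabilizer (coordSub (k + m) k F), bm (g.1 : Matrix _ _ F) =
      Matrix.fromBlocks (bm (g.1 : Matrix _ _ F)).toBlocks₁₁ (bm (g.1 : Matrix _ _ F)).toBlocks₁₂ 0 (bm (g.1 : Matrix _ _ F)).toBlocks₂₂ := by
    intro g
    conv_lhs => rw [← Matrix.fromBlocks_toBlocks (bm (g.1 : Matrix _ _ F)), hblock g]
  have hdetg : ∀ g : subspaceStabilizer (coordSub (k + m) k F), (bm (g.1 : Matrix _ _ F)).toBlocks₁₁.det *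
      (bm (g.1 : Matrix _ _ F)).toBlocks₂₂.det ≠ 0 := by
    intro g
    rw [← Matrix.det_fromBlocks_zero₂₁ _ (bm (g.1 : Matrix _ _ F)).toBlocks₁₂ _, ← hfrom g, hdetb]
    exact ((Matrix.isUnit_iff_isUnit_det _).1 g.1.isUnit).ne_zero
  let ΦM : GL (Fin k) F × GL (Fin m) F × Matrix (Fin k) (Fin m) F → Matrix (Fin (k + m)) (Fin (k + m)) F := fun p =>
    (Matrix.fromBlocks (p.1 : Matrix (Fin k) (Fin k) F) p.2.2 0 (p.2.1 : Matrix (Fin m) (Fin m) F)).submatrix e.symm e.symm
  have hΦdet : ∀ p, (ΦM p).det ≠ 0 := by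
    intro p
    show ((Matrix.fromBlocks (p.1 : Matrix (Fin k) (Fin k) F) p.2.2 0 (p.2.1 : Matrix (Fin m) (Fin m) F)).submatrix e.symm e.symm).det ≠ 0
    rw [Matrix.det_submatrix_equiv_self, Matrix.det_fromBlocks_zero₂₁]
    exact mul_ne_zero ((Matrix.isUnit_iff_isUnit_det _).1 p.1.isUnit).ne_zero
      ((Matrix.isUnit_iff_isUnit_det _).1 p.2.1.isUnit).ne_zero
  have hΦmem : ∀ p, Matrix.GeneralLinearGroup.mkOfDetNeZero (ΦM p) (hΦdet p) ∈ subspaceStabilizer (coordSub (k + m) k F) := by
    intro p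
    rw [mem_stab_iff_entries]
    intro i j hi hj
    show (Matrix.fromBlocks (p.1 : Matrix (Fin k) (Fin k) F) p.2.2 0 (p.2.1 : Matrix (Fin m) (Fin m) F)) (e.symm i) (e.symm j) = 0
    obtain ⟨a, rfl⟩ := e.surjective i
    obtain ⟨b, rfl⟩ := e.surjective j
    simp only [Equiv.symm_apply_apply]
    rcases a with a | a
    · rw [hel] at hi
      have := a.2
      omega
    · rcases b with b | b
      · simp
      · rw [her] at hj
        omega
  let E : subspaceStabilizer (coordSub (k + m) k F) ≃ GL (Fin k) F × GL (Fin m) F × Matrix (Fin k) (Fin m) F :=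
    { toFun := fun g => (Matrix.GeneralLinearGroup.mkOfDetNeZero (bm (g.1 : Matrix _ _ F)).toBlocks₁₁ (left_ne_zero_of_mul (hdetg g)),
        Matrix.GeneralLinearGroup.mkOfDetNeZero (bm (g.1 : Matrix _ _ F)).toBlocks₂₂ (right_ne_zero_of_mul (hdetg g)),
        (bm (g.1 : Matrix _ _ F)).toBlocks₁₂)
      invFun := fun p => ⟨Matrix.GeneralLinearGroup.mkOfDetNeZero (ΦM p) (hΦdet p), hΦmem p⟩
      left_inv := by
        intro g
        apply Subtype.ext
        apply Units.ext
        show (Matrix.fromBlocks (bm (g.1 : Matrix _ _ F)).toBlocks₁₁ (bm (g.1 : Matrix _ _ F)).toBlocks₁₂ 0 (bm (g.1 : Matrix _ _ F)).toBlocks₂₂).submatrix e.symm e.symm = _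
        rw [← hfrom g]
        ext i j
        simp [bm]
      right_inv := by
        rintro ⟨A, D, B⟩
        have hb : bm (ΦM (A, D, B)) = Matrix.fromBlocks (A : Matrix (Fin k) (Fin k) F) B 0 (D : Matrix (Fin m) (Fin m) F) := by
          ext i j
          simp [bm, ΦM]
        refine Prod.ext ?_ (Prod.ext ?_ ?_)
        · apply Units.ext
          show (bm (ΦM (A, D, B))).toBlocks₁₁ = _
          rw [hb, Matrix.toBlocks_fromBlocks₁₁]
        · apply Units.ext
          show (bm (ΦM (A, D, B))).toBlocks₂₂ = _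
          rw [hb, Matrix.toBlocks_fromBlocks₂₂]
        · show (bm (ΦM (A, D, B))).toBlocks₁₂ = _
          rw [hb, Matrix.toBlocks_fromBlocks₁₂] }
  rw [Nat.card_congr E, Nat.card_prod, Nat.card_prod, Matrix.card_GL_field, Matrix.card_GL_field]
  have hcardM : Nat.card (Matrix (Fin k) (Fin m) F) = Fintype.card F ^ (k * m) := by
    show Nat.card (Fin k → Fin m → F) = _
    rw [Nat.card_fun, Nat.card_fun, Nat.card_eq_fintype_card, Nat.card_eq_fintype_card, Nat.card_eq_fintype_card,
      Fintype.card_fin, Fintype.card_fin, ← pow_mul, mul_comm]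
  rw [hcardM]
  ring

end Cfsg.Agent.Lib.ParabGL
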