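import Mathlib
import Cfsg.Agent.Lib.Tate
import Cfsg.Agent.Lib.H6PGroup
import Cfsg.Agent.Lib.PResidual

/-!
# Central extensions of perfect groups and Sylow subgroups
-/

set_option autoImplicit false
set_option linter.style.haveILetI false
set_option linter.unusedSectionVars false
set_option linter.unusedVariables false

namespace Cfsg.Agent.Lib.PerfectCover

open Cfsg

universe u v

variable {H : Type u} [Group H]

/-- A homomorphism from a perfect group to a commutative group is trivial. -/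
theorem hom_trivial {A : Type*} [CommGroup A] (hH : commutator H = ⊤) (f : H →* A) (x : H) : f x = 1 := by
  have h1 : commutator H ≤ f.ker := Abelianization.commutator_subset_ker f
  rw [hH] at h1
  exact h1 (Subgroup.mem_top x)

/-- S0101. -/
theorem ker_inf_le_frattini [Finite H] {G : Type v} [Group G] (σ : H →* G)
    (hc : σ.ker ≤ Subgroup.center H) (hH : commutator H = ⊤) {p : ℕ} [hp : Fact p.Prime] (P : Sylow p H) :
    σ.ker ⊓ (P : Subgroup H) ≤ (frattini P).map (P : Subgroup H).subtype := by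
  classical
  rintro x ⟨hxk, hxP⟩
  refine ⟨⟨x, hxP⟩, ?_, rfl⟩
  by_contra hx
  have h1 : ∃ M : Subgroup P, IsCoatom M ∧ (⟨x, hxP⟩ : P) ∉ M := by
    by_contra hne
    push Not at hne
    apply hx
    show (⟨x, hxP⟩ : P) ∈ Order.radical (Subgroup P)
    rw [Order.radical, Subgroup.mem_iInf]
    intro M
    rw [Subgroup.mem_iInf]
    intro hM
    exact hne M hM
  obtain ⟨M, hM, hxM⟩ := h1
  have hPp : IsPGroup p (P : Subgroup H) := P.isPGroup'
  obtain ⟨hpow, hcomm⟩ := Cfsg.Agent.Lib.H6PGroup.coatom_facts hPp hM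
  haveI hnorm : M.Normal := by
    haveI hnil : Group.IsNilpotent P := hPp.isNilpotent
    have h : Group.IsNilpotent P ↔ ∀ H : Subgroup P, IsCoatom H → H.Normal :=
      (Group.isNilpotent_of_finite_tfae (G := P)).out 0 2
    exact h.mp hnil M hM
  letI : CommGroup (P ⧸ M) := { (inferInstance : Group (P ⧸ M)) with
    mul_comm := by
      intro a b
      obtain ⟨a, rfl⟩ := QuotientGroup.mk_surjective a
      obtain ⟨b, rfl⟩ := QuotientGroup.mk_surjective b
      have h2 : ((a * b * a⁻¹ * b⁻¹ : P) : P ⧸ M) = 1 := (QuotientGroup.eq_one_iff _).2 (hcomm a b)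
      rw [QuotientGroup.mk_mul, QuotientGroup.mk_mul, QuotientGroup.mk_mul, QuotientGroup.mk_inv,
        QuotientGroup.mk_inv] at h2
      have h3 := mul_inv_eq_one.1 h2
      exact mul_inv_eq_iff_eq_mul.1 h3 }
  let l : P →* (P ⧸ M) := QuotientGroup.mk' M
  have h2 := Cfsg.Agent.Lib.Tate.transfer_central (P : Subgroup H) l x hxP
    (fun g => ((Subgroup.mem_center_iff.1 (hc hxk)) g))
  rw [hom_trivial hH] at h2
  -- `l x` has order dividing `p`
  have h3 : (l ⟨x, hxP⟩) ^ p = 1 := by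
    rw [← map_pow]
    exact (QuotientGroup.eq_one_iff _).2 (hpow _)
  have hcop : Nat.Coprime (P : Subgroup H).index p := by
    rw [Nat.coprime_comm]
    exact (Nat.Prime.coprime_iff_not_dvd hp.out).2 P.not_dvd_index
  have h4 : l ⟨x, hxP⟩ = 1 := by
    have h5 : orderOf (l ⟨x, hxP⟩) ∣ p := orderOf_dvd_of_pow_eq_one h3
    have h6 : orderOf (l ⟨x, hxP⟩) ∣ (P : Subgroup H).index := orderOf_dvd_of_pow_eq_one h2.symm
    have h7 := Nat.dvd_gcd h6 h5
    rw [hcop] at h7
    exact orderOf_eq_one_iff.1 (Nat.dvd_one.1 h7)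
  exact hxM ((QuotientGroup.eq_one_iff _).1 h4)

/-- An element of `p`-prime order normalizing a cyclic `p`-group and fixing a nontrivial element
centralizes it. -/
theorem centralizes_cyclic {p : ℕ} [hp : Fact p.Prime] [Finite H] {x y z : H} (hx : ∃ k, orderOf x = p ^ k)
    (hy : (orderOf y).Coprime p) (hyx : y * x * y⁻¹ ∈ Subgroup.zpowers x)
    (hz : z ∈ Subgroup.zpowers x) (hz1 : z ≠ 1) (hyz : y * z * y⁻¹ = z) : y * x * y⁻¹ = x := by
  classical
  obtain ⟨k, hk⟩ := hx
  obtain ⟨u, hu⟩ := (mem_powers_iff_mem_zpowers.2 hyx)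
  obtain ⟨t, ht⟩ := mem_powers_iff_mem_zpowers.2 hz
  dsimp only at hu ht
  -- conjugation by `y` acts as the `u`-th power
  have hconj : ∀ (j : ℕ) (w : H), y ^ j * w * (y ^ j)⁻¹ = w → True := fun _ _ _ => trivial
  have hpow : ∀ a : ℕ, y * x ^ a * y⁻¹ = x ^ (u * a) := by
    intro a
    rw [← conj_pow, ← hu, ← pow_mul]
  -- `q ∣ t * (u - 1)`
  have hq : orderOf x = p ^ k := hk
  have hu0 : u ≠ 0 := by
    rintro rfl
    rw [pow_zero] at hu
    have h1 : y * x * y⁻¹ = 1 := hu.symm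
    have h2 : x = 1 := by
      have := congrArg (fun w => y⁻¹ * w * y) h1
      simpa [mul_assoc] using this
    rw [h2] at ht
    simp at ht
    exact hz1 ht.symm
  have h1 : x ^ (u * t) = x ^ t := by
    rw [← hpow, ht, hyz]
  have h2 : ((u * t : ℕ) : ℤ) ≡ (t : ℤ) [ZMOD (p ^ k : ℕ)] := by
    have := (pow_eq_pow_iff_modEq.1 h1)
    rw [hq] at this
    exact (Int.natCast_modEq_iff).2 this
  have hqdvd : ((p ^ k : ℕ) : ℤ) ∣ (t : ℤ) * ((u : ℤ) - 1) := by
    have := h2.symm.dvd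
    have e : ((u * t : ℕ) : ℤ) - (t : ℤ) = (t : ℤ) * ((u : ℤ) - 1) := by
      push_cast; ring
    rwa [e] at this
  have hnotq : ¬ (p ^ k : ℕ) ∣ t := by
    intro h
    apply hz1
    rw [← ht, ← hq] at *
    exact orderOf_dvd_iff_pow_eq_one.1 h
  have hp1 : (p : ℤ) ∣ (u : ℤ) - 1 := by
    by_contra hn
    have hc : IsCoprime (((p ^ k : ℕ) : ℤ)) ((u : ℤ) - 1) := by
      push_cast
      apply IsCoprime.pow_left
      exact (Int.prime_iff_natAbs_prime.2 (by simpa using hp.out)).coprime_iff_not_dvd.2 hn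
    have := hc.dvd_of_dvd_mul_right hqdvd
    exact hnotq (Int.natCast_dvd_natCast.1 this)
  -- `u ^ N ≡ 1`
  set N := orderOf y with hN
  have hyN : ∀ j : ℕ, y ^ j * x * (y ^ j)⁻¹ = x ^ (u ^ j) := by
    intro j
    induction j with
    | zero => simp
    | succ j ih =>
      have h3 : y ^ (j + 1) * x * (y ^ (j + 1))⁻¹ = y * (y ^ j * x * (y ^ j)⁻¹) * y⁻¹ := by
        rw [pow_succ']
        group
      rw [h3, ih, hpow, pow_succ']
  have h4 : x ^ (u ^ N) = x ^ 1 := by
    rw [← hyN N, hN, pow_orderOf_eq_one]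
    simp
  have h5 : ((u ^ N : ℕ) : ℤ) ≡ ((1 : ℕ) : ℤ) [ZMOD (p ^ k : ℕ)] := by
    have := (pow_eq_pow_iff_modEq.1 h4)
    rw [hq] at this
    exact (Int.natCast_modEq_iff).2 this
  have hqdvd2 : ((p ^ k : ℕ) : ℤ) ∣ (∑ i ∈ Finset.range N, (u : ℤ) ^ i) * ((u : ℤ) - 1) := by
    rw [geom_sum_mul]
    have := h5.symm.dvd
    push_cast at this ⊢
    exact this
  have hS : ¬ (p : ℤ) ∣ ∑ i ∈ Finset.range N, (u : ℤ) ^ i := by
    intro h
    have h6 : ((p : ℤ)) ∣ ((N : ℕ) : ℤ) := by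
      have h7 : (∑ i ∈ Finset.range N, (u : ℤ) ^ i) ≡ ∑ i ∈ Finset.range N, (1 : ℤ) ^ i [ZMOD p] := by
        apply Int.ModEq.sum
        intro i _
        exact Int.ModEq.pow _ ((Int.modEq_iff_dvd.2 (by
          have := hp1
          rwa [← neg_sub, dvd_neg] at this)))
      have h8 : ∑ i ∈ Finset.range N, (1 : ℤ) ^ i = (N : ℤ) := by simp
      rw [h8] at h7
      have h9 := (Int.ModEq.dvd h7)
      have h10 := dvd_add h9 h
      have e : (N : ℤ) - (∑ i ∈ Finset.range N, (u : ℤ) ^ i) + (∑ i ∈ Finset.range N, (u : ℤ) ^ i) = (N : ℤ) := by ring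
      rwa [e] at h10
    have h11 : p ∣ N := Int.natCast_dvd_natCast.1 h6
    exact hp.out.one_lt.ne' (Nat.Coprime.eq_one_of_dvd hy.symm h11)
  have hc2 : IsCoprime (((p ^ k : ℕ) : ℤ)) (∑ i ∈ Finset.range N, (u : ℤ) ^ i) := by
    push_cast
    apply IsCoprime.pow_left
    exact (Int.prime_iff_natAbs_prime.2 (by simpa using hp.out)).coprime_iff_not_dvd.2 hS
  have h12 := hc2.dvd_of_dvd_mul_left hqdvd2
  -- conclude
  rw [← hu]
  have h13 : (u : ℤ) ≡ ((1 : ℕ) : ℤ) [ZMOD ((p ^ k : ℕ) : ℤ)] := by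
    refine (Int.modEq_iff_dvd.2 ?_).symm
    push_cast at h12 ⊢
    exact h12
  have h14 : u ≡ 1 [MOD p ^ k] := (Int.natCast_modEq_iff).1 h13
  rw [← hq] at h14
  have := pow_eq_pow_iff_modEq.2 h14
  rw [pow_one] at this
  exact this

/-- S0102 -/
theorem not_dvd_card_ker [Finite H] {G : Type v} [Group G] [Finite G] {p : ℕ} [hp : Fact p.Prime]
    (hcyc : ∀ P : Sylow p G, IsCyclic P) (σ : H →* G) (hσ : Function.Surjective σ)
    (hz : σ.ker ≤ Subgroup.center H) (hH : commutator H = ⊤) : ¬ p ∣ Nat.card σ.ker := by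
  classical
  intro hdvd
  obtain ⟨z₀, hz₀⟩ := exists_prime_orderOf_dvd_card' (G := σ.ker) p hdvd
  set z : H := z₀.1 with hzdef
  have hzk : z ∈ σ.ker := z₀.2
  have hzc : z ∈ Subgroup.center H := hz hzk
  have hzo : orderOf z = p := by
    rw [hzdef, Subgroup.orderOf_coe, hz₀]
  have hz1 : z ≠ 1 := by
    intro h
    rw [h, orderOf_one] at hzo
    exact hp.out.one_lt.ne hzo
  obtain ⟨P⟩ : Nonempty (Sylow p H) := inferInstance
  have hPp : IsPGroup p (P : Subgroup H) := P.isPGroup'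
  -- `z` lies in `P`
  have hzP : z ∈ (P : Subgroup H) := by
    have hzp : IsPGroup p (Subgroup.zpowers z) := by
      apply IsPGroup.of_card (n := 1)
      rw [Nat.card_zpowers, hzo, pow_one]
    have h1 := hzp.inf_normalizer_sylow P
    have h2 : z ∈ Subgroup.zpowers z ⊓ Subgroup.normalizer ((P : Subgroup H) : Set H) := by
      refine ⟨Subgroup.mem_zpowers z, Subgroup.mem_normalizer_iff.2 ?_⟩
      intro w
      have e : z * w * z⁻¹ = w := by
        rw [← Subgroup.mem_center_iff.1 hzc w]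
        group
      rw [e]
    exact (h1.le h2).2
  -- `P` is cyclic
  let Q : Sylow p G := P.mapSurjective hσ
  haveI := hcyc Q
  obtain ⟨q, hq⟩ := IsCyclic.exists_generator (α := Q)
  have hqm : (q : G) ∈ (P : Subgroup H).map σ := q.2
  obtain ⟨x, hxP, hxq⟩ := hqm
  have hgen : Subgroup.zpowers (⟨x, hxP⟩ : (P : Subgroup H)) = ⊤ := by
    apply Order.radical_nongenerating (α := Subgroup (P : Subgroup H))
    rw [eq_top_iff]
    rintro ⟨w, hw⟩ -
    have hwm : σ w ∈ (P : Subgroup H).map σ := ⟨w, hw, rfl⟩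
    obtain ⟨k, hk⟩ := Subgroup.mem_zpowers_iff.1 (hq ⟨σ w, hwm⟩)
    have hk' : (q : G) ^ k = σ w := congrArg Subtype.val hk
    have h3 : x⁻¹ ^ k * w ∈ σ.ker ⊓ (P : Subgroup H) := by
      refine ⟨?_, (P : Subgroup H).mul_mem ((P : Subgroup H).zpow_mem ((P : Subgroup H).inv_mem hxP) k) hw⟩
      show σ (x⁻¹ ^ k * w) = 1
      rw [map_mul, map_zpow, map_inv, hxq, ← hk', inv_zpow, inv_mul_cancel]
    have h4 := ker_inf_le_frattini σ hz hH P h3
    obtain ⟨f, hf, hfw⟩ := h4
    have h5 : (⟨w, hw⟩ : (P : Subgroup H)) = (⟨x, hxP⟩ : (P : Subgroup H)) ^ k * f := by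
      apply Subtype.ext
      simp only [Subgroup.coe_mul, Subgroup.coe_zpow]
      have hfw' : (f : H) = x⁻¹ ^ k * w := hfw
      rw [hfw', inv_zpow, mul_inv_cancel_left]
    rw [h5]
    exact Subgroup.mul_mem_sup (Subgroup.zpow_mem_zpowers _ k) hf
  have hxord : ∃ k, orderOf x = p ^ k := by
    obtain ⟨k, hk⟩ := IsPGroup.iff_orderOf.1 hPp ⟨x, hxP⟩
    exact ⟨k, by rwa [Subgroup.orderOf_mk] at hk⟩
  have hmemx : ∀ w ∈ (P : Subgroup H), w ∈ Subgroup.zpowers x := by
    intro w hw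
    have h1 : (⟨w, hw⟩ : (P : Subgroup H)) ∈ Subgroup.zpowers (⟨x, hxP⟩ : (P : Subgroup H)) := by
      rw [hgen]; trivial
    obtain ⟨k, hk⟩ := Subgroup.mem_zpowers_iff.1 h1
    exact Subgroup.mem_zpowers_iff.2 ⟨k, congrArg Subtype.val hk⟩
  have hxxP : x ∈ (P : Subgroup H) := hxP
  have hPle : Subgroup.zpowers x ≤ (P : Subgroup H) := by
    rw [Subgroup.zpowers_le]; exact hxP
  -- `N(P)` centralizes `P`
  have hN : Subgroup.normalizer ((P : Subgroup H) : Set H) ≤ Subgroup.centralizer ((P : Subgroup H) : Set H) := by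
    intro g hg
    obtain ⟨y, w, rfl, hcomm, hy, ⟨k, hk⟩, hyz, hwz⟩ := Cfsg.Agent.Lib.PResidual.exists_decomp (p := p) g
    have hle : Subgroup.zpowers (y * w) ≤ Subgroup.normalizer ((P : Subgroup H) : Set H) := by
      rw [Subgroup.zpowers_le]; exact hg
    -- `w` lies in `P`
    have hwP : w ∈ (P : Subgroup H) := by
      have hwp : IsPGroup p (Subgroup.zpowers w) := by
        apply IsPGroup.of_card (n := k)
        rw [Nat.card_zpowers, hk]
      have h1 := hwp.inf_normalizer_sylow P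
      have h2 : w ∈ Subgroup.zpowers w ⊓ Subgroup.normalizer ((P : Subgroup H) : Set H) :=
        ⟨Subgroup.mem_zpowers w, hle hwz⟩
      exact (h1.le h2).2
    have hyN := hle hyz
    have hyx : y * x * y⁻¹ = x := by
      refine centralizes_cyclic hxord hy ?_ (hmemx z hzP) hz1 ?_
      · apply hmemx
        exact (Subgroup.mem_normalizer_iff.1 hyN x).1 hxP
      · rw [Subgroup.mem_center_iff.1 hzc y]
        group
    rw [Subgroup.mem_centralizer_iff]
    intro v hv
    have hvx := hmemx v hv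
    obtain ⟨j, rfl⟩ := Subgroup.mem_zpowers_iff.1 hvx
    have hwx : Commute w x := by
      have hwx := hmemx w hwP
      obtain ⟨i, rfl⟩ := Subgroup.mem_zpowers_iff.1 hwx
      exact (Commute.refl x).zpow_left i
    have hyx' : Commute y x := by
      show y * x = x * y
      calc y * x = y * x * y⁻¹ * y := by group
        _ = x * y := by rw [hyx]
    have hc : Commute (y * w) x := hyx'.mul_left hwx
    have := (hc.zpow_right j).eq
    exact this.symm
  -- conclusion by transfer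
  letI : CommGroup (P : Subgroup H) := { (inferInstance : Group (P : Subgroup H)) with
    mul_comm := fun a b => Subtype.ext (hN (Subgroup.le_normalizer b.2) a a.2) }
  have hΛ : MonoidHom.transferSylow P hN z = 1 := hom_trivial hH (MonoidHom.transferSylow P hN) z
  rw [MonoidHom.transferSylow_eq_pow P hN z hzP] at hΛ
  have h1 : z ^ (P : Subgroup H).index = 1 := congrArg Subtype.val hΛ
  have h2 : orderOf z ∣ (P : Subgroup H).index := orderOf_dvd_of_pow_eq_one h1
  rw [hzo] at h2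
  exact P.not_dvd_index h2

end Cfsg.Agent.Lib.PerfectCover
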