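/-
The concrete projective plane of order 4 on 21 points, built from the six points of a hyperoval,
the 15 synthemes and the 6 totals.
-/
import Mathlib

set_option autoImplicit false

namespace Cfsg.Agent.Lib.Plane4Data

/-- the 15 synthemes of six points, as fixed point free involutions -/
def syn : Fin 15 → Fin 6 → Fin 6 :=
  ![![1,0,3,2,5,4],
  ![1,0,4,5,2,3],
  ![1,0,5,4,3,2],
  ![2,3,0,1,5,4],
  ![2,4,0,5,1,3],
  ![2,5,0,4,3,1],
  ![3,2,1,0,5,4],
  ![3,4,5,0,1,2],
  ![3,5,4,0,2,1],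
  ![4,2,1,5,0,3],
  ![4,3,5,1,0,2],
  ![4,5,3,2,0,1],
  ![5,2,1,4,3,0],
  ![5,3,4,1,2,0],
  ![5,4,3,2,1,0]]

/-- the first six points -/
def pt (i : Fin 6) : Fin 21 := ⟨i.1, by omega⟩

/-- the remaining 15 points -/
def sp (k : Fin 15) : Fin 21 := ⟨6 + k.1, by omega⟩

theorem pt_injective : Function.Injective pt := by
  intro a b h
  apply Fin.ext
  simpa [pt] using h

theorem sp_injective : Function.Injective sp := by
  intro a b h
  apply Fin.ext
  simpa [sp] using h

theorem pt_ne_sp (i : Fin 6) (k : Fin 15) : pt i ≠ sp k := by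
  intro h
  have := congrArg Fin.val h
  simp [pt, sp] at this
  omega

/-- the 21 lines -/
def lineFn : Fin 21 → Finset (Fin 21) :=
  ![{0,1,6,7,8},
  {0,2,9,10,11},
  {0,3,12,13,14},
  {0,4,15,16,17},
  {0,5,18,19,20},
  {1,2,12,15,18},
  {1,3,9,16,19},
  {1,4,10,13,20},
  {1,5,11,14,17},
  {2,3,6,17,20},
  {2,4,7,14,19},
  {2,5,8,13,16},
  {3,4,8,11,18},
  {3,5,7,10,15},
  {4,5,6,9,12},
  {6,10,14,16,18},
  {6,11,13,15,19},
  {7,9,13,17,18},
  {7,11,12,16,20},
  {8,9,14,15,20},
  {8,10,12,17,19}]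

/-- the set of lines -/
def lines0 : Finset (Finset (Fin 21)) := Finset.univ.image lineFn

theorem lineFn_injective : ∀ i j, lineFn i = lineFn j → i = j := by decide +kernel

theorem lines0_card : lines0.card = 21 := by
  rw [lines0, Finset.card_image_of_injective _ (fun i j h => lineFn_injective i j h)]
  simp

theorem lineFn_card : ∀ i, (lineFn i).card = 5 := by decide +kernel

theorem lines0_card_five (l) (hl : l ∈ lines0) : l.card = 5 := by
  obtain ⟨i, -, rfl⟩ := Finset.mem_image.mp hl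
  exact lineFn_card i

/-- All fixed point free involutions are synthemes. -/
theorem exists_syn : ∀ τ : Equiv.Perm (Fin 6), (∀ i, τ i ≠ i) → (∀ i, τ (τ i) = i) →
    ∃ k, ∀ i, syn k i = τ i := by decide +kernel

theorem syn_fpf : ∀ k i, syn k i ≠ i := by decide +kernel

theorem duad_line : ∀ i j, i ≠ j → ∃ m, pt i ∈ lineFn m ∧ pt j ∈ lineFn m ∧ ∀ k, syn k i = j → sp k ∈ lineFn m := by
  decide +kernel

/-- disjoint synthemes -/
def D (a b : Fin 15) : Prop := ∀ i, syn a i ≠ syn b i

instance : DecidableRel D := fun a b => by unfold D; infer_instance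

theorem total_line : ∀ a b, D a b → ∀ c, D a c → D b c → ∀ d, D a d → D b d → D c d →
    ∀ e, D a e → D b e → D c e → D d e → ∃ m, ({sp a, sp b, sp c, sp d, sp e} : Finset (Fin 21)) = lineFn m := by
  decide +kernel

end Cfsg.Agent.Lib.Plane4Data
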