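/-
Projective planes of order 4 as Steiner systems `S(2,5,21)`: arcs, hyperovals and coordinatisation
from a labelled hyperoval.
-/
import Mathlib
import Cfsg.Prelude.Def_Sporadic_a
import Cfsg.Agent.Lib.SteinerCount
import Cfsg.Agent.Lib.Plane4Data

set_option autoImplicit false
set_option linter.unusedSectionVars false
set_option linter.unusedSimpArgs false
set_option linter.unusedVariables false

namespace Cfsg.Agent.Lib.Plane4

open Cfsg Cfsg.Agent.Lib.SteinerCount Cfsg.Agent.Lib.Plane4Data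

variable {α : Type*} [Fintype α] [DecidableEq α] {L : Set (Finset α)}

theorem exists_line (hL : IsSteinerSystem 2 5 L) {a b : α} (hab : a ≠ b) :
    ∃ l ∈ L, a ∈ l ∧ b ∈ l := by
  obtain ⟨l, ⟨hl, hs⟩, -⟩ := hL.2 {a, b} (Finset.card_pair hab)
  exact ⟨l, hl, hs (by simp), hs (by simp)⟩

theorem line_unique (hL : IsSteinerSystem 2 5 L) {l l' : Finset α} {a b : α} (hl : l ∈ L)
    (hl' : l' ∈ L) (hab : a ≠ b) (h1 : a ∈ l) (h2 : b ∈ l) (h3 : a ∈ l') (h4 : b ∈ l') : l = l' := by
  obtain ⟨m, -, hm⟩ := hL.2 {a, b} (Finset.card_pair hab)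
  rw [hm l ⟨hl, by simp [Finset.insert_subset_iff, h1, h2]⟩,
    hm l' ⟨hl', by simp [Finset.insert_subset_iff, h3, h4]⟩]

open Classical in
/-- the lines through a point -/
noncomputable def pencil (L : Set (Finset α)) (a : α) : Finset (Finset α) :=
  (Finset.univ.filter (· ∈ L)).filter (a ∈ ·)

theorem mem_pencil {a : α} {l : Finset α} : l ∈ pencil L a ↔ l ∈ L ∧ a ∈ l := by
  simp [pencil]

theorem pencil_card (hα : Fintype.card α = 21) (hL : IsSteinerSystem 2 5 L) (a : α) :
    (pencil L a).card = 5 := by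
  have h := cnt_down L 5 1 1 5 hL.1 (by norm_num) (fun s hs => cnt_of_steiner hL s hs)
    (by rw [hα]) {a} (by simp)
  rw [cnt] at h
  rw [← h]
  congr 1
  ext l
  simp [pencil, mem_pencil]

open Classical in
theorem lines_card (hα : Fintype.card α = 21) (hL : IsSteinerSystem 2 5 L) :
    (Finset.univ.filter (· ∈ L)).card = 21 := by
  have h5 : ∀ s : Finset α, s.card = 1 → cnt L s = 5 := by
    intro s hs
    exact cnt_down L 5 1 1 5 hL.1 (by norm_num) (fun s hs => cnt_of_steiner hL s hs)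
      (by rw [hα]) s hs
  have h := cnt_down L 5 0 5 21 hL.1 (by norm_num) h5 (by rw [hα]) ∅ (by simp)
  rw [cnt] at h
  rw [← h]
  congr 1
  ext l
  simp

theorem meet (hα : Fintype.card α = 21) (hL : IsSteinerSystem 2 5 L) {l l' : Finset α}
    (hl : l ∈ L) (hl' : l' ∈ L) : ∃ p, p ∈ l ∧ p ∈ l' := by
  by_contra hno
  push Not at hno
  have hne : l'.Nonempty := by
    rw [← Finset.card_pos, hL.1 l' hl']
    norm_num
  obtain ⟨p, hp⟩ := hne
  have hpl : p ∉ l := fun h => hno p h hp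
  have h1 : ∀ x ∈ l, ∃ m, m ∈ L ∧ p ∈ m ∧ x ∈ m := by
    intro x hx
    have hne : p ≠ x := fun h => hpl (h ▸ hx)
    obtain ⟨m, hm, h2, h3⟩ := exists_line hL hne
    exact ⟨m, hm, h2, h3⟩
  choose! f hf1 hf2 hf3 using h1
  have h2 : l.card ≤ ((pencil L p).erase l').card := by
    apply Finset.card_le_card_of_injOn f
    · intro x hx
      have hx' : x ∈ l := hx
      simp only [Finset.coe_erase, Set.mem_sdiff, Finset.mem_coe, Set.mem_singleton_iff]
      refine ⟨mem_pencil.mpr ⟨hf1 x hx', hf2 x hx'⟩, ?_⟩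
      intro h
      exact hno x hx' (h ▸ hf3 x hx')
    · intro x hx y hy hxy
      by_contra hne
      have hx' : x ∈ l := hx
      have hy' : y ∈ l := hy
      have h3 : f x = l := line_unique hL (hf1 x hx') hl hne (hf3 x hx') (hxy ▸ hf3 y hy') hx' hy'
      exact hpl (h3 ▸ hf2 x hx')
  rw [Finset.card_erase_of_mem (mem_pencil.mpr ⟨hl', hp⟩), pencil_card hα hL, hL.1 l hl] at h2
  omega

/-- arcs: no line meets the set in more than two points -/
def IsArc (L : Set (Finset α)) (S : Finset α) : Prop := ∀ l ∈ L, (l ∩ S).card ≤ 2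

theorem IsArc.no_three {S : Finset α} (h : IsArc L S) {l : Finset α} (hl : l ∈ L) {x y z : α}
    (hx : x ∈ S) (hy : y ∈ S) (hz : z ∈ S) (hxl : x ∈ l) (hyl : y ∈ l) (hzl : z ∈ l)
    (hxy : x ≠ y) (hxz : x ≠ z) (hyz : y ≠ z) : False := by
  have h1 : 2 < (l ∩ S).card := Finset.two_lt_card.mpr
    ⟨x, Finset.mem_inter.mpr ⟨hxl, hx⟩, y, Finset.mem_inter.mpr ⟨hyl, hy⟩, z,
      Finset.mem_inter.mpr ⟨hzl, hz⟩, hxy, hxz, hyz⟩
  have := h l hl
  omega

theorem IsArc.mono {S T : Finset α} (h : IsArc L T) (hST : S ⊆ T) : IsArc L S := fun l hl =>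
  (Finset.card_le_card (Finset.inter_subset_inter_left hST)).trans (h l hl)

/-- `x` can be added to the arc `S` -/
def IsExt (L : Set (Finset α)) (S : Finset α) (x : α) : Prop :=
  x ∉ S ∧ ∀ l ∈ L, x ∈ l → (l ∩ S).card ≤ 1

theorem isArc_insert {S : Finset α} {x : α} (hS : IsArc L S) (hx : IsExt L S x) :
    IsArc L (insert x S) := by
  intro l hl
  by_cases hxl : x ∈ l
  · rw [Finset.inter_insert_of_mem hxl]
    have := Finset.card_insert_le x (l ∩ S)
    have := hx.2 l hl hxl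
    omega
  · rw [Finset.inter_insert_of_notMem hxl]
    exact hS l hl

theorem isExt_of_arc {S : Finset α} {x : α} (h : IsArc L (insert x S)) (hx : x ∉ S) :
    IsExt L S x := by
  refine ⟨hx, fun l hl hxl => ?_⟩
  have h1 := h l hl
  rw [Finset.inter_insert_of_mem hxl, Finset.card_insert_of_notMem
    (fun h => hx (Finset.mem_inter.mp h).2)] at h1
  omega

theorem isExt_iff {S : Finset α} {x : α} (hS : IsArc L S) :
    IsExt L S x ↔ x ∉ S ∧ IsArc L (insert x S) :=
  ⟨fun h => ⟨h.1, isArc_insert hS h⟩, fun h => isExt_of_arc h.2 h.1⟩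

/-- Two points of a four-element set on a line. -/
theorem pair_of_card {a b c d : α} {l : Finset α} (h : 1 < (l ∩ {a, b, c, d}).card) :
    (a ∈ l ∧ b ∈ l) ∨ (a ∈ l ∧ c ∈ l) ∨ (a ∈ l ∧ d ∈ l) ∨ (b ∈ l ∧ c ∈ l) ∨ (b ∈ l ∧ d ∈ l) ∨
      (c ∈ l ∧ d ∈ l) := by
  obtain ⟨x, hx, y, hy, hxy⟩ := Finset.one_lt_card.mp h
  simp only [Finset.mem_inter, Finset.mem_insert, Finset.mem_singleton] at hx hy
  obtain ⟨hxl, hx⟩ := hx
  obtain ⟨hyl, hy⟩ := hy
  rcases hx with rfl | rfl | rfl | rfl <;> rcases hy with rfl | rfl | rfl | rfl <;>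
    first
    | exact absurd rfl hxy
    | tauto

theorem ext_on_line (hα : Fintype.card α = 21) (hL : IsSteinerSystem 2 5 L) {S m : Finset α} {a : α}
    (hS : IsArc L S) (hc : S.card = 4) (ha : a ∈ S) (hm : m ∈ L) (ham : a ∈ m)
    (hmS : ∀ y ∈ S, y ≠ a → y ∉ m) :
    ∃ e ∈ m, e ≠ a ∧ IsExt L S e ∧ ∀ e' ∈ m, e' ≠ a → IsExt L S e' → e' = e := by
  have h3 : (S.erase a).card = 3 := by rw [Finset.card_erase_of_mem ha, hc]
  obtain ⟨b, c, d, hbc, hbd, hcd, hS3⟩ := Finset.card_eq_three.mp h3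
  have hbS : b ∈ S := Finset.mem_of_mem_erase (by rw [hS3]; simp)
  have hcS : c ∈ S := Finset.mem_of_mem_erase (by rw [hS3]; simp)
  have hdS : d ∈ S := Finset.mem_of_mem_erase (by rw [hS3]; simp)
  have hba : b ≠ a := Finset.ne_of_mem_erase (by rw [hS3]; simp)
  have hca : c ≠ a := Finset.ne_of_mem_erase (by rw [hS3]; simp)
  have hda : d ≠ a := Finset.ne_of_mem_erase (by rw [hS3]; simp)
  have hSeq : S = {a, b, c, d} := by
    rw [← Finset.insert_erase ha, hS3]
  have hbm := hmS b hbS hba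
  have hcm := hmS c hcS hca
  have hdm := hmS d hdS hda
  obtain ⟨lbc, hlbc, hb1, hc1⟩ := exists_line hL hbc
  obtain ⟨lbd, hlbd, hb2, hd2⟩ := exists_line hL hbd
  obtain ⟨lcd, hlcd, hc3, hd3⟩ := exists_line hL hcd
  have hal1 : a ∉ lbc := fun h => hS.no_three hlbc ha hbS hcS h hb1 hc1 hba.symm hca.symm hbc
  have hal2 : a ∉ lbd := fun h => hS.no_three hlbd ha hbS hdS h hb2 hd2 hba.symm hda.symm hbd
  have hal3 : a ∉ lcd := fun h => hS.no_three hlcd ha hcS hdS h hc3 hd3 hca.symm hda.symm hcd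
  obtain ⟨p1, hp1m, hp1⟩ := meet hα hL hm hlbc
  obtain ⟨p2, hp2m, hp2⟩ := meet hα hL hm hlbd
  obtain ⟨p3, hp3m, hp3⟩ := meet hα hL hm hlcd
  have hmne1 : m ≠ lbc := fun h => hal1 (h ▸ ham)
  have hmne2 : m ≠ lbd := fun h => hal2 (h ▸ ham)
  have hmne3 : m ≠ lcd := fun h => hal3 (h ▸ ham)
  have h12 : p1 ≠ p2 := by
    rintro rfl
    have hp : p1 ≠ b := fun h => hbm (h ▸ hp1m)
    have := line_unique hL hlbc hlbd hp hp1 hb1 hp2 hb2
    exact hd2 |> fun h' => hS.no_three hlbc hbS hcS hdS hb1 hc1 (this ▸ hd2) hbc hbd hcd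
  have h13 : p1 ≠ p3 := by
    rintro rfl
    have hp : p1 ≠ c := fun h => hcm (h ▸ hp1m)
    have := line_unique hL hlbc hlcd hp hp1 hc1 hp3 hc3
    exact hS.no_three hlbc hbS hcS hdS hb1 hc1 (this ▸ hd3) hbc hbd hcd
  have h23 : p2 ≠ p3 := by
    rintro rfl
    have hp : p2 ≠ d := fun h => hdm (h ▸ hp2m)
    have := line_unique hL hlbd hlcd hp hp2 hd2 hp3 hd3
    exact hS.no_three hlbd hbS hcS hdS hb2 (this ▸ hc3) hd2 hbc hbd hcd
  have h1a : p1 ≠ a := fun h => hal1 (h ▸ hp1)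
  have h2a : p2 ≠ a := fun h => hal2 (h ▸ hp2)
  have h3a : p3 ≠ a := fun h => hal3 (h ▸ hp3)
  have hsub : ({a, p1, p2, p3} : Finset α) ⊆ m := by
    intro x hx
    simp only [Finset.mem_insert, Finset.mem_singleton] at hx
    rcases hx with rfl | rfl | rfl | rfl <;> assumption
  have hcard4 : ({a, p1, p2, p3} : Finset α).card = 4 := by
    rw [Finset.card_insert_of_notMem, Finset.card_insert_of_notMem, Finset.card_pair h23]
    · simp [h12, h13]
    · simp [h1a.symm, h2a.symm, h3a.symm]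
  have hm5 := hL.1 m hm
  have hsd : (m \ {a, p1, p2, p3}).card = 1 := by
    rw [Finset.card_sdiff_of_subset hsub, hm5, hcard4]
  obtain ⟨e, he⟩ := Finset.card_eq_one.mp hsd
  have heM : e ∈ m \ {a, p1, p2, p3} := by rw [he]; simp
  simp only [Finset.mem_sdiff, Finset.mem_insert, Finset.mem_singleton, not_or] at heM
  obtain ⟨hem, hea, he1, he2, he3⟩ := heM
  have hnotin : ∀ l ∈ L, l ≠ m → ∀ p ∈ m, p ∈ l → e ≠ p → e ∉ l := by
    intro l hl hlm p hpm hpl hne hel
    exact hlm (line_unique hL hl hm hne hel hpl hem hpm)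
  refine ⟨e, hem, hea, ⟨?_, ?_⟩, ?_⟩
  · intro heS
    exact hmS e heS hea hem
  · intro l hl hel
    by_contra hcont
    have hcont' : 1 < (l ∩ S).card := by omega
    rw [hSeq] at hcont'
    have hlm : ∀ y, y ∈ l → y ∉ m → l ≠ m := fun y h1 h2 h => h2 (h ▸ h1)
    rcases pair_of_card hcont' with ⟨h1, h2⟩ | ⟨h1, h2⟩ | ⟨h1, h2⟩ | ⟨h1, h2⟩ | ⟨h1, h2⟩ | ⟨h1, h2⟩
    · exact hlm b h2 hbm (line_unique hL hl hm hea hel h1 hem ham)
    · exact hlm c h2 hcm (line_unique hL hl hm hea hel h1 hem ham)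
    · exact hlm d h2 hdm (line_unique hL hl hm hea hel h1 hem ham)
    · have : l = lbc := line_unique hL hl hlbc hbc h1 h2 hb1 hc1
      subst this
      exact hnotin l hl hmne1.symm p1 hp1m hp1 he1 hel
    · have : l = lbd := line_unique hL hl hlbd hbd h1 h2 hb2 hd2
      subst this
      exact hnotin l hl hmne2.symm p2 hp2m hp2 he2 hel
    · have : l = lcd := line_unique hL hl hlcd hcd h1 h2 hc3 hd3
      subst this
      exact hnotin l hl hmne3.symm p3 hp3m hp3 he3 hel
  · intro e' he'm he'a hext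
    have hin : e' ∈ m \ {a, p1, p2, p3} := by
      simp only [Finset.mem_sdiff, Finset.mem_insert, Finset.mem_singleton, not_or]
      refine ⟨he'm, he'a, ?_, ?_, ?_⟩
      · rintro rfl
        have := hext.2 lbc hlbc hp1
        have h2 : 1 < (lbc ∩ S).card := Finset.one_lt_card.mpr
          ⟨b, Finset.mem_inter.mpr ⟨hb1, hbS⟩, c, Finset.mem_inter.mpr ⟨hc1, hcS⟩, hbc⟩
        omega
      · rintro rfl
        have := hext.2 lbd hlbd hp2
        have h2 : 1 < (lbd ∩ S).card := Finset.one_lt_card.mpr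
          ⟨b, Finset.mem_inter.mpr ⟨hb2, hbS⟩, d, Finset.mem_inter.mpr ⟨hd2, hdS⟩, hbd⟩
        omega
      · rintro rfl
        have := hext.2 lcd hlcd hp3
        have h2 : 1 < (lcd ∩ S).card := Finset.one_lt_card.mpr
          ⟨c, Finset.mem_inter.mpr ⟨hc3, hcS⟩, d, Finset.mem_inter.mpr ⟨hd3, hdS⟩, hcd⟩
        omega
    rw [he] at hin
    simpa using hin

/-- A 4-arc has exactly two extensions, and together they form an arc. -/
theorem four_arc_ext (hα : Fintype.card α = 21) (hL : IsSteinerSystem 2 5 L) {S : Finset α}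
    (hS : IsArc L S) (hc : S.card = 4) :
    ∃ e₁ e₂, e₁ ≠ e₂ ∧ (∀ x, IsExt L S x ↔ x = e₁ ∨ x = e₂) ∧ IsArc L (insert e₁ (insert e₂ S)) := by
  have hne : S.Nonempty := by
    rw [← Finset.card_pos, hc]; norm_num
  obtain ⟨a, ha⟩ := hne
  have h3 : (S.erase a).card = 3 := by rw [Finset.card_erase_of_mem ha, hc]
  obtain ⟨b, c, d, hbc, hbd, hcd, hS3⟩ := Finset.card_eq_three.mp h3
  have hbS : b ∈ S := Finset.mem_of_mem_erase (by rw [hS3]; simp)
  have hcS : c ∈ S := Finset.mem_of_mem_erase (by rw [hS3]; simp)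
  have hdS : d ∈ S := Finset.mem_of_mem_erase (by rw [hS3]; simp)
  have hba : b ≠ a := Finset.ne_of_mem_erase (by rw [hS3]; simp)
  have hca : c ≠ a := Finset.ne_of_mem_erase (by rw [hS3]; simp)
  have hda : d ≠ a := Finset.ne_of_mem_erase (by rw [hS3]; simp)
  have hSeq : S = {a, b, c, d} := by
    rw [← Finset.insert_erase ha, hS3]
  obtain ⟨l1, hl1, ha1, hb1⟩ := exists_line hL hba.symm
  obtain ⟨l2, hl2, ha2, hc2⟩ := exists_line hL hca.symm
  obtain ⟨l3, hl3, ha3, hd3⟩ := exists_line hL hda.symm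
  have hc1 : c ∉ l1 := fun h => hS.no_three hl1 ha hbS hcS ha1 hb1 h hba.symm hca.symm hbc
  have hd1 : d ∉ l1 := fun h => hS.no_three hl1 ha hbS hdS ha1 hb1 h hba.symm hda.symm hbd
  have hb2 : b ∉ l2 := fun h => hS.no_three hl2 ha hbS hcS ha2 h hc2 hba.symm hca.symm hbc
  have hd2 : d ∉ l2 := fun h => hS.no_three hl2 ha hcS hdS ha2 hc2 h hca.symm hda.symm hcd
  have hb3 : b ∉ l3 := fun h => hS.no_three hl3 ha hbS hdS ha3 h hd3 hba.symm hda.symm hbd
  have hc3 : c ∉ l3 := fun h => hS.no_three hl3 ha hcS hdS ha3 h hd3 hca.symm hda.symm hcd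
  have h12 : l1 ≠ l2 := fun h => hc1 (h ▸ hc2)
  have h13 : l1 ≠ l3 := fun h => hd1 (h ▸ hd3)
  have h23 : l2 ≠ l3 := fun h => hd2 (h ▸ hd3)
  have hsub : ({l1, l2, l3} : Finset (Finset α)) ⊆ pencil L a := by
    intro x hx
    simp only [Finset.mem_insert, Finset.mem_singleton] at hx
    rcases hx with rfl | rfl | rfl <;> exact mem_pencil.mpr ⟨by assumption, by assumption⟩
  have hcard : (pencil L a \ {l1, l2, l3}).card = 2 := by
    rw [Finset.card_sdiff_of_subset hsub, pencil_card hα hL, Finset.card_eq_three.mpr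
      ⟨l1, l2, l3, h12, h13, h23, rfl⟩]
  obtain ⟨m₁, m₂, hmne, hmeq⟩ := Finset.card_eq_two.mp hcard
  have hm1 : m₁ ∈ pencil L a \ {l1, l2, l3} := by rw [hmeq]; simp
  have hm2 : m₂ ∈ pencil L a \ {l1, l2, l3} := by rw [hmeq]; simp
  simp only [Finset.mem_sdiff, Finset.mem_insert, Finset.mem_singleton, not_or, mem_pencil] at hm1 hm2
  obtain ⟨⟨hm1L, ham1⟩, hm11, hm12, hm13⟩ := hm1
  obtain ⟨⟨hm2L, ham2⟩, hm21, hm22, hm23⟩ := hm2
  have hgood : ∀ m ∈ L, a ∈ m → m ≠ l1 → m ≠ l2 → m ≠ l3 → ∀ y ∈ S, y ≠ a → y ∉ m := by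
    intro m hm ham h1 h2 h3 y hy hya hym
    have hy' : y ∈ S.erase a := Finset.mem_erase.mpr ⟨hya, hy⟩
    rw [hS3] at hy'
    simp only [Finset.mem_insert, Finset.mem_singleton] at hy'
    rcases hy' with rfl | rfl | rfl
    · exact h1 (line_unique hL hm hl1 hya.symm ham hym ha1 hb1)
    · exact h2 (line_unique hL hm hl2 hya.symm ham hym ha2 hc2)
    · exact h3 (line_unique hL hm hl3 hya.symm ham hym ha3 hd3)
  obtain ⟨e₁, he1m, he1a, he1, hu1⟩ := ext_on_line hα hL hS hc ha hm1L ham1 (hgood _ hm1L ham1 hm11 hm12 hm13)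
  obtain ⟨e₂, he2m, he2a, he2, hu2⟩ := ext_on_line hα hL hS hc ha hm2L ham2 (hgood _ hm2L ham2 hm21 hm22 hm23)
  have hne12 : e₁ ≠ e₂ := by
    rintro rfl
    exact hmne (line_unique hL hm1L hm2L he1a.symm ham1 he1m ham2 he2m)
  have hiff : ∀ x, IsExt L S x ↔ x = e₁ ∨ x = e₂ := by
    intro x
    constructor
    · intro hx
      have hxa : x ≠ a := fun h => hx.1 (h ▸ ha)
      obtain ⟨l, hl, hax, hxl⟩ := exists_line hL hxa.symm
      have hlmem : l ∈ pencil L a := mem_pencil.mpr ⟨hl, hax⟩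
      have hsec : ∀ y ∈ S, y ≠ a → y ∉ l := by
        intro y hy hya hyl
        have h2 : 1 < (l ∩ S).card := Finset.one_lt_card.mpr
          ⟨a, Finset.mem_inter.mpr ⟨hax, ha⟩, y, Finset.mem_inter.mpr ⟨hyl, hy⟩, hya.symm⟩
        have := hx.2 l hl hxl
        omega
      have hlin : l ∈ pencil L a \ {l1, l2, l3} := by
        simp only [Finset.mem_sdiff, Finset.mem_insert, Finset.mem_singleton, not_or]
        refine ⟨hlmem, ?_, ?_, ?_⟩
        · rintro rfl; exact hsec b hbS hba hb1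
        · rintro rfl; exact hsec c hcS hca hc2
        · rintro rfl; exact hsec d hdS hda hd3
      rw [hmeq] at hlin
      simp only [Finset.mem_insert, Finset.mem_singleton] at hlin
      rcases hlin with rfl | rfl
      · exact Or.inl (hu1 x hxl hxa hx)
      · exact Or.inr (hu2 x hxl hxa hx)
    · rintro (rfl | rfl)
      · exact he1
      · exact he2
  refine ⟨e₁, e₂, hne12, hiff, ?_⟩
  have harc2 : IsArc L (insert e₂ S) := isArc_insert hS he2
  apply isArc_insert harc2
  refine ⟨?_, ?_⟩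
  · simp only [Finset.mem_insert, not_or]
    exact ⟨hne12, he1.1⟩
  · intro l hl he1l
    by_cases he2l : e₂ ∈ l
    · -- the line through both misses `S`
      rw [Finset.inter_insert_of_mem he2l]
      have hemp : l ∩ S = ∅ := by
        rw [Finset.eq_empty_iff_forall_notMem]
        intro s hs
        obtain ⟨hsl, hsS⟩ := Finset.mem_inter.mp hs
        have hall : ∀ y ∈ S, y ≠ s → y ∉ l := by
          intro y hy hys hyl
          have h2 : 1 < (l ∩ S).card := Finset.one_lt_card.mpr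
            ⟨s, Finset.mem_inter.mpr ⟨hsl, hsS⟩, y, Finset.mem_inter.mpr ⟨hyl, hy⟩, hys.symm⟩
          have := he1.2 l hl he1l
          omega
        obtain ⟨e, -, -, -, hu⟩ := ext_on_line hα hL hS hc hsS hl hsl hall
        have h1 := hu e₁ he1l (fun h => he1.1 (h ▸ hsS)) he1
        have h2 := hu e₂ he2l (fun h => he2.1 (h ▸ hsS)) he2
        exact hne12 (h1.trans h2.symm)
      rw [hemp]
      simp
    · rw [Finset.inter_insert_of_notMem he2l]
      exact he1.2 l hl he1l

/-- Every 4-arc lies in a unique hyperoval. -/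
theorem exists_unique_hyperoval (hα : Fintype.card α = 21) (hL : IsSteinerSystem 2 5 L)
    {S : Finset α} (hS : IsArc L S) (hc : S.card = 4) :
    ∃! H : Finset α, (H.card = 6 ∧ IsArc L H) ∧ S ⊆ H := by
  obtain ⟨e₁, e₂, hne, hiff, harc⟩ := four_arc_ext hα hL hS hc
  have he1 := (hiff e₁).mpr (Or.inl rfl)
  have he2 := (hiff e₂).mpr (Or.inr rfl)
  have hcard : (insert e₁ (insert e₂ S)).card = 6 := by
    rw [Finset.card_insert_of_notMem, Finset.card_insert_of_notMem he2.1, hc]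
    simp only [Finset.mem_insert, not_or]
    exact ⟨hne, he1.1⟩
  refine ⟨insert e₁ (insert e₂ S), ⟨⟨hcard, harc⟩, ?_⟩, ?_⟩
  · intro x hx
    exact Finset.mem_insert_of_mem (Finset.mem_insert_of_mem hx)
  · rintro H ⟨⟨hH6, hHarc⟩, hSH⟩
    apply Finset.eq_of_subset_of_card_le ?_ (by omega)
    intro x hx
    by_cases hxS : x ∈ S
    · exact Finset.mem_insert_of_mem (Finset.mem_insert_of_mem hxS)
    · have hext : IsExt L S x := by
        apply isExt_of_arc _ hxS
        apply hHarc.mono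
        intro y hy
        rcases Finset.mem_insert.mp hy with rfl | hy
        · exact hx
        · exact hSH hy
      rcases (hiff x).mp hext with rfl | rfl <;> simp

/-- There is a four-arc. -/
theorem exists_four_arc (hα : Fintype.card α = 21) (hL : IsSteinerSystem 2 5 L) :
    ∃ S : Finset α, IsArc L S ∧ S.card = 4 := by
  classical
  have h21 : (Finset.univ : Finset α).card = 21 := by simpa using hα
  obtain ⟨a, b, hab⟩ : ∃ a b : α, a ≠ b := by
    have : Nontrivial α := Fintype.one_lt_card_iff_nontrivial.mp (by omega)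
    exact exists_pair_ne α
  obtain ⟨lab, hlab, ha1, hb1⟩ := exists_line hL hab
  obtain ⟨c, -, hc⟩ : ∃ c ∈ (Finset.univ : Finset α), c ∉ lab := by
    by_contra h
    push Not at h
    have := Finset.card_le_card (show Finset.univ ⊆ lab from fun x hx => h x hx)
    rw [h21, hL.1 lab hlab] at this
    omega
  have hac : a ≠ c := fun h => hc (h ▸ ha1)
  have hbc : b ≠ c := fun h => hc (h ▸ hb1)
  obtain ⟨lac, hlac, ha2, hc2⟩ := exists_line hL hac
  obtain ⟨lbc, hlbc, hb3, hc3⟩ := exists_line hL hbc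
  obtain ⟨d, -, hd⟩ : ∃ d ∈ (Finset.univ : Finset α), d ∉ lab ∪ lac ∪ lbc := by
    by_contra h
    push Not at h
    have h1 := Finset.card_le_card (show Finset.univ ⊆ lab ∪ lac ∪ lbc from fun x hx => h x hx)
    have h2 := Finset.card_union_le (lab ∪ lac) lbc
    have h3 := Finset.card_union_le lab lac
    rw [h21] at h1
    rw [hL.1 lab hlab, hL.1 lac hlac, hL.1 lbc hlbc] at *
    omega
  simp only [Finset.mem_union, not_or] at hd
  obtain ⟨⟨hd1, hd2⟩, hd3⟩ := hd
  have hT2 : IsArc L ({a, b} : Finset α) := by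
    intro l hl
    have := Finset.card_le_card (Finset.inter_subset_right (s₁ := l) (s₂ := ({a, b} : Finset α)))
    rw [Finset.card_pair hab] at this
    exact this
  have hT3 : IsExt L ({a, b} : Finset α) c := by
    refine ⟨by simp [hac.symm, hbc.symm], fun l hl hcl => ?_⟩
    by_contra hcont
    have h2 : 1 < (l ∩ {a, b}).card := by omega
    obtain ⟨x, hx, y, hy, hxy⟩ := Finset.one_lt_card.mp h2
    simp only [Finset.mem_inter, Finset.mem_insert, Finset.mem_singleton] at hx hy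
    have hal : a ∈ l ∧ b ∈ l := by
      obtain ⟨hxl, hx⟩ := hx
      obtain ⟨hyl, hy⟩ := hy
      rcases hx with rfl | rfl <;> rcases hy with rfl | rfl <;> first | exact absurd rfl hxy | tauto
    have := line_unique hL hl hlab hab hal.1 hal.2 ha1 hb1
    exact hc (this ▸ hcl)
  have hT4 : IsExt L (insert c ({a, b} : Finset α)) d := by
    refine ⟨?_, fun l hl hdl => ?_⟩
    · simp only [Finset.mem_insert, Finset.mem_singleton, not_or]
      refine ⟨fun h => hd3 (h ▸ hc3), fun h => hd1 (h ▸ ha1), fun h => hd1 (h ▸ hb1)⟩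
    · by_contra hcont
      have h2 : 1 < (l ∩ insert c {a, b}).card := by omega
      obtain ⟨x, hx, y, hy, hxy⟩ := Finset.one_lt_card.mp h2
      simp only [Finset.mem_inter, Finset.mem_insert, Finset.mem_singleton] at hx hy
      have hal : (a ∈ l ∧ b ∈ l) ∨ (a ∈ l ∧ c ∈ l) ∨ (b ∈ l ∧ c ∈ l) := by
        obtain ⟨hxl, hx⟩ := hx
        obtain ⟨hyl, hy⟩ := hy
        rcases hx with rfl | rfl | rfl <;> rcases hy with rfl | rfl | rfl <;>
          first | exact absurd rfl hxy | tauto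
      rcases hal with ⟨h1, h2⟩ | ⟨h1, h2⟩ | ⟨h1, h2⟩
      · exact hd1 (line_unique hL hl hlab hab h1 h2 ha1 hb1 ▸ hdl)
      · exact hd2 (line_unique hL hl hlac hac h1 h2 ha2 hc2 ▸ hdl)
      · exact hd3 (line_unique hL hl hlbc hbc h1 h2 hb3 hc3 ▸ hdl)
  refine ⟨insert d (insert c {a, b}), isArc_insert (isArc_insert hT2 hT3) hT4, ?_⟩
  rw [Finset.card_insert_of_notMem hT4.1, Finset.card_insert_of_notMem hT3.1, Finset.card_pair hab]

/-- There is a hyperoval. -/
theorem exists_hyperoval (hα : Fintype.card α = 21) (hL : IsSteinerSystem 2 5 L) :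
    ∃ H : Finset α, H.card = 6 ∧ IsArc L H := by
  obtain ⟨S, hS, hc⟩ := exists_four_arc hα hL
  obtain ⟨H, ⟨⟨h1, h2⟩, -⟩, -⟩ := exists_unique_hyperoval hα hL hS hc
  exact ⟨H, h1, h2⟩

open Classical in
/-- Double counting of arcs. -/
theorem arc_double_count {k e : ℕ} (hk : ∀ S : Finset α, S.card = k → IsArc L S →
    ((Finset.univ.filter (fun x => x ∉ S ∧ IsArc L (insert x S))).card = e)) :
    (k + 1) * (Finset.univ.filter (fun S : Finset α => S.card = k + 1 ∧ IsArc L S)).card =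
      e * (Finset.univ.filter (fun S : Finset α => S.card = k ∧ IsArc L S)).card := by
  have h1 : ∑ S ∈ Finset.univ.filter (fun S : Finset α => S.card = k ∧ IsArc L S),
      (Finset.univ.filter (fun x => x ∉ S ∧ IsArc L (insert x S))).card =
      e * (Finset.univ.filter (fun S : Finset α => S.card = k ∧ IsArc L S)).card := by
    rw [Finset.sum_congr rfl (fun S hS => hk S (Finset.mem_filter.mp hS).2.1 (Finset.mem_filter.mp hS).2.2),
      Finset.sum_const, smul_eq_mul, mul_comm]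
  have h2 : ∑ S ∈ Finset.univ.filter (fun S : Finset α => S.card = k + 1 ∧ IsArc L S), S.card =
      (k + 1) * (Finset.univ.filter (fun S : Finset α => S.card = k + 1 ∧ IsArc L S)).card := by
    rw [Finset.sum_congr rfl (fun S hS => (Finset.mem_filter.mp hS).2.1),
      Finset.sum_const, smul_eq_mul, mul_comm]
  rw [← h1, ← h2]
  rw [← Finset.card_sigma, ← Finset.card_sigma]
  symm
  refine Finset.card_bij' (fun p _ => ⟨insert p.2 p.1, p.2⟩) (fun p _ => ⟨p.1.erase p.2, p.2⟩) ?_ ?_ ?_ ?_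
  · rintro ⟨S, x⟩ h
    simp only [Finset.mem_sigma, Finset.mem_filter, Finset.mem_univ, true_and] at h ⊢
    obtain ⟨⟨h1, h2⟩, h3, h4⟩ := h
    refine ⟨⟨?_, h4⟩, Finset.mem_insert_self _ _⟩
    rw [Finset.card_insert_of_notMem h3, h1]
  · rintro ⟨S, x⟩ h
    simp only [Finset.mem_sigma, Finset.mem_filter, Finset.mem_univ, true_and] at h ⊢
    obtain ⟨⟨h1, h2⟩, h3⟩ := h
    refine ⟨⟨?_, h2.mono (Finset.erase_subset _ _)⟩, Finset.notMem_erase _ _, ?_⟩
    · rw [Finset.card_erase_of_mem h3, h1]; rfl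
    · rw [Finset.insert_erase h3]; exact h2
  · rintro ⟨S, x⟩ h
    simp only [Finset.mem_sigma, Finset.mem_filter, Finset.mem_univ, true_and] at h
    simp only [Finset.erase_insert h.2.1]
  · rintro ⟨S, x⟩ h
    simp only [Finset.mem_sigma, Finset.mem_filter, Finset.mem_univ, true_and] at h
    simp only [Finset.insert_erase h.2]

theorem arc_of_card_le {S : Finset α} (h : S.card ≤ 2) : IsArc L S := fun l _ =>
  (Finset.card_le_card Finset.inter_subset_right).trans h

open Classical in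
theorem count2 (hα : Fintype.card α = 21) :
    (Finset.univ.filter (fun S : Finset α => S.card = 2 ∧ IsArc L S)).card = 210 := by
  have h : Finset.univ.filter (fun S : Finset α => S.card = 2 ∧ IsArc L S) =
      Finset.powersetCard 2 Finset.univ := by
    ext S
    simp only [Finset.mem_filter, Finset.mem_univ, true_and, Finset.mem_powersetCard,
      Finset.subset_univ]
    exact ⟨fun h => h.1, fun h => ⟨h, arc_of_card_le h.le⟩⟩
  rw [h, Finset.card_powersetCard, Finset.card_univ, hα]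
  decide

open Classical in
theorem ext2 (hα : Fintype.card α = 21) (hL : IsSteinerSystem 2 5 L) (S : Finset α)
    (hc : S.card = 2) (hS : IsArc L S) :
    (Finset.univ.filter (fun x => x ∉ S ∧ IsArc L (insert x S))).card = 16 := by
  obtain ⟨a, b, hab, rfl⟩ := Finset.card_eq_two.mp hc
  obtain ⟨l, hl, ha, hb⟩ := exists_line hL hab
  have h : Finset.univ.filter (fun x => x ∉ ({a, b} : Finset α) ∧ IsArc L (insert x {a, b})) = lᶜ := by
    ext x
    simp only [Finset.mem_filter, Finset.mem_univ, true_and, Finset.mem_compl]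
    constructor
    · rintro ⟨h1, h2⟩ hx
      simp only [Finset.mem_insert, Finset.mem_singleton, not_or] at h1
      exact h2.no_three hl (x := x) (y := a) (z := b) (by simp) (by simp) (by simp) hx ha hb h1.1 h1.2 hab
    · intro hx
      have hxS : x ∉ ({a, b} : Finset α) := by
        simp only [Finset.mem_insert, Finset.mem_singleton, not_or]
        exact ⟨fun h => hx (h ▸ ha), fun h => hx (h ▸ hb)⟩
      refine ⟨hxS, isArc_insert hS ⟨hxS, fun m hm hxm => ?_⟩⟩
      by_contra hcont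
      have h2 : 1 < (m ∩ {a, b}).card := by omega
      obtain ⟨u, hu, v, hv, huv⟩ := Finset.one_lt_card.mp h2
      simp only [Finset.mem_inter, Finset.mem_insert, Finset.mem_singleton] at hu hv
      have hal : a ∈ m ∧ b ∈ m := by
        obtain ⟨hul, hu⟩ := hu
        obtain ⟨hvl, hv⟩ := hv
        rcases hu with rfl | rfl <;> rcases hv with rfl | rfl <;> first | exact absurd rfl huv | tauto
      exact hx (line_unique hL hm hl hab hal.1 hal.2 ha hb ▸ hxm)
  rw [h, Finset.card_compl, hα, hL.1 l hl]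

open Classical in
theorem ext3 (hα : Fintype.card α = 21) (hL : IsSteinerSystem 2 5 L) (S : Finset α)
    (hc : S.card = 3) (hS : IsArc L S) :
    (Finset.univ.filter (fun x => x ∉ S ∧ IsArc L (insert x S))).card = 9 := by
  obtain ⟨a, b, c, hab, hac, hbc, rfl⟩ := Finset.card_eq_three.mp hc
  obtain ⟨l1, hl1, ha1, hb1⟩ := exists_line hL hab
  obtain ⟨l2, hl2, ha2, hc2⟩ := exists_line hL hac
  obtain ⟨l3, hl3, hb3, hc3⟩ := exists_line hL hbc
  have haS : a ∈ ({a, b, c} : Finset α) := by simp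
  have hbS : b ∈ ({a, b, c} : Finset α) := by simp
  have hcS : c ∈ ({a, b, c} : Finset α) := by simp
  have h1c : c ∉ l1 := fun h => hS.no_three hl1 haS hbS hcS ha1 hb1 h hab hac hbc
  have h2b : b ∉ l2 := fun h => hS.no_three hl2 haS hbS hcS ha2 h hc2 hab hac hbc
  have h3a : a ∉ l3 := fun h => hS.no_three hl3 haS hbS hcS h hb3 hc3 hab hac hbc
  have h : Finset.univ.filter (fun x => x ∉ ({a, b, c} : Finset α) ∧ IsArc L (insert x {a, b, c})) =
      (l1 ∪ l2 ∪ l3)ᶜ := by
    ext x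
    simp only [Finset.mem_filter, Finset.mem_univ, true_and, Finset.mem_compl, Finset.mem_union,
      not_or]
    constructor
    · rintro ⟨h1, h2⟩
      simp only [Finset.mem_insert, Finset.mem_singleton, not_or] at h1
      refine ⟨⟨fun hx => ?_, fun hx => ?_⟩, fun hx => ?_⟩
      · exact h2.no_three hl1 (x := x) (y := a) (z := b) (by simp) (by simp) (by simp) hx ha1 hb1 h1.1 h1.2.1 hab
      · exact h2.no_three hl2 (x := x) (y := a) (z := c) (by simp) (by simp) (by simp) hx ha2 hc2 h1.1 h1.2.2 hac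
      · exact h2.no_three hl3 (x := x) (y := b) (z := c) (by simp) (by simp) (by simp) hx hb3 hc3 h1.2.1 h1.2.2 hbc
    · rintro ⟨⟨hx1, hx2⟩, hx3⟩
      have hxS : x ∉ ({a, b, c} : Finset α) := by
        simp only [Finset.mem_insert, Finset.mem_singleton, not_or]
        exact ⟨fun h => hx1 (h ▸ ha1), fun h => hx1 (h ▸ hb1), fun h => hx2 (h ▸ hc2)⟩
      refine ⟨hxS, isArc_insert hS ⟨hxS, fun m hm hxm => ?_⟩⟩
      by_contra hcont
      have h2 : 1 < (m ∩ {a, b, c}).card := by omega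
      obtain ⟨u, hu, v, hv, huv⟩ := Finset.one_lt_card.mp h2
      simp only [Finset.mem_inter, Finset.mem_insert, Finset.mem_singleton] at hu hv
      have hal : (a ∈ m ∧ b ∈ m) ∨ (a ∈ m ∧ c ∈ m) ∨ (b ∈ m ∧ c ∈ m) := by
        obtain ⟨hul, hu⟩ := hu
        obtain ⟨hvl, hv⟩ := hv
        rcases hu with rfl | rfl | rfl <;> rcases hv with rfl | rfl | rfl <;>
          first | exact absurd rfl huv | tauto
      rcases hal with ⟨h1, h2⟩ | ⟨h1, h2⟩ | ⟨h1, h2⟩
      · exact hx1 (line_unique hL hm hl1 hab h1 h2 ha1 hb1 ▸ hxm)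
      · exact hx2 (line_unique hL hm hl2 hac h1 h2 ha2 hc2 ▸ hxm)
      · exact hx3 (line_unique hL hm hl3 hbc h1 h2 hb3 hc3 ▸ hxm)
  have h12 : l1 ∩ l2 = {a} := by
    ext x
    simp only [Finset.mem_inter, Finset.mem_singleton]
    constructor
    · rintro ⟨h1, h2⟩
      by_contra hne
      have := line_unique hL hl1 hl2 hne h1 ha1 h2 ha2
      exact h1c (this ▸ hc2)
    · rintro rfl
      exact ⟨ha1, ha2⟩
  have h123 : (l1 ∪ l2) ∩ l3 = {b, c} := by
    ext x
    simp only [Finset.mem_inter, Finset.mem_union, Finset.mem_insert, Finset.mem_singleton]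
    constructor
    · rintro ⟨h1 | h1, h3⟩
      · left
        by_contra hne
        have := line_unique hL hl1 hl3 hne h1 hb1 h3 hb3
        exact h1c (this ▸ hc3)
      · right
        by_contra hne
        have := line_unique hL hl2 hl3 hne h1 hc2 h3 hc3
        exact h3a (this ▸ ha2)
    · rintro (rfl | rfl)
      · exact ⟨Or.inl hb1, hb3⟩
      · exact ⟨Or.inr hc2, hc3⟩
  have hu1 := Finset.card_union_add_card_inter l1 l2
  have hu2 := Finset.card_union_add_card_inter (l1 ∪ l2) l3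
  rw [h12, Finset.card_singleton, hL.1 l1 hl1, hL.1 l2 hl2] at hu1
  rw [h123, Finset.card_pair hbc, hL.1 l3 hl3] at hu2
  rw [h, Finset.card_compl, hα]
  omega

open Classical in
theorem ext4 (hα : Fintype.card α = 21) (hL : IsSteinerSystem 2 5 L) (S : Finset α)
    (hc : S.card = 4) (hS : IsArc L S) :
    (Finset.univ.filter (fun x => x ∉ S ∧ IsArc L (insert x S))).card = 2 := by
  obtain ⟨e₁, e₂, hne, hiff, -⟩ := four_arc_ext hα hL hS hc
  have h : Finset.univ.filter (fun x => x ∉ S ∧ IsArc L (insert x S)) = {e₁, e₂} := by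
    ext x
    simp only [Finset.mem_filter, Finset.mem_univ, true_and, Finset.mem_insert, Finset.mem_singleton]
    rw [← hiff x, isExt_iff hS]
  rw [h, Finset.card_pair hne]

open Classical in
theorem ext5 (hα : Fintype.card α = 21) (hL : IsSteinerSystem 2 5 L) (A : Finset α)
    (hc : A.card = 5) (hA : IsArc L A) :
    (Finset.univ.filter (fun x => x ∉ A ∧ IsArc L (insert x A))).card = 1 := by
  have hne : A.Nonempty := by
    rw [← Finset.card_pos, hc]; norm_num
  obtain ⟨x, hx⟩ := hne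
  have hS : IsArc L (A.erase x) := hA.mono (Finset.erase_subset _ _)
  have hcS : (A.erase x).card = 4 := by rw [Finset.card_erase_of_mem hx, hc]
  obtain ⟨e₁, e₂, hne, hiff, harc⟩ := four_arc_ext hα hL hS hcS
  have hxE : IsExt L (A.erase x) x := by
    apply isExt_of_arc _ (Finset.notMem_erase _ _)
    rwa [Finset.insert_erase hx]
  have hins : insert x (A.erase x) = A := Finset.insert_erase hx
  obtain ⟨f, hf, hfA, hfarc⟩ : ∃ f, IsExt L (A.erase x) f ∧ f ≠ x ∧ IsArc L (insert f A) := by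
    rcases (hiff x).mp hxE with rfl | rfl
    · refine ⟨e₂, (hiff _).mpr (Or.inr rfl), hne.symm, ?_⟩
      rw [← hins, Finset.insert_comm]
      exact harc
    · refine ⟨e₁, (hiff _).mpr (Or.inl rfl), hne, ?_⟩
      rw [← hins]
      exact harc
  have hfnot : f ∉ A := by
    intro h
    exact hf.1 (Finset.mem_erase.mpr ⟨hfA, h⟩)
  have h : Finset.univ.filter (fun y => y ∉ A ∧ IsArc L (insert y A)) = {f} := by
    ext y
    simp only [Finset.mem_filter, Finset.mem_univ, true_and, Finset.mem_singleton]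
    constructor
    · rintro ⟨h1, h2⟩
      have hy : IsExt L (A.erase x) y := by
        apply isExt_of_arc _ (fun h => h1 (Finset.mem_of_mem_erase h))
        apply h2.mono
        exact Finset.insert_subset_insert _ (Finset.erase_subset _ _)
      have hyx : y ≠ x := fun h => h1 (h ▸ hx)
      have hxe := (hiff x).mp hxE
      have hfe := (hiff f).mp hf
      have hye := (hiff y).mp hy
      rcases hxe with rfl | rfl <;> rcases hfe with rfl | rfl <;> rcases hye with rfl | rfl <;>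
        first | rfl | exact absurd rfl hyx | exact absurd rfl hfA
    · rintro rfl
      exact ⟨hfnot, hfarc⟩
  rw [h, Finset.card_singleton]

/-- counts of arcs -/
theorem arc_counts (hα : Fintype.card α = 21) (hL : IsSteinerSystem 2 5 L) :
    {S : Finset α | (S.card = 4 ∧ ∀ l ∈ L, (l ∩ S).card ≤ 2)}.ncard = 2520 ∧
      {H : Finset α | (H.card = 6 ∧ ∀ l ∈ L, (l ∩ H).card ≤ 2)}.ncard = 168 := by
  classical
  have h2 := count2 (L := L) hα
  have h3 := arc_double_count (L := L) (k := 2) (e := 16) (fun S h1 h2 => ext2 hα hL S h1 h2)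
  have h4 := arc_double_count (L := L) (k := 3) (e := 9) (fun S h1 h2 => ext3 hα hL S h1 h2)
  have h5 := arc_double_count (L := L) (k := 4) (e := 2) (fun S h1 h2 => ext4 hα hL S h1 h2)
  have h6 := arc_double_count (L := L) (k := 5) (e := 1) (fun S h1 h2 => ext5 hα hL S h1 h2)
  have e4 : {S : Finset α | (S.card = 4 ∧ ∀ l ∈ L, (l ∩ S).card ≤ 2)} =
      ↑(Finset.univ.filter (fun S : Finset α => S.card = 4 ∧ IsArc L S)) := by
    ext S
    constructor
    · rintro ⟨h1, h2⟩
      exact Finset.mem_coe.mpr (Finset.mem_filter.mpr ⟨Finset.mem_univ _, h1, h2⟩)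
    · intro h
      exact (Finset.mem_filter.mp (Finset.mem_coe.mp h)).2
  have e6 : {S : Finset α | (S.card = 6 ∧ ∀ l ∈ L, (l ∩ S).card ≤ 2)} =
      ↑(Finset.univ.filter (fun S : Finset α => S.card = 6 ∧ IsArc L S)) := by
    ext S
    constructor
    · rintro ⟨h1, h2⟩
      exact Finset.mem_coe.mpr (Finset.mem_filter.mpr ⟨Finset.mem_univ _, h1, h2⟩)
    · intro h
      exact (Finset.mem_filter.mp (Finset.mem_coe.mp h)).2
  rw [e4, e6, Set.ncard_coe_finset, Set.ncard_coe_finset]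
  norm_num at h3 h4 h5 h6
  rw [h2] at h3
  omega

section Coord

variable {ι : Fin 6 → α}

/-- Labelled hyperoval. -/
structure LabHyp (L : Set (Finset α)) (ι : Fin 6 → α) : Prop where
  inj : Function.Injective ι
  arc : IsArc L (Finset.univ.image ι)

theorem LabHyp.no_three (h : LabHyp L ι) {l : Finset α} (hl : l ∈ L) {i j k : Fin 6}
    (hi : ι i ∈ l) (hj : ι j ∈ l) (hk : ι k ∈ l) (hij : i ≠ j) (hik : i ≠ k) (hjk : j ≠ k) : False :=
  h.arc.no_three hl (Finset.mem_image_of_mem _ (Finset.mem_univ _))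
    (Finset.mem_image_of_mem _ (Finset.mem_univ _)) (Finset.mem_image_of_mem _ (Finset.mem_univ _))
    hi hj hk (fun e => hij (h.inj e)) (fun e => hik (h.inj e)) (fun e => hjk (h.inj e))

/-- No tangents to a hyperoval. -/
theorem LabHyp.no_tangent (hα : Fintype.card α = 21) (hL : IsSteinerSystem 2 5 L)
    (h : LabHyp L ι) {l : Finset α} (hl : l ∈ L) {i : Fin 6} (hi : ι i ∈ l) :
    ∃ j, j ≠ i ∧ ι j ∈ l := by
  have h1 : ∀ j : Fin 6, j ≠ i → ∃ m, m ∈ L ∧ ι i ∈ m ∧ ι j ∈ m := by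
    intro j hj
    exact exists_line hL (fun e => hj (h.inj e).symm)
  choose! f hf1 hf2 hf3 using h1
  have hinj : Set.InjOn f (↑(Finset.univ.erase i) : Set (Fin 6)) := by
    intro a ha b hb hab
    by_contra hne
    have ha' : a ≠ i := by simpa using ha
    have hb' : b ≠ i := by simpa using hb
    exact h.no_three (hf1 a ha') (hf2 a ha') (hf3 a ha') (hab ▸ hf3 b hb') ha'.symm hb'.symm hne
  have himg : (Finset.univ.erase i).image f = pencil L (ι i) := by
    apply Finset.eq_of_subset_of_card_le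
    · intro m hm
      obtain ⟨j, hj, rfl⟩ := Finset.mem_image.mp hm
      have hj' : j ≠ i := by simpa using hj
      exact mem_pencil.mpr ⟨hf1 j hj', hf2 j hj'⟩
    · rw [Finset.card_image_of_injOn hinj, pencil_card hα hL]
      simp
  have hlmem : l ∈ (Finset.univ.erase i).image f := by
    rw [himg]
    exact mem_pencil.mpr ⟨hl, hi⟩
  obtain ⟨j, hj, rfl⟩ := Finset.mem_image.mp hlmem
  have hj' : j ≠ i := by simpa using hj
  exact ⟨j, hj', hf3 j hj'⟩

/-- The syntheme of an off-hyperoval point. -/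
theorem LabHyp.exists_syn_of (hα : Fintype.card α = 21) (hL : IsSteinerSystem 2 5 L)
    (h : LabHyp L ι) {x : α} (hx : ∀ i, ι i ≠ x) :
    ∃ k : Fin 15, ∀ i, ∃ l ∈ L, x ∈ l ∧ ι i ∈ l ∧ ι (syn k i) ∈ l := by
  have h1 : ∀ i, ∃ l, l ∈ L ∧ x ∈ l ∧ ι i ∈ l := by
    intro i
    obtain ⟨l, hl, h1, h2⟩ := exists_line hL (hx i).symm
    exact ⟨l, hl, h1, h2⟩
  choose l hl hxl hil using h1
  have h2 : ∀ i, ∃ j, j ≠ i ∧ ι j ∈ l i := fun i => h.no_tangent hα hL (hl i) (hil i)
  choose τ hτ hτl using h2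
  have hinv : ∀ i, τ (τ i) = i := by
    intro i
    have he : l (τ i) = l i := line_unique hL (hl _) (hl _) (hx (τ i)).symm (hxl _) (hil _) (hxl _) (hτl i)
    by_contra hne
    have h3 : ι (τ (τ i)) ∈ l i := he ▸ hτl (τ i)
    exact h.no_three (hl i) (hil i) (hτl i) h3 (hτ i).symm (Ne.symm hne) (hτ (τ i)).symm
  obtain ⟨k, hk⟩ := exists_syn (Function.Involutive.toPerm τ hinv) (by
      intro i
      exact hτ i) (by
      intro i
      exact hinv i)
  refine ⟨k, fun i => ⟨l i, hl i, hxl i, hil i, ?_⟩⟩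
  have : syn k i = τ i := hk i
  rw [this]
  exact hτl i

/-- The same syntheme forces equal points. -/
theorem LabHyp.syn_inj (hL : IsSteinerSystem 2 5 L) (h : LabHyp L ι) {x y : α} {k : Fin 15}
    (hx : ∀ i, ∃ l ∈ L, x ∈ l ∧ ι i ∈ l ∧ ι (syn k i) ∈ l)
    (hy : ∀ i, ∃ l ∈ L, y ∈ l ∧ ι i ∈ l ∧ ι (syn k i) ∈ l) : x = y := by
  by_contra hne
  have hsec : ∀ i, ∃ l ∈ L, x ∈ l ∧ y ∈ l ∧ ι i ∈ l ∧ ι (syn k i) ∈ l := by
    intro i
    obtain ⟨l, hl, h1, h2, h3⟩ := hx i
    obtain ⟨l', hl', h1', h2', h3'⟩ := hy i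
    have he : l = l' := line_unique hL hl hl'
      (fun e => syn_fpf k i (h.inj e).symm) h2 h3 h2' h3'
    exact ⟨l, hl, h1, he ▸ h1', h2, h3⟩
  obtain ⟨i', hi1, hi2⟩ : ∃ i' : Fin 6, i' ≠ 0 ∧ i' ≠ syn k 0 := by
    have : ∀ j : Fin 6, ∃ i' : Fin 6, i' ≠ 0 ∧ i' ≠ j := by decide
    exact this _
  obtain ⟨l, hl, h1, h2, h3, h4⟩ := hsec 0
  obtain ⟨l', hl', h1', h2', h3', h4'⟩ := hsec i'
  have he : l' = l := line_unique hL hl' hl hne h1' h2' h1 h2
  exact h.no_three hl h3 h4 (he ▸ h3') (syn_fpf k 0).symm hi1.symm hi2.symm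

/-- Coordinates from a labelled hyperoval. -/
theorem LabHyp.exists_coord (hα : Fintype.card α = 21) (hL : IsSteinerSystem 2 5 L)
    (h : LabHyp L ι) :
    ∃ Φ : α ≃ Fin 21, (∀ i, Φ (ι i) = pt i) ∧ (fun b : Finset α => b.image Φ) '' L = ↑lines0 := by
  classical
  have hsyn : ∀ x : α, (∀ i, ι i ≠ x) → ∃ k : Fin 15, ∀ i, ∃ l ∈ L, x ∈ l ∧ ι i ∈ l ∧ ι (syn k i) ∈ l :=
    fun x hx => h.exists_syn_of hα hL hx
  choose! K hK using hsyn
  let φ : α → Fin 21 := fun p =>
    if hp : ∃ i, ι i = p then pt hp.choose else sp (K p)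
  have hφ1 : ∀ i, φ (ι i) = pt i := by
    intro i
    have hp : ∃ j, ι j = ι i := ⟨i, rfl⟩
    simp only [φ, dif_pos hp]
    rw [h.inj hp.choose_spec]
  have hφ2 : ∀ x, (∀ i, ι i ≠ x) → φ x = sp (K x) := by
    intro x hx
    have hp : ¬ ∃ i, ι i = x := fun ⟨i, hi⟩ => hx i hi
    simp only [φ, dif_neg hp]
  have hinj : Function.Injective φ := by
    intro p q hpq
    by_cases hp : ∃ i, ι i = p
    · obtain ⟨i, rfl⟩ := hp
      by_cases hq : ∃ i, ι i = q
      · obtain ⟨j, rfl⟩ := hq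
        rw [hφ1, hφ1] at hpq
        rw [pt_injective hpq]
      · have hq' : ∀ i, ι i ≠ q := fun i hi => hq ⟨i, hi⟩
        rw [hφ1, hφ2 q hq'] at hpq
        exact absurd hpq (pt_ne_sp _ _)
    · have hp' : ∀ i, ι i ≠ p := fun i hi => hp ⟨i, hi⟩
      by_cases hq : ∃ i, ι i = q
      · obtain ⟨j, rfl⟩ := hq
        rw [hφ1, hφ2 p hp'] at hpq
        exact absurd hpq.symm (pt_ne_sp _ _)
      · have hq' : ∀ i, ι i ≠ q := fun i hi => hq ⟨i, hi⟩
        rw [hφ2 p hp', hφ2 q hq'] at hpq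
        have hk := sp_injective hpq
        have h1 := hK p hp'
        have h2 := hK q hq'
        rw [hk] at h1
        exact h.syn_inj hL h1 h2
  have hbij : Function.Bijective φ := by
    rw [Fintype.bijective_iff_injective_and_card]
    refine ⟨hinj, ?_⟩
    simp [hα]
  let Φ : α ≃ Fin 21 := Equiv.ofBijective φ hbij
  have hΦ : ∀ p, Φ p = φ p := fun p => rfl
  refine ⟨Φ, fun i => hφ1 i, ?_⟩
  have himg : ∀ l ∈ L, l.image Φ ∈ lines0 := by
    intro l hl
    have hcardl : (l.image Φ).card = 5 := by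
      rw [Finset.card_image_of_injective _ Φ.injective, hL.1 l hl]
    by_cases hex : ∃ i, ι i ∈ l
    · obtain ⟨i, hi⟩ := hex
      obtain ⟨j, hji, hj⟩ := h.no_tangent hα hL hl hi
      obtain ⟨m, hm1, hm2, hm3⟩ := duad_line i j hji.symm
      have hsub : l.image Φ ⊆ lineFn m := by
        intro y hy
        obtain ⟨p, hp, rfl⟩ := Finset.mem_image.mp hy
        by_cases hpH : ∃ i', ι i' = p
        · obtain ⟨i', rfl⟩ := hpH
          rw [hΦ, hφ1]
          by_cases h1 : i' = i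
          · rw [h1]; exact hm1
          · by_cases h2 : i' = j
            · rw [h2]; exact hm2
            · exact (h.no_three hl hp hi hj h1 h2 hji.symm).elim
        · have hp' : ∀ i', ι i' ≠ p := fun i' hi' => hpH ⟨i', hi'⟩
          rw [hΦ, hφ2 p hp']
          apply hm3
          obtain ⟨l', hl', h1, h2, h3⟩ := hK p hp' i
          have he : l' = l := line_unique hL hl' hl (hp' i).symm h1 h2 hp hi
          rw [he] at h3
          by_contra hne
          exact h.no_three hl hi hj h3 hji.symm (syn_fpf _ i).symm (Ne.symm hne)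
      have heq : l.image Φ = lineFn m := by
        apply Finset.eq_of_subset_of_card_le hsub
        rw [hcardl, lineFn_card]
      rw [heq]
      exact Finset.mem_image_of_mem _ (Finset.mem_univ _)
    · have hno : ∀ x ∈ l, ∀ i, ι i ≠ x := by
        intro x hx i hi
        exact hex ⟨i, hi ▸ hx⟩
      have hD : ∀ x ∈ l, ∀ y ∈ l, x ≠ y → D (K x) (K y) := by
        intro x hx y hy hxy i hsame
        obtain ⟨l1, hl1, h1, h2, h3⟩ := hK x (hno x hx) i
        obtain ⟨l2, hl2, h1', h2', h3'⟩ := hK y (hno y hy) i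
        rw [← hsame] at h3'
        have he : l1 = l2 := line_unique hL hl1 hl2
          (fun e => syn_fpf _ i (h.inj e).symm) h2 h3 h2' h3'
        have he2 : l1 = l := line_unique hL hl1 hl hxy h1 (he ▸ h1') hx hy
        exact hex ⟨i, he2 ▸ h2⟩
      have hc5 := hL.1 l hl
      obtain ⟨x₁, s₁, hx₁, hs₁, hc₁⟩ := Finset.card_eq_succ.mp hc5
      obtain ⟨x₂, s₂, hx₂, hs₂, hc₂⟩ := Finset.card_eq_succ.mp hc₁
      obtain ⟨x₃, s₃, hx₃, hs₃, hc₃⟩ := Finset.card_eq_succ.mp hc₂
      obtain ⟨x₄, x₅, hne45, hs₄⟩ := Finset.card_eq_two.mp hc₃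
      subst hs₄ hs₃ hs₂ hs₁
      simp only [Finset.mem_insert, Finset.mem_singleton, not_or] at hx₁ hx₂ hx₃
      have mem1 : x₁ ∈ (insert x₁ (insert x₂ (insert x₃ {x₄, x₅})) : Finset α) := by simp
      have mem2 : x₂ ∈ (insert x₁ (insert x₂ (insert x₃ {x₄, x₅})) : Finset α) := by simp
      have mem3 : x₃ ∈ (insert x₁ (insert x₂ (insert x₃ {x₄, x₅})) : Finset α) := by simp
      have mem4 : x₄ ∈ (insert x₁ (insert x₂ (insert x₃ {x₄, x₅})) : Finset α) := by simp
      have mem5 : x₅ ∈ (insert x₁ (insert x₂ (insert x₃ {x₄, x₅})) : Finset α) := by simp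
      obtain ⟨m, hm⟩ := total_line (K x₁) (K x₂) (hD _ mem1 _ mem2 hx₁.1) (K x₃)
        (hD _ mem1 _ mem3 hx₁.2.1) (hD _ mem2 _ mem3 hx₂.1) (K x₄)
        (hD _ mem1 _ mem4 hx₁.2.2.1) (hD _ mem2 _ mem4 hx₂.2.1) (hD _ mem3 _ mem4 hx₃.1) (K x₅)
        (hD _ mem1 _ mem5 hx₁.2.2.2) (hD _ mem2 _ mem5 hx₂.2.2) (hD _ mem3 _ mem5 hx₃.2) (hD _ mem4 _ mem5 hne45)
      have heq : Finset.image Φ (insert x₁ (insert x₂ (insert x₃ {x₄, x₅}))) = lineFn m := by
        rw [← hm]
        simp only [Finset.image_insert, Finset.image_singleton, hΦ]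
        rw [hφ2 _ (hno _ mem1), hφ2 _ (hno _ mem2), hφ2 _ (hno _ mem3), hφ2 _ (hno _ mem4),
          hφ2 _ (hno _ mem5)]
      rw [heq]
      exact Finset.mem_image_of_mem _ (Finset.mem_univ _)
  -- counting
  have hF : (Finset.univ.filter (· ∈ L)).image (fun b : Finset α => b.image Φ) = lines0 := by
    apply Finset.eq_of_subset_of_card_le
    · intro y hy
      obtain ⟨l, hl, rfl⟩ := Finset.mem_image.mp hy
      exact himg l (Finset.mem_filter.mp hl).2
    · rw [Finset.card_image_of_injective _ (Finset.image_injective Φ.injective), lines0_card]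
      have := lines_card hα hL
      rw [show (Finset.univ.filter (· ∈ L)) = Finset.univ.filter (· ∈ L) from rfl]
      convert this.ge
  ext y
  simp only [Set.mem_image, Finset.mem_coe]
  rw [← hF]
  simp only [Finset.mem_image, Finset.mem_filter, Finset.mem_univ, true_and]

/-- Labelling a hyperoval. -/
theorem exists_lab {H : Finset α} (hc : H.card = 6) (hH : IsArc L H) (σ : Equiv.Perm ↥H) :
    ∃ (ι₁ ι₂ : Fin 6 → α), LabHyp L ι₁ ∧ LabHyp L ι₂ ∧ (∀ p : ↥H, ∃ i, ι₁ i = p ∧ ι₂ i = σ p) ∧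
      (∀ i, ∃ p : ↥H, ι₁ i = p ∧ ι₂ i = σ p) := by
  let e : ↥H ≃ Fin 6 := Finset.equivFinOfCardEq hc
  have himg : ∀ (τ : Equiv.Perm ↥H), Finset.univ.image (fun i => ((τ (e.symm i) : ↥H) : α)) = H := by
    intro τ
    ext x
    simp only [Finset.mem_image, Finset.mem_univ, true_and]
    constructor
    · rintro ⟨i, rfl⟩
      exact (τ (e.symm i)).2
    · intro hx
      refine ⟨e (τ.symm ⟨x, hx⟩), ?_⟩
      simp
  have hlab : ∀ (τ : Equiv.Perm ↥H), LabHyp L (fun i => ((τ (e.symm i) : ↥H) : α)) := by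
    intro τ
    refine ⟨?_, ?_⟩
    · intro i j hij
      have h1 : τ (e.symm i) = τ (e.symm j) := Subtype.ext hij
      exact e.symm.injective (τ.injective h1)
    · rw [himg]
      exact hH
  refine ⟨_, _, hlab 1, hlab σ, fun p => ⟨e p, ?_, ?_⟩, fun i => ⟨e.symm i, ?_, ?_⟩⟩ <;> simp

/-- Automorphisms fixing a hyperoval pointwise are trivial. -/
theorem LabHyp.aut_trivial (hα : Fintype.card α = 21) (hL : IsSteinerSystem 2 5 L)
    {ι : Fin 6 → α} (h : LabHyp L ι) (g : Equiv.Perm α)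
    (hg : ∀ l ∈ L, l.image g ∈ L) (hfix : ∀ i, g (ι i) = ι i) : g = 1 := by
  ext x
  by_cases hx : ∃ i, ι i = x
  · obtain ⟨i, rfl⟩ := hx
    simpa using hfix i
  · have hx' : ∀ i, ι i ≠ x := fun i hi => hx ⟨i, hi⟩
    obtain ⟨k, hk⟩ := h.exists_syn_of hα hL hx'
    obtain ⟨i', hi1, hi2⟩ : ∃ i' : Fin 6, i' ≠ 0 ∧ i' ≠ syn k 0 := by
      have : ∀ j : Fin 6, ∃ i' : Fin 6, i' ≠ 0 ∧ i' ≠ j := by decide
      exact this _
    have hfixline : ∀ i, ∃ l ∈ L, x ∈ l ∧ g x ∈ l ∧ ι i ∈ l ∧ ι (syn k i) ∈ l := by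
      intro i
      obtain ⟨l, hl, h1, h2, h3⟩ := hk i
      have hne : ι i ≠ ι (syn k i) := fun e => syn_fpf k i (h.inj e).symm
      have hm : l.image g = l := by
        apply line_unique hL (hg l hl) hl hne _ _ h2 h3
        · exact Finset.mem_image.mpr ⟨ι i, h2, hfix i⟩
        · exact Finset.mem_image.mpr ⟨ι (syn k i), h3, hfix _⟩
      refine ⟨l, hl, h1, ?_, h2, h3⟩
      rw [← hm]
      exact Finset.mem_image_of_mem _ h1
    by_contra hne
    obtain ⟨l, hl, h1, h2, h3, h4⟩ := hfixline 0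
    obtain ⟨l', hl', h1', h2', h3', h4'⟩ := hfixline i'
    have hne' : g x ≠ x := fun e => hne (by simpa using e)
    have he : l' = l := line_unique hL hl' hl hne' h2' h1' h2 h1
    exact h.no_three hl h3 h4 (he ▸ h3') (syn_fpf k 0).symm hi1.symm hi2.symm

end Coord

/-- Any two hyperovals with a bijection between them: there is a unique extension. -/
theorem iso_of_coord {β : Type*} [DecidableEq β] {L' : Set (Finset β)} (Φ : α ≃ Fin 21) (Φ' : β ≃ Fin 21)
    (h : (fun b : Finset α => b.image Φ) '' L = ↑lines0)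
    (h' : (fun b : Finset β => b.image Φ') '' L' = ↑lines0) :
    (fun b : Finset α => b.image (Φ.trans Φ'.symm)) '' L = L' := by
  ext y
  constructor
  · rintro ⟨b, hb, rfl⟩
    have h1 : b.image Φ ∈ (↑lines0 : Set (Finset (Fin 21))) := h ▸ ⟨b, hb, rfl⟩
    rw [← h'] at h1
    obtain ⟨b', hb', he⟩ := h1
    have : b.image (Φ.trans Φ'.symm) = b' := by
      ext z
      simp only [Finset.mem_image, Equiv.trans_apply]
      constructor
      · rintro ⟨w, hw, rfl⟩
        have h2 : Φ w ∈ b'.image Φ' := by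
          have he' : Finset.image (⇑Φ') b' = Finset.image (⇑Φ) b := he
          rw [he']
          exact Finset.mem_image_of_mem _ hw
        obtain ⟨v, hv, hv'⟩ := Finset.mem_image.mp h2
        rw [← hv']
        simpa using hv
      · intro hz
        have h2 : Φ' z ∈ b.image Φ := by
          have he' : Finset.image (⇑Φ') b' = Finset.image (⇑Φ) b := he
          rw [← he']
          exact Finset.mem_image_of_mem _ hz
        obtain ⟨v, hv, hv'⟩ := Finset.mem_image.mp h2
        exact ⟨v, hv, by rw [hv']; simp⟩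
    show b.image (Φ.trans Φ'.symm) ∈ L'
    rwa [this]
  · intro hy
    have h1 : y.image Φ' ∈ (↑lines0 : Set (Finset (Fin 21))) := h' ▸ ⟨y, hy, rfl⟩
    rw [← h] at h1
    obtain ⟨b, hb, he⟩ := h1
    refine ⟨b, hb, ?_⟩
    ext z
    simp only [Finset.mem_image, Equiv.trans_apply]
    constructor
    · rintro ⟨w, hw, rfl⟩
      have h2 : Φ w ∈ y.image Φ' := by
        have he' : Finset.image (⇑Φ) b = Finset.image (⇑Φ') y := he
        rw [← he']
        exact Finset.mem_image_of_mem _ hw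
      obtain ⟨v, hv, hv'⟩ := Finset.mem_image.mp h2
      rw [← hv']
      simpa using hv
    · intro hz
      have h2 : Φ' z ∈ b.image Φ := by
        have he' : Finset.image (⇑Φ) b = Finset.image (⇑Φ') y := he
        rw [he']
        exact Finset.mem_image_of_mem _ hz
      obtain ⟨v, hv, hv'⟩ := Finset.mem_image.mp h2
      exact ⟨v, hv, by rw [hv']; simp⟩

open scoped Pointwise in
theorem mem_aut_iff (g : Equiv.Perm α) :
    g ∈ setSystemAut L ↔ (fun b : Finset α => b.image g) '' L = L := by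
  rw [MulAction.mem_stabilizer_iff]
  have : g • L = (fun b : Finset α => b.image g) '' L := by
    ext b
    simp only [Set.mem_smul_set, Set.mem_image]
    constructor
    · rintro ⟨c, hc, rfl⟩
      refine ⟨c, hc, ?_⟩
      ext z
      simp [Finset.mem_smul_finset]
    · rintro ⟨c, hc, rfl⟩
      refine ⟨c, hc, ?_⟩
      ext z
      simp [Finset.mem_smul_finset]
  rw [this]

end Cfsg.Agent.Lib.Plane4
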