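import Mathlib
import Cfsg.Agent.Lib.H5Basic

/-!
# Primitive groups with two minimal normal subgroups
-/

set_option autoImplicit false
set_option linter.unusedVariables false
set_option linter.style.haveILetI false
set_option linter.unusedSectionVars false

namespace Cfsg.Agent.Lib.PrimTwo

open Subgroup

universe u

theorem equiv_comp {X : Type*} [Group X] [Finite X] (N H K : Subgroup X) [hN : N.Normal]
    (hH : N ⊓ H = ⊥) (hHs : N ⊔ H = ⊤) (hK : N ⊓ K = ⊥) (hKs : N ⊔ K = ⊤) : Nonempty (H ≃* K) := by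
  have key : ∀ L : Subgroup X, N ⊓ L = ⊥ → N ⊔ L = ⊤ → Nonempty (L ≃* X ⧸ N) := by
    intro L hL hLs
    let f : L →* X ⧸ N := (QuotientGroup.mk' N).comp L.subtype
    have hinj : Function.Injective f := by
      rw [injective_iff_map_eq_one]
      rintro ⟨x, hx⟩ h1
      have hxN : x ∈ N := (QuotientGroup.eq_one_iff x).1 h1
      have : x ∈ N ⊓ L := ⟨hxN, hx⟩
      rw [hL] at this
      exact Subtype.ext this
    have hsurj : Function.Surjective f := by
      intro y
      obtain ⟨x, rfl⟩ := QuotientGroup.mk'_surjective N y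
      have hx : x ∈ ((N ⊔ L : Subgroup X) : Set X) := by rw [hLs]; trivial
      rw [Subgroup.normal_mul] at hx
      obtain ⟨n, hn, l, hl, rfl⟩ := hx
      refine ⟨⟨l, hl⟩, ?_⟩
      show ((l : X) : X ⧸ N) = ((n * l : X) : X ⧸ N)
      rw [QuotientGroup.mk_mul, (QuotientGroup.eq_one_iff n).2 hn, one_mul]
    exact ⟨MulEquiv.ofBijective f ⟨hinj, hsurj⟩⟩
  obtain ⟨e₁⟩ := key H hH hHs
  obtain ⟨e₂⟩ := key K hK hKs
  exact ⟨e₁.trans e₂.symm⟩

variable {G : Type u} [Group G] [Finite G]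

theorem sup_eq_top_of_core {U N : Subgroup G} (hU : IsCoatom U) (hcore : U.normalCore = ⊥) (hN : N.Normal)
    (hN1 : N ≠ ⊥) : N ⊔ U = ⊤ := by
  have hnle : ¬ N ≤ U := by
    intro h
    apply hN1
    rw [eq_bot_iff, ← hcore]
    exact Subgroup.normal_le_normalCore.2 h
  have hlt : U < N ⊔ U := lt_of_le_of_ne le_sup_right (fun h => hnle (h ▸ le_sup_left))
  exact hU.2 _ hlt

theorem eq_bot_of_normalized {U N L : Subgroup G} (hcore : U.normalCore = ⊥) (hsup : N ⊔ U = ⊤) (hLU : L ≤ U)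
    (hN : N ≤ Subgroup.normalizer (L : Set G)) (hUn : U ≤ Subgroup.normalizer (L : Set G)) : L = ⊥ := by
  have htop : Subgroup.normalizer (L : Set G) = ⊤ := by
    rw [eq_top_iff, ← hsup]
    exact sup_le hN hUn
  haveI : L.Normal := Subgroup.normalizer_eq_top_iff.1 htop
  rw [eq_bot_iff, ← hcore]
  exact Subgroup.normal_le_normalCore.2 hLU

theorem prim_two (U : Subgroup G) (hU : IsCoatom U) (hcore : U.normalCore = ⊥) (A B : Subgroup G) [hAn : A.Normal]
    [hBn : B.Normal] (hA : A ≠ ⊥) (hB : B ≠ ⊥) (hAmin : ∀ K : Subgroup G, K.Normal → K ≤ A → K = ⊥ ∨ K = A)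
    (hBmin : ∀ K : Subgroup G, K.Normal → K ≤ B → K = ⊥ ∨ K = B) (hAB : A ≠ B) :
    Subgroup.centralizer (B : Set G) = A ∧ Subgroup.centralizer (A : Set G) = B ∧ Subgroup.IsComplement' A U ∧
      Subgroup.IsComplement' B U ∧ ¬ IsMulCommutative A ∧ Nonempty (A ≃* B) ∧ Nonempty (A ≃* ↥((A ⊔ B) ⊓ U)) := by
  classical
  have hAsup := sup_eq_top_of_core hU hcore hAn hA
  have hBsup := sup_eq_top_of_core hU hcore hBn hB
  have hinf : A ⊓ B = ⊥ := by
    have hn : (A ⊓ B).Normal := Subgroup.normal_inf_normal _ _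
    rcases hAmin _ hn inf_le_left with h | h
    · exact h
    · have hle : A ≤ B := h ▸ inf_le_right
      rcases hBmin A hAn hle with h2 | h2
      · exact absurd h2 hA
      · exact absurd h2 hAB
  have hcomm : ∀ a ∈ A, ∀ b ∈ B, a * b = b * a := by
    intro a ha b hb
    refine Subgroup.commute_of_normal_of_disjoint A B hAn hBn ?_ a b ha hb
    exact disjoint_iff.2 hinf
  have hcen : ∀ (A B : Subgroup G) [hAn : A.Normal] [hBn : B.Normal], B ⊔ U = ⊤ → A ⊔ U = ⊤ →
      (∀ a ∈ A, ∀ b ∈ B, a * b = b * a) → Subgroup.centralizer (B : Set G) = A ∧ A ⊓ U = ⊥ := by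
    intro A B hAn hBn hBs hAs hc
    have hL : Subgroup.centralizer (B : Set G) ⊓ U = ⊥ := by
      refine eq_bot_of_normalized hcore hBs inf_le_right ?_ ?_
      · intro b hb
        apply Cfsg.Agent.Lib.H5Basic.mem_normalizer_of_map_conj_le
        rintro _ ⟨x, hx, rfl⟩
        have h1 : b * x = x * b := (Subgroup.mem_centralizer_iff.1 hx.1) b hb
        have h2 : (MulAut.conj b).toMonoidHom x = x := by
          show b * x * b⁻¹ = x
          rw [h1]; group
        rw [h2]
        exact hx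
      · intro u hu
        apply Cfsg.Agent.Lib.H5Basic.mem_normalizer_of_map_conj_le
        rintro _ ⟨x, hx, rfl⟩
        haveI : (Subgroup.centralizer (B : Set G)).Normal := Subgroup.normal_centralizer
        exact ⟨Subgroup.Normal.conj_mem inferInstance x hx.1 u, U.mul_mem (U.mul_mem hu hx.2) (U.inv_mem hu)⟩
    have hAC : A ≤ Subgroup.centralizer (B : Set G) := by
      intro a ha
      exact Subgroup.mem_centralizer_iff.2 fun b hb => (hc a ha b hb).symm
    constructor
    · refine le_antisymm ?_ hAC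
      intro x hx
      have hx' : x ∈ ((A ⊔ U : Subgroup G) : Set G) := by rw [hAs]; trivial
      rw [Subgroup.normal_mul] at hx'
      obtain ⟨a, ha, u, hu, rfl⟩ := hx'
      have hu1 : u ∈ Subgroup.centralizer (B : Set G) ⊓ U := by
        refine ⟨?_, hu⟩
        have := mul_mem (inv_mem (hAC ha)) hx
        simpa using this
      rw [hL] at hu1
      have : u = 1 := hu1
      simpa [this] using ha
    · refine eq_bot_of_normalized hcore hBs inf_le_right ?_ ?_
      · intro b hb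
        apply Cfsg.Agent.Lib.H5Basic.mem_normalizer_of_map_conj_le
        rintro _ ⟨x, hx, rfl⟩
        have h1 : b * x = x * b := (hc x hx.1 b hb).symm
        have h2 : (MulAut.conj b).toMonoidHom x = x := by
          show b * x * b⁻¹ = x
          rw [h1]; group
        rw [h2]
        exact hx
      · intro u hu
        apply Cfsg.Agent.Lib.H5Basic.mem_normalizer_of_map_conj_le
        rintro _ ⟨x, hx, rfl⟩
        exact ⟨hAn.conj_mem x hx.1 u, U.mul_mem (U.mul_mem hu hx.2) (U.inv_mem hu)⟩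
  obtain ⟨hCB, hAU⟩ := hcen A B hBsup hAsup hcomm
  obtain ⟨hCA, hBU⟩ := hcen B A hAsup hBsup (fun b hb a ha => (hcomm a ha b hb).symm)
  have hcomp : ∀ (N : Subgroup G) [N.Normal], N ⊓ U = ⊥ → N ⊔ U = ⊤ → Subgroup.IsComplement' N U := by
    intro N hNn h1 h2
    refine Subgroup.isComplement'_of_disjoint_and_mul_eq_univ (disjoint_iff.2 h1) ?_
    rw [← Subgroup.normal_mul, h2]
    rfl
  refine ⟨hCB, hCA, hcomp A hAU hAsup, hcomp B hBU hBsup, ?_, ?_⟩
  · intro hc
    apply hA
    have hAB' : A ≤ B := by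
      rw [← hCA]
      intro a ha
      refine Subgroup.mem_centralizer_iff.2 fun a' ha' => ?_
      have := hc.is_comm.comm (⟨a', ha'⟩ : A) ⟨a, ha⟩
      exact congrArg Subtype.val this
    rw [eq_bot_iff, ← hinf]
    exact le_inf le_rfl hAB'
  · let T : Subgroup G := A ⊔ B
    let Y : Subgroup G := T ⊓ U
    have hAT : A ≤ T := le_sup_left
    have hBT : B ≤ T := le_sup_right
    have hYT : Y ≤ T := inf_le_left
    have hkey : ∀ (N M : Subgroup G) [hNn : N.Normal] , N ≤ T → M ≤ T → N ⊓ M = ⊥ → N ⊓ U = ⊥ → N ⊔ U = ⊤ →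
        (∀ t ∈ T, ∃ n ∈ N, ∃ m ∈ M, t = n * m) → Nonempty (M ≃* Y) := by
      intro N M hNn hNT hMT h1 h2 h3 h4
      haveI hNT' : (N.subgroupOf T).Normal := Subgroup.normal_subgroupOf
      have hY : (N.subgroupOf T) ⊓ (Y.subgroupOf T) = ⊥ := by
        rw [eq_bot_iff]
        rintro t ⟨ht1, ht2⟩
        have h5 : (t : G) ∈ N ⊓ U := ⟨Subgroup.mem_subgroupOf.1 ht1, (Subgroup.mem_subgroupOf.1 ht2).2⟩
        rw [h2] at h5
        exact Subgroup.mem_bot.2 (Subtype.ext h5)
      have hM : (N.subgroupOf T) ⊓ (M.subgroupOf T) = ⊥ := by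
        rw [eq_bot_iff]
        rintro t ⟨ht1, ht2⟩
        have h5 : (t : G) ∈ N ⊓ M := ⟨Subgroup.mem_subgroupOf.1 ht1, Subgroup.mem_subgroupOf.1 ht2⟩
        rw [h1] at h5
        exact Subgroup.mem_bot.2 (Subtype.ext h5)
      have hMs : (N.subgroupOf T) ⊔ (M.subgroupOf T) = ⊤ := by
        rw [eq_top_iff]
        rintro t -
        obtain ⟨n, hn, m, hm, he⟩ := h4 t t.2
        have : t = ⟨n, hNT hn⟩ * ⟨m, hMT hm⟩ := Subtype.ext he
        rw [this]
        exact Subgroup.mul_mem_sup (Subgroup.mem_subgroupOf.2 hn) (Subgroup.mem_subgroupOf.2 hm)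
      have hYs : (N.subgroupOf T) ⊔ (Y.subgroupOf T) = ⊤ := by
        rw [eq_top_iff]
        rintro t -
        have hx' : (t : G) ∈ ((N ⊔ U : Subgroup G) : Set G) := by rw [h3]; trivial
        rw [Subgroup.normal_mul] at hx'
        obtain ⟨n, hn, u, hu, he⟩ := hx'
        have he' : n * u = (t : G) := he
        have huT : u ∈ T := by
          have : u = n⁻¹ * t := by rw [← he']; group
          rw [this]
          exact mul_mem (inv_mem (hNT hn)) t.2
        have : t = ⟨n, hNT hn⟩ * ⟨u, huT⟩ := Subtype.ext he'.symm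
        rw [this]
        exact Subgroup.mul_mem_sup (Subgroup.mem_subgroupOf.2 hn) (Subgroup.mem_subgroupOf.2 ⟨huT, hu⟩)
      obtain ⟨e⟩ := equiv_comp (N.subgroupOf T) (M.subgroupOf T) (Y.subgroupOf T) hM hMs hY hYs
      exact ⟨(Subgroup.subgroupOfEquivOfLe hMT).symm.trans (e.trans (Subgroup.subgroupOfEquivOfLe hYT))⟩
    obtain ⟨e₁⟩ := hkey B A hBT hAT (by rw [inf_comm]; exact hinf) hBU hBsup (by
      intro t ht
      have hx' : t ∈ ((B ⊔ A : Subgroup G) : Set G) := by rw [sup_comm]; exact ht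
      rw [Subgroup.normal_mul] at hx'
      obtain ⟨n, hn, m, hm, he⟩ := hx'
      exact ⟨n, hn, m, hm, he.symm⟩)
    obtain ⟨e₂⟩ := hkey A B hAT hBT hinf hAU hAsup (by
      intro t ht
      have hx' : t ∈ ((A ⊔ B : Subgroup G) : Set G) := ht
      rw [Subgroup.normal_mul] at hx'
      obtain ⟨n, hn, m, hm, he⟩ := hx'
      exact ⟨n, hn, m, hm, he.symm⟩)
    exact ⟨⟨e₁.trans e₂.symm⟩, ⟨e₁⟩⟩

end Cfsg.Agent.Lib.PrimTwo
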