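import Mathlib
import Cfsg.Prelude.Def_Transfer
import Cfsg.Prelude.Def_LocalStructure
import Cfsg.Agent.Lib.PrimTwo
import Cfsg.Agent.Lib.PCore
import Cfsg.Agent.Lib.PGroupBasic
import Cfsg.Agent.Lib.FitSolv

/-!
# Primitive groups with an abelian minimal normal subgroup
-/

set_option autoImplicit false
set_option linter.unusedVariables false
set_option linter.style.haveILetI false
set_option linter.unusedSectionVars false

namespace Cfsg.Agent.Lib.PrimOne

open Cfsg Subgroup Cfsg.Agent.Lib.PrimTwo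

universe u

variable {G : Type u} [Group G] [Finite G]

theorem prim_one (U : Subgroup G) (hU : IsCoatom U) (hcore : U.normalCore = ⊥) (A : Subgroup G) [hAn : A.Normal]
    (hA : A ≠ ⊥) (hcomm : ∀ a ∈ A, ∀ b ∈ A, a * b = b * a) :
    A ⊔ U = ⊤ ∧ A ⊓ U = ⊥ ∧ Subgroup.centralizer (A : Set G) ⊓ U = ⊥ ∧ Subgroup.centralizer (A : Set G) = A := by
  have hsup := sup_eq_top_of_core hU hcore hAn hA
  have h1 : A ⊓ U = ⊥ := by
    refine eq_bot_of_normalized hcore hsup inf_le_right ?_ ?_
    · intro b hb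
      apply Cfsg.Agent.Lib.H5Basic.mem_normalizer_of_map_conj_le
      rintro _ ⟨x, hx, rfl⟩
      have h1 : b * x = x * b := hcomm b hb x hx.1
      have h2 : (MulAut.conj b).toMonoidHom x = x := by
        show b * x * b⁻¹ = x
        rw [h1]; group
      rw [h2]
      exact hx
    · intro u hu
      apply Cfsg.Agent.Lib.H5Basic.mem_normalizer_of_map_conj_le
      rintro _ ⟨x, hx, rfl⟩
      exact ⟨hAn.conj_mem x hx.1 u, U.mul_mem (U.mul_mem hu hx.2) (U.inv_mem hu)⟩
  have h2 : Subgroup.centralizer (A : Set G) ⊓ U = ⊥ := by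
    refine eq_bot_of_normalized hcore hsup inf_le_right ?_ ?_
    · intro b hb
      apply Cfsg.Agent.Lib.H5Basic.mem_normalizer_of_map_conj_le
      rintro _ ⟨x, hx, rfl⟩
      have h1 : b * x = x * b := (Subgroup.mem_centralizer_iff.1 hx.1) b hb
      have h2 : (MulAut.conj b).toMonoidHom x = x := by
        show b * x * b⁻¹ = x
        rw [h1]; group
      rw [h2]
      exact hx
    · intro u hu
      apply Cfsg.Agent.Lib.H5Basic.mem_normalizer_of_map_conj_le
      rintro _ ⟨x, hx, rfl⟩
      haveI : (Subgroup.centralizer (A : Set G)).Normal := Subgroup.normal_centralizer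
      exact ⟨Subgroup.Normal.conj_mem inferInstance x hx.1 u, U.mul_mem (U.mul_mem hu hx.2) (U.inv_mem hu)⟩
  have hAC : A ≤ Subgroup.centralizer (A : Set G) := by
    intro a ha
    exact Subgroup.mem_centralizer_iff.2 fun b hb => hcomm b hb a ha
  refine ⟨hsup, h1, h2, le_antisymm ?_ hAC⟩
  intro x hx
  have hx' : x ∈ ((A ⊔ U : Subgroup G) : Set G) := by rw [hsup]; trivial
  rw [Subgroup.normal_mul] at hx'
  obtain ⟨a, ha, u, hu, rfl⟩ := hx'
  have hu1 : u ∈ Subgroup.centralizer (A : Set G) ⊓ U := by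
    refine ⟨?_, hu⟩
    have := mul_mem (inv_mem (hAC ha)) hx
    simpa using this
  rw [h2] at hu1
  have : u = 1 := hu1
  simpa [this] using ha

theorem fixpoint_card {q : ℕ} [hq : Fact q.Prime] {L R : Subgroup G} [hL : L.Normal] (hR : IsPGroup q R)
    (hfix : L ⊓ Subgroup.centralizer (R : Set G) = ⊥) : Nat.card L % q = 1 % q := by
  letI : MulAction R L := MulAction.compHom L ((MulAut.conjNormal : G →* MulAut L).comp R.subtype)
  have hs : ∀ (r : R) (l : L), ((r • l : L) : G) = (r : G) * l * (r : G)⁻¹ := fun r l => by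
    show ((MulAut.conjNormal (r : G) : MulAut L) l : G) = _
    exact MulAut.conjNormal_apply _ _
  have h1 := hR.card_modEq_card_fixedPoints (α := L)
  have h2 : Nat.card (MulAction.fixedPoints R L) = 1 := by
    rw [Nat.card_eq_one_iff_unique]
    refine ⟨⟨?_⟩, ⟨⟨1, ?_⟩⟩⟩
    · rintro ⟨a, ha⟩ ⟨b, hb⟩
      have key : ∀ l : L, l ∈ MulAction.fixedPoints R L → l = 1 := by
        intro l hl
        have hmem : (l : G) ∈ L ⊓ Subgroup.centralizer (R : Set G) := by
          refine ⟨l.2, Subgroup.mem_centralizer_iff.2 ?_⟩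
          intro r hr
          have h3 := hl ⟨r, hr⟩
          have h4 : (r : G) * l * r⁻¹ = l := (hs ⟨r, hr⟩ l).symm.trans (congrArg Subtype.val h3)
          exact mul_inv_eq_iff_eq_mul.1 h4
        rw [hfix] at hmem
        exact Subtype.ext hmem
      exact Subtype.ext ((key a ha).trans (key b hb).symm)
    · intro r
      apply Subtype.ext
      rw [hs]
      simp
  rw [h2] at h1
  exact h1

theorem pcore_prim (p : ℕ) [hpf : Fact p.Prime] (hL : pCore p G ≠ ⊥) (M : Subgroup G) (hM : IsCoatom M)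
    (hcore : M.normalCore = ⊥) :
    IsElementaryAbelian p (pCore p G) ∧ Subgroup.IsComplement' (pCore p G) M ∧
    (∀ K : Subgroup G, K.Normal → K ≤ pCore p G → K = ⊥ ∨ K = pCore p G) ∧
    Subgroup.centralizer ((pCore p G : Subgroup G) : Set G) = pCore p G ∧
    ∀ (q : ℕ) [Fact q.Prime], pCore q ↥M ≠ ⊥ → Nat.card (pCore p G) % q = 1 % q ∧ q ≠ p := by
  classical
  haveI hLn : (pCore p G).Normal := Cfsg.Agent.Lib.PCore.pCore_normal p G
  have hLp : IsPGroup p (pCore p G) := Cfsg.Agent.Lib.PCore.isPGroup_pCore p G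
  -- a minimal normal subgroup inside
  let S : Set (Subgroup G) := {A | A.Normal ∧ A ≠ ⊥ ∧ A ≤ pCore p G}
  obtain ⟨A, hAm⟩ := (Set.toFinite S).exists_minimal ⟨pCore p G, hLn, hL, le_rfl⟩
  obtain ⟨hAn, hA1, hAL⟩ := hAm.1
  haveI := hAn
  have hAp : IsPGroup p A := hLp.to_le hAL
  have hmin : ∀ K : Subgroup G, K.Normal → K ≤ A → K = ⊥ ∨ K = A := by
    intro K hK hKA
    by_cases h0 : K = ⊥
    · exact Or.inl h0
    · exact Or.inr (le_antisymm hKA (hAm.2 ⟨hK, h0, le_trans hKA hAL⟩ hKA))
  -- `A` is abelian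
  have hAcomm : ∀ a ∈ A, ∀ b ∈ A, a * b = b * a := by
    let Z : Subgroup G := A ⊓ Subgroup.centralizer (A : Set G)
    have hZn : Z.Normal := by
      haveI : (Subgroup.centralizer (A : Set G)).Normal := Subgroup.normal_centralizer
      exact Subgroup.normal_inf_normal _ _
    have hZ1 : Z ≠ ⊥ := by
      haveI hnt : Nontrivial A := (Subgroup.nontrivial_iff_ne_bot _).2 hA1
      obtain ⟨x, hx, hx1⟩ := Cfsg.Agent.Lib.PGroupBasic.exists_ne_one_mem_center_of_normal hAp (⊤ : Subgroup A) (by
        simp)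
      intro h0
      have : (x : G) ∈ Z := by
        refine ⟨x.2, Subgroup.mem_centralizer_iff.2 ?_⟩
        intro b hb
        have := (Subgroup.mem_center_iff.1 hx1.2) ⟨b, hb⟩
        exact congrArg Subtype.val this
      rw [h0] at this
      exact hx1.1 (Subtype.ext this)
    have hZA : Z = A := (hmin Z hZn inf_le_left).resolve_left hZ1
    intro a ha b hb
    have h1 : a ∈ Z := hZA ▸ ha
    exact ((Subgroup.mem_centralizer_iff.1 h1.2) b hb).symm
  obtain ⟨hsup, hinf, hCinf, hCA⟩ := prim_one M hM hcore A hA1 hAcomm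
  -- `L = A`
  have hLA : pCore p G = A := by
    refine le_antisymm ?_ hAL
    let W : Subgroup G := A ⊓ Subgroup.centralizer ((pCore p G : Subgroup G) : Set G)
    have hWn : W.Normal := by
      haveI : (Subgroup.centralizer ((pCore p G : Subgroup G) : Set G)).Normal := Subgroup.normal_centralizer
      exact Subgroup.normal_inf_normal _ _
    have hW1 : W ≠ ⊥ := by
      haveI : (A.subgroupOf (pCore p G)).Normal := Subgroup.normal_subgroupOf
      have hne : A.subgroupOf (pCore p G) ≠ ⊥ := by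
        intro h0
        apply hA1
        rw [eq_bot_iff]
        intro x hx
        have : (⟨x, hAL hx⟩ : pCore p G) ∈ A.subgroupOf (pCore p G) := Subgroup.mem_subgroupOf.2 hx
        rw [h0] at this
        simpa using congrArg Subtype.val (Subgroup.mem_bot.1 this)
      obtain ⟨z, hzA, hz1, hzc⟩ := Cfsg.Agent.Lib.PGroupBasic.exists_ne_one_mem_center_of_normal hLp _ hne
      intro h0
      have : (z : G) ∈ W := by
        refine ⟨Subgroup.mem_subgroupOf.1 hzA, Subgroup.mem_centralizer_iff.2 ?_⟩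
        intro b hb
        have := (Subgroup.mem_center_iff.1 hzc) ⟨b, hb⟩
        exact congrArg Subtype.val this
      rw [h0] at this
      exact hz1 (Subtype.ext this)
    have hWA : W = A := (hmin W hWn inf_le_left).resolve_left hW1
    rw [← hCA]
    intro l hl
    refine Subgroup.mem_centralizer_iff.2 ?_
    intro a ha
    have h1 : a ∈ W := hWA ▸ ha
    exact ((Subgroup.mem_centralizer_iff.1 h1.2) l hl).symm
  have hcomp : Subgroup.IsComplement' A M := by
    refine Subgroup.isComplement'_of_disjoint_and_mul_eq_univ (disjoint_iff.2 hinf) ?_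
    rw [← Subgroup.normal_mul, hsup]
    rfl
  rw [hLA]
  refine ⟨?_, hcomp, hmin, hCA, ?_⟩
  · -- exponent
    refine ⟨⟨⟨fun a b => Subtype.ext (hAcomm a a.2 b b.2)⟩⟩, ?_⟩
    let Ω : Subgroup G :=
      { carrier := {x | x ∈ A ∧ x ^ p = 1}
        mul_mem' := by
          rintro a b ⟨ha, ha1⟩ ⟨hb, hb1⟩
          refine ⟨mul_mem ha hb, ?_⟩
          have hc : Commute a b := hAcomm a ha b hb
          rw [hc.mul_pow, ha1, hb1, one_mul]
        one_mem' := ⟨one_mem _, one_pow _⟩
        inv_mem' := by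
          rintro a ⟨ha, ha1⟩
          exact ⟨inv_mem ha, by rw [inv_pow, ha1, inv_one]⟩ }
    have hΩn : Ω.Normal := by
      refine ⟨fun x hx g => ⟨hAn.conj_mem x hx.1 g, ?_⟩⟩
      rw [conj_pow, hx.2]
      simp
    have hΩ1 : Ω ≠ ⊥ := by
      haveI hnt : Nontrivial A := (Subgroup.nontrivial_iff_ne_bot _).2 hA1
      obtain ⟨k, hk⟩ := IsPGroup.iff_card.1 hAp
      have hk0 : k ≠ 0 := by
        rintro rfl
        rw [pow_zero] at hk
        exact hA1 (Subgroup.card_eq_one.1 hk)
      have hd : p ∣ Nat.card A := by rw [hk]; exact dvd_pow_self p hk0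
      obtain ⟨x, hx⟩ := exists_prime_orderOf_dvd_card' (G := A) p hd
      intro h0
      have hxm : (x : G) ∈ Ω := by
        refine ⟨x.2, ?_⟩
        have := congrArg Subtype.val (pow_orderOf_eq_one x)
        rw [hx] at this
        simpa using this
      rw [h0] at hxm
      have hx1 : x = 1 := Subtype.ext hxm
      rw [hx1, orderOf_one] at hx
      exact hpf.out.one_lt.ne hx
    have hΩA : Ω = A := (hmin Ω hΩn (fun x hx => hx.1)).resolve_left hΩ1
    intro a ha
    have : a ∈ Ω := hΩA ▸ ha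
    exact this.2
  · intro q hqf hR
    let R : Subgroup G := (pCore q ↥M).map M.subtype
    have hRp : IsPGroup q R := (Cfsg.Agent.Lib.PCore.isPGroup_pCore q ↥M).map _
    have hRM : R ≤ M := Subgroup.map_subtype_le _
    have hR1 : R ≠ ⊥ := fun h0 =>
      hR ((Subgroup.map_eq_bot_iff_of_injective _ M.subtype_injective).1 h0)
    have hRn : M ≤ Subgroup.normalizer (R : Set G) := by
      intro m hm
      apply Cfsg.Agent.Lib.H5Basic.mem_normalizer_of_map_conj_le
      rintro _ ⟨_, ⟨r, hr, rfl⟩, rfl⟩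
      haveI := Cfsg.Agent.Lib.PCore.pCore_normal q ↥M
      exact ⟨(⟨m, hm⟩ : M) * r * (⟨m, hm⟩ : M)⁻¹, Subgroup.Normal.conj_mem inferInstance r hr _, rfl⟩
    have hfix : A ⊓ Subgroup.centralizer (R : Set G) = ⊥ := by
      let W : Subgroup G := A ⊓ Subgroup.centralizer (R : Set G)
      have hW : W = ⊥ ∨ W = A := by
        refine hmin W ?_ inf_le_left
        have htop : Subgroup.normalizer (W : Set G) = ⊤ := by
          rw [eq_top_iff, ← hsup]
          refine sup_le ?_ ?_
          · intro b hb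
            apply Cfsg.Agent.Lib.H5Basic.mem_normalizer_of_map_conj_le
            rintro _ ⟨x, hx, rfl⟩
            have h1 : b * x = x * b := hAcomm b hb x hx.1
            have h2 : (MulAut.conj b).toMonoidHom x = x := by
              show b * x * b⁻¹ = x
              rw [h1]; group
            rw [h2]
            exact hx
          · intro m hm
            apply Cfsg.Agent.Lib.H5Basic.mem_normalizer_of_map_conj_le
            rintro _ ⟨x, hx, rfl⟩
            refine ⟨hAn.conj_mem x hx.1 m, Subgroup.mem_centralizer_iff.2 ?_⟩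
            intro r hr
            have hr' : m⁻¹ * r * m⁻¹⁻¹ ∈ R := (Subgroup.mem_normalizer_iff.1 (hRn (inv_mem hm)) r).1 hr
            have h1 := (Subgroup.mem_centralizer_iff.1 hx.2) _ hr'
            have h2 : m * (m⁻¹ * r * m⁻¹⁻¹ * x) * m⁻¹ = m * (x * (m⁻¹ * r * m⁻¹⁻¹)) * m⁻¹ := by rw [h1]
            have e1 : m * (m⁻¹ * r * m⁻¹⁻¹ * x) * m⁻¹ = r * (m * x * m⁻¹) := by group
            have e2 : m * (x * (m⁻¹ * r * m⁻¹⁻¹)) * m⁻¹ = (m * x * m⁻¹) * r := by group
            rw [e1, e2] at h2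
            exact h2
        exact Subgroup.normalizer_eq_top_iff.1 htop
      rcases hW with h | h
      · exact h
      · exfalso
        apply hR1
        rw [eq_bot_iff, ← hinf]
        refine le_inf ?_ hRM
        rw [← hCA]
        intro r hr
        refine Subgroup.mem_centralizer_iff.2 ?_
        intro a ha
        have h1 : a ∈ W := h ▸ ha
        exact ((Subgroup.mem_centralizer_iff.1 h1.2) r hr).symm
    refine ⟨fixpoint_card hRp hfix, ?_⟩
    rintro rfl
    apply hR1
    have hp : IsPGroup q (R ⊔ A : Subgroup G) := hRp.to_sup_of_normal_right hAp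
    have hn : (R ⊔ A : Subgroup G).Normal := by
      have htop : Subgroup.normalizer ((R ⊔ A : Subgroup G) : Set G) = ⊤ := by
        rw [eq_top_iff, ← hsup]
        refine sup_le ?_ ?_
        · intro a ha
          apply Cfsg.Agent.Lib.H5Basic.mem_normalizer_of_map_conj_le
          rw [Subgroup.map_sup]
          refine sup_le ?_ ?_
          · rintro _ ⟨r, hr, rfl⟩
            have h1 : (MulAut.conj a).toMonoidHom r = a * (r * a⁻¹) := by
              show a * r * a⁻¹ = _
              group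
            rw [h1]
            exact mul_mem (Subgroup.mem_sup_right ha) (mul_mem (Subgroup.mem_sup_left hr) (Subgroup.mem_sup_right (inv_mem ha)))
          · rintro _ ⟨r, hr, rfl⟩
            exact Subgroup.mem_sup_right (hAn.conj_mem r hr a)
        · intro m hm
          apply Cfsg.Agent.Lib.H5Basic.mem_normalizer_of_map_conj_le
          rw [Subgroup.map_sup]
          refine sup_le_sup ?_ ?_
          · rintro _ ⟨r, hr, rfl⟩
            exact (Subgroup.mem_normalizer_iff.1 (hRn hm) r).1 hr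
          · rintro _ ⟨r, hr, rfl⟩
            exact hAn.conj_mem r hr m
      exact Subgroup.normalizer_eq_top_iff.1 htop
    have hle : R ⊔ A ≤ pCore q G := Cfsg.Agent.Lib.PCore.le_pCore hn hp
    rw [hLA] at hle
    rw [eq_bot_iff, ← hinf]
    exact le_inf (le_trans le_sup_left hle) hRM

theorem solvable_prim [Group.IsSolvable G] {Ω : Type*} [MulAction G Ω] [FaithfulSMul G Ω]
    (hprim : MulAction.IsPreprimitive G Ω) (M : Subgroup G) [hMn : M.Normal] (hM : M ≠ ⊥)
    (hmin : ∀ K : Subgroup G, K.Normal → K ≤ M → K = ⊥ ∨ K = M) (ω : Ω) :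
    M ⊔ MulAction.stabilizer G ω = ⊤ ∧ M ⊓ MulAction.stabilizer G ω = ⊥ ∧
    Subgroup.centralizer (M : Set G) ⊓ MulAction.stabilizer G ω = ⊥ ∧
    (∀ a ∈ M, ∀ b ∈ M, a * b = b * a) ∧ ∃ p : ℕ, p.Prime ∧ ∀ x ∈ M, x ^ p = 1 := by
  classical
  haveI := hprim.toIsPretransitive
  haveI hnt : Nontrivial Ω := by
    by_contra hn
    rw [not_nontrivial_iff_subsingleton] at hn
    apply hM
    rw [eq_bot_iff]
    intro x _
    refine Subgroup.mem_bot.2 (FaithfulSMul.eq_of_smul_eq_smul (α := Ω) fun a => ?_)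
    exact Subsingleton.elim _ _
  have hco : IsCoatom (MulAction.stabilizer G ω) :=
    (MulAction.isCoatom_stabilizer_iff_preprimitive G ω).2 hprim
  have hcore : (MulAction.stabilizer G ω).normalCore = ⊥ := by
    rw [eq_bot_iff]
    intro x hx
    refine Subgroup.mem_bot.2 (FaithfulSMul.eq_of_smul_eq_smul (α := Ω) fun a => ?_)
    obtain ⟨g, hg⟩ := MulAction.exists_smul_eq G ω a
    have h1 : g⁻¹ * x * g⁻¹⁻¹ ∈ MulAction.stabilizer G ω := hx g⁻¹
    have h2 : (g⁻¹ * x * g⁻¹⁻¹) • ω = ω := h1
    rw [← hg, one_smul]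
    have h3 : x • g • ω = g • (g⁻¹ * x * g⁻¹⁻¹) • ω := by
      rw [smul_smul, smul_smul]
      congr 1
      group
    rw [h3, h2]
  obtain ⟨hc, p, hp, hexp⟩ := Cfsg.Agent.Lib.FitSolv.minimal_normal_elementary M hM hmin
  obtain ⟨h1, h2, h3, -⟩ := prim_one _ hco hcore M hM hc
  exact ⟨h1, h2, h3, hc, p, hp, hexp⟩

end Cfsg.Agent.Lib.PrimOne
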