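import Mathlib
import Cfsg.Agent.Lib.PrimeDeg2
import Cfsg.Agent.Lib.PrimeDeg3

/-! Transitive groups of prime degree: labels from a chosen `p`-element, and involutions in the Sylow normaliser. -/

set_option autoImplicit false
set_option linter.all false

namespace Cfsg.Agent.Lib.PrimeDeg4

open Cfsg.Agent.Lib.PrimeDeg2

variable {α : Type*} [Fintype α] [DecidableEq α] {p : ℕ} [hp : Fact p.Prime]

/-- labelling by a chosen element of order `p` -/
theorem label_of (hα : Fintype.card α = p) (G : Subgroup (Equiv.Perm α)) (σ : G) (hσ : orderOf σ = p) :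
    ∃ ι : ZMod p ≃ α, ∀ j, (σ : Equiv.Perm α) (ι j) = ι (j + 1) := by
  classical
  have hpp := hp.out
  have hσ1 : σ ≠ 1 := by
    rintro rfl
    rw [orderOf_one] at hσ
    exact hpp.one_lt.ne hσ
  obtain ⟨a₀, ha₀⟩ : ∃ a₀ : α, σ • a₀ ≠ a₀ := by
    by_contra hn
    push Not at hn
    apply hσ1
    apply Subtype.ext
    ext y
    exact hn y
  let f : ZMod p → α := fun j => (σ ^ j.val) • a₀
  have hstep : ∀ j, σ • f j = f (j + 1) := by
    intro j
    show σ • (σ ^ j.val) • a₀ = (σ ^ (j + 1).val) • a₀
    rw [← mul_smul, ← pow_succ']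
    have h1 : (j + 1).val = (j.val + 1) % p := by
      rw [ZMod.val_add, ZMod.val_one_eq_one_mod]
      simp
    have h2 : σ ^ (j + 1).val = σ ^ (j.val + 1) := by
      have h3 := pow_mod_orderOf σ (j.val + 1)
      rw [hσ] at h3
      rw [h1]
      exact h3
    rw [h2]
  have hinj : Function.Injective f := by
    have key : ∀ j j' : ZMod p, j.val < j'.val → f j ≠ f j' := by
      intro j j' hlt he
      have hk : (σ ^ (j'.val - j.val)) • a₀ = a₀ := by
        have h1 : (σ ^ j.val) • a₀ = (σ ^ j'.val) • a₀ := he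
        have h2 : σ ^ j'.val = σ ^ j.val * σ ^ (j'.val - j.val) := by
          rw [← pow_add]
          congr 1
          omega
        rw [h2, mul_smul] at h1
        exact (MulAction.injective (σ ^ j.val) h1).symm
      have hcop : (j'.val - j.val).Coprime (orderOf σ) := by
        rw [hσ]
        have h1 : j'.val < p := ZMod.val_lt j'
        apply Nat.Coprime.symm
        rw [Nat.Prime.coprime_iff_not_dvd hpp]
        intro hd
        have := Nat.le_of_dvd (by omega) hd
        omega
      obtain ⟨u, hu⟩ := exists_pow_eq_self_of_coprime hcop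
      apply ha₀
      rw [← hu]
      have : ∀ n : ℕ, ((σ ^ (j'.val - j.val)) ^ n) • a₀ = a₀ := by
        intro n
        induction n with
        | zero => simp
        | succ n ih => rw [pow_succ, mul_smul, hk, ih]
      exact this u
    intro j j' he
    rcases lt_trichotomy j.val j'.val with h | h | h
    · exact absurd he (key j j' h)
    · exact ZMod.val_injective p h
    · exact absurd he.symm (key j' j h)
  have hbij : Function.Bijective f := by
    rw [Fintype.bijective_iff_injective_and_card]
    exact ⟨hinj, by rw [ZMod.card, hα]⟩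
  let ι := Equiv.ofBijective f hbij
  exact ⟨ι, fun j => hstep j⟩


/-- `p` divides the order of a transitive group of degree `p` -/
theorem dvd_card (hα : Fintype.card α = p) (G : Subgroup (Equiv.Perm α)) [MulAction.IsPretransitive G α] :
    p ∣ Nat.card G := by
  classical
  have hpp := hp.out
  have hαne : Nonempty α := by
    rw [← Fintype.card_pos_iff, hα]
    exact hpp.pos
  obtain ⟨a⟩ := hαne
  have h1 := Cfsg.Agent.Lib.OrbitCount.card_orbit_mul (A := G) a
  rw [MulAction.orbit_eq_univ, Nat.card_univ, Nat.card_eq_fintype_card, hα] at h1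
  exact ⟨_, h1.symm⟩

/-- a Sylow `p`-subgroup has order exactly `p` -/
theorem sylow_card (hα : Fintype.card α = p) (G : Subgroup (Equiv.Perm α)) [MulAction.IsPretransitive G α]
    (P : Sylow p G) : Nat.card P = p := by
  classical
  have hpp := hp.out
  have hd := dvd_card hα G
  rw [P.card_eq_multiplicity]
  have h1 : Nat.card G ∣ p.factorial := by
    have h2 := Subgroup.card_subgroup_dvd_card G
    rwa [Nat.card_eq_fintype_card (α := Equiv.Perm α), Fintype.card_perm, hα] at h2
  have hne : Nat.card G ≠ 0 := Nat.card_pos.ne'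
  have h3 : (Nat.card G).factorization p = 1 := by
    apply le_antisymm
    · have h4 := (Nat.factorization_le_iff_dvd hne (Nat.factorial_pos p).ne').2 h1 p
      have h5 : p.factorial.factorization p = 1 := by
        obtain ⟨m, hm⟩ : ∃ m, p = m + 1 := ⟨p - 1, by have := hpp.pos; omega⟩
        have h6 : p.factorial = p * (p - 1).factorial := (Nat.mul_factorial_pred hpp.ne_zero).symm
        rw [h6, Nat.factorization_mul hpp.ne_zero (Nat.factorial_pos _).ne', Finsupp.add_apply, hpp.factorization_self]
        have h7 : ¬ p ∣ (p - 1).factorial := by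
          intro h8
          have := (hpp.dvd_factorial).1 h8
          have := hpp.pos
          omega
        rw [Nat.factorization_eq_zero_of_not_dvd h7]
      omega
    · exact hpp.factorization_pos_of_dvd hne hd
  rw [h3, pow_one]

/-- a generator of a Sylow `p`-subgroup -/
theorem exists_gen (hα : Fintype.card α = p) (G : Subgroup (Equiv.Perm α)) [MulAction.IsPretransitive G α]
    (P : Sylow p G) : ∃ τ : G, τ ∈ (P : Subgroup G) ∧ orderOf τ = p ∧ ∀ x ∈ (P : Subgroup G), ∃ k : ℕ, x = τ ^ k := by
  classical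
  have hc := sylow_card hα G P
  haveI : IsCyclic (P : Subgroup G) := isCyclic_of_prime_card hc
  obtain ⟨g, hg⟩ := IsCyclic.exists_generator (α := (P : Subgroup G))
  refine ⟨g, g.2, ?_, ?_⟩
  · rw [Subgroup.orderOf_coe, orderOf_eq_card_of_forall_mem_zpowers hg, hc]
  · intro x hx
    obtain ⟨k, hk⟩ := (mem_powers_iff_mem_zpowers.2 (hg ⟨x, hx⟩))
    refine ⟨k, ?_⟩
    have := congrArg Subtype.val hk
    simpa using this.symm

/-- An involution normalising `⟨τ⟩` acts as `j ↦ b - j` in coordinates. -/
theorem inverting (hp2 : p ≠ 2) (G : Subgroup (Equiv.Perm α)) (τ : G) (ι : ZMod p ≃ α)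
    (hτ : ∀ j, (τ : Equiv.Perm α) (ι j) = ι (j + 1)) (s : G) (hs1 : s ≠ 1) (hs2 : s ^ 2 = 1) (k : ℕ)
    (hk : s * τ * s⁻¹ = τ ^ k) : ∃ b : ZMod p, ∀ j, (s : Equiv.Perm α) (ι j) = ι (b - j) := by
  classical
  let φ : ZMod p → ZMod p := fun j => ι.symm ((s : Equiv.Perm α) (ι j))
  have hφ : ∀ j, (s : Equiv.Perm α) (ι j) = ι (φ j) := fun j => by simp [φ]
  have hτk : ∀ (n : ℕ) j, ((τ ^ n : G) : Equiv.Perm α) (ι j) = ι (j + n) := by
    intro n j
    induction n with
    | zero => simp
    | succ n ih =>
      rw [pow_succ']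
      show (τ : Equiv.Perm α) (((τ ^ n : G) : Equiv.Perm α) (ι j)) = _
      rw [ih, hτ]
      push_cast
      ring_nf
  have hstep : ∀ j, φ (j + 1) = φ j + k := by
    intro j
    have h1 : s * τ = τ ^ k * s := by
      rw [← hk]
      group
    have h2 := congrArg (fun g : G => (g : Equiv.Perm α) (ι j)) h1
    have h3 : ((s * τ : G) : Equiv.Perm α) (ι j) = (s : Equiv.Perm α) ((τ : Equiv.Perm α) (ι j)) := rfl
    have h4 : ((τ ^ k * s : G) : Equiv.Perm α) (ι j) = ((τ ^ k : G) : Equiv.Perm α) ((s : Equiv.Perm α) (ι j)) := rfl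
    rw [h3, h4, hτ, hφ, hφ, hτk] at h2
    exact ι.injective h2
  have hlin : ∀ j, φ j = φ 0 + k * j := by
    have h1 : ∀ n : ℕ, φ (n : ZMod p) = φ 0 + k * n := by
      intro n
      induction n with
      | zero => simp
      | succ n ih =>
        push_cast
        rw [hstep, ih]
        ring
    intro j
    have := h1 j.val
    rwa [ZMod.natCast_zmod_val] at this
  have hinv : ∀ j, φ (φ j) = j := by
    intro j
    have h1 : (s : Equiv.Perm α) ((s : Equiv.Perm α) (ι j)) = ι j := by
      have h2 : ((s ^ 2 : G) : Equiv.Perm α) (ι j) = ι j := by rw [hs2]; rfl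
      rw [pow_two] at h2
      exact h2
    rw [hφ, hφ] at h1
    exact ι.injective h1
  have h0 := hinv 0
  have h1 := hinv 1
  rw [hlin (φ 0)] at h0
  rw [hlin (φ 1), hlin 1] at h1
  have hk2 : ((k : ZMod p) - 1) * ((k : ZMod p) + 1) = 0 := by
    linear_combination h1 - h0
  have h2ne : (2 : ZMod p) ≠ 0 := by
    intro h
    have h3 : ((2 : ℕ) : ZMod p) = 0 := by exact_mod_cast h
    rw [ZMod.natCast_eq_zero_iff] at h3
    exact hp2 ((Nat.prime_dvd_prime_iff_eq hp.out Nat.prime_two).1 h3)
  rcases mul_eq_zero.1 hk2 with h3 | h3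
  · exfalso
    have hk1 : (k : ZMod p) = 1 := sub_eq_zero.1 h3
    apply hs1
    rw [hk1] at h0
    have h4 : φ 0 = 0 := by
      have h5 : 2 * φ 0 = 0 := by linear_combination h0
      exact (mul_eq_zero.1 h5).resolve_left h2ne
    apply Subtype.ext
    ext x
    obtain ⟨j, rfl⟩ := ι.surjective x
    show (s : Equiv.Perm α) (ι j) = ι j
    rw [hφ, hlin, h4, hk1]
    simp
  · have hk1 : (k : ZMod p) = -1 := eq_neg_of_add_eq_zero_left h3
    refine ⟨φ 0, fun j => ?_⟩
    rw [hφ, hlin, hk1]
    congr 1
    ring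

/-- All stabilisers have the same order. -/
theorem card_stab_eq (G : Subgroup (Equiv.Perm α)) [MulAction.IsPretransitive G α] (a b : α) :
    Nat.card (MulAction.stabilizer G a) = Nat.card (MulAction.stabilizer G b) := by
  classical
  have h1 := Cfsg.Agent.Lib.OrbitCount.card_orbit_mul (A := G) a
  have h2 := Cfsg.Agent.Lib.OrbitCount.card_orbit_mul (A := G) b
  rw [MulAction.orbit_eq_univ] at h1 h2
  have hpos : 0 < Nat.card (Set.univ : Set α) := by
    rw [Nat.card_univ]
    haveI : Nonempty α := ⟨a⟩
    exact Nat.card_pos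
  exact Nat.eq_of_mul_eq_mul_left hpos (h1.trans h2.symm)

end Cfsg.Agent.Lib.PrimeDeg4
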