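import Mathlib
import Cfsg.Agent.Lib.PrimeDeg4

/-! Subgroups of index `p` in transitive groups of prime degree: solvable groups are affine. -/

set_option autoImplicit false
set_option linter.all false

namespace Cfsg.Agent.Lib.PrimeDeg5

open Cfsg.Agent.Lib.PrimeDeg4
open scoped commutatorElement

variable {α : Type*} [Fintype α] [DecidableEq α] {p : ℕ} [hp : Fact p.Prime]

theorem lin_of_step (φ : ZMod p → ZMod p) (k : ZMod p) (h : ∀ j, φ (j + 1) = φ j + k) :
    ∀ j, φ j = φ 0 + k * j := by
  have h1 : ∀ n : ℕ, φ (n : ZMod p) = φ 0 + k * n := by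
    intro n
    induction n with
    | zero => simp
    | succ n ih =>
      push_cast
      rw [h, ih]
      ring
  intro j
  have := h1 j.val
  rwa [ZMod.natCast_zmod_val] at this

theorem exists_abelian_normal {G : Type*} [Group G] [Nontrivial G] (hs : Group.IsSolvable G) :
    ∃ A : Subgroup G, A.Normal ∧ A ≠ ⊥ ∧ ∀ x ∈ A, ∀ y ∈ A, x * y = y * x := by
  classical
  have hex : ∃ n, derivedSeries G n = ⊥ := (isSolvable_def G).1 hs
  have hn0 : Nat.find hex ≠ 0 := by
    intro h0
    have h1 := Nat.find_spec hex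
    rw [h0, derivedSeries_zero] at h1
    exact top_ne_bot h1
  obtain ⟨m, hm⟩ : ∃ m, Nat.find hex = m + 1 := ⟨Nat.find hex - 1, by omega⟩
  refine ⟨derivedSeries G m, derivedSeries_normal G m, ?_, ?_⟩
  · have := Nat.find_min hex (m := m) (by omega)
    exact this
  · intro x hx y hy
    have h1 := Nat.find_spec hex
    rw [hm, derivedSeries_succ] at h1
    have h2 : ⁅x, y⁆ ∈ ⁅derivedSeries G m, derivedSeries G m⁆ := Subgroup.commutator_mem_commutator hx hy
    rw [h1, Subgroup.mem_bot] at h2
    exact commutatorElement_eq_one_iff_mul_comm.1 h2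

theorem eq_stab_of_le (hα : Fintype.card α = p) (G : Subgroup (Equiv.Perm α)) [MulAction.IsPretransitive G α]
    (H : Subgroup G) (hH : H.index = p) (a : α) (hle : H ≤ MulAction.stabilizer G a) :
    H = MulAction.stabilizer G a := by
  classical
  have hpp := hp.out
  have h1 := Cfsg.Agent.Lib.OrbitCount.card_orbit_mul (A := G) a
  rw [MulAction.orbit_eq_univ, Nat.card_univ, Nat.card_eq_fintype_card, hα] at h1
  have h2 := Subgroup.index_mul_card H
  rw [hH] at h2
  have h3 : Nat.card (MulAction.stabilizer G a) = Nat.card H :=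
    Nat.eq_of_mul_eq_mul_left hpp.pos (h1.trans h2.symm)
  exact Subgroup.eq_of_le_of_card_ge hle h3.le

theorem not_dvd_of_index (hα : Fintype.card α = p) (G : Subgroup (Equiv.Perm α)) [MulAction.IsPretransitive G α]
    (H : Subgroup G) (hH : H.index = p) : ¬ p ∣ Nat.card H := by
  classical
  have hpp := hp.out
  intro hd
  have h2 := Subgroup.index_mul_card H
  rw [hH] at h2
  have h3 : p ^ 2 ∣ Nat.card G := by
    rw [← h2, pow_two]
    exact mul_dvd_mul_left p hd
  haveI : Nonempty (Sylow p G) := inferInstance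
  obtain ⟨P⟩ := (inferInstance : Nonempty (Sylow p G))
  have hP := sylow_card hα G P
  rw [P.card_eq_multiplicity] at hP
  have hne : Nat.card G ≠ 0 := Nat.card_pos.ne'
  have h4 := (hpp.pow_dvd_iff_le_factorization hne).1 h3
  have h5 : (Nat.card G).factorization p = 1 := by
    have h6 : p ^ (Nat.card G).factorization p = p ^ 1 := by rw [hP, pow_one]
    exact Nat.pow_right_injective hpp.two_le h6
  omega

/-- **Galois**: a solvable transitive group of prime degree is affine. -/
theorem affine_of_solvable (hα : Fintype.card α = p) (G : Subgroup (Equiv.Perm α)) [MulAction.IsPretransitive G α]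
    (hs : Group.IsSolvable G) :
    ∃ (τ : G) (ι : ZMod p ≃ α), orderOf τ = p ∧ (∀ j, τ • ι j = ι (j + 1)) ∧
      ∀ g : G, ∃ k c : ZMod p, k ≠ 0 ∧ ∀ j, g • ι j = ι (k * j + c) := by
  classical
  have hpp := hp.out
  haveI : Nontrivial α := Fintype.one_lt_card_iff_nontrivial.1 (by rw [hα]; exact hpp.one_lt)
  haveI : Nontrivial G := by
    obtain ⟨a, b, hab⟩ := exists_pair_ne α
    obtain ⟨g, hg⟩ := MulAction.exists_smul_eq G a b
    refine ⟨⟨g, 1, ?_⟩⟩
    rintro rfl
    rw [one_smul] at hg
    exact hab hg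
  obtain ⟨A, hAn, hA0, hAc⟩ := exists_abelian_normal hs
  obtain ⟨y, hyA, hy1⟩ := (A.bot_or_exists_ne_one).resolve_left hA0
  obtain ⟨x, hx⟩ : ∃ x : α, y • x ≠ x := by
    by_contra hn
    push Not at hn
    apply hy1
    apply Subtype.ext
    ext w
    exact hn w
  have hB := MulAction.IsBlock.orbit_of_normal (G := G) (N := A) x
  have hd := hB.ncard_dvd_card ⟨x, MulAction.mem_orbit_self x⟩
  rw [Nat.card_eq_fintype_card, hα] at hd
  have hn : (MulAction.orbit A x).ncard = p := by
    refine ((Nat.dvd_prime hpp).1 hd).resolve_left ?_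
    intro h1
    obtain ⟨w, hw⟩ := Set.ncard_eq_one.1 h1
    have h3 : x ∈ MulAction.orbit A x := MulAction.mem_orbit_self x
    have h4 : y • x ∈ MulAction.orbit A x := ⟨⟨y, hyA⟩, rfl⟩
    rw [hw] at h3 h4
    exact hx ((Set.mem_singleton_iff.1 h4).trans (Set.mem_singleton_iff.1 h3).symm)
  have hpA : p ∣ Nat.card A := by
    have h1 := Cfsg.Agent.Lib.OrbitCount.card_orbit_mul (A := A) x
    rw [Nat.card_coe_set_eq, hn] at h1
    exact ⟨_, h1.symm⟩
  obtain ⟨τ₀, hτ₀⟩ := exists_prime_orderOf_dvd_card' p hpA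
  have hτo : orderOf (τ₀ : G) = p := by rw [Subgroup.orderOf_coe]; exact hτ₀
  obtain ⟨ι, hι⟩ := label_of hα G τ₀ hτo
  have hτs : ∀ j, (τ₀ : G) • ι j = ι (j + 1) := hι
  have htr : ∀ y ∈ A, ∃ c, ∀ j, y • ι j = ι (j + c) := by
    intro y hy
    let φ : ZMod p → ZMod p := fun j => ι.symm (y • ι j)
    have hφ : ∀ j, y • ι j = ι (φ j) := fun j => by simp [φ]
    have step : ∀ j, φ (j + 1) = φ j + 1 := by
      intro j
      apply ι.injective
      rw [← hφ, ← hτs, ← hτs, ← hφ, ← mul_smul, ← mul_smul, hAc y hy _ τ₀.2]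
    refine ⟨φ 0, fun j => ?_⟩
    rw [hφ, lin_of_step φ 1 step j]
    congr 1
    ring
  refine ⟨τ₀, ι, hτo, hτs, fun g => ?_⟩
  obtain ⟨k, hk⟩ := htr (g * τ₀ * g⁻¹) (hAn.conj_mem _ τ₀.2 g)
  let φ : ZMod p → ZMod p := fun j => ι.symm (g • ι j)
  have hφ : ∀ j, g • ι j = ι (φ j) := fun j => by simp [φ]
  have step : ∀ j, φ (j + 1) = φ j + k := by
    intro j
    apply ι.injective
    rw [← hφ, ← hτs, ← hk, ← hφ, ← mul_smul, ← mul_smul]
    simp
  have hlin := lin_of_step φ k step
  refine ⟨k, φ 0, ?_, fun j => ?_⟩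
  · rintro rfl
    have h1 := hlin 0
    have h2 := hlin 1
    simp only [zero_mul, add_zero] at h2
    have h3 : g • ι 1 = g • ι 0 := by rw [hφ, hφ, h2]
    have h4 := ι.injective (MulAction.injective g h3)
    exact one_ne_zero h4
  · rw [hφ, hlin j]
    congr 1
    ring

/-- The solvable case: a subgroup of index `p` fixes a point. -/
theorem solvable_case (hα : Fintype.card α = p) (G : Subgroup (Equiv.Perm α)) [MulAction.IsPretransitive G α]
    (hs : Group.IsSolvable G) (H : Subgroup G) (hH : H.index = p) :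
    ∃ a : α, H = MulAction.stabilizer G a := by
  classical
  have hpp := hp.out
  obtain ⟨τ, ι, hτo, hτs, haff⟩ := affine_of_solvable hα G hs
  have hpH := not_dvd_of_index hα G H hH
  have htr : ∀ h ∈ H, ∀ c : ZMod p, (∀ j, h • ι j = ι (j + c)) → h = 1 := by
    intro h hh c hc
    by_contra hne
    have hpow : ∀ n : ℕ, ∀ j, (h ^ n) • ι j = ι (j + n * c) := by
      intro n
      induction n with
      | zero => intro j; simp
      | succ n ih =>
        intro j
        rw [pow_succ', mul_smul, ih, hc]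
        congr 1
        push_cast
        ring
    have hp1 : h ^ p = 1 := by
      apply Subtype.ext
      ext w
      obtain ⟨j, rfl⟩ := ι.surjective w
      have h1 := hpow p j
      have h3 : ((h ^ p : G) : Equiv.Perm α) (ι j) = ι j := by
        refine h1.trans ?_
        simp
      exact h3
    have ho : orderOf h = p := orderOf_eq_prime hp1 hne
    apply hpH
    rw [← ho, ← Subgroup.orderOf_mk h hh]
    exact orderOf_dvd_natCard _
  have hcomm : ∀ h ∈ H, ∀ h' ∈ H, h * h' = h' * h := by
    intro h hh h' hh'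
    obtain ⟨k, c, hk0, hk⟩ := haff h
    obtain ⟨k', c', hk0', hk'⟩ := haff h'
    have hK : k * k' ≠ 0 := mul_ne_zero hk0 hk0'
    have h1 : (h * h') * (h' * h)⁻¹ = 1 := by
      apply htr _ (H.mul_mem (H.mul_mem hh hh') (H.inv_mem (H.mul_mem hh' hh))) ((k * c' + c) - (k' * c + c'))
      intro i
      have h2 : i = k' * (k * ((i - (k' * c + c')) / (k * k')) + c) + c' := by
        field_simp
        ring
      set j := (i - (k' * c + c')) / (k * k') with hj
      have h3 : ι i = (h' * h) • ι j := by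
        rw [mul_smul, hk, hk', ← h2]
      rw [h3, mul_smul, inv_smul_smul, mul_smul, hk', hk]
      congr 1
      linear_combination (-1 : ZMod p) * h2
    exact mul_inv_eq_one.1 h1
  rcases H.bot_or_exists_ne_one with h0 | ⟨h₀, hh₀, hne⟩
  · refine ⟨ι 0, eq_stab_of_le hα G H hH _ ?_⟩
    rw [h0]
    exact bot_le
  · obtain ⟨k₀, c₀, hk00, hk₀⟩ := haff h₀
    have hk1 : 1 - k₀ ≠ 0 := by
      intro h1
      have h2 : k₀ = 1 := (sub_eq_zero.1 h1).symm
      apply hne
      apply htr h₀ hh₀ c₀
      intro j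
      rw [hk₀, h2, one_mul]
    let t : ZMod p := c₀ / (1 - k₀)
    have ht1 : t * (1 - k₀) = c₀ := div_mul_cancel₀ c₀ hk1
    have hfix : k₀ * t + c₀ = t := by
      linear_combination (-1 : ZMod p) * ht1
    have huniq : ∀ u : ZMod p, k₀ * u + c₀ = u → u = t := by
      intro u hu
      apply mul_right_cancel₀ hk1
      rw [ht1]
      linear_combination (-1 : ZMod p) * hu
    refine ⟨ι t, eq_stab_of_le hα G H hH _ ?_⟩
    intro h hh
    show h • ι t = ι t
    obtain ⟨u, hu⟩ := ι.surjective (h • ι t)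
    have h1 : h₀ • ι u = ι u := by
      rw [hu, ← mul_smul, hcomm h₀ hh₀ h hh, mul_smul, hk₀, hfix]
    rw [hk₀] at h1
    have h2 := huniq u (ι.injective h1)
    rw [← hu, h2]

end Cfsg.Agent.Lib.PrimeDeg5
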