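import Mathlib

/-! The projective line over a field: explicit 3-transitivity of PGL_2. -/

namespace Cfsg.Agent.Lib.ProjLine

open Matrix Projectivization
open scoped MatrixGroups LinearAlgebra.Projectivization

variable {F : Type*} [Field F]

/-- The `2 × 2` determinant of two vectors. -/
def cr (v w : Fin 2 → F) : F := v 0 * w 1 - v 1 * w 0

lemma cr_smul_right (v w : Fin 2 → F) (a : F) : cr v (a • w) = a * cr v w := by
  simp [cr]; ring

lemma cr_smul_left (v w : Fin 2 → F) (a : F) : cr (a • v) w = a * cr v w := by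
  simp [cr]; ring

lemma cr_comm (v w : Fin 2 → F) : cr v w = - cr w v := by
  simp [cr]; ring

lemma ne_zero_iff (v : Fin 2 → F) : v ≠ 0 ↔ v 0 ≠ 0 ∨ v 1 ≠ 0 := by
  constructor
  · intro h
    by_contra h'
    push Not at h'
    apply h
    ext i; fin_cases i
    · simpa using h'.1
    · simpa using h'.2
  · rintro (h | h) h0 <;> simp [h0] at h

theorem mk_eq_iff {v w : Fin 2 → F} (hv : v ≠ 0) (hw : w ≠ 0) : mk F v hv = mk F w hw ↔ cr v w = 0 := by
  rw [mk_eq_mk_iff']
  constructor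
  · rintro ⟨a, rfl⟩
    simp [cr]; ring
  · intro h
    simp only [cr] at h
    rcases (ne_zero_iff w).1 hw with h0 | h0
    · refine ⟨v 0 / w 0, ?_⟩
      ext i; fin_cases i
      · simp; field_simp
      · simp; field_simp; linear_combination h
    · refine ⟨v 1 / w 1, ?_⟩
      ext i; fin_cases i
      · simp; field_simp; linear_combination -h
      · simp; field_simp

/-- Vector decomposition in a basis -/
theorem cramer (v w u : Fin 2 → F) (h : cr v w ≠ 0) :
    u = (cr u w / cr v w) • v + (cr v u / cr v w) • w := by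
  set D := cr v w with hD
  ext i
  fin_cases i
  · simp only [Fin.zero_eta, Pi.add_apply, Pi.smul_apply, smul_eq_mul]
    field_simp
    rw [hD]; simp only [cr]; ring
  · simp only [Fin.mk_one, Pi.add_apply, Pi.smul_apply, smul_eq_mul]
    field_simp
    rw [hD]; simp only [cr]; ring

/-- The matrix with columns `v`, `w`. -/
def colMat (v w : Fin 2 → F) : Matrix (Fin 2) (Fin 2) F := !![v 0, w 0; v 1, w 1]

lemma det_colMat (v w : Fin 2 → F) : (colMat v w).det = cr v w := by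
  simp [colMat, cr, Matrix.det_fin_two]; ring

lemma colMat_mulVec (v w x : Fin 2 → F) : colMat v w *ᵥ x = x 0 • v + x 1 • w := by
  ext i; fin_cases i <;> simp [colMat, Matrix.mulVec, dotProduct, Fin.sum_univ_two] <;> ring

/-- The three standard vectors. -/
def e₁ : Fin 2 → F := ![1, 0]
def e₂ : Fin 2 → F := ![0, 1]
def e₃ : Fin 2 → F := ![1, 1]

lemma e₁_ne : (e₁ : Fin 2 → F) ≠ 0 := (ne_zero_iff _).2 (Or.inl (by simp [e₁]))
lemma e₂_ne : (e₂ : Fin 2 → F) ≠ 0 := (ne_zero_iff _).2 (Or.inr (by simp [e₂]))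
lemma e₃_ne : (e₃ : Fin 2 → F) ≠ 0 := (ne_zero_iff _).2 (Or.inl (by simp [e₃]))

/-- The standard triple of points. -/
noncomputable def std : Fin 3 → ℙ F (Fin 2 → F) := ![mk F e₁ e₁_ne, mk F e₂ e₂_ne, mk F e₃ e₃_ne]

/-- Any triple of independent vectors is an image of the standard triple. -/
theorem exists_GL_triple (v w u : Fin 2 → F) (hvw : cr v w ≠ 0) (huw : cr u w ≠ 0) (hvu : cr v u ≠ 0) :
    ∃ (g : GL (Fin 2) F) (a b : Fˣ), g • e₁ = (a : F) • v ∧ g • e₂ = (b : F) • w ∧ g • e₃ = u := by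
  set a : Fˣ := Units.mk0 (cr u w / cr v w) (div_ne_zero huw hvw) with ha
  set b : Fˣ := Units.mk0 (cr v u / cr v w) (div_ne_zero hvu hvw) with hb
  have hdet : (colMat ((a : F) • v) ((b : F) • w)).det ≠ 0 := by
    rw [det_colMat, cr_smul_left, cr_smul_right]
    exact mul_ne_zero a.ne_zero (mul_ne_zero b.ne_zero hvw)
  refine ⟨GeneralLinearGroup.mkOfDetNeZero _ hdet, a, b, ?_, ?_, ?_⟩
  · change colMat _ _ *ᵥ _ = _
    rw [colMat_mulVec]; simp [e₁]
  · change colMat _ _ *ᵥ _ = _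
    rw [colMat_mulVec]; simp [e₂]
  · change colMat _ _ *ᵥ _ = _
    rw [colMat_mulVec]
    simp only [e₃, Matrix.cons_val_zero, Matrix.cons_val_one, one_smul]
    exact (cramer v w u hvw).symm

lemma mk_smul_unit {v : Fin 2 → F} (hv : v ≠ 0) (a : Fˣ) (h) : mk F ((a : F) • v) h = mk F v hv := by
  rw [mk_eq_iff, cr_smul_left]
  simp [cr]; ring_nf

lemma cr_ne_of_ne {v w : Fin 2 → F} {hv : v ≠ 0} {hw : w ≠ 0} (h : mk F v hv ≠ mk F w hw) : cr v w ≠ 0 :=
  fun h0 ↦ h ((mk_eq_iff hv hw).2 h0)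

/-- Every triple of distinct points is the image of the standard one under some `g`. -/
theorem exists_GL_of_embedding (x : Fin 3 ↪ ℙ F (Fin 2 → F)) :
    ∃ g : GL (Fin 2) F, ∀ i, g • std i = x i := by
  obtain ⟨v, hv, hx0⟩ : ∃ v hv, x 0 = mk F v hv := ⟨_, _, (mk_rep (x 0)).symm⟩
  obtain ⟨w, hw, hx1⟩ : ∃ v hv, x 1 = mk F v hv := ⟨_, _, (mk_rep (x 1)).symm⟩
  obtain ⟨u, hu, hx2⟩ : ∃ v hv, x 2 = mk F v hv := ⟨_, _, (mk_rep (x 2)).symm⟩
  have h01 : x 0 ≠ x 1 := fun h ↦ absurd (x.injective h) (by decide)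
  have h02 : x 0 ≠ x 2 := fun h ↦ absurd (x.injective h) (by decide)
  have h21 : x 2 ≠ x 1 := fun h ↦ absurd (x.injective h) (by decide)
  rw [hx0, hx1] at h01
  rw [hx0, hx2] at h02
  rw [hx2, hx1] at h21
  obtain ⟨g, a, b, h1, h2, h3⟩ := exists_GL_triple v w u (cr_ne_of_ne h01) (cr_ne_of_ne h21) (cr_ne_of_ne h02)
  refine ⟨g, fun i ↦ ?_⟩
  fin_cases i
  · change g • mk F e₁ e₁_ne = x 0
    rw [hx0, smul_mk, ← mk_smul_unit hv a (by simpa using hv)]
    simp only [h1]
  · change g • mk F e₂ e₂_ne = x 1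
    rw [hx1, smul_mk, ← mk_smul_unit hw b (by simpa using hw)]
    simp only [h2]
  · change g • mk F e₃ e₃_ne = x 2
    rw [hx2, smul_mk]
    simp only [h3]

/-- An element of `GL_2` fixing three distinct points is scalar. -/
theorem scalar_of_fix_three (g : GL (Fin 2) F) (a b c : ℙ F (Fin 2 → F)) (hab : a ≠ b) (hac : a ≠ c) (hbc : b ≠ c)
    (h1 : g • a = a) (h2 : g • b = b) (h3 : g • c = c) :
    ∃ s : Fˣ, g = GeneralLinearGroup.scalar (Fin 2) s := by
  induction a using Projectivization.ind with | _ v hv => ?_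
  induction b using Projectivization.ind with | _ w hw => ?_
  induction c using Projectivization.ind with | _ u hu => ?_
  rw [smul_mk, mk_eq_mk_iff] at h1 h2 h3
  obtain ⟨l₁, hl₁⟩ := h1
  obtain ⟨l₂, hl₂⟩ := h2
  obtain ⟨l₃, hl₃⟩ := h3
  have hvw := cr_ne_of_ne hab
  have hvu := cr_ne_of_ne hac
  have hwu := cr_ne_of_ne hbc
  have huw : cr u w ≠ 0 := by rw [cr_comm]; exact neg_ne_zero.2 hwu
  have hdec := cramer v w u hvw
  set α := cr u w / cr v w with hα
  set β := cr v u / cr v w with hβ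
  have hα0 : α ≠ 0 := div_ne_zero huw hvw
  have hβ0 : β ≠ 0 := div_ne_zero hvu hvw
  have hgv : (g : Matrix (Fin 2) (Fin 2) F) *ᵥ v = (l₁ : F) • v := hl₁.symm
  have hgw : (g : Matrix (Fin 2) (Fin 2) F) *ᵥ w = (l₂ : F) • w := hl₂.symm
  have hgu : (g : Matrix (Fin 2) (Fin 2) F) *ᵥ u = (l₃ : F) • u := hl₃.symm
  have h4 : (l₃ : F) • u = (α * l₁) • v + (β * l₂) • w := by
    rw [← hgu]
    nth_rw 1 [hdec]
    rw [Matrix.mulVec_add, Matrix.mulVec_smul, Matrix.mulVec_smul, hgv, hgw, smul_smul, smul_smul]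
  have h5 : (l₃ : F) • (α • v + β • w) = (α * l₁) • v + (β * l₂) • w := by rw [← hdec]; exact h4
  have e1 : (l₃ : F) = l₁ := by
    have := congrArg (fun x ↦ cr x w) h5
    simp only [cr, Pi.add_apply, Pi.smul_apply, smul_eq_mul] at this
    have h6 : α * ((l₃ : F) - l₁) * cr v w = 0 := by simp only [cr]; linear_combination this
    have h7 := (mul_eq_zero.1 h6).resolve_right hvw
    exact sub_eq_zero.1 ((mul_eq_zero.1 h7).resolve_left hα0)
  have e2 : (l₃ : F) = l₂ := by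
    have := congrArg (fun x ↦ cr v x) h5
    simp only [cr, Pi.add_apply, Pi.smul_apply, smul_eq_mul] at this
    have h6 : β * ((l₃ : F) - l₂) * cr v w = 0 := by simp only [cr]; linear_combination this
    have h7 := (mul_eq_zero.1 h6).resolve_right hvw
    exact sub_eq_zero.1 ((mul_eq_zero.1 h7).resolve_left hβ0)
  have hall : ∀ x : Fin 2 → F, (g : Matrix (Fin 2) (Fin 2) F) *ᵥ x = (l₁ : F) • x := by
    intro x
    have hx := cramer v w x hvw
    nth_rw 1 [hx]
    rw [Matrix.mulVec_add, Matrix.mulVec_smul, Matrix.mulVec_smul, hgv, hgw, ← e2, e1]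
    nth_rw 3 [hx]
    simp only [smul_add, smul_smul, mul_comm]
  refine ⟨l₁, ?_⟩
  ext i j
  have := congrFun (hall (Pi.single j 1)) i
  simp only [Matrix.mulVec_single, MulOpposite.op_one, one_smul, Matrix.col_apply, Pi.smul_apply, smul_eq_mul] at this
  rw [this]
  simp [GeneralLinearGroup.coe_scalar, Matrix.scalar_apply, Matrix.diagonal_apply, Pi.single_apply]

lemma pgl_smul (g : GL (Fin 2) F) (p : ℙ F (Fin 2 → F)) : (ProjGenLinGroup.mk g) • p = g • p := by
  induction p using Projectivization.ind with | _ v hv => ?_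
  rw [PGL.mk_smul_mk, smul_mk]

/-- `PGL_2` is sharply 3-transitive, the transitivity half. -/
theorem isMultiplyPretransitive_PGL :
    MulAction.IsMultiplyPretransitive (ProjGenLinGroup (Fin 2) F) (ℙ F (Fin 2 → F)) 3 := by
  rw [MulAction.isMultiplyPretransitive_iff]
  intro x y
  obtain ⟨g, hg⟩ := exists_GL_of_embedding x
  obtain ⟨h, hh⟩ := exists_GL_of_embedding y
  refine ⟨ProjGenLinGroup.mk (h * g⁻¹), ?_⟩
  ext i
  simp only [Function.Embedding.smul_apply]
  rw [pgl_smul, ← hg, mul_smul, inv_smul_smul, hh]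

theorem eq_one_of_fix_three (g : ProjGenLinGroup (Fin 2) F) (a b c : ℙ F (Fin 2 → F)) (hab : a ≠ b)
    (hac : a ≠ c) (hbc : b ≠ c) (h1 : g • a = a) (h2 : g • b = b) (h3 : g • c = c) : g = 1 := by
  obtain ⟨g, rfl⟩ := ProjGenLinGroup.mk_surjective g
  rw [pgl_smul] at h1 h2 h3
  obtain ⟨s, rfl⟩ := scalar_of_fix_three g a b c hab hac hbc h1 h2 h3
  exact ProjGenLinGroup.mk_scalar s

/-- A matrix with square determinant is projectively equal to a matrix of determinant one -/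
theorem exists_SL_of_isSquare (g : GL (Fin 2) F) (hs : IsSquare (g : Matrix (Fin 2) (Fin 2) F).det) :
    ∃ h : SL(2, F), ∀ p : ℙ F (Fin 2 → F), h • p = g • p := by
  obtain ⟨s, hs⟩ := hs
  have hd : (g : Matrix (Fin 2) (Fin 2) F).det ≠ 0 := GeneralLinearGroup.det_ne_zero g
  have hs0 : s ≠ 0 := by
    rintro rfl
    exact hd (by simpa using hs)
  have hdet : (s⁻¹ • (g : Matrix (Fin 2) (Fin 2) F)).det = 1 := by
    rw [Matrix.det_smul, hs, Fintype.card_fin, ← sq, inv_pow]
    exact inv_mul_cancel₀ (pow_ne_zero 2 hs0)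
  let h : SL(2, F) := ⟨_, hdet⟩
  refine ⟨h, fun p ↦ ?_⟩
  induction p using Projectivization.ind with | _ v hv => ?_
  rw [smul_mk, smul_mk, mk_eq_mk_iff']
  refine ⟨s⁻¹, ?_⟩
  change s⁻¹ • ((g : Matrix (Fin 2) (Fin 2) F) *ᵥ v) = (s⁻¹ • (g : Matrix (Fin 2) (Fin 2) F)) *ᵥ v
  rw [Matrix.smul_mulVec]

/-- Embedding of a triple. -/
def emb3 {α : Type*} (a b c : α) (hab : a ≠ b) (hac : a ≠ c) (hbc : b ≠ c) : Fin 3 ↪ α :=
  ⟨![a, b, c], by
    intro i j h
    fin_cases i <;> fin_cases j <;> first | rfl | (simp at h; first | exact absurd h hab | exact absurd h hac | exact absurd h hbc | exact absurd h.symm hab | exact absurd h.symm hac | exact absurd h.symm hbc)⟩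

end Cfsg.Agent.Lib.ProjLine
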