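import Mathlib
import Cfsg.Prelude.Def_OddOrderLocal
import Cfsg.Agent.Lib.PGroupBasic
import Cfsg.Agent.Lib.H2Basic

/-!
# The Puig series
-/

set_option autoImplicit false
set_option linter.all false

namespace Cfsg.Agent.Lib.Puig

open Cfsg

variable {G : Type*} [Group G]

theorem step_anti {X Y : Subgroup G} (h : X ≤ Y) : puigStep Y ≤ puigStep X := by
  apply sSup_le_sSup
  rintro A ⟨h1, h2⟩
  exact ⟨h1, h.trans h2⟩

theorem le_step {X A : Subgroup G} (h1 : IsMulCommutative A) (h2 : X ≤ Subgroup.normalizer (A : Set G)) :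
    A ≤ puigStep X :=
  le_sSup ⟨h1, h2⟩

theorem seq_succ (n : ℕ) : puigSeq G (n + 1) = puigStep (puigSeq G n) := rfl

theorem seq_zero : puigSeq G 0 = ⊥ := rfl

theorem seq_one : puigSeq G 1 = ⊤ := by
  rw [seq_succ, seq_zero, eq_top_iff]
  intro x _
  have h1 : Subgroup.zpowers x ≤ puigStep (⊥ : Subgroup G) := by
    refine le_step ?_ bot_le
    constructor
    constructor
    rintro ⟨_, a, rfl⟩ ⟨_, b, rfl⟩
    apply Subtype.ext
    show x ^ a * x ^ b = x ^ b * x ^ a
    rw [← zpow_add, ← zpow_add, add_comm]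
  exact h1 (Subgroup.mem_zpowers x)

theorem even_le_odd_succ (n : ℕ) :
    puigSeq G (2 * n) ≤ puigSeq G (2 * n + 1) ∧ puigSeq G (2 * n + 2) ≤ puigSeq G (2 * n + 1) := by
  induction n with
  | zero =>
    have h1 : puigSeq G (2 * 0 + 1) = ⊤ := seq_one
    rw [h1]
    exact ⟨le_top, le_top⟩
  | succ n ih =>
    have e1 : 2 * (n + 1) = 2 * n + 2 := by ring
    have h2 : puigSeq G (2 * n + 2) ≤ puigSeq G (2 * n + 3) := step_anti ih.2
    have h3 : puigSeq G (2 * n + 4) ≤ puigSeq G (2 * n + 3) := step_anti h2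
    rw [e1]
    exact ⟨h2, h3⟩

theorem even_mono (n : ℕ) : puigSeq G (2 * n) ≤ puigSeq G (2 * n + 2) := by
  induction n with
  | zero =>
    have : puigSeq G (2 * 0) = ⊥ := rfl
    rw [this]
    exact bot_le
  | succ n ih =>
    have h1 : puigSeq G (2 * n + 3) ≤ puigSeq G (2 * n + 1) := step_anti ih
    have h2 : puigSeq G (2 * n + 2) ≤ puigSeq G (2 * n + 4) := step_anti h1
    exact h2

theorem odd_anti (n : ℕ) : puigSeq G (2 * n + 3) ≤ puigSeq G (2 * n + 1) :=
  step_anti (even_mono n)

theorem monotone_even : Monotone fun n => puigSeq G (2 * n) :=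
  monotone_nat_of_le_succ even_mono

theorem antitone_odd : Antitone fun n => puigSeq G (2 * n + 1) :=
  antitone_nat_of_succ_le odd_anti

theorem even_le_odd (n m : ℕ) : puigSeq G (2 * n) ≤ puigSeq G (2 * m + 1) := by
  have h1 := monotone_even (G := G) (le_max_left n m)
  have h2 := antitone_odd (G := G) (le_max_right n m)
  exact h1.trans ((even_le_odd_succ _).1.trans h2)

variable [Finite G]

theorem stable : ∃ k : ℕ, ∀ n : ℕ, k ≤ n → puigSeq G (2 * n) = puigLower G ∧ puigSeq G (2 * n + 1) = puigSubgroup G := by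
  obtain ⟨k₁, h₁⟩ := WellFoundedGT.monotone_chain_condition (α := Subgroup G) ⟨_, monotone_even (G := G)⟩
  obtain ⟨k₂, h₂⟩ := WellFoundedGT.monotone_chain_condition (α := (Subgroup G)ᵒᵈ)
    ⟨fun n => OrderDual.toDual (puigSeq G (2 * n + 1)), fun a b h => antitone_odd (G := G) h⟩
  refine ⟨max k₁ k₂, fun n hn => ⟨?_, ?_⟩⟩
  · apply le_antisymm
    · exact le_iSup (fun n => puigSeq G (2 * n)) n
    · refine iSup_le fun m => ?_
      rcases le_total m n with h | h
      · exact monotone_even h
      · have e1 : puigSeq G (2 * k₁) = puigSeq G (2 * n) := h₁ n ((le_max_left _ _).trans hn)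
        have e2 : puigSeq G (2 * k₁) = puigSeq G (2 * m) := h₁ m ((le_max_left _ _).trans (hn.trans h))
        rw [← e2, e1]
  · apply le_antisymm
    · refine le_iInf fun m => ?_
      rcases le_total m n with h | h
      · exact antitone_odd h
      · have e1 : puigSeq G (2 * k₂ + 1) = puigSeq G (2 * n + 1) := h₂ n ((le_max_right _ _).trans hn)
        have e2 : puigSeq G (2 * k₂ + 1) = puigSeq G (2 * m + 1) := h₂ m ((le_max_right _ _).trans (hn.trans h))
        rw [← e1, e2]
    · exact iInf_le (fun n => puigSeq G (2 * n + 1)) n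

theorem lower_le : puigLower G ≤ puigSubgroup G :=
  iSup_le fun n => le_iInf fun m => even_le_odd n m

theorem step_lower : puigStep (puigLower G) = puigSubgroup G := by
  obtain ⟨k, hk⟩ := stable (G := G)
  rw [← (hk k le_rfl).1, ← (hk k le_rfl).2]
  rfl

theorem step_upper : puigStep (puigSubgroup G) = puigLower G := by
  obtain ⟨k, hk⟩ := stable (G := G)
  rw [← (hk k le_rfl).2, ← (hk (k + 1) (Nat.le_succ k)).1]
  rfl

omit [Finite G] in
/-- The step of a normal subgroup is normal. -/
theorem step_normal {X : Subgroup G} (hX : X.Normal) : (puigStep X).Normal := by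
  constructor
  intro y hy g
  have h1 : (puigStep X).map (MulAut.conj g).toMonoidHom ≤ puigStep X := by
    rw [puigStep, Subgroup.map_le_iff_le_comap, sSup_le_iff]
    rintro A ⟨hA1, hA2⟩
    rw [← Subgroup.map_le_iff_le_comap]
    refine le_step ?_ ?_
    · constructor
      constructor
      rintro ⟨_, a, ha, rfl⟩ ⟨_, b, hb, rfl⟩
      apply Subtype.ext
      have := hA1.is_comm.comm ⟨a, ha⟩ ⟨b, hb⟩
      have h2 : a * b = b * a := congrArg Subtype.val this
      show (MulAut.conj g).toMonoidHom a * (MulAut.conj g).toMonoidHom b = (MulAut.conj g).toMonoidHom b * (MulAut.conj g).toMonoidHom a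
      rw [← map_mul, ← map_mul, h2]
    · intro x hx
      rw [Subgroup.mem_normalizer_iff]
      intro z
      have hx' : g⁻¹ * x * g ∈ X := by
        have := hX.conj_mem x hx g⁻¹
        simpa using this
      rw [Cfsg.Agent.Lib.H2Basic.mem_map_conj_iff, Cfsg.Agent.Lib.H2Basic.mem_map_conj_iff]
      have e : g⁻¹ * (x * z * x⁻¹) * g = (g⁻¹ * x * g) * (g⁻¹ * z * g) * (g⁻¹ * x * g)⁻¹ := by group
      rw [e]
      exact Subgroup.mem_normalizer_iff.1 (hA2 hx') _
  exact h1 ⟨y, hy, rfl⟩

omit [Finite G] in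
theorem seq_normal (n : ℕ) : (puigSeq G n).Normal := by
  induction n with
  | zero => exact (inferInstance : (⊥ : Subgroup G).Normal)
  | succ n ih => exact step_normal ih

section PGroup

variable {p : ℕ} [hp : Fact p.Prime]

omit [Finite G] in
theorem comm_sup {U V : Subgroup G} (hU : ∀ a ∈ U, ∀ b ∈ U, a * b = b * a)
    (hV : ∀ a ∈ V, ∀ b ∈ V, a * b = b * a) (hUV : ∀ a ∈ U, ∀ b ∈ V, a * b = b * a) :
    ∀ a ∈ U ⊔ V, ∀ b ∈ U ⊔ V, a * b = b * a := by
  intro a ha b hb
  have h1 : U ⊔ V ≤ Subgroup.centralizer (U : Set G) := sup_le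
    (fun c hc => Subgroup.mem_centralizer_iff.2 fun d hd => hU d hd c hc)
    (fun c hc => Subgroup.mem_centralizer_iff.2 fun d hd => hUV d hd c hc)
  have h2 : U ⊔ V ≤ Subgroup.centralizer (V : Set G) := sup_le
    (fun c hc => Subgroup.mem_centralizer_iff.2 fun d hd => (hUV c hc d hd).symm)
    (fun c hc => Subgroup.mem_centralizer_iff.2 fun d hd => hV d hd c hc)
  have h3 : U ⊔ V ≤ Subgroup.centralizer ({b} : Set G) := sup_le
    (fun c hc => Subgroup.mem_centralizer_iff.2 fun d hd => by
      rw [Set.mem_singleton_iff] at hd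
      subst hd
      exact (Subgroup.mem_centralizer_iff.1 (h1 hb) c hc).symm)
    (fun c hc => Subgroup.mem_centralizer_iff.2 fun d hd => by
      rw [Set.mem_singleton_iff] at hd
      subst hd
      exact (Subgroup.mem_centralizer_iff.1 (h2 hb) c hc).symm)
  exact (Subgroup.mem_centralizer_iff.1 (h3 ha) b rfl).symm

/-- The key property: for a normal term of the Puig series in a `p`-group, the centralizer lies in it. -/
theorem centralizer_step_le (hG : IsPGroup p G) {X : Subgroup G} (hL : (puigStep X).Normal) :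
    Subgroup.centralizer ((puigStep X : Subgroup G) : Set G) ≤ puigStep X := by
  classical
  set L := puigStep X with hLdef
  set C := Subgroup.centralizer (L : Set G) with hCdef
  haveI hLn : L.Normal := hL
  haveI hCn : C.Normal := Subgroup.normal_centralizer
  by_contra hcon
  have hQ : IsPGroup p (G ⧸ L) := hG.to_quotient L
  let D : Subgroup (G ⧸ L) := C.map (QuotientGroup.mk' L)
  haveI hDn : D.Normal := Subgroup.Normal.map hCn _ (QuotientGroup.mk'_surjective L)
  have hD : D ≠ ⊥ := by
    intro h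
    apply hcon
    intro c hc
    have h1 : (QuotientGroup.mk' L) c ∈ D := ⟨c, hc, rfl⟩
    rw [h, Subgroup.mem_bot] at h1
    exact (QuotientGroup.eq_one_iff c).1 h1
  obtain ⟨y, hyD, hy1, hyZ⟩ := Cfsg.Agent.Lib.PGroupBasic.exists_ne_one_mem_center_of_normal hQ D hD
  obtain ⟨x, hxC, rfl⟩ := hyD
  have hxL : x ∉ L := by
    intro h
    apply hy1
    exact (QuotientGroup.eq_one_iff x).2 h
  have hcomm : ∀ g : G, x⁻¹ * (g * x * g⁻¹) ∈ L := by
    intro g
    have h1 := Subgroup.mem_center_iff.1 hyZ (QuotientGroup.mk' L g)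
    have h2 : (QuotientGroup.mk' L) (g * x * g⁻¹) = (QuotientGroup.mk' L) x := by
      rw [map_mul, map_mul, h1, map_inv]
      group
    exact QuotientGroup.eq.1 h2.symm
  let Z : Subgroup G := L ⊓ C
  have hZn : Z.Normal := Subgroup.normal_inf_normal L C
  let A : Subgroup G := Subgroup.zpowers x ⊔ Z
  have hAc := comm_sup (U := Subgroup.zpowers x) (V := Z) (by
      rintro _ ⟨a, rfl⟩ _ ⟨b, rfl⟩
      show x ^ a * x ^ b = x ^ b * x ^ a
      rw [← zpow_add, ← zpow_add, add_comm])
    (fun a ha b hb => Subgroup.mem_centralizer_iff.1 hb.2 a ha.1)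
    (by
      rintro _ ⟨a, rfl⟩ b hb
      have h1 : b * x = x * b := Subgroup.mem_centralizer_iff.1 hxC b hb.1
      exact ((show Commute b x from h1).zpow_right a).symm.eq)
  have hAn : A.Normal := by
    constructor
    intro a ha g
    have hle : A ≤ A.comap (MulAut.conj g).toMonoidHom := by
      refine sup_le ?_ ?_
      · rw [Subgroup.zpowers_le]
        show g * x * g⁻¹ ∈ A
        have e : g * x * g⁻¹ = x * (x⁻¹ * (g * x * g⁻¹)) := by group
        rw [e]
        refine A.mul_mem ((le_sup_left : Subgroup.zpowers x ≤ A) (Subgroup.mem_zpowers x)) ?_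
        refine (le_sup_right : Z ≤ A) ⟨hcomm g, C.mul_mem (C.inv_mem hxC) (hCn.conj_mem x hxC g)⟩
      · intro z hz
        exact (le_sup_right : Z ≤ A) (hZn.conj_mem z hz g)
    exact hle ha
  have h5 : A ≤ L := le_step ⟨⟨fun a b => Subtype.ext (hAc a a.2 b b.2)⟩⟩ (by
    rw [Subgroup.normalizer_eq_top_iff.2 hAn]
    exact le_top)
  exact hxL (h5 ((le_sup_left : Subgroup.zpowers x ≤ A) (Subgroup.mem_zpowers x)))

theorem centralizer_seq_le (hG : IsPGroup p G) (i : ℕ) (hi : 0 < i) :
    Subgroup.centralizer ((puigSeq G i : Subgroup G) : Set G) ≤ puigSeq G i := by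
  obtain ⟨j, rfl⟩ : ∃ j, i = j + 1 := ⟨i - 1, by omega⟩
  exact centralizer_step_le hG (seq_normal (j + 1))

theorem main (hG : IsPGroup p G) [Nontrivial G] :
    (∀ i : ℕ, 0 < i → Subgroup.center G ≤ Subgroup.centralizer ((puigSeq G i : Subgroup G) : Set G) ∧
        Subgroup.centralizer ((puigSeq G i : Subgroup G) : Set G) ≤ puigSeq G i) ∧
      (Subgroup.center G ≤ Subgroup.centralizer ((puigLower G : Subgroup G) : Set G) ∧
        Subgroup.centralizer ((puigLower G : Subgroup G) : Set G) ≤ puigLower G) ∧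
      (Subgroup.center G ≤ Subgroup.centralizer ((puigSubgroup G : Subgroup G) : Set G) ∧
        Subgroup.centralizer ((puigSubgroup G : Subgroup G) : Set G) ≤ puigSubgroup G) ∧
      puigSubgroup G ≠ ⊥ ∧ puigLower G ≠ ⊥ := by
  have hz : ∀ S : Subgroup G, Subgroup.center G ≤ Subgroup.centralizer (S : Set G) := by
    intro S z hz
    exact Subgroup.mem_centralizer_iff.2 fun s _ => (Subgroup.mem_center_iff.1 hz s)
  obtain ⟨k, hk⟩ := stable (G := G)
  have h1 := hk (k + 1) (Nat.le_succ k)
  have hlower : puigLower G ≠ ⊥ := by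
    intro h
    have h2 : puigSeq G (2 * 1) ≤ puigLower G := le_iSup (fun n => puigSeq G (2 * n)) 1
    have h3 : Subgroup.center G ≤ puigSeq G (2 * 1) := by
      refine le_step ⟨⟨fun a b => Subtype.ext ?_⟩⟩ ?_
      · exact (Subgroup.mem_center_iff.1 b.2 a)
      · rw [Subgroup.normalizer_eq_top_iff.2 (inferInstance : (Subgroup.center G).Normal)]
        exact le_top
    have h4 := hG.center_nontrivial
    have h5 : Subgroup.center G = ⊥ := by
      rw [← le_bot_iff, ← h]
      exact h3.trans h2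
    rw [Subgroup.nontrivial_iff_ne_bot] at h4
    exact h4 h5
  refine ⟨fun i hi => ⟨hz _, centralizer_seq_le hG i hi⟩, ⟨hz _, ?_⟩, ⟨hz _, ?_⟩, ?_, hlower⟩
  · rw [← h1.1]
    exact centralizer_seq_le hG _ (by omega)
  · rw [← h1.2]
    exact centralizer_seq_le hG _ (by omega)
  · intro h
    apply hlower
    rw [← le_bot_iff, ← h]
    exact lower_le

end PGroup

end Cfsg.Agent.Lib.Puig
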