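import Mathlib
import Cfsg.Prelude
import Cfsg.Agent.Lib.Puig
import Cfsg.Agent.Lib.OddStable
import Cfsg.Agent.Lib.H2Basic
import Cfsg.Agent.Lib.ZJQuot
import Cfsg.Agent.Lib.PComps
import Cfsg.Agent.Lib.FitCore
import Cfsg.Agent.Lib.SolvCore
import Cfsg.Agent.Lib.PCore
import Cfsg.Agent.S1465

/-! The Puig series seen inside an ambient group, and the Puig centre in solvable groups of odd order. -/

set_option autoImplicit false
set_option linter.all false

namespace Cfsg.Agent.Lib.PuigOdd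

open Cfsg

universe u

section basic

variable {G : Type*} [Group G]

/-- The Puig step relative to a subgroup `U`, inside the ambient group. -/
def lstep (U X : Subgroup G) : Subgroup G :=
  sSup {A : Subgroup G | A ≤ U ∧ IsMulCommutative A ∧ X ≤ Subgroup.normalizer (A : Set G)}

/-- The Puig series of `U`, inside the ambient group. -/
def lseq (U : Subgroup G) : ℕ → Subgroup G
  | 0 => ⊥
  | n + 1 => lstep U (lseq U n)

theorem lseq_succ (U : Subgroup G) (n : ℕ) : lseq U (n + 1) = lstep U (lseq U n) := rfl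

theorem le_lstep {U X A : Subgroup G} (h1 : A ≤ U) (h2 : IsMulCommutative A)
    (h3 : X ≤ Subgroup.normalizer (A : Set G)) : A ≤ lstep U X :=
  le_sSup ⟨h1, h2, h3⟩

theorem lstep_anti {U X Y : Subgroup G} (h : X ≤ Y) : lstep U Y ≤ lstep U X :=
  sSup_le_sSup fun _ hA => ⟨hA.1, hA.2.1, h.trans hA.2.2⟩

theorem lstep_mono {U U' X : Subgroup G} (h : U ≤ U') : lstep U X ≤ lstep U' X :=
  sSup_le_sSup fun _ hA => ⟨hA.1.trans h, hA.2.1, hA.2.2⟩

theorem lstep_le (U X : Subgroup G) : lstep U X ≤ U := sSup_le fun _ hA => hA.1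

theorem lseq_le (U : Subgroup G) : ∀ n, lseq U n ≤ U
  | 0 => bot_le
  | _ + 1 => lstep_le _ _

theorem lseq_one (U : Subgroup G) : lseq U 1 = U := by
  apply le_antisymm (lseq_le U 1)
  intro u hu
  have h1 : Subgroup.zpowers u ≤ lstep U (lseq U 0) := by
    refine le_lstep (Subgroup.zpowers_le.2 hu) ?_ ?_
    · refine ⟨⟨?_⟩⟩
      rintro ⟨_, a, rfl⟩ ⟨_, b, rfl⟩
      apply Subtype.ext
      show u ^ a * u ^ b = u ^ b * u ^ a
      rw [← zpow_add, ← zpow_add, add_comm]
    · show (⊥ : Subgroup G) ≤ _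
      exact bot_le
  exact h1 (Subgroup.mem_zpowers u)

theorem lstep_top (X : Subgroup G) : lstep (⊤ : Subgroup G) X = puigStep X := by
  unfold lstep puigStep
  congr 1
  ext A
  simp

theorem lseq_top (n : ℕ) : lseq (⊤ : Subgroup G) n = puigSeq G n := by
  induction n with
  | zero => rfl
  | succ n ih =>
    rw [lseq_succ, ih, lstep_top]
    rfl

variable {G' : Type*} [Group G']

theorem map_lstep (f : G →* G') {U X : Subgroup G} (hf : ∀ a ∈ U, ∀ b ∈ U, f a = f b → a = b)
    (hX : X ≤ U) : (lstep U X).map f = lstep (U.map f) (X.map f) := by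
  apply le_antisymm
  · rw [Subgroup.map_le_iff_le_comap]
    refine sSup_le ?_
    rintro A ⟨h1, h2, h3⟩ a ha
    have h4 : A.map f ≤ lstep (U.map f) (X.map f) := by
      refine le_lstep (Subgroup.map_mono h1) ?_ ?_
      · refine ⟨⟨?_⟩⟩
        rintro ⟨_, x, hx, rfl⟩ ⟨_, y, hy, rfl⟩
        apply Subtype.ext
        have h5 : (⟨x, hx⟩ : A) * ⟨y, hy⟩ = ⟨y, hy⟩ * ⟨x, hx⟩ := h2.is_comm.comm _ _
        have h6 : x * y = y * x := congrArg Subtype.val h5
        show f x * f y = f y * f x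
        rw [← map_mul, ← map_mul, h6]
      · exact (Subgroup.map_mono h3).trans (Subgroup.le_normalizer_map f)
    exact h4 ⟨a, ha, rfl⟩
  · refine sSup_le ?_
    rintro A' ⟨h1, h2, h3⟩
    let A : Subgroup G := A'.comap f ⊓ U
    have hmap : A.map f = A' := by
      apply le_antisymm
      · rintro _ ⟨a, ha, rfl⟩
        exact ha.1
      · intro y hy
        obtain ⟨u, hu, rfl⟩ := h1 hy
        exact ⟨u, ⟨hy, hu⟩, rfl⟩
    have hAc : IsMulCommutative A := by
      refine ⟨⟨?_⟩⟩
      rintro ⟨a, ha⟩ ⟨b, hb⟩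
      apply Subtype.ext
      show a * b = b * a
      apply hf _ (U.mul_mem ha.2 hb.2) _ (U.mul_mem hb.2 ha.2)
      have h5 : (⟨f a, ha.1⟩ : A') * ⟨f b, hb.1⟩ = ⟨f b, hb.1⟩ * ⟨f a, ha.1⟩ := h2.is_comm.comm _ _
      have h6 : f a * f b = f b * f a := congrArg Subtype.val h5
      rw [map_mul, map_mul, h6]
    have hN : X ≤ Subgroup.normalizer (A : Set G) := by
      intro x hx
      have hxU := hX hx
      have hfx : f x ∈ Subgroup.normalizer (A' : Set G') := h3 ⟨x, hx, rfl⟩
      rw [Subgroup.mem_normalizer_iff]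
      intro h
      have hfx2 := Subgroup.mem_normalizer_iff.1 hfx (f h)
      constructor
      · intro hh
        refine ⟨?_, U.mul_mem (U.mul_mem hxU hh.2) (U.inv_mem hxU)⟩
        show f (x * h * x⁻¹) ∈ A'
        rw [map_mul, map_mul, map_inv]
        exact hfx2.1 hh.1
      · intro hh
        have e : h = x⁻¹ * (x * h * x⁻¹) * x := by group
        refine ⟨?_, ?_⟩
        · apply hfx2.2
          have := hh.1
          show f x * f h * (f x)⁻¹ ∈ A'
          have e2 : f (x * h * x⁻¹) = f x * f h * (f x)⁻¹ := by rw [map_mul, map_mul, map_inv]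
          rw [← e2]
          exact this
        · rw [e]
          exact U.mul_mem (U.mul_mem (U.inv_mem hxU) hh.2) hxU
    rw [← hmap]
    exact Subgroup.map_mono (le_lstep inf_le_right hAc hN)

theorem map_lseq (f : G →* G') {U : Subgroup G} (hf : ∀ a ∈ U, ∀ b ∈ U, f a = f b → a = b) (n : ℕ) :
    (lseq U n).map f = lseq (U.map f) n := by
  induction n with
  | zero => exact Subgroup.map_bot f
  | succ n ih => rw [lseq_succ, lseq_succ, map_lstep f hf (lseq_le U n), ih]

theorem coe_lseq (U : Subgroup G) (n : ℕ) : (puigSeq ↥U n).map U.subtype = lseq U n := by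
  rw [← lseq_top, map_lseq U.subtype (fun a _ b _ h => Subtype.ext h)]
  congr 1
  ext x
  simp

/-- `L_*(U)` inside the ambient group. -/
def Llow (U : Subgroup G) : Subgroup G := (puigLower ↥U).map U.subtype

/-- `L(U)` inside the ambient group. -/
def Lup (U : Subgroup G) : Subgroup G := (puigSubgroup ↥U).map U.subtype

/-- `Z(L(U))` inside the ambient group. -/
def ZL (U : Subgroup G) : Subgroup G := Lup U ⊓ Subgroup.centralizer (Lup U : Set G)

theorem coe_center (U : Subgroup G) :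
    ((Subgroup.center ↥(puigSubgroup ↥U)).map (puigSubgroup ↥U).subtype).map U.subtype = ZL U := by
  ext x
  constructor
  · rintro ⟨_, ⟨y, hy, rfl⟩, rfl⟩
    refine ⟨⟨y.1, y.2, rfl⟩, Subgroup.mem_centralizer_iff.2 ?_⟩
    rintro _ ⟨z, hz, rfl⟩
    have h1 := Subgroup.mem_center_iff.1 hy ⟨z, hz⟩
    have h2 := congrArg (fun w : ↥(puigSubgroup ↥U) => ((w : ↥U) : G)) h1
    exact h2
  · rintro ⟨⟨y, hy, rfl⟩, h⟩
    refine ⟨y, ⟨⟨y, hy⟩, Subgroup.mem_center_iff.2 ?_, rfl⟩, rfl⟩
    rintro ⟨z, hz⟩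
    apply Subtype.ext
    apply Subtype.ext
    exact Subgroup.mem_centralizer_iff.1 h (z : G) ⟨z, hz, rfl⟩

theorem Llow_le_Lup (U : Subgroup G) [Finite U] : Llow U ≤ Lup U :=
  Subgroup.map_mono Cfsg.Agent.Lib.Puig.lower_le

theorem Lup_le (U : Subgroup G) : Lup U ≤ U := by
  rintro _ ⟨y, -, rfl⟩
  exact y.2

theorem Llow_le (U : Subgroup G) : Llow U ≤ U := by
  rintro _ ⟨y, -, rfl⟩
  exact y.2

theorem stable' (U : Subgroup G) [Finite U] :
    ∃ k : ℕ, ∀ n : ℕ, k ≤ n → lseq U (2 * n) = Llow U ∧ lseq U (2 * n + 1) = Lup U := by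
  obtain ⟨k, hk⟩ := Cfsg.Agent.Lib.Puig.stable (G := ↥U)
  refine ⟨k, fun n hn => ?_⟩
  rw [← coe_lseq, ← coe_lseq, (hk n hn).1, (hk n hn).2]
  exact ⟨rfl, rfl⟩

theorem lstep_low (U : Subgroup G) [Finite U] : lstep U (Llow U) = Lup U := by
  obtain ⟨k, hk⟩ := stable' U
  rw [← (hk k le_rfl).1, ← (hk k le_rfl).2]
  rfl

theorem lstep_up (U : Subgroup G) [Finite U] : lstep U (Lup U) = Llow U := by
  obtain ⟨k, hk⟩ := stable' U
  rw [← (hk k le_rfl).2, ← (hk (k + 1) (Nat.le_succ k)).1]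
  rfl

theorem extremal (U : Subgroup G) [Finite U] {X X' : Subgroup G} (h1 : lstep U X = X') (h2 : lstep U X' = X) :
    Llow U ≤ X ∧ X' ≤ Lup U := by
  have key : ∀ n : ℕ, lseq U (2 * n) ≤ X ∧ X' ≤ lseq U (2 * n + 1) := by
    intro n
    induction n with
    | zero =>
      refine ⟨bot_le, ?_⟩
      show X' ≤ lseq U 1
      rw [lseq_one, ← h1]
      exact lstep_le _ _
    | succ n ih =>
      have e1 : lseq U (2 * (n + 1)) ≤ X := by
        have : lseq U (2 * (n + 1)) = lstep U (lseq U (2 * n + 1)) := rfl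
        rw [this, ← h2]
        exact lstep_anti ih.2
      refine ⟨e1, ?_⟩
      have : lseq U (2 * (n + 1) + 1) = lstep U (lseq U (2 * (n + 1))) := rfl
      rw [this, ← h1]
      exact lstep_anti e1
  obtain ⟨k, hk⟩ := stable' U
  have := key k
  rwa [(hk k le_rfl).1, (hk k le_rfl).2] at this

theorem lseq_even_le (U : Subgroup G) [Finite U] (n : ℕ) : lseq U (2 * n) ≤ Llow U := by
  rw [← coe_lseq]
  exact Subgroup.map_mono (le_iSup (fun n => puigSeq ↥U (2 * n)) n)

theorem Lup_le_odd (U : Subgroup G) [Finite U] (n : ℕ) : Lup U ≤ lseq U (2 * n + 1) := by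
  rw [← coe_lseq]
  exact Subgroup.map_mono (iInf_le (fun n => puigSeq ↥U (2 * n + 1)) n)

/-- Shrinking `U` while keeping `L(U)` does not change `L(U)`. -/
theorem sub_eq {S S₀ : Subgroup G} [Finite S] [Finite S₀] (h : S₀ ≤ S) (hL : Lup S ≤ S₀) : Lup S₀ = Lup S := by
  have h1 : lstep S₀ (Llow S) = Lup S := by
    apply le_antisymm
    · rw [← lstep_low S]
      exact lstep_mono h
    · conv_lhs => rw [← lstep_low S]
      refine sSup_le ?_
      rintro A ⟨h1, h2, h3⟩
      have h4 : A ≤ Lup S := by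
        rw [← lstep_low S]
        exact le_lstep h1 h2 h3
      exact le_lstep (h4.trans hL) h2 h3
  have h2 : lstep S₀ (Lup S) = Llow S := by
    apply le_antisymm
    · rw [← lstep_up S]
      exact lstep_mono h
    · conv_lhs => rw [← lstep_up S]
      refine sSup_le ?_
      rintro A ⟨h1, h2, h3⟩
      have h4 : A ≤ Llow S := by
        rw [← lstep_up S]
        exact le_lstep h1 h2 h3
      exact le_lstep (h4.trans ((Llow_le_Lup S).trans hL)) h2 h3
  apply le_antisymm
  · have key : ∀ n : ℕ, lseq S (2 * n) ≤ lseq S₀ (2 * n) ∧ lseq S₀ (2 * n + 1) ≤ lseq S (2 * n + 1) := by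
      intro n
      induction n with
      | zero =>
        refine ⟨bot_le, ?_⟩
        show lseq S₀ 1 ≤ lseq S 1
        rw [lseq_one, lseq_one]
        exact h
      | succ n ih =>
        have e1 : lseq S (2 * (n + 1)) ≤ lseq S₀ (2 * (n + 1)) := by
          have e2 : lseq S (2 * (n + 1)) = lstep S (lseq S (2 * n + 1)) := rfl
          have e3 : lseq S₀ (2 * (n + 1)) = lstep S₀ (lseq S₀ (2 * n + 1)) := rfl
          have e4 := lseq_even_le S (n + 1)
          rw [e3]
          rw [e2] at e4 ⊢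
          refine sSup_le ?_
          rintro A ⟨a1, a2, a3⟩
          have h4 : A ≤ lstep S (lseq S (2 * n + 1)) := le_lstep a1 a2 a3
          exact le_lstep ((h4.trans e4).trans ((Llow_le_Lup S).trans hL)) a2 (ih.2.trans a3)
        refine ⟨e1, ?_⟩
        have e5 : lseq S₀ (2 * (n + 1) + 1) = lstep S₀ (lseq S₀ (2 * (n + 1))) := rfl
        have e6 : lseq S (2 * (n + 1) + 1) = lstep S (lseq S (2 * (n + 1))) := rfl
        rw [e5, e6]
        exact (lstep_anti e1).trans (lstep_mono h)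
    obtain ⟨k₁, hk₁⟩ := stable' S
    obtain ⟨k₂, hk₂⟩ := stable' S₀
    have h5 := (key (max k₁ k₂)).2
    rwa [(hk₁ _ (le_max_left _ _)).2, (hk₂ _ (le_max_right _ _)).2] at h5
  · exact (extremal S₀ h1 h2).2

/-- The map of `L(U)` under a homomorphism injective on `U`. -/
theorem map_Lup (f : G →* G') {U : Subgroup G} [Finite U] [Finite (U.map f)] (hf : ∀ a ∈ U, ∀ b ∈ U, f a = f b → a = b) :
    (Lup U).map f = Lup (U.map f) := by
  obtain ⟨k₁, hk₁⟩ := stable' U
  obtain ⟨k₂, hk₂⟩ := stable' (U.map f)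
  rw [← (hk₁ (max k₁ k₂) (le_max_left _ _)).2, ← (hk₂ (max k₁ k₂) (le_max_right _ _)).2, map_lseq f hf]

theorem map_ZL (f : G →* G') {U : Subgroup G} [Finite U] [Finite (U.map f)] (hf : ∀ a ∈ U, ∀ b ∈ U, f a = f b → a = b) :
    (ZL U).map f = ZL (U.map f) := by
  have hL := map_Lup f hf
  ext y
  constructor
  · rintro ⟨x, ⟨hx1, hx2⟩, rfl⟩
    refine ⟨?_, ?_⟩
    · show f x ∈ Lup (U.map f)
      rw [← hL]
      exact ⟨x, hx1, rfl⟩
    · refine Subgroup.mem_centralizer_iff.2 ?_
      intro z hz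
      have hz' : z ∈ (Lup U).map f := by
        rw [hL]
        exact hz
      obtain ⟨l, hl, rfl⟩ := hz'
      rw [← map_mul, ← map_mul, Subgroup.mem_centralizer_iff.1 hx2 l hl]
  · rintro ⟨h1, h2⟩
    have h1' : y ∈ (Lup U).map f := by
      rw [hL]
      exact h1
    obtain ⟨x, hx, rfl⟩ := h1'
    refine ⟨x, ⟨hx, Subgroup.mem_centralizer_iff.2 ?_⟩, rfl⟩
    intro l hl
    have hlf : f l ∈ Lup (U.map f) := by
      rw [← hL]
      exact ⟨l, hl, rfl⟩
    have h3 := Subgroup.mem_centralizer_iff.1 h2 (f l) hlf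
    have hxU := Lup_le U hx
    have hlU := Lup_le U hl
    apply hf _ (U.mul_mem hlU hxU) _ (U.mul_mem hxU hlU)
    rw [map_mul, map_mul, h3]

/-- Elements normalizing `U` normalize the terms of its Puig series. -/
theorem mem_normalizer_lseq {U : Subgroup G} {g : G} (hg : g ∈ Subgroup.normalizer (U : Set G)) (n : ℕ) :
    g ∈ Subgroup.normalizer (lseq U n : Set G) := by
  apply Cfsg.Agent.Lib.H2Basic.mem_normalizer_of_map_conj_eq
  have h1 := Cfsg.Agent.Lib.H2Basic.map_conj_eq_of_mem_normalizer hg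
  have h2 := map_lseq (MulAut.conj g).toMonoidHom (U := U) (fun a _ b _ h => (MulAut.conj g).injective h) n
  rw [h1] at h2
  exact h2

theorem mem_normalizer_Lup {U : Subgroup G} [Finite U] {g : G} (hg : g ∈ Subgroup.normalizer (U : Set G)) :
    g ∈ Subgroup.normalizer (Lup U : Set G) := by
  obtain ⟨k, hk⟩ := stable' U
  rw [← (hk k le_rfl).2]
  exact mem_normalizer_lseq hg _

theorem mem_normalizer_Llow {U : Subgroup G} [Finite U] {g : G} (hg : g ∈ Subgroup.normalizer (U : Set G)) :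
    g ∈ Subgroup.normalizer (Llow U : Set G) := by
  obtain ⟨k, hk⟩ := stable' U
  rw [← (hk k le_rfl).1]
  exact mem_normalizer_lseq hg _

theorem mem_normalizer_ZL {U : Subgroup G} [Finite U] {g : G} (hg : g ∈ Subgroup.normalizer (U : Set G)) :
    g ∈ Subgroup.normalizer (ZL U : Set G) := by
  have h1 := mem_normalizer_Lup hg
  rw [Subgroup.mem_normalizer_iff]
  intro x
  have h2 := Subgroup.mem_normalizer_iff.1 h1
  constructor
  · rintro ⟨a, b⟩
    refine ⟨(h2 x).1 a, Subgroup.mem_centralizer_iff.2 ?_⟩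
    have b := Subgroup.mem_centralizer_iff.1 b
    intro y hy
    have e1 : g⁻¹ * y * g ∈ Lup U := by
      have := (h2 (g⁻¹ * y * g)).2
      apply this
      have e : g * (g⁻¹ * y * g) * g⁻¹ = y := by group
      rw [e]
      exact hy
    have e2 := b _ e1
    have e3 : y = g * (g⁻¹ * y * g) * g⁻¹ := by group
    rw [e3]
    calc g * (g⁻¹ * y * g) * g⁻¹ * (g * x * g⁻¹) = g * ((g⁻¹ * y * g) * x) * g⁻¹ := by group
      _ = g * (x * (g⁻¹ * y * g)) * g⁻¹ := by rw [e2]
      _ = _ := by group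
  · rintro ⟨a, b⟩
    refine ⟨(h2 x).2 a, Subgroup.mem_centralizer_iff.2 ?_⟩
    have b := Subgroup.mem_centralizer_iff.1 b
    intro y hy
    have e1 : g * y * g⁻¹ ∈ Lup U := (h2 y).1 hy
    have e2 := b _ e1
    have e3 : g * (y * x) * g⁻¹ = g * (x * y) * g⁻¹ := by
      calc g * (y * x) * g⁻¹ = g * y * g⁻¹ * (g * x * g⁻¹) := by group
        _ = g * x * g⁻¹ * (g * y * g⁻¹) := e2
        _ = _ := by group
    have e4 := mul_right_cancel e3
    exact mul_left_cancel e4

theorem isPGroup_ZL {p : ℕ} {U : Subgroup G} (hU : IsPGroup p U) : IsPGroup p (ZL U) :=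
  hU.to_le (inf_le_left.trans (Lup_le U))

variable {p : ℕ} [hpp : Fact p.Prime]

theorem cent_lseq {U : Subgroup G} [Finite U] (hU : IsPGroup p U) (i : ℕ) (hi : 0 < i) :
    U ⊓ Subgroup.centralizer (lseq U i : Set G) ≤ lseq U i := by
  rintro x ⟨hx1, hx2⟩
  rw [← coe_lseq]
  have h1 : (⟨x, hx1⟩ : ↥U) ∈ Subgroup.centralizer ((puigSeq ↥U i : Subgroup ↥U) : Set ↥U) := by
    rw [Subgroup.mem_centralizer_iff]
    intro y hy
    apply Subtype.ext
    have hy' : (y : G) ∈ lseq U i := by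
      rw [← coe_lseq]
      exact ⟨y, hy, rfl⟩
    exact Subgroup.mem_centralizer_iff.1 hx2 _ hy'
  have h2 := Cfsg.Agent.Lib.Puig.centralizer_seq_le (p := p) hU i hi h1
  exact ⟨⟨x, hx1⟩, h2, rfl⟩

theorem cent_Llow {U : Subgroup G} [Finite U] (hU : IsPGroup p U) :
    U ⊓ Subgroup.centralizer (Llow U : Set G) ≤ Llow U := by
  obtain ⟨k, hk⟩ := stable' U
  have h1 := (hk (k + 1) (Nat.le_succ k)).1
  rw [← h1]
  exact cent_lseq hU _ (by omega)

theorem normal_lseq {U : Subgroup G} (hU : U.Normal) (n : ℕ) : (lseq U n).Normal := by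
  refine Subgroup.normalizer_eq_top_iff.1 (eq_top_iff.2 fun g _ => mem_normalizer_lseq ?_ n)
  rw [Subgroup.normalizer_eq_top_iff.2 hU]
  trivial

end basic

section odd

variable {p : ℕ} [hpp : Fact p.Prime]

section chain

variable {G : Type u} [Group G] [Finite G] [hs : Group.IsSolvable G]

theorem le_core_of_normalized (hodd : Odd (Nat.card G)) (hp : p ≠ 2) (hO : pPrimeCore p G = ⊥)
    {A P : Subgroup G} [hPn : P.Normal] (hPT : P ≤ pCore p G)
    (hC : pCore p G ⊓ Subgroup.centralizer (P : Set G) ≤ P) (hA : IsPGroup p A)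
    (hAc : IsMulCommutative A) (hN : P ≤ Subgroup.normalizer (A : Set G)) : A ≤ pCore p G := by
  have h1 := (Cfsg.Agent.S1465.result hodd p hp P ((Cfsg.Agent.Lib.PCore.isPGroup_pCore p G).to_le hPT) {A} (by
    intro B hB
    rw [Set.mem_singleton_iff] at hB
    subst hB
    exact ⟨hAc, hA, hN⟩)).2 hO hC
  rwa [sSup_singleton] at h1

/-- The comparison of the Puig series of a Sylow subgroup and of `O_p(G)`. -/
theorem chain (hodd : Odd (Nat.card G)) (hp : p ≠ 2) (hO : pPrimeCore p G = ⊥) (S : Sylow p G) (n : ℕ) :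
    lseq (S : Subgroup G) (2 * n) ≤ lseq (pCore p G) (2 * n) ∧
      lseq (pCore p G) (2 * n + 1) ≤ lseq (S : Subgroup G) (2 * n + 1) := by
  have hTn : (pCore p G).Normal := Cfsg.Agent.Lib.FitCore.pCore_normal p
  have hTp : IsPGroup p (pCore p G) := Cfsg.Agent.Lib.PCore.isPGroup_pCore p G
  have hTS : pCore p G ≤ S := Cfsg.Agent.Lib.PCore.pCore_le_sylow S
  induction n with
  | zero =>
    refine ⟨bot_le, ?_⟩
    show lseq (pCore p G) 1 ≤ lseq (S : Subgroup G) 1
    rw [lseq_one, lseq_one]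
    exact hTS
  | succ n ih =>
    have e1 : lseq (S : Subgroup G) (2 * (n + 1)) ≤ lseq (pCore p G) (2 * (n + 1)) := by
      show lstep (S : Subgroup G) (lseq (S : Subgroup G) (2 * n + 1)) ≤ lstep (pCore p G) (lseq (pCore p G) (2 * n + 1))
      refine sSup_le ?_
      rintro A ⟨a1, a2, a3⟩
      haveI hPn := normal_lseq hTn (2 * n + 1)
      have a4 : lseq (pCore p G) (2 * n + 1) ≤ Subgroup.normalizer (A : Set G) := ih.2.trans a3
      have a5 : A ≤ pCore p G := le_core_of_normalized hodd hp hO (P := lseq (pCore p G) (2 * n + 1))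
        (lseq_le _ _) (cent_lseq hTp _ (by omega)) (S.isPGroup'.to_le a1) a2 a4
      exact le_lstep a5 a2 a4
    refine ⟨e1, ?_⟩
    show lstep (pCore p G) (lseq (pCore p G) (2 * (n + 1))) ≤ lstep (S : Subgroup G) (lseq (S : Subgroup G) (2 * (n + 1)))
    exact (lstep_anti e1).trans (lstep_mono hTS)

theorem chain_limits (hodd : Odd (Nat.card G)) (hp : p ≠ 2) (hO : pPrimeCore p G = ⊥) (S : Sylow p G) :
    Llow (S : Subgroup G) ≤ Llow (pCore p G) ∧ Lup (pCore p G) ≤ Lup (S : Subgroup G) := by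
  obtain ⟨k₁, hk₁⟩ := stable' (S : Subgroup G)
  obtain ⟨k₂, hk₂⟩ := stable' (pCore p G)
  have h := chain hodd hp hO S (max k₁ k₂)
  rwa [(hk₁ _ (le_max_left _ _)).1, (hk₁ _ (le_max_left _ _)).2, (hk₂ _ (le_max_right _ _)).1,
    (hk₂ _ (le_max_right _ _)).2] at h

end chain

/-- The centre of the Puig subgroup of a Sylow subgroup is normal when `O_{p'}(G) = 1`. -/
theorem center_normal (hp : p ≠ 2) : ∀ (n : ℕ) (G : Type u) [Group G] [Finite G] [Group.IsSolvable G],
    Nat.card G = n → Odd (Nat.card G) → pPrimeCore p G = ⊥ → ∀ S : Sylow p G, (ZL (S : Subgroup G)).Normal := by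
  intro n
  induction n using Nat.strong_induction_on with
  | _ n IH =>
  intro G _ _ _ hn hodd hO S
  classical
  set T := pCore p G with hT
  haveI hTn : T.Normal := Cfsg.Agent.Lib.FitCore.pCore_normal p
  have hTp : IsPGroup p T := Cfsg.Agent.Lib.PCore.isPGroup_pCore p G
  have hTS : T ≤ S := Cfsg.Agent.Lib.PCore.pCore_le_sylow S
  have hall : ∀ g : G, g ∈ Subgroup.normalizer (T : Set G) := fun g => by
    rw [Subgroup.normalizer_eq_top_iff.2 hTn]
    trivial
  set W := ZL T with hW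
  haveI hWn : W.Normal := Subgroup.normalizer_eq_top_iff.1 (eq_top_iff.2 fun g _ => mem_normalizer_ZL (hall g))
  have hWp : IsPGroup p W := isPGroup_ZL hTp
  obtain ⟨hlow, hup⟩ := chain_limits hodd hp hO S
  have hSn : ∀ s ∈ (S : Subgroup G), s ∈ Subgroup.normalizer ((S : Subgroup G) : Set G) := fun s hs =>
    Subgroup.le_normalizer hs
  have hZW : ZL (S : Subgroup G) ≤ W := by
    have h1 : ZL (S : Subgroup G) ≤ Llow (S : Subgroup G) := by
      rw [← lstep_up (S : Subgroup G)]
      refine le_lstep (inf_le_left.trans (Lup_le _)) ?_ ?_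
      · refine ⟨⟨?_⟩⟩
        rintro ⟨a, ha⟩ ⟨b, hb⟩
        apply Subtype.ext
        exact Subgroup.mem_centralizer_iff.1 hb.2 a ha.1
      · exact fun l hl => mem_normalizer_ZL (hSn l (Lup_le _ hl))
    have h2 : ZL (S : Subgroup G) ≤ Lup T := h1.trans (hlow.trans (Llow_le_Lup T))
    refine le_inf h2 ?_
    intro x hx
    refine Subgroup.mem_centralizer_iff.2 fun y hy => ?_
    exact Subgroup.mem_centralizer_iff.1 hx.2 y (hup hy)
  have hWlow : W ≤ Llow (S : Subgroup G) := by
    refine le_trans ?_ (cent_Llow S.isPGroup')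
    refine le_inf (inf_le_left.trans ((Lup_le T).trans hTS)) ?_
    intro x hx
    refine Subgroup.mem_centralizer_iff.2 fun y hy => ?_
    exact Subgroup.mem_centralizer_iff.1 hx.2 y ((hlow.trans (Llow_le_Lup T)) hy)
  set C := Subgroup.centralizer (W : Set G) with hC
  haveI hCn : C.Normal := inferInstance
  set D := (pCore p (G ⧸ C)).comap (QuotientGroup.mk' C) with hD
  have hLD : Lup (S : Subgroup G) ≤ D := by
    rw [← lstep_low (S : Subgroup G)]
    refine sSup_le ?_
    rintro A ⟨h1, h2, h3⟩ a ha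
    apply Cfsg.Agent.Lib.OddStable.mk_mem_pCore hp hodd W hWp a
    have h0 : Subgroup.zpowers a ≤ A := Subgroup.zpowers_le.2 ha
    have h4 : ⁅W, Subgroup.zpowers a⁆ ≤ A := by
      rw [Subgroup.commutator_le]
      intro u hu x hx
      have hxA := h0 hx
      have h5 : u * x * u⁻¹ ∈ A := (Subgroup.mem_normalizer_iff.1 (h3 (hWlow hu)) x).1 hxA
      rw [commutatorElement_def]
      exact A.mul_mem h5 (A.inv_mem hxA)
    rw [eq_bot_iff, Subgroup.commutator_le]
    intro u hu x hx
    have huA := h4 hu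
    have hxA := h0 hx
    have h6 : (⟨u, huA⟩ : A) * ⟨x, hxA⟩ = ⟨x, hxA⟩ * ⟨u, huA⟩ := h2.is_comm.comm _ _
    have h7 : u * x = x * u := congrArg Subtype.val h6
    rw [commutatorElement_def, h7]
    simp
  by_cases hDtop : D = ⊤
  · have hcore : pCore p (G ⧸ C) = ⊤ := by
      rw [eq_top_iff]
      intro y _
      obtain ⟨x, rfl⟩ := QuotientGroup.mk'_surjective C y
      have : x ∈ D := by
        rw [hDtop]
        trivial
      exact this
    have hS' : (S : Subgroup G).map (QuotientGroup.mk' C) = ⊤ := by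
      have hQ : IsPGroup p (⊤ : Subgroup (G ⧸ C)) := by
        rw [← hcore]
        exact Cfsg.Agent.Lib.PCore.isPGroup_pCore p _
      have h1 := (S.mapSurjective (QuotientGroup.mk'_surjective C)).is_maximal' hQ le_top
      rw [Sylow.coe_mapSurjective] at h1
      exact h1.symm
    refine Subgroup.normalizer_eq_top_iff.1 (eq_top_iff.2 fun g _ => ?_)
    have h1 : QuotientGroup.mk' C g ∈ (S : Subgroup G).map (QuotientGroup.mk' C) := by
      rw [hS']
      trivial
    obtain ⟨s, hs, hsg⟩ := h1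
    have hc : s⁻¹ * g ∈ C := QuotientGroup.eq.1 hsg
    have e : g = s * (s⁻¹ * g) := by group
    rw [e]
    refine Subgroup.mul_mem _ (mem_normalizer_ZL (hSn s hs)) ?_
    apply Cfsg.Agent.Lib.H2Basic.mem_normalizer_of_forall_comm
    intro a ha
    exact (Subgroup.mem_centralizer_iff.1 hc a (hZW ha)).symm
  · haveI hDn : D.Normal := Subgroup.Normal.comap (Cfsg.Agent.Lib.FitCore.pCore_normal p) _
    have hcard : Nat.card D < n := by
      rw [← hn]
      have h1 : Nat.card D ≤ Nat.card G := Subgroup.card_le_card_group D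
      rcases h1.lt_or_eq with h | h
      · exact h
      · exact absurd (Subgroup.eq_top_of_card_eq D h) hDtop
    have hoddD : Odd (Nat.card D) := Odd.of_dvd_nat hodd (Subgroup.card_subgroup_dvd_card D)
    haveI hc2 : (pPrimeCore p ↥D).Characteristic := Cfsg.Agent.Lib.PComps.pPrimeCore_characteristic
    have hOD : pPrimeCore p ↥D = ⊥ := by
      have hn' := Cfsg.Agent.Lib.FitCore.map_subtype_normal_of_char D (pPrimeCore p ↥D)
      have h2 : ¬ p ∣ Nat.card ↥((pPrimeCore p ↥D).map D.subtype) := by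
        rw [Subgroup.card_map_of_injective D.subtype_injective]
        exact Cfsg.Agent.Lib.FitCore.not_dvd_card_pPrimeCore p hpp.out
      have h3 := Cfsg.Agent.Lib.SolvCore.eq_bot_of_normal_not_dvd hO _ hn' h2
      exact (Subgroup.map_eq_bot_iff_of_injective _ D.subtype_injective).1 h3
    have hP₁ : IsPGroup p ((S : Subgroup G).subgroupOf D) :=
      S.isPGroup'.comap_of_injective D.subtype D.subtype_injective
    have hidx : ¬ p ∣ ((S : Subgroup G).subgroupOf D).index := by
      intro h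
      apply S.not_dvd_index
      have h1 : (S : Subgroup G).relIndex D = (S : Subgroup G).relIndex (D ⊔ S) :=
        (Cfsg.Agent.Lib.FitCore.relIndex_sup_of_normal (S : Subgroup G) D).symm
      have h2 : (S : Subgroup G).relIndex (D ⊔ S) ∣ (S : Subgroup G).index :=
        ⟨(D ⊔ (S : Subgroup G)).index, (Subgroup.relIndex_mul_index le_sup_right).symm⟩
      refine (Dvd.dvd.trans ?_ h2)
      rw [← h1]
      exact h
    let S₁ : Sylow p ↥D := hP₁.toSylow hidx
    have hS₁ : (S₁ : Subgroup ↥D) = (S : Subgroup G).subgroupOf D := IsPGroup.toSylow_coe hP₁ hidx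
    have hZ₁ := IH (Nat.card D) hcard ↥D rfl hoddD hOD S₁
    set S₀ := (S₁ : Subgroup ↥D).map D.subtype with hS₀def
    have hS₀ : S₀ = (S : Subgroup G) ⊓ D := by
      rw [hS₀def, hS₁, Subgroup.subgroupOf_map_subtype]
    have hLeq : Lup S₀ = Lup (S : Subgroup G) := by
      refine sub_eq (hS₀ ▸ inf_le_left) ?_
      rw [hS₀]
      exact le_inf (Lup_le _) hLD
    have hZeq : ZL S₀ = ZL (S : Subgroup G) := by
      unfold ZL
      rw [hLeq]
    have hmap : (ZL (S₁ : Subgroup ↥D)).map D.subtype = ZL S₀ :=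
      map_ZL D.subtype (fun a _ b _ h => Subtype.ext h)
    have hN1 : D ≤ Subgroup.normalizer (ZL (S : Subgroup G) : Set G) := by
      intro d hd
      apply Cfsg.Agent.Lib.H2Basic.mem_normalizer_of_conj_le
      intro a ha
      rw [← hZeq, ← hmap] at ha ⊢
      obtain ⟨a', ha', rfl⟩ := ha
      exact ⟨⟨d, hd⟩ * a' * (⟨d, hd⟩ : ↥D)⁻¹, hZ₁.conj_mem a' ha' _, rfl⟩
    have hN2 : Subgroup.normalizer (S₀ : Set G) ≤ Subgroup.normalizer (ZL (S : Subgroup G) : Set G) := by
      rw [← hZeq]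
      exact fun g hg => mem_normalizer_ZL hg
    have hF : Subgroup.normalizer (S₀ : Set G) ⊔ D = ⊤ := Sylow.normalizer_sup_eq_top S₁
    refine Subgroup.normalizer_eq_top_iff.1 (eq_top_iff.2 ?_)
    rw [← hF]
    exact sup_le hN2 hN1

end odd

end Cfsg.Agent.Lib.PuigOdd
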