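import Mathlib
import Cfsg.Prelude.Def_LocalEven
import Cfsg.Prelude.Def_PLocal
import Cfsg.Agent.Lib.FitCore

/-! The group `Qd` over a field: block form, translations, complement. -/

set_option autoImplicit false
set_option linter.all false

namespace Cfsg.Agent.Lib.QdOver

open Cfsg Subgroup

variable {F : Type*} [Field F]

theorem mem_qdOver_iff (M : Matrix.SpecialLinearGroup (Fin 3) F) :
    M ∈ Cfsg.qdOver F ↔ M 2 0 = 0 ∧ M 2 1 = 0 ∧ M 2 2 = 1 := by
  constructor
  · intro h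
    induction h using Subgroup.closure_induction with
    | mem x hx => exact hx
    | one => simp
    | mul x y _ _ hx hy =>
      obtain ⟨x0, x1, x2⟩ := hx
      obtain ⟨y0, y1, y2⟩ := hy
      have : ∀ j, (x * y) 2 j = y 2 j := by
        intro j
        simp [Matrix.SpecialLinearGroup.coe_mul, Matrix.mul_apply, Fin.sum_univ_three, x0, x1, x2]
      rw [this, this, this]
      exact ⟨y0, y1, y2⟩
    | inv x _ hx =>
      obtain ⟨x0, x1, x2⟩ := hx
      have h1 : ∀ j, x⁻¹ 2 j = (x * x⁻¹) 2 j := by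
        intro j
        simp only [Matrix.SpecialLinearGroup.coe_mul, Matrix.mul_apply, Fin.sum_univ_three, x0, x1, x2]
        ring
      rw [h1, h1, h1, mul_inv_cancel]
      simp
  · intro h
    exact Subgroup.subset_closure h

/-- The block matrix. -/
def blkF (B : Matrix.SpecialLinearGroup (Fin 2) F) (u : Fin 2 → F) :
    Matrix.SpecialLinearGroup (Fin 3) F :=
  ⟨!![B 0 0, B 0 1, u 0; B 1 0, B 1 1, u 1; 0, 0, 1], by
    have h := B.2
    rw [Matrix.det_fin_two] at h
    rw [Matrix.det_fin_three]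
    simp
    linear_combination h⟩

theorem blkF_mem (B : Matrix.SpecialLinearGroup (Fin 2) F) (u : Fin 2 → F) :
    blkF B u ∈ Cfsg.qdOver F := by
  rw [mem_qdOver_iff]
  exact ⟨rfl, rfl, rfl⟩

theorem blkF_mul (B B' : Matrix.SpecialLinearGroup (Fin 2) F) (u u' : Fin 2 → F) :
    blkF B u * blkF B' u' = blkF (B * B') (u + (B : Matrix (Fin 2) (Fin 2) F).mulVec u') := by
  apply Subtype.ext
  show (!![B 0 0, B 0 1, u 0; B 1 0, B 1 1, u 1; 0, 0, 1] : Matrix (Fin 3) (Fin 3) F) *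
    !![B' 0 0, B' 0 1, u' 0; B' 1 0, B' 1 1, u' 1; 0, 0, 1] =
    !![(B * B') 0 0, (B * B') 0 1, (u + (B : Matrix (Fin 2) (Fin 2) F).mulVec u') 0;
      (B * B') 1 0, (B * B') 1 1, (u + (B : Matrix (Fin 2) (Fin 2) F).mulVec u') 1; 0, 0, 1]
  ext i j
  fin_cases i <;> fin_cases j <;>
    simp [Matrix.mul_apply, Fin.sum_univ_three, Fin.sum_univ_two, Matrix.SpecialLinearGroup.coe_mul,
      Matrix.mulVec, dotProduct] <;> ring

theorem blkF_one : blkF (1 : Matrix.SpecialLinearGroup (Fin 2) F) 0 = 1 := by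
  apply Subtype.ext
  ext i j
  fin_cases i <;> fin_cases j <;> simp [blkF]

theorem exists_blkF (M : Matrix.SpecialLinearGroup (Fin 3) F) (hM : M ∈ Cfsg.qdOver F) :
    ∃ B u, blkF B u = M := by
  obtain ⟨h0, h1, h2⟩ := (mem_qdOver_iff M).1 hM
  have hd := M.2
  rw [Matrix.det_fin_three, h0, h1, h2] at hd
  refine ⟨⟨!![M 0 0, M 0 1; M 1 0, M 1 1], ?_⟩, ![M 0 2, M 1 2], ?_⟩
  · rw [Matrix.det_fin_two]
    simp
    linear_combination hd
  · apply Subtype.ext
    ext i j
    fin_cases i <;> fin_cases j <;> first | rfl | (simp [blkF]; first | exact h0.symm | exact h1.symm | exact h2.symm)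

theorem blkF_entry_00 (B : Matrix.SpecialLinearGroup (Fin 2) F) (u : Fin 2 → F) : blkF B u 0 0 = B 0 0 := rfl
theorem blkF_entry_01 (B : Matrix.SpecialLinearGroup (Fin 2) F) (u : Fin 2 → F) : blkF B u 0 1 = B 0 1 := rfl
theorem blkF_entry_10 (B : Matrix.SpecialLinearGroup (Fin 2) F) (u : Fin 2 → F) : blkF B u 1 0 = B 1 0 := rfl
theorem blkF_entry_11 (B : Matrix.SpecialLinearGroup (Fin 2) F) (u : Fin 2 → F) : blkF B u 1 1 = B 1 1 := rfl
theorem blkF_entry_02 (B : Matrix.SpecialLinearGroup (Fin 2) F) (u : Fin 2 → F) : blkF B u 0 2 = u 0 := rfl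
theorem blkF_entry_12 (B : Matrix.SpecialLinearGroup (Fin 2) F) (u : Fin 2 → F) : blkF B u 1 2 = u 1 := rfl

theorem blkF_inj {B B' : Matrix.SpecialLinearGroup (Fin 2) F} {u u' : Fin 2 → F}
    (h : blkF B u = blkF B' u') : B = B' ∧ u = u' := by
  constructor
  · apply Subtype.ext
    ext i j
    fin_cases i <;> fin_cases j
    · have := blkF_entry_00 B u; rw [h] at this; exact this.symm
    · have := blkF_entry_01 B u; rw [h] at this; exact this.symm
    · have := blkF_entry_10 B u; rw [h] at this; exact this.symm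
    · have := blkF_entry_11 B u; rw [h] at this; exact this.symm
  · ext i
    fin_cases i
    · have := blkF_entry_02 B u; rw [h] at this; exact this.symm
    · have := blkF_entry_12 B u; rw [h] at this; exact this.symm

/-- Elements of `Qd` in block form. -/
def qb (B : Matrix.SpecialLinearGroup (Fin 2) F) (u : Fin 2 → F) : ↥(Cfsg.qdOver F) :=
  ⟨blkF B u, blkF_mem B u⟩

theorem qb_mul (B B' : Matrix.SpecialLinearGroup (Fin 2) F) (u u' : Fin 2 → F) :
    qb B u * qb B' u' = qb (B * B') (u + (B : Matrix (Fin 2) (Fin 2) F).mulVec u') :=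
  Subtype.ext (blkF_mul B B' u u')

theorem qb_one : qb (1 : Matrix.SpecialLinearGroup (Fin 2) F) 0 = 1 :=
  Subtype.ext blkF_one

theorem exists_qb (x : ↥(Cfsg.qdOver F)) : ∃ B u, x = qb B u := by
  obtain ⟨B, u, h⟩ := exists_blkF _ x.2
  exact ⟨B, u, Subtype.ext h.symm⟩

theorem qb_inj {B B' : Matrix.SpecialLinearGroup (Fin 2) F} {u u' : Fin 2 → F}
    (h : qb B u = qb B' u') : B = B' ∧ u = u' :=
  blkF_inj (congrArg Subtype.val h)

theorem exists_tauF : ∃ τ : ↥(Cfsg.qdOver F) →* Matrix.SpecialLinearGroup (Fin 2) F,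
    ∀ B u, τ (qb B u) = B := by
  have hex : ∀ M : ↥(Cfsg.qdOver F), ∃ B u, M = qb B u := exists_qb
  choose f v hv using hex
  refine ⟨MonoidHom.mk' f ?_, ?_⟩
  · intro a b
    have h1 := hv (a * b)
    have h2 : a * b = qb (f a * f b) (v a + (f a : Matrix (Fin 2) (Fin 2) F).mulVec (v b)) := by
      rw [← qb_mul, ← hv, ← hv]
    exact (qb_inj (h1.symm.trans h2)).1
  · intro B u
    exact (qb_inj (hv (qb B u))).1.symm

/-- The block map. -/
noncomputable def tauF : ↥(Cfsg.qdOver F) →* Matrix.SpecialLinearGroup (Fin 2) F :=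
  (exists_tauF (F := F)).choose

@[simp] theorem tauF_qb (B : Matrix.SpecialLinearGroup (Fin 2) F) (u : Fin 2 → F) :
    tauF (qb B u) = B := (exists_tauF (F := F)).choose_spec B u

theorem tauF_surjective : Function.Surjective (tauF (F := F)) :=
  fun B => ⟨qb B 0, tauF_qb B 0⟩

/-- Translations. -/
def nuF (u : Fin 2 → F) : ↥(Cfsg.qdOver F) := qb 1 u

/-- The complement. -/
def cplHom : Matrix.SpecialLinearGroup (Fin 2) F →* ↥(Cfsg.qdOver F) where
  toFun B := qb B 0
  map_one' := qb_one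
  map_mul' B B' := by
    rw [qb_mul]
    simp

theorem cplHom_apply (B : Matrix.SpecialLinearGroup (Fin 2) F) : cplHom B = qb B 0 := rfl

theorem cplHom_injective : Function.Injective (cplHom (F := F)) :=
  fun _ _ h => (qb_inj h).1

theorem tauF_cpl (B : Matrix.SpecialLinearGroup (Fin 2) F) : tauF (cplHom B) = B := tauF_qb B 0

theorem nuF_add (u v : Fin 2 → F) : nuF (u + v) = nuF u * nuF v := by
  show qb 1 (u + v) = qb 1 u * qb 1 v
  rw [qb_mul]
  simp

theorem nuF_zero : nuF (0 : Fin 2 → F) = 1 := qb_one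

theorem nuF_nsmul (n : ℕ) (u : Fin 2 → F) : nuF (n • u) = nuF u ^ n := by
  induction n with
  | zero => simpa using nuF_zero
  | succ n ih => rw [succ_nsmul, nuF_add, ih, pow_succ]

theorem nuF_injective : Function.Injective (nuF (F := F)) := fun _ _ h => (qb_inj h).2

theorem tauF_nu (u : Fin 2 → F) : tauF (nuF u) = 1 := tauF_qb 1 u

theorem mem_ker_tau {x : ↥(Cfsg.qdOver F)} : x ∈ (tauF (F := F)).ker ↔ ∃ u, x = nuF u := by
  constructor
  · intro h
    obtain ⟨B, u, rfl⟩ := exists_qb x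
    have hB : B = 1 := by
      have h1 : tauF (qb B u) = 1 := h
      rwa [tauF_qb] at h1
    exact ⟨u, by rw [hB]; rfl⟩
  · rintro ⟨u, rfl⟩
    exact tauF_nu u

theorem tauF_act (x : ↥(Cfsg.qdOver F)) (u : Fin 2 → F) :
    x * nuF u * x⁻¹ = nuF ((tauF x : Matrix (Fin 2) (Fin 2) F).mulVec u) := by
  obtain ⟨B, w, rfl⟩ := exists_qb x
  rw [mul_inv_eq_iff_eq_mul, tauF_qb]
  show qb B w * qb 1 u = qb 1 _ * qb B w
  rw [qb_mul, qb_mul]
  simp [add_comm]

theorem decomp (x : ↥(Cfsg.qdOver F)) : ∃ u, x = nuF u * cplHom (tauF x) := by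
  obtain ⟨B, w, rfl⟩ := exists_qb x
  refine ⟨w, ?_⟩
  rw [tauF_qb, cplHom_apply]
  show qb B w = qb 1 w * qb B 0
  rw [qb_mul]
  simp

theorem entries_of_qb (x : ↥(Cfsg.qdOver F)) :
    ((tauF x : Matrix.SpecialLinearGroup (Fin 2) F) : Matrix (Fin 2) (Fin 2) F) =
      !![(x : Matrix.SpecialLinearGroup (Fin 3) F) 0 0, (x : Matrix.SpecialLinearGroup (Fin 3) F) 0 1;
        (x : Matrix.SpecialLinearGroup (Fin 3) F) 1 0, (x : Matrix.SpecialLinearGroup (Fin 3) F) 1 1] := by
  obtain ⟨B, w, rfl⟩ := exists_qb x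
  rw [tauF_qb]
  ext i j
  fin_cases i <;> fin_cases j <;> rfl

section finite

variable {p : ℕ} [hpp : Fact p.Prime]

/-- The elements of a `p`-subgroup of `SL₂` have a common nonzero fixed vector. -/
theorem exists_fixF [Finite F] [CharP F p] {H : Subgroup (Matrix.SpecialLinearGroup (Fin 2) F)} (hH : IsPGroup p H) :
    ∃ z : Fin 2 → F, z ≠ 0 ∧ ∀ x ∈ H, (x : Matrix (Fin 2) (Fin 2) F).mulVec z = z := by
  classical
  haveI := Fintype.ofFinite F
  letI : MulAction ↥H (Fin 2 → F) :=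
    { smul := fun x u => ((x : Matrix.SpecialLinearGroup (Fin 2) F) : Matrix (Fin 2) (Fin 2) F).mulVec u
      one_smul := fun u => by
        show ((1 : Matrix.SpecialLinearGroup (Fin 2) F) : Matrix (Fin 2) (Fin 2) F).mulVec u = u
        rw [Matrix.SpecialLinearGroup.coe_one, Matrix.one_mulVec]
      mul_smul := fun x y u => by
        show (((x : Matrix.SpecialLinearGroup (Fin 2) F) * (y : Matrix.SpecialLinearGroup (Fin 2) F) : Matrix.SpecialLinearGroup (Fin 2) F) : Matrix (Fin 2) (Fin 2) F).mulVec u = _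
        rw [Matrix.SpecialLinearGroup.coe_mul, ← Matrix.mulVec_mulVec]
        rfl }
  have hcard : p ∣ Nat.card (Fin 2 → F) := by
    rw [Nat.card_eq_fintype_card, Fintype.card_fun, Fintype.card_fin]
    have h1 : ((Fintype.card F : ℕ) : F) = 0 := Nat.cast_card_eq_zero F
    have h2 : p ∣ Fintype.card F := (CharP.cast_eq_zero_iff F p _).1 h1
    exact h2.trans (dvd_pow_self _ (by norm_num))
  have h0 : (0 : Fin 2 → F) ∈ MulAction.fixedPoints ↥H (Fin 2 → F) := by
    intro x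
    show ((x : Matrix.SpecialLinearGroup (Fin 2) F) : Matrix (Fin 2) (Fin 2) F).mulVec 0 = 0
    simp
  obtain ⟨z, hz, hne⟩ := hH.exists_fixed_point_of_prime_dvd_card_of_fixed_point _ hcard h0
  exact ⟨z, hne.symm, fun x hx => hz ⟨x, hx⟩⟩

theorem exists_sl_col' {a : Fin 2 → F} (ha : a ≠ 0) :
    ∃ M : Matrix.SpecialLinearGroup (Fin 2) F,
      (M : Matrix (Fin 2) (Fin 2) F).mulVec ![1, 0] = a := by
  by_cases h0 : a 0 = 0
  · have h1 : a 1 ≠ 0 := by
      intro h1
      apply ha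
      ext i
      fin_cases i
      · exact h0
      · exact h1
    refine ⟨⟨!![0, -(a 1)⁻¹; a 1, 0], ?_⟩, ?_⟩
    · rw [Matrix.det_fin_two_of]
      field_simp
      ring
    · ext i
      fin_cases i
      · simp [Matrix.mulVec, dotProduct, Fin.sum_univ_two, h0]
      · simp [Matrix.mulVec, dotProduct, Fin.sum_univ_two]
  · refine ⟨⟨!![a 0, 0; a 1, (a 0)⁻¹], ?_⟩, ?_⟩
    · rw [Matrix.det_fin_two_of]
      field_simp
      ring
    · ext i
      fin_cases i <;> simp [Matrix.mulVec, dotProduct, Fin.sum_univ_two]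

/-- Transitivity on nonzero vectors. -/
theorem exists_move {a b : Fin 2 → F} (ha : a ≠ 0) (hb : b ≠ 0) :
    ∃ g : Matrix.SpecialLinearGroup (Fin 2) F, (g : Matrix (Fin 2) (Fin 2) F).mulVec a = b := by
  obtain ⟨M₁, h₁⟩ := exists_sl_col' ha
  obtain ⟨M₂, h₂⟩ := exists_sl_col' hb
  refine ⟨M₂ * M₁⁻¹, ?_⟩
  rw [← h₁, ← h₂, Matrix.SpecialLinearGroup.coe_mul, Matrix.mulVec_mulVec, Matrix.mul_assoc,
    ← Matrix.SpecialLinearGroup.coe_mul, inv_mul_cancel]
  simp

theorem sl_ext_of_mulVec {g h : Matrix.SpecialLinearGroup (Fin 2) F}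
    (hgh : ∀ u : Fin 2 → F, u ≠ 0 → (g : Matrix (Fin 2) (Fin 2) F).mulVec u = (h : Matrix (Fin 2) (Fin 2) F).mulVec u) : g = h := by
  apply Subtype.ext
  apply Matrix.ext_of_mulVec_single
  intro j
  apply hgh
  intro h0
  have := congrFun h0 j
  simp at this

/-- A normal `p`-subgroup of `SL₂(F)` is trivial. -/
theorem normal_pgroup_trivial [Finite F] [CharP F p] {Q : Subgroup (Matrix.SpecialLinearGroup (Fin 2) F)}
    (hQ : IsPGroup p Q) (hn : Q.Normal) : Q = ⊥ := by
  obtain ⟨z, hz, hfix⟩ := exists_fixF hQ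
  rw [eq_bot_iff]
  intro x hx
  rw [Subgroup.mem_bot]
  apply sl_ext_of_mulVec
  intro w hw
  obtain ⟨g, hg⟩ := exists_move hz hw
  have h1 : g⁻¹ * x * g ∈ Q := by
    have := hn.conj_mem x hx g⁻¹
    simpa using this
  have h2 := hfix _ h1
  rw [Matrix.SpecialLinearGroup.coe_mul, Matrix.SpecialLinearGroup.coe_mul, ← Matrix.mulVec_mulVec,
    hg, ← Matrix.mulVec_mulVec] at h2
  have h3 := congrArg (fun v => (g : Matrix (Fin 2) (Fin 2) F).mulVec v) h2
  rw [Matrix.mulVec_mulVec, ← Matrix.SpecialLinearGroup.coe_mul, mul_inv_cancel, hg] at h3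
  simpa using h3

theorem ker_tau_isP [Finite F] [CharP F p] : IsPGroup p (tauF (F := F)).ker := by
  rintro ⟨x, hx⟩
  obtain ⟨u, rfl⟩ := mem_ker_tau.1 hx
  refine ⟨1, ?_⟩
  apply Subtype.ext
  show nuF u ^ p ^ 1 = 1
  rw [pow_one, ← nuF_nsmul]
  have : p • u = 0 := by
    ext i
    simp [CharP.cast_eq_zero]
  rw [this, nuF_zero]

variable [Finite F] [CharP F p]

instance : Finite (Matrix.SpecialLinearGroup (Fin 2) F) := by
  haveI := Fintype.ofFinite F
  classical
  infer_instance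

instance : Finite ↥(Cfsg.qdOver F) := by
  haveI := Fintype.ofFinite F
  classical
  infer_instance

/-- `O_p(Qd) = ker τ`. -/
theorem pCore_eq : Cfsg.pCore p ↥(Cfsg.qdOver F) = (tauF (F := F)).ker := by
  apply le_antisymm
  · have h1 : IsPGroup p ((Cfsg.pCore p ↥(Cfsg.qdOver F)).map (tauF (F := F))) :=
      (FitCore.pCore_isPGroup p).map _
    have h2 : ((Cfsg.pCore p ↥(Cfsg.qdOver F)).map (tauF (F := F))).Normal :=
      (FitCore.pCore_normal p).map _ tauF_surjective
    have h3 := normal_pgroup_trivial h1 h2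
    exact (Subgroup.map_eq_bot_iff _).1 h3
  · exact FitCore.le_pCore p _ inferInstance ker_tau_isP

end finite

end Cfsg.Agent.Lib.QdOver
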