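import Cfsg.Agent.Lib.QuadNondeg

/-! Isometric orthogonal summands of even dimension force plus type. -/

set_option autoImplicit false
set_option linter.unusedSectionVars false
set_option linter.unusedSimpArgs false
set_option linter.unusedVariables false

open scoped MatrixGroups Matrix commutatorElement
open Cfsg Cfsg.Geo
open Cfsg.Agent.Lib.Transvection Cfsg.Agent.Lib.LinAlgAux Cfsg.Agent.Lib.QuadBase
  Cfsg.Agent.Lib.QuadSiegel Cfsg.Agent.Lib.QuadSim Cfsg.Agent.Lib.SubspaceStab
  Cfsg.Agent.Lib.QuadStab Cfsg.Agent.Lib.QuadNondeg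
open Cfsg.Agent.Lib.SymplecticTv (Ind finrank_inf_ker_add_one)
open QuadraticMap (polar)

namespace Cfsg.Agent.Lib.QuadAnti

variable {ι : Type} [Fintype ι] [DecidableEq ι] {F : Type*} [Field F] {Q : (ι → F) → F}

variable [Fintype F] (hQ : IsNondegenerateQuadraticForm Q)

include hQ

/-- A non-degenerate non-zero subspace has a non-singular vector. -/
theorem exists_nonsing {U : Submodule F (ι → F)} (hU : IsNondegenerateOn (polar Q) U) (hne : U ≠ ⊥) :
    ∃ x ∈ U, Q x ≠ 0 := by
  by_contra hcon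
  push Not at hcon
  obtain ⟨x, hx, hx0⟩ := Submodule.exists_mem_ne_zero_of_ne_bot hne
  obtain ⟨⟨y, hy, hyx⟩, -⟩ := hU x hx hx0
  apply hyx
  simp only [polar]
  rw [hcon _ (U.add_mem hy hx), hcon y hy, hcon x hx]
  ring

/-- Orthogonal complement inside a non-degenerate subspace. -/
theorem nondeg_inf_orth {U P : Submodule F (ι → F)} (hU : IsNondegenerateOn (polar Q) U)
    (hP : IsNondegenerateOn (polar Q) P) (hPU : P ≤ U) :
    IsNondegenerateOn (polar Q) (U ⊓ orthQ hQ P) ∧
      Module.finrank F (U ⊓ orthQ hQ P : Submodule F (ι → F)) + Module.finrank F P =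
        Module.finrank F U := by
  have hPP := ndpair_of_nondeg hQ hP
  have hdec : ∀ y ∈ U, ∃ y₁ ∈ P, ∃ y₂ ∈ U ⊓ orthQ hQ P, y₁ + y₂ = y := by
    intro y hy
    obtain ⟨z₁, hz₁, z₂, hz₂, hz⟩ := hPP.decomp y
    refine ⟨z₂, hz₂, z₁, ⟨?_, hz₁⟩, by rw [add_comm]; exact hz⟩
    have : z₁ = y - z₂ := by rw [← hz]; abel
    rw [this]
    exact U.sub_mem hy (hPU hz₂)
  constructor
  · intro v hv hv0
    have key : ∃ x ∈ U ⊓ orthQ hQ P, polar Q x v ≠ 0 := by
      obtain ⟨⟨y, hy, hyv⟩, -⟩ := hU v hv.1 hv0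
      obtain ⟨y₁, hy₁, y₂, hy₂, rfl⟩ := hdec y hy
      refine ⟨y₂, hy₂, ?_⟩
      rw [pol_add_left hQ, QuadraticMap.polar_comm Q y₁ v, hv.2 y₁ hy₁, zero_add] at hyv
      exact hyv
    obtain ⟨x, hx, hxv⟩ := key
    exact ⟨⟨x, hx, hxv⟩, ⟨x, hx, by rw [QuadraticMap.polar_comm]; exact hxv⟩⟩
  · have h1 := Submodule.finrank_sup_add_finrank_inf_eq (U ⊓ orthQ hQ P) P
    have h2 : (U ⊓ orthQ hQ P) ⊓ P = ⊥ := by
      rw [eq_bot_iff]
      intro x hx
      exact hPP.inf_eq_zero hQ hx.1.2 hx.2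
    have h3 : (U ⊓ orthQ hQ P) ⊔ P = U := by
      apply le_antisymm (sup_le inf_le_left hPU)
      intro y hy
      obtain ⟨y₁, hy₁, y₂, hy₂, rfl⟩ := hdec y hy
      exact Submodule.add_mem _ (Submodule.mem_sup_right hy₁) (Submodule.mem_sup_left hy₂)
    rw [h2, h3, finrank_bot] at h1
    omega

/-- Anti-isometries of non-degenerate subspaces of even dimension in odd characteristic. -/
theorem exists_anti (h2F : (2 : F) ≠ 0) (hcard : Fintype.card F % 2 = 1) :
    ∀ (r : ℕ) (U : Submodule F (ι → F)), IsNondegenerateOn (polar Q) U →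
      Module.finrank F U = 2 * r → ∃ τ : (ι → F) →ₗ[F] (ι → F), (∀ x ∈ U, τ x ∈ U) ∧
        ∀ x ∈ U, Q (τ x) = - Q x := by
  classical
  intro r
  induction r with
  | zero =>
    intro U hU hd
    have hU0 : U = ⊥ := Submodule.finrank_eq_zero.1 (by simpa using hd)
    subst hU0
    refine ⟨0, fun x hx => ?_, fun x hx => ?_⟩
    · simp
    · have : x = 0 := hx
      subst this
      simp [Q_zero hQ]
  | succ r ih =>
    intro U hU hd
    have hne : U ≠ ⊥ := by
      intro h
      rw [h, finrank_bot] at hd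
      omega
    obtain ⟨x, hxU, hxQ⟩ := exists_nonsing hQ hU hne
    have hxx : polar Q x x ≠ 0 := by
      rw [pol_self hQ]
      exact mul_ne_zero h2F hxQ
    have hP₁ : IsNondegenerateOn (polar Q) (Submodule.span F {x}) := by
      intro w hw hw0
      obtain ⟨l, rfl⟩ := Submodule.mem_span_singleton.1 hw
      have hl : l ≠ 0 := by
        rintro rfl
        exact hw0 (zero_smul _ _)
      refine ⟨⟨x, Submodule.mem_span_singleton_self x, ?_⟩, ⟨x, Submodule.mem_span_singleton_self x, ?_⟩⟩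
      · rw [pol_smul_right hQ]
        exact mul_ne_zero hl hxx
      · rw [pol_smul_left hQ]
        exact mul_ne_zero hl hxx
    have hP₁U : Submodule.span F {x} ≤ U := by
      rw [Submodule.span_le]
      rintro z rfl
      exact hxU
    have hx0 : x ≠ 0 := by
      rintro rfl
      exact hxQ (Q_zero hQ)
    obtain ⟨hU₁, hU₁d⟩ := nondeg_inf_orth hQ hU hP₁ hP₁U
    rw [finrank_span_singleton hx0] at hU₁d
    have hU₁ne : U ⊓ orthQ hQ (Submodule.span F {x}) ≠ ⊥ := by
      intro h
      rw [h, finrank_bot] at hU₁d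
      omega
    obtain ⟨x', hx'U₁, hx'Q⟩ := exists_nonsing hQ hU₁ hU₁ne
    have hx'U : x' ∈ U := hx'U₁.1
    have hx'x : polar Q x' x = 0 := hx'U₁.2 x (Submodule.mem_span_singleton_self x)
    have hxx' : polar Q x x' = 0 := by rw [QuadraticMap.polar_comm]; exact hx'x
    have hx'x' : polar Q x' x' ≠ 0 := by
      rw [pol_self hQ]
      exact mul_ne_zero h2F hx'Q
    set P : Submodule F (ι → F) := Submodule.span F {x} ⊔ Submodule.span F {x'} with hPdef
    have hP : IsNondegenerateOn (polar Q) P := by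
      intro w hw hw0
      obtain ⟨p, hp, q, hq, rfl⟩ := Submodule.mem_sup.1 hw
      obtain ⟨s, rfl⟩ := Submodule.mem_span_singleton.1 hp
      obtain ⟨t, rfl⟩ := Submodule.mem_span_singleton.1 hq
      have hxm : x ∈ P := Submodule.mem_sup_left (Submodule.mem_span_singleton_self x)
      have hx'm : x' ∈ P := Submodule.mem_sup_right (Submodule.mem_span_singleton_self x')
      have key : ∃ y ∈ P, polar Q (s • x + t • x') y ≠ 0 := by
        by_contra hcon
        push Not at hcon
        have h1 := hcon x hxm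
        have h2 := hcon x' hx'm
        rw [pol_add_left hQ, pol_smul_left hQ, pol_smul_left hQ, hx'x, mul_zero, add_zero] at h1
        rw [pol_add_left hQ, pol_smul_left hQ, pol_smul_left hQ, hxx', mul_zero, zero_add] at h2
        have hs := (mul_eq_zero.1 h1).resolve_right hxx
        have ht := (mul_eq_zero.1 h2).resolve_right hx'x'
        apply hw0
        rw [hs, ht]
        simp
      obtain ⟨y, hy, hyv⟩ := key
      exact ⟨⟨y, hy, by rw [QuadraticMap.polar_comm]; exact hyv⟩, ⟨y, hy, hyv⟩⟩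
    have hPU : P ≤ U := by
      refine sup_le hP₁U ?_
      rw [Submodule.span_le]
      rintro z rfl
      exact hx'U
    obtain ⟨hN, hNd⟩ := nondeg_inf_orth hQ hU hP hPU
    have hx'0 : x' ≠ 0 := by
      rintro rfl
      exact hx'Q (Q_zero hQ)
    have hx'S : x' ∉ Submodule.span F {x} := by
      intro hm
      obtain ⟨l, rfl⟩ := Submodule.mem_span_singleton.1 hm
      rw [pol_smul_left hQ] at hx'x
      have := (mul_eq_zero.1 hx'x).resolve_right hxx
      subst this
      exact hx'0 (zero_smul _ _)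
    have hPd : Module.finrank F P = 2 := by
      rw [hPdef, Submodule.finrank_sup_span_singleton hx'S, finrank_span_singleton hx0]
    obtain ⟨τ'', hτ''U, hτ''Q⟩ := ih (U ⊓ orthQ hQ P) hN (by omega)
    -- the solution of the binary equation
    obtain ⟨α, β, hαβ⟩ : ∃ α β : F, Q x * α ^ 2 + Q x' * β ^ 2 + Q x = 0 := by
      have hf : (Polynomial.C (Q x) * Polynomial.X ^ 2 : Polynomial F).degree = 2 := by
        rw [Polynomial.degree_C_mul_X_pow 2 hxQ]
        rfl
      have hg : (Polynomial.C (Q x') * Polynomial.X ^ 2 + Polynomial.C (Q x) : Polynomial F).degree = 2 := by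
        rw [Polynomial.degree_add_C (by rw [Polynomial.degree_C_mul_X_pow 2 hx'Q]; norm_num),
          Polynomial.degree_C_mul_X_pow 2 hx'Q]
        rfl
      obtain ⟨α, β, h⟩ := FiniteField.exists_root_sum_quadratic hf hg hcard
      refine ⟨α, β, ?_⟩
      simp only [Polynomial.eval_mul, Polynomial.eval_C, Polynomial.eval_pow, Polynomial.eval_X,
        Polynomial.eval_add] at h
      linear_combination h
    obtain ⟨A₁, hA₁⟩ : ∃ A₁, A₁ = α • x + β • x' := ⟨_, rfl⟩
    obtain ⟨A₂, hA₂⟩ : ∃ A₂, A₂ = (Q x' * β / Q x) • x - α • x' := ⟨_, rfl⟩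
    have hA₁U : A₁ ∈ U := by
      rw [hA₁]
      exact U.add_mem (U.smul_mem _ hxU) (U.smul_mem _ hx'U)
    have hA₂U : A₂ ∈ U := by
      rw [hA₂]
      exact U.sub_mem (U.smul_mem _ hxU) (U.smul_mem _ hx'U)
    have hA₁P : A₁ ∈ P := by
      rw [hA₁]
      exact Submodule.add_mem _
        (Submodule.mem_sup_left (Submodule.smul_mem _ _ (Submodule.mem_span_singleton_self x)))
        (Submodule.mem_sup_right (Submodule.smul_mem _ _ (Submodule.mem_span_singleton_self x')))
    have hA₂P : A₂ ∈ P := by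
      rw [hA₂]
      exact Submodule.sub_mem _
        (Submodule.mem_sup_left (Submodule.smul_mem _ _ (Submodule.mem_span_singleton_self x)))
        (Submodule.mem_sup_right (Submodule.smul_mem _ _ (Submodule.mem_span_singleton_self x')))
    have hA₁Q : Q A₁ = - Q x := by
      rw [hA₁, Q_add (Q := Q), hQ.smul, hQ.smul, pol_smul_left hQ, pol_smul_right hQ, hxx']
      linear_combination hαβ
    have hA₂Q : Q A₂ = - Q x' := by
      rw [hA₂, Q_sub hQ, hQ.smul, hQ.smul, pol_smul_left hQ, pol_smul_right hQ, hxx']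
      field_simp
      linear_combination hαβ
    have hA₁₂ : polar Q A₁ A₂ = 0 := by
      simp only [hA₁, hA₂, pol_add_left hQ, pol_sub_right hQ, pol_smul_left hQ, pol_smul_right hQ,
        hxx', hx'x, pol_self hQ]
      field_simp
      ring
    obtain ⟨φ₁, hφ₁⟩ : ∃ φ₁ : (ι → F) →ₗ[F] F, ∀ z, φ₁ z = polar Q z x / (2 * Q x) :=
      ⟨(2 * Q x)⁻¹ • formL hQ x, fun z => by simp [div_eq_mul_inv, mul_comm]⟩
    obtain ⟨φ₂, hφ₂⟩ : ∃ φ₂ : (ι → F) →ₗ[F] F, ∀ z, φ₂ z = polar Q z x' / (2 * Q x') :=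
      ⟨(2 * Q x')⁻¹ • formL hQ x', fun z => by simp [div_eq_mul_inv, mul_comm]⟩
    have h2a : 2 * Q x ≠ 0 := mul_ne_zero h2F hxQ
    have h2b : 2 * Q x' ≠ 0 := mul_ne_zero h2F hx'Q
    have hz'' : ∀ z ∈ U, z - φ₁ z • x - φ₂ z • x' ∈ U ⊓ orthQ hQ P := by
      intro z hz
      refine ⟨U.sub_mem (U.sub_mem hz (U.smul_mem _ hxU)) (U.smul_mem _ hx'U), ?_⟩
      intro t ht
      obtain ⟨p, hp, q, hq, rfl⟩ := Submodule.mem_sup.1 ht
      obtain ⟨s, rfl⟩ := Submodule.mem_span_singleton.1 hp
      obtain ⟨t', rfl⟩ := Submodule.mem_span_singleton.1 hq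
      simp only [pol_sub_left hQ, pol_add_right hQ, pol_smul_right hQ, pol_smul_left hQ, hφ₁, hφ₂,
        hxx', hx'x, pol_self hQ]
      field_simp
      ring
    refine ⟨φ₁.smulRight A₁ + φ₂.smulRight A₂ +
      τ'' ∘ₗ (LinearMap.id - φ₁.smulRight x - φ₂.smulRight x'), ?_, ?_⟩
    · intro z hz
      simp only [LinearMap.add_apply, LinearMap.smulRight_apply, LinearMap.comp_apply,
        LinearMap.sub_apply, LinearMap.id_apply]
      exact U.add_mem (U.add_mem (U.smul_mem _ hA₁U) (U.smul_mem _ hA₂U)) (hτ''U _ (hz'' z hz)).1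
    · intro z hz
      simp only [LinearMap.add_apply, LinearMap.smulRight_apply, LinearMap.comp_apply,
        LinearMap.sub_apply, LinearMap.id_apply]
      have hzN := hz'' z hz
      obtain ⟨z₂, hz₂⟩ : ∃ z₂, z₂ = z - φ₁ z • x - φ₂ z • x' := ⟨_, rfl⟩
      rw [← hz₂] at hzN ⊢
      obtain ⟨s, hs⟩ : ∃ s, s = φ₁ z := ⟨_, rfl⟩
      obtain ⟨t, ht⟩ : ∃ t, t = φ₂ z := ⟨_, rfl⟩
      rw [← hs, ← ht] at hz₂ ⊢
      have hzdec : z = s • x + t • x' + z₂ := by
        rw [hz₂]
        abel
      have hQz : Q z = s ^ 2 * Q x + t ^ 2 * Q x' + Q z₂ := by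
        have hxP : x ∈ P := Submodule.mem_sup_left (Submodule.mem_span_singleton_self x)
        have hx'P : x' ∈ P := Submodule.mem_sup_right (Submodule.mem_span_singleton_self x')
        have h1 : polar Q x z₂ = 0 := by
          rw [QuadraticMap.polar_comm]
          exact hzN.2 x hxP
        have h2 : polar Q x' z₂ = 0 := by
          rw [QuadraticMap.polar_comm]
          exact hzN.2 x' hx'P
        rw [hzdec, Q_add (Q := Q), Q_add (Q := Q), hQ.smul, hQ.smul, pol_smul_left hQ,
          pol_smul_right hQ, hxx', pol_add_left hQ, pol_smul_left hQ, pol_smul_left hQ, h1, h2]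
        ring
      have hτN := hτ''U z₂ hzN
      have h3 : polar Q A₁ (τ'' z₂) = 0 := by
        rw [QuadraticMap.polar_comm]
        exact hτN.2 A₁ hA₁P
      have h4 : polar Q A₂ (τ'' z₂) = 0 := by
        rw [QuadraticMap.polar_comm]
        exact hτN.2 A₂ hA₂P
      rw [Q_add (Q := Q), Q_add (Q := Q), hQ.smul, hQ.smul, pol_smul_left hQ, pol_smul_right hQ, hA₁₂,
        hA₁Q, hA₂Q, hτ''Q z₂ hzN, pol_add_left hQ, pol_smul_left hQ, pol_smul_left hQ, h3, h4, hQz]
      ring

/-- Two isometric orthogonal summands of even dimension force plus type. -/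
theorem plus_of_isometric {U W : Submodule F (ι → F)} (hP : NDPair Q U W) (he : AreIsometricFor Q U W)
    (hev : Even (Module.finrank F U)) : IsPlusTypeOn Q ⊤ := by
  classical
  obtain ⟨e, heQ⟩ := he
  obtain ⟨τ, hτU, hτQ⟩ : ∃ τ : (ι → F) →ₗ[F] (ι → F), (∀ x ∈ U, τ x ∈ U) ∧
      ∀ x ∈ U, Q (τ x) = - Q x := by
    by_cases h2F : (2 : F) = 0
    · refine ⟨LinearMap.id, fun x hx => hx, fun x hx => ?_⟩
      rw [LinearMap.id_apply]
      linear_combination (Q x) * h2F
    · have hcard : Fintype.card F % 2 = 1 := by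
        by_contra h
        have h1 : Fintype.card F % 2 = 0 := by omega
        have h3 := FiniteField.even_card_iff_char_two.2 h1
        apply h2F
        have h4 := ringChar.Nat.cast_ringChar (R := F)
        rw [h3] at h4
        exact_mod_cast h4
      obtain ⟨r, hr⟩ := hev
      exact exists_anti hQ h2F hcard r U (hP.nondegOn hQ) (by omega)
  let ψ : U →ₗ[F] (ι → F) := τ ∘ₗ U.subtype + W.subtype ∘ₗ e.toLinearMap
  have hψ : ∀ u : U, ψ u = τ u + (e u : ι → F) := fun u => rfl
  have hinj : Function.Injective ψ := by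
    rw [← LinearMap.ker_eq_bot, eq_bot_iff]
    intro u hu
    have h1 : τ u + (e u : ι → F) = 0 := LinearMap.mem_ker.1 hu
    have h2 : (e u : ι → F) = - τ u := eq_neg_of_add_eq_zero_right h1
    have h3 : τ u ∈ W := by
      have := W.neg_mem (e u).2
      rw [h2, neg_neg] at this
      exact this
    have h4 : τ u = 0 := hP.inf_eq_zero hQ (hτU _ u.2) h3
    rw [h4, neg_zero] at h2
    have h5 : e u = 0 := Subtype.ext h2
    simpa using h5
  have hfin := LinearMap.finrank_range_of_inj hinj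
  have hadd := hP.finrank_add hQ
  have hdim : Module.finrank F U = Module.finrank F W := e.finrank_eq
  refine ⟨LinearMap.range ψ, le_top, ?_, ?_⟩
  · rintro _ ⟨u, rfl⟩
    rw [hψ, Q_add (Q := Q), hτQ _ u.2, heQ u, hP.orth _ (hτU _ u.2) _ (e u).2]
    ring
  · rw [hfin, finrank_top, Module.finrank_fintype_fun_eq_card]
    omega

end Cfsg.Agent.Lib.QuadAnti
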