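/-
Quadratic forms over the field of two elements with a fixed polarisation:
the Gauss sum, twisting by a vector and the count of the two types.
-/
import Mathlib
import Cfsg.Agent.Lib.QuadPlus

set_option autoImplicit false
set_option linter.all false

open Cfsg Cfsg.Geo
open Cfsg.Agent.Lib.QuadBase
open QuadraticMap (polar)

namespace Cfsg.Agent.Lib.QuadF2

section General

variable {ι : Type} [Fintype ι] [DecidableEq ι]

/-- `q` polarises to the polar form of `Q`. -/
def Pol (Q q : (ι → ZMod 2) → ZMod 2) : Prop := ∀ u v, q (u + v) = q u + q v + polar Q u v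

/-- The twist of `q` by `w`. -/
def twist (Q q : (ι → ZMod 2) → ZMod 2) (w : ι → ZMod 2) : (ι → ZMod 2) → ZMod 2 :=
  fun v => q v + polar Q v w

/-- The additive character of the field of two elements. -/
def chi (a : ZMod 2) : ℤ := if a = 0 then 1 else -1

theorem chi_add : ∀ a b : ZMod 2, chi (a + b) = chi a * chi b := by decide
theorem chi_zero : chi 0 = 1 := by decide
theorem chi_one : chi 1 = -1 := by decide
theorem chi_mul_self : ∀ a : ZMod 2, chi a * chi a = 1 := by decide
theorem zmod2_cases : ∀ c : ZMod 2, c = 0 ∨ c = 1 := by decide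
theorem z2_add_self : ∀ c : ZMod 2, c + c = 0 := by decide

/-- The Gauss sum. -/
def S (q : (ι → ZMod 2) → ZMod 2) : ℤ := ∑ v, chi (q v)

variable {Q : (ι → ZMod 2) → ZMod 2} (hQ : IsNondegenerateQuadraticForm Q)

include hQ

theorem polar_self_zero (w : ι → ZMod 2) : polar Q w w = 0 := by
  rw [pol_self hQ]
  have : (2 : ZMod 2) = 0 := by decide
  rw [this, zero_mul]

theorem pol_zero' {q : (ι → ZMod 2) → ZMod 2} (hq : Pol Q q) : q 0 = 0 := by
  have h := hq 0 0
  rw [add_zero, pol_zero_left hQ, add_zero, z2_add_self] at h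
  exact h

theorem twist_pol {q : (ι → ZMod 2) → ZMod 2} (hq : Pol Q q) (w : ι → ZMod 2) : Pol Q (twist Q q w) := by
  intro u v
  show q (u + v) + polar Q (u + v) w = (q u + polar Q u w) + (q v + polar Q v w) + polar Q u v
  rw [hq, pol_add_left hQ]
  ring

omit hQ in
theorem S_twist {q : (ι → ZMod 2) → ZMod 2} (hq : Pol Q q) (w : ι → ZMod 2) :
    S (twist Q q w) = chi (q w) * S q := by
  have h1 : ∀ v, chi (twist Q q w v) = chi (q w) * chi (q (v + w)) := by
    intro v
    rw [← chi_add, hq v w]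
    congr 1
    show q v + polar Q v w = q w + (q v + q w + polar Q v w)
    generalize q v = a
    generalize q w = b
    generalize polar Q v w = c
    revert a b c
    decide
  unfold S
  rw [Finset.mul_sum, ← Equiv.sum_comp (Equiv.addRight w) (fun v => chi (q w) * chi (q v))]
  exact Finset.sum_congr rfl (fun v _ => h1 v)

theorem char_sum (t : ι → ZMod 2) :
    ∑ u, chi (polar Q u t) = if t = 0 then (Fintype.card (ι → ZMod 2) : ℤ) else 0 := by
  by_cases ht : t = 0
  · subst ht
    rw [if_pos rfl]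
    simp [pol_zero_right hQ, chi_zero]
  · rw [if_neg ht]
    obtain ⟨x, hx⟩ := exists_left_ne hQ ht
    have hx1 : polar Q x t = 1 := (zmod2_cases _).resolve_left hx
    have h1 : ∑ u, chi (polar Q u t) = ∑ u, chi (polar Q (u + x) t) :=
      (Equiv.sum_comp (Equiv.addRight x) (fun u => chi (polar Q u t))).symm
    have h3 : ∀ u, chi (polar Q (u + x) t) = - chi (polar Q u t) := by
      intro u
      rw [pol_add_left hQ, hx1, chi_add, chi_one]
      ring
    rw [Finset.sum_congr rfl (fun u _ => h3 u), Finset.sum_neg_distrib] at h1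
    linarith

theorem S_sq {q : (ι → ZMod 2) → ZMod 2} (hq : Pol Q q) : S q * S q = (Fintype.card (ι → ZMod 2) : ℤ) := by
  have h1 : ∀ u, chi (q u) * S q = ∑ t, chi (q t) * chi (polar Q u t) := by
    intro u
    unfold S
    rw [Finset.mul_sum, ← Equiv.sum_comp (Equiv.addLeft u) (fun v => chi (q u) * chi (q v))]
    apply Finset.sum_congr rfl
    intro t _
    show chi (q u) * chi (q (u + t)) = _
    rw [hq u t, chi_add, chi_add, ← mul_assoc, ← mul_assoc, chi_mul_self, one_mul]
  calc S q * S q = ∑ u, chi (q u) * S q := by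
        show (∑ v, chi (q v)) * S q = _
        rw [Finset.sum_mul]
    _ = ∑ u, ∑ t, chi (q t) * chi (polar Q u t) := Finset.sum_congr rfl (fun u _ => h1 u)
    _ = ∑ t, ∑ u, chi (q t) * chi (polar Q u t) := Finset.sum_comm
    _ = ∑ t, chi (q t) * (if t = 0 then (Fintype.card (ι → ZMod 2) : ℤ) else 0) := by
        apply Finset.sum_congr rfl
        intro t _
        rw [← Finset.mul_sum, char_sum hQ]
    _ = _ := by
        rw [Finset.sum_eq_single 0]
        · rw [if_pos rfl, pol_zero' hQ hq, chi_zero, one_mul]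
        · intro b _ hb
          rw [if_neg hb, mul_zero]
        · simp

theorem S_ne {q : (ι → ZMod 2) → ZMod 2} (hq : Pol Q q) : S q ≠ 0 := by
  intro h
  have h1 := S_sq hQ hq
  rw [h, mul_zero] at h1
  have h3 : 0 < Fintype.card (ι → ZMod 2) := Fintype.card_pos
  omega

/-- A twist by a singular vector is the form composed with a transvection. -/
theorem exists_g {q : (ι → ZMod 2) → ZMod 2} (hq : Pol Q q) {w : ι → ZMod 2} (hw : q w = 0) :
    ∃ g : (ι → ZMod 2) ≃ₗ[ZMod 2] (ι → ZMod 2), ∀ v, twist Q q w v = q (g v) := by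
  let L : (ι → ZMod 2) →ₗ[ZMod 2] (ι → ZMod 2) := LinearMap.id + (formL hQ w).smulRight w
  have hL : ∀ v, L v = v + polar Q v w • w := fun v => rfl
  have hinv : Function.Involutive L := by
    intro v
    rw [hL, hL, pol_add_left hQ, pol_smul_left hQ, polar_self_zero hQ]
    simp only [smul_eq_mul, mul_zero, add_zero]
    rw [add_assoc, ← add_smul, z2_add_self, zero_smul, add_zero]
  refine ⟨LinearEquiv.ofInvolutive L hinv, ?_⟩
  intro v
  show q v + polar Q v w = q (L v)
  rw [hL]
  rcases zmod2_cases (polar Q v w) with h | h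
  · rw [h]
    simp
  · rw [h, one_smul, hq v w, hw, h]
    simp

/-- A twist equivalent to the form is a twist by a singular vector. -/
theorem of_g {q : (ι → ZMod 2) → ZMod 2} (hq : Pol Q q) {w : ι → ZMod 2}
    (h : ∃ g : (ι → ZMod 2) ≃ₗ[ZMod 2] (ι → ZMod 2), ∀ v, twist Q q w v = q (g v)) : q w = 0 := by
  obtain ⟨g, hg⟩ := h
  have h1 : S (twist Q q w) = S q := by
    unfold S
    rw [← Equiv.sum_comp g.toEquiv (fun v => chi (q v))]
    exact Finset.sum_congr rfl (fun v _ => by rw [hg]; rfl)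
  rw [S_twist hq] at h1
  have h3 := S_ne hQ hq
  have h4 : chi (q w) = 1 := mul_right_cancel₀ h3 (by rw [h1, one_mul])
  rcases zmod2_cases (q w) with h5 | h5
  · exact h5
  · rw [h5, chi_one] at h4
    norm_num at h4

omit hQ in
theorem pol_self' : Pol Q Q := by
  intro u v
  simp only [polar]
  ring

/-- Every form with the given polarisation is a twist of the base form. -/
theorem exists_twist {q : (ι → ZMod 2) → ZMod 2} (hq : Pol Q q) : ∃ w, q = twist Q Q w := by
  let φ : (ι → ZMod 2) →+ ZMod 2 := AddMonoidHom.mk' (fun v => q v - Q v) (by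
     intro a b
     show q (a + b) - Q (a + b) = q a - Q a + (q b - Q b)
     rw [hq a b]
     simp only [polar]
     ring)
  obtain ⟨w, hw⟩ := exists_riesz hQ (AddMonoidHom.toZModLinearMap 2 φ)
  refine ⟨w, ?_⟩
  funext v
  show q v = Q v + polar Q v w
  rw [hw v]
  show q v = Q v + (q v - Q v)
  ring

theorem twist_injective {w w' : ι → ZMod 2} (h : twist Q Q w = twist Q Q w') : w = w' := by
  apply formL_injective hQ
  apply LinearMap.ext
  intro v
  have := congrFun h v
  exact add_left_cancel this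

/-- Counting forms through their twisting vectors. -/
theorem card_sub (P : ((ι → ZMod 2) → ZMod 2) → Prop) (R : (ι → ZMod 2) → Prop)
    (h : ∀ w, P (twist Q Q w) ↔ R w) :
    Nat.card {q : (ι → ZMod 2) → ZMod 2 // Pol Q q ∧ P q} = Nat.card {w // R w} := by
  symm
  refine Nat.card_congr (Equiv.ofBijective (fun w => ⟨twist Q Q w.1, twist_pol hQ pol_self' w.1, (h _).2 w.2⟩) ⟨?_, ?_⟩)
  · intro a b hab
    apply Subtype.ext
    exact twist_injective hQ (congrArg Subtype.val hab)
  · rintro ⟨q, hq, hP⟩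
    obtain ⟨w, rfl⟩ := exists_twist hQ hq
    exact ⟨⟨w, (h w).1 hP⟩, rfl⟩

theorem card_pol :
    Nat.card {q : (ι → ZMod 2) → ZMod 2 // Pol Q q} = 2 ^ Fintype.card ι := by
  have h := card_sub hQ (fun _ => True) (fun _ => True) (fun _ => Iff.rfl)
  have h1 : Nat.card {q : (ι → ZMod 2) → ZMod 2 // Pol Q q ∧ True} = Nat.card {q : (ι → ZMod 2) → ZMod 2 // Pol Q q} :=
    Nat.card_congr (Equiv.subtypeEquivRight (by simp))
  rw [← h1, h]
  have h3 : Nat.card {w : ι → ZMod 2 // True} = Nat.card (ι → ZMod 2) :=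
    Nat.card_congr (Equiv.subtypeUnivEquiv (fun _ => trivial))
  rw [h3, Nat.card_eq_fintype_card, Fintype.card_fun, ZMod.card]

omit hQ in
theorem count_sub (q : (ι → ZMod 2) → ZMod 2) :
    (Nat.card {w // q w = 0} : ℤ) - Nat.card {w // q w = 1} = S q := by
  have h1 : S q = ∑ w, ((if q w = 0 then 1 else 0) - (if q w = 1 then 1 else 0) : ℤ) := by
    refine Finset.sum_congr rfl (fun w _ => ?_)
    rcases zmod2_cases (q w) with h | h <;> simp [chi, h]
  rw [h1, Finset.sum_sub_distrib, Finset.sum_boole, Finset.sum_boole, Nat.card_eq_fintype_card,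
    Nat.card_eq_fintype_card, Fintype.card_subtype, Fintype.card_subtype]

omit hQ in
theorem count_add (q : (ι → ZMod 2) → ZMod 2) :
    Nat.card {w // q w = 0} + Nat.card {w // q w = 1} = 2 ^ Fintype.card ι := by
  have h1 : ∑ w, ((if q w = 0 then 1 else 0) + (if q w = 1 then 1 else 0) : ℕ) = ∑ w : ι → ZMod 2, 1 := by
    refine Finset.sum_congr rfl (fun w _ => ?_)
    rcases zmod2_cases (q w) with h | h <;> simp [h]
  rw [Finset.sum_add_distrib, Finset.sum_boole, Finset.sum_boole, Finset.sum_const] at h1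
  rw [Nat.card_eq_fintype_card, Nat.card_eq_fintype_card, Fintype.card_subtype, Fintype.card_subtype]
  simp only [Nat.cast_id] at h1
  rw [h1]
  simp [Fintype.card_fun, ZMod.card]

end General

section Plus

variable (m : ℕ)

theorem S_plus : S (quadFormPlus m (ZMod 2)) = 2 ^ m := by
  let e := Equiv.sumArrowEquivProdArrow (Fin m) (Fin m) (ZMod 2)
  have h1 : S (quadFormPlus m (ZMod 2)) = ∑ p : (Fin m → ZMod 2) × (Fin m → ZMod 2), chi (∑ i, p.1 i * p.2 i) := by
    unfold S
    exact Fintype.sum_equiv e _ _ (fun v => rfl)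
  rw [h1, Fintype.sum_prod_type]
  have h3 : ∀ x : Fin m → ZMod 2, ∑ y : Fin m → ZMod 2, chi (∑ i, x i * y i) = if x = 0 then 2 ^ m else 0 := by
    intro x
    by_cases hx : x = 0
    · subst hx
      rw [if_pos rfl]
      simp [chi_zero, Fintype.card_fun, ZMod.card]
    · rw [if_neg hx]
      obtain ⟨i, hi⟩ := Function.ne_iff.1 hx
      have hi1 : x i = 1 := (zmod2_cases _).resolve_left hi
      have h5 : ∑ y : Fin m → ZMod 2, chi (∑ i, x i * y i) =
          ∑ y : Fin m → ZMod 2, chi (∑ j, x j * (y + (Pi.single i 1 : Fin m → ZMod 2)) j) :=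
        (Equiv.sum_comp (Equiv.addRight (Pi.single i 1 : Fin m → ZMod 2)) (fun y => chi (∑ i, x i * y i))).symm
      have h6 : ∀ y : Fin m → ZMod 2, chi (∑ j, x j * (y + (Pi.single i 1 : Fin m → ZMod 2)) j) = - chi (∑ j, x j * y j) := by
        intro y
        have h7 : ∑ j, x j * (y + (Pi.single i 1 : Fin m → ZMod 2)) j = ∑ j, x j * y j + 1 := by
          simp only [Pi.add_apply, mul_add, Finset.sum_add_distrib]
          congr 1
          rw [Finset.sum_eq_single i]
          · rw [Pi.single_eq_same, hi1, mul_one]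
          · intro b _ hb
            rw [Pi.single_eq_of_ne hb, mul_zero]
          · simp
        rw [h7, chi_add, chi_one]
        ring
      rw [Finset.sum_congr rfl (fun y _ => h6 y), Finset.sum_neg_distrib] at h5
      linarith
  rw [Finset.sum_congr rfl (fun x _ => h3 x), Finset.sum_ite_eq' Finset.univ (0 : Fin m → ZMod 2)]
  simp

theorem plus_nondeg : IsNondegenerateQuadraticForm (quadFormPlus m (ZMod 2)) :=
  Cfsg.Agent.Lib.QuadPlus.quadFormPlus_nondeg m

end Plus

section Minus

variable (k : ℕ)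

/-- The relabelling of coordinates. -/
def idxE : (Fin (k + 1) ⊕ Fin (k + 1)) ≃ ((Fin k ⊕ Fin k) ⊕ Fin 2) where
  toFun := Sum.elim (Fin.lastCases (Sum.inr 0) (fun i => Sum.inl (Sum.inl i)))
    (Fin.lastCases (Sum.inr 1) (fun i => Sum.inl (Sum.inr i)))
  invFun := Sum.elim (Sum.elim (fun i => Sum.inl i.castSucc) (fun i => Sum.inr i.castSucc))
    (fun j => if j = 0 then Sum.inl (Fin.last k) else Sum.inr (Fin.last k))
  left_inv := by
    rintro (i | i) <;> refine Fin.lastCases ?_ (fun j => ?_) i <;> simp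
  right_inv := by
    rintro ((i | i) | j)
    · simp
    · simp
    · fin_cases j <;> simp

/-- The relabelling as a linear equivalence. -/
noncomputable def phiE : (Fin (k + 1) ⊕ Fin (k + 1) → ZMod 2) ≃ₗ[ZMod 2] ((Fin k ⊕ Fin k) ⊕ Fin 2 → ZMod 2) :=
  LinearEquiv.funCongrLeft (ZMod 2) (ZMod 2) (idxE k).symm

/-- The vector turning the hyperbolic form into the minus form. -/
def w₁ : Fin (k + 1) ⊕ Fin (k + 1) → ZMod 2 := Pi.single (Sum.inl (Fin.last k)) 1 + Pi.single (Sum.inr (Fin.last k)) 1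

theorem Q_w₁ : quadFormPlus (k + 1) (ZMod 2) (w₁ k) = 1 := by
  unfold quadFormPlus
  rw [Fin.sum_univ_castSucc]
  have : ∀ i : Fin k, w₁ k (Sum.inr i.castSucc) = 0 := by
    intro i
    have : i.castSucc ≠ Fin.last k := (Fin.castSucc_lt_last i).ne
    simp [w₁, Pi.single_apply, this]
  simp [this, w₁]

theorem polar_w₁ (v : Fin (k + 1) ⊕ Fin (k + 1) → ZMod 2) :
    polar (quadFormPlus (k + 1) (ZMod 2)) v (w₁ k) = v (Sum.inl (Fin.last k)) + v (Sum.inr (Fin.last k)) := by
  rw [Cfsg.Agent.Lib.QuadPlus.quadFormPlus_polar, Fin.sum_univ_castSucc]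
  have h1 : ∀ i : Fin k, w₁ k (Sum.inr i.castSucc) = 0 := by
    intro i
    have : i.castSucc ≠ Fin.last k := (Fin.castSucc_lt_last i).ne
    simp [w₁, Pi.single_apply, this]
  have h3 : ∀ i : Fin k, w₁ k (Sum.inl i.castSucc) = 0 := by
    intro i
    have : i.castSucc ≠ Fin.last k := (Fin.castSucc_lt_last i).ne
    simp [w₁, Pi.single_apply, this]
  simp [h1, h3, w₁]

theorem minus_eq (v : Fin (k + 1) ⊕ Fin (k + 1) → ZMod 2) :
    twist (quadFormPlus (k + 1) (ZMod 2)) (quadFormPlus (k + 1) (ZMod 2)) (w₁ k) v =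
      quadFormMinus k (ZMod 2) 1 1 (phiE k v) := by
  unfold twist
  rw [polar_w₁]
  unfold quadFormPlus quadFormMinus
  rw [Fin.sum_univ_castSucc]
  have h0 : phiE k v (Sum.inr 0) = v (Sum.inl (Fin.last k)) := by
    show v ((idxE k).symm (Sum.inr 0)) = _
    simp [idxE]
  have h1 : phiE k v (Sum.inr 1) = v (Sum.inr (Fin.last k)) := by
    show v ((idxE k).symm (Sum.inr 1)) = _
    simp [idxE]
  have h3 : ∀ i, phiE k v (Sum.inl (Sum.inl i)) = v (Sum.inl i.castSucc) := fun i => rfl
  have h4 : ∀ i, phiE k v (Sum.inl (Sum.inr i)) = v (Sum.inr i.castSucc) := fun i => rfl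
  rw [h0, h1]
  simp only [h3, h4]
  generalize v (Sum.inl (Fin.last k)) = a
  generalize v (Sum.inr (Fin.last k)) = b
  generalize ∑ i : Fin k, v (Sum.inl i.castSucc) * v (Sum.inr i.castSucc) = c
  revert a b c
  decide

/-- The twists of minus type. -/
theorem minus_iff (w : Fin (k + 1) ⊕ Fin (k + 1) → ZMod 2) :
    (∃ g : (Fin (k + 1) ⊕ Fin (k + 1) → ZMod 2) ≃ₗ[ZMod 2] ((Fin k ⊕ Fin k) ⊕ Fin 2 → ZMod 2),
      ∀ v, twist (quadFormPlus (k + 1) (ZMod 2)) (quadFormPlus (k + 1) (ZMod 2)) w v = quadFormMinus k (ZMod 2) 1 1 (g v)) ↔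
      quadFormPlus (k + 1) (ZMod 2) w = 1 := by
  have hQ := plus_nondeg (k + 1)
  have hp : Pol (quadFormPlus (k + 1) (ZMod 2)) (quadFormPlus (k + 1) (ZMod 2)) := pol_self'
  constructor
  · rintro ⟨g, hg⟩
    have h1 : S (twist (quadFormPlus (k + 1) (ZMod 2)) (quadFormPlus (k + 1) (ZMod 2)) w) =
        S (twist (quadFormPlus (k + 1) (ZMod 2)) (quadFormPlus (k + 1) (ZMod 2)) (w₁ k)) := by
      unfold S
      rw [← Equiv.sum_comp (g.trans (phiE k).symm).toEquiv (fun v => chi (twist (quadFormPlus (k + 1) (ZMod 2)) (quadFormPlus (k + 1) (ZMod 2)) (w₁ k) v))]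
      refine Finset.sum_congr rfl (fun v _ => ?_)
      rw [hg, minus_eq]
      congr 2
      simp
    rw [S_twist hp, S_twist hp, Q_w₁, chi_one] at h1
    have h3 := S_ne hQ hp
    rcases zmod2_cases (quadFormPlus (k + 1) (ZMod 2) w) with h5 | h5
    · exfalso
      rw [h5, chi_zero] at h1
      apply h3
      linarith
    · exact h5
  · intro hw
    have hp' := twist_pol hQ hp (w₁ k)
    have h1 : twist (quadFormPlus (k + 1) (ZMod 2)) (quadFormPlus (k + 1) (ZMod 2)) (w₁ k) (w + w₁ k) = 0 := by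
      show quadFormPlus (k + 1) (ZMod 2) (w + w₁ k) + polar (quadFormPlus (k + 1) (ZMod 2)) (w + w₁ k) (w₁ k) = 0
      rw [hp, pol_add_left hQ, polar_self_zero hQ, hw, Q_w₁]
      generalize polar (quadFormPlus (k + 1) (ZMod 2)) w (w₁ k) = c
      revert c
      decide
    obtain ⟨h, hh⟩ := exists_g hQ hp' h1
    refine ⟨h.trans (phiE k), fun v => ?_⟩
    rw [LinearEquiv.trans_apply, ← minus_eq, ← hh]
    show quadFormPlus (k + 1) (ZMod 2) v + polar (quadFormPlus (k + 1) (ZMod 2)) v w =
      (quadFormPlus (k + 1) (ZMod 2) v + polar (quadFormPlus (k + 1) (ZMod 2)) v (w₁ k)) +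
        polar (quadFormPlus (k + 1) (ZMod 2)) v (w + w₁ k)
    rw [pol_add_right hQ]
    generalize polar (quadFormPlus (k + 1) (ZMod 2)) v w = a
    generalize polar (quadFormPlus (k + 1) (ZMod 2)) v (w₁ k) = b
    generalize quadFormPlus (k + 1) (ZMod 2) v = c
    revert a b c
    decide

end Minus

end Cfsg.Agent.Lib.QuadF2
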