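import Cfsg.Agent.Lib.QuadPlane

/-! The stabiliser of a non-degenerate subspace in `Ω`. -/

set_option autoImplicit false
set_option linter.unusedSectionVars false
set_option linter.unusedSimpArgs false
set_option linter.unusedVariables false

open scoped MatrixGroups Matrix commutatorElement
open Cfsg Cfsg.Geo
open Cfsg.Agent.Lib.Transvection Cfsg.Agent.Lib.LinAlgAux Cfsg.Agent.Lib.QuadBase
  Cfsg.Agent.Lib.QuadSiegel Cfsg.Agent.Lib.QuadSim Cfsg.Agent.Lib.SubspaceStab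
  Cfsg.Agent.Lib.QuadStab Cfsg.Agent.Lib.QuadLag Cfsg.Agent.Lib.QuadVec Cfsg.Agent.Lib.QuadPlane
open Cfsg.Agent.Lib.SymplecticTv (Ind finrank_inf_ker_add_one)
open QuadraticMap (polar)

namespace Cfsg.Agent.Lib.QuadNondeg

variable {ι : Type} [Fintype ι] [DecidableEq ι] {F : Type*} [Field F] {Q : (ι → F) → F}

/-- An orthogonal decomposition of the space into two subspaces. -/
structure NDPair (Q : (ι → F) → F) (U W : Submodule F (ι → F)) : Prop where
  orth : ∀ u ∈ U, ∀ w ∈ W, polar Q u w = 0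
  top : U ⊔ W = ⊤

theorem NDPair.symm {U W : Submodule F (ι → F)} (h : NDPair Q U W) : NDPair Q W U :=
  ⟨fun w hw u hu => by rw [QuadraticMap.polar_comm]; exact h.orth u hu w hw,
    by rw [sup_comm]; exact h.top⟩

namespace NDPair

variable {U W : Submodule F (ι → F)} (hP : NDPair Q U W) (hQ : IsNondegenerateQuadraticForm Q)

include hP

theorem decomp (z : ι → F) : ∃ z₁ ∈ U, ∃ z₂ ∈ W, z₁ + z₂ = z := by
  have : z ∈ U ⊔ W := by rw [hP.top]; trivial
  exact Submodule.mem_sup.1 this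

theorem orth' {u w : ι → F} (hu : u ∈ U) (hw : w ∈ W) : polar Q w u = 0 := by
  rw [QuadraticMap.polar_comm]
  exact hP.orth u hu w hw

include hQ

theorem eq_zero_of {x : ι → F} (hx : x ∈ U) (h : ∀ y ∈ U, polar Q x y = 0) : x = 0 := by
  by_contra hne
  obtain ⟨z, hz⟩ := exists_right_ne hQ hne
  obtain ⟨z₁, h1, z₂, h2, rfl⟩ := hP.decomp z
  apply hz
  rw [pol_add_right hQ, h z₁ h1, hP.orth x hx z₂ h2, add_zero]

theorem inf_eq_zero {x : ι → F} (h1 : x ∈ U) (h2 : x ∈ W) : x = 0 :=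
  hP.eq_zero_of hQ h1 fun y hy => hP.orth' hy h2

theorem mem_of_forall {b : ι → F} (h : ∀ w ∈ W, polar Q w b = 0) : b ∈ U := by
  obtain ⟨b₁, h1, b₂, h2, rfl⟩ := hP.decomp b
  have : b₂ = 0 := by
    apply hP.symm.eq_zero_of hQ h2
    intro y hy
    have h3 := h y hy
    rw [pol_add_right hQ, hP.orth' h1 hy, zero_add] at h3
    rw [QuadraticMap.polar_comm, h3]
  rw [this, add_zero]
  exact h1

theorem exists_ne {x : ι → F} (hx : x ∈ U) (hx0 : x ≠ 0) : ∃ y ∈ U, polar Q x y ≠ 0 := by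
  by_contra hcon
  push Not at hcon
  exact hx0 (hP.eq_zero_of hQ hx hcon)

theorem nondegOn : IsNondegenerateOn (polar Q) U := by
  intro u hu hu0
  obtain ⟨y, hy, hyu⟩ := hP.exists_ne hQ hu hu0
  exact ⟨⟨y, hy, by rw [QuadraticMap.polar_comm]; exact hyu⟩, ⟨y, hy, hyu⟩⟩

theorem finrank_add [Fintype F] : Module.finrank F U + Module.finrank F W = Fintype.card ι := by
  have h1 := Submodule.finrank_sup_add_finrank_inf_eq U W
  have h2 : U ⊓ W = ⊥ := by
    rw [eq_bot_iff]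
    intro x hx
    exact hP.inf_eq_zero hQ hx.1 hx.2
  rw [h2, hP.top, finrank_top, finrank_bot, Module.finrank_fintype_fun_eq_card] at h1
  omega

/-- Dual vectors. -/
theorem exists_dual [Fintype F] {K : Submodule F (ι → F)} (hK : K ≤ U) {x : ι → F} (hx : x ∈ U)
    (hxK : x ∉ K) : ∃ b ∈ U, (∀ y ∈ K, polar Q y b = 0) ∧ polar Q x b = 1 := by
  have hs : x ∉ K ⊔ W := by
    intro hm
    obtain ⟨k, hk, w, hw, hkw⟩ := Submodule.mem_sup.1 hm
    apply hxK
    have h0 : x - k = 0 := by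
      apply hP.inf_eq_zero hQ (U.sub_mem hx (hK hk))
      rw [← hkw]
      simpa using hw
    rw [sub_eq_zero.1 h0]
    exact hk
  obtain ⟨φ, h1, h2⟩ := exists_functional_of_notMem hs
  obtain ⟨b, hb⟩ := exists_riesz hQ φ
  refine ⟨b, hP.mem_of_forall hQ (fun w hw => ?_), fun y hy => ?_, ?_⟩
  · rw [hb]
    exact h2 w (Submodule.mem_sup_right hw)
  · rw [hb]
    exact h2 y (Submodule.mem_sup_left hy)
  · rw [hb, h1]

/-- A hyperbolic pair inside `U` orthogonal to a list. -/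
theorem exists_hyp_in [Fintype F] (l : List (ι → F))
    (hl : 2 * l.length + 3 ≤ Module.finrank F U) :
    ∃ h ∈ U, ∃ h' ∈ U, Q h = 0 ∧ Q h' = 0 ∧ polar Q h' h = 1 ∧
      ∀ a ∈ l, polar Q h a = 0 ∧ polar Q h' a = 0 := by
  classical
  have hproj : ∀ a : ι → F, ∃ a₁ ∈ U, ∃ a₂ ∈ W, a₁ + a₂ = a := hP.decomp
  choose pU hpU pW hpW hpUW using hproj
  set T : Submodule F (ι → F) := Submodule.span F {x | x ∈ l.map pU} with hT
  have hTU : T ≤ U := by
    rw [Submodule.span_le]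
    intro x hx
    obtain ⟨a, -, rfl⟩ := List.mem_map.1 hx
    exact hpU a
  have hTr : Module.finrank F T ≤ l.length := by
    have h1 := finrank_span_finset_le_card (R := F) (l.map pU).toFinset
    have h2 : (l.map pU).toFinset.card ≤ (l.map pU).length := List.toFinset_card_le _
    have h3 : Set.finrank F (((l.map pU).toFinset : Finset (ι → F)) : Set (ι → F)) =
        Module.finrank F T := by
      have e : (((l.map pU).toFinset : Finset (ι → F)) : Set (ι → F)) = {x | x ∈ l.map pU} := by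
        ext x
        simp
      rw [e]
      rfl
    rw [List.length_map] at h2
    omega
  obtain ⟨C, hC⟩ := Submodule.exists_isCompl T
  have hCr := Submodule.finrank_add_eq_of_isCompl hC
  rw [Module.finrank_fintype_fun_eq_card] at hCr
  have hCU := Submodule.finrank_sup_add_finrank_inf_eq C U
  have hCU2 := Submodule.finrank_le (C ⊔ U)
  rw [Module.finrank_fintype_fun_eq_card] at hCU2
  have h1 := finrank_perpList hQ l (C ⊓ U)
  obtain ⟨y, hy, hy0, hyy⟩ := exists_singular_of_finrank hQ (U := perpList hQ l (C ⊓ U)) (by omega)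
  obtain ⟨hyC, hyl⟩ := mem_perpList hQ hy
  have hyT : y ∉ T := by
    intro h
    have : y ∈ T ⊓ C := ⟨h, hyC.1⟩
    rw [hC.inf_eq_bot] at this
    exact hy0 this
  obtain ⟨z, hzU, hzT, hyz⟩ := hP.exists_dual hQ hTU hyC.2 hyT
  have hzy : polar Q z y = 1 := by rw [QuadraticMap.polar_comm, hyz]
  have hyy2 : polar Q y y = 0 := by rw [pol_self hQ, hyy, mul_zero]
  refine ⟨y, hyC.2, z - Q z • y, U.sub_mem hzU (U.smul_mem _ hyC.2), hyy, ?_, ?_, ?_⟩
  · rw [Q_sub hQ, hQ.smul, hyy, pol_smul_right hQ, hzy]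
    ring
  · rw [pol_sub_left hQ, pol_smul_left hQ, hzy, hyy2]
    ring
  · intro a ha
    have haT : pU a ∈ T := Submodule.subset_span (List.mem_map.2 ⟨a, ha, rfl⟩)
    have h2 : polar Q z a = 0 := by
      rw [← hpUW a, pol_add_right hQ, hP.orth z hzU _ (hpW a), add_zero, QuadraticMap.polar_comm]
      exact hzT _ haT
    refine ⟨hyl a ha, ?_⟩
    rw [pol_sub_left hQ, pol_smul_left hQ, h2, hyl a ha]
    ring

/-- A partner of a non-zero singular vector. -/
theorem exists_partner [Fintype F] {x : ι → F} (hx : x ∈ U) (hx0 : x ≠ 0) (hxQ : Q x = 0) :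
    ∃ x' ∈ U, Q x' = 0 ∧ polar Q x' x = 1 := by
  obtain ⟨y, hy, hxy⟩ := hP.exists_ne hQ hx hx0
  have hxx : polar Q x x = 0 := by rw [pol_self hQ, hxQ, mul_zero]
  have h1 : polar Q ((polar Q x y)⁻¹ • y) x = 1 := by
    rw [pol_smul_left hQ, QuadraticMap.polar_comm Q y x, inv_mul_cancel₀ hxy]
  obtain ⟨z, hzU, hz⟩ : ∃ z ∈ U, polar Q z x = 1 := ⟨_, U.smul_mem _ hy, h1⟩
  refine ⟨z - Q z • x, U.sub_mem hzU (U.smul_mem _ hx), ?_, ?_⟩
  · rw [Q_sub hQ, hQ.smul, hxQ, pol_smul_right hQ, QuadraticMap.polar_comm Q z x,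
      QuadraticMap.polar_comm Q x z, hz]
    ring
  · rw [pol_sub_left hQ, pol_smul_left hQ, hz, hxx]
    ring

end NDPair

/-- A non-degenerate subspace and its orthogonal complement. -/
theorem ndpair_of_nondeg [Fintype F] (hQ : IsNondegenerateQuadraticForm Q) {W : Submodule F (ι → F)}
    (hW : IsNondegenerateOn (polar Q) W) : NDPair Q (orthQ hQ W) W := by
  refine ⟨fun u hu w hw => hu w hw, ?_⟩
  have hinf : orthQ hQ W ⊓ W = ⊥ := by
    rw [eq_bot_iff]
    intro x hx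
    by_contra hne
    obtain ⟨⟨y, hy, hyx⟩, -⟩ := hW x hx.2 hne
    apply hyx
    rw [QuadraticMap.polar_comm]
    exact hx.1 y hy
  have h1 := Submodule.finrank_sup_add_finrank_inf_eq (orthQ hQ W) W
  have h2 := finrank_orthQ hQ W
  rw [hinf, finrank_bot] at h1
  apply Submodule.eq_top_of_finrank_eq
  rw [Module.finrank_fintype_fun_eq_card]
  omega

section Irred

variable [Fintype F]

/-- The irreducibility of the isometry group of a non-degenerate space on that space, apart from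
hyperbolic planes over small fields. -/
theorem irreducible_W (hQ : IsNondegenerateQuadraticForm Q) {U W : Submodule F (ι → F)}
    (hP : NDPair Q U W) {A : Submodule F (ι → F)} (hAW : A ≤ W) (hA0 : A ≠ ⊥)
    (hrf : ∀ u ∈ W, Q u ≠ 0 → ∀ x ∈ A, ((rf hQ u : GL ι F) : Matrix ι ι F) *ᵥ x ∈ A)
    (hsg : ∀ p ∈ W, ∀ r ∈ W, Q p = 0 → polar Q p r = 0 → ∀ x ∈ A,
      ((sg hQ p r : GL ι F) : Matrix ι ι F) *ᵥ x ∈ A)
    (hex : ¬ (Fintype.card F ≤ 3 ∧ Module.finrank F W = 2 ∧ IsPlusTypeOn Q W)) : W ≤ A := by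
  classical
  by_contra hne
  obtain ⟨y₀, hy₀W, hy₀A⟩ := SetLike.not_le_iff_exists.1 hne
  have hS := hP.symm
  obtain ⟨y, hyW, hyA, hyy₀⟩ := hS.exists_dual hQ hAW hy₀W hy₀A
  have hy0 : y ≠ 0 := by
    rintro rfl
    rw [pol_zero_right hQ] at hyy₀
    exact zero_ne_one hyy₀
  obtain ⟨w₀, hw₀, hw₀0⟩ := Submodule.exists_mem_ne_zero_of_ne_bot hA0
  have hw₀W := hAW hw₀
  have hR : ∀ u ∈ W, Q u ≠ 0 → polar Q w₀ u ≠ 0 → polar Q u y = 0 := by
    intro u hu huQ hwu
    have h1 := hrf u hu huQ w₀ hw₀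
    rw [rf_mulVec hQ huQ] at h1
    have h2 : (polar Q w₀ u / Q u) • u ∈ A := by simpa using A.sub_mem hw₀ h1
    have h3 : u ∈ A := by
      have := A.smul_mem (polar Q w₀ u / Q u)⁻¹ h2
      rwa [smul_smul, inv_mul_cancel₀ (div_ne_zero hwu huQ), one_smul] at this
    exact hyA u h3
  obtain ⟨x₁, hx₁, hx₁w⟩ := hS.exists_ne hQ hw₀W hw₀0
  obtain ⟨x₂, hx₂, hx₂y⟩ := hS.exists_ne hQ hyW hy0
  obtain ⟨p, hpW, hp1, hp2⟩ : ∃ p ∈ W, polar Q w₀ p ≠ 0 ∧ polar Q y p ≠ 0 := by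
    by_cases h1 : polar Q y x₁ = 0
    · by_cases h2 : polar Q w₀ x₂ = 0
      · refine ⟨x₁ + x₂, W.add_mem hx₁ hx₂, ?_, ?_⟩
        · rw [pol_add_right hQ, h2, add_zero]
          exact hx₁w
        · rw [pol_add_right hQ, h1, zero_add]
          exact hx₂y
      · exact ⟨x₂, hx₂, h2, hx₂y⟩
    · exact ⟨x₁, hx₁, hx₁w, h1⟩
  have hpQ : Q p = 0 := by
    by_contra h
    apply hp2
    rw [QuadraticMap.polar_comm]
    exact hR p hpW h hp1
  have hp0 : p ≠ 0 := by
    rintro rfl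
    exact hp1 (pol_zero_right hQ w₀)
  have hpy : polar Q p y = polar Q y p := QuadraticMap.polar_comm Q p y
  have hT : ∀ r ∈ W, polar Q p r = 0 →
      polar Q w₀ p * polar Q r y - polar Q y p * polar Q w₀ r -
        polar Q w₀ p * polar Q y p * Q r = 0 := by
    intro r hr hpr
    have h1 := hsg p hpW r hr hpQ hpr w₀ hw₀
    rw [sg_mulVec hQ hpQ hpr] at h1
    have h2 := hyA _ h1
    simp only [pol_sub_left hQ, pol_add_left hQ, pol_smul_left hQ] at h2
    rw [hyA w₀ hw₀, hpy] at h2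
    linear_combination h2
  have hiso : ∀ r ∈ W, ∀ r' ∈ W, polar Q p r = 0 → polar Q p r' = 0 → polar Q r r' = 0 := by
    intro r hr r' hr' hpr hpr'
    have h1 := hT r hr hpr
    have h2 := hT r' hr' hpr'
    have h3 := hT (r + r') (W.add_mem hr hr') (by rw [pol_add_right hQ, hpr, hpr', add_zero])
    rw [pol_add_left hQ, pol_add_right hQ, Q_add (Q := Q)] at h3
    have h4 : polar Q w₀ p * polar Q y p * polar Q r r' = 0 := by
      linear_combination h1 + h2 - h3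
    exact (mul_eq_zero.1 h4).resolve_left (mul_ne_zero hp1 hp2)
  have hspan : ∀ r ∈ W, polar Q p r = 0 → r ∈ Submodule.span F {p} := by
    intro r hr hpr
    by_contra hrp
    have hK : Submodule.span F {p} ≤ W := by
      rw [Submodule.span_le]
      rintro z rfl
      exact hpW
    obtain ⟨r', hr', hr'K, hrr'⟩ := hS.exists_dual hQ hK hr hrp
    have h1 := hiso r hr r' hr' hpr (hr'K p (Submodule.mem_span_singleton_self p))
    rw [hrr'] at h1
    exact one_ne_zero h1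
  have hk2 : Module.finrank F W ≤ 2 := by
    have h1 := finrank_inf_ker_add_one W (formL hQ p)
    have h2 : (W ⊓ LinearMap.ker (formL hQ p) : Submodule F (ι → F)) ≤ Submodule.span F {p} := by
      intro r hr
      apply hspan r hr.1
      rw [QuadraticMap.polar_comm]
      exact hr.2
    have h3 := Submodule.finrank_mono h2
    rw [finrank_span_singleton hp0] at h3
    omega
  have hk0 : 0 < Module.finrank F W := by
    rw [Module.finrank_pos_iff_exists_ne_zero]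
    exact ⟨⟨w₀, hw₀W⟩, fun h => hw₀0 (congrArg Subtype.val h)⟩
  have hK : Submodule.span F {w₀} ≤ W := by
    rw [Submodule.span_le]
    rintro z rfl
    exact hw₀W
  by_cases hk1 : Module.finrank F W = 1
  · have h1 : Submodule.span F {w₀} = W := by
      apply Submodule.eq_of_le_of_finrank_eq hK
      rw [finrank_span_singleton hw₀0, hk1]
    apply hy₀A
    rw [← h1] at hy₀W
    obtain ⟨l, rfl⟩ := Submodule.mem_span_singleton.1 hy₀W
    exact A.smul_mem _ hw₀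
  have hk : Module.finrank F W = 2 := by omega
  have hplus : IsPlusTypeOn Q W := by
    refine ⟨Submodule.span F {p}, ?_, ?_, ?_⟩
    · rw [Submodule.span_le]
      rintro z rfl
      exact hpW
    · intro x hx
      obtain ⟨l, rfl⟩ := Submodule.mem_span_singleton.1 hx
      rw [hQ.smul, hpQ, mul_zero]
    · rw [finrank_span_singleton hp0, hk]
  have hq : 3 < Fintype.card F := by
    by_contra h
    exact hex ⟨by omega, hk, hplus⟩
  obtain ⟨h₁, hh₁, h₂, hh₂, hh₁Q, hh₂Q, h₂₁, hspan2⟩ :=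
    exists_hyp_plane hQ hk (hS.nondegOn hQ) hplus
  have h₁₂ : polar Q h₁ h₂ = 1 := by rw [QuadraticMap.polar_comm]; exact h₂₁
  have hne0 : ∀ z ∈ W, z ≠ 0 → polar Q z h₁ ≠ 0 ∨ polar Q z h₂ ≠ 0 := by
    intro z hz hz0
    by_contra hcon
    push Not at hcon
    obtain ⟨x, hx, hzx⟩ := hS.exists_ne hQ hz hz0
    obtain ⟨α, β, rfl⟩ := hspan2 x hx
    apply hzx
    rw [pol_add_right hQ, pol_smul_right hQ, pol_smul_right hQ, hcon.1, hcon.2]
    ring
  -- the choice of `μ`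
  have hroot : ∀ a₁ a₂ : F, (a₁ ≠ 0 ∨ a₂ ≠ 0) → ∃ m : F, ∀ μ, a₁ + μ * a₂ = 0 → μ = m := by
    intro a₁ a₂ h
    by_cases ha : a₂ = 0
    · refine ⟨0, fun μ hμ => ?_⟩
      rw [ha, mul_zero, add_zero] at hμ
      rcases h with h | h
      · exact absurd hμ h
      · exact absurd ha h
    · refine ⟨-a₁ / a₂, fun μ hμ => ?_⟩
      field_simp
      linear_combination hμ
  obtain ⟨m₁, hm₁⟩ := hroot _ _ (hne0 w₀ hw₀W hw₀0)
  obtain ⟨m₂, hm₂⟩ := hroot _ _ (hne0 y hyW hy0)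
  obtain ⟨μ, hμ⟩ : ∃ μ : F, μ ∉ ({0, m₁, m₂} : Finset F) := by
    by_contra hcon
    push Not at hcon
    have h1 : ({0, m₁, m₂} : Finset F) = Finset.univ := Finset.eq_univ_iff_forall.2 hcon
    have h2 : ({0, m₁, m₂} : Finset F).card ≤ 3 := Finset.card_le_three
    rw [h1, Finset.card_univ] at h2
    omega
  simp only [Finset.mem_insert, Finset.mem_singleton, not_or] at hμ
  obtain ⟨hμ0, hμ1, hμ2⟩ := hμ
  set u := h₁ + μ • h₂ with hu
  have huW : u ∈ W := W.add_mem hh₁ (W.smul_mem _ hh₂)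
  have huQ : Q u ≠ 0 := by
    rw [hu, Q_add (Q := Q), hQ.smul, hh₁Q, hh₂Q, pol_smul_right hQ, h₁₂]
    simpa using hμ0
  have hw₀u : polar Q w₀ u ≠ 0 := by
    rw [hu, pol_add_right hQ, pol_smul_right hQ]
    intro h
    exact hμ1 (hm₁ μ h)
  have hyu : polar Q y u ≠ 0 := by
    rw [hu, pol_add_right hQ, pol_smul_right hQ]
    intro h
    exact hμ2 (hm₂ μ h)
  apply hyu
  rw [QuadraticMap.polar_comm]
  exact hR u huW huQ hw₀u

end Irred

section Main

variable [Fintype F] {U W : Submodule F (ι → F)} (hQ : IsNondegenerateQuadraticForm Q)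
  (hP : NDPair Q U W)

include hQ hP

theorem sg_U_fix {a b x : ι → F} (ha : a ∈ U) (hb : b ∈ U) (hQa : Q a = 0) (hab : polar Q a b = 0)
    (hx : x ∈ W) : ((sg hQ a b : GL ι F) : Matrix ι ι F) *ᵥ x = x := by
  rw [sg_mulVec hQ hQa hab, hP.orth' ha hx, hP.orth' hb hx]
  simp

theorem sg_U_mem {a b : ι → F} (ha : a ∈ U) (hb : b ∈ U) (hQa : Q a = 0) (hab : polar Q a b = 0) :
    sg hQ a b ∈ subspaceStabilizer W ⊓ sigmaG hQ := by
  refine ⟨mem_stab_of_map' fun x hx => ?_, sg_mem_sigmaG hQ hQa hab⟩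
  rw [sg_U_fix hQ hP ha hb hQa hab hx]
  exact hx

theorem stab_orth {g : GL ι F} (hg : QIsom Q g) (hs : g ∈ subspaceStabilizer U) :
    g ∈ subspaceStabilizer W := by
  apply mem_stab_of_map'
  intro w hw
  apply hP.symm.mem_of_forall hQ
  intro u hu
  have h1 : ((g⁻¹ : GL ι F) : Matrix ι ι F) *ᵥ u ∈ U := (subspaceStabilizer U).inv_mem hs u |>.1 hu
  rw [← hg.pol_inv]
  exact hP.orth _ h1 w hw

theorem stab_inf_eq : subspaceStabilizer U ⊓ sigmaG hQ = subspaceStabilizer W ⊓ sigmaG hQ := by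
  ext g
  constructor
  · intro h
    exact ⟨stab_orth hQ hP (sigmaG_isom hQ h.2) h.1, h.2⟩
  · intro h
    exact ⟨stab_orth hQ hP.symm (sigmaG_isom hQ h.2) h.1, h.2⟩

/-- A singular vector of `U` moved off `U`. -/
theorem exists_sing_moved (hUd : 7 ≤ Module.finrank F U) {g : GL ι F} (hg : QIsom Q g)
    (hs : g ∉ subspaceStabilizer W) :
    ∃ a₀ ∈ U, Q a₀ = 0 ∧ (g : Matrix ι ι F) *ᵥ a₀ ∉ U := by
  by_contra hcon
  push Not at hcon
  apply hs
  apply stab_orth hQ hP hg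
  apply mem_stab_of_map'
  obtain ⟨h, hhU, h', hh'U, hh, hh', hh'h, -⟩ := hP.exists_hyp_in hQ [] (by simp; omega)
  intro y hy
  refine sing_induction hQ (Y := U) (h := h) (h' := h') hhU hh'U hh hh' hh'h
    (fun y => (g : Matrix ι ι F) *ᵥ y ∈ U) ?_ ?_ hy
  · intro a ha haQ
    exact hcon a ha haQ
  · intro a _ b _ h1 h2
    rw [Matrix.mulVec_add]
    exact U.add_mem h1 h2

/-- A vector of `U` whose orthogonal complement is mapped into `W` gives an isometry. -/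
theorem isom_of_map (hdim : Module.finrank F W ≤ Module.finrank F U) {g : GL ι F} (hg : QIsom Q g)
    {a : ι → F} (ha : a ∈ U) (ha0 : a ≠ 0) (haQ : Q a = 0)
    (h : ∀ b ∈ U, polar Q a b = 0 → (g : Matrix ι ι F) *ᵥ b ∈ W) : AreIsometricFor Q U W := by
  classical
  obtain ⟨a₁, ha₁, ha₁Q, ha₁a⟩ := hP.exists_partner hQ ha ha0 haQ
  have haa₁ : polar Q a a₁ = 1 := by rw [QuadraticMap.polar_comm]; exact ha₁a
  have haa : polar Q a a = 0 := by rw [pol_self hQ, haQ, mul_zero]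
  obtain ⟨e₁, he₁, e₂, he₂, he⟩ := hP.decomp ((g : Matrix ι ι F) *ᵥ a₁)
  have hga : (g : Matrix ι ι F) *ᵥ a ∈ W := h a ha haa
  have hb₀ : ∀ x ∈ U, polar Q a x = 0 → polar Q e₂ ((g : Matrix ι ι F) *ᵥ x) = polar Q a₁ x := by
    intro x hx hax
    rw [← hg.pol a₁ x, ← he, pol_add_left hQ, hP.orth e₁ he₁ _ (h x hx hax), zero_add]
  have hb₀a : polar Q e₂ ((g : Matrix ι ι F) *ᵥ a) = 1 := by
    rw [hb₀ a ha haa, ha₁a]
  obtain ⟨b₁, hb₁def⟩ : ∃ b₁, b₁ = e₂ - Q e₂ • ((g : Matrix ι ι F) *ᵥ a) := ⟨_, rfl⟩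
  have hb₁W : b₁ ∈ W := by
    rw [hb₁def]
    exact W.sub_mem he₂ (W.smul_mem _ hga)
  have hga0 : Q ((g : Matrix ι ι F) *ᵥ a) = 0 := by rw [hg, haQ]
  have hb₁Q : Q b₁ = 0 := by
    rw [hb₁def, Q_sub hQ, hQ.smul, hga0, pol_smul_right hQ, hb₀a]
    ring
  have hb₁x : ∀ x ∈ U, polar Q a x = 0 → polar Q b₁ ((g : Matrix ι ι F) *ᵥ x) = polar Q a₁ x := by
    intro x hx hax
    rw [hb₁def, pol_sub_left hQ, pol_smul_left hQ, hb₀ x hx hax, hg.pol, hax]
    ring
  -- the linear map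
  let Θ : (ι → F) →ₗ[F] (ι → F) :=
    glLin g ∘ₗ (LinearMap.id - (formL hQ a).smulRight a₁) + (formL hQ a).smulRight b₁
  have hΘ : ∀ x, Θ x = (g : Matrix ι ι F) *ᵥ (x - polar Q x a • a₁) + polar Q x a • b₁ := by
    intro x
    simp [Θ]
  have hy : ∀ x, polar Q a (x - polar Q x a • a₁) = 0 := by
    intro x
    rw [pol_sub_right hQ, pol_smul_right hQ, haa₁, QuadraticMap.polar_comm Q a x]
    ring
  have hΘW : ∀ x ∈ U, Θ x ∈ W := by
    intro x hx
    rw [hΘ]
    exact W.add_mem (h _ (U.sub_mem hx (U.smul_mem _ ha₁)) (hy x)) (W.smul_mem _ hb₁W)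
  have hΘQ : ∀ x ∈ U, Q (Θ x) = Q x := by
    intro x hx
    have hyU : x - polar Q x a • a₁ ∈ U := U.sub_mem hx (U.smul_mem _ ha₁)
    rw [hΘ, Q_add (Q := Q), hg, hQ.smul, hb₁Q, pol_smul_right hQ,
      QuadraticMap.polar_comm Q _ b₁, hb₁x _ hyU (hy x)]
    conv_rhs => rw [show x = (x - polar Q x a • a₁) + polar Q x a • a₁ by abel]
    rw [Q_add (Q := Q), hQ.smul, ha₁Q, pol_smul_right hQ,
      QuadraticMap.polar_comm Q (x - polar Q x a • a₁) a₁]
  have hΘpol : ∀ x ∈ U, ∀ v ∈ U, polar Q (Θ x) (Θ v) = polar Q x v := by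
    intro x hx v hv
    simp only [polar]
    rw [← map_add, hΘQ _ (U.add_mem hx hv), hΘQ x hx, hΘQ v hv]
  have hinj : Function.Injective (Θ.restrict hΘW) := by
    rw [← LinearMap.ker_eq_bot, eq_bot_iff]
    rintro ⟨x, hx⟩ hx0
    have hx1 : Θ x = 0 := congrArg Subtype.val (LinearMap.mem_ker.1 hx0)
    have hx2 : x = 0 := by
      apply hP.eq_zero_of hQ hx
      intro v hv
      rw [← hΘpol x hx v hv, hx1, pol_zero_left hQ]
    simp [hx2]
  have hfin : Module.finrank F U = Module.finrank F W :=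
    le_antisymm (LinearMap.finrank_le_finrank_of_injective hinj) hdim
  refine ⟨LinearMap.linearEquivOfInjective _ hinj hfin, fun w => ?_⟩
  simpa using hΘQ w w.2

/-- A pair of vectors of `U` adapted to an element moving `W`. -/
theorem exists_pair (hUd : 7 ≤ Module.finrank F U) (hdim : Module.finrank F W ≤ Module.finrank F U)
    (hni : ¬ AreIsometricFor Q U W) {g : GL ι F} (hg : QIsom Q g)
    (hs : g ∉ subspaceStabilizer W) :
    ∃ a ∈ U, ∃ b ∈ U, Q a = 0 ∧ polar Q a b = 0 ∧ ∃ c₁ ∈ U, ∃ c₂ ∈ W, ∃ d₁ ∈ U, ∃ d₂ ∈ W,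
      c₁ + c₂ = (g : Matrix ι ι F) *ᵥ a ∧ d₁ + d₂ = (g : Matrix ι ι F) *ᵥ b ∧ c₂ ≠ 0 ∧
      d₁ ∉ Submodule.span F {c₁} := by
  classical
  obtain ⟨a₀, ha₀, ha₀Q, hga₀⟩ := exists_sing_moved hQ hP hUd hg hs
  obtain ⟨c₁, hc₁, c₂, hc₂, hc⟩ := hP.decomp ((g : Matrix ι ι F) *ᵥ a₀)
  have hc₂0 : c₂ ≠ 0 := by
    rintro rfl
    apply hga₀
    rw [← hc, add_zero]
    exact hc₁
  by_cases hI : ∃ b ∈ U, polar Q a₀ b = 0 ∧ ∃ d₁ ∈ U, ∃ d₂ ∈ W,
      d₁ + d₂ = (g : Matrix ι ι F) *ᵥ b ∧ d₁ ∉ Submodule.span F {c₁}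
  · obtain ⟨b, hb, hab, d₁, hd₁, d₂, hd₂, hd, hdS⟩ := hI
    exact ⟨a₀, ha₀, b, hb, ha₀Q, hab, c₁, hc₁, c₂, hc₂, d₁, hd₁, d₂, hd₂, hc, hd, hc₂0, hdS⟩
  push Not at hI
  obtain ⟨z, hzU, hz⟩ : ∃ z ∈ U, c₁ ≠ 0 → polar Q c₁ z = 1 := by
    by_cases hc₁0 : c₁ = 0
    · exact ⟨0, U.zero_mem, fun h => absurd hc₁0 h⟩
    · obtain ⟨z, hzU, -, hz⟩ := hP.exists_dual hQ (K := ⊥) bot_le hc₁ (by simpa using hc₁0)
      exact ⟨z, hzU, fun _ => hz⟩
  set X : Submodule F (ι → F) := U ⊓ LinearMap.ker (formL hQ a₀) ⊓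
    LinearMap.ker (formL hQ (((g⁻¹ : GL ι F) : Matrix ι ι F) *ᵥ z)) with hX
  have hX3 : 3 ≤ Module.finrank F X := by
    have h1 := finrank_inf_ker_add_one U (formL hQ a₀)
    have h2 : Module.finrank F (U ⊓ LinearMap.ker (formL hQ a₀) : Submodule F (ι → F)) ≤
        Module.finrank F X + 1 := finrank_inf_ker_add_one _ _
    omega
  obtain ⟨a, haX, ha0, haQ⟩ := exists_singular_of_finrank hQ hX3
  have haU : a ∈ U := haX.1.1
  have ha₀a : polar Q a₀ a = 0 := by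
    rw [QuadraticMap.polar_comm]
    exact haX.1.2
  have haz : polar Q ((g : Matrix ι ι F) *ᵥ a) z = 0 := by
    have h1 : polar Q a (((g⁻¹ : GL ι F) : Matrix ι ι F) *ᵥ z) = 0 := haX.2
    rw [← hg.pol, gl_mulVec_inv_mulVec] at h1
    exact h1
  have hgaW : (g : Matrix ι ι F) *ᵥ a ∈ W := by
    obtain ⟨d₁, hd₁, d₂, hd₂, hd⟩ := hP.decomp ((g : Matrix ι ι F) *ᵥ a)
    have h1 := hI a haU ha₀a d₁ hd₁ d₂ hd₂ hd
    obtain ⟨l, hl⟩ := Submodule.mem_span_singleton.1 h1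
    have h2 : d₁ = 0 := by
      by_cases hc₁0 : c₁ = 0
      · rw [← hl, hc₁0, smul_zero]
      · have h3 := hz hc₁0
        have h4 : polar Q (d₁ + d₂) z = 0 := by rw [hd, haz]
        rw [pol_add_left hQ, ← hl, pol_smul_left hQ, h3, hP.orth' hzU hd₂, mul_one, add_zero] at h4
        rw [← hl, h4, zero_smul]
    rw [← hd, h2, zero_add]
    exact hd₂
  have hga0 : (g : Matrix ι ι F) *ᵥ a ≠ 0 := by
    intro h
    apply ha0
    have := gl_inv_mulVec_mulVec g a
    rw [h, Matrix.mulVec_zero] at this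
    exact this.symm
  by_cases hII : ∃ b ∈ U, polar Q a b = 0 ∧ (g : Matrix ι ι F) *ᵥ b ∉ W
  · obtain ⟨b, hb, hab, hgb⟩ := hII
    obtain ⟨d₁, hd₁, d₂, hd₂, hd⟩ := hP.decomp ((g : Matrix ι ι F) *ᵥ b)
    refine ⟨a, haU, b, hb, haQ, hab, 0, U.zero_mem, _, hgaW, d₁, hd₁, d₂, hd₂, by rw [zero_add],
      hd, hga0, ?_⟩
    intro h1
    obtain ⟨l, hl⟩ := Submodule.mem_span_singleton.1 h1
    rw [smul_zero] at hl
    apply hgb
    rw [← hd, ← hl, zero_add]
    exact hd₂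
  · push Not at hII
    exact absurd (isom_of_map hQ hP hdim hg haU ha0 haQ hII) hni

/-- The core step: a Siegel element with one entry in `U` and the other in `W`. -/
theorem core (hUd : 7 ≤ Module.finrank F U) {M : Subgroup (GL ι F)}
    (hHE : ∀ a ∈ U, ∀ b ∈ U, Q a = 0 → polar Q a b = 0 → sg hQ a b ∈ M)
    {c d : ι → F} (hc : Q c = 0) (hcd : polar Q c d = 0) (hE : sg hQ c d ∈ M) {c₁ c₂ d₁ d₂ : ι → F}
    (hc₁ : c₁ ∈ U) (hc₂ : c₂ ∈ W) (hd₁ : d₁ ∈ U) (hd₂ : d₂ ∈ W) (hce : c = c₁ + c₂)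
    (hde : d = d₁ + d₂) (hc0 : c₂ ≠ 0) (hind : d₁ ∉ Submodule.span F {c₁}) :
    ∃ h ∈ U, ∃ h' ∈ U, Q h = 0 ∧ Q h' = 0 ∧ polar Q h' h = 1 ∧ ∃ w₀ ∈ W, w₀ ≠ 0 ∧ sg hQ h w₀ ∈ M := by
  classical
  obtain ⟨h, hhU, h', hh'U, hh, hh', hh'h, hl⟩ := hP.exists_hyp_in hQ [c₁, d₁] (by simpa using hUd)
  obtain ⟨hhc₁, hh'c₁⟩ := hl c₁ (by simp)
  obtain ⟨hhd₁, hh'd₁⟩ := hl d₁ (by simp)
  have hK : d₁ ∉ Submodule.span F {h, c₁} := by
    intro hm
    obtain ⟨s, t, hst⟩ := Submodule.mem_span_pair.1 hm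
    have h1 : polar Q h' (s • h + t • c₁) = 0 := by rw [hst]; exact hh'd₁
    rw [pol_add_right hQ, pol_smul_right hQ, pol_smul_right hQ, hh'h, hh'c₁, mul_one, mul_zero,
      add_zero] at h1
    apply hind
    rw [← hst, h1, zero_smul, zero_add]
    exact Submodule.smul_mem _ _ (Submodule.mem_span_singleton_self c₁)
  have hKU : Submodule.span F {h, c₁} ≤ U := by
    rw [Submodule.span_le]
    rintro z (rfl | rfl)
    · exact hhU
    · exact hc₁
  obtain ⟨z, hzU, hzK, hdz⟩ := hP.exists_dual hQ hKU hd₁ hK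
  have hhz : polar Q h z = 0 := hzK h (Submodule.subset_span (by simp))
  have hc₁z : polar Q c₁ z = 0 := hzK c₁ (Submodule.subset_span (by simp))
  have hch : polar Q c h = 0 := by
    rw [hce, pol_add_left hQ, hP.orth' hhU hc₂, QuadraticMap.polar_comm, hhc₁, add_zero]
  have hdh : polar Q d h = 0 := by
    rw [hde, pol_add_left hQ, hP.orth' hhU hd₂, QuadraticMap.polar_comm, hhd₁, add_zero]
  have hcz : polar Q c z = 0 := by
    rw [hce, pol_add_left hQ, hP.orth' hzU hc₂, hc₁z, add_zero]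
  have hdz' : polar Q d z = 1 := by
    rw [hde, pol_add_left hQ, hP.orth' hzU hd₂, hdz, add_zero]
  have hs := hHE h hhU z hzU hh hhz
  have hsc : ((sg hQ h z : GL ι F) : Matrix ι ι F) *ᵥ c = c := by
    rw [sg_mulVec hQ hh hhz, hch, hcz]
    simp
  have hsd : ((sg hQ h z : GL ι F) : Matrix ι ι F) *ᵥ d = d - h := by
    rw [sg_mulVec hQ hh hhz, hdh, hdz']
    simp
  have hE2 : sg hQ c (d - h) ∈ M := by
    have := M.mul_mem (M.mul_mem hs hE) (M.inv_mem hs)
    rwa [conj_sg hQ (sg_isom hQ hh hhz) hc hcd, hsc, hsd] at this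
  have hE3 : sg hQ c h ∈ M := by
    have hcna : polar Q c (-h) = 0 := by rw [pol_neg_right hQ, hch, neg_zero]
    have h3 := sg_add hQ hc hcd hcna
    rw [← sub_eq_add_neg] at h3
    rw [← h3] at hE2
    have h4 := M.mul_mem (M.inv_mem hE) hE2
    rw [inv_mul_cancel_left, sg_neg hQ hc hch] at h4
    simpa using M.inv_mem h4
  have hE4 : sg hQ h c ∈ M := sg_swap_mem hQ hc hh hch hE3
  have hhc₁' : polar Q h c₁ = 0 := hhc₁
  have hhc₂ : polar Q h c₂ = 0 := hP.orth h hhU c₂ hc₂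
  rw [hce, ← sg_add hQ hh hhc₁' hhc₂] at hE4
  have h4 := M.mul_mem (M.inv_mem (hHE h hhU c₁ hc₁ hh hhc₁')) hE4
  rw [inv_mul_cancel_left] at h4
  exact ⟨h, hhU, h', hh'U, hh, hh', hh'h, c₂, hc₂, hc0, h4⟩

/-- An element of `Σ(U)` scaling a singular vector. -/
theorem exists_scale (hUd : 7 ≤ Module.finrank F U) {h h' : ι → F} (hhU : h ∈ U) (hh'U : h' ∈ U)
    (hh : Q h = 0) (hh' : Q h' = 0) (hh'h : polar Q h' h = 1) {μ : F} (hμ : μ ≠ 0) :
    ∃ t ∈ subspaceStabilizer W ⊓ sigmaG hQ, (t : Matrix ι ι F) *ᵥ h = μ • h ∧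
      ∀ x ∈ W, (t : Matrix ι ι F) *ᵥ x = x := by
  obtain ⟨y, hyU, y', hy'U, hy, hy', hy'y, hl⟩ := hP.exists_hyp_in hQ [h, h'] (by simp; omega)
  obtain ⟨hyh, hy'h⟩ := hl h (by simp)
  obtain ⟨hyh', hy'h'⟩ := hl h' (by simp)
  have hyy' : polar Q y y' = 1 := by rw [QuadraticMap.polar_comm]; exact hy'y
  have hhh' : polar Q h h' = 1 := by rw [QuadraticMap.polar_comm]; exact hh'h
  have hhy' : polar Q h y' = 0 := by rw [QuadraticMap.polar_comm]; exact hy'h
  have hh'y' : polar Q h' y' = 0 := by rw [QuadraticMap.polar_comm]; exact hy'h'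
  set w₁ := h' + y' with hw₁
  set w₂ := μ⁻¹ • h' + y' with hw₂
  have hw₁U : w₁ ∈ U := U.add_mem hh'U hy'U
  have hw₂U : w₂ ∈ U := U.add_mem (U.smul_mem _ hh'U) hy'U
  have hw₁Q : Q w₁ = 0 := by
    rw [hw₁, Q_add (Q := Q), hh', hy', hh'y']
    ring
  have hw₂Q : Q w₂ = 0 := by
    rw [hw₂, Q_add (Q := Q), hQ.smul, hh', hy', pol_smul_left hQ, hh'y']
    ring
  have h1 : polar Q h w₁ = 1 := by
    rw [hw₁, pol_add_right hQ, hhh', hhy', add_zero]
  have h2 : polar Q y w₁ = 1 := by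
    rw [hw₁, pol_add_right hQ, hyh', hyy', zero_add]
  have h3 : polar Q y w₂ = 1 := by
    rw [hw₂, pol_add_right hQ, pol_smul_right hQ, hyh', hyy', mul_zero, zero_add]
  have h4 : polar Q (μ • h) w₂ = 1 := by
    rw [hw₂, pol_add_right hQ, pol_smul_left hQ, pol_smul_left hQ, pol_smul_right hQ, hhh', hhy']
    field_simp
    simp
  have hμh : Q (μ • h) = 0 := by rw [hQ.smul, hh, mul_zero]
  have h1o : polar Q w₁ (y - h) = 0 := by
    rw [pol_sub_right hQ, QuadraticMap.polar_comm Q w₁ y, QuadraticMap.polar_comm Q w₁ h, h1, h2,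
      sub_self]
  have h2o : polar Q w₂ (μ • h - y) = 0 := by
    rw [pol_sub_right hQ, QuadraticMap.polar_comm Q w₂ (μ • h), QuadraticMap.polar_comm Q w₂ y, h3,
      h4, sub_self]
  have hd₁ : y - h ∈ U := U.sub_mem hyU hhU
  have hd₂ : μ • h - y ∈ U := U.sub_mem (U.smul_mem _ hhU) hyU
  refine ⟨sg hQ w₂ (μ • h - y) * sg hQ w₁ (y - h),
    Subgroup.mul_mem _ (sg_U_mem hQ hP hw₂U hd₂ hw₂Q h2o) (sg_U_mem hQ hP hw₁U hd₁ hw₁Q h1o), ?_, ?_⟩
  · rw [gl_mul_mulVec, sg_move hQ hw₁Q hh hy h1 h2, sg_move hQ hw₂Q hy hμh h3 h4]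
  · intro x hx
    rw [gl_mul_mulVec, sg_U_fix hQ hP hw₁U hd₁ hw₁Q h1o hx, sg_U_fix hQ hP hw₂U hd₂ hw₂Q h2o hx]

/-- The stabiliser of a non-degenerate subspace in `Ω` is maximal, when the complement is at least
as large, not isometric to it, and the subspace is not a hyperbolic plane over a small field. -/
theorem nondeg_isMaximalIn (hn : 13 ≤ Fintype.card ι) (hdim : Module.finrank F W ≤ Module.finrank F U)
    (hW0 : W ≠ ⊥) (hni : ¬ AreIsometricFor Q U W)
    (hex : ¬ (Fintype.card F ≤ 3 ∧ Module.finrank F W = 2 ∧ IsPlusTypeOn Q W)) :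
    IsMaximalIn (omegaGL Q) (subspaceStabilizer W ⊓ omegaGL Q) := by
  classical
  rw [omegaGL_eq_sigmaG hQ (by omega)]
  have hadd := hP.finrank_add hQ
  have hUd : 7 ≤ Module.finrank F U := by omega
  constructor
  · refine lt_of_le_of_ne inf_le_right ?_
    intro heq
    obtain ⟨h, hhU, h', hh'U, hh, hh', hh'h, -⟩ := hP.exists_hyp_in hQ [] (by simp; omega)
    obtain ⟨w, hw, hw0⟩ := Submodule.exists_mem_ne_zero_of_ne_bot hW0
    obtain ⟨x, hx, hxw⟩ := hP.symm.exists_ne hQ hw hw0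
    have hh'w : polar Q h' w = 0 := hP.orth h' hh'U w hw
    have hs : sg hQ h' w ∈ subspaceStabilizer W ⊓ sigmaG hQ := by
      rw [heq]
      exact sg_mem_sigmaG hQ hh' hh'w
    have h1 : ((sg hQ h' w : GL ι F) : Matrix ι ι F) *ᵥ x ∈ W := (hs.1 x).1 hx
    rw [sg_mulVec hQ hh' hh'w, hP.orth' hh'U hx] at h1
    simp only [zero_smul, add_zero, mul_zero, sub_zero] at h1
    have h2 := W.sub_mem hx h1
    rw [sub_sub_cancel] at h2
    have hxw' : polar Q x w ≠ 0 := by rw [QuadraticMap.polar_comm]; exact hxw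
    have h3 := W.smul_mem (polar Q x w)⁻¹ h2
    rw [smul_smul, inv_mul_cancel₀ hxw', one_smul] at h3
    have h4 := hP.inf_eq_zero hQ hh'U h3
    rw [h4, pol_zero_left hQ] at hh'h
    exact zero_ne_one hh'h
  · intro M hHM hMS
    by_cases hEq : M = subspaceStabilizer W ⊓ sigmaG hQ
    · exact Or.inl hEq
    right
    apply le_antisymm hMS
    obtain ⟨g, hgM, hgH⟩ : ∃ g ∈ M, g ∉ subspaceStabilizer W ⊓ sigmaG hQ := by
      by_contra hcon
      push Not at hcon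
      exact hEq (le_antisymm hcon hHM)
    have hgs : g ∉ subspaceStabilizer W := fun h => hgH ⟨h, hMS hgM⟩
    have hMi : ∀ s ∈ M, QIsom Q s := fun s hs => sigmaG_isom hQ (hMS hs)
    have hgi := hMi g hgM
    have hHE : ∀ a ∈ U, ∀ b ∈ U, Q a = 0 → polar Q a b = 0 → sg hQ a b ∈ M :=
      fun a ha b hb haQ hab => hHM (sg_U_mem hQ hP ha hb haQ hab)
    obtain ⟨a, ha, b, hb, haQ, hab, c₁, hc₁, c₂, hc₂, d₁, hd₁, d₂, hd₂, hc, hd, hc₂0, hind⟩ :=
      exists_pair hQ hP hUd hdim hni hgi hgs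
    have hE : sg hQ ((g : Matrix ι ι F) *ᵥ a) ((g : Matrix ι ι F) *ᵥ b) ∈ M := by
      have := M.mul_mem (M.mul_mem hgM (hHE a ha b hb haQ hab)) (M.inv_mem hgM)
      rwa [conj_sg hQ hgi haQ hab] at this
    obtain ⟨h, hhU, h', hh'U, hh, hh', hh'h, w₀, hw₀, hw₀0, hw₀M⟩ :=
      core hQ hP hUd hHE (by rw [hgi, haQ]) (by rw [hgi.pol, hab]) hE hc₁ hc₂ hd₁ hd₂ hc.symm hd.symm
        hc₂0 hind
    have hhW : ∀ w ∈ W, polar Q h w = 0 := fun w hw => hP.orth h hhU w hw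
    have hsM : ∀ s, s ∈ subspaceStabilizer W ⊓ sigmaG hQ → s ∈ M := fun s hs => hHM hs
    have hscale : ∀ (μ : F) (w : ι → F), w ∈ W → sg hQ h w ∈ M → sg hQ h (μ • w) ∈ M := by
      intro μ w hw hwM
      by_cases hμ : μ = 0
      · rw [hμ, zero_smul, sg_zero_right hQ hh]
        exact M.one_mem
      obtain ⟨t, ht, hth, htW⟩ := exists_scale hQ hP hUd hhU hh'U hh hh' hh'h hμ
      have htM := hsM t ht
      have h1 := M.mul_mem (M.mul_mem htM hwM) (M.inv_mem htM)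
      rwa [conj_sg hQ (hMi t htM) hh (hhW w hw), hth, htW w hw, sg_smul_left hQ μ hh (hhW w hw)] at h1
    let A : Submodule F (ι → F) :=
      { carrier := {w | w ∈ W ∧ sg hQ h w ∈ M}
        add_mem' := fun {x y} hx hy => by
          refine ⟨W.add_mem hx.1 hy.1, ?_⟩
          rw [← sg_add hQ hh (hhW x hx.1) (hhW y hy.1)]
          exact M.mul_mem hx.2 hy.2
        zero_mem' := ⟨W.zero_mem, by rw [sg_zero_right hQ hh]; exact M.one_mem⟩
        smul_mem' := fun c x hx => ⟨W.smul_mem _ hx.1, hscale c x hx.1 hx.2⟩ }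
    have hAW : A ≤ W := fun x hx => hx.1
    have hA0 : A ≠ ⊥ := by
      intro h0
      have : w₀ ∈ A := ⟨hw₀, hw₀M⟩
      rw [h0] at this
      exact hw₀0 this
    obtain ⟨y, hyU, y', hy'U, hy, hy', hy'y, hl⟩ := hP.exists_hyp_in hQ [h, h'] (by simp; omega)
    obtain ⟨hyh, hy'h⟩ := hl h (by simp)
    obtain ⟨hyh', hy'h'⟩ := hl h' (by simp)
    have hhy : polar Q h y = 0 := by rw [QuadraticMap.polar_comm]; exact hyh
    have hhy' : polar Q h y' = 0 := by rw [QuadraticMap.polar_comm]; exact hy'h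
    have hh'y : polar Q h' y = 0 := by rw [QuadraticMap.polar_comm]; exact hyh'
    have hh'y' : polar Q h' y' = 0 := by rw [QuadraticMap.polar_comm]; exact hy'h'
    have hhh' : polar Q h h' = 1 := by rw [QuadraticMap.polar_comm]; exact hh'h
    have hrf : ∀ u ∈ W, Q u ≠ 0 → ∀ x ∈ A, ((rf hQ u : GL ι F) : Matrix ι ι F) *ᵥ x ∈ A := by
      intro u hu huQ x hx
      set v := y' + Q u • y with hv
      have hvU : v ∈ U := U.add_mem hy'U (U.smul_mem _ hyU)
      have hvQ : Q v = Q u := by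
        rw [hv, Q_add (Q := Q), hy', hQ.smul, hy, pol_smul_right hQ, hy'y]
        ring
      have hvQ0 : Q v ≠ 0 := by rw [hvQ]; exact huQ
      have hhv : polar Q h v = 0 := by
        rw [hv, pol_add_right hQ, pol_smul_right hQ, hhy', hhy]
        ring
      have hW : ∀ x ∈ W, ((rf hQ u * rf hQ v : GL ι F) : Matrix ι ι F) *ᵥ x =
          ((rf hQ u : GL ι F) : Matrix ι ι F) *ᵥ x := by
        intro x hx
        rw [gl_mul_mulVec, rf_mulVec hQ hvQ0, hP.orth' hvU hx]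
        simp
      have hs1 : rf hQ u * rf hQ v ∈ sigmaG hQ := rf_mul_rf_mem hQ (by omega) hvQ.symm
      have hrW : ∀ x ∈ W, ((rf hQ u : GL ι F) : Matrix ι ι F) *ᵥ x ∈ W := by
        intro x hx
        rw [rf_mulVec hQ huQ]
        exact W.sub_mem hx (W.smul_mem _ hu)
      have hs2 : rf hQ u * rf hQ v ∈ subspaceStabilizer W := by
        apply mem_stab_of_map'
        intro x hx
        rw [hW x hx]
        exact hrW x hx
      have hsh : ((rf hQ u * rf hQ v : GL ι F) : Matrix ι ι F) *ᵥ h = h := by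
        rw [gl_mul_mulVec, rf_mulVec hQ hvQ0, hhv, rf_mulVec hQ huQ, zero_div, zero_smul, sub_zero,
          hhW u hu]
        simp
      have hsMem := hsM _ ⟨hs2, hs1⟩
      refine ⟨hrW x hx.1, ?_⟩
      have h1 := M.mul_mem (M.mul_mem hsMem hx.2) (M.inv_mem hsMem)
      rwa [conj_sg hQ (hMi _ hsMem) hh (hhW x hx.1), hsh, hW x hx.1] at h1
    have hsg : ∀ p ∈ W, ∀ r ∈ W, Q p = 0 → polar Q p r = 0 → ∀ x ∈ A,
        ((sg hQ p r : GL ι F) : Matrix ι ι F) *ᵥ x ∈ A := by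
      intro p hp r hr hpQ hpr x hx
      have hWW : ∀ x ∈ W, ((sg hQ p r : GL ι F) : Matrix ι ι F) *ᵥ x ∈ W := by
        intro x hx
        rw [sg_mulVec hQ hpQ hpr]
        exact W.sub_mem (W.sub_mem (W.add_mem hx (W.smul_mem _ hr)) (W.smul_mem _ hp))
          (W.smul_mem _ hp)
      have hs : sg hQ p r ∈ subspaceStabilizer W ⊓ sigmaG hQ :=
        ⟨mem_stab_of_map' hWW, sg_mem_sigmaG hQ hpQ hpr⟩
      have hsMem := hsM _ hs
      have hsh : ((sg hQ p r : GL ι F) : Matrix ι ι F) *ᵥ h = h := by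
        rw [sg_mulVec hQ hpQ hpr, hhW p hp, hhW r hr]
        simp
      refine ⟨hWW x hx.1, ?_⟩
      have h1 := M.mul_mem (M.mul_mem hsMem hx.2) (M.inv_mem hsMem)
      rwa [conj_sg hQ (hMi _ hsMem) hh (hhW x hx.1), hsh] at h1
    have hWA := irreducible_W hQ hP hAW hA0 hrf hsg hex
    have hFh : Full hQ M h := by
      intro b hb
      obtain ⟨b₁, hb₁, b₂, hb₂, rfl⟩ := hP.decomp b
      have h1 : polar Q h b₁ = 0 := by
        rw [pol_add_right hQ, hhW b₂ hb₂, add_zero] at hb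
        exact hb
      rw [← sg_add hQ hh h1 (hhW b₂ hb₂)]
      exact M.mul_mem (hHE h hhU b₁ hb₁ hh h1) (hWA hb₂).2
    set w := (h + h') + (y' - y) with hw
    have hwU : w ∈ U := U.add_mem (U.add_mem hhU hh'U) (U.sub_mem hy'U hyU)
    have hwQ : Q w = 0 := by
      rw [hw, Q_add (Q := Q), Q_add (Q := Q), Q_sub hQ, hh, hh', hy', hy, pol_add_left hQ,
        pol_sub_right hQ, pol_sub_right hQ, hhh', hhy', hhy, hh'y', hh'y, hy'y]
      ring
    have hhw : polar Q h w = 1 := by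
      rw [hw, pol_add_right hQ, pol_add_right hQ, pol_sub_right hQ, pol_self hQ, hh, hhh', hhy', hhy]
      ring
    have hh'w : polar Q h' w = 1 := by
      rw [hw, pol_add_right hQ, pol_add_right hQ, pol_sub_right hQ, hh'h, pol_self hQ, hh', hh'y',
        hh'y]
      ring
    have hwo : polar Q w (h' - h) = 0 := by
      rw [pol_sub_right hQ, QuadraticMap.polar_comm Q w h', QuadraticMap.polar_comm Q w h, hhw,
        hh'w, sub_self]
    have hs := hHE w hwU (h' - h) (U.sub_mem hh'U hhU) hwQ hwo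
    have hF := hFh.image hh hs (hMi _ hs)
    rw [sg_move hQ hwQ hh hh' hhw hh'w] at hF
    exact sigmaG_le hQ fun c' hc' => full_all (by omega) hh hh' hc' hFh hF
      (by rw [hh'h]; exact one_ne_zero) hMi

end Main

section Apply

variable [Fintype F]

theorem AreIsometric_symm {U W : Submodule F (ι → F)} (h : AreIsometricFor Q U W) :
    AreIsometricFor Q W U := by
  obtain ⟨e, he⟩ := h
  refine ⟨e.symm, fun w => ?_⟩
  have := he (e.symm w)
  rw [LinearEquiv.apply_symm_apply] at this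
  exact this.symm

/-- The stabiliser of a non-degenerate subspace not isometric to its complement, neither of the
two being a hyperbolic plane over a small field. -/
theorem stab_nondeg_isMaximalIn (hQ : IsNondegenerateQuadraticForm Q) (hn : 13 ≤ Fintype.card ι)
    {W : Submodule F (ι → F)} (hW0 : W ≠ ⊥) (hW1 : W ≠ ⊤) (hW : IsNondegenerateOn (polar Q) W)
    (hni : ¬ AreIsometricFor Q (orthQ hQ W) W)
    (hex : ¬ (Fintype.card F ≤ 3 ∧ Module.finrank F W = 2 ∧ IsPlusTypeOn Q W))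
    (hex' : ¬ (Fintype.card F ≤ 3 ∧ Module.finrank F (orthQ hQ W) = 2 ∧
      IsPlusTypeOn Q (orthQ hQ W))) :
    IsMaximalIn (omegaGL Q) (subspaceStabilizer W ⊓ omegaGL Q) := by
  have hP := ndpair_of_nondeg hQ hW
  by_cases hd : Module.finrank F W ≤ Module.finrank F (orthQ hQ W)
  · exact nondeg_isMaximalIn hQ hP hn hd hW0 hni hex
  · have hU0 : orthQ hQ W ≠ ⊥ := by
      intro h
      apply hW1
      have h1 := hP.top
      rwa [h, bot_sup_eq] at h1
    have h1 := nondeg_isMaximalIn hQ hP.symm hn (by omega) hU0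
      (fun h => hni (AreIsometric_symm h)) hex'
    rw [omegaGL_eq_sigmaG hQ (by omega)] at h1 ⊢
    rwa [stab_inf_eq hQ hP] at h1

/-- Non-degenerate subspaces of different dimension. -/
theorem not_isometric_of_finrank_ne {U W : Submodule F (ι → F)}
    (h : Module.finrank F U ≠ Module.finrank F W) : ¬ AreIsometricFor Q U W := by
  rintro ⟨e, -⟩
  exact h e.finrank_eq

/-- An isometry induced by an element of the isometry group. -/
theorem isometric_of_map {U W : Submodule F (ι → F)} {g : GL ι F} (hg : QIsom Q g)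
    (h : U.map (Matrix.toLin' (g : Matrix ι ι F)) = W) : AreIsometricFor Q U W := by
  classical
  subst h
  have hinj : Function.Injective (Matrix.toLin' (g : Matrix ι ι F)) := by
    intro x y hxy
    rw [Matrix.toLin'_apply, Matrix.toLin'_apply] at hxy
    have := congrArg (fun z => ((g⁻¹ : GL ι F) : Matrix ι ι F) *ᵥ z) hxy
    simpa [gl_inv_mulVec_mulVec] using this
  refine ⟨Submodule.equivMapOfInjective _ hinj U, fun w => ?_⟩
  have := hg (w : ι → F)
  simpa using this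

/-- Two non-isometric orthogonal subspaces of equal dimension. -/
theorem pair_nonisometric_isMaximalIn (hQ : IsNondegenerateQuadraticForm Q)
    (hn : 13 ≤ Fintype.card ι) {k : ℕ} (hk : 3 ≤ k) {D : Fin 2 → Submodule F (ι → F)}
    (hD : IsNondegenerateMDecomposition (polar Q) k D) (hni : ¬ AreIsometricFor Q (D 0) (D 1)) :
    IsMaximalIn (omegaGL Q) (decompositionStabilizer D ⊓ omegaGL Q) := by
  classical
  have hP : NDPair Q (D 0) (D 1) := by
    refine ⟨hD.orthogonal 0 1 (by simp), ?_⟩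
    rw [eq_top_iff, ← hD.decomp.iSup_eq_top]
    refine iSup_le fun i => ?_
    fin_cases i
    · exact le_sup_left
    · exact le_sup_right
  have hf0 : Module.finrank F (D 0) = k := hD.decomp.finrank_eq 0
  have hf1 : Module.finrank F (D 1) = k := hD.decomp.finrank_eq 1
  have h10 : D 1 ≠ ⊥ := by
    intro h
    rw [h, finrank_bot] at hf1
    omega
  have hmax := nondeg_isMaximalIn hQ hP hn (by omega) h10 hni (by
    rintro ⟨-, h2, -⟩
    omega)
  have heq : decompositionStabilizer D ⊓ omegaGL Q = subspaceStabilizer (D 1) ⊓ omegaGL Q := by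
    rw [omegaGL_eq_sigmaG hQ (by omega)]
    ext g
    constructor
    · rintro ⟨⟨σ, hσ⟩, hg⟩
      refine ⟨?_, hg⟩
      have hgi := sigmaG_isom hQ hg
      have hσ1 : σ 1 = 1 := by
        by_contra hne
        have h3 : σ 1 = 0 := by omega
        have h4 := hσ 1
        rw [h3] at h4
        exact hni (AreIsometric_symm (isometric_of_map hgi h4))
      apply mem_stab_of_map'
      intro v hv
      have h5 : Matrix.toLin' (g : Matrix ι ι F) v ∈ D (σ 1) := by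
        rw [← hσ]
        exact ⟨v, hv, rfl⟩
      rw [hσ1, Matrix.toLin'_apply] at h5
      exact h5
    · rintro ⟨h1, hg⟩
      refine ⟨?_, hg⟩
      have h0 := stab_orth hQ hP.symm (sigmaG_isom hQ hg) h1
      refine Cfsg.Agent.Lib.SymplecticDecomp.mem_decomp_of_map hD.decomp 1 (fun i y hy => ?_)
      fin_cases i
      · exact (h0 y).1 hy
      · exact (h1 y).1 hy
  rw [heq]
  exact hmax

end Apply

end Cfsg.Agent.Lib.QuadNondeg
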