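import Cfsg.Agent.Lib.QuadVec

/-! The stabiliser of a hyperbolic plane over a field with at most three elements is not maximal. -/

set_option autoImplicit false
set_option linter.unusedSectionVars false
set_option linter.unusedSimpArgs false
set_option linter.unusedVariables false

open scoped MatrixGroups Matrix commutatorElement
open Cfsg Cfsg.Geo
open Cfsg.Agent.Lib.Transvection Cfsg.Agent.Lib.LinAlgAux Cfsg.Agent.Lib.QuadBase
  Cfsg.Agent.Lib.QuadSiegel Cfsg.Agent.Lib.QuadSim Cfsg.Agent.Lib.SubspaceStab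
  Cfsg.Agent.Lib.QuadStab Cfsg.Agent.Lib.QuadLag Cfsg.Agent.Lib.QuadVec
open Cfsg.Agent.Lib.SymplecticTv (Ind finrank_inf_ker_add_one)
open QuadraticMap (polar)

namespace Cfsg.Agent.Lib.QuadPlane

variable {ι : Type} [Fintype ι] [DecidableEq ι] {F : Type*} [Field F] {Q : (ι → F) → F}

variable [Fintype F]

/-- Non-zero elements square to one in a field with at most three elements. -/
theorem sq_eq_one_of_card_le_three (hq : Fintype.card F ≤ 3) {α : F} (hα : α ≠ 0) : α ^ 2 = 1 := by
  classical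
  have h1 := FiniteField.pow_card_sub_one_eq_one α hα
  have h2 : 1 < Fintype.card F := Fintype.one_lt_card
  have h3 : Fintype.card F = 2 ∨ Fintype.card F = 3 := by omega
  rcases h3 with h3 | h3
  · rw [h3] at h1
    simp only [Nat.add_one_sub_one, pow_one] at h1
    rw [h1, one_pow]
  · rw [h3] at h1
    exact h1

/-- A hyperbolic pair spanning a plane of plus type. -/
theorem exists_hyp_plane (hQ : IsNondegenerateQuadraticForm Q) {W : Submodule F (ι → F)}
    (hdim : Module.finrank F W = 2) (hW : IsNondegenerateOn (polar Q) W) (hWp : IsPlusTypeOn Q W) :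
    ∃ h ∈ W, ∃ h' ∈ W, Q h = 0 ∧ Q h' = 0 ∧ polar Q h' h = 1 ∧
      ∀ x ∈ W, ∃ α β : F, x = α • h + β • h' := by
  classical
  obtain ⟨U, hUW, hU, hUd⟩ := hWp
  have hU0 : U ≠ ⊥ := by
    rintro rfl
    rw [finrank_bot, hdim] at hUd
    omega
  obtain ⟨h, hhU, hh0⟩ := Submodule.exists_mem_ne_zero_of_ne_bot hU0
  have hhW := hUW hhU
  have hh : Q h = 0 := hU h hhU
  obtain ⟨⟨x, hx, hxh⟩, -⟩ := hW h hhW hh0
  obtain ⟨y, hyW, hyh⟩ : ∃ y ∈ W, polar Q y h = 1 :=
    ⟨_, W.smul_mem _ hx, by rw [pol_smul_left hQ, inv_mul_cancel₀ hxh]⟩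
  have hhh : polar Q h h = 0 := by rw [pol_self hQ, hh, mul_zero]
  obtain ⟨h', hh'⟩ : ∃ h', h' = y - Q y • h := ⟨_, rfl⟩
  have hh'W : h' ∈ W := by
    rw [hh']
    exact W.sub_mem hyW (W.smul_mem _ hhW)
  have hh'Q : Q h' = 0 := by
    rw [hh', Q_sub hQ, hQ.smul, hh, pol_smul_right hQ, hyh]
    ring
  have hh'h : polar Q h' h = 1 := by
    rw [hh', pol_sub_left hQ, pol_smul_left hQ, hyh, hhh]
    ring
  refine ⟨h, hhW, h', hh'W, hh, hh'Q, hh'h, ?_⟩
  have hnot : h' ∉ Submodule.span F {h} := by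
    intro hm
    obtain ⟨l, hl⟩ := Submodule.mem_span_singleton.1 hm
    rw [← hl, pol_smul_left hQ, hhh, mul_zero] at hh'h
    exact zero_ne_one hh'h
  have hsup : Submodule.span F {h} ⊔ Submodule.span F {h'} = W := by
    apply Submodule.eq_of_le_of_finrank_eq
    · refine sup_le ?_ ?_
      · rw [Submodule.span_le]
        rintro z rfl
        exact hhW
      · rw [Submodule.span_le]
        rintro z rfl
        exact hh'W
    · rw [Submodule.finrank_sup_span_singleton hnot, finrank_span_singleton hh0, hdim]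
  intro x hx
  rw [← hsup] at hx
  obtain ⟨p, hp, r, hr, rfl⟩ := Submodule.mem_sup.1 hx
  obtain ⟨α, rfl⟩ := Submodule.mem_span_singleton.1 hp
  obtain ⟨β, rfl⟩ := Submodule.mem_span_singleton.1 hr
  exact ⟨α, β, rfl⟩

/-- The stabiliser of a hyperbolic plane is not maximal if `q ≤ 3`. -/
theorem plane_not_maximal (hQ : IsNondegenerateQuadraticForm Q) (hn : 13 ≤ Fintype.card ι)
    (hq : Fintype.card F ≤ 3) {W : Submodule F (ι → F)}
    (hdim : Module.finrank F W = 2) (hW : IsNondegenerateOn (polar Q) W) (hWp : IsPlusTypeOn Q W) :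
    ∃ K : Subgroup (GL ι F), subspaceStabilizer W ⊓ omegaGL Q < K ∧ K < omegaGL Q := by
  classical
  have hsigma := omegaGL_eq_sigmaG hQ (show 7 ≤ Fintype.card ι by omega)
  obtain ⟨h, hhW, h', hh'W, hh, hh', hh'h, hspan⟩ := exists_hyp_plane hQ hdim hW hWp
  have hhh' : polar Q h h' = 1 := by rw [QuadraticMap.polar_comm]; exact hh'h
  set v := h + h' with hv
  have hvQ : Q v = 1 := by
    rw [hv, Q_add (Q := Q), hh, hh', hhh']
    ring
  have hvW : v ∈ W := W.add_mem hhW hh'W
  have hv1 : Q v ≠ 0 := by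
    rw [hvQ]
    exact one_ne_zero
  refine ⟨subspaceStabilizer (Submodule.span F {v}) ⊓ omegaGL Q, ?_,
    (vecStab_isMaximalIn hQ hn hv1).1⟩
  refine lt_of_le_of_ne ?_ ?_
  · intro g hg
    refine ⟨?_, hg.2⟩
    have hgi : QIsom Q g := by
      rw [hsigma] at hg
      exact sigmaG_isom hQ hg.2
    have h1 : (g : Matrix ι ι F) *ᵥ v ∈ W := (hg.1 v).1 hvW
    obtain ⟨α, β, hαβ⟩ := hspan _ h1
    have h2 : Q ((g : Matrix ι ι F) *ᵥ v) = 1 := by rw [hgi, hvQ]
    rw [hαβ, Q_add (Q := Q), hQ.smul, hQ.smul, hh, hh', pol_smul_left hQ, pol_smul_right hQ, hhh'] at h2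
    have h3 : α * β = 1 := by linear_combination h2
    have hα : α ≠ 0 := by
      rintro rfl
      rw [zero_mul] at h3
      exact zero_ne_one h3
    have h4 := sq_eq_one_of_card_le_three hq hα
    have h5 : β = α := by
      calc β = α ^ 2 * β := by rw [h4, one_mul]
        _ = α * (α * β) := by ring
        _ = α := by rw [h3, mul_one]
    apply mem_stab_of_map'
    intro x hx
    obtain ⟨l, rfl⟩ := Submodule.mem_span_singleton.1 hx
    rw [Matrix.mulVec_smul, hαβ, h5, ← smul_add]
    exact Submodule.smul_mem _ _ (Submodule.smul_mem _ _ (Submodule.mem_span_singleton_self _))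
  · intro heq
    obtain ⟨a, ha, -, hal⟩ := exists_singular_adjust hQ [h, h'] (by simp; omega) (h' - h)
    have hha : polar Q h a = 1 := by
      rw [hal h (by simp), pol_sub_right hQ, hhh', pol_self hQ, hh]
      ring
    have hh'a : polar Q h' a = -1 := by
      rw [hal h' (by simp), pol_sub_right hQ, hh'h, pol_self hQ, hh']
      ring
    have hva : polar Q v a = 0 := by
      rw [hv, pol_add_left hQ, hha, hh'a]
      ring
    obtain ⟨b, b', hb, hb', hb'b, hl⟩ := exists_hyp hQ [h, h', a] (by simp; omega)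
    obtain ⟨hbh, -⟩ := hl h (by simp)
    obtain ⟨hbh', -⟩ := hl h' (by simp)
    obtain ⟨hba, -⟩ := hl a (by simp)
    have hab : polar Q a b = 0 := by rw [QuadraticMap.polar_comm]; exact hba
    have hhb : polar Q h b = 0 := by rw [QuadraticMap.polar_comm]; exact hbh
    have hh'b : polar Q h' b = 0 := by rw [QuadraticMap.polar_comm]; exact hbh'
    have hvb : polar Q v b = 0 := by rw [hv, pol_add_left hQ, hhb, hh'b, add_zero]
    have hb0 : b ≠ 0 := by
      rintro rfl
      rw [pol_zero_right hQ] at hb'b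
      exact zero_ne_one hb'b
    have hS : sg hQ a b ∈ subspaceStabilizer (Submodule.span F {v}) ⊓ omegaGL Q := by
      refine ⟨mem_stab_of_map' fun x hx => ?_, ?_⟩
      · obtain ⟨l, rfl⟩ := Submodule.mem_span_singleton.1 hx
        rw [Matrix.mulVec_smul, sg_mulVec hQ ha hab, hva, hvb]
        simp only [zero_smul, add_zero, mul_zero, sub_zero]
        exact Submodule.smul_mem _ _ (Submodule.mem_span_singleton_self _)
      · rw [hsigma]
        exact sg_mem_sigmaG hQ ha hab
    rw [← heq] at hS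
    have h1 : ((sg hQ a b : GL ι F) : Matrix ι ι F) *ᵥ h ∈ W := (hS.1 h).1 hhW
    rw [sg_mulVec hQ ha hab, hha, hhb, hb] at h1
    have h2 : h + (1 : F) • b - (0 : F) • a - ((0 : F) * 1) • a = h + b := by simp
    rw [h2] at h1
    have hbW : b ∈ W := by
      have := W.sub_mem h1 hhW
      simpa using this
    obtain ⟨⟨x, hx, hxb⟩, -⟩ := hW b hbW hb0
    obtain ⟨α, β, rfl⟩ := hspan x hx
    apply hxb
    rw [pol_add_left hQ, pol_smul_left hQ, pol_smul_left hQ, hhb, hh'b]
    ring

end Cfsg.Agent.Lib.QuadPlane
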