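/-
Standard bases of quadratic spaces over finite fields, and the isometry classes
of quadratic forms in odd characteristic.
-/
import Mathlib
import Cfsg.Agent.Lib.OmegaRank2
import Cfsg.Agent.Lib.FormClass
import Cfsg.Agent.Lib.QuadRefl

set_option autoImplicit false
set_option linter.all false

open Cfsg Cfsg.Geo
open QuadraticMap (polar polarBilin)

namespace Cfsg.Agent.Lib.QuadStd

section Chain

variable {F V : Type*} [Field F] [AddCommGroup V] [Module F V] (Q : QuadraticForm F V)

/-- Non-degeneracy of the polar form on a subspace. -/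
def NO (W : Submodule F V) : Prop := ∀ w ∈ W, (∀ y ∈ W, polar Q w y = 0) → w = 0

theorem pol_self' (x : V) : polar Q x x = 2 * Q x := by
  rw [QuadraticMap.polar_self, nsmul_eq_mul]
  norm_num

theorem exists_pair {W : Submodule F V} (hW : NO Q W) {y : V} (hy : y ∈ W) (hy0 : y ≠ 0) (hQy : Q y = 0) :
    ∃ e ∈ W, ∃ f ∈ W, Q e = 0 ∧ Q f = 0 ∧ polar Q e f = 1 := by
  have hz : ∃ z ∈ W, polar Q y z ≠ 0 := by
    by_contra hcon
    push Not at hcon
    exact hy0 (hW y hy hcon)
  obtain ⟨z, hz, hyz⟩ := hz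
  have hf0 : polar Q y ((polar Q y z)⁻¹ • z) = 1 := by
    rw [QuadraticMap.polar_smul_right, smul_eq_mul, inv_mul_cancel₀ hyz]
  have hz' : (polar Q y z)⁻¹ • z ∈ W := W.smul_mem _ hz
  generalize (polar Q y z)⁻¹ • z = f₀ at hf0 hz'
  have hyy : polar Q y y = 0 := by rw [pol_self', hQy, mul_zero]
  refine ⟨y, hy, f₀ + (- Q f₀) • y, W.add_mem hz' (W.smul_mem _ hy), hQy, ?_, ?_⟩
  · rw [QuadraticMap.map_add Q, QuadraticMap.map_smul, hQy, QuadraticMap.polar_smul_right, QuadraticMap.polar_comm, hf0]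
    simp
  · rw [QuadraticMap.polar_add_right, QuadraticMap.polar_smul_right, hyy, hf0]
    simp

/-- The orthogonal complement of a pair of vectors inside a subspace. -/
def perp2 (W : Submodule F V) (e f : V) : Submodule F V :=
  (W ⊓ LinearMap.ker (polarBilin Q e)) ⊓ LinearMap.ker (polarBilin Q f)

theorem mem_perp2 {W : Submodule F V} {e f x : V} :
    x ∈ perp2 Q W e f ↔ x ∈ W ∧ polar Q e x = 0 ∧ polar Q f x = 0 := by
  show ((x ∈ W ∧ polar Q e x = 0) ∧ polar Q f x = 0) ↔ _
  tauto

theorem perp2_finrank [FiniteDimensional F V] {W : Submodule F V} {e f : V} (he : e ∈ W) (hf : f ∈ W)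
    (hee : polar Q e e = 0) (hef : polar Q e f = 1) :
    Module.finrank F (perp2 Q W e f) + 2 = Module.finrank F W := by
  have h1 := Cfsg.Agent.Lib.FormClass.finrank_inf_ker (W := W) (φ := polarBilin Q e) (y := f) hf (by
    show polar Q e f ≠ 0
    rw [hef]
    exact one_ne_zero)
  have h2 := Cfsg.Agent.Lib.FormClass.finrank_inf_ker (W := W ⊓ LinearMap.ker (polarBilin Q e))
    (φ := polarBilin Q f) (y := e) ⟨he, hee⟩ (by
    show polar Q f e ≠ 0
    rw [QuadraticMap.polar_comm, hef]
    exact one_ne_zero)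
  unfold perp2
  omega

theorem perp2_NO {W : Submodule F V} (hW : NO Q W) {e f : V} (he : e ∈ W) (hf : f ∈ W)
    (hee : polar Q e e = 0) (hff : polar Q f f = 0) (hef : polar Q e f = 1) : NO Q (perp2 Q W e f) := by
  intro w hw hy
  obtain ⟨hwW, hwe, hwf⟩ := (mem_perp2 Q).1 hw
  apply hW w hwW
  intro x hx
  have hfe : polar Q f e = 1 := by rw [QuadraticMap.polar_comm]; exact hef
  have hx1 : x + (- polar Q f x) • e + (- polar Q e x) • f ∈ perp2 Q W e f := by
    refine (mem_perp2 Q).2 ⟨W.add_mem (W.add_mem hx (W.smul_mem _ he)) (W.smul_mem _ hf), ?_, ?_⟩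
    · rw [QuadraticMap.polar_add_right, QuadraticMap.polar_add_right, QuadraticMap.polar_smul_right,
        QuadraticMap.polar_smul_right, hee, hef]
      simp
    · rw [QuadraticMap.polar_add_right, QuadraticMap.polar_add_right, QuadraticMap.polar_smul_right,
        QuadraticMap.polar_smul_right, hff, hfe]
      simp
  have h3 := hy _ hx1
  have hwe' : polar Q w e = 0 := by rw [QuadraticMap.polar_comm]; exact hwe
  have hwf' : polar Q w f = 0 := by rw [QuadraticMap.polar_comm]; exact hwf
  rw [QuadraticMap.polar_add_right, QuadraticMap.polar_add_right, QuadraticMap.polar_smul_right,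
    QuadraticMap.polar_smul_right, hwe', hwf'] at h3
  simpa using h3

/-- A hyperbolic system. -/
def Sys {k : ℕ} (e f : Fin k → V) : Prop :=
  (∀ i, Q (e i) = 0 ∧ Q (f i) = 0) ∧ (∀ i j, polar Q (e i) (f j) = if i = j then 1 else 0) ∧
    (∀ i j, polar Q (e i) (e j) = 0 ∧ polar Q (f i) (f j) = 0)

theorem sys_cons {k : ℕ} {e f : Fin k → V} (h : Sys Q e f) {e₀ f₀ : V} (h1 : Q e₀ = 0) (h2 : Q f₀ = 0)
    (h3 : polar Q e₀ f₀ = 1) (he : ∀ i, polar Q e₀ (e i) = 0 ∧ polar Q e₀ (f i) = 0)
    (hf : ∀ i, polar Q f₀ (e i) = 0 ∧ polar Q f₀ (f i) = 0) :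
    Sys Q (Fin.cons e₀ e : Fin (k + 1) → V) (Fin.cons f₀ f : Fin (k + 1) → V) := by
  have hee : polar Q e₀ e₀ = 0 := by rw [pol_self', h1, mul_zero]
  have hff : polar Q f₀ f₀ = 0 := by rw [pol_self', h2, mul_zero]
  refine ⟨?_, ?_, ?_⟩
  · intro i
    refine Fin.cases ?_ (fun i => ?_) i
    · simpa using ⟨h1, h2⟩
    · simpa using h.1 i
  · intro i j
    refine Fin.cases ?_ (fun i => ?_) i <;> refine Fin.cases ?_ (fun j => ?_) j
    · simpa using h3
    · simpa [(Fin.succ_ne_zero j).symm] using (he j).2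
    · have : polar Q (e i) f₀ = 0 := by rw [QuadraticMap.polar_comm]; exact (hf i).1
      simpa [Fin.succ_ne_zero i] using this
    · simpa using h.2.1 i j
  · intro i j
    refine Fin.cases ?_ (fun i => ?_) i <;> refine Fin.cases ?_ (fun j => ?_) j
    · exact ⟨hee, hff⟩
    · simpa using ⟨(he j).1, (hf j).2⟩
    · have h5 : polar Q (e i) e₀ = 0 := by rw [QuadraticMap.polar_comm]; exact (he i).1
      have h6 : polar Q (f i) f₀ = 0 := by rw [QuadraticMap.polar_comm]; exact (hf i).2
      simpa using ⟨h5, h6⟩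
    · simpa using h.2.2 i j

/-- Splitting off hyperbolic planes. -/
theorem chain [FiniteDimensional F V] (hs : ∀ W : Submodule F V, 3 ≤ Module.finrank F W → ∃ y ∈ W, y ≠ 0 ∧ Q y = 0)
    (r : ℕ) (hr : 1 ≤ r) : ∀ (k : ℕ) (W : Submodule F V), NO Q W → Module.finrank F W = 2 * k + r →
      ∃ (e f : Fin k → V) (W' : Submodule F V), W' ≤ W ∧ NO Q W' ∧ Module.finrank F W' = r ∧ Sys Q e f ∧
        (∀ i, e i ∈ W ∧ f i ∈ W) ∧ (∀ i, ∀ x ∈ W', polar Q (e i) x = 0 ∧ polar Q (f i) x = 0) := by
  intro k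
  induction k with
  | zero =>
    intro W hW hd
    refine ⟨Fin.elim0, Fin.elim0, W, le_rfl, hW, by omega, ⟨fun i => i.elim0, fun i => i.elim0, fun i => i.elim0⟩,
      fun i => i.elim0, fun i => i.elim0⟩
  | succ k ih =>
    intro W hW hd
    obtain ⟨y, hy, hy0, hQy⟩ := hs W (by omega)
    obtain ⟨e₀, he₀, f₀, hf₀, h1, h2, h3⟩ := exists_pair Q hW hy hy0 hQy
    have hee : polar Q e₀ e₀ = 0 := by rw [pol_self', h1, mul_zero]
    have hff : polar Q f₀ f₀ = 0 := by rw [pol_self', h2, mul_zero]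
    have hN := perp2_NO Q hW he₀ hf₀ hee hff h3
    have hfin := perp2_finrank Q he₀ hf₀ hee h3
    obtain ⟨e, f, W', hW', hN', hd', hS, hmem, hort⟩ := ih (perp2 Q W e₀ f₀) hN (by omega)
    have hle : perp2 Q W e₀ f₀ ≤ W := fun x hx => ((mem_perp2 Q).1 hx).1
    refine ⟨Fin.cons e₀ e, Fin.cons f₀ f, W', hW'.trans hle, hN', hd', ?_, ?_, ?_⟩
    · apply sys_cons Q hS h1 h2 h3
      · intro i
        exact ⟨((mem_perp2 Q).1 (hmem i).1).2.1, ((mem_perp2 Q).1 (hmem i).2).2.1⟩
      · intro i
        exact ⟨((mem_perp2 Q).1 (hmem i).1).2.2, ((mem_perp2 Q).1 (hmem i).2).2.2⟩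
    · intro i
      refine Fin.cases ?_ (fun i => ?_) i
      · simpa using ⟨he₀, hf₀⟩
      · simpa using ⟨hle (hmem i).1, hle (hmem i).2⟩
    · intro i x hx
      have hx' := (mem_perp2 Q).1 (hW' hx)
      refine Fin.cases ?_ (fun i => ?_) i
      · simpa using hx'.2
      · simpa using hort i x hx

theorem li_of_dual {κ : Type*} [Fintype κ] [DecidableEq κ] (b d : κ → V)
    (h : ∀ i j, polar Q (d i) (b j) = if i = j then 1 else 0) : LinearIndependent F b := by
  rw [Fintype.linearIndependent_iff]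
  intro c hc i
  have h3 := congrArg (polarBilin Q (d i)) hc
  rw [map_sum, map_zero, Finset.sum_eq_single i] at h3
  · rw [map_smul, smul_eq_mul] at h3
    have h4 : polarBilin Q (d i) (b i) = 1 := by
      show polar Q (d i) (b i) = 1
      rw [h, if_pos rfl]
    rwa [h4, mul_one] at h3
  · intro j _ hj
    have h4 : polarBilin Q (d i) (b j) = 0 := by
      show polar Q (d i) (b j) = 0
      rw [h, if_neg hj.symm]
    rw [map_smul, h4, smul_zero]
  · simp

theorem li_of_dual_sum {κ κ' : Type*} [Fintype κ] [DecidableEq κ] [Fintype κ'] (v d : κ → V) (v' : κ' → V)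
    (h : ∀ i j, polar Q (d i) (v j) = if i = j then 1 else 0) (h' : ∀ i j, polar Q (d i) (v' j) = 0)
    (hli : LinearIndependent F v') : LinearIndependent F (Sum.elim v v') := by
  rw [Fintype.linearIndependent_iff]
  intro c hc
  rw [Fintype.sum_sum_type] at hc
  simp only [Sum.elim_inl, Sum.elim_inr] at hc
  have h1 : ∀ i, c (Sum.inl i) = 0 := by
    intro i
    have h3 := congrArg (polarBilin Q (d i)) hc
    rw [map_add, map_sum, map_sum, map_zero, Finset.sum_eq_zero (s := Finset.univ) (f := fun j => polarBilin Q (d i) (c (Sum.inr j) • v' j)),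
      add_zero, Finset.sum_eq_single i] at h3
    · rw [map_smul, smul_eq_mul] at h3
      have h4 : polarBilin Q (d i) (v i) = 1 := by
        show polar Q (d i) (v i) = 1
        rw [h, if_pos rfl]
      rwa [h4, mul_one] at h3
    · intro j _ hj
      have h4 : polarBilin Q (d i) (v j) = 0 := by
        show polar Q (d i) (v j) = 0
        rw [h, if_neg hj.symm]
      rw [map_smul, h4, smul_zero]
    · simp
    · intro j _
      have h4 : polarBilin Q (d i) (v' j) = 0 := h' i j
      rw [map_smul, h4, smul_zero]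
  have h3 : ∑ j, c (Sum.inr j) • v' j = 0 := by
    rw [← hc, Finset.sum_eq_zero (s := Finset.univ) (f := fun i => c (Sum.inl i) • v i), zero_add]
    intro i _
    rw [h1 i, zero_smul]
  have h4 := Fintype.linearIndependent_iff.1 hli _ h3
  rintro (i | j)
  · exact h1 i
  · exact h4 j

/-- Singular vectors exist in dimension at least three. -/
theorem hs_of_nondeg [Finite F] [FiniteDimensional F V] (hQ : (polarBilin Q).Nondegenerate) :
    ∀ W : Submodule F V, 3 ≤ Module.finrank F W → ∃ y ∈ W, y ≠ 0 ∧ Q y = 0 := by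
  classical
  intro W hW
  haveI : Fintype F := Fintype.ofFinite F
  let iso : V ≃ₗ[F] (Fin (Module.finrank F V) → F) := (Module.finBasis F V).equivFun
  let Q' : QuadraticForm F (Fin (Module.finrank F V) → F) := Q.comp iso.symm.toLinearMap
  have hQ' : (polarBilin Q').Nondegenerate := by
    have hpol : ∀ x y, polarBilin Q' x y = polar Q (iso.symm x) (iso.symm y) := fun x y => by
      simp only [QuadraticMap.polarBilin_apply_apply, QuadraticMap.polar, Q', QuadraticMap.comp_apply,
        LinearEquiv.coe_coe, map_add]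
    constructor
    · intro x hx
      have h3 : iso.symm x = 0 := hQ.1 _ (fun y => by
        have := hx (iso y)
        rw [hpol, LinearEquiv.symm_apply_apply] at this
        exact this)
      simpa using h3
    · intro x hx
      have h3 : iso.symm x = 0 := hQ.2 _ (fun y => by
        have := hx (iso y)
        rw [hpol, LinearEquiv.symm_apply_apply] at this
        exact this)
      simpa using h3
  have hN := Cfsg.Agent.Lib.QuadRefl.nondeg_of_form Q' hQ'
  have hd : 3 ≤ Module.finrank F (W.map iso.toLinearMap) := by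
    rw [LinearEquiv.finrank_map_eq]
    exact hW
  obtain ⟨y, ⟨y', hy', rfl⟩, hy0, hQy⟩ := Cfsg.Agent.Lib.QuadBase.exists_singular_of_finrank hN hd
  refine ⟨y', hy', ?_, ?_⟩
  · rintro rfl
    simp at hy0
  · have : Q' (iso y') = Q y' := by
      show Q (iso.symm (iso y')) = _
      rw [LinearEquiv.symm_apply_apply]
    rw [← this]
    exact hQy

theorem NO_top (hQ : (polarBilin Q).Nondegenerate) : NO Q (⊤ : Submodule F V) := by
  intro w _ h
  exact hQ.1 w (fun y => h y trivial)

/-- The standard basis in odd dimension. -/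
theorem std_odd [Finite F] [FiniteDimensional F V] {m : ℕ} (hV : Module.finrank F V = 2 * m + 1)
    (hQ : (polarBilin Q).Nondegenerate) :
    ∃ b : Module.Basis (Unit ⊕ (Fin m ⊕ Fin m)) F V, Q (b (Sum.inl ())) ≠ 0 ∧ (∀ i, QuadraticMap.polar ⇑Q (b (Sum.inl ())) (b (Sum.inr (Sum.inl i))) = 0 ∧ QuadraticMap.polar ⇑Q (b (Sum.inl ())) (b (Sum.inr (Sum.inr i))) = 0) ∧ (∀ i, Q (b (Sum.inr (Sum.inl i))) = 0 ∧ Q (b (Sum.inr (Sum.inr i))) = 0) ∧ (∀ i j, QuadraticMap.polar ⇑Q (b (Sum.inr (Sum.inl i))) (b (Sum.inr (Sum.inr j))) = if i = j then 1 else 0) ∧ (∀ i j, QuadraticMap.polar ⇑Q (b (Sum.inr (Sum.inl i))) (b (Sum.inr (Sum.inl j))) = 0 ∧ QuadraticMap.polar ⇑Q (b (Sum.inr (Sum.inr i))) (b (Sum.inr (Sum.inr j))) = 0) := by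
  classical
  obtain ⟨e, f, W', -, hN', hd', hS, -, hort⟩ := chain Q (hs_of_nondeg Q hQ) 1 le_rfl m ⊤ (NO_top Q hQ)
    (by rw [finrank_top, hV])
  have hne : W' ≠ ⊥ := by
    rintro rfl
    simp at hd'
  obtain ⟨x, hx, hx0⟩ := Submodule.exists_mem_ne_zero_of_ne_bot hne
  have hxx : polar Q x x ≠ 0 := by
    intro h0
    apply hx0
    apply hN' x hx
    intro y hy
    have h3 := (finrank_eq_one_iff_of_nonzero' (⟨x, hx⟩ : W') (by
      intro h
      exact hx0 (congrArg Subtype.val h))).1 hd' ⟨y, hy⟩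
    obtain ⟨c, hc⟩ := h3
    have h4 : y = c • x := (congrArg Subtype.val hc).symm
    rw [h4, QuadraticMap.polar_smul_right, h0, smul_zero]
  have hQx : Q x ≠ 0 := by
    intro h0
    apply hxx
    rw [pol_self', h0, mul_zero]
  let fam : Unit ⊕ (Fin m ⊕ Fin m) → V := Sum.elim (fun _ => x) (Sum.elim e f)
  let d : Unit ⊕ (Fin m ⊕ Fin m) → V := Sum.elim (fun _ => (polar Q x x)⁻¹ • x) (Sum.elim f e)
  have hex : ∀ i, polar Q (e i) x = 0 := fun i => (hort i x hx).1
  have hfx : ∀ i, polar Q (f i) x = 0 := fun i => (hort i x hx).2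
  have hxe : ∀ i, polar Q x (e i) = 0 := fun i => by rw [QuadraticMap.polar_comm]; exact hex i
  have hxf : ∀ i, polar Q x (f i) = 0 := fun i => by rw [QuadraticMap.polar_comm]; exact hfx i
  have hdual : ∀ i j, polar Q (d i) (fam j) = if i = j then 1 else 0 := by
    rintro (_ | i | i) (_ | j | j)
    · rw [if_pos (congrArg Sum.inl (Subsingleton.elim _ _))]
      show polar Q ((polar Q x x)⁻¹ • x) x = 1
      rw [QuadraticMap.polar_smul_left, smul_eq_mul, inv_mul_cancel₀ hxx]
    · simp [d, fam, QuadraticMap.polar_smul_left, hxe]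
    · simp [d, fam, QuadraticMap.polar_smul_left, hxf]
    · simp [d, fam, hfx]
    · have := hS.2.1 j i
      rw [QuadraticMap.polar_comm] at this
      simpa [d, fam, eq_comm] using this
    · simpa [d, fam] using (hS.2.2 i j).2
    · simp [d, fam, hex]
    · simpa [d, fam] using (hS.2.2 i j).1
    · simpa [d, fam] using hS.2.1 i j
  have hli := li_of_dual Q fam d hdual
  have hcard : Fintype.card (Unit ⊕ (Fin m ⊕ Fin m)) = Module.finrank F V := by
    rw [hV]
    simp
    ring
  let b : Module.Basis (Unit ⊕ (Fin m ⊕ Fin m)) F V := basisOfLinearIndependentOfCardEqFinrank hli hcard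
  have hb : ∀ j, b j = fam j := fun j => by
    simp [b, coe_basisOfLinearIndependentOfCardEqFinrank]
  refine ⟨b, ?_, ?_, ?_, ?_, ?_⟩
  · rw [hb]
    exact hQx
  · intro i
    rw [hb, hb, hb]
    exact ⟨hxe i, hxf i⟩
  · intro i
    rw [hb, hb]
    exact hS.1 i
  · intro i j
    rw [hb, hb]
    exact hS.2.1 i j
  · intro i j
    rw [hb, hb, hb, hb]
    exact hS.2.2 i j

/-- An anisotropic plane. -/
theorem aniso_plane [Finite F] [FiniteDimensional F V] {W : Submodule F V} (hN : NO Q W)
    (hd : Module.finrank F W = 2) (han : ∀ y ∈ W, y ≠ 0 → Q y ≠ 0) :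
    ∃ x ∈ W, ∃ y ∈ W, Q x = 1 ∧ polar Q x y = 1 ∧ ∀ s t : F, s • x + t • y = 0 → s = 0 ∧ t = 0 := by
  classical
  haveI : Fintype F := Fintype.ofFinite F
  have hne : W ≠ ⊥ := by
    rintro rfl
    simp at hd
  obtain ⟨x₀, hx₀, hx₀0⟩ := Submodule.exists_mem_ne_zero_of_ne_bot hne
  have hone : ∃ x ∈ W, Q x = 1 := by
    by_cases h2 : (2 : F) = 0
    · haveI : CharP F 2 := CharTwo.of_one_ne_zero_of_two_eq_zero one_ne_zero h2
      obtain ⟨c, hc⟩ := FiniteField.isSquare_of_char_two (ringChar.eq F 2) (Q x₀)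
      have hQ0 := han x₀ hx₀ hx₀0
      have hc0 : c ≠ 0 := by
        rintro rfl
        apply hQ0
        rw [hc, mul_zero]
      refine ⟨c⁻¹ • x₀, W.smul_mem _ hx₀, ?_⟩
      rw [QuadraticMap.map_smul, hc, smul_eq_mul]
      field_simp
    · have hQ0 := han x₀ hx₀ hx₀0
      have hxx : polar Q x₀ x₀ ≠ 0 := by
        rw [pol_self']
        exact mul_ne_zero h2 hQ0
      have hf := Cfsg.Agent.Lib.FormClass.finrank_inf_ker (W := W) (φ := polarBilin Q x₀) (y := x₀) hx₀ hxx
      have hne' : (W ⊓ LinearMap.ker (polarBilin Q x₀)) ≠ ⊥ := by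
        intro h
        rw [h] at hf
        simp at hf
        omega
      obtain ⟨u, hu, hu0⟩ := Submodule.exists_mem_ne_zero_of_ne_bot hne'
      have huW : u ∈ W := hu.1
      have hxu : polar Q x₀ u = 0 := hu.2
      obtain ⟨α, β, hαβ⟩ := Cfsg.Agent.Lib.Spinor.binary_universal h2 hQ0 (han u huW hu0) 1
      refine ⟨α • x₀ + β • u, W.add_mem (W.smul_mem _ hx₀) (W.smul_mem _ huW), ?_⟩
      rw [QuadraticMap.map_add Q, QuadraticMap.map_smul, QuadraticMap.map_smul, QuadraticMap.polar_smul_left,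
        QuadraticMap.polar_smul_right, hxu]
      simp only [smul_eq_mul, mul_zero, add_zero]
      linear_combination hαβ
  obtain ⟨x, hx, hQx⟩ := hone
  have hx0 : x ≠ 0 := by
    rintro rfl
    rw [QuadraticMap.map_zero] at hQx
    exact zero_ne_one hQx
  have hz : ∃ z ∈ W, polar Q x z ≠ 0 := by
    by_contra hcon
    push Not at hcon
    exact hx0 (hN x hx hcon)
  obtain ⟨z, hz, hxz⟩ := hz
  have hz1 : polar Q x ((polar Q x z)⁻¹ • z) = 1 := by
    rw [QuadraticMap.polar_smul_right, smul_eq_mul, inv_mul_cancel₀ hxz]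
  have hz' : (polar Q x z)⁻¹ • z ∈ W := W.smul_mem _ hz
  generalize (polar Q x z)⁻¹ • z = z' at hz1 hz'
  have hy : ∃ y ∈ W, polar Q x y = 1 ∧ ∀ c : F, y ≠ c • x := by
    by_cases hc : ∀ c : F, z' ≠ c • x
    · exact ⟨z', hz', hz1, hc⟩
    · push Not at hc
      obtain ⟨c, hc⟩ := hc
      have hu : ∃ u ∈ W, ∀ c : F, u ≠ c • x := by
        by_contra hcon
        push Not at hcon
        have hle : W ≤ Submodule.span F {x} := by
          intro u hu
          obtain ⟨c, rfl⟩ := hcon u hu
          exact Submodule.smul_mem _ _ (Submodule.mem_span_singleton_self x)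
        have h3 := Submodule.finrank_mono hle
        rw [finrank_span_singleton hx0] at h3
        omega
      obtain ⟨u, huW, hu⟩ := hu
      refine ⟨u + (1 - polar Q x u) • z', W.add_mem huW (W.smul_mem _ hz'), ?_, ?_⟩
      · rw [QuadraticMap.polar_add_right, QuadraticMap.polar_smul_right, hz1]
        simp
      · intro c' h5
        apply hu (c' - (1 - polar Q x u) * c)
        rw [sub_smul, mul_smul, ← hc, ← h5]
        abel
  obtain ⟨y, hyW, hxy, hys⟩ := hy
  refine ⟨x, hx, y, hyW, hQx, hxy, ?_⟩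
  intro s t h
  have ht : t = 0 := by
    by_contra ht
    apply hys (- (t⁻¹ * s))
    have : y = t⁻¹ • (t • y) := by rw [smul_smul, inv_mul_cancel₀ ht, one_smul]
    rw [this, eq_neg_of_add_eq_zero_right h, smul_neg, neg_smul, smul_smul]
  subst ht
  refine ⟨?_, rfl⟩
  rw [zero_smul, add_zero] at h
  exact (smul_eq_zero.1 h).resolve_right hx0

/-- The standard bases in even dimension. -/
theorem std_even [Finite F] [FiniteDimensional F V] {k : ℕ} (hV : Module.finrank F V = 2 * (k + 1))
    (hQ : (polarBilin Q).Nondegenerate) :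
    (∃ b : Module.Basis (Fin (k + 1) ⊕ Fin (k + 1)) F V, (∀ i, Q (b (Sum.inl i)) = 0 ∧ Q (b (Sum.inr i)) = 0) ∧ (∀ i j, QuadraticMap.polar ⇑Q (b (Sum.inl i)) (b (Sum.inr j)) = if i = j then 1 else 0) ∧ (∀ i j, QuadraticMap.polar ⇑Q (b (Sum.inl i)) (b (Sum.inl j)) = 0 ∧ QuadraticMap.polar ⇑Q (b (Sum.inr i)) (b (Sum.inr j)) = 0)) ∨ (∃ (b : Module.Basis ((Fin k ⊕ Fin k) ⊕ Fin 2) F V) (ζ : F), (∀ t : F, t ^ 2 + t + ζ ≠ 0) ∧ (∀ i, Q (b (Sum.inl (Sum.inl i))) = 0 ∧ Q (b (Sum.inl (Sum.inr i))) = 0) ∧ (∀ i j, QuadraticMap.polar ⇑Q (b (Sum.inl (Sum.inl i))) (b (Sum.inl (Sum.inr j))) = if i = j then 1 else 0) ∧ (∀ i j, QuadraticMap.polar ⇑Q (b (Sum.inl (Sum.inl i))) (b (Sum.inl (Sum.inl j))) = 0 ∧ QuadraticMap.polar ⇑Q (b (Sum.inl (Sum.inr i))) (b (Sum.inl (Sum.inr j))) = 0) ∧ (∀ i (k : Fin 2), QuadraticMap.polar ⇑Q (b (Sum.inl (Sum.inl i))) (b (Sum.inr k)) = 0 ∧ QuadraticMap.polar ⇑Q (b (Sum.inl (Sum.inr i))) (b (Sum.inr k)) = 0) ∧ Q (b (Sum.inr 0)) = 1 ∧ QuadraticMap.polar ⇑Q (b (Sum.inr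 0)) (b (Sum.inr 1)) = 1 ∧ Q (b (Sum.inr 1)) = ζ) := by
  classical
  obtain ⟨e, f, W', -, hN', hd', hS, -, hort⟩ := chain Q (hs_of_nondeg Q hQ) 2 (by norm_num) k ⊤ (NO_top Q hQ)
    (by rw [finrank_top, hV]; ring)
  by_cases hsing : ∃ y ∈ W', y ≠ 0 ∧ Q y = 0
  · left
    obtain ⟨y, hy, hy0, hQy⟩ := hsing
    obtain ⟨e₀, he₀, f₀, hf₀, h1, h2, h3⟩ := exists_pair Q hN' hy hy0 hQy
    have hS' := sys_cons Q hS h1 h2 h3
      (fun i => by
        constructor
        · rw [QuadraticMap.polar_comm]; exact (hort i e₀ he₀).1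
        · rw [QuadraticMap.polar_comm]; exact (hort i e₀ he₀).2)
      (fun i => by
        constructor
        · rw [QuadraticMap.polar_comm]; exact (hort i f₀ hf₀).1
        · rw [QuadraticMap.polar_comm]; exact (hort i f₀ hf₀).2)
    generalize (Fin.cons e₀ e : Fin (k + 1) → V) = e' at hS'
    generalize (Fin.cons f₀ f : Fin (k + 1) → V) = f' at hS'
    let fam : Fin (k + 1) ⊕ Fin (k + 1) → V := Sum.elim e' f'
    let d : Fin (k + 1) ⊕ Fin (k + 1) → V := Sum.elim f' e'
    have hdual : ∀ i j, polar Q (d i) (fam j) = if i = j then 1 else 0 := by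
      rintro (i | i) (j | j)
      · have := hS'.2.1 j i
        rw [QuadraticMap.polar_comm] at this
        simpa [d, fam, eq_comm] using this
      · simpa [d, fam] using (hS'.2.2 i j).2
      · simpa [d, fam] using (hS'.2.2 i j).1
      · simpa [d, fam] using hS'.2.1 i j
    have hli := li_of_dual Q fam d hdual
    have hcard : Fintype.card (Fin (k + 1) ⊕ Fin (k + 1)) = Module.finrank F V := by
      rw [hV]
      simp
      ring
    let b : Module.Basis (Fin (k + 1) ⊕ Fin (k + 1)) F V := basisOfLinearIndependentOfCardEqFinrank hli hcard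
    have hb : ∀ j, b j = fam j := fun j => by
      simp [b, coe_basisOfLinearIndependentOfCardEqFinrank]
    refine ⟨b, ?_, ?_, ?_⟩
    · intro i
      rw [hb, hb]
      exact hS'.1 i
    · intro i j
      rw [hb, hb]
      exact hS'.2.1 i j
    · intro i j
      rw [hb, hb, hb, hb]
      exact hS'.2.2 i j
  · right
    push Not at hsing
    obtain ⟨x, hx, y, hy, hQx, hxy, hind⟩ := aniso_plane Q hN' hd' (fun y hy hy0 => hsing y hy hy0)
    have hex : ∀ i, polar Q (e i) x = 0 := fun i => (hort i x hx).1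
    have hfx : ∀ i, polar Q (f i) x = 0 := fun i => (hort i x hx).2
    have hey : ∀ i, polar Q (e i) y = 0 := fun i => (hort i y hy).1
    have hfy : ∀ i, polar Q (f i) y = 0 := fun i => (hort i y hy).2
    let v : Fin k ⊕ Fin k → V := Sum.elim e f
    let dd : Fin k ⊕ Fin k → V := Sum.elim f e
    let v' : Fin 2 → V := ![x, y]
    have hdual : ∀ i j, polar Q (dd i) (v j) = if i = j then 1 else 0 := by
      rintro (i | i) (j | j)
      · have := hS.2.1 j i
        rw [QuadraticMap.polar_comm] at this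
        simpa [dd, v, eq_comm] using this
      · simpa [dd, v] using (hS.2.2 i j).2
      · simpa [dd, v] using (hS.2.2 i j).1
      · simpa [dd, v] using hS.2.1 i j
    have hdual' : ∀ i j, polar Q (dd i) (v' j) = 0 := by
      rintro (i | i) j <;> fin_cases j <;> simp [dd, v', hex, hfx, hey, hfy]
    have hli' : LinearIndependent F v' := by
      rw [LinearIndependent.pair_iff]
      exact hind
    have hli := li_of_dual_sum Q v dd v' hdual hdual' hli'
    have hcard : Fintype.card ((Fin k ⊕ Fin k) ⊕ Fin 2) = Module.finrank F V := by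
      rw [hV]
      simp
      ring
    let b : Module.Basis ((Fin k ⊕ Fin k) ⊕ Fin 2) F V := basisOfLinearIndependentOfCardEqFinrank hli hcard
    have hb : ∀ j, b j = Sum.elim v v' j := fun j => by
      simp [b, coe_basisOfLinearIndependentOfCardEqFinrank]
    refine ⟨b, Q y, ?_, ?_, ?_, ?_, ?_, ?_, ?_, ?_⟩
    · intro t ht
      have h3 : Q (t • x + y) = 0 := by
        rw [QuadraticMap.map_add Q, QuadraticMap.map_smul, hQx, QuadraticMap.polar_smul_left, hxy]
        simp only [smul_eq_mul]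
        linear_combination ht
      by_cases h4 : t • x + y = 0
      · have := hind t 1 (by rw [one_smul]; exact h4)
        exact one_ne_zero this.2
      · exact hsing _ (W'.add_mem (W'.smul_mem _ hx) hy) h4 h3
    · intro i
      rw [hb, hb]
      exact hS.1 i
    · intro i j
      rw [hb, hb]
      exact hS.2.1 i j
    · intro i j
      rw [hb, hb, hb, hb]
      exact hS.2.2 i j
    · intro i t
      rw [hb, hb, hb]
      fin_cases t
      · exact ⟨hex i, hfx i⟩
      · exact ⟨hey i, hfy i⟩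
    · rw [hb]
      exact hQx
    · rw [hb, hb]
      exact hxy
    · rw [hb]
      rfl

end Chain

section Classify

variable {F : Type*} [Field F] [Fintype F]

/-- The Gram determinant in the standard basis. -/
def gram {n : ℕ} (Q : QuadraticForm F (Fin n → F)) : Matrix (Fin n) (Fin n) F :=
  Matrix.of (fun i j : Fin n => polar ⇑Q (Pi.single i 1) (Pi.single j 1))

theorem isSquare_of_basis {n : ℕ} (Q : QuadraticForm F (Fin n → F)) (v : Module.Basis (Fin n) F (Fin n → F))
    (hort : ∀ i j, i ≠ j → polar Q (v i) (v j) = 0) (hne : ∀ i, 2 * Q (v i) ≠ 0) :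
    (gram Q).det ≠ 0 ∧ IsSquare ((gram Q).det * ∏ k, (2 * Q (v k))) := by
  classical
  have hG : LinearMap.BilinForm.toMatrix (Pi.basisFun F (Fin n)) (polarBilin Q) = gram Q := by
    ext i j
    rw [LinearMap.BilinForm.toMatrix_apply]
    simp [gram]
  have hD : LinearMap.BilinForm.toMatrix v (polarBilin Q) = Matrix.diagonal (fun k => 2 * Q (v k)) := by
    ext i j
    rw [LinearMap.BilinForm.toMatrix_apply]
    by_cases hij : i = j
    · subst hij
      rw [Matrix.diagonal_apply_eq]
      exact pol_self' Q _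
    · rw [Matrix.diagonal_apply_ne _ hij]
      exact hort i j hij
  have hrel := LinearMap.BilinForm.toMatrix_mul_basis_toMatrix (b := Pi.basisFun F (Fin n)) v (polarBilin Q)
  rw [hG, hD] at hrel
  have hdet := congrArg Matrix.det hrel
  rw [Matrix.det_mul, Matrix.det_mul, Matrix.det_transpose, Matrix.det_diagonal] at hdet
  have hprod : ∏ k, (2 * Q (v k)) ≠ 0 := Finset.prod_ne_zero_iff.2 (fun k _ => hne k)
  constructor
  · intro h0
    rw [h0] at hdet
    apply hprod
    rw [← hdet]
    ring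
  · refine ⟨(gram Q).det * ((Pi.basisFun F (Fin n)).toMatrix v).det, ?_⟩
    rw [← hdet]
    ring

/-- Isometry classes of forms in odd characteristic. -/
theorem isom_iff (h2 : (2 : F) ≠ 0) {n : ℕ} (Q₁ Q₂ : QuadraticForm F (Fin n → F))
    (h₁ : (polarBilin Q₁).Nondegenerate) (h₂ : (polarBilin Q₂).Nondegenerate) :
    (∃ g : (Fin n → F) ≃ₗ[F] (Fin n → F), ∀ v, Q₂ (g v) = Q₁ v) ↔ IsSquare ((gram Q₁).det * (gram Q₂).det) := by
  classical
  constructor
  · rintro ⟨g, hg⟩
    let c : Module.Basis (Fin n) F (Fin n → F) := (Pi.basisFun F (Fin n)).map g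
    have hG : LinearMap.BilinForm.toMatrix (Pi.basisFun F (Fin n)) (polarBilin Q₂) = gram Q₂ := by
      ext i j
      rw [LinearMap.BilinForm.toMatrix_apply]
      simp [gram]
    have hD : LinearMap.BilinForm.toMatrix c (polarBilin Q₂) = gram Q₁ := by
      ext i j
      rw [LinearMap.BilinForm.toMatrix_apply]
      have h5 : ∀ x y, polar Q₂ (g x) (g y) = polar Q₁ x y := by
        intro x y
        simp only [QuadraticMap.polar]
        rw [← map_add, hg, hg, hg]
      have h6 : ∀ i, c i = g (Pi.single i 1) := by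
        intro i
        simp [c, Module.Basis.map_apply]
      rw [h6, h6]
      exact h5 _ _
    have hrel := LinearMap.BilinForm.toMatrix_mul_basis_toMatrix (b := Pi.basisFun F (Fin n)) c (polarBilin Q₂)
    rw [hG, hD] at hrel
    have hdet := congrArg Matrix.det hrel
    rw [Matrix.det_mul, Matrix.det_mul, Matrix.det_transpose] at hdet
    refine ⟨((Pi.basisFun F (Fin n)).toMatrix c).det * (gram Q₂).det, ?_⟩
    rw [← hdet]
    ring
  · intro hsq
    rcases n with _ | m
    · refine ⟨LinearEquiv.refl _ _, fun v => ?_⟩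
      rw [Subsingleton.elim v 0, map_zero, QuadraticMap.map_zero, QuadraticMap.map_zero]
    · have hchar : ringChar F ≠ 2 := by
        intro h
        apply h2
        have h3 := ringChar.Nat.cast_ringChar (R := F)
        rw [h] at h3
        exact_mod_cast h3
      obtain ⟨α, hα⟩ := FiniteField.exists_nonsquare hchar
      have hα0 : α ≠ 0 := by
        rintro rfl
        exact hα ⟨0, by simp⟩
      have hN₁ := Cfsg.Agent.Lib.QuadRefl.nondeg_of_form Q₁ h₁
      have hN₂ := Cfsg.Agent.Lib.QuadRefl.nondeg_of_form Q₂ h₂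
      obtain ⟨w₁, ho₁, hs₁, hl₁⟩ := Cfsg.Agent.Lib.OmegaRank2.exists_frame hN₁ h2 hα m (by simp)
      obtain ⟨w₂, ho₂, hs₂, hl₂⟩ := Cfsg.Agent.Lib.OmegaRank2.exists_frame hN₂ h2 hα m (by simp)
      have key : ∀ (Q : QuadraticForm F (Fin (m + 1) → F)) (w : Fin (m + 1) → Fin (m + 1) → F),
          (∀ i j, i ≠ j → polar Q (w i) (w j) = 0) → (∀ i, i ≠ Fin.last m → Q (w i) = 2⁻¹) →
          (Q (w (Fin.last m)) = 2⁻¹ ∨ Q (w (Fin.last m)) = 2⁻¹ * α) →
          ∃ b : Module.Basis (Fin (m + 1)) F (Fin (m + 1) → F), (∀ i, b i = w i) ∧ (gram Q).det ≠ 0 ∧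
            IsSquare ((gram Q).det * (2 * Q (w (Fin.last m)))) := by
        intro Q w ho hs hl
        have hne : ∀ i, 2 * Q (w i) ≠ 0 := by
          intro i
          by_cases hi : i = Fin.last m
          · subst hi
            rcases hl with h | h
            · rw [h, mul_inv_cancel₀ h2]
              exact one_ne_zero
            · rw [h, ← mul_assoc, mul_inv_cancel₀ h2, one_mul]
              exact hα0
          · rw [hs i hi, mul_inv_cancel₀ h2]
            exact one_ne_zero
        have hli := li_of_dual Q w (fun i => (2 * Q (w i))⁻¹ • w i) (by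
          intro i j
          rw [QuadraticMap.polar_smul_left, smul_eq_mul]
          by_cases hij : i = j
          · subst hij
            rw [if_pos rfl, pol_self', inv_mul_cancel₀ (hne i)]
          · rw [if_neg hij, ho i j hij, mul_zero])
        let b : Module.Basis (Fin (m + 1)) F (Fin (m + 1) → F) :=
          basisOfLinearIndependentOfCardEqFinrank hli (by simp)
        have hb : ∀ j, b j = w j := fun j => by
          simp [b, coe_basisOfLinearIndependentOfCardEqFinrank]
        obtain ⟨h3, h4⟩ := isSquare_of_basis Q b (fun i j hij => by rw [hb, hb]; exact ho i j hij)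
          (fun i => by rw [hb]; exact hne i)
        refine ⟨b, hb, h3, ?_⟩
        have h5 : ∏ k, (2 * Q (b k)) = 2 * Q (w (Fin.last m)) := by
          rw [Fin.prod_univ_castSucc, Finset.prod_eq_one, one_mul, hb]
          intro i _
          rw [hb, hs _ (Fin.castSucc_lt_last i).ne, mul_inv_cancel₀ h2]
        rwa [h5] at h4
      obtain ⟨b₁, hb₁, hD₁, hS₁⟩ := key Q₁ w₁ ho₁ hs₁ hl₁
      obtain ⟨b₂, hb₂, hD₂, hS₂⟩ := key Q₂ w₂ ho₂ hs₂ hl₂
      have hlast : Q₁ (w₁ (Fin.last m)) = Q₂ (w₂ (Fin.last m)) := by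
        obtain ⟨r, hr⟩ := hsq
        obtain ⟨s₁, hs₁'⟩ := hS₁
        obtain ⟨s₂, hs₂'⟩ := hS₂
        have hr0 : r ≠ 0 := by
          rintro rfl
          rw [mul_zero] at hr
          exact mul_ne_zero hD₁ hD₂ hr
        have hfin : (gram Q₁).det * (gram Q₂).det * α = s₁ * s₂ * (s₁ * s₂) → False := by
          intro h
          apply hα
          refine ⟨s₁ * s₂ / r, ?_⟩
          have : r * r * α = s₁ * s₂ * (s₁ * s₂) := by rw [← hr]; exact h
          field_simp
          linear_combination this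
        rcases hl₁ with h | h <;> rcases hl₂ with h' | h'
        · rw [h, h']
        · exfalso
          have e1 : (gram Q₁).det = s₁ * s₁ := by
            rw [← hs₁', h, mul_inv_cancel₀ h2, mul_one]
          have e2 : (gram Q₂).det * α = s₂ * s₂ := by
            rw [← hs₂', h', ← mul_assoc 2, mul_inv_cancel₀ h2, one_mul]
          exact hfin (by linear_combination ((gram Q₂).det * α) * e1 + s₁ * s₁ * e2)
        · exfalso
          have e1 : (gram Q₁).det * α = s₁ * s₁ := by
            rw [← hs₁', h, ← mul_assoc 2, mul_inv_cancel₀ h2, one_mul]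
          have e2 : (gram Q₂).det = s₂ * s₂ := by
            rw [← hs₂', h', mul_inv_cancel₀ h2, mul_one]
          exact hfin (by linear_combination ((gram Q₂).det) * e1 + s₁ * s₁ * e2)
        · rw [h, h']
      have hQQ : ∀ i, Q₁ (w₁ i) = Q₂ (w₂ i) := by
        intro i
        by_cases hi : i = Fin.last m
        · rw [hi]; exact hlast
        · rw [hs₁ i hi, hs₂ i hi]
      let g : (Fin (m + 1) → F) ≃ₗ[F] (Fin (m + 1) → F) := b₁.equiv b₂ (Equiv.refl _)
      have hg : ∀ i, g (b₁ i) = b₂ i := fun i => by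
        simp [g, Module.Basis.equiv_apply]
      have hB : polarBilin Q₁ = (polarBilin Q₂).compl₁₂ g.toLinearMap g.toLinearMap := by
        apply LinearMap.BilinForm.ext_basis b₁
        intro i j
        show polar Q₁ (b₁ i) (b₁ j) = polar Q₂ (g (b₁ i)) (g (b₁ j))
        rw [hg, hg, hb₁, hb₁, hb₂, hb₂]
        by_cases hij : i = j
        · subst hij
          rw [pol_self', pol_self', hQQ]
        · rw [ho₁ i j hij, ho₂ i j hij]
      refine ⟨g, fun v => ?_⟩
      have h3 := LinearMap.congr_fun (LinearMap.congr_fun hB v) v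
      have h4 : polar Q₁ v v = polar Q₂ (g v) (g v) := h3
      rw [pol_self', pol_self'] at h4
      exact (mul_left_cancel₀ h2 h4).symm

/-- The multiplier of a similarity in even dimension is arbitrary. -/
theorem exists_similarity {n : ℕ} (he : Even n) (Q : QuadraticForm F (Fin n → F))
    (hQ : (polarBilin Q).Nondegenerate) (c : F) (hc : c ≠ 0) :
    ∃ g : (Fin n → F) ≃ₗ[F] (Fin n → F), ∀ v, Q (g v) = c * Q v := by
  classical
  by_cases h2 : (2 : F) = 0
  · haveI : CharP F 2 := CharTwo.of_one_ne_zero_of_two_eq_zero one_ne_zero h2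
    obtain ⟨d, hd⟩ := FiniteField.isSquare_of_char_two (ringChar.eq F 2) c
    have hd0 : d ≠ 0 := by
      rintro rfl
      apply hc
      rw [hd, mul_zero]
    refine ⟨LinearEquiv.smulOfNeZero F _ d hd0, fun v => ?_⟩
    show Q (d • v) = _
    rw [QuadraticMap.map_smul, hd, smul_eq_mul]
  · have hpol : ∀ x y, polar (c • Q) x y = c * polar Q x y := by
      intro x y
      simp only [QuadraticMap.polar, QuadraticMap.smul_apply, smul_eq_mul]
      ring
    have hnd : (polarBilin (c • Q)).Nondegenerate := by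
      constructor
      · intro x hx
        apply hQ.1
        intro y
        have := hx y
        have h3 : c * polar Q x y = 0 := by rw [← hpol]; exact this
        exact (mul_eq_zero.1 h3).resolve_left hc
      · intro x hx
        apply hQ.2
        intro y
        have := hx y
        have h3 : c * polar Q y x = 0 := by rw [← hpol]; exact this
        exact (mul_eq_zero.1 h3).resolve_left hc
    have hgram : gram (c • Q) = c • gram Q := by
      ext i j
      show polar (c • Q) _ _ = c * polar Q _ _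
      rw [hpol]
    obtain ⟨t, ht⟩ := he
    have hsq : IsSquare ((gram (c • Q)).det * (gram Q).det) := by
      rw [hgram, Matrix.det_smul, Fintype.card_fin]
      refine ⟨c ^ t * (gram Q).det, ?_⟩
      have hct : c ^ n = c ^ t * c ^ t := by rw [ht, pow_add]
      rw [hct]
      ring
    obtain ⟨g, hg⟩ := (isom_iff h2 (c • Q) Q hnd hQ).2 hsq
    exact ⟨g, fun v => by rw [hg]; rfl⟩

end Classify

end Cfsg.Agent.Lib.QuadStd
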