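/-
Transitivity of `Ω` on subspaces: Witt's lemma as matrices and stabilizers with prescribed characters.
-/
import Mathlib
import Cfsg.Agent.Lib.QuadBlock

set_option autoImplicit false
set_option linter.all false

open scoped MatrixGroups Matrix commutatorElement
open Cfsg Cfsg.Geo
open Cfsg.Agent.Lib.Transvection Cfsg.Agent.Lib.LinAlgAux Cfsg.Agent.Lib.QuadBase
  Cfsg.Agent.Lib.QuadSiegel Cfsg.Agent.Lib.QuadStab Cfsg.Agent.Lib.QuadRefl Cfsg.Agent.Lib.QuadFamily
  Cfsg.Agent.Lib.Spinor Cfsg.Agent.Lib.Dickson Cfsg.Agent.Lib.QuadPlus Cfsg.Agent.Lib.QuadClass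
  Cfsg.Agent.Lib.QuadBlock
open QuadraticMap (polar)

namespace Cfsg.Agent.Lib.QuadTrans

variable {ι : Type} [Fintype ι] [DecidableEq ι] {F : Type*} [Field F] [Fintype F]
  {Q : (ι → F) → F} (hQ : IsNondegenerateQuadraticForm Q)

theorem mulVecLin_eq (g : GL ι F) : Matrix.mulVecLin (g : Matrix ι ι F) = glLin g := by
  apply LinearMap.ext
  intro x
  simp

include hQ in
/-- Witt's lemma in matrix form. -/
theorem exists_isom_map (X Y : Submodule F (ι → F)) (φ : X ≃ₗ[F] Y) (hφ : ∀ x : X, Q (φ x : ι → F) = Q (x : ι → F)) :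
    ∃ g : isometryGroup F Q, X.map (glLin (g : GL ι F)) = Y := by
  have hinj : Function.Injective (Y.subtype.comp φ.toLinearMap) :=
    Y.injective_subtype.comp φ.injective
  obtain ⟨g, hg, hgf⟩ := Cfsg.Agent.Lib.Witt.extend (Cfsg.Agent.Lib.Witt.quad_step (toQF' hQ) (toQF'_nondeg hQ)) X
    (Y.subtype.comp φ.toLinearMap) hinj (by
    intro x x'
    show Q ((φ x : ι → F) + (φ x' : ι → F)) = Q ((x : ι → F) + (x' : ι → F))
    have h1 := hφ (x + x')
    simpa using h1)
  let g' : GL ι F := glOfLin (g : (ι → F) →ₗ[F] (ι → F)) (g.symm : (ι → F) →ₗ[F] (ι → F))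
    (by ext1; simp) (by ext1; simp)
  have hg' : ∀ v, (g' : Matrix ι ι F) *ᵥ v = g v := fun v => glOfLin_mulVec _ _ _ _ v
  have hmem : g' ∈ isometryGroup F Q := by
    apply mem_isometryGroup_iff.2
    intro v
    rw [hg']
    have h4 : Q (g v + g 0) = Q (v + 0) := hg v 0
    simpa using h4
  refine ⟨⟨g', hmem⟩, ?_⟩
  ext y
  simp only [Submodule.mem_map, glLin_apply]
  constructor
  · rintro ⟨x, hx, rfl⟩
    have h1 := hgf ⟨x, hx⟩
    rw [hg', h1]
    exact (φ ⟨x, hx⟩).2
  · intro hy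
    refine ⟨(φ.symm ⟨y, hy⟩ : X), (φ.symm ⟨y, hy⟩).2, ?_⟩
    rw [hg', hgf]
    simp

include hQ in
/-- Two totally singular subspaces of the same dimension are conjugate. -/
theorem exists_isom_totSing {X Y : Submodule F (ι → F)} (hd : Module.finrank F X = Module.finrank F Y)
    (hX : ∀ x ∈ X, Q x = 0) (hY : ∀ y ∈ Y, Q y = 0) :
    ∃ g : isometryGroup F Q, X.map (glLin (g : GL ι F)) = Y :=
  exists_isom_map hQ X Y (LinearEquiv.ofFinrankEq X Y hd) (fun x => by
    rw [hX _ x.2, hY _ (Subtype.mem _)])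

theorem map_eq_of_le {W : Submodule F (ι → F)} (g : GL ι F) (h : ∀ x ∈ W, (g : Matrix ι ι F) *ᵥ x ∈ W) :
    W.map (glLin g) = W := by
  apply Submodule.eq_of_le_of_finrank_eq
  · rintro _ ⟨x, hx, rfl⟩
    rw [glLin_apply]
    exact h x hx
  · rw [finrank_map_glLin]

theorem map_mul_glLin (W : Submodule F (ι → F)) (g h : GL ι F) :
    W.map (glLin (g * h)) = (W.map (glLin h)).map (glLin g) := by
  rw [glLin_mul, Submodule.map_comp]

/-- A nonsingular vector in the perpendicular space of a small totally singular subspace. -/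
theorem exists_nonsing_orth {W : Submodule F (ι → F)} (hW : ∀ x ∈ W, Q x = 0)
    (hk : 2 * Module.finrank F W < Fintype.card ι) : ∃ a ∈ orthQ hQ W, Q a ≠ 0 := by
  by_contra hcon
  push Not at hcon
  have h1 := two_finrank_totSing_le hQ (W := orthQ hQ W) hcon
  have h2 := finrank_orthQ hQ W
  omega

theorem rf_fix {W : Submodule F (ι → F)} {a : ι → F} (ha : a ∈ orthQ hQ W) (ha0 : Q a ≠ 0) {x : ι → F} (hx : x ∈ W) :
    ((rf hQ a : GL ι F) : Matrix ι ι F) *ᵥ x = x := by
  have h1 : polar Q x a = 0 := by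
    rw [QuadraticMap.polar_comm]
    exact ha x hx
  rw [rf_mulVec hQ ha0, h1]
  simp

/-- A rotation in a hyperbolic plane. -/
theorem rot_act {e f : ι → F} (he : Q e = 0) (hf : Q f = 0) (hef : polar Q e f = 1) {a : F} (ha : a ≠ 0)
    (h1 : Q (e - f) ≠ 0) (h3 : Q (e - a • f) ≠ 0) (x : ι → F) :
    ((rf hQ (e - f) * rf hQ (e - a • f) : GL ι F) : Matrix ι ι F) *ᵥ x =
      x + ((a - 1) * polar Q x f) • e + ((a⁻¹ - 1) * polar Q x e) • f := by
  have hQ1 : Q (e - f) = -1 := by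
    rw [Q_sub hQ, he, hf, hef]
    ring
  have hfe : polar Q f e = 1 := by
    rw [QuadraticMap.polar_comm]
    exact hef
  have hQa : Q (e - a • f) = -a := by
    rw [Q_sub hQ, he, hQ.smul, hf, pol_smul_right hQ, hef]
    ring
  have hee : polar Q e e = 0 := by
    rw [pol_self hQ, he, mul_zero]
  have hff : polar Q f f = 0 := by
    rw [pol_self hQ, hf, mul_zero]
  rw [gl_mul_mulVec, rf_mulVec hQ h3, rf_mulVec hQ h1, hQ1, hQa]
  have hp1 : polar Q x (e - a • f) = polar Q x e - a * polar Q x f := by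
    rw [pol_sub_right hQ, pol_smul_right hQ]
  have hp2 : polar Q (x - (polar Q x (e - a • f) / -a) • (e - a • f)) (e - f) =
      polar Q x e - polar Q x f + (polar Q x (e - a • f) / -a) * (1 + a) := by
    have e1 : polar Q (e - a • f) (e - f) = -(1 + a) := by
      rw [pol_sub_left hQ, pol_smul_left hQ, pol_sub_right hQ e e f, pol_sub_right hQ f e f, hee, hef, hfe, hff]
      ring
    rw [pol_sub_left hQ, pol_smul_left hQ, pol_sub_right hQ x e f, e1]
    ring
  rw [hp2, hp1]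
  set p := polar Q x f
  set q := polar Q x e
  funext j
  simp only [Pi.add_apply, Pi.sub_apply, Pi.smul_apply, smul_eq_mul]
  field_simp
  ring

section Odd

variable [DecidableEq F] (h2 : (2 : F) ≠ 0)

include h2 in
/-- A stabilizer element of spinor norm `-1` and determinant one. -/
theorem exists_stab_spinor {θ : isometryGroup F Q →* ℤˣ} (hθ : IsSpinor hQ θ) {W : Submodule F (ι → F)}
    (hW : ∀ x ∈ W, Q x = 0) (hW0 : W ≠ ⊥) :
    ∃ s : isometryGroup F Q, W.map (glLin (s : GL ι F)) = W ∧ detHom hQ (top_ne h2) h2 s = 1 ∧ θ s = -1 := by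
  obtain ⟨e, heW, he0⟩ := Submodule.exists_mem_ne_zero_of_ne_bot hW0
  have he : Q e = 0 := hW e heW
  obtain ⟨x, hx⟩ := exists_left_ne hQ he0
  obtain ⟨f₀, hf₀e⟩ : ∃ f₀, polar Q f₀ e = 1 := ⟨(polar Q x e)⁻¹ • x, by
    rw [pol_smul_left hQ, inv_mul_cancel₀ hx]⟩
  have hee : polar Q e e = 0 := by
    rw [pol_self hQ, he, mul_zero]
  obtain ⟨f, hf, hfe⟩ : ∃ f, Q f = 0 ∧ polar Q f e = 1 := by
    refine ⟨f₀ - Q f₀ • e, ?_, ?_⟩
    · rw [Q_sub hQ, hQ.smul, he, pol_smul_right hQ, hf₀e]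
      ring
    · rw [pol_sub_left hQ, pol_smul_left hQ, hf₀e, hee]
      ring
  have hef : polar Q e f = 1 := by
    rw [QuadraticMap.polar_comm]
    exact hfe
  have hF : ringChar F ≠ 2 := by
    intro h
    apply h2
    have := ringChar.Nat.cast_ringChar (R := F)
    rw [h] at this
    exact_mod_cast this
  obtain ⟨a, ha⟩ := FiniteField.exists_nonsquare hF
  have ha0 : a ≠ 0 := by
    rintro rfl
    exact ha ⟨0, by simp⟩
  have hQ1 : Q (e - f) = -1 := by
    rw [Q_sub hQ, he, hf, hef]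
    ring
  have hQa : Q (e - a • f) = -a := by
    rw [Q_sub hQ, he, hQ.smul, hf, pol_smul_right hQ, hef]
    ring
  have h1 : Q (e - f) ≠ 0 := by
    rw [hQ1]
    exact neg_ne_zero.2 one_ne_zero
  have h3 : Q (e - a • f) ≠ 0 := by
    rw [hQa]
    exact neg_ne_zero.2 ha0
  refine ⟨rfO hQ (e - f) * rfO hQ (e - a • f), ?_, ?_, ?_⟩
  · apply map_eq_of_le
    intro y hy
    change ((rf hQ (e - f) * rf hQ (e - a • f) : GL ι F) : Matrix ι ι F) *ᵥ y ∈ W
    rw [rot_act hQ he hf hef ha0 h1 h3]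
    have hye : polar Q y e = 0 := pol_of_totSing (Q := Q) hW hy heW
    rw [hye, mul_zero, zero_smul, add_zero]
    exact W.add_mem hy (W.smul_mem _ heW)
  · rw [map_mul, detHom_rf hQ _ h2 h1, detHom_rf hQ _ h2 h3]
    simp
  · apply Units.ext
    rw [map_mul, Units.val_mul, hθ _ h1, hθ _ h3, hQ1, hQa, ← map_mul]
    have h5 : (-1 : F) * -a = a := by ring
    rw [h5, quadraticChar_neg_one_iff_not_isSquare.2 ha]
    rfl

end Odd

/-- Products of two generators: the kernel of a sign character. -/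
theorem ker_eq_closure_pairs {G : Type*} [Group G] (S : Set G) (hgen : Subgroup.closure S = ⊤)
    (hinv : ∀ s ∈ S, s * s = 1) (d : G →* ℤˣ) (hd : ∀ s ∈ S, d s = -1) {s₀ : G} (hs₀ : s₀ ∈ S) :
    d.ker = Subgroup.closure {g | ∃ s ∈ S, ∃ t ∈ S, g = s * t} := by
  set H := Subgroup.closure {g | ∃ s ∈ S, ∃ t ∈ S, g = s * t} with hH
  have hs₀2 : s₀⁻¹ = s₀ := inv_eq_of_mul_eq_one_left (hinv s₀ hs₀)
  have hpair : ∀ s ∈ S, ∀ t ∈ S, s * t ∈ H := fun s hs t ht => Subgroup.subset_closure ⟨s, hs, t, ht, rfl⟩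
  have hconj : ∀ h ∈ H, s₀ * h * s₀ ∈ H := by
    intro h hh
    induction hh using Subgroup.closure_induction with
    | mem x hx =>
      obtain ⟨s, hs, t, ht, rfl⟩ := hx
      have e : s₀ * (s * t) * s₀ = (s₀ * s) * (t * s₀) := by group
      rw [e]
      exact H.mul_mem (hpair _ hs₀ _ hs) (hpair _ ht _ hs₀)
    | one =>
      rw [mul_one, hinv s₀ hs₀]
      exact H.one_mem
    | mul x y _ _ hx hy =>
      have e : s₀ * (x * y) * s₀ = (s₀ * x * s₀) * (s₀⁻¹ * s₀⁻¹) * (s₀ * y * s₀) := by group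
      have e2 : s₀⁻¹ * s₀⁻¹ = 1 := by
        rw [hs₀2, hinv s₀ hs₀]
      rw [e, e2, mul_one]
      exact H.mul_mem hx hy
    | inv x _ hx =>
      have := H.inv_mem hx
      have e : (s₀ * x * s₀)⁻¹ = s₀ * x⁻¹ * s₀ := by
        simp only [mul_inv_rev, hs₀2, mul_assoc]
      rwa [e] at this
  have key : ∀ g : G, g ∈ H ∨ g * s₀ ∈ H := by
    intro g
    have hg : g ∈ Subgroup.closure S := by
      rw [hgen]
      trivial
    induction hg using Subgroup.closure_induction with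
    | mem x hx => exact Or.inr (hpair x hx s₀ hs₀)
    | one => exact Or.inl H.one_mem
    | mul x y _ _ hx hy =>
      rcases hx with hx | hx <;> rcases hy with hy | hy
      · exact Or.inl (H.mul_mem hx hy)
      · right
        rw [mul_assoc]
        exact H.mul_mem hx hy
      · right
        have e : x * y * s₀ = (x * s₀) * (s₀ * y * s₀) := by
          have : s₀ * s₀ = 1 := hinv s₀ hs₀
          calc x * y * s₀ = x * (s₀ * s₀) * y * s₀ := by rw [this, mul_one]
            _ = _ := by group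
        rw [e]
        exact H.mul_mem hx (hconj y hy)
      · left
        have e : x * y = (x * s₀) * (s₀ * (y * s₀) * s₀) := by
          have : s₀ * s₀ = 1 := hinv s₀ hs₀
          calc x * y = x * (s₀ * s₀) * y * (s₀ * s₀) := by rw [this, mul_one, mul_one]
            _ = _ := by group
        rw [e]
        exact H.mul_mem hx (hconj _ hy)
    | inv x _ hx =>
      rcases hx with hx | hx
      · exact Or.inl (H.inv_mem hx)
      · right
        have h3 := hconj _ (H.inv_mem hx)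
        have e : s₀ * (x * s₀)⁻¹ * s₀ = x⁻¹ * s₀ := by
          have : s₀ * s₀ = 1 := hinv s₀ hs₀
          simp only [mul_inv_rev, hs₀2]
          calc s₀ * (s₀ * x⁻¹) * s₀ = (s₀ * s₀) * x⁻¹ * s₀ := by group
            _ = _ := by rw [this, one_mul]
        rwa [e] at h3
  have hle : H ≤ d.ker := by
    rw [hH, Subgroup.closure_le]
    rintro _ ⟨s, hs, t, ht, rfl⟩
    show d (s * t) = 1
    rw [map_mul, hd s hs, hd t ht]
    decide
  apply le_antisymm _ hle
  intro g hg
  rcases key g with h | h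
  · exact h
  · exfalso
    have h1 := hle h
    have h3 : d (g * s₀) = 1 := h1
    have h4 : d g = 1 := hg
    rw [map_mul, h4, hd s₀ hs₀] at h3
    exact absurd h3 (by decide)

theorem closure_rf_eq_top (h : Fintype.card F ≠ 2 ∨ Fintype.card ι ≠ 4) :
    Subgroup.closure {s : isometryGroup F Q | ∃ a, Q a ≠ 0 ∧ s = rfO hQ a} = ⊤ := by
  have hle : rfG hQ ≤ (Subgroup.closure {s : isometryGroup F Q | ∃ a, Q a ≠ 0 ∧ s = rfO hQ a}).map (isometryGroup F Q).subtype := by
    refine (Subgroup.closure_le _).2 ?_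
    rintro s ⟨a, ha, rfl⟩
    exact ⟨rfO hQ a, Subgroup.subset_closure ⟨a, ha, rfl⟩, rfl⟩
  rw [eq_top_iff]
  rintro g -
  obtain ⟨t, ht, hte⟩ := hle (isom_mem_rfG hQ h (mem_isometryGroup_iff.1 g.2))
  have : t = g := Subtype.ext hte
  rwa [← this]

section Adjust

theorem map_one_glLin (W : Submodule F (ι → F)) : W.map (glLin (1 : GL ι F)) = W := by
  apply map_eq_of_le
  intro x hx
  simpa using hx

theorem stab_mul {W : Submodule F (ι → F)} {a b : GL ι F} (ha : W.map (glLin a) = W) (hb : W.map (glLin b) = W) :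
    W.map (glLin (a * b)) = W := by
  rw [map_mul_glLin, hb, ha]

variable [DecidableEq F] (h2 : (2 : F) ≠ 0)

include h2 in
/-- Adjusting an isometry by the stabilizer of `W` to reach `Ω`, odd characteristic. -/
theorem adjust_odd (hn : 2 ≤ Fintype.card ι) {θ : isometryGroup F Q →* ℤˣ} (hθ : IsSpinor hQ θ) {W : Submodule F (ι → F)}
    {s₁ s₂ : isometryGroup F Q} (h1 : W.map (glLin (s₁ : GL ι F)) = W) (h1d : detHom hQ (top_ne h2) h2 s₁ = -1)
    (h3 : W.map (glLin (s₂ : GL ι F)) = W) (h3d : detHom hQ (top_ne h2) h2 s₂ = 1) (h3θ : θ s₂ = -1)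
    (h₀ : isometryGroup F Q) :
    ∃ s : isometryGroup F Q, W.map (glLin (s : GL ι F)) = W ∧ s * h₀ ∈ commutator (isometryGroup F Q) := by
  have hs12 : W.map (glLin ((s₁ * s₂ : isometryGroup F Q) : GL ι F)) = W := stab_mul h1 h3
  have key : ∃ s : isometryGroup F Q, W.map (glLin (s : GL ι F)) = W ∧
      detHom hQ (top_ne h2) h2 s = detHom hQ (top_ne h2) h2 h₀ ∧ θ s = θ h₀ := by
    rcases Int.units_eq_one_or (detHom hQ (top_ne h2) h2 h₀) with hd | hd
    · rcases Int.units_eq_one_or (θ h₀) with ht | ht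
      · exact ⟨1, map_one_glLin W, by rw [map_one, hd], by rw [map_one, ht]⟩
      · exact ⟨s₂, h3, by rw [h3d, hd], by rw [h3θ, ht]⟩
    · rcases Int.units_eq_one_or (θ h₀) with ht | ht <;> rcases Int.units_eq_one_or (θ s₁) with hv | hv
      · exact ⟨s₁, h1, by rw [h1d, hd], by rw [hv, ht]⟩
      · exact ⟨s₁ * s₂, hs12, by rw [map_mul, h1d, h3d, hd, mul_one], by rw [map_mul, hv, h3θ, ht]; decide⟩
      · exact ⟨s₁ * s₂, hs12, by rw [map_mul, h1d, h3d, hd, mul_one], by rw [map_mul, hv, h3θ, ht, mul_neg, mul_one]⟩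
      · exact ⟨s₁, h1, by rw [h1d, hd], by rw [hv, ht]⟩
  obtain ⟨s, hs, hd, ht⟩ := key
  refine ⟨s, hs, ?_⟩
  rw [(comm_eq hQ h2 hn hθ).1, Subgroup.mem_inf, MonoidHom.mem_ker, MonoidHom.mem_ker, map_mul, map_mul, hd, ht]
  exact ⟨Int.units_mul_self _, Int.units_mul_self _⟩

end Adjust

section Nondeg

theorem exists_nonsing_in (X : Submodule F (ι → F)) (hX : X ⊓ orthQ hQ X = ⊥) (hX0 : X ≠ ⊥) : ∃ a ∈ X, Q a ≠ 0 := by
  by_contra hcon
  push Not at hcon
  have h1 : X ≤ orthQ hQ X := fun x hx t ht => pol_of_totSing (Q := Q) hcon hx ht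
  rw [inf_eq_left.2 h1] at hX
  exact hX0 hX

/-- A nonsingular vector perpendicular to a given nonsingular one. -/
theorem exists_nonsing_in' [DecidableEq F] (h2 : (2 : F) ≠ 0) (X : Submodule F (ι → F)) (hX : X ⊓ orthQ hQ X = ⊥)
    (a : ι → F) (haX : a ∈ X) (ha : Q a ≠ 0) (hY0 : X ⊓ LinearMap.ker (formL hQ a) ≠ ⊥) :
    ∃ b ∈ X ⊓ LinearMap.ker (formL hQ a), Q b ≠ 0 := by
  by_contra hcon
  push Not at hcon
  obtain ⟨b, hbY, hb0⟩ := Submodule.exists_mem_ne_zero_of_ne_bot hY0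
  apply hb0
  have hmem : b ∈ X ⊓ orthQ hQ X := by
    refine ⟨hbY.1, ?_⟩
    show b ∈ orthQ hQ X
    rw [mem_orthQ]
    intro t ht
    have hpa : polar Q b a = 0 := by
      have h3 : polar Q b a = formL hQ a b := rfl
      rw [h3]
      exact hbY.2
    have haa : polar Q a a ≠ 0 := by
      rw [pol_self hQ]
      exact mul_ne_zero h2 ha
    set c := polar Q t a / polar Q a a with hc
    have htY : t - c • a ∈ X ⊓ LinearMap.ker (formL hQ a) := by
      refine ⟨X.sub_mem ht (X.smul_mem _ haX), ?_⟩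
      show t - c • a ∈ LinearMap.ker (formL hQ a)
      rw [LinearMap.mem_ker, formL_apply, pol_sub_left hQ, pol_smul_left hQ, hc]
      field_simp
      ring
    have h5 : polar Q b (t - c • a) = 0 := pol_of_totSing (Q := Q) (W := X ⊓ LinearMap.ker (formL hQ a)) hcon hbY htY
    rw [pol_sub_right hQ, pol_smul_right hQ, hpa, mul_zero, sub_zero] at h5
    exact h5
  rw [hX] at hmem
  simpa using hmem

/-- A non-degenerate subspace of dimension at least two is universal, odd characteristic. -/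
theorem exists_value_in [DecidableEq F] (h2 : (2 : F) ≠ 0) (X : Submodule F (ι → F)) (hX : X ⊓ orthQ hQ X = ⊥)
    (hd : 2 ≤ Module.finrank F X) (e : F) : ∃ a ∈ X, Q a = e := by
  have hX0 : X ≠ ⊥ := by
    rintro rfl
    simp at hd
  obtain ⟨a, haX, ha⟩ := exists_nonsing_in hQ X hX hX0
  have haa : formL hQ a a ≠ 0 := by
    rw [formL_apply, pol_self hQ]
    exact mul_ne_zero h2 ha
  have hdim := finrank_hyper (formL hQ a) X haX haa
  have hY0 : X ⊓ LinearMap.ker (formL hQ a) ≠ ⊥ := by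
    intro h0
    rw [h0, finrank_bot] at hdim
    omega
  obtain ⟨b, hbY, hb⟩ := exists_nonsing_in' hQ h2 X hX a haX ha hY0
  obtain ⟨α, β, hαβ⟩ := binary_universal h2 ha hb e
  refine ⟨α • a + β • b, X.add_mem (X.smul_mem _ haX) (X.smul_mem _ hbY.1), ?_⟩
  have hab : polar Q a b = 0 := by
    have h3 : polar Q b a = formL hQ a b := rfl
    rw [QuadraticMap.polar_comm, h3]
    exact hbY.2
  rw [Q_add (Q := Q), hQ.smul, hQ.smul, pol_smul_left hQ, pol_smul_right hQ, hab]
  linear_combination hαβ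

end Nondeg

end Cfsg.Agent.Lib.QuadTrans
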