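/-
Orthogonal direct sums of quadratic forms and `Ω`.
-/
import Mathlib
import Cfsg.Agent.Lib.QuadTrans

set_option autoImplicit false
set_option linter.all false

open scoped MatrixGroups Matrix commutatorElement
open Cfsg Cfsg.Geo
open Cfsg.Agent.Lib.Transvection Cfsg.Agent.Lib.LinAlgAux Cfsg.Agent.Lib.QuadBase
  Cfsg.Agent.Lib.QuadSiegel Cfsg.Agent.Lib.QuadStab Cfsg.Agent.Lib.QuadRefl Cfsg.Agent.Lib.QuadFamily
  Cfsg.Agent.Lib.Spinor Cfsg.Agent.Lib.Dickson Cfsg.Agent.Lib.QuadPlus Cfsg.Agent.Lib.QuadClass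
  Cfsg.Agent.Lib.QuadBlock Cfsg.Agent.Lib.QuadTrans
open QuadraticMap (polar)

namespace Cfsg.Agent.Lib.QuadSum

variable {F : Type*} [Field F] {κ μ : Type} [Fintype κ] [DecidableEq κ] [Fintype μ] [DecidableEq μ]
  {Q₁ : (κ → F) → F} {Q₂ : (μ → F) → F}

/-- The orthogonal direct sum. -/
abbrev sumQ (Q₁ : (κ → F) → F) (Q₂ : (μ → F) → F) : (κ ⊕ μ → F) → F :=
  fun v => Q₁ (v ∘ Sum.inl) + Q₂ (v ∘ Sum.inr)

theorem polar_sumQ (u v : κ ⊕ μ → F) :
    polar (sumQ Q₁ Q₂) u v = polar Q₁ (u ∘ Sum.inl) (v ∘ Sum.inl) + polar Q₂ (u ∘ Sum.inr) (v ∘ Sum.inr) := by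
  have e1 : (u + v) ∘ Sum.inl = u ∘ Sum.inl + v ∘ Sum.inl := rfl
  have e2 : (u + v) ∘ Sum.inr = u ∘ Sum.inr + v ∘ Sum.inr := rfl
  show Q₁ ((u + v) ∘ Sum.inl) + Q₂ ((u + v) ∘ Sum.inr) - (Q₁ (u ∘ Sum.inl) + Q₂ (u ∘ Sum.inr)) - (Q₁ (v ∘ Sum.inl) + Q₂ (v ∘ Sum.inr)) =
    (Q₁ ((u ∘ Sum.inl) + (v ∘ Sum.inl)) - Q₁ (u ∘ Sum.inl) - Q₁ (v ∘ Sum.inl)) + (Q₂ ((u ∘ Sum.inr) + (v ∘ Sum.inr)) - Q₂ (u ∘ Sum.inr) - Q₂ (v ∘ Sum.inr))
  rw [e1, e2]
  ring

theorem sum_nondeg (h₁ : IsNondegenerateQuadraticForm Q₁) (h₂ : IsNondegenerateQuadraticForm Q₂) :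
    IsNondegenerateQuadraticForm (sumQ Q₁ Q₂) := by
  refine ⟨fun c v => ?_, ⟨fun x y v => ?_, fun c x v => ?_, fun v x y => ?_, fun c v x => ?_⟩, fun v hv => ?_⟩
  · have e1 : (c • v) ∘ Sum.inl = c • (v ∘ Sum.inl) := rfl
    have e2 : (c • v) ∘ Sum.inr = c • (v ∘ Sum.inr) := rfl
    show Q₁ ((c • v) ∘ Sum.inl) + Q₂ ((c • v) ∘ Sum.inr) = _
    rw [e1, e2, h₁.smul, h₂.smul]
    ring
  · rw [polar_sumQ, polar_sumQ, polar_sumQ]
    have e1 : (x + y) ∘ Sum.inl = x ∘ Sum.inl + y ∘ Sum.inl := rfl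
    have e2 : (x + y) ∘ Sum.inr = x ∘ Sum.inr + y ∘ Sum.inr := rfl
    rw [e1, e2, pol_add_left h₁, pol_add_left h₂]
    ring
  · rw [polar_sumQ, polar_sumQ]
    have e1 : (c • x) ∘ Sum.inl = c • (x ∘ Sum.inl) := rfl
    have e2 : (c • x) ∘ Sum.inr = c • (x ∘ Sum.inr) := rfl
    rw [e1, e2, pol_smul_left h₁, pol_smul_left h₂]
    ring
  · rw [polar_sumQ, polar_sumQ, polar_sumQ]
    have e1 : (x + y) ∘ Sum.inl = x ∘ Sum.inl + y ∘ Sum.inl := rfl
    have e2 : (x + y) ∘ Sum.inr = x ∘ Sum.inr + y ∘ Sum.inr := rfl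
    rw [e1, e2, pol_add_right h₁, pol_add_right h₂]
    ring
  · rw [polar_sumQ, polar_sumQ]
    have e1 : (c • x) ∘ Sum.inl = c • (x ∘ Sum.inl) := rfl
    have e2 : (c • x) ∘ Sum.inr = c • (x ∘ Sum.inr) := rfl
    rw [e1, e2, pol_smul_right h₁, pol_smul_right h₂]
    ring
  · by_cases h3 : v ∘ Sum.inl = 0
    · have h4 : v ∘ Sum.inr ≠ 0 := by
        intro h5
        apply hv
        funext j
        rcases j with j | j
        · exact congrFun h3 j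
        · exact congrFun h5 j
      obtain ⟨x, hx⟩ := (h₂.nondegenerate _ h4).1
      obtain ⟨y, hy⟩ := (h₂.nondegenerate _ h4).2
      refine ⟨⟨Sum.elim 0 x, ?_⟩, ⟨Sum.elim 0 y, ?_⟩⟩
      · rw [polar_sumQ]
        have e0 : (Sum.elim 0 x : κ ⊕ μ → F) ∘ Sum.inl = 0 := rfl
        have e1 : (Sum.elim 0 x : κ ⊕ μ → F) ∘ Sum.inr = x := rfl
        rw [e0, e1, pol_zero_left h₁, zero_add]
        exact hx
      · rw [polar_sumQ]
        have e0 : (Sum.elim 0 y : κ ⊕ μ → F) ∘ Sum.inl = 0 := rfl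
        have e1 : (Sum.elim 0 y : κ ⊕ μ → F) ∘ Sum.inr = y := rfl
        rw [e0, e1, pol_zero_right h₁, zero_add]
        exact hy
    · obtain ⟨x, hx⟩ := (h₁.nondegenerate _ h3).1
      obtain ⟨y, hy⟩ := (h₁.nondegenerate _ h3).2
      refine ⟨⟨Sum.elim x 0, ?_⟩, ⟨Sum.elim y 0, ?_⟩⟩
      · rw [polar_sumQ]
        have e0 : (Sum.elim x 0 : κ ⊕ μ → F) ∘ Sum.inl = x := rfl
        have e1 : (Sum.elim x 0 : κ ⊕ μ → F) ∘ Sum.inr = 0 := rfl
        rw [e0, e1, pol_zero_left h₂, add_zero]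
        exact hx
      · rw [polar_sumQ]
        have e0 : (Sum.elim y 0 : κ ⊕ μ → F) ∘ Sum.inl = y := rfl
        have e1 : (Sum.elim y 0 : κ ⊕ μ → F) ∘ Sum.inr = 0 := rfl
        rw [e0, e1, pol_zero_right h₂, add_zero]
        exact hy

/-- Extension by the identity on the second summand. -/
noncomputable def ext₁ (Q₁ : (κ → F) → F) (Q₂ : (μ → F) → F) :
    isometryGroup F Q₁ →* isometryGroup F (sumQ Q₁ Q₂) :=
  ((Cfsg.Agent.Lib.LawFam.extL κ μ).comp (isometryGroup F Q₁).subtype).codRestrict _ (fun g =>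
    mem_isometryGroup_iff.2 (fun v => by
      show sumQ Q₁ Q₂ ((Cfsg.Agent.Lib.LawFam.extL κ μ (g : GL κ F)).1 *ᵥ v) = _
      rw [Cfsg.Agent.Lib.LawFam.extL_mulVec]
      show Q₁ ((g : GL κ F).1 *ᵥ (v ∘ Sum.inl)) + Q₂ (v ∘ Sum.inr) = _
      rw [mem_isometryGroup_iff.1 g.2]))

theorem ext₁_mulVec (g : isometryGroup F Q₁) (v : κ ⊕ μ → F) :
    ((ext₁ Q₁ Q₂ g : isometryGroup F (sumQ Q₁ Q₂)) : GL (κ ⊕ μ) F).1 *ᵥ v =
      Sum.elim ((g : GL κ F).1 *ᵥ (v ∘ Sum.inl)) (v ∘ Sum.inr) :=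
  Cfsg.Agent.Lib.LawFam.extL_mulVec κ μ (g : GL κ F) v

theorem ext₁_val (g : isometryGroup F Q₁) :
    ((ext₁ Q₁ Q₂ g : isometryGroup F (sumQ Q₁ Q₂)) : GL (κ ⊕ μ) F).1 = Matrix.fromBlocks (g : GL κ F).1 0 0 1 := rfl

theorem sumQ_elim (h₂ : IsNondegenerateQuadraticForm Q₂) (a : κ → F) :
    sumQ Q₁ Q₂ (Sum.elim a 0) = Q₁ a := by
  show Q₁ a + Q₂ 0 = Q₁ a
  rw [Q_zero h₂, add_zero]

theorem ext₁_rf [Fintype F] (h₁ : IsNondegenerateQuadraticForm Q₁) (h₂ : IsNondegenerateQuadraticForm Q₂) {a : κ → F} (ha : Q₁ a ≠ 0) :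
    ext₁ Q₁ Q₂ (rfO h₁ a) = rfO (sum_nondeg h₁ h₂) (Sum.elim a 0) := by
  apply Subtype.ext
  apply gl_ext_mulVec
  intro x
  have ha' : sumQ Q₁ Q₂ (Sum.elim a 0) ≠ 0 := by
    rw [sumQ_elim h₂]
    exact ha
  rw [ext₁_mulVec]
  change _ = ((rf (sum_nondeg h₁ h₂) (Sum.elim a 0) : GL (κ ⊕ μ) F) : Matrix (κ ⊕ μ) (κ ⊕ μ) F) *ᵥ x
  rw [rf_mulVec _ ha', sumQ_elim h₂, polar_sumQ]
  change Sum.elim (((rf h₁ a : GL κ F) : Matrix κ κ F) *ᵥ (x ∘ Sum.inl)) (x ∘ Sum.inr) = _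
  rw [rf_mulVec h₁ ha]
  have e0 : (Sum.elim a 0 : κ ⊕ μ → F) ∘ Sum.inl = a := rfl
  have e1 : (Sum.elim a 0 : κ ⊕ μ → F) ∘ Sum.inr = 0 := rfl
  rw [e0, e1, pol_zero_right h₂, add_zero]
  funext j
  rcases j with j | j <;> simp

section Main

variable [Fintype F] [DecidableEq F] (h₁ : IsNondegenerateQuadraticForm Q₁) (h₂ : IsNondegenerateQuadraticForm Q₂)

theorem map_comm (g : isometryGroup F Q₁) (hg : g ∈ commutator (isometryGroup F Q₁)) :
    ext₁ Q₁ Q₂ g ∈ commutator (isometryGroup F (sumQ Q₁ Q₂)) := by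
  have h3 : (commutator (isometryGroup F Q₁)).map (ext₁ Q₁ Q₂) ≤ commutator (isometryGroup F (sumQ Q₁ Q₂)) := by
    rw [commutator_def, Subgroup.map_commutator]
    exact Subgroup.commutator_mono le_top le_top
  exact h3 ⟨g, hg, rfl⟩

include h₁ h₂ in
/-- Membership in `Ω` for an isometry extended by the identity. -/
theorem ext₁_mem_iff (h : Fintype.card F ≠ 2 ∨ (Fintype.card κ ≠ 4 ∧ Fintype.card κ + Fintype.card μ ≠ 4))
    (g : isometryGroup F Q₁) :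
    ext₁ Q₁ Q₂ g ∈ commutator (isometryGroup F (sumQ Q₁ Q₂)) ↔ g ∈ commutator (isometryGroup F Q₁) := by
  refine ⟨fun hg => ?_, map_comm g⟩
  have hS := sum_nondeg h₁ h₂
  have hc1 : Fintype.card F ≠ 2 ∨ Fintype.card κ ≠ 4 := by
    rcases h with h | h
    · exact Or.inl h
    · exact Or.inr h.1
  have hcS : Fintype.card F ≠ 2 ∨ Fintype.card (κ ⊕ μ) ≠ 4 := by
    rcases h with h | h
    · exact Or.inl h
    · right
      rw [Fintype.card_sum]
      exact h.2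
  by_cases h2 : (2 : F) = 0
  · haveI : CharP F 2 := CharTwo.of_one_ne_zero_of_two_eq_zero one_ne_zero h2
    by_cases hk : Fintype.card κ = 0
    · haveI : IsEmpty κ := Fintype.card_eq_zero_iff.1 hk
      have : g = 1 := by
        apply Subtype.ext
        apply Units.ext
        exact Subsingleton.elim _ _
      rw [this]
      exact Subgroup.one_mem _
    · rw [comm_eq_dickson_fun h₁ (by omega) hc1, MonoidHom.mem_ker]
      have h3 := hom_eq_of_rf h₁ hc1 (φ := dickson h₁ hc1) (ψ := (dickson hS hcS).comp (ext₁ Q₁ Q₂)) (by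
        intro a ha
        rw [MonoidHom.comp_apply, ext₁_rf h₁ h₂ ha, dickson_rf h₁ hc1 ha, dickson_rf hS hcS]
        rw [sumQ_elim h₂]
        exact ha) g
      rw [h3, MonoidHom.comp_apply]
      exact comm_le_ker _ hg
  · have hdet := hom_eq_of_rf h₁ (top_ne h2) (φ := detHom h₁ (top_ne h2) h2)
      (ψ := (detHom hS (top_ne h2) h2).comp (ext₁ Q₁ Q₂)) (by
        intro a ha
        rw [MonoidHom.comp_apply, ext₁_rf h₁ h₂ ha, detHom_rf h₁ _ h2 ha, detHom_rf hS _ h2]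
        rw [sumQ_elim h₂]
        exact ha) g
    have hd1 : detHom h₁ (top_ne h2) h2 g = 1 := by
      rw [hdet, MonoidHom.comp_apply]
      exact comm_le_ker _ hg
    by_cases hk : 2 ≤ Fintype.card κ
    · have hn2 : 2 ≤ Fintype.card (κ ⊕ μ) := by
        rw [Fintype.card_sum]
        omega
      obtain ⟨θ₁, hθ₁⟩ : ∃ θ, IsSpinor h₁ θ := exists_spinor h₁ h2 hk
      obtain ⟨θ, hθ⟩ : ∃ θ, IsSpinor hS θ := exists_spinor hS h2 hn2
      have h3 := hom_eq_of_rf h₁ (top_ne h2) (φ := θ₁) (ψ := θ.comp (ext₁ Q₁ Q₂)) (by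
        intro a ha
        apply Units.ext
        have ha' : sumQ Q₁ Q₂ (Sum.elim a 0) ≠ 0 := by
          rw [sumQ_elim h₂]
          exact ha
        rw [MonoidHom.comp_apply, ext₁_rf h₁ h₂ ha, hθ₁ a ha, hθ _ ha', sumQ_elim h₂]) g
      rw [(comm_eq h₁ h2 hk hθ₁).1]
      refine Subgroup.mem_inf.2 ⟨hd1, ?_⟩
      rw [MonoidHom.mem_ker, h3, MonoidHom.comp_apply]
      exact comm_le_ker _ hg
    · have hsub : Subsingleton κ := by
        apply Fintype.card_le_one_iff_subsingleton.1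
        omega
      have hd2 : ((g : GL κ F) : Matrix κ κ F).det = 1 := (detHom_eq_one_iff h₁ (top_ne h2) h2 g).1 hd1
      have : g = 1 := by
        apply Subtype.ext
        apply Units.ext
        ext i j
        have hij : i = j := Subsingleton.elim _ _
        subst hij
        have h5 := Matrix.det_eq_elem_of_subsingleton ((g : GL κ F) : Matrix κ κ F) i
        rw [hd2] at h5
        rw [← h5]
        simp
      rw [this]
      exact Subgroup.one_mem _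

end Main

section Swap

variable [Fintype F] [DecidableEq F]

/-- The swap of the two summands. -/
noncomputable def swG (κ : Type) [Fintype κ] [DecidableEq κ] (F : Type*) [Field F] : GL (κ ⊕ κ) F :=
  glOfLin (LinearMap.funLeft F F Sum.swap) (LinearMap.funLeft F F Sum.swap)
    (by
      apply LinearMap.ext
      intro x
      funext j
      simp [LinearMap.funLeft_apply])
    (by
      apply LinearMap.ext
      intro x
      funext j
      simp [LinearMap.funLeft_apply])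

theorem swG_mulVec (v : κ ⊕ κ → F) : (swG κ F : Matrix (κ ⊕ κ) (κ ⊕ κ) F) *ᵥ v = v ∘ Sum.swap :=
  glOfLin_mulVec _ _ _ _ v

theorem swG_mem {Q : (κ → F) → F} : swG κ F ∈ isometryGroup F (sumQ Q Q) := by
  apply mem_isometryGroup_iff.2
  intro v
  rw [swG_mulVec]
  show Q (v ∘ Sum.swap ∘ Sum.inl) + Q (v ∘ Sum.swap ∘ Sum.inr) = Q (v ∘ Sum.inl) + Q (v ∘ Sum.inr)
  have e1 : v ∘ Sum.swap ∘ Sum.inl = v ∘ (Sum.inr : κ → κ ⊕ κ) := rfl
  have e2 : v ∘ Sum.swap ∘ Sum.inr = v ∘ (Sum.inl : κ → κ ⊕ κ) := rfl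
  rw [e1, e2, add_comm]

theorem swG_mul_self : swG κ F * swG κ F = 1 := by
  apply gl_ext_mulVec
  intro v
  rw [gl_mul_mulVec, swG_mulVec, swG_mulVec]
  funext j
  simp

/-- Squares of isometries lie in `Ω`. -/
theorem sq_mem {ι : Type} [Fintype ι] [DecidableEq ι] {Q : (ι → F) → F} (hQ : IsNondegenerateQuadraticForm Q)
    (hn : 2 ≤ Fintype.card ι) (h : Fintype.card F ≠ 2 ∨ Fintype.card ι ≠ 4) (x : isometryGroup F Q) :
    x * x ∈ commutator (isometryGroup F Q) := by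
  by_cases h2 : (2 : F) = 0
  · haveI : CharP F 2 := CharTwo.of_one_ne_zero_of_two_eq_zero one_ne_zero h2
    rw [comm_eq_dickson_fun hQ (by omega) h, MonoidHom.mem_ker, map_mul]
    exact Int.units_mul_self _
  · obtain ⟨θ, hθ⟩ : ∃ θ, IsSpinor hQ θ := exists_spinor hQ h2 hn
    rw [(comm_eq hQ h2 hn hθ).1]
    refine Subgroup.mem_inf.2 ⟨?_, ?_⟩
    · rw [MonoidHom.mem_ker, map_mul]
      exact Int.units_mul_self _
    · rw [MonoidHom.mem_ker, map_mul]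
      exact Int.units_mul_self _

/-- Diagonal isometries lie in `Ω`. -/
theorem diag_mem {Q : (κ → F) → F} (hQ : IsNondegenerateQuadraticForm Q) (hk : 1 ≤ Fintype.card κ)
    (h : Fintype.card F ≠ 2 ∨ Fintype.card κ ≠ 2) (g : isometryGroup F Q) :
    ∃ x : isometryGroup F (sumQ Q Q), x ∈ commutator (isometryGroup F (sumQ Q Q)) ∧
      ((x : GL (κ ⊕ κ) F) : Matrix (κ ⊕ κ) (κ ⊕ κ) F) =
        Matrix.fromBlocks ((g : GL κ F) : Matrix κ κ F) 0 0 ((g : GL κ F) : Matrix κ κ F) := by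
  have hS := sum_nondeg hQ hQ
  have hn2 : 2 ≤ Fintype.card (κ ⊕ κ) := by
    rw [Fintype.card_sum]
    omega
  have hcS : Fintype.card F ≠ 2 ∨ Fintype.card (κ ⊕ κ) ≠ 4 := by
    rcases h with h | h
    · exact Or.inl h
    · right
      rw [Fintype.card_sum]
      omega
  let a : isometryGroup F (sumQ Q Q) := ext₁ Q Q g
  let s : isometryGroup F (sumQ Q Q) := ⟨swG κ F, swG_mem⟩
  have hs : s * s = 1 := Subtype.ext swG_mul_self
  have hinv : s⁻¹ = s := inv_eq_of_mul_eq_one_left hs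
  refine ⟨a * s * a * s⁻¹, ?_, ?_⟩
  · have e : a * s * a * s⁻¹ = ⁅a, s⁆ * (s * (a * a) * s⁻¹) := by
      rw [commutatorElement_def]
      group
    rw [e]
    apply Subgroup.mul_mem
    · exact Subgroup.commutator_mem_commutator (Subgroup.mem_top a) (Subgroup.mem_top s)
    · have hN : (commutator (isometryGroup F (sumQ Q Q))).Normal := inferInstance
      exact hN.conj_mem _ (sq_mem hS hn2 hcS a) s
  · rw [hinv]
    apply matrix_ext_mulVec
    intro v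
    change ((ext₁ Q Q g : isometryGroup F (sumQ Q Q)) * s * (ext₁ Q Q g : isometryGroup F (sumQ Q Q)) * s : isometryGroup F (sumQ Q Q)).1.1 *ᵥ v = _
    have e : (((ext₁ Q Q g : isometryGroup F (sumQ Q Q)) * s * (ext₁ Q Q g : isometryGroup F (sumQ Q Q)) * s : isometryGroup F (sumQ Q Q)).1 : GL (κ ⊕ κ) F) =
        ((ext₁ Q Q g : isometryGroup F (sumQ Q Q)) : GL (κ ⊕ κ) F) * swG κ F * ((ext₁ Q Q g : isometryGroup F (sumQ Q Q)) : GL (κ ⊕ κ) F) * swG κ F := rfl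
    rw [e, gl_mul_mulVec, gl_mul_mulVec, gl_mul_mulVec, swG_mulVec, ext₁_mulVec, swG_mulVec, ext₁_mulVec,
      Matrix.fromBlocks_mulVec]
    funext j
    rcases j with j | j
    · simp [Function.comp_def, Matrix.mulVec]
    · simp [Function.comp_def, Matrix.mulVec]

end Swap

end Cfsg.Agent.Lib.QuadSum
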