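import Cfsg.Agent.Lib.QuadLag

/-! The stabiliser of a non-singular vector in `Ω`. -/

set_option autoImplicit false
set_option linter.unusedSectionVars false
set_option linter.unusedSimpArgs false
set_option linter.unusedVariables false

open scoped MatrixGroups Matrix commutatorElement
open Cfsg Cfsg.Geo
open Cfsg.Agent.Lib.Transvection Cfsg.Agent.Lib.LinAlgAux Cfsg.Agent.Lib.QuadBase
  Cfsg.Agent.Lib.QuadSiegel Cfsg.Agent.Lib.QuadSim Cfsg.Agent.Lib.SubspaceStab
  Cfsg.Agent.Lib.QuadStab Cfsg.Agent.Lib.QuadLag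
open Cfsg.Agent.Lib.SymplecticTv (Ind finrank_inf_ker_add_one)
open QuadraticMap (polar)

namespace Cfsg.Agent.Lib.QuadVec

variable {ι : Type} [Fintype ι] [DecidableEq ι] {F : Type*} [Field F] {Q : (ι → F) → F}

variable [Fintype F]

/-- The stabiliser of a line spanned by a non-singular vector is maximal in `Ω`, in every
characteristic. -/
theorem vecStab_isMaximalIn (hQ : IsNondegenerateQuadraticForm Q) (hn : 13 ≤ Fintype.card ι)
    {v : ι → F} (hv : Q v ≠ 0) :
    IsMaximalIn (omegaGL Q) (subspaceStabilizer (Submodule.span F {v}) ⊓ omegaGL Q) := by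
  classical
  rw [omegaGL_eq_sigmaG hQ (by omega)]
  set L : Submodule F (ι → F) := Submodule.span F {v} with hL
  have hv0 : v ≠ 0 := by
    rintro rfl
    exact hv (Q_zero hQ)
  have hfix : ∀ a b, Q a = 0 → polar Q a b = 0 → polar Q v a = 0 → polar Q v b = 0 →
      sg hQ a b ∈ subspaceStabilizer L ⊓ sigmaG hQ := by
    intro a b ha hab hva hvb
    refine ⟨mem_stab_of_map' fun x hx => ?_, sg_mem_sigmaG hQ ha hab⟩
    obtain ⟨l, rfl⟩ := Submodule.mem_span_singleton.1 hx
    rw [Matrix.mulVec_smul, sg_mulVec hQ ha hab, hva, hvb]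
    simp only [zero_smul, add_zero, mul_zero, sub_zero]
    exact L.smul_mem _ (Submodule.mem_span_singleton_self v)
  constructor
  · refine lt_of_le_of_ne inf_le_right ?_
    intro heq
    obtain ⟨x, hx⟩ := exists_right_ne hQ hv0
    obtain ⟨c, hc, -, hcl⟩ := exists_singular_adjust hQ [v] (by simp; omega) ((polar Q v x)⁻¹ • x)
    have hvc : polar Q v c = 1 := by
      rw [hcl v (by simp), pol_smul_right hQ, inv_mul_cancel₀ hx]
    obtain ⟨h, h', hh, hh', hh'h, hl⟩ := exists_hyp hQ [v, c] (by simp; omega)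
    obtain ⟨hhv, -⟩ := hl v (by simp)
    obtain ⟨hhc, -⟩ := hl c (by simp)
    have hch : polar Q c h = 0 := by rw [QuadraticMap.polar_comm]; exact hhc
    have hvh : polar Q v h = 0 := by rw [QuadraticMap.polar_comm]; exact hhv
    have hs : sg hQ c h ∈ subspaceStabilizer L ⊓ sigmaG hQ := by
      rw [heq]
      exact sg_mem_sigmaG hQ hc hch
    have h1 : ((sg hQ c h : GL ι F) : Matrix ι ι F) *ᵥ v ∈ L :=
      (hs.1 v).1 (Submodule.mem_span_singleton_self v)
    rw [sg_mulVec hQ hc hch, hvc, hvh, hh] at h1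
    have h2 : v + (1 : F) • h - (0 : F) • c - ((0 : F) * 1) • c = v + h := by simp
    rw [h2] at h1
    have h3 : h ∈ L := by
      have := L.sub_mem h1 (Submodule.mem_span_singleton_self v)
      simpa using this
    obtain ⟨l, rfl⟩ := Submodule.mem_span_singleton.1 h3
    rw [hQ.smul] at hh
    have hl0 : l = 0 := by
      have := (mul_eq_zero.1 hh).resolve_right hv
      exact pow_eq_zero_iff (by norm_num) |>.1 this
    subst hl0
    rw [zero_smul, pol_zero_right hQ] at hh'h
    exact zero_ne_one hh'h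
  · intro M hHM hMS
    by_cases hEq : M = subspaceStabilizer L ⊓ sigmaG hQ
    · exact Or.inl hEq
    right
    apply le_antisymm hMS
    obtain ⟨g, hgM, hgH⟩ : ∃ g ∈ M, g ∉ subspaceStabilizer L ⊓ sigmaG hQ := by
      by_contra hcon
      push Not at hcon
      exact hEq (le_antisymm hcon hHM)
    have hgs : g ∉ subspaceStabilizer L := fun h => hgH ⟨h, hMS hgM⟩
    have hMi : ∀ s ∈ M, QIsom Q s := fun s hs => sigmaG_isom hQ (hMS hs)
    have hgi := hMi g hgM
    have hgv : (g : Matrix ι ι F) *ᵥ v ∉ L := by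
      intro h
      apply hgs
      apply mem_stab_of_map'
      intro x hx
      obtain ⟨l, rfl⟩ := Submodule.mem_span_singleton.1 hx
      rw [Matrix.mulVec_smul]
      exact L.smul_mem _ h
    -- a singular vector of `v^⊥` moved off `v^⊥`
    have hexa : ∃ a, Q a = 0 ∧ polar Q v a = 0 ∧ polar Q ((g : Matrix ι ι F) *ᵥ a) v ≠ 0 := by
      by_contra hcon
      push Not at hcon
      apply hgv
      obtain ⟨h, h', hh, hh', hh'h, hl⟩ := exists_hyp hQ [v] (by simp; omega)
      obtain ⟨hhv, hh'v⟩ := hl v (by simp)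
      have hY : ∀ y ∈ LinearMap.ker (formL hQ v), polar Q ((g : Matrix ι ι F) *ᵥ y) v = 0 := by
        intro y hy
        refine sing_induction hQ (Y := LinearMap.ker (formL hQ v)) (h := h) (h' := h') hhv hh'v hh
          hh' hh'h (fun y => polar Q ((g : Matrix ι ι F) *ᵥ y) v = 0) ?_ ?_ hy
        · intro a ha haQ
          refine hcon a haQ ?_
          rw [QuadraticMap.polar_comm]
          exact ha
        · intro a _ b _ h1 h2
          rw [Matrix.mulVec_add, pol_add_left hQ, h1, h2, add_zero]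
      obtain ⟨x₀, hx₀⟩ := exists_left_ne hQ hv0
      set κ := (polar Q x₀ v)⁻¹ * polar Q ((g : Matrix ι ι F) *ᵥ x₀) v with hκ
      have hall : ∀ x, polar Q ((g : Matrix ι ι F) *ᵥ x) v = κ * polar Q x v := by
        intro x
        have h1 : x - (polar Q x v / polar Q x₀ v) • x₀ ∈ LinearMap.ker (formL hQ v) := by
          show polar Q _ v = 0
          rw [pol_sub_left hQ, pol_smul_left hQ]
          field_simp
          ring
        have h2 := hY _ h1
        rw [Matrix.mulVec_sub, Matrix.mulVec_smul, pol_sub_left hQ, pol_smul_left hQ] at h2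
        rw [sub_eq_zero] at h2
        rw [h2, hκ]
        field_simp
      have hall2 : ∀ x, polar Q x (((g⁻¹ : GL ι F) : Matrix ι ι F) *ᵥ v - κ • v) = 0 := by
        intro x
        rw [pol_sub_right hQ, pol_smul_right hQ, ← hall x, ← hgi.pol x, gl_mulVec_inv_mulVec,
          sub_self]
      have h3 : ((g⁻¹ : GL ι F) : Matrix ι ι F) *ᵥ v - κ • v = 0 := by
        by_contra hne
        obtain ⟨x, hx⟩ := exists_left_ne hQ hne
        exact hx (hall2 x)
      have h4 : v = κ • ((g : Matrix ι ι F) *ᵥ v) := by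
        have h5 := congrArg (fun z => (g : Matrix ι ι F) *ᵥ z) (sub_eq_zero.1 h3)
        simpa [gl_mulVec_inv_mulVec, Matrix.mulVec_smul] using h5
      have hκ0 : κ ≠ 0 := by
        rintro h0
        rw [h0, zero_smul] at h4
        exact hv0 h4
      have h6 : (g : Matrix ι ι F) *ᵥ v = κ⁻¹ • v := by
        conv_rhs => rw [h4]
        rw [smul_smul, inv_mul_cancel₀ hκ0, one_smul]
      rw [h6]
      exact L.smul_mem _ (Submodule.mem_span_singleton_self v)
    obtain ⟨a, ha, hva, hca⟩ := hexa
    set c := (g : Matrix ι ι F) *ᵥ a with hcdef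
    have hc : Q c = 0 := by rw [hcdef, hgi, ha]
    obtain ⟨a', a'', ha', ha'', ha''a', hl⟩ :=
      exists_hyp hQ [v, (g : Matrix ι ι F) *ᵥ v, c] (by simp; omega)
    obtain ⟨ha'v, ha''v⟩ := hl v (by simp)
    obtain ⟨ha'gv, -⟩ := hl ((g : Matrix ι ι F) *ᵥ v) (by simp)
    obtain ⟨ha'c, -⟩ := hl c (by simp)
    have hva' : polar Q v a' = 0 := by rw [QuadraticMap.polar_comm]; exact ha'v
    have hva'' : polar Q v a'' = 0 := by rw [QuadraticMap.polar_comm]; exact ha''v
    have hca' : polar Q c a' = 0 := by rw [QuadraticMap.polar_comm]; exact ha'c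
    have ha'a'' : polar Q a' a'' = 1 := by rw [QuadraticMap.polar_comm]; exact ha''a'
    -- the element `sg a' c`
    have hE : sg hQ a' c ∈ M := by
      have h1 : polar Q a (((g⁻¹ : GL ι F) : Matrix ι ι F) *ᵥ a') = 0 := by
        rw [← hgi.pol, gl_mulVec_inv_mulVec, ← hcdef, hca']
      have h2 : polar Q v (((g⁻¹ : GL ι F) : Matrix ι ι F) *ᵥ a') = 0 := by
        rw [← hgi.pol, gl_mulVec_inv_mulVec, QuadraticMap.polar_comm]
        exact ha'gv
      have h3 := hHM (hfix a _ ha h1 hva h2)
      have h4 := M.mul_mem (M.mul_mem hgM h3) (M.inv_mem hgM)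
      rw [conj_sg hQ hgi ha h1, gl_mulVec_inv_mulVec, ← hcdef] at h4
      exact sg_swap_mem hQ hc ha' hca' h4
    obtain ⟨y, y', hy, hy', hy'y, hl'⟩ := exists_hyp hQ [v, a', a''] (by simp; omega)
    obtain ⟨hyv, hy'v⟩ := hl' v (by simp)
    obtain ⟨hya', hy'a'⟩ := hl' a' (by simp)
    obtain ⟨hya'', hy'a''⟩ := hl' a'' (by simp)
    have hyy' : polar Q y y' = 1 := by rw [QuadraticMap.polar_comm]; exact hy'y
    have ha'y : polar Q a' y = 0 := by rw [QuadraticMap.polar_comm]; exact hya'
    have ha'y' : polar Q a' y' = 0 := by rw [QuadraticMap.polar_comm]; exact hy'a'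
    have ha''y : polar Q a'' y = 0 := by rw [QuadraticMap.polar_comm]; exact hya''
    have ha''y' : polar Q a'' y' = 0 := by rw [QuadraticMap.polar_comm]; exact hy'a''
    have hvy : polar Q v y = 0 := by rw [QuadraticMap.polar_comm]; exact hyv
    have hvy' : polar Q v y' = 0 := by rw [QuadraticMap.polar_comm]; exact hy'v
    have ha'a' : polar Q a' a' = 0 := by rw [pol_self hQ, ha', mul_zero]
    -- scaling
    have hscale : ∀ μ : F, sg hQ a' (μ • c) ∈ M := by
      intro μ
      by_cases hμ : μ = 0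
      · rw [hμ, zero_smul, sg_zero_right hQ ha']
        exact M.one_mem
      set w₁ := a'' + y' with hw₁
      set w₂ := μ⁻¹ • a'' + y' with hw₂
      have hw₁Q : Q w₁ = 0 := by
        rw [hw₁, Q_add (Q := Q), ha'', hy', ha''y']
        ring
      have hw₂Q : Q w₂ = 0 := by
        rw [hw₂, Q_add (Q := Q), hQ.smul, ha'', hy', pol_smul_left hQ, ha''y']
        ring
      have hw₁a' : polar Q a' w₁ = 1 := by
        rw [hw₁, pol_add_right hQ, ha'a'', ha'y', add_zero]
      have hw₁y : polar Q y w₁ = 1 := by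
        rw [hw₁, pol_add_right hQ, hya'', hyy', zero_add]
      have hw₂y : polar Q y w₂ = 1 := by
        rw [hw₂, pol_add_right hQ, pol_smul_right hQ, hya'', hyy', mul_zero, zero_add]
      have hw₂a' : polar Q (μ • a') w₂ = 1 := by
        rw [hw₂, pol_add_right hQ, pol_smul_left hQ, pol_smul_left hQ, pol_smul_right hQ, ha'a'',
          ha'y']
        field_simp
        simp
      have hμa' : Q (μ • a') = 0 := by rw [hQ.smul, ha', mul_zero]
      have hvw₁ : polar Q v w₁ = 0 := by
        rw [hw₁, pol_add_right hQ, hva'', hvy', add_zero]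
      have hvw₂ : polar Q v w₂ = 0 := by
        rw [hw₂, pol_add_right hQ, pol_smul_right hQ, hva'', hvy', mul_zero, add_zero]
      have h1o : polar Q w₁ (y - a') = 0 := by
        rw [pol_sub_right hQ, QuadraticMap.polar_comm Q w₁ y, QuadraticMap.polar_comm Q w₁ a',
          hw₁a', hw₁y, sub_self]
      have h2o : polar Q w₂ (μ • a' - y) = 0 := by
        rw [pol_sub_right hQ, QuadraticMap.polar_comm Q w₂ (μ • a'), QuadraticMap.polar_comm Q w₂ y,
          hw₂a', hw₂y, sub_self]
      have hvd₁ : polar Q v (y - a') = 0 := by rw [pol_sub_right hQ, hvy, hva', sub_zero]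
      have hvd₂ : polar Q v (μ • a' - y) = 0 := by
        rw [pol_sub_right hQ, pol_smul_right hQ, hvy, hva', mul_zero, sub_zero]
      have ht₁ := hfix w₁ (y - a') hw₁Q h1o hvw₁ hvd₁
      have ht₂ := hfix w₂ (μ • a' - y) hw₂Q h2o hvw₂ hvd₂
      have ht₁M := hHM ht₁
      have ht₂M := hHM ht₂
      have ht₁a' : ((sg hQ w₁ (y - a') : GL ι F) : Matrix ι ι F) *ᵥ a' = y :=
        sg_move hQ hw₁Q ha' hy hw₁a' hw₁y
      have ht₂y : ((sg hQ w₂ (μ • a' - y) : GL ι F) : Matrix ι ι F) *ᵥ y = μ • a' :=
        sg_move hQ hw₂Q hy hμa' hw₂y hw₂a'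
      set t := sg hQ w₂ (μ • a' - y) * sg hQ w₁ (y - a') with ht
      have htM : t ∈ M := M.mul_mem ht₂M ht₁M
      have hti := hMi t htM
      have hta' : (t : Matrix ι ι F) *ᵥ a' = μ • a' := by
        rw [ht, gl_mul_mulVec, ht₁a', ht₂y]
      have htv : (t : Matrix ι ι F) *ᵥ v = v := by
        rw [ht, gl_mul_mulVec, sg_mulVec hQ hw₁Q h1o, hvw₁, hvd₁]
        simp only [zero_smul, add_zero, mul_zero, sub_zero]
        rw [sg_mulVec hQ hw₂Q h2o, hvw₂, hvd₂]
        simp
      have hE2 := M.mul_mem (M.mul_mem htM hE) (M.inv_mem htM)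
      have ha'c2 : polar Q a' c = 0 := ha'c
      have hatc : polar Q a' ((t : Matrix ι ι F) *ᵥ c) = 0 := by
        have h5 := hti.pol a' c
        rw [hta', pol_smul_left hQ, ha'c2] at h5
        exact (mul_eq_zero.1 h5).resolve_left hμ
      rw [conj_sg hQ hti ha' ha'c2, hta', sg_smul_left hQ μ ha' hatc] at hE2
      set e := (t : Matrix ι ι F) *ᵥ c - c with he
      have hae : polar Q a' e = 0 := by rw [he, pol_sub_right hQ, hatc, ha'c2, sub_self]
      have hve : polar Q v e = 0 := by
        have h5 := hti.pol v c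
        rw [htv] at h5
        rw [he, pol_sub_right hQ, h5, sub_self]
      have h6 : (t : Matrix ι ι F) *ᵥ c = c + e := by rw [he]; abel
      have hac' : polar Q a' (μ • c) = 0 := by rw [pol_smul_right hQ, ha'c2, mul_zero]
      have hae' : polar Q a' (μ • e) = 0 := by rw [pol_smul_right hQ, hae, mul_zero]
      rw [h6, smul_add, ← sg_add hQ ha' hac' hae'] at hE2
      have h7 := hHM (hfix a' (μ • e) ha' hae' hva' (by rw [pol_smul_right hQ, hve, mul_zero]))
      have h8 := M.mul_mem hE2 (M.inv_mem h7)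
      rwa [mul_inv_cancel_right] at h8
    have hFa' : Full hQ M a' := by
      intro b hb
      set μ := polar Q b v / polar Q c v with hμ
      have hcv : polar Q c v ≠ 0 := hca
      have h1 : polar Q (b - μ • c) v = 0 := by
        rw [pol_sub_left hQ, pol_smul_left hQ, hμ]
        field_simp
        ring
      have h2 : polar Q a' (b - μ • c) = 0 := by
        rw [pol_sub_right hQ, pol_smul_right hQ, hb, QuadraticMap.polar_comm Q a' c, hca']
        ring
      have hac' : polar Q a' (μ • c) = 0 := by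
        rw [pol_smul_right hQ, QuadraticMap.polar_comm Q a' c, hca', mul_zero]
      have h3 := sg_add hQ ha' h2 hac'
      rw [sub_add_cancel] at h3
      rw [← h3]
      refine M.mul_mem (hHM (hfix a' _ ha' h2 hva' ?_)) (hscale μ)
      rw [QuadraticMap.polar_comm]
      exact h1
    set w := (a' + a'') + (y' - y) with hw
    have hwQ : Q w = 0 := by
      rw [hw, Q_add (Q := Q), Q_add (Q := Q), Q_sub hQ, ha', ha'', hy', hy, pol_add_left hQ,
        pol_sub_right hQ, pol_sub_right hQ, ha'a'', ha'y', ha'y, ha''y', ha''y, hy'y]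
      ring
    have ha'w : polar Q a' w = 1 := by
      rw [hw, pol_add_right hQ, pol_add_right hQ, pol_sub_right hQ, ha'a', ha'a'', ha'y', ha'y]
      ring
    have ha''w : polar Q a'' w = 1 := by
      rw [hw, pol_add_right hQ, pol_add_right hQ, pol_sub_right hQ, ha''a', pol_self hQ, ha'',
        ha''y', ha''y]
      ring
    have hwo : polar Q w (a'' - a') = 0 := by
      rw [pol_sub_right hQ, QuadraticMap.polar_comm Q w a'', QuadraticMap.polar_comm Q w a', ha'w,
        ha''w, sub_self]
    have hvw : polar Q v w = 0 := by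
      rw [hw, pol_add_right hQ, pol_add_right hQ, pol_sub_right hQ, hva', hva'', hvy', hvy]
      ring
    have hs := hHM (hfix w (a'' - a') hwQ hwo hvw (by
      rw [pol_sub_right hQ, hva'', hva', sub_zero]))
    have hF := hFa'.image ha' hs (hMi _ hs)
    rw [sg_move hQ hwQ ha' ha'' ha'w ha''w] at hF
    exact sigmaG_le hQ fun c' hc' => full_all (by omega) ha' ha'' hc' hFa' hF
      (by rw [ha''a']; exact one_ne_zero) hMi

end Cfsg.Agent.Lib.QuadVec
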