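import Mathlib
import Cfsg.Agent.Lib.FrobSemi

/-!
Fixed-point-free actions of the quaternion group of order 8.
-/

set_option autoImplicit false
set_option linter.all false

namespace Cfsg.Agent.Lib.QuatRep

open Cfsg.Agent.Lib.FrobSemi

theorem quat8_cases : ∀ c : QuaternionGroup 2, c ≠ 1 → c = QuaternionGroup.a 2 ∨ c * c = QuaternionGroup.a 2 := by
  decide

/-- The two-dimensional representation. -/
theorem quat_rep {F : Type} [Field F] (h2 : (2 : F) ≠ 0) (α β : F) (hab : α ^ 2 + β ^ 2 = -1) :
    ∃ ρ : QuaternionGroup 2 →* MulAut (Multiplicative (F × F)),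
      ∀ c v, ρ c v = v → c = 1 ∨ v = 1 := by
  let If : (F × F) ≃+ (F × F) :=
    { toFun := fun w => (-w.2, w.1)
      invFun := fun w => (w.2, -w.1)
      left_inv := fun w => by ext <;> simp
      right_inv := fun w => by ext <;> simp
      map_add' := fun a b => by ext <;> simp <;> ring }
  let Jf : (F × F) ≃+ (F × F) :=
    { toFun := fun w => (α * w.1 + β * w.2, β * w.1 - α * w.2)
      invFun := fun w => (-(α * w.1 + β * w.2), -(β * w.1 - α * w.2))
      left_inv := fun w => by
        refine Prod.ext ?_ ?_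
        · show -(α * (α * w.1 + β * w.2) + β * (β * w.1 - α * w.2)) = w.1
          linear_combination (-w.1) * hab
        · show -(β * (α * w.1 + β * w.2) - α * (β * w.1 - α * w.2)) = w.2
          linear_combination (-w.2) * hab
      right_inv := fun w => by
        refine Prod.ext ?_ ?_
        · show α * -(α * w.1 + β * w.2) + β * -(β * w.1 - α * w.2) = w.1
          linear_combination (-w.1) * hab
        · show β * -(α * w.1 + β * w.2) - α * -(β * w.1 - α * w.2) = w.2
          linear_combination (-w.2) * hab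
      map_add' := fun a b => by
        refine Prod.ext ?_ ?_
        · show α * (a.1 + b.1) + β * (a.2 + b.2) = α * a.1 + β * a.2 + (α * b.1 + β * b.2)
          ring
        · show β * (a.1 + b.1) - α * (a.2 + b.2) = β * a.1 - α * a.2 + (β * b.1 - α * b.2)
          ring }
  let A : MulAut (Multiplicative (F × F)) := mulOf If
  let X : MulAut (Multiplicative (F × F)) := mulOf Jf
  have hAa : ∀ u v : F, A (Multiplicative.ofAdd (u, v)) = Multiplicative.ofAdd (-v, u) :=
    fun u v => rfl
  have hXa : ∀ u v : F, X (Multiplicative.ofAdd (u, v)) =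
      Multiplicative.ofAdd (α * u + β * v, β * u - α * v) := fun u v => rfl
  have hext : ∀ P Q : MulAut (Multiplicative (F × F)),
      (∀ u v : F, P (Multiplicative.ofAdd (u, v)) = Q (Multiplicative.ofAdd (u, v))) → P = Q := by
    intro P Q h
    refine MulEquiv.ext fun x => ?_
    exact h (Multiplicative.toAdd x).1 (Multiplicative.toAdd x).2
  have hA2 : ∀ u v : F, (A ^ 2) (Multiplicative.ofAdd (u, v)) = Multiplicative.ofAdd (-u, -v) := by
    intro u v
    rw [sq, MulAut.mul_apply, hAa, hAa]
  have hX2 : ∀ u v : F, (X ^ 2) (Multiplicative.ofAdd (u, v)) = Multiplicative.ofAdd (-u, -v) := by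
    intro u v
    rw [sq, MulAut.mul_apply, hXa, hXa]
    refine congrArg Multiplicative.ofAdd (Prod.ext ?_ ?_)
    · show α * (α * u + β * v) + β * (β * u - α * v) = -u
      linear_combination u * hab
    · show β * (α * u + β * v) - α * (β * u - α * v) = -v
      linear_combination v * hab
  obtain ⟨f, hfa, hfx⟩ := quat_lift 2 A X
    (hext _ _ fun u v => by
      have e : (2 * 2 : ℕ) = 2 + 2 := rfl
      rw [e, pow_add, MulAut.mul_apply, hA2, hA2]
      simp)
    (hext _ _ fun u v => by rw [hA2, hX2])
    (hext _ _ fun u v => by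
      rw [MulAut.mul_apply, MulAut.mul_apply, hAa, hXa, hAa]
      refine congrArg Multiplicative.ofAdd (Prod.ext ?_ ?_)
      · show -(β * -v - α * u) = α * u + β * v
        ring
      · show α * -v + β * u = β * u - α * v
        ring)
  refine ⟨f, fun c x hx => ?_⟩
  by_cases hc : c = 1
  · exact Or.inl hc
  right
  have hz : f (QuaternionGroup.a 2) x = x := by
    rcases quat8_cases c hc with h | h
    · rw [← h]; exact hx
    · rw [← h, map_mul, MulAut.mul_apply, hx, hx]
  obtain ⟨u, v, rfl⟩ : ∃ u v : F, x = Multiplicative.ofAdd (u, v) :=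
    ⟨(Multiplicative.toAdd x).1, (Multiplicative.toAdd x).2, rfl⟩
  have hval : ((2 : ZMod (2 * 2))).val = 2 := rfl
  rw [hfa, hval, hA2] at hz
  have e := Multiplicative.ofAdd.injective hz
  have e1 : -u = u := congrArg Prod.fst e
  have e2 : -v = v := congrArg Prod.snd e
  have hu : u = 0 := by
    have : 2 * u = 0 := by linear_combination -e1
    exact (mul_eq_zero.1 this).resolve_left h2
  have hv : v = 0 := by
    have : 2 * v = 0 := by linear_combination -e2
    exact (mul_eq_zero.1 this).resolve_left h2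
  rw [hu, hv]; rfl

/-- Every odd `k` occurs. -/
theorem exists_rep (k : ℕ) : Odd k → ∃ (V : Type) (_ : Group V) (_ : Finite V)
    (ρ : QuaternionGroup 2 →* MulAut V), Nat.card V = k * k ∧ ∀ c v, ρ c v = v → c = 1 ∨ v = 1 := by
  induction k using Nat.recOnPosPrimePosCoprime with
  | prime_pow p n hp hn =>
    intro hodd
    haveI : Fact p.Prime := ⟨hp⟩
    have hn0 : n ≠ 0 := hn.ne'
    let F := GaloisField p n
    have hcardF : Nat.card F = p ^ n := GaloisField.card p n hn0
    haveI hfin : Finite F := Nat.finite_of_card_ne_zero (by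
      rw [hcardF]; exact pow_ne_zero _ hp.ne_zero)
    haveI : CharP F p := inferInstance
    have h2 : (2 : F) ≠ 0 := by
      intro h
      have h3 : ((2 : ℕ) : F) = 0 := by exact_mod_cast h
      rw [CharP.cast_eq_zero_iff F p] at h3
      have h4 : p = 2 := (Nat.prime_dvd_prime_iff_eq hp Nat.prime_two).1 h3
      subst h4
      have h5 : Even (2 ^ n) := (even_two).pow_of_ne_zero hn0 |>.elim (fun r hr => ⟨r, hr⟩)
      exact (Nat.not_even_iff_odd.2 hodd) h5
    obtain ⟨a, b, hab⟩ := CharP.sq_add_sq F p (-1)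
    have hab' : ((a : F)) ^ 2 + ((b : F)) ^ 2 = -1 := by
      rw [hab]
      simp
    obtain ⟨ρ, hρ⟩ := quat_rep h2 (a : F) (b : F) hab'
    refine ⟨Multiplicative (F × F), inferInstance, inferInstance, ρ, ?_, hρ⟩
    show Nat.card (F × F) = _
    rw [Nat.card_prod, hcardF]
  | zero => intro h; exact absurd h (by decide)
  | one =>
    intro _
    refine ⟨Unit, inferInstance, inferInstance, 1, by simp, fun c v _ => Or.inr rfl⟩
  | coprime a b ha hb hab iha ihb =>
    intro hodd
    obtain ⟨V₁, g₁, f₁, ρ₁, c₁, h₁⟩ := iha (Nat.odd_mul.1 hodd).1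
    obtain ⟨V₂, g₂, f₂, ρ₂, c₂, h₂⟩ := ihb (Nat.odd_mul.1 hodd).2
    let ρ : QuaternionGroup 2 →* MulAut (V₁ × V₂) := MonoidHom.mk'
      (fun c => MulEquiv.prodCongr (ρ₁ c) (ρ₂ c)) (fun x y => by
        ext w
        · show ρ₁ (x * y) w.1 = ρ₁ x (ρ₁ y w.1)
          rw [map_mul]; rfl
        · show ρ₂ (x * y) w.2 = ρ₂ x (ρ₂ y w.2)
          rw [map_mul]; rfl)
    refine ⟨V₁ × V₂, inferInstance, inferInstance, ρ, ?_, ?_⟩
    · rw [Nat.card_prod, c₁, c₂]; ring
    · intro c v hv
      have e1 : ρ₁ c v.1 = v.1 := congrArg Prod.fst hv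
      have e2 : ρ₂ c v.2 = v.2 := congrArg Prod.snd hv
      by_cases hc : c = 1
      · exact Or.inl hc
      · right
        exact Prod.ext ((h₁ c v.1 e1).resolve_left hc) ((h₂ c v.2 e2).resolve_left hc)

theorem quat_not_cyclic : ¬ IsCyclic (QuaternionGroup 2) := by
  intro h
  have hcomm := h.commutative
  have := hcomm.is_comm.comm (QuaternionGroup.a 1) (QuaternionGroup.xa 0)
  revert this
  decide

end Cfsg.Agent.Lib.QuatRep
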