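import Mathlib
import Cfsg.Agent.Lib.CoprimeGen

/-!
If a quaternion group acts on a finite group so that its involution acts without fixed points,
then the order of the group is an odd square.
-/

set_option autoImplicit false
set_option linter.all false

namespace Cfsg.Agent.Lib.QuatSquare

open Cfsg.Agent.Lib.CoprimeGen

/-- The determinant argument. -/
theorem det_lemma {k W : Type*} [Field k] [AddCommGroup W] [Module k W] [FiniteDimensional k W]
    (hchar : (2 : k) ≠ 0) (I J : Module.End k W) (h1 : I * I = (-1 : k) • 1)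
    (h2 : J * J = (-1 : k) • 1) (h3 : I * J * I = J) : Even (Module.finrank k W) := by
  set d := Module.finrank k W with hd
  have hdet : ∀ f g : Module.End k W, LinearMap.det (f * g) = LinearMap.det f * LinearMap.det g :=
    fun f g => map_mul _ f g
  have e1 : LinearMap.det I * LinearMap.det I = (-1 : k) ^ d := by
    rw [← hdet, h1, LinearMap.det_smul, map_one, mul_one]
  have e2 : LinearMap.det J * LinearMap.det J = (-1 : k) ^ d := by
    rw [← hdet, h2, LinearMap.det_smul, map_one, mul_one]
  have e3 : LinearMap.det I * LinearMap.det J * LinearMap.det I = LinearMap.det J := by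
    rw [← hdet, ← hdet, h3]
  have hm1 : (-1 : k) ^ d ≠ 0 := pow_ne_zero _ (neg_ne_zero.2 one_ne_zero)
  have hJ0 : LinearMap.det J ≠ 0 := by
    intro h
    rw [h, mul_zero] at e2
    exact hm1 e2.symm
  have e4 : LinearMap.det I * LinearMap.det I = 1 := by
    apply mul_right_cancel₀ hJ0
    rw [one_mul]
    calc LinearMap.det I * LinearMap.det I * LinearMap.det J
        = LinearMap.det I * LinearMap.det J * LinearMap.det I := by ring
      _ = _ := e3
  have e5 : (-1 : k) ^ d = 1 := by rw [← e1, e4]
  by_contra hodd
  rw [Nat.not_even_iff_odd] at hodd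
  rw [hodd.neg_one_pow] at e5
  apply hchar
  linear_combination -e5

/-- The square order of an elementary abelian group. -/
theorem elem_square {V : Type*} [Group V] [Finite V] (hc : ∀ a b : V, a * b = b * a) {q : ℕ}
    [hq : Fact q.Prime] (hq2 : q ≠ 2) (hexp : ∀ x : V, x ^ q = 1) (I J : MulAut V)
    (hI : ∀ x, I (I x) = x⁻¹) (hJ : ∀ x, J (J x) = x⁻¹) (hIJ : ∀ x, I (J (I x)) = J x) :
    IsSquare (Nat.card V) := by
  classical
  letI instC : CommGroup V := { (inferInstance : Group V) with mul_comm := hc }
  letI hmod : Module (ZMod q) (Additive V) := AddCommGroup.zmodModule (n := q) (fun x => by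
    show Additive.ofMul ((Additive.toMul x) ^ q) = 0
    rw [hexp]; rfl)
  haveI : Finite (Additive V) := inferInstanceAs (Finite V)
  haveI : Module.Finite (ZMod q) (Additive V) := Module.Finite.of_finite
  let toL : MulAut V → Module.End (ZMod q) (Additive V) := fun f =>
    AddMonoidHom.toZModLinearMap q (MonoidHom.toAdditive f.toMonoidHom)
  have h2ne : (2 : ZMod q) ≠ 0 := by
    intro h
    have h4 : ((2 : ℕ) : ZMod q) = 0 := by exact_mod_cast h
    have h5 : q ∣ 2 := (ZMod.natCast_eq_zero_iff 2 q).1 h4
    exact hq2 ((Nat.prime_dvd_prime_iff_eq hq.out Nat.prime_two).1 h5)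
  have hfd : FiniteDimensional (ZMod q) (Additive V) := Module.Finite.of_finite
  have hdeven := @det_lemma (ZMod q) (Additive V) _ _ hmod hfd h2ne (toL I) (toL J)
    (by
      refine LinearMap.ext fun w => ?_
      have e : ((-1 : ZMod q) • (1 : Module.End (ZMod q) (Additive V))) w = -w := by
        simp
      rw [e]
      show Additive.ofMul (I (I (Additive.toMul w))) = -w
      rw [hI]; rfl)
    (by
      refine LinearMap.ext fun w => ?_
      have e : ((-1 : ZMod q) • (1 : Module.End (ZMod q) (Additive V))) w = -w := by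
        simp
      rw [e]
      show Additive.ofMul (J (J (Additive.toMul w))) = -w
      rw [hJ]; rfl)
    (by
      refine LinearMap.ext fun w => ?_
      show Additive.ofMul (I (J (I (Additive.toMul w)))) = Additive.ofMul (J (Additive.toMul w))
      rw [hIJ])
  obtain ⟨e, he⟩ := hdeven
  have hcard : Nat.card V = q ^ Module.finrank (ZMod q) (Additive V) := by
    have := @Module.natCard_eq_pow_finrank (ZMod q) (Additive V) _ _ hmod hfd
    rw [Nat.card_zmod] at this
    exact this
  rw [hcard, he, pow_add]
  exact ⟨q ^ e, rfl⟩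

/-- The general statement for abelian groups. -/
theorem abelian_square : ∀ (n : ℕ) (K : Type*) [Group K] [Finite K] (hc : ∀ a b : K, a * b = b * a)
    (I J : MulAut K) (hI : ∀ x, I (I x) = x⁻¹) (hJ : ∀ x, J (J x) = x⁻¹)
    (hIJ : ∀ x, I (J (I x)) = J x), Nat.card K = n → Odd n → IsSquare n := by
  intro n
  induction n using Nat.strong_induction_on with
  | _ n ih =>
    intro K _ _ hc I J hI hJ hIJ hn hodd
    by_cases hn1 : n = 1
    · rw [hn1]; exact ⟨1, rfl⟩
    set q := n.minFac with hq
    have hqp : q.Prime := Nat.minFac_prime hn1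
    haveI : Fact q.Prime := ⟨hqp⟩
    have hqd : q ∣ n := Nat.minFac_dvd n
    have hq2 : q ≠ 2 := by
      rintro h
      rw [h] at hqd
      exact (Nat.not_even_iff_odd.2 hodd) (even_iff_two_dvd.2 hqd)
    let N : Subgroup K :=
      { carrier := {x | x ^ q = 1}
        mul_mem' := by
          intro a b ha hb
          show (a * b) ^ q = 1
          rw [(show Commute a b from hc a b).mul_pow, ha, hb, one_mul]
        one_mem' := one_pow q
        inv_mem' := by
          intro a ha
          show a⁻¹ ^ q = 1
          rw [inv_pow, ha, inv_one] }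
    have hNmem : ∀ x, x ∈ N ↔ x ^ q = 1 := fun x => Iff.rfl
    haveI hNn : N.Normal := ⟨fun x hx g => by
      rw [hc g x, mul_assoc, mul_inv_cancel, mul_one]
      exact hx⟩
    have hNinv : ∀ γ : MulAut K, ∀ x ∈ N, (MonoidHom.id (MulAut K)) γ x ∈ N := by
      intro γ x hx
      show (γ x) ^ q = 1
      rw [← map_pow, (hNmem x).1 hx, map_one]
    have hcK : q ∣ Nat.card K := hn ▸ hqd
    obtain ⟨x₀, hx₀⟩ := exists_prime_orderOf_dvd_card' (p := q) hcK
    have hNne : 1 < Nat.card N := by
      have hx₀N : x₀ ∈ N := by
        show x₀ ^ q = 1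
        rw [← hx₀]; exact pow_orderOf_eq_one x₀
      have hx₀1 : x₀ ≠ 1 := by
        rintro rfl
        rw [orderOf_one] at hx₀
        exact hqp.one_lt.ne hx₀
      have : Nontrivial N := ⟨⟨⟨x₀, hx₀N⟩, 1, fun h => hx₀1 (congrArg Subtype.val h)⟩⟩
      exact Finite.one_lt_card
    have hcard : Nat.card K = Nat.card (K ⧸ N) * Nat.card N :=
      Subgroup.card_eq_card_quotient_mul_card_subgroup N
    -- the subgroup
    let ρN := subρ (MonoidHom.id (MulAut K)) N hNinv
    have hsq1 : IsSquare (Nat.card N) := by
      refine elem_square (q := q) (fun a b => Subtype.ext (hc a b)) hq2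
        (fun x => Subtype.ext x.2) (ρN I) (ρN J) ?_ ?_ ?_
      · intro x; exact Subtype.ext (hI x)
      · intro x; exact Subtype.ext (hJ x)
      · intro x; exact Subtype.ext (hIJ x)
    -- the quotient
    let ρQ := quotρ (MonoidHom.id (MulAut K)) N hNinv
    have hQlt : Nat.card (K ⧸ N) < n := by
      have hpos : 0 < Nat.card (K ⧸ N) := Nat.card_pos
      rw [← hn, hcard]
      nlinarith
    have hQodd : Odd (Nat.card (K ⧸ N)) := by
      rw [← hn, hcard] at hodd
      exact (Nat.odd_mul.1 hodd).1
    have hsq2 : IsSquare (Nat.card (K ⧸ N)) := by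
      refine ih _ hQlt (K ⧸ N) ?_ (ρQ I) (ρQ J) ?_ ?_ ?_ rfl hQodd
      · intro a b
        induction a using QuotientGroup.induction_on with
        | H a =>
          induction b using QuotientGroup.induction_on with
          | H b =>
            rw [← QuotientGroup.mk_mul, ← QuotientGroup.mk_mul, hc]
      · intro x
        induction x using QuotientGroup.induction_on with
        | H x =>
          show ((I (I x) : K) : K ⧸ N) = _
          rw [hI]; rfl
      · intro x
        induction x using QuotientGroup.induction_on with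
        | H x =>
          show ((J (J x) : K) : K ⧸ N) = _
          rw [hJ]; rfl
      · intro x
        induction x using QuotientGroup.induction_on with
        | H x =>
          show ((I (J (I x)) : K) : K ⧸ N) = ((J x : K) : K ⧸ N)
          rw [hIJ]
    rw [← hn, hcard]
    exact hsq2.mul hsq1

/-- A fixed-point-free involutory automorphism inverts a finite group, which is then abelian. -/
theorem inverts_of_fpf {K : Type*} [Group K] [Finite K] (τ : MulAut K) (h2 : ∀ x, τ (τ x) = x)
    (hfree : ∀ x, τ x = x → x = 1) : (∀ x, τ x = x⁻¹) ∧ ∀ a b : K, a * b = b * a := by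
  have hinj : Function.Injective (fun x : K => x⁻¹ * τ x) := by
    intro x y hxy
    have h1 : x⁻¹ * τ x = y⁻¹ * τ y := hxy
    have h3 : τ (y * x⁻¹) = y * x⁻¹ := by
      rw [map_mul, map_inv]
      have h4 : τ y * (τ x)⁻¹ = y * (y⁻¹ * τ y) * (τ x)⁻¹ := by group
      rw [h4, ← h1]
      group
    have h5 := hfree _ h3
    rw [mul_inv_eq_one] at h5
    exact h5.symm
  have hsurj := Finite.injective_iff_surjective.1 hinj
  have hinv : ∀ x, τ x = x⁻¹ := by
    intro y
    obtain ⟨x, rfl⟩ := hsurj y
    simp only
    rw [map_mul, h2, map_inv]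
    group
  refine ⟨hinv, fun a b => ?_⟩
  have h1 := map_mul τ b⁻¹ a⁻¹
  simp only [hinv, inv_inv] at h1
  have h2 : (b⁻¹ * a⁻¹)⁻¹ = a * b := by group
  rw [h2] at h1
  exact h1

end Cfsg.Agent.Lib.QuatSquare
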