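import Mathlib
import Cfsg.Prelude.Def_RootSubgroups

/-!
Basic theory of rank one groups and abstract root subgroups (Timmesfeld, chapters I and II).
-/

namespace Cfsg.Agent.Lib.RankOne

open Cfsg
open scoped commutatorElement

variable {G : Type*} [Group G] {A B C D E F : Subgroup G}

theorem mem_conjBy {A : Subgroup G} {g x : G} : x ∈ conjBy A g ↔ g⁻¹ * x * g ∈ A := by
  constructor
  · rintro ⟨y, hy, rfl⟩
    have : g⁻¹ * (MulAut.conj g).toMonoidHom y * g = y := by
      simp [MulAut.conj_apply]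
      group
    rw [this]
    exact hy
  · intro h
    refine ⟨_, h, ?_⟩
    simp [MulAut.conj_apply]
    group

theorem conj_mem_conjBy {A : Subgroup G} {g x : G} (hx : x ∈ A) : g * x * g⁻¹ ∈ conjBy A g := by
  rw [mem_conjBy]
  convert hx using 1
  group

theorem conjBy_one (A : Subgroup G) : conjBy A 1 = A := by
  ext x
  rw [mem_conjBy]
  simp

theorem conjBy_mul (A : Subgroup G) (g h : G) : conjBy A (g * h) = conjBy (conjBy A h) g := by
  ext x
  rw [mem_conjBy, mem_conjBy, mem_conjBy]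
  congr! 1
  group

theorem conjBy_conjBy_inv (A : Subgroup G) (g : G) : conjBy (conjBy A g) g⁻¹ = A := by
  rw [← conjBy_mul]
  simp [conjBy_one]

theorem conjBy_inv_conjBy (A : Subgroup G) (g : G) : conjBy (conjBy A g⁻¹) g = A := by
  rw [← conjBy_mul]
  simp [conjBy_one]

theorem conjBy_eq_self_of_mem {A : Subgroup G} {g : G} (hg : g ∈ A) : conjBy A g = A := by
  ext x
  rw [mem_conjBy]
  constructor
  · intro h
    have := A.mul_mem (A.mul_mem hg h) (A.inv_mem hg)
    convert this using 1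
    group
  · intro h
    exact A.mul_mem (A.mul_mem (A.inv_mem hg) h) hg

theorem conjBy_sup (A B : Subgroup G) (g : G) : conjBy (A ⊔ B) g = conjBy A g ⊔ conjBy B g :=
  Subgroup.map_sup _ _ _

theorem conjBy_mono {A B : Subgroup G} (h : A ≤ B) (g : G) : conjBy A g ≤ conjBy B g :=
  Subgroup.map_mono h

theorem conjBy_injective (g : G) : Function.Injective (fun A : Subgroup G => conjBy A g) := by
  intro A B h
  have h2 := congrArg (fun X : Subgroup G => conjBy X g⁻¹) h
  simpa [conjBy_conjBy_inv] using h2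

theorem conjBy_eq_of_inv {A B : Subgroup G} {g : G} (h : conjBy A g = B) : conjBy B g⁻¹ = A := by
  rw [← h, conjBy_conjBy_inv]

theorem conjBy_eq_of_commute {A : Subgroup G} {g : G} (h : ∀ a ∈ A, g * a = a * g) : conjBy A g = A := by
  ext x
  rw [mem_conjBy]
  have hx : ∀ y ∈ A, g⁻¹ * y * g = y := by
    intro y hy
    rw [mul_assoc, ← h y hy]
    group
  constructor
  · intro hh
    have h3 : x = g * (g⁻¹ * x * g) * g⁻¹ := by group
    rw [h3, h _ hh]
    convert hh using 1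
    group
  · intro hh
    rw [hx x hh]
    exact hh

theorem conjBy_inv_of_eq {A : Subgroup G} {g : G} (h : conjBy A g = A) : conjBy A g⁻¹ = A :=
  conjBy_eq_of_inv h

theorem mem_normalizer_iff_conjBy {A : Subgroup G} {g : G} :
    g ∈ Subgroup.normalizer (A : Set G) ↔ conjBy A g = A := by
  rw [Subgroup.mem_normalizer_iff]
  constructor
  · intro h
    ext x
    rw [mem_conjBy]
    constructor
    · intro hx
      have := (h (g⁻¹ * x * g)).mp hx
      convert this using 1
      group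
    · intro hx
      have := (h (g⁻¹ * x * g)).mpr
      apply this
      convert hx using 1
      group
  · intro h x
    constructor
    · intro hx
      rw [← h]
      exact conj_mem_conjBy hx
    · intro hx
      rw [← h, mem_conjBy] at hx
      convert hx using 1
      group

theorem comm_of_mem {E : Subgroup G} (hE : IsMulCommutative E) {x y : G} (hx : x ∈ E) (hy : y ∈ E) :
    x * y = y * x := by
  have := hE.is_comm.comm ⟨x, hx⟩ ⟨y, hy⟩
  exact congrArg Subtype.val this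

/-! ### Rank one pairs -/

section RankOne

variable (h : IsRankOnePair A B)
include h

theorem eq_one_of_conjBy_right {b : G} (hb : b ∈ B) (hn : conjBy A b = A) : b = 1 := by
  by_contra hb1
  obtain ⟨a, ha, -, hab⟩ := h.cond_right b hb hb1
  have h1 : conjBy A b⁻¹ = A := conjBy_inv_of_eq hn
  rw [h1] at hab
  -- `conjBy B a⁻¹ = A`
  have h2 : conjBy A a = B := by simpa using conjBy_eq_of_inv hab
  rw [conjBy_eq_self_of_mem ha] at h2
  exact h.ne h2

theorem eq_one_of_conjBy_left {a : G} (ha : a ∈ A) (hn : conjBy B a = B) : a = 1 :=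
  eq_one_of_conjBy_right (RankOnePair_symm h) ha hn

theorem ne_bot_left : A ≠ ⊥ := by
  intro hA
  apply h.ne
  rw [hA]
  symm
  rw [eq_bot_iff]
  intro b hb
  rw [Subgroup.mem_bot]
  by_contra hb1
  obtain ⟨a, ha, ha1, -⟩ := h.cond_right b hb hb1
  rw [hA, Subgroup.mem_bot] at ha
  exact ha1 ha

theorem ne_bot_right : B ≠ ⊥ := ne_bot_left (RankOnePair_symm h)

theorem exists_ne_one_left : ∃ a ∈ A, a ≠ 1 :=
  (Subgroup.ne_bot_iff_exists_ne_one.mp (ne_bot_left h)) |> fun ⟨a, ha⟩ => ⟨a, a.2, by simpa using ha⟩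

theorem exists_ne_one_right : ∃ b ∈ B, b ≠ 1 := exists_ne_one_left (RankOnePair_symm h)

/-- `B` is a conjugate of `A` under `⟨A, B⟩`. -/
theorem right_mem_unipotent : B ∈ unipotentSubgroups A B := by
  obtain ⟨a, ha, ha1⟩ := exists_ne_one_left h
  obtain ⟨b, hb, -, hab⟩ := h.cond_left a ha ha1
  refine ⟨a * b⁻¹, (A ⊔ B).mul_mem (Subgroup.mem_sup_left ha) (Subgroup.mem_sup_right (B.inv_mem hb)), ?_⟩
  rw [conjBy_mul, hab, ← conjBy_mul]
  simp [conjBy_one]

theorem left_mem_unipotent : A ∈ unipotentSubgroups A B :=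
  ⟨1, (A ⊔ B).one_mem, (conjBy_one A).symm⟩

theorem conj_mem_unipotent {C : Subgroup G} (hC : C ∈ unipotentSubgroups A B) {x : G} (hx : x ∈ A ⊔ B) :
    conjBy C x ∈ unipotentSubgroups A B := by
  obtain ⟨y, hy, rfl⟩ := hC
  exact ⟨x * y, (A ⊔ B).mul_mem hx hy, by rw [conjBy_mul]⟩

/-- The structure of the set of conjugates: `A` together with the `A`-conjugates of `B`. -/
theorem mem_unipotent_iff {C : Subgroup G} :
    C ∈ unipotentSubgroups A B ↔ C = A ∨ ∃ a ∈ A, C = conjBy B a := by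
  constructor
  · rintro ⟨x, hx, rfl⟩
    -- invariance of the right-hand set
    have hA : ∀ g ∈ A, ∀ D : Subgroup G, (D = A ∨ ∃ a ∈ A, D = conjBy B a) →
        (conjBy D g = A ∨ ∃ a ∈ A, conjBy D g = conjBy B a) := by
      rintro g hg D (rfl | ⟨a, ha, rfl⟩)
      · exact Or.inl (conjBy_eq_self_of_mem hg)
      · exact Or.inr ⟨g * a, A.mul_mem hg ha, by rw [conjBy_mul]⟩
    have hB0 : ∀ g ∈ B, (conjBy A g = A ∨ ∃ a ∈ A, conjBy A g = conjBy B a) := by
      intro g hg
      by_cases hg1 : g = 1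
      · rw [hg1, conjBy_one]
        exact Or.inl rfl
      · obtain ⟨a, ha, -, hab⟩ := h.cond_right g⁻¹ (B.inv_mem hg) (by simpa using hg1)
        rw [inv_inv] at hab
        exact Or.inr ⟨a⁻¹, A.inv_mem ha, hab.symm⟩
    have hB : ∀ g ∈ B, ∀ D : Subgroup G, (D = A ∨ ∃ a ∈ A, D = conjBy B a) →
        (conjBy D g = A ∨ ∃ a ∈ A, conjBy D g = conjBy B a) := by
      rintro g hg D (rfl | ⟨a, ha, rfl⟩)
      · exact hB0 g hg
      · by_cases ha1 : a = 1
        · rw [ha1, conjBy_one, conjBy_eq_self_of_mem hg]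
          exact Or.inr ⟨1, A.one_mem, (conjBy_one B).symm⟩
        · obtain ⟨b, hb, -, hab⟩ := h.cond_left a⁻¹ (A.inv_mem ha) (by simpa using ha1)
          rw [inv_inv] at hab
          rw [← hab, ← conjBy_mul]
          exact hB0 _ (B.mul_mem hg (B.inv_mem hb))
    have key : ∀ x ∈ A ⊔ B, (∀ D : Subgroup G, (D = A ∨ ∃ a ∈ A, D = conjBy B a) →
        (conjBy D x = A ∨ ∃ a ∈ A, conjBy D x = conjBy B a)) ∧
        (∀ D : Subgroup G, (D = A ∨ ∃ a ∈ A, D = conjBy B a) →
        (conjBy D x⁻¹ = A ∨ ∃ a ∈ A, conjBy D x⁻¹ = conjBy B a)) := by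
      intro x hx
      rw [Subgroup.sup_eq_closure] at hx
      induction hx using Subgroup.closure_induction with
      | mem x hx =>
        rcases hx with hx | hx
        · exact ⟨hA x hx, hA x⁻¹ (A.inv_mem hx)⟩
        · exact ⟨hB x hx, hB x⁻¹ (B.inv_mem hx)⟩
      | one =>
        simp only [conjBy_one, inv_one]
        exact ⟨fun D hD => hD, fun D hD => hD⟩
      | mul x y _ _ ihx ihy =>
        refine ⟨fun D hD => ?_, fun D hD => ?_⟩
        · rw [conjBy_mul]
          exact ihx.1 _ (ihy.1 D hD)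
        · rw [mul_inv_rev, conjBy_mul]
          exact ihy.2 _ (ihx.2 D hD)
      | inv x _ ih =>
        refine ⟨ih.2, ?_⟩
        simpa using ih.1
    exact (key x hx).1 A (Or.inl rfl)
  · rintro (rfl | ⟨a, ha, rfl⟩)
    · exact left_mem_unipotent h
    · exact conj_mem_unipotent h (right_mem_unipotent h) (Subgroup.mem_sup_left ha)

theorem conjBy_right_ne_left {a : G} (ha : a ∈ A) : conjBy B a ≠ A := by
  intro h2
  have h3 := conjBy_eq_of_inv h2
  rw [conjBy_eq_self_of_mem (A.inv_mem ha)] at h3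
  exact h.ne h3

/-- The stabilizer in `A` of a conjugate different from `A` is trivial. -/
theorem fix_eq {a : G} (ha : a ∈ A) (ha1 : a ≠ 1) {C : Subgroup G} (hC : C ∈ unipotentSubgroups A B)
    (hfix : conjBy C a = C) : C = A := by
  rcases (mem_unipotent_iff h).mp hC with rfl | ⟨a', ha', rfl⟩
  · rfl
  · exfalso
    apply ha1
    have h1 : conjBy B (a'⁻¹ * a * a') = B := by
      rw [conjBy_mul, conjBy_mul, hfix, conjBy_conjBy_inv]
    have h2 := eq_one_of_conjBy_left h (A.mul_mem (A.mul_mem (A.inv_mem ha') ha) ha') h1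
    have h3 : a = a' * (a'⁻¹ * a * a') * a'⁻¹ := by group
    rw [h3, h2]
    simp

/-- Every ordered pair of different conjugates is conjugate to `(A, B)`. -/
theorem exists_to_pair {C₁ C₂ : Subgroup G} (h1 : C₁ ∈ unipotentSubgroups A B) (h2 : C₂ ∈ unipotentSubgroups A B)
    (hne : C₁ ≠ C₂) : ∃ x ∈ A ⊔ B, conjBy C₁ x = A ∧ conjBy C₂ x = B := by
  obtain ⟨g, hg, rfl⟩ := h1
  have h3 : conjBy C₂ g⁻¹ ∈ unipotentSubgroups A B :=
    conj_mem_unipotent h h2 ((A ⊔ B).inv_mem hg)
  rcases (mem_unipotent_iff h).mp h3 with h4 | ⟨a, ha, h4⟩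
  · exfalso
    apply hne
    have := conjBy_eq_of_inv h4
    simp only [inv_inv] at this
    exact this
  · refine ⟨a⁻¹ * g⁻¹, (A ⊔ B).mul_mem (Subgroup.mem_sup_left (A.inv_mem ha)) ((A ⊔ B).inv_mem hg), ?_, ?_⟩
    · rw [conjBy_mul, conjBy_conjBy_inv, conjBy_eq_self_of_mem (A.inv_mem ha)]
    · rw [conjBy_mul, h4, conjBy_conjBy_inv]

omit h in
theorem isRankOnePair_conj (h : IsRankOnePair A B) (g : G) : IsRankOnePair (conjBy A g) (conjBy B g) := by
  have hcond : ∀ {A B : Subgroup G}, RankOneCondition A B → RankOneCondition (conjBy A g) (conjBy B g) := by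
    intro A B hc a' ha' ha1'
    rw [mem_conjBy] at ha'
    have hne : g⁻¹ * a' * g ≠ 1 := by
      intro h1
      apply ha1'
      have : a' = g * (g⁻¹ * a' * g) * g⁻¹ := by group
      rw [this, h1]
      simp
    obtain ⟨b, hb, hb1, hab⟩ := hc _ ha' hne
    refine ⟨g * b * g⁻¹, conj_mem_conjBy hb, ?_, ?_⟩
    · intro h1
      apply hb1
      have h2 : b = g⁻¹ * (g * b * g⁻¹) * g := by group
      rw [h2, h1]
      simp
    · have e1 : conjBy (conjBy A g) (g * b * g⁻¹)⁻¹ = conjBy (conjBy A b⁻¹) g := by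
        rw [← conjBy_mul, ← conjBy_mul]
        congr 1
        group
      have e2 : conjBy (conjBy B g) a'⁻¹ = conjBy (conjBy B (g⁻¹ * a' * g)⁻¹) g := by
        rw [← conjBy_mul, ← conjBy_mul]
        congr 1
        group
      rw [e1, e2, hab]
  have hnil : ∀ {A : Subgroup G}, Group.IsNilpotent A → Group.IsNilpotent (conjBy A g) := by
    intro A hA
    have e : A ≃* conjBy A g := A.equivMapOfInjective _ (MulAut.conj g).injective
    exact nilpotent_of_mulEquiv e
  exact ⟨fun h1 => h.ne (conjBy_injective g h1), hnil h.nilpotent_left, hnil h.nilpotent_right, hcond h.cond_left, hcond h.cond_right⟩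

omit h in
theorem conjBy_sup_of_mem (A B : Subgroup G) {x : G} (hx : x ∈ A ⊔ B) : conjBy (A ⊔ B) x = A ⊔ B :=
  conjBy_eq_self_of_mem hx

/-- Two different conjugates form a rank one pair generating the same group. -/
theorem pair_of_mem {C₁ C₂ : Subgroup G} (h1 : C₁ ∈ unipotentSubgroups A B) (h2 : C₂ ∈ unipotentSubgroups A B)
    (hne : C₁ ≠ C₂) : IsRankOnePair C₁ C₂ ∧ C₁ ⊔ C₂ = A ⊔ B := by
  obtain ⟨x, hx, e1, e2⟩ := exists_to_pair h h1 h2 hne
  have e1' := conjBy_eq_of_inv e1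
  have e2' := conjBy_eq_of_inv e2
  constructor
  · rw [← e1', ← e2']
    exact isRankOnePair_conj h _
  · rw [← e1', ← e2', ← conjBy_sup]
    exact conjBy_eq_self_of_mem ((A ⊔ B).inv_mem hx)

/-- Conjugates under `⟨A, B⟩`: the family is the same for any two different members. -/
theorem unipotent_eq_of_mem {C₁ C₂ : Subgroup G} (h1 : C₁ ∈ unipotentSubgroups A B)
    (h2 : C₂ ∈ unipotentSubgroups A B) (hne : C₁ ≠ C₂) :
    unipotentSubgroups C₁ C₂ = unipotentSubgroups A B := by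
  obtain ⟨-, hsup⟩ := pair_of_mem h h1 h2 hne
  ext D
  constructor
  · rintro ⟨x, hx, rfl⟩
    rw [hsup] at hx
    exact conj_mem_unipotent h h1 hx
  · rintro ⟨x, hx, rfl⟩
    obtain ⟨g, hg, rfl⟩ := h1
    refine ⟨x * g⁻¹, ?_, ?_⟩
    · rw [hsup]
      exact (A ⊔ B).mul_mem hx ((A ⊔ B).inv_mem hg)
    · rw [← conjBy_mul]
      congr 1
      group

/-- An element fixing every conjugate of `A` commutes with `⟨A, B⟩`. -/
theorem commute_of_fix_all {k : G} (hk : ∀ C ∈ unipotentSubgroups A B, conjBy C k = C) :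
    ∀ x ∈ A ⊔ B, k * x = x * k := by
  have hkinv : ∀ C ∈ unipotentSubgroups A B, conjBy C k⁻¹ = C := fun C hC => conjBy_inv_of_eq (hk C hC)
  have hfix : ∀ c ∈ A ⊔ B, conjBy B (k * c * k⁻¹ * c⁻¹) = B := by
    intro c hc
    have e : k * c * k⁻¹ * c⁻¹ = k * (c * (k⁻¹ * c⁻¹)) := by group
    rw [e, conjBy_mul, conjBy_mul, conjBy_mul]
    have h1 : conjBy B c⁻¹ ∈ unipotentSubgroups A B :=
      conj_mem_unipotent h (right_mem_unipotent h) ((A ⊔ B).inv_mem hc)
    rw [hkinv _ h1, conjBy_inv_conjBy]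
    exact hk _ (right_mem_unipotent h)
  have hfix' : ∀ c ∈ A ⊔ B, conjBy A (k * c * k⁻¹ * c⁻¹) = A := by
    intro c hc
    have e : k * c * k⁻¹ * c⁻¹ = k * (c * (k⁻¹ * c⁻¹)) := by group
    rw [e, conjBy_mul, conjBy_mul, conjBy_mul]
    have h1 : conjBy A c⁻¹ ∈ unipotentSubgroups A B :=
      conj_mem_unipotent h (left_mem_unipotent h) ((A ⊔ B).inv_mem hc)
    rw [hkinv _ h1, conjBy_inv_conjBy]
    exact hk _ (left_mem_unipotent h)
  have hA : ∀ a ∈ A, k * a = a * k := by
    intro a ha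
    have h1 : k * a * k⁻¹ * a⁻¹ ∈ A := by
      have h2 : k * a * k⁻¹ ∈ A := by
        have := conj_mem_conjBy (g := k) ha
        rwa [hk A (left_mem_unipotent h)] at this
      exact A.mul_mem h2 (A.inv_mem ha)
    have h2 := eq_one_of_conjBy_left h h1 (hfix a (Subgroup.mem_sup_left ha))
    have h3 : k * a * k⁻¹ = a := mul_inv_eq_one.mp h2
    calc k * a = k * a * k⁻¹ * k := by group
      _ = a * k := by rw [h3]
  have hB : ∀ b ∈ B, k * b = b * k := by
    intro b hb
    have h1 : k * b * k⁻¹ * b⁻¹ ∈ B := by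
      have h2 : k * b * k⁻¹ ∈ B := by
        have := conj_mem_conjBy (g := k) hb
        rwa [hk B (right_mem_unipotent h)] at this
      exact B.mul_mem h2 (B.inv_mem hb)
    have h2 := eq_one_of_conjBy_right h h1 (hfix' b (Subgroup.mem_sup_right hb))
    have h3 : k * b * k⁻¹ = b := mul_inv_eq_one.mp h2
    calc k * b = k * b * k⁻¹ * k := by group
      _ = b * k := by rw [h3]
  intro x hx
  rw [Subgroup.sup_eq_closure] at hx
  induction hx using Subgroup.closure_induction with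
  | mem x hx =>
    rcases hx with hx | hx
    · exact hA x hx
    · exact hB x hx
  | one => simp
  | mul x y _ _ ihx ihy =>
    rw [← mul_assoc, ihx, mul_assoc, ihy, mul_assoc]
  | inv x _ ih =>
    have : k = x * k * x⁻¹ := by
      rw [← ih]
      group
    calc k * x⁻¹ = x⁻¹ * (x * k * x⁻¹) := by group
      _ = x⁻¹ * k := by rw [← this]

/-- If some element of a normal subgroup of `⟨A, B⟩` moves a conjugate, then some element of
it conjugates `A` to `B`. -/
theorem exists_conj_of_moves {N : Subgroup G} (hN : ∀ n ∈ N, ∀ x ∈ A ⊔ B, x * n * x⁻¹ ∈ N)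
    {n : G} (hn : n ∈ N) (hnX : n ∈ A ⊔ B) {C : Subgroup G} (hC : C ∈ unipotentSubgroups A B) (hmove : conjBy C n ≠ C) :
    ∃ n' ∈ N, n' ∈ A ⊔ B ∧ conjBy A n' = B := by
  have h1 := conj_mem_unipotent h hC hnX
  obtain ⟨x, hx, e1, e2⟩ := exists_to_pair h hC h1 hmove.symm
  refine ⟨x * n * x⁻¹, hN n hn x hx, (A ⊔ B).mul_mem ((A ⊔ B).mul_mem hx hnX) ((A ⊔ B).inv_mem hx), ?_⟩
  rw [← e1, ← conjBy_mul]
  rw [← e2, ← conjBy_mul]
  congr 1
  group

end RankOne

/-! ### Abstract root subgroups -/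

section Root

variable {S : Set (Subgroup G)}

theorem exists_partner (hA : ¬ IsIsolatedIn (FAdj S) S A) (hAS : A ∈ S) : ∃ B ∈ S, IsRankOnePair A B := by
  by_contra hcon
  apply hA
  refine ⟨hAS, fun B => ⟨?_, ?_⟩⟩
  · rintro ⟨-, hB, h⟩
    exact hcon ⟨B, hB, h⟩
  · rintro ⟨hB, -, h⟩
    exact hcon ⟨B, hB, RankOnePair_symm h⟩

theorem unipotent_mem_S (hS : IsRootSubgroupSet S) (hA : A ∈ S) {C : Subgroup G}
    (hC : C ∈ unipotentSubgroups A B) : C ∈ S := by
  obtain ⟨x, -, rfl⟩ := hC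
  exact hS.conj_mem A hA x

/-- Key lemma: a member of `S` moving a conjugate `E` of `A` inside the rank one group forms a rank one pair with `E`. -/
theorem rankOne_of_moves (hS : IsRootSubgroupSet S) (hAS : A ∈ S) (h : IsRankOnePair A B)
    (hE : E ∈ unipotentSubgroups A B) (hF : F ∈ S) {f : G} (hf : f ∈ F) (hmove : conjBy E f ≠ E)
    (hE' : conjBy E f ∈ unipotentSubgroups A B) : IsRankOnePair F E ∧ A ⊔ B ≤ F ⊔ E := by
  have hES : E ∈ S := unipotent_mem_S hS hAS hE
  obtain ⟨hp, hsup⟩ := pair_of_mem h hE' hE hmove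
  rcases hS.pair F hF E hES with hc | hr | hcc
  · exfalso
    apply hmove
    apply conjBy_eq_of_commute
    intro a ha
    have : ⁅f, a⁆ ∈ ⁅F, E⁆ := Subgroup.commutator_mem_commutator hf ha
    rw [hc, Subgroup.mem_bot, commutatorElement_eq_one_iff_mul_comm] at this
    exact this
  · refine ⟨hr, ?_⟩
    rw [← hsup]
    refine sup_le ?_ le_sup_right
    intro x hx
    rw [mem_conjBy] at hx
    have : x = f * (f⁻¹ * x * f) * f⁻¹ := by group
    rw [this]
    exact (F ⊔ E).mul_mem ((F ⊔ E).mul_mem (Subgroup.mem_sup_left hf) (Subgroup.mem_sup_right hx))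
      (Subgroup.mem_sup_left (F.inv_mem hf))
  · exfalso
    obtain ⟨-, hc2, -⟩ := hcc
    have hEc := hS.commutative E hES
    obtain ⟨e, he, he1⟩ := exists_ne_one_right hp
    apply he1
    apply eq_one_of_conjBy_right hp he
    apply conjBy_eq_of_commute
    intro x hx
    rw [mem_conjBy] at hx
    -- `x = f y f⁻¹ = ⁅f,y⁆ y`
    set y := f⁻¹ * x * f with hy
    have hxy : x = ⁅f, y⁆ * y := by
      rw [commutatorElement_def, hy]
      group
    have hw : ⁅f, y⁆ ∈ ⁅F, E⁆ := Subgroup.commutator_mem_commutator hf hx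
    have h1 := hc2 _ hw e (Subgroup.mem_sup_right he)
    have h2 : e * y = y * e := comm_of_mem hEc he hx
    rw [hxy]
    calc e * (⁅f, y⁆ * y) = (e * ⁅f, y⁆) * y := by group
      _ = (⁅f, y⁆ * e) * y := by rw [h1]
      _ = ⁅f, y⁆ * (e * y) := by group
      _ = ⁅f, y⁆ * (y * e) := by rw [h2]
      _ = (⁅f, y⁆ * y) * e := by group

/-- A member `F` of `S` inside `⟨C, D⟩` with a rank one partner `P` inside `⟨C, D⟩` is a conjugate of `C`. -/
theorem mem_unipotent_of_le (hS : IsRootSubgroupSet S) (hCS : C ∈ S) (h : IsRankOnePair C D)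
    (hF : F ∈ S) {P : Subgroup G} (hFP : IsRankOnePair F P) (hFle : F ≤ C ⊔ D) (hPle : P ≤ C ⊔ D) :
    F ∈ unipotentSubgroups C D := by
  have hex : ∃ f ∈ F, ∃ E ∈ unipotentSubgroups C D, conjBy E f ≠ E := by
    by_contra hcon
    simp only [not_exists, not_and, not_not] at hcon
    obtain ⟨p, hp, hp1⟩ := exists_ne_one_right hFP
    apply hp1
    apply eq_one_of_conjBy_right hFP hp
    apply conjBy_eq_of_commute
    intro a ha
    exact (commute_of_fix_all h (hcon a ha) p (hPle hp)).symm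
  obtain ⟨f, hf, E, hE, hmove⟩ := hex
  obtain ⟨hr, hle⟩ := rankOne_of_moves hS hCS h hE hF hf hmove (conj_mem_unipotent h hE (hFle hf))
  have hsup : F ⊔ E = C ⊔ D := by
    apply le_antisymm _ hle
    refine sup_le hFle ?_
    obtain ⟨y, hy, rfl⟩ := hE
    intro x hx
    rw [mem_conjBy] at hx
    have : x = y * (y⁻¹ * x * y) * y⁻¹ := by group
    rw [this]
    exact (C ⊔ D).mul_mem ((C ⊔ D).mul_mem hy (Subgroup.mem_sup_left hx)) ((C ⊔ D).inv_mem hy)
  obtain ⟨x, hx, hxe⟩ := right_mem_unipotent hr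
  rw [hsup] at hx
  have : F = conjBy E x⁻¹ := (conjBy_eq_of_inv hxe.symm).symm
  rw [this]
  exact conj_mem_unipotent h hE ((C ⊔ D).inv_mem hx)

/-- (Timmesfeld II.2.2 (1)) -/
theorem sup_eq_of_le (hS : IsRootSubgroupSet S) (hA : A ∈ S) (hC : C ∈ S)
    (hB : B ∈ rankOnePartners S A) (hD : D ∈ rankOnePartners S C) (hle : A ⊔ B ≤ C ⊔ D) :
    A ⊔ B = C ⊔ D ∧ C ∈ unipotentSubgroups A B ∧ D ∈ unipotentSubgroups A B := by
  have h := hD.2
  have hA' : A ∈ unipotentSubgroups C D :=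
    mem_unipotent_of_le hS hC h hA hB.2 (le_sup_left.trans hle) (le_sup_right.trans hle)
  have hB' : B ∈ unipotentSubgroups C D :=
    mem_unipotent_of_le hS hC h hB.1 (RankOnePair_symm hB.2) (le_sup_right.trans hle) (le_sup_left.trans hle)
  obtain ⟨-, hsup⟩ := pair_of_mem h hA' hB' hB.2.ne
  have he := unipotent_eq_of_mem h hA' hB' hB.2.ne
  rw [he]
  exact ⟨hsup, left_mem_unipotent h, right_mem_unipotent h⟩

/-- (Timmesfeld II.2.2 (2)) -/
theorem mul_not_root (hS : IsRootSubgroupSet S) (hA : A ∈ S) (hB : B ∈ rankOnePartners S A) {z : G}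
    (hz : z ∈ Subgroup.centralizer ((A ⊔ B : Subgroup G) : Set G)) (hz1 : z ≠ 1) :
    ∀ a ∈ A, a ≠ 1 → z * a ∉ rootElements S := by
  rintro a ha ha1 ⟨hza1, F, hF, hzaF⟩
  have h := hB.2
  have hfixz : ∀ E : Subgroup G, E ≤ A ⊔ B → conjBy E z = E := by
    intro E hE
    apply conjBy_eq_of_commute
    intro x hx
    exact ((Subgroup.mem_centralizer_iff.mp hz) x (hE hx)).symm
  have hle : conjBy B a ≤ A ⊔ B := by
    intro x hx
    rw [mem_conjBy] at hx
    have : x = a * (a⁻¹ * x * a) * a⁻¹ := by group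
    rw [this]
    exact (A ⊔ B).mul_mem ((A ⊔ B).mul_mem (Subgroup.mem_sup_left ha) (Subgroup.mem_sup_right hx))
      (Subgroup.mem_sup_left (A.inv_mem ha))
  have he : conjBy B (z * a) = conjBy B a := by
    rw [conjBy_mul, hfixz _ hle]
  have hmove : conjBy B (z * a) ≠ B := by
    rw [he]
    intro h3
    exact ha1 (eq_one_of_conjBy_left h ha h3)
  have hE' : conjBy B (z * a) ∈ unipotentSubgroups A B := by
    rw [he]
    exact conj_mem_unipotent h (right_mem_unipotent h) (Subgroup.mem_sup_left ha)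
  obtain ⟨hr, hle2⟩ := rankOne_of_moves hS hA h (right_mem_unipotent h) hF hzaF hmove hE'
  obtain ⟨hsup, hFm, -⟩ := sup_eq_of_le hS hA hF hB ⟨hB.1, hr⟩ hle2
  -- `F` is a conjugate of `A` and `a` fixes it
  have hFle : F ≤ A ⊔ B := by
    rw [hsup]
    exact le_sup_left
  have hfixF : conjBy F a = F := by
    have h1 : conjBy F (z * a) = F := conjBy_eq_self_of_mem hzaF
    rw [conjBy_mul] at h1
    have h2 : conjBy F a ≤ A ⊔ B := by
      intro x hx
      rw [mem_conjBy] at hx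
      have : x = a * (a⁻¹ * x * a) * a⁻¹ := by group
      rw [this]
      exact (A ⊔ B).mul_mem ((A ⊔ B).mul_mem (Subgroup.mem_sup_left ha) (hFle hx))
        (Subgroup.mem_sup_left (A.inv_mem ha))
    rwa [hfixz _ h2] at h1
  have hFA : F = A := fix_eq h ha ha1 hFm hfixF
  rw [hFA] at hzaF
  have hzA : z ∈ A := by
    have := A.mul_mem hzaF (A.inv_mem ha)
    simpa using this
  exact hz1 (eq_one_of_conjBy_left h hzA (hfixz B le_sup_right))

/-- (Timmesfeld II.2.2 (5)) -/
theorem inf_eq_bot_or_eq (hS : IsRootSubgroupSet S) (hA : ¬ IsIsolatedIn (FAdj S) S A) (hAS : A ∈ S) :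
    ∀ C ∈ S, A ⊓ C = ⊥ ∨ A = C := by
  intro C hC
  by_cases hbot : A ⊓ C = ⊥
  · exact Or.inl hbot
  right
  obtain ⟨B, hBS, h⟩ := exists_partner hA hAS
  obtain ⟨c, hc⟩ := (Subgroup.ne_bot_iff_exists_ne_one).mp hbot
  have hc1 : (c : G) ≠ 1 := by simpa using hc
  have hcA : (c : G) ∈ A := c.2.1
  have hcC : (c : G) ∈ C := c.2.2
  have hmove : conjBy B (c : G) ≠ B := fun h3 => hc1 (eq_one_of_conjBy_left h hcA h3)
  have hE' : conjBy B (c : G) ∈ unipotentSubgroups A B :=
    conj_mem_unipotent h (right_mem_unipotent h) (Subgroup.mem_sup_left hcA)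
  obtain ⟨hr, hle⟩ := rankOne_of_moves hS hAS h (right_mem_unipotent h) hC hcC hmove hE'
  obtain ⟨-, hFm, -⟩ := sup_eq_of_le hS hAS hC ⟨hBS, h⟩ ⟨hBS, hr⟩ hle
  exact (fix_eq h hcA hc1 hFm (conjBy_eq_self_of_mem hcC)).symm

end Root

end Cfsg.Agent.Lib.RankOne
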