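import Mathlib
import Cfsg.Prelude
import Cfsg.Agent.Lib.RankOneSetup2
import Cfsg.Agent.Lib.OddTwoPoint
import Cfsg.Agent.Lib.ThompsonFpf
import Cfsg.Agent.S1125

/-!
# The rank-one set-up, part three: `Q` is nilpotent and the involutions of `G_a` are central in `Q`
-/

set_option autoImplicit false
set_option linter.all false

namespace Cfsg.Agent.Lib.RankOneSetup3

open Subgroup Cfsg MulAction
open Cfsg.Agent.Lib.RankOneSetup (Dd mem_Dd t_inv t_t_a ta_ne two_trans exists_smul_a finite_Ω stab_eq_mul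
  exists_Q_smul Q_fix_ta Q_inj Q_fix Q_smul_ne Q_regular odd_orderOf_of_fix invol_fix_unique card_Ω odd_card_Ω
  invol_has_fixed canon_unique t_conj_D exists_canon normalizer_le Q_ne_one normalizer_Q normalizer_stab card_stab
  card_G exists_sylow_le bruhat odd_mul_invol conj_of_odd)
open Cfsg.Agent.Lib.RankOneSetup2 (exists_swap eq_one_of_odd_invert odd_mul_invol' no_invert odd_orderOf_mem_D
  inverted_conj_inj exists_inverted_conj exists_invol_Q card_inverted exists_Q_comm exists_comm_fix exists_comm_trans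
  exists_comm_two_trans invol_mem_Q exists_swap_comm exists_conj_comm)

section
variable {G Ω : Type*} [Group G] [Finite G] [MulAction G Ω] {a : Ω} {t : G} {Q : Subgroup G}
variable (hS : IsRankOneSetup G Ω a t Q)
include hS

/-- every non-identity inverted element acts fixed-point-freely on `Q` -/
theorem Q_inf_centralizer {x : G} (hx : x ∈ invertedBy (Dd a t) t) (hx1 : x ≠ 1) : Q ⊓ centralizer {x} = ⊥ := by
  classical
  rw [Subgroup.eq_bot_iff_forall]
  rintro q ⟨hq, hqc⟩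
  by_contra hq1
  obtain ⟨hxD, hxi⟩ := hx
  have hqc' : q * x = x * q := Subgroup.mem_centralizer_singleton_iff.1 hqc
  have hne1 : q • (t • a) ≠ a := Q_smul_ne hS hq (ta_ne hS)
  have hne2 : q • (t • a) ≠ t • a := fun h => hq1 (Q_fix_ta hS hq h)
  have hfix : x • (q • (t • a)) = q • (t • a) := by
    rw [← mul_smul, ← hqc', mul_smul, show x • (t • a) = t • a from hxD.2]
  have hres := Cfsg.Agent.S1125.result hS ({x} : Set G) (by
      intro y hy
      rw [Set.mem_singleton_iff.1 hy]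
      exact hxD)
    ⟨a, t • a, q • (t • a), (ta_ne hS).symm, hne1.symm, hne2.symm, by
      intro y hy
      rw [Set.mem_singleton_iff.1 hy]
      exact ⟨hxD.1, hxD.2, hfix⟩⟩
  have heven := hres.2.1
  haveI : Fact (Nat.Prime 2) := ⟨Nat.prime_two⟩
  obtain ⟨u, hu⟩ := exists_prime_orderOf_dvd_card' (G := ↥(centralizer ({x} : Set G) ⊓ Q)) 2 (even_iff_two_dvd.1 heven)
  have hu1 : (u : G) ≠ 1 := by
    intro h
    have h3 : u = 1 := Subtype.ext h
    rw [h3, orderOf_one] at hu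
    omega
  have huu : (u : G) * u = 1 := by
    have h3 : u ^ 2 = 1 := by rw [← hu]; exact pow_orderOf_eq_one u
    have h4 : (u : G) ^ 2 = 1 := by exact_mod_cast congrArg Subtype.val h3
    rw [← pow_two]; exact h4
  have hux : (u : G) * x = x * u := Subgroup.mem_centralizer_singleton_iff.1 u.2.1
  have hua : (u : G) • a = a := hS.le u.2.2
  exact no_invert hS (odd_orderOf_mem_D hS hxD) hx1 hS.mul_self hxi huu hu1 hux hua (ta_ne hS)

/-- two distinct commuting involutions give two distinct involutions of `G_a` -/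
theorem exists_two_invols (h2 : ∃ x y : G, x ≠ 1 ∧ y ≠ 1 ∧ x ≠ y ∧ x * x = 1 ∧ y * y = 1 ∧ x * y = y * x) :
    ∃ s s' : G, s • a = a ∧ s ≠ 1 ∧ s * s = 1 ∧ s' • a = a ∧ s' ≠ 1 ∧ s' * s' = 1 ∧ s ≠ s' := by
  obtain ⟨x, y, hx1, hy1, hxy, hxx, hyy, hc⟩ := h2
  obtain ⟨e, he⟩ := invol_has_fixed hS hxx
  have hye : y • e = e := by
    have h1 : x • (y • e) = y • e := by
      rw [← mul_smul, hc, mul_smul, he]
    exact invol_fix_unique hS hxx hx1 h1 he
  obtain ⟨g, rfl⟩ := exists_smul_a hS e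
  refine ⟨g⁻¹ * x * g, g⁻¹ * y * g, ?_, ?_, ?_, ?_, ?_, ?_, ?_⟩
  · rw [mul_smul, mul_smul, he, inv_smul_smul]
  · intro h
    apply hx1
    have : x = g * (g⁻¹ * x * g) * g⁻¹ := by group
    rw [this, h]; group
  · calc g⁻¹ * x * g * (g⁻¹ * x * g) = g⁻¹ * (x * x) * g := by group
      _ = 1 := by rw [hxx]; group
  · rw [mul_smul, mul_smul, hye, inv_smul_smul]
  · intro h
    apply hy1
    have : y = g * (g⁻¹ * y * g) * g⁻¹ := by group
    rw [this, h]; group
  · calc g⁻¹ * y * g * (g⁻¹ * y * g) = g⁻¹ * (y * y) * g := by group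
      _ = 1 := by rw [hyy]; group
  · intro h
    apply hxy
    have h1 : x = g * (g⁻¹ * x * g) * g⁻¹ := by group
    have h3 : y = g * (g⁻¹ * y * g) * g⁻¹ := by group
    rw [h1, h, ← h3]

/-- `Q` is nilpotent -/
theorem Q_nilpotent (h2 : ∃ x y : G, x ≠ 1 ∧ y ≠ 1 ∧ x ≠ y ∧ x * x = 1 ∧ y * y = 1 ∧ x * y = y * x) : Group.IsNilpotent Q := by
  classical
  obtain ⟨s, s', hsa, hs1, hss, hsa', hs1', hss', hne⟩ := exists_two_invols hS h2
  obtain ⟨k, hk, hke⟩ := exists_inverted_conj hS hsa hs1 hss hsa' hs1' hss'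
  have hk1 : k ≠ 1 := by
    rintro rfl
    apply hne
    rw [← hke]; group
  -- a power of prime order
  have hord1 : orderOf k ≠ 1 := fun h => hk1 (orderOf_eq_one_iff.1 h)
  obtain ⟨r, hr, hrd⟩ := Nat.exists_prime_and_dvd hord1
  obtain ⟨x, hx⟩ : ∃ x, x = k ^ (orderOf k / r) := ⟨_, rfl⟩
  have hxord : orderOf x = r := by
    rw [hx]
    exact orderOf_pow_orderOf_div (orderOf_pos k).ne' hrd
  have hxK : x ∈ invertedBy (Dd a t) t := by
    refine ⟨by rw [hx]; exact Subgroup.pow_mem _ hk.1 _, ?_⟩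
    rw [hx, ← conj_pow, hk.2, inv_pow]
  have hx1 : x ≠ 1 := by
    rintro rfl
    rw [orderOf_one] at hxord
    exact hr.one_lt.ne hxord
  have hfp := Q_inf_centralizer hS hxK hx1
  have hxQ : ∀ q ∈ Q, x * q * x⁻¹ ∈ Q := hS.conj_mem x hxK.1.1
  let φ : Q →* Q :=
    { toFun := fun q => ⟨x * q * x⁻¹, hxQ q q.2⟩
      map_one' := by
        apply Subtype.ext
        show x * 1 * x⁻¹ = 1
        group
      map_mul' := by
        intro q q'
        apply Subtype.ext
        show x * ((q : G) * q') * x⁻¹ = x * q * x⁻¹ * (x * q' * x⁻¹)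
        group }
  have hiter : ∀ (i : ℕ) (q : Q), ((φ^[i] q : Q) : G) = x ^ i * q * (x ^ i)⁻¹ := by
    intro i
    induction i with
    | zero => intro q; simp
    | succ i ih =>
      intro q
      rw [Function.iterate_succ_apply']
      show x * ((φ^[i] q : Q) : G) * x⁻¹ = _
      rw [ih, pow_succ']
      group
  refine Cfsg.Agent.Lib.ThompsonFpf.thompson_aux hr _ Q φ rfl ?_ ?_
  · intro q hq
    have h1 : x * (q : G) * x⁻¹ = q := congrArg Subtype.val hq
    have h3 : (q : G) ∈ Q ⊓ centralizer {x} := by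
      refine ⟨q.2, Subgroup.mem_centralizer_singleton_iff.2 ?_⟩
      calc (q : G) * x = (x * q * x⁻¹) * x := by rw [h1]
        _ = x * q := by group
    rw [hfp] at h3
    exact Subtype.ext h3
  · intro q
    apply Subtype.ext
    rw [hiter, ← hxord, pow_orderOf_eq_one]
    group

/-- the involutions of `G_a` are central in `Q` -/
theorem invol_central (h2 : ∃ x y : G, x ≠ 1 ∧ y ≠ 1 ∧ x ≠ y ∧ x * x = 1 ∧ y * y = 1 ∧ x * y = y * x)
    {s : G} (hsa : s • a = a) (hs1 : s ≠ 1) (hss : s * s = 1) {q : G} (hq : q ∈ Q) : s * q = q * s := by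
  classical
  haveI hnil := Q_nilpotent hS h2
  haveI : Fact (Nat.Prime 2) := ⟨Nat.prime_two⟩
  -- a central involution of `Q`
  obtain ⟨P⟩ : Nonempty (Sylow 2 Q) := inferInstance
  have hdvd : 2 ∣ Nat.card Q := even_iff_two_dvd.1 hS.even_card
  have hPne : (P : Subgroup Q) ≠ ⊥ := P.ne_bot_of_dvd_card hdvd
  -- a central element of `P`
  haveI : Nontrivial (P : Subgroup Q) := (Subgroup.nontrivial_iff_ne_bot _).2 hPne
  have hTp : IsPGroup 2 (P : Subgroup Q) := P.isPGroup'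
  have hcn := hTp.center_nontrivial
  have hcp : IsPGroup 2 (center (P : Subgroup Q)) := hTp.to_subgroup _
  obtain ⟨n, hn0, hn⟩ := hcp.nontrivial_iff_card.1 hcn
  have h2d : 2 ∣ Nat.card (center (P : Subgroup Q)) := by
    rw [hn]; exact dvd_pow_self 2 (Nat.pos_iff_ne_zero.1 hn0)
  obtain ⟨z, hz⟩ := exists_prime_orderOf_dvd_card' (G := center (P : Subgroup Q)) 2 h2d
  obtain ⟨s₀, hs₀⟩ : ∃ s₀ : G, s₀ = (((z : (P : Subgroup Q)) : Q) : G) := ⟨_, rfl⟩
  have hs₀Q : s₀ ∈ Q := by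
    rw [hs₀]; exact ((z : (P : Subgroup Q)) : Q).2
  have hz1 : s₀ ≠ 1 := by
    rw [hs₀]
    intro h
    have h3 : z = 1 := Subtype.ext (Subtype.ext (Subtype.ext h))
    rw [h3, orderOf_one] at hz
    omega
  have hs₀s₀ : s₀ * s₀ = 1 := by
    have h3 : z ^ 2 = 1 := orderOf_dvd_iff_pow_eq_one.1 (dvd_of_eq hz)
    have h4 := congrArg (fun y : center (P : Subgroup Q) => (((y : (P : Subgroup Q)) : Q) : G)) h3
    simp only [OneMemClass.coe_one, SubmonoidClass.coe_pow] at h4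
    rw [hs₀, ← pow_two]
    exact h4
  -- `s₀` commutes with everything in `Q`
  have hs₀c : ∀ y : Q, y * (⟨s₀, hs₀Q⟩ : Q) = (⟨s₀, hs₀Q⟩ : Q) * y := by
    have htop : centralizer ({(⟨s₀, hs₀Q⟩ : Q)} : Set Q) = ⊤ := by
      apply Cfsg.Agent.Lib.ThompsonFpf.eq_top_of_sylows
      intro r hr
      haveI : Fact r.Prime := ⟨hr⟩
      by_cases hr2 : r = 2
      · subst hr2
        refine ⟨P, ?_⟩
        intro y hy
        refine Subgroup.mem_centralizer_singleton_iff.2 ?_
        have h1 := (Subgroup.mem_center_iff.1 z.2) ⟨y, hy⟩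
        have h3 : y * ((z : (P : Subgroup Q)) : Q) = ((z : (P : Subgroup Q)) : Q) * y := congrArg Subtype.val h1
        have h4 : (⟨s₀, hs₀Q⟩ : Q) = ((z : (P : Subgroup Q)) : Q) := Subtype.ext hs₀
        rw [h4]
        exact h3
      · obtain ⟨R⟩ : Nonempty (Sylow r Q) := inferInstance
        refine ⟨R, ?_⟩
        intro y hy
        refine Subgroup.mem_centralizer_singleton_iff.2 ?_
        have hdisj : Disjoint (R : Subgroup Q) (P : Subgroup Q) :=
          IsPGroup.disjoint_of_ne r 2 hr2 (R : Subgroup Q) (P : Subgroup Q) R.isPGroup' P.isPGroup'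
        have hs₀P : (⟨s₀, hs₀Q⟩ : Q) ∈ (P : Subgroup Q) := by
          have h4 : (⟨s₀, hs₀Q⟩ : Q) = ((z : (P : Subgroup Q)) : Q) := Subtype.ext hs₀
          rw [h4]
          exact (z : (P : Subgroup Q)).2
        exact Subgroup.commute_of_normal_of_disjoint _ _ inferInstance inferInstance hdisj y (⟨s₀, hs₀Q⟩ : Q) hy hs₀P
    intro y
    have h1 : y ∈ centralizer ({(⟨s₀, hs₀Q⟩ : Q)} : Set Q) := by
      rw [htop]; trivial
    exact Subgroup.mem_centralizer_singleton_iff.1 h1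
  have hs₀a : s₀ • a = a := hS.le hs₀Q
  obtain ⟨k, hk, hke⟩ := exists_inverted_conj hS hs₀a hz1 hs₀s₀ hsa hs1 hss
  rw [← hke]
  have hkq : k * q * k⁻¹ ∈ Q := hS.conj_mem k hk.1.1 q hq
  have h1 := hs₀c ⟨k * q * k⁻¹, hkq⟩
  have h3 : (k * q * k⁻¹) * s₀ = s₀ * (k * q * k⁻¹) := congrArg Subtype.val h1
  calc k⁻¹ * s₀ * k * q = k⁻¹ * (s₀ * (k * q * k⁻¹)) * k := by group
    _ = k⁻¹ * ((k * q * k⁻¹) * s₀) * k := by rw [h3]
    _ = q * (k⁻¹ * s₀ * k) := by group

/-- any two involutions fixing the same point commute -/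
theorem invol_comm (h2 : ∃ x y : G, x ≠ 1 ∧ y ≠ 1 ∧ x ≠ y ∧ x * x = 1 ∧ y * y = 1 ∧ x * y = y * x)
    {u v : G} {e : Ω} (hu : u • e = e) (hu1 : u ≠ 1) (huu : u * u = 1) (hv : v • e = e) (hv1 : v ≠ 1) (hvv : v * v = 1) :
    u * v = v * u := by
  obtain ⟨g, rfl⟩ := exists_smul_a hS e
  have h1 := invol_central hS h2 (s := g⁻¹ * u * g) (q := g⁻¹ * v * g)
    (by rw [mul_smul, mul_smul, hu, inv_smul_smul])
    (by
      intro h
      apply hu1
      have : u = g * (g⁻¹ * u * g) * g⁻¹ := by group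
      rw [this, h]; group)
    (by
      calc g⁻¹ * u * g * (g⁻¹ * u * g) = g⁻¹ * (u * u) * g := by group
        _ = 1 := by rw [huu]; group)
    (invol_mem_Q hS (by rw [mul_smul, mul_smul, hv, inv_smul_smul])
      (by
        calc g⁻¹ * v * g * (g⁻¹ * v * g) = g⁻¹ * (v * v) * g := by group
          _ = 1 := by rw [hvv]; group))
  calc u * v = g * (g⁻¹ * u * g * (g⁻¹ * v * g)) * g⁻¹ := by group
    _ = g * (g⁻¹ * v * g * (g⁻¹ * u * g)) * g⁻¹ := by rw [h1]
    _ = v * u := by group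

/-- the odd-stabiliser structure of the set-up -/
theorem oddStab : Cfsg.Agent.Lib.OddTwoPoint.OddStab G Ω where
  odd_fix y b c hbc hb hc := odd_orderOf_of_fix hS hbc hb hc
  has_fix u hu := invol_has_fixed hS hu

end

end Cfsg.Agent.Lib.RankOneSetup3
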