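import Mathlib
import Cfsg.Prelude.Def_RootSubgroups
import Cfsg.Agent.Lib.RankOne

/-!
A rank one group with a quadratic representation in which the whole group is not quadratic is
special (Timmesfeld, chapter I).
-/

namespace Cfsg.Agent.Lib.RankOneSpecial

open Cfsg Cfsg.Agent.Lib.RankOne

section RingId

variable {R : Type*} [Ring R] {s t : R}

theorem c2_of (hs : s * s = 0) (ht : t * t = 0) (h : t * ((1 + s) * (1 - t)) * s = 0) :
    t * s = t * s * t * s := by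
  have hs' : ∀ x, s * (s * x) = 0 := fun x => by rw [← mul_assoc, hs, zero_mul]
  have ht' : ∀ x, t * (t * x) = 0 := fun x => by rw [← mul_assoc, ht, zero_mul]
  simp only [mul_add, add_mul, mul_sub, sub_mul, mul_one, one_mul, mul_assoc, hs, ht, hs', ht',
    mul_zero, zero_mul, add_zero, zero_add, sub_zero, zero_sub] at h
  have h3 : t * s * t * s = t * (s * (t * s)) := by simp only [mul_assoc]
  rw [h3]
  exact sub_eq_zero.mp h

theorem ring_id (hs : s * s = 0) (ht : t * t = 0) (h2 : t * s = t * s * t * s)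
    (h4 : s * t = s * t * s * t) :
    ((1 + s) * (1 - t) * (1 + s) * (1 + t) * (1 - s)) * (1 + t) * (1 + s) =
      (1 + s) * (((1 + s) * (1 - t) * (1 + s) * (1 + t) * (1 - s)) * (1 + t)) := by
  have hs' : ∀ x, s * (s * x) = 0 := fun x => by rw [← mul_assoc, hs, zero_mul]
  have ht' : ∀ x, t * (t * x) = 0 := fun x => by rw [← mul_assoc, ht, zero_mul]
  have h2a : t * (s * (t * s)) = t * s := by
    have := h2
    simp only [mul_assoc] at this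
    exact this.symm
  have h4a : s * (t * (s * t)) = s * t := by
    have := h4
    simp only [mul_assoc] at this
    exact this.symm
  have h2b : ∀ x, t * (s * (t * (s * x))) = t * (s * x) := fun x => by
    calc t * (s * (t * (s * x))) = (t * (s * (t * s))) * x := by simp only [mul_assoc]
      _ = (t * s) * x := by rw [h2a]
      _ = t * (s * x) := by rw [mul_assoc]
  have h4b : ∀ x, s * (t * (s * (t * x))) = s * (t * x) := fun x => by
    calc s * (t * (s * (t * x))) = (s * (t * (s * t))) * x := by simp only [mul_assoc]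
      _ = (s * t) * x := by rw [h4a]
      _ = s * (t * x) := by rw [mul_assoc]
  simp only [mul_add, add_mul, mul_sub, sub_mul, mul_one, one_mul, mul_assoc, hs, ht, hs', ht', h2a, h4a,
    h2b, h4b, mul_zero, zero_mul, add_zero, zero_add, sub_zero, zero_sub]
  noncomm_ring

end RingId

variable {G : Type*} [Group G] {A B : Subgroup G} {R : Type*} [Ring R]

open Classical in
/-- The representation extended by `1` outside of `⟨A, B⟩`. -/
noncomputable def rr (ρ : ↥(A ⊔ B) →* R) (g : G) : R := if h : g ∈ A ⊔ B then ρ ⟨g, h⟩ else 1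

theorem rr_of_mem (ρ : ↥(A ⊔ B) →* R) {g : G} (h : g ∈ A ⊔ B) : rr ρ g = ρ ⟨g, h⟩ := by
  simp [rr, h]

theorem rr_mul (ρ : ↥(A ⊔ B) →* R) {x y : G} (hx : x ∈ A ⊔ B) (hy : y ∈ A ⊔ B) :
    rr ρ (x * y) = rr ρ x * rr ρ y := by
  rw [rr_of_mem ρ hx, rr_of_mem ρ hy, rr_of_mem ρ ((A ⊔ B).mul_mem hx hy), ← map_mul]
  rfl

theorem rr_one (ρ : ↥(A ⊔ B) →* R) : rr ρ (1 : G) = 1 := by
  rw [rr_of_mem ρ (A ⊔ B).one_mem]
  exact map_one ρ

theorem rr_inv_mul (ρ : ↥(A ⊔ B) →* R) {x : G} (hx : x ∈ A ⊔ B) : rr ρ x⁻¹ * rr ρ x = 1 := by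
  rw [← rr_mul ρ ((A ⊔ B).inv_mem hx) hx, inv_mul_cancel, rr_one]

theorem rr_mul_inv (ρ : ↥(A ⊔ B) →* R) {x : G} (hx : x ∈ A ⊔ B) : rr ρ x * rr ρ x⁻¹ = 1 := by
  rw [← rr_mul ρ hx ((A ⊔ B).inv_mem hx), mul_inv_cancel, rr_one]

/-- The kernel is central when the whole group does not act quadratically. -/
theorem central_of_ker (h : IsRankOnePair A B) (ρ : ↥(A ⊔ B) →* R)
    (hq : ∀ a ∈ A, ∀ a' ∈ A, (rr ρ a' - 1) * (rr ρ a - 1) = 0)
    (hX : ∃ x ∈ A ⊔ B, ∃ y ∈ A ⊔ B, (rr ρ y - 1) * (rr ρ x - 1) ≠ 0)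
    {k : G} (hk : k ∈ A ⊔ B) (hk1 : rr ρ k = 1) : ∀ x ∈ A ⊔ B, k * x = x * k := by
  by_contra hcon
  have hmove : ∃ C ∈ unipotentSubgroups A B, conjBy C k ≠ C := by
    by_contra hall
    push Not at hall
    exact hcon (commute_of_fix_all h hall)
  obtain ⟨C, hC, hmoved⟩ := hmove
  let K : Subgroup G :=
    { carrier := {g | g ∈ A ⊔ B ∧ rr ρ g = 1}
      one_mem' := ⟨(A ⊔ B).one_mem, rr_one ρ⟩
      mul_mem' := by
        rintro a b ⟨ha, ha1⟩ ⟨hb, hb1⟩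
        exact ⟨(A ⊔ B).mul_mem ha hb, by rw [rr_mul ρ ha hb, ha1, hb1, one_mul]⟩
      inv_mem' := by
        rintro a ⟨ha, ha1⟩
        refine ⟨(A ⊔ B).inv_mem ha, ?_⟩
        have := rr_inv_mul ρ ha
        rwa [ha1, mul_one] at this }
  have hN : ∀ n ∈ K, ∀ x ∈ A ⊔ B, x * n * x⁻¹ ∈ K := by
    rintro n ⟨hn, hn1⟩ x hx
    refine ⟨(A ⊔ B).mul_mem ((A ⊔ B).mul_mem hx hn) ((A ⊔ B).inv_mem hx), ?_⟩
    rw [rr_mul ρ ((A ⊔ B).mul_mem hx hn) ((A ⊔ B).inv_mem hx), rr_mul ρ hx hn, hn1, mul_one]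
    exact rr_mul_inv ρ hx
  obtain ⟨n', ⟨-, hn'1⟩, hn'X, hn'e⟩ := exists_conj_of_moves h hN (n := k) ⟨hk, hk1⟩ hk hC hmoved
  have hn'i : rr ρ n'⁻¹ = 1 := by
    have := rr_inv_mul ρ hn'X
    rwa [hn'1, mul_one] at this
  have hB : ∀ b ∈ B, ∃ a ∈ A, rr ρ b = rr ρ a := by
    intro b hb
    have hb' : b ∈ conjBy A n' := by
      rw [hn'e]
      exact hb
    rw [mem_conjBy] at hb'
    refine ⟨_, hb', ?_⟩
    have ha : n'⁻¹ * b * n' ∈ A ⊔ B := Subgroup.mem_sup_left hb'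
    have e : b = n' * (n'⁻¹ * b * n') * n'⁻¹ := by group
    conv_lhs => rw [e]
    rw [rr_mul ρ ((A ⊔ B).mul_mem hn'X ha) ((A ⊔ B).inv_mem hn'X), rr_mul ρ hn'X ha, hn'1, hn'i,
      one_mul, mul_one]
  let T : Subgroup G :=
    { carrier := {g | g ∈ A ⊔ B ∧ ∃ a ∈ A, rr ρ g = rr ρ a}
      one_mem' := ⟨(A ⊔ B).one_mem, 1, A.one_mem, rfl⟩
      mul_mem' := by
        rintro x y ⟨hx, a, ha, e⟩ ⟨hy, a', ha', e'⟩
        refine ⟨(A ⊔ B).mul_mem hx hy, a * a', A.mul_mem ha ha', ?_⟩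
        rw [rr_mul ρ hx hy, e, e', rr_mul ρ (Subgroup.mem_sup_left ha) (Subgroup.mem_sup_left ha')]
      inv_mem' := by
        rintro x ⟨hx, a, ha, e⟩
        refine ⟨(A ⊔ B).inv_mem hx, a⁻¹, A.inv_mem ha, ?_⟩
        have h1 := rr_inv_mul ρ hx
        have h2 := rr_mul_inv ρ (Subgroup.mem_sup_left ha : a ∈ A ⊔ B)
        calc rr ρ x⁻¹ = rr ρ x⁻¹ * (rr ρ a * rr ρ a⁻¹) := by rw [h2, mul_one]
          _ = (rr ρ x⁻¹ * rr ρ x) * rr ρ a⁻¹ := by rw [e, mul_assoc]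
          _ = rr ρ a⁻¹ := by rw [h1, one_mul] }
  have hT : A ⊔ B ≤ T := by
    refine sup_le ?_ ?_
    · intro a ha
      exact ⟨Subgroup.mem_sup_left ha, a, ha, rfl⟩
    · intro b hb
      obtain ⟨a, ha, e⟩ := hB b hb
      exact ⟨Subgroup.mem_sup_right hb, a, ha, e⟩
  obtain ⟨x, hx, y, hy, hne⟩ := hX
  obtain ⟨-, a₁, ha₁, e₁⟩ := hT hx
  obtain ⟨-, a₂, ha₂, e₂⟩ := hT hy
  apply hne
  rw [e₁, e₂]
  exact hq a₁ ha₁ a₂ ha₂

/-- The core result: quadratic representation implies special. -/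
theorem special_core (h : IsRankOnePair A B) (ρ : ↥(A ⊔ B) →* R)
    (hq : ∀ a ∈ A, ∀ a' ∈ A, (rr ρ a' - 1) * (rr ρ a - 1) = 0)
    (hX : ∃ x ∈ A ⊔ B, ∃ y ∈ A ⊔ B, (rr ρ y - 1) * (rr ρ x - 1) ≠ 0) :
    IsSpecialRankOnePair A B := by
  refine ⟨h, ?_⟩
  intro a ha ha1 b hb hb1 e
  -- `B` is quadratic too
  have hqB : ∀ b ∈ B, ∀ b' ∈ B, (rr ρ b' - 1) * (rr ρ b - 1) = 0 := by
    obtain ⟨x₀, hx₀, hx₀e⟩ := right_mem_unipotent h
    intro b hb b' hb'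
    rw [hx₀e, mem_conjBy] at hb hb'
    set u := x₀⁻¹ * b * x₀ with hu
    set u' := x₀⁻¹ * b' * x₀ with hu'
    have huX : u ∈ A ⊔ B := Subgroup.mem_sup_left hb
    have hu'X : u' ∈ A ⊔ B := Subgroup.mem_sup_left hb'
    have hr : ∀ v ∈ A ⊔ B, rr ρ (x₀ * v * x₀⁻¹) - 1 = rr ρ x₀ * (rr ρ v - 1) * rr ρ x₀⁻¹ := by
      intro v hv
      rw [rr_mul ρ ((A ⊔ B).mul_mem hx₀ hv) ((A ⊔ B).inv_mem hx₀), rr_mul ρ hx₀ hv, mul_sub, sub_mul,
        mul_one, rr_mul_inv ρ hx₀]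
    have e1 : b = x₀ * u * x₀⁻¹ := by
      rw [hu]
      group
    have e2 : b' = x₀ * u' * x₀⁻¹ := by
      rw [hu']
      group
    rw [e1, e2, hr u huX, hr u' hu'X]
    calc rr ρ x₀ * (rr ρ u' - 1) * rr ρ x₀⁻¹ * (rr ρ x₀ * (rr ρ u - 1) * rr ρ x₀⁻¹)
        = rr ρ x₀ * (rr ρ u' - 1) * (rr ρ x₀⁻¹ * rr ρ x₀) * (rr ρ u - 1) * rr ρ x₀⁻¹ := by
          simp only [mul_assoc]
      _ = rr ρ x₀ * ((rr ρ u' - 1) * (rr ρ u - 1)) * rr ρ x₀⁻¹ := by
          rw [rr_inv_mul ρ hx₀]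
          simp only [mul_assoc, mul_one]
      _ = 0 := by
          rw [hq u hb u' hb']
          simp
  have haX : a ∈ A ⊔ B := Subgroup.mem_sup_left ha
  have hbX : b ∈ A ⊔ B := Subgroup.mem_sup_right hb
  have haiX : a⁻¹ ∈ A ⊔ B := (A ⊔ B).inv_mem haX
  have hbiX : b⁻¹ ∈ A ⊔ B := (A ⊔ B).inv_mem hbX
  set s := rr ρ a - 1 with hs
  set t := rr ρ b - 1 with ht
  have hra : rr ρ a = 1 + s := by
    rw [hs]
    abel
  have hrb : rr ρ b = 1 + t := by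
    rw [ht]
    abel
  have hss : s * s = 0 := hq a ha a ha
  have htt : t * t = 0 := hqB b hb b hb
  have hrai : rr ρ a⁻¹ = 1 - s := by
    have h1 := rr_inv_mul ρ haX
    rw [hra] at h1
    have h2 : (1 + s) * (1 - s) = 1 := by
      noncomm_ring
      rw [hss]
      simp
    calc rr ρ a⁻¹ = rr ρ a⁻¹ * ((1 + s) * (1 - s)) := by rw [h2, mul_one]
      _ = (rr ρ a⁻¹ * (1 + s)) * (1 - s) := by rw [mul_assoc]
      _ = 1 - s := by rw [h1, one_mul]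
  have hrbi : rr ρ b⁻¹ = 1 - t := by
    have h1 := rr_inv_mul ρ hbX
    rw [hrb] at h1
    have h2 : (1 + t) * (1 - t) = 1 := by
      noncomm_ring
      rw [htt]
      simp
    calc rr ρ b⁻¹ = rr ρ b⁻¹ * ((1 + t) * (1 - t)) := by rw [h2, mul_one]
      _ = (rr ρ b⁻¹ * (1 + t)) * (1 - t) := by rw [mul_assoc]
      _ = 1 - t := by rw [h1, one_mul]
  -- the elements `a''` and `b₁`
  have ha'' : b * a⁻¹ * b * a * b⁻¹ ∈ A := by
    have h1 : a⁻¹ * b * a ∈ conjBy B a⁻¹ := by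
      rw [mem_conjBy]
      simpa [mul_assoc] using hb
    rw [← e, mem_conjBy] at h1
    simpa [mul_assoc] using h1
  have hb₁ : a * b⁻¹ * a * b * a⁻¹ ∈ B := by
    have h1 : b⁻¹ * a * b ∈ conjBy A b⁻¹ := by
      rw [mem_conjBy]
      simpa [mul_assoc] using ha
    rw [e, mem_conjBy] at h1
    simpa [mul_assoc] using h1
  set a'' := b * a⁻¹ * b * a * b⁻¹ with ha''def
  set b₁ := a * b⁻¹ * a * b * a⁻¹ with hb₁def
  have ha''X : a'' ∈ A ⊔ B := Subgroup.mem_sup_left ha''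
  have hb₁X : b₁ ∈ A ⊔ B := Subgroup.mem_sup_right hb₁
  -- C2
  have hP : rr ρ (a * b⁻¹) = (1 + s) * (1 - t) := by
    rw [rr_mul ρ haX hbiX, hra, hrbi]
  have hQ : rr ρ (b * a⁻¹) = (1 + t) * (1 - s) := by
    rw [rr_mul ρ hbX haiX, hrb, hrai]
  have hPX : a * b⁻¹ ∈ A ⊔ B := (A ⊔ B).mul_mem haX hbiX
  have hQX : b * a⁻¹ ∈ A ⊔ B := (A ⊔ B).mul_mem hbX haiX
  have hC2 : t * ((1 + s) * (1 - t)) * s = 0 := by
    have h1 : b * (a * b⁻¹) = (a * b⁻¹) * a'' := by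
      rw [ha''def]
      group
    have h2 : rr ρ b * rr ρ (a * b⁻¹) = rr ρ (a * b⁻¹) * rr ρ a'' := by
      rw [← rr_mul ρ hbX hPX, ← rr_mul ρ hPX ha''X, h1]
    have h3 : t * rr ρ (a * b⁻¹) = rr ρ (a * b⁻¹) * (rr ρ a'' - 1) := by
      rw [ht, sub_mul, h2, mul_sub, mul_one, one_mul]
    rw [← hP, h3, mul_assoc, hq a ha a'' ha'', mul_zero]
  have hC4 : s * ((1 + t) * (1 - s)) * t = 0 := by
    have h1 : a * (b * a⁻¹) = (b * a⁻¹) * b₁ := by
      rw [hb₁def]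
      group
    have h2 : rr ρ a * rr ρ (b * a⁻¹) = rr ρ (b * a⁻¹) * rr ρ b₁ := by
      rw [← rr_mul ρ haX hQX, ← rr_mul ρ hQX hb₁X, h1]
    have h3 : s * rr ρ (b * a⁻¹) = rr ρ (b * a⁻¹) * (rr ρ b₁ - 1) := by
      rw [hs, sub_mul, h2, mul_sub, mul_one, one_mul]
    rw [← hQ, h3, mul_assoc, hqB b hb b₁ hb₁, mul_zero]
  have h2 := c2_of hss htt hC2
  have h4 := c2_of htt hss hC4
  -- `z`
  set z := b₁ * b with hz
  have hzB : z ∈ B := B.mul_mem hb₁ hb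
  have hzX : z ∈ A ⊔ B := Subgroup.mem_sup_right hzB
  have hzi : z⁻¹ ∈ A ⊔ B := (A ⊔ B).inv_mem hzX
  have hrb₁ : rr ρ b₁ = (1 + s) * (1 - t) * (1 + s) * (1 + t) * (1 - s) := by
    rw [hb₁def, rr_mul ρ ((A ⊔ B).mul_mem ((A ⊔ B).mul_mem hPX haX) hbX) haiX,
      rr_mul ρ ((A ⊔ B).mul_mem hPX haX) hbX, rr_mul ρ hPX haX, hP, hrb, hra, hrai]
  have hrz : rr ρ z = (1 + s) * (1 - t) * (1 + s) * (1 + t) * (1 - s) * (1 + t) := by
    rw [hz, rr_mul ρ hb₁X hbX, hrb₁, hrb]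
  have hcomm : rr ρ z * rr ρ a = rr ρ a * rr ρ z := by
    rw [hrz, hra]
    exact ring_id hss htt h2 h4
  set κ := z * a * z⁻¹ * a⁻¹ with hκ
  have hκX : κ ∈ A ⊔ B := (A ⊔ B).mul_mem ((A ⊔ B).mul_mem ((A ⊔ B).mul_mem hzX haX) hzi) haiX
  have hκ1 : rr ρ κ = 1 := by
    rw [hκ, rr_mul ρ ((A ⊔ B).mul_mem ((A ⊔ B).mul_mem hzX haX) hzi) haiX,
      rr_mul ρ ((A ⊔ B).mul_mem hzX haX) hzi, rr_mul ρ hzX haX, hcomm]
    calc rr ρ a * rr ρ z * rr ρ z⁻¹ * rr ρ a⁻¹ = rr ρ a * (rr ρ z * rr ρ z⁻¹) * rr ρ a⁻¹ := by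
          simp only [mul_assoc]
      _ = 1 := by
          rw [rr_mul_inv ρ hzX, mul_one, rr_mul_inv ρ haX]
  have hκc := central_of_ker h ρ hq hX hκX hκ1
  have hw : a⁻¹ * z * a = κ * z := by
    have h1 : κ * a = a * κ := hκc a haX
    have h3 : z * a = κ * a * z := by
      rw [hκ]
      group
    calc a⁻¹ * z * a = a⁻¹ * (z * a) := by group
      _ = a⁻¹ * (κ * a * z) := by rw [h3]
      _ = a⁻¹ * (a * κ * z) := by rw [h1]
      _ = κ * z := by group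
  have hwmem : a⁻¹ * z * a ∈ conjBy B a⁻¹ := by
    rw [mem_conjBy]
    simpa [mul_assoc] using hzB
  have hne : conjBy B a⁻¹ ≠ B := fun h3 =>
    ha1 (by simpa using eq_one_of_conjBy_left h (A.inv_mem ha) h3)
  have hmem : conjBy B a⁻¹ ∈ unipotentSubgroups A B :=
    conj_mem_unipotent h (right_mem_unipotent h) haiX
  have hpair := (pair_of_mem h hmem (right_mem_unipotent h) hne).1
  have hfix : conjBy B (a⁻¹ * z * a) = B := by
    rw [hw, conjBy_mul, conjBy_eq_self_of_mem hzB]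
    exact conjBy_eq_of_commute fun y hy => hκc y (Subgroup.mem_sup_right hy)
  have hw1 := eq_one_of_conjBy_left hpair hwmem hfix
  have hz1 : z = 1 := by
    have : z = a * (a⁻¹ * z * a) * a⁻¹ := by group
    rw [this, hw1]
    group
  have hb₁e : b₁ = b⁻¹ := eq_inv_of_mul_eq_one_left hz1
  rw [hb₁def] at hb₁e
  calc b⁻¹ * a * b = a⁻¹ * (a * b⁻¹ * a * b * a⁻¹) * a := by group
    _ = a⁻¹ * b⁻¹ * a := by rw [hb₁e]


/-- The group version of the core result: a rank one group normalizing an abelian subgroup `V`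
with quadratic action of `A` and non-quadratic action of the whole group is special. -/
theorem special_of_subgroup (h : IsRankOnePair A B) (V : Subgroup G)
    (hVab : ∀ x ∈ V, ∀ y ∈ V, x * y = y * x)
    (hn : ∀ x ∈ A ⊔ B, ∀ v ∈ V, x * v * x⁻¹ ∈ V)
    (hq : ∀ a ∈ A, ∀ a' ∈ A, ∀ v ∈ V, a' * (a * v * a⁻¹ * v⁻¹) * a'⁻¹ = a * v * a⁻¹ * v⁻¹)
    (hX : ∃ x ∈ A ⊔ B, ∃ y ∈ A ⊔ B, ∃ v ∈ V, y * (x * v * x⁻¹ * v⁻¹) * y⁻¹ ≠ x * v * x⁻¹ * v⁻¹) :
    IsSpecialRankOnePair A B := by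
  letI inst : CommGroup V :=
    { (inferInstance : Group V) with
      mul_comm := fun x y => Subtype.ext (hVab _ x.2 _ y.2) }
  let conjHom (x : ↥(A ⊔ B)) : V →* V :=
    { toFun := fun v => ⟨(x : G) * v * (x : G)⁻¹, hn x x.2 v v.2⟩
      map_one' := by
        apply Subtype.ext
        show (x : G) * 1 * (x : G)⁻¹ = 1
        group
      map_mul' := by
        intro v w
        apply Subtype.ext
        show (x : G) * ((v : G) * (w : G)) * (x : G)⁻¹ =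
          ((x : G) * v * (x : G)⁻¹) * ((x : G) * w * (x : G)⁻¹)
        group }
  let ρ : ↥(A ⊔ B) →* AddMonoid.End (Additive V) :=
    { toFun := fun x => MonoidHom.toAdditive (conjHom x)
      map_one' := by
        ext v
        show (1 : G) * (Additive.toMul v : V) * (1 : G)⁻¹ = (Additive.toMul v : V)
        group
      map_mul' := by
        intro x y
        ext v
        show ((x : G) * (y : G)) * (Additive.toMul v : V) * ((x : G) * (y : G))⁻¹ =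
          (x : G) * ((y : G) * (Additive.toMul v : V) * (y : G)⁻¹) * (x : G)⁻¹
        group }
  have hev : ∀ {x : G} (hx : x ∈ A ⊔ B) (v : V),
      rr ρ x (Additive.ofMul v) = Additive.ofMul (⟨x * v * x⁻¹, hn x hx v v.2⟩ : V) := by
    intro x hx v
    rw [rr_of_mem ρ hx]
    rfl
  have hev2 : ∀ {x y : G} (hx : x ∈ A ⊔ B) (hy : y ∈ A ⊔ B) (v : V),
      Additive.toMul (((rr ρ y - 1) * (rr ρ x - 1)) (Additive.ofMul v)) =
        (⟨y * (x * v * x⁻¹ * v⁻¹) * y⁻¹ * (x * v * x⁻¹ * v⁻¹)⁻¹,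
          V.mul_mem (hn y hy _ (V.mul_mem (hn x hx v v.2) (V.inv_mem v.2)))
            (V.inv_mem (V.mul_mem (hn x hx v v.2) (V.inv_mem v.2)))⟩ : V) := by
    intro x y hx hy v
    have h1 : ∀ {z : G} (hz : z ∈ A ⊔ B) (w : V), (rr ρ z - 1) (Additive.ofMul w) =
        Additive.ofMul (⟨z * w * z⁻¹ * (w : G)⁻¹, V.mul_mem (hn z hz w w.2) (V.inv_mem w.2)⟩ : V) := by
      intro z hz w
      show rr ρ z (Additive.ofMul w) - Additive.ofMul w = _
      rw [hev hz w, ← ofMul_div]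
      congr 1
      apply Subtype.ext
      show (z * (w : G) * z⁻¹) / (w : G) = _
      rw [div_eq_mul_inv]
    show Additive.toMul ((rr ρ y - 1) ((rr ρ x - 1) (Additive.ofMul v))) = _
    rw [h1 hx v, h1 hy]
    rfl
  refine special_core h ρ ?_ ?_
  · intro a ha a' ha'
    ext v
    have h2 := hev2 (Subgroup.mem_sup_left ha : a ∈ A ⊔ B) (Subgroup.mem_sup_left ha' : a' ∈ A ⊔ B)
      (Additive.toMul v)
    have h3 : ((rr ρ a' - 1) * (rr ρ a - 1)) v = Additive.ofMul (Additive.toMul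
        (((rr ρ a' - 1) * (rr ρ a - 1)) (Additive.ofMul (Additive.toMul v)))) := rfl
    rw [h3, h2]
    show a' * (a * (Additive.toMul v : V) * a⁻¹ * ((Additive.toMul v : V) : G)⁻¹) * a'⁻¹ *
      (a * (Additive.toMul v : V) * a⁻¹ * ((Additive.toMul v : V) : G)⁻¹)⁻¹ = 1
    rw [hq a ha a' ha' _ (Additive.toMul v).2]
    group
  · obtain ⟨x, hx, y, hy, v, hv, hne⟩ := hX
    refine ⟨x, hx, y, hy, ?_⟩
    intro h0
    apply hne
    have h2 := hev2 hx hy (⟨v, hv⟩ : V)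
    rw [h0] at h2
    have h3 := congrArg Subtype.val h2
    have h4 : y * (x * v * x⁻¹ * v⁻¹) * y⁻¹ * (x * v * x⁻¹ * v⁻¹)⁻¹ = 1 := h3.symm
    exact mul_inv_eq_one.mp h4

end Cfsg.Agent.Lib.RankOneSpecial
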