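/-
Reflections of one class of norms generate a subgroup of index two, `n` even.
-/
import Mathlib
import Cfsg.Agent.Lib.Dickson

set_option autoImplicit false
set_option linter.all false

open scoped MatrixGroups Matrix commutatorElement
open Cfsg Cfsg.Geo Finset
open Cfsg.Agent.Lib.Transvection Cfsg.Agent.Lib.LinAlgAux Cfsg.Agent.Lib.QuadBase
open Cfsg.Agent.Lib.QuadSiegel Cfsg.Agent.Lib.QuadRefl Cfsg.Agent.Lib.Spinor
open QuadraticMap (polar)

namespace Cfsg.Agent.Lib.ReflClass

section Plane

variable {ι : Type} [Fintype ι] [DecidableEq ι] {F : Type*} [Field F]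
  {Q : (ι → F) → F} (hQ : IsNondegenerateQuadraticForm Q)

include hQ in
theorem Q_comb (x y : ι → F) (s t : F) :
    Q (s • x + t • y) = s ^ 2 * Q x + t ^ 2 * Q y + s * t * polar Q x y := by
  rw [Q_add (Q := Q), hQ.smul, hQ.smul, pol_smul_left hQ, pol_smul_right hQ]
  ring

/-- The plane identity. -/
theorem plane_identity {u v : ι → F} {A : F} (hA : A ≠ 0) (hu : Q u = A) (hv : Q v = A) (y₁ y₂ : F)
    (hy : Q (y₁ • u + y₂ • v) ≠ 0) :
    Q ((polar Q u v * y₁ + A * y₂) • u + (-(A * y₁)) • v) = A ^ 2 * Q (y₁ • u + y₂ • v) ∧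
    rf hQ u * rf hQ v =
      rf hQ ((polar Q u v * y₁ + A * y₂) • u + (-(A * y₁)) • v) * rf hQ (y₁ • u + y₂ • v) := by
  set B := polar Q u v with hB
  have hQy : Q (y₁ • u + y₂ • v) = (y₁ ^ 2 + y₂ ^ 2) * A + y₁ * y₂ * B := by
    rw [Q_comb hQ, hu, hv]
    ring
  set C := Q (y₁ • u + y₂ • v) with hC
  have hQz : Q ((B * y₁ + A * y₂) • u + (-(A * y₁)) • v) = A ^ 2 * C := by
    rw [Q_comb hQ, hu, hv, hQy]
    ring
  refine ⟨hQz, ?_⟩
  have hz0 : Q ((B * y₁ + A * y₂) • u + (-(A * y₁)) • v) ≠ 0 := by
    rw [hQz]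
    exact mul_ne_zero (pow_ne_zero _ hA) hy
  apply gl_ext_mulVec
  intro t
  rw [gl_mul_mulVec, gl_mul_mulVec, rf_mulVec hQ (a := v) (by rwa [hv]) t,
    rf_mulVec hQ (a := u) (by rwa [hu]), rf_mulVec hQ hy t, rf_mulVec hQ hz0, hQz, hu, hv]
  set p := polar Q t u with hp
  set q := polar Q t v with hq
  have hvu : polar Q v u = B := QuadraticMap.polar_comm _ _ _
  have huu : polar Q u u = 2 * A := by rw [pol_self hQ, hu]
  have hvv : polar Q v v = 2 * A := by rw [pol_self hQ, hv]
  have e1 : polar Q (t - (q / A) • v) u = p - (q / A) * B := by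
    rw [pol_sub_left hQ, pol_smul_left hQ, hvu]
  have e2 : polar Q t (y₁ • u + y₂ • v) = y₁ * p + y₂ * q := by
    rw [pol_add_right hQ, pol_smul_right hQ, pol_smul_right hQ]
  have e3 : polar Q (y₁ • u + y₂ • v) u = y₁ * (2 * A) + y₂ * B := by
    rw [pol_add_left hQ, pol_smul_left hQ, pol_smul_left hQ, huu, hvu]
  have e4 : polar Q (y₁ • u + y₂ • v) v = y₁ * B + y₂ * (2 * A) := by
    rw [pol_add_left hQ, pol_smul_left hQ, pol_smul_left hQ, hvv]
  have e5 : polar Q (t - ((y₁ * p + y₂ * q) / C) • (y₁ • u + y₂ • v))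
      ((B * y₁ + A * y₂) • u + (-(A * y₁)) • v) =
      (B * y₁ + A * y₂) * (p - ((y₁ * p + y₂ * q) / C) * (y₁ * (2 * A) + y₂ * B)) +
      (-(A * y₁)) * (q - ((y₁ * p + y₂ * q) / C) * (y₁ * B + y₂ * (2 * A))) := by
    rw [pol_add_right hQ, pol_smul_right hQ, pol_smul_right hQ, pol_sub_left hQ, pol_sub_left hQ,
      pol_smul_left hQ, pol_smul_left hQ, e3, e4]
  rw [e1, e2, e5]
  have c1 : (p - q / A * B) / A = ((y₁ * p + y₂ * q) / C) * y₁ +
      (((B * y₁ + A * y₂) * (p - ((y₁ * p + y₂ * q) / C) * (y₁ * (2 * A) + y₂ * B)) +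
      (-(A * y₁)) * (q - ((y₁ * p + y₂ * q) / C) * (y₁ * B + y₂ * (2 * A)))) / (A ^ 2 * C)) * (B * y₁ + A * y₂) := by
    field_simp
    rw [hQy]
    ring
  have c2 : q / A = ((y₁ * p + y₂ * q) / C) * y₂ +
      (((B * y₁ + A * y₂) * (p - ((y₁ * p + y₂ * q) / C) * (y₁ * (2 * A) + y₂ * B)) +
      (-(A * y₁)) * (q - ((y₁ * p + y₂ * q) / C) * (y₁ * B + y₂ * (2 * A)))) / (A ^ 2 * C)) * (-(A * y₁)) := by
    field_simp
    rw [hQy]
    ring
  generalize (((B * y₁ + A * y₂) * (p - ((y₁ * p + y₂ * q) / C) * (y₁ * (2 * A) + y₂ * B)) +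
      (-(A * y₁)) * (q - ((y₁ * p + y₂ * q) / C) * (y₁ * B + y₂ * (2 * A)))) / (A ^ 2 * C)) = D at c1 c2 ⊢
  generalize (y₁ * p + y₂ * q) / C = E at c1 c2 ⊢
  funext j
  simp only [Pi.sub_apply, Pi.add_apply, Pi.smul_apply, smul_eq_mul]
  rw [c1, c2]
  ring

end Plane

section Finite

variable {ι : Type} [Fintype ι] [DecidableEq ι] {F : Type*} [Field F] [Fintype F] [DecidableEq F]
  {Q : (ι → F) → F} (hQ : IsNondegenerateQuadraticForm Q)

include hQ in
/-- A non-singular vector orthogonal to three given vectors, one of them non-singular. -/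
theorem exists_nonsing_perp3 (h2 : (2 : F) ≠ 0) (hn : 6 ≤ Fintype.card ι) {u : ι → F} (hu : Q u ≠ 0)
    (w x : ι → F) :
    ∃ y, polar Q u y = 0 ∧ polar Q w y = 0 ∧ polar Q x y = 0 ∧ Q y ≠ 0 := by
  classical
  set Z := perpList hQ [u, w, x] ⊤ with hZ
  have hZd : Fintype.card ι ≤ Module.finrank F Z + 3 := by
    have := finrank_perpList hQ [u, w, x] ⊤
    simpa using this
  have hspan : Module.finrank F (Submodule.span F ({u, w, x} : Set (ι → F))) ≤ 3 := by
    have h1 := finrank_span_finset_le_card (R := F) ({u, w, x} : Finset (ι → F))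
    have h2 : (({u, w, x} : Finset (ι → F)) : Set (ι → F)) = {u, w, x} := by simp
    rw [h2] at h1
    exact h1.trans Finset.card_le_three
  have hnot : ¬ Z ≤ Submodule.span F ({u, w, x} : Set (ι → F)) := by
    intro hle
    have hZeq : Z = Submodule.span F ({u, w, x} : Set (ι → F)) :=
      Submodule.eq_of_le_of_finrank_le hle (by omega)
    have hum : u ∈ Z := by
      rw [hZeq]
      exact Submodule.subset_span (by simp)
    have h3 := (mem_perpList hQ hum).2 u (by simp)
    rw [pol_self hQ] at h3
    exact (mul_ne_zero h2 hu) h3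
  obtain ⟨d, hdZ, hd⟩ := SetLike.not_le_iff_exists.1 hnot
  obtain ⟨φ, h1, h3⟩ := exists_functional_of_notMem hd
  obtain ⟨z, hz⟩ := exists_riesz hQ φ
  have hdm := (mem_perpList hQ hdZ).2
  have hud : polar Q u d = 0 := by
    rw [QuadraticMap.polar_comm]
    exact hdm u (by simp)
  have hwd : polar Q w d = 0 := by
    rw [QuadraticMap.polar_comm]
    exact hdm w (by simp)
  have hxd : polar Q x d = 0 := by
    rw [QuadraticMap.polar_comm]
    exact hdm x (by simp)
  have huz : polar Q u z = 0 := by
    rw [hz]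
    exact h3 u (Submodule.subset_span (by simp))
  have hwz : polar Q w z = 0 := by
    rw [hz]
    exact h3 w (Submodule.subset_span (by simp))
  have hxz : polar Q x z = 0 := by
    rw [hz]
    exact h3 x (Submodule.subset_span (by simp))
  have hdz : polar Q d z = 1 := by rw [hz, h1]
  by_cases hQd : Q d = 0
  · by_cases hQz : Q z = 0
    · refine ⟨d + z, ?_, ?_, ?_, ?_⟩
      · rw [pol_add_right hQ, hud, huz, add_zero]
      · rw [pol_add_right hQ, hwd, hwz, add_zero]
      · rw [pol_add_right hQ, hxd, hxz, add_zero]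
      · rw [Q_add (Q := Q), hQd, hQz, hdz]
        simp
    · exact ⟨z, huz, hwz, hxz, hQz⟩
  · exact ⟨d, hud, hwd, hxd, hQd⟩

/-- The subgroup generated by the reflections of one class of norms. -/
noncomputable def classR (c : F) : Subgroup (isometryGroup F Q) :=
  Subgroup.closure {g | ∃ (v : ι → F) (t : F), t ≠ 0 ∧ Q v = c * t ^ 2 ∧ g = rfO hQ v}

theorem rfO_mem_classR {c : F} {v : ι → F} {t : F} (ht : t ≠ 0) (hv : Q v = c * t ^ 2) :
    rfO hQ v ∈ classR hQ c :=
  Subgroup.subset_closure ⟨v, t, ht, hv, rfl⟩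

/-- Nondegenerate pairs. -/
theorem pair_mem (h2 : (2 : F) ≠ 0) {c : F} (hc : c ≠ 0) {u v : ι → F} {A : F} (hA : A ≠ 0)
    (hu : Q u = A) (hv : Q v = A) (hB : polar Q u v ^ 2 ≠ 4 * A ^ 2) :
    rfO hQ u * rfO hQ v ∈ classR hQ c := by
  set B := polar Q u v with hBd
  set f := v - (B / (2 * A)) • u with hf
  have h2A : 2 * A ≠ 0 := mul_ne_zero h2 hA
  have hfu : polar Q u f = 0 := by
    rw [hf, pol_sub_right hQ, pol_smul_right hQ, pol_self hQ, hu, ← hBd]
    field_simp
    ring
  have hQf : Q f = (4 * A ^ 2 - B ^ 2) / (4 * A) := by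
    have e : f = (1 : F) • v + (-(B / (2 * A))) • u := by
      rw [hf, one_smul, neg_smul, sub_eq_add_neg]
    rw [e, Q_comb hQ, hu, hv, QuadraticMap.polar_comm, ← hBd]
    have h40 : (4 : F) ≠ 0 := by
      have : (4 : F) = 2 * 2 := by norm_num
      rw [this]
      exact mul_ne_zero h2 h2
    field_simp
    ring
  have hf0 : Q f ≠ 0 := by
    rw [hQf]
    apply div_ne_zero
    · intro h
      apply hB
      linear_combination -h
    · have : (4 : F) = 2 * 2 := by norm_num
      rw [this]
      exact mul_ne_zero (mul_ne_zero h2 h2) hA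
  obtain ⟨α, β, hαβ⟩ := binary_universal h2 hA hf0 c
  set y₁ := α - β * (B / (2 * A)) with hy₁
  have hy : y₁ • u + β • v = α • u + β • f := by
    rw [hf, hy₁, smul_sub, smul_smul, sub_smul]
    abel
  have hQy : Q (y₁ • u + β • v) = c := by
    rw [hy, Q_comb hQ, hu, hfu, mul_zero, add_zero]
    exact hαβ
  obtain ⟨h5, h6⟩ := plane_identity hQ hA hu hv y₁ β (by rw [hQy]; exact hc)
  have h7 : rfO hQ u * rfO hQ v =
      rfO hQ ((polar Q u v * y₁ + A * β) • u + (-(A * y₁)) • v) * rfO hQ (y₁ • u + β • v) :=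
    Subtype.ext h6
  rw [h7]
  refine Subgroup.mul_mem _ (rfO_mem_classR hQ hA ?_) (rfO_mem_classR hQ one_ne_zero ?_)
  · rw [h5, hQy]
    ring
  · rw [hQy]
    ring

/-- All pairs of the same norm. -/
theorem all_pairs_mem (h2 : (2 : F) ≠ 0) (heven : Even (Fintype.card ι))
    (h43 : ¬ (Fintype.card ι = 4 ∧ Fintype.card F = 3)) {c : F} (hc : c ≠ 0) {u v : ι → F} {A : F}
    (hA : A ≠ 0) (hu : Q u = A) (hv : Q v = A) :
    rfO hQ u * rfO hQ v ∈ classR hQ c := by
  have h4A : ∀ B : F, B ^ 2 = 4 * A ^ 2 → B = 2 * A ∨ B = - (2 * A) := by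
    intro B hB
    have : (B - 2 * A) * (B + 2 * A) = 0 := by linear_combination hB
    rcases mul_eq_zero.1 this with h | h
    · left; linear_combination h
    · right; linear_combination h
  by_cases hB : polar Q u v ^ 2 = 4 * A ^ 2
  swap
  · exact pair_mem hQ h2 hc hA hu hv hB
  -- reduction to `B = 2A`
  have key : ∀ v : ι → F, Q v = A → polar Q u v = 2 * A → rfO hQ u * rfO hQ v ∈ classR hQ c := by
    intro v hv hB
    set a := u - v with ha
    by_cases ha0 : a = 0
    · have : u = v := sub_eq_zero.1 ha0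
      rw [← this, rfO_mul_self]
      exact Subgroup.one_mem _
    have hQa : Q a = 0 := by
      rw [ha, Q_sub hQ, hu, hv, hB]
      ring
    have hau : polar Q a u = 0 := by
      rw [ha, pol_sub_left hQ, pol_self hQ, hu, QuadraticMap.polar_comm, hB]
      ring
    have hav : polar Q a v = 0 := by
      rw [ha, pol_sub_left hQ, pol_self hQ, hv, hB]
      ring
    have haa : polar Q a a = 0 := by
      rw [pol_self hQ, hQa, mul_zero]
    -- a partner of `a`
    have hnot : a ∉ Submodule.span F {u} := by
      intro hmem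
      obtain ⟨l, hl⟩ := Submodule.mem_span_singleton.1 hmem
      have h3 : l ^ 2 * A = 0 := by
        rw [← hu, ← hQ.smul, hl, hQa]
      have hl0 : l = 0 := by
        rcases mul_eq_zero.1 h3 with h | h
        · exact pow_eq_zero_iff (two_ne_zero) |>.1 h
        · exact absurd h hA
      rw [hl0, zero_smul] at hl
      exact ha0 hl.symm
    obtain ⟨φ, hφ1, hφ2⟩ := exists_functional_of_not_mem_span hnot
    obtain ⟨x, hx⟩ := exists_riesz hQ φ
    set b := x - Q x • a with hb
    have hQb : Q b = 0 := by
      have e : b = (1 : F) • x + (- Q x) • a := by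
        rw [hb, one_smul, neg_smul, sub_eq_add_neg]
      rw [e, Q_comb hQ, hQa, QuadraticMap.polar_comm, hx, hφ1]
      ring
    have hab : polar Q a b = 1 := by
      rw [hb, pol_sub_right hQ, pol_smul_right hQ, haa, hx, hφ1]
      ring
    have hub : polar Q u b = 0 := by
      rw [hb, pol_sub_right hQ, pol_smul_right hQ, QuadraticMap.polar_comm Q u a, hau, hx, hφ2]
      ring
    have hvb : polar Q v b = -1 := by
      have : v = u - a := by rw [ha]; abel
      rw [this, pol_sub_left hQ, hub, hab]
      ring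
    -- two-step chain through `w`
    have chain : ∀ w : ι → F, Q w = A → polar Q u w ^ 2 ≠ 4 * A ^ 2 → polar Q w v ^ 2 ≠ 4 * A ^ 2 →
        rfO hQ u * rfO hQ v ∈ classR hQ c := by
      intro w hw h3 h4
      have e : rfO hQ u * rfO hQ v = (rfO hQ u * rfO hQ w) * (rfO hQ w * rfO hQ v) := by
        rw [mul_assoc, ← mul_assoc (rfO hQ w), rfO_mul_self, one_mul]
      rw [e]
      exact Subgroup.mul_mem _ (pair_mem hQ h2 hc hA hu hw h3) (pair_mem hQ h2 hc hA hw hv h4)
    have h2A : (2 : F) * A ≠ 0 := mul_ne_zero h2 hA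
    have h4A0 : (4 : F) * A ^ 2 ≠ 0 := by
      have : (4 : F) = 2 * 2 := by norm_num
      rw [this]
      exact mul_ne_zero (mul_ne_zero h2 h2) (pow_ne_zero _ hA)
    by_cases hν : ∃ ν : F, ν ≠ 0 ∧ ν ≠ 2 * A ∧ ν ≠ - (2 * A)
    · obtain ⟨ν, h0, h3, h4⟩ := hν
      set w := (A / ν) • a + ν • b with hw
      refine chain w ?_ ?_ ?_
      · rw [hw, Q_comb hQ, hQa, hQb, hab]
        field_simp
        ring
      · have : polar Q u w = 0 := by
          rw [hw, pol_add_right hQ, pol_smul_right hQ, pol_smul_right hQ,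
            QuadraticMap.polar_comm Q u a, hau, hub]
          ring
        rw [this]
        intro h5
        apply h4A0
        rw [← h5]
        simp
      · have : polar Q w v = - ν := by
          rw [hw, pol_add_left hQ, pol_smul_left hQ, pol_smul_left hQ, hav,
            QuadraticMap.polar_comm Q b v, hvb]
          ring
        rw [this]
        intro h5
        have h6 : ν ^ 2 = 4 * A ^ 2 := by linear_combination h5
        rcases h4A ν h6 with h7 | h7
        · exact h3 h7
        · exact h4 h7
    · push Not at hν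
      -- the field has three elements
      have hcardF : Fintype.card F = 3 := by
        have hsub : (univ : Finset F) = {0, 2 * A, - (2 * A)} := by
          ext z
          simp only [mem_univ, mem_insert, mem_singleton, true_iff]
          by_cases h0 : z = 0
          · exact Or.inl h0
          · by_cases h3 : z = 2 * A
            · exact Or.inr (Or.inl h3)
            · exact Or.inr (Or.inr (hν z h0 h3))
        have h1 : Fintype.card F = ({0, 2 * A, - (2 * A)} : Finset F).card := by
          rw [← hsub]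
          rfl
        rw [h1, card_insert_of_notMem, card_insert_of_notMem, card_singleton]
        · simp only [mem_singleton]
          intro h5
          apply h2A
          have : (2 : F) * (2 * A) = 0 := by linear_combination h5
          rcases mul_eq_zero.1 this with h | h
          · exact absurd h h2
          · exact h
        · simp only [mem_insert, mem_singleton, not_or]
          refine ⟨fun h => h2A h.symm, fun h => ?_⟩
          apply h2A
          linear_combination h
      -- three independent vectors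
      have h3n : 3 ≤ Fintype.card ι := by
        have hli : LinearIndependent F ![u, a, b] := by
          rw [Fintype.linearIndependent_iff]
          intro g hg
          simp only [Fin.sum_univ_three, Matrix.cons_val_zero, Matrix.cons_val_one,
            Matrix.cons_val] at hg
          have h10 : polar Q u (g 0 • u + g 1 • a + g 2 • b) = 0 := by
            rw [hg]
            exact pol_zero_right hQ u
          have h11 : polar Q a (g 0 • u + g 1 • a + g 2 • b) = 0 := by
            rw [hg]
            exact pol_zero_right hQ a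
          have h12 : polar Q b (g 0 • u + g 1 • a + g 2 • b) = 0 := by
            rw [hg]
            exact pol_zero_right hQ b
          rw [pol_add_right hQ, pol_add_right hQ, pol_smul_right hQ, pol_smul_right hQ,
            pol_smul_right hQ] at h10 h11 h12
          rw [pol_self hQ, hu, QuadraticMap.polar_comm Q u a, hau, hub] at h10
          rw [hau, haa, hab] at h11
          rw [pol_self hQ, hQb, QuadraticMap.polar_comm Q b u, hub, QuadraticMap.polar_comm Q b a, hab] at h12
          have g0 : g 0 = 0 := by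
            have : g 0 * (2 * A) = 0 := by linear_combination h10
            exact (mul_eq_zero.1 this).resolve_right h2A
          have g2 : g 2 = 0 := by linear_combination h11
          have g1 : g 1 = 0 := by linear_combination h12
          intro i
          fin_cases i
          · exact g0
          · exact g1
          · exact g2
        have := hli.fintype_card_le_finrank
        rw [Module.finrank_fintype_fun_eq_card] at this
        simpa using this
      have hn6 : 6 ≤ Fintype.card ι := by
        obtain ⟨k, hk⟩ := heven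
        have : Fintype.card ι ≠ 4 := fun h => h43 ⟨h, hcardF⟩
        omega
      -- the vector `w`
      obtain ⟨x₁, h11, h12, -, h14⟩ := exists_nonsing_perp3 hQ h2 hn6 (u := u) (by rwa [hu]) a a
      obtain ⟨x₂, h21, h22, h23, h24⟩ := exists_nonsing_perp3 hQ h2 hn6 (u := u) (by rwa [hu]) a x₁
      obtain ⟨α, β, hαβ⟩ := binary_universal h2 h14 h24 A
      set w := α • x₁ + β • x₂ with hw
      have hwu : polar Q u w = 0 := by
        rw [hw, pol_add_right hQ, pol_smul_right hQ, pol_smul_right hQ, h11, h21]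
        ring
      have hwa : polar Q a w = 0 := by
        rw [hw, pol_add_right hQ, pol_smul_right hQ, pol_smul_right hQ, h12, h22]
        ring
      refine chain w ?_ ?_ ?_
      · rw [hw, Q_comb hQ, h23, mul_zero, add_zero]
        exact hαβ
      · rw [hwu]
        intro h5
        apply h4A0
        rw [← h5]
        simp
      · have : polar Q w v = 0 := by
          have e : v = u - a := by rw [ha]; abel
          rw [QuadraticMap.polar_comm, e, pol_sub_left hQ, hwu, hwa]
          ring
        rw [this]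
        intro h5
        apply h4A0
        rw [← h5]
        simp
  rcases h4A _ hB with h3 | h3
  · exact key v hv h3
  · have h5 := key (-v) (by rw [Q_neg hQ, hv]) (by rw [pol_neg_right hQ, h3]; ring)
    have h6 : rfO hQ (-v) = rfO hQ v := Subtype.ext (rf_neg hQ v)
    rwa [h6] at h5

end Finite

section Final

variable {ι : Type} [Fintype ι] [DecidableEq ι] {F : Type*} [Field F] [Fintype F] [DecidableEq F]
  {Q : (ι → F) → F} (hQ : IsNondegenerateQuadraticForm Q)

theorem char_iff (h2 : (2 : F) ≠ 0) {c x : F} (hc : c ≠ 0) (hx : x ≠ 0) :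
    (∃ t, t ≠ 0 ∧ x = c * t ^ 2) ↔ quadraticChar F x = quadraticChar F c := by
  constructor
  · rintro ⟨t, ht, rfl⟩
    rw [map_mul, quadraticChar_sq_one' ht, mul_one]
  · intro h
    have h3 : quadraticChar F (x / c) = 1 := by
      have e : x / c = x * c * (c⁻¹) ^ 2 := by
        field_simp
      rw [e, map_mul, map_mul, quadraticChar_sq_one' (inv_ne_zero hc), mul_one, h]
      rcases quadraticChar_dichotomy hc with h4 | h4 <;> rw [h4] <;> norm_num
    rw [quadraticChar_one_iff_isSquare (div_ne_zero hx hc)] at h3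
    obtain ⟨t, ht⟩ := h3
    refine ⟨t, ?_, ?_⟩
    · rintro rfl
      rw [mul_zero] at ht
      exact div_ne_zero hx hc ht
    · have : x = x / c * c := by field_simp
      rw [this, ht]
      ring

theorem conj_mem_classR {c : F} (g : isometryGroup F Q) {r : isometryGroup F Q}
    (hr : r ∈ classR hQ c) : g * r * g⁻¹ ∈ classR hQ c := by
  induction hr using Subgroup.closure_induction with
  | mem x hx =>
    obtain ⟨v, t, ht, hv, rfl⟩ := hx
    have hg := mem_isometryGroup_iff.1 g.2
    refine Subgroup.subset_closure ⟨((g : GL ι F) : Matrix ι ι F) *ᵥ v, t, ht, by rw [hg, hv], ?_⟩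
    apply Subtype.ext
    exact conj_rf hQ hg v
  | one =>
    simp [Subgroup.one_mem]
  | mul a b _ _ ha hb =>
    have e : g * (a * b) * g⁻¹ = (g * a * g⁻¹) * (g * b * g⁻¹) := by group
    rw [e]
    exact Subgroup.mul_mem _ ha hb
  | inv a _ ha =>
    have e : g * a⁻¹ * g⁻¹ = (g * a * g⁻¹)⁻¹ := by group
    rw [e]
    exact Subgroup.inv_mem _ ha

theorem index_classR (h2 : (2 : F) ≠ 0) (hn : 2 ≤ Fintype.card ι) (heven : Even (Fintype.card ι))
    (h43 : ¬ (Fintype.card ι = 4 ∧ Fintype.card F = 3)) {c : F} (hc : c ≠ 0) :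
    (classR hQ c).index = 2 := by
  classical
  have hF : ringChar F ≠ 2 := by
    intro h
    apply h2
    have := ringChar.Nat.cast_ringChar (R := F)
    rw [h] at this
    exact_mod_cast this
  obtain ⟨θ, hθ⟩ : ∃ θ, IsSpinor hQ θ := exists_spinor hQ h2 hn
  set d := detHom hQ (top_ne h2) h2 with hd
  have hdr : ∀ {a : ι → F}, Q a ≠ 0 → d (rfO hQ a) = -1 := fun ha => detHom_rf hQ _ h2 ha
  -- the character
  obtain ⟨ε, hε⟩ : ∃ ε : isometryGroup F Q →* ℤˣ, ∀ a, Q a ≠ 0 →
      ((ε (rfO hQ a) : ℤˣ) : ℤ) = quadraticChar F (Q a) * quadraticChar F c := by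
    rcases quadraticChar_dichotomy hc with h3 | h3
    · refine ⟨θ, fun a ha => ?_⟩
      rw [hθ a ha, h3, mul_one]
    · refine ⟨d * θ, fun a ha => ?_⟩
      rw [MonoidHom.mul_apply, hdr ha, Units.val_mul, hθ a ha, h3]
      simp
  have hcc : quadraticChar F c * quadraticChar F c = 1 := by
    rcases quadraticChar_dichotomy hc with h3 | h3 <;> rw [h3] <;> norm_num
  -- the other class
  obtain ⟨a₀, b₀, h3, h4, h5⟩ := exists_orth hQ h2 hn
  obtain ⟨ν, hν⟩ := quadraticChar_exists_neg_one hF
  have hν0 : ν ≠ 0 := by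
    rintro rfl
    simp at hν
  obtain ⟨α, β, hαβ⟩ := binary_universal h2 h3 h4 (c * ν)
  set s₀ := α • a₀ + β • b₀ with hs₀
  have hQs : Q s₀ = c * ν := by
    rw [hs₀, Q_comb hQ, h5, mul_zero, add_zero]
    exact hαβ
  have hs0 : Q s₀ ≠ 0 := by
    rw [hQs]
    exact mul_ne_zero hc hν0
  have hχs : quadraticChar F (Q s₀) = - quadraticChar F c := by
    rw [hQs, map_mul, hν]
    ring
  set s := rfO hQ s₀ with hs
  have hss : s * s = 1 := rfO_mul_self hQ s₀
  have hsinv : s⁻¹ = s := inv_eq_of_mul_eq_one_left hss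
  have hεs : ε s = -1 := by
    apply Units.ext
    rw [hε _ hs0, hχs, neg_mul, hcc]
    rfl
  set R := classR hQ c with hR
  -- everything is in one of two cosets
  have key : ∀ g : isometryGroup F Q, g ∈ R ∨ g * s ∈ R := by
    intro g
    have hg : g ∈ Subgroup.closure (SP hQ ∪ SM hQ) := by
      rw [gens_eq hQ h2]
      exact Subgroup.mem_top g
    induction hg using Subgroup.closure_induction with
    | mem x hx =>
      obtain ⟨a, ha, hxa⟩ : ∃ a, Q a ≠ 0 ∧ x = rfO hQ a := by
        rcases hx with ⟨a, ha, -, rfl⟩ | ⟨a, ha, -, rfl⟩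
        · exact ⟨a, ha, rfl⟩
        · exact ⟨a, ha, rfl⟩
      subst hxa
      by_cases h6 : quadraticChar F (Q a) = quadraticChar F c
      · left
        obtain ⟨t, ht, ht2⟩ := (char_iff h2 hc ha).2 h6
        exact rfO_mem_classR hQ ht ht2
      · right
        have h7 : quadraticChar F (Q a) = quadraticChar F (Q s₀) := by
          rw [hχs]
          rcases quadraticChar_dichotomy ha with h8 | h8 <;> rcases quadraticChar_dichotomy hc with h9 | h9 <;>
            rw [h8, h9] at h6 ⊢ <;> first | rfl | exact absurd rfl h6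
        obtain ⟨t, ht, ht2⟩ := (char_iff h2 hs0 ha).2 h7
        have h8 : Q (t • s₀) = Q a := by
          rw [hQ.smul, ht2]
          ring
        have h9 : rfO hQ (t • s₀) = s := Subtype.ext (rf_smul hQ ht hs0)
        have := all_pairs_mem hQ h2 heven h43 hc ha rfl h8
        rwa [h9] at this
    | one =>
      left
      exact Subgroup.one_mem _
    | mul x y _ _ hx hy =>
      rcases hx with hx | hx <;> rcases hy with hy | hy
      · exact Or.inl (Subgroup.mul_mem _ hx hy)
      · right
        rw [mul_assoc]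
        exact Subgroup.mul_mem _ hx hy
      · right
        have e : x * y * s = (x * s) * (s * y * s⁻¹) := by
          calc x * y * s = x * (s * s) * y * s := by rw [hss, mul_one]
            _ = (x * s) * (s * y * s) := by simp only [mul_assoc]
            _ = _ := by rw [hsinv]
        rw [e]
        exact Subgroup.mul_mem _ hx (conj_mem_classR hQ s hy)
      · left
        have e : x * y = (x * s) * (s * (y * s) * s⁻¹) := by
          calc x * y = x * (s * s) * y * (s * s) := by rw [hss, mul_one, mul_one]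
            _ = (x * s) * (s * (y * s) * s) := by simp only [mul_assoc]
            _ = _ := by rw [hsinv]
        rw [e]
        exact Subgroup.mul_mem _ hx (conj_mem_classR hQ s hy)
    | inv x _ hx =>
      rcases hx with hx | hx
      · exact Or.inl (Subgroup.inv_mem _ hx)
      · right
        have e : x⁻¹ * s = s * (x * s)⁻¹ * s⁻¹ := by
          rw [hsinv, mul_inv_rev, hsinv]
          simp only [mul_assoc]
          rw [← mul_assoc s s, hss, one_mul]
        rw [e]
        exact conj_mem_classR hQ s (Subgroup.inv_mem _ hx)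
  have hle : R ≤ ε.ker := by
    rw [hR, classR, Subgroup.closure_le]
    rintro _ ⟨v, t, ht, hv, rfl⟩
    rw [SetLike.mem_coe, MonoidHom.mem_ker]
    have hv0 : Q v ≠ 0 := by
      rw [hv]
      exact mul_ne_zero hc (pow_ne_zero _ ht)
    apply Units.ext
    rw [hε v hv0, (char_iff h2 hc hv0).1 ⟨t, ht, hv⟩, hcc]
    rfl
  have hge : ε.ker ≤ R := by
    intro g hg
    rcases key g with h6 | h6
    · exact h6
    · exfalso
      have := hle h6
      rw [MonoidHom.mem_ker, map_mul, hεs, MonoidHom.mem_ker.1 hg] at this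
      exact absurd this (by decide)
  rw [le_antisymm hle hge]
  exact index_ker_units ε hεs

end Final

end Cfsg.Agent.Lib.ReflClass
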