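/-
Reflections over the field with three elements.
-/
import Mathlib
import Cfsg.Agent.Lib.ReflClass
import Cfsg.Prelude.Def_FischerSpaces
import Cfsg.Prelude.Def_SporadicB

set_option autoImplicit false
set_option linter.all false

open scoped MatrixGroups Matrix commutatorElement
open Cfsg Cfsg.Geo Finset
open Cfsg.Agent.Lib.Transvection Cfsg.Agent.Lib.LinAlgAux Cfsg.Agent.Lib.QuadBase
open Cfsg.Agent.Lib.QuadSiegel Cfsg.Agent.Lib.QuadRefl Cfsg.Agent.Lib.Spinor Cfsg.Agent.Lib.ReflClass
open QuadraticMap (polar)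

namespace Cfsg.Agent.Lib.ReflF3

section Perp

variable {ι : Type} [Fintype ι] [DecidableEq ι] {F : Type*} [Field F] [Fintype F] [DecidableEq F]
  {Q : (ι → F) → F} (hQ : IsNondegenerateQuadraticForm Q)

include hQ in
/-- A non-singular vector orthogonal to `u`, `v`, `e`, dimension at least five. -/
theorem exists_perp3' (h2 : (2 : F) ≠ 0) (hn : 5 ≤ Fintype.card ι) {u v e : ι → F} {A : F}
    (hA : A ≠ 0) (hu : Q u = A) (hv : Q v = A) (he : Q e ≠ 0)
    (hue : polar Q u e = 0) (hve : polar Q v e = 0) :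
    ∃ y, polar Q u y = 0 ∧ polar Q v y = 0 ∧ polar Q e y = 0 ∧ Q y ≠ 0 := by
  classical
  set Z := perpList hQ [u, v, e] ⊤ with hZ
  have hZd : Fintype.card ι ≤ Module.finrank F Z + 3 := by
    have := finrank_perpList hQ [u, v, e] ⊤
    simpa using this
  have h2A : 2 * A ≠ 0 := mul_ne_zero h2 hA
  have hnot : ¬ Z ≤ Submodule.span F ({u, v, e} : Set (ι → F)) := by
    intro hle
    set f := v - (polar Q u v / (2 * A)) • u with hf
    have hZf : Z ≤ Submodule.span F ({f} : Set (ι → F)) := by
      intro d hd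
      obtain ⟨x, y, w, hxyw⟩ := Submodule.mem_span_triple.1 (hle hd)
      have hdm := (mem_perpList hQ hd).2
      have h1 : polar Q d e = 0 := hdm e (by simp)
      have h3 : polar Q d u = 0 := hdm u (by simp)
      rw [← hxyw, pol_add_left hQ, pol_add_left hQ, pol_smul_left hQ, pol_smul_left hQ, pol_smul_left hQ,
        hue, hve, pol_self hQ] at h1
      have hw : w = 0 := by
        have : w * (2 * Q e) = 0 := by simpa using h1
        rcases mul_eq_zero.1 this with h | h
        · exact h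
        · exact absurd h (mul_ne_zero h2 he)
      rw [← hxyw, hw, zero_smul, add_zero, pol_add_left hQ, pol_smul_left hQ, pol_smul_left hQ,
        pol_self hQ, hu, QuadraticMap.polar_comm Q v u] at h3
      have hx : x = -(polar Q u v / (2 * A)) * y := by
        field_simp
        linear_combination h3
      refine Submodule.mem_span_singleton.2 ⟨y, ?_⟩
      rw [← hxyw, hw, zero_smul, add_zero, hf, hx]
      funext j
      simp only [Pi.add_apply, Pi.sub_apply, Pi.smul_apply, smul_eq_mul]
      ring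
    have h4 : Module.finrank F Z ≤ 1 := by
      refine (Submodule.finrank_mono hZf).trans ?_
      have h1 := finrank_span_finset_le_card (R := F) ({f} : Finset (ι → F))
      rw [Finset.coe_singleton, Finset.card_singleton] at h1
      exact h1
    omega
  obtain ⟨d, hdZ, hd⟩ := SetLike.not_le_iff_exists.1 hnot
  obtain ⟨φ, h1, h3⟩ := exists_functional_of_notMem hd
  obtain ⟨z, hz⟩ := exists_riesz hQ φ
  have hdm := (mem_perpList hQ hdZ).2
  have hud : polar Q u d = 0 := by
    rw [QuadraticMap.polar_comm]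
    exact hdm u (by simp)
  have hwd : polar Q v d = 0 := by
    rw [QuadraticMap.polar_comm]
    exact hdm v (by simp)
  have hxd : polar Q e d = 0 := by
    rw [QuadraticMap.polar_comm]
    exact hdm e (by simp)
  have huz : polar Q u z = 0 := by
    rw [hz]
    exact h3 u (Submodule.subset_span (by simp))
  have hwz : polar Q v z = 0 := by
    rw [hz]
    exact h3 v (Submodule.subset_span (by simp))
  have hxz : polar Q e z = 0 := by
    rw [hz]
    exact h3 e (Submodule.subset_span (by simp))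
  have hdz : polar Q d z = 1 := by rw [hz, h1]
  by_cases hQd : Q d = 0
  · by_cases hQz : Q z = 0
    · refine ⟨d + z, ?_, ?_, ?_, ?_⟩
      · rw [pol_add_right hQ, hud, huz, add_zero]
      · rw [pol_add_right hQ, hwd, hwz, add_zero]
      · rw [pol_add_right hQ, hxd, hxz, add_zero]
      · rw [Q_add (Q := Q), hQd, hQz, hdz]
        simp
    · exact ⟨z, huz, hwz, hxz, hQz⟩
  · exact ⟨d, hud, hwd, hxd, hQd⟩

end Perp

section Three

variable {ι : Type} [Fintype ι] [DecidableEq ι] {Q : (ι → ZMod 3) → ZMod 3}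
  (hQ : IsNondegenerateQuadraticForm Q)

theorem zmod3_cases : ∀ a x : ZMod 3, a ≠ 0 → x ≠ 0 → x = a ∨ x = -a := by decide

include hQ in
/-- Any non-zero norm is reached orthogonally to two vectors of the same non-zero norm. -/
theorem exists_norm_perp (hn : 5 ≤ Fintype.card ι) {u v : ι → ZMod 3} {A : ZMod 3} (hA : A ≠ 0)
    (hu : Q u = A) (hv : Q v = A) {a : ZMod 3} (ha : a ≠ 0) :
    ∃ t, Q t = a ∧ polar Q u t = 0 ∧ polar Q v t = 0 := by
  have h2 : (2 : ZMod 3) ≠ 0 := by decide
  obtain ⟨e₁, h1, h3, h4⟩ := exists_nonsing_perp hQ hn u v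
  rcases zmod3_cases a _ ha h4 with h5 | h5
  · exact ⟨e₁, h5, h1, h3⟩
  obtain ⟨e₂, h6, h7, h8, h9⟩ := exists_perp3' hQ h2 hn hA hu hv h4 h1 h3
  rcases zmod3_cases a _ ha h9 with h10 | h10
  · exact ⟨e₂, h10, h6, h7⟩
  refine ⟨e₁ + e₂, ?_, ?_, ?_⟩
  · rw [Q_add (Q := Q), h5, h10, h8]
    have h3a : (3 : ZMod 3) = 0 := by decide
    linear_combination (-a) * h3a
  · rw [pol_add_right hQ, h1, h6, add_zero]
  · rw [pol_add_right hQ, h3, h7, add_zero]

include hQ in
theorem all_pairs_mem3 (hn : 5 ≤ Fintype.card ι) {c : ZMod 3} (hc : c ≠ 0) {u v : ι → ZMod 3}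
    {A : ZMod 3} (hA : A ≠ 0) (hu : Q u = A) (hv : Q v = A) :
    rfO hQ u * rfO hQ v ∈ classR hQ c := by
  have h2 : (2 : ZMod 3) ≠ 0 := by decide
  obtain ⟨t, h1, h3, h4⟩ := exists_norm_perp hQ hn hA hu hv hA
  have h5 : ∀ {w : ι → ZMod 3}, polar Q w t = 0 → polar Q w t ^ 2 ≠ 4 * A ^ 2 := by
    intro w hw
    rw [hw]
    intro h
    have h' : 4 * A ^ 2 = 0 := by simpa using h.symm
    exact (mul_ne_zero (by decide) (pow_ne_zero _ hA)) h'
  have h6 := pair_mem hQ h2 hc hA hu h1 (h5 h3)
  have h7 : polar Q t v ^ 2 ≠ 4 * A ^ 2 := by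
    rw [QuadraticMap.polar_comm]
    exact h5 h4
  have h8 := pair_mem hQ h2 hc hA h1 hv h7
  have e : rfO hQ u * rfO hQ v = (rfO hQ u * rfO hQ t) * (rfO hQ t * rfO hQ v) := by
    calc rfO hQ u * rfO hQ v = rfO hQ u * (rfO hQ t * rfO hQ t) * rfO hQ v := by
          rw [rfO_mul_self, mul_one]
      _ = _ := by simp only [mul_assoc]
  rw [e]
  exact Subgroup.mul_mem _ h6 h8

theorem index_classR3 (hn5 : 5 ≤ Fintype.card ι) {c : ZMod 3} (hc : c ≠ 0) :
    (classR hQ c).index = 2 := by
  classical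
  have h2 : (2 : ZMod 3) ≠ 0 := by decide
  have hn : 2 ≤ Fintype.card ι := by omega
  have hF : ringChar (ZMod 3) ≠ 2 := by
    intro h
    apply h2
    have := ringChar.Nat.cast_ringChar (R := ZMod 3)
    rw [h] at this
    exact_mod_cast this
  obtain ⟨θ, hθ⟩ : ∃ θ, IsSpinor hQ θ := exists_spinor hQ h2 hn
  set d := detHom hQ (top_ne h2) h2 with hd
  have hdr : ∀ {a : ι → ZMod 3}, Q a ≠ 0 → d (rfO hQ a) = -1 := fun ha => detHom_rf hQ _ h2 ha
  -- the character
  obtain ⟨ε, hε⟩ : ∃ ε : isometryGroup (ZMod 3) Q →* ℤˣ, ∀ a, Q a ≠ 0 →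
      ((ε (rfO hQ a) : ℤˣ) : ℤ) = quadraticChar (ZMod 3) (Q a) * quadraticChar (ZMod 3) c := by
    rcases quadraticChar_dichotomy hc with h3 | h3
    · refine ⟨θ, fun a ha => ?_⟩
      rw [hθ a ha, h3, mul_one]
    · refine ⟨d * θ, fun a ha => ?_⟩
      rw [MonoidHom.mul_apply, hdr ha, Units.val_mul, hθ a ha, h3]
      simp
  have hcc : quadraticChar (ZMod 3) c * quadraticChar (ZMod 3) c = 1 := by
    rcases quadraticChar_dichotomy hc with h3 | h3 <;> rw [h3] <;> norm_num
  -- the other class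
  obtain ⟨a₀, b₀, h3, h4, h5⟩ := exists_orth hQ h2 hn
  obtain ⟨ν, hν⟩ := quadraticChar_exists_neg_one hF
  have hν0 : ν ≠ 0 := by
    rintro rfl
    simp at hν
  obtain ⟨α, β, hαβ⟩ := binary_universal h2 h3 h4 (c * ν)
  set s₀ := α • a₀ + β • b₀ with hs₀
  have hQs : Q s₀ = c * ν := by
    rw [hs₀, Q_comb hQ, h5, mul_zero, add_zero]
    exact hαβ
  have hs0 : Q s₀ ≠ 0 := by
    rw [hQs]
    exact mul_ne_zero hc hν0
  have hχs : quadraticChar (ZMod 3) (Q s₀) = - quadraticChar (ZMod 3) c := by
    rw [hQs, map_mul, hν]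
    ring
  set s := rfO hQ s₀ with hs
  have hss : s * s = 1 := rfO_mul_self hQ s₀
  have hsinv : s⁻¹ = s := inv_eq_of_mul_eq_one_left hss
  have hεs : ε s = -1 := by
    apply Units.ext
    rw [hε _ hs0, hχs, neg_mul, hcc]
    rfl
  set R := classR hQ c with hR
  -- everything is in one of two cosets
  have key : ∀ g : isometryGroup (ZMod 3) Q, g ∈ R ∨ g * s ∈ R := by
    intro g
    have hg : g ∈ Subgroup.closure (SP hQ ∪ SM hQ) := by
      rw [gens_eq hQ h2]
      exact Subgroup.mem_top g
    induction hg using Subgroup.closure_induction with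
    | mem x hx =>
      obtain ⟨a, ha, hxa⟩ : ∃ a, Q a ≠ 0 ∧ x = rfO hQ a := by
        rcases hx with ⟨a, ha, -, rfl⟩ | ⟨a, ha, -, rfl⟩
        · exact ⟨a, ha, rfl⟩
        · exact ⟨a, ha, rfl⟩
      subst hxa
      by_cases h6 : quadraticChar (ZMod 3) (Q a) = quadraticChar (ZMod 3) c
      · left
        obtain ⟨t, ht, ht2⟩ := (char_iff h2 hc ha).2 h6
        exact rfO_mem_classR hQ ht ht2
      · right
        have h7 : quadraticChar (ZMod 3) (Q a) = quadraticChar (ZMod 3) (Q s₀) := by
          rw [hχs]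
          rcases quadraticChar_dichotomy ha with h8 | h8 <;> rcases quadraticChar_dichotomy hc with h9 | h9 <;>
            rw [h8, h9] at h6 ⊢ <;> first | rfl | exact absurd rfl h6
        obtain ⟨t, ht, ht2⟩ := (char_iff h2 hs0 ha).2 h7
        have h8 : Q (t • s₀) = Q a := by
          rw [hQ.smul, ht2]
          ring
        have h9 : rfO hQ (t • s₀) = s := Subtype.ext (rf_smul hQ ht hs0)
        have := all_pairs_mem3 hQ hn5 hc ha rfl h8
        rwa [h9] at this
    | one =>
      left
      exact Subgroup.one_mem _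
    | mul x y _ _ hx hy =>
      rcases hx with hx | hx <;> rcases hy with hy | hy
      · exact Or.inl (Subgroup.mul_mem _ hx hy)
      · right
        rw [mul_assoc]
        exact Subgroup.mul_mem _ hx hy
      · right
        have e : x * y * s = (x * s) * (s * y * s⁻¹) := by
          calc x * y * s = x * (s * s) * y * s := by rw [hss, mul_one]
            _ = (x * s) * (s * y * s) := by simp only [mul_assoc]
            _ = _ := by rw [hsinv]
        rw [e]
        exact Subgroup.mul_mem _ hx (conj_mem_classR hQ s hy)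
      · left
        have e : x * y = (x * s) * (s * (y * s) * s⁻¹) := by
          calc x * y = x * (s * s) * y * (s * s) := by rw [hss, mul_one, mul_one]
            _ = (x * s) * (s * (y * s) * s) := by simp only [mul_assoc]
            _ = _ := by rw [hsinv]
        rw [e]
        exact Subgroup.mul_mem _ hx (conj_mem_classR hQ s hy)
    | inv x _ hx =>
      rcases hx with hx | hx
      · exact Or.inl (Subgroup.inv_mem _ hx)
      · right
        have e : x⁻¹ * s = s * (x * s)⁻¹ * s⁻¹ := by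
          rw [hsinv, mul_inv_rev, hsinv]
          simp only [mul_assoc]
          rw [← mul_assoc s s, hss, one_mul]
        rw [e]
        exact conj_mem_classR hQ s (Subgroup.inv_mem _ hx)
  have hle : R ≤ ε.ker := by
    rw [hR, classR, Subgroup.closure_le]
    rintro _ ⟨v, t, ht, hv, rfl⟩
    rw [SetLike.mem_coe, MonoidHom.mem_ker]
    have hv0 : Q v ≠ 0 := by
      rw [hv]
      exact mul_ne_zero hc (pow_ne_zero _ ht)
    apply Units.ext
    rw [hε v hv0, (char_iff h2 hc hv0).1 ⟨t, ht, hv⟩, hcc]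
    rfl
  have hge : ε.ker ≤ R := by
    intro g hg
    rcases key g with h6 | h6
    · exact h6
    · exfalso
      have := hle h6
      rw [MonoidHom.mem_ker, map_mul, hεs, MonoidHom.mem_ker.1 hg] at this
      exact absurd this (by decide)
  rw [le_antisymm hle hge]
  exact index_ker_units ε hεs


theorem reflectionSubgroup_eq' {Q : QuadraticForm (ZMod 3) (ι → ZMod 3)}
    (hQ : IsNondegenerateQuadraticForm (⇑Q)) {c : ZMod 3} (hc : c ≠ 0) :
    reflectionSubgroup (⇑Q) c = classR hQ c := by
  apply le_antisymm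
  · rw [reflectionSubgroup, Subgroup.closure_le]
    rintro g ⟨v, hv, hg⟩
    have hv0 : Q v ≠ 0 := by rw [hv]; exact hc
    have h1 : g = rfO hQ v := by
      apply Subtype.ext
      apply Units.ext
      rw [hg, rfO_coe, rf_val hQ hv0]
    rw [h1]
    exact rfO_mem_classR hQ (t := 1) one_ne_zero (by rw [hv]; simp)
  · rw [classR, Subgroup.closure_le]
    rintro g ⟨v, t, ht, hv, rfl⟩
    have h1 : ∀ t : ZMod 3, t ≠ 0 → t ^ 2 = 1 := by decide
    have hv1 : Q v = c := by rw [hv, h1 t ht, mul_one]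
    have hv0 : Q v ≠ 0 := by rw [hv1]; exact hc
    exact Subgroup.subset_closure ⟨v, hv1, by rw [rfO_coe, rf_val hQ hv0]⟩

end Three

end Cfsg.Agent.Lib.ReflF3
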