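/-
Reflections over the field with three elements: 3-transpositions.
-/
import Mathlib
import Cfsg.Agent.Lib.ReflF3

set_option autoImplicit false
set_option linter.all false

open scoped MatrixGroups Matrix commutatorElement
open Cfsg Cfsg.Geo Finset
open Cfsg.Agent.Lib.Transvection Cfsg.Agent.Lib.LinAlgAux Cfsg.Agent.Lib.QuadBase
open Cfsg.Agent.Lib.QuadSiegel Cfsg.Agent.Lib.QuadRefl Cfsg.Agent.Lib.Spinor Cfsg.Agent.Lib.ReflClass
open Cfsg.Agent.Lib.ReflF3
open QuadraticMap (polar)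

namespace Cfsg.Agent.Lib.ReflF3b

section Three

variable {ι : Type} [Fintype ι] [DecidableEq ι] {Q : (ι → ZMod 3) → ZMod 3}
  (hQ : IsNondegenerateQuadraticForm Q)

theorem rf_ne_one {v : ι → ZMod 3} (hv : Q v ≠ 0) : rf hQ v ≠ 1 := by
  intro h
  have h1 := rf_mulVec hQ hv v
  rw [h, pol_self hQ] at h1
  simp only [Units.val_one, Matrix.one_mulVec] at h1
  have h2 : 2 * Q v / Q v = 2 := by field_simp
  rw [h2] at h1
  have h3 : (2 : ZMod 3) • v = 0 := sub_eq_self.1 h1.symm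
  have h4 : v = 0 := by
    rcases smul_eq_zero.1 h3 with h5 | h5
    · exact absurd h5 (by decide)
    · exact h5
  exact hv (by rw [h4, Q_zero hQ])

theorem rfO_conj_eq (u v : ι → ZMod 3) :
    rfO hQ u * rfO hQ v * (rfO hQ u)⁻¹ = rfO hQ (((rf hQ u : GL ι (ZMod 3)) : Matrix ι ι (ZMod 3)) *ᵥ v) :=
  Subtype.ext (conj_rf hQ (rf_isom hQ u) v)

theorem rfO_inv (u : ι → ZMod 3) : (rfO hQ u)⁻¹ = rfO hQ u :=
  inv_eq_of_mul_eq_one_left (rfO_mul_self hQ u)

theorem rfO_neg (u : ι → ZMod 3) : rfO hQ (-u) = rfO hQ u := Subtype.ext (rf_neg hQ u)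

theorem rfO_smul {a : ι → ZMod 3} {t : ZMod 3} (ht : t ≠ 0) (ha : Q a ≠ 0) :
    rfO hQ (t • a) = rfO hQ a := Subtype.ext (rf_smul hQ ht ha)

theorem rfO_three {u v : ι → ZMod 3} {c : ZMod 3} (hc : c ≠ 0) (hu : Q u = c) (hv : Q v = c) :
    (rfO hQ u * rfO hQ v) ^ 2 = 1 ∨ (rfO hQ u * rfO hQ v) ^ 3 = 1 := by
  have hu0 : Q u ≠ 0 := by rw [hu]; exact hc
  have hv0 : Q v ≠ 0 := by rw [hv]; exact hc
  have hdd := rfO_mul_self hQ u
  have hee := rfO_mul_self hQ v
  have c1 := rfO_conj_eq hQ u v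
  have c2 := rfO_conj_eq hQ v u
  rw [rfO_inv] at c1 c2
  rw [rf_mulVec hQ hu0, hu] at c1
  rw [rf_mulVec hQ hv0, hv] at c2
  generalize hd : rfO hQ u = d at *
  generalize he : rfO hQ v = e at *
  by_cases hb : polar Q v u = 0
  · left
    rw [hb, zero_div, zero_smul, sub_zero, he] at c1
    calc (d * e) ^ 2 = (d * e * d) * e := by rw [pow_two]; simp only [mul_assoc]
      _ = 1 := by rw [c1, hee]
  · right
    have hb' : polar Q u v = polar Q v u := QuadraticMap.polar_comm _ _ _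
    rw [hb'] at c2
    set s := polar Q v u / c with hs
    have hs0 : s ≠ 0 := div_ne_zero hb hc
    have hs2 : s * s = 1 := by
      have : ∀ t : ZMod 3, t ≠ 0 → t * t = 1 := by decide
      exact this s hs0
    have e1 : u - s • v = (-s) • (v - s • u) := by
      funext j
      simp only [Pi.sub_apply, Pi.smul_apply, smul_eq_mul]
      linear_combination (-u j) * hs2
    have hQw : Q (v - s • u) ≠ 0 := by
      intro h0
      -- the image of `v` under the reflection in `u`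
      have h1 := rf_isom hQ u v
      rw [rf_mulVec hQ hu0, hu, ← hs, h0, hv] at h1
      exact hc h1.symm
    rw [e1, rfO_smul hQ (neg_ne_zero.2 hs0) hQw, ← c1] at c2
    calc (d * e) ^ 3 = (d * e * d) * (e * d * e) := by
          rw [pow_succ, pow_two]; simp only [mul_assoc]
      _ = (d * e * d) * (d * e * d) := by rw [c2]
      _ = 1 := by
          calc (d * e * d) * (d * e * d) = d * e * (d * d) * e * d := by simp only [mul_assoc]
            _ = d * (e * e) * d := by rw [hdd, mul_one]; simp only [mul_assoc]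
            _ = 1 := by rw [hee, mul_one, hdd]

theorem conj_step {u v : ι → ZMod 3} {c : ZMod 3} (hc : c ≠ 0) (hu : Q u = c) (hv : Q v = c)
    (hb : polar Q u v ≠ 0) :
    ∃ w, Q w = c ∧ rfO hQ w * rfO hQ u * (rfO hQ w)⁻¹ = rfO hQ v := by
  have h3 : (3 : ZMod 3) = 0 := by decide
  rcases zmod3_cases c _ hc hb with h | h
  · have hw : Q (u - v) = c := by
      rw [Q_sub hQ, hu, hv, h]
      ring
    refine ⟨u - v, hw, ?_⟩
    rw [rfO_conj_eq, rf_mulVec hQ (by rw [hw]; exact hc), hw]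
    have h1 : polar Q u (u - v) = c := by
      rw [pol_sub_right hQ, pol_self hQ, hu, h]
      ring
    rw [h1, div_self hc, one_smul]
    congr 1
    abel
  · have hw : Q (u + v) = c := by
      rw [Q_add (Q := Q), hu, hv, h]
      ring
    refine ⟨u + v, hw, ?_⟩
    rw [rfO_conj_eq, rf_mulVec hQ (by rw [hw]; exact hc), hw]
    have h1 : polar Q u (u + v) = c := by
      rw [pol_add_right hQ, pol_self hQ, hu, h]
      ring
    rw [h1, div_self hc, one_smul]
    have e : u - (u + v) = -v := by abel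
    rw [e, rfO_neg]

theorem conj_all (hn : 5 ≤ Fintype.card ι) {u v : ι → ZMod 3} {c : ZMod 3} (hc : c ≠ 0)
    (hu : Q u = c) (hv : Q v = c) (S : Subgroup (isometryGroup (ZMod 3) Q))
    (hS : ∀ w, Q w = c → rfO hQ w ∈ S) :
    ∃ h ∈ S, h * rfO hQ u * h⁻¹ = rfO hQ v := by
  have h3 : (3 : ZMod 3) = 0 := by decide
  have h2 : (2 : ZMod 3) * c ≠ 0 := mul_ne_zero (by decide) hc
  by_cases hb : polar Q u v = 0
  · obtain ⟨z, hz, hz1, hz2⟩ := exists_norm_perp hQ hn hc hu hv (neg_ne_zero.2 hc)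
    set t := u + v + z with ht
    have hQt : Q t = c := by
      rw [ht, Q_add (Q := Q), Q_add (Q := Q), hu, hv, hz, hb, pol_add_left hQ, hz1, hz2]
      ring
    have h4 : polar Q u t ≠ 0 := by
      rw [ht, pol_add_right hQ, pol_add_right hQ, pol_self hQ, hb, hz1, hu]
      simpa using h2
    have h5 : polar Q t v ≠ 0 := by
      rw [ht, pol_add_left hQ, pol_add_left hQ, pol_self hQ, hb, QuadraticMap.polar_comm Q z v, hz2, hv]
      simpa using h2
    obtain ⟨w₁, hw₁, e1⟩ := conj_step hQ hc hu hQt h4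
    obtain ⟨w₂, hw₂, e2⟩ := conj_step hQ hc hQt hv h5
    refine ⟨rfO hQ w₂ * rfO hQ w₁, S.mul_mem (hS _ hw₂) (hS _ hw₁), ?_⟩
    rw [← e2, ← e1]
    group
  · obtain ⟨w, hw, e⟩ := conj_step hQ hc hu hv hb
    exact ⟨rfO hQ w, hS _ hw, e⟩

end Three

section Main

variable {ι : Type} [Fintype ι] [DecidableEq ι] {Q : QuadraticForm (ZMod 3) (ι → ZMod 3)}
  (hQ : IsNondegenerateQuadraticForm (⇑Q))

include hQ in
theorem mem_refl_iff {c : ZMod 3} (hc : c ≠ 0) (x : isometryGroup (ZMod 3) (⇑Q)) :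
    x ∈ reflectionsOfNorm (⇑Q) c ↔ ∃ v, Q v = c ∧ x = rfO hQ v := by
  constructor
  · rintro ⟨v, hv, hx⟩
    have hv0 : Q v ≠ 0 := by rw [hv]; exact hc
    exact ⟨v, hv, Subtype.ext (Units.ext (by rw [hx, rfO_coe, rf_val hQ hv0]))⟩
  · rintro ⟨v, hv, rfl⟩
    have hv0 : Q v ≠ 0 := by rw [hv]; exact hc
    exact ⟨v, hv, by rw [rfO_coe, rf_val hQ hv0]⟩

include hQ in
theorem three_transposition_class (hn : 5 ≤ Fintype.card ι) {c : ZMod 3} (hc : c ≠ 0) :
    IsThreeTranspositionClass {g : ↥(reflectionSubgroup (⇑Q) c) |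
      (g : ↥(isometryGroup (ZMod 3) (⇑Q))) ∈ reflectionsOfNorm (⇑Q) c} := by
  classical
  have h2 : (2 : ZMod 3) ≠ 0 := by decide
  have hmem : ∀ v, Q v = c → rfO hQ v ∈ reflectionSubgroup (⇑Q) c := fun v hv =>
    Subgroup.subset_closure ((mem_refl_iff hQ hc _).2 ⟨v, hv, rfl⟩)
  obtain ⟨a₀, b₀, h3, h4, h5⟩ := exists_orth hQ h2 (by omega : 2 ≤ Fintype.card ι)
  obtain ⟨v₀, hv₀, -, -⟩ := exists_norm_perp hQ hn h3 rfl rfl hc
  refine ⟨⟨?_, ?_⟩, ?_, ?_⟩
  · rintro ⟨d, hd⟩ hd'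
    obtain ⟨v, hv, rfl⟩ := (mem_refl_iff hQ hc _).1 hd'
    have hv0 : Q v ≠ 0 := by rw [hv]; exact hc
    haveI : Fact (Nat.Prime 2) := ⟨Nat.prime_two⟩
    refine orderOf_eq_prime ?_ ?_
    · apply Subtype.ext
      show rfO hQ v ^ 2 = 1
      rw [pow_two, rfO_mul_self]
    · intro h0
      have h1 := congrArg (fun x : ↥(reflectionSubgroup (⇑Q) c) =>
        ((x : ↥(isometryGroup (ZMod 3) (⇑Q))) : GL ι (ZMod 3))) h0
      exact rf_ne_one hQ hv0 h1
  · rintro ⟨d, hd⟩ hd' ⟨e, he⟩ he'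
    obtain ⟨u, hu, rfl⟩ := (mem_refl_iff hQ hc _).1 hd'
    obtain ⟨v, hv, rfl⟩ := (mem_refl_iff hQ hc _).1 he'
    rcases rfO_three hQ hc hu hv with h | h
    · left
      apply Subtype.ext
      exact h
    · right
      apply Subtype.ext
      exact h
  · refine ⟨⟨rfO hQ v₀, hmem v₀ hv₀⟩, (mem_refl_iff hQ hc _).2 ⟨v₀, hv₀, rfl⟩, ?_⟩
    ext g
    obtain ⟨g, hg⟩ := g
    constructor
    · intro hg'
      obtain ⟨v, hv, rfl⟩ := (mem_refl_iff hQ hc _).1 hg'
      obtain ⟨h, hh, e⟩ := conj_all hQ hn hc hv₀ hv _ hmem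
      show IsConj _ _
      rw [isConj_iff]
      exact ⟨⟨h, hh⟩, Subtype.ext e⟩
    · intro hg'
      have hg'' : IsConj (⟨rfO hQ v₀, hmem v₀ hv₀⟩ : ↥(reflectionSubgroup (⇑Q) c)) ⟨g, hg⟩ := hg'
      rw [isConj_iff] at hg''
      obtain ⟨⟨h, hh⟩, e⟩ := hg''
      have e' : h * rfO hQ v₀ * h⁻¹ = g := congrArg Subtype.val e
      have hiso := mem_isometryGroup_iff.1 h.2
      show g ∈ reflectionsOfNorm (⇑Q) c
      rw [mem_refl_iff hQ hc]
      refine ⟨((h : GL ι (ZMod 3)) : Matrix ι ι (ZMod 3)) *ᵥ v₀, by rw [hiso, hv₀], ?_⟩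
      rw [← e']
      exact Subtype.ext (conj_rf hQ hiso v₀)
  · exact Subgroup.closure_closure_coe_preimage

end Main

end Cfsg.Agent.Lib.ReflF3b
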