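import Mathlib
import Cfsg.Agent.Lib.H6PGroup

set_option autoImplicit false
set_option linter.all false

namespace Cfsg.Agent.Lib.RegLin

variable {p : ℕ} [Fact p.Prime] {V : Type*} [AddCommGroup V] [Module (ZMod p) V] [Finite V]

/-- A commutative group acting freely on the non-zero vectors of an irreducible module is cyclic. -/
theorem cyclic_of_min {A : Type*} [Group A] [Finite A] (ρ : A →* (V ≃ₗ[ZMod p] V))
    (hcomm : ∀ a b : A, ρ a * ρ b = ρ b * ρ a) (hfree : ∀ (a : A) (v : V), v ≠ 0 → ρ a v = v → a = 1)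
    (W : Submodule (ZMod p) V) (hW : W ≠ ⊥) (hinv : ∀ (a : A), ∀ v ∈ W, ρ a v ∈ W)
    (hmin : ∀ W' : Submodule (ZMod p) V, W' ≤ W → (∀ (a : A), ∀ v ∈ W', ρ a v ∈ W') → W' = ⊥ ∨ W' = W) :
    IsCyclic A := by
  classical
  let r : A → Module.End (ZMod p) W := fun a => ((ρ a : V ≃ₗ[ZMod p] V) : V →ₗ[ZMod p] V).restrict (hinv a)
  have hr : ∀ (a : A) (w : W), ((r a w : W) : V) = ρ a w.1 := fun a w => rfl
  have hrmul : ∀ a b : A, r (a * b) = r a * r b := by
    intro a b
    apply LinearMap.ext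
    intro w
    apply Subtype.ext
    show ρ (a * b) w.1 = ρ a (ρ b w.1)
    rw [map_mul]
    rfl
  have hrone : r 1 = 1 := by
    apply LinearMap.ext
    intro w
    apply Subtype.ext
    show ρ 1 w.1 = w.1
    rw [map_one]
    rfl
  have hrcomm : ∀ a b : A, r a * r b = r b * r a := by
    intro a b
    rw [← hrmul, ← hrmul]
    apply LinearMap.ext
    intro w
    apply Subtype.ext
    show ρ (a * b) w.1 = ρ (b * a) w.1
    rw [map_mul, map_mul, hcomm]
  obtain ⟨s, hs⟩ : ∃ s : Set (Module.End (ZMod p) W), s = Set.range r := ⟨_, rfl⟩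
  have hsc : ∀ x ∈ s, ∀ y ∈ s, x * y = y * x := by
    rw [hs]
    rintro _ ⟨a, rfl⟩ _ ⟨b, rfl⟩
    exact hrcomm a b
  letI hcr : CommRing (Algebra.adjoin (ZMod p) s) := Algebra.adjoinCommRingOfComm (ZMod p) hsc
  have hcent : ∀ e ∈ Algebra.adjoin (ZMod p) s, ∀ a : A, r a * e = e * r a := by
    intro e he a
    have hle : Algebra.adjoin (ZMod p) s ≤ Subalgebra.centralizer (ZMod p) s := by
      apply Algebra.adjoin_le
      intro x hx
      rw [SetLike.mem_coe, Subalgebra.mem_centralizer_iff]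
      intro g hg
      exact hsc g hg x hx
    have h1 := hle he
    rw [Subalgebra.mem_centralizer_iff] at h1
    exact h1 (r a) (by rw [hs]; exact ⟨a, rfl⟩)
  have hinj0 : ∀ e ∈ Algebra.adjoin (ZMod p) s, e = 0 ∨ Function.Injective e := by
    intro e he
    have hW' := hmin ((LinearMap.ker e).map W.subtype) (by
      intro v hv
      obtain ⟨k, -, rfl⟩ := hv
      exact k.2) (by
      rintro a v ⟨k, hk, rfl⟩
      refine ⟨r a k, ?_, rfl⟩
      rw [SetLike.mem_coe, LinearMap.mem_ker] at hk ⊢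
      have h1 := hcent e he a
      have h2 : e (r a k) = r a (e k) := by
        have h3 := congrArg (fun f : Module.End (ZMod p) W => f k) h1
        exact h3.symm
      rw [h2, hk, map_zero])
    rcases hW' with h1 | h1
    · right
      have h2 : LinearMap.ker e = ⊥ := by
        rw [eq_bot_iff]
        intro k hk
        have h3 : (k : V) ∈ (LinearMap.ker e).map W.subtype := ⟨k, hk, rfl⟩
        rw [h1] at h3
        exact (Submodule.mem_bot _).2 (Subtype.ext ((Submodule.mem_bot _).1 h3))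
      exact LinearMap.ker_eq_bot.1 h2
    · left
      apply LinearMap.ext
      intro w
      have hw : (w : V) ∈ (LinearMap.ker e).map W.subtype := by
        rw [h1]
        exact w.2
      obtain ⟨k, hk, hkw⟩ := hw
      have hkw' : k = w := Subtype.ext hkw
      rw [← hkw']
      exact hk
  obtain ⟨w₀, hw₀, hw₀1⟩ := Submodule.exists_mem_ne_zero_of_ne_bot hW
  haveI hnt : Nontrivial (Algebra.adjoin (ZMod p) s) := by
    refine ⟨⟨0, 1, ?_⟩⟩
    intro e
    have h1 : ((0 : Algebra.adjoin (ZMod p) s) : Module.End (ZMod p) W) = ((1 : Algebra.adjoin (ZMod p) s) : Module.End (ZMod p) W) :=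
      congrArg Subtype.val e
    have h2 := congrArg (fun f : Module.End (ZMod p) W => ((f ⟨w₀, hw₀⟩ : W) : V)) h1
    exact hw₀1 h2.symm
  haveI hnz : NoZeroDivisors (Algebra.adjoin (ZMod p) s) := by
    constructor
    intro x y hxy
    by_contra hc
    simp only [not_or] at hc
    have hx : x.1 ≠ 0 := fun e => hc.1 (Subtype.ext e)
    have hy : y.1 ≠ 0 := fun e => hc.2 (Subtype.ext e)
    have hxi := (hinj0 x.1 x.2).resolve_left hx
    have hyi := (hinj0 y.1 y.2).resolve_left hy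
    have h1 : x.1 * y.1 = 0 := congrArg Subtype.val hxy
    have h2 : y.1 ⟨w₀, hw₀⟩ = 0 := by
      apply hxi
      have h3 := congrArg (fun f : Module.End (ZMod p) W => f ⟨w₀, hw₀⟩) h1
      rw [map_zero]
      exact h3
    have h3 := hyi (h2.trans (map_zero y.1).symm)
    exact hw₀1 (congrArg Subtype.val h3)
  haveI hdom : IsDomain (Algebra.adjoin (ZMod p) s) := NoZeroDivisors.to_isDomain _
  let φ : A →* Algebra.adjoin (ZMod p) s :=
    { toFun := fun a => ⟨r a, Algebra.subset_adjoin (by rw [hs]; exact ⟨a, rfl⟩)⟩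
      map_one' := Subtype.ext hrone
      map_mul' := fun a b => Subtype.ext (hrmul a b) }
  apply isCyclic_of_injective_ringHom φ
  intro a b hab
  have h1 : r a = r b := congrArg Subtype.val hab
  have h2 := congrArg (fun f : Module.End (ZMod p) W => ((f ⟨w₀, hw₀⟩ : W) : V)) h1
  have h3 : ρ a w₀ = ρ b w₀ := h2
  have h4 : ρ (b⁻¹ * a) w₀ = w₀ := by
    rw [map_mul, map_inv]
    show (ρ b)⁻¹ (ρ a w₀) = w₀
    rw [h3]
    show (ρ b)⁻¹ (ρ b w₀) = w₀
    rw [← LinearEquiv.mul_apply, inv_mul_cancel]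
    rfl
  have h5 := hfree _ _ hw₀1 h4
  exact (inv_mul_eq_one.1 h5).symm

/-- Minimal invariant subspaces exist. -/
theorem exists_min {A : Type*} (ρ : A → (V ≃ₗ[ZMod p] V)) (W₀ : Submodule (ZMod p) V) (hW₀ : W₀ ≠ ⊥)
    (hinv : ∀ (a : A), ∀ v ∈ W₀, ρ a v ∈ W₀) :
    ∃ W : Submodule (ZMod p) V, W ≤ W₀ ∧ W ≠ ⊥ ∧ (∀ (a : A), ∀ v ∈ W, ρ a v ∈ W) ∧
      ∀ W' : Submodule (ZMod p) V, W' ≤ W → (∀ (a : A), ∀ v ∈ W', ρ a v ∈ W') → W' = ⊥ ∨ W' = W := by
  classical
  haveI : Finite (Submodule (ZMod p) V) := Finite.of_injective (fun W : Submodule (ZMod p) V => (W : Set V)) SetLike.coe_injective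
  have hwf : WellFounded ((· < ·) : Submodule (ZMod p) V → Submodule (ZMod p) V → Prop) := Finite.wellFounded_of_trans_of_irrefl _
  obtain ⟨W, ⟨h1, h2, h3⟩, hW⟩ := hwf.has_min {W : Submodule (ZMod p) V | W ≤ W₀ ∧ W ≠ ⊥ ∧ ∀ (a : A), ∀ v ∈ W, ρ a v ∈ W} ⟨W₀, le_refl _, hW₀, hinv⟩
  refine ⟨W, h1, h2, h3, ?_⟩
  intro W' h4 h5
  by_contra hc
  simp only [not_or] at hc
  exact hW W' ⟨h4.trans h1, hc.1, h5⟩ (lt_of_le_of_ne h4 hc.2)

/-- The order of a group acting freely on the non-zero vectors of an invariant subspace. -/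
theorem card_dvd {A : Type*} [Group A] [Finite A] (ρ : A →* (V ≃ₗ[ZMod p] V))
    (hfree : ∀ (a : A) (v : V), v ≠ 0 → ρ a v = v → a = 1)
    (W : Submodule (ZMod p) V) (hinv : ∀ (a : A), ∀ v ∈ W, ρ a v ∈ W) :
    Nat.card A ∣ p ^ Module.finrank (ZMod p) W - 1 := by
  classical
  letI : MulAction A {w : W // w ≠ 0} :=
    { smul := fun a w => ⟨⟨ρ a w.1.1, hinv a _ w.1.2⟩, fun e => w.2 (by
        apply Subtype.ext
        have h1 : ρ a w.1.1 = 0 := congrArg Subtype.val e
        exact (map_eq_zero_iff (ρ a) (ρ a).injective).1 h1)⟩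
      one_smul := fun w => by
        apply Subtype.ext
        apply Subtype.ext
        show ρ 1 w.1.1 = w.1.1
        rw [map_one]
        rfl
      mul_smul := fun a b w => by
        apply Subtype.ext
        apply Subtype.ext
        show ρ (a * b) w.1.1 = ρ a (ρ b w.1.1)
        rw [map_mul]
        rfl }
  have h1 := Cfsg.Agent.Lib.H6PGroup.card_dvd_card_of_free (A := A) (Y := {w : W // w ≠ 0}) (fun a y hy => by
    apply hfree a y.1.1 (fun e => y.2 (Subtype.ext e))
    have h2 := congrArg (fun z : {w : W // w ≠ 0} => (z.1 : V)) hy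
    exact h2)
  have h2 : Nat.card {w : W // w ≠ 0} = p ^ Module.finrank (ZMod p) W - 1 := by
    haveI : Fintype W := Fintype.ofFinite _
    have h3 : Nat.card W = p ^ Module.finrank (ZMod p) W := by
      rw [Module.natCard_eq_pow_finrank (K := ZMod p), Nat.card_zmod]
    rw [← h3, Nat.card_eq_fintype_card, Nat.card_eq_fintype_card, Fintype.card_subtype_compl]
    simp
  rwa [h2] at h1

end Cfsg.Agent.Lib.RegLin
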