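import Mathlib

/-! Regular nilpotent endomorphisms: kernels of powers form a chain of dimensions `0,1,…,n`. -/

set_option autoImplicit false

namespace Cfsg.Agent.Lib.RegUnipA

open Module

variable {F V : Type*} [Field F] [AddCommGroup V] [Module F V] [FiniteDimensional F V]

/-- `dim ker T^(k+1) ≤ dim ker T^k + dim ker T`. -/
theorem finrank_ker_pow_succ_le (T : V →ₗ[F] V) (k : ℕ) :
    finrank F (LinearMap.ker (T ^ (k + 1))) ≤ finrank F (LinearMap.ker (T ^ k)) + finrank F (LinearMap.ker T) := by
  set K := LinearMap.ker (T ^ (k + 1)) with hK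
  have hmaps : ∀ x ∈ K, (T ^ k) x ∈ LinearMap.ker T := by
    intro x hx
    rw [LinearMap.mem_ker] at hx ⊢
    rw [← Module.End.mul_apply, ← pow_succ']
    exact hx
  let f : K →ₗ[F] LinearMap.ker T := (T ^ k).restrict hmaps
  have h1 := LinearMap.finrank_range_add_finrank_ker f
  have h2 : finrank F (LinearMap.range f) ≤ finrank F (LinearMap.ker T) :=
    Submodule.finrank_le _
  have h3 : finrank F (LinearMap.ker f) ≤ finrank F (LinearMap.ker (T ^ k)) := by
    have hinj : Function.Injective (fun x : LinearMap.ker f => (⟨((x : K) : V), by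
        have hx : f (x : K) = 0 := x.2
        have := congrArg Subtype.val hx
        rw [LinearMap.mem_ker]
        exact this⟩ : LinearMap.ker (T ^ k))) := by
      intro a b hab
      apply Subtype.ext
      apply Subtype.ext
      exact congrArg (fun y : LinearMap.ker (T ^ k) => (y : V)) hab
    let g : LinearMap.ker f →ₗ[F] LinearMap.ker (T ^ k) :=
      { toFun := fun x => ⟨((x : K) : V), by
          have hx : f (x : K) = 0 := x.2
          have := congrArg Subtype.val hx
          rw [LinearMap.mem_ker]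
          exact this⟩
        map_add' := fun _ _ => rfl
        map_smul' := fun _ _ => rfl }
    exact LinearMap.finrank_le_finrank_of_injective (f := g) hinj
  omega

/-- Upper bound. -/
theorem finrank_ker_pow_le (T : V →ₗ[F] V) (k : ℕ) :
    finrank F (LinearMap.ker (T ^ k)) ≤ k * finrank F (LinearMap.ker T) := by
  induction k with
  | zero =>
    have : LinearMap.ker (T ^ 0) = ⊥ := by
      rw [pow_zero]; exact LinearMap.ker_id
    rw [this]; simp
  | succ k ih =>
    have := finrank_ker_pow_succ_le T k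
    rw [Nat.succ_mul]
    omega

/-- The dimension of the kernel of `T ^ k` for regular nilpotent `T`. -/
theorem finrank_ker_pow (T : V →ₗ[F] V) {n : ℕ} (hn : finrank F V = n) (hT : T ^ n = 0)
    (hk1 : finrank F (LinearMap.ker T) ≤ 1) {k : ℕ} (hk : k ≤ n) :
    finrank F (LinearMap.ker (T ^ k)) = k := by
  have hup : ∀ j, finrank F (LinearMap.ker (T ^ j)) ≤ j := fun j => by
    have := finrank_ker_pow_le T j
    nlinarith
  have hinc : ∀ j i, finrank F (LinearMap.ker (T ^ (i + j))) ≤ finrank F (LinearMap.ker (T ^ i)) + j := by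
    intro j
    induction j with
    | zero => intro i; simp
    | succ j ih =>
      intro i
      have h1 := finrank_ker_pow_succ_le T (i + j)
      have h2 := ih i
      rw [← add_assoc]
      omega
  have htop : finrank F (LinearMap.ker (T ^ n)) = n := by
    rw [hT, LinearMap.ker_zero, finrank_top, hn]
  have := hinc (n - k) k
  rw [Nat.add_sub_cancel' hk, htop] at this
  have := hup k
  omega

/-- A `T`-invariant subspace is the kernel of the right power. -/
theorem invariant_eq_ker (T : V →ₗ[F] V) {n : ℕ} (hn : finrank F V = n) (hT : T ^ n = 0)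
    (hk1 : finrank F (LinearMap.ker T) ≤ 1) (W : Submodule F V) (hW : ∀ v ∈ W, T v ∈ W) :
    W = LinearMap.ker (T ^ finrank F W) := by
  have hd : finrank F W ≤ n := by rw [← hn]; exact Submodule.finrank_le W
  have hle : W ≤ LinearMap.ker (T ^ finrank F W) := by
    let f : End F W := T.restrict hW
    have hfpow : ∀ j (x : W), ((f ^ j) x : V) = (T ^ j) x := by
      intro j
      induction j with
      | zero => intro x; simp
      | succ j ih =>
        intro x
        rw [pow_succ', pow_succ', Module.End.mul_apply, Module.End.mul_apply]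
        have h := ih x
        rw [← h]
        rfl
    have hfn : f ^ n = 0 := by
      ext x
      rw [hfpow, hT]
      simp
    have hker : LinearMap.ker (f ^ n) ≤ LinearMap.ker (f ^ finrank F W) :=
      Module.End.ker_pow_le_ker_pow_finrank f n
    intro x hx
    have hx' : (⟨x, hx⟩ : W) ∈ LinearMap.ker (f ^ n) := by
      rw [hfn]; simp
    have := hker hx'
    rw [LinearMap.mem_ker] at this ⊢
    have h := congrArg Subtype.val this
    rw [hfpow] at h
    simpa using h
  apply Submodule.eq_of_le_of_finrank_eq hle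
  rw [finrank_ker_pow T hn hT hk1 hd]

/-- Linear independence of the iterates of a vector. -/
theorem linearIndependent_iterates (T : V →ₗ[F] V) {n : ℕ} (hT : T ^ n = 0) (w : V)
    (hw : (T ^ (n - 1)) w ≠ 0) :
    LinearIndependent F (fun i : Fin n => (T ^ (i : ℕ)) w) := by
  classical
  rw [Fintype.linearIndependent_iff]
  intro c hc
  by_contra hne
  push Not at hne
  -- the smallest index with non-zero coefficient
  have hex : ∃ j : ℕ, ∃ hj : j < n, c ⟨j, hj⟩ ≠ 0 := by
    obtain ⟨i, hi⟩ := hne
    exact ⟨i, i.2, hi⟩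
  classical
  let j := Nat.find hex
  obtain ⟨hj, hcj⟩ := Nat.find_spec hex
  have hmin : ∀ i (hi : i < n), i < Nat.find hex → c ⟨i, hi⟩ = 0 := by
    intro i hi hlt
    by_contra hh
    exact Nat.find_min hex hlt ⟨hi, hh⟩
  have h := congrArg (T ^ (n - 1 - Nat.find hex)) hc
  rw [map_sum, map_zero, Finset.sum_eq_single ⟨Nat.find hex, hj⟩] at h
  · rw [map_smul, ← Module.End.mul_apply, ← pow_add] at h
    have : n - 1 - Nat.find hex + Nat.find hex = n - 1 := by omega
    simp only [this] at h
    rcases smul_eq_zero.mp h with h | h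
    · exact hcj h
    · exact hw h
  · intro b _ hb
    rw [map_smul, ← Module.End.mul_apply, ← pow_add]
    rcases lt_or_gt_of_ne (fun hh : (b : ℕ) = Nat.find hex => hb (Fin.ext hh)) with hlt | hgt
    · rw [hmin b b.2 hlt, zero_smul]
    · have : n - 1 - Nat.find hex + (b : ℕ) = n + ((b : ℕ) - Nat.find hex - 1) := by
        have := b.2
        omega
      rw [this, pow_add, hT]
      simp
  · intro h'
    exact absurd (Finset.mem_univ _) h'

end Cfsg.Agent.Lib.RegUnipA

namespace Cfsg.Agent.Lib.RegUnipA

open Module Matrix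

variable {F : Type*} [Field F] {n : ℕ} {ι : Type*} [Fintype ι] [DecidableEq ι]

theorem mulVecLin_pow (A : Matrix ι ι F) (k : ℕ) :
    (A ^ k).mulVecLin = A.mulVecLin ^ k := by
  induction k with
  | zero =>
    rw [pow_zero, pow_zero, Matrix.mulVecLin_one]; rfl
  | succ k ih =>
    rw [pow_succ, pow_succ, Matrix.mulVecLin_mul, ih]; rfl

theorem finrank_ker_le_one (N : Matrix ι ι F) (hc : Fintype.card ι = n) (hreg : N.rank = n - 1) :
    finrank F (LinearMap.ker N.mulVecLin) ≤ 1 := by
  have h1 := LinearMap.finrank_range_add_finrank_ker N.mulVecLin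
  rw [Module.finrank_fintype_fun_eq_card, hc] at h1
  have h2 : finrank F (LinearMap.range N.mulVecLin) = n - 1 := hreg
  omega

theorem mulVecLin_pow_eq_zero (N : Matrix ι ι F) (hnil : N ^ n = 0) :
    N.mulVecLin ^ n = 0 := by
  rw [← mulVecLin_pow, hnil]
  ext; simp

/-- The kernel dimensions of a regular nilpotent matrix. -/
theorem finrank_ker_mat_pow (N : Matrix ι ι F) (hc : Fintype.card ι = n) (hnil : N ^ n = 0) (hreg : N.rank = n - 1)
    {k : ℕ} (hk : k ≤ n) : finrank F (LinearMap.ker (N ^ k).mulVecLin) = k := by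
  rw [mulVecLin_pow]
  exact finrank_ker_pow _ (by rw [Module.finrank_fintype_fun_eq_card, hc]) (mulVecLin_pow_eq_zero N hnil) (finrank_ker_le_one N hc hreg) hk

/-- The range of `N ^ k` is the kernel of `N ^ (n - k)`. -/
theorem range_eq_ker (N : Matrix ι ι F) (hc : Fintype.card ι = n) (hnil : N ^ n = 0) (hreg : N.rank = n - 1)
    {k : ℕ} (hk : k ≤ n) : LinearMap.range (N ^ k).mulVecLin = LinearMap.ker (N ^ (n - k)).mulVecLin := by
  have hle : LinearMap.range (N ^ k).mulVecLin ≤ LinearMap.ker (N ^ (n - k)).mulVecLin := by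
    rintro _ ⟨x, rfl⟩
    rw [LinearMap.mem_ker]
    simp only [Matrix.mulVecLin_apply, Matrix.mulVec_mulVec]
    rw [← pow_add, Nat.sub_add_cancel hk, hnil]
    simp
  apply Submodule.eq_of_le_of_finrank_eq hle
  have h1 := LinearMap.finrank_range_add_finrank_ker (N ^ k).mulVecLin
  rw [Module.finrank_fintype_fun_eq_card, hc, finrank_ker_mat_pow N hc hnil hreg hk] at h1
  rw [finrank_ker_mat_pow N hc hnil hreg (Nat.sub_le n k)]
  omega

end Cfsg.Agent.Lib.RegUnipA

namespace Cfsg.Agent.Lib.RegUnipA

open Module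

variable {F V : Type*} [Field F] [AddCommGroup V] [Module F V] [FiniteDimensional F V]

/-- The basis of iterates. -/
noncomputable def iterBasis (T : V →ₗ[F] V) {n : ℕ} (hn : finrank F V = n) (hT : T ^ n = 0) (w : V)
    (hw : (T ^ (n - 1)) w ≠ 0) : Module.Basis (Fin n) F V :=
  haveI : Nonempty (Fin n) := by
    rcases n with _ | n
    · exfalso; apply hw; simp only [Nat.zero_sub]; rw [hT]; rfl
    · exact ⟨0⟩
  basisOfLinearIndependentOfCardEqFinrank (linearIndependent_iterates T hT w hw) (by simp [hn])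

theorem iterBasis_apply (T : V →ₗ[F] V) {n : ℕ} (hn : finrank F V = n) (hT : T ^ n = 0) (w : V)
    (hw : (T ^ (n - 1)) w ≠ 0) (i : Fin n) : iterBasis T hn hT w hw i = (T ^ (i : ℕ)) w := by
  unfold iterBasis
  simp

theorem comm_pow (T A : V →ₗ[F] V) (hA : ∀ x, A (T x) = T (A x)) (i : ℕ) (x : V) :
    A ((T ^ i) x) = (T ^ i) (A x) := by
  induction i with
  | zero => simp
  | succ i ih =>
    rw [pow_succ', Module.End.mul_apply, Module.End.mul_apply, hA, ih]

theorem comm_ext (T : V →ₗ[F] V) {n : ℕ} (hn : finrank F V = n) (hT : T ^ n = 0) (v : V)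
    (hv : (T ^ (n - 1)) v ≠ 0) (A B : V →ₗ[F] V) (hA : ∀ x, A (T x) = T (A x))
    (hB : ∀ x, B (T x) = T (B x)) (hAB : A v = B v) : A = B := by
  apply (iterBasis T hn hT v hv).ext
  intro i
  rw [iterBasis_apply, comm_pow T A hA, comm_pow T B hB, hAB]

theorem exists_comm_equiv (T : V →ₗ[F] V) {n : ℕ} (hn : finrank F V = n) (hn1 : 1 ≤ n) (hT : T ^ n = 0) (v w : V)
    (hv : (T ^ (n - 1)) v ≠ 0) (hw : (T ^ (n - 1)) w ≠ 0) :
    ∃ e : V ≃ₗ[F] V, e v = w ∧ ∀ x, e (T x) = T (e x) := by
  let bv := iterBasis T hn hT v hv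
  let bw := iterBasis T hn hT w hw
  let e : V ≃ₗ[F] V := bv.equiv bw (Equiv.refl _)
  have he : ∀ i : Fin n, e ((T ^ (i : ℕ)) v) = (T ^ (i : ℕ)) w := by
    intro i
    have h1 := bv.equiv_apply i bw (Equiv.refl _)
    have h2 : bv i = (T ^ (i : ℕ)) v := iterBasis_apply T hn hT v hv i
    have h3 : bw i = (T ^ (i : ℕ)) w := iterBasis_apply T hn hT w hw i
    rw [Equiv.refl_apply, h2, h3] at h1
    exact h1
  refine ⟨e, ?_, ?_⟩
  · have := he ⟨0, by omega⟩
    simpa using this
  · have hlin : e.toLinearMap ∘ₗ T = T ∘ₗ e.toLinearMap := by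
      apply bv.ext
      intro i
      have h2 : bv i = (T ^ (i : ℕ)) v := iterBasis_apply T hn hT v hv i
      rw [h2]
      simp only [LinearMap.comp_apply, LinearEquiv.coe_coe]
      rw [he i]
      by_cases hi : (i : ℕ) + 1 < n
      · have := he ⟨(i : ℕ) + 1, hi⟩
        simp only at this
        rw [pow_succ', Module.End.mul_apply, Module.End.mul_apply] at this
        exact this
      · have hi' : (i : ℕ) + 1 = n := by have := i.2; omega
        have h1 : T ((T ^ (i : ℕ)) v) = 0 := by
          rw [← Module.End.mul_apply, ← pow_succ', hi', hT]; rfl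
        have h2 : T ((T ^ (i : ℕ)) w) = 0 := by
          rw [← Module.End.mul_apply, ← pow_succ', hi', hT]; rfl
        rw [h1, h2, map_zero]
    intro x
    exact congrArg (fun f => f x) hlin

end Cfsg.Agent.Lib.RegUnipA
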