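import Mathlib
import Cfsg.Prelude.Def_RootSubgroups
import Cfsg.Agent.Lib.RankOne

/-!
Sets of abstract root subgroups: the commutator case, lines and the graph of rank one pairs
(Timmesfeld, chapter II, section 2).
-/

namespace Cfsg.Agent.Lib.RootBasic

open Cfsg Cfsg.Agent.Lib.RankOne
open scoped commutatorElement

variable {G : Type*} [Group G] {S : Set (Subgroup G)} {A B C D E : Subgroup G}

/-- The commutator of `A` and `B` is central in `⟨A, B⟩`. -/
def NilPair (A B : Subgroup G) : Prop := ∀ c ∈ ⁅A, B⁆, ∀ x ∈ A ⊔ B, c * x = x * c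

theorem comm_mem {a b : G} (ha : a ∈ A) (hb : b ∈ B) : a * b * a⁻¹ * b⁻¹ ∈ ⁅A, B⁆ := by
  have := Subgroup.commutator_mem_commutator ha hb
  rwa [commutatorElement_def] at this

theorem nil_or_rankOne (hS : IsRootSubgroupSet S) (hA : A ∈ S) (hB : B ∈ S) :
    NilPair A B ∨ IsRankOnePair A B := by
  rcases hS.pair A hA B hB with h | h | h
  · left
    intro c hc x _
    rw [h, Subgroup.mem_bot] at hc
    simp [hc]
  · exact Or.inr h
  · exact Or.inl h.2.1

/-- Members of a rank one pair do not commute elementwise. -/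
theorem rankOne_not_comm (h : IsRankOnePair A D) : ¬ ∀ x ∈ A, ∀ d ∈ D, x * d = d * x := by
  intro hc
  obtain ⟨p, hp, hp1⟩ := exists_ne_one_left h
  exact hp1 (eq_one_of_conjBy_left h hp (conjBy_eq_of_commute fun d hd => hc p hp d hd))

/-- Two different conjugates of `D` under a rank one group do not commute. -/
theorem no_comm_conj (h : IsRankOnePair A D) {a : G} (ha : a ∈ A) (ha1 : a ≠ 1) :
    ¬ ∀ x ∈ conjBy D a, ∀ d ∈ D, x * d = d * x := by
  intro hc
  have hne : conjBy D a ≠ D := fun e => ha1 (eq_one_of_conjBy_left h ha e)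
  have h1 : conjBy D a ∈ unipotentSubgroups A D :=
    conj_mem_unipotent h (right_mem_unipotent h) (Subgroup.mem_sup_left ha)
  exact rankOne_not_comm (pair_of_mem h h1 (right_mem_unipotent h) hne).1 hc

/-- If `[X, D]` is central in `⟨X, D⟩` and `D` is abelian, the conjugates of `D` under `X`
commute with `D`. -/
theorem nil_conj_comm {X : Subgroup G} (hD : IsMulCommutative D) (hn : NilPair X D) {g : G} (hg : g ∈ X) :
    ∀ x ∈ conjBy D g, ∀ d ∈ D, x * d = d * x := by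
  intro x hx d hd
  rw [mem_conjBy] at hx
  set d₁ := g⁻¹ * x * g with hd₁
  have hxe : x = (g * d₁ * g⁻¹ * d₁⁻¹) * d₁ := by
    rw [hd₁]; group
  have ht := hn _ (comm_mem hg hx) d (Subgroup.mem_sup_right hd)
  have h2 : d₁ * d = d * d₁ := comm_of_mem hD hx hd
  rw [hxe]
  calc (g * d₁ * g⁻¹ * d₁⁻¹) * d₁ * d = (g * d₁ * g⁻¹ * d₁⁻¹) * (d₁ * d) := by group
    _ = (g * d₁ * g⁻¹ * d₁⁻¹) * (d * d₁) := by rw [h2]
    _ = ((g * d₁ * g⁻¹ * d₁⁻¹) * d) * d₁ := by group
    _ = (d * (g * d₁ * g⁻¹ * d₁⁻¹)) * d₁ := by rw [ht]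
    _ = d * ((g * d₁ * g⁻¹ * d₁⁻¹) * d₁) := by group

/-- Lemma Z: a member `A'` of `S` commuting with `A` and containing an element acting on `D` as a
non-identity element of `A` equals `A`. -/
theorem eq_of_same_action (hS : IsRootSubgroupSet S) {A' : Subgroup G} (hA' : A' ∈ S) (hD : D ∈ S)
    (h : IsRankOnePair A D) (hc : ∀ x ∈ A, ∀ y ∈ A', x * y = y * x) {a a' : G} (ha : a ∈ A) (ha1 : a ≠ 1)
    (ha' : a' ∈ A') (hac : ∀ d ∈ D, (a⁻¹ * a') * d = d * (a⁻¹ * a')) : A' = A := by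
  have e : conjBy D a' = conjBy D a := by
    have : a' = a * (a⁻¹ * a') := by group
    rw [this, conjBy_mul, conjBy_eq_of_commute hac]
  rcases nil_or_rankOne hS hA' hD with hn | hr
  · exfalso
    have := nil_conj_comm (hS.commutative D hD) hn ha'
    rw [e] at this
    exact no_comm_conj h ha ha1 this
  · have ha'1 : a' ≠ 1 := by
      rintro rfl
      rw [conjBy_one] at e
      exact ha1 (eq_one_of_conjBy_left h ha e.symm)
    obtain ⟨d₁, hd₁, -, e₁⟩ := h.cond_left a⁻¹ (A.inv_mem ha) (by simpa using ha1)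
    obtain ⟨d₂, hd₂, -, e₂⟩ := hr.cond_left a'⁻¹ (A'.inv_mem ha') (by simpa using ha'1)
    rw [inv_inv] at e₁ e₂
    have e₃ : conjBy A' d₂⁻¹ = conjBy A d₁⁻¹ := by rw [e₂, e₁, e]
    have e₄ : A' = conjBy A (d₂ * d₁⁻¹) := by
      rw [conjBy_mul, ← e₃, conjBy_inv_conjBy]
    have hmem : A' ∈ unipotentSubgroups A D :=
      ⟨d₂ * d₁⁻¹, (A ⊔ D).mul_mem (Subgroup.mem_sup_right hd₂)
        (Subgroup.mem_sup_right (D.inv_mem hd₁)), e₄⟩
    by_contra hne
    exact rankOne_not_comm (pair_of_mem h (left_mem_unipotent h) hmem (Ne.symm hne)).1 hc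

/-- Elements of `A ⊔ C` for commuting subgroups. -/
theorem exists_mul_of_mem_sup (hcomm : ∀ x ∈ A, ∀ y ∈ C, x * y = y * x) {x : G} (hx : x ∈ A ⊔ C) :
    ∃ a ∈ A, ∃ c ∈ C, x = a * c := by
  rw [Subgroup.sup_eq_closure] at hx
  induction hx using Subgroup.closure_induction with
  | mem x hx =>
    rcases hx with hx | hx
    · exact ⟨x, hx, 1, C.one_mem, by simp⟩
    · exact ⟨1, A.one_mem, x, hx, by simp⟩
  | one => exact ⟨1, A.one_mem, 1, C.one_mem, by simp⟩
  | mul x y _ _ ihx ihy =>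
    obtain ⟨a, ha, c, hc, rfl⟩ := ihx
    obtain ⟨a', ha', c', hc', rfl⟩ := ihy
    refine ⟨a * a', A.mul_mem ha ha', c * c', C.mul_mem hc hc', ?_⟩
    calc a * c * (a' * c') = a * (c * a') * c' := by group
      _ = a * (a' * c) * c' := by rw [hcomm a' ha' c hc]
      _ = a * a' * (c * c') := by group
  | inv x _ ih =>
    obtain ⟨a, ha, c, hc, rfl⟩ := ih
    refine ⟨a⁻¹, A.inv_mem ha, c⁻¹, C.inv_mem hc, ?_⟩
    rw [mul_inv_rev]
    have h1 : a⁻¹ * c⁻¹ = c⁻¹ * a⁻¹ := by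
      have := hcomm a ha c hc
      calc a⁻¹ * c⁻¹ = (c * a)⁻¹ := by group
        _ = (a * c)⁻¹ := by rw [this]
        _ = c⁻¹ * a⁻¹ := by group
    exact h1.symm

/-- `A ⊔ C` is abelian for abelian commuting `A`, `C`. -/
theorem sup_comm_of_comm (hA : IsMulCommutative A) (hC : IsMulCommutative C)
    (hcomm : ∀ x ∈ A, ∀ y ∈ C, x * y = y * x) {x y : G} (hx : x ∈ A ⊔ C) (hy : y ∈ A ⊔ C) :
    x * y = y * x := by
  obtain ⟨a, ha, c, hc, rfl⟩ := exists_mul_of_mem_sup hcomm hx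
  obtain ⟨a', ha', c', hc', rfl⟩ := exists_mul_of_mem_sup hcomm hy
  calc a * c * (a' * c') = a * (c * a') * c' := by group
    _ = a * (a' * c) * c' := by rw [hcomm a' ha' c hc]
    _ = (a * a') * (c * c') := by group
    _ = (a' * a) * (c' * c) := by rw [comm_of_mem hA ha ha', comm_of_mem hC hc hc']
    _ = a' * (a * c') * c := by group
    _ = a' * (c' * a) * c := by rw [hcomm a ha c' hc']
    _ = a' * c' * (a * c) := by group

/-! ### The commutator case -/

section CommCase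

variable (h : RootCommutatorCase S A B)
include h

theorem CommCase.mem : ⁅A, B⁆ ∈ S := h.1

theorem CommCase.nil : NilPair A B := h.2.1

theorem CommCase.comm_left {c a : G} (hc : c ∈ ⁅A, B⁆) (ha : a ∈ A) : c * a = a * c :=
  h.2.1 c hc a (Subgroup.mem_sup_left ha)

theorem CommCase.comm_right {c b : G} (hc : c ∈ ⁅A, B⁆) (hb : b ∈ B) : c * b = b * c :=
  h.2.1 c hc b (Subgroup.mem_sup_right hb)

theorem CommCase.exists_right {a c : G} (ha : a ∈ A) (ha1 : a ≠ 1) (hc : c ∈ ⁅A, B⁆) :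
    ∃ b ∈ B, a * b * a⁻¹ * b⁻¹ = c := by
  rw [← h.2.2.1 a ha ha1] at hc
  induction hc using Subgroup.closure_induction with
  | mem x hx =>
    obtain ⟨b, hb, rfl⟩ := hx
    exact ⟨b, hb, rfl⟩
  | one => exact ⟨1, B.one_mem, by simp⟩
  | mul x y _ _ ihx ihy =>
    obtain ⟨b₁, hb₁, rfl⟩ := ihx
    obtain ⟨b₂, hb₂, rfl⟩ := ihy
    refine ⟨b₂ * b₁, B.mul_mem hb₂ hb₁, ?_⟩
    have ht := h.2.1 _ (comm_mem ha hb₂) (a * b₁ * a⁻¹) ((A ⊔ B).mul_mem ((A ⊔ B).mul_mem
      (Subgroup.mem_sup_left ha) (Subgroup.mem_sup_right hb₁)) (Subgroup.mem_sup_left (A.inv_mem ha)))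
    calc a * (b₂ * b₁) * a⁻¹ * (b₂ * b₁)⁻¹
        = a * b₂ * a⁻¹ * (a * b₁ * a⁻¹ * b₁⁻¹) * b₂⁻¹ := by group
      _ = (a * b₁ * a⁻¹ * b₁⁻¹) * (a * b₂ * a⁻¹ * b₂⁻¹) := by
        have ht' := h.2.1 _ (comm_mem ha hb₁) (a * b₂ * a⁻¹) ((A ⊔ B).mul_mem ((A ⊔ B).mul_mem
          (Subgroup.mem_sup_left ha) (Subgroup.mem_sup_right hb₂)) (Subgroup.mem_sup_left (A.inv_mem ha)))
        calc a * b₂ * a⁻¹ * (a * b₁ * a⁻¹ * b₁⁻¹) * b₂⁻¹
            = ((a * b₂ * a⁻¹) * (a * b₁ * a⁻¹ * b₁⁻¹)) * b₂⁻¹ := by group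
          _ = ((a * b₁ * a⁻¹ * b₁⁻¹) * (a * b₂ * a⁻¹)) * b₂⁻¹ := by rw [← ht']
          _ = _ := by group
  | inv x _ ih =>
    obtain ⟨b, hb, rfl⟩ := ih
    refine ⟨b⁻¹, B.inv_mem hb, ?_⟩
    have ht := h.2.1 _ (comm_mem ha hb) (a * b⁻¹ * a⁻¹) ((A ⊔ B).mul_mem ((A ⊔ B).mul_mem
      (Subgroup.mem_sup_left ha) (Subgroup.mem_sup_right (B.inv_mem hb))) (Subgroup.mem_sup_left (A.inv_mem ha)))
    have hb' := h.2.1 _ (comm_mem ha hb) b (Subgroup.mem_sup_right hb)
    rw [eq_inv_iff_mul_eq_one]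
    calc a * b⁻¹ * a⁻¹ * b⁻¹⁻¹ * (a * b * a⁻¹ * b⁻¹)
        = (a * b⁻¹ * a⁻¹) * (b * (a * b * a⁻¹ * b⁻¹)) := by group
      _ = (a * b⁻¹ * a⁻¹) * ((a * b * a⁻¹ * b⁻¹) * b) := by rw [hb']
      _ = 1 := by group

end CommCase

theorem CommCase.symm (h : RootCommutatorCase S A B) : RootCommutatorCase S B A := by
  have hcomm : ⁅B, A⁆ = ⁅A, B⁆ := Subgroup.commutator_comm B A
  refine ⟨?_, ?_, ?_, ?_⟩
  · rw [hcomm]
    exact h.1
  · rw [hcomm, sup_comm]
    exact h.2.1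
  · intro b hb hb1
    rw [hcomm, ← h.2.2.2 b hb hb1, ← Subgroup.closure_inv]
    congr 1
    ext x
    simp only [Set.mem_image, Set.mem_inv, SetLike.mem_coe]
    constructor
    · rintro ⟨a, ha, e⟩
      refine ⟨a, ha, ?_⟩
      rw [← inv_inj, ← e]
      group
    · rintro ⟨a, ha, rfl⟩
      exact ⟨a, ha, by group⟩
  · intro a ha ha1
    rw [hcomm, ← h.2.2.1 a ha ha1, ← Subgroup.closure_inv]
    congr 1
    ext x
    simp only [Set.mem_image, Set.mem_inv, SetLike.mem_coe]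
    constructor
    · rintro ⟨b, hb, e⟩
      refine ⟨b, hb, ?_⟩
      rw [← inv_inj, ← e]
      group
    · rintro ⟨b, hb, rfl⟩
      exact ⟨b, hb, by group⟩

theorem CommCase.exists_left (h : RootCommutatorCase S A B) {b c : G} (hb : b ∈ B) (hb1 : b ≠ 1)
    (hc : c ∈ ⁅A, B⁆) : ∃ a ∈ A, a * b * a⁻¹ * b⁻¹ = c := by
  have hc' : c⁻¹ ∈ ⁅B, A⁆ := by
    rw [Subgroup.commutator_comm B A]
    exact Subgroup.inv_mem _ hc
  obtain ⟨a, ha, e⟩ := CommCase.exists_right (CommCase.symm h) hb hb1 hc'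
  refine ⟨a, ha, ?_⟩
  rw [← inv_inj, ← e]
  group

/-- `A` and `⁅A, B⁆` commute in the commutator case. -/
theorem CommCase.comm_AC (h : RootCommutatorCase S A B) : ∀ x ∈ A, ∀ y ∈ ⁅A, B⁆, x * y = y * x :=
  fun x hx y hy => (CommCase.comm_left h hy hx).symm

theorem CommCase.ne_bot (hS : IsRootSubgroupSet S) (h : RootCommutatorCase S A B) : ⁅A, B⁆ ≠ ⊥ :=
  hS.ne_bot _ h.1

theorem CommCase.exists_ne_one_right (hS : IsRootSubgroupSet S) (h : RootCommutatorCase S A B) :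
    ∃ b ∈ B, b ≠ 1 := by
  by_contra hcon
  push Not at hcon
  apply CommCase.ne_bot hS h
  have : B = ⊥ := by
    rw [eq_bot_iff]
    intro x hx
    exact hcon x hx
  rw [this, Subgroup.commutator_bot_right]

theorem CommCase.exists_ne_one_left (hS : IsRootSubgroupSet S) (h : RootCommutatorCase S A B) :
    ∃ a ∈ A, a ≠ 1 :=
  CommCase.exists_ne_one_right hS (CommCase.symm h)

/-- `b a b⁻¹ = a c` with `c ∈ ⁅A, B⁆`. -/
theorem conj_eq_mul {a b : G} (ha : a ∈ A) (hb : b ∈ B) :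
    a⁻¹ * b * a * b⁻¹ ∈ ⁅A, B⁆ := by
  have := comm_mem (A.inv_mem ha) hb
  simpa using this

theorem CommCase.conj_le_sup (h : RootCommutatorCase S A B) {b : G} (hb : b ∈ B) :
    conjBy A b ≤ A ⊔ ⁅A, B⁆ := by
  intro x hx
  rw [mem_conjBy] at hx
  have h1 := conj_eq_mul (a := b⁻¹ * x * b) hx hb
  have : x = (b⁻¹ * x * b) * ((b⁻¹ * x * b)⁻¹ * b * (b⁻¹ * x * b) * b⁻¹) := by group
  rw [this]
  exact (A ⊔ ⁅A, B⁆).mul_mem (Subgroup.mem_sup_left hx) (Subgroup.mem_sup_right h1)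

theorem commutator_le_of_normalize (h : RootCommutatorCase S A B) {b : G} (hb : b ∈ B) (hb1 : b ≠ 1)
    (hn : conjBy A b = A) : ⁅A, B⁆ ≤ A := by
  rw [← h.2.2.2 b hb hb1, Subgroup.closure_le]
  rintro _ ⟨a, ha, rfl⟩
  have h1 : b * a⁻¹ * b⁻¹ ∈ conjBy A b := conj_mem_conjBy (A.inv_mem ha)
  rw [hn] at h1
  have : a * b * a⁻¹ * b⁻¹ = a * (b * a⁻¹ * b⁻¹) := by group
  show a * b * a⁻¹ * b⁻¹ ∈ A
  rw [this]
  exact A.mul_mem ha h1

/-- TI: a member with a rank one partner meets other members trivially. -/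
theorem eq_of_mem_inter (hS : IsRootSubgroupSet S) (hA : A ∈ S) (hD : D ∈ S) (h : IsRankOnePair A D)
    (hC : C ∈ S) {x : G} (hxA : x ∈ A) (hxC : x ∈ C) (hx1 : x ≠ 1) : A = C := by
  have hiso : ¬ IsIsolatedIn (FAdj S) S A := fun hi => (hi.2 D).1 ⟨hA, hD, h⟩
  rcases inf_eq_bot_or_eq hS hiso hA C hC with hb | he
  · exfalso
    have : x ∈ A ⊓ C := ⟨hxA, hxC⟩
    rw [hb, Subgroup.mem_bot] at this
    exact hx1 this
  · exact he

/-- Timmesfeld II.2: with `A` non-isolated, `[a, b] ≠ 1` for `a, b ≠ 1`. -/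
theorem comm_ne_one (hS : IsRootSubgroupSet S) (hA : A ∈ S) (hD : D ∈ S) (hAD : IsRankOnePair A D)
    (h : RootCommutatorCase S A B) {a b : G} (ha : a ∈ A) (ha1 : a ≠ 1) (hb : b ∈ B) (hb1 : b ≠ 1) :
    a * b * a⁻¹ * b⁻¹ ≠ 1 := by
  intro e
  have hbS : conjBy A b ∈ S := hS.conj_mem A hA b
  have hmem : a ∈ conjBy A b := by
    rw [mem_conjBy]
    have : b⁻¹ * a * b = a := by
      have h1 : a * b * a⁻¹ = b := by
        rw [mul_inv_eq_one] at e
        exact e
      have h2 : b * a = a * b := by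
        calc b * a = (a * b * a⁻¹) * a := by rw [h1]
          _ = a * b := by group
      calc b⁻¹ * a * b = b⁻¹ * (a * b) := by group
        _ = b⁻¹ * (b * a) := by rw [h2]
        _ = a := by group
    rw [this]
    exact ha
  have e1 : A = conjBy A b := eq_of_mem_inter hS hA hD hAD hbS ha hmem ha1
  have hle := commutator_le_of_normalize h hb hb1 e1.symm
  have hCS := h.1
  obtain ⟨c, hc⟩ := Subgroup.ne_bot_iff_exists_ne_one.mp (hS.ne_bot _ hCS)
  have hc1 : (c : G) ≠ 1 := by simpa using hc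
  have e2 : A = ⁅A, B⁆ := eq_of_mem_inter hS hA hD hAD hCS (hle c.2) c.2 hc1
  apply hS.ne_bot _ hCS
  rw [eq_bot_iff, Subgroup.commutator_le]
  intro x hx y hy
  have hx' : x ∈ ⁅A, B⁆ := by
    rw [← e2]
    exact hx
  have := CommCase.comm_right h hx' hy
  rw [Subgroup.mem_bot, commutatorElement_def, this]
  group

/-- The symmetric form: `B` non-isolated. -/
theorem comm_ne_one' (hS : IsRootSubgroupSet S) (hB : B ∈ S) (hD : D ∈ S) (hBD : IsRankOnePair B D)
    (h : RootCommutatorCase S A B) {a b : G} (ha : a ∈ A) (ha1 : a ≠ 1) (hb : b ∈ B) (hb1 : b ≠ 1) :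
    a * b * a⁻¹ * b⁻¹ ≠ 1 := by
  intro e
  apply comm_ne_one hS hB hD hBD (CommCase.symm h) hb hb1 ha ha1
  have : b * a * b⁻¹ * a⁻¹ = (a * b * a⁻¹ * b⁻¹)⁻¹ := by group
  rw [this, e, inv_one]

/-- Timmesfeld II.2: a rank one partner of `A` does not centralize `⁅A, B⁆`. -/
theorem comm_partner (hS : IsRootSubgroupSet S) (hA : A ∈ S) (hD : D ∈ S) (hAD : IsRankOnePair A D)
    (h : RootCommutatorCase S A B) : ¬ ∀ c ∈ ⁅A, B⁆, ∀ d ∈ D, c * d = d * c := by
  intro hcd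
  obtain ⟨b, hb, hb1⟩ := CommCase.exists_ne_one_right hS h
  obtain ⟨a, ha, ha1⟩ := exists_ne_one_left hAD
  have e1 : conjBy A b = A := by
    refine eq_of_same_action hS (hS.conj_mem A hA b) hD hAD ?_ ha ha1
      (conj_mem_conjBy (g := b) ha) ?_
    · intro x hx y hy
      exact sup_comm_of_comm (hS.commutative A hA) (hS.commutative _ h.1) (CommCase.comm_AC h)
        (Subgroup.mem_sup_left hx) (CommCase.conj_le_sup h hb hy)
    · intro d hd
      have h1 := conj_eq_mul ha hb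
      have : a⁻¹ * (b * a * b⁻¹) = a⁻¹ * b * a * b⁻¹ := by group
      rw [this]
      exact hcd _ h1 d hd
  have hle := commutator_le_of_normalize h hb hb1 e1
  obtain ⟨c, hc⟩ := Subgroup.ne_bot_iff_exists_ne_one.mp (hS.ne_bot _ h.1)
  have hc1 : (c : G) ≠ 1 := by simpa using hc
  exact hc1 (eq_one_of_conjBy_left hAD (hle c.2) (conjBy_eq_of_commute fun d hd => hcd _ c.2 d hd))

/-- Timmesfeld II.2: with `A` non-isolated, a member of `S` inside `⁅A, B⁆` equals it. -/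
theorem eq_of_le_commutator (hS : IsRootSubgroupSet S) (hA : A ∈ S) (hD : D ∈ S) (hAD : IsRankOnePair A D)
    (h : RootCommutatorCase S A B) (hE : E ∈ S) (hle : E ≤ ⁅A, B⁆) : E = ⁅A, B⁆ := by
  set C := ⁅A, B⁆ with hCdef
  have hCS : C ∈ S := h.1
  obtain ⟨e₀, he₀⟩ := Subgroup.ne_bot_iff_exists_ne_one.mp (hS.ne_bot _ hE)
  have he₀1 : (e₀ : G) ≠ 1 := by simpa using he₀
  have hDA := RankOnePair_symm hAD
  rcases hS.pair C hCS D hD with hcd | hr | hcd
  · exfalso
    apply comm_partner hS hA hD hAD h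
    intro c hc d hd
    have := comm_mem hc hd
    rw [← hCdef, hcd, Subgroup.mem_bot] at this
    have h2 : c * d * c⁻¹ = d := mul_inv_eq_one.mp this
    calc c * d = (c * d * c⁻¹) * c := by group
      _ = d * c := by rw [h2]
  · exact (eq_of_mem_inter hS hCS hD hr hE (hle e₀.2) e₀.2 he₀1).symm
  · obtain ⟨d₀, hd₀, hd₀1⟩ := exists_ne_one_left hDA
    rcases hS.pair E hE D hD with hed | hr | hed
    · exfalso
      have := comm_mem e₀.2 hd₀
      rw [hed, Subgroup.mem_bot] at this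
      exact comm_ne_one' hS hD hA hDA hcd (hle e₀.2) he₀1 hd₀ hd₀1 this
    · exact eq_of_mem_inter hS hE hD hr hCS e₀.2 (hle e₀.2) he₀1
    · have hFF : ⁅E, D⁆ = ⁅C, D⁆ := by
        rw [← hed.2.2.1 e₀ e₀.2 he₀1, ← hcd.2.2.1 e₀ (hle e₀.2) he₀1]
      refine le_antisymm hle ?_
      intro c hc
      have ht : c * d₀ * c⁻¹ * d₀⁻¹ ∈ ⁅E, D⁆ := by
        rw [hFF]
        exact comm_mem hc hd₀
      obtain ⟨e, he, hee⟩ := CommCase.exists_left hed hd₀ hd₀1 ht
      by_contra hcE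
      have hne : c * e⁻¹ ≠ 1 := by
        intro h1
        rw [mul_inv_eq_one] at h1
        rw [h1] at hcE
        exact hcE he
      have hce : c * e⁻¹ ∈ C := C.mul_mem hc (C.inv_mem (hle he))
      apply comm_ne_one' hS hD hA hDA hcd hce hne hd₀ hd₀1
      set t := c * d₀ * c⁻¹ * d₀⁻¹ with ht'
      have htc : ∀ x ∈ C, t * x = x * t := fun x hx =>
        hcd.2.1 t (comm_mem hc hd₀) x (Subgroup.mem_sup_left hx)
      have h1 : e⁻¹ * d₀ * e = t⁻¹ * d₀ := by
        have h2 : e * d₀ * e⁻¹ = t * d₀ := by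
          rw [← hee]
          group
        have h3 : e⁻¹ * (t * d₀) * e = d₀ := by
          rw [← h2]
          group
        have h4 : e⁻¹ * (t * d₀) * e = t * (e⁻¹ * d₀ * e) := by
          have := htc e⁻¹ (C.inv_mem (hle he))
          calc e⁻¹ * (t * d₀) * e = (e⁻¹ * t) * d₀ * e := by group
            _ = (t * e⁻¹) * d₀ * e := by rw [this]
            _ = t * (e⁻¹ * d₀ * e) := by group
        rw [h4] at h3
        calc e⁻¹ * d₀ * e = t⁻¹ * (t * (e⁻¹ * d₀ * e)) := by group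
          _ = t⁻¹ * d₀ := by rw [h3]
      have h5 : c * d₀ * c⁻¹ = t * d₀ := by
        rw [ht']
        group
      calc c * e⁻¹ * d₀ * (c * e⁻¹)⁻¹ * d₀⁻¹ = c * (e⁻¹ * d₀ * e) * c⁻¹ * d₀⁻¹ := by group
        _ = c * (t⁻¹ * d₀) * c⁻¹ * d₀⁻¹ := by rw [h1]
        _ = (c * t⁻¹) * d₀ * c⁻¹ * d₀⁻¹ := by group
        _ = (t⁻¹ * c) * d₀ * c⁻¹ * d₀⁻¹ := by
          have := htc c hc
          have h6 : c * t⁻¹ = t⁻¹ * c := by
            calc c * t⁻¹ = t⁻¹ * (t * c) * t⁻¹ := by group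
              _ = t⁻¹ * (c * t) * t⁻¹ := by rw [this]
              _ = t⁻¹ * c := by group
          rw [h6]
        _ = t⁻¹ * (c * d₀ * c⁻¹) * d₀⁻¹ := by group
        _ = t⁻¹ * (t * d₀) * d₀⁻¹ := by rw [h5]
        _ = 1 := by group

/-- If `⁅A, B⁆ ∈ S` then `(A, B)` is in the commutator case. -/
theorem commCase_of_mem (hS : IsRootSubgroupSet S) (hA : A ∈ S) (hB : B ∈ S) (hC : ⁅A, B⁆ ∈ S) :
    RootCommutatorCase S A B := by
  rcases hS.pair A hA B hB with h | h | h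
  · exact absurd h (hS.ne_bot _ hC)
  · exfalso
    set C := ⁅A, B⁆ with hCdef
    have hnorm : ∀ a ∈ A, conjBy C a = C := by
      have key : ∀ a ∈ A, conjBy C a ≤ C := by
        intro a ha x hx
        rw [mem_conjBy] at hx
        have hx' : a * (a⁻¹ * x * a) * a⁻¹ ∈ C := by
          have hgen : ∀ y ∈ C, a * y * a⁻¹ ∈ C := by
            intro y hy
            rw [hCdef, Subgroup.commutator_def] at hy
            induction hy using Subgroup.closure_induction with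
            | mem y hy =>
              obtain ⟨a₁, ha₁, b₁, hb₁, rfl⟩ := hy
              have e : a * ⁅a₁, b₁⁆ * a⁻¹ =
                  ((a * a₁) * b₁ * (a * a₁)⁻¹ * b₁⁻¹) * (a * b₁ * a⁻¹ * b₁⁻¹)⁻¹ := by
                rw [commutatorElement_def]
                group
              rw [e]
              exact C.mul_mem (comm_mem (A.mul_mem ha ha₁) hb₁) (C.inv_mem (comm_mem ha hb₁))
            | one => simp [C.one_mem]
            | mul y z _ _ ihy ihz =>
              have e : a * (y * z) * a⁻¹ = (a * y * a⁻¹) * (a * z * a⁻¹) := by group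
              rw [e]
              exact C.mul_mem ihy ihz
            | inv y _ ih =>
              have e : a * y⁻¹ * a⁻¹ = (a * y * a⁻¹)⁻¹ := by group
              rw [e]
              exact C.inv_mem ih
          exact hgen _ hx
        convert hx' using 1
        group
      intro a ha
      apply le_antisymm (key a ha)
      intro x hx
      rw [mem_conjBy]
      have := key a⁻¹ (A.inv_mem ha)
      have h2 : a⁻¹ * x * a⁻¹⁻¹ ∈ conjBy C a⁻¹ := conj_mem_conjBy hx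
      simpa using this h2
    obtain ⟨a, ha, ha1⟩ := exists_ne_one_left h
    rcases nil_or_rankOne hS hA hC with hn | hr
    · obtain ⟨b, hb, -, e⟩ := h.cond_left a ha ha1
      -- `b = a₃ c₃` with `c₃ ∈ C`
      have h1 : a⁻¹ * b * a ∈ conjBy A b⁻¹ := by
        rw [e, mem_conjBy]
        simpa [mul_assoc] using hb
      rw [mem_conjBy] at h1
      set a₃ := b⁻¹⁻¹ * (a⁻¹ * b * a) * b⁻¹ with ha₃
      have ha₃' : a₃ ∈ A := h1
      set c₁ := b⁻¹ * a⁻¹ * b * a with hc₁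
      have hc₁C : c₁ ∈ C := by
        have := comm_mem (B.inv_mem hb) (A.inv_mem ha)
        rw [hCdef, ← Subgroup.commutator_comm B A]
        simpa using this
      set c₂ := a₃⁻¹ * b⁻¹ * a₃ * b with hc₂
      have hc₂C : c₂ ∈ C := by
        have := comm_mem (A.inv_mem ha₃') (B.inv_mem hb)
        simpa using this
      have hbe : b = a₃ * (c₂ * c₁⁻¹) := by
        have h2 : b * c₁ = a₃ * c₂ := by
          rw [hc₁, hc₂, ha₃]
          group
        calc b = b * c₁ * c₁⁻¹ := by group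
          _ = a₃ * c₂ * c₁⁻¹ := by rw [h2]
          _ = a₃ * (c₂ * c₁⁻¹) := by group
      set c₃ := c₂ * c₁⁻¹ with hc₃
      have hc₃C : c₃ ∈ C := C.mul_mem hc₂C (C.inv_mem hc₁C)
      -- `B` is conjugate to `A` by `c₃⁻¹` up to `A`
      have hBe : B = conjBy (conjBy A c₃⁻¹) a := by
        have e2 : B = conjBy (conjBy A b⁻¹) a := by
          rw [e, conjBy_inv_conjBy]
        have e3 : b⁻¹ = c₃⁻¹ * a₃⁻¹ := by
          rw [hbe]
          group
        rw [e2, e3, conjBy_mul, conjBy_eq_self_of_mem (A.inv_mem ha₃')]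
      have hn' : NilPair C A := by
        intro c hc z hz
        rw [Subgroup.commutator_comm] at hc
        rw [sup_comm] at hz
        exact hn c hc z hz
      have hA1 : ∀ x ∈ conjBy A c₃⁻¹, ∀ y ∈ A, x * y = y * x :=
        nil_conj_comm (hS.commutative A hA) hn' (C.inv_mem hc₃C)
      have hBe2 : B = conjBy A c₃⁻¹ := by
        rw [hBe]
        exact conjBy_eq_of_commute fun x hx => (hA1 x hx a ha).symm
      apply rankOne_not_comm h
      intro x hx d hd
      rw [hBe2] at hd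
      exact (hA1 d hd x hx).symm
    · exact ha1 (eq_one_of_conjBy_left hr ha (hnorm a ha))
  · exact h

end Cfsg.Agent.Lib.RootBasic
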