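import Mathlib
import Cfsg.Prelude.Def_RootSubgroups
import Cfsg.Agent.Lib.RankOne
import Cfsg.Agent.Lib.RootBasic

/-!
Matched pairs of elements in a special rank one pair, and the law of the square.
-/

namespace Cfsg.Agent.Lib.RootLaw

open Cfsg Cfsg.Agent.Lib.RankOne Cfsg.Agent.Lib.RootBasic

variable {G : Type*} [Group G] {S : Set (Subgroup G)} {A Y : Subgroup G}

/-- `a` and `y` are matched: `A ^ y = Y ^ a`. -/
structure Matched (A Y : Subgroup G) (a y : G) : Prop where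
  left_mem : a ∈ A
  left_ne : a ≠ 1
  right_mem : y ∈ Y
  right_ne : y ≠ 1
  eq : conjBy A y⁻¹ = conjBy Y a⁻¹

theorem exists_matched_right (h : IsRankOnePair A Y) {a : G} (ha : a ∈ A) (ha1 : a ≠ 1) :
    ∃ y, Matched A Y a y := by
  obtain ⟨y, hy, hy1, e⟩ := h.cond_left a ha ha1
  exact ⟨y, ha, ha1, hy, hy1, e⟩

theorem exists_matched_left (h : IsRankOnePair A Y) {y : G} (hy : y ∈ Y) (hy1 : y ≠ 1) :
    ∃ a, Matched A Y a y := by
  obtain ⟨a, ha, ha1, e⟩ := h.cond_right y hy hy1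
  exact ⟨a, ha, ha1, hy, hy1, e.symm⟩

/-- `Y` acts regularly on the conjugates of `A`. -/
theorem conjBy_inj_right (h : IsRankOnePair A Y) {u v : G} (hu : u ∈ Y) (hv : v ∈ Y)
    (e : conjBy A u = conjBy A v) : u = v := by
  have h1 : conjBy A (v⁻¹ * u) = A := by
    rw [conjBy_mul, e, ← conjBy_mul]
    simp [conjBy_one]
  have h2 := eq_one_of_conjBy_right h (Y.mul_mem (Y.inv_mem hv) hu) h1
  calc u = v * (v⁻¹ * u) := by group
    _ = v := by rw [h2]; group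

theorem conjBy_inj_left (h : IsRankOnePair A Y) {u v : G} (hu : u ∈ A) (hv : v ∈ A)
    (e : conjBy Y u = conjBy Y v) : u = v := by
  have h1 : conjBy Y (v⁻¹ * u) = Y := by
    rw [conjBy_mul, e, ← conjBy_mul]
    simp [conjBy_one]
  have h2 := eq_one_of_conjBy_left h (A.mul_mem (A.inv_mem hv) hu) h1
  calc u = v * (v⁻¹ * u) := by group
    _ = v := by rw [h2]; group

theorem Matched.unique_right (h : IsRankOnePair A Y) {a y y' : G} (h1 : Matched A Y a y)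
    (h2 : Matched A Y a y') : y = y' := by
  have := conjBy_inj_right h (Y.inv_mem h1.right_mem) (Y.inv_mem h2.right_mem) (h1.eq.trans h2.eq.symm)
  exact inv_injective this

theorem Matched.unique_left (h : IsRankOnePair A Y) {a a' y : G} (h1 : Matched A Y a y)
    (h2 : Matched A Y a' y) : a = a' := by
  have := conjBy_inj_left h (A.inv_mem h1.left_mem) (A.inv_mem h2.left_mem) (h1.eq.symm.trans h2.eq)
  exact inv_injective this

theorem Matched.braid (h : IsSpecialRankOnePair A Y) {a y : G} (hm : Matched A Y a y) :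
    a * y⁻¹ * a = y⁻¹ * a * y⁻¹ := by
  have h1 := h.2 a hm.left_mem hm.left_ne y hm.right_mem hm.right_ne hm.eq
  calc a * y⁻¹ * a = a * (y⁻¹ * a * y) * y⁻¹ := by group
    _ = a * (a⁻¹ * y⁻¹ * a) * y⁻¹ := by rw [h1]
    _ = y⁻¹ * a * y⁻¹ := by group

/-- Different unipotent subgroups intersect trivially. -/
theorem eq_of_common (h : IsRankOnePair A Y) {C₁ C₂ : Subgroup G} (hC₁ : C₁ ∈ unipotentSubgroups A Y)
    (hC₂ : C₂ ∈ unipotentSubgroups A Y) {x : G} (h1 : x ∈ C₁) (h2 : x ∈ C₂) (hx : x ≠ 1) : C₁ = C₂ := by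
  by_contra hne
  obtain ⟨hp, -⟩ := pair_of_mem h hC₁ hC₂ hne
  have := fix_eq hp h1 hx (right_mem_unipotent hp) (conjBy_eq_self_of_mem h2)
  exact hne this.symm

/-- Inverses of matched elements are matched. -/
theorem Matched.inv (h : IsSpecialRankOnePair A Y)
    {a y : G} (hm : Matched A Y a y) : Matched A Y a⁻¹ y⁻¹ := by
  refine ⟨A.inv_mem hm.left_mem, inv_ne_one.mpr hm.left_ne, Y.inv_mem hm.right_mem,
    inv_ne_one.mpr hm.right_ne, ?_⟩
  rw [inv_inv, inv_inv]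
  have hb := hm.braid h
  have h1 : y * a * y⁻¹ = a * y⁻¹ * a⁻¹ := by
    calc y * a * y⁻¹ = y * (a * y⁻¹ * a) * a⁻¹ := by group
      _ = y * (y⁻¹ * a * y⁻¹) * a⁻¹ := by rw [hb]
      _ = a * y⁻¹ * a⁻¹ := by group
  have hx1 : y * a * y⁻¹ ∈ conjBy A y := conj_mem_conjBy hm.left_mem
  have hx2 : y * a * y⁻¹ ∈ conjBy Y a := by
    rw [h1]
    exact conj_mem_conjBy (Y.inv_mem hm.right_mem)
  have hne : y * a * y⁻¹ ≠ 1 := by
    intro e
    apply hm.left_ne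
    have h3 : a = y⁻¹ * (y * a * y⁻¹) * y := by group
    rw [h3, e]
    group
  have hy : y ∈ A ⊔ Y := Subgroup.mem_sup_right hm.right_mem
  have ha : a ∈ A ⊔ Y := Subgroup.mem_sup_left hm.left_mem
  exact eq_of_common h.1 (conj_mem_unipotent h.1 (left_mem_unipotent h.1) hy)
    (conj_mem_unipotent h.1 (right_mem_unipotent h.1) ha) hx1 hx2 hne

theorem Matched.tau_eq (h : IsSpecialRankOnePair A Y) {a y : G} (hm : Matched A Y a y) :
    a⁻¹ * y * a⁻¹ = y * a⁻¹ * y := by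
  have hb := hm.braid h
  have h1 : (a * y⁻¹ * a)⁻¹ = (y⁻¹ * a * y⁻¹)⁻¹ := by rw [hb]
  calc a⁻¹ * y * a⁻¹ = (a * y⁻¹ * a)⁻¹ := by group
    _ = (y⁻¹ * a * y⁻¹)⁻¹ := h1
    _ = y * a⁻¹ * y := by group

theorem Matched.tau_conj_a (h : IsSpecialRankOnePair A Y) {a y : G} (hm : Matched A Y a y) :
    (a⁻¹ * y * a⁻¹)⁻¹ * a * (a⁻¹ * y * a⁻¹) = y⁻¹ := by
  have h1 := h.2 a hm.left_mem hm.left_ne y hm.right_mem hm.right_ne hm.eq
  have h2 := hm.tau_eq h
  have h3 : (y * a⁻¹ * y)⁻¹ = y⁻¹ * a * y⁻¹ := by group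
  rw [h2, h3]
  calc y⁻¹ * a * y⁻¹ * a * (y * a⁻¹ * y) = y⁻¹ * a * (y⁻¹ * a * y) * a⁻¹ * y := by group
    _ = y⁻¹ * a * (a⁻¹ * y⁻¹ * a) * a⁻¹ * y := by rw [h1]
    _ = y⁻¹ := by group

theorem Matched.tau_conj_y (h : IsSpecialRankOnePair A Y) {a y : G} (hm : Matched A Y a y) :
    (a⁻¹ * y * a⁻¹)⁻¹ * y * (a⁻¹ * y * a⁻¹) = a⁻¹ := by
  have h2 := hm.tau_eq h
  calc (a⁻¹ * y * a⁻¹)⁻¹ * y * (a⁻¹ * y * a⁻¹) = (a⁻¹ * y * a⁻¹)⁻¹ * (y * a⁻¹ * y) * a⁻¹ := by group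
    _ = (a⁻¹ * y * a⁻¹)⁻¹ * (a⁻¹ * y * a⁻¹) * a⁻¹ := by rw [← h2]
    _ = a⁻¹ := by group

/-- The element `τ` takes `A` to `Y`. -/
theorem Matched.conj_A_tau {a y : G} (hm : Matched A Y a y) :
    conjBy A (a⁻¹ * y * a⁻¹)⁻¹ = Y := by
  have h1 : (a⁻¹ * y * a⁻¹)⁻¹ = a * (y⁻¹ * a) := by group
  rw [h1, conjBy_mul, conjBy_mul A y⁻¹ a, conjBy_eq_self_of_mem hm.left_mem, hm.eq, ← conjBy_mul]
  simp [conjBy_one]

theorem Matched.conj_Y_tau {a y : G} (hm : Matched A Y a y) :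
    conjBy Y (a⁻¹ * y * a⁻¹) = A := by
  have h1 := hm.conj_A_tau
  rw [← h1, conjBy_inv_conjBy]

/-- The element `τ` takes `Y` to `A`. -/
theorem Matched.conj_Y_tau' (h : IsSpecialRankOnePair A Y) {a y : G} (hm : Matched A Y a y) :
    conjBy Y (a⁻¹ * y * a⁻¹)⁻¹ = A := by
  have h1 : conjBy A (a⁻¹ * y * a⁻¹) = Y := by
    have h2 := (hm.inv h).eq
    rw [inv_inv, inv_inv] at h2
    rw [mul_assoc, conjBy_mul, conjBy_mul A y a⁻¹, conjBy_eq_self_of_mem (A.inv_mem hm.left_mem), h2,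
      ← conjBy_mul]
    simp [conjBy_one]
  rw [← h1, conjBy_conjBy_inv]

/-- Hua's identity for matched elements. -/
theorem Matched.hua (h : IsSpecialRankOnePair A Y) {a y b u : G} (hm : Matched A Y a y)
    (hb : Matched A Y b u) :
    conjBy Y (((a⁻¹ * y * a⁻¹)⁻¹ * u * (a⁻¹ * y * a⁻¹)) * a)⁻¹ = conjBy Y (y⁻¹ * (a * b⁻¹)) := by
  generalize ht : a⁻¹ * y * a⁻¹ = t
  have h1 : ((t⁻¹ * u * t) * a)⁻¹ = (a⁻¹ * t⁻¹ * u⁻¹) * t := by group
  have h2 : conjBy Y t = A := by rw [← ht]; exact hm.conj_Y_tau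
  have h3 : y⁻¹ * (a * b⁻¹) = (a⁻¹ * t⁻¹) * b⁻¹ := by rw [← ht]; group
  rw [h1, conjBy_mul, h2, conjBy_mul, hb.eq, ← conjBy_mul, h3]

theorem Matched.hua' (h : IsSpecialRankOnePair A Y) {a y b u z : G} (hm : Matched A Y a y)
    (hb : Matched A Y b u) (hz : Matched A Y (b * a⁻¹) z) :
    conjBy A (z * y)⁻¹ = conjBy Y (((a⁻¹ * y * a⁻¹)⁻¹ * u * (a⁻¹ * y * a⁻¹)) * a)⁻¹ := by
  rw [hm.hua h hb]
  have h1 : (z * y)⁻¹ = y⁻¹ * z⁻¹ := by group
  have h2 : a * b⁻¹ = (b * a⁻¹)⁻¹ := by group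
  rw [h1, conjBy_mul, hz.eq, ← conjBy_mul, h2]

/-- The law of the square. -/
theorem Matched.law_two (h : IsSpecialRankOnePair A Y) {a y a₂ : G} (hm : Matched A Y a y) (h2 : Matched A Y a₂ (y * y)) :
    a₂ * a₂ = a := by
  have hy := hm.right_mem
  have hne : a₂ * a⁻¹ ≠ 1 := by
    intro e
    have h3 : a₂ = a := by
      calc a₂ = a₂ * a⁻¹ * a := by group
        _ = a := by rw [e]; group
    rw [h3] at h2
    have h4 := h2.unique_right h.1 hm
    apply hm.right_ne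
    calc y = y⁻¹ * (y * y) := by group
      _ = 1 := by rw [h4]; group
  obtain ⟨z, hz⟩ := exists_matched_right h.1 (A.mul_mem h2.left_mem (A.inv_mem hm.left_mem)) hne
  have h5 := hm.hua' h h2 hz
  have h6 : (a⁻¹ * y * a⁻¹)⁻¹ * (y * y) * (a⁻¹ * y * a⁻¹) = a⁻¹ * a⁻¹ := by
    have := hm.tau_conj_y h
    calc (a⁻¹ * y * a⁻¹)⁻¹ * (y * y) * (a⁻¹ * y * a⁻¹)
        = ((a⁻¹ * y * a⁻¹)⁻¹ * y * (a⁻¹ * y * a⁻¹)) * ((a⁻¹ * y * a⁻¹)⁻¹ * y * (a⁻¹ * y * a⁻¹)) := by group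
      _ = a⁻¹ * a⁻¹ := by rw [this]
  rw [h6] at h5
  have h7 : (a⁻¹ * a⁻¹ * a)⁻¹ = a := by group
  rw [h7] at h5
  have h8 := (hm.inv h).eq
  rw [inv_inv, inv_inv] at h8
  rw [← h8] at h5
  have h9 : (z * y)⁻¹ = y := conjBy_inj_right h.1 (Y.inv_mem (Y.mul_mem hz.right_mem hy)) hy h5
  have h10 : z⁻¹ = y * y := by
    calc z⁻¹ = y * ((z * y)⁻¹) := by group
      _ = y * y := by rw [h9]
  have h11 := hz.eq
  rw [h10] at h11
  have h12 := (h2.inv h).eq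
  rw [inv_inv, inv_inv, h11] at h12
  have h13 : (a₂ * a⁻¹)⁻¹ = a₂ :=
    conjBy_inj_left h.1 (A.inv_mem (A.mul_mem h2.left_mem (A.inv_mem hm.left_mem))) h2.left_mem h12
  calc a₂ * a₂ = ((a₂ * a⁻¹)⁻¹) * a₂ := by rw [h13]
    _ = a := by group

/-- In a special pair, an element of `A` with nontrivial square is acted on by the fourth power map. -/
theorem special_torus (h : IsSpecialRankOnePair A Y) {a : G} (ha : a ∈ A) (ha1 : a ≠ 1) (ha2 : a * a ≠ 1) :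
    ∃ t ∈ A ⊔ Y, conjBy A t = A ∧ t⁻¹ * a * t = a * a * a * a := by
  obtain ⟨y, hm⟩ := exists_matched_right h.1 ha ha1
  have hy := hm.right_mem
  have hyy : y * y ≠ 1 := by
    intro e
    apply ha2
    have h1 : y⁻¹ = y := by
      calc y⁻¹ = y⁻¹ * (y * y) := by rw [e]; group
        _ = y := by group
    have h2 := hm.eq
    have h3 := (hm.inv h).eq
    rw [inv_inv, inv_inv, ← h1, h2] at h3
    have h4 : a⁻¹ = a := conjBy_inj_left h.1 (A.inv_mem ha) ha h3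
    calc a * a = a * a⁻¹ := by rw [h4]
      _ = 1 := by group
  obtain ⟨a₂, hm₂⟩ := exists_matched_left h.1 (Y.mul_mem hy hy) hyy
  have hlaw := hm.law_two h hm₂
  refine ⟨(a₂⁻¹ * (y * y) * a₂⁻¹) * (a⁻¹ * y * a⁻¹)⁻¹, ?_, ?_, ?_⟩
  · have ha' : a ∈ A ⊔ Y := Subgroup.mem_sup_left ha
    have hb' : a₂ ∈ A ⊔ Y := Subgroup.mem_sup_left hm₂.left_mem
    have hy' : y ∈ A ⊔ Y := Subgroup.mem_sup_right hy
    have hyy' : y * y ∈ A ⊔ Y := (A ⊔ Y).mul_mem hy' hy'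
    exact (A ⊔ Y).mul_mem ((A ⊔ Y).mul_mem ((A ⊔ Y).mul_mem ((A ⊔ Y).inv_mem hb') hyy') ((A ⊔ Y).inv_mem hb'))
      ((A ⊔ Y).inv_mem ((A ⊔ Y).mul_mem ((A ⊔ Y).mul_mem ((A ⊔ Y).inv_mem ha') hy') ((A ⊔ Y).inv_mem ha')))
  · rw [conjBy_mul, hm.conj_A_tau, hm₂.conj_Y_tau]
  · generalize ht : a⁻¹ * y * a⁻¹ = t
    generalize ht₂ : a₂⁻¹ * (y * y) * a₂⁻¹ = t₂
    have h1 : t₂⁻¹ * a₂ * t₂ = (y * y)⁻¹ := by
      rw [← ht₂]
      exact hm₂.tau_conj_a h
    have h2 : t⁻¹ * y * t = a⁻¹ := by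
      rw [← ht]
      exact hm.tau_conj_y h
    have h3 : t₂⁻¹ * a * t₂ = (y * y)⁻¹ * (y * y)⁻¹ := by
      rw [← hlaw, ← h1]
      group
    have h4 : t * y⁻¹ * t⁻¹ = a := by
      have h5 : t * y * t⁻¹ = a⁻¹ := by
        have h6 := hm.tau_conj_a h
        rw [ht] at h6
        have h7 : a = t * y⁻¹ * t⁻¹ := by
          rw [← h6]
          group
        rw [h7]
        group
      calc t * y⁻¹ * t⁻¹ = (t * y * t⁻¹)⁻¹ := by group
        _ = a := by rw [h5]; group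
    have h8 : (t₂ * t⁻¹)⁻¹ * a * (t₂ * t⁻¹) = t * (t₂⁻¹ * a * t₂) * t⁻¹ := by group
    rw [h8, h3]
    calc t * ((y * y)⁻¹ * (y * y)⁻¹) * t⁻¹
        = (t * y⁻¹ * t⁻¹) * (t * y⁻¹ * t⁻¹) * (t * y⁻¹ * t⁻¹) * (t * y⁻¹ * t⁻¹) := by group
      _ = a * a * a * a := by rw [h4]

theorem Matched.swap {a y : G} (hm : Matched A Y a y) : Matched Y A y a :=
  ⟨hm.right_mem, hm.right_ne, hm.left_mem, hm.left_ne, hm.eq.symm⟩

/-- The special property is symmetric. -/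
theorem special_symm (h : IsSpecialRankOnePair A Y) : IsSpecialRankOnePair Y A := by
  refine ⟨RankOnePair_symm h.1, ?_⟩
  intro y hy hy1 a ha ha1 e
  have hm : Matched A Y a y := ⟨ha, ha1, hy, hy1, e.symm⟩
  have h2 := hm.tau_eq h
  calc a⁻¹ * y * a = y⁻¹ * (y * a⁻¹ * y) * a := by group
    _ = y⁻¹ * (a⁻¹ * y * a⁻¹) * a := by rw [h2]
    _ = y⁻¹ * a⁻¹ * y := by group

/-- Powers of the conjugate. -/
theorem Matched.tau_conj_pow (h : IsSpecialRankOnePair A Y) {a y : G} (hm : Matched A Y a y) (j : ℕ) :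
    (a⁻¹ * y * a⁻¹)⁻¹ * y ^ j * (a⁻¹ * y * a⁻¹) = a⁻¹ ^ j := by
  have h0 := hm.tau_conj_y h
  have := conj_pow (a := (a⁻¹ * y * a⁻¹)⁻¹) (b := y) (i := j)
  rw [inv_inv, h0] at this
  exact this.symm

theorem Matched.pow_eq_one_left (h : IsSpecialRankOnePair A Y) {a y : G} (hm : Matched A Y a y) {j : ℕ}
    (hy : y ^ j = 1) : a ^ j = 1 := by
  have h1 := hm.tau_conj_pow h j
  rw [hy] at h1
  have h2 : (a⁻¹) ^ j = 1 := by
    rw [← h1]
    group
  rwa [inv_pow, inv_eq_one] at h2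

theorem Matched.pow_eq_one_right (h : IsSpecialRankOnePair A Y) {a y : G} (hm : Matched A Y a y) {j : ℕ}
    (ha : a ^ j = 1) : y ^ j = 1 :=
  hm.swap.pow_eq_one_left (special_symm h) ha

/-- The law of powers: if `a` is matched with `y` and `b` with `y ^ j`, then `b ^ j = a`. -/
theorem law_pow (j : ℕ) (hj : 0 < j) : ∀ (A Y : Subgroup G), IsSpecialRankOnePair A Y →
    ∀ a y b, Matched A Y a y → Matched A Y b (y ^ j) → b ^ j = a := by
  induction j, hj using Nat.le_induction with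
  | base =>
    intro A Y h a y b hm hb
    rw [pow_one] at hb ⊢
    exact hb.unique_left h.1 hm
  | succ j hj ih =>
    intro A Y h a y b hm hb
    by_cases haj : a ^ j = 1
    · have hyj := hm.pow_eq_one_right h haj
      rw [pow_succ, hyj, one_mul] at hb
      have h1 := hb.unique_left h.1 hm
      rw [h1, pow_succ, haj, one_mul]
    · have haA : a ^ j ∈ A := A.pow_mem hm.left_mem j
      obtain ⟨y', hy'⟩ := exists_matched_right h.1 haA haj
      have hpow : y' ^ j = y := ih Y A (special_symm h) y a y' hm.swap hy'.swap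
      have hne : b * a⁻¹ ≠ 1 := by
        intro e
        apply haj
        have h3 : b = a := by
          calc b = b * a⁻¹ * a := by group
            _ = a := by rw [e]; group
        rw [h3] at hb
        have h4 := hb.unique_right h.1 hm
        apply hm.pow_eq_one_left h
        rw [pow_succ] at h4
        exact mul_right_cancel (b := y) (by rw [h4, one_mul])
      obtain ⟨z, hz⟩ := exists_matched_right h.1 (A.mul_mem hb.left_mem (A.inv_mem hm.left_mem)) hne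
      have h5 := hm.hua' h hb hz
      rw [hm.tau_conj_pow h] at h5
      have h7 : ((a⁻¹) ^ (j + 1) * a)⁻¹ = a ^ j := by
        rw [inv_pow, pow_succ]
        have : (a ^ j * a)⁻¹ * a = (a ^ j)⁻¹ := by group
        rw [this, inv_inv]
      rw [h7] at h5
      have h8 := (hy'.inv h).eq
      rw [inv_inv, inv_inv] at h8
      rw [← h8] at h5
      have h9 : (z * y)⁻¹ = y' :=
        conjBy_inj_right h.1 (Y.inv_mem (Y.mul_mem hz.right_mem hm.right_mem)) hy'.right_mem h5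
      have h10 : z⁻¹ = y' ^ (j + 1) := by
        rw [pow_succ, hpow]
        calc z⁻¹ = y * ((z * y)⁻¹) := by group
          _ = y * y' := by rw [h9]
      have h11 : Matched A Y (b * a⁻¹)⁻¹ (y' ^ (j + 1)) := by
        have := hz.inv h
        rwa [h10] at this
      have h12 : (y' ^ (j + 1)) ^ j = y ^ (j + 1) := by
        rw [pow_right_comm, hpow]
      have h13 : Matched A Y b ((y' ^ (j + 1)) ^ j) := by rwa [h12]
      have h14 := ih A Y h _ _ b h11 h13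
      rw [pow_succ, h14]
      group

end Cfsg.Agent.Lib.RootLaw
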