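import Mathlib
import Cfsg.Prelude.Def_RootSubgroups
import Cfsg.Agent.Lib.RankOne
import Cfsg.Agent.Lib.RootLaw

/-!
In a special rank one pair with abelian unipotent subgroups and more than three elements in `A`,
the commutator of `A` with the diagonal subgroup is all of `A`.
-/

namespace Cfsg.Agent.Lib.RootAbsorb

open Cfsg Cfsg.Agent.Lib.RankOne Cfsg.Agent.Lib.RootLaw
open scoped commutatorElement

variable {G : Type*} [Group G] {A Y : Subgroup G}

theorem sigma_mem (h : IsSpecialRankOnePair A Y) {a y w : G} (hm : Matched A Y a y) (hw : w ∈ Y) :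
    (a⁻¹ * y * a⁻¹)⁻¹ * w * (a⁻¹ * y * a⁻¹) ∈ A := by
  have := conj_mem_conjBy (g := (a⁻¹ * y * a⁻¹)⁻¹) hw
  rw [hm.conj_Y_tau' h, inv_inv] at this
  exact this

theorem tau_mem_sup {a y : G} (hm : Matched A Y a y) : a⁻¹ * y * a⁻¹ ∈ A ⊔ Y := by
  have ha : a ∈ A ⊔ Y := Subgroup.mem_sup_left hm.left_mem
  have hy : y ∈ A ⊔ Y := Subgroup.mem_sup_right hm.right_mem
  exact (A ⊔ Y).mul_mem ((A ⊔ Y).mul_mem ((A ⊔ Y).inv_mem ha) hy) ((A ⊔ Y).inv_mem ha)

theorem tau_diag (h : IsSpecialRankOnePair A Y) {a y b u : G} (hm : Matched A Y a y) (hb : Matched A Y b u) :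
    (a⁻¹ * y * a⁻¹)⁻¹ * (b⁻¹ * u * b⁻¹) ∈ rankOneDiagonal A Y := by
  have hA : conjBy A (b⁻¹ * u * b⁻¹) = Y := by
    have h1 := hb.conj_Y_tau' h
    rw [← h1, conjBy_inv_conjBy]
  unfold rankOneDiagonal
  refine Subgroup.mem_inf.mpr ⟨Subgroup.mem_inf.mpr ⟨?_, ?_⟩, ?_⟩
  · exact (A ⊔ Y).mul_mem ((A ⊔ Y).inv_mem (tau_mem_sup hm)) (tau_mem_sup hb)
  · rw [mem_normalizer_iff_conjBy, conjBy_mul, hA, hm.conj_Y_tau' h]
  · rw [mem_normalizer_iff_conjBy, conjBy_mul, hb.conj_Y_tau, hm.conj_A_tau]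

theorem cong_sigma (h : IsSpecialRankOnePair A Y) {a y b u w : G} (hm : Matched A Y a y) (hb : Matched A Y b u)
    (hw : w ∈ Y) :
    ((b⁻¹ * u * b⁻¹)⁻¹ * w * (b⁻¹ * u * b⁻¹)) * ((a⁻¹ * y * a⁻¹)⁻¹ * w * (a⁻¹ * y * a⁻¹))⁻¹ ∈
      ⁅A, rankOneDiagonal A Y⁆ := by
  have hx := sigma_mem h hm hw
  have hh := tau_diag h hm hb
  generalize ht : a⁻¹ * y * a⁻¹ = t at hx hh ⊢
  generalize ht' : b⁻¹ * u * b⁻¹ = t' at hh ⊢
  have h1 := Subgroup.commutator_mem_commutator hx ((rankOneDiagonal A Y).inv_mem hh)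
  have h2 := ⁅A, rankOneDiagonal A Y⁆.inv_mem h1
  have e : (⁅t⁻¹ * w * t, (t⁻¹ * t')⁻¹⁆)⁻¹ = (t'⁻¹ * w * t') * (t⁻¹ * w * t)⁻¹ := by
    rw [commutatorElement_def]
    group
  rwa [e] at h2

theorem alg_id {C : Type*} [CommGroup C] (s t a b : C) :
    a * (b * b)⁻¹ = (b⁻¹ * s⁻¹) * ((b * a⁻¹)⁻¹ * t⁻¹) * ((s * a)⁻¹ * (t * a⁻¹)⁻¹)⁻¹ := by
  apply Additive.ofMul.injective
  simp only [ofMul_mul, ofMul_inv]
  abel

theorem alg_mem (hAc : IsMulCommutative A) {R : Subgroup G} {s t a b : G} (hs : s ∈ A) (ht : t ∈ A)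
    (ha : a ∈ A) (hb : b ∈ A) (e1 : b⁻¹ * s⁻¹ ∈ R) (e2 : (b * a⁻¹)⁻¹ * t⁻¹ ∈ R)
    (e3 : (s * a)⁻¹ * (t * a⁻¹)⁻¹ ∈ R) : a * (b * b)⁻¹ ∈ R := by
  have key : a * (b * b)⁻¹ = (b⁻¹ * s⁻¹) * ((b * a⁻¹)⁻¹ * t⁻¹) * ((s * a)⁻¹ * (t * a⁻¹)⁻¹)⁻¹ := by
    letI : CommGroup A := { (inferInstance : Group A) with mul_comm := fun x y => mul_comm' x y }
    have := alg_id (⟨s, hs⟩ : A) ⟨t, ht⟩ ⟨a, ha⟩ ⟨b, hb⟩
    exact congrArg Subtype.val this
  rw [key]
  exact R.mul_mem (R.mul_mem e1 e2) (R.inv_mem e3)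

/-- The basic congruence: `a ≡ b ^ 2` modulo the commutator of `A` with the diagonal subgroup. -/
theorem mem_comm_diag (h : IsSpecialRankOnePair A Y) (hAc : IsMulCommutative A) {a y b u : G}
    (hm : Matched A Y a y) (hb : Matched A Y b u) (hab : a ≠ b) :
    a * (b * b)⁻¹ ∈ ⁅A, rankOneDiagonal A Y⁆ := by
  have hne : b * a⁻¹ ≠ 1 := by
    intro e
    apply hab
    calc a = (b * a⁻¹)⁻¹ * b := by group
      _ = b := by rw [e]; group
  obtain ⟨z, hz⟩ := exists_matched_right h.1 (A.mul_mem hb.left_mem (A.inv_mem hm.left_mem)) hne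
  have hsa := sigma_mem h hm hb.right_mem
  have hta := sigma_mem h hm hz.right_mem
  have hua := hm.hua' h hb hz
  have hτc := hm.tau_conj_y h
  have hzy : z * y ∈ Y := Y.mul_mem hz.right_mem hm.right_mem
  generalize hs : (a⁻¹ * y * a⁻¹)⁻¹ * u * (a⁻¹ * y * a⁻¹) = s at hsa hua
  have hca : s * a ∈ A := A.mul_mem hsa hm.left_mem
  have hc1 : s * a ≠ 1 := by
    intro e
    rw [e, inv_one, conjBy_one] at hua
    exact conjBy_right_ne_left (RankOnePair_symm h.1) (Y.inv_mem hzy) hua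
  have hzy1 : z * y ≠ 1 := by
    intro e
    rw [e, inv_one, conjBy_one] at hua
    exact conjBy_right_ne_left h.1 (A.inv_mem hca) hua.symm
  have hM : Matched A Y (s * a) (z * y) := ⟨hca, hc1, hzy, hzy1, hua⟩
  have e1 := cong_sigma h hm hb hb.right_mem
  rw [hb.tau_conj_y h, hs] at e1
  have e2 := cong_sigma h hm hz hz.right_mem
  rw [hz.tau_conj_y h] at e2
  generalize ht : (a⁻¹ * y * a⁻¹)⁻¹ * z * (a⁻¹ * y * a⁻¹) = t at hta e2
  have e3 := cong_sigma h hm hM hzy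
  rw [hM.tau_conj_y h] at e3
  have e4 : (a⁻¹ * y * a⁻¹)⁻¹ * (z * y) * (a⁻¹ * y * a⁻¹) = t * a⁻¹ := by
    calc (a⁻¹ * y * a⁻¹)⁻¹ * (z * y) * (a⁻¹ * y * a⁻¹)
        = ((a⁻¹ * y * a⁻¹)⁻¹ * z * (a⁻¹ * y * a⁻¹)) * ((a⁻¹ * y * a⁻¹)⁻¹ * y * (a⁻¹ * y * a⁻¹)) := by group
      _ = t * a⁻¹ := by rw [ht, hτc]
  rw [e4] at e3
  exact alg_mem hAc hsa hta hm.left_mem hb.left_mem e1 e2 e3

theorem enc_pair (x y : G) : Set.encard ({x, y} : Set G) ≤ 2 := by
  calc Set.encard ({x, y} : Set G) ≤ Set.encard ({y} : Set G) + 1 := Set.encard_insert_le _ _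
    _ = 2 := by
      rw [Set.encard_singleton]
      norm_num

theorem exists_three (hcard : 3 < ENat.card A) :
    ∃ a ∈ A, ∃ b ∈ A, ∃ c ∈ A, a ≠ 1 ∧ b ≠ 1 ∧ c ≠ 1 ∧ a ≠ b ∧ a ≠ c ∧ b ≠ c := by
  have hE : 3 < Set.encard (A : Set G) := by
    rw [← ENat.card_coe_set_eq]
    exact hcard
  have ha : ∃ a ∈ A, a ≠ 1 := by
    by_contra hcon
    push Not at hcon
    have h1 : (A : Set G) ⊆ {1} := fun x hx => hcon x hx
    have h2 := Set.encard_le_encard h1
    rw [Set.encard_singleton] at h2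
    exact absurd (lt_of_lt_of_le hE h2) (by norm_num)
  obtain ⟨a, ha, ha1⟩ := ha
  have hb : ∃ b ∈ A, b ≠ 1 ∧ a ≠ b := by
    by_contra hcon
    push Not at hcon
    have h1 : (A : Set G) ⊆ {1, a} := by
      intro x hx
      by_cases hx1 : x = 1
      · exact Or.inl hx1
      · exact Or.inr (hcon x hx hx1).symm
    have h2 : Set.encard (A : Set G) ≤ 2 := by
      refine (Set.encard_le_encard h1).trans ?_
      exact enc_pair _ _
    exact absurd (lt_of_lt_of_le hE h2) (by norm_num)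
  obtain ⟨b, hb, hb1, hab⟩ := hb
  have hc : ∃ c ∈ A, c ≠ 1 ∧ a ≠ c ∧ b ≠ c := by
    by_contra hcon
    push Not at hcon
    have h1 : (A : Set G) ⊆ {1, a, b} := by
      intro x hx
      by_cases hx1 : x = 1
      · exact Or.inl hx1
      · by_cases hx2 : a = x
        · exact Or.inr (Or.inl hx2.symm)
        · exact Or.inr (Or.inr (hcon x hx hx1 hx2).symm)
    have h2 : Set.encard (A : Set G) ≤ 3 := by
      refine (Set.encard_le_encard h1).trans ?_
      calc Set.encard ({1, a, b} : Set G) ≤ Set.encard ({a, b} : Set G) + 1 := Set.encard_insert_le _ _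
        _ ≤ 2 + 1 := by
          gcongr
          exact enc_pair _ _
        _ = 3 := by norm_num
    exact absurd hE (not_lt.mpr h2)
  obtain ⟨c, hc, hc1, hac, hbc⟩ := hc
  exact ⟨a, ha, b, hb, c, hc, ha1, hb1, hc1, hab, hac, hbc⟩

/-- The commutator with the diagonal subgroup is everything. -/
theorem le_comm_diag (h : IsSpecialRankOnePair A Y) (hAc : IsMulCommutative A) (hcard : 3 < ENat.card A) :
    A ≤ ⁅A, rankOneDiagonal A Y⁆ := by
  obtain ⟨a, ha, b, hb, c, hc, ha1, hb1, hc1, hab, hac, hbc⟩ := exists_three hcard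
  have hmat : ∀ {x : G}, x ∈ A → x ≠ 1 → ∃ y, Matched A Y x y := fun hx hx1 =>
    exists_matched_right h.1 hx hx1
  have hcong : ∀ {x z : G}, x ∈ A → z ∈ A → x ≠ 1 → z ≠ 1 → x ≠ z → x * (z * z)⁻¹ ∈ ⁅A, rankOneDiagonal A Y⁆ := by
    intro x z hx hz hx1 hz1 hxz
    obtain ⟨y, hy⟩ := hmat hx hx1
    obtain ⟨w, hw⟩ := hmat hz hz1
    exact mem_comm_diag h hAc hy hw hxz
  generalize hR : ⁅A, rankOneDiagonal A Y⁆ = R at hcong ⊢
  have h1 := hcong ha hc ha1 hc1 hac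
  have h2 := hcong hb hc hb1 hc1 hbc
  have hr : a * b⁻¹ ∈ R := by
    have := R.mul_mem h1 (R.inv_mem h2)
    have e : a * (c * c)⁻¹ * (b * (c * c)⁻¹)⁻¹ = a * b⁻¹ := by group
    rwa [e] at this
  have hr1 : a * b⁻¹ ≠ 1 := by
    intro e
    exact hab (mul_inv_eq_one.mp e)
  have hrA : a * b⁻¹ ∈ A := A.mul_mem ha (A.inv_mem hb)
  generalize hrd : a * b⁻¹ = r at hr hr1 hrA
  intro x hx
  by_contra hxR
  have hx1 : x ≠ 1 := by
    rintro rfl
    exact hxR R.one_mem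
  have hxr : x * r ≠ 1 := by
    intro e
    apply hxR
    have : x = r⁻¹ := eq_inv_of_mul_eq_one_left e
    rw [this]
    exact R.inv_mem hr
  have hne : x ≠ x * r := by
    intro e
    apply hr1
    have h0 : x * r = x * 1 := by rw [mul_one]; exact e.symm
    exact mul_left_cancel h0
  have h3 := hcong hx (A.mul_mem hx hrA) hx1 hxr hne
  have hcomm : x * r = r * x := comm_of_mem hAc hx hrA
  have e : x * (x * r * (x * r))⁻¹ = (x * (r * r))⁻¹ := by
    have : x * r * (x * r) = (x * (r * r)) * x := by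
      calc x * r * (x * r) = x * r * (r * x) := by rw [hcomm]
        _ = (x * (r * r)) * x := by group
    rw [this]
    group
  rw [e] at h3
  have h4 := R.inv_mem h3
  rw [inv_inv] at h4
  have h6 := R.mul_mem h4 (R.inv_mem (R.mul_mem hr hr))
  have h7 : x * (r * r) * (r * r)⁻¹ = x := by group
  rw [h7] at h6
  exact hxR h6

/-- Elements of a join of two abelian subgroups commute modulo a normal subgroup containing their
commutators. -/
theorem comm_sup_mem {N : Subgroup G} [hN : N.Normal] (hAc : IsMulCommutative A) (hYc : IsMulCommutative Y)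
    (hle : ∀ x ∈ A, ∀ y ∈ Y, x * y * x⁻¹ * y⁻¹ ∈ N) :
    ∀ x ∈ A ⊔ Y, ∀ y ∈ A ⊔ Y, x * y * x⁻¹ * y⁻¹ ∈ N := by
  let π := QuotientGroup.mk' N
  have hπ : ∀ {x y : G}, π x * π y = π y * π x → x * y * x⁻¹ * y⁻¹ ∈ N := by
    intro x y e
    rw [← QuotientGroup.ker_mk' N, MonoidHom.mem_ker]
    change π (x * y * x⁻¹ * y⁻¹) = 1
    simp only [map_mul, map_inv]
    rw [e]
    group
  have hπ' : ∀ {x y : G}, x * y * x⁻¹ * y⁻¹ ∈ N → π x * π y = π y * π x := by
    intro x y e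
    rw [← QuotientGroup.ker_mk' N, MonoidHom.mem_ker] at e
    change π (x * y * x⁻¹ * y⁻¹) = 1 at e
    simp only [map_mul, map_inv] at e
    have h1 : π x * π y * (π x)⁻¹ * (π y)⁻¹ * (π y * π x) = π y * π x := by rw [e, one_mul]
    rw [← h1]
    group
  have hAY : ∀ x ∈ A, ∀ y ∈ Y, π x * π y = π y * π x := fun x hx y hy => hπ' (hle x hx y hy)
  have h1 : ∀ q ∈ A, ∀ x ∈ A ⊔ Y, π x * π q = π q * π x := by
    intro q hq x hx
    have hle' : A ⊔ Y ≤ (Subgroup.centralizer {π q}).comap π := by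
      refine sup_le ?_ ?_
      · intro v hv
        rw [Subgroup.mem_comap, Subgroup.mem_centralizer_iff]
        rintro _ rfl
        rw [← map_mul, ← map_mul, comm_of_mem hAc hq hv]
      · intro v hv
        rw [Subgroup.mem_comap, Subgroup.mem_centralizer_iff]
        rintro _ rfl
        exact hAY q hq v hv
    have := Subgroup.mem_centralizer_iff.mp (Subgroup.mem_comap.mp (hle' hx)) (π q) rfl
    exact this.symm
  have h2 : ∀ q ∈ Y, ∀ x ∈ A ⊔ Y, π x * π q = π q * π x := by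
    intro q hq x hx
    have hle' : A ⊔ Y ≤ (Subgroup.centralizer {π q}).comap π := by
      refine sup_le ?_ ?_
      · intro v hv
        rw [Subgroup.mem_comap, Subgroup.mem_centralizer_iff]
        rintro _ rfl
        exact (hAY v hv q hq).symm
      · intro v hv
        rw [Subgroup.mem_comap, Subgroup.mem_centralizer_iff]
        rintro _ rfl
        rw [← map_mul, ← map_mul, comm_of_mem hYc hq hv]
    have := Subgroup.mem_centralizer_iff.mp (Subgroup.mem_comap.mp (hle' hx)) (π q) rfl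
    exact this.symm
  intro x hx y hy
  apply hπ
  have hle' : A ⊔ Y ≤ (Subgroup.centralizer {π x}).comap π := by
    refine sup_le ?_ ?_
    · intro v hv
      rw [Subgroup.mem_comap, Subgroup.mem_centralizer_iff]
      rintro _ rfl
      exact h1 v hv x hx
    · intro v hv
      rw [Subgroup.mem_comap, Subgroup.mem_centralizer_iff]
      rintro _ rfl
      exact h2 v hv x hx
  have := Subgroup.mem_centralizer_iff.mp (Subgroup.mem_comap.mp (hle' hy)) (π x) rfl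
  exact this

/-- A normal subgroup containing the commutators of a special pair contains `A`, when `A` has more
than three elements. -/
theorem le_of_comm_le {N : Subgroup G} [hN : N.Normal] (h : IsSpecialRankOnePair A Y)
    (hAc : IsMulCommutative A) (hYc : IsMulCommutative Y) (hcard : 3 < ENat.card A)
    (hle : ∀ x ∈ A, ∀ y ∈ Y, x * y * x⁻¹ * y⁻¹ ∈ N) : A ≤ N := by
  refine (le_comm_diag h hAc hcard).trans ?_
  rw [Subgroup.commutator_le]
  intro a ha d hd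
  have hd' : d ∈ A ⊔ Y := Subgroup.mem_inf.mp (Subgroup.mem_inf.mp hd).1 |>.1
  have := comm_sup_mem hAc hYc hle a (Subgroup.mem_sup_left ha) d hd'
  rwa [commutatorElement_def]

/-- Matched elements multiply into a normal subgroup containing the commutators. -/
theorem mul_mem_of_comm {N : Subgroup G} [hN : N.Normal] (h : IsSpecialRankOnePair A Y)
    (hAc : IsMulCommutative A) (hYc : IsMulCommutative Y)
    (hle : ∀ x ∈ A, ∀ y ∈ Y, x * y * x⁻¹ * y⁻¹ ∈ N) {a y : G} (hm : Matched A Y a y) : a * y ∈ N := by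
  have h1 := hm.tau_conj_y h
  have h2 := comm_sup_mem hAc hYc hle _ ((A ⊔ Y).inv_mem (tau_mem_sup hm)) y (Subgroup.mem_sup_right hm.right_mem)
  generalize ht : a⁻¹ * y * a⁻¹ = t at h1 h2
  have h3 : t⁻¹ * y * t⁻¹⁻¹ = a⁻¹ := by rw [inv_inv]; exact h1
  rw [h3] at h2
  have h4 := N.inv_mem h2
  have h5 : (a⁻¹ * y⁻¹)⁻¹ = y * a := by group
  rw [h5] at h4
  have h6 := hN.conj_mem _ h4 a
  have h7 : a * (y * a) * a⁻¹ = a * y := by group
  rwa [h7] at h6

end Cfsg.Agent.Lib.RootAbsorb
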