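import Mathlib
import Cfsg.Prelude.Def_RootSubgroups
import Cfsg.Agent.Lib.RankOne
import Cfsg.Agent.Lib.RootBasic

/-!
Lines and connectivity for sets of abstract root subgroups (Timmesfeld, chapter II, section 2).
-/

namespace Cfsg.Agent.Lib.RootLines

open Cfsg Cfsg.Agent.Lib.RankOne Cfsg.Agent.Lib.RootBasic
open scoped commutatorElement

variable {G : Type*} [Group G] {S : Set (Subgroup G)} {A B C D E : Subgroup G}

theorem line_members (hS : IsRootSubgroupSet S) (hA : A ∈ S) (hD : D ∈ S) (hAD : IsRankOnePair A D)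
    (h : RootCommutatorCase S A B) :
    membersIn S (A ⊔ ⁅A, B⁆) = (fun b : G => conjBy A b) '' (B : Set G) ∪ {⁅A, B⁆} := by
  ext E
  constructor
  · rintro ⟨hE, hEle⟩
    by_cases hEC : E ≤ ⁅A, B⁆
    · right
      exact eq_of_le_commutator hS hA hD hAD h hE hEC
    · left
      obtain ⟨e, he, heC⟩ := SetLike.not_le_iff_exists.mp hEC
      obtain ⟨a, ha, c, hc, hea⟩ := exists_mul_of_mem_sup (CommCase.comm_AC h) (hEle he)
      have ha1 : a⁻¹ ≠ 1 := by
        intro h1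
        apply heC
        have : a = 1 := by simpa using h1
        rw [hea, this, one_mul]
        exact hc
      obtain ⟨b, hb, hbe⟩ := CommCase.exists_right h (A.inv_mem ha) ha1 hc
      have he1 : e ≠ 1 := by
        rintro rfl
        exact heC (Subgroup.one_mem _)
      have hmem : e ∈ conjBy A b := by
        have : e = b * a * b⁻¹ := by
          rw [hea, ← hbe]
          group
        rw [this]
        exact conj_mem_conjBy ha
      exact ⟨b, hb, eq_of_mem_inter hS (hS.conj_mem A hA b) (hS.conj_mem D hD b)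
        (isRankOnePair_conj hAD b) hE hmem he he1⟩
  · rintro (⟨b, hb, rfl⟩ | rfl)
    · exact ⟨hS.conj_mem A hA b, CommCase.conj_le_sup h hb⟩
    · exact ⟨h.1, le_sup_right⟩

theorem line_partition (hS : IsRootSubgroupSet S) (hA : A ∈ S) (hD : D ∈ S) (hAD : IsRankOnePair A D)
    (h : RootCommutatorCase S A B) :
    IsSubgroupPartition (A ⊔ ⁅A, B⁆) (membersIn S (A ⊔ ⁅A, B⁆)) := by
  refine ⟨fun E hE => hE.2, ?_, ?_⟩
  · intro x hx hx1
    obtain ⟨a, ha, c, hc, rfl⟩ := exists_mul_of_mem_sup (CommCase.comm_AC h) hx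
    by_cases ha1 : a = 1
    · refine ⟨⁅A, B⁆, ⟨h.1, le_sup_right⟩, ?_⟩
      rw [ha1, one_mul]
      exact hc
    · obtain ⟨b, hb, hbe⟩ := CommCase.exists_right h (A.inv_mem ha) (by simpa using ha1) hc
      refine ⟨conjBy A b, ⟨hS.conj_mem A hA b, CommCase.conj_le_sup h hb⟩, ?_⟩
      have : a * c = b * a * b⁻¹ := by
        rw [← hbe]
        group
      rw [this]
      exact conj_mem_conjBy ha
  · intro E₁ hE₁ E₂ hE₂ hne
    rw [eq_bot_iff]
    intro x hx
    rw [Subgroup.mem_bot]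
    by_contra hx1
    have hxE₁ : x ∈ E₁ := hx.1
    have hxE₂ : x ∈ E₂ := hx.2
    have hm := line_members hS hA hD hAD h
    have key : ∀ X Y : Subgroup G, X ∈ membersIn S (A ⊔ ⁅A, B⁆) → Y ∈ membersIn S (A ⊔ ⁅A, B⁆) →
        x ∈ X → x ∈ Y → X ≠ ⁅A, B⁆ → X = Y := by
      intro X Y hX hY hxX hxY hXC
      have hX' := hX
      rw [hm] at hX'
      rcases hX' with ⟨b, -, rfl⟩ | hX'
      · exact eq_of_mem_inter hS (hS.conj_mem A hA b) (hS.conj_mem D hD b)
          (isRankOnePair_conj hAD b) hY.1 hxX hxY hx1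
      · exact absurd hX' hXC
    by_cases hE : E₁ = ⁅A, B⁆
    · have : E₂ ≠ ⁅A, B⁆ := fun h2 => hne (hE.trans h2.symm)
      exact hne (key E₂ E₁ hE₂ hE₁ hxE₂ hxE₁ this).symm
    · exact hne (key E₁ E₂ hE₁ hE₂ hxE₁ hxE₂ hE)

theorem ne_commutator (hS : IsRootSubgroupSet S) (hA : A ∈ S) (hD : D ∈ S) (hAD : IsRankOnePair A D)
    (h : RootCommutatorCase S A B) : A ≠ ⁅A, B⁆ := by
  intro e
  obtain ⟨a, ha, ha1⟩ := exists_ne_one_left hAD
  obtain ⟨b, hb, hb1⟩ := CommCase.exists_ne_one_right hS h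
  apply comm_ne_one hS hA hD hAD h ha ha1 hb hb1
  have ha' : a ∈ ⁅A, B⁆ := by
    rw [← e]
    exact ha
  rw [CommCase.comm_right h ha' hb]
  group

theorem commutator_eq_bot_of_comm {X Y : Subgroup G} (h : ∀ x ∈ X, ∀ y ∈ Y, x * y = y * x) : ⁅X, Y⁆ = ⊥ := by
  rw [eq_bot_iff, Subgroup.commutator_le]
  intro x hx y hy
  rw [Subgroup.mem_bot, commutatorElement_def, h x hx y hy]
  group

theorem comm_of_commutator_eq_bot {X Y : Subgroup G} (h : ⁅X, Y⁆ = ⊥) {x y : G} (hx : x ∈ X) (hy : y ∈ Y) :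
    x * y = y * x := by
  have := comm_mem hx hy
  rw [h, Subgroup.mem_bot] at this
  have h2 : x * y * x⁻¹ = y := mul_inv_eq_one.mp this
  calc x * y = (x * y * x⁻¹) * x := by group
    _ = y * x := by rw [h2]

theorem line_partner (hS : IsRootSubgroupSet S) (hA : A ∈ S) (hD : D ∈ S) (hAD : IsRankOnePair A D)
    (h : RootCommutatorCase S A B) : A ∈ linePartners S ⁅A, B⁆ := by
  refine ⟨⟨hA, ne_commutator hS hA hD hAD h, ?_⟩, ?_⟩
  · exact commutator_eq_bot_of_comm fun x hx y hy => CommCase.comm_left h hx hy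
  · rw [sup_comm]
    exact line_partition hS hA hD hAD h

theorem exists_equiv (hS : IsRootSubgroupSet S) (hA : A ∈ S) (hD : D ∈ S) (hAD : IsRankOnePair A D)
    (h : RootCommutatorCase S A B) {a : G} (ha : a ∈ A) (ha1 : a ≠ 1) :
    ∃ φ : ↥B ≃* ↥⁅A, B⁆, ∀ b : ↥B, (φ b : G) = a⁻¹ * (b : G)⁻¹ * a * b := by
  have hmem : ∀ b ∈ B, a⁻¹ * b⁻¹ * a * b ∈ ⁅A, B⁆ := by
    intro b hb
    have := comm_mem (A.inv_mem ha) (B.inv_mem hb)
    simpa using this
  let f : ↥B →* ↥⁅A, B⁆ := MonoidHom.mk' (fun b => ⟨a⁻¹ * (b : G)⁻¹ * a * b, hmem b b.2⟩) (by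
    rintro ⟨b, hb⟩ ⟨b', hb'⟩
    apply Subtype.ext
    show a⁻¹ * (b * b')⁻¹ * a * (b * b') = (a⁻¹ * b⁻¹ * a * b) * (a⁻¹ * b'⁻¹ * a * b')
    have hu := hmem b hb
    have hu' := hmem b' hb'
    have h1 := CommCase.comm_right h hu hb'
    have h2 := h.2.1 _ hu _ ((A ⊔ B).mul_mem ((A ⊔ B).mul_mem (Subgroup.mem_sup_left (A.inv_mem ha))
      (Subgroup.mem_sup_right (B.inv_mem hb'))) (Subgroup.mem_sup_left ha))
    set u := a⁻¹ * b⁻¹ * a * b with hudef
    have e1 : b⁻¹ * a * b = a * u := by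
      rw [hudef]
      group
    calc a⁻¹ * (b * b')⁻¹ * a * (b * b') = a⁻¹ * b'⁻¹ * (b⁻¹ * a * b) * b' := by group
      _ = a⁻¹ * b'⁻¹ * (a * u) * b' := by rw [e1]
      _ = (a⁻¹ * b'⁻¹ * a) * (u * b') := by group
      _ = (a⁻¹ * b'⁻¹ * a) * (b' * u) := by rw [h1]
      _ = (a⁻¹ * b'⁻¹ * a * b') * u := by group
      _ = u * (a⁻¹ * b'⁻¹ * a * b') := by
        have h3 := h.2.1 _ hu (a⁻¹ * b'⁻¹ * a * b') ((A ⊔ B).mul_mem ((A ⊔ B).mul_mem ((A ⊔ B).mul_mem
          (Subgroup.mem_sup_left (A.inv_mem ha)) (Subgroup.mem_sup_right (B.inv_mem hb')))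
          (Subgroup.mem_sup_left ha)) (Subgroup.mem_sup_right hb'))
        exact h3.symm)
  have hinj : Function.Injective f := by
    rw [injective_iff_map_eq_one]
    rintro ⟨b, hb⟩ hb1
    have e : a⁻¹ * b⁻¹ * a * b = 1 := congrArg Subtype.val hb1
    by_contra hne
    have hb1' : b⁻¹ ≠ 1 := by
      intro h1
      apply hne
      apply Subtype.ext
      simpa using h1
    apply comm_ne_one hS hA hD hAD h (A.inv_mem ha) (by simpa using ha1) (B.inv_mem hb) hb1'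
    simpa using e
  have hsurj : Function.Surjective f := by
    rintro ⟨c, hc⟩
    obtain ⟨b, hb, hbe⟩ := CommCase.exists_right h (A.inv_mem ha) (by simpa using ha1) hc
    refine ⟨⟨b⁻¹, B.inv_mem hb⟩, ?_⟩
    apply Subtype.ext
    show a⁻¹ * (b⁻¹)⁻¹ * a * b⁻¹ = c
    rw [← hbe]
    group
  exact ⟨MulEquiv.ofBijective f ⟨hinj, hsurj⟩, fun b => rfl⟩

/-! ### The key lemma -/

theorem key_lemma (hS : IsRootSubgroupSet S) (hA : A ∈ S) (hD : D ∈ S) (hE : E ∈ S)
    (hAD : IsRankOnePair A D) (hAC : ∀ x ∈ A, ∀ y ∈ C, x * y = y * x) (hcase : RootCommutatorCase S C D)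
    {a c : G} (ha : a ∈ A) (ha1 : a ≠ 1) (hc : c ∈ C) (hac : a * c ∈ E) :
    IsRankOnePair E D ∨ (IsRankOnePair E ⁅C, D⁆ ∧ IsRankOnePair A ⁅C, D⁆) := by
  have hDC := CommCase.symm hcase
  have hFeq : ⁅D, C⁆ = ⁅C, D⁆ := Subgroup.commutator_comm D C
  set F := ⁅C, D⁆ with hFdef
  have hFS : F ∈ S := hcase.1
  rcases hS.pair A hA F hFS with hb | hr | hc2
  · exfalso
    apply comm_partner hS hD hA (RankOnePair_symm hAD) hDC
    intro f hf x hx
    rw [hFeq] at hf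
    exact (comm_of_commutator_eq_bot hb hx hf).symm
  · right
    refine ⟨?_, hr⟩
    rcases nil_or_rankOne hS hE hFS with hn | hr2
    · exfalso
      have h1 := nil_conj_comm (hS.commutative F hFS) hn hac
      have h2 : conjBy F (a * c) = conjBy F a := by
        have h3 : conjBy F c = F := conjBy_eq_of_commute fun f hf => (CommCase.comm_left hcase hf hc).symm
        rw [conjBy_mul, h3]
      rw [h2] at h1
      exact no_comm_conj hr ha ha1 h1
    · exact hr2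
  · left
    rcases nil_or_rankOne hS hE hD with hn | hr2
    swap
    · exact hr2
    exfalso
    obtain ⟨d, hd, hd1, e⟩ := hAD.cond_left a ha ha1
    have hE₂S : conjBy (conjBy F a⁻¹) d ∈ S := hS.conj_mem _ (hS.conj_mem F hFS _) _
    have hE₂eq : conjBy (conjBy F a⁻¹) d = ⁅conjBy C d, A⁆ := by
      have e1 : conjBy F a⁻¹ = ⁅C, conjBy A d⁻¹⁆ := by
        rw [e, hFdef]
        simp only [conjBy]
        rw [Subgroup.map_commutator]
        congr 1
        exact conjBy_eq_of_commute fun y hy => by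
          have := hAC a ha y hy
          calc a⁻¹ * y = a⁻¹ * (y * a) * a⁻¹ := by group
            _ = a⁻¹ * (a * y) * a⁻¹ := by rw [this]
            _ = y * a⁻¹ := by group
      rw [e1]
      simp only [conjBy]
      rw [Subgroup.map_commutator]
      congr 1
      exact conjBy_inv_conjBy A d
    have hle : conjBy (conjBy F a⁻¹) d ≤ ⁅A, F⁆ := by
      rw [hE₂eq, Subgroup.commutator_le]
      intro x hx a₁ ha₁
      rw [mem_conjBy] at hx
      set c₁ := d⁻¹ * x * d with hc₁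
      have hf' : d * c₁ * d⁻¹ * c₁⁻¹ ∈ F := by
        rw [← hFeq]
        exact comm_mem hd hx
      set f' := d * c₁ * d⁻¹ * c₁⁻¹ with hf'def
      have hxe : x = f' * c₁ := by
        rw [hf'def, hc₁]
        group
      have h1 : c₁ * a₁ = a₁ * c₁ := (hAC a₁ ha₁ c₁ hx).symm
      have h2 : ⁅x, a₁⁆ = (a₁ * f' * a₁⁻¹ * f'⁻¹)⁻¹ := by
        rw [commutatorElement_def, hxe]
        calc f' * c₁ * a₁ * (f' * c₁)⁻¹ * a₁⁻¹ = f' * (c₁ * a₁) * c₁⁻¹ * f'⁻¹ * a₁⁻¹ := by group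
          _ = f' * (a₁ * c₁) * c₁⁻¹ * f'⁻¹ * a₁⁻¹ := by rw [h1]
          _ = _ := by group
      rw [h2]
      exact Subgroup.inv_mem _ (comm_mem ha₁ hf')
    have e3 := eq_of_le_commutator hS hA hD hAD hc2 hE₂S hle
    set G₁ := ⁅A, F⁆ with hG₁
    have hG₁S : G₁ ∈ S := hc2.1
    have e4 : conjBy G₁ d⁻¹ = conjBy F a⁻¹ := conjBy_eq_of_inv e3
    have hFG : ∀ x ∈ F, ∀ y ∈ G₁, x * y = y * x := fun x hx y hy =>
      (CommCase.comm_right hc2 hy hx).symm
    have hnil : NilPair G₁ D := by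
      rcases nil_or_rankOne hS hG₁S hD with h1 | h1
      · exact h1
      · exfalso
        apply no_comm_conj (RankOnePair_symm h1) (D.inv_mem hd) (by simpa using hd1)
        rw [e4]
        intro x hx g hg
        rw [mem_conjBy] at hx
        set f₁ := a⁻¹⁻¹ * x * a⁻¹ with hf₁
        have hx' : x ∈ F ⊔ G₁ := by
          have h2 : x = f₁ * (a⁻¹ * f₁⁻¹ * a⁻¹⁻¹ * f₁⁻¹⁻¹)⁻¹ := by
            rw [hf₁]
            group
          rw [h2]
          exact (F ⊔ G₁).mul_mem (Subgroup.mem_sup_left hx) (Subgroup.mem_sup_right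
            (Subgroup.inv_mem _ (comm_mem (A.inv_mem ha) (F.inv_mem hx))))
        exact sup_comm_of_comm (hS.commutative F hFS) (hS.commutative G₁ hG₁S) hFG hx'
          (Subgroup.mem_sup_right hg)
    -- the computation
    set a' := a * c with ha'
    set z := a'⁻¹ * d⁻¹ * a' * d with hzdef
    have hz : z ∈ ⁅E, D⁆ := by
      have := comm_mem (E.inv_mem hac) (D.inv_mem hd)
      simpa using this
    have hza' : z * a' = a' * z := hn z hz a' (Subgroup.mem_sup_left hac)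
    have hzD : ∀ x ∈ D, z * x = x * z := fun x hx => hn z hz x (Subgroup.mem_sup_right hx)
    set f := c⁻¹ * d⁻¹ * c * d with hfdef
    have hf : f ∈ F := by
      have := comm_mem (C.inv_mem hc) (D.inv_mem hd)
      simpa using this
    have hfc : f * c = c * f := CommCase.comm_left hcase hf hc
    have hfD : ∀ x ∈ D, f * x = x * f := fun x hx => CommCase.comm_right hcase hf hx
    set d₂ := a * (d⁻¹ * a * d) * a⁻¹ with hd₂def
    have hd₂ : d₂ ∈ D := by
      have h1 : d⁻¹ * a * d⁻¹⁻¹ ∈ conjBy A d⁻¹ := conj_mem_conjBy ha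
      rw [e, mem_conjBy] at h1
      simpa [hd₂def, mul_assoc] using h1
    set g₃ := a * f⁻¹ * a⁻¹ * f⁻¹⁻¹ with hg₃def
    have hg₃ : g₃ ∈ G₁ := comm_mem ha (F.inv_mem hf)
    have hac' : a * c = c * a := hAC a ha c hc
    have hid : d₂ = a * z * g₃ * f⁻¹ := by
      have h1 : d⁻¹ * a' * d = a' * z := by
        rw [hzdef]
        group
      have h2 : d⁻¹ * c * d = c * f := by
        rw [hfdef]
        group
      have h3 : d⁻¹ * a * d = (a' * z) * (c * f)⁻¹ := by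
        rw [← h1, ← h2, ha']
        group
      have hfi : c * f⁻¹ = f⁻¹ * c := by
        calc c * f⁻¹ = f⁻¹ * (f * c) * f⁻¹ := by group
          _ = f⁻¹ * (c * f) * f⁻¹ := by rw [hfc]
          _ = f⁻¹ * c := by group
      calc d₂ = a * ((a' * z) * (c * f)⁻¹) * a⁻¹ := by rw [hd₂def, h3]
        _ = a * (a' * z) * f⁻¹ * (a' )⁻¹ := by
          rw [ha']
          group
        _ = a * (z * a') * f⁻¹ * a'⁻¹ := by rw [hza']
        _ = a * z * (a * (c * f⁻¹) * c⁻¹ * a⁻¹) := by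
          rw [ha']
          group
        _ = a * z * (a * (f⁻¹ * c) * c⁻¹ * a⁻¹) := by rw [hfi]
        _ = a * z * g₃ * f⁻¹ := by
          rw [hg₃def]
          group
    have hDab := hS.commutative D hD
    have hcomm := nil_conj_comm hDab hnil hg₃
    apply no_comm_conj hAD (A.inv_mem ha) (by simpa using ha1)
    intro x hx d₀ hd₀
    rw [mem_conjBy] at hx
    set d₁ := a⁻¹⁻¹ * x * a⁻¹ with hd₁
    have ha_eq : a = d₂ * f * g₃⁻¹ * z⁻¹ := by
      rw [hid]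
      group
    have hxe : x = z * (g₃ * d₁ * g₃⁻¹) * z⁻¹ := by
      have h1 : x = a⁻¹ * d₁ * a := by
        rw [hd₁]
        group
      have h2 : (d₂ * f)⁻¹ * d₁ * (d₂ * f) = d₁ := by
        have h3 : d₂ * d₁ = d₁ * d₂ := comm_of_mem hDab hd₂ hx
        have h4 := hfD d₁ hx
        calc (d₂ * f)⁻¹ * d₁ * (d₂ * f) = f⁻¹ * d₂⁻¹ * (d₁ * d₂) * f := by group
          _ = f⁻¹ * d₂⁻¹ * (d₂ * d₁) * f := by rw [h3]
          _ = f⁻¹ * (d₁ * f) := by group
          _ = f⁻¹ * (f * d₁) := by rw [h4]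
          _ = d₁ := by group
      calc x = a⁻¹ * d₁ * a := h1
        _ = (d₂ * f * g₃⁻¹ * z⁻¹)⁻¹ * d₁ * (d₂ * f * g₃⁻¹ * z⁻¹) := by rw [← ha_eq]
        _ = z * g₃ * ((d₂ * f)⁻¹ * d₁ * (d₂ * f)) * g₃⁻¹ * z⁻¹ := by group
        _ = z * g₃ * d₁ * g₃⁻¹ * z⁻¹ := by rw [h2]
        _ = z * (g₃ * d₁ * g₃⁻¹) * z⁻¹ := by group
    have hy : g₃ * d₁ * g₃⁻¹ ∈ conjBy D g₃ := conj_mem_conjBy hx
    have h5 := hcomm _ hy d₀ hd₀
    have h6 := hzD d₀ hd₀
    set y := g₃ * d₁ * g₃⁻¹ with hydef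
    have hzi : z⁻¹ * d₀ = d₀ * z⁻¹ := by
      calc z⁻¹ * d₀ = z⁻¹ * (d₀ * z) * z⁻¹ := by group
        _ = z⁻¹ * (z * d₀) * z⁻¹ := by rw [h6]
        _ = d₀ * z⁻¹ := by group
    rw [hxe]
    calc z * y * z⁻¹ * d₀ = z * y * (z⁻¹ * d₀) := by group
      _ = z * y * (d₀ * z⁻¹) := by rw [hzi]
      _ = z * (y * d₀) * z⁻¹ := by group
      _ = z * (d₀ * y) * z⁻¹ := by rw [h5]
      _ = (z * d₀) * y * z⁻¹ := by group
      _ = (d₀ * z) * y * z⁻¹ := by rw [h6]
      _ = d₀ * (z * y * z⁻¹) := by group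

end Cfsg.Agent.Lib.RootLines
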