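import Mathlib
import Cfsg.Prelude.Def_RootSubgroups
import Cfsg.Agent.Lib.RankOne
import Cfsg.Agent.Lib.RootBasic
import Cfsg.Agent.Lib.RootLines

/-!
Connectivity of the graph of rank one pairs (Timmesfeld, chapter II, section 2).
-/

namespace Cfsg.Agent.Lib.RootConn

open Cfsg Cfsg.Agent.Lib.RankOne Cfsg.Agent.Lib.RootBasic Cfsg.Agent.Lib.RootLines
open scoped commutatorElement

variable {G : Type*} [Group G] {S : Set (Subgroup G)} {A B C D E : Subgroup G}

theorem fadj_symm {X Y : Subgroup G} (h : FAdj S X Y) : FAdj S Y X :=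
  ⟨h.2.1, h.1, RankOnePair_symm h.2.2⟩

theorem rel_symm {X Y : Subgroup G} (h : Relation.ReflTransGen (FAdj S) X Y) :
    Relation.ReflTransGen (FAdj S) Y X :=
  by
    induction h with
    | refl => exact Relation.ReflTransGen.refl
    | tail _ hbc ih => exact Relation.ReflTransGen.head (fadj_symm hbc) ih

theorem rel_conj (hS : IsRootSubgroupSet S) {X Y : Subgroup G} (h : Relation.ReflTransGen (FAdj S) X Y)
    (g : G) : Relation.ReflTransGen (FAdj S) (conjBy X g) (conjBy Y g) := by
  induction h with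
  | refl => exact Relation.ReflTransGen.refl
  | tail _ hbc ih =>
    exact ih.tail ⟨hS.conj_mem _ hbc.1 g, hS.conj_mem _ hbc.2.1 g, isRankOnePair_conj hbc.2.2 g⟩

theorem adj_rel {X Y : Subgroup G} (hX : X ∈ S) (hY : Y ∈ S) (h : IsRankOnePair X Y) :
    Relation.ReflTransGen (FAdj S) X Y :=
  Relation.ReflTransGen.single ⟨hX, hY, h⟩

/-- A member with a rank one partner is joined to its conjugates under any member of `S`. -/
theorem rel_conj_of_mem (hS : IsRootSubgroupSet S) (hA : A ∈ S) (hD : D ∈ S) (hAD : IsRankOnePair A D)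
    (hB : B ∈ S) {b : G} (hb : b ∈ B) : Relation.ReflTransGen (FAdj S) A (conjBy A b) := by
  rcases hS.pair A hA B hB with h | h | h
  · rw [conjBy_eq_of_commute]
    intro x hx
    exact (comm_of_commutator_eq_bot h hx hb).symm
  · by_cases e : conjBy A b = A
    · rw [e]
    · have h1 : conjBy A b ∈ unipotentSubgroups A B :=
        conj_mem_unipotent h (left_mem_unipotent h) (Subgroup.mem_sup_right hb)
      exact adj_rel hA (hS.conj_mem A hA b) (pair_of_mem h (left_mem_unipotent h) h1 (Ne.symm e)).1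
  · have hCS : ⁅A, B⁆ ∈ S := h.1
    rcases hS.pair ⁅A, B⁆ hCS D hD with hcd | hr | hcd
    · exfalso
      apply comm_partner hS hA hD hAD h
      intro c hc d hd
      exact comm_of_commutator_eq_bot hcd hc hd
    · -- `A - D - C` and its conjugate under `b`
      have h1 : Relation.ReflTransGen (FAdj S) A ⁅A, B⁆ :=
        (adj_rel hA hD hAD).trans (adj_rel hD hCS (RankOnePair_symm hr))
      have h2 := rel_conj hS h1 b
      have h3 : conjBy ⁅A, B⁆ b = ⁅A, B⁆ :=
        conjBy_eq_of_commute fun c hc => (CommCase.comm_right h hc hb).symm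
      rw [h3] at h2
      exact h1.trans (rel_symm h2)
    · obtain ⟨a, ha, ha1⟩ := exists_ne_one_left hAD
      have hmem : a * (a⁻¹ * b * a * b⁻¹) ∈ conjBy A b := by
        have : a * (a⁻¹ * b * a * b⁻¹) = b * a * b⁻¹ := by group
        rw [this]
        exact conj_mem_conjBy ha
      have hbS := hS.conj_mem A hA b
      rcases key_lemma hS hA hD hbS hAD (CommCase.comm_AC h) hcd ha ha1 (conj_eq_mul ha hb) hmem with
        h1 | ⟨h1, h2⟩
      · exact (adj_rel hA hD hAD).trans (adj_rel hD hbS (RankOnePair_symm h1))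
      · exact (adj_rel hA hcd.1 h2).trans (adj_rel hcd.1 hbS (RankOnePair_symm h1))

/-- A member with a rank one partner is joined to all of its conjugates. -/
theorem rel_conj_all (hS : IsRootSubgroupSet S) (hA : A ∈ S) (hD : D ∈ S) (hAD : IsRankOnePair A D)
    (g : G) : Relation.ReflTransGen (FAdj S) A (conjBy A g) := by
  let T : Subgroup G :=
    { carrier := {g | ∀ X D : Subgroup G, X ∈ S → D ∈ S → IsRankOnePair X D →
        Relation.ReflTransGen (FAdj S) X (conjBy X g)}
      one_mem' := by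
        intro X D _ _ _
        rw [conjBy_one]
      mul_mem' := by
        intro g h hg hh X D hX hD hXD
        have h1 := hh X D hX hD hXD
        have h2 := hg (conjBy X h) (conjBy D h) (hS.conj_mem X hX h) (hS.conj_mem D hD h)
          (isRankOnePair_conj hXD h)
        rw [conjBy_mul]
        exact h1.trans h2
      inv_mem' := by
        intro g hg X D hX hD hXD
        have h2 := hg (conjBy X g⁻¹) (conjBy D g⁻¹) (hS.conj_mem X hX _) (hS.conj_mem D hD _)
          (isRankOnePair_conj hXD _)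
        rw [conjBy_inv_conjBy] at h2
        exact rel_symm h2 }
  have hle : (⊤ : Subgroup G) ≤ T := by
    rw [← hS.generates]
    refine iSup₂_le fun B hB b hb X D hX hD hXD => ?_
    exact rel_conj_of_mem hS hX hD hXD hB hb
  exact hle (Subgroup.mem_top g) A D hA hD hAD

/-- Timmesfeld II.2: connected iff a single class with a non-isolated member. -/
theorem connected_iff (hS : IsRootSubgroupSet S) (h2 : ∃ A ∈ S, ∃ B ∈ S, A ≠ B) :
    IsConnectedFamily (FAdj S) S ↔ (IsConjClassOfSubgroups S ∧ ∃ A ∈ S, ¬ IsIsolatedIn (FAdj S) S A) := by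
  constructor
  · intro hc
    obtain ⟨A, hA, B, hB, hne⟩ := h2
    refine ⟨⟨⟨A, hA⟩, ?_⟩, ?_⟩
    · intro X hX Y hY
      have := hc X hX Y hY
      induction this with
      | refl => exact ⟨1, (conjBy_one X).symm⟩
      | @tail Y Z _ hYZ ih =>
        obtain ⟨g, rfl⟩ := ih hYZ.1
        obtain ⟨x, -, hx⟩ := right_mem_unipotent hYZ.2.2
        exact ⟨x * g, by rw [conjBy_mul]; exact hx⟩
    · refine ⟨A, hA, ?_⟩
      rcases Relation.ReflTransGen.cases_head (hc A hA B hB) with e | ⟨Z, hZ, -⟩
      · exact absurd e hne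
      · intro hi
        exact (hi.2 Z).1 hZ
  · rintro ⟨⟨-, hcl⟩, A, hA, hi⟩ X hX Y hY
    obtain ⟨D, hD, hAD⟩ := exists_partner hi hA
    obtain ⟨g, rfl⟩ := hcl A hA X hX
    obtain ⟨g', rfl⟩ := hcl A hA Y hY
    exact (rel_symm (rel_conj_all hS hA hD hAD g)).trans (rel_conj_all hS hA hD hAD g')

/-- Timmesfeld II.2: members of different components of size `> 1` are not line partners. -/
theorem not_linePartner (hS : IsRootSubgroupSet S) (hA : A ∈ S) (hB : B ∈ S)
    (hne : componentOf (FAdj S) S A ≠ componentOf (FAdj S) S B)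
    (hA2 : ∃ A' ∈ componentOf (FAdj S) S A, A' ≠ A) (hB2 : ∃ B' ∈ componentOf (FAdj S) S B, B' ≠ B) :
    B ∉ linePartners S A := by
  rintro ⟨⟨-, hBA, hc⟩, hpart⟩
  have hnrel : ¬ Relation.ReflTransGen (FAdj S) A B := by
    intro hr
    apply hne
    ext X
    constructor
    · rintro ⟨hX, hp⟩
      exact ⟨hX, (rel_symm hr).trans hp⟩
    · rintro ⟨hX, hp⟩
      exact ⟨hX, hr.trans hp⟩
  have partner : ∀ {X : Subgroup G}, X ∈ S → (∃ X' ∈ componentOf (FAdj S) S X, X' ≠ X) →
      ∃ D ∈ S, IsRankOnePair X D := by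
    intro X hX hX2
    obtain ⟨X', ⟨-, hp⟩, hne'⟩ := hX2
    rcases Relation.ReflTransGen.cases_head hp with e | ⟨Z, hZ, -⟩
    · exact absurd e.symm hne'
    · exact ⟨Z, hZ.2.1, hZ.2.2⟩
  obtain ⟨D, hD, hAD⟩ := partner hA hA2
  obtain ⟨D', hD', hBD'⟩ := partner hB hB2
  have hAB : ∀ x ∈ A, ∀ y ∈ B, x * y = y * x := fun x hx y hy => comm_of_commutator_eq_bot hc hx hy
  have hBA' : ∀ x ∈ B, ∀ y ∈ A, x * y = y * x := fun x hx y hy => (hAB y hy x hx).symm
  obtain ⟨a, ha, ha1⟩ := exists_ne_one_left hAD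
  obtain ⟨b, hb, hb1⟩ := exists_ne_one_left hBD'
  have hab1 : a * b ≠ 1 := by
    intro h1
    have h2 : a = b⁻¹ := eq_inv_of_mul_eq_one_left h1
    have h3 : a ∈ B := by
      rw [h2]
      exact B.inv_mem hb
    exact hBA (eq_of_mem_inter hS hA hD hAD hB ha h3 ha1).symm
  obtain ⟨E, hEm, hxE⟩ := hpart.2.1 (a * b)
    ((A ⊔ B).mul_mem (Subgroup.mem_sup_left ha) (Subgroup.mem_sup_right hb)) hab1
  have hES : E ∈ S := hEm.1
  have hEA : E ≠ A := by
    rintro rfl
    have : b ∈ E := by
      have h3 := E.mul_mem (E.inv_mem ha) hxE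
      simpa using h3
    exact hb1 (by
      by_contra hb1'
      exact hBA (eq_of_mem_inter hS hB hD' hBD' hA hb this hb1'))
  have hEB : E ≠ B := by
    rintro rfl
    have : a ∈ E := by
      have h3 := E.mul_mem hxE (E.inv_mem hb)
      simpa using h3
    exact hBA (eq_of_mem_inter hS hA hD hAD hB ha this ha1).symm
  -- `A` is joined to `E`
  have h1 : Relation.ReflTransGen (FAdj S) A E := by
    rcases hS.pair B hB D hD with h | h | h
    · exfalso
      refine hEA (eq_of_same_action hS hES hD hAD ?_ ha ha1 hxE ?_)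
      · intro x hx y hy
        exact sup_comm_of_comm (hS.commutative A hA) (hS.commutative B hB) hAB
          (Subgroup.mem_sup_left hx) (hEm.2 hy)
      · intro d hd
        have : a⁻¹ * (a * b) = b := by group
        rw [this]
        exact comm_of_commutator_eq_bot h hb hd
    · exfalso
      exact hnrel ((adj_rel hA hD hAD).trans (adj_rel hD hB (RankOnePair_symm h)))
    · rcases key_lemma hS hA hD hES hAD hAB h ha ha1 hb hxE with h2 | ⟨h2, h3⟩
      · exact (adj_rel hA hD hAD).trans (adj_rel hD hES (RankOnePair_symm h2))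
      · exact (adj_rel hA h.1 h3).trans (adj_rel h.1 hES (RankOnePair_symm h2))
  have hxE' : b * a ∈ E := by
    rw [← hAB a ha b hb]
    exact hxE
  have h2 : Relation.ReflTransGen (FAdj S) B E := by
    rcases hS.pair A hA D' hD' with h | h | h
    · exfalso
      refine hEB (eq_of_same_action hS hES hD' hBD' ?_ hb hb1 hxE' ?_)
      · intro x hx y hy
        have hy' : y ∈ B ⊔ A := by
          rw [sup_comm]
          exact hEm.2 hy
        exact sup_comm_of_comm (hS.commutative B hB) (hS.commutative A hA) hBA'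
          (Subgroup.mem_sup_left hx) hy'
      · intro d hd
        have : b⁻¹ * (b * a) = a := by group
        rw [this]
        exact comm_of_commutator_eq_bot h ha hd
    · exfalso
      exact hnrel ((adj_rel hA hD' h).trans (adj_rel hD' hB (RankOnePair_symm hBD')))
    · rcases key_lemma hS hB hD' hES hBD' hBA' h hb hb1 ha hxE' with h2 | ⟨h2, h3⟩
      · exact (adj_rel hB hD' hBD').trans (adj_rel hD' hES (RankOnePair_symm h2))
      · exact (adj_rel hB h.1 h3).trans (adj_rel h.1 hES (RankOnePair_symm h2))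
  exact hnrel (h1.trans (rel_symm h2))

end Cfsg.Agent.Lib.RootConn
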