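import Mathlib
import Cfsg.Prelude.Def_RootSubgroups
import Cfsg.Agent.Lib.RankOne
import Cfsg.Agent.Lib.RootBasic
import Cfsg.Agent.Lib.RootLines

/-!
The rank one group acting on `AC` when `[A, B] = C` and `[D, C] = A`
(Timmesfeld, chapter II, section 2).
-/

namespace Cfsg.Agent.Lib.RootModule

open Cfsg Cfsg.Agent.Lib.RankOne Cfsg.Agent.Lib.RootBasic Cfsg.Agent.Lib.RootLines
open scoped commutatorElement

variable {G : Type*} [Group G] {S : Set (Subgroup G)} {A B C D E : Subgroup G}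

/-- In the situation `[A, B] = C`, `[D, C] = A` the pair `(B, D)` is not nilpotent. -/
theorem not_nil (hS : IsRootSubgroupSet S) (hAB : RootCommutatorCase S A B)
    (hDC : RootCommutatorCase S D ⁅A, B⁆) (hDCeq : ⁅D, ⁅A, B⁆⁆ = A) (hn : NilPair B D) : False := by
  set C := ⁅A, B⁆ with hC
  have hAS : A ∈ S := by
    rw [← hDCeq]
    exact hDC.1
  have hCS : C ∈ S := hAB.1
  have hCb : ∀ c ∈ C, ∀ b ∈ B, c * b = b * c := fun c hc b hb => CommCase.comm_right hAB hc hb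
  have hAC : ∀ a ∈ A, ∀ c ∈ C, a * c = c * a := CommCase.comm_AC hAB
  have hAd : ∀ a ∈ A, ∀ d ∈ D, a * d = d * a := by
    intro a ha d hd
    have ha' : a ∈ ⁅D, C⁆ := by
      rw [hDCeq]
      exact ha
    exact CommCase.comm_left hDC ha' hd
  obtain ⟨b, hb, hb1⟩ := CommCase.exists_ne_one_right hS hAB
  obtain ⟨d, hd, hd1⟩ := CommCase.exists_ne_one_left hS hDC
  have hNab : ∀ {x y : G}, x ∈ A ⊔ C → y ∈ A ⊔ C → x * y = y * x := fun hx hy =>
    sup_comm_of_comm (hS.commutative A hAS) (hS.commutative C hCS) hAC hx hy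
  set r := b * d * b⁻¹ * d⁻¹ with hr
  have hrmem : r ∈ ⁅B, D⁆ := comm_mem hb hd
  have hrb : r * b = b * r := hn r hrmem b (Subgroup.mem_sup_left hb)
  have hrd : r * d = d * r := hn r hrmem d (Subgroup.mem_sup_right hd)
  have hbd : b * d = r * d * b := by
    rw [hr]
    group
  have hbc : ∀ c ∈ C, b * c * b⁻¹ = c := by
    intro c hc
    rw [← hCb c hc b hb]
    group
  have hda : ∀ a ∈ A, d * a * d⁻¹ = a := by
    intro a ha
    rw [← hAd a ha d hd]
    group
  have ha₁mem : ∀ c ∈ C, d * c * d⁻¹ * c⁻¹ ∈ A := by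
    intro c hc
    have := comm_mem hd hc
    rwa [hDCeq] at this
  have hc₁mem : ∀ a ∈ A, b * a * b⁻¹ * a⁻¹ ∈ C := by
    intro a ha
    have := comm_mem hb ha
    rwa [Subgroup.commutator_comm B A] at this
  -- (I)
  have hI : ∀ c ∈ C, r * ((d * c * d⁻¹ * c⁻¹) * c) * r⁻¹ =
      (b * (d * c * d⁻¹ * c⁻¹) * b⁻¹ * (d * c * d⁻¹ * c⁻¹)⁻¹) * (d * c * d⁻¹ * c⁻¹) * c := by
    intro c hc
    have e1 : (d * c * d⁻¹ * c⁻¹) * c = d * c * d⁻¹ := by group
    have e2 : r * (d * c * d⁻¹) * r⁻¹ = (b * d) * c * (b * d)⁻¹ := by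
      have : r * (d * c * d⁻¹) * r⁻¹ = (r * d) * (b * c * b⁻¹) * (r * d)⁻¹ := by
        rw [hbc c hc]
        group
      rw [this, hbd]
      group
    rw [e1, e2]
    have e3 := hbc c hc
    calc (b * d) * c * (b * d)⁻¹ = b * (d * c * d⁻¹) * b⁻¹ := by group
      _ = b * ((d * c * d⁻¹ * c⁻¹) * c) * b⁻¹ := by rw [e1]
      _ = (b * (d * c * d⁻¹ * c⁻¹) * b⁻¹) * (b * c * b⁻¹) := by group
      _ = (b * (d * c * d⁻¹ * c⁻¹) * b⁻¹) * c := by rw [e3]
      _ = _ := by group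
  -- `r` fixes the elements `c₁`
  have hfix₁ : ∀ c ∈ C, r * (b * (d * c * d⁻¹ * c⁻¹) * b⁻¹ * (d * c * d⁻¹ * c⁻¹)⁻¹) * r⁻¹ =
      b * (d * c * d⁻¹ * c⁻¹) * b⁻¹ * (d * c * d⁻¹ * c⁻¹)⁻¹ := by
    intro c hc
    have h1 := hI c hc
    set a₁ := d * c * d⁻¹ * c⁻¹ with ha₁
    have ha₁A : a₁ ∈ A := ha₁mem c hc
    set c₁ := b * a₁ * b⁻¹ * a₁⁻¹ with hc₁
    have hc₁C : c₁ ∈ C := hc₁mem a₁ ha₁A
    have h2 : b * (r * (a₁ * c) * r⁻¹) * b⁻¹ = r * (b * (a₁ * c) * b⁻¹) * r⁻¹ := by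
      have : b * r = r * b := hrb.symm
      calc b * (r * (a₁ * c) * r⁻¹) * b⁻¹ = (b * r) * (a₁ * c) * (b * r)⁻¹ := by group
        _ = (r * b) * (a₁ * c) * (r * b)⁻¹ := by rw [this]
        _ = _ := by group
    have h3 : b * (a₁ * c) * b⁻¹ = c₁ * a₁ * c := by
      have e3 := hbc c hc
      calc b * (a₁ * c) * b⁻¹ = (b * a₁ * b⁻¹) * (b * c * b⁻¹) := by group
        _ = (b * a₁ * b⁻¹) * c := by rw [e3]
        _ = c₁ * a₁ * c := by
          rw [hc₁]
          group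
    have h4 : b * (c₁ * a₁ * c) * b⁻¹ = c₁ * (c₁ * a₁) * c := by
      have e3 := hbc c hc
      have e4 := hbc c₁ hc₁C
      calc b * (c₁ * a₁ * c) * b⁻¹ = (b * c₁ * b⁻¹) * (b * a₁ * b⁻¹) * (b * c * b⁻¹) := by group
        _ = c₁ * (b * a₁ * b⁻¹) * c := by rw [e3, e4]
        _ = c₁ * (c₁ * a₁) * c := by
          rw [hc₁]
          group
    rw [h1, h3, h4] at h2
    have h5 : r * (c₁ * a₁ * c) * r⁻¹ = (r * c₁ * r⁻¹) * (r * (a₁ * c) * r⁻¹) := by group
    rw [h5, h1] at h2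
    have h6 : c₁ * (c₁ * a₁) * c = c₁ * (c₁ * a₁ * c) := by group
    rw [h6] at h2
    exact (mul_right_cancel h2).symm
  -- every element of `C` is some `c₁`
  have hsurj : ∀ c' ∈ C, ∃ c ∈ C, c' = b * (d * c * d⁻¹ * c⁻¹) * b⁻¹ * (d * c * d⁻¹ * c⁻¹)⁻¹ := by
    intro c' hc'
    obtain ⟨a₀, ha₀, e₀⟩ := CommCase.exists_left hAB hb hb1 hc'
    have hm : a₀⁻¹ ∈ ⁅D, C⁆ := by
      rw [hDCeq]
      exact A.inv_mem ha₀
    obtain ⟨c, hc, ec⟩ := CommCase.exists_right hDC hd hd1 hm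
    refine ⟨c, hc, ?_⟩
    rw [ec, ← e₀, inv_inv]
    have h1 : b * a₀⁻¹ * b⁻¹ ∈ A ⊔ C := by
      have : b * a₀⁻¹ * b⁻¹ = (b * a₀⁻¹ * b⁻¹ * a₀⁻¹⁻¹) * a₀⁻¹ := by group
      rw [this]
      exact (A ⊔ C).mul_mem (Subgroup.mem_sup_right (hc₁mem _ (A.inv_mem ha₀)))
        (Subgroup.mem_sup_left (A.inv_mem ha₀))
    have h2 := hNab (Subgroup.mem_sup_left ha₀ : a₀ ∈ A ⊔ C) h1
    calc a₀ * b * a₀⁻¹ * b⁻¹ = a₀ * (b * a₀⁻¹ * b⁻¹) := by group
      _ = _ := h2
  have hfixC : ∀ c ∈ C, r * c * r⁻¹ = c := by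
    intro c' hc'
    obtain ⟨c, hc, rfl⟩ := hsurj c' hc'
    exact hfix₁ c hc
  -- `d` centralizes the elements `c₁`
  have hd₁ : ∀ c ∈ C, d * (b * (d * c * d⁻¹ * c⁻¹) * b⁻¹ * (d * c * d⁻¹ * c⁻¹)⁻¹) * d⁻¹ =
      b * (d * c * d⁻¹ * c⁻¹) * b⁻¹ * (d * c * d⁻¹ * c⁻¹)⁻¹ := by
    intro c hc
    have h1 := hI c hc
    set a₁ := d * c * d⁻¹ * c⁻¹ with ha₁
    have ha₁A : a₁ ∈ A := ha₁mem c hc
    set c₁ := b * a₁ * b⁻¹ * a₁⁻¹ with hc₁
    have h2 : r * a₁ * r⁻¹ = c₁ * a₁ := by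
      have h3 : r * (a₁ * c) * r⁻¹ = (r * a₁ * r⁻¹) * (r * c * r⁻¹) := by group
      rw [h3, hfixC c hc] at h1
      exact mul_right_cancel h1
    have h4 : d * (r * a₁ * r⁻¹) * d⁻¹ = r * a₁ * r⁻¹ := by
      have e := hda a₁ ha₁A
      have : d * r = r * d := hrd.symm
      calc d * (r * a₁ * r⁻¹) * d⁻¹ = (d * r) * a₁ * (d * r)⁻¹ := by group
        _ = (r * d) * a₁ * (r * d)⁻¹ := by rw [this]
        _ = r * (d * a₁ * d⁻¹) * r⁻¹ := by group
        _ = r * a₁ * r⁻¹ := by rw [e]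
    rw [h2] at h4
    have e := hda a₁ ha₁A
    have h5 : d * (c₁ * a₁) * d⁻¹ = (d * c₁ * d⁻¹) * (d * a₁ * d⁻¹) := by group
    rw [h5, e] at h4
    exact mul_right_cancel h4
  have hdC : ∀ c ∈ C, d * c * d⁻¹ = c := by
    intro c' hc'
    obtain ⟨c, hc, rfl⟩ := hsurj c' hc'
    exact hd₁ c hc
  apply hS.ne_bot A hAS
  rw [← hDCeq, ← hDC.2.2.1 d hd hd1, eq_bot_iff, Subgroup.closure_le]
  rintro _ ⟨c, hc, rfl⟩
  show d * c * d⁻¹ * c⁻¹ ∈ (⊥ : Subgroup G)
  rw [hdC c hc, mul_inv_cancel]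
  exact Subgroup.one_mem _

theorem mem_centralizer_conjBy {U : Subgroup G} {x y : G} :
    y ∈ Subgroup.centralizer ((conjBy U x : Subgroup G) : Set G) ↔
      x⁻¹ * y * x ∈ Subgroup.centralizer (U : Set G) := by
  simp only [Subgroup.mem_centralizer_iff, SetLike.mem_coe]
  constructor
  · intro h u hu
    have := h (x * u * x⁻¹) (conj_mem_conjBy hu)
    calc u * (x⁻¹ * y * x) = x⁻¹ * (x * u * x⁻¹ * y) * x := by group
      _ = x⁻¹ * (y * (x * u * x⁻¹)) * x := by rw [this]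
      _ = x⁻¹ * y * x * u := by group
  · intro h v hv
    rw [mem_conjBy] at hv
    have := h _ hv
    calc v * y = x * ((x⁻¹ * v * x) * (x⁻¹ * y * x)) * x⁻¹ := by group
      _ = x * ((x⁻¹ * y * x) * (x⁻¹ * v * x)) * x⁻¹ := by rw [this]
      _ = y * v := by group

theorem main (hS : IsRootSubgroupSet S) (hA : A ∈ S) (hB : B ∈ S) (hC : ⁅A, B⁆ ∈ S) (hD : D ∈ S)
    (hDCeq : ⁅D, ⁅A, B⁆⁆ = A) :
    IsRankOnePair B D ∧
    {E | ∃ x ∈ B ⊔ D, E = conjBy A x} = {E | ∃ x ∈ B ⊔ D, E = conjBy ⁅A, B⁆ x} ∧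
    {E | ∃ x ∈ B ⊔ D, E = conjBy A x} = (fun b : G => conjBy A b) '' (B : Set G) ∪ {⁅A, B⁆} ∧
    {E | ∃ x ∈ B ⊔ D, E = conjBy A x} = (fun d : G => conjBy ⁅A, B⁆ d) '' (D : Set G) ∪ {A} ∧
    IsSubgroupPartition (A ⊔ ⁅A, B⁆) {E | ∃ x ∈ B ⊔ D, E = conjBy A x} ∧
    ∀ x ∈ (B ⊔ D) ⊓ Subgroup.centralizer ((A ⊔ ⁅A, B⁆ : Subgroup G) : Set G), ∀ y ∈ B ⊔ D, x * y = y * x := by
  have hAB : RootCommutatorCase S A B := commCase_of_mem hS hA hB hC
  have hDC : RootCommutatorCase S D ⁅A, B⁆ := commCase_of_mem hS hD hC (by rw [hDCeq]; exact hA)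
  have hBD : IsRankOnePair B D := by
    rcases nil_or_rankOne hS hB hD with hn | h
    · exact (not_nil hS hAB hDC hDCeq hn).elim
    · exact h
  set C := ⁅A, B⁆ with hCdef
  have hCD := CommCase.symm hDC
  have hCDeq : ⁅C, D⁆ = A := by
    rw [Subgroup.commutator_comm C D, hDCeq]
  have hDB := RankOnePair_symm hBD
  have hAC := CommCase.comm_AC hAB
  have hAd : ∀ a ∈ A, ∀ d ∈ D, a * d = d * a := by
    intro a ha d hd
    have ha' : a ∈ ⁅D, C⁆ := by
      rw [hDCeq]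
      exact ha
    exact CommCase.comm_left hDC ha' hd
  have hCb : ∀ c ∈ C, ∀ b ∈ B, c * b = b * c := fun c hc b hb => CommCase.comm_right hAB hc hb
  set N := A ⊔ C with hN
  have hconjN : ∀ x ∈ B ⊔ D, conjBy N x = N := by
    have le_to_eq : ∀ {g : G}, conjBy N g ≤ N → conjBy N g⁻¹ ≤ N → conjBy N g = N := by
      intro g h1 h2
      refine le_antisymm h1 ?_
      intro x hx
      rw [mem_conjBy]
      have h3 : g⁻¹ * x * g⁻¹⁻¹ ∈ conjBy N g⁻¹ := conj_mem_conjBy hx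
      simpa using h2 h3
    have hb : ∀ b ∈ B, conjBy N b ≤ N := by
      intro b hb
      rw [hN, conjBy_sup]
      refine sup_le (CommCase.conj_le_sup hAB hb) ?_
      rw [conjBy_eq_of_commute fun c hc => (hCb c hc b hb).symm]
      exact le_sup_right
    have hd : ∀ d ∈ D, conjBy N d ≤ N := by
      intro d hd
      rw [hN, conjBy_sup]
      refine sup_le ?_ ?_
      · rw [conjBy_eq_of_commute fun a ha => (hAd a ha d hd).symm]
        exact le_sup_left
      · have := CommCase.conj_le_sup hCD hd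
        rwa [hCDeq, sup_comm] at this
    have hnorm : B ⊔ D ≤ Subgroup.normalizer (N : Set G) := by
      refine sup_le ?_ ?_
      · intro b hb'
        rw [mem_normalizer_iff_conjBy]
        exact le_to_eq (hb b hb') (hb _ (B.inv_mem hb'))
      · intro d hd'
        rw [mem_normalizer_iff_conjBy]
        exact le_to_eq (hd d hd') (hd _ (D.inv_mem hd'))
    intro x hx
    exact mem_normalizer_iff_conjBy.mp (hnorm hx)
  let f : Subgroup G → Subgroup G := fun U => N ⊓ Subgroup.centralizer (U : Set G)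
  have hf : ∀ (U : Subgroup G) (y : G), y ∈ f U ↔ y ∈ N ∧ y ∈ Subgroup.centralizer (U : Set G) :=
    fun U y => Subgroup.mem_inf
  have f_conj : ∀ U : Subgroup G, ∀ x ∈ B ⊔ D, f (conjBy U x) = conjBy (f U) x := by
    intro U x hx
    ext y
    rw [mem_conjBy, hf, hf]
    constructor
    · rintro ⟨h1, h2⟩
      refine ⟨?_, mem_centralizer_conjBy.mp h2⟩
      have h3 := h1
      rw [← hconjN x hx, mem_conjBy] at h3
      exact h3
    · intro h
      refine ⟨?_, mem_centralizer_conjBy.mpr h.2⟩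
      rw [← hconjN x hx, mem_conjBy]
      exact h.1
  have hA1 := hS.ne_bot
  have f_B : f B = C := by
    apply le_antisymm
    · intro y hy
      obtain ⟨h1, h2⟩ := (hf _ _).mp hy
      obtain ⟨a, ha, c, hc, rfl⟩ := exists_mul_of_mem_sup hAC h1
      by_cases ha1 : a = 1
      · rw [ha1, one_mul]
        exact hc
      · exfalso
        obtain ⟨b, hb, hb1⟩ := exists_ne_one_left hBD
        apply comm_ne_one' hS hB hD hBD hAB ha ha1 hb hb1
        have h3 : b * (a * c) = (a * c) * b := Subgroup.mem_centralizer_iff.mp h2 b hb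
        have h4 := hCb c hc b hb
        have h5 : a * b = b * a := by
          have h6 : a * b * c = b * a * c := by
            calc a * b * c = a * (b * c) := by group
              _ = a * (c * b) := by rw [h4]
              _ = (a * c) * b := by group
              _ = b * (a * c) := h3.symm
              _ = b * a * c := by group
          exact mul_right_cancel h6
        rw [h5]
        group
    · intro c hc
      refine (hf _ _).mpr ⟨Subgroup.mem_sup_right hc, ?_⟩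
      rw [Subgroup.mem_centralizer_iff]
      intro b hb
      exact (hCb c hc b hb).symm
  have f_D : f D = A := by
    apply le_antisymm
    · intro y hy
      obtain ⟨h1, h2⟩ := (hf _ _).mp hy
      obtain ⟨a, ha, c, hc, rfl⟩ := exists_mul_of_mem_sup hAC h1
      by_cases hc1 : c = 1
      · rw [hc1, mul_one]
        exact ha
      · exfalso
        obtain ⟨d, hd, hd1⟩ := exists_ne_one_left hDB
        apply comm_ne_one' hS hD hB hDB hCD hc hc1 hd hd1
        have h3 : d * (a * c) = (a * c) * d := Subgroup.mem_centralizer_iff.mp h2 d hd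
        have h4 := hAd a ha d hd
        have h5 : c * d = d * c := by
          have h6 : a * (c * d) = a * (d * c) := by
            calc a * (c * d) = (a * c) * d := by group
              _ = d * (a * c) := h3.symm
              _ = (d * a) * c := by group
              _ = (a * d) * c := by rw [h4]
              _ = a * (d * c) := by group
          exact mul_left_cancel h6
        rw [h5]
        group
    · intro a ha
      refine (hf _ _).mpr ⟨Subgroup.mem_sup_left ha, ?_⟩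
      rw [Subgroup.mem_centralizer_iff]
      intro d hd
      exact (hAd a ha d hd).symm
  have hDmem : D ∈ unipotentSubgroups B D := right_mem_unipotent hBD
  have hBmem : B ∈ unipotentSubgroups B D := left_mem_unipotent hBD
  have hΩD : unipotentSubgroups D B = unipotentSubgroups B D :=
    unipotent_eq_of_mem hBD hDmem hBmem hBD.ne.symm
  have hPA : ∀ E : Subgroup G, (∃ x ∈ B ⊔ D, E = conjBy A x) ↔ ∃ U ∈ unipotentSubgroups B D, E = f U := by
    intro E
    constructor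
    · rintro ⟨x, hx, rfl⟩
      refine ⟨conjBy D x, conj_mem_unipotent hBD hDmem hx, ?_⟩
      rw [f_conj D x hx, f_D]
    · rintro ⟨U, hU, rfl⟩
      rw [← hΩD] at hU
      obtain ⟨x, hx, rfl⟩ := hU
      rw [sup_comm] at hx
      exact ⟨x, hx, by rw [f_conj D x hx, f_D]⟩
  have hPC : ∀ E : Subgroup G, (∃ x ∈ B ⊔ D, E = conjBy C x) ↔ ∃ U ∈ unipotentSubgroups B D, E = f U := by
    intro E
    constructor
    · rintro ⟨x, hx, rfl⟩
      refine ⟨conjBy B x, conj_mem_unipotent hBD hBmem hx, ?_⟩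
      rw [f_conj B x hx, f_B]
    · rintro ⟨U, hU, rfl⟩
      obtain ⟨x, hx, rfl⟩ := hU
      exact ⟨x, hx, by rw [f_conj B x hx, f_B]⟩
  have hACbot : ∀ y, y ∈ C → y ∈ A → y = 1 := by
    intro y hyC hyA
    by_contra hy1
    obtain ⟨b, hb, hb1⟩ := exists_ne_one_left hBD
    apply comm_ne_one' hS hB hD hBD hAB hyA hy1 hb hb1
    rw [hCb y hyC b hb]
    group
  have hdisj : ∀ U₁ ∈ unipotentSubgroups B D, ∀ U₂ ∈ unipotentSubgroups B D, U₁ ≠ U₂ →
      f U₁ ⊓ f U₂ = ⊥ := by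
    intro U₁ hU₁ U₂ hU₂ hne
    rw [eq_bot_iff]
    intro y hy
    obtain ⟨hy1, hy2⟩ := Subgroup.mem_inf.mp hy
    obtain ⟨hyN, h1⟩ := (hf _ _).mp hy1
    obtain ⟨-, h2⟩ := (hf _ _).mp hy2
    have hsup := (pair_of_mem hBD hU₁ hU₂ hne).2
    have hcen : ∀ z ∈ B ⊔ D, y * z = z * y := by
      intro z hz
      rw [← hsup] at hz
      have hle : U₁ ⊔ U₂ ≤ Subgroup.centralizer ({y} : Set G) := by
        refine sup_le ?_ ?_
        · intro u hu
          rw [Subgroup.mem_centralizer_iff]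
          rintro _ rfl
          exact (Subgroup.mem_centralizer_iff.mp h1 u hu).symm
        · intro u hu
          rw [Subgroup.mem_centralizer_iff]
          rintro _ rfl
          exact (Subgroup.mem_centralizer_iff.mp h2 u hu).symm
      exact Subgroup.mem_centralizer_iff.mp (hle hz) y rfl
    have hyC : y ∈ C := by
      rw [← f_B]
      exact (hf _ _).mpr ⟨hyN, Subgroup.mem_centralizer_iff.mpr fun b hb => (hcen b (Subgroup.mem_sup_left hb)).symm⟩
    have hyA : y ∈ A := by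
      rw [← f_D]
      exact (hf _ _).mpr ⟨hyN, Subgroup.mem_centralizer_iff.mpr fun d hd => (hcen d (Subgroup.mem_sup_right hd)).symm⟩
    exact hACbot y hyC hyA
  have hP3 : {E | ∃ x ∈ B ⊔ D, E = conjBy A x} = (fun b : G => conjBy A b) '' (B : Set G) ∪ {C} := by
    ext E
    rw [Set.mem_setOf_eq, hPA]
    constructor
    · rintro ⟨U, hU, rfl⟩
      rcases (mem_unipotent_iff hBD).mp hU with rfl | ⟨b, hb, rfl⟩
      · right
        exact f_B
      · left
        exact ⟨b, hb, by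
          show conjBy A b = f (conjBy D b)
          rw [f_conj D b (Subgroup.mem_sup_left hb), f_D]⟩
    · rintro (⟨b, hb, rfl⟩ | rfl)
      · refine ⟨conjBy D b, conj_mem_unipotent hBD hDmem (Subgroup.mem_sup_left hb), ?_⟩
        show conjBy A b = f (conjBy D b)
        rw [f_conj D b (Subgroup.mem_sup_left hb), f_D]
      · exact ⟨B, hBmem, f_B.symm⟩
  have hP4 : {E | ∃ x ∈ B ⊔ D, E = conjBy A x} = (fun d : G => conjBy C d) '' (D : Set G) ∪ {A} := by
    ext E
    rw [Set.mem_setOf_eq, hPA]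
    constructor
    · rintro ⟨U, hU, rfl⟩
      rw [← hΩD] at hU
      rcases (mem_unipotent_iff hDB).mp hU with rfl | ⟨d, hd, rfl⟩
      · right
        exact f_D
      · left
        exact ⟨d, hd, by
          show conjBy C d = f (conjBy B d)
          rw [f_conj B d (Subgroup.mem_sup_right hd), f_B]⟩
    · rintro (⟨d, hd, rfl⟩ | rfl)
      · refine ⟨conjBy B d, conj_mem_unipotent hBD hBmem (Subgroup.mem_sup_right hd), ?_⟩
        show conjBy C d = f (conjBy B d)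
        rw [f_conj B d (Subgroup.mem_sup_right hd), f_B]
      · exact ⟨D, hDmem, f_D.symm⟩
  refine ⟨hBD, ?_, hP3, hP4, ⟨?_, ?_, ?_⟩, ?_⟩
  · ext E
    rw [Set.mem_setOf_eq, Set.mem_setOf_eq, hPA, hPC]
  · intro E hE
    obtain ⟨U, -, rfl⟩ := (hPA E).mp hE
    exact inf_le_left
  · intro x hx hx1
    obtain ⟨a, ha, c, hc, rfl⟩ := exists_mul_of_mem_sup hAC hx
    by_cases ha1 : a = 1
    · refine ⟨C, ?_, ?_⟩
      · rw [hP3]
        exact Or.inr rfl
      · rw [ha1, one_mul]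
        exact hc
    · obtain ⟨b, hb, hbe⟩ := CommCase.exists_right hAB (A.inv_mem ha) (by simpa using ha1) hc
      refine ⟨conjBy A b, ?_, ?_⟩
      · rw [hP3]
        exact Or.inl ⟨b, hb, rfl⟩
      · have : a * c = b * a * b⁻¹ := by
          rw [← hbe]
          group
        rw [this]
        exact conj_mem_conjBy ha
  · intro E₁ hE₁ E₂ hE₂ hne
    obtain ⟨U₁, hU₁, rfl⟩ := (hPA E₁).mp hE₁
    obtain ⟨U₂, hU₂, rfl⟩ := (hPA E₂).mp hE₂
    exact hdisj U₁ hU₁ U₂ hU₂ (fun e => hne (by rw [e]))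
  · intro x hx y hy
    obtain ⟨hxX, hxN⟩ := Subgroup.mem_inf.mp hx
    refine commute_of_fix_all hBD ?_ y hy
    intro U hU
    by_contra hne
    have h1 := conj_mem_unipotent hBD hU hxX
    have h2 := hdisj U hU _ h1 (Ne.symm hne)
    have h3 : f (conjBy U x) = f U := by
      rw [f_conj U x hxX]
      apply conjBy_eq_of_commute
      intro z hz
      exact (Subgroup.mem_centralizer_iff.mp hxN z ((hf _ _).mp hz).1).symm
    rw [h3, inf_idem] at h2
    obtain ⟨x', hx', rfl⟩ := hU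
    rw [f_conj B x' hx', f_B] at h2
    apply hS.ne_bot C hC
    have h4 := conjBy_eq_of_inv h2
    rw [← h4]
    ext z
    simp [Subgroup.mem_map]

end Cfsg.Agent.Lib.RootModule
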