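import Mathlib
import Cfsg.Prelude.Def_RootSubgroups
import Cfsg.Agent.Lib.RankOne
import Cfsg.Agent.Lib.RootBasic
import Cfsg.Agent.Lib.RootLines
import Cfsg.Agent.Lib.RootConn
import Cfsg.Agent.Lib.RootModule

/-!
Refinements of the key lemma on lines; a line always has a point not rank one to a given member
(Timmesfeld, chapter II, section 2).
-/

namespace Cfsg.Agent.Lib.RootKey

open Cfsg Cfsg.Agent.Lib.RankOne Cfsg.Agent.Lib.RootBasic Cfsg.Agent.Lib.RootLines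
open scoped commutatorElement

variable {G : Type*} [Group G] {S : Set (Subgroup G)} {A B C D E : Subgroup G}

/-- With `A` commuting with `C`, `(A, D)` rank one and `(C, D)` in the commutator case with
commutator `F`, the commutator `⁅A, F⁆` equals a conjugate of `F`. -/
theorem commutator_eq_conj (hS : IsRootSubgroupSet S) (hAD : IsRankOnePair A D)
    (hAC : ∀ x ∈ A, ∀ y ∈ C, x * y = y * x) (hcase : RootCommutatorCase S C D)
    {a d : G} (ha : a ∈ A) (hd : d ∈ D) (hd1 : d ≠ 1) (e : conjBy A d⁻¹ = conjBy D a⁻¹) :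
    conjBy (conjBy ⁅C, D⁆ a⁻¹) d = ⁅A, ⁅C, D⁆⁆ := by
  have hDC := CommCase.symm hcase
  have hFeq : ⁅D, C⁆ = ⁅C, D⁆ := Subgroup.commutator_comm D C
  set F := ⁅C, D⁆ with hFdef
  have hE₂eq : conjBy (conjBy F a⁻¹) d = ⁅conjBy C d, A⁆ := by
    have e1 : conjBy F a⁻¹ = ⁅C, conjBy A d⁻¹⁆ := by
      rw [e, hFdef]
      simp only [conjBy]
      rw [Subgroup.map_commutator]
      congr 1
      exact conjBy_eq_of_commute fun y hy => by
        have := hAC a ha y hy
        calc a⁻¹ * y = a⁻¹ * (y * a) * a⁻¹ := by group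
          _ = a⁻¹ * (a * y) * a⁻¹ := by rw [this]
          _ = y * a⁻¹ := by group
    rw [e1]
    simp only [conjBy]
    rw [Subgroup.map_commutator]
    congr 1
    exact conjBy_inv_conjBy A d
  rw [hE₂eq]
  apply le_antisymm
  · rw [Subgroup.commutator_le]
    intro x hx a₁ ha₁
    rw [mem_conjBy] at hx
    set c₁ := d⁻¹ * x * d with hc₁
    have hf' : d * c₁ * d⁻¹ * c₁⁻¹ ∈ F := by
      rw [← hFeq]
      exact comm_mem hd hx
    set f' := d * c₁ * d⁻¹ * c₁⁻¹ with hf'def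
    have hxe : x = f' * c₁ := by
      rw [hf'def, hc₁]
      group
    have h1 : c₁ * a₁ = a₁ * c₁ := (hAC a₁ ha₁ c₁ hx).symm
    have h2 : ⁅x, a₁⁆ = (a₁ * f' * a₁⁻¹ * f'⁻¹)⁻¹ := by
      rw [commutatorElement_def, hxe]
      calc f' * c₁ * a₁ * (f' * c₁)⁻¹ * a₁⁻¹ = f' * (c₁ * a₁) * c₁⁻¹ * f'⁻¹ * a₁⁻¹ := by group
        _ = f' * (a₁ * c₁) * c₁⁻¹ * f'⁻¹ * a₁⁻¹ := by rw [h1]
        _ = _ := by group
    rw [h2]
    exact Subgroup.inv_mem _ (comm_mem ha₁ hf')
  · rw [Subgroup.commutator_le]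
    intro a₁ ha₁ f' hf'
    have hf'' : f' ∈ ⁅D, C⁆ := by
      rw [hFeq]
      exact hf'
    obtain ⟨c₁, hc₁, ec⟩ := CommCase.exists_right hDC hd hd1 hf''
    have h1 : c₁ * a₁ = a₁ * c₁ := (hAC a₁ ha₁ c₁ hc₁).symm
    have hx : d * c₁ * d⁻¹ ∈ conjBy C d := conj_mem_conjBy hc₁
    have hm := comm_mem hx ha₁
    have h2 : ⁅a₁, f'⁆ = (d * c₁ * d⁻¹ * a₁ * (d * c₁ * d⁻¹)⁻¹ * a₁⁻¹)⁻¹ := by
      rw [commutatorElement_def, ← ec]
      set y := d * c₁ * d⁻¹ with hy
      have hci : c₁⁻¹ * a₁⁻¹ * c₁ = a₁⁻¹ := by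
        calc c₁⁻¹ * a₁⁻¹ * c₁ = (c₁⁻¹ * a₁ * c₁)⁻¹ := by group
          _ = (c₁⁻¹ * (c₁ * a₁))⁻¹ := by rw [mul_assoc, ← h1]
          _ = a₁⁻¹ := by group
      calc a₁ * (y * c₁⁻¹) * a₁⁻¹ * (y * c₁⁻¹)⁻¹ = a₁ * y * (c₁⁻¹ * a₁⁻¹ * c₁) * y⁻¹ := by group
        _ = a₁ * y * a₁⁻¹ * y⁻¹ := by rw [hci]
        _ = _ := by group
    rw [h2]
    exact Subgroup.inv_mem _ hm

/-- In the situation of the key lemma, `(A, ⁅C, D⁆)` is in the commutator case. -/
theorem commCase_key (hS : IsRootSubgroupSet S) (hA : A ∈ S) (hAD : IsRankOnePair A D)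
    (hAC : ∀ x ∈ A, ∀ y ∈ C, x * y = y * x) (hcase : RootCommutatorCase S C D) :
    RootCommutatorCase S A ⁅C, D⁆ := by
  obtain ⟨a, ha, ha1⟩ := exists_ne_one_left hAD
  obtain ⟨d, hd, hd1, e⟩ := hAD.cond_left a ha ha1
  have h1 := commutator_eq_conj hS hAD hAC hcase ha hd hd1 e
  refine commCase_of_mem hS hA hcase.1 ?_
  rw [← h1]
  exact hS.conj_mem _ (hS.conj_mem _ hcase.1 _) _

/-- The key lemma without the extra alternative. -/
theorem key_rankOne (hS : IsRootSubgroupSet S) (hA : A ∈ S) (hD : D ∈ S) (hE : E ∈ S)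
    (hAD : IsRankOnePair A D) (hAC : ∀ x ∈ A, ∀ y ∈ C, x * y = y * x) (hcase : RootCommutatorCase S C D)
    {a c : G} (ha : a ∈ A) (ha1 : a ≠ 1) (hc : c ∈ C) (hac : a * c ∈ E) : IsRankOnePair E D := by
  rcases key_lemma hS hA hD hE hAD hAC hcase ha ha1 hc hac with h | ⟨-, h⟩
  · exact h
  · exfalso
    have h1 := commCase_key hS hA hAD hAC hcase
    exact no_comm_conj h ha ha1 (nil_conj_comm (hS.commutative _ hcase.1) h1.2.1 ha)

/-- Lemma R: two commuting members rank one to `D` with different elements `x, x'` give a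
non-identity product all of whose members are not rank one to `D`. -/
theorem exists_not_rankOne (h₁ : IsRankOnePair A D) (h₂ : IsRankOnePair B D)
    (hcomm : ∀ x ∈ A, ∀ y ∈ B, x * y = y * x) (hAB : A ⊓ B = ⊥) :
    ∃ x ∈ A, x ≠ 1 ∧ ∃ x' ∈ B, x' ≠ 1 ∧ x * x'⁻¹ ≠ 1 ∧
      ∀ E : Subgroup G, x * x'⁻¹ ∈ E → ¬ IsRankOnePair E D := by
  obtain ⟨d, hd, hd1⟩ := exists_ne_one_right h₁
  obtain ⟨x, hx, hx1, e₁⟩ := h₁.cond_right d hd hd1
  obtain ⟨x', hx', hx'1, e₂⟩ := h₂.cond_right d hd hd1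
  have hne : x * x'⁻¹ ≠ 1 := by
    intro h
    have h3 : x = x' := mul_inv_eq_one.mp h
    have h4 : x ∈ A ⊓ B := Subgroup.mem_inf.mpr ⟨hx, h3 ▸ hx'⟩
    rw [hAB, Subgroup.mem_bot] at h4
    exact hx1 h4
  refine ⟨x, hx, hx1, x', hx', hx'1, hne, ?_⟩
  intro E hE hr
  apply no_comm_conj hr hE hne
  have hcomm' : ∀ y ∈ conjBy D x⁻¹, ∀ y' ∈ conjBy D x'⁻¹, y * y' = y' * y := by
    rw [e₁, e₂]
    intro y hy y' hy'
    rw [mem_conjBy] at hy hy'
    have := hcomm _ hy _ hy'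
    set u := d⁻¹⁻¹ * y * d⁻¹ with hu
    set v := d⁻¹⁻¹ * y' * d⁻¹ with hv
    have hy1 : y = d⁻¹ * u * d := by
      rw [hu]
      group
    have hy2 : y' = d⁻¹ * v * d := by
      rw [hv]
      group
    rw [hy1, hy2]
    calc d⁻¹ * u * d * (d⁻¹ * v * d) = d⁻¹ * (u * v) * d := by group
      _ = d⁻¹ * (v * u) * d := by rw [this]
      _ = _ := by group
  intro y hy d₀ hd₀
  rw [mem_conjBy] at hy
  have hmem1 : x⁻¹ * d₀ * x ∈ conjBy D x⁻¹ := by
    rw [mem_conjBy]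
    have : x⁻¹⁻¹ * (x⁻¹ * d₀ * x) * x⁻¹ = d₀ := by group
    rw [this]
    exact hd₀
  have hmem2 : x⁻¹ * y * x ∈ conjBy D x'⁻¹ := by
    rw [mem_conjBy]
    have : x'⁻¹⁻¹ * (x⁻¹ * y * x) * x'⁻¹ = (x * x'⁻¹)⁻¹ * y * (x * x'⁻¹) := by group
    rw [this]
    exact hy
  have h1 := hcomm' _ hmem1 _ hmem2
  calc y * d₀ = x * ((x⁻¹ * y * x) * (x⁻¹ * d₀ * x)) * x⁻¹ := by group
    _ = x * ((x⁻¹ * d₀ * x) * (x⁻¹ * y * x)) * x⁻¹ := by rw [h1]
    _ = d₀ * y := by group

theorem comm_commutator {e a f : G} (h1 : e * a = a * e) (h2 : e * f = f * e) :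
    e * (a * f * a⁻¹ * f⁻¹) = (a * f * a⁻¹ * f⁻¹) * e := by
  have hai : e * a⁻¹ = a⁻¹ * e := by
    calc e * a⁻¹ = a⁻¹ * (a * e) * a⁻¹ := by group
      _ = a⁻¹ * (e * a) * a⁻¹ := by rw [h1]
      _ = a⁻¹ * e := by group
  have hfi : e * f⁻¹ = f⁻¹ * e := by
    calc e * f⁻¹ = f⁻¹ * (f * e) * f⁻¹ := by group
      _ = f⁻¹ * (e * f) * f⁻¹ := by rw [h2]
      _ = f⁻¹ * e := by group
  calc e * (a * f * a⁻¹ * f⁻¹) = (e * a) * f * a⁻¹ * f⁻¹ := by group
    _ = a * (e * f) * a⁻¹ * f⁻¹ := by rw [h1]; group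
    _ = a * f * (e * a⁻¹) * f⁻¹ := by rw [h2]; group
    _ = a * f * a⁻¹ * (e * f⁻¹) := by rw [hai]; group
    _ = a * f * a⁻¹ * (f⁻¹ * e) := by rw [hfi]
    _ = _ := by group

/-- An element commuting with `X` and `Y` commutes with `⁅X, Y⁆`. -/
theorem comm_commutator_mem {X Y : Subgroup G} {e : G} (hX : ∀ x ∈ X, e * x = x * e)
    (hY : ∀ y ∈ Y, e * y = y * e) : ∀ z ∈ ⁅X, Y⁆, e * z = z * e := by
  have hle : ⁅X, Y⁆ ≤ Subgroup.centralizer ({e} : Set G) := by
    rw [Subgroup.commutator_le]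
    intro x hx y hy
    rw [Subgroup.mem_centralizer_iff]
    rintro _ rfl
    rw [commutatorElement_def]
    exact comm_commutator (hX x hx) (hY y hy)
  intro z hz
  exact Subgroup.mem_centralizer_iff.mp (hle hz) e rfl

/-- Main line lemma: with a third point on the line, `[A, [E, D]] = E`. -/
theorem commutator_eq_of_line (hS : IsRootSubgroupSet S) (hA : A ∈ S) (hD : D ∈ S) (hE : E ∈ S)
    (hAD : IsRankOnePair A D) (hcomm : ∀ x ∈ A, ∀ y ∈ E, x * y = y * x) (hinf : A ⊓ E = ⊥)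
    (hthird : ∀ a ∈ A, ∀ e ∈ E, a ≠ 1 → e ≠ 1 →
      ∃ P ∈ S, a * e ∈ P ∧ ∀ x ∈ A, ∀ y ∈ P, x * y = y * x)
    (hn : NilPair E D) : RootCommutatorCase S E D ∧ ⁅A, ⁅E, D⁆⁆ = E := by
  have hDab := hS.commutative D hD
  have hDA := RankOnePair_symm hAD
  obtain ⟨a, ha, ha1⟩ := exists_ne_one_left hAD
  obtain ⟨e₀, he₀⟩ := Subgroup.ne_bot_iff_exists_ne_one.mp (hS.ne_bot E hE)
  have he₀1 : (e₀ : G) ≠ 1 := by simpa using he₀
  have hnot : ∀ {e : G}, e ∈ E → e ≠ 1 → a * e ∉ A := by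
    intro e he he1 hae
    have h1 : e ∈ A := by
      have := A.mul_mem (A.inv_mem ha) hae
      simpa using this
    have h2 : e ∈ A ⊓ E := Subgroup.mem_inf.mpr ⟨h1, he⟩
    rw [hinf, Subgroup.mem_bot] at h2
    exact he1 h2
  rcases hS.pair E hE D hD with h | h | h
  · exfalso
    obtain ⟨P, hP, hae, hPc⟩ := hthird a ha e₀ e₀.2 ha1 he₀1
    have := eq_of_same_action hS hP hD hAD hPc ha ha1 hae (by
      intro d hd
      have e1 : a⁻¹ * (a * (e₀ : G)) = e₀ := by group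
      rw [e1]
      exact comm_of_commutator_eq_bot h e₀.2 hd)
    rw [this] at hae
    exact hnot e₀.2 he₀1 hae
  · exfalso
    exact no_comm_conj h e₀.2 he₀1 (nil_conj_comm hDab hn e₀.2)
  · refine ⟨h, ?_⟩
    have hFeq : ⁅D, E⁆ = ⁅E, D⁆ := Subgroup.commutator_comm D E
    have hDE := CommCase.symm h
    set F := ⁅E, D⁆ with hFdef
    have hFS : F ∈ S := h.1
    have hAF : RootCommutatorCase S A F := commCase_key hS hA hAD hcomm h
    set G₁ := ⁅A, F⁆ with hG₁def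
    have hG₁S : G₁ ∈ S := hAF.1
    obtain ⟨d, hd, hd1, e'⟩ := hAD.cond_left a ha ha1
    have h1 := commutator_eq_conj hS hAD hcomm h ha hd hd1 e'
    rw [← hFdef, ← hG₁def] at h1
    have h2 : conjBy G₁ d⁻¹ = conjBy F a⁻¹ := conjBy_eq_of_inv h1
    have hFG : ∀ x ∈ F, ∀ y ∈ G₁, x * y = y * x := fun x hx y hy =>
      (CommCase.comm_right hAF hy hx).symm
    have hle1 : conjBy G₁ d⁻¹ ≤ F ⊔ G₁ := by
      rw [h2]
      intro x hx
      rw [mem_conjBy] at hx
      set f₁ := a⁻¹⁻¹ * x * a⁻¹ with hf₁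
      have h3 : x = f₁ * (a⁻¹ * f₁⁻¹ * a⁻¹⁻¹ * f₁⁻¹⁻¹)⁻¹ := by
        rw [hf₁]
        group
      rw [h3]
      exact (F ⊔ G₁).mul_mem (Subgroup.mem_sup_left hx) (Subgroup.mem_sup_right
        (Subgroup.inv_mem _ (comm_mem (A.inv_mem ha) (F.inv_mem hx))))
    have hsup : ∀ {x y : G}, x ∈ F ⊔ G₁ → y ∈ F ⊔ G₁ → x * y = y * x := fun hx hy =>
      sup_comm_of_comm (hS.commutative F hFS) (hS.commutative G₁ hG₁S) hFG hx hy
    have hG : RootCommutatorCase S G₁ D := by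
      rcases hS.pair G₁ hG₁S D hD with h3 | h3 | h3
      · exfalso
        exact comm_partner hS hA hD hAD hAF fun c hc x hx => comm_of_commutator_eq_bot h3 hc hx
      · exfalso
        apply no_comm_conj (RankOnePair_symm h3) (D.inv_mem hd) (by simpa using hd1)
        intro x hx g hg
        exact hsup (hle1 hx) (Subgroup.mem_sup_right hg)
      · exact h3
    have hGD := CommCase.symm hG
    have hF₁le : ⁅G₁, D⁆ ≤ F := by
      have hgen : ⁅G₁, D⁆ ≤ F ⊔ G₁ := by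
        rw [← hG.2.2.2 d⁻¹ (D.inv_mem hd) (by simpa using hd1), Subgroup.closure_le]
        rintro _ ⟨g, hg, rfl⟩
        have h3 : d⁻¹ * g * d ∈ conjBy G₁ d⁻¹ := by
          have := conj_mem_conjBy (g := d⁻¹) hg
          simpa using this
        have h4 : g * d⁻¹ * g⁻¹ * d⁻¹⁻¹ = (d⁻¹ * g * d * g⁻¹)⁻¹ := by group
        show g * d⁻¹ * g⁻¹ * d⁻¹⁻¹ ∈ F ⊔ G₁
        rw [h4]
        exact Subgroup.inv_mem _ ((F ⊔ G₁).mul_mem (hle1 h3) (Subgroup.mem_sup_right (G₁.inv_mem hg)))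
      intro t ht
      obtain ⟨f', hf', g', hg', rfl⟩ := exists_mul_of_mem_sup hFG (hgen ht)
      by_cases hg'1 : g' = 1
      · rw [hg'1, mul_one]
        exact hf'
      · exfalso
        obtain ⟨d₀, hd₀, hd₀1⟩ := exists_ne_one_left hDA
        apply comm_ne_one' hS hD hA hDA hG hg' hg'1 hd₀ hd₀1
        have h3 : (f' * g') * d₀ = d₀ * (f' * g') := hG.2.1 _ ht d₀ (Subgroup.mem_sup_right hd₀)
        have h4 : f' * d₀ = d₀ * f' := CommCase.comm_right h hf' hd₀
        have h5 : g' * d₀ = d₀ * g' := by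
          have h6 : f' * (g' * d₀) = f' * (d₀ * g') := by
            calc f' * (g' * d₀) = (f' * g') * d₀ := by group
              _ = d₀ * (f' * g') := h3
              _ = (d₀ * f') * g' := by group
              _ = (f' * d₀) * g' := by rw [h4]
              _ = f' * (d₀ * g') := by group
          exact mul_left_cancel h6
        rw [h5]
        group
    have hF₁eq : ⁅G₁, D⁆ = F := by
      have := eq_of_le_commutator hS hD hA hDA hDE hG.1 (by rw [hFeq]; exact hF₁le)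
      rw [this, hFeq]
    apply Eq.symm
    apply Eq.symm
    refine (eq_of_le_commutator hS hA hD hAD hAF hE ?_).symm
    intro e he
    by_cases he1 : e = 1
    · rw [he1]
      exact Subgroup.one_mem _
    have ht : e * d * e⁻¹ * d⁻¹ ∈ F := comm_mem he hd
    have ht' : e * d * e⁻¹ * d⁻¹ ∈ ⁅G₁, D⁆ := by
      rw [hF₁eq]
      exact ht
    obtain ⟨g, hg, hge⟩ := CommCase.exists_left hG hd hd1 ht'
    set t := e * d * e⁻¹ * d⁻¹ with htdef
    by_contra hnotin
    have hu1 : e * g⁻¹ ≠ 1 := by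
      intro h3
      rw [mul_inv_eq_one] at h3
      rw [h3] at hnotin
      exact hnotin hg
    -- commutation facts
    have heA : ∀ x ∈ A, e * x = x * e := fun x hx => (hcomm x hx e he).symm
    have heF : ∀ x ∈ F, e * x = x * e := fun x hx => (CommCase.comm_left h hx he).symm
    have hgE : e * g = g * e := comm_commutator_mem heA heF g hg
    have hgA : ∀ x ∈ A, g * x = x * g := fun x hx => CommCase.comm_left hAF hg hx
    have hgF : ∀ x ∈ F, g * x = x * g := fun x hx => CommCase.comm_right hAF hg hx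
    have hte : t * e = e * t := CommCase.comm_left h ht he
    have htg : t * g = g * t := CommCase.comm_left hG ht' hg
    have hud : (e * g⁻¹) * d = d * (e * g⁻¹) := by
      have h3 : g * d * g⁻¹ = t * d := by
        rw [← hge]
        group
      have h4 : e * d * e⁻¹ = t * d := by
        rw [htdef]
        group
      have h5 : g⁻¹ * d * g = t⁻¹ * d := by
        have h6 : g⁻¹ * (t * d) * g = d := by
          rw [← h3]
          group
        have h7 : g⁻¹ * (t * d) * g = t * (g⁻¹ * d * g) := by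
          have h8 : g⁻¹ * t = t * g⁻¹ := by
            calc g⁻¹ * t = g⁻¹ * (t * g) * g⁻¹ := by group
              _ = g⁻¹ * (g * t) * g⁻¹ := by rw [htg]
              _ = t * g⁻¹ := by group
          calc g⁻¹ * (t * d) * g = (g⁻¹ * t) * d * g := by group
            _ = (t * g⁻¹) * d * g := by rw [h8]
            _ = t * (g⁻¹ * d * g) := by group
        rw [h7] at h6
        calc g⁻¹ * d * g = t⁻¹ * (t * (g⁻¹ * d * g)) := by group
          _ = t⁻¹ * d := by rw [h6]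
      have h6 : e * t⁻¹ = t⁻¹ * e := by
        calc e * t⁻¹ = t⁻¹ * (t * e) * t⁻¹ := by group
          _ = t⁻¹ * (e * t) * t⁻¹ := by rw [hte]
          _ = t⁻¹ * e := by group
      have h7 : (e * g⁻¹) * d * (e * g⁻¹)⁻¹ = d := by
        calc (e * g⁻¹) * d * (e * g⁻¹)⁻¹ = e * (g⁻¹ * d * g) * e⁻¹ := by group
          _ = e * (t⁻¹ * d) * e⁻¹ := by rw [h5]
          _ = (e * t⁻¹) * d * e⁻¹ := by group
          _ = (t⁻¹ * e) * d * e⁻¹ := by rw [h6]
          _ = t⁻¹ * (e * d * e⁻¹) := by group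
          _ = t⁻¹ * (t * d) := by rw [h4]
          _ = d := by group
      calc (e * g⁻¹) * d = ((e * g⁻¹) * d * (e * g⁻¹)⁻¹) * (e * g⁻¹) := by group
        _ = d * (e * g⁻¹) := by rw [h7]
    set u := e * g⁻¹ with hudef
    have huA : ∀ x ∈ A, u * x = x * u := by
      intro x hx
      have h3 : g⁻¹ * x = x * g⁻¹ := by
        calc g⁻¹ * x = g⁻¹ * (x * g) * g⁻¹ := by group
          _ = g⁻¹ * (g * x) * g⁻¹ := by rw [hgA x hx]
          _ = x * g⁻¹ := by group
      calc u * x = e * (g⁻¹ * x) := by rw [hudef]; group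
        _ = e * (x * g⁻¹) := by rw [h3]
        _ = (e * x) * g⁻¹ := by group
        _ = (x * e) * g⁻¹ := by rw [heA x hx]
        _ = x * u := by rw [hudef]; group
    have huF : ∀ x ∈ F, u * x = x * u := by
      intro x hx
      have h3 : g⁻¹ * x = x * g⁻¹ := by
        calc g⁻¹ * x = g⁻¹ * (x * g) * g⁻¹ := by group
          _ = g⁻¹ * (g * x) * g⁻¹ := by rw [hgF x hx]
          _ = x * g⁻¹ := by group
      calc u * x = e * (g⁻¹ * x) := by rw [hudef]; group
        _ = e * (x * g⁻¹) := by rw [h3]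
        _ = (e * x) * g⁻¹ := by group
        _ = (x * e) * g⁻¹ := by rw [heF x hx]
        _ = x * u := by rw [hudef]; group
    have huD : ∀ x ∈ D, u * x = x * u := by
      intro x hx
      obtain ⟨a₀, ha₀, -, e₀'⟩ := hAD.cond_right d hd hd1
      have h3 : a₀⁻¹ * x * a₀ ∈ conjBy A d⁻¹ := by
        rw [← e₀', mem_conjBy]
        simpa [mul_assoc] using hx
      rw [mem_conjBy] at h3
      set a₁ := d⁻¹⁻¹ * (a₀⁻¹ * x * a₀) * d⁻¹ with ha₁
      have hxe : x = a₀ * d⁻¹ * a₁ * d * a₀⁻¹ := by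
        rw [ha₁]
        group
      have hua₀ := huA a₀ ha₀
      have hua₁ := huA a₁ h3
      have hinv : ∀ {y : G}, u * y = y * u → u * y⁻¹ = y⁻¹ * u := by
        intro y hy
        calc u * y⁻¹ = y⁻¹ * (y * u) * y⁻¹ := by group
          _ = y⁻¹ * (u * y) * y⁻¹ := by rw [hy]
          _ = y⁻¹ * u := by group
      have hda : u * d⁻¹ = d⁻¹ * u := hinv hud
      have ha₀i : u * a₀⁻¹ = a₀⁻¹ * u := hinv hua₀
      rw [hxe]
      calc u * (a₀ * d⁻¹ * a₁ * d * a₀⁻¹) = (u * a₀) * d⁻¹ * a₁ * d * a₀⁻¹ := by group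
        _ = a₀ * (u * d⁻¹) * a₁ * d * a₀⁻¹ := by rw [hua₀]; group
        _ = a₀ * d⁻¹ * (u * a₁) * d * a₀⁻¹ := by rw [hda]; group
        _ = a₀ * d⁻¹ * a₁ * (u * d) * a₀⁻¹ := by rw [hua₁]; group
        _ = a₀ * d⁻¹ * a₁ * d * (u * a₀⁻¹) := by rw [hud]; group
        _ = (a₀ * d⁻¹ * a₁ * d * a₀⁻¹) * u := by rw [ha₀i]; group
    -- the element `a g` lies in a conjugate of `A`
    have hgm : g ∈ ⁅A, F⁆ := hg
    obtain ⟨f, hf, hfe⟩ := CommCase.exists_right hAF (A.inv_mem ha) (by simpa using ha1) hgm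
    have hagf : a * g = f * a * f⁻¹ := by
      rw [← hfe]
      group
    have huf := huF f hf
    have hcen : u ∈ Subgroup.centralizer ((conjBy A f ⊔ conjBy D f : Subgroup G) : Set G) := by
      rw [Subgroup.mem_centralizer_iff]
      have hle : conjBy A f ⊔ conjBy D f ≤ Subgroup.centralizer ({u} : Set G) := by
        have hfi : u * f⁻¹ = f⁻¹ * u := by
          calc u * f⁻¹ = f⁻¹ * (f * u) * f⁻¹ := by group
            _ = f⁻¹ * (u * f) * f⁻¹ := by rw [huf]
            _ = f⁻¹ * u := by group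
        have key : ∀ {X : Subgroup G}, (∀ x ∈ X, u * x = x * u) → conjBy X f ≤ Subgroup.centralizer ({u} : Set G) := by
          intro X hX x hx
          rw [mem_conjBy] at hx
          rw [Subgroup.mem_centralizer_iff]
          rintro _ rfl
          have h3 := hX _ hx
          set y := f⁻¹ * x * f with hy
          have hxe : x = f * y * f⁻¹ := by
            rw [hy]
            group
          rw [hxe]
          calc u * (f * y * f⁻¹) = (u * f) * y * f⁻¹ := by group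
            _ = f * (u * y) * f⁻¹ := by rw [huf]; group
            _ = f * y * (u * f⁻¹) := by rw [h3]; group
            _ = f * y * (f⁻¹ * u) := by rw [hfi]
            _ = f * y * f⁻¹ * u := by group
        exact sup_le (key huA) (key huD)
      intro h3 hh
      exact (Subgroup.mem_centralizer_iff.mp (hle hh) u rfl).symm
    have hagm : a * g ∈ conjBy A f := by
      rw [hagf]
      exact conj_mem_conjBy ha
    have hag1 : a * g ≠ 1 := by
      rw [hagf]
      intro h3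
      apply ha1
      have : a = f⁻¹ * (f * a * f⁻¹) * f := by group
      rw [this, h3]
      group
    have hnr := mul_not_root hS (hS.conj_mem A hA f) (B := conjBy D f)
      ⟨hS.conj_mem D hD f, isRankOnePair_conj hAD f⟩ hcen hu1 _ hagm hag1
    apply hnr
    have hmul : u * (a * g) = a * e := by
      have h3 : g⁻¹ * (a * g) = a := by
        calc g⁻¹ * (a * g) = g⁻¹ * (g * a) := by rw [hgA a ha]
          _ = a := by group
      calc u * (a * g) = e * (g⁻¹ * (a * g)) := by rw [hudef]; group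
        _ = e * a := by rw [h3]
        _ = a * e := heA a ha
    rw [hmul]
    obtain ⟨P, hP, hae, -⟩ := hthird a ha e he ha1 he1
    refine ⟨?_, P, hP, hae⟩
    intro h3
    apply hnot he he1
    rw [h3]
    exact A.one_mem

/-- Line partners are symmetric. -/
theorem linePartner_symm (h : B ∈ linePartners S A) (hA : A ∈ S) : A ∈ linePartners S B := by
  obtain ⟨⟨hB, hne, hc⟩, hp⟩ := h
  refine ⟨⟨hA, hne.symm, ?_⟩, ?_⟩
  · rw [Subgroup.commutator_comm]
    exact hc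
  · rw [sup_comm]
    exact hp

/-- On every line through `A` and for every rank one partner `D` of `A` there is a point `E ≠ A`
in the commutator case with `D`, with `[A, [E, D]] = E` and `A E` the whole line. -/
theorem line_transitive (hS : IsRootSubgroupSet S) (hA : A ∈ S) (hD : D ∈ S) (hAD : IsRankOnePair A D)
    (hl : B ∈ linePartners S A) :
    ∃ E ∈ S, E ≠ A ∧ E ≤ A ⊔ B ∧ RootCommutatorCase S E D ∧ ⁅A, ⁅E, D⁆⁆ = E ∧ A ⊔ E = A ⊔ B := by
  obtain ⟨⟨hB, hBA, hc⟩, hp⟩ := hl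
  have hAB : ∀ x ∈ A, ∀ y ∈ B, x * y = y * x := fun x hx y hy => comm_of_commutator_eq_bot hc hx hy
  have hNab : ∀ {x y : G}, x ∈ A ⊔ B → y ∈ A ⊔ B → x * y = y * x := fun hx hy =>
    sup_comm_of_comm (hS.commutative A hA) (hS.commutative B hB) hAB hx hy
  have hAm : A ∈ membersIn S (A ⊔ B) := ⟨hA, le_sup_left⟩
  have hBm : B ∈ membersIn S (A ⊔ B) := ⟨hB, le_sup_right⟩
  have hABbot : A ⊓ B = ⊥ := hp.2.2 A hAm B hBm hBA.symm
  -- a point which is not rank one to `D`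
  have hex : ∃ E ∈ membersIn S (A ⊔ B), E ≠ A ∧ NilPair E D ∧
      (B = E ∨ ∃ x ∈ A, ∃ x' ∈ B, x' ≠ 1 ∧ x * x'⁻¹ ∈ E) := by
    rcases nil_or_rankOne hS hB hD with hn | hr
    · exact ⟨B, hBm, hBA, hn, Or.inl rfl⟩
    · obtain ⟨x, hx, hx1, x', hx', hx'1, hu1, hall⟩ := exists_not_rankOne hAD hr hAB hABbot
      obtain ⟨E, hEm, huE⟩ := hp.2.1 (x * x'⁻¹) ((A ⊔ B).mul_mem (Subgroup.mem_sup_left hx)
        (Subgroup.mem_sup_right (B.inv_mem hx'))) hu1
      refine ⟨E, hEm, ?_, ?_, Or.inr ⟨x, hx, x', hx', hx'1, huE⟩⟩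
      · rintro rfl
        have h1 : x' ∈ E := by
          have := E.mul_mem (E.inv_mem huE) hx
          simpa using this
        have h2 : x' ∈ E ⊓ B := Subgroup.mem_inf.mpr ⟨h1, hx'⟩
        rw [hABbot, Subgroup.mem_bot] at h2
        exact hx'1 h2
      · rcases nil_or_rankOne hS hEm.1 hD with hn | hr2
        · exact hn
        · exact absurd hr2 (hall E huE)
  obtain ⟨E, hEm, hEA, hn, hEB⟩ := hex
  have hES : E ∈ S := hEm.1
  have hAE : ∀ x ∈ A, ∀ y ∈ E, x * y = y * x := fun x hx y hy =>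
    hNab (Subgroup.mem_sup_left hx) (hEm.2 hy)
  have hAEbot : A ⊓ E = ⊥ := hp.2.2 A hAm E hEm hEA.symm
  have hthird : ∀ a ∈ A, ∀ e ∈ E, a ≠ 1 → e ≠ 1 →
      ∃ P ∈ S, a * e ∈ P ∧ ∀ x ∈ A, ∀ y ∈ P, x * y = y * x := by
    intro a ha e he ha1 he1
    have hae1 : a * e ≠ 1 := by
      intro h1
      have h2 : e ∈ A := by
        have h3 : e = a⁻¹ := eq_inv_of_mul_eq_one_right h1
        rw [h3]
        exact A.inv_mem ha
      have h3 : e ∈ A ⊓ E := Subgroup.mem_inf.mpr ⟨h2, he⟩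
      rw [hAEbot, Subgroup.mem_bot] at h3
      exact he1 h3
    obtain ⟨P, hPm, hP⟩ := hp.2.1 (a * e) ((A ⊔ B).mul_mem (Subgroup.mem_sup_left ha) (hEm.2 he)) hae1
    exact ⟨P, hPm.1, hP, fun x hx y hy => hNab (Subgroup.mem_sup_left hx) (hPm.2 hy)⟩
  obtain ⟨hcase, hGE⟩ := commutator_eq_of_line hS hA hD hES hAD hAE hAEbot hthird hn
  have hAF : RootCommutatorCase S A ⁅E, D⁆ := commCase_key hS hA hAD hAE hcase
  have hBle : B ≤ A ⊔ E := by
    rcases hEB with rfl | ⟨x, hx, x', hx', hx'1, huE⟩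
    · exact le_sup_right
    · have hx'm : x' ∈ A ⊔ E := by
        have h1 : x' = (x * x'⁻¹)⁻¹ * x := by group
        rw [h1]
        exact (A ⊔ E).mul_mem (Subgroup.mem_sup_right (E.inv_mem huE)) (Subgroup.mem_sup_left hx)
      have hpart := line_partition hS hA hD hAD hAF
      rw [hGE] at hpart
      obtain ⟨P, hPm, hP⟩ := hpart.2.1 x' hx'm hx'1
      have hPN : P ∈ membersIn S (A ⊔ B) := ⟨hPm.1, hPm.2.trans (sup_le le_sup_left hEm.2)⟩
      by_cases hPB : P = B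
      · rw [← hPB]
        exact hPm.2
      · exfalso
        have h2 := hp.2.2 P hPN B hBm hPB
        have h3 : x' ∈ P ⊓ B := Subgroup.mem_inf.mpr ⟨hP, hx'⟩
        rw [h2, Subgroup.mem_bot] at h3
        exact hx'1 h3
  exact ⟨E, hES, hEA, hEm.2, hcase, hGE, le_antisymm (sup_le le_sup_left hEm.2) (sup_le le_sup_left hBle)⟩

end Cfsg.Agent.Lib.RootKey
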