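import Mathlib
import Cfsg.Prelude.Def_RootSubgroups
import Cfsg.Agent.Lib.RankOne
import Cfsg.Agent.Lib.RootBasic
import Cfsg.Agent.Lib.RootLines
import Cfsg.Agent.Lib.RootKey

/-!
Double transitivity on lines (Timmesfeld, chapter II, section 2).
-/

namespace Cfsg.Agent.Lib.RootDouble

open Cfsg Cfsg.Agent.Lib.RankOne Cfsg.Agent.Lib.RootBasic Cfsg.Agent.Lib.RootLines Cfsg.Agent.Lib.RootKey
open scoped commutatorElement

variable {G : Type*} [Group G] {S : Set (Subgroup G)} {A B C D E : Subgroup G}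

/-- `F` normalizes the line `A ⊔ ⁅A, F⁆`. -/
theorem normalizes_line (h : RootCommutatorCase S A B) :
    B ≤ Subgroup.normalizer ((A ⊔ ⁅A, B⁆ : Subgroup G) : Set G) := by
  have key : ∀ b ∈ B, conjBy (A ⊔ ⁅A, B⁆) b ≤ A ⊔ ⁅A, B⁆ := by
    intro b hb
    rw [conjBy_sup]
    refine sup_le (CommCase.conj_le_sup h hb) ?_
    rw [conjBy_eq_of_commute fun c hc => (CommCase.comm_right h hc hb).symm]
    exact le_sup_right
  intro b hb
  rw [mem_normalizer_iff_conjBy]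
  refine le_antisymm (key b hb) ?_
  intro x hx
  rw [mem_conjBy]
  have h3 : b⁻¹ * x * b⁻¹⁻¹ ∈ conjBy (A ⊔ ⁅A, B⁆) b⁻¹ := conj_mem_conjBy hx
  simpa using key _ (B.inv_mem hb) h3

theorem moves_of_ne (hS : IsRootSubgroupSet S) (hA : A ∈ S) (hD : D ∈ S) (hAD : IsRankOnePair A D)
    (h : RootCommutatorCase S A B) {b : G} (hb : b ∈ B) (hb1 : b ≠ 1) : conjBy A b ≠ A := by
  intro e
  have hle := commutator_le_of_normalize h hb hb1 e
  obtain ⟨c, hc⟩ := Subgroup.ne_bot_iff_exists_ne_one.mp (hS.ne_bot _ h.1)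
  have hc1 : (c : G) ≠ 1 := by simpa using hc
  exact ne_commutator hS hA hD hAD h (eq_of_mem_inter hS hA hD hAD h.1 (hle c.2) c.2 hc1)

/-- Every non-identity element of `B` moves every conjugate of `A` under `B`. -/
theorem moves_conj (hS : IsRootSubgroupSet S) (hA : A ∈ S) (hD : D ∈ S) (hAD : IsRankOnePair A D)
    (hB : B ∈ S) (h : RootCommutatorCase S A B) {b f : G} (hb : b ∈ B) (hb1 : b ≠ 1) (hf : f ∈ B) :
    conjBy (conjBy A f) b ≠ conjBy A f := by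
  intro e
  apply moves_of_ne hS hA hD hAD h hb hb1
  have h1 : conjBy A (f⁻¹ * b * f) = A := by
    rw [conjBy_mul, conjBy_mul, e, conjBy_conjBy_inv]
  have h2 : f⁻¹ * b * f = b := by
    have := comm_of_mem (hS.commutative B hB) hb hf
    calc f⁻¹ * b * f = f⁻¹ * (b * f) := by group
      _ = f⁻¹ * (f * b) := by rw [this]
      _ = b := by group
  rwa [h2] at h1

theorem main (hS : IsRootSubgroupSet S) (hF : ∀ A ∈ S, ¬ IsIsolatedIn (FAdj S) S A) (hA : A ∈ S)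
    (hB : B ∈ linePartners S A) :
    ∀ C₁ ∈ membersIn S (A ⊔ B), ∀ C₂ ∈ membersIn S (A ⊔ B), ∀ D₁ ∈ membersIn S (A ⊔ B),
      ∀ D₂ ∈ membersIn S (A ⊔ B), C₁ ≠ C₂ → D₁ ≠ D₂ →
        ∃ x ∈ ⨆ E ∈ normalizingMembers S (A ⊔ B), E, conjBy C₁ x = D₁ ∧ conjBy C₂ x = D₂ := by
  obtain ⟨D, hD, hAD⟩ := exists_partner (hF A hA) hA
  obtain ⟨E₀, hE₀, hE₀A, -, hc₀, hG₀, hsup₀⟩ := line_transitive hS hA hD hAD hB
  have hAF₀ : RootCommutatorCase S A ⁅E₀, D⁆ := by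
    refine commCase_of_mem hS hA hc₀.1 ?_
    rw [hG₀]
    exact hE₀
  set F₀ := ⁅E₀, D⁆ with hF₀def
  have hm₀ := line_members hS hA hD hAD hAF₀
  rw [hG₀, hsup₀] at hm₀
  have hpart₀ := line_partition hS hA hD hAD hAF₀
  rw [hG₀, hsup₀] at hpart₀
  have hE₀l : E₀ ∈ linePartners S A := by
    refine ⟨⟨hE₀, hE₀A, ?_⟩, ?_⟩
    · exact commutator_eq_bot_of_comm fun x hx y hy => by
        have hy' : y ∈ ⁅A, F₀⁆ := by
          rw [hG₀]
          exact hy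
        exact (CommCase.comm_left hAF₀ hy' hx).symm
    · rw [hsup₀]
      exact hpart₀
  have hAl : A ∈ linePartners S E₀ := linePartner_symm hE₀l hA
  obtain ⟨D', hD', hE₀D'⟩ := exists_partner (hF E₀ hE₀) hE₀
  obtain ⟨E₁, hE₁, hE₁E₀, -, hc₁, hG₁, hsup₁⟩ := line_transitive hS hE₀ hD' hE₀D' hAl
  rw [sup_comm E₀ A, hsup₀] at hsup₁
  have hE₀F₁ : RootCommutatorCase S E₀ ⁅E₁, D'⁆ := by
    refine commCase_of_mem hS hE₀ hc₁.1 ?_
    rw [hG₁]
    exact hE₁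
  set F₁ := ⁅E₁, D'⁆ with hF₁def
  have hm₁ := line_members hS hE₀ hD' hE₀D' hE₀F₁
  rw [hG₁, hsup₁] at hm₁
  set N := A ⊔ B with hN
  have hF₀n : F₀ ≤ Subgroup.normalizer (N : Set G) := by
    have := normalizes_line hAF₀
    rwa [hG₀, hsup₀] at this
  have hF₁n : F₁ ≤ Subgroup.normalizer (N : Set G) := by
    have := normalizes_line hE₀F₁
    rwa [hG₁, hsup₁] at this
  set T : Subgroup G := ⨆ E ∈ normalizingMembers S N, E with hT
  have hF₀T : F₀ ≤ T := le_iSup₂_of_le F₀ ⟨hc₀.1, hF₀n⟩ le_rfl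
  have hF₁T : F₁ ≤ T := le_iSup₂_of_le F₁ ⟨hc₁.1, hF₁n⟩ le_rfl
  have hTn : T ≤ Subgroup.normalizer (N : Set G) := iSup₂_le fun E hE => hE.2
  have hfixE₀ : ∀ f ∈ F₀, conjBy E₀ f = E₀ := by
    intro f hf
    apply conjBy_eq_of_commute
    intro e he
    have he' : e ∈ ⁅A, F₀⁆ := by
      rw [hG₀]
      exact he
    exact (CommCase.comm_right hAF₀ he' hf).symm
  have hmem_conj : ∀ {X : Subgroup G} {y : G}, X ∈ membersIn S N → y ∈ T → conjBy X y ∈ membersIn S N := by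
    intro X y hX hy
    refine ⟨hS.conj_mem X hX.1 y, ?_⟩
    have h1 : conjBy N y = N := mem_normalizer_iff_conjBy.mp (hTn hy)
    rw [← h1]
    exact conjBy_mono hX.2 y
  obtain ⟨f₀, hf₀, hf₀1⟩ := CommCase.exists_ne_one_right hS hAF₀
  -- move the first point to `E₀`
  have step1 : ∀ C₁ ∈ membersIn S N, ∃ y ∈ T, conjBy C₁ y = E₀ := by
    intro C₁ hC₁
    by_cases h0 : C₁ = E₀
    · exact ⟨1, T.one_mem, by rw [conjBy_one, h0]⟩
    by_cases h1 : C₁ = E₁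
    · -- move off `E₁` first
      have hC : C₁ ∈ (fun b : G => conjBy A b) '' (F₀ : Set G) ∪ {E₀} := by
        rw [← hm₀]
        exact hC₁
      rcases hC with ⟨f, hf, rfl⟩ | hC
      · have hmv := moves_conj hS hA hD hAD hc₀.1 hAF₀ hf₀ hf₀1 hf
        set P := conjBy (conjBy A f) f₀ with hP
        have hPm : P ∈ membersIn S N := hmem_conj hC₁ (hF₀T hf₀)
        have hPE₀ : P ≠ E₀ := by
          intro e
          apply h0
          have := conjBy_eq_of_inv e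
          rw [hfixE₀ _ (F₀.inv_mem hf₀)] at this
          exact this.symm
        have hPE₁ : P ≠ E₁ := by
          rw [← h1]
          exact hmv
        have hP1 : P ∈ (fun b : G => conjBy E₀ b) '' (F₁ : Set G) ∪ {E₁} := by
          rw [← hm₁]
          exact hPm
        rcases hP1 with ⟨f₁, hf₁, e⟩ | e
        · refine ⟨f₁⁻¹ * f₀, T.mul_mem (hF₁T (F₁.inv_mem hf₁)) (hF₀T hf₀), ?_⟩
          rw [conjBy_mul, ← hP, ← e]
          exact conjBy_conjBy_inv _ _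
        · exact absurd e hPE₁
      · exact absurd hC h0
    · have hC : C₁ ∈ (fun b : G => conjBy E₀ b) '' (F₁ : Set G) ∪ {E₁} := by
        rw [← hm₁]
        exact hC₁
      rcases hC with ⟨f, hf, rfl⟩ | hC
      · exact ⟨f⁻¹, T.inv_mem (hF₁T hf), conjBy_conjBy_inv _ _⟩
      · exact absurd hC h1
  have step2 : ∀ C₁ ∈ membersIn S N, ∀ C₂ ∈ membersIn S N, C₁ ≠ C₂ →
      ∃ x ∈ T, conjBy C₁ x = E₀ ∧ conjBy C₂ x = A := by
    intro C₁ hC₁ C₂ hC₂ hne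
    obtain ⟨y, hy, hye⟩ := step1 C₁ hC₁
    have h2m := hmem_conj hC₂ hy
    have h2ne : conjBy C₂ y ≠ E₀ := by
      intro e
      apply hne
      rw [← hye] at e
      exact (conjBy_injective y e).symm
    have h2 : conjBy C₂ y ∈ (fun b : G => conjBy A b) '' (F₀ : Set G) ∪ {E₀} := by
      rw [← hm₀]
      exact h2m
    rcases h2 with ⟨f, hf, e⟩ | e
    · refine ⟨f⁻¹ * y, T.mul_mem (hF₀T (F₀.inv_mem hf)) hy, ?_, ?_⟩
      · rw [conjBy_mul, hye, hfixE₀ _ (F₀.inv_mem hf)]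
      · rw [conjBy_mul, ← e]
        exact conjBy_conjBy_inv _ _
    · exact absurd e h2ne
  intro C₁ hC₁ C₂ hC₂ D₁ hD₁ D₂ hD₂ hC hDne
  obtain ⟨x₁, hx₁, e₁, e₂⟩ := step2 C₁ hC₁ C₂ hC₂ hC
  obtain ⟨x₂, hx₂, e₃, e₄⟩ := step2 D₁ hD₁ D₂ hD₂ hDne
  refine ⟨x₂⁻¹ * x₁, T.mul_mem (T.inv_mem hx₂) hx₁, ?_, ?_⟩
  · rw [conjBy_mul, e₁, ← e₃]
    exact conjBy_conjBy_inv _ _
  · rw [conjBy_mul, e₂, ← e₄]
    exact conjBy_conjBy_inv _ _

end Cfsg.Agent.Lib.RootDouble
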