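import Mathlib
import Cfsg.Prelude.Def_RootSubgroups
import Cfsg.Agent.Lib.RankOne
import Cfsg.Agent.Lib.RankOneSpecial
import Cfsg.Agent.Lib.RootBasic
import Cfsg.Agent.Lib.RootLines
import Cfsg.Agent.Lib.RootKey
import Cfsg.Agent.Lib.RootDouble
import Cfsg.Agent.Lib.RootConn

/-!
Non-degenerate classes of abstract root subgroups: special rank one pairs, line partners,
connectivity (Timmesfeld, chapter II, section 2).
-/

namespace Cfsg.Agent.Lib.RootSpecial

open Cfsg Cfsg.Agent.Lib.RankOne Cfsg.Agent.Lib.RootBasic Cfsg.Agent.Lib.RootLines Cfsg.Agent.Lib.RootKey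
open scoped commutatorElement

variable {G : Type*} [Group G] {S : Set (Subgroup G)} {A B C D E : Subgroup G}

theorem special_of_line (hS : IsRootSubgroupSet S) (hA : A ∈ S) (hD : D ∈ S) (hE : E ∈ S)
    (hAD : IsRankOnePair A D) (hcomm : ∀ x ∈ A, ∀ y ∈ E, x * y = y * x) (hc : RootCommutatorCase S E D)
    (hG : ⁅A, ⁅E, D⁆⁆ = E) : IsSpecialRankOnePair A D := by
  have hAF : RootCommutatorCase S A ⁅E, D⁆ := commCase_key hS hA hAD hcomm hc
  have hDA := RankOnePair_symm hAD
  set F := ⁅E, D⁆ with hFdef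
  have hFA := CommCase.symm hAF
  have hFE : ∀ x ∈ E, ∀ y ∈ F, x * y = y * x := fun x hx y hy => (CommCase.comm_left hc hy hx).symm
  have hnorm : A ⊔ D ≤ Subgroup.normalizer ((E ⊔ F : Subgroup G) : Set G) := by
    refine sup_le ?_ ?_
    · have := Cfsg.Agent.Lib.RootDouble.normalizes_line hFA
      rwa [Subgroup.commutator_comm, hG, sup_comm] at this
    · exact Cfsg.Agent.Lib.RootDouble.normalizes_line hc
  have hEab := hS.commutative E hE
  refine Cfsg.Agent.Lib.RankOneSpecial.special_of_subgroup hAD (E ⊔ F) ?_ ?_ ?_ ?_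
  · intro x hx y hy
    exact sup_comm_of_comm hEab (hS.commutative F hc.1) hFE hx hy
  · intro x hx v hv
    exact (Subgroup.mem_normalizer_iff.mp (hnorm hx) v).mp hv
  · intro a ha a' ha' v hv
    obtain ⟨e, he, f, hf, rfl⟩ := exists_mul_of_mem_sup hFE hv
    have hg : a * f * a⁻¹ * f⁻¹ ∈ E := by
      rw [← hG]
      exact comm_mem ha hf
    have hae : a * e = e * a := hcomm a ha e he
    have h1 : a * (e * f) * a⁻¹ * (e * f)⁻¹ = a * f * a⁻¹ * f⁻¹ := by
      set g := a * f * a⁻¹ * f⁻¹ with hgdef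
      have h2 := comm_of_mem hEab he hg
      calc a * (e * f) * a⁻¹ * (e * f)⁻¹ = (a * e) * f * a⁻¹ * f⁻¹ * e⁻¹ := by group
        _ = (e * a) * f * a⁻¹ * f⁻¹ * e⁻¹ := by rw [hae]
        _ = e * g * e⁻¹ := by rw [hgdef]; group
        _ = g * e * e⁻¹ := by rw [h2]
        _ = g := by group
    rw [h1]
    have h3 := hcomm a' ha' _ hg
    rw [h3]
    group
  · obtain ⟨a, ha, ha1⟩ := exists_ne_one_left hAD
    obtain ⟨g, hg⟩ := Subgroup.ne_bot_iff_exists_ne_one.mp (hS.ne_bot E hE)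
    have hg1 : (g : G) ≠ 1 := by simpa using hg
    have hg' : (g : G) ∈ ⁅A, F⁆ := by
      rw [hG]
      exact g.2
    obtain ⟨f, hf, hfe⟩ := CommCase.exists_right hAF ha ha1 hg'
    obtain ⟨d, hd, hd1⟩ := exists_ne_one_left hDA
    refine ⟨a, Subgroup.mem_sup_left ha, d, Subgroup.mem_sup_right hd, f, Subgroup.mem_sup_right hf, ?_⟩
    rw [hfe]
    intro h1
    apply comm_ne_one' hS hD hA hDA hc g.2 hg1 hd hd1
    have h2 : d * g = g * d := by
      calc d * g = (d * g * d⁻¹) * d := by group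
        _ = g * d := by rw [h1]
    rw [← h2]
    group

/-- Commutator partners exist for every member of a non-degenerate class with a partner. -/
theorem exists_commCase (hS : IsRootSubgroupClass S) (hnd : IsNondegenerateRootSet S) (hA : A ∈ S) :
    ∃ B ∈ S, RootCommutatorCase S A B := by
  obtain ⟨A₀, hA₀, B₀, hB₀, hc⟩ := hnd.2.2
  obtain ⟨g, rfl⟩ := hS.2.2 A₀ hA₀ A hA
  refine ⟨conjBy B₀ g, hS.1.conj_mem _ hB₀ g, ?_⟩
  refine commCase_of_mem hS.1 (hS.1.conj_mem _ hA₀ g) (hS.1.conj_mem _ hB₀ g) ?_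
  have : ⁅conjBy A₀ g, conjBy B₀ g⁆ = conjBy ⁅A₀, B₀⁆ g := by
    simp only [conjBy]
    rw [Subgroup.map_commutator]
  rw [this]
  exact hS.1.conj_mem _ hc.1 g

/-- Timmesfeld II.2: the first part. -/
theorem exists_linePartner (hS : IsRootSubgroupClass S) (hnd : IsNondegenerateRootSet S) (hA : A ∈ S)
    (hD : D ∈ S) (hAD : IsRankOnePair A D) :
    ∃ E ∈ linePartners S A, RootCommutatorCase S E D ∧ ⁅A, ⁅E, D⁆⁆ = E := by
  obtain ⟨B₁, hB₁, hc⟩ := exists_commCase hS hnd hA
  have hl0 : ⁅A, B₁⁆ ∈ linePartners S A :=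
    linePartner_symm (line_partner hS.1 hA hD hAD hc) hc.1
  obtain ⟨E, hE, hEA, hEle, hcase, hG, hsup⟩ := line_transitive hS.1 hA hD hAD hl0
  refine ⟨E, ⟨⟨hE, hEA, ?_⟩, ?_⟩, hcase, hG⟩
  · refine commutator_eq_bot_of_comm fun x hx y hy => ?_
    exact sup_comm_of_comm (hS.1.commutative A hA) (hS.1.commutative _ hc.1) (CommCase.comm_AC hc)
      (Subgroup.mem_sup_left hx) (hEle hy)
  · rw [hsup]
    exact hl0.2

theorem special_of_nondegenerate (hS : IsRootSubgroupClass S) (hnd : IsNondegenerateRootSet S) (hA : A ∈ S)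
    (hD : D ∈ S) (hAD : IsRankOnePair A D) : IsSpecialRankOnePair A D := by
  obtain ⟨E, hE, hcase, hG⟩ := exists_linePartner hS hnd hA hD hAD
  exact special_of_line hS.1 hA hD hE.1.1 hAD
    (fun x hx y hy => comm_of_commutator_eq_bot hE.1.2.2 hx hy) hcase hG

/-- `A` has a rank one partner in a non-degenerate class. -/
theorem exists_partner_of_class (hS : IsRootSubgroupClass S) (hnd : IsNondegenerateRootSet S) (hA : A ∈ S) :
    ∃ D ∈ S, IsRankOnePair A D := by
  obtain ⟨A₀, hA₀, B₀, hB₀, hr⟩ := hnd.2.1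
  obtain ⟨g, rfl⟩ := hS.2.2 A₀ hA₀ A hA
  exact ⟨conjBy B₀ g, hS.1.conj_mem _ hB₀ g, isRankOnePair_conj hr g⟩

/-- Every rank one pair in a non-degenerate class is joined by line partners. -/
theorem eadj_path (hS : IsRootSubgroupClass S) (hnd : IsNondegenerateRootSet S) (hA : A ∈ S)
    (hD : D ∈ S) (hAD : IsRankOnePair A D) : Relation.ReflTransGen (EAdj S S) A D := by
  obtain ⟨E, hE, hcase, hG⟩ := exists_linePartner hS hnd hA hD hAD
  have hES := hE.1.1
  have hFS := hcase.1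
  obtain ⟨P, hP, hEP⟩ := exists_partner_of_class hS hnd hES
  have h1 : ⁅E, D⁆ ∈ linePartners S D := by
    have h2 := line_partner hS.1 hD hA (RankOnePair_symm hAD) (CommCase.symm hcase)
    rw [Subgroup.commutator_comm] at h2
    exact linePartner_symm h2 hFS
  have h3 : ⁅E, D⁆ ∈ linePartners S E := linePartner_symm (line_partner hS.1 hES hP hEP hcase) hFS
  have step1 : EAdj S S A E := ⟨hA, hES, hE⟩
  have step2 : EAdj S S E ⁅E, D⁆ := ⟨hES, hFS, h3⟩
  have step3 : EAdj S S ⁅E, D⁆ D := ⟨hFS, hD, linePartner_symm h1 hD⟩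
  exact (Relation.ReflTransGen.single step1).tail step2 |>.tail step3

theorem eadj_connected (hS : IsRootSubgroupClass S) (hnd : IsNondegenerateRootSet S) :
    IsConnectedFamily (EAdj S S) S := by
  have hsymm : ∀ {X Y : Subgroup G}, Relation.ReflTransGen (EAdj S S) X Y → Relation.ReflTransGen (EAdj S S) Y X := by
    intro X Y h
    induction h with
    | refl => exact Relation.ReflTransGen.refl
    | @tail _ Z _ hYZ ih =>
      exact Relation.ReflTransGen.head ⟨hYZ.2.1, hYZ.1, linePartner_symm hYZ.2.2 hYZ.1⟩ ih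
  have hF : ∀ {X Y : Subgroup G}, Relation.ReflTransGen (FAdj S) X Y → Relation.ReflTransGen (EAdj S S) X Y := by
    intro X Y h
    induction h with
    | refl => exact Relation.ReflTransGen.refl
    | @tail _ Z _ hYZ ih => exact ih.trans (eadj_path hS hnd hYZ.1 hYZ.2.1 hYZ.2.2)
  intro X hX Y hY
  obtain ⟨D, hD, hXD⟩ := exists_partner_of_class hS hnd hX
  obtain ⟨g, rfl⟩ := hS.2.2 X hX Y hY
  exact hF (Cfsg.Agent.Lib.RootConn.rel_conj_all hS.1 hX hD hXD g)

theorem dadj_connected (hS : IsRootSubgroupClass S) (hnd : IsNondegenerateRootSet S) :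
    IsConnectedFamily (DAdj S) S := by
  intro X hX Y hY
  have h := eadj_connected hS hnd X hX Y hY
  induction h with
  | refl => exact Relation.ReflTransGen.refl
  | @tail _ Z _ hYZ ih =>
    refine (ih hYZ.1).tail ⟨hYZ.1, hYZ.2.1, hYZ.2.2.1.2.1.symm, hYZ.2.2.1.2.2⟩

end Cfsg.Agent.Lib.RootSpecial
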