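import Mathlib
import Cfsg.Prelude.Def_RootSubgroups
import Cfsg.Agent.Lib.RankOne
import Cfsg.Agent.Lib.RootBasic
import Cfsg.Agent.Lib.RootLines
import Cfsg.Agent.Lib.RootKey
import Cfsg.Agent.Lib.RootDouble
import Cfsg.Agent.Lib.RootConn
import Cfsg.Agent.Lib.RootSpecial

/-!
Generation by line partners, weak TI-subsets, comparison of centralizers
(Timmesfeld, chapter II, section 2).
-/

namespace Cfsg.Agent.Lib.RootGen

open Cfsg Cfsg.Agent.Lib.RankOne Cfsg.Agent.Lib.RootBasic Cfsg.Agent.Lib.RootLines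
  Cfsg.Agent.Lib.RootKey Cfsg.Agent.Lib.RootSpecial
open scoped commutatorElement

variable {G : Type*} [Group G] {S : Set (Subgroup G)} {A B C D E : Subgroup G}

theorem conj_commutator (X Y : Subgroup G) (g : G) : ⁅conjBy X g, conjBy Y g⁆ = conjBy ⁅X, Y⁆ g := by
  simp only [conjBy]
  rw [Subgroup.map_commutator]

theorem commCase_conj (hS : IsRootSubgroupSet S) (hA : A ∈ S) (hB : B ∈ S) (h : RootCommutatorCase S A B)
    (g : G) : RootCommutatorCase S (conjBy A g) (conjBy B g) := by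
  refine commCase_of_mem hS (hS.conj_mem _ hA g) (hS.conj_mem _ hB g) ?_
  rw [conj_commutator]
  exact hS.conj_mem _ h.1 g

theorem conjBy_le_of_mem {X H : Subgroup G} (hX : X ≤ H) {g : G} (hg : g ∈ H) : conjBy X g ≤ H := by
  intro x hx
  rw [mem_conjBy] at hx
  have h1 : g * (g⁻¹ * x * g) * g⁻¹ ∈ H := H.mul_mem (H.mul_mem hg (hX hx)) (H.inv_mem hg)
  have h2 : g * (g⁻¹ * x * g) * g⁻¹ = x := by group
  rwa [h2] at h1

theorem linePartners_conj (hS : IsRootSubgroupSet S) (hB : B ∈ linePartners S A) (g : G) :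
    conjBy B g ∈ linePartners S (conjBy A g) := by
  obtain ⟨⟨hBS, hne, hc⟩, hp⟩ := hB
  refine ⟨⟨hS.conj_mem _ hBS g, fun e => hne (conjBy_injective g e), ?_⟩, ?_⟩
  · rw [conj_commutator, hc]
    simp
  · rw [← conjBy_sup]
    obtain ⟨h1, h2, h3⟩ := hp
    refine ⟨fun X hX => hX.2, ?_, ?_⟩
    · intro x hx hx1
      have hx' : g⁻¹ * x * g ∈ A ⊔ B := mem_conjBy.mp hx
      have hne1 : g⁻¹ * x * g ≠ 1 := by
        intro e
        apply hx1
        have : x = g * (g⁻¹ * x * g) * g⁻¹ := by group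
        rw [this, e]
        simp
      obtain ⟨X, hX, hxX⟩ := h2 _ hx' hne1
      refine ⟨conjBy X g, ⟨hS.conj_mem _ hX.1 g, conjBy_mono hX.2 g⟩, mem_conjBy.mpr hxX⟩
    · intro X hX Y hY hXY
      have hX' : conjBy X g⁻¹ ∈ membersIn S (A ⊔ B) := by
        refine ⟨hS.conj_mem _ hX.1 _, ?_⟩
        have := conjBy_mono hX.2 g⁻¹
        rwa [conjBy_conjBy_inv] at this
      have hY' : conjBy Y g⁻¹ ∈ membersIn S (A ⊔ B) := by
        refine ⟨hS.conj_mem _ hY.1 _, ?_⟩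
        have := conjBy_mono hY.2 g⁻¹
        rwa [conjBy_conjBy_inv] at this
      have hne2 : conjBy X g⁻¹ ≠ conjBy Y g⁻¹ := fun e => hXY (conjBy_injective g⁻¹ e)
      have h4 := h3 _ hX' _ hY' hne2
      rw [eq_bot_iff]
      intro x hx
      have hxX : x ∈ X := (Subgroup.mem_inf.mp hx).1
      have hxY : x ∈ Y := (Subgroup.mem_inf.mp hx).2
      have h5 : g⁻¹ * x * g⁻¹⁻¹ ∈ conjBy X g⁻¹ ⊓ conjBy Y g⁻¹ :=
        Subgroup.mem_inf.mpr ⟨conj_mem_conjBy hxX, conj_mem_conjBy hxY⟩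
      rw [h4, Subgroup.mem_bot] at h5
      have : x = g * (g⁻¹ * x * g⁻¹⁻¹) * g⁻¹ := by group
      rw [this, h5]
      simp

theorem exists_partners_of_class (hS : IsRootSubgroupClass S) (hnd : IsNondegenerateRootSet S) :
    ∀ A ∈ S, ¬ IsIsolatedIn (FAdj S) S A := by
  intro A hA hi
  obtain ⟨D, hD, hAD⟩ := exists_partner_of_class hS hnd hA
  exact (hi.2 D).1 ⟨hA, hD, hAD⟩

/-- A line through `A` gives a partner on the line whose commutator with it is `A`. -/
theorem exists_line_commutator (hS : IsRootSubgroupClass S) (hnd : IsNondegenerateRootSet S) (hA : A ∈ S)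
    (hE : E ∈ linePartners S A) :
    ∃ Q ∈ linePartners S A, RootCommutatorCase S E Q ∧ ⁅E, Q⁆ = A := by
  have hES : E ∈ S := hE.1.1
  obtain ⟨P, hP, hEP⟩ := exists_partner_of_class hS hnd hES
  obtain ⟨D, hD, hAD⟩ := exists_partner_of_class hS hnd hA
  have hAl : A ∈ linePartners S E := linePartner_symm hE hA
  obtain ⟨E', hE', hE'E, hle, hc', hG', hsup'⟩ := line_transitive hS.1 hES hP hEP hAl
  have hm1 : E ∈ membersIn S (E ⊔ A) := ⟨hES, le_sup_left⟩
  have hm2 : E' ∈ membersIn S (E ⊔ A) := ⟨hE', hle⟩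
  have hm3 : A ∈ membersIn S (E ⊔ A) := ⟨hA, le_sup_right⟩
  obtain ⟨x, -, e1, e2⟩ := Cfsg.Agent.Lib.RootDouble.main hS.1 (exists_partners_of_class hS hnd) hES hAl
    E hm1 E' hm2 E hm1 A hm3 (Ne.symm hE'E) hE.1.2.1
  set P' := conjBy P x with hP'
  have hEP' : IsRankOnePair E P' := by
    have := isRankOnePair_conj hEP x
    rwa [e1] at this
  have hAP' : RootCommutatorCase S A P' := by
    have := commCase_conj hS.1 hE' hP hc' x
    rwa [e2] at this
  have hG : ⁅E, ⁅A, P'⁆⁆ = A := by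
    have h1 : conjBy ⁅E, ⁅E', P⁆⁆ x = conjBy E' x := by rw [hG']
    rw [← conj_commutator, ← conj_commutator, e1, e2] at h1
    exact h1
  have hQS : ⁅A, P'⁆ ∈ S := hAP'.1
  refine ⟨⁅A, P'⁆, linePartner_symm (line_partner hS.1 hA hD hAD hAP') hQS, ?_, hG⟩
  refine commCase_of_mem hS.1 hES hQS ?_
  rw [hG]
  exact hA

/-- Points of a line other than the special point are rank one partners. -/
theorem line_rankOne (hS : IsRootSubgroupSet S) (hA : A ∈ S) (hD : D ∈ S) (hES : E ∈ S) (hAD : IsRankOnePair A D)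
    (hc : RootCommutatorCase S E D) (hG : ⁅A, ⁅E, D⁆⁆ = E) {X : Subgroup G} (hX : X ∈ S) (hle : X ≤ A ⊔ E)
    (hne : X ≠ E) : IsRankOnePair X D := by
  have hAF : RootCommutatorCase S A ⁅E, D⁆ := by
    refine commCase_of_mem hS hA hc.1 ?_
    rw [hG]
    exact hES
  have hm := line_members hS hA hD hAD hAF
  rw [hG] at hm
  have hX' : X ∈ (fun b : G => conjBy A b) '' ((⁅E, D⁆ : Subgroup G) : Set G) ∪ {E} := by
    rw [← hm]
    exact ⟨hX, hle⟩
  rcases hX' with ⟨f, hf, rfl⟩ | h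
  · have h1 : conjBy D f = D := conjBy_eq_of_commute fun d hd => CommCase.comm_right hc hf hd
    have := isRankOnePair_conj hAD f
    rwa [h1] at this
  · exact absurd h hne

/-- If `A` and `E` have the common rank one partner `B` and lie in `H` with `B` then they are conjugate in `H`. -/
theorem conj_of_common_partner {H : Subgroup G} (hAB : IsRankOnePair A B) (hEB : IsRankOnePair E B)
    (hA : A ≤ H) (hB : B ≤ H) (hE : E ≤ H) : ∃ h ∈ H, conjBy A h = E := by
  obtain ⟨x, hx, e1⟩ := right_mem_unipotent hAB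
  obtain ⟨y, hy, e2⟩ := right_mem_unipotent (RankOnePair_symm hEB)
  refine ⟨y * x, H.mul_mem (sup_le hB hE hy) (sup_le hA hB hx), ?_⟩
  rw [conjBy_mul, ← e1, ← e2]

/-- In `⟨Λ_A, B⟩` the line partners of `A` are conjugate to `A`. -/
theorem line_conj (hS : IsRootSubgroupClass S) (hnd : IsNondegenerateRootSet S) (hA : A ∈ S) (hB : B ∈ S)
    (hAB : IsRankOnePair A B) {H : Subgroup G} (hAH : A ≤ H) (hBH : B ≤ H)
    (hLH : ∀ C ∈ linePartners S A, C ≤ H) (hE : E ∈ linePartners S A) : ∃ h ∈ H, conjBy A h = E := by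
  have hES : E ∈ S := hE.1.1
  obtain ⟨E₀, hE₀, hE₀A, -, hc₀, hG₀, hsup₀⟩ := line_transitive hS.1 hA hB hAB hE
  have hEle : E ≤ A ⊔ E₀ := by
    rw [hsup₀]
    exact le_sup_right
  have hEH : E ≤ H := hLH E hE
  by_cases hEE : E = E₀
  · obtain ⟨Q, hQ, hcQ, hGQ⟩ := exists_line_commutator hS hnd hA hE
    obtain ⟨P, hP, hEP⟩ := exists_partner_of_class hS hnd hES
    obtain ⟨c, hc, hc1⟩ := CommCase.exists_ne_one_right hS.1 hcQ
    have hQH : Q ≤ H := hLH Q hQ
    have hmv : conjBy E c ≠ E := Cfsg.Agent.Lib.RootDouble.moves_of_ne hS.1 hES hP hEP hcQ hc hc1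
    have hXle : conjBy E c ≤ A ⊔ E₀ := by
      have := CommCase.conj_le_sup hcQ hc
      rw [hGQ, sup_comm] at this
      rw [← hEE]
      exact this
    have hXB : IsRankOnePair (conjBy E c) B :=
      line_rankOne hS.1 hA hB hE₀ hAB hc₀ hG₀ (hS.1.conj_mem _ hES c) hXle (by rw [← hEE]; exact hmv)
    obtain ⟨h, hh, e⟩ := conj_of_common_partner hAB hXB hAH hBH (conjBy_le_of_mem hEH (hQH hc))
    refine ⟨c⁻¹ * h, H.mul_mem (H.inv_mem (hQH hc)) hh, ?_⟩
    rw [conjBy_mul, e, conjBy_conjBy_inv]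
  · have hEB : IsRankOnePair E B := line_rankOne hS.1 hA hB hE₀ hAB hc₀ hG₀ hES hEle hEE
    exact conj_of_common_partner hAB hEB hAH hBH hEH

/-- `G = ⟨Λ_A, B⟩`. -/
theorem gen_eq_top (hS : IsRootSubgroupClass S) (hnd : IsNondegenerateRootSet S) (hA : A ∈ S) (hB : B ∈ S)
    (hAB : IsRankOnePair A B) : (⨆ C ∈ linePartners S A, C) ⊔ B = ⊤ := by
  set H : Subgroup G := (⨆ C ∈ linePartners S A, C) ⊔ B with hH
  have hLH : ∀ C ∈ linePartners S A, C ≤ H := fun C hC => le_sup_of_le_left (le_iSup₂_of_le C hC le_rfl)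
  have hBH : B ≤ H := le_sup_right
  have hAH : A ≤ H := by
    obtain ⟨E, hE, -, -⟩ := exists_linePartner hS hnd hA hB hAB
    obtain ⟨Q, hQ, -, hGQ⟩ := exists_line_commutator hS hnd hA hE
    rw [← hGQ, Subgroup.commutator_le]
    intro x hx y hy
    rw [commutatorElement_def]
    exact H.mul_mem (H.mul_mem (H.mul_mem (hLH E hE hx) (hLH Q hQ hy)) (H.inv_mem (hLH E hE hx)))
      (H.inv_mem (hLH Q hQ hy))
  have hall : ∀ Y ∈ S, ∃ h ∈ H, conjBy A h = Y := by
    intro Y hY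
    have hr := eadj_connected hS hnd A hA Y hY
    induction hr with
    | refl => exact ⟨1, H.one_mem, conjBy_one A⟩
    | @tail X Z _ hXZ ih =>
      obtain ⟨h, hh, rfl⟩ := ih hXZ.1
      have h1 : conjBy Z h⁻¹ ∈ linePartners S A := by
        have := linePartners_conj hS.1 hXZ.2.2 h⁻¹
        rwa [conjBy_conjBy_inv] at this
      obtain ⟨h', hh', e⟩ := line_conj hS hnd hA hB hAB hAH hBH hLH h1
      refine ⟨h * h', H.mul_mem hh hh', ?_⟩
      rw [conjBy_mul, e, conjBy_inv_conjBy]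
  rw [eq_top_iff, ← hS.1.generates]
  refine iSup₂_le fun Y hY => ?_
  obtain ⟨h, hh, rfl⟩ := hall Y hY
  exact conjBy_le_of_mem hAH hh

end Cfsg.Agent.Lib.RootGen
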