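import Mathlib
import Cfsg.Prelude.Def_RootSubgroups
import Cfsg.Agent.Lib.RankOne
import Cfsg.Agent.Lib.RootBasic
import Cfsg.Agent.Lib.RootLines
import Cfsg.Agent.Lib.RootKey
import Cfsg.Agent.Lib.RootSpecial
import Cfsg.Agent.Lib.RootGen

/-!
Weak TI-subsets, comparison of centralizers (Timmesfeld, chapter II, section 2).
-/

namespace Cfsg.Agent.Lib.RootTI

open Cfsg Cfsg.Agent.Lib.RankOne Cfsg.Agent.Lib.RootBasic Cfsg.Agent.Lib.RootLines
  Cfsg.Agent.Lib.RootKey Cfsg.Agent.Lib.RootSpecial Cfsg.Agent.Lib.RootGen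
open scoped commutatorElement

variable {G : Type*} [Group G] {S : Set (Subgroup G)} {A B C D E Y : Subgroup G}

/-- In the commutator case, some line partner of `A` is a rank one partner of `B`. -/
theorem exists_line_rankOne (hS : IsRootSubgroupClass S) (hnd : IsNondegenerateRootSet S) (hA : A ∈ S) (hB : B ∈ S)
    (h : RootCommutatorCase S A B) : ∃ Q ∈ linePartners S A, IsRankOnePair Q B := by
  have hCS : ⁅A, B⁆ ∈ S := h.1
  obtain ⟨D₀, hD₀, hAD₀⟩ := exists_partner_of_class hS hnd hA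
  have hCl : ⁅A, B⁆ ∈ linePartners S A := linePartner_symm (line_partner hS.1 hA hD₀ hAD₀ h) hCS
  obtain ⟨Q, hQ, hcQ, hGQ⟩ := exists_line_commutator hS hnd hA hCl
  refine ⟨Q, hQ, ?_⟩
  have hQS : Q ∈ S := hQ.1.1
  have hAQ : ∀ x ∈ A, ∀ y ∈ Q, x * y = y * x := fun x hx y hy => comm_of_commutator_eq_bot hQ.1.2.2 hx hy
  rcases hS.1.pair Q hQS B hB with h0 | h0 | h0
  · exfalso
    have hQB : ∀ x ∈ Q, ∀ y ∈ B, x * y = y * x := fun x hx y hy => comm_of_commutator_eq_bot h0 hx hy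
    have hbot : ⁅⁅A, B⁆, Q⁆ = ⊥ := commutator_eq_bot_of_comm fun c hc q hq =>
      (comm_commutator_mem (e := q) (fun x hx => (hAQ x hx q hq).symm) (fun y hy => hQB q hq y hy) c hc).symm
    rw [hGQ] at hbot
    exact hS.1.ne_bot A hA hbot
  · exact h0
  · exfalso
    obtain ⟨P, hP, hCP⟩ := exists_partner_of_class hS hnd hCS
    obtain ⟨a, ha, ha1⟩ := exists_ne_one_left hAD₀
    obtain ⟨b, hb, hb1⟩ := CommCase.exists_ne_one_right hS.1 h
    obtain ⟨q, hq, hq1⟩ := CommCase.exists_ne_one_right hS.1 hcQ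
    have hcC : a * b * a⁻¹ * b⁻¹ ∈ ⁅A, B⁆ := comm_mem ha hb
    have hc1 : a * b * a⁻¹ * b⁻¹ ≠ 1 := comm_ne_one hS.1 hA hD₀ hAD₀ h ha ha1 hb hb1
    have hrR : q * b * q⁻¹ * b⁻¹ ∈ ⁅Q, B⁆ := comm_mem hq hb
    generalize hc : a * b * a⁻¹ * b⁻¹ = c at hcC hc1
    generalize hr : q * b * q⁻¹ * b⁻¹ = r at hrR
    have hrb : r * b = b * r := CommCase.comm_right h0 hrR hb
    have hqb : q * b * q⁻¹ = r * b := by rw [← hr]; group
    have hqa : q * a = a * q := (hAQ a ha q hq).symm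
    have hqi : q * a⁻¹ = a⁻¹ * q := by
      calc q * a⁻¹ = a⁻¹ * (a * q) * a⁻¹ := by group
        _ = a⁻¹ * (q * a) * a⁻¹ := by rw [hqa]
        _ = a⁻¹ * q := by group
    have e1 : q * c * q⁻¹ = c * (b * (a * r * a⁻¹ * r⁻¹) * b⁻¹) := by
      calc q * c * q⁻¹ = (q * a) * q⁻¹ * (q * b * q⁻¹) * q * a⁻¹ * q⁻¹ * (q * b * q⁻¹)⁻¹ := by
            rw [← hc]; group
        _ = a * (r * b) * (q * a⁻¹) * q⁻¹ * (r * b)⁻¹ := by
            rw [hqb, hqa]; group
        _ = a * (b * r) * a⁻¹ * (b * r)⁻¹ := by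
            rw [hqi, hrb]; group
        _ = c * (b * (a * r * a⁻¹ * r⁻¹) * b⁻¹) := by
            rw [← hc]; group
    have h3 : c⁻¹ * q * c * q⁻¹ = b * (a * r * a⁻¹ * r⁻¹) * b⁻¹ := by
      calc c⁻¹ * q * c * q⁻¹ = c⁻¹ * (q * c * q⁻¹) := by group
        _ = _ := by rw [e1]; group
    have hcinv : c⁻¹ ∈ ⁅A, B⁆ := Subgroup.inv_mem _ hcC
    have hcinv1 : c⁻¹ ≠ 1 := by simpa using hc1
    have h4 : c⁻¹ * q * c⁻¹⁻¹ * q⁻¹ ∈ ⁅⁅A, B⁆, Q⁆ := comm_mem hcinv hq
    have h5 : c⁻¹ * q * c⁻¹⁻¹ * q⁻¹ ≠ 1 := comm_ne_one hS.1 hCS hP hCP hcQ hcinv hcinv1 hq hq1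
    rw [inv_inv] at h4 h5
    rw [hGQ, h3] at h4
    rw [h3] at h5
    -- `e = ⁅a, r⁆` lies in `b⁻¹ A b`
    have heA : a * r * a⁻¹ * r⁻¹ ∈ conjBy A b⁻¹ := by
      rw [mem_conjBy, inv_inv]
      exact h4
    have he1 : a * r * a⁻¹ * r⁻¹ ≠ 1 := by
      intro e
      apply h5
      rw [e]
      group
    have hRS : ⁅Q, B⁆ ∈ S := h0.1
    have hA'S : conjBy A b⁻¹ ∈ S := hS.1.conj_mem _ hA _
    have hA'D : IsRankOnePair (conjBy A b⁻¹) (conjBy D₀ b⁻¹) := isRankOnePair_conj hAD₀ _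
    have hD'S : conjBy D₀ b⁻¹ ∈ S := hS.1.conj_mem _ hD₀ _
    rcases hS.1.pair A hA ⁅Q, B⁆ hRS with h6 | h6 | h6
    · exact he1 (by
        have := comm_mem (A := A) (B := ⁅Q, B⁆) ha hrR
        rwa [h6, Subgroup.mem_bot] at this)
    · -- rank one: `a` commutes with an element of `r A r⁻¹`
      have hr1 : r ≠ 1 := by
        intro e
        apply he1
        rw [e]
        group
      have hne : conjBy A r ≠ A := fun e => hr1 (eq_one_of_conjBy_right h6 hrR e)
      have hAbel : a * (a * r * a⁻¹ * r⁻¹) = (a * r * a⁻¹ * r⁻¹) * a := by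
        refine sup_comm_of_comm (hS.1.commutative A hA) (hS.1.commutative _ hCS) (CommCase.comm_AC h)
          (Subgroup.mem_sup_left ha) ?_
        exact CommCase.conj_le_sup h (B.inv_mem hb) heA
      have hx : a * (r * a⁻¹ * r⁻¹) = (r * a⁻¹ * r⁻¹) * a := by
        have h7 : a * (a * (r * a⁻¹ * r⁻¹)) = a * ((r * a⁻¹ * r⁻¹) * a) := by
          calc a * (a * (r * a⁻¹ * r⁻¹)) = a * (a * r * a⁻¹ * r⁻¹) := by group
            _ = (a * r * a⁻¹ * r⁻¹) * a := hAbel
            _ = a * ((r * a⁻¹ * r⁻¹) * a) := by group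
        exact mul_left_cancel h7
      have hxC : r * a⁻¹ * r⁻¹ ∈ conjBy A r := conj_mem_conjBy (A.inv_mem ha)
      have hx1 : r * a⁻¹ * r⁻¹ ≠ 1 := by
        intro e
        apply ha1
        have h8 : a⁻¹ = r⁻¹ * (r * a⁻¹ * r⁻¹) * r := by group
        rw [e] at h8
        simpa using h8
      have hxC' : r * a⁻¹ * r⁻¹ ∈ conjBy (conjBy A r) a := by
        have h9 := conj_mem_conjBy (g := a) hxC
        have h10 : a * (r * a⁻¹ * r⁻¹) * a⁻¹ = r * a⁻¹ * r⁻¹ := by
          rw [hx]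
          group
        rwa [h10] at h9
      have h11 : conjBy A r = conjBy (conjBy A r) a :=
        eq_of_mem_inter hS.1 (hS.1.conj_mem _ hA r) (hS.1.conj_mem _ hD₀ r) (isRankOnePair_conj hAD₀ r)
          (hS.1.conj_mem _ (hS.1.conj_mem _ hA r) a) hxC hxC' hx1
      have h12 := fix_eq h6 ha ha1 (C := conjBy A r)
        (conj_mem_unipotent h6 (left_mem_unipotent h6) (Subgroup.mem_sup_right hrR)) h11.symm
      exact hne h12
    · -- commutator case
      have heT : a * r * a⁻¹ * r⁻¹ ∈ ⁅A, ⁅Q, B⁆⁆ := comm_mem ha hrR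
      have h7 : conjBy A b⁻¹ = ⁅A, ⁅Q, B⁆⁆ := eq_of_mem_inter hS.1 hA'S hD'S hA'D h6.1 heA heT he1
      have h8 : conjBy ⁅Q, B⁆ b⁻¹ = ⁅Q, B⁆ := by
        apply conjBy_eq_of_commute
        intro x hx
        have := CommCase.comm_right h0 hx (B.inv_mem hb)
        exact this.symm
      have h9 : conjBy ⁅A, ⁅Q, B⁆⁆ b⁻¹ = ⊥ := by
        rw [← conj_commutator, h8, h7]
        exact commutator_eq_bot_of_comm fun x hx y hy => CommCase.comm_right h6 hx hy
      exact hS.1.ne_bot _ (hS.1.conj_mem _ h6.1 b⁻¹) h9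

/-! ### Weak TI-subsets -/

/-- The stabilizer of a family of subgroups under conjugation. -/
def famStab (Δ : Set (Subgroup G)) : Subgroup G where
  carrier := {g | ∀ X : Subgroup G, conjBy X g ∈ Δ ↔ X ∈ Δ}
  one_mem' := by
    intro X
    rw [conjBy_one]
  mul_mem' := by
    intro g h hg hh X
    rw [conjBy_mul]
    exact (hg _).trans (hh X)
  inv_mem' := by
    intro g hg X
    have := hg (conjBy X g⁻¹)
    rw [conjBy_inv_conjBy] at this
    exact this.symm

theorem mem_famStab {Δ : Set (Subgroup G)} {g : G} : g ∈ famStab Δ ↔ ∀ X : Subgroup G, conjBy X g ∈ Δ ↔ X ∈ Δ :=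
  Iff.rfl

theorem mem_famStab_of_image {Δ : Set (Subgroup G)} {d : G} (h : (fun A => conjBy A d) '' Δ = Δ) :
    d ∈ famStab Δ := by
  intro X
  constructor
  · intro hX
    rw [← h] at hX
    obtain ⟨Y, hY, e⟩ := hX
    have : Y = X := conjBy_injective d e
    rwa [← this]
  · intro hX
    rw [← h]
    exact ⟨X, hX, rfl⟩

theorem le_famStab {Δ : Set (Subgroup G)} (hΔ : IsWeakTISubset S Δ) (hE : E ∈ Δ) (hF : C ∈ S)
    (hc : ∀ x ∈ E, ∀ y ∈ C, x * y = y * x) : C ≤ famStab Δ := by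
  intro f hf
  by_cases hf1 : f = 1
  · rw [hf1]
    exact Subgroup.one_mem _
  rcases hΔ.2.2.2 f ⟨hf1, C, hF, hf⟩ with h | h
  · exact mem_famStab_of_image h
  · exfalso
    have h1 : conjBy E f = E := conjBy_eq_of_commute fun a ha => (hc a ha f hf).symm
    exact Set.disjoint_left.mp h ⟨E, hE, h1⟩ hE

theorem famStab_ne_top (hS : IsRootSubgroupClass S) {Δ : Set (Subgroup G)} (hΔ : IsWeakTISubset S Δ) :
    famStab Δ ≠ ⊤ := by
  intro htop
  apply hΔ.2.2.1
  refine Set.Subset.antisymm hΔ.1 ?_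
  intro Y hY
  obtain ⟨X, hX, -, -, -⟩ := hΔ.2.1
  obtain ⟨g, rfl⟩ := hS.2.2 X (hΔ.1 hX) Y hY
  have hg : g ∈ famStab Δ := by
    rw [htop]
    exact Subgroup.mem_top _
  exact (hg X).mpr hX

theorem weakTI_abelian (hS : IsRootSubgroupClass S) (hnd : IsNondegenerateRootSet S) {Δ : Set (Subgroup G)}
    (hΔ : IsWeakTISubset S Δ) : IsAbelianFamily Δ := by
  intro A hA B hB a ha b hb
  by_contra hne
  have hAS := hΔ.1 hA
  have hBS := hΔ.1 hB
  have hline : ∀ {X : Subgroup G}, X ∈ Δ → (⨆ C ∈ linePartners S X, C) ≤ famStab Δ := by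
    intro X hX
    refine iSup₂_le fun C hC => ?_
    exact le_famStab hΔ hX hC.1.1 fun x hx y hy => comm_of_commutator_eq_bot hC.1.2.2 hx hy
  have hself : ∀ {X : Subgroup G}, X ∈ Δ → X ≤ famStab Δ := fun {X} hX =>
    le_famStab hΔ hX (hΔ.1 hX) fun _ hx _ hy => comm_of_mem (hS.1.commutative X (hΔ.1 hX)) hx hy
  rcases hS.1.pair A hAS B hBS with h | h | h
  · exact hne (comm_of_commutator_eq_bot h ha hb)
  · apply famStab_ne_top hS hΔ
    rw [eq_top_iff, ← gen_eq_top hS hnd hAS hBS h]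
    exact sup_le (hline hA) (hself hB)
  · apply famStab_ne_top hS hΔ
    obtain ⟨Q, hQ, hQB⟩ := exists_line_rankOne hS hnd hAS hBS h
    rw [eq_top_iff, ← gen_eq_top hS hnd hBS hQ.1.1 (RankOnePair_symm hQB)]
    refine sup_le (hline hB) ?_
    exact le_famStab hΔ hA hQ.1.1 fun x hx y hy => comm_of_commutator_eq_bot hQ.1.2.2 hx hy

/-! ### Swapping commuting members with a common partner -/

/-- Commuting members with a common rank one partner are swapped by some element. -/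
theorem exists_swap (hAY : IsRankOnePair A Y) (hCY : IsRankOnePair C Y)
    (hAC : ∀ x ∈ A, ∀ y ∈ C, x * y = y * x) :
    ∃ g ∈ A ⊔ C ⊔ Y, conjBy A g = C ∧ conjBy C g = A := by
  obtain ⟨y, hy, hy1⟩ := exists_ne_one_right hAY
  obtain ⟨a, ha, ha1, e1⟩ := hAY.cond_right y hy hy1
  obtain ⟨c, hc, hc1, e2⟩ := hCY.cond_right y hy hy1
  obtain ⟨z₁, hz₁, -, e3⟩ := hAY.cond_left a⁻¹ (A.inv_mem ha) (by simpa using ha1)
  obtain ⟨z₂, hz₂, -, e4⟩ := hCY.cond_left c⁻¹ (C.inv_mem hc) (by simpa using hc1)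
  rw [inv_inv] at e3 e4
  have hac : a * c = c * a := hAC a ha c hc
  -- conjugates of `Y` under `a⁻¹`, `c⁻¹` commute
  have h1 : ∀ x ∈ conjBy Y a⁻¹, ∀ x' ∈ conjBy Y c⁻¹, x * x' = x' * x := by
    rw [e1, e2]
    intro x hx x' hx'
    rw [mem_conjBy, inv_inv] at hx hx'
    have h2 := hAC _ hx _ hx'
    have h3 : y * (x * x') * y⁻¹ = y * (x' * x) * y⁻¹ := by
      calc y * (x * x') * y⁻¹ = (y * x * y⁻¹) * (y * x' * y⁻¹) := by group
        _ = (y * x' * y⁻¹) * (y * x * y⁻¹) := h2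
        _ = y * (x' * x) * y⁻¹ := by group
    exact mul_left_cancel (mul_right_cancel h3)
  have e5 : conjBy (conjBy Y a⁻¹) (a * c) = conjBy Y c := by
    rw [← conjBy_mul]
    congr 1
    rw [hac]
    group
  have e6 : conjBy (conjBy Y c⁻¹) (a * c) = conjBy Y a := by
    rw [← conjBy_mul]
    congr 1
    group
  have h2 : ∀ x ∈ conjBy Y c, ∀ x' ∈ conjBy Y a, x * x' = x' * x := by
    intro x hx x' hx'
    rw [← e5] at hx
    rw [← e6] at hx'
    rw [mem_conjBy] at hx hx'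
    have h3 := h1 _ hx _ hx'
    generalize hg : a * c = g at h3
    have h4 : g⁻¹ * (x * x') * g = g⁻¹ * (x' * x) * g := by
      calc g⁻¹ * (x * x') * g = (g⁻¹ * x * g) * (g⁻¹ * x' * g) := by group
        _ = (g⁻¹ * x' * g) * (g⁻¹ * x * g) := h3
        _ = g⁻¹ * (x' * x) * g := by group
    exact mul_left_cancel (mul_right_cancel h4)
  rw [← e4, ← e3] at h2
  have hz : z₁ = z₂ := by
    by_contra hne
    have hw : z₂ * z₁⁻¹ ∈ Y := Y.mul_mem hz₂ (Y.inv_mem hz₁)
    have hw1 : z₂ * z₁⁻¹ ≠ 1 := by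
      intro e
      apply hne
      exact (mul_inv_eq_one.mp e).symm
    have hne1 : conjBy A (z₂ * z₁⁻¹) ≠ A := fun e => hw1 (eq_one_of_conjBy_right hAY hw e)
    have hu : conjBy A (z₂ * z₁⁻¹) ∈ unipotentSubgroups A Y :=
      conj_mem_unipotent hAY (left_mem_unipotent hAY) (Subgroup.mem_sup_right hw)
    have hsup := (pair_of_mem hAY (left_mem_unipotent hAY) hu hne1.symm).2
    have e7 : conjBy (conjBy A (z₂ * z₁⁻¹)) z₂⁻¹ = conjBy A z₁⁻¹ := by
      rw [← conjBy_mul]
      congr 1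
      group
    have hcent : A ⊔ conjBy A (z₂ * z₁⁻¹) ≤ Subgroup.centralizer (C : Set G) := by
      refine sup_le ?_ ?_
      · intro x hx
        rw [Subgroup.mem_centralizer_iff]
        intro h hh
        exact (hAC x hx h hh).symm
      · intro x hx
        rw [Subgroup.mem_centralizer_iff]
        intro h hh
        have h3 := h2 (z₂⁻¹ * h * z₂⁻¹⁻¹) (conj_mem_conjBy hh) (z₂⁻¹ * x * z₂⁻¹⁻¹)
          (by rw [← e7]; exact conj_mem_conjBy hx)
        have h4 : z₂⁻¹ * (h * x) * z₂ = z₂⁻¹ * (x * h) * z₂ := by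
          calc z₂⁻¹ * (h * x) * z₂ = (z₂⁻¹ * h * z₂⁻¹⁻¹) * (z₂⁻¹ * x * z₂⁻¹⁻¹) := by group
            _ = (z₂⁻¹ * x * z₂⁻¹⁻¹) * (z₂⁻¹ * h * z₂⁻¹⁻¹) := h3
            _ = z₂⁻¹ * (x * h) * z₂ := by group
        exact mul_left_cancel (mul_right_cancel h4)
    rw [hsup] at hcent
    apply rankOne_not_comm hCY
    intro x hx d hd
    have := Subgroup.mem_centralizer_iff.mp (hcent (Subgroup.mem_sup_right hd)) x hx
    exact this
  subst hz
  have e5' : conjBy (conjBy Y a⁻¹) (c * a) = conjBy Y c := by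
    rw [← conjBy_mul]
    congr 1
    group
  have e6' : conjBy (conjBy Y c⁻¹) (c * a) = conjBy Y a := by
    rw [← conjBy_mul]
    congr 1
    rw [← hac]
    group
  refine ⟨z₁ * (c * a) * y⁻¹, ?_, ?_, ?_⟩
  · refine Subgroup.mul_mem _ (Subgroup.mul_mem _ ?_ (Subgroup.mul_mem _ ?_ ?_)) ?_
    · exact Subgroup.mem_sup_right hz₁
    · exact Subgroup.mem_sup_left (Subgroup.mem_sup_right hc)
    · exact Subgroup.mem_sup_left (Subgroup.mem_sup_left ha)
    · exact Subgroup.mem_sup_right (Y.inv_mem hy)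
  · rw [conjBy_mul, conjBy_mul, ← e1, e5', ← e4, conjBy_inv_conjBy]
  · rw [conjBy_mul, conjBy_mul, ← e2, e6', ← e3, conjBy_inv_conjBy]

theorem centralizing_conj (hS : IsRootSubgroupSet S) {X : Subgroup G} (h : X ∈ centralizingMembers S A) (g : G) :
    conjBy X g ∈ centralizingMembers S (conjBy A g) := by
  refine ⟨hS.conj_mem _ h.1 g, ?_⟩
  intro x hx
  rw [Subgroup.mem_centralizer_iff]
  intro y hy
  rw [SetLike.mem_coe, mem_conjBy] at hy
  rw [mem_conjBy] at hx
  have h1 := Subgroup.mem_centralizer_iff.mp (h.2 hx) _ hy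
  have h2 : g⁻¹ * (y * x) * g = g⁻¹ * (x * y) * g := by
    calc g⁻¹ * (y * x) * g = (g⁻¹ * y * g) * (g⁻¹ * x * g) := by group
      _ = (g⁻¹ * x * g) * (g⁻¹ * y * g) := h1
      _ = g⁻¹ * (x * y) * g := by group
  exact mul_left_cancel (mul_right_cancel h2)

theorem rankOnePartners_conj (hS : IsRootSubgroupSet S) {X : Subgroup G} (h : X ∈ rankOnePartners S A) (g : G) :
    conjBy X g ∈ rankOnePartners S (conjBy A g) :=
  ⟨hS.conj_mem _ h.1 g, isRankOnePair_conj h.2 g⟩

/-- The comparison of members of a class (Timmesfeld). -/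
theorem compare_members (hS : IsRootSubgroupClass S) (hdn : IsDegenerateRootSet S ∨ IsNondegenerateRootSet S)
    (hA : A ∈ S) (hC : C ∈ S) (hAC : A ≠ C) :
    (centralizingMembers S A ⊆ centralizingMembers S C →
      centralizingMembers S A = centralizingMembers S C) ∧
    (rankOnePartners S A ⊆ rankOnePartners S C →
      ⁅A, C⁆ = ⊥ ∧ rankOnePartners S A = rankOnePartners S C) := by
  -- no partners anywhere if some member has none
  have hnone : ∀ {P Q : Subgroup G}, P ∈ S → Q ∈ S → (∀ R ∈ S, ¬ IsRankOnePair P R) → ∀ R ∈ S, ¬ IsRankOnePair Q R := by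
    intro P Q hP hQ hno R hR hr
    obtain ⟨g, rfl⟩ := hS.2.2 P hP Q hQ
    have := isRankOnePair_conj hr g⁻¹
    rw [conjBy_conjBy_inv] at this
    exact hno _ (hS.1.conj_mem _ hR _) this
  constructor
  · intro hsub
    refine Set.Subset.antisymm hsub ?_
    have hAself : A ∈ centralizingMembers S A := by
      refine ⟨hA, ?_⟩
      intro x hx
      rw [Subgroup.mem_centralizer_iff]
      intro y hy
      exact comm_of_mem (hS.1.commutative A hA) hy hx
    have hcomm : ∀ x ∈ A, ∀ y ∈ C, x * y = y * x := by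
      intro x hx y hy
      have := Subgroup.mem_centralizer_iff.mp ((hsub hAself).2 hx) y hy
      exact this.symm
    by_cases hex : ∃ Y ∈ S, IsRankOnePair C Y
    · obtain ⟨Y, hY, hCY⟩ := hex
      rcases hS.1.pair A hA Y hY with h | h | h
      · exfalso
        have hYm : Y ∈ centralizingMembers S A := by
          refine ⟨hY, ?_⟩
          intro y hy
          rw [Subgroup.mem_centralizer_iff]
          intro x hx
          exact comm_of_commutator_eq_bot h hx hy
        have h1 := (hsub hYm).2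
        apply rankOne_not_comm hCY
        intro x hx d hd
        exact Subgroup.mem_centralizer_iff.mp (h1 hd) x hx
      · obtain ⟨g, -, e1, e2⟩ := exists_swap h hCY hcomm
        intro X hX
        have h1 := centralizing_conj hS.1 hX g⁻¹
        have e3 : conjBy C g⁻¹ = A := conjBy_eq_of_inv e1
        rw [e3] at h1
        have h2 := centralizing_conj hS.1 (hsub h1) g
        rwa [conjBy_inv_conjBy, e2] at h2
      · exfalso
        have hcC : ∀ x ∈ C, ∀ y ∈ A, x * y = y * x := fun x hx y hy => (hcomm y hy x hx).symm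
        have h1 := commCase_key hS.1 hC hCY hcC h
        have hFm : ⁅A, Y⁆ ∈ centralizingMembers S A := by
          refine ⟨h.1, ?_⟩
          intro y hy
          rw [Subgroup.mem_centralizer_iff]
          intro x hx
          exact (CommCase.comm_left h hy hx).symm
        have h2 := (hsub hFm).2
        have h3 : ⁅C, ⁅A, Y⁆⁆ = ⊥ := commutator_eq_bot_of_comm fun x hx y hy =>
          Subgroup.mem_centralizer_iff.mp (h2 hy) x hx
        exact hS.1.ne_bot _ h1.1 h3
    · push Not at hex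
      intro X hX
      refine ⟨hX.1, ?_⟩
      have hnoX := hnone hC hX.1 hex
      have hnoA := hnone hC hA hex
      rcases hdn with hd | hd
      · rcases hS.1.pair A hA X hX.1 with h | h | h
        · intro y hy
          rw [Subgroup.mem_centralizer_iff]
          intro x hx
          exact comm_of_commutator_eq_bot h hx hy
        · exact absurd h (hnoA X hX.1)
        · exact absurd h (hd A hA X hX.1)
      · obtain ⟨P, hP, Q, hQ, hPQ⟩ := hd.2.1
        exact absurd hPQ (hnone hC hP hex Q hQ)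
  · intro hsub
    have hcomm : ⁅A, C⁆ = ⊥ := by
      rcases hS.1.pair A hA C hC with h | h | h
      · exact h
      · exact absurd rfl (hsub ⟨hC, h⟩).2.ne
      · exfalso
        rcases hdn with hd | hd
        · exact hd A hA C hC h
        · obtain ⟨Q, hQ, hQA⟩ := exists_line_rankOne hS hd hC hA (CommCase.symm h)
          have h1 := (hsub ⟨hQ.1.1, RankOnePair_symm hQA⟩).2
          apply rankOne_not_comm h1
          exact fun x hx y hy => comm_of_commutator_eq_bot hQ.1.2.2 hx hy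
    refine ⟨hcomm, Set.Subset.antisymm hsub ?_⟩
    by_cases hex : ∃ P ∈ S, IsRankOnePair A P
    · obtain ⟨P, hP, hAP⟩ := hex
      have hCP := (hsub ⟨hP, hAP⟩).2
      obtain ⟨g, -, e1, e2⟩ := exists_swap hAP hCP fun x hx y hy => comm_of_commutator_eq_bot hcomm hx hy
      intro X hX
      have h1 := rankOnePartners_conj hS.1 hX g⁻¹
      have e3 : conjBy C g⁻¹ = A := conjBy_eq_of_inv e1
      rw [e3] at h1
      have h2 := rankOnePartners_conj hS.1 (hsub h1) g
      rwa [conjBy_inv_conjBy, e2] at h2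
    · push Not at hex
      intro X hX
      exact absurd hX.2 (hnone hA hC hex X hX.1)

end Cfsg.Agent.Lib.RootTI
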