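import Mathlib
import Cfsg.Prelude.Def_RootSubgroups
import Cfsg.Agent.Lib.RankOne
import Cfsg.Agent.Lib.RootBasic
import Cfsg.Agent.Lib.RootLines
import Cfsg.Agent.Lib.RootKey
import Cfsg.Agent.Lib.RootGen
import Cfsg.Agent.Lib.RootTI

/-!
Commuting members with a common rank one partner: the partner pair is special
(Timmesfeld, chapter II, section 2).
-/

namespace Cfsg.Agent.Lib.RootDeg

open Cfsg Cfsg.Agent.Lib.RankOne Cfsg.Agent.Lib.RootBasic Cfsg.Agent.Lib.RootLines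
  Cfsg.Agent.Lib.RootKey Cfsg.Agent.Lib.RootGen
open scoped commutatorElement

variable {G : Type*} [Group G] {S : Set (Subgroup G)} {A B C D E Y : Subgroup G} {u_ : G}

theorem conjBy_inv_of_eq' {X : Subgroup G} {g : G} (h : conjBy X g⁻¹ = X) : conjBy X g = X := by
  have := conjBy_inv_of_eq h
  rwa [inv_inv] at this

theorem comm_conj {X Z : Subgroup G} (h : ∀ x ∈ X, ∀ z ∈ Z, x * z = z * x) (g : G) :
    ∀ x ∈ conjBy X g, ∀ z ∈ conjBy Z g, x * z = z * x := by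
  intro x hx z hz
  rw [mem_conjBy] at hx hz
  have h1 := h _ hx _ hz
  have h2 : g⁻¹ * (x * z) * g = g⁻¹ * (z * x) * g := by
    calc g⁻¹ * (x * z) * g = (g⁻¹ * x * g) * (g⁻¹ * z * g) := by group
      _ = (g⁻¹ * z * g) * (g⁻¹ * x * g) := h1
      _ = g⁻¹ * (z * x) * g := by group
  exact mul_left_cancel (mul_right_cancel h2)

/-- Matching elements of two commuting subgroups gives commuting conjugates. -/
theorem comm_of_match {P Q R : Subgroup G} {p q r : G} (hPQ : ∀ x ∈ P, ∀ z ∈ Q, x * z = z * x)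
    (e1 : conjBy P r⁻¹ = conjBy R p⁻¹) (e2 : conjBy Q r⁻¹ = conjBy R q⁻¹) :
    ∀ x ∈ R, ∀ z ∈ conjBy R (p * q⁻¹), x * z = z * x := by
  have h1 := comm_conj hPQ r⁻¹
  rw [e1, e2] at h1
  have h2 := comm_conj h1 p
  rwa [conjBy_inv_conjBy, ← conjBy_mul] at h2

/-- An element commuting with `A` and normalizing `Y` commutes with `⟨A, Y⟩`. -/
theorem commute_of_normalize (hAY : IsRankOnePair A Y) {s : G} (hsA : ∀ x ∈ A, s * x = x * s)
    (hsY : conjBy Y s = Y) : ∀ x ∈ A ⊔ Y, s * x = x * s := by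
  refine commute_of_fix_all hAY ?_
  intro P hP
  rcases (mem_unipotent_iff hAY).mp hP with rfl | ⟨a, ha, rfl⟩
  · exact conjBy_eq_of_commute hsA
  · rw [← conjBy_mul, hsA a ha, conjBy_mul, hsY]

/-- The element `u = c a⁻¹` does not normalize `Y`. -/
theorem not_normalize (hS : IsRootSubgroupSet S) (hA : A ∈ S) (hC : C ∈ S) (hY : Y ∈ S) (hAY : IsRankOnePair A Y)
    (hAC : ∀ x ∈ A, ∀ z ∈ C, x * z = z * x) (hne : C ≠ A) {a c : G} (ha : a ∈ A) (ha1 : a ≠ 1)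
    (hc : c ∈ C) : conjBy Y (a⁻¹ * c) ≠ Y := by
  intro e
  have hcomm : ∀ x ∈ A, (a⁻¹ * c) * x = x * (a⁻¹ * c) := by
    intro x hx
    calc (a⁻¹ * c) * x = a⁻¹ * (c * x) := by group
      _ = a⁻¹ * (x * c) := by rw [hAC x hx c hc]
      _ = (a⁻¹ * x) * c := by group
      _ = (x * a⁻¹) * c := by rw [comm_of_mem (hS.commutative A hA) (A.inv_mem ha) hx]
      _ = x * (a⁻¹ * c) := by group
  have h1 := commute_of_normalize hAY hcomm e
  refine hne (eq_of_same_action hS hC hY hAY hAC ha ha1 hc ?_)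
  intro d hd
  exact h1 d (Subgroup.mem_sup_right hd)

/-- Properties of `t = z⁻¹ u⁻¹ z u`. -/
theorem t_commute (hYab : IsMulCommutative Y) {u z : G} (hYY' : ∀ x ∈ Y, ∀ w ∈ conjBy Y u⁻¹, x * w = w * x)
    (hz : z ∈ Y) : ∀ w ∈ Y, (z⁻¹ * (u⁻¹ * z * u)) * w = w * (z⁻¹ * (u⁻¹ * z * u)) := by
  intro w hw
  have h1 : u⁻¹ * z * u ∈ conjBy Y u⁻¹ := by
    have := conj_mem_conjBy (g := u⁻¹) hz
    simpa using this
  have h2 : w * (u⁻¹ * z * u) = (u⁻¹ * z * u) * w := hYY' w hw _ h1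
  have h3 : w * z⁻¹ = z⁻¹ * w := comm_of_mem hYab hw (Y.inv_mem hz)
  calc (z⁻¹ * (u⁻¹ * z * u)) * w = z⁻¹ * ((u⁻¹ * z * u) * w) := by group
    _ = z⁻¹ * (w * (u⁻¹ * z * u)) := by rw [h2]
    _ = (z⁻¹ * w) * (u⁻¹ * z * u) := by group
    _ = (w * z⁻¹) * (u⁻¹ * z * u) := by rw [h3]
    _ = w * (z⁻¹ * (u⁻¹ * z * u)) := by group

theorem conj_u (hu : ∀ x ∈ A, u_ * x = x * u_) {z a₃ : G} (e : conjBy A z⁻¹ = conjBy Y a₃⁻¹) :
    conjBy A (u_⁻¹ * z⁻¹ * u_) = conjBy Y (a₃ * u_)⁻¹ := by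
  rw [conjBy_mul, conjBy_eq_of_commute hu, conjBy_mul, e, ← conjBy_mul, mul_inv_rev]

theorem conj_t (hu : ∀ x ∈ A, u_ * x = x * u_) {z a₃ t : G} (ht : t = z⁻¹ * (u_⁻¹ * z * u_))
    (htY : ∀ w ∈ Y, t * w = w * t) (e : conjBy A z⁻¹ = conjBy Y a₃⁻¹) :
    conjBy Y (t⁻¹ * a₃ * t)⁻¹ = conjBy Y (a₃ * u_)⁻¹ := by
  have h1 : conjBy Y t = Y := conjBy_eq_of_commute htY
  have h2 : (t⁻¹ * a₃ * t)⁻¹ = t⁻¹ * a₃⁻¹ * t := by group
  have h3 : t⁻¹ * z⁻¹ = u_⁻¹ * z⁻¹ * u_ := by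
    rw [ht]
    group
  rw [h2, conjBy_mul, h1, conjBy_mul, ← e, ← conjBy_mul, h3]
  exact conj_u hu e

/-- `t` moves `A` to `C`. -/
theorem conj_A_t {a c y t : G} (hu : ∀ x ∈ A, u_ * x = x * u_) (hau : a * u_ = c) (ht : t = y⁻¹ * (u_⁻¹ * y * u_))
    (hty : t⁻¹ * y⁻¹ = y⁻¹ * t⁻¹) (e1 : conjBy A y⁻¹ = conjBy Y a⁻¹) (e2 : conjBy C y⁻¹ = conjBy Y c⁻¹) :
    conjBy A t⁻¹ = C := by
  apply conjBy_injective y⁻¹
  show conjBy (conjBy A t⁻¹) y⁻¹ = conjBy C y⁻¹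
  have h3 : y⁻¹ * t⁻¹ = u_⁻¹ * y⁻¹ * u_ := by
    rw [← hty, ht]
    group
  rw [← conjBy_mul, h3, conj_u hu e1, hau, e2]

/-- `t` moves `a` to `c`. -/
theorem conj_a_t (hCY : IsRankOnePair C Y) {a c t : G} (hc : c ∈ C) (hta : t⁻¹ * a * t ∈ C)
    (e : conjBy Y (t⁻¹ * a * t)⁻¹ = conjBy Y c⁻¹) : t⁻¹ * a * t = c := by
  have h1 : conjBy Y (c * (t⁻¹ * a * t)⁻¹) = Y := by
    rw [conjBy_mul, e, conjBy_inv_conjBy]
  have h2 := eq_one_of_conjBy_left hCY (C.mul_mem hc (C.inv_mem hta)) h1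
  exact (mul_inv_eq_one.mp h2).symm

/-- Commuting different members with a common partner: the pair is special. -/
theorem special_of_common_partner (hS : IsRootSubgroupSet S) (hA : A ∈ S) (hC : C ∈ S) (hY : Y ∈ S)
    (hAY : IsRankOnePair A Y) (hCY : IsRankOnePair C Y) (hAC : ∀ x ∈ A, ∀ z ∈ C, x * z = z * x)
    (hne : C ≠ A) : IsSpecialRankOnePair A Y := by
  refine ⟨hAY, ?_⟩
  intro a ha ha1 y hy hy1 e1
  obtain ⟨c, hc, hc1, e2'⟩ := hCY.cond_right y hy hy1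
  have e2 := e2'.symm
  have hac : a * c = c * a := hAC a ha c hc
  have hYab := hS.commutative Y hY
  have hAab := hS.commutative A hA
  generalize hu_def : c * a⁻¹ = u
  have hu : ∀ x ∈ A, u * x = x * u := by
    intro x hx
    rw [← hu_def]
    have h1 : c * x = x * c := (hAC x hx c hc).symm
    have h2 : a⁻¹ * x = x * a⁻¹ := comm_of_mem hAab (A.inv_mem ha) hx
    calc c * a⁻¹ * x = c * (a⁻¹ * x) := by group
      _ = c * (x * a⁻¹) := by rw [h2]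
      _ = (c * x) * a⁻¹ := by group
      _ = (x * c) * a⁻¹ := by rw [h1]
      _ = x * (c * a⁻¹) := by group
  have huinv : u⁻¹ = a * c⁻¹ := by
    rw [← hu_def]
    group
  have hYY' : ∀ x ∈ Y, ∀ w ∈ conjBy Y u⁻¹, x * w = w * x := by
    rw [huinv]
    exact comm_of_match hAC e1 e2
  generalize htd : y⁻¹ * (u⁻¹ * y * u) = t
  have htY : ∀ w ∈ Y, t * w = w * t := by
    rw [← htd]
    exact t_commute hYab hYY' hy
  have hty : t⁻¹ * y⁻¹ = y⁻¹ * t⁻¹ := by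
    have := htY y hy
    calc t⁻¹ * y⁻¹ = (y * t)⁻¹ := by group
      _ = (t * y)⁻¹ := by rw [this]
      _ = y⁻¹ * t⁻¹ := by group
  have hau : a * u = c := by
    rw [← hu_def, ← mul_assoc, hac]
    group
  have hAt : conjBy A t⁻¹ = C := conj_A_t hu hau htd.symm hty e1 e2
  have hat1 : t⁻¹ * a * t ∈ C := by
    rw [← hAt]
    have := conj_mem_conjBy (g := t⁻¹) ha
    simpa using this
  have hat : t⁻¹ * a * t = c := by
    refine conj_a_t hCY hc hat1 ?_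
    rw [conj_t hu htd.symm htY e1, hau]
  -- the elements `y₀`
  have hy₀ : a * y⁻¹ * a * y * a⁻¹ ∈ Y := by
    have h1 : y⁻¹ * a * y ∈ conjBy Y a⁻¹ := by
      rw [← e1]
      have := conj_mem_conjBy (g := y⁻¹) ha
      simpa using this
    rw [mem_conjBy, inv_inv] at h1
    have h2 : a * (y⁻¹ * a * y) * a⁻¹ = a * y⁻¹ * a * y * a⁻¹ := by group
    rwa [h2] at h1
  generalize hy₀d : a * y⁻¹ * a * y * a⁻¹ = y₀ at hy₀
  have hya : y⁻¹ * a * y = a⁻¹ * y₀ * a := by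
    rw [← hy₀d]
    group
  have htyy : t * y = y * t := htY y hy
  have hty₀ : t * y₀ = y₀ * t := htY y₀ hy₀
  have hat' : t⁻¹ * a⁻¹ * t = c⁻¹ := by
    rw [← hat]
    group
  have hyc : y⁻¹ * c * y = c⁻¹ * y₀ * c := by
    have h1 : t⁻¹ * (y⁻¹ * a * y) * t = y⁻¹ * (t⁻¹ * a * t) * y := by
      have h2 : y * t = t * y := htyy.symm
      calc t⁻¹ * (y⁻¹ * a * y) * t = (t⁻¹ * y⁻¹) * a * (y * t) := by group
        _ = (y⁻¹ * t⁻¹) * a * (t * y) := by rw [hty, h2]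
        _ = y⁻¹ * (t⁻¹ * a * t) * y := by group
    have h3 : t⁻¹ * (a⁻¹ * y₀ * a) * t = (t⁻¹ * a⁻¹ * t) * (t⁻¹ * y₀ * t) * (t⁻¹ * a * t) := by group
    have h4 : t⁻¹ * y₀ * t = y₀ := by
      rw [mul_assoc, ← hty₀]
      group
    rw [hya, h3, h4, hat', hat] at h1
    exact h1.symm
  have hyci : y⁻¹ * c⁻¹ * y = c⁻¹ * y₀⁻¹ * c := by
    have : y⁻¹ * c⁻¹ * y = (y⁻¹ * c * y)⁻¹ := by group
    rw [this, hyc]
    group
  -- the formula for `t`
  have ht1 : t = (a⁻¹ * y₀ * a) * (c⁻¹ * y₀⁻¹ * c) * u := by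
    rw [← htd, huinv, ← hya, ← hyci]
    group
  have h5 : a * t * a⁻¹ = t * u := by
    have h6 : a * t = t * c := by
      rw [← hat]
      group
    calc a * t * a⁻¹ = t * c * a⁻¹ := by rw [h6]
      _ = t * u := by rw [← hu_def]; group
  have h7 : a * u * a⁻¹ = u := by
    have := hu a ha
    rw [← this]
    group
  have h8 : t = y₀ * (u⁻¹ * y₀⁻¹ * u) := by
    have h9 : a * t * a⁻¹ = y₀ * (a * c⁻¹ * y₀⁻¹ * c * a⁻¹) * (a * u * a⁻¹) := by
      rw [ht1]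
      group
    have h10 : a * c⁻¹ * y₀⁻¹ * c * a⁻¹ = u⁻¹ * y₀⁻¹ * u := by
      rw [huinv, ← hu_def]
      group
    rw [h5, h10, h7] at h9
    exact mul_right_cancel h9
  have h11 : u⁻¹ * (y * y₀) * u = y * y₀ := by
    have h12 : u⁻¹ * y * u = y * y₀ * (u⁻¹ * y₀⁻¹ * u) := by
      have h13 : y⁻¹ * (u⁻¹ * y * u) = y₀ * (u⁻¹ * y₀⁻¹ * u) := by
        rw [htd]
        exact h8
      calc u⁻¹ * y * u = y * (y⁻¹ * (u⁻¹ * y * u)) := by group
        _ = y * (y₀ * (u⁻¹ * y₀⁻¹ * u)) := by rw [h13]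
        _ = y * y₀ * (u⁻¹ * y₀⁻¹ * u) := by group
    calc u⁻¹ * (y * y₀) * u = (u⁻¹ * y * u) * (u⁻¹ * y₀ * u) := by group
      _ = y * y₀ * (u⁻¹ * y₀⁻¹ * u) * (u⁻¹ * y₀ * u) := by rw [h12]
      _ = y * y₀ := by group
  have hw1 : y * y₀ = 1 := by
    by_contra hw
    have hwY : y * y₀ ∈ Y := Y.mul_mem hy hy₀
    have hwY' : y * y₀ ∈ conjBy Y u⁻¹ := by
      rw [mem_conjBy, inv_inv]
      have h12 : u * (y * y₀) * u⁻¹ = y * y₀ := by
        conv_lhs => rw [← h11]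
        group
      rw [h12]
      exact hwY
    have h13 := eq_of_mem_inter hS hY (hS.conj_mem _ hA 1 |> fun h => by rwa [conjBy_one] at h)
      (RankOnePair_symm hAY) (hS.conj_mem Y hY u⁻¹) hwY hwY' hw
    have h14 : conjBy Y u = Y := conjBy_inv_of_eq' h13.symm
    have h15 : a⁻¹ * c = u := by
      rw [← hu_def]
      have : a⁻¹ * c = a⁻¹ * (c * a) * a⁻¹ := by group
      rw [this, ← hac]
      group
    rw [← h15] at h14
    exact not_normalize hS hA hC hY hAY hAC hne ha ha1 hc h14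
  have h16 : y₀ = y⁻¹ := by
    exact eq_inv_of_mul_eq_one_right hw1
  rw [hya, h16]

/-- The central computation in the absence of a rank one partner: elements of `A` act on `Y`
like elements of the group `T` generated by the commuting members. -/
theorem core (hS : IsRootSubgroupSet S) (hA : A ∈ S) (hC : C ∈ S) (hY : Y ∈ S)
    (hAY : IsRankOnePair A Y) (hCY : IsRankOnePair C Y) (hAC : ∀ x ∈ A, ∀ z ∈ C, x * z = z * x)
    (hne : C ≠ A) {T : Subgroup G} (hT : ∀ E ∈ S, E ≠ A → (∀ x ∈ A, ∀ z ∈ E, x * z = z * x) → E ≤ T)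
    {d a : G} (hd : d ∈ A) (hd1 : d ≠ 1) (ha : a ∈ A) (ha1 : a ≠ 1) (hda : d * a ≠ 1) :
    ∃ z ∈ T, ∀ x ∈ A ⊔ Y, (d * z) * x = x * (d * z) := by
  obtain ⟨y, hy, hy1, e1⟩ := hAY.cond_left a ha ha1
  obtain ⟨c, hc, hc1, e2'⟩ := hCY.cond_right y hy hy1
  have e2 := e2'.symm
  have ha₃ : d * a ∈ A := A.mul_mem hd ha
  obtain ⟨z₃, hz₃, hz₃1, e3⟩ := hAY.cond_left (d * a) ha₃ hda
  generalize hz₃d : d * a = a₃ at ha₃ hda e3
  have hac : a * c = c * a := hAC a ha c hc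
  have hYab := hS.commutative Y hY
  have hAab := hS.commutative A hA
  generalize hu_def : c * a⁻¹ = u
  have hu : ∀ x ∈ A, u * x = x * u := by
    intro x hx
    rw [← hu_def]
    have h1 : c * x = x * c := (hAC x hx c hc).symm
    have h2 : a⁻¹ * x = x * a⁻¹ := comm_of_mem hAab (A.inv_mem ha) hx
    calc c * a⁻¹ * x = c * (a⁻¹ * x) := by group
      _ = c * (x * a⁻¹) := by rw [h2]
      _ = (c * x) * a⁻¹ := by group
      _ = (x * c) * a⁻¹ := by rw [h1]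
      _ = x * (c * a⁻¹) := by group
  have huinv : u⁻¹ = a * c⁻¹ := by
    rw [← hu_def]
    group
  have hYY' : ∀ x ∈ Y, ∀ w ∈ conjBy Y u⁻¹, x * w = w * x := by
    rw [huinv]
    exact comm_of_match hAC e1 e2
  have hau : a * u = c := by
    rw [← hu_def, ← mul_assoc, hac]
    group
  have hua : a⁻¹ * c = u := by
    rw [← hu_def]
    have : a⁻¹ * c = a⁻¹ * (c * a) * a⁻¹ := by group
    rw [this, ← hac]
    group
  -- the elements `t` for `y` and `z₃`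
  have htY : ∀ w ∈ Y, (y⁻¹ * (u⁻¹ * y * u)) * w = w * (y⁻¹ * (u⁻¹ * y * u)) := t_commute hYab hYY' hy
  have htY₃ : ∀ w ∈ Y, (z₃⁻¹ * (u⁻¹ * z₃ * u)) * w = w * (z₃⁻¹ * (u⁻¹ * z₃ * u)) := t_commute hYab hYY' hz₃
  generalize htd : y⁻¹ * (u⁻¹ * y * u) = t at htY
  generalize htd₃ : z₃⁻¹ * (u⁻¹ * z₃ * u) = t₃ at htY₃
  have hcommY : ∀ {t : G}, (∀ w ∈ Y, t * w = w * t) → ∀ w ∈ Y, t⁻¹ * w⁻¹ = w⁻¹ * t⁻¹ := by
    intro t ht w hw
    have := ht w hw
    calc t⁻¹ * w⁻¹ = (w * t)⁻¹ := by group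
      _ = (t * w)⁻¹ := by rw [this]
      _ = w⁻¹ * t⁻¹ := by group
  have hAt : conjBy A t⁻¹ = C := conj_A_t hu hau htd.symm (hcommY htY y hy) e1 e2
  have hat1 : t⁻¹ * a * t ∈ C := by
    rw [← hAt]
    have := conj_mem_conjBy (g := t⁻¹) ha
    simpa using this
  have hat : t⁻¹ * a * t = c := by
    refine conj_a_t hCY hc hat1 ?_
    rw [conj_t hu htd.symm htY e1, hau]
  -- members commuting with `A`
  have hF2 : ∀ x ∈ A, ∀ w ∈ conjBy A t₃⁻¹, x * w = w * x := by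
    obtain ⟨a', ha', -, e4⟩ := hAY.cond_right z₃ hz₃ hz₃1
    have hua' : u⁻¹ * a'⁻¹ = a'⁻¹ * u⁻¹ := by
      have h1 := hu a' ha'
      calc u⁻¹ * a'⁻¹ = (a' * u)⁻¹ := by group
        _ = (u * a')⁻¹ := by rw [h1]
        _ = a'⁻¹ * u⁻¹ := by group
    have e5 : conjBy (conjBy Y u⁻¹) a'⁻¹ = conjBy A (u⁻¹ * z₃ * u)⁻¹ := by
      have h1 : (u⁻¹ * z₃ * u)⁻¹ = u⁻¹ * z₃⁻¹ * u := by group
      rw [h1, conjBy_mul A (u⁻¹ * z₃⁻¹) u, conjBy_eq_of_commute hu, ← conjBy_mul, ← hua', conjBy_mul, e4,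
        ← conjBy_mul]
    have h6 := comm_of_match hYY' e4 e5
    have hmem : u⁻¹ * z₃ * u ∈ conjBy Y u⁻¹ := by
      have := conj_mem_conjBy (g := u⁻¹) hz₃
      simpa using this
    have h7 : z₃ * (u⁻¹ * z₃ * u) = (u⁻¹ * z₃ * u) * z₃ := hYY' z₃ hz₃ _ hmem
    have h8 : z₃ * (u⁻¹ * z₃ * u)⁻¹ = t₃⁻¹ := by
      have h8' : (z₃⁻¹ * (u⁻¹ * z₃ * u))⁻¹ = (u⁻¹ * z₃ * u)⁻¹ * z₃ := by group
      rw [← htd₃, h8']
      calc z₃ * (u⁻¹ * z₃ * u)⁻¹ = (u⁻¹ * z₃ * u)⁻¹ * ((u⁻¹ * z₃ * u) * z₃) * (u⁻¹ * z₃ * u)⁻¹ := by group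
        _ = (u⁻¹ * z₃ * u)⁻¹ * (z₃ * (u⁻¹ * z₃ * u)) * (u⁻¹ * z₃ * u)⁻¹ := by rw [h7]
        _ = (u⁻¹ * z₃ * u)⁻¹ * z₃ := by group
    rwa [h8] at h6
  have hne₃ : conjBy A t₃⁻¹ ≠ A := by
    intro e
    have h1 := conj_u hu e3
    have h2 : u⁻¹ * z₃⁻¹ * u = z₃⁻¹ * t₃⁻¹ := by
      rw [← hcommY htY₃ z₃ hz₃, ← htd₃]
      group
    rw [h2, conjBy_mul, e, e3] at h1
    have h3 : (a₃ * u)⁻¹ = a₃⁻¹ * u⁻¹ := by
      have h4 := hu a₃ ha₃
      calc (a₃ * u)⁻¹ = (u * a₃)⁻¹ := by rw [h4]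
        _ = a₃⁻¹ * u⁻¹ := by group
    rw [h3, conjBy_mul] at h1
    have h5 : Y = conjBy Y u⁻¹ := conjBy_injective a₃⁻¹ h1
    have h6 : conjBy Y u = Y := conjBy_inv_of_eq' h5.symm
    rw [← hua] at h6
    exact not_normalize hS hA hC hY hAY hAC hne ha ha1 hc h6
  have hC₃S : conjBy A t₃⁻¹ ∈ S := hS.conj_mem A hA _
  have hC₃T := hT _ hC₃S hne₃ hF2
  have hCT := hT C hC hne hAC
  have hc₃ : t₃⁻¹ * a₃ * t₃ ∈ conjBy A t₃⁻¹ := by
    have := conj_mem_conjBy (g := t₃⁻¹) ha₃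
    simpa using this
  generalize hc₃d : t₃⁻¹ * a₃ * t₃ = c₃ at hc₃
  have hsY : conjBy Y (a₃ * u * c₃⁻¹) = Y := by
    rw [conjBy_mul, ← hc₃d, conj_t hu htd₃.symm htY₃ e3, conjBy_inv_conjBy]
  have hsA : ∀ x ∈ A, (a₃ * u * c₃⁻¹) * x = x * (a₃ * u * c₃⁻¹) := by
    intro x hx
    have h1 : c₃⁻¹ * x = x * c₃⁻¹ := (hF2 x hx _ (Subgroup.inv_mem _ hc₃)).symm
    have h2 := hu x hx
    have h3 : a₃ * x = x * a₃ := comm_of_mem hAab ha₃ hx
    calc (a₃ * u * c₃⁻¹) * x = a₃ * u * (c₃⁻¹ * x) := by group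
      _ = a₃ * (u * x) * c₃⁻¹ := by rw [h1]; group
      _ = (a₃ * x) * u * c₃⁻¹ := by rw [h2]; group
      _ = x * (a₃ * u * c₃⁻¹) := by rw [h3]; group
  have h9 := commute_of_normalize hAY hsA hsY
  have h10 : a₃ * u * c₃⁻¹ = d * (c * c₃⁻¹) := by
    rw [← hz₃d, ← hau]
    group
  rw [h10] at h9
  exact ⟨c * c₃⁻¹, T.mul_mem (hCT hc) (T.inv_mem (hC₃T hc₃)), h9⟩

/-- An element normalizing `A` inside `⟨A, Y⟩` fixes `d`, when no member commuting with `A`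
is moved by `B`. -/
theorem bad_fix (hS : IsRootSubgroupSet S) (hA : A ∈ S) (hC : C ∈ S) (hY : Y ∈ S)
    (hAB : IsRankOnePair A B) (hAY : IsRankOnePair A Y) (hCY : IsRankOnePair C Y)
    (hAC : ∀ x ∈ A, ∀ z ∈ C, x * z = z * x) (hne : C ≠ A)
    (hbad : ∀ E ∈ S, E ≠ A → (∀ x ∈ A, ∀ z ∈ E, x * z = z * x) → ∀ x ∈ E, ∀ w ∈ B, x * w = w * x)
    {h : G} (hh : h ∈ A ⊔ Y) (hNA : conjBy A h = A)
    {d a : G} (hd : d ∈ A) (hd1 : d ≠ 1) (ha : a ∈ A) (ha1 : a ≠ 1) (hda : d * a ≠ 1) :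
    h⁻¹ * d * h = d := by
  have hNA' : conjBy A h⁻¹ = A := conjBy_inv_of_eq hNA
  let T : Subgroup G := Subgroup.centralizer ((B : Set G) ∪ (conjBy B h : Set G))
  have hT : ∀ E ∈ S, E ≠ A → (∀ x ∈ A, ∀ z ∈ E, x * z = z * x) → E ≤ T := by
    intro E hE hEA hcomm x hx
    rw [Subgroup.mem_centralizer_iff]
    rintro w (hw | hw)
    · exact (hbad E hE hEA hcomm x hx w hw).symm
    · have hE' : conjBy E h⁻¹ ∈ S := hS.conj_mem E hE _
      have hne' : conjBy E h⁻¹ ≠ A := by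
        intro e
        apply hEA
        have := congrArg (fun X => conjBy X h) e
        simp only [conjBy_inv_conjBy] at this
        simpa [hNA] using this
      have hcomm' : ∀ x ∈ A, ∀ z ∈ conjBy E h⁻¹, x * z = z * x := by
        have := comm_conj hcomm h⁻¹
        rwa [hNA'] at this
      have h1 := hbad _ hE' hne' hcomm'
      have h2 := comm_conj h1 h
      rw [conjBy_inv_conjBy] at h2
      exact (h2 x hx w hw).symm
  obtain ⟨z, hz, hcom⟩ := core hS hA hC hY hAY hCY hAC hne hT hd hd1 ha ha1 hda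
  have hzB : ∀ w ∈ B, z * w = w * z := by
    intro w hw
    have := (Subgroup.mem_centralizer_iff.mp hz) w (Or.inl hw)
    exact this.symm
  have hzB' : ∀ w ∈ conjBy B h, z * w = w * z := by
    intro w hw
    have := (Subgroup.mem_centralizer_iff.mp hz) w (Or.inr hw)
    exact this.symm
  have hsh := hcom h hh
  have e1 : conjBy B (d * z * h) = conjBy B (d * h) := by
    rw [mul_assoc, conjBy_mul, conjBy_mul B z h, conjBy_eq_of_commute hzB', ← conjBy_mul]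
  have e2 : conjBy B (h * (d * z)) = conjBy B (h * d) := by
    rw [conjBy_mul, conjBy_mul B d z, conjBy_eq_of_commute hzB, ← conjBy_mul]
  rw [hsh, e2] at e1
  have hmem : h⁻¹ * d * h ∈ A := by
    have := conj_mem_conjBy (g := h⁻¹) hd
    rw [hNA'] at this
    simpa using this
  have e3 : conjBy B (d⁻¹ * (h⁻¹ * d * h)) = B := by
    have h1 : d⁻¹ * (h⁻¹ * d * h) = (h * d)⁻¹ * (d * h) := by group
    rw [h1, conjBy_mul, ← e1, ← conjBy_mul]
    simp [conjBy_one]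
  have h4 := eq_one_of_conjBy_left hAB (A.mul_mem (A.inv_mem hd) hmem) e3
  have h5 : h⁻¹ * d * h = d := by
    have : d * (d⁻¹ * (h⁻¹ * d * h)) = d * 1 := by rw [h4]
    simpa using this
  exact h5

/-- The normalizer of `A` in `⟨A, B⟩` centralizes `A`, when no member commuting with `A`
is moved by `B`. -/
theorem bad_central (hS : IsRootSubgroupSet S) (hdeg : IsDegenerateRootSet S) (hA : A ∈ S) (hB : B ∈ S)
    (hC : C ∈ S) (hY : Y ∈ S)
    (hAB : IsRankOnePair A B) (hAY : IsRankOnePair A Y) (hCY : IsRankOnePair C Y)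
    (hAC : ∀ x ∈ A, ∀ z ∈ C, x * z = z * x) (hne : C ≠ A)
    (hbad : ∀ E ∈ S, E ≠ A → (∀ x ∈ A, ∀ z ∈ E, x * z = z * x) → ∀ x ∈ E, ∀ w ∈ B, x * w = w * x)
    (hel : ∀ d ∈ A, d ≠ 1 → ∃ a ∈ A, a ≠ 1 ∧ d * a ≠ 1)
    {h : G} (hh : h ∈ A ⊔ B) (hNA : conjBy A h = A) {a : G} (ha : a ∈ A) : h * a = a * h := by
  -- a swap between `A` and `B`
  have hAu : A ∈ unipotentSubgroups A B := left_mem_unipotent hAB
  have hBu : B ∈ unipotentSubgroups A B := right_mem_unipotent hAB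
  obtain ⟨n, hn, en1, en2⟩ := exists_to_pair hAB hBu hAu hAB.ne.symm
  -- `n` takes `B` to `A` and `A` to `B`
  let T : Subgroup G := Subgroup.centralizer ((A ⊔ B : Subgroup G) : Set G)
  have hTA : ∀ E ∈ S, E ≠ A → (∀ x ∈ A, ∀ z ∈ E, x * z = z * x) → E ≤ T := by
    intro E hE hEA hcomm x hx
    rw [Subgroup.mem_centralizer_iff]
    intro w hw
    have h1 : w ∈ Subgroup.centralizer (E : Set G) := by
      have hle : A ⊔ B ≤ Subgroup.centralizer (E : Set G) := by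
        refine sup_le ?_ ?_
        · intro v hv
          rw [Subgroup.mem_centralizer_iff]
          intro e he
          exact (hcomm v hv e he).symm
        · intro v hv
          rw [Subgroup.mem_centralizer_iff]
          intro e he
          exact hbad E hE hEA hcomm e he v hv
      exact hle hw
    exact (Subgroup.mem_centralizer_iff.mp h1 x hx).symm
  have hTB : ∀ E ∈ S, E ≠ B → (∀ x ∈ B, ∀ z ∈ E, x * z = z * x) → E ≤ T := by
    intro E hE hEB hcomm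
    have hE' : conjBy E n ∈ S := hS.conj_mem E hE n
    have hne' : conjBy E n ≠ A := by
      intro e
      apply hEB
      rw [← en1] at e
      exact conjBy_injective n e
    have hcomm' : ∀ x ∈ A, ∀ z ∈ conjBy E n, x * z = z * x := by
      have := comm_conj hcomm n
      rwa [en1] at this
    have hle := hTA _ hE' hne' hcomm'
    have hfix : conjBy E n = E := by
      have h0 : ∀ x ∈ conjBy E n, x * n⁻¹ = n⁻¹ * x := by
        intro x hx
        have := Subgroup.mem_centralizer_iff.mp (hle hx) n⁻¹ ((A ⊔ B).inv_mem hn)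
        exact this.symm
      have h1 : conjBy (conjBy E n) n⁻¹ = conjBy E n := by
        apply conjBy_eq_of_commute
        intro x hx
        exact (h0 x hx).symm
      rw [conjBy_conjBy_inv] at h1
      exact h1.symm
    rw [hfix] at hle
    exact hle
  -- elements of `B` have partners too
  have helB : ∀ d ∈ B, d ≠ 1 → ∃ a ∈ B, a ≠ 1 ∧ d * a ≠ 1 := by
    intro d hd hd1
    have hd' : n * d * n⁻¹ ∈ A := by
      rw [← en1]
      exact conj_mem_conjBy hd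
    have hd1' : n * d * n⁻¹ ≠ 1 := by
      intro e
      apply hd1
      have h3 : d = n⁻¹ * (n * d * n⁻¹) * n := by group
      rw [h3, e]
      group
    obtain ⟨a, ha, ha1, hda⟩ := hel _ hd' hd1'
    refine ⟨n⁻¹ * a * n, ?_, ?_, ?_⟩
    · rw [← en1, mem_conjBy] at ha
      exact ha
    · intro e
      apply ha1
      have h3 : a = n * (n⁻¹ * a * n) * n⁻¹ := by group
      rw [h3, e]
      group
    · intro e
      apply hda
      have : n * (d * (n⁻¹ * a * n)) * n⁻¹ = n * 1 * n⁻¹ := by rw [e]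
      have h2 : n * d * n⁻¹ * a = n * (d * (n⁻¹ * a * n)) * n⁻¹ := by group
      rw [h2, this]
      group
  -- the pair `(B, Y)`
  have hCB : ∀ x ∈ B, ∀ z ∈ C, x * z = z * x := by
    intro x hx z hz
    exact (hbad C hC hne hAC z hz x hx).symm
  have hne2 : C ≠ B := by
    intro e
    rw [e] at hAC
    exact rankOne_not_comm hAB hAC
  have hYB : Y ≠ B := by
    intro e
    rw [e] at hCY
    exact rankOne_not_comm hCY fun x hx z hz => (hCB z hz x hx).symm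
  have hBY : IsRankOnePair B Y := by
    rcases hS.pair B hB Y hY with h1 | h1 | h1
    · exfalso
      have h2 := hTB Y hY hYB (fun x hx z hz => comm_of_commutator_eq_bot h1 hx hz)
      apply rankOne_not_comm hAY
      intro x hx z hz
      have := Subgroup.mem_centralizer_iff.mp (h2 hz) x (Subgroup.mem_sup_left hx)
      exact this
    · exact h1
    · exact absurd h1 (hdeg B hB Y hY)
  -- the subgroup of elements adjustable by `T` to commute with `Y`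
  have hTX : ∀ z ∈ T, ∀ x ∈ A ⊔ B, z * x = x * z := by
    intro z hz x hx
    exact (Subgroup.mem_centralizer_iff.mp hz x hx).symm
  let H : Subgroup G :=
    { carrier := {x | x ∈ A ⊔ B ∧ ∃ z ∈ T, ∀ y ∈ Y, (x * z) * y = y * (x * z)}
      one_mem' := ⟨(A ⊔ B).one_mem, 1, T.one_mem, by simp⟩
      mul_mem' := by
        rintro x₁ x₂ ⟨h1, z₁, hz₁, e₁⟩ ⟨h2, z₂, hz₂, e₂⟩
        refine ⟨(A ⊔ B).mul_mem h1 h2, z₁ * z₂, T.mul_mem hz₁ hz₂, ?_⟩
        intro y hy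
        have h3 : x₁ * x₂ * (z₁ * z₂) = (x₁ * z₁) * (x₂ * z₂) := by
          have := hTX z₁ hz₁ x₂ h2
          calc x₁ * x₂ * (z₁ * z₂) = x₁ * (x₂ * z₁) * z₂ := by group
            _ = x₁ * (z₁ * x₂) * z₂ := by rw [this]
            _ = (x₁ * z₁) * (x₂ * z₂) := by group
        rw [h3]
        calc (x₁ * z₁) * (x₂ * z₂) * y = (x₁ * z₁) * ((x₂ * z₂) * y) := by group
          _ = (x₁ * z₁) * (y * (x₂ * z₂)) := by rw [e₂ y hy]
          _ = ((x₁ * z₁) * y) * (x₂ * z₂) := by group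
          _ = (y * (x₁ * z₁)) * (x₂ * z₂) := by rw [e₁ y hy]
          _ = y * ((x₁ * z₁) * (x₂ * z₂)) := by group
      inv_mem' := by
        rintro x ⟨h1, z, hz, e⟩
        refine ⟨(A ⊔ B).inv_mem h1, z⁻¹, T.inv_mem hz, ?_⟩
        intro y hy
        have h3 : x⁻¹ * z⁻¹ = (z * x)⁻¹ := by group
        have h4 : z * x = x * z := hTX z hz x h1
        rw [h3, h4]
        have h5 := e y hy
        calc (x * z)⁻¹ * y = (x * z)⁻¹ * (y * (x * z)) * (x * z)⁻¹ := by group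
          _ = (x * z)⁻¹ * ((x * z) * y) * (x * z)⁻¹ := by rw [h5]
          _ = y * (x * z)⁻¹ := by group }
  have hHA : A ≤ H := by
    intro d hd
    refine ⟨Subgroup.mem_sup_left hd, ?_⟩
    by_cases hd1 : d = 1
    · exact ⟨1, T.one_mem, by simp [hd1]⟩
    · obtain ⟨a, ha, ha1, hda⟩ := hel d hd hd1
      obtain ⟨z, hz, e⟩ := core hS hA hC hY hAY hCY hAC hne hTA hd hd1 ha ha1 hda
      exact ⟨z, hz, fun y hy => e y (Subgroup.mem_sup_right hy)⟩
  have hHB : B ≤ H := by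
    intro d hd
    refine ⟨Subgroup.mem_sup_right hd, ?_⟩
    by_cases hd1 : d = 1
    · exact ⟨1, T.one_mem, by simp [hd1]⟩
    · obtain ⟨a, ha, ha1, hda⟩ := helB d hd hd1
      obtain ⟨z, hz, e⟩ := core hS hB hC hY hBY hCY hCB hne2 hTB hd hd1 ha ha1 hda
      exact ⟨z, hz, fun y hy => e y (Subgroup.mem_sup_right hy)⟩
  have hHX : A ⊔ B ≤ H := sup_le hHA hHB
  obtain ⟨-, z, hz, e⟩ := hHX hh
  -- main computation
  by_cases ha1 : a = 1
  · simp [ha1]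
  have hzA : ∀ x ∈ A, z * x = x * z := fun x hx => hTX z hz x (Subgroup.mem_sup_left hx)
  obtain ⟨y, hy, hy1, hm⟩ := hAY.cond_left a ha ha1
  generalize hg : h * z = g at e
  have e1 : conjBy Y g = Y := conjBy_eq_of_commute e
  have e2 : conjBy A g = A := by
    rw [← hg, conjBy_mul, conjBy_eq_of_commute hzA, hNA]
  have hgy : g * y⁻¹ = y⁻¹ * g := by
    have := e y⁻¹ (Y.inv_mem hy)
    exact this
  have e3 : conjBy (conjBy A y⁻¹) g = conjBy A y⁻¹ := by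
    rw [← conjBy_mul, hgy, conjBy_mul, e2]
  rw [hm, ← conjBy_mul] at e3
  have hmem : h * a⁻¹ * h⁻¹ ∈ A := by
    have := conj_mem_conjBy (g := h) (A.inv_mem ha)
    rwa [hNA] at this
  have e4 : g * a⁻¹ = (h * a⁻¹ * h⁻¹) * g := by
    rw [← hg]
    have := hzA a⁻¹ (A.inv_mem ha)
    calc h * z * a⁻¹ = h * (z * a⁻¹) := by group
      _ = h * (a⁻¹ * z) := by rw [this]
      _ = (h * a⁻¹ * h⁻¹) * (h * z) := by group
  rw [e4, conjBy_mul, e1] at e3
  have e5 : conjBy Y (a * (h * a⁻¹ * h⁻¹)) = Y := by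
    rw [conjBy_mul, e3, ← conjBy_mul]
    simp [conjBy_one]
  have h6 := eq_one_of_conjBy_left hAY (A.mul_mem ha hmem) e5
  have h7 : h * a⁻¹ * h⁻¹ = a⁻¹ := by
    have : a⁻¹ * (a * (h * a⁻¹ * h⁻¹)) = a⁻¹ * 1 := by rw [h6]
    simpa using this
  have h8 : h * a⁻¹ = a⁻¹ * h := by
    calc h * a⁻¹ = (h * a⁻¹ * h⁻¹) * h := by group
      _ = a⁻¹ * h := by rw [h7]
  calc h * a = a * (a⁻¹ * h) * a := by group
    _ = a * (h * a⁻¹) * a := by rw [h8]
    _ = a * h := by group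

end Cfsg.Agent.Lib.RootDeg
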