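import Mathlib
import Cfsg.Prelude.Def_RootSubgroups
import Cfsg.Agent.Lib.RankOne

/-!
Images of sets of abstract root subgroups under surjective homomorphisms.
-/

namespace Cfsg.Agent.Lib.RootImage

open Cfsg Cfsg.Agent.Lib.RankOne

variable {G H : Type*} [Group G] [Group H]

theorem map_conjBy (f : G →* H) (A : Subgroup G) (g : G) :
    (conjBy A g).map f = conjBy (A.map f) (f g) := by
  ext y
  constructor
  · rintro ⟨_, ⟨a, ha, rfl⟩, rfl⟩
    exact ⟨f a, ⟨a, ha, rfl⟩, by simp [MulAut.conj_apply]⟩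
  · rintro ⟨_, ⟨a, ha, rfl⟩, rfl⟩
    exact ⟨_, ⟨a, ha, rfl⟩, by simp [MulAut.conj_apply]⟩

theorem map_eq_of_inv {f : G →* H} {A B : Subgroup G} {a : G} (ha : a ∈ A)
    (e : A.map f = conjBy (B.map f) (f a)⁻¹) : A.map f = B.map f := by
  have h2 : conjBy (A.map f) (f a) = B.map f := by
    rw [e, conjBy_inv_conjBy]
  rw [← h2, conjBy_eq_self_of_mem]
  exact ⟨a, ha, rfl⟩

theorem rankOneCond_map {f : G →* H} {A B : Subgroup G} (h : RankOneCondition A B)
    (hne : A.map f ≠ B.map f) : RankOneCondition (A.map f) (B.map f) := by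
  rintro _ ⟨a, ha, rfl⟩ ha1
  have ha1' : a ≠ 1 := by
    rintro rfl
    exact ha1 (map_one f)
  obtain ⟨b, hb, -, e⟩ := h a ha ha1'
  have e2 : conjBy (A.map f) (f b)⁻¹ = conjBy (B.map f) (f a)⁻¹ := by
    have := congrArg (fun X : Subgroup G => X.map f) e
    simp only [map_conjBy, map_inv] at this
    exact this
  refine ⟨f b, ⟨b, hb, rfl⟩, ?_, e2⟩
  intro hb1
  rw [hb1, inv_one, conjBy_one] at e2
  exact hne (map_eq_of_inv ha e2)

theorem isNilpotent_of_comm {A : Subgroup G} (hA : IsMulCommutative A) : Group.IsNilpotent A := by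
  letI : CommGroup A := { (inferInstance : Group A) with mul_comm := fun x y => hA.is_comm.comm x y }
  infer_instance

theorem comm_map {f : G →* H} {A : Subgroup G} (hA : IsMulCommutative A) :
    IsMulCommutative (A.map f) := by
  refine ⟨⟨?_⟩⟩
  rintro ⟨_, a, ha, rfl⟩ ⟨_, b, hb, rfl⟩
  apply Subtype.ext
  show f a * f b = f b * f a
  rw [← map_mul, ← map_mul, comm_of_mem hA ha hb]

theorem isRankOnePair_map {f : G →* H} {A B : Subgroup G} (hA : IsMulCommutative A)
    (hB : IsMulCommutative B) (h : IsRankOnePair A B) (hne : A.map f ≠ B.map f) :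
    IsRankOnePair (A.map f) (B.map f) :=
  ⟨hne, isNilpotent_of_comm (comm_map hA), isNilpotent_of_comm (comm_map hB),
    rankOneCond_map h.cond_left hne, rankOneCond_map h.cond_right hne.symm⟩

theorem map_eq_bot_of_rankOne {f : G →* H} {A B : Subgroup G} (h : IsRankOnePair A B)
    (hA : A.map f = ⊥) : B.map f = ⊥ := by
  obtain ⟨a, ha, ha1⟩ := exists_ne_one_left h
  obtain ⟨b, hb, -, e⟩ := h.cond_left a ha ha1
  have e2 : conjBy (A.map f) (f b)⁻¹ = conjBy (B.map f) (f a)⁻¹ := by
    have := congrArg (fun X : Subgroup G => X.map f) e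
    simp only [map_conjBy, map_inv] at this
    exact this
  have hfa : f a = 1 := by
    have : f a ∈ A.map f := ⟨a, ha, rfl⟩
    rw [hA] at this
    exact this
  rw [hfa, inv_one, conjBy_one, hA] at e2
  rw [← e2]
  ext y
  simp [Subgroup.mem_map]

theorem iSup_map_eq_top {f : G →* H} (hf : Function.Surjective f) {S : Set (Subgroup G)}
    (hS : (⨆ A ∈ S, A) = ⊤) : (⨆ X ∈ (fun A : Subgroup G => A.map f) '' S, X) = ⊤ := by
  rw [iSup_image]
  have : (⨆ A ∈ S, A.map f) = (⨆ A ∈ S, A).map f := by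
    simp only [Subgroup.map_iSup]
  rw [this, hS, ← MonoidHom.range_eq_map, MonoidHom.range_eq_top]
  exact hf

theorem commutatorCase_map {f : G →* H} {S : Set (Subgroup G)} {A B : Subgroup G}
    (h : RootCommutatorCase S A B) :
    RootCommutatorCase ((fun A : Subgroup G => A.map f) '' S) (A.map f) (B.map f) := by
  obtain ⟨h1, h2, h3, h4⟩ := h
  refine ⟨?_, ?_, ?_, ?_⟩
  · rw [← Subgroup.map_commutator]
    exact ⟨_, h1, rfl⟩
  · rw [← Subgroup.map_commutator, ← Subgroup.map_sup]
    rintro _ ⟨c, hc, rfl⟩ _ ⟨x, hx, rfl⟩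
    rw [← map_mul, ← map_mul, h2 c hc x hx]
  · rintro _ ⟨a, ha, rfl⟩ ha1
    have ha1' : a ≠ 1 := by
      rintro rfl
      exact ha1 (map_one f)
    rw [← Subgroup.map_commutator, ← h3 a ha ha1', MonoidHom.map_closure, Subgroup.coe_map,
      Set.image_image, Set.image_image]
    simp only [map_mul, map_inv]
  · rintro _ ⟨b, hb, rfl⟩ hb1
    have hb1' : b ≠ 1 := by
      rintro rfl
      exact hb1 (map_one f)
    rw [← Subgroup.map_commutator, ← h4 b hb hb1', MonoidHom.map_closure, Subgroup.coe_map,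
      Set.image_image, Set.image_image]
    simp only [map_mul, map_inv]

theorem commutator_eq_bot_of_eq {A B : Subgroup H} (hA : IsMulCommutative A) (e : A = B) :
    ⁅A, B⁆ = ⊥ := by
  subst e
  rw [eq_bot_iff, Subgroup.commutator_le]
  intro a ha b hb
  rw [Subgroup.mem_bot, commutatorElement_def, comm_of_mem hA ha hb]
  group

theorem isRootSubgroupSet_map {f : G →* H} (hf : Function.Surjective f) {S : Set (Subgroup G)}
    (hS : IsRootSubgroupSet S) (hne : ∀ A ∈ S, A.map f ≠ ⊥) :
    IsRootSubgroupSet ((fun A : Subgroup G => A.map f) '' S) := by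
  refine ⟨?_, ?_, iSup_map_eq_top hf hS.generates, ?_, ?_⟩
  · rintro _ ⟨A, hA, rfl⟩
    exact comm_map (hS.commutative A hA)
  · rintro _ ⟨A, hA, rfl⟩
    exact hne A hA
  · rintro _ ⟨A, hA, rfl⟩ g
    obtain ⟨g', rfl⟩ := hf g
    refine ⟨_, hS.conj_mem A hA g', ?_⟩
    exact map_conjBy f A g'
  · rintro _ ⟨A, hA, rfl⟩ _ ⟨B, hB, rfl⟩
    rcases hS.pair A hA B hB with h | h | h
    · left
      show ⁅A.map f, B.map f⁆ = ⊥
      rw [← Subgroup.map_commutator, h, Subgroup.map_bot]
    · by_cases hAB : A.map f = B.map f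
      · left
        exact commutator_eq_bot_of_eq (comm_map (hS.commutative A hA)) hAB
      · right; left
        exact isRankOnePair_map (hS.commutative A hA) (hS.commutative B hB) h hAB
    · right; right
      exact commutatorCase_map h

theorem connected_map {f : G →* H} {S : Set (Subgroup G)} (hS : IsRootSubgroupSet S)
    (hc : IsConnectedFamily (FAdj S) S) :
    IsConnectedFamily (FAdj ((fun A : Subgroup G => A.map f) '' S))
      ((fun A : Subgroup G => A.map f) '' S) := by
  rintro _ ⟨A, hA, rfl⟩ _ ⟨B, hB, rfl⟩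
  have := hc A hA B hB
  induction this with
  | refl => exact Relation.ReflTransGen.refl
  | @tail C D _ hCD ih =>
    obtain ⟨hC, hD, hr⟩ := hCD
    by_cases e : C.map f = D.map f
    · show Relation.ReflTransGen _ _ (D.map f)
      rw [← e]
      exact ih hC
    · refine (ih hC).tail ⟨⟨C, hC, rfl⟩, ⟨D, hD, rfl⟩, ?_⟩
      exact isRankOnePair_map (hS.commutative C hC) (hS.commutative D hD) hr e

theorem main {f : G →* H} (hf : Function.Surjective f) {S : Set (Subgroup G)}
    (hS : IsRootSubgroupSet S) (hc : IsConnectedFamily (FAdj S) S) :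
    (IsRootSubgroupSet ((fun A : Subgroup G => A.map f) '' S) ∧
      IsConnectedFamily (FAdj ((fun A : Subgroup G => A.map f) '' S))
        ((fun A : Subgroup G => A.map f) '' S)) ∨
    ∃ A ∈ S, A.map f = ⊤ := by
  by_cases hne : ∀ A ∈ S, A.map f ≠ ⊥
  · exact Or.inl ⟨isRootSubgroupSet_map hf hS hne, connected_map hS hc⟩
  · push Not at hne
    obtain ⟨A, hA, hA0⟩ := hne
    right
    have hall : ∀ B ∈ S, B.map f = ⊥ := by
      intro B hB
      have := hc A hA B hB
      induction this with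
      | refl => exact hA0
      | @tail C D _ hCD ih =>
        obtain ⟨hC, hD, hr⟩ := hCD
        exact map_eq_bot_of_rankOne hr (ih hC)
    refine ⟨A, hA, ?_⟩
    have h := iSup_map_eq_top hf hS.generates
    rw [hA0, ← h, iSup_image, eq_comm, eq_bot_iff]
    exact iSup₂_le fun B hB => (hall B hB).le

end Cfsg.Agent.Lib.RootImage
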