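import Mathlib
import Cfsg.Prelude
import Cfsg.Agent.Lib.ZStar
import Cfsg.Agent.Lib.ZStarThree
import Cfsg.Agent.Lib.BaerSuzuki
import Cfsg.Agent.Lib.PCore

set_option autoImplicit false
set_option linter.all false

namespace Cfsg.Agent.Lib.RootInv

universe u
open Subgroup Cfsg

variable {G : Type u} [Group G] {D : Set G}

theorem sq (hD : IsRootInvolutionSet D) {a : G} (ha : a ∈ D) : a * a = 1 := by
  rw [← pow_two, ← hD.orderOf_eq a ha]
  exact pow_orderOf_eq_one a

theorem inv (hD : IsRootInvolutionSet D) {a : G} (ha : a ∈ D) : a⁻¹ = a :=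
  inv_eq_of_mul_eq_one_left (sq hD ha)

theorem order_swap (hD : IsRootInvolutionSet D) {a b : G} (ha : a ∈ D) (hb : b ∈ D) :
    orderOf (b * a) = orderOf (a * b) := by
  rw [← orderOf_inv (a * b), mul_inv_rev, inv hD ha, inv hD hb]

theorem adj_symm (hD : IsRootInvolutionSet D) {a b : G} (h : OddAdj D a b) : OddAdj D b a := by
  obtain ⟨ha, hb, hab, ho⟩ := h
  exact ⟨hb, ha, hab.symm, by rwa [order_swap hD ha hb]⟩

theorem reach_symm (hD : IsRootInvolutionSet D) {a b : G}
    (h : Relation.ReflTransGen (OddAdj D) a b) : Relation.ReflTransGen (OddAdj D) b a := by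
  induction h with
  | refl => exact Relation.ReflTransGen.refl
  | tail _ h ih => exact Relation.ReflTransGen.head (adj_symm hD h) ih

theorem adj_conj (hD : IsRootInvolutionSet D) {a b : G} (h : OddAdj D a b) (g : G) :
    OddAdj D (g * a * g⁻¹) (g * b * g⁻¹) := by
  obtain ⟨ha, hb, hab, ho⟩ := h
  refine ⟨hD.conj_mem a ha g, hD.conj_mem b hb g, ?_, ?_⟩
  · intro e
    apply hab
    have := mul_right_cancel e
    exact mul_left_cancel this
  · have e : g * a * g⁻¹ * (g * b * g⁻¹) = MulAut.conj g (a * b) := by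
      rw [MulAut.conj_apply]
      group
    rw [e, MulEquiv.orderOf_eq]
    exact ho

theorem sq_of_comm {x y : G} (hx : x * x = 1) (hy : y * y = 1) (h : x * y = y * x) :
    (x * y) * (x * y) = 1 := by
  calc (x * y) * (x * y) = x * (y * x) * y := by group
    _ = x * (x * y) * y := by rw [h]
    _ = (x * x) * (y * y) := by group
    _ = 1 := by rw [hx, hy, one_mul]

theorem key (hD : IsRootInvolutionSet D) {a e f : G} (ha : a ∈ D) (he : e ∈ D) (hae : a * e = e * a)
    (ht : e * a ∈ D) (hf : OddAdj D e f) (hna : ¬ Relation.ReflTransGen (OddAdj D) e a) :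
    OddAdj D (e * a) f := by
  obtain ⟨-, hfD, hef, hodd⟩ := hf
  set r := e * f with hr
  have hee := sq hD he
  have hff := sq hD hfD
  have haa := sq hD ha
  have hr1 : r ≠ 1 := by
    intro h
    apply hef
    have := eq_inv_of_mul_eq_one_left h
    rwa [inv hD hfD] at this
  have hinvr : e * r * e = r⁻¹ := by
    rw [hr, mul_inv_rev, inv hD he, inv hD hfD]
    calc e * (e * f) * e = (e * e) * f * e := by group
      _ = f * e := by rw [hee, one_mul]
  have hei : e⁻¹ = e := inv hD he
  obtain ⟨l, hl⟩ := hodd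
  have hrm : r ^ (2 * l + 1) = 1 := by rw [← hl]; exact pow_orderOf_eq_one r
  have hpow := fun j => Cfsg.Agent.Lib.ZStar.dih_pow hee hinvr j
  -- the reflections
  have hsD : ∀ k : ℕ, r ^ k * e ∈ D := by
    intro k
    have hyy : (r ^ ((l + 1) * k)) * (r ^ ((l + 1) * k)) = r ^ k := by
      rw [← pow_add]
      have e1 : (l + 1) * k + (l + 1) * k = (2 * l + 1) * k + k := by ring
      rw [e1, pow_add, pow_mul, hrm, one_pow, one_mul]
    have h1 := hD.conj_mem e he (r ^ ((l + 1) * k))
    have h2 : r ^ ((l + 1) * k) * e * (r ^ ((l + 1) * k))⁻¹ = r ^ k * e := by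
      have h3 := hpow ((l + 1) * k)
      have h4 : e * (r ^ ((l + 1) * k))⁻¹ = r ^ ((l + 1) * k) * e := by
        rw [← h3]
        calc e * (e * r ^ ((l + 1) * k) * e) = (e * e) * r ^ ((l + 1) * k) * e := by group
          _ = _ := by rw [hee, one_mul]
      rw [mul_assoc, h4, ← mul_assoc, hyy]
    rwa [h2] at h1
  have hcomm : ∀ k : ℕ, a * (r ^ k * a * (r ^ k)⁻¹) = (r ^ k * a * (r ^ k)⁻¹) * a := by
    intro k
    by_cases hk : r ^ k = 1
    · rw [hk]
      simp
    have hs := hsD k
    set s := r ^ k * e with hsdef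
    have hss := sq hD hs
    have hsi : s⁻¹ = s := inv hD hs
    have hconj : r ^ k * a * (r ^ k)⁻¹ = s * a * s := by
      have h1 : s * a * s⁻¹ = r ^ k * (e * a * e⁻¹) * (r ^ k)⁻¹ := by
        rw [hsdef]
        group
      have h2 : e * a * e⁻¹ = a := by
        rw [hei, ← hae, mul_assoc, hee, mul_one]
      rw [h2, hsi] at h1
      exact h1.symm
    rw [hconj]
    have hes : OddAdj D e s := by
      refine ⟨he, hs, ?_, ?_⟩
      · intro h
        apply hk
        have h1 : e = r ^ k * e := h
        have h2 : 1 * e = r ^ k * e := by rw [one_mul]; exact h1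
        exact (mul_right_cancel h2).symm
      · have h1 : e * s = (r ^ k)⁻¹ := by
          rw [hsdef, ← hpow k, mul_assoc]
        rw [h1, orderOf_inv]
        exact Odd.of_dvd_nat ⟨l, hl⟩ (orderOf_pow_dvd k)
    rcases hD.pair a ha s hs with h | h | ⟨h, -⟩
    · have h1 : s * a * s = a := by
        rw [← h, mul_assoc, hss, mul_one]
      rw [h1]
    · exfalso
      by_cases has : a = s
      · apply hna
        rw [has]
        exact Relation.ReflTransGen.single hes
      · apply hna
        have h1 : OddAdj D s a := ⟨hs, ha, Ne.symm has, by rwa [order_swap hD ha hs]⟩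
        exact (Relation.ReflTransGen.single hes).tail h1
    · have h4 : (a * s) ^ 4 = 1 := by rw [← h]; exact pow_orderOf_eq_one _
      have h5 : (a * s) * (a * s) * ((a * s) * (a * s)) = 1 := by
        rw [← h4]
        simp only [pow_succ, pow_zero, one_mul]
        group
      have h6 : (a * s) * (a * s) = ((a * s) * (a * s))⁻¹ := eq_inv_of_mul_eq_one_left h5
      have h7 : ((a * s) * (a * s))⁻¹ = s * a * s * a := by
        rw [mul_inv_rev, mul_inv_rev, inv hD hs, inv hD ha]
        group
      calc a * (s * a * s) = (a * s) * (a * s) := by group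
        _ = s * a * s * a := by rw [h6, h7]
  -- consequence
  let c : ℕ → G := fun k => r ^ k * a * (r ^ k)⁻¹
  have hcs : ∀ k, c k * c k = 1 := by
    intro k
    calc c k * c k = r ^ k * (a * a) * (r ^ k)⁻¹ := by
          simp only [c]; group
      _ = 1 := by rw [haa]; group
  have hcc : ∀ i k, Commute (c i) (c (i + k)) := by
    intro i k
    have h1 : c i = r ^ i * a * (r ^ i)⁻¹ := rfl
    have h2 : c (i + k) = r ^ i * c k * (r ^ i)⁻¹ := by
      simp only [c, pow_add]
      group
    have h3 : a * c k = c k * a := hcomm k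
    show c i * c (i + k) = c (i + k) * c i
    rw [h1, h2]
    calc r ^ i * a * (r ^ i)⁻¹ * (r ^ i * c k * (r ^ i)⁻¹)
        = r ^ i * (a * c k) * (r ^ i)⁻¹ := by group
      _ = r ^ i * (c k * a) * (r ^ i)⁻¹ := by rw [h3]
      _ = _ := by group
  have hne : (a * r) ^ 4 ≠ 1 := by
    intro h4
    have h5 : (a * r) ^ 4 = (c 0 * c 1 * (c 2 * c 3)) * r ^ 4 := by
      simp only [c, pow_succ, pow_zero, one_mul]
      group
    set x := c 0 * c 1 with hx
    set y := c 2 * c 3 with hy
    have hxx : x * x = 1 := sq_of_comm (hcs 0) (hcs 1) (hcc 0 1)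
    have hyy : y * y = 1 := sq_of_comm (hcs 2) (hcs 3) (hcc 2 1)
    have hxy : Commute x y := by
      apply Commute.mul_left
      · apply Commute.mul_right
        · exact hcc 0 2
        · exact hcc 0 3
      · apply Commute.mul_right
        · exact hcc 1 1
        · exact hcc 1 2
    have hnn : (x * y) * (x * y) = 1 := sq_of_comm hxx hyy hxy
    rw [h5] at h4
    have h6 : r ^ 4 = (x * y)⁻¹ := eq_inv_of_mul_eq_one_right h4
    have h7 : r ^ 8 = 1 := by
      have : r ^ 8 = r ^ 4 * r ^ 4 := by rw [← pow_add]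
      rw [this, h6, ← mul_inv_rev, hnn, inv_one]
    have h8 : orderOf r ∣ 8 := orderOf_dvd_of_pow_eq_one h7
    have h9 : orderOf r = 1 := by
      have h10 : Nat.Coprime (orderOf r) (2 ^ 3) := by
        apply Nat.Coprime.pow_right
        rw [hl]
        exact Nat.coprime_two_right.mpr ⟨l, rfl⟩
      exact Nat.Coprime.eq_one_of_dvd h10 h8
    exact hr1 (orderOf_eq_one_iff.mp h9)
  have htf : e * a * f = a * r := by
    rw [hr, ← hae]
    group
  have htD : e * a ≠ f := by
    intro h
    apply hne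
    rw [← htf, h]
    have : f * f = 1 := hff
    rw [this, one_pow]
  refine ⟨ht, hfD, htD, ?_⟩
  have hne' : (e * a * f) ^ 4 ≠ 1 := by rw [htf]; exact hne
  rcases hD.pair (e * a) ht f hfD with h | h | ⟨h, -⟩
  · exfalso
    apply hne'
    have h1 : (e * a * f) * (e * a * f) = 1 :=
      sq_of_comm (sq hD ht) hff h
    rw [show (4 : ℕ) = 2 + 2 from rfl, pow_add, pow_two, h1, one_mul]
  · exact h
  · exfalso
    apply hne'
    rw [← h]
    exact pow_orderOf_eq_one _

/-- The isolated vertices. -/
def W (D : Set G) : Set G := {w | IsIsolatedElem (OddAdj D) D w}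

theorem W_conj (hD : IsRootInvolutionSet D) {w : G} (hw : w ∈ W D) (g : G) :
    g * w * g⁻¹ ∈ W D := by
  refine ⟨hD.conj_mem w hw.1 g, fun b => ⟨fun h => ?_, fun h => ?_⟩⟩
  · have h1 := adj_conj hD h g⁻¹
    have h2 : g⁻¹ * (g * w * g⁻¹) * g⁻¹⁻¹ = w := by group
    rw [h2] at h1
    exact (hw.2 _).1 h1
  · have h1 := adj_conj hD h g⁻¹
    have h2 : g⁻¹ * (g * w * g⁻¹) * g⁻¹⁻¹ = w := by group
    rw [h2] at h1
    exact (hw.2 _).2 h1

theorem closure_normal (hD : IsRootInvolutionSet D) : (closure (W D)).Normal := by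
  constructor
  intro n hn g
  induction hn using Subgroup.closure_induction with
  | mem t ht => exact subset_closure (W_conj hD ht g)
  | one => simp
  | mul a b _ _ ih1 ih2 =>
    have : g * (a * b) * g⁻¹ = (g * a * g⁻¹) * (g * b * g⁻¹) := by group
    rw [this]
    exact Subgroup.mul_mem _ ih1 ih2
  | inv a _ ih =>
    have : g * a⁻¹ * g⁻¹ = (g * a * g⁻¹)⁻¹ := by group
    rw [this]
    exact Subgroup.inv_mem _ ih

variable [Finite G]

theorem W_le_core (hD : IsRootInvolutionSet D) {w : G} (hw : w ∈ W D) : w ∈ Cfsg.pCore 2 G := by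
  by_contra hcon
  obtain ⟨h, hh1, ⟨o, ho⟩, hinv⟩ :=
    Cfsg.Agent.Lib.BaerSuzuki.inverts_odd w (hD.orderOf_eq w hw.1) hcon
  have hww := sq hD hw.1
  have hwi : w⁻¹ = w := inv hD hw.1
  -- square root of h
  have hm : h ^ (2 * o + 1) = 1 := by rw [← ho]; exact pow_orderOf_eq_one h
  set y := h ^ (o + 1) with hy
  have hyy : y * y = h := by
    rw [hy, ← pow_add]
    have : o + 1 + (o + 1) = (2 * o + 1) + 1 := by ring
    rw [this, pow_add, hm, one_mul, pow_one]
  have hwy : w * y * w⁻¹ = y⁻¹ := Cfsg.Agent.Lib.BaerSuzuki.invert_pow hinv (o + 1)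
  have hz : y * w * y⁻¹ ∈ D := hD.conj_mem w hw.1 y
  have hprod : w * (y * w * y⁻¹) = h⁻¹ := by
    have h1 : w * y * w = y⁻¹ := by
      rw [hwi] at hwy
      exact hwy
    have h2 : w * (y * w * y⁻¹) = y⁻¹ * y⁻¹ := by
      calc w * (y * w * y⁻¹) = (w * y * w) * y⁻¹ := by group
        _ = _ := by rw [h1]
    rw [h2, ← mul_inv_rev, hyy]
  apply (hw.2 (y * w * y⁻¹)).1
  refine ⟨hw.1, hz, ?_, ?_⟩
  · intro e
    apply hh1
    have h1 : w * w = h⁻¹ := by
      rw [← hprod, ← e]
    rw [hww] at h1
    exact inv_eq_one.mp h1.symm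
  · rw [hprod, orderOf_inv]
    exact ⟨o, ho⟩

theorem closure_le_core (hD : IsRootInvolutionSet D) : closure (W D) ≤ Cfsg.pCore 2 G :=
  (closure_le _).mpr (fun _ hw => W_le_core hD hw)

theorem not_adj_core (hD : IsRootInvolutionSet D) {d b : G} (hd : d ∈ Cfsg.pCore 2 G)
    (h : OddAdj D d b) : False := by
  obtain ⟨hdD, hbD, hne, ho⟩ := h
  obtain ⟨l, hl⟩ := Cfsg.Agent.Lib.ZStarThree.conj_odd (sq hD hdD) (sq hD hbD) ho
  have hN := Cfsg.Agent.Lib.PCore.pCore_normal 2 G
  have hb : b ∈ Cfsg.pCore 2 G := by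
    rw [← hl]
    exact hN.conj_mem d hd _
  have hdb : d * b ∈ Cfsg.pCore 2 G := Subgroup.mul_mem _ hd hb
  obtain ⟨k, hk⟩ := IsPGroup.iff_orderOf.mp (Cfsg.Agent.Lib.PCore.isPGroup_pCore 2 G) ⟨d * b, hdb⟩
  have h1 : orderOf (d * b) = 2 ^ k := by
    rw [← hk]
    exact (Subgroup.orderOf_mk _ hdb).symm
  rw [h1] at ho
  have hk0 : k = 0 := by
    by_contra h0
    have : Even (2 ^ k) := (Nat.even_pow.mpr ⟨even_two, h0⟩)
    exact (Nat.not_even_iff_odd.mpr ho) this
  rw [hk0, pow_zero] at h1
  have h2 := orderOf_eq_one_iff.mp h1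
  apply hne
  have := eq_inv_of_mul_eq_one_left h2
  rwa [inv hD hbD] at this

theorem core_inter (hD : IsRootInvolutionSet D) : (closure (W D) : Set G) ∩ D = W D := by
  ext d
  constructor
  · rintro ⟨h1, h2⟩
    have h3 : d ∈ Cfsg.pCore 2 G := closure_le_core hD h1
    refine ⟨h2, fun b => ⟨fun h => not_adj_core hD h3 h, fun h => not_adj_core hD h3 (adj_symm hD h)⟩⟩
  · intro h
    exact ⟨subset_closure h, h.1⟩

omit [Finite G] in
theorem exists_nbr {a a' : G} (h : Relation.ReflTransGen (OddAdj D) a a') (hne : a' ≠ a) :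
    ∃ g, OddAdj D a g := by
  rcases Relation.ReflTransGen.cases_head h with h | ⟨c, hc, -⟩
  · exact absurd h.symm hne
  · exact ⟨c, hc⟩

theorem partners (hD : IsRootInvolutionSet D) {a : G} (ha : a ∈ D)
    (hne : ∃ a' ∈ elemComponentOf (OddAdj D) D a, a' ≠ a) :
    productPartners D a ⊆ elemComponentOf (OddAdj D) D a ∪ W D := by
  rintro e ⟨⟨heD, hea, hne2⟩, hprod⟩
  by_contra hcon
  simp only [Set.mem_union, not_or] at hcon
  obtain ⟨h1, h2⟩ := hcon
  obtain ⟨a', ha', hne'⟩ := hne
  obtain ⟨g, hg⟩ := exists_nbr ha'.2 hne'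
  have h3 : ¬ Relation.ReflTransGen (OddAdj D) a e := fun h => h1 ⟨heD, h⟩
  have h4 : ¬ Relation.ReflTransGen (OddAdj D) e a := fun h => h3 (reach_symm hD h)
  obtain ⟨f, hf⟩ : ∃ f, OddAdj D e f := by
    by_contra hno
    push Not at hno
    apply h2
    refine ⟨heD, fun b => ⟨hno b, fun h => hno b (adj_symm hD h)⟩⟩
  have h5 : OddAdj D (e * a) f := key hD ha heD hea.symm hprod hf h4
  have h6 : OddAdj D (a * e) g := key hD heD ha hea (by rw [← hea]; exact hprod) hg h3
  rw [← hea] at h6
  apply h4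
  exact Relation.ReflTransGen.head hf (Relation.ReflTransGen.head (adj_symm hD h5)
    (Relation.ReflTransGen.head h6 (Relation.ReflTransGen.single (adj_symm hD hg))))

omit [Finite G] in
theorem comp_eq (hD : IsRootInvolutionSet D) {a b : G} (h : Relation.ReflTransGen (OddAdj D) a b) :
    elemComponentOf (OddAdj D) D a = elemComponentOf (OddAdj D) D b := by
  ext x
  constructor
  · rintro ⟨h1, h2⟩
    exact ⟨h1, (reach_symm hD h).trans h2⟩
  · rintro ⟨h1, h2⟩
    exact ⟨h1, h.trans h2⟩

theorem comm_mem (hD : IsRootInvolutionSet D) {a b : G} (ha : a ∈ D) (hb : b ∈ D)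
    (hne : ∃ a' ∈ elemComponentOf (OddAdj D) D a, a' ≠ a)
    (hne2 : ∃ b' ∈ elemComponentOf (OddAdj D) D b, b' ≠ b)
    (hcomp : elemComponentOf (OddAdj D) D a ≠ elemComponentOf (OddAdj D) D b) :
    a * b * a⁻¹ * b⁻¹ ∈ closure (W D) := by
  have haa := sq hD ha
  have hbb := sq hD hb
  have hai := inv hD ha
  have hbi := inv hD hb
  rcases hD.pair a ha b hb with h | h | ⟨h, hc⟩
  · rw [h]
    have : b * a * a⁻¹ * b⁻¹ = 1 := by group
    rw [this]
    exact Subgroup.one_mem _
  · exfalso
    apply hcomp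
    by_cases hab : a = b
    · rw [hab]
    · exact comp_eq hD (Relation.ReflTransGen.single ⟨ha, hb, hab, h⟩)
  · rw [hai, hbi]
    have h0 : a * b * a * b = (a * b) ^ 2 := by
      rw [pow_two]; group
    rw [h0]
    set c := (a * b) ^ 2 with hcdef
    have h4 : (a * b) ^ 4 = 1 := by rw [← h]; exact pow_orderOf_eq_one _
    have hc0 : c = a * b * a * b := h0.symm
    -- relations from the order
    have h5 : (a * b * a * b) * (a * b * a * b) = 1 := by
      rw [← h4]
      simp only [pow_succ, pow_zero, one_mul]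
      group
    have hca : c * a = b * a * b := by
      rw [hc0]
      have h6 : (a * b * a * b * a) * (b * a * b) = 1 := by
        rw [← h5]; group
      have h7 := eq_inv_of_mul_eq_one_left h6
      rw [h7, mul_inv_rev, mul_inv_rev, hai, hbi]
      group
    have hac : a * c = b * a * b := by
      rw [hc0]
      calc a * (a * b * a * b) = (a * a) * b * a * b := by group
        _ = _ := by rw [haa, one_mul]
    have hcb : c * b = a * b * a := by
      rw [hc0]
      calc a * b * a * b * b = a * b * a * (b * b) := by group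
        _ = _ := by rw [hbb, mul_one]
    have hbc : b * c = a * b * a := by
      rw [hc0]
      have h6 : (b * a * b * a * b) * (a * b * a) = 1 := by
        have h61 : ((b * a * b * a * b) * (a * b * a)) * (b * b)
            = b * ((a * b * a * b) * (a * b * a * b)) * b := by group
        rw [h5, hbb, mul_one, mul_one, hbb] at h61
        exact h61
      have h7 := eq_inv_of_mul_eq_one_left h6
      calc b * (a * b * a * b) = b * a * b * a * b := by group
        _ = _ := by
          rw [h7, mul_inv_rev, mul_inv_rev, hai, hbi]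
          group
    have hbab : b * a * b ∈ D := by
      have := hD.conj_mem a ha b
      rwa [hbi] at this
    have haba : a * b * a ∈ D := by
      have := hD.conj_mem b hb a
      rwa [hai] at this
    have hca1 : c ≠ a := by
      intro e
      have h1 : a * a = b * a * b := by rw [← hac, e]
      rw [haa] at h1
      have h2 := hD.orderOf_eq a ha
      have h3 : a = 1 := by
        have h8 : b * (b * a * b) * b = b * 1 * b := by rw [← h1]
        have h9 : b * (b * a * b) * b = (b * b) * a * (b * b) := by group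
        rw [h9, hbb, mul_one, one_mul, mul_one, hbb] at h8
        exact h8
      rw [h3, orderOf_one] at h2
      omega
    have hcb1 : c ≠ b := by
      intro e
      have h1 : b * b = a * b * a := by rw [← hbc, e]
      rw [hbb] at h1
      have h2 := hD.orderOf_eq b hb
      have h3 : b = 1 := by
        have h8 : a * (a * b * a) * a = a * 1 * a := by rw [← h1]
        have h9 : a * (a * b * a) * a = (a * a) * b * (a * a) := by group
        rw [h9, haa, mul_one, one_mul, mul_one, haa] at h8
        exact h8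
      rw [h3, orderOf_one] at h2
      omega
    have h1 : c ∈ productPartners D a :=
      ⟨⟨hc, by rw [hca, hac], hca1⟩, by rw [hca]; exact hbab⟩
    have h2 : c ∈ productPartners D b :=
      ⟨⟨hc, by rw [hcb, hbc], hcb1⟩, by rw [hcb]; exact haba⟩
    rcases partners hD ha hne h1 with h3 | h3
    · rcases partners hD hb hne2 h2 with h6 | h6
      · exfalso
        apply hcomp
        exact comp_eq hD (h3.2.trans (reach_symm hD h6.2))
      · exact subset_closure h6
    · exact subset_closure h3

/-- The statement. -/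
theorem main (hD : IsRootInvolutionSet D) :
    (∀ w ∈ W D, ∀ g : G, g * w * g⁻¹ ∈ W D) ∧
    (closure (W D)).Normal ∧
    IsPGroup 2 ↥(closure (W D)) ∧
    (closure (W D) : Set G) ∩ D = W D ∧
    (∀ a ∈ D, ∀ b ∈ D, (∃ a' ∈ elemComponentOf (OddAdj D) D a, a' ≠ a) →
      (∃ b' ∈ elemComponentOf (OddAdj D) D b, b' ≠ b) →
      elemComponentOf (OddAdj D) D a ≠ elemComponentOf (OddAdj D) D b →
        a * b * a⁻¹ * b⁻¹ ∈ closure (W D)) ∧
    (∀ a ∈ D, (∃ a' ∈ elemComponentOf (OddAdj D) D a, a' ≠ a) →
      productPartners D a ⊆ elemComponentOf (OddAdj D) D a ∪ W D) :=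
  ⟨fun _ hw g => W_conj hD hw g, closure_normal hD,
    (Cfsg.Agent.Lib.PCore.isPGroup_pCore 2 G).to_le (closure_le_core hD), core_inter hD,
    fun _ ha _ hb h1 h2 h3 => comm_mem hD ha hb h1 h2 h3, fun _ ha h => partners hD ha h⟩

end Cfsg.Agent.Lib.RootInv
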