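import Mathlib
import Cfsg.Prelude.Def_RootSubgroups
import Cfsg.Agent.Lib.RankOne
import Cfsg.Agent.Lib.RootBasic
import Cfsg.Agent.Lib.RootLines
import Cfsg.Agent.Lib.RootKey
import Cfsg.Agent.Lib.RootGen

/-!
Timmesfeld II: for `A, B, C` in a set of abstract root subgroups with `[A, B]`, `[B, C]` members and
`[A, C] = 1`, the group `⟨A, B, C⟩` is nilpotent.
-/

namespace Cfsg.Agent.Lib.RootNil

open Cfsg Cfsg.Agent.Lib.RankOne Cfsg.Agent.Lib.RootBasic Cfsg.Agent.Lib.RootLines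
  Cfsg.Agent.Lib.RootKey Cfsg.Agent.Lib.RootGen
open scoped commutatorElement

variable {G : Type*} [Group G] {S : Set (Subgroup G)} {A B C D E : Subgroup G}

/-- Elements normalizing `N` whose commutator with `k` lies in `N`. -/
def commSub (N : Subgroup G) (k : G) : Subgroup G where
  carrier := {x | x ∈ Subgroup.normalizer (N : Set G) ∧ ⁅x, k⁆ ∈ N}
  one_mem' := ⟨Subgroup.one_mem _, by simp [N.one_mem]⟩
  mul_mem' := by
    rintro x y ⟨hx, hx'⟩ ⟨hy, hy'⟩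
    refine ⟨Subgroup.mul_mem _ hx hy, ?_⟩
    have e : ⁅x * y, k⁆ = (x * ⁅y, k⁆ * x⁻¹) * ⁅x, k⁆ := by
      simp only [commutatorElement_def]; group
    rw [e]
    have h1 := (Subgroup.mem_normalizer_iff.mp hx _).mp hy'
    exact N.mul_mem h1 hx'
  inv_mem' := by
    rintro x ⟨hx, hx'⟩
    refine ⟨Subgroup.inv_mem _ hx, ?_⟩
    have e : ⁅x⁻¹, k⁆ = x⁻¹ * ⁅x, k⁆⁻¹ * x⁻¹⁻¹ := by
      simp only [commutatorElement_def]; group
    rw [e]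
    exact (Subgroup.mem_normalizer_iff.mp (Subgroup.inv_mem _ hx) _).mp (N.inv_mem hx')

theorem comm_sup_left_le {H₁ H₂ K N : Subgroup G}
    (h₁n : ∀ x ∈ H₁, conjBy N x = N) (h₂n : ∀ x ∈ H₂, conjBy N x = N)
    (h₁ : ⁅H₁, K⁆ ≤ N) (h₂ : ⁅H₂, K⁆ ≤ N) : ⁅H₁ ⊔ H₂, K⁆ ≤ N := by
  rw [Subgroup.commutator_le]
  intro x hx k hk
  have hle : H₁ ⊔ H₂ ≤ commSub N k := by
    refine sup_le ?_ ?_
    · intro y hy
      exact ⟨mem_normalizer_iff_conjBy.mpr (h₁n y hy), h₁ (Subgroup.commutator_mem_commutator hy hk)⟩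
    · intro y hy
      exact ⟨mem_normalizer_iff_conjBy.mpr (h₂n y hy), h₂ (Subgroup.commutator_mem_commutator hy hk)⟩
  exact (hle hx).2

theorem comm_sup_right_le {K H₁ H₂ N : Subgroup G}
    (h₁n : ∀ x ∈ H₁, conjBy N x = N) (h₂n : ∀ x ∈ H₂, conjBy N x = N)
    (h₁ : ⁅K, H₁⁆ ≤ N) (h₂ : ⁅K, H₂⁆ ≤ N) : ⁅K, H₁ ⊔ H₂⁆ ≤ N := by
  rw [Subgroup.commutator_comm]
  exact comm_sup_left_le h₁n h₂n (by rwa [Subgroup.commutator_comm])
    (by rwa [Subgroup.commutator_comm])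

theorem conjBy_eq_of_comm_le {N K : Subgroup G} (h : ⁅N, K⁆ ≤ N) {x : G} (hx : x ∈ K) :
    conjBy N x = N := by
  have key : ∀ y ∈ K, ∀ n ∈ N, y * n * y⁻¹ ∈ N := by
    intro y hy n hn
    have h1 : ⁅n, y⁆ ∈ N := h (Subgroup.commutator_mem_commutator hn hy)
    have e : y * n * y⁻¹ = ⁅n, y⁆⁻¹ * n := by
      simp only [commutatorElement_def]; group
    rw [e]
    exact N.mul_mem (N.inv_mem h1) hn
  ext z
  rw [mem_conjBy]
  constructor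
  · intro hz
    have := key x hx _ hz
    have e : x * (x⁻¹ * z * x) * x⁻¹ = z := by group
    rwa [e] at this
  · intro hz
    have := key x⁻¹ (K.inv_mem hx) z hz
    simpa using this

theorem nilpotent_of_chain {R L₁ L₂ L₃ : Subgroup G} (h0 : ⁅R, R⁆ ≤ L₁) (h1 : ⁅L₁, R⁆ ≤ L₂)
    (h2 : ⁅L₂, R⁆ ≤ L₃) (h3 : ⁅L₃, R⁆ = ⊥) : Group.IsNilpotent ↥R := by
  rw [Subgroup.isNilpotent_iff_lowerCentralSeries]
  refine ⟨4, ?_⟩
  rw [eq_bot_iff]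
  simp only [Subgroup.lowerCentralSeries_succ, Subgroup.lowerCentralSeries_zero]
  calc ⁅⁅⁅⁅R, R⁆, R⁆, R⁆, R⁆ ≤ ⁅L₃, R⁆ :=
        Subgroup.commutator_mono (le_trans (Subgroup.commutator_mono
          (le_trans (Subgroup.commutator_mono h0 le_rfl) h1) le_rfl) h2) le_rfl
    _ = ⊥ := h3
    _ ≤ ⊥ := le_rfl

theorem comm_of_sup {P Q T : Subgroup G} (h₁ : ∀ x ∈ P, ∀ y ∈ T, x * y = y * x)
    (h₂ : ∀ x ∈ Q, ∀ y ∈ T, x * y = y * x) : ∀ x ∈ P ⊔ Q, ∀ y ∈ T, x * y = y * x := by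
  intro x hx y hy
  have hle : P ⊔ Q ≤ Subgroup.centralizer (T : Set G) := by
    refine sup_le ?_ ?_
    · intro z hz
      rw [Subgroup.mem_centralizer_iff]
      intro t ht
      exact (h₁ z hz t ht).symm
    · intro z hz
      rw [Subgroup.mem_centralizer_iff]
      intro t ht
      exact (h₂ z hz t ht).symm
  have := hle hx
  rw [Subgroup.mem_centralizer_iff] at this
  exact (this y hy).symm

theorem comm_of_sup_right {P Q T : Subgroup G} (h₁ : ∀ y ∈ T, ∀ x ∈ P, y * x = x * y)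
    (h₂ : ∀ y ∈ T, ∀ x ∈ Q, y * x = x * y) : ∀ y ∈ T, ∀ x ∈ P ⊔ Q, y * x = x * y := by
  intro y hy x hx
  exact (comm_of_sup (fun a ha t ht => (h₁ t ht a ha).symm)
    (fun a ha t ht => (h₂ t ht a ha).symm) x hx y hy).symm

theorem comm_conj' {P Q : Subgroup G} (h : ∀ x ∈ P, ∀ y ∈ Q, x * y = y * x) (g : G) :
    ∀ x ∈ conjBy P g, ∀ y ∈ conjBy Q g, x * y = y * x := by
  intro x hx y hy
  rw [mem_conjBy] at hx hy
  have h1 := h _ hx _ hy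
  have h2 : g⁻¹ * (x * y) * g = g⁻¹ * (y * x) * g := by
    calc g⁻¹ * (x * y) * g = (g⁻¹ * x * g) * (g⁻¹ * y * g) := by group
      _ = (g⁻¹ * y * g) * (g⁻¹ * x * g) := h1
      _ = g⁻¹ * (y * x) * g := by group
  exact mul_left_cancel (mul_right_cancel h2)

/-- A member commuting with one member of a line is no rank one partner of another. -/
theorem not_rankOne_of_line (hS : IsRootSubgroupSet S) {C₁ : Subgroup G} (hA : A ∈ S) (hC : C ∈ S)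
    (hC₁ : C₁ ∈ S) (hl : C₁ ∈ linePartners S C) (hAC : ∀ x ∈ A, ∀ y ∈ C, x * y = y * x) :
    ¬ IsRankOnePair A C₁ := by
  intro hr
  have hCC₁ : ∀ x ∈ C, ∀ y ∈ C₁, x * y = y * x := fun x hx y hy =>
    comm_of_commutator_eq_bot hl.1.2.2 hx hy
  have hne : C₁ ≠ A := by
    intro e
    apply rankOne_not_comm hr
    intro x hx d hd
    rw [e] at hd
    exact comm_of_mem (hS.commutative A hA) hx hd
  obtain ⟨x, hx, e₁, -⟩ := exists_to_pair hr (right_mem_unipotent hr) (left_mem_unipotent hr) hne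
  have hxC : conjBy C x = C := by
    apply conjBy_eq_of_commute
    intro c hc
    exact comm_of_sup (T := C) hAC (fun y hy z hz => (hCC₁ z hz y hy).symm) x hx c hc
  have hl' := linePartners_conj hS hl x
  rw [e₁, hxC] at hl'
  have hl'' := linePartner_symm hl' hC
  obtain ⟨E₁, hE₁, -, hle, hcase, heq, -⟩ := line_transitive hS hA hC₁ hr hl''
  have hF'S := hcase.1
  have hAF : ⁅A, ⁅E₁, C₁⁆⁆ ∈ S := by
    rw [heq]
    exact hE₁
  have hc2 := commCase_of_mem hS hA hF'S hAF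
  have hfC : ∀ f ∈ ⁅E₁, C₁⁆, ∀ c ∈ C, c * f = f * c := by
    intro f hf c hc
    refine comm_commutator_mem (e := c) (X := E₁) (Y := C₁) ?_ ?_ f hf
    · intro y hy
      exact comm_of_sup_right (T := C) (fun t ht z hz => (hAC z hz t ht).symm)
        (fun t ht z hz => comm_of_mem (hS.commutative C hC) ht hz) c hc y (hle hy)
    · intro y hy
      exact hCC₁ c hc y hy
  have hle2 : E₁ ≤ C := by
    intro e he
    obtain ⟨a, ha, c, hc, rfl⟩ := exists_mul_of_mem_sup hAC (hle he)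
    by_cases ha1 : a = 1
    · simpa [ha1] using hc
    · exfalso
      have hcl := hc2.2.2.1 a ha ha1
      apply hS.ne_bot _ hAF
      rw [← hcl, eq_bot_iff, Subgroup.closure_le]
      rintro _ ⟨f, hf, rfl⟩
      have h1 : f * (a * c) = (a * c) * f := hcase.2.1 f hf (a * c) (Subgroup.mem_sup_left he)
      have h2 : c * f = f * c := hfC f hf c hc
      have h3 : a * f = f * a := by
        have h4 : f * a * c = a * f * c := by
          calc f * a * c = f * (a * c) := by group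
            _ = (a * c) * f := h1
            _ = a * (c * f) := by group
            _ = a * (f * c) := by rw [h2]
            _ = a * f * c := by group
        exact (mul_right_cancel h4).symm
      show a * f * a⁻¹ * f⁻¹ ∈ (⊥ : Subgroup G)
      rw [Subgroup.mem_bot, h3]
      group
  apply hS.ne_bot _ hF'S
  exact commutator_eq_bot_of_comm (fun x hx y hy => hCC₁ x (hle2 hx) y hy)

theorem conj_linePartner (hS : IsRootSubgroupSet S) {D₀ : Subgroup G} (hC : C ∈ S) (hD₀ : D₀ ∈ S)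
    (hr : IsRankOnePair C D₀) (hc : RootCommutatorCase S C B) {g : G} (hg : g ∈ B) (hg1 : g ≠ 1) :
    conjBy C g ∈ linePartners S C := by
  have hne : conjBy C g ≠ C := by
    intro e
    have hle := commutator_le_of_normalize hc hg hg1 e
    obtain ⟨z, hz⟩ := Subgroup.ne_bot_iff_exists_ne_one.mp (hS.ne_bot _ hc.1)
    have hz1 : (z : G) ≠ 1 := by simpa using hz
    exact ne_commutator hS hC hD₀ hr hc (eq_of_mem_inter hS hC hD₀ hr hc.1 (hle z.2) z.2 hz1)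
  have hsup : C ⊔ conjBy C g = C ⊔ ⁅C, B⁆ := by
    apply le_antisymm
    · exact sup_le le_sup_left (CommCase.conj_le_sup hc hg)
    · refine sup_le le_sup_left ?_
      intro e he
      obtain ⟨c, hc', rfl⟩ := CommCase.exists_left hc hg hg1 he
      have e1 : c * g * c⁻¹ * g⁻¹ = c * (g * c⁻¹ * g⁻¹) := by group
      rw [e1]
      exact (C ⊔ conjBy C g).mul_mem (Subgroup.mem_sup_left hc')
        (Subgroup.mem_sup_right (conj_mem_conjBy (C.inv_mem hc')))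
  refine ⟨⟨hS.conj_mem C hC g, hne, ?_⟩, ?_⟩
  · refine commutator_eq_bot_of_comm fun x hx y hy => ?_
    exact sup_comm_of_comm (hS.commutative C hC) (hS.commutative _ hc.1) (CommCase.comm_AC hc)
      (Subgroup.mem_sup_left hx) (CommCase.conj_le_sup hc hg hy)
  · rw [hsup]
    exact line_partition hS hC hD₀ hr hc

theorem not_rankOne_conj (hS : IsRootSubgroupSet S) (hA : A ∈ S) (hC : C ∈ S)
    (hc : RootCommutatorCase S C B) (hAC : ∀ x ∈ A, ∀ y ∈ C, x * y = y * x) {g : G} (hg : g ∈ B)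
    (hg1 : g ≠ 1) : ¬ IsRankOnePair A (conjBy C g) := by
  intro hr
  have hr' : IsRankOnePair (conjBy A g⁻¹) C := by
    have := isRankOnePair_conj hr g⁻¹
    rwa [conjBy_conjBy_inv] at this
  have hl := conj_linePartner hS hC (hS.conj_mem A hA g⁻¹) (RankOnePair_symm hr') hc hg hg1
  exact not_rankOne_of_line hS hA hC (hS.conj_mem C hC g) hl hAC hr


theorem class_two (hP : A ∈ S) (hS : IsRootSubgroupSet S) (hQ : B ∈ S) (h : RootCommutatorCase S A B) :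
    ⁅⁅A ⊔ B, A ⊔ B⁆, A ⊔ B⁆ = ⊥ := by
  have hnA : ∀ x ∈ A, conjBy ⁅A, B⁆ x = ⁅A, B⁆ := fun x hx =>
    conjBy_eq_of_commute fun z hz => (h.2.1 z hz x (Subgroup.mem_sup_left hx)).symm
  have hnB : ∀ x ∈ B, conjBy ⁅A, B⁆ x = ⁅A, B⁆ := fun x hx =>
    conjBy_eq_of_commute fun z hz => (h.2.1 z hz x (Subgroup.mem_sup_right hx)).symm
  have hAA : ⁅A, A⁆ = ⊥ := commutator_eq_bot_of_comm fun x hx y hy =>
    comm_of_mem (hS.commutative A hP) hx hy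
  have hBB : ⁅B, B⁆ = ⊥ := commutator_eq_bot_of_comm fun x hx y hy =>
    comm_of_mem (hS.commutative B hQ) hx hy
  have hle : ⁅A ⊔ B, A ⊔ B⁆ ≤ ⁅A, B⁆ := by
    refine comm_sup_left_le hnA hnB ?_ ?_
    · exact comm_sup_right_le hnA hnB (by rw [hAA]; exact bot_le) le_rfl
    · refine comm_sup_right_le hnA hnB ?_ (by rw [hBB]; exact bot_le)
      rw [Subgroup.commutator_comm]
  rw [eq_bot_iff, ← commutator_eq_bot_of_comm (X := ⁅A, B⁆) (Y := A ⊔ B) h.2.1]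
  exact Subgroup.commutator_mono hle le_rfl

theorem comm_self_le (X : Subgroup G) : ⁅X, X⁆ ≤ X := by
  rw [Subgroup.commutator_le]
  intro x hx y hy
  rw [commutatorElement_def]
  exact X.mul_mem (X.mul_mem (X.mul_mem hx hy) (X.inv_mem hx)) (X.inv_mem hy)

theorem class_two_sup {X Y : Subgroup G} (hX : ⁅⁅X, X⁆, X⁆ = ⊥) (hY : ⁅⁅Y, Y⁆, Y⁆ = ⊥)
    (hXY : ∀ x ∈ X, ∀ y ∈ Y, x * y = y * x) : ⁅⁅X ⊔ Y, X ⊔ Y⁆, X ⊔ Y⁆ = ⊥ := by
  have h1 : ∀ z ∈ ⁅X, X⁆, ∀ w ∈ X ⊔ Y, z * w = w * z := by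
    intro z hz
    refine comm_of_sup_right (fun t ht x hx => comm_of_commutator_eq_bot hX ht hx)
      (fun t ht y hy => hXY t (comm_self_le X ht) y hy) z hz
  have h2 : ∀ z ∈ ⁅Y, Y⁆, ∀ w ∈ X ⊔ Y, z * w = w * z := by
    intro z hz
    refine comm_of_sup_right (fun t ht x hx => (hXY x hx t (comm_self_le Y ht)).symm)
      (fun t ht y hy => comm_of_commutator_eq_bot hY ht hy) z hz
  have h3 : ∀ z ∈ ⁅X, X⁆ ⊔ ⁅Y, Y⁆, ∀ w ∈ X ⊔ Y, z * w = w * z := comm_of_sup h1 h2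
  have hn : ∀ x ∈ X ⊔ Y, conjBy (⁅X, X⁆ ⊔ ⁅Y, Y⁆) x = ⁅X, X⁆ ⊔ ⁅Y, Y⁆ := fun x hx =>
    conjBy_eq_of_commute fun z hz => (h3 z hz x hx).symm
  have hnX : ∀ x ∈ X, conjBy (⁅X, X⁆ ⊔ ⁅Y, Y⁆) x = ⁅X, X⁆ ⊔ ⁅Y, Y⁆ := fun x hx =>
    hn x (Subgroup.mem_sup_left hx)
  have hnY : ∀ x ∈ Y, conjBy (⁅X, X⁆ ⊔ ⁅Y, Y⁆) x = ⁅X, X⁆ ⊔ ⁅Y, Y⁆ := fun x hx =>
    hn x (Subgroup.mem_sup_right hx)
  have hXY' : ⁅X, Y⁆ = ⊥ := commutator_eq_bot_of_comm hXY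
  have hle : ⁅X ⊔ Y, X ⊔ Y⁆ ≤ ⁅X, X⁆ ⊔ ⁅Y, Y⁆ := by
    refine comm_sup_left_le hnX hnY ?_ ?_
    · exact comm_sup_right_le hnX hnY le_sup_left (by rw [hXY']; exact bot_le)
    · refine comm_sup_right_le hnX hnY ?_ le_sup_right
      rw [Subgroup.commutator_comm, hXY']
      exact bot_le
  rw [eq_bot_iff, ← commutator_eq_bot_of_comm h3]
  exact Subgroup.commutator_mono hle le_rfl

theorem comm_eq_inv_of_conj {z t β : G} (h : β * z * β⁻¹ = z * t) (hzt : z * t = t * z) :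
    ⁅z, β⁆ = t⁻¹ := by
  rw [commutatorElement_def]
  have e : z * β * z⁻¹ * β⁻¹ = z * (β * z * β⁻¹)⁻¹ := by group
  rw [e, h, hzt]
  group

/-- The nilpotency of `⟨A, B, C⟩`. -/
theorem nil_main {W : Subgroup G} (hW : W = (A ⊔ D) ⊔ (C ⊔ E))
    (hAab : ∀ x ∈ A, ∀ y ∈ A, x * y = y * x) (hCab : ∀ x ∈ C, ∀ y ∈ C, x * y = y * x)
    (hBab : ∀ x ∈ B, ∀ y ∈ B, x * y = y * x)
    (hDab : ∀ x ∈ D, ∀ y ∈ D, x * y = y * x) (hEab : ∀ x ∈ E, ∀ y ∈ E, x * y = y * x)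
    (hAD : ∀ x ∈ A, ∀ y ∈ D, x * y = y * x) (hCE : ∀ x ∈ C, ∀ y ∈ E, x * y = y * x)
    (hac : ∀ x ∈ A, ∀ y ∈ C, x * y = y * x)
    (hDB : ∀ d ∈ D, ∀ β ∈ B, d * β = β * d) (hEB : ∀ e ∈ E, ∀ β ∈ B, e * β = β * e)
    (hcD : ∀ a ∈ A, ∀ β ∈ B, β * a * β⁻¹ * a⁻¹ ∈ D) (hcE : ∀ c ∈ C, ∀ β ∈ B, β * c * β⁻¹ * c⁻¹ ∈ E)
    (hABD : ⁅A, B⁆ ≤ D) (hBCE : ⁅B, C⁆ ≤ E)
    (hWc : ⁅⁅W, W⁆, W⁆ = ⊥) : Group.IsNilpotent ↥(A ⊔ B ⊔ C) := by
  have hAW : A ≤ W := by rw [hW]; exact le_trans le_sup_left le_sup_left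
  have hDW : D ≤ W := by rw [hW]; exact le_trans le_sup_right le_sup_left
  have hCW : C ≤ W := by rw [hW]; exact le_trans le_sup_left le_sup_right
  have hEW : E ≤ W := by rw [hW]; exact le_trans le_sup_right le_sup_right
  set L₂ := ⁅W, W⁆ with hL₂
  set L₃ := ⁅D, E⁆ with hL₃
  have hzW : ∀ z ∈ L₂, ∀ w ∈ W, z * w = w * z := fun z hz w hw =>
    comm_of_commutator_eq_bot hWc hz hw
  have hL₃L₂ : L₃ ≤ L₂ := Subgroup.commutator_mono hDW hEW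
  have hL₂W : L₂ ≤ W := comm_self_le W
  -- `L₃` is central
  have hL₃R : ∀ z ∈ L₃, ∀ r ∈ A ⊔ B ⊔ C, z * r = r * z := by
    intro z hz
    refine comm_of_sup_right (comm_of_sup_right ?_ ?_) ?_ z hz
    · exact fun t ht a ha => hzW t (hL₃L₂ ht) a (hAW ha)
    · intro t ht β hβ
      exact (comm_commutator_mem (e := β) (X := D) (Y := E)
        (fun x hx => (hDB x hx β hβ).symm) (fun x hx => (hEB x hx β hβ).symm) t ht).symm
    · exact fun t ht c hc => hzW t (hL₃L₂ ht) c (hCW hc)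
  have h3 : ⁅L₃, A ⊔ B ⊔ C⁆ = ⊥ := commutator_eq_bot_of_comm hL₃R
  have hnL₃ : ∀ x ∈ A ⊔ B ⊔ C, conjBy L₃ x = L₃ := fun x hx =>
    conjBy_eq_of_commute fun z hz => (hL₃R z hz x hx).symm
  have hnL₃A : ∀ x ∈ A, conjBy L₃ x = L₃ := fun x hx => hnL₃ x (Subgroup.mem_sup_left (Subgroup.mem_sup_left hx))
  have hnL₃B : ∀ x ∈ B, conjBy L₃ x = L₃ := fun x hx => hnL₃ x (Subgroup.mem_sup_left (Subgroup.mem_sup_right hx))
  have hnL₃C : ∀ x ∈ C, conjBy L₃ x = L₃ := fun x hx => hnL₃ x (Subgroup.mem_sup_right hx)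
  -- `[L₂, B] ≤ L₃`
  have hB2 : ⁅L₂, B⁆ ≤ L₃ := by
    rw [Subgroup.commutator_le]
    intro z hz β hβ
    have hKmem : ∀ y ∈ L₂, ⁅y, β⁆ ∈ L₃ → y ∈ commSub L₃ β ⊓ L₂ := by
      intro y hy hyβ
      refine Subgroup.mem_inf.mpr ⟨⟨mem_normalizer_iff_conjBy.mpr ?_, hyβ⟩, hy⟩
      exact conjBy_eq_of_commute fun t ht => hzW y hy t (hL₂W (hL₃L₂ ht))
    have hnK : ∀ x ∈ W, conjBy (commSub L₃ β ⊓ L₂) x = commSub L₃ β ⊓ L₂ := fun x hx =>
      conjBy_eq_of_commute fun t ht => (hzW t (Subgroup.mem_inf.mp ht).2 x hx).symm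
    have hnA : ∀ x ∈ A, conjBy (commSub L₃ β ⊓ L₂) x = commSub L₃ β ⊓ L₂ := fun x hx => hnK x (hAW hx)
    have hnD : ∀ x ∈ D, conjBy (commSub L₃ β ⊓ L₂) x = commSub L₃ β ⊓ L₂ := fun x hx => hnK x (hDW hx)
    have hnC : ∀ x ∈ C, conjBy (commSub L₃ β ⊓ L₂) x = commSub L₃ β ⊓ L₂ := fun x hx => hnK x (hCW hx)
    have hnE : ∀ x ∈ E, conjBy (commSub L₃ β ⊓ L₂) x = commSub L₃ β ⊓ L₂ := fun x hx => hnK x (hEW hx)
    have hnP : ∀ x ∈ A ⊔ D, conjBy (commSub L₃ β ⊓ L₂) x = commSub L₃ β ⊓ L₂ := fun x hx =>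
      hnK x (by rw [hW]; exact Subgroup.mem_sup_left hx)
    have hnQ : ∀ x ∈ C ⊔ E, conjBy (commSub L₃ β ⊓ L₂) x = commSub L₃ β ⊓ L₂ := fun x hx =>
      hnK x (by rw [hW]; exact Subgroup.mem_sup_right hx)
    have hAC' : ⁅A, C⁆ ≤ commSub L₃ β ⊓ L₂ := by
      rw [commutator_eq_bot_of_comm hac]; exact bot_le
    have hAE' : ⁅A, E⁆ ≤ commSub L₃ β ⊓ L₂ := by
      rw [Subgroup.commutator_le]
      intro a ha e he
      have hz' : ⁅a, e⁆ ∈ L₂ := Subgroup.commutator_mem_commutator (hAW ha) (hEW he)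
      refine hKmem _ hz' ?_
      have hd := hcD a ha β hβ
      set d := β * a * β⁻¹ * a⁻¹ with hd'
      have hβe : β * e * β⁻¹ = e := by
        have := hEB e he β hβ
        calc β * e * β⁻¹ = (e * β) * β⁻¹ := by rw [this]
          _ = e := by group
      have hβa : β * a * β⁻¹ = d * a := by rw [hd']; group
      have hzd := hzW _ hz' d (hDW hd)
      have hconj : β * ⁅a, e⁆ * β⁻¹ = ⁅a, e⁆ * ⁅d, e⁆ := by
        simp only [commutatorElement_def] at hzd ⊢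
        calc β * (a * e * a⁻¹ * e⁻¹) * β⁻¹
            = (β * a * β⁻¹) * (β * e * β⁻¹) * (β * a * β⁻¹)⁻¹ * (β * e * β⁻¹)⁻¹ := by group
          _ = (d * a) * e * (d * a)⁻¹ * e⁻¹ := by rw [hβa, hβe]
          _ = d * (a * e * a⁻¹ * e⁻¹) * e * d⁻¹ * e⁻¹ := by group
          _ = (a * e * a⁻¹ * e⁻¹) * d * e * d⁻¹ * e⁻¹ := by rw [← hzd]
          _ = (a * e * a⁻¹ * e⁻¹) * (d * e * d⁻¹ * e⁻¹) := by group
      have hmem : ⁅d, e⁆ ∈ L₃ := Subgroup.commutator_mem_commutator hd he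
      rw [comm_eq_inv_of_conj hconj (hzW _ hz' _ (hL₂W (hL₃L₂ hmem)))]
      exact L₃.inv_mem hmem
    have hDC' : ⁅D, C⁆ ≤ commSub L₃ β ⊓ L₂ := by
      rw [Subgroup.commutator_le]
      intro d hd c hc
      have hz' : ⁅d, c⁆ ∈ L₂ := Subgroup.commutator_mem_commutator (hDW hd) (hCW hc)
      refine hKmem _ hz' ?_
      have he := hcE c hc β hβ
      set e := β * c * β⁻¹ * c⁻¹ with he'
      have hβd : β * d * β⁻¹ = d := by
        have := hDB d hd β hβ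
        calc β * d * β⁻¹ = (d * β) * β⁻¹ := by rw [this]
          _ = d := by group
      have hβc : β * c * β⁻¹ = e * c := by rw [he']; group
      have hde : d * e * d⁻¹ ∈ W := W.mul_mem (W.mul_mem (hDW hd) (hEW he)) (W.inv_mem (hDW hd))
      have hzd := hzW _ hz' _ hde
      have hconj : β * ⁅d, c⁆ * β⁻¹ = ⁅d, c⁆ * ⁅d, e⁆ := by
        simp only [commutatorElement_def] at hzd ⊢
        calc β * (d * c * d⁻¹ * c⁻¹) * β⁻¹
            = (β * d * β⁻¹) * (β * c * β⁻¹) * (β * d * β⁻¹)⁻¹ * (β * c * β⁻¹)⁻¹ := by group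
          _ = d * (e * c) * d⁻¹ * (e * c)⁻¹ := by rw [hβd, hβc]
          _ = (d * e * d⁻¹) * (d * c * d⁻¹ * c⁻¹) * e⁻¹ := by group
          _ = (d * c * d⁻¹ * c⁻¹) * (d * e * d⁻¹) * e⁻¹ := by rw [← hzd]
          _ = (d * c * d⁻¹ * c⁻¹) * (d * e * d⁻¹ * e⁻¹) := by group
      have hmem : ⁅d, e⁆ ∈ L₃ := Subgroup.commutator_mem_commutator hd he
      rw [comm_eq_inv_of_conj hconj (hzW _ hz' _ (hL₂W (hL₃L₂ hmem)))]
      exact L₃.inv_mem hmem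
    have hDE' : ⁅D, E⁆ ≤ commSub L₃ β ⊓ L₂ := by
      rw [Subgroup.commutator_le]
      intro d hd e he
      have hz' : ⁅d, e⁆ ∈ L₂ := hL₃L₂ (Subgroup.commutator_mem_commutator hd he)
      refine hKmem _ hz' ?_
      have hc : ⁅d, e⁆ * β = β * ⁅d, e⁆ := by
        have := comm_commutator_mem (e := β) (X := D) (Y := E)
          (fun x hx => (hDB x hx β hβ).symm) (fun x hx => (hEB x hx β hβ).symm) _
          (Subgroup.commutator_mem_commutator hd he)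
        exact this.symm
      have : ⁅⁅d, e⁆, β⁆ = 1 := by
        rw [commutatorElement_def, hc]
        group
      rw [this]
      exact L₃.one_mem
    have hPQ : ⁅A ⊔ D, C ⊔ E⁆ ≤ commSub L₃ β ⊓ L₂ :=
      comm_sup_left_le hnA hnD (comm_sup_right_le hnC hnE hAC' hAE')
        (comm_sup_right_le hnC hnE hDC' hDE')
    have hPP : ⁅A ⊔ D, A ⊔ D⁆ = ⊥ := commutator_eq_bot_of_comm fun x hx y hy =>
      comm_of_sup (comm_of_sup_right hAab hAD)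
        (comm_of_sup_right (fun t ht a ha => (hAD a ha t ht).symm) hDab) x hx y hy
    have hQQ : ⁅C ⊔ E, C ⊔ E⁆ = ⊥ := commutator_eq_bot_of_comm fun x hx y hy =>
      comm_of_sup (comm_of_sup_right hCab hCE)
        (comm_of_sup_right (fun t ht a ha => (hCE a ha t ht).symm) hEab) x hx y hy
    have hL₂' : L₂ = ⁅(A ⊔ D) ⊔ (C ⊔ E), (A ⊔ D) ⊔ (C ⊔ E)⁆ := by rw [hL₂, ← hW]
    have hall' : ⁅(A ⊔ D) ⊔ (C ⊔ E), (A ⊔ D) ⊔ (C ⊔ E)⁆ ≤ commSub L₃ β ⊓ L₂ :=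
      comm_sup_left_le hnP hnQ
        (comm_sup_right_le hnP hnQ (by rw [hPP]; exact bot_le) hPQ)
        (comm_sup_right_le hnP hnQ (by rw [Subgroup.commutator_comm]; exact hPQ)
          (by rw [hQQ]; exact bot_le))
    have hall : L₂ ≤ commSub L₃ β ⊓ L₂ := (le_of_eq hL₂').trans hall'
    exact ((Subgroup.mem_inf.mp (hall hz)).1).2
  have hA2 : ⁅L₂, A⁆ ≤ L₃ := by
    rw [commutator_eq_bot_of_comm fun x hx y hy => hzW x hx y (hAW hy)]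
    exact bot_le
  have hC2 : ⁅L₂, C⁆ ≤ L₃ := by
    rw [commutator_eq_bot_of_comm fun x hx y hy => hzW x hx y (hCW hy)]
    exact bot_le
  have hnL₃AB : ∀ x ∈ A ⊔ B, conjBy L₃ x = L₃ := fun x hx => hnL₃ x (Subgroup.mem_sup_left hx)
  have h2 : ⁅L₂, A ⊔ B ⊔ C⁆ ≤ L₃ :=
    comm_sup_right_le hnL₃AB hnL₃C (comm_sup_right_le hnL₃A hnL₃B hA2 hB2) hC2
  have hL₂L₂ : ⁅L₂, A ⊔ B ⊔ C⁆ ≤ L₂ := h2.trans hL₃L₂
  have hnL₂ : ∀ x ∈ A ⊔ B ⊔ C, conjBy L₂ x = L₂ := fun x hx => conjBy_eq_of_comm_le hL₂L₂ hx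
  have hnL₂W : ∀ x ∈ W, conjBy L₂ x = L₂ := fun x hx =>
    conjBy_eq_of_commute fun z hz => (hzW z hz x hx).symm
  have hnL₂A : ∀ x ∈ A, conjBy L₂ x = L₂ := fun x hx => hnL₂W x (hAW hx)
  have hnL₂C : ∀ x ∈ C, conjBy L₂ x = L₂ := fun x hx => hnL₂W x (hCW hx)
  have hnL₂D : ∀ x ∈ D, conjBy L₂ x = L₂ := fun x hx => hnL₂W x (hDW hx)
  have hnL₂E : ∀ x ∈ E, conjBy L₂ x = L₂ := fun x hx => hnL₂W x (hEW hx)
  have hnL₂B : ∀ x ∈ B, conjBy L₂ x = L₂ := fun x hx =>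
    hnL₂ x (Subgroup.mem_sup_left (Subgroup.mem_sup_right hx))
  have hnL₂AB : ∀ x ∈ A ⊔ B, conjBy L₂ x = L₂ := fun x hx => hnL₂ x (Subgroup.mem_sup_left hx)
  have hDR : ⁅D, A ⊔ B ⊔ C⁆ ≤ L₂ := by
    refine comm_sup_right_le hnL₂AB hnL₂C (comm_sup_right_le hnL₂A hnL₂B ?_ ?_) ?_
    · exact Subgroup.commutator_mono hDW hAW
    · rw [commutator_eq_bot_of_comm hDB]
      exact bot_le
    · exact Subgroup.commutator_mono hDW hCW
  have hER : ⁅E, A ⊔ B ⊔ C⁆ ≤ L₂ := by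
    refine comm_sup_right_le hnL₂AB hnL₂C (comm_sup_right_le hnL₂A hnL₂B ?_ ?_) ?_
    · exact Subgroup.commutator_mono hEW hAW
    · rw [commutator_eq_bot_of_comm hEB]
      exact bot_le
    · exact Subgroup.commutator_mono hEW hCW
  have h1 : ⁅L₂ ⊔ (D ⊔ E), A ⊔ B ⊔ C⁆ ≤ L₂ := by
    refine comm_sup_left_le (fun x hx => hnL₂W x (hL₂W hx)) ?_ hL₂L₂
      (comm_sup_left_le hnL₂D hnL₂E hDR hER)
    intro x hx
    exact hnL₂W x ((sup_le hDW hEW) hx)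
  have hL₁n : ∀ x ∈ A ⊔ B ⊔ C, conjBy (L₂ ⊔ (D ⊔ E)) x = L₂ ⊔ (D ⊔ E) := fun x hx =>
    conjBy_eq_of_comm_le (h1.trans le_sup_left) hx
  have hnA1 : ∀ x ∈ A, conjBy (L₂ ⊔ (D ⊔ E)) x = L₂ ⊔ (D ⊔ E) := fun x hx =>
    hL₁n x (Subgroup.mem_sup_left (Subgroup.mem_sup_left hx))
  have hnB1 : ∀ x ∈ B, conjBy (L₂ ⊔ (D ⊔ E)) x = L₂ ⊔ (D ⊔ E) := fun x hx =>
    hL₁n x (Subgroup.mem_sup_left (Subgroup.mem_sup_right hx))
  have hnC1 : ∀ x ∈ C, conjBy (L₂ ⊔ (D ⊔ E)) x = L₂ ⊔ (D ⊔ E) := fun x hx =>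
    hL₁n x (Subgroup.mem_sup_right hx)
  have hnAB1 : ∀ x ∈ A ⊔ B, conjBy (L₂ ⊔ (D ⊔ E)) x = L₂ ⊔ (D ⊔ E) := fun x hx =>
    hL₁n x (Subgroup.mem_sup_left hx)
  have hDL : D ≤ L₂ ⊔ (D ⊔ E) := le_trans le_sup_left le_sup_right
  have hEL : E ≤ L₂ ⊔ (D ⊔ E) := le_trans le_sup_right le_sup_right
  have hAA : ⁅A, A⁆ ≤ L₂ ⊔ (D ⊔ E) := by
    rw [commutator_eq_bot_of_comm hAab]; exact bot_le
  have hBB : ⁅B, B⁆ ≤ L₂ ⊔ (D ⊔ E) := by
    rw [commutator_eq_bot_of_comm hBab]; exact bot_le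
  have hCC : ⁅C, C⁆ ≤ L₂ ⊔ (D ⊔ E) := by
    rw [commutator_eq_bot_of_comm hCab]; exact bot_le
  have hAC1 : ⁅A, C⁆ ≤ L₂ ⊔ (D ⊔ E) := by
    rw [commutator_eq_bot_of_comm hac]; exact bot_le
  have hCA1 : ⁅C, A⁆ ≤ L₂ ⊔ (D ⊔ E) := by
    rw [Subgroup.commutator_comm]; exact hAC1
  have hAB1 : ⁅A, B⁆ ≤ L₂ ⊔ (D ⊔ E) := hABD.trans hDL
  have hBA1 : ⁅B, A⁆ ≤ L₂ ⊔ (D ⊔ E) := by
    rw [Subgroup.commutator_comm]; exact hAB1
  have hBC1 : ⁅B, C⁆ ≤ L₂ ⊔ (D ⊔ E) := hBCE.trans hEL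
  have hCB1 : ⁅C, B⁆ ≤ L₂ ⊔ (D ⊔ E) := by
    rw [Subgroup.commutator_comm]; exact hBC1
  have h0 : ⁅A ⊔ B ⊔ C, A ⊔ B ⊔ C⁆ ≤ L₂ ⊔ (D ⊔ E) := by
    refine comm_sup_left_le hnAB1 hnC1 (comm_sup_left_le hnA1 hnB1 ?_ ?_) ?_
    · exact comm_sup_right_le hnAB1 hnC1 (comm_sup_right_le hnA1 hnB1 hAA hAB1) hAC1
    · exact comm_sup_right_le hnAB1 hnC1 (comm_sup_right_le hnA1 hnB1 hBA1 hBB) hBC1
    · exact comm_sup_right_le hnAB1 hnC1 (comm_sup_right_le hnA1 hnB1 hCA1 hCB1) hCC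
  exact nilpotent_of_chain h0 h1 h2 h3

theorem side_norm (hc : RootCommutatorCase S A B) {g : G} (hg : g ∈ B) :
    conjBy (A ⊔ ⁅A, B⁆) g = A ⊔ ⁅A, B⁆ := by
  have h : ∀ g ∈ B, conjBy (A ⊔ ⁅A, B⁆) g ≤ A ⊔ ⁅A, B⁆ := by
    intro g hg
    rw [conjBy_sup]
    refine sup_le (CommCase.conj_le_sup hc hg) ?_
    have : conjBy ⁅A, B⁆ g = ⁅A, B⁆ :=
      conjBy_eq_of_commute fun z hz => (CommCase.comm_right hc hz hg).symm
    rw [this]
    exact le_sup_right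
  refine le_antisymm (h g hg) ?_
  intro x hx
  rw [mem_conjBy]
  have := h g⁻¹ (B.inv_mem hg) (conj_mem_conjBy hx)
  simpa using this

theorem isMulComm_of {X : Subgroup G} (h : ∀ x ∈ X, ∀ y ∈ X, x * y = y * x) : IsMulCommutative ↥X :=
  ⟨⟨fun x y => Subtype.ext (h x x.2 y y.2)⟩⟩

theorem main (hS : IsRootSubgroupSet S) (hA : A ∈ S) (hB : B ∈ S) (hC : C ∈ S) (hAB : ⁅A, B⁆ ∈ S)
    (hBC : ⁅B, C⁆ ∈ S) (hAC : C ∈ commutingPartners S A) {b : G} (hb : b ∈ B) (hb1 : b ≠ 1) :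
    ((IsMulCommutative ↥(A ⊔ conjBy C b⁻¹) ∧ IsMulCommutative ↥(conjBy A b⁻¹ ⊔ C)) ∨
      ((¬ IsMulCommutative ↥(A ⊔ conjBy C b⁻¹) ∧
          ⁅⁅A ⊔ conjBy C b⁻¹, A ⊔ conjBy C b⁻¹⁆, A ⊔ conjBy C b⁻¹⁆ = ⊥) ∧
        (¬ IsMulCommutative ↥(conjBy A b⁻¹ ⊔ C) ∧
          ⁅⁅conjBy A b⁻¹ ⊔ C, conjBy A b⁻¹ ⊔ C⁆, conjBy A b⁻¹ ⊔ C⁆ = ⊥))) ∧
    ⁅A ⊔ conjBy C b⁻¹, conjBy A b⁻¹ ⊔ C⁆ = ⊥ ∧
    (∀ r ∈ A ⊔ B ⊔ C, conjBy ((A ⊔ conjBy C b⁻¹) ⊔ (conjBy A b⁻¹ ⊔ C)) r =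
      (A ⊔ conjBy C b⁻¹) ⊔ (conjBy A b⁻¹ ⊔ C)) ∧
    ((A ⊔ conjBy C b⁻¹) ⊔ (conjBy A b⁻¹ ⊔ C)) ⊔ B = A ⊔ B ⊔ C ∧
    Group.IsNilpotent ↥(A ⊔ B ⊔ C) := by
  have hcA : RootCommutatorCase S A B := commCase_of_mem hS hA hB hAB
  have hCB : ⁅C, B⁆ ∈ S := by rwa [Subgroup.commutator_comm]
  have hcC : RootCommutatorCase S C B := commCase_of_mem hS hC hB hCB
  have hac : ∀ x ∈ A, ∀ y ∈ C, x * y = y * x := fun x hx y hy =>
    comm_of_commutator_eq_bot hAC.2.2 hx hy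
  have hAab : ∀ x ∈ A, ∀ y ∈ A, x * y = y * x := fun x hx y hy =>
    comm_of_mem (hS.commutative A hA) hx hy
  have hBab : ∀ x ∈ B, ∀ y ∈ B, x * y = y * x := fun x hx y hy =>
    comm_of_mem (hS.commutative B hB) hx hy
  have hCab : ∀ x ∈ C, ∀ y ∈ C, x * y = y * x := fun x hx y hy =>
    comm_of_mem (hS.commutative C hC) hx hy
  have hg : b⁻¹ ∈ B := B.inv_mem hb
  have hg1 : b⁻¹ ≠ 1 := by simpa using hb1
  have hA₁ : conjBy A b⁻¹ ≤ A ⊔ ⁅A, B⁆ := CommCase.conj_le_sup hcA hg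
  have hC₁ : conjBy C b⁻¹ ≤ C ⊔ ⁅C, B⁆ := CommCase.conj_le_sup hcC hg
  have hPab : ∀ x ∈ A ⊔ ⁅A, B⁆, ∀ y ∈ A ⊔ ⁅A, B⁆, x * y = y * x := fun x hx y hy =>
    sup_comm_of_comm (hS.commutative A hA) (hS.commutative _ hcA.1) (CommCase.comm_AC hcA) hx hy
  have hQab : ∀ x ∈ C ⊔ ⁅C, B⁆, ∀ y ∈ C ⊔ ⁅C, B⁆, x * y = y * x := fun x hx y hy =>
    sup_comm_of_comm (hS.commutative C hC) (hS.commutative _ hcC.1) (CommCase.comm_AC hcC) hx hy
  have hXY : ∀ x ∈ A ⊔ conjBy C b⁻¹, ∀ y ∈ conjBy A b⁻¹ ⊔ C, x * y = y * x := by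
    refine comm_of_sup (comm_of_sup_right ?_ ?_) (comm_of_sup_right ?_ ?_)
    · intro a ha a₁ ha₁
      exact hPab a (Subgroup.mem_sup_left ha) a₁ (hA₁ ha₁)
    · intro a ha c hc
      exact hac a ha c hc
    · intro c₁ hc₁ a₁ ha₁
      exact comm_conj' (fun c hc a ha => (hac a ha c hc).symm) b⁻¹ c₁ hc₁ a₁ ha₁
    · intro c₁ hc₁ c hc
      exact hQab c₁ (hC₁ hc₁) c (Subgroup.mem_sup_left hc)
  have key : ∀ g' ∈ B, g' ≠ 1 → ((∀ x ∈ A, ∀ y ∈ conjBy C g', x * y = y * x) ↔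
      (∀ x ∈ A, ∀ e ∈ ⁅C, B⁆, x * e = e * x)) := by
    intro g' hg' hg'1
    constructor
    · intro h x hx e he
      obtain ⟨c, hc, rfl⟩ := CommCase.exists_left hcC hg' hg'1 he
      have e1 : c * g' * c⁻¹ * g'⁻¹ = c * (g' * c⁻¹ * g'⁻¹) := by group
      rw [e1]
      have h1 := hac x hx c hc
      have h2 := h x hx _ (conj_mem_conjBy (g := g') (C.inv_mem hc))
      calc x * (c * (g' * c⁻¹ * g'⁻¹)) = (x * c) * (g' * c⁻¹ * g'⁻¹) := by group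
        _ = (c * x) * (g' * c⁻¹ * g'⁻¹) := by rw [h1]
        _ = c * (x * (g' * c⁻¹ * g'⁻¹)) := by group
        _ = c * ((g' * c⁻¹ * g'⁻¹) * x) := by rw [h2]
        _ = c * (g' * c⁻¹ * g'⁻¹) * x := by group
    · intro h x hx y hy
      exact comm_of_sup_right hac h x hx y (CommCase.conj_le_sup hcC hg' hy)
  have hYiff : (∀ x ∈ conjBy A b⁻¹, ∀ y ∈ C, x * y = y * x) ↔
      (∀ x ∈ A, ∀ y ∈ conjBy C b, x * y = y * x) := by
    constructor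
    · intro h
      have := comm_conj' h b
      rwa [conjBy_inv_conjBy] at this
    · intro h
      have := comm_conj' h b⁻¹
      rwa [conjBy_conjBy_inv] at this
  have hdich : (IsMulCommutative ↥(A ⊔ conjBy C b⁻¹) ∧ IsMulCommutative ↥(conjBy A b⁻¹ ⊔ C)) ∨
      ((¬ IsMulCommutative ↥(A ⊔ conjBy C b⁻¹) ∧
          ⁅⁅A ⊔ conjBy C b⁻¹, A ⊔ conjBy C b⁻¹⁆, A ⊔ conjBy C b⁻¹⁆ = ⊥) ∧
        (¬ IsMulCommutative ↥(conjBy A b⁻¹ ⊔ C) ∧
          ⁅⁅conjBy A b⁻¹ ⊔ C, conjBy A b⁻¹ ⊔ C⁆, conjBy A b⁻¹ ⊔ C⁆ = ⊥)) := by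
    by_cases H : ∀ x ∈ A, ∀ e ∈ ⁅C, B⁆, x * e = e * x
    · left
      constructor
      · refine isMulComm_of fun x hx y hy => ?_
        exact sup_comm_of_comm (hS.commutative A hA) (hS.commutative _ (hS.conj_mem C hC b⁻¹))
          ((key _ hg hg1).mpr H) hx hy
      · refine isMulComm_of fun x hx y hy => ?_
        exact sup_comm_of_comm (hS.commutative _ (hS.conj_mem A hA b⁻¹)) (hS.commutative C hC)
          (hYiff.mpr ((key _ hb hb1).mpr H)) hx hy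
    · right
      have hXn : ¬ IsMulCommutative ↥(A ⊔ conjBy C b⁻¹) := by
        intro hc
        apply H
        refine (key _ hg hg1).mp fun x hx y hy => ?_
        exact comm_of_mem hc (Subgroup.mem_sup_left hx) (Subgroup.mem_sup_right hy)
      have hYn : ¬ IsMulCommutative ↥(conjBy A b⁻¹ ⊔ C) := by
        intro hc
        apply H
        refine (key _ hb hb1).mp (hYiff.mp fun x hx y hy => ?_)
        exact comm_of_mem hc (Subgroup.mem_sup_left hx) (Subgroup.mem_sup_right hy)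
      have hX2 : ⁅⁅A ⊔ conjBy C b⁻¹, A ⊔ conjBy C b⁻¹⁆, A ⊔ conjBy C b⁻¹⁆ = ⊥ := by
        rcases hS.pair A hA _ (hS.conj_mem C hC b⁻¹) with h | h | h
        · exfalso
          apply hXn
          refine isMulComm_of fun x hx y hy => ?_
          exact sup_comm_of_comm (hS.commutative A hA) (hS.commutative _ (hS.conj_mem C hC b⁻¹))
            (fun x hx y hy => comm_of_commutator_eq_bot h hx hy) hx hy
        · exact absurd h (not_rankOne_conj hS hA hC hcC hac hg hg1)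
        · exact class_two hA hS (hS.conj_mem C hC b⁻¹) h
      have hY2 : ⁅⁅conjBy A b⁻¹ ⊔ C, conjBy A b⁻¹ ⊔ C⁆, conjBy A b⁻¹ ⊔ C⁆ = ⊥ := by
        rcases hS.pair _ (hS.conj_mem A hA b⁻¹) C hC with h | h | h
        · exfalso
          apply hYn
          refine isMulComm_of fun x hx y hy => ?_
          exact sup_comm_of_comm (hS.commutative _ (hS.conj_mem A hA b⁻¹)) (hS.commutative C hC)
            (fun x hx y hy => comm_of_commutator_eq_bot h hx hy) hx hy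
        · exfalso
          have h' := isRankOnePair_conj h b
          rw [conjBy_inv_conjBy] at h'
          exact not_rankOne_conj hS hA hC hcC hac hb hb1 h'
        · exact class_two (hS.conj_mem A hA b⁻¹) hS hC h
      exact ⟨⟨hXn, hX2⟩, ⟨hYn, hY2⟩⟩
  have hX2 : ⁅⁅A ⊔ conjBy C b⁻¹, A ⊔ conjBy C b⁻¹⁆, A ⊔ conjBy C b⁻¹⁆ = ⊥ := by
    rcases hdich with h | h
    · rw [commutator_eq_bot_of_comm fun x hx y hy => comm_of_mem h.1 hx hy]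
      exact Subgroup.commutator_bot_left _
    · exact h.1.2
  have hY2 : ⁅⁅conjBy A b⁻¹ ⊔ C, conjBy A b⁻¹ ⊔ C⁆, conjBy A b⁻¹ ⊔ C⁆ = ⊥ := by
    rcases hdich with h | h
    · rw [commutator_eq_bot_of_comm fun x hx y hy => comm_of_mem h.2 hx hy]
      exact Subgroup.commutator_bot_left _
    · exact h.2.2
  have hWc := class_two_sup hX2 hY2 hXY
  have hside : ∀ {P : Subgroup G}, RootCommutatorCase S P B → ⁅P, B⁆ ≤ P ⊔ conjBy P b⁻¹ := by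
    intro P hcP e he
    obtain ⟨c, hc', rfl⟩ := CommCase.exists_left hcP hg hg1 he
    have e1 : c * b⁻¹ * c⁻¹ * b⁻¹⁻¹ = c * (b⁻¹ * c⁻¹ * b⁻¹⁻¹) := by group
    rw [e1]
    exact (P ⊔ conjBy P b⁻¹).mul_mem (Subgroup.mem_sup_left hc')
      (Subgroup.mem_sup_right (conj_mem_conjBy (P.inv_mem hc')))
  have hWeq : (A ⊔ conjBy C b⁻¹) ⊔ (conjBy A b⁻¹ ⊔ C) = (A ⊔ ⁅A, B⁆) ⊔ (C ⊔ ⁅C, B⁆) := by
    apply le_antisymm
    · refine sup_le (sup_le ?_ ?_) (sup_le ?_ ?_)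
      · exact le_trans le_sup_left le_sup_left
      · exact hC₁.trans le_sup_right
      · exact hA₁.trans le_sup_left
      · exact le_trans le_sup_left le_sup_right
    · have hA' : A ≤ (A ⊔ conjBy C b⁻¹) ⊔ (conjBy A b⁻¹ ⊔ C) := le_trans le_sup_left le_sup_left
      have hC' : C ≤ (A ⊔ conjBy C b⁻¹) ⊔ (conjBy A b⁻¹ ⊔ C) := le_trans le_sup_right le_sup_right
      have hA₁' : conjBy A b⁻¹ ≤ (A ⊔ conjBy C b⁻¹) ⊔ (conjBy A b⁻¹ ⊔ C) :=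
        le_trans le_sup_left le_sup_right
      have hC₁' : conjBy C b⁻¹ ≤ (A ⊔ conjBy C b⁻¹) ⊔ (conjBy A b⁻¹ ⊔ C) :=
        le_trans le_sup_right le_sup_left
      refine sup_le (sup_le hA' ?_) (sup_le hC' ?_)
      · exact (hside hcA).trans (sup_le hA' hA₁')
      · exact (hside hcC).trans (sup_le hC' hC₁')
  have hRW : ∀ r ∈ A ⊔ B ⊔ C, conjBy ((A ⊔ conjBy C b⁻¹) ⊔ (conjBy A b⁻¹ ⊔ C)) r =
      (A ⊔ conjBy C b⁻¹) ⊔ (conjBy A b⁻¹ ⊔ C) := by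
    intro r hr
    have hle : A ⊔ B ⊔ C ≤ Subgroup.normalizer
        (((A ⊔ conjBy C b⁻¹) ⊔ (conjBy A b⁻¹ ⊔ C) : Subgroup G) : Set G) := by
      refine sup_le (sup_le ?_ ?_) ?_
      · intro x hx
        refine mem_normalizer_iff_conjBy.mpr (conjBy_eq_self_of_mem ?_)
        exact Subgroup.mem_sup_left (Subgroup.mem_sup_left hx)
      · intro x hx
        refine mem_normalizer_iff_conjBy.mpr ?_
        rw [hWeq, conjBy_sup, side_norm hcA hx, side_norm hcC hx]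
      · intro x hx
        refine mem_normalizer_iff_conjBy.mpr (conjBy_eq_self_of_mem ?_)
        exact Subgroup.mem_sup_right (Subgroup.mem_sup_right hx)
    exact mem_normalizer_iff_conjBy.mp (hle hr)
  have hsupR : ((A ⊔ conjBy C b⁻¹) ⊔ (conjBy A b⁻¹ ⊔ C)) ⊔ B = A ⊔ B ⊔ C := by
    have hbR : b⁻¹ ∈ A ⊔ B ⊔ C := Subgroup.mem_sup_left (Subgroup.mem_sup_right hg)
    have hAR : A ≤ A ⊔ B ⊔ C := le_trans le_sup_left le_sup_left
    have hBR : B ≤ A ⊔ B ⊔ C := le_trans le_sup_right le_sup_left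
    have hCR : C ≤ A ⊔ B ⊔ C := le_sup_right
    apply le_antisymm
    · refine sup_le (sup_le (sup_le hAR (conjBy_le_of_mem hCR hbR))
        (sup_le (conjBy_le_of_mem hAR hbR) hCR)) hBR
    · refine sup_le (sup_le ?_ le_sup_right) ?_
      · exact le_trans (le_trans le_sup_left le_sup_left) le_sup_left
      · exact le_trans (le_trans le_sup_right le_sup_right) le_sup_left
  refine ⟨hdich, commutator_eq_bot_of_comm hXY, hRW, hsupR, ?_⟩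
  refine nil_main (D := ⁅A, B⁆) (E := ⁅C, B⁆) hWeq hAab hCab hBab
    (fun x hx y hy => comm_of_mem (hS.commutative _ hcA.1) hx hy)
    (fun x hx y hy => comm_of_mem (hS.commutative _ hcC.1) hx hy)
    (CommCase.comm_AC hcA) (CommCase.comm_AC hcC) hac
    (fun d hd β hβ => CommCase.comm_right hcA hd hβ) (fun d hd β hβ => CommCase.comm_right hcC hd hβ)
    ?_ ?_ le_rfl ?_ hWc
  · intro a ha β hβ
    have := comm_mem hβ ha
    rwa [Subgroup.commutator_comm] at this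
  · intro a ha β hβ
    have := comm_mem hβ ha
    rwa [Subgroup.commutator_comm] at this
  · rw [Subgroup.commutator_comm]

end Cfsg.Agent.Lib.RootNil
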