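import Mathlib
import Cfsg.Prelude.Def_RootSubgroups

/-!
A torus element in an image of `SL₂(k)` with central kernel, `k` having more than three elements.
-/

namespace Cfsg.Agent.Lib.RootPSL

open Cfsg

variable {G : Type*} [Group G]

section
variable {k : Type*} [Field k]

open Matrix in
/-- The upper unitriangular matrix. -/
def tup (t : k) : SpecialLinearGroup (Fin 2) k :=
  ⟨!![1, t; 0, 1], by simp [Matrix.det_fin_two]⟩

open Matrix in
/-- The lower unitriangular matrix. -/
def tlo (t : k) : SpecialLinearGroup (Fin 2) k :=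
  ⟨!![1, 0; t, 1], by simp [Matrix.det_fin_two]⟩

open Matrix in
/-- The diagonal matrix. -/
def tdi (t : k) (ht : t ≠ 0) : SpecialLinearGroup (Fin 2) k :=
  ⟨!![t, 0; 0, t⁻¹], by simp [Matrix.det_fin_two, ht]⟩

theorem tup_mem (t : k) : tup t ∈ upperUnipotentSL2 k :=
  Subgroup.subset_closure ⟨by simp [tup], by simp [tup], by simp [tup]⟩

theorem tlo_mem (t : k) : tlo t ∈ lowerUnipotentSL2 k :=
  Subgroup.subset_closure ⟨by simp [tlo], by simp [tlo], by simp [tlo]⟩

theorem tup_mul (s t : k) : tup s * tup t = tup (s + t) := by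
  apply Subtype.ext
  rw [Matrix.SpecialLinearGroup.coe_mul]
  simp [tup, Matrix.mul_fin_two, add_comm]

theorem tdi_conj (t s : k) (ht : t ≠ 0) : tdi t ht * tup s = tup (t * t * s) * tdi t ht := by
  apply Subtype.ext
  rw [Matrix.SpecialLinearGroup.coe_mul, Matrix.SpecialLinearGroup.coe_mul]
  simp only [tup, tdi, Matrix.mul_fin_two]
  ext i j
  fin_cases i <;> fin_cases j <;> simp [ht]
  ring_nf
  field_simp

theorem tup_central {s : k} (h : tup s ∈ Subgroup.center (Matrix.SpecialLinearGroup (Fin 2) k)) : s = 0 := by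
  have h1 := Subgroup.mem_center_iff.mp h (tlo 1)
  have h1' : ((tlo 1 * tup s : Matrix.SpecialLinearGroup (Fin 2) k) : Matrix (Fin 2) (Fin 2) k) =
      ((tup s * tlo 1 : Matrix.SpecialLinearGroup (Fin 2) k) : Matrix (Fin 2) (Fin 2) k) := congrArg _ h1
  rw [Matrix.SpecialLinearGroup.coe_mul, Matrix.SpecialLinearGroup.coe_mul] at h1'
  have h2 := congrFun (congrFun h1' 0) 0
  simp [tup, tlo, Matrix.mul_fin_two] at h2
  exact h2

theorem exists_torus (hk : 3 < ENat.card k) : ∃ t : k, t ≠ 0 ∧ t * t ≠ 1 := by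
  by_contra hcon
  push Not at hcon
  have hsub : (Set.univ : Set k) ⊆ {0, 1, -1} := by
    intro t _
    by_cases ht : t = 0
    · simp [ht]
    · have h1 := hcon t ht
      have h2 : (t - 1) * (t + 1) = 0 := by
        ring_nf
        rw [pow_two, h1]
        ring
      rcases mul_eq_zero.mp h2 with h3 | h3
      · right; left
        exact sub_eq_zero.mp h3
      · right; right
        exact eq_neg_of_add_eq_zero_left h3
  have h2 : Set.encard (Set.univ : Set k) ≤ Set.encard ({0, 1, -1} : Set k) := Set.encard_le_encard hsub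
  have h3 : Set.encard ({0, 1, -1} : Set k) ≤ 3 := by
    calc Set.encard ({0, 1, -1} : Set k) ≤ Set.encard ({1, -1} : Set k) + 1 := Set.encard_insert_le _ _
      _ ≤ (Set.encard ({-1} : Set k) + 1) + 1 := by
        gcongr
        exact Set.encard_insert_le _ _
      _ = 3 := by
        rw [Set.encard_singleton]
        norm_num
  rw [Set.encard_univ] at h2
  exact absurd (lt_of_lt_of_le hk (h2.trans h3)) (lt_irrefl _)

/-- The torus acts nontrivially on the image of the upper unitriangular group. -/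
theorem psl2_torus {A B : Subgroup G} (hP : IsPSL2PairOver k A B) (hk : 3 < ENat.card k) :
    ∃ h ∈ A ⊔ B, ∃ e ∈ A, e ≠ 1 ∧ h * e * h⁻¹ ∈ A ∧ h * e * h⁻¹ ≠ e := by
  obtain ⟨φ, hr, hker, hu, -⟩ := hP
  obtain ⟨t, ht0, ht1⟩ := exists_torus hk
  have hkey : ∀ s : k, φ (tup s) = 1 → s = 0 := fun s hs => tup_central (hker hs)
  have hmem : ∀ s : k, φ (tup s) ∈ A := by
    intro s
    rw [← hu]
    exact ⟨tup s, tup_mem s, rfl⟩
  have hconj : φ (tdi t ht0) * φ (tup 1) * (φ (tdi t ht0))⁻¹ = φ (tup (t * t)) := by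
    have h1 : φ (tdi t ht0) * φ (tup 1) = φ (tup (t * t)) * φ (tdi t ht0) := by
      rw [← map_mul, ← map_mul, tdi_conj, mul_one]
    rw [h1]
    group
  refine ⟨φ (tdi t ht0), ?_, φ (tup 1), hmem 1, ?_, ?_, ?_⟩
  · rw [← hr]
    exact ⟨_, rfl⟩
  · intro e
    exact one_ne_zero (hkey 1 e)
  · rw [hconj]
    exact hmem _
  · rw [hconj]
    intro e
    have h1 : φ (tup (t * t + -1)) = 1 := by
      rw [← tup_mul, map_mul, e, ← map_mul, tup_mul]
      have : tup ((1 : k) + -1) = 1 := by
        apply Subtype.ext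
        simp [tup, Matrix.one_fin_two]
      rw [this, map_one]
    have h2 := hkey _ h1
    apply ht1
    exact eq_of_add_neg_eq_zero h2

end

end Cfsg.Agent.Lib.RootPSL
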