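import Mathlib
import Cfsg.Prelude.Def_RootSubgroups
import Cfsg.Prelude.Def_CaseTheorems
import Cfsg.Agent.Lib.RankOne
import Cfsg.Agent.Lib.RootLaw
import Cfsg.Agent.Lib.RootAbsorb
import Cfsg.Agent.Lib.RootBasic
import Cfsg.Agent.Lib.RootLines
import Cfsg.Agent.Lib.RootConn
import Cfsg.Agent.Lib.RootSpecial

/-!
The quasisimplicity criterion for groups generated by abstract root subgroups.
-/

namespace Cfsg.Agent.Lib.RootQuasi

open Cfsg Cfsg.Agent.Lib.RankOne Cfsg.Agent.Lib.RootLaw Cfsg.Agent.Lib.RootAbsorb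
  Cfsg.Agent.Lib.RootBasic Cfsg.Agent.Lib.RootLines Cfsg.Agent.Lib.RootConn Cfsg.Agent.Lib.RootSpecial
open scoped commutatorElement

variable {G : Type*} [Group G] {S : Set (Subgroup G)} {A B C D E : Subgroup G}

/-- A normal subgroup containing one member of a class is everything. -/
theorem top_of_member (hS : IsRootSubgroupClass S) {N : Subgroup G} [hN : N.Normal] {P : Subgroup G}
    (hP : P ∈ S) (hle : P ≤ N) : N = ⊤ := by
  rw [eq_top_iff, ← hS.1.generates]
  refine iSup₂_le ?_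
  intro X hX x hx
  obtain ⟨g, rfl⟩ := hS.2.2 P hP X hX
  rw [mem_conjBy] at hx
  have h1 := hN.conj_mem _ (hle hx) g
  have h2 : g * (g⁻¹ * x * g) * g⁻¹ = x := by group
  rwa [h2] at h1

/-- Commutators of a noncommuting pair inside a normal subgroup force the normal subgroup to be everything. -/
theorem top_of_noncomm (hS : IsRootSubgroupClass S) (h3 : IsDegenerateRootSet S → ∀ A ∈ S, 3 < ENat.card A)
    (h4 : ∀ A ∈ S, ∀ B ∈ rankOnePartners S A, IsSpecialRankOnePair A B) {N : Subgroup G} [hN : N.Normal]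
    {P P' : Subgroup G} (hP : P ∈ S) (hP' : P' ∈ S) (hnc : ¬ ∀ x ∈ P, ∀ y ∈ P', x * y = y * x)
    (hle : ∀ x ∈ P, ∀ y ∈ P', x * y * x⁻¹ * y⁻¹ ∈ N) : N = ⊤ := by
  rcases hS.1.pair P hP P' hP' with h | h | h
  · exact absurd (fun x hx y hy => comm_of_commutator_eq_bot h hx hy) hnc
  · have hsp := h4 P hP P' ⟨hP', h⟩
    by_cases hdeg : IsDegenerateRootSet S
    · exact top_of_member hS hP (le_of_comm_le hsp (hS.1.commutative P hP) (hS.1.commutative P' hP')
        (h3 hdeg P hP) hle)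
    · have hnd : IsNondegenerateRootSet S := by
        refine ⟨?_, ⟨P, hP, P', hP', h⟩, ?_⟩
        · unfold IsDegenerateRootSet at hdeg
          push Not at hdeg
          obtain ⟨X, hX, Y, hY, hc⟩ := hdeg
          obtain ⟨D, hD, hXD⟩ : ∃ D ∈ S, IsRankOnePair X D := by
            obtain ⟨g, rfl⟩ := hS.2.2 P hP X hX
            exact ⟨conjBy P' g, hS.1.conj_mem _ hP' g, isRankOnePair_conj h g⟩
          refine ⟨X, hX, _, hc.1, ne_commutator hS.1 hX hD hXD hc, ?_⟩
          apply commutator_eq_bot_of_comm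
          intro x hx z hz
          exact (hc.2.1 z hz x (Subgroup.mem_sup_left hx)).symm
        · unfold IsDegenerateRootSet at hdeg
          push Not at hdeg
          exact hdeg
      obtain ⟨E, hE, hc, -⟩ := exists_linePartner hS hnd hP' hP (RankOnePair_symm h)
      obtain ⟨f, hf, hf1⟩ := exists_ne_one_left h
      obtain ⟨e', he'⟩ := exists_matched_right h hf hf1
      have hw : f * e' ∈ N := mul_mem_of_comm hsp (hS.1.commutative P hP) (hS.1.commutative P' hP') hle he'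
      have hEP' : ∀ e ∈ E, e * e' = e' * e := by
        intro e he
        have := comm_of_commutator_eq_bot hE.1.2.2 he'.right_mem he
        exact this.symm
      refine top_of_member hS hc.1 ?_
      rw [← hc.2.2.2 f hf hf1, Subgroup.closure_le]
      rintro _ ⟨e, he, rfl⟩
      have h1 : (f * e') * (e * (f * e')⁻¹ * e⁻¹) ∈ N := N.mul_mem hw (hN.conj_mem _ (N.inv_mem hw) e)
      have h2 : (f * e') * (e * (f * e')⁻¹ * e⁻¹) = f * e * f⁻¹ * e⁻¹ := by
        have h0 := hEP' e he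
        have h0' : e * e'⁻¹ = e'⁻¹ * e := by
          calc e * e'⁻¹ = e'⁻¹ * (e' * e) * e'⁻¹ := by group
            _ = e'⁻¹ * (e * e') * e'⁻¹ := by rw [h0]
            _ = e'⁻¹ * e := by group
        calc (f * e') * (e * (f * e')⁻¹ * e⁻¹) = f * e' * (e * e'⁻¹) * f⁻¹ * e⁻¹ := by group
          _ = f * e' * (e'⁻¹ * e) * f⁻¹ * e⁻¹ := by rw [h0']
          _ = f * e * f⁻¹ * e⁻¹ := by group
      rw [h2] at h1
      have h5 := N.inv_mem h1
      have h6 : (f * e * f⁻¹ * e⁻¹)⁻¹ = e * f * e⁻¹ * f⁻¹ := by group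
      rw [h6] at h5
      exact h5
  · refine top_of_member hS h.1 ?_
    rw [Subgroup.commutator_le]
    intro x hx y hy
    rw [commutatorElement_def]
    exact hle x hx y hy

/-- An element of a normal subgroup that moves a member, commuting case. -/
theorem comm_mem_of_conj_comm {N : Subgroup G} [hN : N.Normal] {P P' : Subgroup G} {n : G} (hn : n ∈ N)
    (h : ∀ x ∈ conjBy P n, ∀ y ∈ P', x * y = y * x) :
    ∀ x ∈ P, ∀ y ∈ P', x * y * x⁻¹ * y⁻¹ ∈ N := by
  intro p hp p' hp'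
  have hq : n * p⁻¹ * n⁻¹ ∈ conjBy P n := conj_mem_conjBy (P.inv_mem hp)
  generalize hqd : n * p⁻¹ * n⁻¹ = q at hq
  have hu : q * p ∈ N := by
    rw [← hqd]
    have h1 := N.mul_mem hn (hN.conj_mem _ (N.inv_mem hn) p⁻¹)
    have h2 : n * (p⁻¹ * n⁻¹ * p⁻¹⁻¹) = n * p⁻¹ * n⁻¹ * p := by group
    rwa [h2] at h1
  have hv : (q * p) * (p' * (q * p)⁻¹ * p'⁻¹) ∈ N := N.mul_mem hu (hN.conj_mem _ (N.inv_mem hu) p')
  have hqp' := h q hq p' hp'
  have hqp'' : q * p'⁻¹ = p'⁻¹ * q := by
    calc q * p'⁻¹ = p'⁻¹ * (p' * q) * p'⁻¹ := by group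
      _ = p'⁻¹ * (q * p') * p'⁻¹ := by rw [hqp']
      _ = p'⁻¹ * q := by group
  have e : (q * p) * (p' * (q * p)⁻¹ * p'⁻¹) = q * (p * p' * p⁻¹ * p'⁻¹) * q⁻¹ := by
    calc (q * p) * (p' * (q * p)⁻¹ * p'⁻¹) = (q * p) * (p' * (p⁻¹ * (q⁻¹ * p'⁻¹))) := by group
      _ = (q * p) * (p' * (p⁻¹ * (p'⁻¹ * q⁻¹))) := by
        have : q⁻¹ * p'⁻¹ = p'⁻¹ * q⁻¹ := by
          calc q⁻¹ * p'⁻¹ = (p' * q)⁻¹ := by group
            _ = (q * p')⁻¹ := by rw [hqp']
            _ = p'⁻¹ * q⁻¹ := by group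
        rw [this]
      _ = q * (p * p' * p⁻¹ * p'⁻¹) * q⁻¹ := by group
  rw [e] at hv
  have h1 := hN.conj_mem _ hv q⁻¹
  have h2 : q⁻¹ * (q * (p * p' * p⁻¹ * p'⁻¹) * q⁻¹) * q⁻¹⁻¹ = p * p' * p⁻¹ * p'⁻¹ := by group
  rwa [h2] at h1

/-- An element of a normal subgroup that moves a member produces a noncommuting pair whose commutators
lie in the normal subgroup. -/
theorem exists_noncomm_of_moves (hS : IsRootSubgroupSet S)
    (h2' : ∀ A ∈ S, ∀ C ∈ S, A ≠ C → centralizingMembers S A ≠ centralizingMembers S C)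
    {N : Subgroup G} [hN : N.Normal] {X : Subgroup G} {n : G} (hX : X ∈ S) (hn : n ∈ N)
    (hne : conjBy X n ≠ X) :
    ∃ P ∈ S, ∃ P' ∈ S, (¬ ∀ x ∈ P, ∀ y ∈ P', x * y = y * x) ∧ ∀ x ∈ P, ∀ y ∈ P', x * y * x⁻¹ * y⁻¹ ∈ N := by
  have hES : conjBy X n ∈ S := hS.conj_mem X hX n
  by_cases hc : ∀ x ∈ X, ∀ y ∈ conjBy X n, x * y = y * x
  · have hd := h2' X hX _ hES hne.symm
    -- a member commuting with exactly one of the two
    have : ∃ F ∈ S, (F ≤ Subgroup.centralizer (X : Set G) ∧ ¬ F ≤ Subgroup.centralizer (conjBy X n : Set G)) ∨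
        (F ≤ Subgroup.centralizer (conjBy X n : Set G) ∧ ¬ F ≤ Subgroup.centralizer (X : Set G)) := by
      by_contra hcon
      push Not at hcon
      apply hd
      ext F
      constructor
      · rintro ⟨hF, h1⟩
        refine ⟨hF, ?_⟩
        by_contra h2
        exact h2 ((hcon F hF).1 h1)
      · rintro ⟨hF, h1⟩
        refine ⟨hF, ?_⟩
        exact (hcon F hF).2 h1
    obtain ⟨F, hF, ⟨h1, h2⟩ | ⟨h1, h2⟩⟩ := this
    · -- `F` commutes with `X`, not with the conjugate
      refine ⟨F, hF, conjBy X n, hES, ?_, ?_⟩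
      · intro hcomm
        apply h2
        intro x hx
        rw [Subgroup.mem_centralizer_iff]
        intro y hy
        exact (hcomm x hx y hy).symm
      · apply comm_mem_of_conj_comm hn
        have h3 : ∀ x ∈ F, ∀ y ∈ X, x * y = y * x := by
          intro x hx y hy
          exact (Subgroup.mem_centralizer_iff.mp (h1 hx) y hy).symm
        have h4 : ∀ x ∈ conjBy F n, ∀ y ∈ conjBy X n, x * y = y * x := by
          intro x hx y hy
          rw [mem_conjBy] at hx hy
          have h5 := h3 _ hx _ hy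
          have h6 : n⁻¹ * (x * y) * n = n⁻¹ * (y * x) * n := by
            calc n⁻¹ * (x * y) * n = (n⁻¹ * x * n) * (n⁻¹ * y * n) := by group
              _ = (n⁻¹ * y * n) * (n⁻¹ * x * n) := h5
              _ = n⁻¹ * (y * x) * n := by group
          exact mul_left_cancel (mul_right_cancel h6)
        exact h4
    · -- `F` commutes with the conjugate, not with `X`
      refine ⟨X, hX, F, hF, ?_, ?_⟩
      · intro hcomm
        apply h2
        intro x hx
        rw [Subgroup.mem_centralizer_iff]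
        intro y hy
        exact hcomm y hy x hx
      · apply comm_mem_of_conj_comm hn
        intro x hx y hy
        exact Subgroup.mem_centralizer_iff.mp (h1 hy) x hx
  · refine ⟨conjBy X n, hES, X, hX, ?_, ?_⟩
    · intro hcomm
      apply hc
      intro x hx y hy
      exact (hcomm y hy x hx).symm
    · intro e he a' ha'
      rw [mem_conjBy] at he
      generalize hd : n⁻¹ * e * n = a at he
      have hed : e = n * a * n⁻¹ := by rw [← hd]; group
      have hu : e * a⁻¹ ∈ N := by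
        rw [hed]
        have h1 := N.mul_mem hn (hN.conj_mem _ (N.inv_mem hn) a)
        have h2 : n * (a * n⁻¹ * a⁻¹) = n * a * n⁻¹ * a⁻¹ := by group
        rwa [h2] at h1
      have hv : (e * a⁻¹) * (a' * (e * a⁻¹)⁻¹ * a'⁻¹) ∈ N := N.mul_mem hu (hN.conj_mem _ (N.inv_mem hu) a')
      have hcomm := comm_of_mem (hS.commutative X hX) he ha'
      have e1 : (e * a⁻¹) * (a' * (e * a⁻¹)⁻¹ * a'⁻¹) = e * a' * e⁻¹ * a'⁻¹ := by
        have h3 : a⁻¹ * a' = a' * a⁻¹ := by
          calc a⁻¹ * a' = a⁻¹ * (a' * a) * a⁻¹ := by group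
            _ = a⁻¹ * (a * a') * a⁻¹ := by rw [hcomm]
            _ = a' * a⁻¹ := by group
        calc (e * a⁻¹) * (a' * (e * a⁻¹)⁻¹ * a'⁻¹) = e * (a⁻¹ * a') * a * e⁻¹ * a'⁻¹ := by group
          _ = e * (a' * a⁻¹) * a * e⁻¹ * a'⁻¹ := by rw [h3]
          _ = e * a' * e⁻¹ * a'⁻¹ := by group
      rwa [e1] at hv

/-- A normal subgroup fixing all members is central. -/
theorem central_of_fix (hS : IsRootSubgroupClass S) (hpart : ∀ A ∈ S, ∃ B ∈ S, IsRankOnePair A B)
    {N : Subgroup G} (hfix : ∀ X ∈ S, ∀ n ∈ N, conjBy X n = X) : N ≤ Subgroup.center G := by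
  intro n hn
  rw [Subgroup.mem_center_iff]
  have hle : (⊤ : Subgroup G) ≤ Subgroup.centralizer ({n} : Set G) := by
    rw [← hS.1.generates]
    refine iSup₂_le ?_
    intro X hX x hx
    obtain ⟨B, hB, hXB⟩ := hpart X hX
    rw [Subgroup.mem_centralizer_iff]
    intro y hy
    rw [Set.mem_singleton_iff] at hy
    rw [hy]
    refine commute_of_fix_all hXB ?_ x (Subgroup.mem_sup_left hx)
    rintro W ⟨g, -, rfl⟩
    exact hfix _ (hS.1.conj_mem X hX g) n hn
  intro g
  have := Subgroup.mem_centralizer_iff.mp (hle (Subgroup.mem_top g)) n rfl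
  exact this.symm

/-- A perfect group whose normal subgroups are central or everything is quasisimple. -/
theorem quasisimple_of_normal (hp : commutator G = ⊤) (hnt : Subgroup.center G ≠ ⊤)
    (hN : ∀ N : Subgroup G, N.Normal → N ≤ Subgroup.center G ∨ N = ⊤) : IsQuasisimple G := by
  refine ⟨⟨hp⟩, ?_⟩
  have : Nontrivial (G ⧸ Subgroup.center G) := by
    rw [QuotientGroup.nontrivial_iff]
    exact hnt
  refine ⟨?_⟩
  intro M hM
  have hc := hN (M.comap (QuotientGroup.mk' (Subgroup.center G))) (Subgroup.Normal.comap hM _)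
  rcases hc with hc | hc
  · left
    rw [eq_bot_iff]
    intro x hx
    obtain ⟨g, rfl⟩ := QuotientGroup.mk'_surjective _ x
    have : g ∈ Subgroup.center G := hc (Subgroup.mem_comap.mpr hx)
    rw [Subgroup.mem_bot]
    exact (QuotientGroup.eq_one_iff g).mpr this
  · right
    rw [eq_top_iff]
    intro x _
    obtain ⟨g, rfl⟩ := QuotientGroup.mk'_surjective _ x
    have : g ∈ M.comap (QuotientGroup.mk' (Subgroup.center G)) := by
      rw [hc]
      exact Subgroup.mem_top g
    exact Subgroup.mem_comap.mp this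

/-- The main result. -/
theorem main (hS : IsRootSubgroupSet S) (h2 : ∃ A ∈ S, ∃ B ∈ S, A ≠ B)
    (h1 : IsConnectedFamily (FAdj S) S)
    (h2' : ∀ A ∈ S, ∀ C ∈ S, A ≠ C → centralizingMembers S A ≠ centralizingMembers S C)
    (h3 : IsDegenerateRootSet S → ∀ A ∈ S, 3 < ENat.card A)
    (h4 : ∀ A ∈ S, ∀ B ∈ rankOnePartners S A, IsSpecialRankOnePair A B) :
    commutator G = ⊤ ∧ IsQuasisimple G := by
  obtain ⟨hcl, A₀, hA₀, hiso⟩ := (connected_iff hS h2).mp h1
  have hScl : IsRootSubgroupClass S := ⟨hS, hcl⟩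
  obtain ⟨B₀, hB₀, hAB₀⟩ := exists_partner hiso hA₀
  have hpart : ∀ A ∈ S, ∃ B ∈ S, IsRankOnePair A B := by
    intro A hA
    obtain ⟨g, rfl⟩ := hcl.2 A₀ hA₀ A hA
    exact ⟨conjBy B₀ g, hS.conj_mem _ hB₀ g, isRankOnePair_conj hAB₀ g⟩
  have hnc : ¬ ∀ x ∈ A₀, ∀ y ∈ B₀, x * y = y * x := rankOne_not_comm hAB₀
  have hp : commutator G = ⊤ := by
    have : (commutator G).Normal := inferInstance
    refine top_of_noncomm hScl h3 h4 hA₀ hB₀ hnc ?_
    intro x _ y _
    rw [← commutatorElement_def]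
    exact Subgroup.commutator_mem_commutator (Subgroup.mem_top x) (Subgroup.mem_top y)
  refine ⟨hp, quasisimple_of_normal hp ?_ ?_⟩
  · intro hc
    apply hnc
    intro x _ y _
    have := Subgroup.mem_center_iff.mp (hc ▸ Subgroup.mem_top x) y
    exact this.symm
  · intro N hN
    by_cases hfix : ∀ X ∈ S, ∀ n ∈ N, conjBy X n = X
    · exact Or.inl (central_of_fix hScl hpart hfix)
    · push Not at hfix
      obtain ⟨X, hX, n, hn, hne⟩ := hfix
      obtain ⟨P, hP, P', hP', hnc', hle⟩ := exists_noncomm_of_moves hS h2' hX hn hne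
      exact Or.inr (top_of_noncomm hScl h3 h4 hP hP' hnc' hle)

end Cfsg.Agent.Lib.RootQuasi
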