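import Mathlib

/-!
Presentations of `SL₂(2)` and `SL₂(3)` by the unitriangular element and the Weyl element:
a normal form and the resulting homomorphism.
-/

namespace Cfsg.Agent.Lib.RootSmall

open Matrix

/-- `SL₂(3)`. -/
abbrev S3 := Matrix.SpecialLinearGroup (Fin 2) (ZMod 3)
/-- `SL₂(2)`. -/
abbrev S2 := Matrix.SpecialLinearGroup (Fin 2) (ZMod 2)

/-- The upper unitriangular element of `SL₂(3)`. -/
def E3 : S3 := ⟨!![1, 1; 0, 1], by decide⟩
/-- The Weyl element of `SL₂(3)`. -/
def W3 : S3 := ⟨!![0, 1; -1, 0], by decide⟩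
/-- The upper unitriangular element of `SL₂(2)`. -/
def E2 : S2 := ⟨!![1, 1; 0, 1], by decide⟩
/-- The Weyl element of `SL₂(2)`. -/
def W2 : S2 := ⟨!![0, 1; 1, 0], by decide⟩

section Three

variable {Y : Type*} [Group Y]

/-- The relations used for the normal form in `SL₂(3)`. -/
structure Rel3 (a w : Y) : Prop where
  a3 : a * a * a = 1
  zz : (w * w) * (w * w) = 1
  za : (w * w) * a = a * (w * w)
  r1 : w * a * w = (w * w) * (a * a) * w * (a * a)
  r2 : w * (a * a) * w = a * w * a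

/-- Index set of the normal form. -/
abbrev Nf3 := (Fin 3 × Fin 2) ⊕ (Fin 3 × Fin 2 × Fin 3)

/-- The normal form. -/
def nf3 (a w : Y) : Nf3 → Y
  | Sum.inl (u, e) => a ^ u.val * (w * w) ^ e.val
  | Sum.inr (u, e, v) => a ^ u.val * (w * w) ^ e.val * w * a ^ v.val

/-- Right multiplication by `a` on indices. -/
def sig3 : Nf3 → Nf3
  | Sum.inl (u, e) => Sum.inl (u + 1, e)
  | Sum.inr (u, e, v) => Sum.inr (u, e, v + 1)

/-- Right multiplication by `w` on indices. -/
def tau3 : Nf3 → Nf3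
  | Sum.inl (u, e) => Sum.inr (u, e, 0)
  | Sum.inr (u, e, v) =>
    if v = 0 then Sum.inl (u, e + 1)
    else if v = 1 then Sum.inr (u - 1, e + 1, 2)
    else Sum.inr (u + 1, e, 1)

theorem pow_a3 {a w : Y} (h : Rel3 a w) (u : Fin 3) : a ^ (u + 1).val = a ^ u.val * a := by
  match u with
  | 0 =>
    show a ^ 1 = a ^ 0 * a
    simp
  | 1 =>
    show a ^ 2 = a ^ 1 * a
    rw [pow_two, pow_one]
  | 2 =>
    show a ^ 0 = a ^ 2 * a
    rw [pow_zero, pow_two]
    exact h.a3.symm

theorem pow_a3' {a w : Y} (h : Rel3 a w) (u : Fin 3) : a ^ (u - 1).val = a ^ u.val * (a * a) := by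
  match u with
  | 0 =>
    show a ^ 2 = a ^ 0 * (a * a)
    rw [pow_zero, one_mul, pow_two]
  | 1 =>
    show a ^ 0 = a ^ 1 * (a * a)
    rw [pow_zero, pow_one, ← mul_assoc]
    exact h.a3.symm
  | 2 =>
    show a ^ 1 = a ^ 2 * (a * a)
    rw [pow_one, pow_two]
    calc a = (a * a * a) * a := by rw [h.a3, one_mul]
      _ = a * a * (a * a) := by group

theorem pow_z3 {a w : Y} (h : Rel3 a w) (e : Fin 2) : (w * w) ^ (e + 1).val = (w * w) ^ e.val * (w * w) := by
  match e with
  | 0 =>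
    show (w * w) ^ 1 = (w * w) ^ 0 * (w * w)
    simp
  | 1 =>
    show (w * w) ^ 0 = (w * w) ^ 1 * (w * w)
    rw [pow_zero, pow_one]
    exact h.zz.symm

theorem comm_z3 {a w : Y} (h : Rel3 a w) (e : ℕ) : (w * w) ^ e * a = a * (w * w) ^ e :=
  (Commute.pow_left (show Commute (w * w) a from h.za) e)

theorem comm_z3' (w : Y) (e : ℕ) : (w * w) ^ e * w = w * (w * w) ^ e :=
  (Commute.pow_left (show Commute (w * w) w from by
    show (w * w) * w = w * (w * w)
    group) e)

theorem nf3_sig {a w : Y} (h : Rel3 a w) (i : Nf3) : nf3 a w (sig3 i) = nf3 a w i * a := by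
  rcases i with ⟨u, e⟩ | ⟨u, e, v⟩
  · show a ^ (u + 1).val * (w * w) ^ e.val = a ^ u.val * (w * w) ^ e.val * a
    rw [pow_a3 h, mul_assoc, mul_assoc, comm_z3 h]
  · show a ^ u.val * (w * w) ^ e.val * w * a ^ (v + 1).val = a ^ u.val * (w * w) ^ e.val * w * a ^ v.val * a
    rw [pow_a3 h, mul_assoc (a ^ u.val * (w * w) ^ e.val * w)]

theorem nf3_tau {a w : Y} (h : Rel3 a w) (i : Nf3) : nf3 a w (tau3 i) = nf3 a w i * w := by
  rcases i with ⟨u, e⟩ | ⟨u, e, v⟩
  · show a ^ u.val * (w * w) ^ e.val * w * a ^ (0 : Fin 3).val = a ^ u.val * (w * w) ^ e.val * w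
    simp
  · match v with
    | 0 =>
      show a ^ u.val * (w * w) ^ (e + 1).val = a ^ u.val * (w * w) ^ e.val * w * a ^ 0 * w
      rw [pow_z3 h, pow_zero, mul_one]
      group
    | 1 =>
      show a ^ (u - 1).val * (w * w) ^ (e + 1).val * w * a ^ 2 = a ^ u.val * (w * w) ^ e.val * w * a ^ 1 * w
      rw [pow_a3' h, pow_z3 h, pow_one, pow_two, mul_assoc (a ^ u.val * (w * w) ^ e.val) w a,
        mul_assoc (a ^ u.val * (w * w) ^ e.val) (w * a) w, h.r1]
      have c1 : Commute ((w * w) ^ e.val) a := Commute.pow_left (show Commute (w * w) a from h.za) e.val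
      have c2 : Commute (w * w) a := h.za
      have hc : (a * a) * (w * w) ^ e.val = (w * w) ^ e.val * (a * a) := ((c1.mul_right c1).eq).symm
      have hc2 : (a * a) * (w * w) = (w * w) * (a * a) := ((c2.mul_right c2).eq).symm
      calc a ^ u.val * (a * a) * ((w * w) ^ e.val * (w * w)) * w * (a * a)
          = a ^ u.val * ((a * a) * (w * w) ^ e.val) * (w * w) * w * (a * a) := by group
        _ = a ^ u.val * ((w * w) ^ e.val * (a * a)) * (w * w) * w * (a * a) := by rw [hc]
        _ = a ^ u.val * (w * w) ^ e.val * ((a * a) * (w * w)) * w * (a * a) := by group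
        _ = a ^ u.val * (w * w) ^ e.val * ((w * w) * (a * a)) * w * (a * a) := by rw [hc2]
        _ = a ^ u.val * (w * w) ^ e.val * ((w * w) * (a * a) * w * (a * a)) := by group
    | 2 =>
      show a ^ (u + 1).val * (w * w) ^ e.val * w * a ^ 1 = a ^ u.val * (w * w) ^ e.val * w * a ^ 2 * w
      rw [pow_a3 h, pow_one, pow_two, mul_assoc (a ^ u.val * (w * w) ^ e.val) w (a * a),
        mul_assoc (a ^ u.val * (w * w) ^ e.val) (w * (a * a)) w, h.r2]
      calc a ^ u.val * a * (w * w) ^ e.val * w * a = a ^ u.val * (a * (w * w) ^ e.val) * w * a := by group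
        _ = a ^ u.val * ((w * w) ^ e.val * a) * w * a := by rw [comm_z3 h]
        _ = a ^ u.val * (w * w) ^ e.val * (a * w * a) := by group

theorem rel3_S3 : Rel3 E3 W3 := ⟨by decide, by decide, by decide, by decide, by decide⟩

theorem nf3_bij : Function.Bijective (nf3 E3 W3) := by decide

/-- The index of an element of `SL₂(3)`. -/
noncomputable def idx3 : S3 ≃ Nf3 := (Equiv.ofBijective _ nf3_bij).symm

theorem nf3_idx3 (g : S3) : nf3 E3 W3 (idx3 g) = g := (Equiv.ofBijective _ nf3_bij).apply_symm_apply g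

theorem idx3_nf3 (i : Nf3) : idx3 (nf3 E3 W3 i) = i := (Equiv.ofBijective _ nf3_bij).symm_apply_apply i

theorem closure_S3 : Subgroup.closure ({E3, W3} : Set S3) = ⊤ := by
  rw [eq_top_iff]
  intro g _
  rw [← nf3_idx3 g]
  have hE : E3 ∈ Subgroup.closure ({E3, W3} : Set S3) := Subgroup.subset_closure (Or.inl rfl)
  have hW : W3 ∈ Subgroup.closure ({E3, W3} : Set S3) := Subgroup.subset_closure (Or.inr rfl)
  generalize idx3 g = i
  rcases i with ⟨u, e⟩ | ⟨u, e, v⟩
  · exact mul_mem (pow_mem hE _) (pow_mem (mul_mem hW hW) _)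
  · exact mul_mem (mul_mem (mul_mem (pow_mem hE _) (pow_mem (mul_mem hW hW) _)) hW) (pow_mem hE _)

/-- The homomorphism from `SL₂(3)`. -/
theorem exists_hom3 {a w : Y} (h : Rel3 a w) :
    ∃ φ : S3 →* Y, φ E3 = a ∧ φ W3 = w ∧ ∀ i, φ (nf3 E3 W3 i) = nf3 a w i := by
  let f : S3 → Y := fun g => nf3 a w (idx3 g)
  have hf1 : f 1 = 1 := by
    have : (1 : S3) = nf3 E3 W3 (Sum.inl (0, 0)) := by decide
    show nf3 a w (idx3 1) = 1
    rw [this, idx3_nf3]
    show a ^ 0 * (w * w) ^ 0 = 1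
    simp
  have hfE : f E3 = a := by
    have : E3 = nf3 E3 W3 (Sum.inl (1, 0)) := by decide
    show nf3 a w (idx3 E3) = a
    rw [this, idx3_nf3]
    show a ^ 1 * (w * w) ^ 0 = a
    simp
  have hfW : f W3 = w := by
    have : W3 = nf3 E3 W3 (Sum.inr (0, 0, 0)) := by decide
    show nf3 a w (idx3 W3) = w
    rw [this, idx3_nf3]
    show a ^ 0 * (w * w) ^ 0 * w * a ^ 0 = w
    simp
  have hmulE : ∀ g, f (g * E3) = f g * a := by
    intro g
    have h1 : g * E3 = nf3 E3 W3 (sig3 (idx3 g)) := by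
      rw [nf3_sig rel3_S3, nf3_idx3]
    show nf3 a w (idx3 (g * E3)) = nf3 a w (idx3 g) * a
    rw [h1, idx3_nf3, nf3_sig h]
  have hmulW : ∀ g, f (g * W3) = f g * w := by
    intro g
    have h1 : g * W3 = nf3 E3 W3 (tau3 (idx3 g)) := by
      rw [nf3_tau rel3_S3, nf3_idx3]
    show nf3 a w (idx3 (g * W3)) = nf3 a w (idx3 g) * w
    rw [h1, idx3_nf3, nf3_tau h]
  have key : ∀ k, ∀ g, f (g * k) = f g * f k := by
    intro k
    have hk : k ∈ Subgroup.closure ({E3, W3} : Set S3) := by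
      rw [closure_S3]
      exact Subgroup.mem_top k
    induction hk using Subgroup.closure_induction with
    | mem x hx =>
      rcases hx with rfl | rfl
      · intro g
        rw [hmulE, hfE]
      · intro g
        rw [hmulW, hfW]
    | one =>
      intro g
      rw [mul_one, hf1, mul_one]
    | mul x y _ _ hx hy =>
      intro g
      rw [← mul_assoc, hy, hx, hy, mul_assoc]
    | inv x _ hx =>
      intro g
      have h1 := hx (g * x⁻¹)
      have h2 := hx x⁻¹
      rw [inv_mul_cancel, hf1] at h2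
      rw [inv_mul_cancel_right] at h1
      have h3 : f x⁻¹ = (f x)⁻¹ := eq_inv_of_mul_eq_one_left h2.symm
      rw [h3, h1]
      group
  refine ⟨MonoidHom.mk' f (fun x y => key y x), hfE, hfW, ?_⟩
  intro i
  show nf3 a w (idx3 (nf3 E3 W3 i)) = nf3 a w i
  rw [idx3_nf3]

theorem mem_center_S3 {g : S3} : g ∈ Subgroup.center S3 ↔ g = 1 ∨ g = W3 * W3 := by
  have key : ∀ g : S3, (∀ h : S3, h * g = g * h) ↔ (g = 1 ∨ g = W3 * W3) := by decide
  rw [Subgroup.mem_center_iff]
  exact key g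

end Three

section Two

variable {Y : Type*} [Group Y]

/-- The relations used for the normal form in `SL₂(2)`. -/
structure Rel2 (a w : Y) : Prop where
  a2 : a * a = 1
  w2 : w * w = 1
  r1 : w * a * w = a * w * a

/-- Index set of the normal form. -/
abbrev Nf2 := Fin 2 ⊕ (Fin 2 × Fin 2)

/-- The normal form. -/
def nf2 (a w : Y) : Nf2 → Y
  | Sum.inl u => a ^ u.val
  | Sum.inr (u, v) => a ^ u.val * w * a ^ v.val

/-- Right multiplication by `a` on indices. -/
def sig2 : Nf2 → Nf2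
  | Sum.inl u => Sum.inl (u + 1)
  | Sum.inr (u, v) => Sum.inr (u, v + 1)

/-- Right multiplication by `w` on indices. -/
def tau2 : Nf2 → Nf2
  | Sum.inl u => Sum.inr (u, 0)
  | Sum.inr (u, v) => if v = 0 then Sum.inl u else Sum.inr (u + 1, 1)

theorem pow_a2 {a w : Y} (h : Rel2 a w) (u : Fin 2) : a ^ (u + 1).val = a ^ u.val * a := by
  match u with
  | 0 =>
    show a ^ 1 = a ^ 0 * a
    simp
  | 1 =>
    show a ^ 0 = a ^ 1 * a
    rw [pow_zero, pow_one]
    exact h.a2.symm

theorem nf2_sig {a w : Y} (h : Rel2 a w) (i : Nf2) : nf2 a w (sig2 i) = nf2 a w i * a := by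
  rcases i with u | ⟨u, v⟩
  · exact pow_a2 h u
  · show a ^ u.val * w * a ^ (v + 1).val = a ^ u.val * w * a ^ v.val * a
    rw [pow_a2 h, mul_assoc (a ^ u.val * w)]

theorem nf2_tau {a w : Y} (h : Rel2 a w) (i : Nf2) : nf2 a w (tau2 i) = nf2 a w i * w := by
  rcases i with u | ⟨u, v⟩
  · show a ^ u.val * w * a ^ (0 : Fin 2).val = a ^ u.val * w
    simp
  · match v with
    | 0 =>
      show a ^ u.val = a ^ u.val * w * a ^ 0 * w
      rw [pow_zero, mul_one, mul_assoc, h.w2, mul_one]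
    | 1 =>
      show a ^ (u + 1).val * w * a ^ 1 = a ^ u.val * w * a ^ 1 * w
      rw [pow_a2 h, pow_one, mul_assoc (a ^ u.val) w a, mul_assoc (a ^ u.val) (w * a) w, h.r1]
      group

theorem rel2_S2 : Rel2 E2 W2 := ⟨by decide, by decide, by decide⟩

theorem nf2_bij : Function.Bijective (nf2 E2 W2) := by decide

/-- The index of an element of `SL₂(2)`. -/
noncomputable def idx2 : S2 ≃ Nf2 := (Equiv.ofBijective _ nf2_bij).symm

theorem nf2_idx2 (g : S2) : nf2 E2 W2 (idx2 g) = g := (Equiv.ofBijective _ nf2_bij).apply_symm_apply g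

theorem idx2_nf2 (i : Nf2) : idx2 (nf2 E2 W2 i) = i := (Equiv.ofBijective _ nf2_bij).symm_apply_apply i

theorem closure_S2 : Subgroup.closure ({E2, W2} : Set S2) = ⊤ := by
  rw [eq_top_iff]
  intro g _
  rw [← nf2_idx2 g]
  have hE : E2 ∈ Subgroup.closure ({E2, W2} : Set S2) := Subgroup.subset_closure (Or.inl rfl)
  have hW : W2 ∈ Subgroup.closure ({E2, W2} : Set S2) := Subgroup.subset_closure (Or.inr rfl)
  generalize idx2 g = i
  rcases i with u | ⟨u, v⟩
  · exact pow_mem hE _
  · exact mul_mem (mul_mem (pow_mem hE _) hW) (pow_mem hE _)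

/-- The homomorphism from `SL₂(2)`. -/
theorem exists_hom2 {a w : Y} (h : Rel2 a w) :
    ∃ φ : S2 →* Y, φ E2 = a ∧ φ W2 = w ∧ ∀ i, φ (nf2 E2 W2 i) = nf2 a w i := by
  let f : S2 → Y := fun g => nf2 a w (idx2 g)
  have hf1 : f 1 = 1 := by
    have : (1 : S2) = nf2 E2 W2 (Sum.inl 0) := by decide
    show nf2 a w (idx2 1) = 1
    rw [this, idx2_nf2]
    show a ^ 0 = 1
    simp
  have hfE : f E2 = a := by
    have : E2 = nf2 E2 W2 (Sum.inl 1) := by decide
    show nf2 a w (idx2 E2) = a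
    rw [this, idx2_nf2]
    show a ^ 1 = a
    simp
  have hfW : f W2 = w := by
    have : W2 = nf2 E2 W2 (Sum.inr (0, 0)) := by decide
    show nf2 a w (idx2 W2) = w
    rw [this, idx2_nf2]
    show a ^ 0 * w * a ^ 0 = w
    simp
  have hmulE : ∀ g, f (g * E2) = f g * a := by
    intro g
    have h1 : g * E2 = nf2 E2 W2 (sig2 (idx2 g)) := by
      rw [nf2_sig rel2_S2, nf2_idx2]
    show nf2 a w (idx2 (g * E2)) = nf2 a w (idx2 g) * a
    rw [h1, idx2_nf2, nf2_sig h]
  have hmulW : ∀ g, f (g * W2) = f g * w := by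
    intro g
    have h1 : g * W2 = nf2 E2 W2 (tau2 (idx2 g)) := by
      rw [nf2_tau rel2_S2, nf2_idx2]
    show nf2 a w (idx2 (g * W2)) = nf2 a w (idx2 g) * w
    rw [h1, idx2_nf2, nf2_tau h]
  have key : ∀ k, ∀ g, f (g * k) = f g * f k := by
    intro k
    have hk : k ∈ Subgroup.closure ({E2, W2} : Set S2) := by
      rw [closure_S2]
      exact Subgroup.mem_top k
    induction hk using Subgroup.closure_induction with
    | mem x hx =>
      rcases hx with rfl | rfl
      · intro g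
        rw [hmulE, hfE]
      · intro g
        rw [hmulW, hfW]
    | one =>
      intro g
      rw [mul_one, hf1, mul_one]
    | mul x y _ _ hx hy =>
      intro g
      rw [← mul_assoc, hy, hx, hy, mul_assoc]
    | inv x _ hx =>
      intro g
      have h1 := hx (g * x⁻¹)
      have h2 := hx x⁻¹
      rw [inv_mul_cancel, hf1] at h2
      rw [inv_mul_cancel_right] at h1
      have h3 : f x⁻¹ = (f x)⁻¹ := eq_inv_of_mul_eq_one_left h2.symm
      rw [h3, h1]
      group
  refine ⟨MonoidHom.mk' f (fun x y => key y x), hfE, hfW, ?_⟩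
  intro i
  show nf2 a w (idx2 (nf2 E2 W2 i)) = nf2 a w i
  rw [idx2_nf2]

end Two

section Braid

variable {Y : Type*} [Group Y]

theorem rel3_of_braid {a b : Y} (ha : a * a * a = 1) (hab : a * b * a = b * a * b) : Rel3 a (a * b * a) := by
  generalize hw : a * b * a = w
  have h1 : a * w = w * b := by
    rw [← hw]
    calc a * (a * b * a) = a * (b * a * b) := by rw [hab]
      _ = a * b * a * b := by group
  have h2 : w * a = b * w := by
    rw [← hw]
    calc a * b * a * a = (b * a * b) * a := by rw [hab]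
      _ = b * (a * b * a) := by group
  have hza : (w * w) * a = a * (w * w) := by
    calc (w * w) * a = w * (w * a) := by group
      _ = w * (b * w) := by rw [h2]
      _ = (w * b) * w := by group
      _ = (a * w) * w := by rw [h1]
      _ = a * (w * w) := by group
  have hzb : (w * w) * b = b * (w * w) := by
    calc (w * w) * b = w * (w * b) := by group
      _ = w * (a * w) := by rw [h1]
      _ = (w * a) * w := by group
      _ = (b * w) * w := by rw [h2]
      _ = b * (w * w) := by group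
  have hbw : a⁻¹ * w * a⁻¹ = b := by
    rw [← hw]
    group
  have ha2 : a * a = a⁻¹ := eq_inv_of_mul_eq_one_left ha
  have hb3 : b * b * b = 1 := by
    have hb : b = w⁻¹ * a * w := by
      calc b = w⁻¹ * (w * b) := by group
        _ = w⁻¹ * (a * w) := by rw [h1]
        _ = w⁻¹ * a * w := by group
    rw [hb]
    calc w⁻¹ * a * w * (w⁻¹ * a * w) * (w⁻¹ * a * w) = w⁻¹ * (a * a * a) * w := by group
      _ = 1 := by rw [ha]; group
  have hb2 : b * b = b⁻¹ := eq_inv_of_mul_eq_one_left hb3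
  have hbi : b⁻¹ = a * w⁻¹ * a := by
    rw [← hbw]
    group
  have hzi : (w * w)⁻¹ * a = a * (w * w)⁻¹ := by
    calc (w * w)⁻¹ * a = (w * w)⁻¹ * (a * (w * w)) * (w * w)⁻¹ := by group
      _ = (w * w)⁻¹ * ((w * w) * a) * (w * w)⁻¹ := by rw [hza]
      _ = a * (w * w)⁻¹ := by group
  have s1 : b⁻¹ * a * b⁻¹ * a = w * w := by
    rw [← hb2]
    calc (b * b) * a * (b * b) * a = (b * a * b) * (a * b) * a := by
          calc (b * b) * a * (b * b) * a = b * (b * a * b) * b * a := by group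
            _ = b * (a * b * a) * b * a := by rw [hab]
            _ = (b * a * b) * (a * b) * a := by group
      _ = (a * b * a) * (a * b * a) := by rw [← hab]; group
      _ = w * w := by rw [hw]
  have s2 : a * b⁻¹ * a * b⁻¹ = w * w := by
    calc a * b⁻¹ * a * b⁻¹ = a * (b⁻¹ * a * b⁻¹ * a) * a⁻¹ := by group
      _ = a * (w * w) * a⁻¹ := by rw [s1]
      _ = (w * w) * a * a⁻¹ := by rw [hza]
      _ = w * w := by group
  have s3 : a * b⁻¹ * a * b⁻¹ = (w * w)⁻¹ := by
    rw [hbi]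
    calc a * (a * w⁻¹ * a) * a * (a * w⁻¹ * a) = (a * a) * w⁻¹ * (a * a * a) * w⁻¹ * a := by group
      _ = a⁻¹ * (w * w)⁻¹ * a := by rw [ha, ha2]; group
      _ = a⁻¹ * ((w * w)⁻¹ * a) := by group
      _ = a⁻¹ * (a * (w * w)⁻¹) := by rw [hzi]
      _ = (w * w)⁻¹ := by group
  have hzz : (w * w) * (w * w) = 1 := by
    have h3 : w * w = (w * w)⁻¹ := s2.symm.trans s3
    calc (w * w) * (w * w) = (w * w) * (w * w)⁻¹ := by nth_rewrite 2 [h3]; rfl
      _ = 1 := by group
  refine ⟨ha, hzz, hza, ?_, ?_⟩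
  · rw [ha2, h2]
    calc b * w * w = b * (w * w) := by group
      _ = (w * w) * b := hzb.symm
      _ = (w * w) * (a⁻¹ * w * a⁻¹) := by rw [hbw]
      _ = _ := by group
  · rw [ha2]
    have h5 : a⁻¹ * w = w * b⁻¹ := by
      calc a⁻¹ * w = a⁻¹ * (w * b) * b⁻¹ := by group
        _ = a⁻¹ * (a * w) * b⁻¹ := by rw [h1]
        _ = w * b⁻¹ := by group
    calc w * a⁻¹ * w = w * (a⁻¹ * w) := by group
      _ = w * (w * b⁻¹) := by rw [h5]
      _ = (w * w) * (a * w⁻¹ * a) := by rw [hbi]; group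
      _ = ((w * w) * a) * w⁻¹ * a := by group
      _ = (a * (w * w)) * w⁻¹ * a := by rw [hza]
      _ = a * w * a := by group

theorem rel2_of_braid {a b : Y} (ha : a * a = 1) (hb : b * b = 1) (hab : a * b * a = b * a * b) :
    Rel2 a (a * b * a) := by
  refine ⟨ha, ?_, ?_⟩
  · calc a * b * a * (a * b * a) = a * b * (a * a) * b * a := by group
      _ = a * (b * b) * a := by rw [ha]; group
      _ = 1 := by rw [hb, mul_one, ha]
  · calc a * b * a * a * (a * b * a) = a * b * (a * a) * (a * b * a) := by group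
      _ = a * b * (a * b * a) := by rw [ha, mul_one]
      _ = a * (b * a * b) * a := by group
      _ = a * (a * b * a) * a := by rw [hab]

end Braid

end Cfsg.Agent.Lib.RootSmall
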