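import Mathlib
import Cfsg.Prelude.Def_RootSubgroups
import Cfsg.Prelude.Def_CaseTheorems
import Cfsg.Agent.Lib.RankOne
import Cfsg.Agent.Lib.RootLaw
import Cfsg.Agent.Lib.RootAbsorb
import Cfsg.Agent.Lib.RootQuasi
import Cfsg.Agent.Lib.RootSmall
import Cfsg.Agent.Lib.Layer

/-!
The structure of a special rank one group with abelian unipotent subgroups.
-/

namespace Cfsg.Agent.Lib.RootStruct

open Cfsg Cfsg.Agent.Lib.RankOne Cfsg.Agent.Lib.RootLaw Cfsg.Agent.Lib.RootAbsorb
  Cfsg.Agent.Lib.RootSmall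
open scoped commutatorElement

variable {X : Type*} [Group X] {A B : Subgroup X}

/-- The case of three elements. -/
theorem small_three (hX : A ⊔ B = ⊤) (hs : IsSpecialRankOnePair A B) {a y : X} (hm : Matched A B a y)
    (ha3 : a * a * a = 1) (hA : A ≤ Subgroup.zpowers a) (hB : B ≤ Subgroup.zpowers y) :
    Nonempty (X ≃* S3) ∨ Nonempty (X ≃* Matrix.ProjectiveSpecialLinearGroup (Fin 2) (ZMod 3)) := by
  have hrk := hs.1
  have hbr := hm.braid hs
  have hrel := rel3_of_braid ha3 hbr
  obtain ⟨φ, hφE, hφW, hφn⟩ := exists_hom3 hrel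
  have hmem := hm.left_mem
  generalize hw : a * y⁻¹ * a = w at hrel hφW hφn
  have hwb : a⁻¹ * w * a⁻¹ = y⁻¹ := by
    rw [← hw]
    group
  have hAw : conjBy A w = B := by
    rw [← hw, mul_assoc, conjBy_mul, conjBy_mul A y⁻¹ a, conjBy_eq_self_of_mem hm.left_mem, hm.eq, ← conjBy_mul]
    simp [conjBy_one]
  -- the central element
  have hza : (w * w) * a = a * (w * w) := hrel.za
  have hzw : (w * w) * w = w * (w * w) := by group
  have hzy : (w * w) * y = y * (w * w) := by
    have h1 : y⁻¹ = a⁻¹ * w * a⁻¹ := hwb.symm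
    have c1 : Commute (w * w) a := hza
    have c2 : Commute (w * w) w := hzw
    have c3 : Commute (w * w) y⁻¹ := by
      rw [h1]
      exact (c1.inv_right.mul_right c2).mul_right c1.inv_right
    exact (Commute.inv_right_iff.mp c3)
  have hzc : ∀ x : X, (w * w) * x = x * (w * w) := by
    have hle : (⊤ : Subgroup X) ≤ Subgroup.centralizer ({w * w} : Set X) := by
      rw [← hX]
      refine sup_le ?_ ?_
      · intro x hx
        obtain ⟨k, rfl⟩ := Subgroup.mem_zpowers_iff.mp (hA hx)
        rw [Subgroup.mem_centralizer_iff]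
        rintro _ rfl
        exact (Commute.zpow_right (show Commute (w * w) a from hza) k).eq
      · intro x hx
        obtain ⟨k, rfl⟩ := Subgroup.mem_zpowers_iff.mp (hB hx)
        rw [Subgroup.mem_centralizer_iff]
        rintro _ rfl
        exact (Commute.zpow_right (show Commute (w * w) y from hzy) k).eq
    intro x
    have := Subgroup.mem_centralizer_iff.mp (hle (Subgroup.mem_top x)) (w * w) rfl
    exact this
  have hzpow : ∀ (e : ℕ), conjBy B ((w * w) ^ e) = B := by
    intro e
    apply conjBy_eq_of_commute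
    intro x _
    exact (Commute.pow_left (show Commute (w * w) x from hzc x) e).eq
  -- the elements of the second type are not trivial
  have hinr : ∀ u e v, nf3 a w (Sum.inr (u, e, v)) ≠ 1 := by
    intro u e v hc
    have hc' : a ^ u.val * (w * w) ^ e.val * w * a ^ v.val = 1 := hc
    have h1 : conjBy A (a ^ u.val * (w * w) ^ e.val * w * a ^ v.val) = conjBy B (a ^ u.val) := by
      rw [mul_assoc, conjBy_mul, conjBy_mul A w (a ^ v.val), conjBy_eq_self_of_mem (A.pow_mem hm.left_mem _), hAw,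
        conjBy_mul, hzpow]
    rw [hc', conjBy_one] at h1
    exact conjBy_right_ne_left hrk (A.pow_mem hm.left_mem _) h1.symm
  have hinl : ∀ u e, nf3 a w (Sum.inl (u, e)) = 1 → u = 0 := by
    intro u e hc
    have hc' : a ^ u.val * (w * w) ^ e.val = 1 := hc
    have hau : a ^ u.val = ((w * w) ^ e.val)⁻¹ := eq_inv_of_mul_eq_one_left hc'
    have h1 : conjBy B (a ^ u.val) = B := by
      rw [hau]
      apply conjBy_eq_of_commute
      intro x _
      exact ((Commute.pow_left (show Commute (w * w) x from hzc x) e.val).inv_left).eq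
    have h2 := eq_one_of_conjBy_left hrk (A.pow_mem hm.left_mem _) h1
    match u with
    | 0 => rfl
    | 1 =>
      exfalso
      apply hm.left_ne
      have h3 : a ^ 1 = 1 := h2
      rwa [pow_one] at h3
    | 2 =>
      exfalso
      apply hm.left_ne
      have h3 : a ^ 2 = 1 := h2
      rw [pow_two] at h3
      calc a = a * 1 := by group
        _ = a * (a * a) := by rw [h3]
        _ = a * a * a := by group
        _ = 1 := ha3
  have hsurj : Function.Surjective φ := by
    rw [← MonoidHom.range_eq_top, eq_top_iff, ← hX]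
    have h1 : a ∈ φ.range := ⟨E3, hφE⟩
    have h2 : w ∈ φ.range := ⟨W3, hφW⟩
    have h3 : y ∈ φ.range := by
      have h4 : y = (a⁻¹ * w * a⁻¹)⁻¹ := by rw [hwb, inv_inv]
      rw [h4]
      exact φ.range.inv_mem (φ.range.mul_mem (φ.range.mul_mem (φ.range.inv_mem h1) h2) (φ.range.inv_mem h1))
    refine sup_le ?_ ?_
    · refine hA.trans ?_
      rw [Subgroup.zpowers_le]
      exact h1
    · refine hB.trans ?_
      rw [Subgroup.zpowers_le]
      exact h3
  -- the kernel
  have hker : ∀ g, φ g = 1 → g = 1 ∨ g = W3 * W3 := by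
    intro g hg
    rw [← nf3_idx3 g] at hg ⊢
    generalize idx3 g = i at hg ⊢
    rw [hφn] at hg
    rcases i with ⟨u, e⟩ | ⟨u, e, v⟩
    · have hu := hinl u e hg
      subst hu
      clear hg
      revert e
      decide
    · exact absurd hg (hinr u e v)
  by_cases hz : w * w = 1
  · right
    have hkerc : φ.ker = Subgroup.center S3 := by
      ext g
      rw [MonoidHom.mem_ker, mem_center_S3]
      constructor
      · exact hker g
      · rintro (rfl | rfl)
        · exact map_one φ
        · rw [map_mul, hφW, hz]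
    have e1 : S3 ⧸ φ.ker ≃* X := QuotientGroup.quotientKerEquivOfSurjective φ hsurj
    have e2 : S3 ⧸ φ.ker ≃* S3 ⧸ Subgroup.center S3 := QuotientGroup.quotientMulEquivOfEq hkerc
    exact ⟨e1.symm.trans e2⟩
  · left
    have hinj : Function.Injective φ := by
      rw [injective_iff_map_eq_one]
      intro g hg
      rcases hker g hg with h | h
      · exact h
      · exfalso
        rw [h, map_mul, hφW] at hg
        exact hz hg
    exact ⟨(MulEquiv.ofBijective φ ⟨hinj, hsurj⟩).symm⟩

/-- The case of two elements. -/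
theorem small_two (hX : A ⊔ B = ⊤) (hs : IsSpecialRankOnePair A B) {a y : X} (hm : Matched A B a y)
    (ha2 : a * a = 1) (hy2 : y * y = 1) (hA : A ≤ Subgroup.zpowers a) (hB : B ≤ Subgroup.zpowers y) :
    Nonempty (X ≃* S2) := by
  have hrk := hs.1
  have hbr := hm.braid hs
  have hyi : y⁻¹ * y⁻¹ = 1 := by
    rw [← mul_inv_rev, hy2, inv_one]
  have hrel := rel2_of_braid ha2 hyi hbr
  obtain ⟨φ, hφE, hφW, hφn⟩ := exists_hom2 hrel
  generalize hw : a * y⁻¹ * a = w at hrel hφW hφn
  have hwb : a⁻¹ * w * a⁻¹ = y⁻¹ := by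
    rw [← hw]
    group
  have hAw : conjBy A w = B := by
    rw [← hw, mul_assoc, conjBy_mul, conjBy_mul A y⁻¹ a, conjBy_eq_self_of_mem hm.left_mem, hm.eq, ← conjBy_mul]
    simp [conjBy_one]
  have hinr : ∀ u v, nf2 a w (Sum.inr (u, v)) ≠ 1 := by
    intro u v hc
    have hc' : a ^ u.val * w * a ^ v.val = 1 := hc
    have h1 : conjBy A (a ^ u.val * w * a ^ v.val) = conjBy B (a ^ u.val) := by
      rw [mul_assoc, conjBy_mul, conjBy_mul A w (a ^ v.val), conjBy_eq_self_of_mem (A.pow_mem hm.left_mem _), hAw]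
    rw [hc', conjBy_one] at h1
    exact conjBy_right_ne_left hrk (A.pow_mem hm.left_mem _) h1.symm
  have hinl : ∀ u : Fin 2, nf2 a w (Sum.inl u) = 1 → u = 0 := by
    intro u hc
    match u with
    | 0 => rfl
    | 1 =>
      exfalso
      apply hm.left_ne
      have h3 : a ^ 1 = 1 := hc
      rwa [pow_one] at h3
  have hsurj : Function.Surjective φ := by
    rw [← MonoidHom.range_eq_top, eq_top_iff, ← hX]
    have h1 : a ∈ φ.range := ⟨E2, hφE⟩
    have h2 : w ∈ φ.range := ⟨W2, hφW⟩
    have h3 : y ∈ φ.range := by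
      have h4 : y = (a⁻¹ * w * a⁻¹)⁻¹ := by rw [hwb, inv_inv]
      rw [h4]
      exact φ.range.inv_mem (φ.range.mul_mem (φ.range.mul_mem (φ.range.inv_mem h1) h2) (φ.range.inv_mem h1))
    refine sup_le ?_ ?_
    · refine hA.trans ?_
      rw [Subgroup.zpowers_le]
      exact h1
    · refine hB.trans ?_
      rw [Subgroup.zpowers_le]
      exact h3
  have hinj : Function.Injective φ := by
    rw [injective_iff_map_eq_one]
    intro g hg
    rw [← nf2_idx2 g] at hg ⊢
    generalize idx2 g = i at hg ⊢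
    rw [hφn] at hg
    rcases i with u | ⟨u, v⟩
    · have hu := hinl u hg
      subst hu
      decide
    · exact absurd hg (hinr u v)
  exact ⟨(MulEquiv.ofBijective φ ⟨hinj, hsurj⟩).symm⟩

/-- Special pairs are preserved by conjugation. -/
theorem special_conj (h : IsSpecialRankOnePair A B) (g : X) : IsSpecialRankOnePair (conjBy A g) (conjBy B g) := by
  refine ⟨isRankOnePair_conj h.1 g, ?_⟩
  intro a ha ha1 b hb hb1 e
  rw [mem_conjBy] at ha hb
  have ha1' : g⁻¹ * a * g ≠ 1 := by
    intro e1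
    apply ha1
    have h3 : a = g * (g⁻¹ * a * g) * g⁻¹ := by group
    rw [h3, e1]
    group
  have hb1' : g⁻¹ * b * g ≠ 1 := by
    intro e1
    apply hb1
    have h3 : b = g * (g⁻¹ * b * g) * g⁻¹ := by group
    rw [h3, e1]
    group
  have e' : conjBy A (g⁻¹ * b * g)⁻¹ = conjBy B (g⁻¹ * a * g)⁻¹ := by
    have h1 : conjBy A (g⁻¹ * b * g)⁻¹ = conjBy (conjBy (conjBy A g) b⁻¹) g⁻¹ := by
      rw [← conjBy_mul, ← conjBy_mul]
      congr 1
      group
    have h2 : conjBy B (g⁻¹ * a * g)⁻¹ = conjBy (conjBy (conjBy B g) a⁻¹) g⁻¹ := by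
      rw [← conjBy_mul, ← conjBy_mul]
      congr 1
      group
    rw [h1, h2, e]
  have h1 := h.2 _ ha ha1' _ hb hb1' e'
  have h2 : g⁻¹ * (b⁻¹ * a * b) * g = g⁻¹ * (a⁻¹ * b⁻¹ * a) * g := by
    calc g⁻¹ * (b⁻¹ * a * b) * g = (g⁻¹ * b * g)⁻¹ * (g⁻¹ * a * g) * (g⁻¹ * b * g) := by group
      _ = (g⁻¹ * a * g)⁻¹ * (g⁻¹ * b * g)⁻¹ * (g⁻¹ * a * g) := h1
      _ = g⁻¹ * (a⁻¹ * b⁻¹ * a) * g := by group
  exact mul_left_cancel (mul_right_cancel h2)

/-- The unipotent subgroups of a special rank one group form a set of abstract root subgroups. -/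
theorem unipotent_set (hX : A ⊔ B = ⊤) (hrk : IsRankOnePair A B) (hab : HasAbelianUnipotents A B) :
    IsRootSubgroupSet (unipotentSubgroups A B) := by
  have hcomm : ∀ C ∈ unipotentSubgroups A B, ∀ x ∈ C, ∀ y ∈ C, x * y = y * x := by
    rintro _ ⟨g, -, rfl⟩ x hx y hy
    rw [mem_conjBy] at hx hy
    have h1 := comm_of_mem hab.1 hx hy
    have h2 : g⁻¹ * (x * y) * g = g⁻¹ * (y * x) * g := by
      calc g⁻¹ * (x * y) * g = (g⁻¹ * x * g) * (g⁻¹ * y * g) := by group
        _ = (g⁻¹ * y * g) * (g⁻¹ * x * g) := h1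
        _ = g⁻¹ * (y * x) * g := by group
    exact mul_left_cancel (mul_right_cancel h2)
  refine ⟨?_, ?_, ?_, ?_, ?_⟩
  · intro C hC
    exact ⟨⟨fun x y => Subtype.ext (hcomm C hC x x.2 y y.2)⟩⟩
  · rintro _ ⟨g, -, rfl⟩ h0
    apply ne_bot_left hrk
    rw [eq_bot_iff]
    intro x hx
    have h1 : g * x * g⁻¹ ∈ conjBy A g := conj_mem_conjBy hx
    rw [h0, Subgroup.mem_bot] at h1
    have h2 : x = g⁻¹ * (g * x * g⁻¹) * g := by group
    rw [h2, h1]
    simp
  · rw [eq_top_iff, ← hX]
    refine sup_le ?_ ?_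
    · exact le_iSup₂_of_le A (left_mem_unipotent hrk) le_rfl
    · exact le_iSup₂_of_le B (right_mem_unipotent hrk) le_rfl
  · intro C hC g
    have hg : g ∈ A ⊔ B := by
      rw [hX]
      exact Subgroup.mem_top g
    exact conj_mem_unipotent hrk hC hg
  · intro C hC E hE
    by_cases hne : C = E
    · left
      rw [← hne]
      rw [eq_bot_iff, Subgroup.commutator_le]
      intro x hx y hy
      rw [commutatorElement_def, hcomm C hC x hx y hy, Subgroup.mem_bot]
      group
    · exact Or.inr (Or.inl (pair_of_mem hrk hC hE hne).1)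

/-- The quasisimple case. -/
theorem main_large (hX : A ⊔ B = ⊤) (hs : IsSpecialRankOnePair A B) (hab : HasAbelianUnipotents A B)
    (hcard : 3 < ENat.card A) : commutator X = ⊤ ∧ IsQuasisimple X := by
  have hrk := hs.1
  have hSet := unipotent_set hX hrk hab
  refine Cfsg.Agent.Lib.RootQuasi.main hSet ⟨A, left_mem_unipotent hrk, B, right_mem_unipotent hrk, hrk.ne⟩ ?_ ?_ ?_ ?_
  · intro C hC E hE
    by_cases hne : C = E
    · rw [hne]
    · exact Relation.ReflTransGen.single ⟨hC, hE, (pair_of_mem hrk hC hE hne).1⟩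
  · intro C hC E hE hne e
    have h1 : C ∈ centralizingMembers (unipotentSubgroups A B) C := by
      refine ⟨hC, ?_⟩
      intro x hx
      rw [Subgroup.mem_centralizer_iff]
      intro y hy
      have := hSet.commutative C hC
      exact comm_of_mem this hy hx
    rw [e] at h1
    have h2 := h1.2
    apply Cfsg.Agent.Lib.RootBasic.rankOne_not_comm (pair_of_mem hrk hC hE hne).1
    intro x hx y hy
    exact (Subgroup.mem_centralizer_iff.mp (h2 hx) y hy).symm
  · rintro - _ ⟨g, -, rfl⟩
    have : ENat.card ↥(conjBy A g) = ENat.card ↥A :=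
      (ENat.card_congr (A.equivMapOfInjective _ (MulAut.conj g).injective).toEquiv).symm
    rwa [this]
  · intro C hC E hE
    obtain ⟨hES, hCE⟩ := hE
    obtain ⟨x, -, e1, e2⟩ := exists_to_pair hrk hC hES hCE.ne
    have h3 := special_conj hs x⁻¹
    rwa [← e1, ← e2, conjBy_conjBy_inv, conjBy_conjBy_inv] at h3

end Cfsg.Agent.Lib.RootStruct
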