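import Mathlib
import Cfsg.Prelude.Def_LocalEven
import Cfsg.Agent.Lib.S4Sec
import Cfsg.Agent.Lib.QdSection
import Cfsg.Agent.Lib.H5Basic

/-!
`Sym(4)` is involved in `G` iff `Sym(3)` is involved in `N(T)/C(T)` for a `2`-subgroup `T`.
-/

set_option autoImplicit false
set_option linter.all false

namespace Cfsg.Agent.Lib.S4Involved

open Cfsg.Agent.Lib.QdSection
open Cfsg.Agent.Lib.S4Sec

universe u

theorem isP_zpowers {Y : Type*} [Group Y] {p : ℕ} {g : Y} (n : ℕ) (h : g ^ p ^ n = 1) :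
    IsPGroup p (Subgroup.zpowers g) := by
  intro x
  refine ⟨n, ?_⟩
  obtain ⟨i, hi⟩ := Subgroup.mem_zpowers_iff.1 x.2
  apply Subtype.ext
  simp only [Subgroup.coe_pow, Subgroup.coe_one]
  rw [← hi, ← zpow_natCast, ← zpow_mul, mul_comm, zpow_mul, zpow_natCast, h, one_zpow]

theorem exists_fixed_conj {Y : Type*} [Group Y] [Finite Y] (S : Set Y) (τ : Y) (a : ℕ)
    (hτ : τ ^ 2 ^ a = 1) (hS : ∀ x ∈ S, τ * x * τ⁻¹ ∈ S) (hodd : Odd (Nat.card S)) :
    ∃ z ∈ S, τ * z * τ⁻¹ = z := by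
  classical
  haveI : Fact (Nat.Prime 2) := ⟨Nat.prime_two⟩
  haveI : Fintype S := Fintype.ofFinite S
  let F : Function.End S := fun x => ⟨τ * x * τ⁻¹, hS x x.2⟩
  have hF : ∀ (i : ℕ) (x : S), (((F ^ i) x : S) : Y) = τ ^ i * x * (τ ^ i)⁻¹ := by
    intro i x
    induction i with
    | zero => simp; rfl
    | succ i ih =>
      rw [pow_succ']
      change τ * (((F ^ i) x : S) : Y) * τ⁻¹ = _
      rw [ih, pow_succ']
      group
  have hF1 : F ^ 2 ^ a = 1 := by
    funext x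
    apply Subtype.ext
    rw [hF, hτ]
    simp
    rfl
  have h := Equiv.Perm.card_fixedPoints_modEq (p := 2) (n := a) hF1
  by_contra hne
  have hemp : IsEmpty (Function.fixedPoints F) := by
    constructor
    rintro ⟨x, hx⟩
    apply hne
    refine ⟨x, x.2, ?_⟩
    exact congrArg Subtype.val hx
  have h0 : Fintype.card (Function.fixedPoints F) = 0 := Fintype.card_eq_zero_iff.2 hemp
  rw [h0, Nat.card_eq_fintype_card] at *
  have h2 : Fintype.card S % 2 = 0 := by
    have := h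
    unfold Nat.ModEq at this
    simpa using this
  rcases hodd with ⟨k, hk⟩
  omega

/-- The key construction of a section `Sym(4)`. -/
theorem key {X : Type u} [Group X] [Finite X] (T : Subgroup X) [hTn : T.Normal] (hT : IsPGroup 2 T)
    (t d : X) (k n : ℕ)
    (ht : t ^ 2 ^ k = 1) (hd : d ^ 3 ^ n = 1) (htd : t * d * t⁻¹ = d⁻¹) (hcomm : Commute (t ^ 2) d)
    (hd3 : ∀ q ∈ T, d ^ 3 * q * (d ^ 3)⁻¹ = q) (hdn : ∃ q ∈ T, d * q * d⁻¹ ≠ q) :
    Cfsg.Involves (Equiv.Perm (Fin 4)) X := by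
  classical
  haveI : Fact (Nat.Prime 2) := ⟨Nat.prime_two⟩
  let Q₁ : Subgroup X := T ⊔ Subgroup.zpowers (t ^ 2)
  let R : Subgroup X := Subgroup.zpowers (d ^ 3)
  have hpt : IsPGroup 2 (Subgroup.zpowers (t ^ 2)) := by
    apply isP_zpowers k
    rw [← pow_mul, mul_comm, pow_mul, ht, one_pow]
  have hQ₁p : IsPGroup 2 Q₁ := IsPGroup.to_sup_of_normal_left hT hpt
  have hmemt : t ^ 2 ∈ Q₁ := Subgroup.mem_sup_right (Subgroup.mem_zpowers _)
  have hTQ : T ≤ Q₁ := le_sup_left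
  -- normalizer facts
  have hnQ : ∀ g : X, Commute g (t ^ 2) → g ∈ Subgroup.normalizer (Q₁ : Set X) := by
    intro g hg
    apply mem_normalizer_of_forall
    have hle : Q₁ ≤ Q₁.comap (MulAut.conj g).toMonoidHom := by
      refine sup_le ?_ ?_
      · intro q hq
        exact hTQ (hTn.conj_mem q hq g)
      · rw [Subgroup.zpowers_le]
        change g * t ^ 2 * g⁻¹ ∈ Q₁
        rw [hg.eq, mul_assoc, mul_inv_cancel, mul_one]
        exact hmemt
    intro x hx
    exact hle hx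
  have hnR : ∀ g : X, (g * d ^ 3 * g⁻¹ = d ^ 3 ∨ g * d ^ 3 * g⁻¹ = (d ^ 3)⁻¹) →
      g ∈ Subgroup.normalizer (R : Set X) := by
    intro g hg
    apply mem_normalizer_of_forall
    have hle : R ≤ R.comap (MulAut.conj g).toMonoidHom := by
      change Subgroup.zpowers (d ^ 3) ≤ _
      rw [Subgroup.zpowers_le]
      change g * d ^ 3 * g⁻¹ ∈ R
      rcases hg with h | h
      · rw [h]; exact Subgroup.mem_zpowers _
      · rw [h]; exact R.inv_mem (Subgroup.mem_zpowers _)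
    intro x hx
    exact hle hx
  have htd3 : t * d ^ 3 * t⁻¹ = (d ^ 3)⁻¹ := by
    rw [← conj_pow, htd, inv_pow]
  have hcd3 : Commute (t ^ 2) (d ^ 3) := hcomm.pow_right 3
  have hQR : Q₁ ≤ Subgroup.normalizer (R : Set X) := by
    refine sup_le ?_ ?_
    · intro q hq
      apply hnR
      left
      have := hd3 q hq
      have h2 : d ^ 3 * q = q * d ^ 3 := by
        calc d ^ 3 * q = (d ^ 3 * q * (d ^ 3)⁻¹) * d ^ 3 := by group
          _ = q * d ^ 3 := by rw [this]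
      rw [← h2]
      group
    · rw [Subgroup.zpowers_le]
      apply hnR
      left
      rw [hcd3.eq]
      group
  have hQQ : Q₁ ≤ Subgroup.normalizer (Q₁ : Set X) := Subgroup.le_normalizer
  let Y : Subgroup X := Subgroup.normalizer (Q₁ : Set X) ⊓ Subgroup.normalizer (R : Set X)
  have hQY : Q₁ ≤ Y := le_inf hQQ hQR
  have htY : t ∈ Y := ⟨hnQ t ((Commute.refl t).pow_right 2), hnR t (Or.inr htd3)⟩
  have hdY : d ∈ Y := ⟨hnQ d hcomm.symm, hnR d (Or.inl (by group))⟩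
  haveI hQn : (Q₁.subgroupOf Y).Normal :=
    Subgroup.normal_subgroupOf_of_le_normalizer inf_le_left
  haveI hRn : (R.subgroupOf Y).Normal :=
    Subgroup.normal_subgroupOf_of_le_normalizer inf_le_right
  let mk := QuotientGroup.mk' (R.subgroupOf Y)
  have hmks : Function.Surjective mk := QuotientGroup.mk'_surjective _
  let Q₂ : Subgroup (↥Y ⧸ R.subgroupOf Y) := (Q₁.subgroupOf Y).map mk
  haveI hQ₂n : Q₂.Normal := hQn.map mk hmks
  have hQ' : IsPGroup 2 (Q₁.subgroupOf Y) := by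
    intro x
    obtain ⟨m, hm⟩ := hQ₁p ⟨((x : Y) : X), x.2⟩
    refine ⟨m, Subtype.ext (Subtype.ext ?_)⟩
    simpa using congrArg Subtype.val hm
  have hQ₂p : IsPGroup 2 Q₂ := hQ'.map mk
  let t' : Y := ⟨t, htY⟩
  let d' : Y := ⟨d, hdY⟩
  have hd3' : (mk d') ^ 3 = 1 := by
    rw [← map_pow]
    change ((d' ^ 3 : Y) : ↥Y ⧸ R.subgroupOf Y) = 1
    rw [QuotientGroup.eq_one_iff, Subgroup.mem_subgroupOf]
    exact Subgroup.mem_zpowers _
  have hrel : t' * d' * t'⁻¹ = d'⁻¹ := Subtype.ext htd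
  have had : mk t' * mk d' * (mk t')⁻¹ * mk d' ∈ Q₂ := by
    have h1 : mk t' * mk d' * (mk t')⁻¹ * mk d' = mk (t' * d' * t'⁻¹ * d') := by
      simp only [map_mul, map_inv]
    rw [h1, hrel]
    simp
  have ha2 : (mk t') ^ 2 ∈ Q₂ := by
    rw [← map_pow]
    refine ⟨t' ^ 2, ?_, rfl⟩
    exact hmemt
  have hinter : ∀ w : X, w ∈ T → w ∈ R → w = 1 := by
    intro w hw hw'
    obtain ⟨a, ha⟩ := hT ⟨w, hw⟩
    have h1 : w ^ 2 ^ a = 1 := by simpa using congrArg Subtype.val ha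
    have h2 : w ^ 3 ^ n = 1 := by
      obtain ⟨i, hi⟩ := Subgroup.mem_zpowers_iff.1 hw'
      rw [← hi, ← zpow_natCast, ← zpow_mul, mul_comm, zpow_mul, zpow_natCast]
      have : (d ^ 3) ^ 3 ^ n = 1 := by
        rw [← pow_mul, mul_comm, pow_mul, hd, one_pow]
      rw [this, one_zpow]
    have h3 := orderOf_dvd_of_pow_eq_one h1
    have h4 := orderOf_dvd_of_pow_eq_one h2
    have hco : Nat.Coprime (2 ^ a) (3 ^ n) := Nat.Coprime.pow _ _ (by decide)
    have := Nat.Coprime.eq_one_of_dvd (hco.coprime_dvd_left h3) h4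
    exact orderOf_eq_one_iff.1 this
  have hmove : ∃ q ∈ Q₂, mk d' * q * (mk d')⁻¹ ≠ q := by
    obtain ⟨q, hq, hne⟩ := hdn
    have hqY : q ∈ Y := hQY (hTQ hq)
    refine ⟨mk ⟨q, hqY⟩, ⟨⟨q, hqY⟩, ?_, rfl⟩, ?_⟩
    · exact hTQ hq
    · intro h
      have h1 : mk (d' * ⟨q, hqY⟩ * d'⁻¹) = mk ⟨q, hqY⟩ := by
        simpa only [map_mul, map_inv] using h
      have h2 := QuotientGroup.eq.1 h1
      rw [Subgroup.mem_subgroupOf] at h2
      have h3 : (d * q * d⁻¹)⁻¹ * q ∈ R := h2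
      have h4 : (d * q * d⁻¹)⁻¹ * q ∈ T :=
        T.mul_mem (T.inv_mem (hTn.conj_mem q hq d)) hq
      have h5 := hinter _ h4 h3
      apply hne
      have := inv_mul_eq_one.1 h5
      exact this
  have hfin := s4_of_pair Q₂ hQ₂p (mk t') (mk d') hd3' had ha2 hmove
  have h1 : InvTo (Equiv.Perm (Fin 4)) (↥Y ⧸ R.subgroupOf Y) := involves_iff.1 hfin
  have h2 : InvTo (Equiv.Perm (Fin 4)) ↥Y := h1.of_quot
  exact involves_iff.2 h2.of_le

/-- Finding an inverting pair. -/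
theorem exists_pair {A : Type*} [Group A] [Finite A] (f : A →* Equiv.Perm (Fin 3))
    (hf : Function.Surjective f) :
    ∃ (t y : A) (a b : ℕ), t ^ 2 ^ a = 1 ∧ y ^ 3 ^ b = 1 ∧ t * y * t⁻¹ = y⁻¹ ∧ Commute (t ^ 2) y ∧
      f y ≠ 1 := by
  classical
  haveI : Fact (Nat.Prime 3) := ⟨Nat.prime_three⟩
  haveI : Fact (Nat.Prime 2) := ⟨Nat.prime_two⟩
  let s : A →* ℤˣ := Equiv.Perm.sign.comp f
  let A₃ : Subgroup A := s.ker
  haveI : A₃.Normal := MonoidHom.normal_ker s
  obtain ⟨P⟩ : Nonempty (Sylow 3 A₃) := Sylow.nonempty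
  let P' : Subgroup A := (P : Subgroup A₃).map A₃.subtype
  have hP'p : IsPGroup 3 P' := P.isPGroup'.map _
  have hP'A : ∀ x ∈ P', s x = 1 := by
    rintro _ ⟨w, _, rfl⟩
    exact w.2
  -- the odd element
  obtain ⟨k, hk⟩ := hf (Equiv.swap 0 1)
  have hktop : k ∈ Subgroup.normalizer (P' : Set A) ⊔ A₃ := by
    have := Sylow.normalizer_sup_eq_top P
    change _ = ⊤ at this
    have h2 : k ∈ (⊤ : Subgroup A) := Subgroup.mem_top k
    rw [← this] at h2
    exact h2
  have hktop2 : k ∈ ((Subgroup.normalizer (P' : Set A) ⊔ A₃ : Subgroup A) : Set A) := hktop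
  rw [Subgroup.mul_normal] at hktop2
  obtain ⟨n₀, hn₀, w, hw, hnw⟩ := Set.mem_mul.1 hktop2
  have hsn₀ : s n₀ = -1 := by
    have h1 : s k = -1 := by
      change Equiv.Perm.sign (f k) = -1
      rw [hk]
      decide
    rw [← hnw, map_mul] at h1
    have h2 : s w = 1 := hw
    rwa [h2, mul_one] at h1
  have hord : orderOf n₀ ≠ 0 := (orderOf_pos n₀).ne'
  obtain ⟨a, m, hm, hom⟩ := Nat.exists_eq_two_pow_mul_odd hord
  let t : A := n₀ ^ m
  have ht : t ^ 2 ^ a = 1 := by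
    change (n₀ ^ m) ^ 2 ^ a = 1
    rw [← pow_mul, mul_comm, ← hom, pow_orderOf_eq_one]
  have htN : t ∈ Subgroup.normalizer (P' : Set A) := Subgroup.pow_mem _ hn₀ m
  have hst : s t = -1 := by
    change s (n₀ ^ m) = -1
    rw [map_pow, hsn₀, hm.neg_one_pow]
  -- the three-element
  let c : Equiv.Perm (Fin 3) := Equiv.swap 0 1 * Equiv.swap 1 2
  have hc3 : c ^ 3 = 1 := by decide
  have hc1 : c ≠ 1 := by decide
  have hcs : Equiv.Perm.sign c = 1 := by decide
  obtain ⟨k₃, hk₃⟩ := hf c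
  obtain ⟨b, m', hm', hom'⟩ := Nat.exists_eq_pow_mul_and_not_dvd (orderOf_pos k₃).ne' 3 (by decide)
  let y₀ : A := k₃ ^ m'
  have hy₀ : y₀ ^ 3 ^ b = 1 := by
    change (k₃ ^ m') ^ 3 ^ b = 1
    rw [← pow_mul, mul_comm, ← hom', pow_orderOf_eq_one]
  have hfy₀ : f y₀ ≠ 1 := by
    change f (k₃ ^ m') ≠ 1
    rw [map_pow, hk₃]
    intro h
    have h3 : orderOf c = 3 := orderOf_eq_prime hc3 hc1
    have := orderOf_dvd_of_pow_eq_one h
    rw [h3] at this
    exact hm' this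
  have hsy₀ : s y₀ = 1 := by
    change Equiv.Perm.sign (f (k₃ ^ m')) = 1
    rw [map_pow, map_pow, hk₃, hcs, one_pow]
  let y₁ : A₃ := ⟨y₀, hsy₀⟩
  have hy₁ : y₁ ^ 3 ^ b = 1 := Subtype.ext hy₀
  obtain ⟨Q, hQ⟩ := (isP_zpowers b hy₁).exists_le_sylow
  obtain ⟨g, hg⟩ := MulAction.exists_smul_eq A₃ P Q
  have hmem : y₁ ∈ ((g • P : Sylow 3 A₃) : Subgroup A₃) := by
    rw [hg]
    exact hQ (Subgroup.mem_zpowers _)
  have hmem2 := Cfsg.Agent.Lib.H5Basic.mem_of_mem_smul_sylow P g y₁ hmem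
  let y' : A := ((g⁻¹ * y₁ * g : A₃) : A)
  have hy'P : y' ∈ P' := ⟨_, hmem2, rfl⟩
  have hfy' : f y' ≠ 1 := by
    intro h
    apply hfy₀
    have h2 : f y' = (f (g : A))⁻¹ * f y₀ * f (g : A) := by
      change f (((g : A))⁻¹ * y₀ * (g : A)) = _
      simp only [map_mul, map_inv]
    rw [h2] at h
    have h3 : f y₀ = f (g : A) * ((f (g : A))⁻¹ * f y₀ * f (g : A)) * (f (g : A))⁻¹ := by group
    rw [h3, h]
    group
  -- the fibre
  let σ : Equiv.Perm (Fin 3) := f y'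
  let u : Equiv.Perm (Fin 3) := f t
  have hu : Equiv.Perm.sign u = -1 := hst
  have hu2 : f (t ^ 2) = 1 := by
    rw [map_pow]
    have key : ∀ v : Equiv.Perm (Fin 3), Equiv.Perm.sign v = -1 → v ^ 2 = 1 := by decide
    exact key u hu
  let S : Set A := {x | x ∈ P' ∧ f x = σ}
  have ht2N : t ^ 2 ∈ Subgroup.normalizer (P' : Set A) := Subgroup.pow_mem _ htN 2
  have hS : ∀ x ∈ S, t ^ 2 * x * (t ^ 2)⁻¹ ∈ S := by
    rintro x ⟨hx, hfx⟩
    refine ⟨(Subgroup.mem_normalizer_iff.1 ht2N x).1 hx, ?_⟩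
    rw [map_mul, map_mul, map_inv, hu2, hfx]
    simp
  have hSodd : Odd (Nat.card S) := by
    let L : Subgroup A := P' ⊓ f.ker
    have e : S ≃ L :=
      { toFun := fun x => ⟨y'⁻¹ * x, P'.mul_mem (P'.inv_mem hy'P) x.2.1, by
          change f (y'⁻¹ * x) = 1
          rw [map_mul, map_inv, x.2.2]
          exact inv_mul_cancel _⟩
        invFun := fun x => ⟨y' * x, P'.mul_mem hy'P x.2.1, by
          have : f (x : A) = 1 := x.2.2
          rw [map_mul, this, mul_one]⟩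
        left_inv := fun x => Subtype.ext (by simp)
        right_inv := fun x => Subtype.ext (by simp) }
    rw [Nat.card_congr e]
    have hLp : IsPGroup 3 L := hP'p.to_le inf_le_left
    obtain ⟨j, hj⟩ := IsPGroup.iff_card.1 hLp
    rw [hj]
    exact Odd.pow (by decide)
  have ht2a : (t ^ 2) ^ 2 ^ a = 1 := by
    rw [← pow_mul, mul_comm, pow_mul, ht, one_pow]
  obtain ⟨z, ⟨hzP, hfz⟩, hzfix⟩ := exists_fixed_conj S (t ^ 2) a ht2a hS hSodd
  have hcz : Commute (t ^ 2) z := by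
    change t ^ 2 * z = z * t ^ 2
    calc t ^ 2 * z = (t ^ 2 * z * (t ^ 2)⁻¹) * t ^ 2 := by group
      _ = z * t ^ 2 := by rw [hzfix]
  let y : A := z⁻¹ * (t * z * t⁻¹)
  have hyP : y ∈ P' :=
    P'.mul_mem (P'.inv_mem hzP) ((Subgroup.mem_normalizer_iff.1 htN z).1 hzP)
  obtain ⟨b', hb'⟩ := hP'p ⟨y, hyP⟩
  have hyb : y ^ 3 ^ b' = 1 := by simpa using congrArg Subtype.val hb'
  have htt : Commute (t ^ 2) t := (Commute.refl t).pow_left 2
  have hcy : Commute (t ^ 2) y :=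
    hcz.inv_right.mul_right ((htt.mul_right hcz).mul_right htt.inv_right)
  have hinv : t * y * t⁻¹ = y⁻¹ := by
    have h1 : t * y * t⁻¹ = (t * z⁻¹ * t⁻¹) * (t ^ 2 * z * (t ^ 2)⁻¹) := by
      change t * (z⁻¹ * (t * z * t⁻¹)) * t⁻¹ = _
      group
    rw [h1, hzfix]
    change _ = (z⁻¹ * (t * z * t⁻¹))⁻¹
    group
  have hfy : f y ≠ 1 := by
    have hsz : Equiv.Perm.sign (f z) = 1 := hP'A z hzP
    have hzne : f z ≠ 1 := by rw [hfz]; exact hfy'
    have key1 : ∀ v w : Equiv.Perm (Fin 3), Equiv.Perm.sign v = -1 → Equiv.Perm.sign w = 1 →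
        v * w * v⁻¹ = w⁻¹ := by decide
    have key2 : ∀ w : Equiv.Perm (Fin 3), Equiv.Perm.sign w = 1 → w ≠ 1 → w⁻¹ * w⁻¹ ≠ 1 := by decide
    change f (z⁻¹ * (t * z * t⁻¹)) ≠ 1
    rw [map_mul, map_mul, map_mul, map_inv, map_inv]
    change (f z)⁻¹ * (u * f z * u⁻¹) ≠ 1
    rw [key1 u (f z) hu hsz]
    exact key2 _ hsz hzne
  exact ⟨t, y, a, b', ht, hyb, hinv, hcy, hfy⟩

theorem core_rev {X : Type u} [Group X] [Finite X] (T : Subgroup X) [hTn : T.Normal]
    (hT : IsPGroup 2 T) (A : Subgroup X) (f : A →* Equiv.Perm (Fin 3))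
    (hf : Function.Surjective f)
    (hc : ∀ a : A, (∀ q ∈ T, (a : X) * q * (a : X)⁻¹ = q) → f a = 1) :
    Cfsg.Involves (Equiv.Perm (Fin 4)) X := by
  classical
  obtain ⟨t, y, a, b, ht, hy, hinv, hcom, hfy⟩ := exists_pair f hf
  let P : ℕ → Prop := fun e => ∀ q ∈ T, ((y : X) ^ 3 ^ e) * q * ((y : X) ^ 3 ^ e)⁻¹ = q
  have hPb : P b := by
    intro q _
    have : (y : X) ^ 3 ^ b = 1 := by simpa using congrArg Subtype.val hy
    rw [this]
    simp
  have hex : ∃ e, P e := ⟨b, hPb⟩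
  have hmin : ∀ m, m < Nat.find hex → ¬ P m := fun m hm => Nat.find_min hex hm
  have hfind := Nat.find_spec hex
  set e := Nat.find hex with he
  have hne : e ≠ 0 := by
    intro h0
    rw [h0] at hfind
    apply hfy
    apply hc
    intro q hq
    simpa using hfind q hq
  obtain ⟨e', he'⟩ := Nat.exists_eq_succ_of_ne_zero hne
  have hnot : ¬ P e' := hmin e' (by omega)
  rw [he'] at hfind
  have ht' : (t : X) ^ 2 ^ a = 1 := by simpa using congrArg Subtype.val ht
  have hy' : (y : X) ^ 3 ^ b = 1 := by simpa using congrArg Subtype.val hy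
  have hinv' : (t : X) * y * (t : X)⁻¹ = (y : X)⁻¹ := by simpa using congrArg Subtype.val hinv
  have hcom' : Commute ((t : X) ^ 2) (y : X) := by
    have := hcom.eq
    exact congrArg Subtype.val this
  refine key T hT (t : X) ((y : X) ^ 3 ^ e') a b ht' ?_ ?_ (hcom'.pow_right _) ?_ ?_
  · rw [← pow_mul, mul_comm, pow_mul, hy', one_pow]
  · rw [← conj_pow, hinv', inv_pow]
  · intro q hq
    have h := hfind q hq
    rw [← pow_mul, ← pow_succ]
    exact h
  · by_contra hcon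
    push_neg at hcon
    exact hnot hcon

/-- The Klein four subgroup of `Sym(4)`. -/
def tau0 : Equiv.Perm (Fin 4) := Equiv.swap 0 1 * Equiv.swap 2 3
def tau1 : Equiv.Perm (Fin 4) := Equiv.swap 0 2 * Equiv.swap 1 3
def tau2 : Equiv.Perm (Fin 4) := Equiv.swap 0 3 * Equiv.swap 1 2

def velts : Finset (Equiv.Perm (Fin 4)) := {1, tau0, tau1, tau2}

def V4 : Subgroup (Equiv.Perm (Fin 4)) where
  carrier := ↑velts
  mul_mem' := by
    have : ∀ a ∈ velts, ∀ b ∈ velts, a * b ∈ velts := by decide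
    intro a b ha hb
    exact this a ha b hb
  one_mem' := by
    have : (1 : Equiv.Perm (Fin 4)) ∈ velts := by decide
    exact this
  inv_mem' := by
    have : ∀ a ∈ velts, a⁻¹ ∈ velts := by decide
    intro a ha
    exact this a ha

theorem mem_V4 (σ : Equiv.Perm (Fin 4)) : σ ∈ V4 ↔ σ ∈ velts := Iff.rfl

instance V4_normal : V4.Normal := by
  constructor
  have : ∀ a ∈ velts, ∀ g : Equiv.Perm (Fin 4), g * a * g⁻¹ ∈ velts := by decide
  intro a ha g
  exact this a ha g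

theorem card_V4 : Nat.card V4 = 4 := by
  have h : Nat.card V4 = velts.card := by
    change Nat.card (↑(velts : Set (Equiv.Perm (Fin 4)))) = _
    simp
  rw [h]
  decide

theorem centr_V4 (σ : Equiv.Perm (Fin 4)) (h0 : σ * tau0 = tau0 * σ) (h1 : σ * tau1 = tau1 * σ) :
    σ ∈ V4 := by
  have : ∀ σ : Equiv.Perm (Fin 4), σ * tau0 = tau0 * σ → σ * tau1 = tau1 * σ → σ ∈ velts := by decide
  exact this σ h0 h1

theorem s3_quot : InvTo (Equiv.Perm (Fin 3)) (Equiv.Perm (Fin 4) ⧸ V4) := by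
  apply involves_iff.1
  let mk := QuotientGroup.mk' V4
  let a₀ : Equiv.Perm (Fin 4) := Equiv.swap 0 1
  let c₀ : Equiv.Perm (Fin 4) := Equiv.swap 0 1 * Equiv.swap 1 2
  apply s3_of_pair (mk a₀) (mk c₀)
  · rw [← map_mul]
    have : a₀ * a₀ = 1 := by decide
    rw [this, map_one]
  · intro h
    have h2 : c₀ ∈ V4 := (QuotientGroup.eq_one_iff _).1 h
    have h3 : c₀ ∉ velts := by decide
    exact h3 h2
  · rw [← map_pow]
    have : c₀ ^ 3 = 1 := by decide
    rw [this, map_one]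
  · rw [← map_inv, ← map_mul, ← map_mul, ← map_inv]
    have : a₀ * c₀ * a₀⁻¹ = c₀⁻¹ := by decide
    rw [this]

theorem lift_section {G : Type*} [Group G] (T D : Subgroup G) {X : Type*} [Group X] (g : D →* X)
    (hg : Function.Surjective g) (hKN : D ≤ Subgroup.normalizer (T : Set G))
    (hKC : ∀ x : D, (x : G) ∈ Subgroup.centralizer (T : Set G) → g x = 1)
    {Z : Type*} [Group Z] (h : InvTo Z X) :
    InvTo Z (↥(Subgroup.normalizer (T : Set G)) ⧸
      (Subgroup.centralizer (T : Set G)).subgroupOf (Subgroup.normalizer (T : Set G))) := by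
  classical
  let C := (Subgroup.centralizer (T : Set G)).subgroupOf (Subgroup.normalizer (T : Set G))
  let q : D →* (↥(Subgroup.normalizer (T : Set G)) ⧸ C) :=
    (QuotientGroup.mk' C).comp (Subgroup.inclusion hKN)
  let q' : D →* q.range := q.rangeRestrict
  have hq' : Function.Surjective q' := q.rangeRestrict_surjective
  have hker : q'.ker ≤ g.ker := by
    intro x hx
    have h1 : q x = 1 := by
      have := congrArg Subtype.val (MonoidHom.mem_ker.1 hx)
      exact this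
    have h2 : Subgroup.inclusion hKN x ∈ C := (QuotientGroup.eq_one_iff _).1 h1
    have h3 : (x : G) ∈ Subgroup.centralizer (T : Set G) := h2
    exact MonoidHom.mem_ker.2 (hKC x h3)
  let gb : q.range →* X := (MonoidHom.liftOfSurjective q' hq') ⟨g, hker⟩
  have hgb : Function.Surjective gb := by
    intro y
    obtain ⟨x, rfl⟩ := hg y
    refine ⟨q' x, ?_⟩
    exact MonoidHom.liftOfRightInverse_comp_apply q' _ _ ⟨g, hker⟩ x
  exact h.of_hom q.range gb hgb

theorem forward {G : Type*} [Group G] [Finite G] (h : Cfsg.Involves (Equiv.Perm (Fin 4)) G) :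
    ∃ T : Subgroup G, IsPGroup 2 ↥T ∧ Cfsg.Involves (Equiv.Perm (Fin 3))
      (↥(Subgroup.normalizer (T : Set G)) ⧸
        (Subgroup.centralizer (T : Set G)).subgroupOf (Subgroup.normalizer (T : Set G))) := by
  classical
  haveI : Fact (Nat.Prime 2) := ⟨Nat.prime_two⟩
  obtain ⟨K, f, hf⟩ := involves_iff.1 h
  let W : Subgroup K := V4.comap f
  haveI : W.Normal := V4_normal.comap f
  obtain ⟨T₀⟩ : Nonempty (Sylow 2 W) := Sylow.nonempty
  let g₀ : W →* V4 := f.subgroupComap V4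
  have hg₀ : Function.Surjective g₀ := MonoidHom.subgroupComap_surjective_of_surjective f V4 hf
  have hmaptop : (T₀ : Subgroup W).map g₀ = ⊤ := by
    have h1 := Subgroup.index_map_dvd (H := (T₀ : Subgroup W)) hg₀
    have h2 := Subgroup.index_dvd_card ((T₀ : Subgroup W).map g₀)
    rw [card_V4] at h2
    have h3 : ((T₀ : Subgroup W).map g₀).index ∣ 2 ^ 2 := by simpa using h2
    obtain ⟨j, _, hj⟩ := (Nat.dvd_prime_pow Nat.prime_two).1 h3
    have hnd := T₀.not_dvd_index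
    have hj0 : j = 0 := by
      by_contra hj0
      apply hnd
      apply dvd_trans _ h1
      rw [hj]
      exact dvd_pow_self 2 hj0
    rw [hj0, pow_zero] at hj
    exact Subgroup.index_eq_one.1 hj
  let T' : Subgroup K := (T₀ : Subgroup W).map W.subtype
  let T : Subgroup G := T'.map K.subtype
  have hTp : IsPGroup 2 T := (T₀.isPGroup'.map _).map _
  have hsurjT : ∀ v ∈ V4, ∃ τ ∈ T', f τ = v := by
    intro v hv
    have : (⟨v, hv⟩ : V4) ∈ (T₀ : Subgroup W).map g₀ := by rw [hmaptop]; trivial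
    obtain ⟨w, hw, hwv⟩ := this
    refine ⟨(w : K), ⟨w, hw, rfl⟩, ?_⟩
    exact congrArg Subtype.val hwv
  let M : Subgroup K := Subgroup.normalizer (T' : Set K)
  let D : Subgroup G := M.map K.subtype
  have hDK : D ≤ K := by
    rintro _ ⟨m, _, rfl⟩
    exact m.2
  have hDN : D ≤ Subgroup.normalizer (T : Set G) := by
    rintro _ ⟨m, hm, rfl⟩
    apply mem_normalizer_of_forall
    rintro _ ⟨τ, hτ, rfl⟩
    refine ⟨m * τ * m⁻¹, (Subgroup.mem_normalizer_iff.1 hm τ).1 hτ, rfl⟩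
  let mk := QuotientGroup.mk' V4
  let g₁ : D →* (Equiv.Perm (Fin 4) ⧸ V4) := mk.comp (f.comp (Subgroup.inclusion hDK))
  have hg₁ : Function.Surjective g₁ := by
    intro s
    obtain ⟨σ, rfl⟩ := QuotientGroup.mk'_surjective V4 s
    obtain ⟨k, rfl⟩ := hf σ
    have hk : k ∈ ((M ⊔ W : Subgroup K) : Set K) := by
      have := Sylow.normalizer_sup_eq_top T₀
      have h2 : k ∈ (⊤ : Subgroup K) := Subgroup.mem_top k
      rw [← this] at h2
      exact h2
    rw [Subgroup.mul_normal] at hk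
    obtain ⟨n, hn, w, hw, rfl⟩ := Set.mem_mul.1 hk
    refine ⟨⟨(n : G), ⟨n, hn, rfl⟩⟩, ?_⟩
    have hw' : f w ∈ V4 := hw
    change mk (f n) = mk (f (n * w))
    rw [map_mul, map_mul]
    have : mk (f w) = 1 := (QuotientGroup.eq_one_iff _).2 hw'
    rw [this, mul_one]
  have hC : ∀ x : D, (x : G) ∈ Subgroup.centralizer (T : Set G) → g₁ x = 1 := by
    intro x hx
    have hcomm : ∀ v ∈ V4, f (Subgroup.inclusion hDK x) * v = v * f (Subgroup.inclusion hDK x) := by
      intro v hv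
      obtain ⟨τ, hτ, rfl⟩ := hsurjT v hv
      rw [← map_mul, ← map_mul]
      congr 1
      apply Subtype.ext
      have := Subgroup.mem_centralizer_iff.1 hx (τ : G) ⟨τ, hτ, rfl⟩
      exact this.symm
    have h0 : tau0 ∈ V4 := by
      change tau0 ∈ velts
      decide
    have h1 : tau1 ∈ V4 := by
      change tau1 ∈ velts
      decide
    have hmem := centr_V4 _ (hcomm _ h0) (hcomm _ h1)
    exact (QuotientGroup.eq_one_iff _).2 hmem
  refine ⟨T, hTp, involves_iff.2 ?_⟩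
  exact lift_section T D g₁ hg₁ hDN hC s3_quot

theorem backward {G : Type u} [Group G] [Finite G] (T : Subgroup G) (hT : IsPGroup 2 ↥T)
    (h : Cfsg.Involves (Equiv.Perm (Fin 3)) (↥(Subgroup.normalizer (T : Set G)) ⧸
        (Subgroup.centralizer (T : Set G)).subgroupOf (Subgroup.normalizer (T : Set G)))) :
    Cfsg.Involves (Equiv.Perm (Fin 4)) G := by
  classical
  obtain ⟨Kb, Θ, hΘ⟩ := involves_iff.1 h
  let N := Subgroup.normalizer (T : Set G)
  let C := (Subgroup.centralizer (T : Set G)).subgroupOf N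
  let mk := QuotientGroup.mk' C
  let A : Subgroup N := Kb.comap mk
  let f : A →* Equiv.Perm (Fin 3) := Θ.comp (mk.subgroupComap Kb)
  have hf : Function.Surjective f :=
    hΘ.comp (MonoidHom.subgroupComap_surjective_of_surjective mk Kb (QuotientGroup.mk'_surjective C))
  haveI hTn : (T.subgroupOf N).Normal := Subgroup.normal_subgroupOf_of_le_normalizer le_rfl
  have hTp : IsPGroup 2 (T.subgroupOf N) := by
    intro x
    obtain ⟨m, hm⟩ := hT ⟨((x : N) : G), x.2⟩
    refine ⟨m, Subtype.ext (Subtype.ext ?_)⟩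
    simpa using congrArg Subtype.val hm
  have hc : ∀ a : A, (∀ q ∈ T.subgroupOf N, (a : N) * q * (a : N)⁻¹ = q) → f a = 1 := by
    intro a ha
    have h1 : (a : N) ∈ C := by
      rw [Subgroup.mem_subgroupOf, Subgroup.mem_centralizer_iff]
      intro q hq
      have hqN : q ∈ N := (Subgroup.le_normalizer : T ≤ Subgroup.normalizer (T : Set G)) hq
      have h2 := ha ⟨q, hqN⟩ (by rw [Subgroup.mem_subgroupOf]; exact hq)
      have h3 : (a : N) * ⟨q, hqN⟩ = ⟨q, hqN⟩ * (a : N) := by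
        calc (a : N) * ⟨q, hqN⟩ = ((a : N) * ⟨q, hqN⟩ * (a : N)⁻¹) * (a : N) := by group
          _ = _ := by rw [h2]
      exact (congrArg Subtype.val h3).symm
    have h2 : mk.subgroupComap Kb a = 1 := by
      apply Subtype.ext
      exact (QuotientGroup.eq_one_iff _).2 h1
    change Θ (mk.subgroupComap Kb a) = 1
    rw [h2, map_one]
  have := core_rev (T.subgroupOf N) hTp A f hf hc
  exact involves_iff.2 (involves_iff.1 this).of_le

end Cfsg.Agent.Lib.S4Involved
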