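import Mathlib
import Cfsg.Agent.Lib.GL2Sylow
import Cfsg.Agent.Lib.MkSL

/-! Cyclic tori in `SL_2(q)` and the Sylow `r`-subgroups for odd `r` different from the characteristic. -/

namespace Cfsg.Agent.Lib.SL2Cyc

open Matrix Subgroup
open scoped MatrixGroups
open Cfsg.Agent.Lib.MkSL Cfsg.Agent.Lib.GL2Sylow

theorem isCyclic_sylow_of_cyclic_subgroup {G : Type*} [Group G] [Finite G] {r : ℕ} [Fact r.Prime]
    (C : Subgroup G) [IsCyclic C] (h : ¬ r ∣ C.index) (R : Sylow r G) : IsCyclic (R : Subgroup G) := by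
  obtain ⟨x, hx⟩ := (R.isPGroup').nonempty_fixed_point_of_prime_not_dvd_card (G ⧸ C) h
  obtain ⟨g, rfl⟩ := QuotientGroup.mk_surjective x
  have hm : ∀ a : (R : Subgroup G), g⁻¹ * a * g ∈ C := by
    intro a
    have h1 : a • (g : G ⧸ C) = (g : G ⧸ C) := hx a
    have h2 : ((a * g : G) : G ⧸ C) = (g : G ⧸ C) := h1
    rw [QuotientGroup.eq] at h2
    simpa [mul_assoc] using (C.mul_mem_cancel_right (one_mem _)).2 (by simpa [mul_assoc] using C.inv_mem h2)
  let f : (R : Subgroup G) →* C :=
    MonoidHom.codRestrict ((MulAut.conj g⁻¹).toMonoidHom.comp R.toSubgroup.subtype) C (by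
      intro a
      simpa [MulAut.conj_apply] using hm a)
  refine isCyclic_of_injective f ?_
  intro a b hab
  have := congrArg Subtype.val hab
  simp only [f, MonoidHom.codRestrict_apply, MonoidHom.comp_apply, MulEquiv.coe_toMonoidHom,
    Subgroup.subtype_apply] at this
  exact Subtype.ext ((MulAut.conj g⁻¹).injective this)

variable {F : Type*} [Field F]

/-- The split torus. -/
noncomputable def diagHom : Fˣ →* SL(2, F) where
  toFun u := mkSL (u : F) 0 0 ((u⁻¹ : Fˣ) : F) (by simp)
  map_one' := by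
    rw [← mkSL_one]
    apply mkSL_eq <;> simp
  map_mul' u v := by
    rw [mkSL_mul]
    apply mkSL_eq <;> simp [mul_comm]

lemma diagHom_injective : Function.Injective (diagHom (F := F)) := by
  intro u v h
  have h1 : ((mkSL (u : F) 0 0 ((u⁻¹ : Fˣ) : F) (by simp) : SL(2, F)) : Matrix (Fin 2) (Fin 2) F) 0 0 =
      ((mkSL (v : F) 0 0 ((v⁻¹ : Fˣ) : F) (by simp) : SL(2, F)) : Matrix (Fin 2) (Fin 2) F) 0 0 :=
    congrArg (fun g : SL(2, F) ↦ (g : Matrix (Fin 2) (Fin 2) F) 0 0) h
  exact Units.ext (by simpa [mkSL] using h1)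

section fin

variable [Fintype F]

lemma card_units' : Nat.card Fˣ = Fintype.card F - 1 := by
  classical
  rw [Nat.card_eq_fintype_card, Fintype.card_units]

theorem exists_torus_minus :
    ∃ C : Subgroup (SL(2, F)), IsCyclic C ∧ Nat.card C = Fintype.card F - 1 := by
  refine ⟨diagHom.range, ?_, ?_⟩
  · exact isCyclic_of_surjective _ (MonoidHom.ofInjective (diagHom_injective (F := F))).surjective
  · rw [← Nat.card_congr (MonoidHom.ofInjective (diagHom_injective (F := F))).toEquiv, card_units']

theorem exists_torus_plus (p : ℕ) [Fact p.Prime] [CharP F p] :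
    ∃ C : Subgroup (SL(2, F)), IsCyclic C ∧ Nat.card C = Fintype.card F + 1 := by
  classical
  let K := FiniteField.Extension F p 2
  have hK : Module.finrank F K = 2 := FiniteField.finrank_extension F p 2
  have hcK : Nat.card K = Fintype.card F ^ 2 := by
    rw [FiniteField.natCard_extension, Nat.card_eq_fintype_card]
  let b : Module.Basis (Fin 2) F K := Module.finBasisOfFinrankEq F K hK
  let φ : K →ₐ[F] Matrix (Fin 2) (Fin 2) F := Algebra.leftMulMatrix b
  have hφ : Function.Injective φ := Algebra.leftMulMatrix_injective b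
  let ν : Kˣ →* Fˣ := Units.map (Algebra.norm F (S := K))
  have hν : Function.Surjective ν := FiniteField.unitsMap_norm_surjective F K
  let N : Subgroup Kˣ := ν.ker
  have hdet : ∀ x : N, (φ ((x : Kˣ) : K)).det = 1 := by
    intro x
    have h1 : ν (x : Kˣ) = 1 := x.2
    have h2 := congrArg Units.val h1
    simp only [ν, Units.coe_map, Units.val_one] at h2
    rw [← h2]
    exact (Algebra.norm_eq_matrix_det b _).symm
  let ψ : N →* SL(2, F) :=
    { toFun := fun x ↦ ⟨φ ((x : Kˣ) : K), hdet x⟩
      map_one' := by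
        apply Subtype.ext
        simp
      map_mul' := fun x y ↦ by
        apply Subtype.ext
        show φ (((x * y : N) : Kˣ) : K) = φ ((x : Kˣ) : K) * φ ((y : Kˣ) : K)
        simp }
  have hψ : Function.Injective ψ := by
    intro x y h
    have h1 : φ ((x : Kˣ) : K) = φ ((y : Kˣ) : K) := congrArg Subtype.val h
    exact Subtype.ext (Units.ext (hφ h1))
  refine ⟨ψ.range, ?_, ?_⟩
  · exact isCyclic_of_surjective _ (MonoidHom.ofInjective hψ).surjective
  · rw [← Nat.card_congr (MonoidHom.ofInjective hψ).toEquiv]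
    have h1 := Subgroup.card_mul_index N
    have h2 : N.index = Fintype.card F - 1 := by
      rw [Subgroup.index_ker, MonoidHom.range_eq_top.2 hν, Subgroup.card_top, card_units']
    have hq : 1 < Fintype.card F := Fintype.one_lt_card
    have h3 : Nat.card Kˣ = Fintype.card F ^ 2 - 1 := by
      rw [Nat.card_units, hcK]
    rw [h2, h3] at h1
    have h4 : Fintype.card F ^ 2 - 1 = (Fintype.card F + 1) * (Fintype.card F - 1) := by
      obtain ⟨t, ht⟩ : ∃ t, Fintype.card F = t + 1 := ⟨_, (Nat.sub_add_cancel hq.le).symm⟩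
      rw [ht]
      simp only [Nat.add_sub_cancel]
      apply Nat.sub_eq_of_eq_add; ring
    rw [h4] at h1
    exact Nat.eq_of_mul_eq_mul_right (by omega) h1

theorem isCyclic_sylow (p : ℕ) [Fact p.Prime] [CharP F p] (r : ℕ) [hr : Fact r.Prime] (hr2 : r ≠ 2) (hrp : r ≠ p)
    (R : Sylow r (SL(2, F))) : IsCyclic (R : Subgroup (SL(2, F))) := by
  have hrq : ¬ r ∣ Fintype.card F := by
    obtain ⟨k, hk, hq⟩ := exists_card_eq (F := F) p
    rw [hq]
    intro h
    have hp : p.Prime := Fact.out
    have := (Nat.prime_dvd_prime_iff_eq hr.out hp).1 (hr.out.dvd_of_dvd_pow h)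
    exact hrp this
  have hq : 1 < Fintype.card F := Fintype.one_lt_card
  have hc := card_SL₂ (F := F)
  by_cases h1 : r ∣ Fintype.card F + 1
  · obtain ⟨C, hC, hcC⟩ := exists_torus_plus (F := F) p
    have h2 := Subgroup.card_mul_index C
    rw [hc, hcC] at h2
    have h3 : C.index = Fintype.card F * (Fintype.card F - 1) := by
      apply Nat.eq_of_mul_eq_mul_left (show 0 < Fintype.card F + 1 by omega)
      rw [h2]; ring
    refine isCyclic_sylow_of_cyclic_subgroup C ?_ R
    rw [h3, hr.out.dvd_mul]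
    rintro (h | h)
    · exact hrq h
    · have h4 : r ∣ 2 := by
        have := Nat.dvd_sub h1 h
        have h5 : Fintype.card F + 1 - (Fintype.card F - 1) = 2 := by omega
        rwa [h5] at this
      exact hr2 ((Nat.prime_dvd_prime_iff_eq hr.out Nat.prime_two).1 h4)
  · obtain ⟨C, hC, hcC⟩ := exists_torus_minus (F := F)
    have h2 := Subgroup.card_mul_index C
    rw [hc, hcC] at h2
    have h3 : C.index = Fintype.card F * (Fintype.card F + 1) := by
      apply Nat.eq_of_mul_eq_mul_left (show 0 < Fintype.card F - 1 by omega)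
      rw [h2]; ring
    refine isCyclic_sylow_of_cyclic_subgroup C ?_ R
    rw [h3, hr.out.dvd_mul]
    rintro (h | h)
    · exact hrq h
    · exact h1 h

end fin

end Cfsg.Agent.Lib.SL2Cyc
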