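/-
Orders of elements of `SL_2` of order prime to the characteristic.
-/
import Mathlib

set_option autoImplicit false
set_option linter.all false

namespace Cfsg.Agent.Lib.SL2Tori

variable {L R : Type*} [Field L] [Ring R] [Algebra L R]

/-- If `(G - u)(G - v) = 0` with `u ≠ v` and `u^m = v^m = 1` then `G^m = 1`. -/
theorem pow_eq_one_of_distinct (G : R) {u v : L} (huv : u ≠ v)
    (h1 : (G - algebraMap L R u) * (G - algebraMap L R v) = 0)
    (h2 : (G - algebraMap L R v) * (G - algebraMap L R u) = 0) {m : ℕ} (hu : u ^ m = 1) (hv : v ^ m = 1) :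
    G ^ m = 1 := by
  have hB : ∀ n : ℕ, G ^ n * (G - algebraMap L R v) = algebraMap L R (u ^ n) * (G - algebraMap L R v) := by
    intro n
    induction n with
    | zero => simp
    | succ n ih =>
      have h3 : G * (G - algebraMap L R v) = algebraMap L R u * (G - algebraMap L R v) := by
        rw [sub_mul] at h1
        exact sub_eq_zero.1 h1
      rw [pow_succ, mul_assoc, h3, ← mul_assoc, (Algebra.commutes u (G ^ n)).symm, mul_assoc, ih, ← mul_assoc,
        ← map_mul, pow_succ, mul_comm u]
  have hA : ∀ n : ℕ, G ^ n * (G - algebraMap L R u) = algebraMap L R (v ^ n) * (G - algebraMap L R u) := by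
    intro n
    induction n with
    | zero => simp
    | succ n ih =>
      have h3 : G * (G - algebraMap L R u) = algebraMap L R v * (G - algebraMap L R u) := by
        rw [sub_mul] at h2
        exact sub_eq_zero.1 h2
      rw [pow_succ, mul_assoc, h3, ← mul_assoc, (Algebra.commutes v (G ^ n)).symm, mul_assoc, ih, ← mul_assoc,
        ← map_mul, pow_succ, mul_comm v]
  have h4 := hB m
  have h5 := hA m
  rw [hu, map_one, one_mul] at h4
  rw [hv, map_one, one_mul] at h5
  have h6 : G ^ m * algebraMap L R (u - v) = algebraMap L R (u - v) := by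
    have e : algebraMap L R (u - v) = (G - algebraMap L R v) - (G - algebraMap L R u) := by
      rw [map_sub]
      abel
    rw [e, mul_sub, h4, h5]
  have hne : u - v ≠ 0 := sub_ne_zero.2 huv
  have h7 : algebraMap L R (u - v) * algebraMap L R (u - v)⁻¹ = 1 := by
    rw [← map_mul, mul_inv_cancel₀ hne, map_one]
  calc G ^ m = G ^ m * (algebraMap L R (u - v) * algebraMap L R (u - v)⁻¹) := by rw [h7, mul_one]
    _ = (G ^ m * algebraMap L R (u - v)) * algebraMap L R (u - v)⁻¹ := by rw [mul_assoc]
    _ = 1 := by rw [h6, h7]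

/-- If `(G - u)^2 = 0` and `u^m = 1` then `G^(p m) = 1`, `p` the characteristic. -/
theorem pow_eq_one_of_double (p : ℕ) [hp : Fact p.Prime] [CharP R p] (G : R) {u : L}
    (h1 : (G - algebraMap L R u) * (G - algebraMap L R u) = 0) {m : ℕ} (hu : u ^ m = 1) :
    G ^ (p * m) = 1 := by
  have hpp := hp.out
  set A := G - algebraMap L R u with hA
  have hG : G = algebraMap L R u + A := by rw [hA]; abel
  have hcomm : Commute (algebraMap L R u) A := by
    rw [hA]
    exact (Algebra.commute_algebraMap_left u G).sub_right (Commute.refl _)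
  have h2 : A ^ p = 0 := by
    obtain ⟨k, hk⟩ : ∃ k, p = k + 2 := ⟨p - 2, by have := hpp.two_le; omega⟩
    rw [hk, pow_add, pow_two, h1, mul_zero]
  have h3 : G ^ p = algebraMap L R (u ^ p) := by
    rw [hG, add_pow_char_of_commute p hcomm, h2, add_zero, map_pow]
  rw [pow_mul, h3, ← map_pow, ← pow_mul, mul_comm, pow_mul, hu, one_pow, map_one]

variable {F : Type*} [Field F] [Fintype F]

/-- The order of an element of `SL_2(q)` of order prime to the characteristic. -/
theorem orderOf_dvd {q : ℕ} (hF : Fintype.card F = q) (p : ℕ) [hp : Fact p.Prime] [CharP F p]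
    (g : Matrix.SpecialLinearGroup (Fin 2) F) (hg : Nat.Coprime (orderOf g) p) :
    orderOf g ∣ q - 1 ∨ orderOf g ∣ q + 1 := by
  classical
  let L := AlgebraicClosure F
  let φ : Matrix (Fin 2) (Fin 2) F →+* Matrix (Fin 2) (Fin 2) L := (algebraMap F L).mapMatrix
  have hφ : Function.Injective φ := by
    intro A B h
    ext i j
    have h1 := congrFun (congrFun h i) j
    exact (algebraMap F L).injective h1
  set M : Matrix (Fin 2) (Fin 2) F := (g : Matrix (Fin 2) (Fin 2) F) with hM
  set t : F := M 0 0 + M 1 1 with ht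
  have hdet : M 0 0 * M 1 1 - M 0 1 * M 1 0 = 1 := by
    have h1 := g.2
    rwa [Matrix.det_fin_two] at h1
  set G := φ M with hG
  have hGe : ∀ i j, G i j = algebraMap F L (M i j) := fun i j => rfl
  set τ : L := algebraMap F L t with hτ
  have hdetL : G 0 0 * G 1 1 - G 0 1 * G 1 0 = 1 := by
    simp only [hGe]
    rw [← map_mul, ← map_mul, ← map_sub, hdet, map_one]
  have hτe : τ = G 0 0 + G 1 1 := by
    simp only [hGe, hτ, ht, map_add]
  -- a root of the characteristic polynomial
  obtain ⟨ζ, hζ⟩ : ∃ ζ : L, ζ * ζ - τ * ζ + 1 = 0 := by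
    have hdeg : (Polynomial.X ^ 2 - Polynomial.C τ * Polynomial.X + 1 : Polynomial L).degree ≠ 0 := by
      have h1 : (Polynomial.X ^ 2 - Polynomial.C τ * Polynomial.X + 1 : Polynomial L).natDegree = 2 := by
        compute_degree!
      intro h2
      have h3 : (Polynomial.X ^ 2 - Polynomial.C τ * Polynomial.X + 1 : Polynomial L).natDegree = 0 := by
        rw [Polynomial.natDegree, h2]
        rfl
      omega
    obtain ⟨ζ, hζ⟩ := IsAlgClosed.exists_root _ hdeg
    refine ⟨ζ, ?_⟩
    simp only [Polynomial.IsRoot.def, Polynomial.eval_add, Polynomial.eval_sub, Polynomial.eval_pow,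
      Polynomial.eval_X, Polynomial.eval_mul, Polynomial.eval_C, Polynomial.eval_one] at hζ
    linear_combination hζ
  have hζ0 : ζ ≠ 0 := by
    rintro rfl
    simp at hζ
  have hτζ : τ = ζ + ζ⁻¹ := by
    have h1 : ζ * (τ - ζ) = 1 := by linear_combination -hζ
    rw [← eq_inv_of_mul_eq_one_right h1]
    ring
  have hsc : ∀ c : L, (algebraMap L (Matrix (Fin 2) (Fin 2) L) c) = Matrix.scalar (Fin 2) c := fun c => rfl
  have hfac1 : ∀ u v : L, u + v = τ → u * v = 1 →
      (G - algebraMap L (Matrix (Fin 2) (Fin 2) L) u) * (G - algebraMap L (Matrix (Fin 2) (Fin 2) L) v) = 0 := by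
    intro u v huv huv'
    rw [hsc, hsc]
    ext i j
    rw [hτe] at huv
    fin_cases i <;> fin_cases j <;>
      simp [Matrix.mul_apply, Fin.sum_univ_two, Matrix.sub_apply, Matrix.scalar_apply, Matrix.diagonal_apply]
    · linear_combination (-G 0 0) * huv + huv' - hdetL
    · linear_combination (-G 0 1) * huv
    · linear_combination (-G 1 0) * huv
    · linear_combination (-G 1 1) * huv + huv' - hdetL
  have hfrob : (ζ ^ q - ζ) * (ζ ^ q - ζ⁻¹) = 0 := by
    obtain ⟨n, hprime, hcard⟩ := FiniteField.card F p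
    have hqn : q = p ^ (n : ℕ) := by rw [← hF, hcard]
    have hfr : ∀ a b : L, (a + b) ^ q = a ^ q + b ^ q := by
      intro a b
      rw [hqn]
      haveI : CharP L p := charP_of_injective_algebraMap (algebraMap F L).injective p
      exact add_pow_char_pow a b p n
    have hτq : τ ^ q = τ := by
      rw [hτ, ← map_pow, ← hF, FiniteField.pow_card]
    have h1 : (ζ * ζ - τ * ζ + 1) ^ q = (ζ ^ q) * (ζ ^ q) - τ * ζ ^ q + 1 := by
      have h2 : ζ * ζ - τ * ζ + 1 = ζ * ζ + (-(τ * ζ)) + 1 := by ring
      have hneg : (-(τ * ζ)) ^ q = - (τ ^ q * ζ ^ q) := by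
        have h3 : (τ * ζ + (-(τ * ζ))) ^ q = (τ * ζ) ^ q + (-(τ * ζ)) ^ q := hfr _ _
        rw [add_neg_cancel, zero_pow (by rw [hqn]; exact pow_ne_zero _ hprime.ne_zero), mul_pow] at h3
        linear_combination -h3
      rw [h2, hfr, hfr, mul_pow, hneg, hτq, one_pow]
      ring
    rw [hζ, zero_pow (by rw [hqn]; exact pow_ne_zero _ (Nat.Prime.ne_zero hp.out))] at h1
    rw [sub_mul, mul_sub, mul_sub]
    have h2 : ζ * ζ⁻¹ = 1 := mul_inv_cancel₀ hζ0
    rw [h2]
    rw [hτζ] at h1
    linear_combination -h1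
  have hGm : ∀ m : ℕ, G ^ m = 1 → g ^ m = 1 := by
    intro m hm
    apply Subtype.ext
    rw [Matrix.SpecialLinearGroup.coe_pow, Matrix.SpecialLinearGroup.coe_one]
    apply hφ
    rw [map_pow, map_one]
    exact hm
  have hq1 : 1 ≤ q := by
    rw [← hF]
    exact Fintype.card_pos
  -- now the two cases
  have hmul := hfac1 ζ ζ⁻¹ hτζ.symm (mul_inv_cancel₀ hζ0)
  have hmul' := hfac1 ζ⁻¹ ζ (by rw [hτζ, add_comm]) (inv_mul_cancel₀ hζ0)
  have hcase : ∀ m : ℕ, ζ ^ m = 1 → orderOf g ∣ m := by
    intro m hm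
    have hm' : (ζ⁻¹) ^ m = 1 := by rw [inv_pow, hm, inv_one]
    by_cases hne : ζ = ζ⁻¹
    · have h0 : (G - algebraMap L (Matrix (Fin 2) (Fin 2) L) ζ) * (G - algebraMap L (Matrix (Fin 2) (Fin 2) L) ζ) = 0 := by
        have h1 := hmul
        rw [← hne] at h1
        exact h1
      haveI : CharP L p := charP_of_injective_algebraMap (algebraMap F L).injective p
      have h1 := pow_eq_one_of_double p G h0 hm
      have h2 := hGm _ h1
      have h3 := orderOf_dvd_of_pow_eq_one h2
      exact (hg.dvd_of_dvd_mul_left h3)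
    · have h1 := pow_eq_one_of_distinct G hne hmul hmul' hm hm'
      exact orderOf_dvd_of_pow_eq_one (hGm _ h1)
  rcases mul_eq_zero.1 hfrob with h1 | h1
  · left
    apply hcase
    have h2 : ζ ^ (q - 1) * ζ = ζ := by
      rw [← pow_succ, Nat.sub_add_cancel hq1]
      exact sub_eq_zero.1 h1
    exact mul_right_cancel₀ hζ0 (by rw [h2, one_mul])
  · right
    apply hcase
    rw [pow_succ, sub_eq_zero.1 h1]
    exact inv_mul_cancel₀ hζ0

end Cfsg.Agent.Lib.SL2Tori
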