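import Cfsg.Agent.Lib.SteinerSearch

/-! Certificate of the labeling search, with 0 fixed points. Generated. -/

set_option autoImplicit false
set_option maxRecDepth 100000

namespace Cfsg.Agent.Lib.SteinerCert0

open Cfsg Cfsg.Agent.Lib.SteinerSearch

def K0 : List ℕ := [255]

def K1 : List ℕ := [255]

def K2 : List ℕ := [4035, 255]

def K3 : List ℕ := [29897, 4035, 255]

def K4 : List ℕ := [229942, 29897, 4035, 255]

def K5 : List ℕ := [1837110, 229942, 29897, 4035, 255]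

def K6 : List ℕ := [2136289, 1837110, 229942, 29897, 4035, 255]

def K7 : List ℕ := [14683658, 2136289, 1837110, 229942, 29897, 4035, 255]

def K8 : List ℕ := [4272932, 14683658, 2136289, 1837110, 229942, 29897, 4035, 255]

def K9 : List ℕ := [6308893, 4272932, 14683658, 2136289, 1837110, 229942, 29897, 4035, 255]

def K10 : List ℕ := [10293314, 6308893, 4272932, 14683658, 2136289, 1837110, 229942, 29897, 4035, 255]

def K11 : List ℕ := [6627601, 10293314, 6308893, 4272932, 14683658, 2136289, 1837110, 229942, 29897, 4035, 255]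

def K12 : List ℕ := [603395, 6627601, 10293314, 6308893, 4272932, 14683658, 2136289, 1837110, 229942, 29897, 4035, 255]

def K13 : List ℕ := [2896134, 6627601, 10293314, 6308893, 4272932, 14683658, 2136289, 1837110, 229942, 29897, 4035, 255]

theorem chk13 : chkLeaf 0 K13 [0, 1, 2, 3, 4, 8, 22, 5, 19, 15, 7, 17, 6, 14, 16, 13, 11, 21, 18, 10, 12, 20, 23, 9] = true := by decide +kernel

theorem chk12 : chkLeaf 0 K12 [0, 1, 2, 3, 4, 8, 22, 5, 20, 15, 7, 17, 6, 14, 16, 13, 11, 21, 18, 10, 12, 19, 23, 9] = true := by decide +kernel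

theorem cands11 : cands 24 K11 536834 = [(603395, 24), (2896134, 24)] := by decide +kernel

theorem chk11 : chkBranch 0 24 K11 536834 = true := by decide +kernel

theorem rel11_0 : chkRelabel 0 24 K12 24 (603395 :: K11) [0, 1, 2, 3, 4, 5, 6, 7, 8, 9, 10, 11, 12, 13, 14, 15, 16, 17, 18, 19, 20, 21, 22, 23] = true := by decide +kernel

theorem rel11_1 : chkRelabel 0 24 K13 24 (2896134 :: K11) [0, 1, 2, 3, 4, 5, 6, 7, 8, 9, 10, 11, 12, 13, 14, 15, 16, 17, 18, 19, 20, 21, 22, 23] = true := by decide +kernel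

theorem cands10 : cands 24 K10 6291729 = [(6627601, 24), (6889745, 24), (7414033, 24)] := by decide +kernel

theorem chk10 : chkBranch 0 24 K10 6291729 = true := by decide +kernel

theorem rel10_0 : chkRelabel 0 24 K11 24 (6627601 :: K10) [0, 1, 2, 3, 4, 5, 6, 7, 8, 9, 10, 11, 12, 13, 14, 15, 16, 17, 18, 19, 20, 21, 22, 23] = true := by decide +kernel

theorem rel10_1 : chkRelabel 0 24 K11 24 (6889745 :: K10) [0, 1, 2, 3, 4, 5, 6, 7, 8, 9, 10, 11, 12, 13, 14, 15, 16, 17, 19, 18, 20, 21, 22, 23] = true := by decide +kernel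

theorem rel10_2 : chkRelabel 0 24 K11 24 (7414033 :: K10) [0, 1, 2, 3, 4, 5, 6, 7, 8, 9, 10, 11, 12, 13, 14, 15, 16, 17, 20, 18, 19, 21, 22, 23] = true := by decide +kernel

theorem cands9 : cands 24 K9 10027010 = [(10293314, 24), (10293378, 24)] := by decide +kernel

theorem chk9 : chkBranch 0 24 K9 10027010 = true := by decide +kernel

theorem rel9_0 : chkRelabel 0 24 K10 24 (10293314 :: K9) [0, 1, 2, 3, 4, 5, 6, 7, 8, 9, 10, 11, 12, 13, 14, 15, 16, 17, 18, 19, 20, 21, 22, 23] = true := by decide +kernel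

theorem rel9_1 : chkRelabel 0 24 K10 24 (10293378 :: K9) [0, 1, 2, 3, 4, 5, 7, 6, 8, 9, 10, 11, 12, 13, 14, 15, 16, 17, 18, 19, 20, 21, 22, 23] = true := by decide +kernel

theorem cands8 : cands 24 K8 6307864 = [(6308893, 24), (6308956, 24), (6309020, 24), (6316059, 24), (6316122, 24), (6316186, 24)] := by decide +kernel

theorem chk8 : chkBranch 0 24 K8 6307864 = true := by decide +kernel

theorem rel8_0 : chkRelabel 0 24 K9 24 (6308893 :: K8) [0, 1, 2, 3, 4, 5, 6, 7, 8, 9, 10, 11, 12, 13, 14, 15, 16, 17, 18, 19, 20, 21, 22, 23] = true := by decide +kernel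

theorem rel8_1 : chkRelabel 0 24 K9 24 (6308956 :: K8) [6, 1, 2, 3, 4, 5, 0, 7, 8, 9, 10, 11, 12, 13, 14, 15, 16, 17, 18, 19, 20, 21, 22, 23] = true := by decide +kernel

theorem rel8_2 : chkRelabel 0 24 K9 24 (6309020 :: K8) [7, 1, 2, 3, 4, 5, 0, 6, 8, 9, 10, 11, 12, 13, 14, 15, 16, 17, 18, 19, 20, 21, 22, 23] = true := by decide +kernel

theorem rel8_3 : chkRelabel 0 24 K9 24 (6316059 :: K8) [0, 10, 13, 3, 14, 12, 6, 7, 8, 9, 1, 11, 5, 2, 4, 15, 16, 17, 18, 19, 20, 21, 22, 23] = true := by decide +kernel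

theorem rel8_4 : chkRelabel 0 24 K9 24 (6316122 :: K8) [6, 10, 13, 3, 14, 12, 0, 7, 8, 9, 1, 11, 5, 2, 4, 15, 16, 17, 18, 19, 20, 21, 22, 23] = true := by decide +kernel

theorem rel8_5 : chkRelabel 0 24 K9 24 (6316186 :: K8) [7, 10, 13, 3, 14, 12, 0, 6, 8, 9, 1, 11, 5, 2, 4, 15, 16, 17, 18, 19, 20, 21, 22, 23] = true := by decide +kernel

theorem cands7 : cands 24 K7 70432 = [(4272932, 24), (4272944, 24), (4281124, 24), (4281136, 24), (8467236, 24), (8467248, 24), (8475428, 24), (8475440, 24)] := by decide +kernel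

theorem chk7 : chkBranch 0 24 K7 70432 = true := by decide +kernel

theorem rel7_0 : chkRelabel 0 24 K8 24 (4272932 :: K7) [0, 1, 2, 3, 4, 5, 6, 7, 8, 9, 10, 11, 12, 13, 14, 15, 16, 17, 18, 19, 20, 21, 22, 23] = true := by decide +kernel

theorem rel7_1 : chkRelabel 0 24 K8 24 (4272944 :: K7) [0, 1, 4, 3, 2, 5, 6, 7, 8, 9, 10, 11, 12, 13, 14, 15, 16, 17, 18, 19, 20, 21, 22, 23] = true := by decide +kernel

theorem rel7_2 : chkRelabel 0 24 K8 24 (4281124 :: K7) [0, 1, 2, 3, 4, 5, 6, 7, 8, 9, 10, 11, 12, 14, 13, 15, 16, 17, 18, 19, 20, 21, 22, 23] = true := by decide +kernel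

theorem rel7_3 : chkRelabel 0 24 K8 24 (4281136 :: K7) [0, 1, 4, 3, 2, 5, 6, 7, 8, 9, 10, 11, 12, 14, 13, 15, 16, 17, 18, 19, 20, 21, 22, 23] = true := by decide +kernel

theorem rel7_4 : chkRelabel 0 24 K8 24 (8467236 :: K7) [0, 1, 2, 3, 4, 5, 6, 7, 8, 9, 10, 11, 12, 13, 14, 15, 16, 17, 18, 19, 20, 21, 23, 22] = true := by decide +kernel

theorem rel7_5 : chkRelabel 0 24 K8 24 (8467248 :: K7) [0, 1, 4, 3, 2, 5, 6, 7, 8, 9, 10, 11, 12, 13, 14, 15, 16, 17, 18, 19, 20, 21, 23, 22] = true := by decide +kernel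

theorem rel7_6 : chkRelabel 0 24 K8 24 (8475428 :: K7) [0, 1, 2, 3, 4, 5, 6, 7, 8, 9, 10, 11, 12, 14, 13, 15, 16, 17, 18, 19, 20, 21, 23, 22] = true := by decide +kernel

theorem rel7_7 : chkRelabel 0 24 K8 24 (8475440 :: K7) [0, 1, 4, 3, 2, 5, 6, 7, 8, 9, 10, 11, 12, 14, 13, 15, 16, 17, 18, 19, 20, 21, 23, 22] = true := by decide +kernel

theorem cands6 : cands 22 K6 2100738 = [(14683658, 24)] := by decide +kernel

theorem chk6 : chkBranch 0 22 K6 2100738 = true := by decide +kernel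

theorem rel6_0 : chkRelabel 0 24 K7 24 (14683658 :: K6) [0, 1, 2, 3, 4, 5, 6, 7, 8, 9, 10, 11, 12, 13, 14, 15, 16, 17, 18, 19, 20, 21, 22, 23] = true := by decide +kernel

theorem cands5 : cands 21 K5 2273 = [(2136289, 22), (2140385, 22), (2148577, 22), (2169057, 22), (2173153, 22), (2181345, 22), (2234593, 22), (2238689, 22), (2246881, 22)] := by decide +kernel

theorem chk5 : chkBranch 0 21 K5 2273 = true := by decide +kernel

theorem rel5_0 : chkRelabel 0 22 K6 22 (2136289 :: K5) [0, 1, 2, 3, 4, 5, 6, 7, 8, 9, 10, 11, 12, 13, 14, 15, 16, 17, 18, 19, 20, 21] = true := by decide +kernel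

theorem rel5_1 : chkRelabel 0 22 K6 22 (2140385 :: K5) [0, 1, 2, 3, 4, 5, 6, 7, 8, 9, 10, 11, 13, 12, 14, 15, 16, 17, 18, 19, 20, 21] = true := by decide +kernel

theorem rel5_2 : chkRelabel 0 22 K6 22 (2148577 :: K5) [0, 1, 2, 3, 4, 5, 6, 7, 8, 9, 10, 11, 14, 12, 13, 15, 16, 17, 18, 19, 20, 21] = true := by decide +kernel

theorem rel5_3 : chkRelabel 0 22 K6 22 (2169057 :: K5) [0, 1, 2, 3, 4, 5, 6, 7, 8, 9, 10, 11, 12, 13, 14, 16, 15, 17, 18, 19, 20, 21] = true := by decide +kernel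

theorem rel5_4 : chkRelabel 0 22 K6 22 (2173153 :: K5) [0, 1, 2, 3, 4, 5, 6, 7, 8, 9, 10, 11, 13, 12, 14, 16, 15, 17, 18, 19, 20, 21] = true := by decide +kernel

theorem rel5_5 : chkRelabel 0 22 K6 22 (2181345 :: K5) [0, 1, 2, 3, 4, 5, 6, 7, 8, 9, 10, 11, 14, 12, 13, 16, 15, 17, 18, 19, 20, 21] = true := by decide +kernel

theorem rel5_6 : chkRelabel 0 22 K6 22 (2234593 :: K5) [0, 1, 2, 3, 4, 5, 6, 7, 8, 9, 10, 11, 12, 13, 14, 17, 15, 16, 18, 19, 20, 21] = true := by decide +kernel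

theorem rel5_7 : chkRelabel 0 22 K6 22 (2238689 :: K5) [0, 1, 2, 3, 4, 5, 6, 7, 8, 9, 10, 11, 13, 12, 14, 17, 15, 16, 18, 19, 20, 21] = true := by decide +kernel

theorem rel5_8 : chkRelabel 0 22 K6 22 (2246881 :: K5) [0, 1, 2, 3, 4, 5, 6, 7, 8, 9, 10, 11, 14, 12, 13, 17, 15, 16, 18, 19, 20, 21] = true := by decide +kernel

theorem cands4 : cands 18 K4 2102 = [(1837110, 21)] := by decide +kernel

theorem chk4 : chkBranch 0 18 K4 2102 = true := by decide +kernel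

theorem rel4_0 : chkRelabel 0 21 K5 21 (1837110 :: K4) [0, 1, 2, 3, 4, 5, 6, 7, 8, 9, 10, 11, 12, 13, 14, 15, 16, 17, 18, 19, 20] = true := by decide +kernel

theorem cands3 : cands 15 K3 566 = [(229942, 18)] := by decide +kernel

theorem chk3 : chkBranch 0 15 K3 566 = true := by decide +kernel

theorem rel3_0 : chkRelabel 0 18 K4 18 (229942 :: K3) [0, 1, 2, 3, 4, 5, 6, 7, 8, 9, 10, 11, 12, 13, 14, 15, 16, 17] = true := by decide +kernel

theorem cands2 : cands 12 K2 1225 = [(29897, 15)] := by decide +kernel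

theorem chk2 : chkBranch 0 12 K2 1225 = true := by decide +kernel

theorem rel2_0 : chkRelabel 0 15 K3 15 (29897 :: K2) [0, 1, 2, 3, 4, 5, 6, 7, 8, 9, 10, 11, 12, 13, 14] = true := by decide +kernel

theorem cands1 : cands 9 K1 451 = [(4035, 12)] := by decide +kernel

theorem chk1 : chkBranch 0 9 K1 451 = true := by decide +kernel

theorem rel1_0 : chkRelabel 0 12 K2 12 (4035 :: K1) [0, 1, 2, 3, 4, 5, 6, 7, 8, 9, 10, 11] = true := by decide +kernel

section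
variable {A : Type*} [DecidableEq A] [Fintype A] (Y : Sys A) (hz : Y.z = 0)
include hz

theorem node13 : Good Y (Main Y) 24 K13 := leaf Y hz chk13

theorem node12 : Good Y (Main Y) 24 K12 := leaf Y hz chk12

theorem node11 : Good Y (Main Y) 24 K11 := by
  refine branch' Y (Main Y) hz chk11 ?_
  rw [cands11]
  intro c hc
  simp only [List.mem_cons, List.not_mem_nil, or_false] at hc
  rcases hc with rfl | rfl
  · exact relabel Y (Main Y) [0, 1, 2, 3, 4, 5, 6, 7, 8, 9, 10, 11, 12, 13, 14, 15, 16, 17, 18, 19, 20, 21, 22, 23] hz rel11_0 (node12 Y hz)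
  · exact relabel Y (Main Y) [0, 1, 2, 3, 4, 5, 6, 7, 8, 9, 10, 11, 12, 13, 14, 15, 16, 17, 18, 19, 20, 21, 22, 23] hz rel11_1 (node13 Y hz)

theorem node10 : Good Y (Main Y) 24 K10 := by
  refine branch' Y (Main Y) hz chk10 ?_
  rw [cands10]
  intro c hc
  simp only [List.mem_cons, List.not_mem_nil, or_false] at hc
  rcases hc with rfl | rfl | rfl
  · exact relabel Y (Main Y) [0, 1, 2, 3, 4, 5, 6, 7, 8, 9, 10, 11, 12, 13, 14, 15, 16, 17, 18, 19, 20, 21, 22, 23] hz rel10_0 (node11 Y hz)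
  · exact relabel Y (Main Y) [0, 1, 2, 3, 4, 5, 6, 7, 8, 9, 10, 11, 12, 13, 14, 15, 16, 17, 19, 18, 20, 21, 22, 23] hz rel10_1 (node11 Y hz)
  · exact relabel Y (Main Y) [0, 1, 2, 3, 4, 5, 6, 7, 8, 9, 10, 11, 12, 13, 14, 15, 16, 17, 20, 18, 19, 21, 22, 23] hz rel10_2 (node11 Y hz)

theorem node9 : Good Y (Main Y) 24 K9 := by
  refine branch' Y (Main Y) hz chk9 ?_
  rw [cands9]
  intro c hc
  simp only [List.mem_cons, List.not_mem_nil, or_false] at hc
  rcases hc with rfl | rfl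
  · exact relabel Y (Main Y) [0, 1, 2, 3, 4, 5, 6, 7, 8, 9, 10, 11, 12, 13, 14, 15, 16, 17, 18, 19, 20, 21, 22, 23] hz rel9_0 (node10 Y hz)
  · exact relabel Y (Main Y) [0, 1, 2, 3, 4, 5, 7, 6, 8, 9, 10, 11, 12, 13, 14, 15, 16, 17, 18, 19, 20, 21, 22, 23] hz rel9_1 (node10 Y hz)

theorem node8 : Good Y (Main Y) 24 K8 := by
  refine branch' Y (Main Y) hz chk8 ?_
  rw [cands8]
  intro c hc
  simp only [List.mem_cons, List.not_mem_nil, or_false] at hc
  rcases hc with rfl | rfl | rfl | rfl | rfl | rfl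
  · exact relabel Y (Main Y) [0, 1, 2, 3, 4, 5, 6, 7, 8, 9, 10, 11, 12, 13, 14, 15, 16, 17, 18, 19, 20, 21, 22, 23] hz rel8_0 (node9 Y hz)
  · exact relabel Y (Main Y) [6, 1, 2, 3, 4, 5, 0, 7, 8, 9, 10, 11, 12, 13, 14, 15, 16, 17, 18, 19, 20, 21, 22, 23] hz rel8_1 (node9 Y hz)
  · exact relabel Y (Main Y) [7, 1, 2, 3, 4, 5, 0, 6, 8, 9, 10, 11, 12, 13, 14, 15, 16, 17, 18, 19, 20, 21, 22, 23] hz rel8_2 (node9 Y hz)
  · exact relabel Y (Main Y) [0, 10, 13, 3, 14, 12, 6, 7, 8, 9, 1, 11, 5, 2, 4, 15, 16, 17, 18, 19, 20, 21, 22, 23] hz rel8_3 (node9 Y hz)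
  · exact relabel Y (Main Y) [6, 10, 13, 3, 14, 12, 0, 7, 8, 9, 1, 11, 5, 2, 4, 15, 16, 17, 18, 19, 20, 21, 22, 23] hz rel8_4 (node9 Y hz)
  · exact relabel Y (Main Y) [7, 10, 13, 3, 14, 12, 0, 6, 8, 9, 1, 11, 5, 2, 4, 15, 16, 17, 18, 19, 20, 21, 22, 23] hz rel8_5 (node9 Y hz)

theorem node7 : Good Y (Main Y) 24 K7 := by
  refine branch' Y (Main Y) hz chk7 ?_
  rw [cands7]
  intro c hc
  simp only [List.mem_cons, List.not_mem_nil, or_false] at hc
  rcases hc with rfl | rfl | rfl | rfl | rfl | rfl | rfl | rfl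
  · exact relabel Y (Main Y) [0, 1, 2, 3, 4, 5, 6, 7, 8, 9, 10, 11, 12, 13, 14, 15, 16, 17, 18, 19, 20, 21, 22, 23] hz rel7_0 (node8 Y hz)
  · exact relabel Y (Main Y) [0, 1, 4, 3, 2, 5, 6, 7, 8, 9, 10, 11, 12, 13, 14, 15, 16, 17, 18, 19, 20, 21, 22, 23] hz rel7_1 (node8 Y hz)
  · exact relabel Y (Main Y) [0, 1, 2, 3, 4, 5, 6, 7, 8, 9, 10, 11, 12, 14, 13, 15, 16, 17, 18, 19, 20, 21, 22, 23] hz rel7_2 (node8 Y hz)
  · exact relabel Y (Main Y) [0, 1, 4, 3, 2, 5, 6, 7, 8, 9, 10, 11, 12, 14, 13, 15, 16, 17, 18, 19, 20, 21, 22, 23] hz rel7_3 (node8 Y hz)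
  · exact relabel Y (Main Y) [0, 1, 2, 3, 4, 5, 6, 7, 8, 9, 10, 11, 12, 13, 14, 15, 16, 17, 18, 19, 20, 21, 23, 22] hz rel7_4 (node8 Y hz)
  · exact relabel Y (Main Y) [0, 1, 4, 3, 2, 5, 6, 7, 8, 9, 10, 11, 12, 13, 14, 15, 16, 17, 18, 19, 20, 21, 23, 22] hz rel7_5 (node8 Y hz)
  · exact relabel Y (Main Y) [0, 1, 2, 3, 4, 5, 6, 7, 8, 9, 10, 11, 12, 14, 13, 15, 16, 17, 18, 19, 20, 21, 23, 22] hz rel7_6 (node8 Y hz)
  · exact relabel Y (Main Y) [0, 1, 4, 3, 2, 5, 6, 7, 8, 9, 10, 11, 12, 14, 13, 15, 16, 17, 18, 19, 20, 21, 23, 22] hz rel7_7 (node8 Y hz)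

theorem node6 : Good Y (Main Y) 22 K6 := by
  refine branch' Y (Main Y) hz chk6 ?_
  rw [cands6]
  intro c hc
  simp only [List.mem_cons, List.not_mem_nil, or_false] at hc
  rcases hc with rfl
  · exact relabel Y (Main Y) [0, 1, 2, 3, 4, 5, 6, 7, 8, 9, 10, 11, 12, 13, 14, 15, 16, 17, 18, 19, 20, 21, 22, 23] hz rel6_0 (node7 Y hz)

theorem node5 : Good Y (Main Y) 21 K5 := by
  refine branch' Y (Main Y) hz chk5 ?_
  rw [cands5]
  intro c hc
  simp only [List.mem_cons, List.not_mem_nil, or_false] at hc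
  rcases hc with rfl | rfl | rfl | rfl | rfl | rfl | rfl | rfl | rfl
  · exact relabel Y (Main Y) [0, 1, 2, 3, 4, 5, 6, 7, 8, 9, 10, 11, 12, 13, 14, 15, 16, 17, 18, 19, 20, 21] hz rel5_0 (node6 Y hz)
  · exact relabel Y (Main Y) [0, 1, 2, 3, 4, 5, 6, 7, 8, 9, 10, 11, 13, 12, 14, 15, 16, 17, 18, 19, 20, 21] hz rel5_1 (node6 Y hz)
  · exact relabel Y (Main Y) [0, 1, 2, 3, 4, 5, 6, 7, 8, 9, 10, 11, 14, 12, 13, 15, 16, 17, 18, 19, 20, 21] hz rel5_2 (node6 Y hz)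
  · exact relabel Y (Main Y) [0, 1, 2, 3, 4, 5, 6, 7, 8, 9, 10, 11, 12, 13, 14, 16, 15, 17, 18, 19, 20, 21] hz rel5_3 (node6 Y hz)
  · exact relabel Y (Main Y) [0, 1, 2, 3, 4, 5, 6, 7, 8, 9, 10, 11, 13, 12, 14, 16, 15, 17, 18, 19, 20, 21] hz rel5_4 (node6 Y hz)
  · exact relabel Y (Main Y) [0, 1, 2, 3, 4, 5, 6, 7, 8, 9, 10, 11, 14, 12, 13, 16, 15, 17, 18, 19, 20, 21] hz rel5_5 (node6 Y hz)
  · exact relabel Y (Main Y) [0, 1, 2, 3, 4, 5, 6, 7, 8, 9, 10, 11, 12, 13, 14, 17, 15, 16, 18, 19, 20, 21] hz rel5_6 (node6 Y hz)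
  · exact relabel Y (Main Y) [0, 1, 2, 3, 4, 5, 6, 7, 8, 9, 10, 11, 13, 12, 14, 17, 15, 16, 18, 19, 20, 21] hz rel5_7 (node6 Y hz)
  · exact relabel Y (Main Y) [0, 1, 2, 3, 4, 5, 6, 7, 8, 9, 10, 11, 14, 12, 13, 17, 15, 16, 18, 19, 20, 21] hz rel5_8 (node6 Y hz)

theorem node4 : Good Y (Main Y) 18 K4 := by
  refine branch' Y (Main Y) hz chk4 ?_
  rw [cands4]
  intro c hc
  simp only [List.mem_cons, List.not_mem_nil, or_false] at hc
  rcases hc with rfl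
  · exact relabel Y (Main Y) [0, 1, 2, 3, 4, 5, 6, 7, 8, 9, 10, 11, 12, 13, 14, 15, 16, 17, 18, 19, 20] hz rel4_0 (node5 Y hz)

theorem node3 : Good Y (Main Y) 15 K3 := by
  refine branch' Y (Main Y) hz chk3 ?_
  rw [cands3]
  intro c hc
  simp only [List.mem_cons, List.not_mem_nil, or_false] at hc
  rcases hc with rfl
  · exact relabel Y (Main Y) [0, 1, 2, 3, 4, 5, 6, 7, 8, 9, 10, 11, 12, 13, 14, 15, 16, 17] hz rel3_0 (node4 Y hz)

theorem node2 : Good Y (Main Y) 12 K2 := by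
  refine branch' Y (Main Y) hz chk2 ?_
  rw [cands2]
  intro c hc
  simp only [List.mem_cons, List.not_mem_nil, or_false] at hc
  rcases hc with rfl
  · exact relabel Y (Main Y) [0, 1, 2, 3, 4, 5, 6, 7, 8, 9, 10, 11, 12, 13, 14] hz rel2_0 (node3 Y hz)

theorem node1 : Good Y (Main Y) 9 K1 := by
  refine branch' Y (Main Y) hz chk1 ?_
  rw [cands1]
  intro c hc
  simp only [List.mem_cons, List.not_mem_nil, or_false] at hc
  rcases hc with rfl
  · exact relabel Y (Main Y) [0, 1, 2, 3, 4, 5, 6, 7, 8, 9, 10, 11] hz rel1_0 (node2 Y hz)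

theorem node0 : Good Y (Main Y) 8 K0 := addpt Y (Main Y) (K := K0) hz (by decide +kernel) (node1 Y hz)

theorem main_thm : Main Y := start Y (Main Y) (by rw [hz]; norm_num) (node0 Y hz)

end

end Cfsg.Agent.Lib.SteinerCert0
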