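import Cfsg.Agent.Lib.SteinerSearch

/-! Certificate of the labeling search, with 1 fixed points. Generated. -/

set_option autoImplicit false
set_option maxRecDepth 100000

namespace Cfsg.Agent.Lib.SteinerCert1

open Cfsg Cfsg.Agent.Lib.SteinerSearch

def K0 : List ℕ := [255]

def K1 : List ℕ := [255]

def K2 : List ℕ := [3915, 255]

def K3 : List ℕ := [31493, 3915, 255]

def K4 : List ℕ := [230477, 31493, 3915, 255]

def K5 : List ℕ := [854801, 230477, 31493, 3915, 255]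

def K6 : List ℕ := [3244167, 854801, 230477, 31493, 3915, 255]

def K7 : List ℕ := [12616853, 3244167, 854801, 230477, 31493, 3915, 255]

def K8 : List ℕ := [70935, 12616853, 3244167, 854801, 230477, 31493, 3915, 255]

def K9 : List ℕ := [562371, 70935, 12616853, 3244167, 854801, 230477, 31493, 3915, 255]

def K10 : List ℕ := [1322529, 562371, 70935, 12616853, 3244167, 854801, 230477, 31493, 3915, 255]

def K11 : List ℕ := [349761, 1322529, 562371, 70935, 12616853, 3244167, 854801, 230477, 31493, 3915, 255]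

def K12 : List ℕ := [8800771, 349761, 1322529, 562371, 70935, 12616853, 3244167, 854801, 230477, 31493, 3915, 255]

def K13 : List ℕ := [9175651, 349761, 1322529, 562371, 70935, 12616853, 3244167, 854801, 230477, 31493, 3915, 255]

def K14 : List ℕ := [3674337, 70935, 12616853, 3244167, 854801, 230477, 31493, 3915, 255]

def K15 : List ℕ := [1345713, 3674337, 70935, 12616853, 3244167, 854801, 230477, 31493, 3915, 255]

def K16 : List ℕ := [4850353, 1345713, 3674337, 70935, 12616853, 3244167, 854801, 230477, 31493, 3915, 255]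

def K17 : List ℕ := [931969, 4850353, 1345713, 3674337, 70935, 12616853, 3244167, 854801, 230477, 31493, 3915, 255]

def K18 : List ℕ := [2765073, 4850353, 1345713, 3674337, 70935, 12616853, 3244167, 854801, 230477, 31493, 3915, 255]

theorem chk18 : chkLeaf 1 K18 [0, 1, 2, 3, 4, 8, 23, 5, 14, 12, 6, 9, 7, 18, 13, 11, 19, 20, 10, 16, 21, 22, 15, 17] = true := by decide +kernel

theorem chk17 : chkLeaf 1 K17 [0, 1, 2, 3, 4, 8, 23, 5, 13, 12, 6, 9, 7, 18, 14, 11, 19, 20, 10, 16, 21, 22, 15, 17] = true := by decide +kernel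

theorem cands16 : cands 24 K16 667649 = [(931969, 24), (2765073, 24)] := by decide +kernel

theorem chk16 : chkBranch 1 24 K16 667649 = true := by decide +kernel

theorem rel16_0 : chkRelabel 1 24 K17 24 (931969 :: K16) [0, 1, 2, 3, 4, 5, 6, 7, 8, 9, 10, 11, 12, 13, 14, 15, 16, 17, 18, 19, 20, 21, 22, 23] = true := by decide +kernel

theorem rel16_1 : chkRelabel 1 24 K18 24 (2765073 :: K16) [0, 1, 2, 3, 4, 5, 6, 7, 8, 9, 10, 11, 12, 13, 14, 15, 16, 17, 18, 19, 20, 21, 22, 23] = true := by decide +kernel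

theorem cands15 : cands 24 K15 131633 = [(4850353, 24), (9044657, 24)] := by decide +kernel

theorem chk15 : chkBranch 1 24 K15 131633 = true := by decide +kernel

theorem rel15_0 : chkRelabel 1 24 K16 24 (4850353 :: K15) [0, 1, 2, 3, 4, 5, 6, 7, 8, 9, 10, 11, 12, 13, 14, 15, 16, 17, 18, 19, 20, 21, 22, 23] = true := by decide +kernel

theorem rel15_1 : chkRelabel 1 24 K16 24 (9044657 :: K15) [0, 1, 2, 3, 4, 5, 6, 7, 8, 9, 10, 11, 12, 13, 14, 15, 16, 17, 18, 19, 20, 21, 23, 22] = true := by decide +kernel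

theorem cands14 : cands 24 K14 297089 = [(1345713, 24), (2394289, 24), (4688001, 24), (8882305, 24)] := by decide +kernel

theorem chk14 : chkBranch 1 24 K14 297089 = true := by decide +kernel

theorem rel14_0 : chkRelabel 1 24 K15 24 (1345713 :: K14) [0, 1, 2, 3, 4, 5, 6, 7, 8, 9, 10, 11, 12, 13, 14, 15, 16, 17, 18, 19, 20, 21, 22, 23] = true := by decide +kernel

theorem rel14_1 : chkRelabel 1 24 K15 24 (2394289 :: K14) [0, 1, 2, 3, 4, 5, 6, 7, 8, 9, 10, 11, 12, 13, 14, 15, 16, 17, 18, 19, 21, 20, 22, 23] = true := by decide +kernel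

theorem rel14_2 : chkRelabel 1 24 K15 24 (4688001 :: K14) [0, 6, 12, 1, 18, 7, 10, 15, 8, 9, 3, 11, 2, 13, 14, 17, 19, 5, 16, 4, 22, 23, 20, 21] = true := by decide +kernel

theorem rel14_3 : chkRelabel 1 24 K15 24 (8882305 :: K14) [0, 6, 12, 1, 18, 7, 10, 15, 8, 9, 3, 11, 2, 13, 14, 17, 19, 5, 16, 4, 23, 22, 20, 21] = true := by decide +kernel

theorem chk13 : chkLeaf 1 K13 [0, 1, 2, 3, 4, 8, 22, 5, 13, 12, 6, 11, 7, 19, 14, 9, 18, 20, 10, 16, 21, 23, 15, 17] = true := by decide +kernel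

theorem chk12 : chkLeaf 1 K12 [0, 1, 2, 3, 4, 8, 23, 5, 13, 12, 6, 11, 7, 19, 14, 9, 18, 20, 10, 16, 21, 22, 15, 17] = true := by decide +kernel

theorem cands11 : cands 24 K11 8651267 = [(8800771, 24), (9175651, 24)] := by decide +kernel

theorem chk11 : chkBranch 1 24 K11 8651267 = true := by decide +kernel

theorem rel11_0 : chkRelabel 1 24 K12 24 (8800771 :: K11) [0, 1, 2, 3, 4, 5, 6, 7, 8, 9, 10, 11, 12, 13, 14, 15, 16, 17, 18, 19, 20, 21, 22, 23] = true := by decide +kernel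

theorem rel11_1 : chkRelabel 1 24 K13 24 (9175651 :: K11) [0, 1, 2, 3, 4, 5, 6, 7, 8, 9, 10, 11, 12, 13, 14, 15, 16, 17, 18, 19, 20, 21, 22, 23] = true := by decide +kernel

theorem cands10 : cands 24 K10 348161 = [(349761, 24), (351297, 24)] := by decide +kernel

theorem chk10 : chkBranch 1 24 K10 348161 = true := by decide +kernel

theorem rel10_0 : chkRelabel 1 24 K11 24 (349761 :: K10) [0, 1, 2, 3, 4, 5, 6, 7, 8, 9, 10, 11, 12, 13, 14, 15, 16, 17, 18, 19, 20, 21, 22, 23] = true := by decide +kernel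

theorem rel10_1 : chkRelabel 1 24 K11 24 (351297 :: K10) [0, 1, 2, 3, 4, 5, 6, 7, 8, 11, 10, 9, 12, 13, 14, 15, 16, 17, 18, 19, 20, 21, 22, 23] = true := by decide +kernel

theorem cands9 : cands 24 K9 265729 = [(1322529, 24), (1330721, 24), (2371105, 24), (2379297, 24)] := by decide +kernel

theorem chk9 : chkBranch 1 24 K9 265729 = true := by decide +kernel

theorem rel9_0 : chkRelabel 1 24 K10 24 (1322529 :: K9) [0, 1, 2, 3, 4, 5, 6, 7, 8, 9, 10, 11, 12, 13, 14, 15, 16, 17, 18, 19, 20, 21, 22, 23] = true := by decide +kernel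

theorem rel9_1 : chkRelabel 1 24 K10 24 (1330721 :: K9) [0, 1, 2, 3, 4, 5, 6, 7, 8, 9, 10, 11, 12, 14, 13, 15, 16, 17, 18, 19, 20, 21, 22, 23] = true := by decide +kernel

theorem rel9_2 : chkRelabel 1 24 K10 24 (2371105 :: K9) [0, 1, 2, 3, 4, 5, 6, 7, 8, 9, 10, 11, 12, 13, 14, 15, 16, 17, 18, 19, 21, 20, 22, 23] = true := by decide +kernel

theorem rel9_3 : chkRelabel 1 24 K10 24 (2379297 :: K9) [0, 1, 2, 3, 4, 5, 6, 7, 8, 9, 10, 11, 12, 14, 13, 15, 16, 17, 18, 19, 21, 20, 22, 23] = true := by decide +kernel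

theorem cands8 : cands 24 K8 528577 = [(562371, 24), (626897, 24), (3674337, 24), (13111521, 24)] := by decide +kernel

theorem chk8 : chkBranch 1 24 K8 528577 = true := by decide +kernel

theorem rel8_0 : chkRelabel 1 24 K9 24 (562371 :: K8) [0, 1, 2, 3, 4, 5, 6, 7, 8, 9, 10, 11, 12, 13, 14, 15, 16, 17, 18, 19, 20, 21, 22, 23] = true := by decide +kernel

theorem rel8_1 : chkRelabel 1 24 K9 24 (626897 :: K8) [0, 16, 2, 3, 10, 17, 6, 15, 8, 13, 4, 14, 12, 9, 11, 7, 1, 5, 18, 19, 20, 21, 22, 23] = true := by decide +kernel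

theorem rel8_2 : chkRelabel 1 24 K14 24 (3674337 :: K8) [0, 1, 2, 3, 4, 5, 6, 7, 8, 9, 10, 11, 12, 13, 14, 15, 16, 17, 18, 19, 20, 21, 22, 23] = true := by decide +kernel

theorem rel8_3 : chkRelabel 1 24 K14 24 (13111521 :: K8) [0, 4, 2, 3, 1, 5, 6, 7, 8, 13, 16, 14, 12, 9, 11, 15, 10, 17, 18, 19, 22, 23, 20, 21] = true := by decide +kernel

theorem cands7 : cands 24 K7 1047 = [(70935, 24), (71191, 24), (72727, 24), (75031, 24), (75287, 24), (76823, 24), (83223, 24), (83479, 24), (85015, 24)] := by decide +kernel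

theorem chk7 : chkBranch 1 24 K7 1047 = true := by decide +kernel

theorem rel7_0 : chkRelabel 1 24 K8 24 (70935 :: K7) [0, 1, 2, 3, 4, 5, 6, 7, 8, 9, 10, 11, 12, 13, 14, 15, 16, 17, 18, 19, 20, 21, 22, 23] = true := by decide +kernel

theorem rel7_1 : chkRelabel 1 24 K8 24 (71191 :: K7) [0, 1, 2, 3, 4, 5, 6, 7, 9, 8, 10, 11, 12, 13, 14, 15, 16, 17, 18, 19, 20, 21, 22, 23] = true := by decide +kernel

theorem rel7_2 : chkRelabel 1 24 K8 24 (72727 :: K7) [0, 1, 2, 3, 4, 5, 6, 7, 11, 8, 10, 9, 12, 13, 14, 15, 16, 17, 18, 19, 20, 21, 22, 23] = true := by decide +kernel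

theorem rel7_3 : chkRelabel 1 24 K8 24 (75031 :: K7) [0, 1, 2, 3, 4, 5, 6, 7, 8, 9, 10, 11, 13, 12, 14, 15, 16, 17, 18, 19, 20, 21, 22, 23] = true := by decide +kernel

theorem rel7_4 : chkRelabel 1 24 K8 24 (75287 :: K7) [0, 1, 2, 3, 4, 5, 6, 7, 9, 8, 10, 11, 13, 12, 14, 15, 16, 17, 18, 19, 20, 21, 22, 23] = true := by decide +kernel

theorem rel7_5 : chkRelabel 1 24 K8 24 (76823 :: K7) [0, 1, 2, 3, 4, 5, 6, 7, 11, 8, 10, 9, 13, 12, 14, 15, 16, 17, 18, 19, 20, 21, 22, 23] = true := by decide +kernel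

theorem rel7_6 : chkRelabel 1 24 K8 24 (83223 :: K7) [0, 1, 2, 3, 4, 5, 6, 7, 8, 9, 10, 11, 14, 12, 13, 15, 16, 17, 18, 19, 20, 21, 22, 23] = true := by decide +kernel

theorem rel7_7 : chkRelabel 1 24 K8 24 (83479 :: K7) [0, 1, 2, 3, 4, 5, 6, 7, 9, 8, 10, 11, 14, 12, 13, 15, 16, 17, 18, 19, 20, 21, 22, 23] = true := by decide +kernel

theorem rel7_8 : chkRelabel 1 24 K8 24 (85015 :: K7) [0, 1, 2, 3, 4, 5, 6, 7, 11, 8, 10, 9, 14, 12, 13, 15, 16, 17, 18, 19, 20, 21, 22, 23] = true := by decide +kernel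

theorem cands6 : cands 22 K6 1173 = [(12616853, 24)] := by decide +kernel

theorem chk6 : chkBranch 1 22 K6 1173 = true := by decide +kernel

theorem rel6_0 : chkRelabel 1 24 K7 24 (12616853 :: K6) [0, 1, 2, 3, 4, 5, 6, 7, 8, 9, 10, 11, 12, 13, 14, 15, 16, 17, 18, 19, 20, 21, 22, 23] = true := by decide +kernel

theorem cands5 : cands 20 K5 65671 = [(3244167, 22), (3342471, 22)] := by decide +kernel

theorem chk5 : chkBranch 1 20 K5 65671 = true := by decide +kernel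

theorem rel5_0 : chkRelabel 1 22 K6 22 (3244167 :: K5) [0, 1, 2, 3, 4, 5, 6, 7, 8, 9, 10, 11, 12, 13, 14, 15, 16, 17, 18, 19, 20, 21] = true := by decide +kernel

theorem rel5_1 : chkRelabel 1 22 K6 22 (3342471 :: K5) [0, 1, 2, 3, 4, 5, 6, 7, 8, 9, 10, 11, 12, 13, 14, 17, 16, 15, 18, 19, 20, 21] = true := by decide +kernel

theorem cands4 : cands 18 K4 68353 = [(854801, 20), (854817, 20), (854913, 20)] := by decide +kernel

theorem chk4 : chkBranch 1 18 K4 68353 = true := by decide +kernel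

theorem rel4_0 : chkRelabel 1 20 K5 20 (854801 :: K4) [0, 1, 2, 3, 4, 5, 6, 7, 8, 9, 10, 11, 12, 13, 14, 15, 16, 17, 18, 19] = true := by decide +kernel

theorem rel4_1 : chkRelabel 1 20 K5 20 (854817 :: K4) [0, 1, 2, 3, 5, 4, 6, 7, 8, 9, 10, 11, 12, 13, 14, 15, 16, 17, 18, 19] = true := by decide +kernel

theorem rel4_2 : chkRelabel 1 20 K5 20 (854913 :: K4) [0, 1, 2, 3, 7, 4, 6, 5, 8, 9, 10, 11, 12, 13, 14, 15, 16, 17, 18, 19] = true := by decide +kernel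

theorem cands3 : cands 15 K3 1101 = [(230477, 18)] := by decide +kernel

theorem chk3 : chkBranch 1 15 K3 1101 = true := by decide +kernel

theorem rel3_0 : chkRelabel 1 18 K4 18 (230477 :: K3) [0, 1, 2, 3, 4, 5, 6, 7, 8, 9, 10, 11, 12, 13, 14, 15, 16, 17] = true := by decide +kernel

theorem cands2 : cands 12 K2 2821 = [(31493, 15)] := by decide +kernel

theorem chk2 : chkBranch 1 12 K2 2821 = true := by decide +kernel

theorem rel2_0 : chkRelabel 1 15 K3 15 (31493 :: K2) [0, 1, 2, 3, 4, 5, 6, 7, 8, 9, 10, 11, 12, 13, 14] = true := by decide +kernel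

theorem cands1 : cands 9 K1 331 = [(3915, 12)] := by decide +kernel

theorem chk1 : chkBranch 1 9 K1 331 = true := by decide +kernel

theorem rel1_0 : chkRelabel 1 12 K2 12 (3915 :: K1) [0, 1, 2, 3, 4, 5, 6, 7, 8, 9, 10, 11] = true := by decide +kernel

section
variable {A : Type*} [DecidableEq A] [Fintype A] (Y : Sys A) (hz : Y.z = 1)
include hz

theorem node18 : Good Y (Main Y) 24 K18 := leaf Y hz chk18

theorem node17 : Good Y (Main Y) 24 K17 := leaf Y hz chk17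

theorem node16 : Good Y (Main Y) 24 K16 := by
  refine branch' Y (Main Y) hz chk16 ?_
  rw [cands16]
  intro c hc
  simp only [List.mem_cons, List.not_mem_nil, or_false] at hc
  rcases hc with rfl | rfl
  · exact relabel Y (Main Y) [0, 1, 2, 3, 4, 5, 6, 7, 8, 9, 10, 11, 12, 13, 14, 15, 16, 17, 18, 19, 20, 21, 22, 23] hz rel16_0 (node17 Y hz)
  · exact relabel Y (Main Y) [0, 1, 2, 3, 4, 5, 6, 7, 8, 9, 10, 11, 12, 13, 14, 15, 16, 17, 18, 19, 20, 21, 22, 23] hz rel16_1 (node18 Y hz)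

theorem node15 : Good Y (Main Y) 24 K15 := by
  refine branch' Y (Main Y) hz chk15 ?_
  rw [cands15]
  intro c hc
  simp only [List.mem_cons, List.not_mem_nil, or_false] at hc
  rcases hc with rfl | rfl
  · exact relabel Y (Main Y) [0, 1, 2, 3, 4, 5, 6, 7, 8, 9, 10, 11, 12, 13, 14, 15, 16, 17, 18, 19, 20, 21, 22, 23] hz rel15_0 (node16 Y hz)
  · exact relabel Y (Main Y) [0, 1, 2, 3, 4, 5, 6, 7, 8, 9, 10, 11, 12, 13, 14, 15, 16, 17, 18, 19, 20, 21, 23, 22] hz rel15_1 (node16 Y hz)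

theorem node14 : Good Y (Main Y) 24 K14 := by
  refine branch' Y (Main Y) hz chk14 ?_
  rw [cands14]
  intro c hc
  simp only [List.mem_cons, List.not_mem_nil, or_false] at hc
  rcases hc with rfl | rfl | rfl | rfl
  · exact relabel Y (Main Y) [0, 1, 2, 3, 4, 5, 6, 7, 8, 9, 10, 11, 12, 13, 14, 15, 16, 17, 18, 19, 20, 21, 22, 23] hz rel14_0 (node15 Y hz)
  · exact relabel Y (Main Y) [0, 1, 2, 3, 4, 5, 6, 7, 8, 9, 10, 11, 12, 13, 14, 15, 16, 17, 18, 19, 21, 20, 22, 23] hz rel14_1 (node15 Y hz)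
  · exact relabel Y (Main Y) [0, 6, 12, 1, 18, 7, 10, 15, 8, 9, 3, 11, 2, 13, 14, 17, 19, 5, 16, 4, 22, 23, 20, 21] hz rel14_2 (node15 Y hz)
  · exact relabel Y (Main Y) [0, 6, 12, 1, 18, 7, 10, 15, 8, 9, 3, 11, 2, 13, 14, 17, 19, 5, 16, 4, 23, 22, 20, 21] hz rel14_3 (node15 Y hz)

theorem node13 : Good Y (Main Y) 24 K13 := leaf Y hz chk13

theorem node12 : Good Y (Main Y) 24 K12 := leaf Y hz chk12

theorem node11 : Good Y (Main Y) 24 K11 := by
  refine branch' Y (Main Y) hz chk11 ?_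
  rw [cands11]
  intro c hc
  simp only [List.mem_cons, List.not_mem_nil, or_false] at hc
  rcases hc with rfl | rfl
  · exact relabel Y (Main Y) [0, 1, 2, 3, 4, 5, 6, 7, 8, 9, 10, 11, 12, 13, 14, 15, 16, 17, 18, 19, 20, 21, 22, 23] hz rel11_0 (node12 Y hz)
  · exact relabel Y (Main Y) [0, 1, 2, 3, 4, 5, 6, 7, 8, 9, 10, 11, 12, 13, 14, 15, 16, 17, 18, 19, 20, 21, 22, 23] hz rel11_1 (node13 Y hz)

theorem node10 : Good Y (Main Y) 24 K10 := by
  refine branch' Y (Main Y) hz chk10 ?_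
  rw [cands10]
  intro c hc
  simp only [List.mem_cons, List.not_mem_nil, or_false] at hc
  rcases hc with rfl | rfl
  · exact relabel Y (Main Y) [0, 1, 2, 3, 4, 5, 6, 7, 8, 9, 10, 11, 12, 13, 14, 15, 16, 17, 18, 19, 20, 21, 22, 23] hz rel10_0 (node11 Y hz)
  · exact relabel Y (Main Y) [0, 1, 2, 3, 4, 5, 6, 7, 8, 11, 10, 9, 12, 13, 14, 15, 16, 17, 18, 19, 20, 21, 22, 23] hz rel10_1 (node11 Y hz)

theorem node9 : Good Y (Main Y) 24 K9 := by
  refine branch' Y (Main Y) hz chk9 ?_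
  rw [cands9]
  intro c hc
  simp only [List.mem_cons, List.not_mem_nil, or_false] at hc
  rcases hc with rfl | rfl | rfl | rfl
  · exact relabel Y (Main Y) [0, 1, 2, 3, 4, 5, 6, 7, 8, 9, 10, 11, 12, 13, 14, 15, 16, 17, 18, 19, 20, 21, 22, 23] hz rel9_0 (node10 Y hz)
  · exact relabel Y (Main Y) [0, 1, 2, 3, 4, 5, 6, 7, 8, 9, 10, 11, 12, 14, 13, 15, 16, 17, 18, 19, 20, 21, 22, 23] hz rel9_1 (node10 Y hz)
  · exact relabel Y (Main Y) [0, 1, 2, 3, 4, 5, 6, 7, 8, 9, 10, 11, 12, 13, 14, 15, 16, 17, 18, 19, 21, 20, 22, 23] hz rel9_2 (node10 Y hz)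
  · exact relabel Y (Main Y) [0, 1, 2, 3, 4, 5, 6, 7, 8, 9, 10, 11, 12, 14, 13, 15, 16, 17, 18, 19, 21, 20, 22, 23] hz rel9_3 (node10 Y hz)

theorem node8 : Good Y (Main Y) 24 K8 := by
  refine branch' Y (Main Y) hz chk8 ?_
  rw [cands8]
  intro c hc
  simp only [List.mem_cons, List.not_mem_nil, or_false] at hc
  rcases hc with rfl | rfl | rfl | rfl
  · exact relabel Y (Main Y) [0, 1, 2, 3, 4, 5, 6, 7, 8, 9, 10, 11, 12, 13, 14, 15, 16, 17, 18, 19, 20, 21, 22, 23] hz rel8_0 (node9 Y hz)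
  · exact relabel Y (Main Y) [0, 16, 2, 3, 10, 17, 6, 15, 8, 13, 4, 14, 12, 9, 11, 7, 1, 5, 18, 19, 20, 21, 22, 23] hz rel8_1 (node9 Y hz)
  · exact relabel Y (Main Y) [0, 1, 2, 3, 4, 5, 6, 7, 8, 9, 10, 11, 12, 13, 14, 15, 16, 17, 18, 19, 20, 21, 22, 23] hz rel8_2 (node14 Y hz)
  · exact relabel Y (Main Y) [0, 4, 2, 3, 1, 5, 6, 7, 8, 13, 16, 14, 12, 9, 11, 15, 10, 17, 18, 19, 22, 23, 20, 21] hz rel8_3 (node14 Y hz)

theorem node7 : Good Y (Main Y) 24 K7 := by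
  refine branch' Y (Main Y) hz chk7 ?_
  rw [cands7]
  intro c hc
  simp only [List.mem_cons, List.not_mem_nil, or_false] at hc
  rcases hc with rfl | rfl | rfl | rfl | rfl | rfl | rfl | rfl | rfl
  · exact relabel Y (Main Y) [0, 1, 2, 3, 4, 5, 6, 7, 8, 9, 10, 11, 12, 13, 14, 15, 16, 17, 18, 19, 20, 21, 22, 23] hz rel7_0 (node8 Y hz)
  · exact relabel Y (Main Y) [0, 1, 2, 3, 4, 5, 6, 7, 9, 8, 10, 11, 12, 13, 14, 15, 16, 17, 18, 19, 20, 21, 22, 23] hz rel7_1 (node8 Y hz)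
  · exact relabel Y (Main Y) [0, 1, 2, 3, 4, 5, 6, 7, 11, 8, 10, 9, 12, 13, 14, 15, 16, 17, 18, 19, 20, 21, 22, 23] hz rel7_2 (node8 Y hz)
  · exact relabel Y (Main Y) [0, 1, 2, 3, 4, 5, 6, 7, 8, 9, 10, 11, 13, 12, 14, 15, 16, 17, 18, 19, 20, 21, 22, 23] hz rel7_3 (node8 Y hz)
  · exact relabel Y (Main Y) [0, 1, 2, 3, 4, 5, 6, 7, 9, 8, 10, 11, 13, 12, 14, 15, 16, 17, 18, 19, 20, 21, 22, 23] hz rel7_4 (node8 Y hz)
  · exact relabel Y (Main Y) [0, 1, 2, 3, 4, 5, 6, 7, 11, 8, 10, 9, 13, 12, 14, 15, 16, 17, 18, 19, 20, 21, 22, 23] hz rel7_5 (node8 Y hz)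
  · exact relabel Y (Main Y) [0, 1, 2, 3, 4, 5, 6, 7, 8, 9, 10, 11, 14, 12, 13, 15, 16, 17, 18, 19, 20, 21, 22, 23] hz rel7_6 (node8 Y hz)
  · exact relabel Y (Main Y) [0, 1, 2, 3, 4, 5, 6, 7, 9, 8, 10, 11, 14, 12, 13, 15, 16, 17, 18, 19, 20, 21, 22, 23] hz rel7_7 (node8 Y hz)
  · exact relabel Y (Main Y) [0, 1, 2, 3, 4, 5, 6, 7, 11, 8, 10, 9, 14, 12, 13, 15, 16, 17, 18, 19, 20, 21, 22, 23] hz rel7_8 (node8 Y hz)

theorem node6 : Good Y (Main Y) 22 K6 := by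
  refine branch' Y (Main Y) hz chk6 ?_
  rw [cands6]
  intro c hc
  simp only [List.mem_cons, List.not_mem_nil, or_false] at hc
  rcases hc with rfl
  · exact relabel Y (Main Y) [0, 1, 2, 3, 4, 5, 6, 7, 8, 9, 10, 11, 12, 13, 14, 15, 16, 17, 18, 19, 20, 21, 22, 23] hz rel6_0 (node7 Y hz)

theorem node5 : Good Y (Main Y) 20 K5 := by
  refine branch' Y (Main Y) hz chk5 ?_
  rw [cands5]
  intro c hc
  simp only [List.mem_cons, List.not_mem_nil, or_false] at hc
  rcases hc with rfl | rfl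
  · exact relabel Y (Main Y) [0, 1, 2, 3, 4, 5, 6, 7, 8, 9, 10, 11, 12, 13, 14, 15, 16, 17, 18, 19, 20, 21] hz rel5_0 (node6 Y hz)
  · exact relabel Y (Main Y) [0, 1, 2, 3, 4, 5, 6, 7, 8, 9, 10, 11, 12, 13, 14, 17, 16, 15, 18, 19, 20, 21] hz rel5_1 (node6 Y hz)

theorem node4 : Good Y (Main Y) 18 K4 := by
  refine branch' Y (Main Y) hz chk4 ?_
  rw [cands4]
  intro c hc
  simp only [List.mem_cons, List.not_mem_nil, or_false] at hc
  rcases hc with rfl | rfl | rfl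
  · exact relabel Y (Main Y) [0, 1, 2, 3, 4, 5, 6, 7, 8, 9, 10, 11, 12, 13, 14, 15, 16, 17, 18, 19] hz rel4_0 (node5 Y hz)
  · exact relabel Y (Main Y) [0, 1, 2, 3, 5, 4, 6, 7, 8, 9, 10, 11, 12, 13, 14, 15, 16, 17, 18, 19] hz rel4_1 (node5 Y hz)
  · exact relabel Y (Main Y) [0, 1, 2, 3, 7, 4, 6, 5, 8, 9, 10, 11, 12, 13, 14, 15, 16, 17, 18, 19] hz rel4_2 (node5 Y hz)

theorem node3 : Good Y (Main Y) 15 K3 := by
  refine branch' Y (Main Y) hz chk3 ?_
  rw [cands3]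
  intro c hc
  simp only [List.mem_cons, List.not_mem_nil, or_false] at hc
  rcases hc with rfl
  · exact relabel Y (Main Y) [0, 1, 2, 3, 4, 5, 6, 7, 8, 9, 10, 11, 12, 13, 14, 15, 16, 17] hz rel3_0 (node4 Y hz)

theorem node2 : Good Y (Main Y) 12 K2 := by
  refine branch' Y (Main Y) hz chk2 ?_
  rw [cands2]
  intro c hc
  simp only [List.mem_cons, List.not_mem_nil, or_false] at hc
  rcases hc with rfl
  · exact relabel Y (Main Y) [0, 1, 2, 3, 4, 5, 6, 7, 8, 9, 10, 11, 12, 13, 14] hz rel2_0 (node3 Y hz)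

theorem node1 : Good Y (Main Y) 9 K1 := by
  refine branch' Y (Main Y) hz chk1 ?_
  rw [cands1]
  intro c hc
  simp only [List.mem_cons, List.not_mem_nil, or_false] at hc
  rcases hc with rfl
  · exact relabel Y (Main Y) [0, 1, 2, 3, 4, 5, 6, 7, 8, 9, 10, 11] hz rel1_0 (node2 Y hz)

theorem node0 : Good Y (Main Y) 8 K0 := addpt Y (Main Y) (K := K0) hz (by decide +kernel) (node1 Y hz)

theorem main_thm : Main Y := start Y (Main Y) (by rw [hz]; norm_num) (node0 Y hz)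

end

end Cfsg.Agent.Lib.SteinerCert1
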