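import Cfsg.Agent.Lib.SteinerSearch

/-! Certificate of the labeling search, with 2 fixed points. Generated. -/

set_option autoImplicit false
set_option maxRecDepth 100000

namespace Cfsg.Agent.Lib.SteinerCert2

open Cfsg Cfsg.Agent.Lib.SteinerSearch

def K0 : List ℕ := [255]

def K1 : List ℕ := [255]

def K2 : List ℕ := [3879, 255]

def K3 : List ℕ := [29283, 3879, 255]

def K4 : List ℕ := [233511, 29283, 3879, 255]

def K5 : List ℕ := [917859, 233511, 29283, 3879, 255]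

def K6 : List ℕ := [3179619, 917859, 233511, 29283, 3879, 255]

def K7 : List ℕ := [12650595, 3179619, 917859, 233511, 29283, 3879, 255]

def K8 : List ℕ := [72219, 12650595, 3179619, 917859, 233511, 29283, 3879, 255]

def K9 : List ℕ := [4250627, 72219, 12650595, 3179619, 917859, 233511, 29283, 3879, 255]

def K10 : List ℕ := [545039, 4250627, 72219, 12650595, 3179619, 917859, 233511, 29283, 3879, 255]

def K11 : List ℕ := [6295859, 545039, 4250627, 72219, 12650595, 3179619, 917859, 233511, 29283, 3879, 255]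

def K12 : List ℕ := [15205635, 545039, 4250627, 72219, 12650595, 3179619, 917859, 233511, 29283, 3879, 255]

def K13 : List ℕ := [8918059, 4250627, 72219, 12650595, 3179619, 917859, 233511, 29283, 3879, 255]

def K14 : List ℕ := [1061911, 8918059, 4250627, 72219, 12650595, 3179619, 917859, 233511, 29283, 3879, 255]

def K15 : List ℕ := [9707559, 8918059, 4250627, 72219, 12650595, 3179619, 917859, 233511, 29283, 3879, 255]

def K16 : List ℕ := [4999683, 72219, 12650595, 3179619, 917859, 233511, 29283, 3879, 255]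

def K17 : List ℕ := [1253451, 4999683, 72219, 12650595, 3179619, 917859, 233511, 29283, 3879, 255]

def K18 : List ℕ := [9715907, 1253451, 4999683, 72219, 12650595, 3179619, 917859, 233511, 29283, 3879, 255]

def K19 : List ℕ := [4653195, 4999683, 72219, 12650595, 3179619, 917859, 233511, 29283, 3879, 255]

def K20 : List ℕ := [9715907, 4653195, 4999683, 72219, 12650595, 3179619, 917859, 233511, 29283, 3879, 255]

def K21 : List ℕ := [9977895, 4653195, 4999683, 72219, 12650595, 3179619, 917859, 233511, 29283, 3879, 255]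

def K22 : List ℕ := [92183, 12650595, 3179619, 917859, 233511, 29283, 3879, 255]

def K23 : List ℕ := [4242435, 92183, 12650595, 3179619, 917859, 233511, 29283, 3879, 255]

theorem chk11 : chkLeaf 2 K11 [0, 1, 2, 3, 4, 8, 17, 5, 22, 18, 6, 9, 7, 20, 19, 21, 10, 14, 23, 16, 11, 15, 13, 12] = true := by decide +kernel

theorem chk12 : chkLeaf 2 K12 [0, 1, 2, 3, 4, 8, 17, 5, 22, 18, 6, 9, 7, 21, 19, 20, 10, 14, 23, 16, 11, 15, 13, 12] = true := by decide +kernel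

theorem cands10 : cands 24 K10 6291715 = [(6295859, 24), (15205635, 24)] := by decide +kernel

theorem chk10 : chkBranch 2 24 K10 6291715 = true := by decide +kernel

theorem rel10_0 : chkRelabel 2 24 K11 24 (6295859 :: K10) [0, 1, 2, 3, 4, 5, 6, 7, 8, 9, 10, 11, 12, 13, 14, 15, 16, 17, 18, 19, 20, 21, 22, 23] = true := by decide +kernel

theorem rel10_1 : chkRelabel 2 24 K12 24 (15205635 :: K10) [0, 1, 2, 3, 4, 5, 6, 7, 8, 9, 10, 11, 12, 13, 14, 15, 16, 17, 18, 19, 20, 21, 22, 23] = true := by decide +kernel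

theorem chk14 : chkLeaf 2 K14 [0, 1, 2, 3, 4, 8, 17, 5, 22, 19, 6, 9, 7, 20, 18, 21, 10, 14, 23, 16, 11, 15, 13, 12] = true := by decide +kernel

theorem chk15 : chkLeaf 2 K15 [0, 1, 2, 3, 4, 8, 17, 5, 22, 19, 6, 9, 7, 21, 18, 20, 10, 14, 23, 16, 11, 15, 13, 12] = true := by decide +kernel

theorem cands13 : cands 24 K13 1056775 = [(1061911, 24), (9707559, 24)] := by decide +kernel

theorem chk13 : chkBranch 2 24 K13 1056775 = true := by decide +kernel

theorem rel13_0 : chkRelabel 2 24 K14 24 (1061911 :: K13) [0, 1, 2, 3, 4, 5, 6, 7, 8, 9, 10, 11, 12, 13, 14, 15, 16, 17, 18, 19, 20, 21, 22, 23] = true := by decide +kernel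

theorem rel13_1 : chkRelabel 2 24 K15 24 (9707559 :: K13) [0, 1, 2, 3, 4, 5, 6, 7, 8, 9, 10, 11, 12, 13, 14, 15, 16, 17, 18, 19, 20, 21, 22, 23] = true := by decide +kernel

theorem cands9 : cands 24 K9 528395 = [(545039, 24), (675979, 24), (8918059, 24), (8949835, 24)] := by decide +kernel

theorem chk9 : chkBranch 2 24 K9 528395 = true := by decide +kernel

theorem rel9_0 : chkRelabel 2 24 K10 24 (545039 :: K9) [0, 1, 2, 3, 4, 5, 6, 7, 8, 9, 10, 11, 12, 13, 14, 15, 16, 17, 18, 19, 20, 21, 22, 23] = true := by decide +kernel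

theorem rel9_1 : chkRelabel 2 24 K10 24 (675979 :: K9) [0, 1, 7, 3, 4, 6, 5, 2, 17, 9, 15, 11, 12, 13, 14, 10, 16, 8, 18, 19, 20, 21, 22, 23] = true := by decide +kernel

theorem rel9_2 : chkRelabel 2 24 K13 24 (8918059 :: K9) [0, 1, 2, 3, 4, 5, 6, 7, 8, 9, 10, 11, 12, 13, 14, 15, 16, 17, 18, 19, 20, 21, 22, 23] = true := by decide +kernel

theorem rel9_3 : chkRelabel 2 24 K13 24 (8949835 :: K9) [0, 1, 7, 3, 4, 6, 5, 2, 17, 9, 15, 11, 12, 13, 14, 10, 16, 8, 18, 19, 20, 21, 22, 23] = true := by decide +kernel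

theorem chk18 : chkLeaf 2 K18 [0, 1, 2, 3, 4, 8, 17, 5, 13, 18, 6, 11, 7, 20, 19, 21, 10, 22, 14, 12, 9, 15, 23, 16] = true := by decide +kernel

theorem cands17 : cands 24 K17 1310787 = [(1316935, 24), (9715907, 24)] := by decide +kernel

theorem chk17 : chkBranch 2 24 K17 1310787 = true := by decide +kernel

theorem rel17_0 : chkRelabel 2 24 K12 24 (1316935 :: K17) [0, 1, 13, 17, 23, 5, 10, 7, 6, 14, 12, 9, 16, 19, 3, 4, 8, 21, 15, 20, 22, 18, 11, 2] = true := by decide +kernel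

theorem rel17_1 : chkRelabel 2 24 K18 24 (9715907 :: K17) [0, 1, 2, 3, 4, 5, 6, 7, 8, 9, 10, 11, 12, 13, 14, 15, 16, 17, 18, 19, 20, 21, 22, 23] = true := by decide +kernel

theorem chk20 : chkLeaf 2 K20 [0, 1, 2, 3, 4, 8, 17, 5, 23, 19, 6, 9, 7, 21, 18, 20, 10, 14, 22, 16, 11, 15, 13, 12] = true := by decide +kernel

theorem chk21 : chkLeaf 2 K21 [0, 1, 2, 3, 4, 8, 17, 5, 23, 19, 6, 9, 7, 20, 18, 21, 10, 14, 22, 16, 11, 15, 13, 12] = true := by decide +kernel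

theorem cands19 : cands 24 K19 9453571 = [(9715907, 24), (9977895, 24)] := by decide +kernel

theorem chk19 : chkBranch 2 24 K19 9453571 = true := by decide +kernel

theorem rel19_0 : chkRelabel 2 24 K20 24 (9715907 :: K19) [0, 1, 2, 3, 4, 5, 6, 7, 8, 9, 10, 11, 12, 13, 14, 15, 16, 17, 18, 19, 20, 21, 22, 23] = true := by decide +kernel

theorem rel19_1 : chkRelabel 2 24 K21 24 (9977895 :: K19) [0, 1, 2, 3, 4, 5, 6, 7, 8, 9, 10, 11, 12, 13, 14, 15, 16, 17, 18, 19, 20, 21, 22, 23] = true := by decide +kernel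

theorem cands16 : cands 24 K16 196619 = [(1253451, 24), (2302027, 24), (4653195, 24), (4915339, 24)] := by decide +kernel

theorem chk16 : chkBranch 2 24 K16 196619 = true := by decide +kernel

theorem rel16_0 : chkRelabel 2 24 K17 24 (1253451 :: K16) [0, 1, 2, 3, 4, 5, 6, 7, 8, 9, 10, 11, 12, 13, 14, 15, 16, 17, 18, 19, 20, 21, 22, 23] = true := by decide +kernel

theorem rel16_1 : chkRelabel 2 24 K17 24 (2302027 :: K16) [0, 1, 2, 3, 4, 5, 6, 7, 8, 9, 10, 11, 12, 13, 14, 15, 16, 17, 18, 19, 21, 20, 22, 23] = true := by decide +kernel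

theorem rel16_2 : chkRelabel 2 24 K19 24 (4653195 :: K16) [0, 1, 2, 3, 4, 5, 6, 7, 8, 9, 10, 11, 12, 13, 14, 15, 16, 17, 18, 19, 20, 21, 22, 23] = true := by decide +kernel

theorem rel16_3 : chkRelabel 2 24 K19 24 (4915339 :: K16) [0, 1, 2, 3, 4, 5, 6, 7, 8, 9, 10, 11, 12, 13, 14, 15, 16, 17, 19, 18, 20, 21, 22, 23] = true := by decide +kernel

theorem cands8 : cands 24 K8 4212739 = [(4250627, 24), (4348163, 24), (4999683, 24), (7358979, 24)] := by decide +kernel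

theorem chk8 : chkBranch 2 24 K8 4212739 = true := by decide +kernel

theorem rel8_0 : chkRelabel 2 24 K9 24 (4250627 :: K8) [0, 1, 2, 3, 4, 5, 6, 7, 8, 9, 10, 11, 12, 13, 14, 15, 16, 17, 18, 19, 20, 21, 22, 23] = true := by decide +kernel

theorem rel8_1 : chkRelabel 2 24 K9 24 (4348163 :: K8) [0, 1, 2, 3, 4, 5, 6, 7, 10, 9, 8, 11, 12, 13, 14, 17, 16, 15, 20, 21, 18, 19, 22, 23] = true := by decide +kernel

theorem rel8_2 : chkRelabel 2 24 K16 24 (4999683 :: K8) [0, 1, 2, 3, 4, 5, 6, 7, 8, 9, 10, 11, 12, 13, 14, 15, 16, 17, 18, 19, 20, 21, 22, 23] = true := by decide +kernel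

theorem rel8_3 : chkRelabel 2 24 K16 24 (7358979 :: K8) [0, 1, 2, 3, 4, 5, 6, 7, 10, 9, 8, 11, 12, 13, 14, 17, 16, 15, 20, 21, 18, 19, 22, 23] = true := by decide +kernel

theorem cands23 : cands 24 K23 524339 = [(1579059, 24), (1638963, 24), (2627635, 24), (2687539, 24)] := by decide +kernel

theorem chk23 : chkBranch 2 24 K23 524339 = true := by decide +kernel

theorem rel23_0 : chkRelabel 2 24 K10 24 (1579059 :: K23) [0, 1, 20, 4, 2, 17, 8, 21, 19, 14, 15, 13, 11, 23, 12, 10, 16, 18, 6, 5, 3, 7, 22, 9] = true := by decide +kernel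

theorem rel23_1 : chkRelabel 2 24 K19 24 (1638963 :: K23) [0, 1, 18, 9, 12, 17, 10, 20, 21, 13, 15, 14, 6, 23, 2, 8, 5, 19, 16, 11, 3, 7, 4, 22] = true := by decide +kernel

theorem rel23_2 : chkRelabel 2 24 K10 24 (2627635 :: K23) [0, 1, 21, 4, 2, 17, 8, 20, 19, 14, 15, 13, 11, 23, 12, 10, 16, 18, 6, 5, 3, 7, 22, 9] = true := by decide +kernel

theorem rel23_3 : chkRelabel 2 24 K19 24 (2687539 :: K23) [0, 1, 18, 9, 12, 17, 10, 21, 20, 13, 15, 14, 6, 23, 2, 8, 5, 19, 16, 11, 3, 7, 4, 22] = true := by decide +kernel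

theorem cands22 : cands 24 K22 38915 = [(4242435, 24), (4250627, 24), (8436739, 24), (8444931, 24)] := by decide +kernel

theorem chk22 : chkBranch 2 24 K22 38915 = true := by decide +kernel

theorem rel22_0 : chkRelabel 2 24 K23 24 (4242435 :: K22) [0, 1, 2, 3, 4, 5, 6, 7, 8, 9, 10, 11, 12, 13, 14, 15, 16, 17, 18, 19, 20, 21, 22, 23] = true := by decide +kernel

theorem rel22_1 : chkRelabel 2 24 K23 24 (4250627 :: K22) [0, 1, 2, 3, 4, 5, 6, 7, 8, 9, 10, 11, 12, 14, 13, 15, 16, 17, 18, 19, 20, 21, 22, 23] = true := by decide +kernel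

theorem rel22_2 : chkRelabel 2 24 K23 24 (8436739 :: K22) [0, 1, 2, 3, 4, 5, 6, 7, 8, 9, 10, 11, 12, 13, 14, 15, 16, 17, 18, 19, 20, 21, 23, 22] = true := by decide +kernel

theorem rel22_3 : chkRelabel 2 24 K23 24 (8444931 :: K22) [0, 1, 2, 3, 4, 5, 6, 7, 8, 9, 10, 11, 12, 14, 13, 15, 16, 17, 18, 19, 20, 21, 23, 22] = true := by decide +kernel

theorem cands7 : cands 24 K7 67603 = [(72219, 24), (72339, 24), (92183, 24), (101403, 24), (101523, 24), (198939, 24), (199059, 24), (854039, 24), (3213335, 24)] := by decide +kernel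

theorem chk7 : chkBranch 2 24 K7 67603 = true := by decide +kernel

theorem rel7_0 : chkRelabel 2 24 K8 24 (72219 :: K7) [0, 1, 2, 3, 4, 5, 6, 7, 8, 9, 10, 11, 12, 13, 14, 15, 16, 17, 18, 19, 20, 21, 22, 23] = true := by decide +kernel

theorem rel7_1 : chkRelabel 2 24 K8 24 (72339 :: K7) [0, 1, 2, 4, 7, 5, 6, 3, 8, 9, 10, 11, 12, 13, 14, 15, 16, 17, 18, 19, 20, 21, 22, 23] = true := by decide +kernel

theorem rel7_2 : chkRelabel 2 24 K22 24 (92183 :: K7) [0, 1, 2, 3, 4, 5, 6, 7, 8, 9, 10, 11, 12, 13, 14, 15, 16, 17, 18, 19, 20, 21, 22, 23] = true := by decide +kernel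

theorem rel7_3 : chkRelabel 2 24 K8 24 (101403 :: K7) [0, 1, 2, 3, 4, 5, 6, 7, 9, 10, 8, 11, 15, 20, 21, 17, 16, 12, 13, 14, 18, 19, 22, 23] = true := by decide +kernel

theorem rel7_4 : chkRelabel 2 24 K8 24 (101523 :: K7) [0, 1, 2, 4, 7, 5, 6, 3, 9, 10, 8, 11, 15, 20, 21, 17, 16, 12, 13, 14, 18, 19, 22, 23] = true := by decide +kernel

theorem rel7_5 : chkRelabel 2 24 K8 24 (198939 :: K7) [0, 1, 2, 3, 4, 5, 6, 7, 9, 8, 10, 11, 17, 18, 19, 15, 16, 12, 13, 14, 20, 21, 22, 23] = true := by decide +kernel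

theorem rel7_6 : chkRelabel 2 24 K8 24 (199059 :: K7) [0, 1, 2, 4, 7, 5, 6, 3, 9, 8, 10, 11, 17, 18, 19, 15, 16, 12, 13, 14, 20, 21, 22, 23] = true := by decide +kernel

theorem rel7_7 : chkRelabel 2 24 K22 24 (854039 :: K7) [0, 1, 2, 3, 4, 5, 6, 7, 9, 8, 10, 11, 17, 18, 19, 15, 16, 12, 13, 14, 20, 21, 22, 23] = true := by decide +kernel

theorem rel7_8 : chkRelabel 2 24 K22 24 (3213335 :: K7) [0, 1, 2, 3, 4, 5, 6, 7, 9, 10, 8, 11, 15, 20, 21, 17, 16, 12, 13, 14, 18, 19, 22, 23] = true := by decide +kernel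

theorem cands6 : cands 22 K6 2147 = [(12650595, 24)] := by decide +kernel

theorem chk6 : chkBranch 2 22 K6 2147 = true := by decide +kernel

theorem rel6_0 : chkRelabel 2 24 K7 24 (12650595 :: K6) [0, 1, 2, 3, 4, 5, 6, 7, 8, 9, 10, 11, 12, 13, 14, 15, 16, 17, 18, 19, 20, 21, 22, 23] = true := by decide +kernel

theorem cands5 : cands 20 K5 1123 = [(3179619, 22), (3212387, 22)] := by decide +kernel

theorem chk5 : chkBranch 2 20 K5 1123 = true := by decide +kernel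

theorem rel5_0 : chkRelabel 2 22 K6 22 (3179619 :: K5) [0, 1, 2, 3, 4, 5, 6, 7, 8, 9, 10, 11, 12, 13, 14, 15, 16, 17, 18, 19, 20, 21] = true := by decide +kernel

theorem rel5_1 : chkRelabel 2 22 K6 22 (3212387 :: K5) [0, 1, 2, 3, 4, 5, 6, 7, 8, 9, 10, 11, 12, 13, 14, 16, 15, 17, 18, 19, 20, 21] = true := by decide +kernel

theorem cands4 : cands 18 K4 131171 = [(917859, 20), (918627, 20), (919651, 20)] := by decide +kernel

theorem chk4 : chkBranch 2 18 K4 131171 = true := by decide +kernel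

theorem rel4_0 : chkRelabel 2 20 K5 20 (917859 :: K4) [0, 1, 2, 3, 4, 5, 6, 7, 8, 9, 10, 11, 12, 13, 14, 15, 16, 17, 18, 19] = true := by decide +kernel

theorem rel4_1 : chkRelabel 2 20 K5 20 (918627 :: K4) [0, 1, 2, 3, 4, 5, 6, 7, 10, 9, 8, 11, 12, 13, 14, 15, 16, 17, 18, 19] = true := by decide +kernel

theorem rel4_2 : chkRelabel 2 20 K5 20 (919651 :: K4) [0, 1, 2, 3, 4, 5, 6, 7, 11, 9, 8, 10, 12, 13, 14, 15, 16, 17, 18, 19] = true := by decide +kernel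

theorem cands3 : cands 15 K3 4135 = [(233511, 18)] := by decide +kernel

theorem chk3 : chkBranch 2 15 K3 4135 = true := by decide +kernel

theorem rel3_0 : chkRelabel 2 18 K4 18 (233511 :: K3) [0, 1, 2, 3, 4, 5, 6, 7, 8, 9, 10, 11, 12, 13, 14, 15, 16, 17] = true := by decide +kernel

theorem cands2 : cands 12 K2 611 = [(29283, 15)] := by decide +kernel

theorem chk2 : chkBranch 2 12 K2 611 = true := by decide +kernel

theorem rel2_0 : chkRelabel 2 15 K3 15 (29283 :: K2) [0, 1, 2, 3, 4, 5, 6, 7, 8, 9, 10, 11, 12, 13, 14] = true := by decide +kernel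

theorem cands1 : cands 9 K1 295 = [(3879, 12)] := by decide +kernel

theorem chk1 : chkBranch 2 9 K1 295 = true := by decide +kernel

theorem rel1_0 : chkRelabel 2 12 K2 12 (3879 :: K1) [0, 1, 2, 3, 4, 5, 6, 7, 8, 9, 10, 11] = true := by decide +kernel

section
variable {A : Type*} [DecidableEq A] [Fintype A] (Y : Sys A) (hz : Y.z = 2)
include hz

theorem node11 : Good Y (Main Y) 24 K11 := leaf Y hz chk11

theorem node12 : Good Y (Main Y) 24 K12 := leaf Y hz chk12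

theorem node10 : Good Y (Main Y) 24 K10 := by
  refine branch' Y (Main Y) hz chk10 ?_
  rw [cands10]
  intro c hc
  simp only [List.mem_cons, List.not_mem_nil, or_false] at hc
  rcases hc with rfl | rfl
  · exact relabel Y (Main Y) [0, 1, 2, 3, 4, 5, 6, 7, 8, 9, 10, 11, 12, 13, 14, 15, 16, 17, 18, 19, 20, 21, 22, 23] hz rel10_0 (node11 Y hz)
  · exact relabel Y (Main Y) [0, 1, 2, 3, 4, 5, 6, 7, 8, 9, 10, 11, 12, 13, 14, 15, 16, 17, 18, 19, 20, 21, 22, 23] hz rel10_1 (node12 Y hz)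

theorem node14 : Good Y (Main Y) 24 K14 := leaf Y hz chk14

theorem node15 : Good Y (Main Y) 24 K15 := leaf Y hz chk15

theorem node13 : Good Y (Main Y) 24 K13 := by
  refine branch' Y (Main Y) hz chk13 ?_
  rw [cands13]
  intro c hc
  simp only [List.mem_cons, List.not_mem_nil, or_false] at hc
  rcases hc with rfl | rfl
  · exact relabel Y (Main Y) [0, 1, 2, 3, 4, 5, 6, 7, 8, 9, 10, 11, 12, 13, 14, 15, 16, 17, 18, 19, 20, 21, 22, 23] hz rel13_0 (node14 Y hz)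
  · exact relabel Y (Main Y) [0, 1, 2, 3, 4, 5, 6, 7, 8, 9, 10, 11, 12, 13, 14, 15, 16, 17, 18, 19, 20, 21, 22, 23] hz rel13_1 (node15 Y hz)

theorem node9 : Good Y (Main Y) 24 K9 := by
  refine branch' Y (Main Y) hz chk9 ?_
  rw [cands9]
  intro c hc
  simp only [List.mem_cons, List.not_mem_nil, or_false] at hc
  rcases hc with rfl | rfl | rfl | rfl
  · exact relabel Y (Main Y) [0, 1, 2, 3, 4, 5, 6, 7, 8, 9, 10, 11, 12, 13, 14, 15, 16, 17, 18, 19, 20, 21, 22, 23] hz rel9_0 (node10 Y hz)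
  · exact relabel Y (Main Y) [0, 1, 7, 3, 4, 6, 5, 2, 17, 9, 15, 11, 12, 13, 14, 10, 16, 8, 18, 19, 20, 21, 22, 23] hz rel9_1 (node10 Y hz)
  · exact relabel Y (Main Y) [0, 1, 2, 3, 4, 5, 6, 7, 8, 9, 10, 11, 12, 13, 14, 15, 16, 17, 18, 19, 20, 21, 22, 23] hz rel9_2 (node13 Y hz)
  · exact relabel Y (Main Y) [0, 1, 7, 3, 4, 6, 5, 2, 17, 9, 15, 11, 12, 13, 14, 10, 16, 8, 18, 19, 20, 21, 22, 23] hz rel9_3 (node13 Y hz)

theorem node18 : Good Y (Main Y) 24 K18 := leaf Y hz chk18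

theorem node17 : Good Y (Main Y) 24 K17 := by
  refine branch' Y (Main Y) hz chk17 ?_
  rw [cands17]
  intro c hc
  simp only [List.mem_cons, List.not_mem_nil, or_false] at hc
  rcases hc with rfl | rfl
  · exact relabel Y (Main Y) [0, 1, 13, 17, 23, 5, 10, 7, 6, 14, 12, 9, 16, 19, 3, 4, 8, 21, 15, 20, 22, 18, 11, 2] hz rel17_0 (node12 Y hz)
  · exact relabel Y (Main Y) [0, 1, 2, 3, 4, 5, 6, 7, 8, 9, 10, 11, 12, 13, 14, 15, 16, 17, 18, 19, 20, 21, 22, 23] hz rel17_1 (node18 Y hz)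

theorem node20 : Good Y (Main Y) 24 K20 := leaf Y hz chk20

theorem node21 : Good Y (Main Y) 24 K21 := leaf Y hz chk21

theorem node19 : Good Y (Main Y) 24 K19 := by
  refine branch' Y (Main Y) hz chk19 ?_
  rw [cands19]
  intro c hc
  simp only [List.mem_cons, List.not_mem_nil, or_false] at hc
  rcases hc with rfl | rfl
  · exact relabel Y (Main Y) [0, 1, 2, 3, 4, 5, 6, 7, 8, 9, 10, 11, 12, 13, 14, 15, 16, 17, 18, 19, 20, 21, 22, 23] hz rel19_0 (node20 Y hz)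
  · exact relabel Y (Main Y) [0, 1, 2, 3, 4, 5, 6, 7, 8, 9, 10, 11, 12, 13, 14, 15, 16, 17, 18, 19, 20, 21, 22, 23] hz rel19_1 (node21 Y hz)

theorem node16 : Good Y (Main Y) 24 K16 := by
  refine branch' Y (Main Y) hz chk16 ?_
  rw [cands16]
  intro c hc
  simp only [List.mem_cons, List.not_mem_nil, or_false] at hc
  rcases hc with rfl | rfl | rfl | rfl
  · exact relabel Y (Main Y) [0, 1, 2, 3, 4, 5, 6, 7, 8, 9, 10, 11, 12, 13, 14, 15, 16, 17, 18, 19, 20, 21, 22, 23] hz rel16_0 (node17 Y hz)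
  · exact relabel Y (Main Y) [0, 1, 2, 3, 4, 5, 6, 7, 8, 9, 10, 11, 12, 13, 14, 15, 16, 17, 18, 19, 21, 20, 22, 23] hz rel16_1 (node17 Y hz)
  · exact relabel Y (Main Y) [0, 1, 2, 3, 4, 5, 6, 7, 8, 9, 10, 11, 12, 13, 14, 15, 16, 17, 18, 19, 20, 21, 22, 23] hz rel16_2 (node19 Y hz)
  · exact relabel Y (Main Y) [0, 1, 2, 3, 4, 5, 6, 7, 8, 9, 10, 11, 12, 13, 14, 15, 16, 17, 19, 18, 20, 21, 22, 23] hz rel16_3 (node19 Y hz)

theorem node8 : Good Y (Main Y) 24 K8 := by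
  refine branch' Y (Main Y) hz chk8 ?_
  rw [cands8]
  intro c hc
  simp only [List.mem_cons, List.not_mem_nil, or_false] at hc
  rcases hc with rfl | rfl | rfl | rfl
  · exact relabel Y (Main Y) [0, 1, 2, 3, 4, 5, 6, 7, 8, 9, 10, 11, 12, 13, 14, 15, 16, 17, 18, 19, 20, 21, 22, 23] hz rel8_0 (node9 Y hz)
  · exact relabel Y (Main Y) [0, 1, 2, 3, 4, 5, 6, 7, 10, 9, 8, 11, 12, 13, 14, 17, 16, 15, 20, 21, 18, 19, 22, 23] hz rel8_1 (node9 Y hz)
  · exact relabel Y (Main Y) [0, 1, 2, 3, 4, 5, 6, 7, 8, 9, 10, 11, 12, 13, 14, 15, 16, 17, 18, 19, 20, 21, 22, 23] hz rel8_2 (node16 Y hz)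
  · exact relabel Y (Main Y) [0, 1, 2, 3, 4, 5, 6, 7, 10, 9, 8, 11, 12, 13, 14, 17, 16, 15, 20, 21, 18, 19, 22, 23] hz rel8_3 (node16 Y hz)

theorem node23 : Good Y (Main Y) 24 K23 := by
  refine branch' Y (Main Y) hz chk23 ?_
  rw [cands23]
  intro c hc
  simp only [List.mem_cons, List.not_mem_nil, or_false] at hc
  rcases hc with rfl | rfl | rfl | rfl
  · exact relabel Y (Main Y) [0, 1, 20, 4, 2, 17, 8, 21, 19, 14, 15, 13, 11, 23, 12, 10, 16, 18, 6, 5, 3, 7, 22, 9] hz rel23_0 (node10 Y hz)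
  · exact relabel Y (Main Y) [0, 1, 18, 9, 12, 17, 10, 20, 21, 13, 15, 14, 6, 23, 2, 8, 5, 19, 16, 11, 3, 7, 4, 22] hz rel23_1 (node19 Y hz)
  · exact relabel Y (Main Y) [0, 1, 21, 4, 2, 17, 8, 20, 19, 14, 15, 13, 11, 23, 12, 10, 16, 18, 6, 5, 3, 7, 22, 9] hz rel23_2 (node10 Y hz)
  · exact relabel Y (Main Y) [0, 1, 18, 9, 12, 17, 10, 21, 20, 13, 15, 14, 6, 23, 2, 8, 5, 19, 16, 11, 3, 7, 4, 22] hz rel23_3 (node19 Y hz)

theorem node22 : Good Y (Main Y) 24 K22 := by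
  refine branch' Y (Main Y) hz chk22 ?_
  rw [cands22]
  intro c hc
  simp only [List.mem_cons, List.not_mem_nil, or_false] at hc
  rcases hc with rfl | rfl | rfl | rfl
  · exact relabel Y (Main Y) [0, 1, 2, 3, 4, 5, 6, 7, 8, 9, 10, 11, 12, 13, 14, 15, 16, 17, 18, 19, 20, 21, 22, 23] hz rel22_0 (node23 Y hz)
  · exact relabel Y (Main Y) [0, 1, 2, 3, 4, 5, 6, 7, 8, 9, 10, 11, 12, 14, 13, 15, 16, 17, 18, 19, 20, 21, 22, 23] hz rel22_1 (node23 Y hz)
  · exact relabel Y (Main Y) [0, 1, 2, 3, 4, 5, 6, 7, 8, 9, 10, 11, 12, 13, 14, 15, 16, 17, 18, 19, 20, 21, 23, 22] hz rel22_2 (node23 Y hz)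
  · exact relabel Y (Main Y) [0, 1, 2, 3, 4, 5, 6, 7, 8, 9, 10, 11, 12, 14, 13, 15, 16, 17, 18, 19, 20, 21, 23, 22] hz rel22_3 (node23 Y hz)

theorem node7 : Good Y (Main Y) 24 K7 := by
  refine branch' Y (Main Y) hz chk7 ?_
  rw [cands7]
  intro c hc
  simp only [List.mem_cons, List.not_mem_nil, or_false] at hc
  rcases hc with rfl | rfl | rfl | rfl | rfl | rfl | rfl | rfl | rfl
  · exact relabel Y (Main Y) [0, 1, 2, 3, 4, 5, 6, 7, 8, 9, 10, 11, 12, 13, 14, 15, 16, 17, 18, 19, 20, 21, 22, 23] hz rel7_0 (node8 Y hz)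
  · exact relabel Y (Main Y) [0, 1, 2, 4, 7, 5, 6, 3, 8, 9, 10, 11, 12, 13, 14, 15, 16, 17, 18, 19, 20, 21, 22, 23] hz rel7_1 (node8 Y hz)
  · exact relabel Y (Main Y) [0, 1, 2, 3, 4, 5, 6, 7, 8, 9, 10, 11, 12, 13, 14, 15, 16, 17, 18, 19, 20, 21, 22, 23] hz rel7_2 (node22 Y hz)
  · exact relabel Y (Main Y) [0, 1, 2, 3, 4, 5, 6, 7, 9, 10, 8, 11, 15, 20, 21, 17, 16, 12, 13, 14, 18, 19, 22, 23] hz rel7_3 (node8 Y hz)
  · exact relabel Y (Main Y) [0, 1, 2, 4, 7, 5, 6, 3, 9, 10, 8, 11, 15, 20, 21, 17, 16, 12, 13, 14, 18, 19, 22, 23] hz rel7_4 (node8 Y hz)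
  · exact relabel Y (Main Y) [0, 1, 2, 3, 4, 5, 6, 7, 9, 8, 10, 11, 17, 18, 19, 15, 16, 12, 13, 14, 20, 21, 22, 23] hz rel7_5 (node8 Y hz)
  · exact relabel Y (Main Y) [0, 1, 2, 4, 7, 5, 6, 3, 9, 8, 10, 11, 17, 18, 19, 15, 16, 12, 13, 14, 20, 21, 22, 23] hz rel7_6 (node8 Y hz)
  · exact relabel Y (Main Y) [0, 1, 2, 3, 4, 5, 6, 7, 9, 8, 10, 11, 17, 18, 19, 15, 16, 12, 13, 14, 20, 21, 22, 23] hz rel7_7 (node22 Y hz)
  · exact relabel Y (Main Y) [0, 1, 2, 3, 4, 5, 6, 7, 9, 10, 8, 11, 15, 20, 21, 17, 16, 12, 13, 14, 18, 19, 22, 23] hz rel7_8 (node22 Y hz)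

theorem node6 : Good Y (Main Y) 22 K6 := by
  refine branch' Y (Main Y) hz chk6 ?_
  rw [cands6]
  intro c hc
  simp only [List.mem_cons, List.not_mem_nil, or_false] at hc
  rcases hc with rfl
  · exact relabel Y (Main Y) [0, 1, 2, 3, 4, 5, 6, 7, 8, 9, 10, 11, 12, 13, 14, 15, 16, 17, 18, 19, 20, 21, 22, 23] hz rel6_0 (node7 Y hz)

theorem node5 : Good Y (Main Y) 20 K5 := by
  refine branch' Y (Main Y) hz chk5 ?_
  rw [cands5]
  intro c hc
  simp only [List.mem_cons, List.not_mem_nil, or_false] at hc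
  rcases hc with rfl | rfl
  · exact relabel Y (Main Y) [0, 1, 2, 3, 4, 5, 6, 7, 8, 9, 10, 11, 12, 13, 14, 15, 16, 17, 18, 19, 20, 21] hz rel5_0 (node6 Y hz)
  · exact relabel Y (Main Y) [0, 1, 2, 3, 4, 5, 6, 7, 8, 9, 10, 11, 12, 13, 14, 16, 15, 17, 18, 19, 20, 21] hz rel5_1 (node6 Y hz)

theorem node4 : Good Y (Main Y) 18 K4 := by
  refine branch' Y (Main Y) hz chk4 ?_
  rw [cands4]
  intro c hc
  simp only [List.mem_cons, List.not_mem_nil, or_false] at hc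
  rcases hc with rfl | rfl | rfl
  · exact relabel Y (Main Y) [0, 1, 2, 3, 4, 5, 6, 7, 8, 9, 10, 11, 12, 13, 14, 15, 16, 17, 18, 19] hz rel4_0 (node5 Y hz)
  · exact relabel Y (Main Y) [0, 1, 2, 3, 4, 5, 6, 7, 10, 9, 8, 11, 12, 13, 14, 15, 16, 17, 18, 19] hz rel4_1 (node5 Y hz)
  · exact relabel Y (Main Y) [0, 1, 2, 3, 4, 5, 6, 7, 11, 9, 8, 10, 12, 13, 14, 15, 16, 17, 18, 19] hz rel4_2 (node5 Y hz)

theorem node3 : Good Y (Main Y) 15 K3 := by
  refine branch' Y (Main Y) hz chk3 ?_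
  rw [cands3]
  intro c hc
  simp only [List.mem_cons, List.not_mem_nil, or_false] at hc
  rcases hc with rfl
  · exact relabel Y (Main Y) [0, 1, 2, 3, 4, 5, 6, 7, 8, 9, 10, 11, 12, 13, 14, 15, 16, 17] hz rel3_0 (node4 Y hz)

theorem node2 : Good Y (Main Y) 12 K2 := by
  refine branch' Y (Main Y) hz chk2 ?_
  rw [cands2]
  intro c hc
  simp only [List.mem_cons, List.not_mem_nil, or_false] at hc
  rcases hc with rfl
  · exact relabel Y (Main Y) [0, 1, 2, 3, 4, 5, 6, 7, 8, 9, 10, 11, 12, 13, 14] hz rel2_0 (node3 Y hz)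

theorem node1 : Good Y (Main Y) 9 K1 := by
  refine branch' Y (Main Y) hz chk1 ?_
  rw [cands1]
  intro c hc
  simp only [List.mem_cons, List.not_mem_nil, or_false] at hc
  rcases hc with rfl
  · exact relabel Y (Main Y) [0, 1, 2, 3, 4, 5, 6, 7, 8, 9, 10, 11] hz rel1_0 (node2 Y hz)

theorem node0 : Good Y (Main Y) 8 K0 := addpt Y (Main Y) (K := K0) hz (by decide +kernel) (node1 Y hz)

theorem main_thm : Main Y := start Y (Main Y) (by rw [hz]; norm_num) (node0 Y hz)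

end

end Cfsg.Agent.Lib.SteinerCert2
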