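import Cfsg.Agent.Lib.SteinerIso
import Cfsg.Agent.Lib.SteinerCert0
import Cfsg.Agent.Lib.SteinerCert1
import Cfsg.Agent.Lib.SteinerCert2

/-!
# Uniqueness of `S(5,8,24)`, `S(4,7,23)`, `S(3,6,22)`
-/

set_option autoImplicit false
set_option linter.constructorNameAsVariable false

namespace Cfsg.Agent.Lib.SteinerUnique

open Cfsg Cfsg.Agent.Lib.GolayCode Cfsg.Agent.Lib.GolayFacts Cfsg.Agent.Lib.GolayFast
  Cfsg.Agent.Lib.GolayFastData Cfsg.Agent.Lib.GolaySets Cfsg.Agent.Lib.SteinerSearch
  Cfsg.Agent.Lib.SteinerBasic Cfsg.Agent.Lib.SteinerNums Cfsg.Agent.Lib.SteinerLift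
  Cfsg.Agent.Lib.SteinerIso Finset

variable {α : Type*} [Fintype α] [DecidableEq α] {B : Set (Finset α)}

/-- The system attached to an `S(5,8,24)`. -/
def sys0 (hα : Fintype.card α = 24) (hB : IsSteinerSystem 5 8 B) : Sys (α ⊕ Fin 0) :=
  sysOf (z := 0) (by omega) (by norm_num) hB
    (fun b hb c hc hbc => by
      rcases inter_5_8_24 hα hB hb hc hbc with h | h | h <;> rw [h] <;> decide)
    (fun r hr w hw => by
      have hr0 : r = 0 := by omega
      subst hr0
      exact odd4 (by omega) 253 77 21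
        (lam hB 1 253 35 (by norm_num) (by decide) (by rw [hα]; decide) (by norm_num))
        (lam hB 2 77 20 (by norm_num) (by decide) (by rw [hα]; decide) (by norm_num))
        (lam hB 3 21 10 (by norm_num) (by decide) (by rw [hα]; decide) (by norm_num))
        (by norm_num))

/-- The system attached to an `S(4,7,23)`. -/
def sys1 (hα : Fintype.card α = 23) (hB : IsSteinerSystem 4 7 B) : Sys (α ⊕ Fin 1) :=
  sysOf (z := 1) (by omega) (by norm_num) hB
    (fun b hb c hc hbc => by
      rcases inter_4_7_23 hα hB hb hc hbc with h | h <;> rw [h] <;> decide)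
    (fun r hr w hw => by
      have hr0 : r = 0 ∨ r = 1 := by omega
      rcases hr0 with rfl | rfl
      · exact odd4 (by omega) 77 21 5
          (lam hB 1 77 20 (by norm_num) (by decide) (by rw [hα]; decide) (by norm_num))
          (lam hB 2 21 10 (by norm_num) (by decide) (by rw [hα]; decide) (by norm_num))
          (lam hB 3 5 4 (by norm_num) (by decide) (by rw [hα]; decide) (by norm_num))
          (by norm_num)
      · exact odd3 (by omega) 21 5
          (lam hB 2 21 10 (by norm_num) (by decide) (by rw [hα]; decide) (by norm_num))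
          (lam hB 3 5 4 (by norm_num) (by decide) (by rw [hα]; decide) (by norm_num))
          (by norm_num))

/-- The system attached to an `S(3,6,22)`. -/
def sys2 (hα : Fintype.card α = 22) (hB : IsSteinerSystem 3 6 B) : Sys (α ⊕ Fin 2) :=
  sysOf (z := 2) (by omega) (by norm_num) hB
    (fun b hb c hc hbc => by
      rcases inter_3_6_22 hα hB hb hc hbc with h | h <;> rw [h] <;> decide)
    (fun r hr w hw => by
      have hr0 : r = 0 ∨ r = 1 ∨ r = 2 := by omega
      rcases hr0 with rfl | rfl | rfl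
      · exact odd4 (by omega) 21 5 1
          (lam hB 1 21 10 (by norm_num) (by decide) (by rw [hα]; decide) (by norm_num))
          (lam hB 2 5 4 (by norm_num) (by decide) (by rw [hα]; decide) (by norm_num))
          (lam hB 3 1 1 (by norm_num) (by decide) (by rw [hα]; decide) (by norm_num))
          (by norm_num)
      · exact odd3 (by omega) 5 1
          (lam hB 2 5 4 (by norm_num) (by decide) (by rw [hα]; decide) (by norm_num))
          (lam hB 3 1 1 (by norm_num) (by decide) (by rw [hα]; decide) (by norm_num))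
          (by norm_num)
      · exact odd2 (by omega) 21 5
          (lam hB 1 21 10 (by norm_num) (by decide) (by rw [hα]; decide) (by norm_num))
          (lam hB 2 5 4 (by norm_num) (by decide) (by rw [hα]; decide) (by norm_num))
          (by norm_num))

theorem ncard_lift {z : ℕ} {B : Set (Finset α)} : (liftB z '' B).ncard = B.ncard :=
  Set.ncard_image_of_injective _ (fun _ _ h => liftB_inj h)

/-- A labeling for an `S(5,8,24)`. -/
theorem label0 (hα : Fintype.card α = 24) (hB : IsSteinerSystem 5 8 B) :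
    ∃ e : GolayPt ≃ α ⊕ Fin 0, (fun o : Finset GolayPt => o.image e) '' stdSet 0 = liftB 0 '' B ∧
      (Finset.range 0).image (fun i => e (idxPt i)) = (∅ : Finset α).disjSum Finset.univ := by
  obtain ⟨e, h1, h2⟩ := Cfsg.Agent.Lib.SteinerCert0.main_thm (sys0 hα hB) rfl
  refine ⟨e, image_std h1 ?_, h2⟩
  show (liftB 0 '' B).ncard = _
  rw [ncard_lift, ncard_std0]
  have h3 := ncard_mul_choose hB
  rw [hα] at h3
  have h4 : Nat.choose 8 5 = 56 := by decide
  have h5 : Nat.choose 24 5 = 42504 := by decide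
  rw [h4, h5] at h3
  omega

/-- A labeling for an `S(4,7,23)`. -/
theorem label1 (hα : Fintype.card α = 23) (hB : IsSteinerSystem 4 7 B) :
    ∃ e : GolayPt ≃ α ⊕ Fin 1, (fun o : Finset GolayPt => o.image e) '' stdSet 1 = liftB 1 '' B ∧
      (Finset.range 1).image (fun i => e (idxPt i)) = (∅ : Finset α).disjSum Finset.univ := by
  obtain ⟨e, h1, h2⟩ := Cfsg.Agent.Lib.SteinerCert1.main_thm (sys1 hα hB) rfl
  refine ⟨e, image_std h1 ?_, h2⟩
  show (liftB 1 '' B).ncard = _
  rw [ncard_lift, ncard_std1]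
  have h3 := ncard_mul_choose hB
  rw [hα] at h3
  have h4 : Nat.choose 7 4 = 35 := by decide
  have h5 : Nat.choose 23 4 = 8855 := by decide
  rw [h4, h5] at h3
  omega

/-- A labeling for an `S(3,6,22)`. -/
theorem label2 (hα : Fintype.card α = 22) (hB : IsSteinerSystem 3 6 B) :
    ∃ e : GolayPt ≃ α ⊕ Fin 2, (fun o : Finset GolayPt => o.image e) '' stdSet 2 = liftB 2 '' B ∧
      (Finset.range 2).image (fun i => e (idxPt i)) = (∅ : Finset α).disjSum Finset.univ := by
  obtain ⟨e, h1, h2⟩ := Cfsg.Agent.Lib.SteinerCert2.main_thm (sys2 hα hB) rfl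
  refine ⟨e, image_std h1 ?_, h2⟩
  show (liftB 2 '' B).ncard = _
  rw [ncard_lift, ncard_std2]
  have h3 := ncard_mul_choose hB
  rw [hα] at h3
  have h4 : Nat.choose 6 3 = 20 := by decide
  have h5 : Nat.choose 22 3 = 1540 := by decide
  rw [h4, h5] at h3
  omega

variable {β : Type*} [Fintype β] [DecidableEq β] {B' : Set (Finset β)}

theorem unique0 (hα : Fintype.card α = 24) (hβ : Fintype.card β = 24) (hB : IsSteinerSystem 5 8 B)
    (hB' : IsSteinerSystem 5 8 B') : SetSystemIso B B' := by
  obtain ⟨e, h1, h2⟩ := label0 hα hB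
  obtain ⟨e', h1', h2'⟩ := label0 hβ hB'
  exact iso_of_mains (by norm_num) e e' h1 h1' h2 h2'

theorem unique1 (hα : Fintype.card α = 23) (hβ : Fintype.card β = 23) (hB : IsSteinerSystem 4 7 B)
    (hB' : IsSteinerSystem 4 7 B') : SetSystemIso B B' := by
  obtain ⟨e, h1, h2⟩ := label1 hα hB
  obtain ⟨e', h1', h2'⟩ := label1 hβ hB'
  exact iso_of_mains (by norm_num) e e' h1 h1' h2 h2'

theorem unique2 (hα : Fintype.card α = 22) (hβ : Fintype.card β = 22) (hB : IsSteinerSystem 3 6 B)
    (hB' : IsSteinerSystem 3 6 B') : SetSystemIso B B' := by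
  obtain ⟨e, h1, h2⟩ := label2 hα hB
  obtain ⟨e', h1', h2'⟩ := label2 hβ hB'
  exact iso_of_mains (by norm_num) e e' h1 h1' h2 h2'

end Cfsg.Agent.Lib.SteinerUnique
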