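import Cfsg.Agent.Lib.SteinerGraph
import Cfsg.Agent.Lib.SteinerUnique

/-!
# The strongly regular graph `(100, 22, 0, 6)` is unique
-/

set_option autoImplicit false
set_option linter.unusedSectionVars false
set_option linter.constructorNameAsVariable false
set_option linter.style.haveILetI false

namespace Cfsg.Agent.Lib.SRG100

open Cfsg Finset Cfsg.Agent.Lib.SteinerGraph Cfsg.Agent.Lib.SteinerBasic
open scoped Classical

universe u v

variable {V : Type u} [Fintype V] {G : SimpleGraph V}

/-- Strong regularity with classical filters. -/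
structure SRGp (G : SimpleGraph V) : Prop where
  card : Fintype.card V = 100
  deg : ∀ v, (univ.filter (G.Adj v)).card = 22
  lam : ∀ v w, G.Adj v w → ∀ z, ¬ (G.Adj v z ∧ G.Adj w z)
  mu : ∀ v w, v ≠ w → ¬ G.Adj v w → (univ.filter (fun z => G.Adj v z ∧ G.Adj w z)).card = 6

theorem srgp_of [DecidableRel G.Adj] (h : G.IsSRGWith 100 22 0 6) : SRGp G := by
  refine ⟨h.card, ?_, ?_, ?_⟩
  · intro v
    rw [← h.regular v, ← SimpleGraph.card_neighborFinset_eq_degree, SimpleGraph.neighborFinset_eq_filter]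
    congr
  · intro v w hvw z hz
    have := h.of_adj v w hvw
    rw [Fintype.card_eq_zero_iff] at this
    exact this.false ⟨z, by simp [SimpleGraph.mem_commonNeighbors, hz]⟩
  · intro v w hne hn
    rw [← h.of_not_adj hne hn]
    symm
    apply Fintype.card_of_subtype
    intro x
    simp [SimpleGraph.mem_commonNeighbors]

/-- Points: neighbours of `x`. -/
abbrev Pt (G : SimpleGraph V) (x : V) : Type u := {p : V // G.Adj x p}

/-- The remaining vertices. -/
noncomputable def Ys (G : SimpleGraph V) (x : V) : Finset V := univ.filter (fun y => y ≠ x ∧ ¬ G.Adj x y)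

theorem mem_Ys {x y : V} : y ∈ Ys G x ↔ y ≠ x ∧ ¬ G.Adj x y := by simp [Ys]

/-- Block of `y`. -/
noncomputable def Bl (G : SimpleGraph V) (x y : V) : Finset (Pt G x) :=
  (univ.filter (G.Adj y)).subtype (G.Adj x)

theorem mem_Bl {x y : V} {p : Pt G x} : p ∈ Bl G x y ↔ G.Adj y p.1 := by simp [Bl]

theorem card_Pt (hS : SRGp G) (x : V) : Fintype.card (Pt G x) = 22 := by
  rw [Fintype.card_subtype]
  exact hS.deg x

theorem card_Ys (hS : SRGp G) (x : V) : (Ys G x).card = 77 := by
  have h1 : (Ys G x) = (univ \ (insert x (univ.filter (G.Adj x)))) := by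
    ext y
    simp [mem_Ys]
  have h2 : x ∉ univ.filter (G.Adj x) := by simp
  rw [h1, Finset.card_sdiff_of_subset (Finset.subset_univ _), Finset.card_insert_of_notMem h2, hS.deg,
    Finset.card_univ, hS.card]

theorem card_Bl (hS : SRGp G) {x y : V} (hy : y ∈ Ys G x) : (Bl G x y).card = 6 := by
  obtain ⟨h1, h2⟩ := mem_Ys.mp hy
  rw [Bl, Finset.card_subtype, Finset.filter_filter]
  rw [← hS.mu x y h1.symm h2]
  congr 1
  ext z
  simp [and_comm]

theorem not_adj_pts (hS : SRGp G) {x : V} (p q : Pt G x) : ¬ G.Adj p.1 q.1 := by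
  intro h
  exact hS.lam x p.1 p.2 q.1 ⟨q.2, h⟩

/-- Neighbours of a point other than `x` are in `Ys`. -/
theorem mem_Ys_of_adj (hS : SRGp G) {x : V} (p : Pt G x) {z : V} (hz : G.Adj z p.1) (hzx : z ≠ x) :
    z ∈ Ys G x := by
  refine mem_Ys.mpr ⟨hzx, fun h => ?_⟩
  exact hS.lam x p.1 p.2 z ⟨h, hz.symm⟩

theorem count_one (hS : SRGp G) {x : V} (p : Pt G x) :
    ((Ys G x).filter (fun z => p ∈ Bl G x z)).card = 21 := by
  have h1 : (Ys G x).filter (fun z => p ∈ Bl G x z) = (univ.filter (G.Adj p.1)).erase x := by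
    ext z
    simp only [mem_filter, mem_erase, mem_univ, true_and, mem_Bl]
    constructor
    · rintro ⟨h1, h2⟩
      exact ⟨(mem_Ys.mp h1).1, h2.symm⟩
    · rintro ⟨h1, h2⟩
      exact ⟨mem_Ys_of_adj hS p h2.symm h1, h2.symm⟩
  rw [h1, Finset.card_erase_of_mem (by simpa using p.2.symm), hS.deg]

theorem count_two (hS : SRGp G) {x : V} {p q : Pt G x} (hpq : p ≠ q) :
    ((Ys G x).filter (fun z => p ∈ Bl G x z ∧ q ∈ Bl G x z)).card = 5 := by
  have hne : p.1 ≠ q.1 := fun h => hpq (Subtype.ext h)
  have h1 : (Ys G x).filter (fun z => p ∈ Bl G x z ∧ q ∈ Bl G x z) =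
      (univ.filter (fun z => G.Adj p.1 z ∧ G.Adj q.1 z)).erase x := by
    ext z
    simp only [mem_filter, mem_erase, mem_univ, true_and, mem_Bl]
    constructor
    · rintro ⟨h1, h2, h3⟩
      exact ⟨(mem_Ys.mp h1).1, h2.symm, h3.symm⟩
    · rintro ⟨h1, h2, h3⟩
      exact ⟨mem_Ys_of_adj hS p h2.symm h1, h2.symm, h3.symm⟩
  rw [h1, Finset.card_erase_of_mem (by simpa using ⟨p.2.symm, q.2.symm⟩), hS.mu _ _ hne (not_adj_pts hS p q)]

theorem inter_card {x : V} (A C : Finset (Pt G x)) : (A ∩ C).card = ∑ p ∈ A, if p ∈ C then 1 else 0 := by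
  rw [Finset.sum_boole, Nat.cast_id, Finset.filter_mem_eq_inter]

/-- First moment. -/
theorem sum_one (hS : SRGp G) {x y : V} (hy : y ∈ Ys G x) :
    ∑ z ∈ Ys G x, (Bl G x y ∩ Bl G x z).card = 126 := by
  simp only [inter_card]
  rw [Finset.sum_comm]
  have : ∀ p ∈ Bl G x y, ∑ z ∈ Ys G x, (if p ∈ Bl G x z then 1 else 0) = 21 := by
    intro p _
    rw [Finset.sum_boole, Nat.cast_id, count_one hS]
  rw [Finset.sum_congr rfl this, Finset.sum_const, smul_eq_mul, card_Bl hS hy]

/-- Second moment. -/
theorem sum_two (hS : SRGp G) {x y : V} (hy : y ∈ Ys G x) :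
    ∑ z ∈ Ys G x, (Bl G x y ∩ Bl G x z).card * (Bl G x y ∩ Bl G x z).card = 276 := by
  have h1 : ∀ z, (Bl G x y ∩ Bl G x z).card * (Bl G x y ∩ Bl G x z).card =
      ∑ p ∈ Bl G x y, ∑ q ∈ Bl G x y, if p ∈ Bl G x z ∧ q ∈ Bl G x z then 1 else 0 := by
    intro z
    rw [inter_card, Finset.sum_mul_sum]
    refine Finset.sum_congr rfl fun p _ => Finset.sum_congr rfl fun q _ => ?_
    by_cases hp : p ∈ Bl G x z <;> by_cases hq : q ∈ Bl G x z <;> simp [hp, hq]
  simp only [h1]
  rw [Finset.sum_comm]
  have h2 : ∀ p ∈ Bl G x y, ∑ z ∈ Ys G x, ∑ q ∈ Bl G x y, (if p ∈ Bl G x z ∧ q ∈ Bl G x z then 1 else 0) = 46 := by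
    intro p hp
    rw [Finset.sum_comm]
    have h3 : ∀ q ∈ Bl G x y, ∑ z ∈ Ys G x, (if p ∈ Bl G x z ∧ q ∈ Bl G x z then 1 else 0) =
        5 + (if q = p then 16 else 0) := by
      intro q _
      rw [Finset.sum_boole, Nat.cast_id]
      by_cases hpq : q = p
      · subst hpq
        simp only [and_self, if_true]
        rw [count_one hS]
      · rw [if_neg hpq, count_two hS (Ne.symm hpq)]
    rw [Finset.sum_congr rfl h3, Finset.sum_add_distrib, Finset.sum_const, smul_eq_mul, card_Bl hS hy,
      Finset.sum_ite_eq' (Bl G x y) p, if_pos hp]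
  rw [Finset.sum_congr rfl h2, Finset.sum_const, smul_eq_mul, card_Bl hS hy]

/-- Adjacent vertices have disjoint blocks. -/
theorem inter_of_adj (hS : SRGp G) {x y z : V} (h : G.Adj y z) : Bl G x y ∩ Bl G x z = ∅ := by
  rw [Finset.eq_empty_iff_forall_notMem]
  intro p hp
  obtain ⟨h1, h2⟩ := Finset.mem_inter.mp hp
  exact hS.lam y z h p.1 ⟨mem_Bl.mp h1, mem_Bl.mp h2⟩

/-- The number of neighbours of `y` in `Ys`. -/
theorem count_adj (hS : SRGp G) {x y : V} (hy : y ∈ Ys G x) :
    ((Ys G x).filter (fun z => G.Adj y z)).card = 16 := by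
  obtain ⟨hy1, hy2⟩ := mem_Ys.mp hy
  have h1 := hS.deg y
  have h2 := hS.mu x y hy1.symm hy2
  have h3 : (univ.filter (G.Adj y)) =
      (Ys G x).filter (fun z => G.Adj y z) ∪ (univ.filter (fun z => G.Adj x z ∧ G.Adj y z)) := by
    ext z
    simp only [mem_filter, mem_union, mem_univ, true_and, mem_Ys]
    constructor
    · intro h
      by_cases hxz : G.Adj x z
      · exact Or.inr ⟨hxz, h⟩
      · refine Or.inl ⟨⟨?_, hxz⟩, h⟩
        rintro rfl
        exact hy2 h.symm
    · rintro (h | h)
      · exact h.2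
      · exact h.2
  have h4 : Disjoint ((Ys G x).filter (fun z => G.Adj y z)) (univ.filter (fun z => G.Adj x z ∧ G.Adj y z)) := by
    rw [Finset.disjoint_left]
    intro z h5 h6
    simp only [mem_filter, mem_Ys, mem_univ, true_and] at h5 h6
    exact h5.1.2 h6.1
  rw [h3, Finset.card_union_of_disjoint h4, h2] at h1
  omega

/-- The key variance computation. -/
theorem inter_two (hS : SRGp G) {x y z : V} (hy : y ∈ Ys G x) (hz : z ∈ Ys G x) (hne : y ≠ z)
    (hn : ¬ G.Adj y z) : (Bl G x y ∩ Bl G x z).card = 2 := by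
  set i : V → ℤ := fun w => ((Bl G x y ∩ Bl G x w).card : ℤ) with hi
  set W := (Ys G x).filter (fun w => w ≠ y ∧ ¬ G.Adj y w) with hW
  set g : V → ℤ := fun w => i w * i w - 4 * i w + (if w ∈ W then 4 else 0) with hg
  have hyW : y ∉ W := by simp [hW]
  have hWcard : W.card = 60 := by
    have h1 : Ys G x = insert y ((Ys G x).filter (fun w => G.Adj y w) ∪ W) := by
      ext w
      simp only [mem_insert, mem_union, mem_filter, hW]
      constructor
      · intro hw
        by_cases h1 : w = y
        · exact Or.inl h1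
        · by_cases h2 : G.Adj y w
          · exact Or.inr (Or.inl ⟨hw, h2⟩)
          · exact Or.inr (Or.inr ⟨hw, h1, h2⟩)
      · rintro (rfl | h | h)
        · exact hy
        · exact h.1
        · exact h.1
    have h2 : Disjoint ((Ys G x).filter (fun w => G.Adj y w)) W := by
      rw [Finset.disjoint_left]
      intro w h5 h6
      simp only [mem_filter, hW] at h5 h6
      exact h6.2.2 h5.2
    have h3 := card_Ys hS x
    rw [h1, Finset.card_insert_of_notMem, Finset.card_union_of_disjoint h2, count_adj hS hy] at h3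
    · omega
    · simp only [mem_union, mem_filter, not_or, hW]
      exact ⟨fun h => (G.loopless.irrefl y) h.2, fun h => h.2.1 rfl⟩
  have hsum : ∑ w ∈ Ys G x, g w = 12 := by
    have h1 : ∑ w ∈ Ys G x, i w = 126 := by
      have := sum_one hS hy
      have h2 := congrArg (Nat.cast (R := ℤ)) this
      push_cast at h2
      exact h2
    have h2 : ∑ w ∈ Ys G x, i w * i w = 276 := by
      have := sum_two hS hy
      have h2 := congrArg (Nat.cast (R := ℤ)) this
      push_cast at h2
      exact h2
    have h3 : ∑ w ∈ Ys G x, (if w ∈ W then (4 : ℤ) else 0) = 240 := by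
      rw [Finset.sum_ite_mem]
      have : Ys G x ∩ W = W := Finset.inter_eq_right.mpr (Finset.filter_subset _ _)
      rw [this, Finset.sum_const, hWcard]
      norm_num
    simp only [hg, Finset.sum_add_distrib, Finset.sum_sub_distrib, ← Finset.mul_sum, h1, h2, h3]
    norm_num
  have hgy : g y = 12 := by
    have h1 : i y = 6 := by
      simp only [hi, Finset.inter_self, card_Bl hS hy]
      norm_num
    simp only [hg, h1, if_neg hyW]
    norm_num
  have hrest : ∑ w ∈ (Ys G x).erase y, g w = 0 := by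
    have := Finset.add_sum_erase (Ys G x) g hy
    rw [hsum, hgy] at this
    omega
  have hnonneg : ∀ w ∈ (Ys G x).erase y, 0 ≤ g w := by
    intro w hw
    obtain ⟨h1, h2⟩ := Finset.mem_erase.mp hw
    by_cases hadj : G.Adj y w
    · have h3 : i w = 0 := by
        simp only [hi, inter_of_adj hS hadj]
        simp
      have h4 : w ∉ W := by simp [hW, hadj]
      simp only [hg, h3, if_neg h4]
      norm_num
    · have h4 : w ∈ W := by simp [hW, hadj, h1, h2]
      simp only [hg, if_pos h4]
      nlinarith [sq_nonneg (i w - 2)]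
  have hzero := (Finset.sum_eq_zero_iff_of_nonneg hnonneg).mp hrest z (Finset.mem_erase.mpr ⟨hne.symm, hz⟩)
  have hzW : z ∈ W := by simp [hW, hn, hne.symm, hz]
  simp only [hg, if_pos hzW] at hzero
  have h5 : (i z - 2) * (i z - 2) = 0 := by linarith
  have h6 : i z = 2 := by
    have := mul_self_eq_zero.mp h5
    linarith
  simp only [hi] at h6
  exact_mod_cast h6

theorem inter_le_two (hS : SRGp G) {x y z : V} (hy : y ∈ Ys G x) (hz : z ∈ Ys G x) (hne : y ≠ z) :
    (Bl G x y ∩ Bl G x z).card ≤ 2 := by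
  by_cases hn : G.Adj y z
  · rw [inter_of_adj hS hn]
    simp
  · rw [inter_two hS hy hz hne hn]

theorem Bl_inj (hS : SRGp G) {x y z : V} (hy : y ∈ Ys G x) (hz : z ∈ Ys G x) (h : Bl G x y = Bl G x z) :
    y = z := by
  by_contra hne
  have h1 := inter_le_two hS hy hz hne
  rw [← h, Finset.inter_self, card_Bl hS hy] at h1
  omega

/-- The family of blocks. -/
def Fam (G : SimpleGraph V) (x : V) : Set (Finset (Pt G x)) := {b | ∃ y ∈ Ys G x, Bl G x y = b}

theorem fam_steiner (hS : SRGp G) (x : V) : IsSteinerSystem 3 6 (Fam G x) := by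
  refine ⟨?_, ?_⟩
  · rintro b ⟨y, hy, rfl⟩
    exact card_Bl hS hy
  intro s hs
  have hU : (Ys G x).biUnion (fun y => powersetCard 3 (Bl G x y)) = powersetCard 3 (univ : Finset (Pt G x)) := by
    apply Finset.eq_of_subset_of_card_le
    · intro t ht
      obtain ⟨y, _, h2⟩ := Finset.mem_biUnion.mp ht
      exact Finset.mem_powersetCard.mpr ⟨Finset.subset_univ _, (Finset.mem_powersetCard.mp h2).2⟩
    · rw [Finset.card_biUnion]
      · have : ∀ y ∈ Ys G x, (powersetCard 3 (Bl G x y)).card = 20 := by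
          intro y hy
          rw [Finset.card_powersetCard, card_Bl hS hy]
          decide
        rw [Finset.sum_congr rfl this, Finset.sum_const, card_Ys hS, Finset.card_powersetCard, Finset.card_univ,
          card_Pt hS]
        decide
      · intro y hy z hz hne
        show Disjoint _ _
        rw [Finset.disjoint_left]
        intro t h1 h2
        obtain ⟨h3, h4⟩ := Finset.mem_powersetCard.mp h1
        obtain ⟨h5, _⟩ := Finset.mem_powersetCard.mp h2
        have := Finset.card_le_card (Finset.subset_inter h3 h5)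
        have h6 := inter_le_two hS hy hz hne
        omega
  have hs' : s ∈ (Ys G x).biUnion (fun y => powersetCard 3 (Bl G x y)) := by
    rw [hU]
    exact Finset.mem_powersetCard.mpr ⟨Finset.subset_univ _, hs⟩
  obtain ⟨y, hy, h2⟩ := Finset.mem_biUnion.mp hs'
  have h3 := (Finset.mem_powersetCard.mp h2).1
  refine ⟨Bl G x y, ⟨⟨y, hy, rfl⟩, h3⟩, ?_⟩
  rintro b ⟨⟨z, hz, rfl⟩, h4⟩
  by_contra hne
  have hyz : z ≠ y := fun h => hne (by rw [h])
  have h5 := Finset.card_le_card (Finset.subset_inter h4 h3)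
  have h6 := inter_le_two hS hz hy hyz
  omega

/-- The vertex of a block. -/
noncomputable def vtx {x : V} (b : Fam G x) : V := Classical.choose b.2

theorem vtx_mem {x : V} (b : Fam G x) : vtx b ∈ Ys G x := (Classical.choose_spec b.2).1

theorem Bl_vtx {x : V} (b : Fam G x) : Bl G x (vtx b) = b.1 := (Classical.choose_spec b.2).2

/-- The map from the model. -/
noncomputable def Phi (G : SimpleGraph V) (x : V) : Option (Pt G x ⊕ Fam G x) → V
  | none => x
  | some (Sum.inl p) => p.1
  | some (Sum.inr b) => vtx b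

theorem Phi_bij (hS : SRGp G) (x : V) : Function.Bijective (Phi G x) := by
  haveI : Fintype (Fam G x) := Fintype.ofFinite _
  have hst := fam_steiner hS x
  have hcardB : Fintype.card (Fam G x) = 77 := by
    rw [← lam0 (card_Pt hS x) hst]
    apply Fintype.card_of_subtype
    intro b
    exact mem_blocks
  rw [Fintype.bijective_iff_injective_and_card]
  refine ⟨?_, ?_⟩
  · have hxp : ∀ p : Pt G x, p.1 ≠ x := fun p h => by
      have := p.2
      rw [h] at this
      exact this.ne rfl
    rintro (_ | p | b) (_ | q | c) h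
    · rfl
    · exact absurd (show q.1 = x from h.symm) (hxp q)
    · exact absurd (show vtx c = x from h.symm) (mem_Ys.mp (vtx_mem c)).1
    · exact absurd (show p.1 = x from h) (hxp p)
    · have h' : p.1 = q.1 := h
      rw [Subtype.ext h']
    · have h' : p.1 = vtx c := h
      exact absurd (h' ▸ p.2) (mem_Ys.mp (vtx_mem c)).2
    · exact absurd (show vtx b = x from h) (mem_Ys.mp (vtx_mem b)).1
    · have h' : vtx b = q.1 := h
      exact absurd (h'.symm ▸ q.2) (mem_Ys.mp (vtx_mem b)).2
    · have h' : vtx b = vtx c := h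
      have h2 : b.1 = c.1 := by rw [← Bl_vtx b, ← Bl_vtx c, h']
      rw [Subtype.ext h2]
  · simp [Fintype.card_option, Fintype.card_sum, card_Pt hS x, hcardB, hS.card]

theorem Phi_adj (hS : SRGp G) (x : V) (u v : Option (Pt G x ⊕ Fam G x)) :
    G.Adj (Phi G x u) (Phi G x v) ↔ (pointBlockGraph (Fam G x)).Adj u v := by
  have hst := fam_steiner hS x
  have a9 := pbAdj_inr_inr hst
  have hbb : ∀ b c : Fam G x, G.Adj (vtx b) (vtx c) ↔ Disjoint b.1 c.1 := by
    intro b c
    rw [← Bl_vtx b, ← Bl_vtx c]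
    constructor
    · intro h
      rw [Finset.disjoint_iff_inter_eq_empty]
      exact inter_of_adj hS h
    · intro h
      by_contra hn
      rw [Finset.disjoint_iff_inter_eq_empty] at h
      by_cases hne : vtx b = vtx c
      · rw [← hne, Finset.inter_self] at h
        have := card_Bl hS (vtx_mem b)
        rw [h] at this
        simp at this
      · have := inter_two hS (vtx_mem b) (vtx_mem c) hne hn
        rw [h] at this
        simp at this
  rcases u with _ | p | b <;> rcases v with _ | q | c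
  · simp [Phi, pbAdj_none_none]
  · simp only [Phi, pbAdj_none_inl, iff_true]
    exact q.2
  · simp only [Phi, pbAdj_none_inr, iff_false]
    exact (mem_Ys.mp (vtx_mem c)).2
  · simp only [Phi, pbAdj_inl_none, iff_true]
    exact p.2.symm
  · simp only [Phi, pbAdj_inl_inl, iff_false]
    exact not_adj_pts hS p q
  · simp only [Phi, pbAdj_inl_inr]
    rw [← Bl_vtx c, mem_Bl, G.adj_comm]
  · simp only [Phi, pbAdj_inr_none, iff_false]
    exact fun h => (mem_Ys.mp (vtx_mem b)).2 h.symm
  · simp only [Phi, pbAdj_inr_inl]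
    rw [← Bl_vtx b, mem_Bl]
  · simp only [Phi, a9]
    exact hbb b c

/-- `G` is the point-block graph of its Steiner system. -/
noncomputable def isoModel (hS : SRGp G) (x : V) : pointBlockGraph (Fam G x) ≃g G :=
  ⟨Equiv.ofBijective (Phi G x) (Phi_bij hS x), fun {u v} => Phi_adj hS x u v⟩

section Model

variable {α : Type*} {β : Type*} [Fintype α] [Fintype β] [DecidableEq α] [DecidableEq β]
  {B : Set (Finset α)} {B' : Set (Finset β)}

/-- Isomorphic systems have isomorphic graphs. -/
theorem pb_iso (hB : IsSteinerSystem 3 6 B) (hB' : IsSteinerSystem 3 6 B') (h : SetSystemIso B B') :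
    Nonempty (pointBlockGraph B ≃g pointBlockGraph B') := by
  obtain ⟨e, he⟩ := h
  have hmem : ∀ b ∈ B, b.image e ∈ B' := fun b hb => by
    rw [← he]
    exact ⟨b, hb, rfl⟩
  let f : B → B' := fun b => ⟨b.1.image e, hmem b.1 b.2⟩
  have hf : Function.Bijective f := by
    constructor
    · intro b c hbc
      exact Subtype.ext (Finset.image_injective e.injective (congrArg Subtype.val hbc))
    · rintro ⟨d, hd⟩
      rw [← he] at hd
      obtain ⟨b, hb, rfl⟩ := hd
      exact ⟨⟨b, hb⟩, rfl⟩
  let F : B ≃ B' := Equiv.ofBijective f hf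
  refine ⟨⟨Equiv.optionCongr (Equiv.sumCongr e F), ?_⟩⟩
  rintro (_ | p | b) (_ | q | c)
  · simp [pbAdj_none_none]
  · simp [pbAdj_none_inl]
  · simp [pbAdj_none_inr]
  · simp [pbAdj_inl_none]
  · simp [pbAdj_inl_inl]
  · simp only [Equiv.optionCongr_apply, Option.map_some, Equiv.sumCongr_apply, Sum.map_inl, Sum.map_inr,
      pbAdj_inl_inr]
    exact e.injective.mem_finset_image
  · simp [pbAdj_inr_none]
  · simp only [Equiv.optionCongr_apply, Option.map_some, Equiv.sumCongr_apply, Sum.map_inl, Sum.map_inr,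
      pbAdj_inr_inl]
    exact e.injective.mem_finset_image
  · simp only [Equiv.optionCongr_apply, Option.map_some, Equiv.sumCongr_apply, Sum.map_inr,
      pbAdj_inr_inr hB, pbAdj_inr_inr hB']
    exact Finset.disjoint_image e.injective

end Model

/-- Uniqueness. -/
theorem unique {W : Type v} [Fintype W] {H : SimpleGraph W} (hG : SRGp G) (hH : SRGp H) :
    Nonempty (G ≃g H) := by
  obtain ⟨x⟩ : Nonempty V := by
    rw [← Fintype.card_pos_iff, hG.card]
    norm_num
  obtain ⟨y⟩ : Nonempty W := by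
    rw [← Fintype.card_pos_iff, hH.card]
    norm_num
  obtain ⟨i⟩ := pb_iso (fam_steiner hG x) (fam_steiner hH y)
    (Cfsg.Agent.Lib.SteinerUnique.unique2 (card_Pt hG x) (card_Pt hH y) (fam_steiner hG x) (fam_steiner hH y))
  exact ⟨(isoModel hG x).symm.trans (i.trans (isoModel hH y))⟩

end Cfsg.Agent.Lib.SRG100
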