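/-
Semisimple classes of the special unitary group: the determinant on the centraliser of a
semisimple element of `GU` is onto the norm one group.
-/
import Mathlib
import Cfsg.Agent.Lib.PGUPrime
import Cfsg.Agent.Lib.GURegU

set_option autoImplicit false
set_option linter.all false

open scoped MatrixGroups
open Polynomial

noncomputable section

namespace Cfsg.Agent.Lib.SUConj

open Cfsg Cfsg.Agent.Lib DualPoly GUConj

universe u

variable {K : Type u} [Field K] {a b n : ℕ} {q : ℕ}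

/-- Block sum of square matrices. -/
def bl (A : Matrix (Fin a) (Fin a) K) (B : Matrix (Fin b) (Fin b) K) : Matrix (Fin (a + b)) (Fin (a + b)) K :=
  Matrix.reindexAlgEquiv K K finSumFinEquiv (Matrix.fromBlocks A 0 0 B)

theorem bl_mul (A A' : Matrix (Fin a) (Fin a) K) (B B' : Matrix (Fin b) (Fin b) K) :
    bl A B * bl A' B' = bl (A * A') (B * B') := by
  unfold bl
  rw [← map_mul, Matrix.fromBlocks_multiply]
  simp

theorem bl_one : bl (1 : Matrix (Fin a) (Fin a) K) (1 : Matrix (Fin b) (Fin b) K) = 1 := by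
  unfold bl
  rw [Matrix.fromBlocks_one, map_one]

theorem bl_pow (A : Matrix (Fin a) (Fin a) K) (B : Matrix (Fin b) (Fin b) K) (k : ℕ) :
    bl A B ^ k = bl (A ^ k) (B ^ k) := by
  induction k with
  | zero => simp [bl_one]
  | succ k ih => rw [pow_succ, ih, bl_mul, pow_succ, pow_succ]

theorem det_bl (A : Matrix (Fin a) (Fin a) K) (B : Matrix (Fin b) (Fin b) K) : (bl A B).det = A.det * B.det := by
  unfold bl
  rw [Matrix.reindexAlgEquiv_apply, Matrix.det_reindex_self, Matrix.det_fromBlocks_zero₂₁]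

theorem charpoly_bl (A : Matrix (Fin a) (Fin a) K) (B : Matrix (Fin b) (Fin b) K) :
    (bl A B).charpoly = A.charpoly * B.charpoly := by
  unfold bl
  rw [Matrix.reindexAlgEquiv_apply, Matrix.charpoly_reindex, Matrix.charpoly_fromBlocks_zero₁₂]

theorem pow_fromBlocks (A : Matrix (Fin a) (Fin a) K) (B : Matrix (Fin b) (Fin b) K) (k : ℕ) :
    (Matrix.fromBlocks A 0 0 B) ^ k = Matrix.fromBlocks (A ^ k) 0 0 (B ^ k) := by
  induction k with
  | zero => simp [Matrix.fromBlocks_one]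
  | succ k ih =>
    rw [pow_succ, ih, Matrix.fromBlocks_multiply]
    simp [pow_succ]

theorem aeval_fromBlocks (A : Matrix (Fin a) (Fin a) K) (B : Matrix (Fin b) (Fin b) K) (G : K[X]) :
    aeval (Matrix.fromBlocks A 0 0 B) G = Matrix.fromBlocks (aeval A G) 0 0 (aeval B G) := by
  induction G using Polynomial.induction_on' with
  | add f g hf hg =>
    rw [map_add, map_add, map_add, hf, hg, Matrix.fromBlocks_add]
    simp
  | monomial k c =>
    simp only [aeval_monomial, Algebra.algebraMap_eq_smul_one, smul_mul_assoc, one_mul,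
      pow_fromBlocks, Matrix.fromBlocks_smul, smul_zero]

theorem aeval_bl (A : Matrix (Fin a) (Fin a) K) (B : Matrix (Fin b) (Fin b) K) (G : K[X]) :
    aeval (bl A B) G = bl (aeval A G) (aeval B G) := by
  unfold bl
  rw [aeval_algEquiv, ← aeval_fromBlocks]
  rfl

theorem St_bl (σ : K ≃+* K) (A : Matrix (Fin a) (Fin a) K) (B : Matrix (Fin b) (Fin b) K) :
    St σ (bl A B) = bl (St σ A) (St σ B) := by
  ext i j
  simp only [St_apply, bl, Matrix.transpose_apply, Matrix.map_apply, Matrix.reindexAlgEquiv_apply, Matrix.reindex_apply,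
    Matrix.submatrix_apply]
  rcases finSumFinEquiv.symm i with i | i <;> rcases finSumFinEquiv.symm j with j | j <;> simp [St_apply]

/-- Block sum of invertible matrices. -/
def blG (x : GL (Fin a) K) (y : GL (Fin b) K) : GL (Fin (a + b)) K :=
  ⟨bl x.1 y.1, bl (x⁻¹).1 (y⁻¹).1, by rw [bl_mul, x.mul_inv, y.mul_inv, bl_one], by rw [bl_mul, x.inv_mul, y.inv_mul, bl_one]⟩

theorem blG_val (x : GL (Fin a) K) (y : GL (Fin b) K) : (blG x y).1 = bl x.1 y.1 := rfl

theorem blG_pow (x : GL (Fin a) K) (y : GL (Fin b) K) (k : ℕ) : blG x y ^ k = blG (x ^ k) (y ^ k) := by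
  apply Units.ext
  rw [Units.val_pow_eq_pow_val, blG_val, bl_pow, blG_val, Units.val_pow_eq_pow_val, Units.val_pow_eq_pow_val]

theorem blG_one : blG (1 : GL (Fin a) K) (1 : GL (Fin b) K) = 1 := by
  apply Units.ext
  exact bl_one

theorem coprime_blG {p : ℕ} (x : GL (Fin a) K) (y : GL (Fin b) K) (hx : (orderOf x).Coprime p) (hy : (orderOf y).Coprime p) :
    (orderOf (blG x y)).Coprime p := by
  have h1 : blG x y ^ (orderOf x * orderOf y) = 1 := by
    rw [blG_pow, pow_mul, pow_orderOf_eq_one, one_pow, mul_comm, pow_mul, pow_orderOf_eq_one, one_pow, blG_one]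
  exact Nat.Coprime.coprime_dvd_left (orderOf_dvd_of_pow_eq_one h1) (Nat.Coprime.mul_left hx hy)

theorem aeval_conj (c : GL (Fin a) K) (A : Matrix (Fin a) (Fin a) K) (G : K[X]) :
    aeval (c.1 * A * (c⁻¹).1) G = c.1 * aeval A G * (c⁻¹).1 := by
  induction G using Polynomial.induction_on' with
  | add f g hf hg =>
    rw [map_add, map_add, hf, hg, mul_add, add_mul]
  | monomial k w =>
    simp only [aeval_monomial]
    rw [show (c.1 * A * (c⁻¹).1) ^ k = c.1 * A ^ k * (c⁻¹).1 from Units.conj_pow c A k]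
    calc algebraMap K _ w * (c.1 * A ^ k * (c⁻¹).1) = (algebraMap K _ w * c.1) * A ^ k * (c⁻¹).1 := by simp only [mul_assoc]
      _ = (c.1 * algebraMap K _ w) * A ^ k * (c⁻¹).1 := by rw [Algebra.commutes]
      _ = _ := by simp only [mul_assoc]

theorem comm_aeval {A Y : Matrix (Fin a) (Fin a) K} (h : Commute A Y) (G : K[X]) : Commute (aeval A G) Y := by
  induction G using Polynomial.induction_on' with
  | add f g hf hg =>
    rw [map_add]
    exact hf.add_left hg
  | monomial k w =>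
    rw [aeval_monomial]
    exact (Algebra.commute_algebraMap_left w Y).mul_left (h.pow_left k)

theorem det_St (σ : K ≃+* K) (A : Matrix (Fin a) (Fin a) K) : (St σ A).det = σ A.det := by
  rw [St_apply, Matrix.det_transpose]
  exact (RingHom.map_det (σ : K →+* K) A).symm

section model

variable [Fintype K] {p : ℕ} [Fact p.Prime] [CharP K p]

theorem exists_model_irr (P : K[X]) (hi : Irreducible P) (hm : P.Monic) (h0 : P.coeff 0 ≠ 0) :
    ∃ D : GL (Fin P.natDegree) K, D.1.charpoly = P ∧ (orderOf D).Coprime p ∧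
      ∀ y : K, y ≠ 0 → ∃ G : K[X], (aeval D.1 G).det = y := by
  classical
  haveI : Fact (Irreducible P) := ⟨hi⟩
  have hP0 := hm.ne_zero
  let pb := AdjoinRoot.powerBasis hP0
  haveI : Module.Finite K (AdjoinRoot P) := pb.finite
  haveI : Finite (AdjoinRoot P) := Module.finite_of_finite K
  letI : Fintype (AdjoinRoot P) := Fintype.ofFinite _
  have hb : Module.Basis (Fin P.natDegree) K (AdjoinRoot P) := pb.basis
  let ι : AdjoinRoot P →ₐ[K] Matrix (Fin P.natDegree) (Fin P.natDegree) K := Algebra.leftMulMatrix pb.basis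
  let ρ : AdjoinRoot P := AdjoinRoot.root P
  have hρ : ρ ≠ 0 := by
    intro h
    have h1 : aeval ρ P = 0 := AdjoinRoot.aeval_eq P ▸ (by simp [ρ])
    rw [h, ← coeff_zero_eq_aeval_zero'] at h1
    exact h0 ((map_eq_zero_iff (algebraMap K (AdjoinRoot P)) (algebraMap K (AdjoinRoot P)).injective).1 h1)
  let D : GL (Fin P.natDegree) K := ⟨ι ρ, ι ρ⁻¹, by rw [← map_mul, mul_inv_cancel₀ hρ, map_one],
    by rw [← map_mul, inv_mul_cancel₀ hρ, map_one]⟩
  have hD : D.1 = ι ρ := rfl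
  refine ⟨D, ?_, ?_, ?_⟩
  · have h1 : (Algebra.leftMulMatrix pb.basis pb.gen).charpoly = minpoly K pb.gen := charpoly_leftMulMatrix pb
    have h2 : pb.gen = AdjoinRoot.root P := rfl
    rw [h2, AdjoinRoot.minpoly_root hP0, hm.leadingCoeff, inv_one, C_1, mul_one] at h1
    exact h1
  · haveI : CharP (AdjoinRoot P) p := charP_of_injective_algebraMap (algebraMap K (AdjoinRoot P)).injective p
    have hp : p.Prime := Fact.out
    obtain ⟨k, _, hk⟩ := FiniteField.card (AdjoinRoot P) p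
    have hpow : D ^ (Fintype.card (AdjoinRoot P) - 1) = 1 := by
      apply Units.ext
      rw [Units.val_pow_eq_pow_val, hD, ← map_pow, FiniteField.pow_card_sub_one_eq_one ρ hρ, map_one, Units.val_one]
    refine Nat.Coprime.coprime_dvd_left (orderOf_dvd_of_pow_eq_one hpow) ?_
    rw [Nat.coprime_comm, hp.coprime_iff_not_dvd]
    intro h
    have h1 : p ∣ Fintype.card (AdjoinRoot P) := by
      rw [hk]
      exact dvd_pow_self p k.ne_zero
    have h2 := Nat.dvd_sub h1 h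
    have h3 : Fintype.card (AdjoinRoot P) - (Fintype.card (AdjoinRoot P) - 1) = 1 := by
      have := Fintype.card_pos (α := AdjoinRoot P)
      omega
    rw [h3] at h2
    exact hp.one_lt.ne' (Nat.dvd_one.1 h2)
  · intro y hy
    obtain ⟨w, hw⟩ := FiniteField.norm_surjective K (AdjoinRoot P) y
    obtain ⟨G, rfl⟩ := AdjoinRoot.mk_surjective w
    refine ⟨G, ?_⟩
    rw [hD, aeval_algHom_apply]
    have h3 : aeval ρ G = AdjoinRoot.mk P G := AdjoinRoot.aeval_eq G
    rw [h3, ← hw]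
    exact (Algebra.norm_eq_matrix_det pb.basis _).symm

theorem exists_model_pair (P Q : K[X]) (hi : Irreducible P) (hm : P.Monic) (h0 : P.coeff 0 ≠ 0) (hQm : Q.Monic)
    (hQ0 : Q.coeff 0 ≠ 0) (hc : IsCoprime P Q) :
    ∃ D : GL (Fin (P.natDegree + Q.natDegree)) K, D.1.charpoly = P * Q ∧ (orderOf D).Coprime p ∧
      ∀ y : K, y ≠ 0 → ∃ G : K[X], (aeval D.1 G).det = y := by
  obtain ⟨E, hE1, hE2, hE3⟩ := exists_model_irr (p := p) P hi hm h0
  obtain ⟨E', hE'1, hE'2⟩ := Cfsg.Agent.Lib.GLClass.exists_element (p := p) (n := Q.natDegree) Q hQm rfl hQ0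
  refine ⟨blG E E', ?_, coprime_blG E E' hE2 hE'2, ?_⟩
  · rw [blG_val, charpoly_bl, hE1, hE'1]
  · intro y hy
    obtain ⟨G₀, hG₀⟩ := hE3 y hy
    obtain ⟨u, v, huv⟩ := hc
    have hEP : aeval E.1 P = 0 := by
      have h := Matrix.aeval_self_charpoly E.1
      rwa [hE1] at h
    have hE'Q : aeval E'.1 Q = 0 := by
      have h := Matrix.aeval_self_charpoly E'.1
      rwa [hE'1] at h
    refine ⟨G₀ * (v * Q) + u * P, ?_⟩
    rw [blG_val, aeval_bl, det_bl]
    have h1 : aeval E.1 (G₀ * (v * Q) + u * P) = aeval E.1 G₀ := by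
      have h2 : v * Q = 1 - u * P := by rw [← huv]; ring
      rw [h2]
      simp only [map_add, map_mul, map_sub, map_one, hEP]
      simp
    have h3 : aeval E'.1 (G₀ * (v * Q) + u * P) = 1 := by
      have h2 : u * P = 1 - v * Q := by rw [← huv]; ring
      rw [h2]
      simp only [map_add, map_mul, map_sub, map_one, hE'Q]
      simp
    rw [h1, h3, Matrix.det_one, mul_one, hG₀]

end model

section unitary

variable [Fintype K] 

/-- Existence of a norm one element of given determinant in a cyclic piece. -/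
theorem exists_z₁ (hK : Fintype.card K = q ^ 2) {σ : K ≃+* K} (hσ : ∀ x, σ x = x ^ q) (D₁ : ↥(GU a K q))
    (hN : ∀ y : K, y ≠ 0 → ∃ G : K[X], (aeval (D₁.1 : GL (Fin a) K).1 G).det = y) (ζ : K) (hζ : ζ ^ (q + 1) = 1) :
    ∃ z : ↥(GU a K q), Commute z D₁ ∧ ((z.1 : GL (Fin a) K) : Matrix (Fin a) (Fin a) K).det = ζ := by
  classical
  have hσ2 : ∀ a, σ (σ a) = a := by
    intro a
    rw [hσ, hσ, UnitaryHerm.pow_q_q hK]
  have hf := UnitaryHerm.hermForm_isUnitary (n := 1) hK hσ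
  obtain ⟨ω, hω⟩ : ∃ ω, σ ω ≠ ω := by
    by_contra hall
    push Not at hall
    exact hf.ne_refl (RingEquiv.ext hall)
  have hθ : IsUnit (ω - σ ω) := (sub_ne_zero.2 hω.symm).isUnit
  have hζ1 : ζ * σ ζ = 1 := by
    rw [hσ, ← hζ, pow_succ, mul_comm]
  obtain ⟨c, hc⟩ := GUSimilar.hilbert90 (σ : K →+* K) hσ2 hθ hζ1
  obtain ⟨u, hu⟩ : ∃ u, u = c + ζ * σ c := ⟨_, rfl⟩
  have hu0 : u ≠ 0 := by
    rw [hu]
    exact hc.ne_zero
  have huσ : ζ * σ u = u := by
    rw [hu, map_add, map_mul, hσ2, mul_add, ← mul_assoc, hζ1, one_mul, add_comm]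
  have hσu : σ u ≠ 0 := by simpa using hu0
  obtain ⟨G, hG⟩ := hN u hu0
  obtain ⟨M, hMdef⟩ : ∃ M : Matrix (Fin a) (Fin a) K, M = (D₁.1 : GL (Fin a) K).1 := ⟨_, rfl⟩
  have hSM : St σ M * M = 1 := by
    rw [hMdef]
    exact (mem_GU_iff_St hK hσ _).1 D₁.2
  have hMS : M * St σ M = 1 := mul_eq_one_comm.1 hSM
  obtain ⟨X, hXdef⟩ : ∃ X : Matrix (Fin a) (Fin a) K, X = aeval M G := ⟨_, rfl⟩
  have hXdet : X.det = u := by
    rw [hXdef, hMdef]
    exact hG
  have hXu : IsUnit X.det := by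
    rw [hXdet]
    exact hu0.isUnit
  obtain ⟨Xi, hXi⟩ : ∃ Xi : Matrix (Fin a) (Fin a) K, Xi = X⁻¹ := ⟨_, rfl⟩
  have hXXi : X * Xi = 1 := by
    rw [hXi]
    exact Matrix.mul_nonsing_inv X hXu
  have hXiX : Xi * X = 1 := mul_eq_one_comm.1 hXXi
  obtain ⟨Y, hYdef⟩ : ∃ Y : Matrix (Fin a) (Fin a) K, Y = St σ X := ⟨_, rfl⟩
  obtain ⟨Yi, hYidef⟩ : ∃ Yi : Matrix (Fin a) (Fin a) K, Yi = St σ Xi := ⟨_, rfl⟩
  have hYYi : Y * Yi = 1 := by
    rw [hYdef, hYidef, ← St_mul, hXiX, St_one]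
  have hYiY : Yi * Y = 1 := by
    rw [hYdef, hYidef, ← St_mul, hXXi, St_one]
  have hcMX : Commute M X := by
    rw [hXdef]
    exact (comm_aeval (Commute.refl M) G).symm
  -- commutation of `Y` with `M`
  have hYSM : Commute Y (St σ M) := by
    have h1 : St σ (M * X) = St σ (X * M) := congrArg _ hcMX.eq
    rw [St_mul, St_mul] at h1
    rw [hYdef]
    exact h1
  have hYM : Commute Y M := by
    show Y * M = M * Y
    calc Y * M = (M * St σ M) * Y * M := by rw [hMS, one_mul]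
      _ = M * (St σ M * Y) * M := by simp only [mul_assoc]
      _ = M * (Y * St σ M) * M := by rw [hYSM.eq]
      _ = M * Y * (St σ M * M) := by simp only [mul_assoc]
      _ = M * Y := by rw [hSM, mul_one]
  have hXY : Commute X Y := by
    rw [hXdef]
    exact comm_aeval hYM.symm G
  have hYiM : Commute Yi M := by
    show Yi * M = M * Yi
    calc Yi * M = Yi * M * (Y * Yi) := by rw [hYYi, mul_one]
      _ = Yi * (M * Y) * Yi := by simp only [mul_assoc]
      _ = Yi * (Y * M) * Yi := by rw [hYM.eq]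
      _ = (Yi * Y) * M * Yi := by simp only [mul_assoc]
      _ = M * Yi := by rw [hYiY, one_mul]
  let zg : GL (Fin a) K := ⟨X * Yi, Y * Xi, by
    calc X * Yi * (Y * Xi) = X * (Yi * Y) * Xi := by simp only [mul_assoc]
      _ = 1 := by rw [hYiY, mul_one, hXXi], by
    calc Y * Xi * (X * Yi) = Y * (Xi * X) * Yi := by simp only [mul_assoc]
      _ = 1 := by rw [hXiX, mul_one, hYYi]⟩
  have hzg : zg.1 = X * Yi := rfl
  have hzmem : zg ∈ GU a K q := by
    rw [mem_GU_iff_St hK hσ, hzg, St_mul, hYidef, St_St σ hσ2, ← hYidef, ← hYdef]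
    calc Xi * Y * (X * Yi) = Xi * (Y * X) * Yi := by simp only [mul_assoc]
      _ = Xi * (X * Y) * Yi := by rw [hXY.eq]
      _ = (Xi * X) * (Y * Yi) := by simp only [mul_assoc]
      _ = 1 := by rw [hXiX, hYYi, one_mul]
  refine ⟨⟨zg, hzmem⟩, ?_, ?_⟩
  · apply Subtype.ext
    apply Units.ext
    show X * Yi * D₁.1.1 = D₁.1.1 * (X * Yi)
    rw [← hMdef]
    calc X * Yi * M = X * (M * Yi) := by rw [mul_assoc, hYiM.eq]
      _ = (X * M) * Yi := by rw [mul_assoc]
      _ = M * (X * Yi) := by rw [← hcMX.eq, mul_assoc]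
  · show (X * Yi).det = ζ
    have h1 : Y.det * Yi.det = 1 := by rw [← Matrix.det_mul, hYYi, Matrix.det_one]
    have h2 : Y.det = σ u := by rw [hYdef, det_St, hXdet]
    rw [h2] at h1
    rw [Matrix.det_mul, hXdet, ← huσ, mul_assoc, h1, mul_one]

variable {p : ℕ} [Fact p.Prime] [CharP K p]

/-- A self-dual factor with a model. -/
theorem exists_R {σ : K ≃+* K} (hσ2 : ∀ a, σ (σ a) = a) (f : K[X]) (hf : f.Monic) (hd0 : f.natDegree ≠ 0)
    (h0 : f.coeff 0 ≠ 0) (hdual : dual σ f = f) :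
    ∃ (R f' : K[X]) (a : ℕ) (D₀ : GL (Fin a) K), f = R * f' ∧ R.Monic ∧ dual σ R = R ∧ D₀.1.charpoly = R ∧
      (orderOf D₀).Coprime p ∧ ∀ y : K, y ≠ 0 → ∃ G : K[X], (aeval D₀.1 G).det = y := by
  classical
  obtain ⟨P, hPi, hPm, hPf⟩ := exists_monic_factor f hf hd0
  have hP0 : P.coeff 0 ≠ 0 := by
    obtain ⟨c, hc⟩ := hPf
    intro h
    apply h0
    rw [hc, mul_coeff_zero, h, zero_mul]
  have hQi := irreducible_dual σ hσ2 hPi hPm hP0
  have hQm := monic_dual σ P hP0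
  have hQf : dual σ P ∣ f := by
    have := dual_dvd σ hPf
    rwa [hdual] at this
  have hQ0 : (dual σ P).coeff 0 ≠ 0 := by
    obtain ⟨c, hc⟩ := hQf
    intro h
    apply h0
    rw [hc, mul_coeff_zero, h, zero_mul]
  have hdd := dual_dual σ hσ2 P hPm hP0
  by_cases hPQ : dual σ P = P
  · obtain ⟨D, hD1, hD2, hD3⟩ := exists_model_irr (p := p) P hPi hPm hP0
    obtain ⟨f', hf'⟩ := hPf
    exact ⟨P, f', _, D, hf', hPm, hPQ, hD1, hD2, hD3⟩
  · have hcop : IsCoprime P (dual σ P) := by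
      rw [hPi.coprime_iff_not_dvd]
      intro h
      apply hPQ
      have h1 := hPi.associated_of_dvd hQi h
      exact eq_of_monic_of_associated hQm hPm h1.symm
    obtain ⟨D, hD1, hD2, hD3⟩ := exists_model_pair (p := p) P (dual σ P) hPi hPm hP0 hQm hQ0 hcop
    obtain ⟨f', hf'⟩ := hcop.mul_dvd hPf hQf
    exact ⟨P * dual σ P, f', _, D, hf', hPm.mul hQm, by rw [dual_mul, hdd, mul_comm], hD1, hD2, hD3⟩

theorem charpoly_self_dual (hK : Fintype.card K = q ^ 2) {σ : K ≃+* K} (hσ : ∀ x, σ x = x ^ q) (g : ↥(GU n K q)) :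
    dual σ ((g.1 : GL (Fin n) K).1).charpoly = ((g.1 : GL (Fin n) K).1).charpoly := by
  have h1 := GUPrimeOrd.charpoly_St_inv σ (g.1 : GL (Fin n) K).1 ((g.1 : GL (Fin n) K)⁻¹).1 (g.1 : GL (Fin n) K).mul_inv
  have hS : St σ (g.1 : GL (Fin n) K).1 * (g.1 : GL (Fin n) K).1 = 1 := (mem_GU_iff_St hK hσ _).1 g.2
  have h2 : St σ ((g.1 : GL (Fin n) K)⁻¹).1 = (g.1 : GL (Fin n) K).1 := by
    calc St σ ((g.1 : GL (Fin n) K)⁻¹).1 = St σ ((g.1 : GL (Fin n) K)⁻¹).1 * (St σ (g.1 : GL (Fin n) K).1 * (g.1 : GL (Fin n) K).1) := by rw [hS, mul_one]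
      _ = St σ ((g.1 : GL (Fin n) K).1 * ((g.1 : GL (Fin n) K)⁻¹).1) * (g.1 : GL (Fin n) K).1 := by rw [St_mul, mul_assoc]
      _ = (g.1 : GL (Fin n) K).1 := by rw [(g.1 : GL (Fin n) K).mul_inv, St_one, one_mul]
  rw [← h1, h2]

/-- The determinant on the centraliser of a semisimple element of `GU` is onto the norm one group. -/
theorem exists_comm_det (hK : Fintype.card K = q ^ 2) (hn : 0 < n) (g : ↥(GU n K q)) (hg : (orderOf g).Coprime p)
    (ζ : K) (hζ : ζ ^ (q + 1) = 1) :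
    ∃ z : ↥(GU n K q), Commute z g ∧ ((z.1 : GL (Fin n) K) : Matrix (Fin n) (Fin n) K).det = ζ := by
  classical
  obtain ⟨σ, hσ⟩ := UnitaryHerm.exists_sigma hK
  have hσ2 : ∀ a, σ (σ a) = a := by
    intro a
    rw [hσ, hσ, UnitaryHerm.pow_q_q hK]
  have hfm := Matrix.charpoly_monic ((g.1 : GL (Fin n) K).1)
  have hfd : ((g.1 : GL (Fin n) K).1).charpoly.natDegree = n := by
    rw [Matrix.charpoly_natDegree_eq_dim, Fintype.card_fin]
  have hf0 := Cfsg.Agent.Lib.GLClass.charpoly_coeff_zero (g.1 : GL (Fin n) K)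
  have hdual := charpoly_self_dual hK hσ g
  obtain ⟨R, f', a, D₀, hfac, hRm, hRd, hD₀1, hD₀2, hD₀3⟩ := exists_R (p := p) hσ2 _ hfm (by omega) hf0 hdual
  have hf'm : f'.Monic := by
    apply Monic.of_mul_monic_left hRm
    rw [← hfac]
    exact hfm
  have hR0 : R.coeff 0 ≠ 0 := by
    intro h
    apply hf0
    rw [hfac, mul_coeff_zero, h, zero_mul]
  have hf'0 : f'.coeff 0 ≠ 0 := by
    intro h
    apply hf0
    rw [hfac, mul_coeff_zero, h, mul_zero]
  have hf'd : dual σ f' = f' := by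
    have h1 := hdual
    rw [hfac, dual_mul, hRd] at h1
    exact mul_left_cancel₀ hRm.ne_zero h1
  have hRa : R.natDegree = a := by
    rw [← hD₀1, Matrix.charpoly_natDegree_eq_dim, Fintype.card_fin]
  have hab : a + f'.natDegree = n := by
    rw [← hRa, ← hRm.natDegree_mul hf'm, ← hfac, hfd]
  obtain ⟨b, hb⟩ : ∃ b, b = f'.natDegree := ⟨_, rfl⟩
  rw [← hb] at hab
  subst hab
  obtain ⟨D₁, hD₁1, hD₁2⟩ := PGUPrime.exists_GU (p := p) (n := a) hK hσ R hRm hRa hR0 hRd
  obtain ⟨D₂, hD₂1, hD₂2⟩ := PGUPrime.exists_GU (p := p) (n := b) hK hσ f' hf'm hb.symm hf'0 hf'd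
  have hN : ∀ y : K, y ≠ 0 → ∃ G : K[X], (aeval (D₁.1 : GL (Fin a) K).1 G).det = y := by
    intro y hy
    obtain ⟨G, hG⟩ := hD₀3 y hy
    refine ⟨G, ?_⟩
    have hcj := Cfsg.Agent.Lib.GLClass.conj_of_charpoly (p := p) D₀ (D₁.1 : GL (Fin a) K) hD₀2
      (by rwa [Subgroup.orderOf_coe]) (by rw [hD₀1, hD₁1])
    obtain ⟨c, hc⟩ := isConj_iff.1 hcj
    have h1 : (D₁.1 : GL (Fin a) K).1 = c.1 * D₀.1 * (c⁻¹).1 := by
      rw [← hc]
      rfl
    rw [h1, aeval_conj, Matrix.det_mul, Matrix.det_mul, mul_comm, ← mul_assoc, ← Matrix.det_mul, c.inv_mul,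
      Matrix.det_one, one_mul, hG]
  obtain ⟨z₁, hz₁c, hz₁d⟩ := exists_z₁ hK hσ D₁ hN ζ hζ
  have hblmem : ∀ (x : ↥(GU a K q)) (y : ↥(GU b K q)), blG (x.1 : GL (Fin a) K) (y.1 : GL (Fin b) K) ∈ GU (a + b) K q := by
    intro x y
    rw [mem_GU_iff_St hK hσ, blG_val, St_bl, bl_mul, (mem_GU_iff_St hK hσ _).1 x.2, (mem_GU_iff_St hK hσ _).1 y.2, bl_one]
  let D : ↥(GU (a + b) K q) := ⟨blG D₁.1 D₂.1, hblmem D₁ D₂⟩
  let z : ↥(GU (a + b) K q) := ⟨blG z₁.1 (1 : ↥(GU b K q)).1, hblmem z₁ 1⟩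
  have hDcop : (orderOf D).Coprime p := by
    rw [← Subgroup.orderOf_coe]
    exact coprime_blG _ _ (by rwa [Subgroup.orderOf_coe]) (by rwa [Subgroup.orderOf_coe])
  have hcp : ((g.1 : GL (Fin (a + b)) K).1).charpoly = ((D.1 : GL (Fin (a + b)) K).1).charpoly := by
    show _ = (bl (D₁.1 : GL (Fin a) K).1 (D₂.1 : GL (Fin b) K).1).charpoly
    rw [charpoly_bl, hD₁1, hD₂1]
    exact hfac
  have hconj := PGUPrime.conj_cp (p := p) hK g D hg hDcop hcp
  obtain ⟨c, hc⟩ := isConj_iff.1 hconj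
  have hzD : Commute z D := by
    apply Subtype.ext
    apply Units.ext
    show bl _ _ * bl _ _ = bl _ _ * bl _ _
    have h1b : ((1 : ↥(GU b K q)).1 : GL (Fin b) K).1 = 1 := rfl
    rw [bl_mul, bl_mul, h1b, one_mul, mul_one]
    have h3 : (z₁.1 : GL (Fin a) K).1 * (D₁.1 : GL (Fin a) K).1 = (D₁.1 : GL (Fin a) K).1 * (z₁.1 : GL (Fin a) K).1 :=
      congrArg (fun w : ↥(GU a K q) => (w.1 : GL (Fin a) K).1) hz₁c.eq
    rw [h3]
  refine ⟨c⁻¹ * z * c, ?_, ?_⟩
  · show c⁻¹ * z * c * g = g * (c⁻¹ * z * c)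
    have h1 : g = c⁻¹ * D * c := by rw [← hc]; group
    rw [h1]
    have h2 : z * D = D * z := hzD.eq
    calc c⁻¹ * z * c * (c⁻¹ * D * c) = c⁻¹ * (z * D) * c := by group
      _ = c⁻¹ * (D * z) * c := by rw [h2]
      _ = c⁻¹ * D * c * (c⁻¹ * z * c) := by group
  · have h1 : ((c⁻¹ * z * c : ↥(GU (a + b) K q)).1 : GL (Fin (a + b)) K).1 =
        ((c⁻¹).1 : GL (Fin (a + b)) K).1 * (z.1 : GL (Fin (a + b)) K).1 * (c.1 : GL (Fin (a + b)) K).1 := rfl
    rw [h1, Matrix.det_mul, Matrix.det_mul, mul_comm, ← mul_assoc, ← Matrix.det_mul]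
    have h2 : (c.1 : GL (Fin (a + b)) K).1 * ((c⁻¹).1 : GL (Fin (a + b)) K).1 = 1 :=
      congrArg (fun w : ↥(GU (a + b) K q) => (w.1 : GL (Fin (a + b)) K).1) (mul_inv_cancel c)
    rw [h2, Matrix.det_one, one_mul]
    show (bl (z₁.1 : GL (Fin a) K).1 1).det = ζ
    rw [det_bl, hz₁d, Matrix.det_one, mul_one]

/-- Two semisimple elements of `SU` with equal characteristic polynomial are conjugate. -/
theorem conj_SU (hK : Fintype.card K = q ^ 2) (g h : ↥(SU n K q)) (hg : (orderOf g).Coprime p) (hh : (orderOf h).Coprime p)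
    (hc : ((g : Matrix.SpecialLinearGroup (Fin n) K) : Matrix (Fin n) (Fin n) K).charpoly =
      ((h : Matrix.SpecialLinearGroup (Fin n) K) : Matrix (Fin n) (Fin n) K).charpoly) : IsConj g h := by
  classical
  rcases Nat.eq_zero_or_pos n with rfl | hn
  · have : g = h := by
      apply Subtype.ext
      apply Subtype.ext
      ext i
      exact i.elim0
    rw [this]
  obtain ⟨σ, hσ⟩ := UnitaryHerm.exists_sigma hK
  have hordg : orderOf (GURegU.fromSU g) = orderOf g := orderOf_injective _ GURegU.fromSU_injective g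
  have hordh : orderOf (GURegU.fromSU h) = orderOf h := orderOf_injective _ GURegU.fromSU_injective h
  have hconj := PGUPrime.conj_cp (p := p) hK (GURegU.fromSU g) (GURegU.fromSU h) (by rwa [hordg]) (by rwa [hordh]) hc
  obtain ⟨c, hc'⟩ := isConj_iff.1 hconj
  have hdet0 : ((c.1 : GL (Fin n) K) : Matrix (Fin n) (Fin n) K).det ≠ 0 := by
    have := (c.1 : GL (Fin n) K).isUnit.map (Matrix.detMonoidHom)
    exact this.ne_zero
  have hdetp := GUQuot.det_pow_of_mem hK hσ c.2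
  obtain ⟨z, hz1, hz2⟩ := exists_comm_det (p := p) hK hn (GURegU.fromSU g) (by rwa [hordg])
    (((c.1 : GL (Fin n) K) : Matrix (Fin n) (Fin n) K).det)⁻¹ (by rw [inv_pow, hdetp, inv_one])
  let c' : ↥(GU n K q) := c * z
  have hc'det : ((c'.1 : GL (Fin n) K) : Matrix (Fin n) (Fin n) K).det = 1 := by
    show ((c.1 : GL (Fin n) K).1 * (z.1 : GL (Fin n) K).1).det = 1
    rw [Matrix.det_mul, hz2, mul_inv_cancel₀ hdet0]
  let s : ↥(SU n K q) := ⟨⟨(c'.1 : GL (Fin n) K).1, hc'det⟩, fun u v => c'.2 u v⟩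
  have hs : GURegU.fromSU s = c' := by
    apply Subtype.ext
    apply Units.ext
    rfl
  rw [isConj_iff]
  refine ⟨s, ?_⟩
  apply GURegU.fromSU_injective
  rw [map_mul, map_mul, map_inv, hs, ← hc']
  show c * z * GURegU.fromSU g * (c * z)⁻¹ = _
  have h3 : z * GURegU.fromSU g = GURegU.fromSU g * z := hz1.eq
  calc c * z * GURegU.fromSU g * (c * z)⁻¹ = c * (z * GURegU.fromSU g) * (c * z)⁻¹ := by group
    _ = c * (GURegU.fromSU g * z) * (c * z)⁻¹ := by rw [h3]
    _ = _ := by group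

end unitary

end Cfsg.Agent.Lib.SUConj
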