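/-
Counting self-dual polynomials; the number of semisimple classes of `SU`.
-/
import Mathlib
import Cfsg.Agent.Lib.SUConj

set_option autoImplicit false
set_option linter.all false

open scoped MatrixGroups
open Polynomial

noncomputable section

namespace Cfsg.Agent.Lib.SUCount

open Cfsg Cfsg.Agent.Lib DualPoly GUConj

universe u

variable {K : Type u} [Field K]

/-- A semilinear involution has as many fixed points as the square root of the size of the space. -/
theorem card_fix_sq {W : Type*} [AddCommGroup W] [Module K W] [Finite W] (σ : K ≃+* K) (hσ2 : ∀ a, σ (σ a) = a)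
    (τ : W →+ W) (hsm : ∀ (a : K) (x : W), τ (a • x) = σ a • τ x) (hτ2 : ∀ x, τ (τ x) = x) {ω : K} (hω : σ ω ≠ ω) :
    Nat.card {x : W // τ x = x} ^ 2 = Nat.card W := by
  have hθ : ω - σ ω ≠ 0 := sub_ne_zero.2 hω.symm
  let Φ : {x : W // τ x = x} × {x : W // τ x = x} → W := fun z => z.1.1 + ω • z.2.1
  have hb : Function.Bijective Φ := by
    constructor
    · rintro ⟨⟨x, hx⟩, ⟨y, hy⟩⟩ ⟨⟨x', hx'⟩, ⟨y', hy'⟩⟩ h
      have h1 : x + ω • y = x' + ω • y' := h
      have h2 := congrArg τ h1
      rw [map_add, map_add, hsm, hsm, hx, hy, hx', hy'] at h2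
      have h3 : (ω - σ ω) • (y - y') = 0 := by
        have h4 : (x + ω • y) - (x + σ ω • y) - ((x' + ω • y') - (x' + σ ω • y')) = 0 := by
          rw [h1, h2]
          simp
        rw [← h4]
        simp only [smul_sub, sub_smul]
        abel
      have h5 : y = y' := by
        have := (smul_eq_zero.1 h3).resolve_left hθ
        exact sub_eq_zero.1 this
      subst h5
      have h6 : x = x' := add_right_cancel h1
      subst h6
      rfl
    · intro c
      have hσθ : σ (ω - σ ω) = -(ω - σ ω) := by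
        rw [map_sub, hσ2]
        ring
      obtain ⟨y, hy⟩ : ∃ y, y = (ω - σ ω)⁻¹ • (c - τ c) := ⟨_, rfl⟩
      have hτy : τ y = y := by
        rw [hy, hsm, map_sub, hτ2, map_inv₀, hσθ, inv_neg, neg_smul, ← smul_neg, neg_sub]
      obtain ⟨x, hx⟩ : ∃ x, x = c - ω • y := ⟨_, rfl⟩
      have hθy : (ω - σ ω) • y = c - τ c := by
        rw [hy, smul_smul, mul_inv_cancel₀ hθ, one_smul]
      have hτx : τ x = x := by
        rw [hx, map_sub, hsm, hτy]
        have h1 : ω • y - σ ω • y = c - τ c := by
          rw [← hθy, sub_smul]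
        have h2 : c - ω • y - (τ c - σ ω • y) = 0 := by
          have : c - ω • y - (τ c - σ ω • y) = (c - τ c) - (ω • y - σ ω • y) := by abel
          rw [this, h1, sub_self]
        exact (sub_eq_zero.1 h2).symm
      refine ⟨(⟨x, hτx⟩, ⟨y, hτy⟩), ?_⟩
      show x + ω • y = c
      rw [hx, sub_add_cancel]
  rw [sq, ← Nat.card_prod]
  exact Nat.card_eq_of_bijective Φ hb

/-- The coefficientwise criterion for self-duality. -/
theorem dual_iff (σ : K ≃+* K) {n : ℕ} (hn : 1 ≤ n) {ε : K} (hσε : σ ε = ε) (hε : ε * ε = 1) {f : K[X]} (hm : f.Monic)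
    (hd : f.natDegree = n) (h0 : f.coeff 0 = ε) :
    dual σ f = f ↔ ∀ k, 1 ≤ k → k < n → f.coeff k = ε * σ (f.coeff (n - k)) := by
  have hinv : ε⁻¹ = ε := inv_eq_of_mul_eq_one_right hε
  have hco : ∀ k, k ≤ n → (dual σ f).coeff k = ε * σ (f.coeff (n - k)) := by
    intro k hk
    unfold dual
    rw [coeff_C_mul, coeff_map, coeff_reverse, hd, revAt_le hk, h0, hσε, hinv]
    rfl
  constructor
  · intro h k h1 h2
    rw [← hco k h2.le, h]
  · intro h
    ext k
    by_cases hk : k ≤ n
    · rw [hco k hk]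
      by_cases hk0 : k = 0
      · subst hk0
        rw [Nat.sub_zero, ← hd, hm.coeff_natDegree, map_one, mul_one, h0]
      by_cases hkn : k = n
      · subst hkn
        rw [Nat.sub_self, h0, hσε, hε, ← hd, hm.coeff_natDegree]
      · rw [h k (by omega) (by omega)]
    · have h1 : n < k := by omega
      have h0' : f.coeff 0 ≠ 0 := by
        rw [h0]
        intro h
        rw [h, mul_zero] at hε
        exact zero_ne_one hε
      rw [coeff_eq_zero_of_natDegree_lt (by rw [natDegree_dual σ f h0', hd]; exact h1),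
        coeff_eq_zero_of_natDegree_lt (by rw [hd]; exact h1)]

section count

variable [Fintype K] {q : ℕ}

/-- The number of monic self-dual polynomials with prescribed constant term. -/
theorem card_selfdual (hK : Fintype.card K = q ^ 2) {σ : K ≃+* K} (hσ : ∀ x, σ x = x ^ q) {n : ℕ} (hn : 1 ≤ n) {ε : K}
    (hσε : σ ε = ε) (hε : ε * ε = 1) :
    Nat.card {f : K[X] // f.Monic ∧ f.natDegree = n ∧ f.coeff 0 = ε ∧ dual σ f = f} = q ^ (n - 1) := by
  classical
  have hσ2 : ∀ a, σ (σ a) = a := by
    intro a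
    rw [hσ, hσ, UnitaryHerm.pow_q_q hK]
  have hf := UnitaryHerm.hermForm_isUnitary (n := 1) hK hσ
  obtain ⟨ω, hω⟩ : ∃ ω, σ ω ≠ ω := by
    by_contra hall
    push Not at hall
    exact hf.ne_refl (RingEquiv.ext hall)
  let τ : (Fin (n - 1) → K) →+ (Fin (n - 1) → K) :=
    { toFun := fun c i => ε * σ (c (Fin.rev i))
      map_zero' := by
        ext i
        simp
      map_add' := by
        intro x y
        ext i
        simp [mul_add] }
  have hτa : ∀ c i, τ c i = ε * σ (c (Fin.rev i)) := fun _ _ => rfl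
  have hsm : ∀ (a : K) (x : Fin (n - 1) → K), τ (a • x) = σ a • τ x := by
    intro a x
    ext i
    rw [hτa, Pi.smul_apply, Pi.smul_apply, hτa, smul_eq_mul, smul_eq_mul, map_mul]
    ring
  have hτ2 : ∀ x, τ (τ x) = x := by
    intro x
    ext i
    rw [hτa, hτa, map_mul, hσε, hσ2, Fin.rev_rev, ← mul_assoc, hε, one_mul]
  have h1 := card_fix_sq σ hσ2 τ hsm hτ2 hω
  have h2 : Nat.card (Fin (n - 1) → K) = (q ^ (n - 1)) ^ 2 := by
    rw [Nat.card_eq_fintype_card, Fintype.card_fun, hK, Fintype.card_fin, ← pow_mul, ← pow_mul, mul_comm]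
  rw [h2] at h1
  have h3 : Nat.card {x : Fin (n - 1) → K // τ x = x} = q ^ (n - 1) := (Nat.pow_left_inj two_ne_zero).1 h1
  rw [← h3]
  -- the bijection
  let Ψ : {f : K[X] // f.Monic ∧ f.natDegree = n ∧ f.coeff 0 = ε ∧ dual σ f = f} → {x : Fin (n - 1) → K // τ x = x} :=
    fun f => ⟨fun i => f.1.coeff (i + 1), by
      ext i
      rw [hτa]
      have h4 := (dual_iff σ hn hσε hε f.2.1 f.2.2.1 f.2.2.2.1).1 f.2.2.2.2 (i + 1) (by omega) (by omega)
      rw [h4]
      congr 3
      rw [Fin.val_rev]
      omega⟩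
  have hb : Function.Bijective Ψ := by
    constructor
    · rintro ⟨f, hfm, hfd, hf0, hfs⟩ ⟨g, hgm, hgd, hg0, hgs⟩ h
      apply Subtype.ext
      show f = g
      have h5 : ∀ k, 1 ≤ k → k < n → f.coeff k = g.coeff k := by
        intro k hk1 hk2
        have h6 := congrFun (congrArg Subtype.val h) ⟨k - 1, by omega⟩
        have h7 : k - 1 + 1 = k := by omega
        simpa [Ψ, h7] using h6
      ext k
      by_cases hk0 : k = 0
      · rw [hk0, hf0, hg0]
      by_cases hk1 : k < n
      · exact h5 k (by omega) hk1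
      by_cases hk2 : k = n
      · rw [hk2]
        have h8 : ∀ h : K[X], h.Monic → h.natDegree = n → h.coeff n = 1 := by
          intro h hm hd
          rw [← hd]
          exact hm.coeff_natDegree
        rw [h8 f hfm hfd, h8 g hgm hgd]
      · rw [coeff_eq_zero_of_natDegree_lt (by omega), coeff_eq_zero_of_natDegree_lt (by omega)]
    · rintro ⟨c, hc⟩
      let d : ℕ → K := fun k => if h₀ : k = 0 then ε else if k = n then 1 else if h : k < n then c ⟨k - 1, by omega⟩ else 0
      let f : K[X] := ∑ k ∈ Finset.range (n + 1), monomial k (d k)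
      have hco : ∀ k, f.coeff k = d k := by
        intro k
        simp only [f, finset_sum_coeff, coeff_monomial, Finset.sum_ite_eq', Finset.mem_range]
        split_ifs with h
        · rfl
        · have h1 : k ≠ 0 := by omega
          have h2 : k ≠ n := by omega
          have h3 : ¬ k < n := by omega
          simp [d, h1, h2, h3]
      have hdeg : f.natDegree ≤ n := by
        rw [natDegree_le_iff_coeff_eq_zero]
        intro k hk
        rw [hco]
        have h1 : k ≠ 0 := by omega
        have h2 : k ≠ n := by omega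
        have h3 : ¬ k < n := by omega
        simp [d, h1, h2, h3]
      have htop : f.coeff n = 1 := by
        rw [hco]
        have h1 : n ≠ 0 := by omega
        simp [d, h1]
      have hm : f.Monic := monic_of_natDegree_le_of_coeff_eq_one n hdeg htop
      have hd : f.natDegree = n := by
        apply le_antisymm hdeg
        apply le_natDegree_of_ne_zero
        rw [htop]
        exact one_ne_zero
      have h0 : f.coeff 0 = ε := by
        rw [hco]
        simp [d]
      refine ⟨⟨f, hm, hd, h0, ?_⟩, ?_⟩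
      · rw [dual_iff σ hn hσε hε hm hd h0]
        intro k hk1 hk2
        rw [hco, hco]
        have h1 : k ≠ 0 := by omega
        have h2 : k ≠ n := by omega
        have h3 : n - k ≠ 0 := by omega
        have h4 : n - k ≠ n := by omega
        have h5 : n - k < n := by omega
        simp only [d, dif_neg h1, if_neg h2, dif_pos hk2, dif_neg h3, if_neg h4, dif_pos h5]
        have h6 := congrFun hc ⟨k - 1, by omega⟩
        rw [hτa] at h6
        rw [← h6]
        congr 3
        apply Fin.ext
        rw [Fin.val_rev]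
        simp only
        omega
      · apply Subtype.ext
        ext i
        show f.coeff (i + 1) = c i
        rw [hco]
        have h1 : (i : ℕ) + 1 ≠ 0 := by omega
        have h2 : (i : ℕ) + 1 ≠ n := by omega
        have h3 : (i : ℕ) + 1 < n := by omega
        simp only [d, dif_neg h1, if_neg h2, dif_pos h3]
        congr 1
  exact Nat.card_eq_of_bijective Ψ hb

/-- The number of semisimple classes of `SU`. -/
theorem card_classes_SU {p : ℕ} [Fact p.Prime] [CharP K p] (hK : Fintype.card K = q ^ 2) {n : ℕ} (hn : 1 ≤ n) :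
    Nat.card {c : ConjClasses ↥(SU n K q) // ∃ g : ↥(SU n K q), ConjClasses.mk g = c ∧ (orderOf g).Coprime p} = q ^ (n - 1) := by
  classical
  obtain ⟨σ, hσ⟩ := UnitaryHerm.exists_sigma hK
  obtain ⟨ε, hεdef⟩ : ∃ ε : K, ε = (-1) ^ n := ⟨_, rfl⟩
  have hσε : σ ε = ε := by
    rw [hεdef, map_pow, map_neg, map_one]
  have hε : ε * ε = 1 := by
    rw [hεdef, ← mul_pow]
    simp
  have hε0 : ε ≠ 0 := by
    intro h
    rw [h, mul_zero] at hε
    exact zero_ne_one hε
  rw [← card_selfdual hK hσ hn hσε hε]
  have hex : ∀ f : {f : K[X] // f.Monic ∧ f.natDegree = n ∧ f.coeff 0 = ε ∧ dual σ f = f},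
      ∃ g : ↥(SU n K q), ((g : Matrix.SpecialLinearGroup (Fin n) K) : Matrix (Fin n) (Fin n) K).charpoly = f.1 ∧ (orderOf g).Coprime p := by
    rintro ⟨f, hm, hd, h0, hs⟩
    obtain ⟨B, hB1, hB2⟩ := PGUPrime.exists_GU (p := p) hK hσ f hm hd (by rw [h0]; exact hε0) hs
    have hdet : ((B.1 : GL (Fin n) K) : Matrix (Fin n) (Fin n) K).det = 1 := by
      rw [Matrix.det_eq_sign_charpoly_coeff, hB1, h0, Fintype.card_fin, ← hεdef, hε]
    let s : ↥(SU n K q) := ⟨⟨(B.1 : GL (Fin n) K).1, hdet⟩, fun u v => B.2 u v⟩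
    have hs' : GURegU.fromSU s = B := by
      apply Subtype.ext
      apply Units.ext
      rfl
    refine ⟨s, hB1, ?_⟩
    have hord : orderOf (GURegU.fromSU s) = orderOf s := orderOf_injective _ GURegU.fromSU_injective s
    rw [← hord, hs']
    exact hB2
  choose γ hγ1 hγ2 using hex
  let Ψ : {f : K[X] // f.Monic ∧ f.natDegree = n ∧ f.coeff 0 = ε ∧ dual σ f = f} →
      {c : ConjClasses ↥(SU n K q) // ∃ g : ↥(SU n K q), ConjClasses.mk g = c ∧ (orderOf g).Coprime p} :=
    fun f => ⟨ConjClasses.mk (γ f), γ f, rfl, hγ2 f⟩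
  have hb : Function.Bijective Ψ := by
    constructor
    · intro f f' h
      have h1 : ConjClasses.mk (γ f) = ConjClasses.mk (γ f') := congrArg Subtype.val h
      have h2 := ConjClasses.mk_eq_mk_iff_isConj.1 h1
      obtain ⟨c, hc⟩ := isConj_iff.1 h2
      have h3 := PGLInv.charpoly_conj' ((c.1 : Matrix.SpecialLinearGroup (Fin n) K).toGL) ((γ f).1 : Matrix.SpecialLinearGroup (Fin n) K).toGL
      have h4 : ((c.1 : Matrix.SpecialLinearGroup (Fin n) K).toGL * ((γ f).1 : Matrix.SpecialLinearGroup (Fin n) K).toGL *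
          ((c.1 : Matrix.SpecialLinearGroup (Fin n) K).toGL)⁻¹ : GL (Fin n) K) = ((γ f').1 : Matrix.SpecialLinearGroup (Fin n) K).toGL := by
        rw [← hc]
        apply Units.ext
        rfl
      rw [h4] at h3
      apply Subtype.ext
      rw [← hγ1 f, ← hγ1 f']
      exact h3.symm
    · rintro ⟨c, g, rfl, hg⟩
      have hG := GURegU.fromSU g
      have hsd := SUConj.charpoly_self_dual hK hσ (GURegU.fromSU g)
      have hdet : ((g : Matrix.SpecialLinearGroup (Fin n) K) : Matrix (Fin n) (Fin n) K).det = 1 := (g.1).2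
      have h0 : ((g : Matrix.SpecialLinearGroup (Fin n) K) : Matrix (Fin n) (Fin n) K).charpoly.coeff 0 = ε := by
        have h1 := Matrix.det_eq_sign_charpoly_coeff ((g : Matrix.SpecialLinearGroup (Fin n) K) : Matrix (Fin n) (Fin n) K)
        rw [hdet, Fintype.card_fin, ← hεdef] at h1
        have h2 : ε * (ε * ((g : Matrix.SpecialLinearGroup (Fin n) K) : Matrix (Fin n) (Fin n) K).charpoly.coeff 0) = ε * 1 := by rw [← h1]
        rw [← mul_assoc, hε, one_mul, mul_one] at h2
        exact h2
      refine ⟨⟨((g : Matrix.SpecialLinearGroup (Fin n) K) : Matrix (Fin n) (Fin n) K).charpoly, Matrix.charpoly_monic _, ?_, h0, hsd⟩, ?_⟩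
      · rw [Matrix.charpoly_natDegree_eq_dim, Fintype.card_fin]
      · apply Subtype.ext
        apply ConjClasses.mk_eq_mk_iff_isConj.2
        exact SUConj.conj_SU (p := p) hK _ _ (hγ2 _) hg (by rw [hγ1])
  exact (Nat.card_eq_of_bijective Ψ hb).symm

end count

end Cfsg.Agent.Lib.SUCount
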