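/-
Self-dual binary codes of length 24 and minimum weight at least 8: power moments, weights.
-/
import Mathlib
import Cfsg.Prelude.Def_Sporadic_a

set_option autoImplicit false
set_option linter.unusedSectionVars false
set_option linter.unusedSimpArgs false
set_option linter.unusedVariables false

namespace Cfsg.Agent.Lib.SelfDual24

open Cfsg

/-- Shorthand for words. -/
abbrev W := Fin 24 → ZMod 2

/-- dot product -/
def dot (u v : W) : ZMod 2 := ∑ i, u i * v i

theorem dot_comm (u v : W) : dot u v = dot v u := by
  simp [dot, mul_comm]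

theorem dot_add_right (u v w : W) : dot u (v + w) = dot u v + dot u w := by
  simp [dot, mul_add, Finset.sum_add_distrib]

theorem dot_add_left (u v w : W) : dot (u + v) w = dot u w + dot v w := by
  simp [dot, add_mul, Finset.sum_add_distrib]

/-- The structure of a self-dual code with large minimum weight. -/
structure Good (C : Submodule (ZMod 2) W) : Prop where
  hdim : Module.finrank (ZMod 2) C = 12
  horth : ∀ v ∈ C, ∀ w ∈ C, ∑ i, v i * w i = 0
  hmin : ∀ w ∈ C, w ≠ 0 → 8 ≤ hammingNorm w

variable {C : Submodule (ZMod 2) W}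

/-- The orthogonal complement as a subspace. -/
def perp (C : Submodule (ZMod 2) W) : Submodule (ZMod 2) W :=
  C.dualAnnihilator.comap (dotProductEquiv (ZMod 2) (Fin 24)).toLinearMap

theorem mem_perp {x : W} : x ∈ perp C ↔ ∀ v ∈ C, dot x v = 0 := by
  simp only [perp, Submodule.mem_comap, Submodule.mem_dualAnnihilator]
  constructor
  · intro h v hv
    have := h v hv
    simpa [dot, dotProductEquiv, dotProduct] using this
  · intro h v hv
    have := h v hv
    simpa [dot, dotProductEquiv, dotProduct] using this

theorem finrank_perp (C : Submodule (ZMod 2) W) :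
    Module.finrank (ZMod 2) (perp C) = 24 - Module.finrank (ZMod 2) C := by
  have h1 := Subspace.finrank_add_finrank_dualAnnihilator_eq C
  have h2 : Module.finrank (ZMod 2) W = 24 := by simp
  have h3 : Module.finrank (ZMod 2) (perp C) = Module.finrank (ZMod 2) C.dualAnnihilator := by
    have e := (dotProductEquiv (ZMod 2) (Fin 24)).submoduleMap (perp C)
    rw [e.finrank_eq, perp, Submodule.map_comap_eq_of_surjective]
    exact (dotProductEquiv (ZMod 2) (Fin 24)).surjective
  rw [h3]
  omega

theorem Good.perp_eq (h : Good C) : perp C = C := by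
  symm
  apply Submodule.eq_of_le_of_finrank_eq
  · intro x hx
    rw [mem_perp]
    intro v hv
    exact h.horth x hx v hv
  · rw [finrank_perp, h.hdim]

theorem Good.mem_iff (h : Good C) {x : W} : x ∈ C ↔ ∀ v ∈ C, dot x v = 0 := by
  rw [← mem_perp, h.perp_eq]

theorem sq_eq_self (a : ZMod 2) : a * a = a := by
  revert a; decide

/-- all-ones word -/
abbrev ones : W := fun _ => 1

theorem sum_eq_norm (v : W) : ∑ i, v i = (hammingNorm v : ZMod 2) := by
  have h1 : ∀ i, v i = if v i ≠ 0 then 1 else 0 := by
    intro i
    generalize v i = a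
    revert a; decide
  rw [hammingNorm, Finset.card_filter]
  push_cast
  exact Finset.sum_congr rfl fun i _ => h1 i

theorem Good.even (h : Good C) {v : W} (hv : v ∈ C) : Even (hammingNorm v) := by
  have h1 := h.horth v hv v hv
  simp only [sq_eq_self] at h1
  rw [sum_eq_norm] at h1
  exact (ZMod.natCast_eq_zero_iff_even).mp h1

theorem Good.ones_mem (h : Good C) : ones ∈ C := by
  rw [h.mem_iff]
  intro v hv
  have h1 := h.horth v hv v hv
  simp only [sq_eq_self] at h1
  simpa [dot] using h1

theorem norm_add_ones (v : W) : hammingNorm (v + ones) = 24 - hammingNorm v := by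
  have h1 : ∀ a : ZMod 2, a + 1 ≠ 0 ↔ ¬ a ≠ 0 := by decide
  have h2 : (Finset.univ.filter fun i => (v + ones) i ≠ 0) = (Finset.univ.filter fun i => v i ≠ 0)ᶜ := by
    ext i
    simp only [Finset.mem_filter, Finset.mem_univ, true_and, Finset.mem_compl, Pi.add_apply]
    exact h1 _
  rw [hammingNorm, hammingNorm, h2, Finset.card_compl]
  simp

theorem norm_le (v : W) : hammingNorm v ≤ 24 := by
  have := hammingNorm_le_card_fintype (x := v)
  simpa using this

/-- character -/
def chi (a : ZMod 2) : ℤ := if a = 0 then 1 else -1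

theorem chi_add (a b : ZMod 2) : chi (a + b) = chi a * chi b := by
  revert a b; decide

theorem chi_zero : chi 0 = 1 := rfl

theorem chi_one : chi 1 = -1 := by decide

theorem chi_ne (a : ZMod 2) (h : a ≠ 0) : chi a = -1 := by
  revert a; decide

theorem chi_sum {ι : Type*} (s : Finset ι) (f : ι → ZMod 2) :
    chi (∑ i ∈ s, f i) = ∏ i ∈ s, chi (f i) := by
  classical
  induction s using Finset.induction_on with
  | empty => simp [chi_zero]
  | insert a s ha ih => rw [Finset.sum_insert ha, Finset.prod_insert ha, chi_add, ih]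

/-- the sum of the signs of a word -/
def tt (v : W) : ℤ := ∑ i, chi (v i)

theorem tt_eq (v : W) : tt v = 24 - 2 * (hammingNorm v : ℤ) := by
  have h1 : ∀ i, chi (v i) = 1 - 2 * (if v i ≠ 0 then 1 else 0) := by
    intro i
    generalize v i = a
    revert a; decide
  simp only [tt, h1, Finset.sum_sub_distrib, ← Finset.mul_sum]
  rw [hammingNorm, Finset.card_filter]
  push_cast
  simp

open Classical in
/-- the words of the code as a finset -/
noncomputable def cw (C : Submodule (ZMod 2) W) : Finset W := Finset.univ.filter (· ∈ C)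

theorem mem_cw {v : W} : v ∈ cw C ↔ v ∈ C := by simp [cw]

theorem Good.card_cw (h : Good C) : (cw C).card = 4096 := by
  classical
  have h1 : Nat.card C = 2 ^ 12 := by
    rw [Module.natCard_eq_pow_finrank (K := ZMod 2) (V := C), h.hdim]
    simp
  have h2 : (cw C).card = Nat.card C := by
    rw [Nat.card_eq_fintype_card, Fintype.card_subtype]
    simp [cw]
  omega

/-- Character sums vanish off the code. -/
theorem Good.char_sum (h : Good C) {e : W} (he : e ∉ C) :
    ∑ v ∈ cw C, chi (dot e v) = 0 := by
  classical
  have h1 : ∃ v₀ ∈ C, dot e v₀ ≠ 0 := by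
    by_contra hcon
    push Not at hcon
    exact he (h.mem_iff.mpr hcon)
  obtain ⟨v₀, hv₀, hne⟩ := h1
  have hone : dot e v₀ = 1 := by
    generalize dot e v₀ = a at hne
    revert a; decide
  apply Finset.sum_involution (fun v _ => v + v₀)
  · intro v hv
    rw [dot_add_right, chi_add, hone, chi_one]
    ring
  · intro v hv _ hfix
    apply hv₀ |> fun _ => ?_
    have : v₀ = 0 := by
      have h2 : v + v₀ = v + 0 := by simpa using hfix
      exact add_left_cancel h2
    rw [this] at hone
    simp [dot] at hone
  · intro v hv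
    rw [mem_cw] at hv ⊢
    exact C.add_mem hv hv₀
  · intro v hv
    have : v₀ + v₀ = 0 := by
      funext i
      have : ∀ a : ZMod 2, a + a = 0 := by decide
      exact this _
    rw [add_assoc, this, add_zero]

/-- Short words are not in the code. -/
theorem Good.not_mem_of_norm (h : Good C) {e : W} (he : e ≠ 0) (hn : hammingNorm e < 8) : e ∉ C := by
  intro hc
  have := h.hmin e hc he
  omega

/-- basis word -/
abbrev ee (i : Fin 24) : W := Pi.single i 1

theorem dot_ee (i : Fin 24) (v : W) : dot (ee i) v = v i := by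
  simp [dot, ee, Pi.single_apply]

theorem norm_ee (i : Fin 24) : hammingNorm (ee i) = 1 := by
  rw [hammingNorm]
  have : (Finset.univ.filter fun j => ee i j ≠ 0) = {i} := by
    ext j
    by_cases h : j = i
    · subst h; simp [ee]
    · simp [ee, h]
  rw [this]; simp

theorem norm_add_le (u v : W) : hammingNorm (u + v) ≤ hammingNorm u + hammingNorm v := by
  rw [hammingNorm, hammingNorm, hammingNorm]
  refine le_trans (Finset.card_le_card ?_) (Finset.card_union_le _ _)
  intro i hi
  simp only [Finset.mem_filter, Finset.mem_univ, true_and, Finset.mem_union, Pi.add_apply] at hi ⊢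
  by_contra hcon
  push Not at hcon
  apply hi
  rw [hcon.1, hcon.2, add_zero]

theorem ee_ne (i j : Fin 24) (h : i ≠ j) : ee i + ee j ≠ 0 := by
  intro he
  have := congrFun he i
  simp [ee, h] at this

/-- Second moment. -/
theorem Good.moment2 (h : Good C) : ∑ v ∈ cw C, tt v ^ 2 = 24 * 4096 := by
  have h1 : ∀ v, tt v ^ 2 = ∑ i, ∑ j, chi (dot (ee i + ee j) v) := by
    intro v
    rw [sq, tt, Finset.sum_mul_sum]
    refine Finset.sum_congr rfl fun i _ => Finset.sum_congr rfl fun j _ => ?_
    rw [dot_add_left, chi_add, dot_ee, dot_ee]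
  have h2 : ∀ i j, ∑ v ∈ cw C, chi (dot (ee i + ee j) v) = if i = j then 4096 else 0 := by
    intro i j
    by_cases hij : i = j
    · subst hij
      rw [if_pos rfl]
      have : ∀ v, chi (dot (ee i + ee i) v) = 1 := by
        intro v
        rw [dot_add_left, chi_add, dot_ee]
        generalize v i = a
        revert a; decide
      simp only [this, Finset.sum_const, h.card_cw]
      rfl
    · rw [if_neg hij]
      apply h.char_sum
      apply h.not_mem_of_norm (ee_ne i j hij)
      have := norm_add_le (ee i) (ee j)
      rw [norm_ee, norm_ee] at this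
      omega
  simp only [h1]
  rw [Finset.sum_comm]
  simp only [Finset.sum_comm (s := cw C), h2]
  simp

/-- quadruples with zero sum -/
def Pairs (i j k l : Fin 24) : Prop := (i = j ∧ k = l) ∨ (i = k ∧ j = l) ∨ (i = l ∧ j = k)

instance : ∀ i j k l, Decidable (Pairs i j k l) := fun i j k l => by unfold Pairs; infer_instance

theorem count_pairs : (∑ i : Fin 24, ∑ j : Fin 24, ∑ k : Fin 24, ∑ l : Fin 24,
    (if Pairs i j k l then (1 : ℤ) else 0)) = 1680 := by
  have h1 : ∀ i j : Fin 24, ∑ k : Fin 24, ∑ l : Fin 24, (if Pairs i j k l then (1 : ℤ) else 0) =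
      if i = j then 24 else 2 := by
    intro i j
    by_cases hij : i = j
    · subst hij
      have h2 : ∀ k l : Fin 24, (if Pairs i i k l then (1 : ℤ) else 0) = if k = l then 1 else 0 := by
        intro k l
        by_cases h : k = l
        · simp [Pairs, h]
        · have h3 : ¬ Pairs i i k l := by
            rintro (⟨-, h'⟩ | ⟨h1, h2⟩ | ⟨h1, h2⟩)
            · exact h h'
            · exact h (h1.symm.trans h2)
            · exact h (h2.symm.trans h1)
          simp [h3, h]
      simp [h2]
    · have h2 : ∀ k l : Fin 24, (if Pairs i j k l then (1 : ℤ) else 0) =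
          (if k = i then (if l = j then 1 else 0) else 0) +
            (if k = j then (if l = i then 1 else 0) else 0) := by
        intro k l
        by_cases h1 : k = i
        · subst h1
          by_cases h2 : l = j
          · subst h2
            simp [Pairs, hij]
          · have h3 : ¬ Pairs k j k l := by
              rintro (⟨h', -⟩ | ⟨-, h'⟩ | ⟨h', h''⟩)
              · exact hij h'
              · exact h2 h'.symm
              · exact hij h''.symm
            simp [h3, h2, hij]
        · by_cases h2 : k = j
          · subst h2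
            by_cases h3 : l = i
            · subst h3
              have h4 : Pairs l k k l := Or.inr (Or.inr ⟨rfl, rfl⟩)
              simp [h4, h1]
            · have h5 : ¬ Pairs i k k l := by
                rintro (⟨h', -⟩ | ⟨h', -⟩ | ⟨h', -⟩)
                · exact hij h'
                · exact h1 h'.symm
                · exact h3 h'.symm
              simp [h5, h1, h3]
          · have h5 : ¬ Pairs i j k l := by
              rintro (⟨h', -⟩ | ⟨h', h''⟩ | ⟨h', h''⟩)
              · exact hij h'
              · exact h1 h'.symm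
              · exact h2 h''.symm
            simp [h5, h1, h2]
      simp only [h2, Finset.sum_add_distrib]
      simp [hij]
  simp only [h1]
  decide +kernel

theorem add_self' (a : ZMod 2) : a + a = 0 := by revert a; decide

theorem pairs_iff (i j k l : Fin 24) : ee i + ee j + (ee k + ee l) = 0 ↔ Pairs i j k l := by
  constructor
  · intro he
    by_cases h1 : i = j
    · subst h1
      left
      refine ⟨rfl, ?_⟩
      by_contra hkl
      have : ee i + ee i + (ee k + ee l) = ee k + ee l := by
        funext x
        simp only [Pi.add_apply, add_self', zero_add]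
      rw [this] at he
      exact ee_ne k l hkl he
    · by_cases h2 : i = k
      · subst h2
        right; left
        refine ⟨rfl, ?_⟩
        by_contra hjl
        have : ee i + ee j + (ee i + ee l) = ee j + ee l := by
          funext x
          simp only [Pi.add_apply]
          have := add_self' (ee i x)
          linear_combination this
        rw [this] at he
        exact ee_ne j l hjl he
      · by_cases h3 : i = l
        · subst h3
          right; right
          refine ⟨rfl, ?_⟩
          by_contra hjk
          have : ee i + ee j + (ee k + ee i) = ee j + ee k := by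
            funext x
            simp only [Pi.add_apply]
            have := add_self' (ee i x)
            linear_combination this
          rw [this] at he
          exact ee_ne j k hjk he
        · exfalso
          have := congrFun he i
          simp [ee, Ne.symm h1, Ne.symm h2, Ne.symm h3] at this
  · rintro (⟨rfl, rfl⟩ | ⟨rfl, rfl⟩ | ⟨rfl, rfl⟩)
    · funext x
      simp only [Pi.add_apply, add_self', add_zero, Pi.zero_apply]
    · funext x
      simp only [Pi.add_apply, Pi.zero_apply]
      have h1 := add_self' (ee i x)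
      have h2 := add_self' (ee j x)
      linear_combination h1 + h2
    · funext x
      simp only [Pi.add_apply, Pi.zero_apply]
      have h1 := add_self' (ee i x)
      have h2 := add_self' (ee j x)
      linear_combination h1 + h2

/-- Fourth moment. -/
theorem Good.moment4 (h : Good C) : ∑ v ∈ cw C, tt v ^ 4 = 1680 * 4096 := by
  have h1 : ∀ v, tt v ^ 4 = ∑ i, ∑ j, ∑ k, ∑ l, chi (dot (ee i + ee j + (ee k + ee l)) v) := by
    intro v
    have : tt v ^ 4 = tt v * tt v * (tt v * tt v) := by ring
    have hsq : tt v * tt v = ∑ i, ∑ j, chi (v i) * chi (v j) := by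
      rw [tt, Finset.sum_mul_sum]
    rw [this, hsq]
    rw [Finset.sum_mul]
    refine Finset.sum_congr rfl fun i _ => ?_
    rw [Finset.sum_mul]
    refine Finset.sum_congr rfl fun j _ => ?_
    rw [Finset.mul_sum]
    refine Finset.sum_congr rfl fun k _ => ?_
    rw [Finset.mul_sum]
    refine Finset.sum_congr rfl fun l _ => ?_
    rw [dot_add_left, dot_add_left, dot_add_left, chi_add, chi_add, chi_add, dot_ee, dot_ee, dot_ee, dot_ee]
  have h2 : ∀ i j k l, ∑ v ∈ cw C, chi (dot (ee i + ee j + (ee k + ee l)) v) =
      if Pairs i j k l then 4096 else 0 := by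
    intro i j k l
    by_cases hij : Pairs i j k l
    · rw [if_pos hij, (pairs_iff i j k l).mpr hij]
      have : ∀ v : W, dot 0 v = 0 := by
        intro v; simp [dot]
      simp only [this, chi_zero, Finset.sum_const, h.card_cw]
      rfl
    · rw [if_neg hij]
      apply h.char_sum
      apply h.not_mem_of_norm (fun e => hij ((pairs_iff i j k l).mp e))
      have h1 := norm_add_le (ee i + ee j) (ee k + ee l)
      have h2 := norm_add_le (ee i) (ee j)
      have h3 := norm_add_le (ee k) (ee l)
      rw [norm_ee, norm_ee] at h2 h3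
      omega
  simp only [h1]
  have h3 : ∑ v ∈ cw C, ∑ i, ∑ j, ∑ k, ∑ l, chi (dot (ee i + ee j + (ee k + ee l)) v) =
      ∑ i, ∑ j, ∑ k, ∑ l, ∑ v ∈ cw C, chi (dot (ee i + ee j + (ee k + ee l)) v) := by
    rw [Finset.sum_comm]
    refine Finset.sum_congr rfl fun i _ => ?_
    rw [Finset.sum_comm]
    refine Finset.sum_congr rfl fun j _ => ?_
    rw [Finset.sum_comm]
    refine Finset.sum_congr rfl fun k _ => ?_
    rw [Finset.sum_comm]
  rw [h3]
  simp only [h2]
  have h4 : ∀ i j k l : Fin 24, (if Pairs i j k l then (4096 : ℤ) else 0) =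
      4096 * (if Pairs i j k l then 1 else 0) := by
    intro i j k l
    split_ifs <;> simp
  simp only [h4, ← Finset.mul_sum]
  rw [count_pairs]
  norm_num

theorem ones_ne_zero' : (ones : W) ≠ 0 := by
  intro h
  have := congrFun h 0
  simp at this

theorem norm_zero' : hammingNorm (0 : W) = 0 := by simp

theorem norm_ones : hammingNorm (ones : W) = 24 := by
  have h := norm_add_ones 0
  rw [zero_add, norm_zero'] at h
  exact h

theorem add_ones_eq_zero {v : W} (h : v + ones = 0) : v = ones := by
  funext i
  have := congrFun h i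
  simp only [Pi.add_apply, Pi.zero_apply] at this
  have key : ∀ a : ZMod 2, a + 1 = 0 → a = 1 := by decide
  exact key _ this

theorem add_add_cancel' (u v : W) : u + v + v = u := by
  funext i
  simp only [Pi.add_apply]
  have := add_self' (v i)
  linear_combination this

/-- Weights of codewords. -/
theorem Good.weights (h : Good C) {v : W} (hv : v ∈ C) :
    v = 0 ∨ v = ones ∨ (8 ≤ hammingNorm v ∧ hammingNorm v ≤ 16 ∧ Even (hammingNorm v)) := by
  by_cases h0 : v = 0
  · exact Or.inl h0
  by_cases h1 : v = ones
  · exact Or.inr (Or.inl h1)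
  refine Or.inr (Or.inr ⟨h.hmin v hv h0, ?_, h.even hv⟩)
  have h2 := h.hmin (v + ones) (C.add_mem hv h.ones_mem) (fun e => h1 (add_ones_eq_zero e))
  rw [norm_add_ones] at h2
  have := norm_le v
  omega

theorem Good.zero_mem_cw (h : Good C) : (0 : W) ∈ cw C := mem_cw.mpr C.zero_mem

theorem Good.ones_mem_cw (h : Good C) : ones ∈ cw C := mem_cw.mpr h.ones_mem

theorem tt_zero : tt 0 = 24 := by
  rw [tt_eq, norm_zero']; norm_num

theorem tt_ones : tt ones = -24 := by
  rw [tt_eq, norm_ones]; norm_num

/-- The sum of a function supported at `0`, `ones` and a filter. -/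
theorem Good.sum_split (h : Good C) (g : W → ℤ) (c d : ℤ) (P : W → Prop) [DecidablePred P]
    (hg : ∀ v ∈ C, g v = (if v = 0 then c else 0) + (if v = ones then c else 0) + (if P v then d else 0)) :
    ∑ v ∈ cw C, g v = 2 * c + d * ((cw C).filter P).card := by
  have h1 : ∑ v ∈ cw C, g v = ∑ v ∈ cw C,
      ((if v = 0 then c else 0) + (if v = ones then c else 0) + (if P v then d else 0)) :=
    Finset.sum_congr rfl fun v hv => hg v (mem_cw.mp hv)
  rw [h1, Finset.sum_add_distrib, Finset.sum_add_distrib, Finset.sum_ite_eq', Finset.sum_ite_eq',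
    if_pos h.zero_mem_cw, if_pos h.ones_mem_cw, Finset.sum_ite, Finset.sum_const, Finset.sum_const_zero]
  simp only [nsmul_eq_mul]
  ring

/-- No words of weight `10` or `14`. -/
theorem Good.no_ten (h : Good C) {v : W} (hv : v ∈ C) : tt v ^ 2 ≠ 16 := by
  have h1 : ∑ v ∈ cw C, (tt v ^ 4 - 64 * tt v ^ 2) = 589824 := by
    rw [Finset.sum_sub_distrib, ← Finset.mul_sum, h.moment4, h.moment2]
    norm_num
  have h2 := h.sum_split (fun v => tt v ^ 4 - 64 * tt v ^ 2) 294912 (-768) (fun v => tt v ^ 2 = 16) (by
    intro v hv
    rcases h.weights hv with rfl | rfl | ⟨h8, h16, ev⟩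
    · rw [if_pos rfl, if_neg ones_ne_zero'.symm, tt_zero]; norm_num
    · rw [if_neg ones_ne_zero', if_pos rfl, tt_ones]; norm_num
    · have hv0 : v ≠ 0 := by
        rintro rfl
        rw [norm_zero'] at h8
        omega
      have hv1 : v ≠ ones := by
        rintro rfl
        rw [norm_ones] at h16
        omega
      rw [if_neg hv0, if_neg hv1, tt_eq]
      obtain ⟨m, hm⟩ := ev
      rw [hm]
      have : m = 4 ∨ m = 5 ∨ m = 6 ∨ m = 7 ∨ m = 8 := by omega
      rcases this with rfl | rfl | rfl | rfl | rfl <;> norm_num)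
  simp only [h1] at h2
  have h3 : ((cw C).filter (fun v => tt v ^ 2 = 16)).card = 0 := by
    have : ((((cw C).filter (fun v => tt v ^ 2 = 16)).card : ℕ) : ℤ) = 0 := by
      linarith
    exact_mod_cast this
  rw [Finset.card_eq_zero] at h3
  intro he
  have : v ∈ (cw C).filter (fun v => tt v ^ 2 = 16) := Finset.mem_filter.mpr ⟨mem_cw.mpr hv, he⟩
  rw [h3] at this
  simp at this

/-- The code is doubly even. -/
theorem Good.doubly_even (h : Good C) {v : W} (hv : v ∈ C) : 4 ∣ hammingNorm v := by
  rcases h.weights hv with rfl | rfl | ⟨h8, h16, ev⟩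
  · rw [norm_zero']; norm_num
  · rw [norm_ones]; norm_num
  · have h1 := h.no_ten hv
    rw [tt_eq] at h1
    obtain ⟨m, hm⟩ := ev
    rw [hm] at h1 h8 h16 ⊢
    have : m = 4 ∨ m = 5 ∨ m = 6 ∨ m = 7 ∨ m = 8 := by omega
    rcases this with rfl | rfl | rfl | rfl | rfl <;> first | (norm_num at h1; done) | norm_num

/-- The number of words with `t = ± 8`. -/
theorem Good.count_eight (h : Good C) : ((cw C).filter (fun v => tt v ^ 2 = 64)).card = 1518 := by
  have h1 : ∑ v ∈ cw C, (tt v ^ 4 - 16 * tt v ^ 2) = 5308416 := by
    rw [Finset.sum_sub_distrib, ← Finset.mul_sum, h.moment4, h.moment2]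
    norm_num
  have h2 := h.sum_split (fun v => tt v ^ 4 - 16 * tt v ^ 2) 322560 3072 (fun v => tt v ^ 2 = 64) (by
    intro v hv
    rcases h.weights hv with rfl | rfl | ⟨h8, h16, ev⟩
    · rw [if_pos rfl, if_neg ones_ne_zero'.symm, tt_zero]; norm_num
    · rw [if_neg ones_ne_zero', if_pos rfl, tt_ones]; norm_num
    · have hv0 : v ≠ 0 := by
        rintro rfl
        rw [norm_zero'] at h8
        omega
      have hv1 : v ≠ ones := by
        rintro rfl
        rw [norm_ones] at h16
        omega
      rw [if_neg hv0, if_neg hv1, tt_eq]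
      obtain ⟨m, hm⟩ := ev
      rw [hm]
      have : m = 4 ∨ m = 5 ∨ m = 6 ∨ m = 7 ∨ m = 8 := by omega
      rcases this with rfl | rfl | rfl | rfl | rfl <;> norm_num)
  simp only [h1] at h2
  have : ((((cw C).filter (fun v => tt v ^ 2 = 64)).card : ℕ) : ℤ) = 1518 := by
    linarith
  exact_mod_cast this

/-- The number of words of weight 8. -/
theorem Good.count_octads (h : Good C) : ((cw C).filter (fun v => hammingNorm v = 8)).card = 759 := by
  classical
  have h1 := h.count_eight
  have h2 : (cw C).filter (fun v => tt v ^ 2 = 64) =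
      (cw C).filter (fun v => hammingNorm v = 8) ∪ (cw C).filter (fun v => hammingNorm v = 16) := by
    ext v
    simp only [Finset.mem_filter, Finset.mem_union, mem_cw]
    constructor
    · rintro ⟨hv, ht⟩
      rw [tt_eq] at ht
      have hle := norm_le v
      have h3 : ((24 - 2 * (hammingNorm v : ℤ)) - 8) * ((24 - 2 * (hammingNorm v : ℤ)) + 8) = 0 := by
        linear_combination ht
      rcases mul_eq_zero.mp h3 with h4 | h4
      · left; exact ⟨hv, by omega⟩
      · right; exact ⟨hv, by omega⟩
    · rintro (⟨hv, hn⟩ | ⟨hv, hn⟩)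
      · refine ⟨hv, ?_⟩
        rw [tt_eq, hn]; norm_num
      · refine ⟨hv, ?_⟩
        rw [tt_eq, hn]; norm_num
  have h3 : Disjoint ((cw C).filter (fun v => hammingNorm v = 8))
      ((cw C).filter (fun v => hammingNorm v = 16)) := by
    rw [Finset.disjoint_filter]
    intro v _ h8 h16
    omega
  have h4 : ((cw C).filter (fun v => hammingNorm v = 16)).card =
      ((cw C).filter (fun v => hammingNorm v = 8)).card := by
    apply Finset.card_bij' (fun v _ => v + ones) (fun v _ => v + ones)
    · intro v hv
      simp only [Finset.mem_filter, mem_cw] at hv ⊢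
      refine ⟨C.add_mem hv.1 h.ones_mem, ?_⟩
      rw [norm_add_ones, hv.2]
    · intro v hv
      simp only [Finset.mem_filter, mem_cw] at hv ⊢
      refine ⟨C.add_mem hv.1 h.ones_mem, ?_⟩
      rw [norm_add_ones, hv.2]
    · intro v _
      exact add_add_cancel' v ones
    · intro v _
      exact add_add_cancel' v ones
  rw [h2, Finset.card_union_of_disjoint h3, h4] at h1
  omega

/-- support -/
abbrev supp (v : W) : Finset (Fin 24) := Finset.univ.filter fun i => v i ≠ 0

/-- indicator word -/
def ind (S : Finset (Fin 24)) : W := fun i => if i ∈ S then 1 else 0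

theorem supp_ind (S : Finset (Fin 24)) : supp (ind S) = S := by
  ext i
  by_cases h : i ∈ S <;> simp [ind, h]

theorem ind_supp (v : W) : ind (supp v) = v := by
  funext i
  have key : ∀ a : ZMod 2, (if a ≠ 0 then (1 : ZMod 2) else 0) = a := by decide
  simpa [ind] using key (v i)

theorem norm_eq_card (v : W) : hammingNorm v = (supp v).card := rfl

theorem norm_ind (S : Finset (Fin 24)) : hammingNorm (ind S) = S.card := by
  rw [norm_eq_card, supp_ind]

theorem supp_injective : Function.Injective supp := by
  intro u v h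
  rw [← ind_supp u, ← ind_supp v, h]

theorem supp_add (u v : W) : supp (u + v) = symmDiff (supp u) (supp v) := by
  ext i
  simp only [Finset.mem_filter, Finset.mem_univ, true_and, Finset.mem_symmDiff, Pi.add_apply]
  have key : ∀ a b : ZMod 2, a + b ≠ 0 ↔ (a ≠ 0 ∧ ¬ b ≠ 0) ∨ (b ≠ 0 ∧ ¬ a ≠ 0) := by decide
  exact key _ _

theorem card_symmDiff_add' (A B : Finset (Fin 24)) :
    (symmDiff A B).card + 2 * (A ∩ B).card = A.card + B.card := by
  have h1 : symmDiff A B = (A \ B) ∪ (B \ A) := rfl
  have h2 : Disjoint (A \ B) (B \ A) := by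
    rw [Finset.disjoint_left]
    intro x hx hy
    exact (Finset.mem_sdiff.mp hx).2 (Finset.mem_sdiff.mp hy).1
  rw [h1, Finset.card_union_of_disjoint h2]
  have h3 := Finset.card_sdiff_add_card_inter A B
  have h4 := Finset.card_sdiff_add_card_inter B A
  rw [Finset.inter_comm] at h4
  omega

theorem sub_eq_add' (u v : W) : u - v = u + v := by
  funext i
  simp only [Pi.sub_apply, Pi.add_apply]
  have key : ∀ a b : ZMod 2, a - b = a + b := by decide
  exact key _ _

theorem add_self_W (u : W) : u + u = 0 := by
  funext i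
  exact add_self' _

theorem eq_of_add_eq_zero' {u v : W} (h : u + v = 0) : u = v := by
  have := add_add_cancel' u v
  rw [h, zero_add] at this
  exact this.symm

/-- Words congruent modulo the code. -/
theorem Good.card_sum (h : Good C) {u v : W} (huv : u + v ∈ C) (hne : u ≠ v) :
    8 ≤ (supp u).card + (supp v).card := by
  have h1 := h.hmin _ huv (fun e => hne (eq_of_add_eq_zero' e))
  rw [norm_eq_card, supp_add] at h1
  have h2 := card_symmDiff_add' (supp u) (supp v)
  omega

/-- Words congruent modulo the code of weights adding to eight are disjoint. -/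
theorem Good.inter_zero (h : Good C) {u v : W} (huv : u + v ∈ C) (hne : u ≠ v)
    (hc : (supp u).card + (supp v).card ≤ 8) : supp u ∩ supp v = ∅ := by
  have h1 := h.hmin _ huv (fun e => hne (eq_of_add_eq_zero' e))
  rw [norm_eq_card, supp_add] at h1
  have h2 := card_symmDiff_add' (supp u) (supp v)
  have h3 : (supp u ∩ supp v).card = 0 := by omega
  exact Finset.card_eq_zero.mp h3

/-- the octads as a finset -/
noncomputable def octF (C : Submodule (ZMod 2) W) : Finset (Finset (Fin 24)) :=
  ((cw C).filter (fun v => hammingNorm v = 8)).image supp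

theorem Good.card_octF (h : Good C) : (octF C).card = 759 := by
  rw [octF, Finset.card_image_of_injective _ supp_injective, h.count_octads]

theorem mem_octF {b : Finset (Fin 24)} : b ∈ octF C ↔ b ∈ wordsOfWeight (C : Set W) 8 := by
  simp only [octF, Finset.mem_image, Finset.mem_filter, mem_cw, wordsOfWeight, supports]
  constructor
  · rintro ⟨v, ⟨hv, hn⟩, rfl⟩
    exact ⟨⟨v, hv, rfl⟩, hn⟩
  · rintro ⟨⟨v, hv, rfl⟩, hn⟩
    exact ⟨v, ⟨hv, hn⟩, rfl⟩

theorem mem_octF' {b : Finset (Fin 24)} : b ∈ octF C ↔ ind b ∈ C ∧ b.card = 8 := by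
  simp only [octF, Finset.mem_image, Finset.mem_filter, mem_cw]
  constructor
  · rintro ⟨v, ⟨hv, hn⟩, rfl⟩
    rw [ind_supp]
    exact ⟨hv, hn⟩
  · rintro ⟨hv, hn⟩
    exact ⟨ind b, ⟨hv, by rw [norm_ind, hn]⟩, supp_ind b⟩

theorem Good.octF_inter (h : Good C) {b b' : Finset (Fin 24)} (hb : b ∈ octF C) (hb' : b' ∈ octF C)
    (hne : b ≠ b') : (b ∩ b').card ≤ 4 := by
  obtain ⟨h1, h2⟩ := mem_octF'.mp hb
  obtain ⟨h3, h4⟩ := mem_octF'.mp hb'
  have h5 := h.hmin _ (C.add_mem h1 h3) (fun e => hne (by
    have := congrArg supp (eq_of_add_eq_zero' e)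
    rwa [supp_ind, supp_ind] at this))
  rw [norm_eq_card, supp_add, supp_ind, supp_ind] at h5
  have h6 := card_symmDiff_add' b b'
  omega

/-- Every five-set lies in an octad. -/
theorem Good.exists_octad (h : Good C) (s : Finset (Fin 24)) (hs : s.card = 5) :
    ∃ b ∈ octF C, s ⊆ b := by
  have h1 : ((octF C).biUnion (fun b => Finset.powersetCard 5 b)).card = 42504 := by
    rw [Finset.card_biUnion]
    · rw [Finset.sum_congr rfl (g := fun _ => 56), Finset.sum_const, h.card_octF]
      · norm_num
      · intro b hb
        rw [Finset.card_powersetCard, (mem_octF'.mp hb).2]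
        decide
    · intro b hb b' hb' hne
      show Disjoint _ _
      rw [Finset.disjoint_left]
      intro t ht ht'
      rw [Finset.mem_powersetCard] at ht ht'
      have h2 := h.octF_inter hb hb' hne
      have h3 : t ⊆ b ∩ b' := Finset.subset_inter ht.1 ht'.1
      have h4 := Finset.card_le_card h3
      omega
  have h2 : (octF C).biUnion (fun b => Finset.powersetCard 5 b) =
      Finset.powersetCard 5 (Finset.univ : Finset (Fin 24)) := by
    apply Finset.eq_of_subset_of_card_le
    · intro t ht
      obtain ⟨b, _, hb⟩ := Finset.mem_biUnion.mp ht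
      rw [Finset.mem_powersetCard] at hb ⊢
      exact ⟨Finset.subset_univ _, hb.2⟩
    · rw [h1, Finset.card_powersetCard]
      simp only [Finset.card_univ, Fintype.card_fin]
      decide
  have h3 : s ∈ (octF C).biUnion (fun b => Finset.powersetCard 5 b) := by
    rw [h2, Finset.mem_powersetCard]
    exact ⟨Finset.subset_univ _, hs⟩
  obtain ⟨b, hb, hb'⟩ := Finset.mem_biUnion.mp h3
  exact ⟨b, hb, (Finset.mem_powersetCard.mp hb').1⟩

/-- The octads form a Steiner system. -/
theorem Good.steiner (h : Good C) : (∃ w ∈ C, hammingNorm w = 8) ∧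
    IsSteinerSystem 5 8 (wordsOfWeight (C : Set W) 8) := by
  refine ⟨?_, ?_, ?_⟩
  · have h1 : ((cw C).filter (fun v => hammingNorm v = 8)).Nonempty := by
      rw [← Finset.card_pos, h.count_octads]
      norm_num
    obtain ⟨v, hv⟩ := h1
    obtain ⟨h2, h3⟩ := Finset.mem_filter.mp hv
    exact ⟨v, mem_cw.mp h2, h3⟩
  · intro b hb
    exact hb.2
  · intro s hs
    obtain ⟨b, hb, hsb⟩ := h.exists_octad s hs
    refine ⟨b, ⟨mem_octF.mp hb, hsb⟩, ?_⟩
    rintro b' ⟨hb', hsb'⟩
    by_contra hne
    have h2 := h.octF_inter (mem_octF.mpr hb') hb hne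
    have h3 : s ⊆ b' ∩ b := Finset.subset_inter hsb' hsb
    have h4 := Finset.card_le_card h3
    omega

section Cosets

variable (C)

/-- The class of a set modulo the code. -/
def qq (S : Finset (Fin 24)) : W ⧸ C := Submodule.Quotient.mk (ind S)

variable {C}

theorem qq_eq_iff {S T : Finset (Fin 24)} : qq C S = qq C T ↔ ind S + ind T ∈ C := by
  rw [qq, qq, Submodule.Quotient.eq, sub_eq_add']

theorem ind_ne {S T : Finset (Fin 24)} (h : S ≠ T) : ind S ≠ ind T := by
  intro e
  apply h
  have := congrArg supp e
  rwa [supp_ind, supp_ind] at this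

theorem Good.card_quot (h : Good C) : Nat.card (W ⧸ C) = 4096 := by
  have h1 := Submodule.finrank_quotient_add_finrank C
  rw [h.hdim] at h1
  have h2 : Module.finrank (ZMod 2) W = 24 := by simp
  have h3 : Module.finrank (ZMod 2) (W ⧸ C) = 12 := by omega
  rw [Module.natCard_eq_pow_finrank (K := ZMod 2), h3]
  simp

/-- sets of size at most three -/
noncomputable def lowS : Finset (Finset (Fin 24)) :=
  (Finset.range 4).biUnion (fun k => Finset.powersetCard k Finset.univ)

theorem mem_lowS {S : Finset (Fin 24)} : S ∈ lowS ↔ S.card ≤ 3 := by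
  simp only [lowS, Finset.mem_biUnion, Finset.mem_range, Finset.mem_powersetCard, Finset.subset_univ,
    true_and]
  constructor
  · rintro ⟨k, hk, rfl⟩
    omega
  · intro h
    exact ⟨_, by omega, rfl⟩

theorem card_lowS : lowS.card = 2325 := by
  rw [lowS, Finset.card_biUnion]
  · simp only [Finset.card_powersetCard, Finset.card_univ, Fintype.card_fin]
    decide
  · intro a _ b _ hab
    exact Finset.pairwise_disjoint_powersetCard _ hab

/-- sets of size four -/
noncomputable abbrev fourS : Finset (Finset (Fin 24)) := Finset.powersetCard 4 Finset.univ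

theorem card_fourS : fourS.card = 10626 := by
  rw [Finset.card_powersetCard]
  simp only [Finset.card_univ, Fintype.card_fin]
  decide

theorem mem_fourS {S : Finset (Fin 24)} : S ∈ fourS ↔ S.card = 4 := by
  simp [fourS, Finset.mem_powersetCard]

/-- Any two four-sets in a class are disjoint. -/
theorem Good.four_disj (h : Good C) {S T : Finset (Fin 24)} (hS : S.card = 4) (hT : T.card = 4)
    (he : qq C S = qq C T) (hne : S ≠ T) : Disjoint S T := by
  have h1 := h.inter_zero (qq_eq_iff.mp he) (ind_ne hne) (by rw [supp_ind, supp_ind]; omega)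
  rw [supp_ind, supp_ind] at h1
  exact Finset.disjoint_iff_inter_eq_empty.mpr h1

/-- A set of pairwise disjoint four-sets has at most six members. -/
theorem card_le_six {F : Finset (Finset (Fin 24))} (h4 : ∀ S ∈ F, S.card = 4)
    (hd : ∀ S ∈ F, ∀ T ∈ F, S ≠ T → Disjoint S T) : F.card ≤ 6 := by
  have h1 : (F.biUnion id).card = ∑ S ∈ F, (id S).card := Finset.card_biUnion hd
  have h' : ∑ S ∈ F, (id S).card = ∑ S ∈ F, 4 := Finset.sum_congr rfl (fun S hS => h4 S hS)
  rw [h', Finset.sum_const, smul_eq_mul] at h1
  have h2 : (F.biUnion id).card ≤ 24 := by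
    have := Finset.card_le_univ (F.biUnion id)
    simpa using this
  omega

open Classical in
/-- Structure of the cosets. -/
theorem Good.coset_structure (h : Good C) (c : W ⧸ C) :
    (∃ S, S.card ≤ 3 ∧ qq C S = c) ∨
      ((Finset.univ.filter (fun S : Finset (Fin 24) => S.card = 4 ∧ qq C S = c)).card = 6) := by
  classical
  let Q := W ⧸ C
  have hfin : Fintype Q := Fintype.ofFinite Q
  have hcard : Fintype.card Q = 4096 := by
    rw [← Nat.card_eq_fintype_card]
    exact h.card_quot
  let A : Finset Q := lowS.image (qq C)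
  let B : Finset Q := fourS.image (qq C)
  have hA : A.card = 2325 := by
    rw [Finset.card_image_of_injOn, card_lowS]
    intro S hS T hT he
    have hS' : S.card ≤ 3 := mem_lowS.mp hS
    have hT' : T.card ≤ 3 := mem_lowS.mp hT
    by_contra hne
    have := h.card_sum (qq_eq_iff.mp he) (ind_ne hne)
    rw [supp_ind, supp_ind] at this
    omega
  have hAB : Disjoint A B := by
    rw [Finset.disjoint_left]
    intro x hx hy
    obtain ⟨S, hS, rfl⟩ := Finset.mem_image.mp hx
    obtain ⟨T, hT, hTe⟩ := Finset.mem_image.mp hy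
    have hS' : S.card ≤ 3 := mem_lowS.mp hS
    have hT' : T.card = 4 := mem_fourS.mp hT
    have hne : S ≠ T := by
      rintro rfl
      omega
    have := h.card_sum (qq_eq_iff.mp hTe.symm) (ind_ne hne)
    rw [supp_ind, supp_ind] at this
    omega
  have hfib : ∀ x ∈ B, (fourS.filter (fun S => qq C S = x)).card ≤ 6 := by
    intro x _
    apply card_le_six
    · intro S hS
      exact mem_fourS.mp (Finset.mem_filter.mp hS).1
    · intro S hS T hT hne
      obtain ⟨h1, h2⟩ := Finset.mem_filter.mp hS
      obtain ⟨h3, h4⟩ := Finset.mem_filter.mp hT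
      exact h.four_disj (mem_fourS.mp h1) (mem_fourS.mp h3) (h2.trans h4.symm) hne
  have hsum : ∑ x ∈ B, (fourS.filter (fun S => qq C S = x)).card = 10626 := by
    rw [← card_fourS]
    exact (Finset.card_eq_sum_card_image (qq C) fourS).symm
  have hB1 : 1771 ≤ B.card := by
    have h1 : ∑ x ∈ B, (fourS.filter (fun S => qq C S = x)).card ≤ ∑ x ∈ B, 6 := Finset.sum_le_sum hfib
    rw [hsum, Finset.sum_const, smul_eq_mul] at h1
    omega
  have hun : (A ∪ B).card ≤ 4096 := by
    rw [← hcard]
    exact Finset.card_le_univ _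
  rw [Finset.card_union_of_disjoint hAB, hA] at hun
  have hB2 : B.card = 1771 := by omega
  have hcov : A ∪ B = Finset.univ := by
    apply Finset.eq_univ_of_card
    rw [Finset.card_union_of_disjoint hAB, hA, hB2, hcard]
  have hc : c ∈ A ∪ B := by
    rw [hcov]; exact Finset.mem_univ _
  rcases Finset.mem_union.mp hc with hc | hc
  · left
    obtain ⟨S, hS, hSe⟩ := Finset.mem_image.mp hc
    exact ⟨S, mem_lowS.mp hS, hSe⟩
  · right
    have hall : ∀ x ∈ B, (fourS.filter (fun S => qq C S = x)).card = 6 := by
      by_contra hcon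
      push Not at hcon
      obtain ⟨x, hx, hne⟩ := hcon
      have hlt : (fourS.filter (fun S => qq C S = x)).card < 6 := lt_of_le_of_ne (hfib x hx) hne
      have h1 : ∑ x ∈ B, (fourS.filter (fun S => qq C S = x)).card < ∑ x ∈ B, 6 :=
        Finset.sum_lt_sum hfib ⟨x, hx, hlt⟩
      rw [hsum, Finset.sum_const, smul_eq_mul, hB2] at h1
      omega
    have heq : Finset.univ.filter (fun S : Finset (Fin 24) => S.card = 4 ∧ qq C S = c) =
        fourS.filter (fun S => qq C S = c) := by
      ext S
      simp only [Finset.mem_filter, Finset.mem_univ, true_and, mem_fourS]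
    rw [heq]
    exact hall c hc

/-- The statement about cosets. -/
theorem Good.coset_words (h : Good C) (w : W) :
    (∃ u : W, {u : W | u - w ∈ C ∧ hammingNorm u ≤ 4} = {u} ∧ hammingNorm u ≤ 3) ∨
      ({u : W | u - w ∈ C ∧ hammingNorm u ≤ 4}.ncard = 6 ∧
        ∀ u ∈ {u : W | u - w ∈ C ∧ hammingNorm u ≤ 4}, hammingNorm u = 4 ∧
          ∀ u' ∈ {u : W | u - w ∈ C ∧ hammingNorm u ≤ 4}, u ≠ u' →
            Disjoint (Finset.univ.filter fun i => u i ≠ 0) (Finset.univ.filter fun i => u' i ≠ 0)) := by
  classical
  let c : W ⧸ C := Submodule.Quotient.mk w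
  have hqq : ∀ u : W, u - w ∈ C ↔ qq C (supp u) = c := by
    intro u
    rw [qq, ind_supp, Submodule.Quotient.eq]
  have hlow : ∀ S T : Finset (Fin 24), S.card ≤ 3 → T.card ≤ 4 → qq C S = qq C T → S = T := by
    intro S T hS hT he
    by_contra hne
    have := h.card_sum (qq_eq_iff.mp he) (ind_ne hne)
    rw [supp_ind, supp_ind] at this
    omega
  rcases h.coset_structure c with ⟨S, hS, hSc⟩ | hsix
  · left
    refine ⟨ind S, ?_, by rw [norm_ind]; exact hS⟩
    ext u
    simp only [Set.mem_ofPred_eq, Set.mem_singleton_iff]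
    constructor
    · rintro ⟨h1, h2⟩
      have h3 : qq C (supp u) = c := (hqq u).mp h1
      have h4 := hlow S (supp u) hS h2 (hSc.trans h3.symm)
      rw [h4, ind_supp]
    · rintro rfl
      refine ⟨?_, by rw [norm_ind]; omega⟩
      rw [hqq, supp_ind]
      exact hSc
  · right
    set F := Finset.univ.filter (fun S : Finset (Fin 24) => S.card = 4 ∧ qq C S = c) with hF
    -- no low word in this class
    have hnolow : ∀ T : Finset (Fin 24), T.card ≤ 3 → qq C T ≠ c := by
      intro T hT he
      have hne : F.Nonempty := by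
        rw [← Finset.card_pos, hsix]; norm_num
      obtain ⟨S, hS⟩ := hne
      obtain ⟨-, h1, h2⟩ := Finset.mem_filter.mp hS
      have := hlow T S hT (by omega) (he.trans h2.symm)
      rw [this] at hT
      omega
    have hset : {u : W | u - w ∈ C ∧ hammingNorm u ≤ 4} = ↑(F.image ind) := by
      ext u
      simp only [Set.mem_ofPred_eq, Finset.coe_image, Set.mem_image, Finset.mem_coe]
      constructor
      · rintro ⟨h1, h2⟩
        have h3 : qq C (supp u) = c := (hqq u).mp h1
        refine ⟨supp u, ?_, ind_supp u⟩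
        refine Finset.mem_filter.mpr ⟨Finset.mem_univ _, ?_, h3⟩
        rw [norm_eq_card] at h2
        by_contra hne
        exact hnolow (supp u) (by omega) h3
      · rintro ⟨S, hS, rfl⟩
        obtain ⟨-, h1, h2⟩ := Finset.mem_filter.mp hS
        refine ⟨?_, by rw [norm_ind]; omega⟩
        rw [hqq, supp_ind]
        exact h2
    refine ⟨?_, ?_⟩
    · rw [hset, Set.ncard_coe_finset, Finset.card_image_of_injective, hsix]
      intro S T he
      have := congrArg supp he
      rwa [supp_ind, supp_ind] at this
    · intro u hu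
      rw [hset] at hu
      obtain ⟨S, hS, rfl⟩ := Finset.mem_image.mp hu
      obtain ⟨-, h1, h2⟩ := Finset.mem_filter.mp hS
      refine ⟨by rw [norm_ind]; exact h1, ?_⟩
      intro u' hu' hne
      rw [hset] at hu'
      obtain ⟨T, hT, rfl⟩ := Finset.mem_image.mp hu'
      obtain ⟨-, h3, h4⟩ := Finset.mem_filter.mp hT
      have hST : S ≠ T := by
        rintro rfl
        exact hne rfl
      have := h.four_disj h1 h3 (h2.trans h4.symm) hST
      show Disjoint (supp (ind S)) (supp (ind T))
      rw [supp_ind, supp_ind]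
      exact this

/-- every class has a representative of weight at most 4. -/
theorem Good.exists_small (h : Good C) (x : W) : ∃ S : Finset (Fin 24), S.card ≤ 4 ∧ ind S + x ∈ C := by
  classical
  rcases h.coset_structure (Submodule.Quotient.mk x) with ⟨S, hS, hSc⟩ | hsix
  · refine ⟨S, by omega, ?_⟩
    have := (Submodule.Quotient.eq C).mp hSc
    rwa [sub_eq_add'] at this
  · have hne : (Finset.univ.filter (fun S : Finset (Fin 24) => S.card = 4 ∧
        qq C S = Submodule.Quotient.mk x)).Nonempty := by
      rw [← Finset.card_pos, hsix]; norm_num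
    obtain ⟨S, hS⟩ := hne
    obtain ⟨-, h1, h2⟩ := Finset.mem_filter.mp hS
    refine ⟨S, by omega, ?_⟩
    have := (Submodule.Quotient.eq C).mp h2
    rwa [sub_eq_add'] at this

end Cosets

/-- dot product of indicators -/
theorem dot_ind (A B : Finset (Fin 24)) : dot (ind A) (ind B) = ((A ∩ B).card : ZMod 2) := by
  have h1 : ∀ i, ind A i * ind B i = if i ∈ A ∩ B then 1 else 0 := by
    intro i
    by_cases h1 : i ∈ A <;> by_cases h2 : i ∈ B <;> simp [ind, h1, h2]
  simp only [dot, h1]
  rw [Finset.sum_boole]
  congr 2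
  ext x
  simp

/-- For a non-empty small set there is an octad meeting it oddly. -/
theorem Good.exists_odd (h : Good C) {U : Finset (Fin 24)} (hU : U.Nonempty) (hU4 : U.card ≤ 4) :
    ∃ b ∈ octF C, Odd (U ∩ b).card := by
  classical
  -- an octad through `U`
  obtain ⟨s, hUs, hs⟩ : ∃ s : Finset (Fin 24), U ⊆ s ∧ s.card = 5 := by
    have := Finset.exists_superset_card_eq (s := U) (n := 5) (by omega) (by simp)
    exact this
  obtain ⟨O, hO, hsO⟩ := h.exists_octad s hs
  have hUO : U ⊆ O := hUs.trans hsO
  have hO8 : O.card = 8 := (mem_octF'.mp hO).2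
  by_cases hodd : Odd U.card
  · refine ⟨O, hO, ?_⟩
    rwa [Finset.inter_eq_left.mpr hUO]
  · -- even case
    obtain ⟨a, ha⟩ := hU
    have hcE : U.card = 2 ∨ U.card = 4 := by
      have h1 : 0 < U.card := Finset.card_pos.mpr ⟨a, ha⟩
      have h2 : Even U.card := Nat.not_odd_iff_even.mp hodd
      obtain ⟨m, hm⟩ := h2
      omega
    -- a four-subset `K` of `O` avoiding `a` with `K ∩ U = U \ {a}`
    obtain ⟨K, hK1, hK2, hK3⟩ : ∃ K : Finset (Fin 24), U.erase a ⊆ K ∧ K ⊆ (O \ U) ∪ U.erase a ∧ K.card = 4 := by
      have h1 : (U.erase a).card ≤ ((O \ U) ∪ U.erase a).card :=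
        Finset.card_le_card Finset.subset_union_right
      have h2 : ((O \ U) ∪ U.erase a).card = (O \ U).card + (U.erase a).card := by
        apply Finset.card_union_of_disjoint
        rw [Finset.disjoint_left]
        intro x hx hy
        exact (Finset.mem_sdiff.mp hx).2 (Finset.mem_of_mem_erase hy)
      have h3 : (O \ U).card = 8 - U.card := by
        rw [Finset.card_sdiff_of_subset hUO, hO8]
      have h4 : (U.erase a).card = U.card - 1 := Finset.card_erase_of_mem ha
      obtain ⟨K, hK1, hK2, hK3⟩ := Finset.exists_subsuperset_card_eq (s := U.erase a)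
        (t := (O \ U) ∪ U.erase a) (n := 4) Finset.subset_union_right (by omega) (by omega)
      exact ⟨K, hK1, hK2, hK3⟩
    have hKO : K ⊆ O := by
      intro x hx
      rcases Finset.mem_union.mp (hK2 hx) with hy | hy
      · exact (Finset.mem_sdiff.mp hy).1
      · exact hUO (Finset.mem_of_mem_erase hy)
    -- a point off the octad
    obtain ⟨y, hy⟩ : ∃ y, y ∉ O := by
      by_contra hcon
      push Not at hcon
      have : (Finset.univ : Finset (Fin 24)) ⊆ O := fun x _ => hcon x
      have := Finset.card_le_card this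
      simp at this
      omega
    have hyK : y ∉ K := fun h => hy (hKO h)
    obtain ⟨O', hO', hsO'⟩ := h.exists_octad (insert y K)
      (by rw [Finset.card_insert_of_notMem hyK, hK3])
    have hneO : O' ≠ O := by
      rintro rfl
      exact hy (hsO' (Finset.mem_insert_self _ _))
    have hin := h.octF_inter hO' hO hneO
    have hKsub : K ⊆ O' ∩ O := Finset.subset_inter
      (fun x hx => hsO' (Finset.mem_insert_of_mem hx)) hKO
    have hKeq : K = O' ∩ O := Finset.eq_of_subset_of_card_le hKsub (by omega)
    refine ⟨O', hO', ?_⟩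
    have hUO' : U ∩ O' = U.erase a := by
      ext x
      simp only [Finset.mem_inter, Finset.mem_erase]
      constructor
      · rintro ⟨hx1, hx2⟩
        refine ⟨?_, hx1⟩
        rintro rfl
        have hxK : x ∈ K := by
          rw [hKeq]
          exact Finset.mem_inter.mpr ⟨hx2, hUO hx1⟩
        rcases Finset.mem_union.mp (hK2 hxK) with hz | hz
        · exact (Finset.mem_sdiff.mp hz).2 hx1
        · exact (Finset.mem_erase.mp hz).1 rfl
      · rintro ⟨hx1, hx2⟩
        exact ⟨hx2, hsO' (Finset.mem_insert_of_mem (hK1 (Finset.mem_erase.mpr ⟨hx1, hx2⟩)))⟩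
    rw [hUO', Finset.card_erase_of_mem ha]
    rcases hcE with h2 | h2 <;> rw [h2] <;> decide

/-- The octads span the code. -/
theorem Good.span_octads (h : Good C) :
    Submodule.span (ZMod 2) {w : W | w ∈ C ∧ hammingNorm w = 8} = C := by
  classical
  set D := Submodule.span (ZMod 2) {w : W | w ∈ C ∧ hammingNorm w = 8} with hD
  have hle : D ≤ C := Submodule.span_le.mpr (fun w hw => hw.1)
  have hperp : perp D ≤ C := by
    intro x hx
    rw [mem_perp] at hx
    obtain ⟨S, hS4, hSx⟩ := h.exists_small x
    by_cases hS : S.Nonempty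
    · exfalso
      obtain ⟨b, hb, hodd⟩ := h.exists_odd hS hS4
      obtain ⟨h1, h2⟩ := mem_octF'.mp hb
      have h3 : ind b ∈ D := Submodule.subset_span ⟨h1, by rw [norm_ind]; exact h2⟩
      have h4 := hx _ h3
      have h5 : dot (ind S + x) (ind b) = 0 := h.horth _ hSx _ h1
      rw [dot_add_left, h4, add_zero, dot_ind] at h5
      rw [ZMod.natCast_eq_zero_iff_even] at h5
      exact (Nat.not_even_iff_odd.mpr hodd) h5
    · have : S = ∅ := Finset.not_nonempty_iff_eq_empty.mp hS
      subst this
      have h0 : ind ∅ = 0 := by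
        funext i
        simp [ind]
      rwa [h0, zero_add] at hSx
  have h1 := Submodule.finrank_mono hperp
  rw [finrank_perp, h.hdim] at h1
  have h2 := Submodule.finrank_mono hle
  rw [h.hdim] at h2
  have h3 : Module.finrank (ZMod 2) D ≤ 24 := by
    have := Submodule.finrank_le D
    simpa using this
  apply Submodule.eq_of_le_of_finrank_eq hle
  rw [h.hdim]
  omega

end Cfsg.Agent.Lib.SelfDual24
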