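/-
Self-duality of faithful irreducible modules of abelian groups over finite fields.
-/
import Mathlib

set_option autoImplicit false
set_option linter.all false

open Polynomial Module

namespace Cfsg.Agent.Lib.SelfDualAb

variable {F : Type*} [Field F] [Fintype F]
variable {H : Type*} [CommGroup H] [Finite H]
variable {V : Type*} [AddCommGroup V] [Module F V] [FiniteDimensional F V]

theorem inj_of_comm (ρ : Representation F H V)
    (hirr : ∀ U : Submodule F V, (∀ h : H, ∀ u ∈ U, ρ h u ∈ U) → U = ⊥ ∨ U = ⊤)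
    {a : Module.End F V} (hc : ∀ h, ρ h * a = a * ρ h) (ha : a ≠ 0) : Function.Injective a := by
  have := hirr (LinearMap.ker a) (fun h u hu => by
    rw [LinearMap.mem_ker] at hu ⊢
    have h1 := congrArg (fun T : Module.End F V => T u) (hc h)
    simp only [Module.End.mul_apply] at h1
    rw [← h1, hu, map_zero])
  rcases this with h | h
  · exact LinearMap.ker_eq_bot.1 h
  · exact absurd (LinearMap.ker_eq_top.1 h) ha

theorem isCyclic_H [Nontrivial V] (ρ : Representation F H V) (hfaith : Function.Injective ρ)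
    (hirr : ∀ U : Submodule F V, (∀ h : H, ∀ u ∈ U, ρ h u ∈ U) → U = ⊥ ∨ U = ⊤) : IsCyclic H := by
  classical
  let s : Set (Module.End F V) := Set.range ρ
  have hcomm : ∀ a ∈ s, ∀ b ∈ s, a * b = b * a := by
    rintro _ ⟨x, rfl⟩ _ ⟨y, rfl⟩
    rw [← map_mul, ← map_mul, mul_comm]
  letI R : CommRing (Algebra.adjoin F s) := Algebra.adjoinCommRingOfComm F hcomm
  have hcen : ∀ a ∈ Algebra.adjoin F s, ∀ h, ρ h * a = a * ρ h := by
    intro a ha h
    induction ha using Algebra.adjoin_induction with
    | mem x hx =>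
      obtain ⟨y, rfl⟩ := hx
      rw [← map_mul, ← map_mul, mul_comm]
    | algebraMap c => exact (Algebra.commutes c _).symm
    | add x y _ _ hx hy => rw [mul_add, add_mul, hx, hy]
    | mul x y _ _ hx hy => rw [← mul_assoc, hx, mul_assoc, hy, mul_assoc]
  haveI : Nontrivial (Algebra.adjoin F s) := by
    refine ⟨⟨1, 0, ?_⟩⟩
    intro h
    have h1 : (1 : Module.End F V) = 0 := congrArg Subtype.val h
    exact one_ne_zero h1
  haveI : NoZeroDivisors (Algebra.adjoin F s) := by
    refine ⟨?_⟩
    intro a b hab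
    by_cases ha : (a : Module.End F V) = 0
    · left
      exact Subtype.ext ha
    · right
      apply Subtype.ext
      have hinj := inj_of_comm ρ hirr (hcen _ a.2) ha
      have h1 : (a : Module.End F V) * (b : Module.End F V) = 0 := congrArg Subtype.val hab
      ext x
      apply hinj
      have h2 := congrArg (fun T : Module.End F V => T x) h1
      simpa using h2
  haveI : IsDomain (Algebra.adjoin F s) := NoZeroDivisors.to_isDomain _
  let φ : H →* Algebra.adjoin F s :=
    { toFun := fun h => ⟨ρ h, Algebra.subset_adjoin ⟨h, rfl⟩⟩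
      map_one' := Subtype.ext (map_one ρ)
      map_mul' := fun a b => Subtype.ext (map_mul ρ a b) }
  refine isCyclic_of_subgroup_isDomain φ ?_
  intro a b hab
  exact hfaith (congrArg Subtype.val hab)

theorem frob_pow_apply (E : Type*) [Field E] [Algebra F E] [Algebra.IsAlgebraic F E] (j : ℕ) (x : E) :
    (FiniteField.frobeniusAlgEquivOfAlgebraic F E ^ j) x = x ^ (Fintype.card F ^ j) := by
  induction j generalizing x with
  | zero => simp
  | succ j ih =>
    rw [pow_succ, AlgEquiv.mul_apply, ih, FiniteField.coe_frobeniusAlgEquivOfAlgebraic, ← pow_mul, pow_succ']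

theorem core_fwd (E : Type*) [Field E] [Algebra F E] [Finite E] (θ : E) (hθ0 : θ ≠ 0)
    (hgen : ∀ a : E, ∃ g : F[X], aeval θ g = a) (σ : E →ₐ[F] E) (hσ : σ θ = θ⁻¹)
    (hn : 2 ≤ finrank F E) :
    Even (finrank F E) ∧ θ ^ (Fintype.card F ^ (finrank F E / 2) + 1) = 1 := by
  classical
  haveI : FiniteDimensional F E := Module.Finite.of_finite
  haveI := Fintype.ofFinite E
  set n := finrank F E with hnd
  let fr := FiniteField.frobeniusAlgEquivOfAlgebraic F E
  let SS : E ≃ₐ[F] E := AlgEquiv.ofBijective σ σ.bijective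
  have hbij := FiniteField.bijective_frobeniusAlgEquivOfAlgebraic_pow F E
  obtain ⟨j, hj⟩ := hbij.2 SS
  have hj' : fr ^ (j : ℕ) = SS := hj
  have hβ : θ ^ (Fintype.card F ^ (j : ℕ)) = θ⁻¹ := by
    rw [← frob_pow_apply E, ← hσ]
    show (fr ^ (j : ℕ)) θ = _
    rw [hj']
    rfl
  have hSS2 : ∀ a, σ (σ a) = a := by
    intro a
    obtain ⟨g, rfl⟩ := hgen a
    rw [← aeval_algHom_apply, ← aeval_algHom_apply, hσ, map_inv₀, hσ, inv_inv]
  have hfr2 : fr ^ ((j : ℕ) * 2) = 1 := by
    rw [pow_mul, hj']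
    ext a
    rw [sq, AlgEquiv.mul_apply]
    exact hSS2 a
  have hfrn : fr ^ n = 1 := by
    ext a
    have hcardE : Fintype.card E = Fintype.card F ^ n := Module.card_eq_pow_finrank
    show (fr ^ n) a = a
    rw [show (fr ^ n) a = a ^ (Fintype.card F ^ n) from frob_pow_apply E n a, ← hcardE]
    exact FiniteField.pow_card a
  have hnpos : 0 < n := by omega
  have hkey : ∀ k, k < n → fr ^ k = 1 → k = 0 := by
    intro k hk hk1
    have h1 := hbij.1 (a₁ := (⟨k, hk⟩ : Fin (finrank F E))) (a₂ := (⟨0, hnpos⟩ : Fin (finrank F E))) (by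
      show fr ^ k = fr ^ 0
      rw [hk1, pow_zero])
    exact congrArg Fin.val h1
  have hjlt : (j : ℕ) < n := j.2
  have hcases : (j : ℕ) = 0 ∨ n = 2 * (j : ℕ) := by
    by_cases h2 : (j : ℕ) * 2 < n
    · left
      have := hkey _ h2 hfr2
      omega
    · right
      have h3 : (j : ℕ) * 2 - n < n := by omega
      have h4 : fr ^ ((j : ℕ) * 2 - n) = 1 := by
        have h5 : fr ^ ((j : ℕ) * 2) = fr ^ ((j : ℕ) * 2 - n) * fr ^ n := by
          rw [← pow_add]
          congr 1
          omega
        rw [hfrn, mul_one, hfr2] at h5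
        exact h5.symm
      have := hkey _ h3 h4
      omega
  rcases hcases with h0 | h2j
  · exfalso
    rw [h0, pow_zero, pow_one] at hβ
    have h1 : θ * θ = 1 := by
      nth_rewrite 2 [hβ]
      exact mul_inv_cancel₀ hθ0
    have hc : ∃ c : F, algebraMap F E c = θ := by
      rcases mul_self_eq_one_iff.1 h1 with h | h
      · exact ⟨1, by rw [map_one, h]⟩
      · exact ⟨-1, by rw [map_neg, map_one, h]⟩
    obtain ⟨c, hc⟩ := hc
    have hone : finrank F E = 1 := by
      rw [finrank_eq_one_iff_of_nonzero' (1 : E) one_ne_zero]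
      intro w
      obtain ⟨g, rfl⟩ := hgen w
      refine ⟨aeval c g, ?_⟩
      rw [← hc, aeval_algebraMap_apply, Algebra.smul_def, mul_one]
    omega
  · refine ⟨⟨j, by omega⟩, ?_⟩
    have h3 : n / 2 = (j : ℕ) := by omega
    rw [h3, pow_succ, hβ]
    exact inv_mul_cancel₀ hθ0

/-- The main equivalence. -/
theorem main_rep (ρ : Representation F H V) (hfaith : Function.Injective ρ)
    (hirr : ∀ U : Submodule F V, (∀ h : H, ∀ u ∈ U, ρ h u ∈ U) → U = ⊥ ∨ U = ⊤)
    (hn : 2 ≤ finrank F V) :
    (∃ B : LinearMap.BilinForm F V, B.Nondegenerate ∧ ∀ h : H, ∀ x y : V, B (ρ h x) (ρ h y) = B x y) ↔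
      (Even (finrank F V) ∧ Nat.card H ∣ Fintype.card F ^ (finrank F V / 2) + 1) := by
  classical
  haveI : Nontrivial V := Module.nontrivial_of_finrank_pos (R := F) (by omega)
  obtain ⟨v, hv⟩ := exists_ne (0 : V)
  haveI := isCyclic_H ρ hfaith hirr
  obtain ⟨h₀, hgen⟩ := IsCyclic.exists_generator (α := H)
  set ζ : Module.End F V := ρ h₀ with hζd
  have hint : IsIntegral F ζ := IsIntegral.of_finite F ζ
  set f := minpoly F ζ with hfd
  have hcomm : ∀ (g : F[X]) (h : H), ρ h * aeval ζ g = aeval ζ g * ρ h := by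
    intro g h
    have hc : Commute (ρ h) ζ := by
      show ρ h * ρ h₀ = ρ h₀ * ρ h
      rw [← map_mul, ← map_mul, mul_comm]
    refine Polynomial.induction_on' g (fun p q hp hq => ?_) (fun n c => ?_)
    · rw [map_add, mul_add, add_mul, hp, hq]
    · rw [aeval_monomial]
      have h1 : Commute (ρ h) (algebraMap F _ c) := (Algebra.commutes c _).symm
      have h2 : Commute (ρ h) (ζ ^ n) := hc.pow_right n
      exact (h1.mul_right h2).eq
  have hinj : ∀ g : F[X], aeval ζ g ≠ 0 → Function.Injective (aeval ζ g) := fun g hg =>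
    inj_of_comm ρ hirr (hcomm g) hg
  have hmon : f.Monic := minpoly.monic hint
  have hf0 : f ≠ 0 := hmon.ne_zero
  have hirrf : Irreducible f := by
    rw [irreducible_iff]
    refine ⟨minpoly.not_isUnit F ζ, ?_⟩
    intro g k hgk
    have h0 : aeval ζ g * aeval ζ k = 0 := by
      rw [← map_mul, ← hgk]
      exact minpoly.aeval F ζ
    by_cases hg : aeval ζ g = 0
    · right
      obtain ⟨d, rfl⟩ := minpoly.dvd F ζ hg
      have h1 : f * 1 = f * (d * k) := by
        rw [mul_one, ← mul_assoc]
        exact hgk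
      have h2 := mul_left_cancel₀ hf0 h1
      exact isUnit_of_dvd_one ⟨d, by rw [h2, mul_comm]⟩
    · left
      have hk : aeval ζ k = 0 := by
        ext x
        apply hinj g hg
        have h2 := congrArg (fun T : Module.End F V => T x) h0
        simpa using h2
      obtain ⟨d, rfl⟩ := minpoly.dvd F ζ hk
      have h1 : f * 1 = f * (g * d) := by
        rw [mul_one, mul_left_comm]
        exact hgk
      have h2 := mul_left_cancel₀ hf0 h1
      exact isUnit_of_dvd_one ⟨d, h2⟩
  haveI : Fact (Irreducible f) := ⟨hirrf⟩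
  haveI : FiniteDimensional F (AdjoinRoot f) := (AdjoinRoot.powerBasis hf0).finite
  haveI : Finite (AdjoinRoot f) := Module.finite_of_finite F
  let T : F[X] →ₗ[F] V := (LinearMap.applyₗ v).comp (aeval ζ).toLinearMap
  let e : AdjoinRoot f →ₗ[F] V := T.comp (AdjoinRoot.modByMonicHom hmon)
  have he_mk : ∀ g : F[X], e (AdjoinRoot.mk f g) = aeval ζ g v := by
    intro g
    show aeval ζ (AdjoinRoot.modByMonicHom hmon (AdjoinRoot.mk f g)) v = _
    rw [AdjoinRoot.modByMonicHom_mk]
    have h1 : aeval ζ g = aeval ζ (g %ₘ f) := by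
      conv_lhs => rw [← Polynomial.modByMonic_add_div g f]
      rw [map_add, map_mul, minpoly.aeval, zero_mul, add_zero]
    rw [h1]
  let θ : AdjoinRoot f := AdjoinRoot.root f
  have hmkX : ∀ (k : ℕ) (g : F[X]), θ ^ k * AdjoinRoot.mk f g = AdjoinRoot.mk f (X ^ k * g) := by
    intro k g
    rw [map_mul, map_pow, AdjoinRoot.mk_X]
  have hpowρ : ∀ k : ℕ, ρ (h₀ ^ k) = ζ ^ k := fun k => map_pow ρ h₀ k
  have hact : ∀ (k : ℕ) (a : AdjoinRoot f), e (θ ^ k * a) = ρ (h₀ ^ k) (e a) := by
    intro k a
    obtain ⟨g, rfl⟩ := AdjoinRoot.mk_surjective a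
    rw [hmkX, he_mk, he_mk, hpowρ, map_mul, map_pow, aeval_X]
    rfl
  have heinj : Function.Injective e := by
    rw [← LinearMap.ker_eq_bot, LinearMap.ker_eq_bot']
    intro a ha
    obtain ⟨g, rfl⟩ := AdjoinRoot.mk_surjective a
    rw [he_mk] at ha
    have hz : aeval ζ g = 0 := by
      by_contra hne
      exact hv (hinj g hne (by rw [ha, map_zero]))
    exact AdjoinRoot.mk_eq_zero.2 (minpoly.dvd F ζ hz)
  have he1 : e 1 = v := by
    have := he_mk 1
    have h1 : AdjoinRoot.mk f (1 : F[X]) = 1 := map_one _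
    have h2 : aeval ζ (1 : F[X]) = 1 := map_one _
    rw [h1, h2] at this
    exact this
  have hpowers : ∀ h : H, ∃ k : ℕ, h₀ ^ k = h := fun h =>
    (mem_powers_iff_mem_zpowers).2 (hgen h)
  have hesurj : Function.Surjective e := by
    rw [← LinearMap.range_eq_top]
    rcases hirr (LinearMap.range e) (by
      rintro h _ ⟨a, rfl⟩
      obtain ⟨k, rfl⟩ := hpowers h
      exact ⟨θ ^ k * a, hact k a⟩) with h | h
    · exfalso
      have : v ∈ LinearMap.range e := ⟨1, he1⟩
      rw [h] at this
      exact hv (Submodule.mem_bot F |>.1 this)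
    · exact h
  let ε : AdjoinRoot f ≃ₗ[F] V := LinearEquiv.ofBijective e ⟨heinj, hesurj⟩
  have hεapp : ∀ a, ε a = e a := fun a => rfl
  have hfin : finrank F (AdjoinRoot f) = finrank F V := ε.finrank_eq
  have hordH : orderOf h₀ = Nat.card H := orderOf_eq_card_of_forall_mem_zpowers hgen
  have hord : ∀ k : ℕ, θ ^ k = 1 ↔ Nat.card H ∣ k := by
    intro k
    rw [← hordH, orderOf_dvd_iff_pow_eq_one]
    constructor
    · intro h
      apply hfaith
      rw [map_one]
      ext x
      obtain ⟨a, rfl⟩ := hesurj x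
      rw [← hact, h, one_mul]
      rfl
    · intro h
      apply heinj
      have := hact k 1
      rw [h, map_one, mul_one] at this
      exact this
  have hm0 : 0 < Nat.card H := Nat.card_pos
  have hθ0 : θ ≠ 0 := by
    intro h0
    have h1 : θ ^ Nat.card H = 1 := (hord _).2 dvd_rfl
    rw [h0, zero_pow hm0.ne'] at h1
    exact zero_ne_one h1
  constructor
  · rintro ⟨B, hB, hinv⟩
    let τ : Module.End F V := ρ h₀⁻¹
    have hτpow : ∀ n : ℕ, τ ^ n = ρ ((h₀ ^ n)⁻¹) := by
      intro n
      rw [← inv_pow]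
      exact (map_pow ρ h₀⁻¹ n).symm
    have hadj : ∀ (g : F[X]) (x y : V), B (aeval ζ g x) y = B x (aeval τ g y) := by
      intro g x y
      refine Polynomial.induction_on' g (fun p q hp hq => ?_) (fun n c => ?_)
      · simp only [map_add, LinearMap.add_apply, hp, hq]
      · rw [aeval_monomial, aeval_monomial]
        simp only [Module.End.mul_apply, Module.algebraMap_end_apply, map_smul, LinearMap.smul_apply]
        congr 1
        rw [← hpowρ, hτpow]
        have h1 := hinv (h₀ ^ n) x (ρ ((h₀ ^ n)⁻¹) y)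
        rw [← h1]
        congr 2
        rw [← Module.End.mul_apply, ← map_mul, mul_inv_cancel, map_one]
        rfl
    have haτ : aeval τ f = 0 := by
      ext y
      apply hB.2
      intro x
      rw [← hadj, minpoly.aeval]
      simp
    let m := Nat.card H
    have hτm : τ = aeval ζ (X ^ (m - 1) : F[X]) := by
      rw [map_pow, aeval_X, ← hpowρ]
      show ρ h₀⁻¹ = _
      congr 1
      apply inv_eq_of_mul_eq_one_right
      rw [← pow_succ', Nat.sub_add_cancel hm0]
      rw [← hordH]
      exact pow_orderOf_eq_one h₀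
    have hcomp : aeval ζ (f.comp (X ^ (m - 1))) = 0 := by
      rw [Polynomial.aeval_comp, ← hτm, haτ]
    have hβroot : aeval (θ ^ (m - 1)) f = 0 := by
      have h1 : AdjoinRoot.mk f (f.comp (X ^ (m - 1))) = 0 :=
        AdjoinRoot.mk_eq_zero.2 (minpoly.dvd F ζ hcomp)
      rw [← AdjoinRoot.aeval_eq, Polynomial.aeval_comp, map_pow, aeval_X] at h1
      exact h1
    have hβinv : θ ^ (m - 1) = θ⁻¹ := by
      apply eq_inv_of_mul_eq_one_left
      rw [← pow_succ, Nat.sub_add_cancel hm0]
      exact (hord _).2 dvd_rfl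
    let σ : AdjoinRoot f →ₐ[F] AdjoinRoot f :=
      AdjoinRoot.liftAlgHom f (Algebra.ofId F (AdjoinRoot f)) (θ ^ (m - 1)) hβroot
    have hσ : σ θ = θ⁻¹ := by
      rw [← hβinv]
      exact AdjoinRoot.liftAlgHom_root _ _ _ _
    have hgenE : ∀ a : AdjoinRoot f, ∃ g : F[X], aeval θ g = a := by
      intro a
      obtain ⟨g, rfl⟩ := AdjoinRoot.mk_surjective a
      exact ⟨g, AdjoinRoot.aeval_eq g⟩
    obtain ⟨he, hpow⟩ := core_fwd (AdjoinRoot f) θ hθ0 hgenE σ hσ (by rw [hfin]; exact hn)
    rw [hfin] at he hpow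
    exact ⟨he, (hord _).1 hpow⟩
  · rintro ⟨he, hdvd⟩
    let n := finrank F V
    let q := Fintype.card F ^ (n / 2)
    have hθq : θ ^ (q + 1) = 1 := (hord _).2 hdvd
    let φ : AdjoinRoot f ≃ₐ[F] AdjoinRoot f := FiniteField.frobeniusAlgEquivOfAlgebraic F (AdjoinRoot f) ^ (n / 2)
    have hφ : ∀ x, φ x = x ^ q := fun x => frob_pow_apply (AdjoinRoot f) (n / 2) x
    let B : LinearMap.BilinForm F V :=
      (Algebra.traceForm F (AdjoinRoot f)).compl₁₂ ε.symm.toLinearMap (φ.toLinearMap.comp ε.symm.toLinearMap)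
    have hBapp : ∀ x y, B x y = Algebra.trace F (AdjoinRoot f) (ε.symm x * φ (ε.symm y)) := fun x y => rfl
    have hnd := traceForm_nondegenerate F (AdjoinRoot f)
    refine ⟨B, ⟨?_, ?_⟩, ?_⟩
    · intro x hx
      have h1 : ε.symm x = 0 := by
        apply hnd.1
        intro z
        have h2 := hx (ε (φ.symm z))
        rw [hBapp, LinearEquiv.symm_apply_apply, AlgEquiv.apply_symm_apply] at h2
        exact h2
      have h3 := congrArg ε h1
      rwa [LinearEquiv.apply_symm_apply, map_zero] at h3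
    · intro y hy
      have h1 : φ (ε.symm y) = 0 := by
        apply hnd.2
        intro z
        have h2 := hy (ε z)
        rw [hBapp, LinearEquiv.symm_apply_apply] at h2
        exact h2
      have h2 : ε.symm y = 0 := by
        apply φ.injective
        rw [h1, map_zero]
      have h3 := congrArg ε h2
      rwa [LinearEquiv.apply_symm_apply, map_zero] at h3
    · intro h x y
      obtain ⟨k, rfl⟩ := hpowers h
      have hs : ∀ w, ε.symm (ρ (h₀ ^ k) w) = θ ^ k * ε.symm w := by
        intro w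
        apply ε.injective
        rw [LinearEquiv.apply_symm_apply, hεapp, hact, ← hεapp, LinearEquiv.apply_symm_apply]
      rw [hBapp, hBapp, hs, hs]
      have hφm : φ (θ ^ k * ε.symm y) = (θ ^ k) ^ q * φ (ε.symm y) := by
        rw [map_mul, hφ (θ ^ k)]
      rw [hφm]
      congr 1
      have h1 : θ ^ k * (θ ^ k) ^ q = 1 := by
        rw [← pow_succ', ← pow_mul, mul_comm, pow_mul, hθq, one_pow]
      calc θ ^ k * ε.symm x * ((θ ^ k) ^ q * φ (ε.symm y))
          = (θ ^ k * (θ ^ k) ^ q) * (ε.symm x * φ (ε.symm y)) := by ring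
        _ = _ := by rw [h1, one_mul]

/-- Dimension one. -/
theorem dim_one (ρ : Representation F H V) (hfaith : Function.Injective ρ) (hn : finrank F V = 1)
    (B : LinearMap.BilinForm F V) (hB : B.Nondegenerate)
    (hinv : ∀ h : H, ∀ x y : V, B (ρ h x) (ρ h y) = B x y) : Nat.card H ≤ 2 := by
  classical
  obtain ⟨v, hv, hgen⟩ := finrank_eq_one_iff'.1 hn
  have hBv : B v v ≠ 0 := by
    intro h0
    apply hv
    apply hB.1
    intro y
    obtain ⟨c, rfl⟩ := hgen y
    rw [map_smul, h0, smul_zero]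
  have hρ : ∀ h : H, ρ h = 1 ∨ ρ h = -1 := by
    intro h
    obtain ⟨c, hc⟩ := hgen (ρ h v)
    have h1 := hinv h v v
    have h1' : B (c • v) (c • v) = c * c * B v v := by
      simp only [map_smul, LinearMap.smul_apply, smul_eq_mul]
      ring
    rw [← hc, h1'] at h1
    have h2 : c * c = 1 := mul_right_cancel₀ hBv (by rw [h1, one_mul])
    have hall : ∀ x, ρ h x = c • x := by
      intro x
      obtain ⟨d, rfl⟩ := hgen x
      rw [map_smul, ← hc, smul_comm]
    rcases mul_self_eq_one_iff.1 h2 with h3 | h3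
    · left
      ext x
      rw [hall, h3, one_smul]
      rfl
    · right
      ext x
      rw [hall, h3, neg_one_smul]
      rfl
  have hinjf : Function.Injective (fun h : H => decide (ρ h = 1)) := by
    intro a b hab
    apply hfaith
    simp only [decide_eq_decide] at hab
    rcases hρ a with ha | ha
    · rw [ha, hab.1 ha]
    · rcases hρ b with hb | hb
      · rw [hb, hab.2 hb]
      · rw [ha, hb]
  have := Nat.card_le_card_of_injective _ hinjf
  simpa using this

end Cfsg.Agent.Lib.SelfDualAb
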