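/-
Splitting of self-dual coprime modules over a field.
-/
import Mathlib

set_option autoImplicit false
set_option linter.all false

open Module

namespace Cfsg.Agent.Lib.SelfDualSplit

universe u v w

variable {F : Type v} [Field F] {G : Type w} [Group G]

theorem sepRight {V : Type u} [AddCommGroup V] [Module F V] [FiniteDimensional F V]
    (B : LinearMap.BilinForm F V) (h : ∀ x, (∀ y, B x y = 0) → x = 0) : ∀ y, (∀ x, B x y = 0) → y = 0 := by
  have hinj : Function.Injective B := by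
    rw [injective_iff_map_eq_zero]
    intro x hx
    exact h x fun y => by rw [hx]; rfl
  have hsurj : Function.Surjective B :=
    (LinearMap.injective_iff_surjective_of_finrank_eq_finrank (Subspace.dual_finrank_eq).symm).1 hinj
  intro y hy
  apply (Module.forall_dual_apply_eq_zero_iff F y).1
  intro f
  obtain ⟨x, rfl⟩ := hsurj f
  exact hy x

theorem sepLeft {V : Type u} [AddCommGroup V] [Module F V] [FiniteDimensional F V]
    (B : LinearMap.BilinForm F V) (h : ∀ y, (∀ x, B x y = 0) → y = 0) : ∀ x, (∀ y, B x y = 0) → x = 0 :=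
  sepRight B.flip h

theorem rho_rho_inv {V : Type u} [AddCommGroup V] [Module F V] (ρ : Representation F G V) (g : G) (y : V) :
    ρ g (ρ g⁻¹ y) = y := by
  rw [← Module.End.mul_apply, ← map_mul, mul_inv_cancel, map_one]
  rfl

theorem rho_inv_rho {V : Type u} [AddCommGroup V] [Module F V] (ρ : Representation F G V) (g : G) (y : V) :
    ρ g⁻¹ (ρ g y) = y := by
  rw [← Module.End.mul_apply, ← map_mul, inv_mul_cancel, map_one]
  rfl

/-- Restriction of a representation. -/
def subrep {V : Type u} [AddCommGroup V] [Module F V] (ρ : Representation F G V) (Y : Submodule F V)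
    (hY : ∀ g, ∀ y ∈ Y, ρ g y ∈ Y) : Representation F G Y where
  toFun g := (ρ g).restrict (fun y hy => hY g y hy)
  map_one' := by
    ext y
    simp
  map_mul' a b := by
    ext y
    simp

theorem subrep_apply {V : Type u} [AddCommGroup V] [Module F V] (ρ : Representation F G V) (Y : Submodule F V)
    (hY : ∀ g, ∀ y ∈ Y, ρ g y ∈ Y) (g : G) (y : Y) : ((subrep ρ Y hY g y : Y) : V) = ρ g y := rfl

/-- Projections. -/
theorem exists_proj {V : Type u} [AddCommGroup V] [Module F V] (N N' : Submodule F V) (h : IsCompl N N') :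
    ∃ π : V →ₗ[F] V, (∀ x, π x ∈ N) ∧ (∀ x ∈ N, π x = x) ∧ (∀ x ∈ N', π x = 0) ∧ (∀ x, x - π x ∈ N') := by
  let π₀ : V →ₗ[F] V := N.subtype.comp (Submodule.linearProjOfIsCompl N N' h)
  have p2 : ∀ x ∈ N, π₀ x = x := by
    intro x hx
    have := Submodule.linearProjOfIsCompl_apply_left h ⟨x, hx⟩
    exact congrArg Subtype.val this
  have p3 : ∀ x ∈ N', π₀ x = 0 := by
    intro x hx
    have := Submodule.linearProjOfIsCompl_apply_right h ⟨x, hx⟩
    show ((Submodule.linearProjOfIsCompl N N' h x : N) : V) = 0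
    rw [show Submodule.linearProjOfIsCompl N N' h x = 0 from this]
    rfl
  refine ⟨π₀, fun x => (Submodule.linearProjOfIsCompl N N' h x).2, p2, p3, ?_⟩
  intro x
  obtain ⟨n, hn, n', hn', rfl⟩ := Submodule.mem_sup.1 (show x ∈ N ⊔ N' by
    rw [h.sup_eq_top]
    exact Submodule.mem_top)
  rw [map_add, p2 n hn, p3 n' hn', add_zero, add_sub_cancel_left]
  exact hn'

theorem proj_comm {V : Type u} [AddCommGroup V] [Module F V] {N N' : Submodule F V} {π : V →ₗ[F] V}
    (h1 : ∀ x, π x ∈ N) (h2 : ∀ x ∈ N, π x = x) (h3 : ∀ x ∈ N', π x = 0) (h4 : ∀ x, x - π x ∈ N')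
    (T : V →ₗ[F] V) (hN : ∀ x ∈ N, T x ∈ N) (hN' : ∀ x ∈ N', T x ∈ N') (x : V) : π (T x) = T (π x) := by
  have e : x = π x + (x - π x) := by abel
  conv_lhs => rw [e, map_add, map_add, h2 _ (hN _ (h1 x)), h3 _ (hN' _ (h4 x)), add_zero]

/-- Maschke's theorem, with an explicit average. -/
theorem maschke {V : Type u} [AddCommGroup V] [Module F V] [Fintype G] (hG : ((Fintype.card G : ℕ) : F) ≠ 0)
    (ρ : Representation F G V) (N : Submodule F V) (hN : ∀ g, ∀ y ∈ N, ρ g y ∈ N) :
    ∃ N' : Submodule F V, IsCompl N N' ∧ ∀ g, ∀ y ∈ N', ρ g y ∈ N' := by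
  classical
  obtain ⟨N₀, h₀⟩ := N.exists_isCompl
  obtain ⟨π, p1, p2, -, -⟩ := exists_proj N N₀ h₀
  let c : F := ((Fintype.card G : ℕ) : F)⁻¹
  let Q : V →ₗ[F] V := c • ∑ g : G, (ρ g).comp (π.comp (ρ g⁻¹))
  have hQapp : ∀ x, Q x = c • ∑ g : G, ρ g (π (ρ g⁻¹ x)) := by
    intro x
    simp [Q, LinearMap.sum_apply]
  have hQN : ∀ x, Q x ∈ N := by
    intro x
    rw [hQapp]
    exact N.smul_mem _ (Submodule.sum_mem _ fun g _ => hN g _ (p1 _))
  have hQid : ∀ x ∈ N, Q x = x := by
    intro x hx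
    rw [hQapp]
    have h1 : ∀ g : G, ρ g (π (ρ g⁻¹ x)) = x := by
      intro g
      rw [p2 _ (hN _ _ hx), rho_rho_inv]
    simp only [h1, Finset.sum_const, Finset.card_univ]
    rw [← Nat.cast_smul_eq_nsmul F, smul_smul, inv_mul_cancel₀ hG, one_smul]
  have hQcomm : ∀ h x, Q (ρ h x) = ρ h (Q x) := by
    intro h x
    rw [hQapp, hQapp, map_smul, map_sum]
    congr 1
    refine (Equiv.sum_comp (Equiv.mulLeft h) (fun g => ρ g (π (ρ g⁻¹ (ρ h x))))).symm.trans ?_
    refine Finset.sum_congr rfl fun g _ => ?_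
    have e : ρ (h * g)⁻¹ (ρ h x) = ρ g⁻¹ x := by
      rw [mul_inv_rev, map_mul, Module.End.mul_apply, rho_inv_rho]
    show ρ (h * g) (π (ρ (h * g)⁻¹ (ρ h x))) = _
    rw [e, map_mul]
    rfl
  let f : V →ₗ[F] N := Q.codRestrict N hQN
  have hf : ∀ x : N, f x = x := by
    intro x
    apply Subtype.ext
    exact hQid x x.2
  refine ⟨LinearMap.ker f, LinearMap.isCompl_of_proj hf, ?_⟩
  intro g y hy
  rw [LinearMap.mem_ker] at hy ⊢
  apply Subtype.ext
  show Q (ρ g y) = 0
  rw [hQcomm]
  have : Q y = 0 := congrArg Subtype.val hy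
  rw [this, map_zero]

/-- The characteristic two core. -/
theorem alt_exists [Fintype G] (h2 : ∀ c : F, c + c = 0) (hodd : ((Fintype.card G : ℕ) : F) = 1) :
    ∀ (n : ℕ) (D : Type u) [AddCommGroup D] [Module F D] [FiniteDimensional F D]
      (ρ : Representation F G D) (B : LinearMap.BilinForm F D),
      (∀ x, (∀ y, B x y = 0) → x = 0) → (∀ g x y, B (ρ g x) (ρ g y) = B x y) →
      (∀ x, (∀ g, ρ g x = x) → x = 0) → finrank F D = n →
      ∃ A : LinearMap.BilinForm F D, (∀ x, A x x = 0) ∧ (∀ g x y, A (ρ g x) (ρ g y) = A x y) ∧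
        (∀ x, (∀ y, A x y = 0) → x = 0) := by
  classical
  intro n
  induction n using Nat.strong_induction_on with
  | _ n ih =>
  intro D _ _ _ ρ B hL hinv hfree hn
  have hR := sepRight B hL
  have hB : B.Nondegenerate := ⟨hL, hR⟩
  have hGne : ((Fintype.card G : ℕ) : F) ≠ 0 := by
    rw [hodd]
    exact one_ne_zero
  have hvv : ∀ x : D, x + x = 0 := by
    intro x
    have h1 := h2 1
    calc x + x = (1 + 1 : F) • x := by rw [add_smul, one_smul]
      _ = 0 := by rw [h1, zero_smul]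
  let τ : D →ₗ[F] D := B.flip.symmCompOfNondegenerate B hB
  have hτ : ∀ x y, B (τ x) y = B y x := fun x y =>
    LinearMap.BilinForm.symmCompOfNondegenerate_left_apply _ hB y x
  have hτρ : ∀ g x, τ (ρ g x) = ρ g (τ x) := by
    intro g x
    rw [← sub_eq_zero]
    apply hL
    intro y
    rw [map_sub, LinearMap.sub_apply, hτ, sub_eq_zero]
    have h1 := hinv g (τ x) (ρ g⁻¹ y)
    rw [rho_rho_inv] at h1
    rw [h1, hτ]
    have h3 := hinv g (ρ g⁻¹ y) x
    rw [rho_rho_inv] at h3
    exact h3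
  let a : D →ₗ[F] D := LinearMap.id + τ
  have haapp : ∀ x, a x = x + τ x := fun x => rfl
  have hKmem : ∀ x, x ∈ LinearMap.ker a ↔ τ x = x := by
    intro x
    rw [LinearMap.mem_ker, haapp]
    constructor
    · intro h
      have h3 := hvv x
      have h4 : τ x = - x := eq_neg_of_add_eq_zero_right h
      rw [h4]
      exact (eq_neg_of_add_eq_zero_left h3).symm
    · intro h
      rw [h, hvv]
  let K := LinearMap.ker a
  by_cases hK0 : K = ⊥
  · refine ⟨B + B.flip, ?_, ?_, ?_⟩
    · intro x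
      exact h2 (B x x)
    · intro g x y
      show B (ρ g x) (ρ g y) + B (ρ g y) (ρ g x) = B x y + B y x
      rw [hinv, hinv]
    · intro x hx
      have h1 : a x = 0 := by
        apply hL
        intro y
        rw [haapp, map_add, LinearMap.add_apply, hτ]
        exact hx y
      have h3 : x ∈ K := h1
      rw [hK0] at h3
      exact (Submodule.mem_bot F).1 h3
  -- the symmetric part
  have hsym : ∀ x ∈ K, ∀ y, B x y = B y x := by
    intro x hx y
    have h1 : τ x = x := (hKmem x).1 hx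
    calc B x y = B (τ x) y := by rw [h1]
      _ = B y x := hτ x y
  have hKinv : ∀ g, ∀ x ∈ K, ρ g x ∈ K := by
    intro g x hx
    rw [show (ρ g x ∈ K) = (ρ g x ∈ LinearMap.ker a) from rfl, hKmem, hτρ, (hKmem x).1 hx]
  have hq0 : ∀ x ∈ K, B x x = 0 := by
    intro x hx
    have hT : ∀ T : Finset G, (∑ g ∈ T, ρ g x) ∈ K ∧
        B (∑ g ∈ T, ρ g x) (∑ g ∈ T, ρ g x) = ((T.card : ℕ) : F) * B x x := by
      intro T
      induction T using Finset.induction_on with
      | empty => simp [K]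
      | insert g T hg ih' =>
        obtain ⟨h5, h6⟩ := ih'
        rw [Finset.sum_insert hg, Finset.card_insert_of_notMem hg]
        refine ⟨K.add_mem (hKinv g x hx) h5, ?_⟩
        set w := ∑ g ∈ T, ρ g x
        have h7 : B (ρ g x + w) (ρ g x + w) = B (ρ g x) (ρ g x) + B w w + (B (ρ g x) w + B (ρ g x) w) := by
          simp only [map_add, LinearMap.add_apply]
          rw [hsym w h5 (ρ g x)]
          ring
        rw [h7, h2, add_zero, hinv, h6]
        push_cast
        ring
    have hs := hT Finset.univ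
    rw [Finset.card_univ, hodd, one_mul] at hs
    have hs0 : ∑ g : G, ρ g x = 0 := by
      apply hfree
      intro h
      rw [map_sum]
      refine Eq.trans ?_ (Equiv.sum_comp (Equiv.mulLeft h) (fun g => ρ g x))
      refine Finset.sum_congr rfl fun g _ => ?_
      show ρ h (ρ g x) = ρ (h * g) x
      rw [map_mul]
      rfl
    rw [← hs.2, hs0]
    simp
  have hdual : ∀ W : Submodule F D, (∀ g, ∀ x ∈ W, ρ g x ∈ W) → ∀ g, ∀ y ∈ B.orthogonal W, ρ g y ∈ B.orthogonal W := by
    intro W hW g y hy z hz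
    have h1 := hy (ρ g⁻¹ z) (hW _ _ hz)
    have h3 := hinv g (ρ g⁻¹ z) y
    rw [rho_rho_inv] at h3
    show B z (ρ g y) = 0
    rw [h3]
    exact h1
  have hfin := fun W : Submodule F D => LinearMap.BilinForm.finrank_orthogonal hB W
  have hle := fun W : Submodule F D => Submodule.finrank_le W
  let R := K ⊓ B.orthogonal K
  by_cases hR0 : R = ⊥
  · -- the radical vanishes
    let P := B.orthogonal K
    have hPinv := hdual K hKinv
    have hcompl : IsCompl K P := by
      refine IsCompl.mk (disjoint_iff.2 hR0) (codisjoint_iff.2 ?_)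
      apply Submodule.eq_top_of_finrank_eq
      have h1 := Submodule.finrank_sup_add_finrank_inf_eq K P
      have h3 : K ⊓ P = ⊥ := hR0
      rw [h3, finrank_bot, add_zero, hfin K] at h1
      have := hle K
      omega
    have hKpos : 0 < finrank F K := Module.finrank_pos_iff_exists_ne_zero.2 (by
      obtain ⟨x, hx, hx0⟩ := (Submodule.ne_bot_iff K).1 hK0
      exact ⟨⟨x, hx⟩, fun h => hx0 (congrArg Subtype.val h)⟩)
    have hPR : ∀ y : P, (∀ x : P, (B.restrict P) x y = 0) → y = 0 := by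
      intro y hy
      apply Subtype.ext
      apply hR
      intro z
      obtain ⟨k, hk, p, hp, rfl⟩ := Submodule.mem_sup.1 (show z ∈ K ⊔ P by
        rw [hcompl.sup_eq_top]
        exact Submodule.mem_top)
      rw [map_add, LinearMap.add_apply]
      have h5 : B p y = 0 := hy ⟨p, hp⟩
      have h6 : B k y = 0 := y.2 k hk
      rw [h6, h5, add_zero]
    obtain ⟨A₁, a1, a2, a3⟩ := ih (finrank F P) (by
      have h5 : finrank F P = finrank F D - finrank F K := hfin K
      have := hle K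
      omega) P (subrep ρ P hPinv) (B.restrict P) (sepLeft _ hPR)
      (fun g x y => hinv g x y)
      (fun x hx => Subtype.ext (hfree x fun g => congrArg Subtype.val (hx g))) rfl
    obtain ⟨πK, k1, k2, k3, k4⟩ := exists_proj K P hcompl
    let pP : D →ₗ[F] P := (LinearMap.id - πK).codRestrict P k4
    have hpPapp : ∀ x, ((pP x : P) : D) = x - πK x := fun x => rfl
    have hcommK := proj_comm k1 k2 k3 k4
    refine ⟨(B.compl₁₂ πK πK) + A₁.compl₁₂ pP pP, ?_, ?_, ?_⟩
    · intro x
      show B (πK x) (πK x) + A₁ (pP x) (pP x) = 0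
      rw [hq0 _ (k1 x), a1, add_zero]
    · intro g x y
      show B (πK (ρ g x)) (πK (ρ g y)) + A₁ (pP (ρ g x)) (pP (ρ g y)) = B (πK x) (πK y) + A₁ (pP x) (pP y)
      have hc := fun z => hcommK (ρ g) (fun x hx => hKinv g x hx) (fun x hx => hPinv g x hx) z
      have hp : ∀ z, pP (ρ g z) = subrep ρ P hPinv g (pP z) := by
        intro z
        apply Subtype.ext
        rw [subrep_apply, hpPapp, hpPapp, hc, map_sub]
      rw [hc, hc, hinv, hp, hp, a2]
    · intro x hx
      have hxk : πK x = 0 := by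
        by_contra hne
        have hxp : πK x ∈ P := by
          intro k hk
          have := hx k
          have h5 : B (πK x) (πK k) + A₁ (pP x) (pP k) = 0 := this
          have h6 : pP k = 0 := by
            apply Subtype.ext
            rw [hpPapp, k2 k hk, sub_self]
            rfl
          rw [h6, map_zero, add_zero, k2 k hk] at h5
          show B k (πK x) = 0
          rw [hsym k hk]
          exact h5
        have : πK x ∈ R := ⟨k1 x, hxp⟩
        rw [hR0] at this
        exact hne ((Submodule.mem_bot F).1 this)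
      have hxp : pP x = 0 := by
        apply a3
        intro y
        have h5 := hx y
        have h6 : B (πK x) (πK y) + A₁ (pP x) (pP y) = 0 := h5
        rw [hxk, map_zero, LinearMap.zero_apply, zero_add] at h6
        have h7 : pP (y : D) = y := by
          apply Subtype.ext
          rw [hpPapp, k3 _ y.2, sub_zero]
        have h8 := hx y
        have h9 : B (πK x) (πK (y : D)) + A₁ (pP x) (pP (y : D)) = 0 := h8
        rw [hxk, map_zero, LinearMap.zero_apply, zero_add, h7] at h9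
        exact h9
      have h5 : x - πK x = 0 := congrArg Subtype.val hxp
      rw [hxk, sub_zero] at h5
      exact h5
  -- the radical does not vanish: a hyperbolic part
  let X := R
  have hXK : X ≤ K := inf_le_left
  have hXinv : ∀ g, ∀ x ∈ X, ρ g x ∈ X := fun g x hx => ⟨hKinv g x hx.1, hdual K hKinv g x hx.2⟩
  let P₁ := B.orthogonal X
  have hP₁inv := hdual X hXinv
  have hXP₁ : X ≤ P₁ := by
    intro x hx x' hx'
    exact hx.2 x' hx'.1
  obtain ⟨X', hX', hX'inv⟩ := maschke hGne ρ X hXinv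
  obtain ⟨Z, hZ, hZinv⟩ := maschke hGne ρ P₁ hP₁inv
  obtain ⟨πZ₀, z1, z2, z3, z4⟩ := exists_proj Z P₁ hZ.symm
  obtain ⟨πX₀, x1, x2, x3, x4⟩ := exists_proj X X' hX'
  let Y := P₁ ⊓ X'
  have hYinv : ∀ g, ∀ y ∈ Y, ρ g y ∈ Y := fun g y hy => ⟨hP₁inv g y hy.1, hX'inv g y hy.2⟩
  have hXpos : 0 < finrank F X := Module.finrank_pos_iff_exists_ne_zero.2 (by
    obtain ⟨x, hx, hx0⟩ := (Submodule.ne_bot_iff X).1 hR0
    exact ⟨⟨x, hx⟩, fun h => hx0 (congrArg Subtype.val h)⟩)
  have hX'c := Submodule.finrank_add_eq_of_isCompl hX'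
  have hYlt : finrank F Y < n := by
    have h1 : finrank F Y ≤ finrank F X' := Submodule.finrank_mono inf_le_right
    omega
  -- the double orthogonal
  have horth : B.orthogonal P₁ = X := by
    symm
    apply Submodule.eq_of_le_of_finrank_eq
    · intro x hx n' hn'
      show B n' x = 0
      rw [← hsym x (hXK hx)]
      exact hn' x hx
    · rw [hfin P₁, show finrank F P₁ = _ from hfin X]
      have := hle X
      omega
  have hYR : ∀ y : Y, (∀ x : Y, (B.restrict Y) x y = 0) → y = 0 := by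
    intro y hy
    apply Subtype.ext
    have hmem : (y : D) ∈ B.orthogonal P₁ := by
      intro n' hn'
      have e : n' = πX₀ n' + (n' - πX₀ n') := by abel
      show B n' y = 0
      rw [e, map_add, LinearMap.add_apply]
      have hY' : n' - πX₀ n' ∈ Y := ⟨P₁.sub_mem hn' (hXP₁ (x1 n')), x4 n'⟩
      have h5 : B (n' - πX₀ n') y = 0 := hy ⟨_, hY'⟩
      have h6 : B (πX₀ n') y = 0 := y.2.1 _ (x1 n')
      rw [h6, h5, add_zero]
    rw [horth] at hmem
    have : (y : D) ∈ X ⊓ X' := ⟨hmem, y.2.2⟩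
    rw [hX'.inf_eq_bot] at this
    exact (Submodule.mem_bot F).1 this
  obtain ⟨A₁, a1, a2, a3⟩ := ih (finrank F Y) hYlt Y (subrep ρ Y hYinv) (B.restrict Y) (sepLeft _ hYR)
    (fun g x y => hinv g x y)
    (fun x hx => Subtype.ext (hfree x fun g => congrArg Subtype.val (hx g))) rfl
  let pX : D →ₗ[F] D := πX₀.comp (LinearMap.id - πZ₀)
  have hpXapp : ∀ v, pX v = πX₀ (v - πZ₀ v) := fun v => rfl
  have hP₁mem : ∀ v, v - πZ₀ v ∈ P₁ := z4
  let py₀ : D →ₗ[F] D := (LinearMap.id - πZ₀) - pX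
  have hpy₀ : ∀ v, py₀ v ∈ Y := by
    intro v
    refine ⟨P₁.sub_mem (hP₁mem v) (hXP₁ (x1 _)), ?_⟩
    exact x4 _
  let pY : D →ₗ[F] Y := py₀.codRestrict Y hpy₀
  have hpYapp : ∀ v, ((pY v : Y) : D) = v - πZ₀ v - pX v := fun v => rfl
  have hcZ := fun g z => proj_comm z1 z2 z3 z4 (ρ g) (fun x hx => hZinv g x hx) (fun x hx => hP₁inv g x hx) z
  have hcX := fun g z => proj_comm x1 x2 x3 x4 (ρ g) (fun x hx => hXinv g x hx) (fun x hx => hX'inv g x hx) z
  have hcpX : ∀ g v, pX (ρ g v) = ρ g (pX v) := by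
    intro g v
    rw [hpXapp, hpXapp, hcZ, ← map_sub, hcX]
  have hcpY : ∀ g v, pY (ρ g v) = subrep ρ Y hYinv g (pY v) := by
    intro g v
    apply Subtype.ext
    rw [subrep_apply, hpYapp, hpYapp, hcZ, hcpX, map_sub, map_sub]
  refine ⟨A₁.compl₁₂ pY pY + B.compl₁₂ pX πZ₀ + (B.compl₁₂ pX πZ₀).flip, ?_, ?_, ?_⟩
  · intro x
    show A₁ (pY x) (pY x) + B (pX x) (πZ₀ x) + B (pX x) (πZ₀ x) = 0
    rw [a1, zero_add]
    exact h2 _
  · intro g x y
    show A₁ (pY (ρ g x)) (pY (ρ g y)) + B (pX (ρ g x)) (πZ₀ (ρ g y)) + B (pX (ρ g y)) (πZ₀ (ρ g x)) =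
      A₁ (pY x) (pY y) + B (pX x) (πZ₀ y) + B (pX y) (πZ₀ x)
    rw [hcpY, hcpY, a2, hcpX, hcpX, hcZ, hcZ, hinv, hinv]
  · intro v hv
    have hvapp : ∀ w, A₁ (pY v) (pY w) + B (pX v) (πZ₀ w) + B (pX w) (πZ₀ v) = 0 := hv
    have hpXZ : ∀ w ∈ Z, pX w = 0 ∧ pY w = 0 := by
      intro w hw
      have h5 : pX w = 0 := by
        rw [hpXapp, z2 w hw, sub_self, map_zero]
      refine ⟨h5, ?_⟩
      apply Subtype.ext
      rw [hpYapp, z2 w hw, sub_self, h5, sub_zero]
      rfl
    have hpXX : ∀ w ∈ X, pX w = w ∧ πZ₀ w = 0 ∧ pY w = 0 := by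
      intro w hw
      have h6 : πZ₀ w = 0 := z3 w (hXP₁ hw)
      have h5 : pX w = w := by
        rw [hpXapp, h6, sub_zero, x2 w hw]
      refine ⟨h5, h6, ?_⟩
      apply Subtype.ext
      rw [hpYapp, h6, h5, sub_zero, sub_self]
      rfl
    have hpXY : ∀ w : Y, pX w = 0 ∧ πZ₀ w = 0 ∧ pY w = w := by
      intro w
      have h6 : πZ₀ (w : D) = 0 := z3 _ w.2.1
      have h5 : pX (w : D) = 0 := by
        rw [hpXapp, h6, sub_zero, x3 _ w.2.2]
      refine ⟨h5, h6, ?_⟩
      apply Subtype.ext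
      rw [hpYapp, h6, h5, sub_zero, sub_zero]
    -- the three components vanish
    have hvX : pX v = 0 := by
      apply hL
      intro w
      have e : w = πZ₀ w + (w - πZ₀ w) := by abel
      have h5 := hvapp (πZ₀ w)
      obtain ⟨h6, h7⟩ := hpXZ _ (z1 w)
      rw [h6, h7, z2 _ (z1 w), map_zero, map_zero, LinearMap.zero_apply, zero_add, add_zero] at h5
      have h8 : B (pX v) (w - πZ₀ w) = 0 := z4 w _ (x1 _)
      rw [e, map_add, h5, h8, add_zero]
    have hvZ : πZ₀ v = 0 := by
      have hmem : πZ₀ v ∈ P₁ := by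
        intro x hx
        have h5 := hvapp x
        obtain ⟨h6, h7, h8⟩ := hpXX x hx
        rw [h6, h7, h8, map_zero, map_zero, zero_add, zero_add] at h5
        exact h5
      have : πZ₀ v ∈ P₁ ⊓ Z := ⟨hmem, z1 v⟩
      rw [hZ.inf_eq_bot] at this
      exact (Submodule.mem_bot F).1 this
    have hvY : pY v = 0 := by
      apply a3
      intro y
      have h5 := hvapp y
      obtain ⟨h6, h7, h8⟩ := hpXY y
      rw [h6, h7, h8, hvX, map_zero, map_zero, LinearMap.zero_apply, add_zero, add_zero] at h5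
      exact h5
    have h9 : v - πZ₀ v - pX v = 0 := congrArg Subtype.val hvY
    rw [hvX, hvZ, sub_zero, sub_zero] at h9
    exact h9

end Cfsg.Agent.Lib.SelfDualSplit
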