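/-
Splitting of self-dual coprime modules over a field: the assembly.
-/
import Mathlib
import Cfsg.Agent.Lib.SelfDualSplit

set_option autoImplicit false
set_option linter.all false

open Module
open Cfsg.Agent.Lib.SelfDualSplit

namespace Cfsg.Agent.Lib.SelfDualSplit2

universe u v w

variable {F : Type v} [Field F] {G : Type w} [Group G]
variable {V : Type u} [AddCommGroup V] [Module F V] [FiniteDimensional F V]

/-- The case where `2` is invertible. -/
theorem odd_case (h2ne : (2 : F) ≠ 0) (ρ : Representation F G V) (B : LinearMap.BilinForm F V)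
    (hB : B.Nondegenerate) (hinv : ∀ g : G, ∀ x y : V, B (ρ g x) (ρ g y) = B x y) :
    ∃ U W : Submodule F V, IsCompl U W ∧ (∀ g : G, ∀ u ∈ U, ρ g u ∈ U) ∧ (∀ g : G, ∀ w ∈ W, ρ g w ∈ W) ∧
      (∃ A : LinearMap.BilinForm F V, (∀ x : V, A x x = 0) ∧
        (∀ g : G, ∀ x ∈ U, ∀ y ∈ U, A (ρ g x) (ρ g y) = A x y) ∧ (∀ x ∈ U, (∀ y ∈ U, A x y = 0) → x = 0)) ∧
      (∃ S : LinearMap.BilinForm F V, (∀ x y : V, S x y = S y x) ∧
        (∀ g : G, ∀ x ∈ W, ∀ y ∈ W, S (ρ g x) (ρ g y) = S x y) ∧ (∀ x ∈ W, (∀ y ∈ W, S x y = 0) → x = 0)) := by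
  classical
  have hL := hB.1
  have hR := hB.2
  let τ : Module.End F V := B.flip.symmCompOfNondegenerate B hB
  have hτ : ∀ x y, B (τ x) y = B y x := fun x y =>
    LinearMap.BilinForm.symmCompOfNondegenerate_left_apply _ hB y x
  have hτinv : ∀ x y, B (τ x) (τ y) = B x y := fun x y => by rw [hτ, hτ]
  have hτinj : Function.Injective τ := by
    rw [injective_iff_map_eq_zero]
    intro x hx
    apply hR
    intro y
    rw [← hτ, hx, map_zero, LinearMap.zero_apply]
  have hτρ : ∀ g x, τ (ρ g x) = ρ g (τ x) := by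
    intro g x
    rw [← sub_eq_zero]
    apply hL
    intro y
    rw [map_sub, LinearMap.sub_apply, hτ, sub_eq_zero]
    have h1 := hinv g (τ x) (ρ g⁻¹ y)
    rw [rho_rho_inv] at h1
    rw [h1, hτ]
    have h3 := hinv g (ρ g⁻¹ y) x
    rw [rho_rho_inv] at h3
    exact h3
  let a : Module.End F V := 1 + τ
  have haapp : ∀ x, a x = x + τ x := fun x => rfl
  have hat : Commute a τ := by
    show (1 + τ) * τ = τ * (1 + τ)
    rw [add_mul, mul_add, one_mul, mul_one]
  obtain ⟨N, hNc, hN1⟩ := ((LinearMap.eventually_isCompl_ker_pow_range_pow a).and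
    (Filter.eventually_ge_atTop 1)).exists
  let U := (a ^ N).ker
  let W := (a ^ N).range
  have hacρ : ∀ g, Commute a (ρ g) := by
    intro g
    ext x
    show a (ρ g x) = ρ g (a x)
    rw [haapp, haapp, map_add, hτρ]
  have hpowc : ∀ g x, (a ^ N) (ρ g x) = ρ g ((a ^ N) x) := by
    intro g x
    have := ((hacρ g).pow_left N).eq
    exact congrArg (fun T : Module.End F V => T x) this
  have hpowτ : ∀ (k : ℕ) x, (a ^ k) (τ x) = τ ((a ^ k) x) := by
    intro k x
    have := (hat.pow_left k).eq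
    exact congrArg (fun T : Module.End F V => T x) this
  have hτpow : ∀ (k : ℕ) x, (a ^ k) ((τ ^ k) x) = (τ ^ k) ((a ^ k) x) := by
    intro k x
    have := (hat.pow_pow k k).eq
    exact congrArg (fun T : Module.End F V => T x) this
  -- the adjoint relation
  have hadj1 : ∀ x y, B (a x) (τ y) = B x (a y) := by
    intro x y
    rw [haapp, haapp, map_add, map_add, LinearMap.add_apply, hτinv, add_comm]
  have hadj : ∀ (k : ℕ) x y, B ((a ^ k) x) ((τ ^ k) y) = B x ((a ^ k) y) := by
    intro k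
    induction k with
    | zero => intro x y; rfl
    | succ k ih =>
      intro x y
      have e1 : (a ^ (k + 1)) x = (a ^ k) (a x) := by
        rw [pow_succ]
        rfl
      have e2 : (τ ^ (k + 1)) y = (τ ^ k) (τ y) := by
        rw [pow_succ]
        rfl
      have e3 : (a ^ (k + 1)) y = a ((a ^ k) y) := by
        rw [pow_succ']
        rfl
      rw [e1, e2, ih, hpowτ, hadj1, e3]
  have hτNinj : Function.Injective (τ ^ N) := by
    rw [Module.End.coe_pow]
    exact hτinj.iterate N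
  have hτNsurj : Function.Surjective (τ ^ N) := LinearMap.injective_iff_surjective.1 hτNinj
  have C1 : ∀ x, ∀ y ∈ U, B ((a ^ N) x) y = 0 := by
    intro x y hy
    obtain ⟨y₀, rfl⟩ := hτNsurj y
    have h1 : (a ^ N) ((τ ^ N) y₀) = 0 := hy
    rw [hτpow] at h1
    have h2 : (a ^ N) y₀ = 0 := hτNinj (by rw [h1, map_zero])
    rw [hadj, h2, map_zero]
  have C2 : ∀ u ∈ U, ∀ w ∈ W, B u w = 0 := by
    rintro u hu _ ⟨z, rfl⟩
    rw [← hτ, ← hpowτ]
    exact C1 _ u hu
  have hsup : ∀ y : V, ∃ u ∈ U, ∃ w ∈ W, u + w = y := fun y =>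
    Submodule.mem_sup.1 (by
      rw [hNc.sup_eq_top]
      exact Submodule.mem_top)
  refine ⟨U, W, hNc, ?_, ?_, ⟨B - B.flip, ?_, ?_, ?_⟩, ⟨B + B.flip, ?_, ?_, ?_⟩⟩
  · intro g u hu
    show (a ^ N) (ρ g u) = 0
    rw [hpowc]
    have h1 : (a ^ N) u = 0 := hu
    rw [h1, map_zero]
  · rintro g _ ⟨z, rfl⟩
    exact ⟨ρ g z, hpowc g z⟩
  · intro x
    show B x x - B x x = 0
    exact sub_self _
  · intro g x _ y _
    show B (ρ g x) (ρ g y) - B (ρ g y) (ρ g x) = B x y - B y x
    rw [hinv, hinv]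
  · intro x hx hxU
    have hb : x - τ x = 0 := by
      apply hL
      intro y
      obtain ⟨u, hu, w, hw, rfl⟩ := hsup y
      have hbU : x - τ x ∈ U := by
        show (a ^ N) (x - τ x) = 0
        rw [map_sub, hpowτ]
        have h1 : (a ^ N) x = 0 := hx
        rw [h1, map_zero, sub_zero]
      rw [map_add, C2 _ hbU w hw, add_zero, map_sub, LinearMap.sub_apply, hτ]
      exact hxU u hu
    have hτx : τ x = x := (sub_eq_zero.1 hb).symm
    have hpow2 : ∀ k : ℕ, (a ^ k) x = (2 : F) ^ k • x := by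
      intro k
      induction k with
      | zero => simp
      | succ k ih =>
        have e : (a ^ (k + 1)) x = (a ^ k) (a x) := by
          rw [pow_succ]
          rfl
        have e2 : a x = (2 : F) • x := by
          rw [haapp, hτx, two_smul]
        rw [e, e2, map_smul, ih, smul_smul, pow_succ, mul_comm]
    have h1 : (a ^ N) x = 0 := hx
    rw [hpow2, smul_eq_zero] at h1
    exact h1.resolve_left (pow_ne_zero _ h2ne)
  · intro x y
    show B x y + B y x = B y x + B x y
    exact add_comm _ _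
  · intro g x _ y _
    show B (ρ g x) (ρ g y) + B (ρ g y) (ρ g x) = B x y + B y x
    rw [hinv, hinv]
  · intro x hx hxW
    have hax : a x = 0 := by
      apply hL
      intro y
      obtain ⟨u, hu, w, hw, rfl⟩ := hsup y
      obtain ⟨z, rfl⟩ := hx
      have h1 : a ((a ^ N) z) = (a ^ N) (a z) := by
        have := (Commute.pow_right (Commute.refl a) N).eq
        exact congrArg (fun T : Module.End F V => T z) this
      have h5 : B (a ((a ^ N) z)) u = 0 := by
        rw [h1]
        exact C1 _ u hu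
      have h6 : B (a ((a ^ N) z)) w = 0 := by
        rw [haapp, map_add, LinearMap.add_apply, hτ]
        exact hxW w hw
      rw [map_add (B (a ((a ^ N) z))) u w, h5, h6, add_zero]
    have hxU : x ∈ U := by
      show (a ^ N) x = 0
      obtain ⟨M, rfl⟩ : ∃ M, N = M + 1 := ⟨N - 1, by omega⟩
      rw [pow_succ]
      show (a ^ M) (a x) = 0
      rw [hax, map_zero]
    have : x ∈ U ⊓ W := ⟨hxU, hx⟩
    rw [hNc.inf_eq_bot] at this
    exact (Submodule.mem_bot F).1 this

/-- The case of characteristic two. -/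
theorem even_case [Fintype G] (h2 : ∀ c : F, c + c = 0) (hodd : ((Fintype.card G : ℕ) : F) = 1)
    (ρ : Representation F G V) (B : LinearMap.BilinForm F V)
    (hB : B.Nondegenerate) (hinv : ∀ g : G, ∀ x y : V, B (ρ g x) (ρ g y) = B x y) :
    ∃ U W : Submodule F V, IsCompl U W ∧ (∀ g : G, ∀ u ∈ U, ρ g u ∈ U) ∧ (∀ g : G, ∀ w ∈ W, ρ g w ∈ W) ∧
      (∃ A : LinearMap.BilinForm F V, (∀ x : V, A x x = 0) ∧
        (∀ g : G, ∀ x ∈ U, ∀ y ∈ U, A (ρ g x) (ρ g y) = A x y) ∧ (∀ x ∈ U, (∀ y ∈ U, A x y = 0) → x = 0)) ∧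
      (∃ S : LinearMap.BilinForm F V, (∀ x y : V, S x y = S y x) ∧
        (∀ g : G, ∀ x ∈ W, ∀ y ∈ W, S (ρ g x) (ρ g y) = S x y) ∧ (∀ x ∈ W, (∀ y ∈ W, S x y = 0) → x = 0)) ∧
      (∀ g : G, ∀ w ∈ W, ρ g w = w) := by
  classical
  have hL := hB.1
  have hGne : ((Fintype.card G : ℕ) : F) ≠ 0 := by
    rw [hodd]
    exact one_ne_zero
  let C : Submodule F V :=
    { carrier := {x | ∀ g, ρ g x = x}
      add_mem' := fun {a b} ha hb g => by rw [map_add, ha g, hb g]
      zero_mem' := fun g => map_zero _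
      smul_mem' := fun c x hx g => by rw [map_smul, hx g] }
  have hCinv : ∀ g, ∀ y ∈ C, ρ g y ∈ C := by
    intro g y hy h
    rw [hy g, hy h]
  obtain ⟨D, hCD, hDinv⟩ := maschke hGne ρ C hCinv
  have hfreeD : ∀ x ∈ D, (∀ g, ρ g x = x) → x = 0 := by
    intro x hx hfix
    have : x ∈ C ⊓ D := ⟨hfix, hx⟩
    rw [hCD.inf_eq_bot] at this
    exact (Submodule.mem_bot F).1 this
  have hsum0 : ∀ d ∈ D, ∑ g : G, ρ g d = 0 := by
    intro d hd
    apply hfreeD _ (Submodule.sum_mem _ fun g _ => hDinv g d hd)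
    intro h
    rw [map_sum]
    refine Eq.trans ?_ (Equiv.sum_comp (Equiv.mulLeft h) (fun g => ρ g d))
    refine Finset.sum_congr rfl fun g _ => ?_
    show ρ h (ρ g d) = ρ (h * g) d
    rw [map_mul]
    rfl
  have hBDC : ∀ d ∈ D, ∀ c ∈ C, B d c = 0 := by
    intro d hd c hc
    have h1 : B (∑ g : G, ρ g d) c = B d c := by
      rw [map_sum, LinearMap.sum_apply]
      have h3 : ∀ g : G, B (ρ g d) c = B d c := by
        intro g
        have := hinv g d c
        rwa [hc g] at this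
      simp only [h3, Finset.sum_const, Finset.card_univ]
      rw [← Nat.cast_smul_eq_nsmul F, hodd, one_smul]
    rw [← h1, hsum0 d hd, map_zero, LinearMap.zero_apply]
  have hsup : ∀ y : V, ∃ c ∈ C, ∃ d ∈ D, c + d = y := fun y =>
    Submodule.mem_sup.1 (by
      rw [hCD.sup_eq_top]
      exact Submodule.mem_top)
  obtain ⟨A₁, a1, a2, a3⟩ := alt_exists h2 hodd (finrank F D) D (subrep ρ D hDinv) (B.restrict D)
    (by
      intro x hx
      apply Subtype.ext
      apply hL
      intro y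
      obtain ⟨c, hc, d, hd, rfl⟩ := hsup y
      rw [map_add, hBDC x x.2 c hc, zero_add]
      exact hx ⟨d, hd⟩)
    (fun g x y => hinv g x y)
    (fun x hx => Subtype.ext (hfreeD x x.2 fun g => congrArg Subtype.val (hx g))) rfl
  let πD : V →ₗ[F] D := Submodule.linearProjOfIsCompl D C hCD.symm
  have hπD : ∀ x (hx : x ∈ D), πD x = ⟨x, hx⟩ := fun x hx =>
    Submodule.linearProjOfIsCompl_apply_left hCD.symm ⟨x, hx⟩
  let πC : V →ₗ[F] C := Submodule.linearProjOfIsCompl C D hCD
  have hπC : ∀ x (hx : x ∈ C), πC x = ⟨x, hx⟩ := fun x hx =>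
    Submodule.linearProjOfIsCompl_apply_left hCD ⟨x, hx⟩
  let b := Module.finBasis F C
  let Si : LinearMap.BilinForm F V :=
    ∑ i, (LinearMap.mul F F).compl₁₂ ((b.coord i).comp πC) ((b.coord i).comp πC)
  have hSi : ∀ x y, Si x y = ∑ i, b.coord i (πC x) * b.coord i (πC y) := by
    intro x y
    simp [Si, LinearMap.sum_apply]
  refine ⟨D, C, hCD.symm, hDinv, hCinv, ⟨A₁.compl₁₂ πD πD, ?_, ?_, ?_⟩, ⟨Si, ?_, ?_, ?_⟩, ?_⟩
  · intro x
    exact a1 _
  · intro g x hx y hy
    show A₁ (πD (ρ g x)) (πD (ρ g y)) = A₁ (πD x) (πD y)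
    rw [hπD _ (hDinv g x hx), hπD _ (hDinv g y hy), hπD x hx, hπD y hy]
    exact a2 g ⟨x, hx⟩ ⟨y, hy⟩
  · intro x hx hxy
    have h1 : (⟨x, hx⟩ : D) = 0 := by
      apply a3
      intro y
      have h3 := hxy y y.2
      have h4 : A₁ (πD x) (πD (y : V)) = 0 := h3
      rw [hπD x hx, hπD _ y.2] at h4
      exact h4
    exact congrArg Subtype.val h1
  · intro x y
    rw [hSi, hSi]
    exact Finset.sum_congr rfl fun i _ => mul_comm _ _
  · intro g x hx y hy
    rw [hx g, hy g]
  · intro x hx hxy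
    have h1 : (⟨x, hx⟩ : C) = 0 := by
      apply b.ext_elem
      intro j
      have h3 := hxy (b j) (b j).2
      rw [hSi, hπC x hx, hπC _ (b j).2] at h3
      have h4 : ∀ i, b.coord i ((⟨(b j : V), (b j).2⟩ : C)) = if i = j then 1 else 0 := by
        intro i
        show b.coord i (b j) = _
        rw [Module.Basis.coord_apply, Module.Basis.repr_self, Finsupp.single_apply]
        by_cases hij : j = i
        · simp [hij]
        · simp [hij, Ne.symm hij]
      simp only [h4, mul_ite, mul_one, mul_zero, Finset.sum_ite_eq', Finset.mem_univ, if_true] at h3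
      simpa using h3
    exact congrArg Subtype.val h1
  · intro g w hw
    exact hw g

end Cfsg.Agent.Lib.SelfDualSplit2
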