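import Mathlib

/-! Explicit finite subgroups of `GL(2, p)` acting regularly on the nonzero vectors. -/

namespace Cfsg.Agent.Lib.SharpMat

set_option linter.style.haveILetI false

variable {p : ℕ} [hp : Fact p.Prime]

abbrev T (p : ℕ) := ZMod p × ZMod p × ZMod p × ZMod p

def toM (t : T p) : Matrix (Fin 2) (Fin 2) (ZMod p) := !![t.1, t.2.1; t.2.2.1, t.2.2.2]

def tmul (s t : T p) : T p :=
  (s.1 * t.1 + s.2.1 * t.2.2.1, s.1 * t.2.1 + s.2.1 * t.2.2.2,
    s.2.2.1 * t.1 + s.2.2.2 * t.2.2.1, s.2.2.1 * t.2.1 + s.2.2.2 * t.2.2.2)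

def tone : T p := (1, 0, 0, 1)

theorem toM_mul (s t : T p) : toM (tmul s t) = toM s * toM t := by
  simp only [toM, tmul, Matrix.mul_fin_two]

theorem toM_one : toM (tone : T p) = 1 := by
  simp only [toM, tone]
  ext i j
  fin_cases i <;> fin_cases j <;> simp

/-- The tuple of a matrix. -/
def ofM (m : Matrix (Fin 2) (Fin 2) (ZMod p)) : T p := (m 0 0, m 0 1, m 1 0, m 1 1)

theorem toM_ofM (m : Matrix (Fin 2) (Fin 2) (ZMod p)) : toM (ofM m) = m := by
  ext i j
  fin_cases i <;> fin_cases j <;> simp [toM, ofM]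

theorem ofM_toM (t : T p) : ofM (toM t) = t := by
  obtain ⟨a, b, c, d⟩ := t
  simp [toM, ofM]

/-- scalar multiple -/
def sm (c : ZMod p) (t : T p) : T p := (c * t.1, c * t.2.1, c * t.2.2.1, c * t.2.2.2)

def detT (t : T p) : ZMod p := t.1 * t.2.2.2 - t.2.1 * t.2.2.1

def closedB (gs E : List (T p)) : Bool := gs.all fun g => E.all fun t => E.contains (tmul g t)

def reachB (gs : List (T p)) : List (T p) → List (T p) → Bool
  | _, [] => true
  | seen, t :: l => (seen.any fun s => gs.any fun g => t == tmul g s) && reachB gs (t :: seen) l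

def fpfB (z : ZMod p) (m : ℕ) (E : List (T p)) : Bool :=
  E.all fun t => (List.range m).all fun k =>
    ((t == tone) && (k == 0)) ||
      (let s := sm (z ^ k) t
       decide ((s.1 - 1) * (s.2.2.2 - 1) - s.2.1 * s.2.2.1 ≠ 0))

def nodupB : List (T p) → Bool
  | [] => true
  | t :: l => !(l.contains t) && nodupB l

theorem nodupB_spec : ∀ l : List (T p), nodupB l = true → l.Nodup
  | [], _ => List.nodup_nil
  | t :: l, h => by
    simp only [nodupB, Bool.and_eq_true, Bool.not_eq_true'] at h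
    refine List.nodup_cons.2 ⟨fun hm => ?_, nodupB_spec l h.2⟩
    have h1 := h.1
    rw [List.contains_iff_mem.2 hm] at h1
    exact Bool.noConfusion h1

theorem tmul_sm (g : T p) (c : ZMod p) (t : T p) : tmul g (sm c t) = sm c (tmul g t) := by
  simp only [tmul, sm, Prod.mk.injEq]
  refine ⟨?_, ?_, ?_, ?_⟩ <;> ring

theorem tmul_sm_one (z : ZMod p) (t : T p) : tmul (sm z tone) t = sm z t := by
  simp only [tmul, sm, tone, Prod.mk.injEq]
  refine ⟨?_, ?_, ?_, ?_⟩ <;> ring

theorem sm_sm (a b : ZMod p) (t : T p) : sm a (sm b t) = sm (a * b) t := by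
  simp only [sm, Prod.mk.injEq]
  refine ⟨?_, ?_, ?_, ?_⟩ <;> ring

theorem sm_one (t : T p) : sm 1 t = t := by
  obtain ⟨a, b, c, d⟩ := t
  simp [sm]

theorem ofM_mul (x y : Matrix (Fin 2) (Fin 2) (ZMod p)) : ofM (x * y) = tmul (ofM x) (ofM y) := by
  rw [← ofM_toM (tmul _ _), toM_mul, toM_ofM, toM_ofM]

theorem main2 (S : Set (Matrix.GeneralLinearGroup (Fin 2) (ZMod p))) (gs : List (T p)) (t₀ : List (T p))
    (z : ZMod p) (m : ℕ) (hm : 0 < m)
    (hS : ∀ g ∈ S, ofM (g : Matrix (Fin 2) (Fin 2) (ZMod p)) ∈ gs ∨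
      ofM (g : Matrix (Fin 2) (Fin 2) (ZMod p)) = sm z tone)
    (hR : ∀ t ∈ gs, ∃ g ∈ S, (g : Matrix (Fin 2) (Fin 2) (ZMod p)) = toM t)
    (hRz : ∃ g ∈ Subgroup.closure S, (g : Matrix (Fin 2) (Fin 2) (ZMod p)) = toM (sm z tone))
    (hclosed : closedB gs (tone :: t₀) = true)
    (hreach : reachB gs [tone] t₀ = true)
    (hzm : z ^ m = 1)
    (hdet : ((tone :: t₀).all fun t => detT t == 1) = true)
    (hzinj : ∀ a b : Fin m, (z ^ 2) ^ (a : ℕ) = (z ^ 2) ^ (b : ℕ) → a = b)
    (hfpf : fpfB z m (tone :: t₀) = true)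
    (hnodup : nodupB (tone :: t₀) = true)
    (hcard' : (t₀.length + 1) * m = p ^ 2 - 1) :
    Nat.card (Subgroup.closure S) = p ^ 2 - 1 ∧
      ∀ v w : Fin 2 → ZMod p, v ≠ 0 → w ≠ 0 →
        ∃! h : Subgroup.closure S,
          Matrix.mulVec ((h : Matrix.GeneralLinearGroup (Fin 2) (ZMod p)) : Matrix (Fin 2) (Fin 2) (ZMod p)) v = w := by
  classical
  set H := Subgroup.closure S with hH
  set E := tone :: t₀ with hE
  have hz0 : z ≠ 0 := by
    intro h
    rw [h, zero_pow hm.ne'] at hzm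
    exact zero_ne_one hzm
  have hcl : ∀ g ∈ gs, ∀ t ∈ E, tmul g t ∈ E := by
    intro g hg t ht
    simp only [closedB, List.all_eq_true, List.contains_iff_mem] at hclosed
    exact hclosed g hg t ht
  let φ : H → T p := fun h => ofM ((h : Matrix.GeneralLinearGroup (Fin 2) (ZMod p)) : Matrix (Fin 2) (Fin 2) (ZMod p))
  have hφinj : Function.Injective φ := by
    intro a b hab
    apply Subtype.ext
    apply Units.ext
    have := congrArg toM hab
    simpa [φ, toM_ofM] using this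
  -- into
  have hinto : ∀ h : Matrix.GeneralLinearGroup (Fin 2) (ZMod p), h ∈ H →
      ∃ t ∈ E, ∃ k : Fin m, ofM (h : Matrix (Fin 2) (Fin 2) (ZMod p)) = sm (z ^ (k : ℕ)) t := by
    intro h hh
    have hmem : h ∈ Submonoid.closure S := by
      rw [← Subgroup.closure_toSubmonoid_of_finite]
      exact hh
    induction hmem using Submonoid.closure_induction_left with
    | one =>
      refine ⟨tone, List.mem_cons_self, ⟨0, hm⟩, ?_⟩
      rw [pow_zero, sm_one, Units.val_one, ← toM_one, ofM_toM]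
    | mul_left x hx y hy ih =>
      obtain ⟨t, ht, k, hk⟩ := ih (by
        rw [hH]
        exact (Subgroup.le_closure_toSubmonoid S hy))
      have h6 : ofM (((x * y : Matrix.GeneralLinearGroup (Fin 2) (ZMod p))) : Matrix (Fin 2) (Fin 2) (ZMod p)) =
          tmul (ofM (x : Matrix (Fin 2) (Fin 2) (ZMod p))) (ofM (y : Matrix (Fin 2) (Fin 2) (ZMod p))) := by
        rw [Units.val_mul, ofM_mul]
      rcases hS x hx with hxg | hxz
      · refine ⟨_, hcl _ hxg t ht, k, ?_⟩
        rw [h6, hk, tmul_sm]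
      · rw [h6, hk, hxz, tmul_sm_one, sm_sm]
        by_cases hk1 : (k : ℕ) + 1 < m
        · refine ⟨t, ht, ⟨(k : ℕ) + 1, hk1⟩, ?_⟩
          simp only [pow_succ]
          rw [mul_comm z]
        · refine ⟨t, ht, ⟨0, hm⟩, ?_⟩
          have h7 : (k : ℕ) + 1 = m := by have := k.2; omega
          have h8 : z * z ^ (k : ℕ) = 1 := by rw [← pow_succ', h7, hzm]
          rw [h8, pow_zero]
  -- reach
  have hreach' : ∀ (l seen : List (T p)), (∀ s ∈ seen, ∃ h ∈ H, (h : Matrix (Fin 2) (Fin 2) (ZMod p)) = toM s) →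
      reachB gs seen l = true → ∀ t ∈ l, ∃ h ∈ H, (h : Matrix (Fin 2) (Fin 2) (ZMod p)) = toM t := by
    intro l
    induction l with
    | nil =>
      intro seen _ _ t ht
      simp at ht
    | cons a l ih =>
      intro seen hseen hr t ht
      simp only [reachB, Bool.and_eq_true, List.any_eq_true, beq_iff_eq] at hr
      obtain ⟨⟨s, hs, g, hg, hga⟩, hr2⟩ := hr
      have ha : ∃ h ∈ H, (h : Matrix (Fin 2) (Fin 2) (ZMod p)) = toM a := by
        obtain ⟨y, hy, hys⟩ := hseen s hs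
        obtain ⟨x, hx, hxg⟩ := hR g hg
        refine ⟨x * y, H.mul_mem (Subgroup.subset_closure hx) hy, ?_⟩
        rw [hga, toM_mul, ← hxg, ← hys]
        rfl
      rcases List.mem_cons.1 ht with rfl | ht
      · exact ha
      · apply ih (a :: seen) _ hr2 t ht
        intro s' hs'
        rcases List.mem_cons.1 hs' with rfl | hs'
        · exact ha
        · exact hseen s' hs'
  have hone : ∃ h ∈ H, (h : Matrix (Fin 2) (Fin 2) (ZMod p)) = toM tone :=
    ⟨1, H.one_mem, by rw [toM_one]; rfl⟩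
  have honto₀ : ∀ t ∈ E, ∃ h ∈ H, (h : Matrix (Fin 2) (Fin 2) (ZMod p)) = toM t := by
    intro t ht
    rcases List.mem_cons.1 ht with rfl | ht
    · exact hone
    · apply hreach' t₀ [tone] _ hreach t ht
      intro s hs
      rw [List.mem_singleton] at hs
      rw [hs]
      exact hone
  obtain ⟨C, hC, hCz⟩ := hRz
  have hCk : ∀ k : ℕ, ∃ h ∈ H, (h : Matrix (Fin 2) (Fin 2) (ZMod p)) = toM (sm (z ^ k) tone) := by
    intro k
    induction k with
    | zero => rw [pow_zero, sm_one]; exact hone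
    | succ k ih =>
      obtain ⟨y, hy, hys⟩ := ih
      refine ⟨C * y, H.mul_mem hC hy, ?_⟩
      rw [Units.val_mul, hys, hCz, ← toM_mul, tmul_sm_one, sm_sm, pow_succ']
  have honto : ∀ t ∈ E, ∀ k : ℕ, ∃ h ∈ H, ofM (h : Matrix (Fin 2) (Fin 2) (ZMod p)) = sm (z ^ k) t := by
    intro t ht k
    obtain ⟨x, hx, hxk⟩ := hCk k
    obtain ⟨y, hy, hyt⟩ := honto₀ t ht
    refine ⟨x * y, H.mul_mem hx hy, ?_⟩
    rw [Units.val_mul, hxk, hyt, ofM_mul, ofM_toM, ofM_toM, tmul_sm_one]
  -- the parametrisation is injective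
  have hdet' : ∀ t ∈ E, detT t = 1 := by
    simpa only [List.all_eq_true, beq_iff_eq] using hdet
  have hdetsm : ∀ (c : ZMod p) (t : T p), detT (sm c t) = c ^ 2 * detT t := by
    intro c t
    simp only [detT, sm]
    ring
  let F : {t // t ∈ E} × Fin m → T p := fun x => sm (z ^ (x.2 : ℕ)) x.1
  have hFinj : Function.Injective F := by
    rintro ⟨⟨t, ht⟩, k⟩ ⟨⟨t', ht'⟩, k'⟩ hab
    have h1 : detT (sm (z ^ (k : ℕ)) t) = detT (sm (z ^ (k' : ℕ)) t') := congrArg detT hab
    rw [hdetsm, hdetsm, hdet' t ht, hdet' t' ht', mul_one, mul_one, ← pow_mul, ← pow_mul, mul_comm (k : ℕ),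
      mul_comm (k' : ℕ), pow_mul, pow_mul] at h1
    have hk : k = k' := hzinj k k' h1
    subst hk
    have h2 : sm (z ^ (k : ℕ)) t = sm (z ^ (k : ℕ)) t' := hab
    have h3 := congrArg (sm ((z ^ (k : ℕ))⁻¹)) h2
    have hzk : z ^ (k : ℕ) ≠ 0 := pow_ne_zero _ hz0
    rw [sm_sm, sm_sm, inv_mul_cancel₀ hzk, sm_one, sm_one] at h3
    subst h3
    rfl
  have hrange : Set.range φ = Set.range F := by
    ext u
    constructor
    · rintro ⟨h, rfl⟩
      obtain ⟨t, ht, k, hk⟩ := hinto h h.2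
      exact ⟨(⟨t, ht⟩, k), hk.symm⟩
    · rintro ⟨⟨⟨t, ht⟩, k⟩, rfl⟩
      obtain ⟨h, hh, hhk⟩ := honto t ht k
      exact ⟨⟨h, hh⟩, hhk⟩
  have hEnodup : E.Nodup := nodupB_spec E hnodup
  have hcard : Nat.card H = p ^ 2 - 1 := by
    rw [← Nat.card_range_of_injective hφinj, hrange, Nat.card_range_of_injective hFinj, Nat.card_prod]
    have h1 : Nat.card {t // t ∈ E} = E.length := by
      rw [Nat.card_eq_fintype_card, Fintype.card_of_subtype E.toFinset (by simp),
        List.toFinset_card_of_nodup hEnodup]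
    rw [h1, Nat.card_eq_fintype_card, Fintype.card_fin, ← hcard']
    simp [hE]
  refine ⟨hcard, ?_⟩
  -- fixed point freeness
  have hfpf' : ∀ t ∈ E, ∀ k : Fin m, (t = tone ∧ (k : ℕ) = 0) ∨
      (let s := sm (z ^ (k : ℕ)) t; (s.1 - 1) * (s.2.2.2 - 1) - s.2.1 * s.2.2.1 ≠ 0) := by
    intro t ht k
    simp only [fpfB, List.all_eq_true, Bool.or_eq_true, Bool.and_eq_true, beq_iff_eq, decide_eq_true_eq] at hfpf
    exact hfpf t ht k (List.mem_range.2 k.2)
  have hfp : ∀ h : H, ∀ v : Fin 2 → ZMod p, v ≠ 0 →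
      Matrix.mulVec ((h : Matrix.GeneralLinearGroup (Fin 2) (ZMod p)) : Matrix (Fin 2) (Fin 2) (ZMod p)) v = v → h = 1 := by
    intro h v hv hfix
    obtain ⟨t, ht, k, hk⟩ := hinto h h.2
    rcases hfpf' t ht k with ⟨rfl, hk0⟩ | hne
    · apply hφinj
      show ofM _ = ofM _
      rw [hk, hk0, pow_zero, sm_one, Subgroup.coe_one, Units.val_one, ← toM_one, ofM_toM]
    · exfalso
      set s := sm (z ^ (k : ℕ)) t with hs
      have h0 : ((h : Matrix.GeneralLinearGroup (Fin 2) (ZMod p)) : Matrix (Fin 2) (Fin 2) (ZMod p)) = toM s := by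
        rw [← hk, toM_ofM]
      rw [h0] at hfix
      have e0 := congrFun hfix 0
      have e1 := congrFun hfix 1
      simp only [toM, Matrix.mulVec, dotProduct, Fin.sum_univ_two] at e0 e1
      simp only [Matrix.of_apply, Matrix.cons_val_zero, Matrix.cons_val_one, Matrix.cons_val_fin_one, Matrix.cons_val'] at e0 e1
      have hd : ∀ u : ZMod p, ((s.1 - 1) * (s.2.2.2 - 1) - s.2.1 * s.2.2.1) * u = 0 → u = 0 := by
        intro u hu
        exact (mul_eq_zero.1 hu).resolve_left hne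
      apply hv
      ext i
      fin_cases i
      · apply hd
        show _ * v 0 = 0
        linear_combination (s.2.2.2 - 1) * e0 - s.2.1 * e1
      · apply hd
        show _ * v 1 = 0
        linear_combination (s.1 - 1) * e1 - s.2.2.1 * e0
  have hinj : ∀ v : Fin 2 → ZMod p, v ≠ 0 → ∀ a b : H,
      Matrix.mulVec ((a : Matrix.GeneralLinearGroup (Fin 2) (ZMod p)) : Matrix (Fin 2) (Fin 2) (ZMod p)) v =
      Matrix.mulVec ((b : Matrix.GeneralLinearGroup (Fin 2) (ZMod p)) : Matrix (Fin 2) (Fin 2) (ZMod p)) v → a = b := by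
    intro v hv a b hab
    have h1 := hfp (b⁻¹ * a) v hv (by
      have h2 : (((b⁻¹ * a : H) : Matrix.GeneralLinearGroup (Fin 2) (ZMod p)) : Matrix (Fin 2) (Fin 2) (ZMod p)) =
          (((b⁻¹ : H) : Matrix.GeneralLinearGroup (Fin 2) (ZMod p)) : Matrix (Fin 2) (Fin 2) (ZMod p)) *
            ((a : Matrix.GeneralLinearGroup (Fin 2) (ZMod p)) : Matrix (Fin 2) (Fin 2) (ZMod p)) := rfl
      rw [h2, ← Matrix.mulVec_mulVec, hab, Matrix.mulVec_mulVec]
      have h3 : (((b⁻¹ : H) : Matrix.GeneralLinearGroup (Fin 2) (ZMod p)) : Matrix (Fin 2) (Fin 2) (ZMod p)) *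
            ((b : Matrix.GeneralLinearGroup (Fin 2) (ZMod p)) : Matrix (Fin 2) (Fin 2) (ZMod p)) = 1 := by
        have : ((b⁻¹ * b : H) : Matrix.GeneralLinearGroup (Fin 2) (ZMod p)) = 1 := by simp
        exact congrArg Units.val this
      rw [h3, Matrix.one_mulVec])
    exact (inv_mul_eq_one.1 h1).symm
  intro v w hv hw
  have hcardV : Nat.card {u : Fin 2 → ZMod p // u ≠ 0} = p ^ 2 - 1 := by
    rw [Nat.card_eq_fintype_card, Fintype.card_subtype_compl]
    simp [ZMod.card]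
  let ψ : H → {u : Fin 2 → ZMod p // u ≠ 0} := fun h =>
    ⟨Matrix.mulVec ((h : Matrix.GeneralLinearGroup (Fin 2) (ZMod p)) : Matrix (Fin 2) (Fin 2) (ZMod p)) v, by
      intro h0
      apply hv
      have h1 : (((h⁻¹ : H) : Matrix.GeneralLinearGroup (Fin 2) (ZMod p)) : Matrix (Fin 2) (Fin 2) (ZMod p)) *
            ((h : Matrix.GeneralLinearGroup (Fin 2) (ZMod p)) : Matrix (Fin 2) (Fin 2) (ZMod p)) = 1 := by
        have : ((h⁻¹ * h : H) : Matrix.GeneralLinearGroup (Fin 2) (ZMod p)) = 1 := by simp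
        exact congrArg Units.val this
      have h2 := congrArg (Matrix.mulVec (((h⁻¹ : H) : Matrix.GeneralLinearGroup (Fin 2) (ZMod p)) : Matrix (Fin 2) (Fin 2) (ZMod p))) h0
      rw [Matrix.mulVec_mulVec, h1, Matrix.one_mulVec, Matrix.mulVec_zero] at h2
      exact h2⟩
  have hψinj : Function.Injective ψ := fun a b hab => hinj v hv a b (congrArg Subtype.val hab)
  have hψsurj : Function.Surjective ψ := by
    haveI : Finite {u : Fin 2 → ZMod p // u ≠ 0} := inferInstance
    exact ((Nat.bijective_iff_injective_and_card ψ).2 ⟨hψinj, hcard.trans hcardV.symm⟩).2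
  obtain ⟨h, hh⟩ := hψsurj ⟨w, hw⟩
  refine ⟨h, congrArg Subtype.val hh, ?_⟩
  intro y hy
  apply hinj v hv
  rw [hy]
  exact (congrArg Subtype.val hh).symm

end Cfsg.Agent.Lib.SharpMat
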