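import Mathlib

/-! Abstract Shintani descent: algebra of the maps `a ↦ a σ(a)⁻¹`. -/

namespace Cfsg.Agent.Lib.Shintani

variable {X : Type*} [Group X]

theorem aut_pow_comm (σ : MulAut X) (i j : ℕ) (a : X) :
    (σ ^ i) ((σ ^ j) a) = (σ ^ j) ((σ ^ i) a) := by
  have h : σ ^ i * σ ^ j = σ ^ j * σ ^ i := by rw [← pow_add, ← pow_add, add_comm]
  have := congrArg (fun f : MulAut X => f a) h
  simpa using this

theorem aut_pow_comm_one (σ : MulAut X) (i : ℕ) (a : X) :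
    (σ ^ i) (σ a) = σ ((σ ^ i) a) := by
  have := aut_pow_comm σ i 1 a
  simpa using this

theorem mem_fixed_iff (τ : MulAut X) (g : X) :
    g ∈ (MulEquiv.toMonoidHom τ).eqLocus (MonoidHom.id X) ↔ τ g = g := by
  rfl

theorem norm_eq (σ : MulAut X) (a : X) (d : ℕ) :
    ((List.range d).map (fun i => (σ ^ i) (a * (σ a)⁻¹))).prod = a * ((σ ^ d) a)⁻¹ := by
  induction d with
  | zero => simp
  | succ d ih =>
    rw [List.range_succ, List.map_append, List.prod_append, ih]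
    simp only [List.map_cons, List.map_nil, List.prod_cons, List.prod_nil, mul_one, map_mul,
      map_inv, inv_inv]
    have : (σ ^ d) (σ a) = (σ ^ (d + 1)) a := by
      rw [pow_succ]; rfl
    rw [this]
    group

/-- `x = τ(a)⁻¹ a` is fixed by `σ` when `g = a σ(a)⁻¹` is fixed by `τ = σ^e`. -/
theorem x_fixed_of_g_fixed (σ : MulAut X) (e : ℕ) (a : X)
    (hg : (σ ^ e) (a * (σ a)⁻¹) = a * (σ a)⁻¹) :
    σ (((σ ^ e) a)⁻¹ * a) = ((σ ^ e) a)⁻¹ * a := by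
  simp only [map_mul, map_inv] at hg ⊢
  rw [← aut_pow_comm_one]
  have h2 : (σ ^ e) a = a * (σ a)⁻¹ * (σ ^ e) (σ a) := by
    rw [← hg]; group
  rw [h2]; group

theorem g_fixed_of_x_fixed (σ : MulAut X) (e : ℕ) (a : X)
    (hx : σ (((σ ^ e) a)⁻¹ * a) = ((σ ^ e) a)⁻¹ * a) :
    (σ ^ e) (a * (σ a)⁻¹) = a * (σ a)⁻¹ := by
  simp only [map_mul, map_inv] at hx ⊢
  rw [← aut_pow_comm_one] at hx
  have h3 : ((σ ^ e) (σ a))⁻¹ = ((σ ^ e) a)⁻¹ * a * (σ a)⁻¹ := by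
    rw [← hx]; group
  rw [h3]; group

/-- `(τ^d)(a)⁻¹ a = x^d` for `x = τ(a)⁻¹ a` fixed by `τ`. -/
theorem power_formula (τ : MulAut X) (a : X) (hx : τ ((τ a)⁻¹ * a) = (τ a)⁻¹ * a) (d : ℕ) :
    ((τ ^ d) a)⁻¹ * a = ((τ a)⁻¹ * a) ^ d := by
  have hfix : ∀ n : ℕ, (τ ^ n) ((τ a)⁻¹ * a) = (τ a)⁻¹ * a := by
    intro n
    induction n with
    | zero => simp
    | succ n ih =>
      rw [pow_succ]
      show (τ ^ n) (τ ((τ a)⁻¹ * a)) = _
      rw [hx, ih]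
  induction d with
  | zero => simp
  | succ d ih =>
    rw [pow_succ' ((τ a)⁻¹ * a), ← ih]
    have h1 := hfix d
    have h2 : (τ ^ (d + 1)) a = (τ ^ d) (τ a) := by
      rw [pow_succ]; rfl
    rw [h2]
    have h3 : ((τ ^ d) (τ a))⁻¹ * (τ ^ d) a = (τ a)⁻¹ * a := by
      rw [← map_inv, ← map_mul, h1]
    calc ((τ ^ d) (τ a))⁻¹ * a = (((τ ^ d) (τ a))⁻¹ * (τ ^ d) a) * (((τ ^ d) a)⁻¹ * a) := by group
      _ = _ := by rw [h3]

theorem sigma_fix_iff (σ : MulAut X) (a k : X) :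
    σ (a⁻¹ * k * a) = a⁻¹ * k * a ↔ k * (a * (σ a)⁻¹) * (σ k)⁻¹ = a * (σ a)⁻¹ := by
  simp only [map_mul, map_inv]
  constructor
  · intro h
    have h1 : σ k = σ a * (a⁻¹ * k * a) * (σ a)⁻¹ := by
      rw [← h]; group
    rw [h1]; group
  · intro h
    have h1 : (σ k)⁻¹ = (σ a) * a⁻¹ * k⁻¹ * a * (σ a)⁻¹ := by
      have h2 : (σ k)⁻¹ = (k * (a * (σ a)⁻¹))⁻¹ * (k * (a * (σ a)⁻¹) * (σ k)⁻¹) := by group
      rw [h2, h]; group
    have h3 : σ k = (σ a) * a⁻¹ * k * a * (σ a)⁻¹ := by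
      rw [← inv_inv (σ k), h1]; group
    rw [h3]; group

theorem fixed_pow (σ : MulAut X) (y : X) (hy : σ y = y) (n : ℕ) : (σ ^ n) y = y := by
  induction n with
  | zero => simp
  | succ n ih =>
    rw [pow_succ]
    show (σ ^ n) (σ y) = _
    rw [hy, ih]

end Cfsg.Agent.Lib.Shintani
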