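import Mathlib
import Cfsg.Prelude

/-! Burnside's criterion for Sylow 2-subgroups of order 4 or 8, elementary abelian. -/

set_option autoImplicit false
set_option linter.all false

namespace Cfsg.Agent.Lib.SmallBurn

open Subgroup

variable {G : Type*} [Group G] [Finite G]

/-- Elements of odd order normalising a small abelian subgroup centralise it. -/
theorem odd_cent (T : Subgroup G) {x : G} (hx : x ∈ normalizer (T : Set G))
    (hodd : Odd (orderOf x)) (h3 : ¬ 3 ∣ Nat.card G) (hT : Nat.card T = 4 ∨ (Nat.card T = 8 ∧ ¬ 7 ∣ Nat.card G)) :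
    x ∈ centralizer (T : Set G) := by
  classical
  haveI : Fintype T := Fintype.ofFinite T
  have hmem : ∀ k : ℕ, ∀ t ∈ T, x ^ k * t * (x ^ k)⁻¹ ∈ T := by
    intro k
    have hk : x ^ k ∈ normalizer (T : Set G) := Subgroup.pow_mem _ hx k
    intro t ht
    exact (Subgroup.mem_normalizer_iff.mp hk t).mp ht
  let π : Function.End T := fun t => ⟨x * t.1 * x⁻¹, by simpa using hmem 1 t.1 t.2⟩
  have hpow : ∀ k : ℕ, ∀ t : T, ((π ^ k) t).1 = x ^ k * t.1 * (x ^ k)⁻¹ := by
    intro k
    induction k with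
    | zero =>
      intro t
      rw [pow_zero]
      show t.1 = _
      simp
    | succ k ih =>
      intro t
      rw [pow_succ']
      show x * ((π ^ k) t).1 * x⁻¹ = _
      rw [ih, pow_succ']
      group
  have h1 : π ^ orderOf x = 1 := by
    funext t
    apply Subtype.ext
    rw [hpow, pow_orderOf_eq_one]
    show _ = t.1
    simp
  have ho : orderOf π ∣ orderOf x := orderOf_dvd_of_pow_eq_one h1
  by_cases hone : orderOf π = 1
  · rw [orderOf_eq_one_iff] at hone
    rw [Subgroup.mem_centralizer_iff]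
    intro t ht
    have h2 : (π ⟨t, ht⟩).1 = t := by
      rw [hone]
      rfl
    have h3 : x * t * x⁻¹ = t := h2
    calc t * x = (x * t * x⁻¹) * x := by rw [h3]
      _ = x * t := by group
  · exfalso
    obtain ⟨p, hp, hpo⟩ := Nat.exists_prime_and_dvd hone
    haveI : Fact p.Prime := ⟨hp⟩
    obtain ⟨m, hm⟩ := hpo
    have hm0 : 0 < orderOf π := by
      apply Nat.pos_of_ne_zero
      intro h0
      rw [h0] at ho
      have : orderOf x = 0 := Nat.eq_zero_of_zero_dvd ho
      exact (orderOf_pos x).ne' this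
    have hm1 : 0 < m := by
      apply Nat.pos_of_ne_zero
      rintro rfl
      rw [hm] at hm0
      simp at hm0
    set σ := π ^ m with hσ
    have hσp : σ ^ p ^ 1 = 1 := by
      rw [pow_one, hσ, ← pow_mul, mul_comm, ← hm, pow_orderOf_eq_one]
    have hσ1 : σ ≠ 1 := by
      intro e
      have h4 : orderOf π ∣ m := orderOf_dvd_of_pow_eq_one e
      have h5 := Nat.le_of_dvd hm1 h4
      have h6 := hp.two_le
      rw [hm] at h5
      nlinarith
    have hpx : p ∣ orderOf x := (Dvd.intro m hm.symm).trans ho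
    have hpG : p ∣ Nat.card G := hpx.trans (orderOf_dvd_natCard x)
    have hp2 : p ≠ 2 := by
      rintro rfl
      exact (Nat.not_even_iff_odd.mpr hodd) (even_iff_two_dvd.mpr hpx)
    have hp3 : p ≠ 3 := by
      rintro rfl
      exact h3 hpG
    -- the fixed points
    have hmod := Equiv.Perm.card_fixedPoints_modEq hσp
    let C : Subgroup T := (centralizer ({x ^ m} : Set G)).subgroupOf T
    have hfixiff : ∀ t : T, σ t = t ↔ t ∈ C := by
      intro t
      have e0 : σ t = t ↔ x ^ m * t.1 * (x ^ m)⁻¹ = t.1 := by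
        rw [hσ, ← hpow m t]
        exact Subtype.ext_iff
      rw [e0]
      show _ ↔ t ∈ (centralizer ({x ^ m} : Set G)).subgroupOf T
      rw [Subgroup.mem_subgroupOf, Subgroup.mem_centralizer_singleton_iff, mul_inv_eq_iff_eq_mul]
      exact ⟨fun h => h.symm, fun h => h.symm⟩
    have hfix : Fintype.card (Function.fixedPoints σ) = Nat.card C := by
      rw [← Nat.card_eq_fintype_card]
      apply Nat.card_congr
      exact Equiv.subtypeEquivRight (fun t => hfixiff t)
    rw [hfix] at hmod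
    have hdvd : Nat.card C ∣ Nat.card T := Subgroup.card_subgroup_dvd_card C
    have hne : Nat.card C ≠ Nat.card T := by
      intro e
      have htop : C = ⊤ := Subgroup.eq_top_of_card_eq C e
      apply hσ1
      funext t
      exact (hfixiff t).mpr (by rw [htop]; trivial)
    rw [← Nat.card_eq_fintype_card] at hmod
    have hcard_le : Nat.card C ≤ Nat.card T := Nat.le_of_dvd (Nat.card_pos) hdvd
    have hpd : p ∣ Nat.card T - Nat.card C := (Nat.modEq_iff_dvd' hcard_le).mp hmod.symm
    rcases hT with hT | ⟨hT, h7⟩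
    · rw [hT] at hdvd hne hpd hcard_le
      have h5 : Nat.card C = 1 ∨ Nat.card C = 2 := by
        have : Nat.card C ∈ Nat.divisors 4 := Nat.mem_divisors.mpr ⟨hdvd, by norm_num⟩
        have h4 : Nat.divisors 4 = {1, 2, 4} := by decide
        rw [h4] at this
        simp only [Finset.mem_insert, Finset.mem_singleton] at this
        omega
      rcases h5 with h5 | h5
      · rw [h5] at hpd
        exact hp3 ((Nat.prime_dvd_prime_iff_eq hp Nat.prime_three).mp hpd)
      · rw [h5] at hpd
        exact hp2 ((Nat.prime_dvd_prime_iff_eq hp Nat.prime_two).mp hpd)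
    · rw [hT] at hdvd hne hpd hcard_le
      have hp7 : p ≠ 7 := by
        rintro rfl
        exact h7 hpG
      have h5 : Nat.card C = 1 ∨ Nat.card C = 2 ∨ Nat.card C = 4 := by
        have : Nat.card C ∈ Nat.divisors 8 := Nat.mem_divisors.mpr ⟨hdvd, by norm_num⟩
        have h4 : Nat.divisors 8 = {1, 2, 4, 8} := by decide
        rw [h4] at this
        simp only [Finset.mem_insert, Finset.mem_singleton] at this
        omega
      rcases h5 with h5 | h5 | h5
      · rw [h5] at hpd
        exact hp7 ((Nat.prime_dvd_prime_iff_eq hp (by norm_num : Nat.Prime 7)).mp hpd)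
      · rw [h5] at hpd
        have h6 : p ∣ 2 * 3 := hpd
        rcases (Nat.Prime.dvd_mul hp).mp h6 with h | h
        · exact hp2 ((Nat.prime_dvd_prime_iff_eq hp Nat.prime_two).mp h)
        · exact hp3 ((Nat.prime_dvd_prime_iff_eq hp Nat.prime_three).mp h)
      · rw [h5] at hpd
        have h6 : p ∣ 2 ^ 2 := hpd
        exact hp2 ((Nat.prime_dvd_prime_iff_eq hp Nat.prime_two).mp (hp.dvd_of_dvd_pow h6))

/-- A `2`-element normalising a Sylow `2`-subgroup lies in it. -/
theorem two_elem_mem (T : Sylow 2 G) {x : G} (hx : x ∈ normalizer ((T : Subgroup G) : Set G)) {k : ℕ}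
    (ho : orderOf x = 2 ^ k) : x ∈ (T : Subgroup G) := by
  haveI : Fact (Nat.Prime 2) := ⟨Nat.prime_two⟩
  have h1 : IsPGroup 2 (zpowers x) := by
    apply IsPGroup.of_card (n := k)
    rw [Nat.card_zpowers, ho]
  have h2 : zpowers x ≤ normalizer ((T : Subgroup G) : Set G) := by
    rw [Subgroup.zpowers_le]
    exact hx
  have h3 : IsPGroup 2 ((T : Subgroup G) ⊔ zpowers x : Subgroup G) :=
    IsPGroup.to_sup_of_normal_left' T.isPGroup' h1 h2
  have h4 := T.is_maximal' h3 le_sup_left
  have h5 : x ∈ ((T : Subgroup G) ⊔ zpowers x : Subgroup G) :=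
    Subgroup.mem_sup_right (Subgroup.mem_zpowers x)
  rwa [h4] at h5

theorem normalizer_le (T : Sylow 2 G) (hcomm : ∀ a ∈ (T : Subgroup G), ∀ b ∈ (T : Subgroup G), a * b = b * a)
    (h3 : ¬ 3 ∣ Nat.card G) (hT : Nat.card T = 4 ∨ (Nat.card T = 8 ∧ ¬ 7 ∣ Nat.card G)) :
    normalizer ((T : Subgroup G) : Set G) ≤ centralizer ((T : Subgroup G) : Set G) := by
  intro x hx
  have hm : orderOf x ≠ 0 := (orderOf_pos x).ne'
  obtain ⟨a, m', hm', hmm⟩ := Nat.exists_eq_two_pow_mul_odd hm
  have hco : Nat.Coprime (2 ^ a) m' := by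
    apply Nat.Coprime.pow_left
    exact Nat.coprime_two_left.mpr hm'
  -- decomposition
  have hu : x ^ m' ∈ centralizer ((T : Subgroup G) : Set G) := by
    have h1 : x ^ m' ∈ (T : Subgroup G) := by
      apply two_elem_mem T (Subgroup.pow_mem _ hx m') (k := a)
      rw [orderOf_pow' x hm'.pos.ne', hmm]
      have : Nat.gcd (2 ^ a * m') m' = m' := Nat.gcd_eq_right (Dvd.intro_left _ rfl)
      rw [this]
      exact Nat.mul_div_cancel _ hm'.pos
    rw [Subgroup.mem_centralizer_iff]
    intro t ht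
    exact hcomm t ht _ h1
  have hv : x ^ (2 ^ a) ∈ centralizer ((T : Subgroup G) : Set G) := by
    apply odd_cent (T : Subgroup G) (Subgroup.pow_mem _ hx _) _ h3 hT
    rw [orderOf_pow' x (by positivity), hmm]
    have : Nat.gcd (2 ^ a * m') (2 ^ a) = 2 ^ a := Nat.gcd_eq_right (Dvd.intro _ rfl)
    rw [this, Nat.mul_div_cancel_left _ (by positivity)]
    exact hm'
  have hbez := Nat.Coprime.gcd_eq_one hco
  have hz : (1 : ℤ) = (2 ^ a : ℕ) * Nat.gcdA (2 ^ a) m' + m' * Nat.gcdB (2 ^ a) m' := by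
    have := Nat.gcd_eq_gcd_ab (2 ^ a) m'
    rw [hbez] at this
    exact_mod_cast this
  have hx2 : x = (x ^ (2 ^ a)) ^ (Nat.gcdA (2 ^ a) m') * (x ^ m') ^ (Nat.gcdB (2 ^ a) m') := by
    rw [← zpow_natCast, ← zpow_natCast, ← zpow_mul, ← zpow_mul, ← zpow_add, ← hz, zpow_one]
  rw [hx2]
  exact Subgroup.mul_mem _ (Subgroup.zpow_mem _ hv _) (Subgroup.zpow_mem _ hu _)

theorem main (T : Sylow 2 G) (hcomm : ∀ a ∈ (T : Subgroup G), ∀ b ∈ (T : Subgroup G), a * b = b * a)
    (h3 : ¬ 3 ∣ Nat.card G) (hT : Nat.card T = 4 ∨ (Nat.card T = 8 ∧ ¬ 7 ∣ Nat.card G)) :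
    Cfsg.HasNormalPComplement 2 G := by
  haveI : Fact (Nat.Prime 2) := ⟨Nat.prime_two⟩
  have hn := normalizer_le T hcomm h3 hT
  exact ⟨T, (MonoidHom.transferSylow T hn).ker, inferInstance, MonoidHom.ker_transferSylow_isComplement' T hn⟩

end Cfsg.Agent.Lib.SmallBurn
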