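import Mathlib

/-! The power formula in groups of class at most three. -/

set_option autoImplicit false

namespace Cfsg.Agent.Lib.SmallClass

open scoped commutatorElement

variable {R : Type*} [Group R]

/-- Central elements have central powers. -/
theorem cen_pow {d : R} (hd : ∀ g : R, d * g = g * d) (k : ℕ) (g : R) : d ^ k * g = g * d ^ k :=
  (Commute.pow_left (show Commute d g from hd g) k).eq

/-- Commuting `c` past powers of `x`. -/
theorem c_pow_mul {c x d : R} (h : c * x = x * c * d) (hd : ∀ g : R, d * g = g * d) (k : ℕ) :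
    c ^ k * x = x * c ^ k * d ^ k := by
  induction k with
  | zero => simp
  | succ k ih =>
    calc c ^ (k + 1) * x = c ^ k * (c * x) := by rw [pow_succ, mul_assoc]
      _ = c ^ k * (x * c * d) := by rw [h]
      _ = (c ^ k * x) * c * d := by simp only [mul_assoc]
      _ = x * c ^ k * d ^ k * c * d := by rw [ih]
      _ = x * c ^ k * (d ^ k * c) * d := by simp only [mul_assoc]
      _ = x * c ^ k * (c * d ^ k) * d := by rw [cen_pow hd]
      _ = x * c ^ (k + 1) * d ^ (k + 1) := by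
        rw [pow_succ c, pow_succ d]; simp only [mul_assoc]

/-- Commuting `c` past powers of `x`, the other way. -/
theorem c_mul_pow {c x d : R} (h : c * x = x * c * d) (hd : ∀ g : R, d * g = g * d) (k : ℕ) :
    c * x ^ k = x ^ k * c * d ^ k := by
  induction k with
  | zero => simp
  | succ k ih =>
    calc c * x ^ (k + 1) = (c * x ^ k) * x := by rw [pow_succ, mul_assoc]
      _ = x ^ k * c * d ^ k * x := by rw [ih]
      _ = x ^ k * c * (d ^ k * x) := by simp only [mul_assoc]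
      _ = x ^ k * c * (x * d ^ k) := by rw [cen_pow hd]
      _ = x ^ k * (c * x) * d ^ k := by simp only [mul_assoc]
      _ = x ^ k * (x * c * d) * d ^ k := by rw [h]
      _ = x ^ (k + 1) * c * d ^ (k + 1) := by
        rw [pow_succ x, pow_succ' d]; simp only [mul_assoc]

/-- Moving `x` past powers of `y`. -/
theorem y_pow_mul {x y c e : R} (h1 : y * x = x * y * c) (h3 : c * y = y * c * e)
    (he : ∀ g : R, e * g = g * e) (n : ℕ) :
    y ^ n * x = x * y ^ n * c ^ n * e ^ (n.choose 2) := by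
  induction n with
  | zero => simp
  | succ n ih =>
    have h5 := c_mul_pow h3 he n
    have hchoose : (n + 1).choose 2 = n + n.choose 2 := by
      rw [Nat.choose_succ_succ' n 1, Nat.choose_one_right]
    calc y ^ (n + 1) * x = y * (y ^ n * x) := by rw [pow_succ', mul_assoc]
      _ = y * (x * y ^ n * c ^ n * e ^ (n.choose 2)) := by rw [ih]
      _ = (y * x) * y ^ n * c ^ n * e ^ (n.choose 2) := by simp only [mul_assoc]
      _ = (x * y * c) * y ^ n * c ^ n * e ^ (n.choose 2) := by rw [h1]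
      _ = x * y * (c * y ^ n) * c ^ n * e ^ (n.choose 2) := by simp only [mul_assoc]
      _ = x * y * (y ^ n * c * e ^ n) * c ^ n * e ^ (n.choose 2) := by rw [h5]
      _ = x * y * y ^ n * c * (e ^ n * c ^ n) * e ^ (n.choose 2) := by simp only [mul_assoc]
      _ = x * y * y ^ n * c * (c ^ n * e ^ n) * e ^ (n.choose 2) := by rw [cen_pow he]
      _ = x * y ^ (n + 1) * c ^ (n + 1) * e ^ ((n + 1).choose 2) := by
        rw [hchoose, pow_add e n, pow_succ' y, pow_succ' c]
        simp only [mul_assoc]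

/-- The function `2 C(n,3) + C(n,2)`. -/
def beta (n : ℕ) : ℕ := 2 * n.choose 3 + n.choose 2

/-- The power formula in class at most three. -/
theorem mul_pow_formula {x y c d e : R} (h1 : y * x = x * y * c) (h2 : c * x = x * c * d) (h3 : c * y = y * c * e)
    (hd : ∀ g : R, d * g = g * d) (he : ∀ g : R, e * g = g * e) (n : ℕ) :
    (x * y) ^ n = x ^ n * y ^ n * c ^ (n.choose 2) * d ^ (n.choose 3) * e ^ (beta n) := by
  induction n with
  | zero => simp [beta]
  | succ n ih =>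
    have h4 := c_pow_mul h2 hd (n.choose 2)
    have h5 := y_pow_mul h1 h3 he n
    have h6 := c_pow_mul h3 he (n + n.choose 2)
    have hA : (n + 1).choose 2 = n + n.choose 2 := by
      rw [Nat.choose_succ_succ' n 1, Nat.choose_one_right]
    have hB : (n + 1).choose 3 = n.choose 2 + n.choose 3 := by
      rw [Nat.choose_succ_succ' n 2]
    have hβ : beta (n + 1) = (n + n.choose 2) + (n.choose 2 + beta n) := by
      unfold beta
      rw [hA, hB]
      ring
    obtain ⟨A, hAdef⟩ : ∃ A, A = n.choose 2 := ⟨_, rfl⟩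
    obtain ⟨B, hBdef⟩ : ∃ B, B = n.choose 3 := ⟨_, rfl⟩
    obtain ⟨C, hCdef⟩ : ∃ C, C = beta n := ⟨_, rfl⟩
    rw [← hAdef] at h4 h5 h6 hA hB hβ ih
    rw [← hBdef] at hB ih
    rw [← hCdef] at hβ ih
    have ht : ∀ g, (d ^ B * e ^ C) * g = g * (d ^ B * e ^ C) := by
      intro g
      rw [mul_assoc, cen_pow he, ← mul_assoc, cen_pow hd, mul_assoc]
    calc (x * y) ^ (n + 1) = (x * y) ^ n * (x * y) := pow_succ _ _
      _ = x ^ n * y ^ n * c ^ A * (d ^ B * e ^ C) * (x * y) := by rw [ih]; simp only [mul_assoc]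
      _ = x ^ n * y ^ n * c ^ A * ((x * y) * (d ^ B * e ^ C)) := by rw [mul_assoc _ (d ^ B * e ^ C), ht]
      _ = x ^ n * y ^ n * (c ^ A * x) * y * (d ^ B * e ^ C) := by simp only [mul_assoc]
      _ = x ^ n * y ^ n * (x * c ^ A * d ^ A) * y * (d ^ B * e ^ C) := by rw [h4]
      _ = x ^ n * (y ^ n * x) * c ^ A * d ^ A * y * (d ^ B * e ^ C) := by simp only [mul_assoc]
      _ = x ^ n * (x * y ^ n * c ^ n * e ^ A) * c ^ A * d ^ A * y * (d ^ B * e ^ C) := by rw [h5]
      _ = x ^ n * x * y ^ n * c ^ n * (e ^ A * c ^ A) * d ^ A * y * (d ^ B * e ^ C) := by simp only [mul_assoc]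
      _ = x ^ n * x * y ^ n * c ^ n * (c ^ A * e ^ A) * d ^ A * y * (d ^ B * e ^ C) := by rw [cen_pow he]
      _ = x ^ n * x * y ^ n * (c ^ n * c ^ A) * e ^ A * (d ^ A * y) * (d ^ B * e ^ C) := by simp only [mul_assoc]
      _ = x ^ n * x * y ^ n * c ^ (n + A) * e ^ A * (y * d ^ A) * (d ^ B * e ^ C) := by rw [pow_add, cen_pow hd]
      _ = x ^ n * x * y ^ n * c ^ (n + A) * (e ^ A * y) * d ^ A * (d ^ B * e ^ C) := by simp only [mul_assoc]
      _ = x ^ n * x * y ^ n * c ^ (n + A) * (y * e ^ A) * d ^ A * (d ^ B * e ^ C) := by rw [cen_pow he]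
      _ = x ^ n * x * y ^ n * (c ^ (n + A) * y) * e ^ A * d ^ A * (d ^ B * e ^ C) := by simp only [mul_assoc]
      _ = x ^ n * x * y ^ n * (y * c ^ (n + A) * e ^ (n + A)) * e ^ A * d ^ A * (d ^ B * e ^ C) := by rw [h6]
      _ = x ^ (n + 1) * y ^ (n + 1) * c ^ (n + A) * (e ^ (n + A) * e ^ A * d ^ A) * (d ^ B * e ^ C) := by
        rw [pow_succ x, pow_succ y]; simp only [mul_assoc]
      _ = x ^ (n + 1) * y ^ (n + 1) * c ^ (n + A) * (d ^ A * (e ^ (n + A) * e ^ A)) * (d ^ B * e ^ C) := by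
        rw [cen_pow hd A (e ^ (n + A) * e ^ A)]
      _ = x ^ (n + 1) * y ^ (n + 1) * c ^ ((n + 1).choose 2) * d ^ ((n + 1).choose 3) * e ^ (beta (n + 1)) := by
        rw [hA, hB, hβ, pow_add d, pow_add e (n + A), pow_add e A C]
        have : (e ^ (n + A) * e ^ A) * (d ^ B * e ^ C) = d ^ B * ((e ^ (n + A) * e ^ A) * e ^ C) := by
          rw [← mul_assoc, ← cen_pow hd B (e ^ (n + A) * e ^ A), mul_assoc]
        simp only [mul_assoc] at this ⊢
        rw [this]

/-- Powers of the commutator-type elements with `x ^ p = y ^ p = 1`. -/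
theorem pow_eq_one_of {x y c d e : R} {p : ℕ} (hp2 : p ∣ p.choose 2) (h1 : y * x = x * y * c)
    (h2 : c * x = x * c * d) (h3 : c * y = y * c * e)
    (hd : ∀ g : R, d * g = g * d) (he : ∀ g : R, e * g = g * e) (hx : x ^ p = 1) (hy : y ^ p = 1) :
    c ^ p = 1 ∧ d ^ p = 1 ∧ e ^ p = 1 := by
  have hd' : d ^ p = 1 := by
    have h := c_mul_pow h2 hd p
    rw [hx] at h
    simpa using h
  have he' : e ^ p = 1 := by
    have h := c_mul_pow h3 he p
    rw [hy] at h
    simpa using h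
  refine ⟨?_, hd', he'⟩
  have h := y_pow_mul h1 h3 he p
  rw [hy] at h
  obtain ⟨k, hk⟩ := hp2
  rw [hk, pow_mul, he', one_pow, mul_one, mul_one, one_mul] at h
  exact (mul_eq_left.1 h.symm)

/-- The `p`-th power is multiplicative when the commutator-type elements have exponent `p`. -/
theorem mul_pow_eq {x y c d e : R} {p : ℕ} (hp2 : p ∣ p.choose 2) (hp3 : p ∣ p.choose 3 ∨ (d = 1 ∧ e = 1))
    (h1 : y * x = x * y * c)
    (h2 : c * x = x * c * d) (h3 : c * y = y * c * e)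
    (hd : ∀ g : R, d * g = g * d) (he : ∀ g : R, e * g = g * e) (hc' : c ^ p = 1) (hd' : d ^ p = 1) (he' : e ^ p = 1) :
    (x * y) ^ p = x ^ p * y ^ p := by
  rw [mul_pow_formula h1 h2 h3 hd he p]
  obtain ⟨k, hk⟩ := hp2
  rw [hk, pow_mul, hc', one_pow, mul_one]
  rcases hp3 with ⟨m, hm⟩ | ⟨rfl, rfl⟩
  · have hb : p ∣ beta p := by
      unfold beta
      rw [hk, hm]
      exact ⟨2 * m + k, by ring⟩
    obtain ⟨r, hr⟩ := hb
    rw [hr, hm, pow_mul, pow_mul, hd', he', one_pow, one_pow, mul_one, mul_one]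
  · simp

/-- The commutator data for a pair of elements in class at most three. -/
theorem data (hcl : ⁅⁅commutator R, (⊤ : Subgroup R)⁆, (⊤ : Subgroup R)⁆ = ⊥) (x y : R) :
    ∃ c d e : R, c ∈ commutator R ∧ d ∈ ⁅commutator R, (⊤ : Subgroup R)⁆ ∧ e ∈ ⁅commutator R, (⊤ : Subgroup R)⁆ ∧
      y * x = x * y * c ∧ c * x = x * c * d ∧ c * y = y * c * e ∧
      (∀ g : R, d * g = g * d) ∧ (∀ g : R, e * g = g * e) := by
  have hc : ⁅y⁻¹, x⁻¹⁆ ∈ commutator R := by
    rw [commutator_def]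
    exact Subgroup.commutator_mem_commutator trivial trivial
  have hd : ⁅⁅y⁻¹, x⁻¹⁆⁻¹, x⁻¹⁆ ∈ ⁅commutator R, (⊤ : Subgroup R)⁆ :=
    Subgroup.commutator_mem_commutator (Subgroup.inv_mem _ hc) trivial
  have he : ⁅⁅y⁻¹, x⁻¹⁆⁻¹, y⁻¹⁆ ∈ ⁅commutator R, (⊤ : Subgroup R)⁆ :=
    Subgroup.commutator_mem_commutator (Subgroup.inv_mem _ hc) trivial
  have hcen : ∀ z ∈ ⁅commutator R, (⊤ : Subgroup R)⁆, ∀ g : R, z * g = g * z := by
    intro z hz g
    have h1 : ⁅z, g⁆ ∈ ⁅⁅commutator R, (⊤ : Subgroup R)⁆, (⊤ : Subgroup R)⁆ :=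
      Subgroup.commutator_mem_commutator hz trivial
    rw [hcl, Subgroup.mem_bot] at h1
    exact commutatorElement_eq_one_iff_mul_comm.1 h1
  refine ⟨_, _, _, hc, hd, he, ?_, ?_, ?_, hcen _ hd, hcen _ he⟩
  · simp only [commutatorElement_def]
    group
  · simp only [commutatorElement_def]
    group
  · simp only [commutatorElement_def]
    group

/-- Products of elements of exponent `p`. -/
theorem mul_pow_one {p : ℕ} (hp2 : p ∣ p.choose 2)
    (hp3 : p ∣ p.choose 3 ∨ ⁅commutator R, (⊤ : Subgroup R)⁆ = ⊥)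
    (hcl : ⁅⁅commutator R, (⊤ : Subgroup R)⁆, (⊤ : Subgroup R)⁆ = ⊥) {x y : R}
    (hx : x ^ p = 1) (hy : y ^ p = 1) : (x * y) ^ p = 1 := by
  obtain ⟨c, d, e, -, hd, he, h1, h2, h3, hdc, hec⟩ := data hcl x y
  obtain ⟨hc', hd', he'⟩ := pow_eq_one_of hp2 h1 h2 h3 hdc hec hx hy
  have hp3' : p ∣ p.choose 3 ∨ (d = 1 ∧ e = 1) := by
    rcases hp3 with h | h
    · exact Or.inl h
    · rw [h, Subgroup.mem_bot] at hd he
      exact Or.inr ⟨hd, he⟩
  rw [mul_pow_eq hp2 hp3' h1 h2 h3 hdc hec hc' hd' he', hx, hy, one_mul]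

/-- The elements of exponent `p` generate a subgroup of exponent `p`. -/
theorem closure_pow {p : ℕ} (hp2 : p ∣ p.choose 2)
    (hp3 : p ∣ p.choose 3 ∨ ⁅commutator R, (⊤ : Subgroup R)⁆ = ⊥)
    (hcl : ⁅⁅commutator R, (⊤ : Subgroup R)⁆, (⊤ : Subgroup R)⁆ = ⊥) {g : R}
    (hg : g ∈ Subgroup.closure {x : R | x ^ p = 1}) : g ^ p = 1 := by
  induction hg using Subgroup.closure_induction with
  | mem x hx => exact hx
  | one => simp
  | mul x y _ _ hx hy => exact mul_pow_one hp2 hp3 hcl hx hy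
  | inv x _ hx => rw [inv_pow, hx, inv_one]

/-- The `p`-th power map is multiplicative. -/
theorem mul_pow_of_der {p : ℕ} (hp2 : p ∣ p.choose 2)
    (hp3 : p ∣ p.choose 3 ∨ ⁅commutator R, (⊤ : Subgroup R)⁆ = ⊥)
    (hcl : ⁅⁅commutator R, (⊤ : Subgroup R)⁆, (⊤ : Subgroup R)⁆ = ⊥)
    (hder : commutator R ≤ Subgroup.closure {x : R | x ^ p = 1}) (x y : R) :
    (x * y) ^ p = x ^ p * y ^ p := by
  obtain ⟨c, d, e, hc, hd, he, h1, h2, h3, hdc, hec⟩ := data hcl x y
  have hle : ⁅commutator R, (⊤ : Subgroup R)⁆ ≤ commutator R := Subgroup.commutator_le_left _ _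
  have hc' := closure_pow hp2 hp3 hcl (hder hc)
  have hd' := closure_pow hp2 hp3 hcl (hder (hle hd))
  have he' := closure_pow hp2 hp3 hcl (hder (hle he))
  have hp3' : p ∣ p.choose 3 ∨ (d = 1 ∧ e = 1) := by
    rcases hp3 with h | h
    · exact Or.inl h
    · rw [h, Subgroup.mem_bot] at hd he
      exact Or.inr ⟨hd, he⟩
  exact mul_pow_eq hp2 hp3' h1 h2 h3 hdc hec hc' hd' he'

end Cfsg.Agent.Lib.SmallClass
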