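import Mathlib
import Cfsg.Agent.Lib.Commutators
import Cfsg.Agent.Lib.Replacement
import Cfsg.Agent.Lib.H2Basic
import Cfsg.Agent.Lib.H6PGroup
import Cfsg.Agent.Lib.PComps
import Cfsg.Agent.Lib.PNilp
import Cfsg.Agent.Lib.ThompsonFpf
import Cfsg.Agent.Lib.FitCore

/-!
# Normal Hall subgroups inside the derived subgroup
-/

set_option autoImplicit false
set_option linter.all false

namespace Cfsg.Agent.Lib.SolvCoprime

open Cfsg
open scoped commutatorElement

variable {G : Type*} [Group G] [Finite G]

theorem commutator_eq_of_le [Group.IsSolvable G] {H K : Subgroup G} (hn : H.Normal)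
    (hK : Subgroup.IsComplement' H K) (hle : H ≤ commutator G) : H = ⁅H, K⁆ := by
  have hsup : H ⊔ K = ⊤ := hK.sup_eq_top
  have hKN : K ≤ Subgroup.normalizer (H : Set G) := by
    rw [Subgroup.normalizer_eq_top_iff.2 hn]
    exact le_top
  have hsup' : K ⊔ H = ⊤ := by rw [sup_comm]; exact hsup
  have hdec : ∀ g : G, ∃ k ∈ K, ∃ h ∈ H, g = k * h := by
    intro g
    exact Cfsg.Agent.Lib.Replacement.mem_sup_of_le_normalizer hKN (by rw [hsup']; trivial)
  set M := ⁅H, K⁆ with hMdef
  have hMH : M ≤ H := Subgroup.commutator_le_left H K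
  have hMn : M.Normal := Cfsg.Agent.Lib.Commutators.normal_of_le_normalizer hsup
    Cfsg.Agent.Lib.Commutators.commutator_le_normalizer_left
    Cfsg.Agent.Lib.Commutators.commutator_le_normalizer_right
  have hDn : (⁅H, H⁆ : Subgroup G).Normal := Subgroup.commutator_normal H H
  have hWn : (M ⊔ ⁅H, H⁆).Normal := Subgroup.sup_normal _ _
  set W := M ⊔ ⁅H, H⁆ with hWdef
  have hWH : W ≤ H := sup_le hMH (Subgroup.commutator_le_left H H)
  set T := K ⊔ W with hTdef
  have hTn : T.Normal := by
    refine Cfsg.Agent.Lib.Commutators.normal_of_le_normalizer hsup ?_ ?_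
    · intro h hh
      refine Cfsg.Agent.Lib.H2Basic.mem_normalizer_of_conj_le fun t ht => ?_
      have hle2 : T ≤ T.comap (MulAut.conj h).toMonoidHom := by
        refine sup_le ?_ ?_
        · intro k hk
          show h * k * h⁻¹ ∈ T
          have e : h * k * h⁻¹ = (h * k * h⁻¹ * k⁻¹) * k := by group
          rw [e]
          refine T.mul_mem ?_ ((le_sup_left : K ≤ T) hk)
          refine (le_sup_right : W ≤ T) ((le_sup_left : M ≤ W) ?_)
          have := Subgroup.commutator_mem_commutator hh hk
          rwa [commutatorElement_def] at this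
        · intro w hw
          exact (le_sup_right : W ≤ T) (hWn.conj_mem w hw h)
      exact hle2 ht
    · intro k hk
      refine Cfsg.Agent.Lib.H2Basic.mem_normalizer_of_conj_le fun t ht => ?_
      have hle2 : T ≤ T.comap (MulAut.conj k).toMonoidHom := by
        refine sup_le ?_ ?_
        · intro k' hk'
          exact (le_sup_left : K ≤ T) (K.mul_mem (K.mul_mem hk hk') (K.inv_mem hk))
        · intro w hw
          exact (le_sup_right : W ≤ T) (hWn.conj_mem w hw k)
      exact hle2 ht
  have hcT : commutator G ≤ T := by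
    haveI := hTn
    rw [← Subgroup.Normal.quotient_commutative_iff_commutator_le]
    constructor
    constructor
    intro a b
    induction a using QuotientGroup.induction_on with | H a => ?_
    induction b using QuotientGroup.induction_on with | H b => ?_
    obtain ⟨k₁, hk₁, h₁, hh₁, rfl⟩ := hdec a
    obtain ⟨k₂, hk₂, h₂, hh₂, rfl⟩ := hdec b
    have e1 : ((k₁ : G) : G ⧸ T) = 1 := (QuotientGroup.eq_one_iff k₁).2 ((le_sup_left : K ≤ T) hk₁)
    have e2 : ((k₂ : G) : G ⧸ T) = 1 := (QuotientGroup.eq_one_iff k₂).2 ((le_sup_left : K ≤ T) hk₂)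
    rw [QuotientGroup.mk_mul, QuotientGroup.mk_mul, e1, e2, one_mul, one_mul, ← QuotientGroup.mk_mul,
      ← QuotientGroup.mk_mul, QuotientGroup.eq]
    have e : (h₁ * h₂)⁻¹ * (h₂ * h₁) = ⁅h₂⁻¹, h₁⁻¹⁆ := by
      rw [commutatorElement_def]
      group
    rw [e]
    exact (le_sup_right : W ≤ T) ((le_sup_right : ⁅H, H⁆ ≤ W)
      (Subgroup.commutator_mem_commutator (H.inv_mem hh₂) (H.inv_mem hh₁)))
  have hHW : H ≤ W := by
    intro x hx
    have hxT := hcT (hle hx)
    have hKW : K ≤ Subgroup.normalizer (W : Set G) := by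
      rw [Subgroup.normalizer_eq_top_iff.2 hWn]
      exact le_top
    obtain ⟨k, hk, w, hw, rfl⟩ := Cfsg.Agent.Lib.Replacement.mem_sup_of_le_normalizer hKW hxT
    have hkH : k ∈ H := by
      have := H.mul_mem hx (H.inv_mem (hWH hw))
      simpa using this
    have hk1 : k = 1 := Subgroup.disjoint_def.1 hK.disjoint hkH hk
    rw [hk1, one_mul]
    exact hw
  apply le_antisymm _ hMH
  -- the quotient by `M`
  haveI := hMn
  let π := QuotientGroup.mk' M
  have hbar : H.map π ≤ ⁅H.map π, H.map π⁆ := by
    have h1 : H.map π ≤ W.map π := Subgroup.map_mono hHW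
    have h2 : M.map π = ⊥ := by
      rw [Subgroup.map_eq_bot_iff]
      rw [QuotientGroup.ker_mk']
    rw [hWdef, Subgroup.map_sup, h2, bot_sup_eq, Subgroup.map_commutator] at h1
    exact h1
  have hder : ∀ n : ℕ, H.map π ≤ derivedSeries (G ⧸ M) n := by
    intro n
    induction n with
    | zero => exact le_top
    | succ n ih =>
      rw [derivedSeries_succ]
      exact hbar.trans (Subgroup.commutator_mono ih ih)
  obtain ⟨n, hn0⟩ := (isSolvable_def (G ⧸ M)).1 inferInstance
  have h3 := hder n
  rw [hn0, le_bot_iff, Subgroup.map_eq_bot_iff, QuotientGroup.ker_mk'] at h3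
  exact h3

theorem inf_centralizer_le {H K : Subgroup G} (hn : H.Normal) (hcop : (Nat.card H).Coprime (Nat.card K))
    (hM : H = ⁅H, K⁆) : H ⊓ Subgroup.centralizer (K : Set G) ≤ ⁅H, H⁆ := by
  classical
  haveI := hn
  haveI := Fintype.ofFinite K
  let c : K → (H →* H) := fun k => (MulAut.conjNormal (k : G)).toMonoidHom
  have hc : ∀ (k : K) (h : H), ((c k h : H) : G) = k * h * (k : G)⁻¹ := fun k h => MulAut.conjNormal_apply _ _
  let ν : H →* Abelianization H := ∏ k : K, (Abelianization.of.comp (c k))
  have hν : ∀ h, ν h = ∏ k : K, Abelianization.of (c k h) := by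
    intro h
    simp [ν, MonoidHom.finset_prod_apply]
  have hinv : ∀ (k₀ : K) (h : H), ν (c k₀ h) = ν h := by
    intro k₀ h
    rw [hν, hν]
    refine Fintype.prod_equiv (Equiv.mulRight k₀) _ _ fun k => ?_
    congr 1
    apply Subtype.ext
    rw [hc, hc, hc]
    simp only [Equiv.coe_mulRight, Subgroup.coe_mul, mul_inv_rev]
    group
  have hker : ⁅H, K⁆ ≤ (ν.ker).map H.subtype := by
    rw [Subgroup.commutator_le]
    intro h hh k hk
    refine ⟨⟨h, hh⟩ * (c ⟨k, hk⟩ ⟨h, hh⟩)⁻¹, MonoidHom.mem_ker.2 ?_, ?_⟩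
    · rw [map_mul, map_inv, hinv, mul_inv_cancel]
    · simp only [Subgroup.subtype_apply, Subgroup.coe_mul, Subgroup.coe_inv, hc]
      rw [commutatorElement_def]
      group
  rintro x ⟨hxH, hxC⟩
  have hx1 : x ∈ (ν.ker).map H.subtype := hker (hM ▸ hxH)
  obtain ⟨y, hy, rfl⟩ := hx1
  have hyk : ∀ k : K, c k y = y := by
    intro k
    apply Subtype.ext
    rw [hc]
    have h1 := Subgroup.mem_centralizer_iff.1 hxC k k.2
    show (k : G) * y * (k : G)⁻¹ = y
    rw [show (k : G) * (y : G) = (y : G) * k from h1]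
    group
  have hν1 : (Abelianization.of y) ^ Nat.card K = 1 := by
    have h1 := hν y
    simp only [hyk, Finset.prod_const, Finset.card_univ] at h1
    have hy' : ν y = 1 := MonoidHom.mem_ker.1 hy
    rw [hy', ← Nat.card_eq_fintype_card] at h1
    exact h1.symm
  have hmem : y ^ Nat.card K ∈ commutator H := by
    rw [← Abelianization.ker_of, MonoidHom.mem_ker, map_pow, hν1]
  have hord : (Nat.card K).Coprime (orderOf y) :=
    Nat.Coprime.coprime_dvd_right (orderOf_dvd_natCard y) hcop.symm
  obtain ⟨n, hn⟩ := exists_pow_eq_self_of_coprime hord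
  have hy2 : y ∈ commutator H := by
    rw [← hn]
    exact Subgroup.pow_mem _ hmem _
  rw [← Subgroup.map_subtype_commutator]
  exact ⟨y, hy2, rfl⟩

/-- A finite `p`-group whose derived subgroup has prime index is cyclic, so abelian. -/
theorem commutator_eq_bot_of_index_prime {P : Type*} [Group P] [Finite P] {p : ℕ} [hp : Fact p.Prime]
    (hP : IsPGroup p P) (h : (commutator P).index.Prime) : commutator P = ⊥ := by
  classical
  have hne : commutator P ≠ ⊤ := by
    intro he
    rw [he, Subgroup.index_top] at h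
    exact Nat.not_prime_one h
  obtain ⟨x, hx⟩ : ∃ x, x ∉ commutator P := by
    by_contra hcon
    push Not at hcon
    exact hne (eq_top_iff.2 fun y _ => hcon y)
  have htop : Subgroup.zpowers x = ⊤ := by
    by_contra hne2
    obtain ⟨M, hM, hxM⟩ := (eq_top_or_exists_le_coatom (Subgroup.zpowers x)).resolve_left hne2
    have hDM : commutator P ≤ M := by
      rw [commutator_def, Subgroup.commutator_le]
      intro a _ b _
      exact (Cfsg.Agent.Lib.H6PGroup.coatom_facts hP hM).2 a b
    have hidx : M.index ∣ (commutator P).index := Subgroup.index_dvd_of_le hDM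
    rcases (Nat.dvd_prime h).1 hidx with h1 | h1
    · rw [Subgroup.index_eq_one] at h1
      exact hM.1 h1
    · have hrel : (commutator P).relIndex M * M.index = (commutator P).index :=
        Subgroup.relIndex_mul_index hDM
      rw [h1] at hrel
      have h2 : (commutator P).relIndex M = 1 := by
        have h3 : 0 < (commutator P).index := h.pos
        exact Nat.eq_of_mul_eq_mul_right h3 (by rw [hrel, one_mul])
      have h4 : M ≤ commutator P := Subgroup.relIndex_eq_one.1 h2
      exact hx (h4 (hxM (Subgroup.mem_zpowers x)))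
  rw [commutator_def, ← le_bot_iff, Subgroup.commutator_le]
  intro a _ b _
  have ha : a ∈ Subgroup.zpowers x := by rw [htop]; trivial
  have hb : b ∈ Subgroup.zpowers x := by rw [htop]; trivial
  obtain ⟨i, rfl⟩ := ha
  obtain ⟨j, rfl⟩ := hb
  rw [Subgroup.mem_bot, commutatorElement_eq_one_iff_commute]
  exact (Commute.refl x).zpow_zpow i j

/-- The prime index of a nilpotent derived subgroup does not divide its order. -/
theorem coprime_of_nilpotent (hD : Group.IsNilpotent ↥(commutator G)) (hq : (commutator G).index.Prime) :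
    (Nat.card ↥(commutator G)).Coprime (commutator G).index := by
  classical
  set D := commutator G with hDdef
  set q := D.index with hqdef
  haveI : Fact q.Prime := ⟨hq⟩
  haveI hDn : D.Normal := by rw [hDdef, commutator_def]; exact Subgroup.commutator_normal ⊤ ⊤
  obtain ⟨K, hKn, hKq, hpow⟩ := Cfsg.Agent.Lib.PNilp.npc_iff.1
    (Cfsg.Agent.Lib.ThompsonFpf.npc_of_nilpotent (N := ↥D) q)
  set O := pPrimeCore q ↥D with hOdef
  haveI hOc : O.Characteristic := Cfsg.Agent.Lib.PComps.pPrimeCore_characteristic
  have hKO : K ≤ O := by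
    refine le_sSup ⟨hKn, ?_⟩
    exact ((Nat.Prime.coprime_iff_not_dvd hq).2 hKq).symm
  have hOq : ¬ q ∣ Nat.card O := Cfsg.Agent.Lib.FitCore.not_dvd_card_pPrimeCore q hq
  let N : Subgroup G := O.map D.subtype
  haveI hNn : N.Normal := Cfsg.Agent.Lib.FitCore.map_subtype_normal_of_char D O
  have hND : N ≤ D := by
    rintro _ ⟨y, -, rfl⟩
    exact y.2
  have hP : IsPGroup q (G ⧸ N) := by
    intro a
    induction a using QuotientGroup.induction_on with | H g => ?_
    have h1 : g ^ q ∈ D := by
      have h2 : ((g : G ⧸ D)) ^ q = 1 := by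
        have := pow_card_eq_one' (x := ((g : G ⧸ D)))
        rwa [← Subgroup.index_eq_card] at this
      rw [← QuotientGroup.mk_pow] at h2
      exact (QuotientGroup.eq_one_iff _).1 h2
    obtain ⟨m, hm⟩ := hpow ⟨g ^ q, h1⟩
    refine ⟨m + 1, ?_⟩
    rw [← QuotientGroup.mk_pow, QuotientGroup.eq_one_iff]
    have h3 := hKO hm
    have h4 : ((⟨g ^ q, h1⟩ : D) ^ q ^ m : D).1 ∈ N := ⟨_, h3, rfl⟩
    have e : g ^ q ^ (m + 1) = ((⟨g ^ q, h1⟩ : D) ^ q ^ m : D).1 := by
      simp only [Subgroup.coe_pow]
      rw [← pow_mul, pow_succ, mul_comm]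
    rw [e]
    exact h4
  let π := QuotientGroup.mk' N
  have hcomm : commutator (G ⧸ N) = D.map π := by
    rw [hDdef, commutator_def, commutator_def, Subgroup.map_commutator,
      Subgroup.map_top_of_surjective π (QuotientGroup.mk'_surjective N)]
  have hidx : (D.map π).index = q := by
    rw [Subgroup.index_map, QuotientGroup.ker_mk', sup_eq_left.2 hND,
      MonoidHom.range_eq_top.2 (QuotientGroup.mk'_surjective N), Subgroup.index_top, mul_one]
  have hbot := commutator_eq_bot_of_index_prime hP (by rw [hcomm, hidx]; exact hq)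
  rw [hcomm, Subgroup.map_eq_bot_iff, QuotientGroup.ker_mk'] at hbot
  have hDN : D = N := le_antisymm hbot hND
  have hcard : Nat.card D = Nat.card O :=
    (congrArg (fun S : Subgroup G => Nat.card S) hDN).trans
      (Subgroup.card_map_of_injective D.subtype_injective)
  rw [hcard]
  exact ((Nat.Prime.coprime_iff_not_dvd hq).2 hOq).symm

theorem main [Group.IsSolvable G] :
    (∀ (H K : Subgroup G), H.Normal → (Nat.card H).Coprime H.index → Subgroup.IsComplement' H K → H ≤ commutator G →
        H = ⁅H, K⁆ ∧ H ⊓ Subgroup.centralizer (K : Set G) ≤ ⁅H, H⁆) ∧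
      (Group.IsNilpotent ↥(commutator G) → (commutator G).index.Prime →
        (Nat.card ↥(commutator G)).Coprime (commutator G).index ∧
        ∀ K : Subgroup G, Subgroup.IsComplement' (commutator G) K → commutator G = ⁅(⊤ : Subgroup G), K⁆) := by
  refine ⟨fun H K hn hc hK hle => ?_, fun hD hq => ⟨coprime_of_nilpotent hD hq, fun K hK => ?_⟩⟩
  · have hM := commutator_eq_of_le hn hK hle
    refine ⟨hM, inf_centralizer_le hn ?_ hM⟩
    rw [← hK.symm.index_eq_card]
    exact hc
  · have hDn : (commutator G).Normal := by rw [commutator_def]; exact Subgroup.commutator_normal ⊤ ⊤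
    have h1 := commutator_eq_of_le hDn hK le_rfl
    apply le_antisymm
    · calc commutator G = ⁅commutator G, K⁆ := h1
        _ ≤ ⁅(⊤ : Subgroup G), K⁆ := Subgroup.commutator_mono le_top le_rfl
    · rw [commutator_def]
      exact Subgroup.commutator_mono le_rfl le_top

end Cfsg.Agent.Lib.SolvCoprime
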