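import Mathlib
import Cfsg.Prelude
import Cfsg.Agent.Lib.QdStable
import Cfsg.Agent.Lib.QdOver

/-! Solvable groups with abelian Sylow `2`-subgroups at `p = 3`, or any solvable group at `p ≥ 5`, are stable. -/

set_option autoImplicit false

namespace Cfsg.Agent.Lib.SolvStable

open scoped commutatorElement
open Matrix

section sl2
variable {F : Type*} [Field F]

/-- Upper transvection. -/
def uu (c : F) : Matrix.SpecialLinearGroup (Fin 2) F := ⟨!![1, c; 0, 1], by simp [Matrix.det_fin_two_of]⟩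
/-- Lower transvection. -/
def ll (c : F) : Matrix.SpecialLinearGroup (Fin 2) F := ⟨!![1, 0; c, 1], by simp [Matrix.det_fin_two_of]⟩
/-- Diagonal element. -/
def dd (t : F) (ht : t ≠ 0) : Matrix.SpecialLinearGroup (Fin 2) F :=
  ⟨!![t, 0; 0, t⁻¹], by simp [Matrix.det_fin_two_of, ht]⟩

theorem ext2 {A B : Matrix.SpecialLinearGroup (Fin 2) F} (h00 : A 0 0 = B 0 0) (h01 : A 0 1 = B 0 1)
    (h10 : A 1 0 = B 1 0) (h11 : A 1 1 = B 1 1) : A = B := by
  apply Subtype.ext
  ext i j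
  fin_cases i <;> fin_cases j <;> assumption

theorem mul_apply2 (A B : Matrix.SpecialLinearGroup (Fin 2) F) (i j : Fin 2) :
    (A * B) i j = A i 0 * B 0 j + A i 1 * B 1 j := by
  change ((A : Matrix (Fin 2) (Fin 2) F) * (B : Matrix (Fin 2) (Fin 2) F)) i j = _
  rw [Matrix.mul_apply, Fin.sum_univ_two]

@[simp] theorem uu00 (c : F) : uu c 0 0 = 1 := rfl
@[simp] theorem uu01 (c : F) : uu c 0 1 = c := rfl
@[simp] theorem uu10 (c : F) : uu c 1 0 = 0 := rfl
@[simp] theorem uu11 (c : F) : uu c 1 1 = 1 := rfl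
@[simp] theorem ll00 (c : F) : ll c 0 0 = 1 := rfl
@[simp] theorem ll01 (c : F) : ll c 0 1 = 0 := rfl
@[simp] theorem ll10 (c : F) : ll c 1 0 = c := rfl
@[simp] theorem ll11 (c : F) : ll c 1 1 = 1 := rfl
@[simp] theorem dd00 (t : F) (ht : t ≠ 0) : dd t ht 0 0 = t := rfl
@[simp] theorem dd01 (t : F) (ht : t ≠ 0) : dd t ht 0 1 = 0 := rfl
@[simp] theorem dd10 (t : F) (ht : t ≠ 0) : dd t ht 1 0 = 0 := rfl
@[simp] theorem dd11 (t : F) (ht : t ≠ 0) : dd t ht 1 1 = t⁻¹ := rfl

theorem uu_add (a b : F) : uu (a + b) = uu a * uu b := by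
  apply ext2 <;> simp [mul_apply2, add_comm]

theorem ll_add (a b : F) : ll (a + b) = ll a * ll b := by
  apply ext2 <;> simp [mul_apply2, add_comm]

theorem dd_uu (t : F) (ht : t ≠ 0) (c : F) : dd t ht * uu c = uu (t ^ 2 * c) * dd t ht := by
  apply ext2 <;> simp [mul_apply2]
  field_simp

theorem dd_ll (t : F) (ht : t ≠ 0) (c : F) : dd t ht * ll c = ll ((t⁻¹) ^ 2 * c) * dd t ht := by
  apply ext2 <;> simp [mul_apply2]
  field_simp

theorem dd_eq (t : F) (ht : t ≠ 0) :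
    dd t ht = uu t * ll (-t⁻¹) * uu t * uu (-1) * ll 1 * uu (-1) := by
  apply ext2 <;> simp [mul_apply2] <;> field_simp <;> ring

theorem uu_inv (c : F) : (uu c)⁻¹ = uu (-c) := by
  rw [inv_eq_iff_mul_eq_one, ← uu_add, add_neg_cancel]
  apply ext2 <;> simp

theorem ll_inv (c : F) : (ll c)⁻¹ = ll (-c) := by
  rw [inv_eq_iff_mul_eq_one, ← ll_add, add_neg_cancel]
  apply ext2 <;> simp

theorem comm_dd_uu (t : F) (ht : t ≠ 0) (c : F) : ⁅dd t ht, uu c⁆ = uu ((t ^ 2 - 1) * c) := by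
  rw [commutatorElement_def, dd_uu, mul_inv_cancel_right, uu_inv, ← uu_add]
  congr 1
  ring

theorem comm_dd_ll (t : F) (ht : t ≠ 0) (c : F) : ⁅dd t ht, ll c⁆ = ll (((t⁻¹) ^ 2 - 1) * c) := by
  rw [commutatorElement_def, dd_ll, mul_inv_cancel_right, ll_inv, ← ll_add]
  congr 1
  ring

/-- `SL₂` over a field with an element whose square is not one is not solvable. -/
theorem not_solvable_sl2 {t : F} (ht0 : t ≠ 0) (ht : t ^ 2 ≠ 1) :
    ¬ Group.IsSolvable (Matrix.SpecialLinearGroup (Fin 2) F) := by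
  intro hs
  obtain ⟨n, hn⟩ := isSolvable_def _ |>.1 hs
  have key : ∀ m, (∀ c : F, uu c ∈ derivedSeries (Matrix.SpecialLinearGroup (Fin 2) F) m) ∧
      (∀ c : F, ll c ∈ derivedSeries (Matrix.SpecialLinearGroup (Fin 2) F) m) := by
    intro m
    induction m with
    | zero => exact ⟨fun _ => trivial, fun _ => trivial⟩
    | succ m ih =>
      obtain ⟨h1, h2⟩ := ih
      have hd : dd t ht0 ∈ derivedSeries (Matrix.SpecialLinearGroup (Fin 2) F) m := by
        rw [dd_eq]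
        exact Subgroup.mul_mem _ (Subgroup.mul_mem _ (Subgroup.mul_mem _ (Subgroup.mul_mem _
          (Subgroup.mul_mem _ (h1 _) (h2 _)) (h1 _)) (h1 _)) (h2 _)) (h1 _)
      constructor
      · intro c
        have hne : t ^ 2 - 1 ≠ 0 := sub_ne_zero.2 ht
        have e := comm_dd_uu t ht0 ((t ^ 2 - 1)⁻¹ * c)
        rw [← mul_assoc, mul_inv_cancel₀ hne, one_mul] at e
        rw [← e, derivedSeries_succ]
        exact Subgroup.commutator_mem_commutator hd (h1 _)
      · intro c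
        have hne : (t⁻¹) ^ 2 - 1 ≠ 0 := by
          refine sub_ne_zero.2 ?_
          intro h
          apply ht
          have : (t⁻¹ ^ 2) * t ^ 2 = t ^ 2 := by rw [h, one_mul]
          rw [← mul_pow, inv_mul_cancel₀ ht0, one_pow] at this
          exact this.symm
        have e := comm_dd_ll t ht0 (((t⁻¹) ^ 2 - 1)⁻¹ * c)
        rw [← mul_assoc, mul_inv_cancel₀ hne, one_mul] at e
        rw [← e, derivedSeries_succ]
        exact Subgroup.commutator_mem_commutator hd (h2 _)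
  have h1 := (key n).1 1
  rw [hn, Subgroup.mem_bot] at h1
  have h2 := congrArg (fun A : Matrix.SpecialLinearGroup (Fin 2) F => A 0 1) h1
  simp at h2

end sl2

section transfer
variable {G : Type*} [Group G] [Finite G]

/-- Abelian Sylow subgroups pass to homomorphic images of subgroups. -/
theorem abelian_transfer (hG : ∀ T : Sylow 2 G, IsMulCommutative T) {X : Type*} [Group X] [Finite X]
    (K : Subgroup G) (Θ : K →* X) (hΘ : Function.Surjective Θ) (S : Sylow 2 X) :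
    ∀ x ∈ (S : Subgroup X), ∀ y ∈ (S : Subgroup X), x * y = y * x := by
  classical
  haveI : Fact (Nat.Prime 2) := ⟨Nat.prime_two⟩
  obtain ⟨T⟩ : Nonempty (Sylow 2 K) := inferInstance
  have hTab : ∀ a ∈ (T : Subgroup K), ∀ b ∈ (T : Subgroup K), a * b = b * a := by
    intro a ha b hb
    have hp : IsPGroup 2 ((T : Subgroup K).map K.subtype) := T.isPGroup'.map K.subtype
    obtain ⟨U, hU⟩ := hp.exists_le_sylow
    have hab := (hG U).is_comm.comm ⟨a, hU ⟨a, ha, rfl⟩⟩ ⟨b, hU ⟨b, hb, rfl⟩⟩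
    have h2 : (a : G) * b = b * a := congrArg Subtype.val hab
    exact Subtype.ext h2
  let S₀ : Sylow 2 X := T.mapSurjective hΘ
  have hS₀ : ∀ x ∈ (S₀ : Subgroup X), ∀ y ∈ (S₀ : Subgroup X), x * y = y * x := by
    rintro _ ⟨a, ha, rfl⟩ _ ⟨b, hb, rfl⟩
    rw [← map_mul, ← map_mul, hTab a ha b hb]
  obtain ⟨g, hg⟩ := MulAction.exists_smul_eq X S₀ S
  have hS : (S : Subgroup X) = (S₀ : Subgroup X).map (MulAut.conj g).toMonoidHom := by
    rw [← hg]
    rfl
  rw [hS]
  rintro _ ⟨a, ha, rfl⟩ _ ⟨b, hb, rfl⟩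
  rw [← map_mul, ← map_mul, hS₀ a ha b hb]

end transfer

section q8

/-- The element `i` of `Q₈` in `SL₃(3)`. -/
def i3 : Matrix.SpecialLinearGroup (Fin 3) (ZMod 3) :=
  ⟨!![0, -1, 0; 1, 0, 0; 0, 0, 1], by decide +kernel⟩
/-- The element `j` of `Q₈` in `SL₃(3)`. -/
def j3 : Matrix.SpecialLinearGroup (Fin 3) (ZMod 3) :=
  ⟨!![1, 1, 0; 1, -1, 0; 0, 0, 1], by decide +kernel⟩
/-- The quaternion group in `SL₃(3)`. -/
def L3 : Finset (Matrix.SpecialLinearGroup (Fin 3) (ZMod 3)) :=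
  {1, i3, j3, i3 * j3, i3 * i3, i3 * i3 * i3, i3 * i3 * j3, i3 * i3 * i3 * j3}

set_option maxRecDepth 100000 in
theorem L3_one : (1 : Matrix.SpecialLinearGroup (Fin 3) (ZMod 3)) ∈ L3 := by decide +kernel
set_option maxRecDepth 100000 in
theorem L3_mul : ∀ a ∈ L3, ∀ b ∈ L3, a * b ∈ L3 := by decide +kernel
set_option maxRecDepth 100000 in
theorem L3_pow7 : ∀ a ∈ L3, a * a * a * a * a * a * a ∈ L3 := by decide +kernel
set_option maxRecDepth 100000 in
theorem L3_pow8 : ∀ a ∈ L3, a * a * a * a * a * a * a * a = 1 := by decide +kernel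
set_option maxRecDepth 100000 in
theorem L3_row : ∀ a ∈ L3, a 2 0 = 0 ∧ a 2 1 = 0 ∧ a 2 2 = 1 := by decide +kernel
set_option maxRecDepth 100000 in
theorem i3_mem : i3 ∈ L3 := by decide +kernel
set_option maxRecDepth 100000 in
theorem j3_mem : j3 ∈ L3 := by decide +kernel
set_option maxRecDepth 100000 in
theorem i3j3 : i3 * j3 ≠ j3 * i3 := by decide +kernel

/-- The quaternion group as a subgroup. -/
def Q3 : Subgroup (Matrix.SpecialLinearGroup (Fin 3) (ZMod 3)) where
  carrier := {a | a ∈ L3}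
  mul_mem' := fun ha hb => L3_mul _ ha _ hb
  one_mem' := L3_one
  inv_mem' := fun {a} ha => by
    have h1 := L3_pow7 a ha
    have h2 := L3_pow8 a ha
    have : a⁻¹ = a * a * a * a * a * a * a := (eq_inv_of_mul_eq_one_left h2).symm
    change a⁻¹ ∈ L3
    rw [this]
    exact h1

/-- `qd 3` has a non-abelian Sylow `2`-subgroup. -/
theorem qd3_sylow : ∃ S : Sylow 2 ↥(Cfsg.qd 3), ∃ x ∈ (S : Subgroup ↥(Cfsg.qd 3)), ∃ y ∈ (S : Subgroup ↥(Cfsg.qd 3)), x * y ≠ y * x := by
  haveI : Fact (Nat.Prime 3) := ⟨Nat.prime_three⟩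
  haveI : Fact (Nat.Prime 2) := ⟨Nat.prime_two⟩
  have hle : ∀ a ∈ L3, a ∈ Cfsg.qd 3 := fun a ha => Subgroup.subset_closure (L3_row a ha)
  let Q : Subgroup ↥(Cfsg.qd 3) := Q3.subgroupOf (Cfsg.qd 3)
  have hQ : IsPGroup 2 Q := by
    intro g
    refine ⟨3, ?_⟩
    apply Subtype.ext
    apply Subtype.ext
    have h2 := L3_pow8 _ g.2
    simpa [pow_succ, mul_assoc] using h2
  obtain ⟨S, hS⟩ := hQ.exists_le_sylow
  refine ⟨S, ⟨i3, hle _ i3_mem⟩, hS i3_mem, ⟨j3, hle _ j3_mem⟩, hS j3_mem, ?_⟩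
  intro h
  exact i3j3 (congrArg Subtype.val h)

end q8

/-- The stability statement. -/
theorem stable_of_solvable {G : Type*} [Group G] [Finite G] {p : ℕ} [hpp : Fact p.Prime] (hp : p ≠ 2)
    (hs : Group.IsSolvable G) (h3 : p = 3 → ∀ T : Sylow 2 G, IsMulCommutative T) :
    Cfsg.IsNormalizerPStable p G := by
  by_contra hn
  obtain ⟨K, Θ, hΘ⟩ := Cfsg.Agent.Lib.QdStable.invTo_of_not_stable hp hn
  by_cases hp3 : p = 3
  · subst hp3
    obtain ⟨S, x, hx, y, hy, hxy⟩ := qd3_sylow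
    exact hxy (abelian_transfer (h3 rfl) K Θ hΘ S x hx y hy)
  · haveI := hs
    haveI hsK : Group.IsSolvable K := inferInstance
    haveI hsq : Group.IsSolvable ↥(Cfsg.qd p) := solvable_of_surjective hΘ
    haveI hsq' : Group.IsSolvable ↥(Cfsg.qdOver (ZMod p)) := hsq
    have hsl : Group.IsSolvable (Matrix.SpecialLinearGroup (Fin 2) (ZMod p)) :=
      solvable_of_surjective (Cfsg.Agent.Lib.QdOver.tauF_surjective (F := ZMod p))
    have hpp' : p.Prime := hpp.out
    have h5 : 5 ≤ p := by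
      by_contra h
      have : p ≤ 4 := by omega
      interval_cases p <;> simp_all (config := { decide := true })
    have h2 : (2 : ZMod p) ≠ 0 := by
      intro h
      have : ((2 : ℕ) : ZMod p) = 0 := by exact_mod_cast h
      rw [ZMod.natCast_eq_zero_iff] at this
      have := Nat.le_of_dvd (by norm_num) this
      omega
    have h3' : (2 : ZMod p) ^ 2 ≠ 1 := by
      intro h
      have h4 : ((3 : ℕ) : ZMod p) = 0 := by
        have : (2 : ZMod p) ^ 2 - 1 = 0 := sub_eq_zero.2 h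
        push_cast
        linear_combination this
      rw [ZMod.natCast_eq_zero_iff] at h4
      have := Nat.le_of_dvd (by norm_num) h4
      omega
    exact not_solvable_sl2 h2 h3' hsl

end Cfsg.Agent.Lib.SolvStable
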