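/-
The Borel subgroup of `Sp_{2m}(q)`.
-/
import Mathlib
import Cfsg.Agent.Lib.SpParab

set_option autoImplicit false
set_option linter.all false

open scoped Matrix
open Cfsg Cfsg.Geo Cfsg.Agent.Lib.SymplecticTv Cfsg.Agent.Lib.ClassGeom Cfsg.Agent.Lib.SpParab

namespace Cfsg.Agent.Lib.SpBorel

variable {F : Type*} [Field F] {m : ℕ}

/-- The standard flag. -/
def Wj (m : ℕ) (F : Type*) [Field F] (j : ℕ) : Submodule F (Fin m ⊕ Fin m → F) where
  carrier := {v | (∀ i : Fin m, j ≤ (i : ℕ) → v (Sum.inl i) = 0) ∧ ∀ i : Fin m, v (Sum.inr i) = 0}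
  add_mem' := by
    rintro a b ⟨h1, h2⟩ ⟨h3, h4⟩
    exact ⟨fun i hi => by simp [h1 i hi, h3 i hi], fun i => by simp [h2 i, h4 i]⟩
  zero_mem' := ⟨fun i _ => rfl, fun i => rfl⟩
  smul_mem' := by
    rintro c a ⟨h1, h2⟩
    exact ⟨fun i hi => by simp [h1 i hi], fun i => by simp [h2 i]⟩

theorem mem_Wj {j : ℕ} {v : Fin m ⊕ Fin m → F} :
    v ∈ Wj m F j ↔ (∀ i : Fin m, j ≤ (i : ℕ) → v (Sum.inl i) = 0) ∧ ∀ i : Fin m, v (Sum.inr i) = 0 := Iff.rfl

theorem Wj_mono {j j' : ℕ} (h : j ≤ j') : Wj m F j ≤ Wj m F j' :=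
  fun v hv => ⟨fun i hi => hv.1 i (h.trans hi), hv.2⟩

theorem Wj_zero : Wj m F 0 = ⊥ := by
  rw [eq_bot_iff]
  intro v hv
  rw [Submodule.mem_bot]
  funext x
  rcases x with i | i
  · exact hv.1 i (Nat.zero_le _)
  · exact hv.2 i

/-- The standard basis vectors. -/
def eJ (j : Fin m) : Fin m ⊕ Fin m → F := Pi.single (Sum.inl j) 1

theorem eJ_mem (j : Fin m) : (eJ j : Fin m ⊕ Fin m → F) ∈ Wj m F (j + 1) := by
  constructor
  · intro i hi
    simp only [eJ]
    rw [Pi.single_eq_of_ne]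
    intro h
    have := Sum.inl.inj h
    subst this
    omega
  · intro i
    simp [eJ]

theorem eJ_notMem (j : Fin m) : (eJ j : Fin m ⊕ Fin m → F) ∉ Wj m F j := by
  intro h
  have := h.1 j le_rfl
  simp [eJ] at this

/-- Tuples adapted to the flag. -/
abbrev YY (m : ℕ) (F : Type*) [Field F] :=
  {c : Fin m → (Fin m ⊕ Fin m → F) // ∀ j : Fin m, c j ∈ Wj m F ((j : ℕ) + 1) ∧ c j ∉ Wj m F (j : ℕ)}

theorem coord_ne {c : Fin m ⊕ Fin m → F} {j : Fin m} (h1 : c ∈ Wj m F (j + 1)) (h2 : c ∉ Wj m F j) :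
    c (Sum.inl j) ≠ 0 := by
  intro h
  apply h2
  refine ⟨fun i hi => ?_, h1.2⟩
  rcases Nat.eq_or_lt_of_le hi with h3 | h3
  · have : i = j := Fin.ext h3.symm
    rw [this, h]
  · exact h1.1 i h3

theorem YY_li (c : YY m F) : LinearIndependent F c.1 := by
  rw [Fintype.linearIndependent_iff]
  intro g hg
  have key : ∀ n : ℕ, ∀ j : Fin m, m - j.val ≤ n → g j = 0 := by
    intro n
    induction n with
    | zero =>
      intro j hj
      omega
    | succ n ih =>
      intro j hj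
      have h1 := congrFun hg (Sum.inl j)
      simp only [Finset.sum_apply, Pi.smul_apply, smul_eq_mul, Pi.zero_apply] at h1
      rw [Finset.sum_eq_single j] at h1
      · exact (mul_eq_zero.1 h1).resolve_right (coord_ne (c.2 j).1 (c.2 j).2)
      · intro i _ hij
        rcases lt_or_gt_of_ne (Fin.val_ne_of_ne hij) with h2 | h2
        · rw [(c.2 i).1.1 j (by omega), mul_zero]
        · rw [ih i (by omega), zero_mul]
      · simp
  intro i
  exact key _ i le_rfl

theorem Wj_isotropic {j j' : ℕ} {u v : Fin m ⊕ Fin m → F} (hu : u ∈ Wj m F j) (hv : v ∈ Wj m F j') :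
    sympForm m F u v = 0 := by
  rw [sympForm_apply]
  apply Finset.sum_eq_zero
  intro i _
  rw [hu.2 i, hv.2 i]
  ring

/-- Adapted tuples are isotropic tuples. -/
def toIso (c : YY m F) : IsoT m m F :=
  ⟨c.1, YY_li c, fun i j => Wj_isotropic (c.2 i).1 (c.2 j).1⟩

/-- The standard adapted tuple. -/
def stdY : YY m F := ⟨eJ, fun j => ⟨eJ_mem j, eJ_notMem j⟩⟩

/-- The Borel subgroup. -/
abbrev BB (m : ℕ) (F : Type*) [Field F] : Subgroup (Matrix.symplecticGroup (Fin m) F) :=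
  ⨅ k : Fin m, Cfsg.stabilizing (Cfsg.spToMat m F) {v : Fin m ⊕ Fin m → F |
    (∀ i : Fin m, (k : ℕ) < (i : ℕ) → v (Sum.inl i) = 0) ∧ ∀ i : Fin m, v (Sum.inr i) = 0}

theorem mem_BB {A : SpG m F} : A ∈ BB m F ↔ ∀ k : Fin m, ∀ v, v ∈ Wj m F (k + 1) ↔ A.1 *ᵥ v ∈ Wj m F (k + 1) := by
  rw [Subgroup.mem_iInf]
  constructor
  · intro h k v
    exact h k v
  · intro h k v
    exact h k v

/-- Preservation of a finite-dimensional subspace implies stabilisation. -/
theorem stab_of_le {U : Submodule F (Fin m ⊕ Fin m → F)} [Finite F] (A : SpG m F) (h : ∀ v ∈ U, A.1 *ᵥ v ∈ U) (v) :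
    v ∈ U ↔ A.1 *ᵥ v ∈ U := by
  refine ⟨h v, fun hv => ?_⟩
  have hinj : Function.Injective (Matrix.mulVecLin A.1) := sp_injective A
  have h1 : Submodule.map (Matrix.mulVecLin A.1) U = U := by
    apply Submodule.eq_of_le_of_finrank_eq
    · rintro _ ⟨u, hu, rfl⟩
      exact h u hu
    · exact (Submodule.equivMapOfInjective _ hinj U).finrank_eq.symm
  have h2 : A.1 *ᵥ v ∈ Submodule.map (Matrix.mulVecLin A.1) U := by
    rw [h1]
    exact hv
  obtain ⟨u, hu, hu2⟩ := h2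
  have : u = v := sp_injective A hu2
  rw [← this]
  exact hu

theorem eq_sum_eJ {j : ℕ} {v : Fin m ⊕ Fin m → F} (hv : v ∈ Wj m F j) : v = ∑ i : Fin m, v (Sum.inl i) • eJ i := by
  funext x
  simp only [Finset.sum_apply, Pi.smul_apply, smul_eq_mul]
  rcases x with i | i
  · rw [Finset.sum_eq_single i]
    · simp [eJ]
    · intro b _ hb
      simp [eJ, hb]
    · simp
  · rw [hv.2 i]
    symm
    apply Finset.sum_eq_zero
    intro b _
    simp [eJ]

theorem mem_BB_of [Finite F] (A : SpG m F) (h : ∀ j : Fin m, A.1 *ᵥ eJ j ∈ Wj m F ((j : ℕ) + 1)) : A ∈ BB m F := by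
  rw [mem_BB]
  intro k
  apply stab_of_le
  intro v hv
  rw [eq_sum_eJ hv]
  have : A.1 *ᵥ (∑ i : Fin m, v (Sum.inl i) • eJ i) = ∑ i : Fin m, v (Sum.inl i) • (A.1 *ᵥ eJ i) := by
    rw [← Matrix.mulVecLin_apply, map_sum]
    simp only [map_smul, Matrix.mulVecLin_apply]
  rw [this]
  apply Submodule.sum_mem
  intro i _
  by_cases hi : (k : ℕ) + 1 ≤ i
  · rw [hv.1 i hi, zero_smul]
    exact Submodule.zero_mem _
  · exact Submodule.smul_mem _ _ (Wj_mono (by omega) (h i))

/-- The image of the standard tuple. -/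
def toYY [Finite F] (A : BB m F) : YY m F :=
  ⟨fun j => A.1.1 *ᵥ eJ j, fun j => ⟨(mem_BB.1 A.2 j (eJ j)).1 (eJ_mem j), by
    intro h
    by_cases hj : (j : ℕ) = 0
    · rw [hj, Wj_zero, Submodule.mem_bot] at h
      have h2 : eJ j = (0 : Fin m ⊕ Fin m → F) := by
        apply sp_injective A.1
        simpa using h
      have := eJ_notMem (F := F) j
      rw [h2] at this
      exact this (Submodule.zero_mem _)
    · obtain ⟨k, hk⟩ : ∃ k, (j : ℕ) = k + 1 := ⟨(j : ℕ) - 1, by omega⟩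
      have hk' : k < m := by
        have := j.2
        omega
      have h3 := (mem_BB.1 A.2 ⟨k, hk'⟩ (eJ j)).2 (by
        show _ ∈ Wj m F (k + 1)
        rw [← hk]
        exact h)
      apply eJ_notMem (F := F) j
      rw [hk]
      exact h3⟩⟩

theorem card_BB [Fintype F] : Nat.card (BB m F) = Nat.card (YY m F) * Nat.card (Fix (toIso (stdY (m := m) (F := F)))) := by
  haveI : Finite (YY m F) := inferInstance
  refine Cfsg.Agent.Lib.SylowCount.card_eq_mul_of_fibers toYY _ ?_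
  intro c
  obtain ⟨A₀, hA₀⟩ := exists_sp_move (toIso (stdY (m := m) (F := F))) (toIso c)
  have hA₀' : ∀ j, A₀.1 *ᵥ eJ j = c.1 j := hA₀
  have hA₀B : A₀ ∈ BB m F := mem_BB_of A₀ (fun j => by
    rw [hA₀']
    exact (c.2 j).1)
  refine Nat.card_congr ⟨fun A => ⟨A₀⁻¹ * A.1.1, ?_⟩, fun B => ⟨⟨A₀ * B.1, ?_⟩, ?_⟩, ?_, ?_⟩
  · intro j
    rw [sp_mul_mulVec]
    have h1 : A.1.1.1 *ᵥ eJ j = c.1 j := congrFun (congrArg Subtype.val A.2) j
    show _ *ᵥ (A.1.1.1 *ᵥ eJ j) = eJ j
    rw [h1, ← hA₀', sp_inv_mul]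
  · apply Subgroup.mul_mem _ hA₀B
    apply mem_BB_of
    intro j
    have : B.1.1 *ᵥ eJ j = eJ j := B.2 j
    rw [this]
    exact eJ_mem j
  · apply Subtype.ext
    funext j
    show (A₀ * B.1).1 *ᵥ eJ j = c.1 j
    rw [sp_mul_mulVec]
    have : B.1.1 *ᵥ eJ j = eJ j := B.2 j
    rw [this, hA₀']
  · intro A
    apply Subtype.ext
    apply Subtype.ext
    simp
  · intro B
    apply Subtype.ext
    simp

theorem card_Wj [Fintype F] {j : ℕ} (hj : j ≤ m) : Nat.card (Wj m F j) = Fintype.card F ^ j := by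
  have e : Wj m F j ≃ (Fin j → F) := by
    refine ⟨fun v i => v.1 (Sum.inl (Fin.castLE hj i)),
      fun u => ⟨Sum.elim (fun i => if h : (i : ℕ) < j then u ⟨i, h⟩ else 0) (fun _ => 0), ?_, ?_⟩, ?_, ?_⟩
    · intro i hi
      have : ¬ (i : ℕ) < j := by omega
      simp [this]
    · intro i
      rfl
    · intro v
      apply Subtype.ext
      funext x
      rcases x with i | i
      · by_cases h : (i : ℕ) < j
        · simp [h]
        · simp only [Sum.elim_inl, h, dite_false]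
          exact (v.2.1 i (by omega)).symm
      · exact (v.2.2 i).symm
    · intro u
      funext i
      simp
  rw [Nat.card_congr e]
  simp

theorem card_YY [Fintype F] : Nat.card (YY m F) =
    ∏ j ∈ Finset.range m, (Fintype.card F ^ (j + 1) - Fintype.card F ^ j) := by
  have e : YY m F ≃ ∀ j : Fin m, {v // v ∈ Wj m F ((j : ℕ) + 1) ∧ v ∉ Wj m F (j : ℕ)} :=
    Equiv.subtypePiEquivPi (α := Fin m) (β := fun _ => Fin m ⊕ Fin m → F)
      (p := fun j v => v ∈ Wj m F ((j : ℕ) + 1) ∧ v ∉ Wj m F (j : ℕ))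
  rw [Nat.card_congr e, Nat.card_pi, ← Fin.prod_univ_eq_prod_range (fun j => Fintype.card F ^ (j + 1) - Fintype.card F ^ j)]
  apply Finset.prod_congr rfl
  intro j _
  rw [card_diff (Wj_mono (by omega)), card_Wj (by have := j.2; omega), card_Wj (by have := j.2; omega)]

theorem arith2 (q m : ℕ) (hq : 1 ≤ q) :
    (∏ j ∈ Finset.range m, (q ^ (j + 1) - q ^ j)) * q ^ (m * (m + 1) / 2) = q ^ (m ^ 2) * (q - 1) ^ m := by
  induction m with
  | zero => simp
  | succ m ih =>
    rw [Finset.prod_range_succ]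
    have e2 : q ^ (m + 1) - q ^ m = q ^ m * (q - 1) := by
      rw [pow_succ, Nat.mul_sub, mul_one]
    have e3 : (m + 1) * (m + 1 + 1) / 2 = m * (m + 1) / 2 + m + 1 := by
      have h1 : (m + 1) * (m + 1 + 1) = m * (m + 1) + 2 * (m + 1) := by ring
      rw [h1, Nat.add_mul_div_left _ _ (by norm_num)]
      ring
    rw [e2, e3, pow_add, pow_add]
    calc _ = ((∏ j ∈ Finset.range m, (q ^ (j + 1) - q ^ j)) * q ^ (m * (m + 1) / 2)) * (q ^ m * (q - 1) * q ^ m * q ^ 1) := by ring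
      _ = _ := by
        rw [ih]
        have : (m + 1) ^ 2 = m ^ 2 + m + m + 1 := by ring
        rw [this, pow_add, pow_add, pow_add]
        ring

theorem main [Fintype F] (m : ℕ) : Nat.card (BB m F) = Fintype.card F ^ (m ^ 2) * (Fintype.card F - 1) ^ m := by
  have hq : 2 ≤ Fintype.card F := Fintype.one_lt_card
  have h1 := card_BB (m := m) (F := F)
  have h2 := card_sp_eq (toIso (stdY (m := m) (F := F)))
  have h3 := card_IsoT (m := m) (F := F) m le_rfl
  have h4 := Cfsg.Agent.Lib.IsomChain.card_symplecticGroup (F := F) m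
  have h6 := arith (Fintype.card F) hq m m le_rfl
  have h7 := arith2 (Fintype.card F) m (by omega)
  have hN : 0 < ∏ i ∈ Finset.range m, (Fintype.card F ^ (2 * m - i) - Fintype.card F ^ i) := by
    apply Finset.prod_pos
    intro i hi
    have hi' := Finset.mem_range.1 hi
    have : Fintype.card F ^ i < Fintype.card F ^ (2 * m - i) :=
      Nat.pow_lt_pow_right (by omega) (by omega)
    omega
  rw [← h7, h1, card_YY]
  congr 1
  apply Nat.eq_of_mul_eq_mul_left hN
  simp only [Nat.sub_self, Finset.range_zero, Finset.prod_empty, mul_zero, add_zero, mul_one] at h6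
  have h8 : (0 : ℕ) ^ 2 = 0 := rfl
  rw [h8] at h6
  calc (∏ i ∈ Finset.range m, (Fintype.card F ^ (2 * m - i) - Fintype.card F ^ i)) * Nat.card (Fix (toIso stdY))
      = Nat.card (IsoT m m F) * Nat.card (Fix (toIso stdY)) := by rw [h3]
    _ = Nat.card (Matrix.symplecticGroup (Fin m) F) := h2.symm
    _ = _ := by
      rw [h4, ← h6]
      simp only [add_zero]
      ring

end Cfsg.Agent.Lib.SpBorel
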