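/-
The centraliser of a fixed point free element of order three of the symplectic group.
-/
import Mathlib
import Cfsg.Agent.S2639
import Cfsg.Agent.S2389
import Cfsg.Agent.Lib.GLPrimeOrd
import Cfsg.Agent.Lib.UnitaryOrder
import Cfsg.Agent.Lib.PGUPrime

set_option autoImplicit false
set_option linter.all false

open scoped MatrixGroups Matrix
open Matrix

noncomputable section

namespace Cfsg.Agent.Lib.SpOrder3

open Cfsg Cfsg.Agent.Lib

theorem pres_of_mem {l : Type*} [Fintype l] [DecidableEq l] {F : Type*} [Field F] {A : Matrix (l ⊕ l) (l ⊕ l) F}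
    (hA : A ∈ Matrix.symplecticGroup l F) (v w : l ⊕ l → F) :
    (∑ i, ((A *ᵥ v) (Sum.inl i) * (A *ᵥ w) (Sum.inr i) - (A *ᵥ v) (Sum.inr i) * (A *ᵥ w) (Sum.inl i))) =
      ∑ i, (v (Sum.inl i) * w (Sum.inr i) - v (Sum.inr i) * w (Sum.inl i)) := by
  classical
  have hJ : ∀ v w : l ⊕ l → F, v ⬝ᵥ (Matrix.J l F *ᵥ w)
      = - ∑ i, (v (Sum.inl i) * w (Sum.inr i) - v (Sum.inr i) * w (Sum.inl i)) := by
    intro v w
    have hw : w = Sum.elim (w ∘ Sum.inl) (w ∘ Sum.inr) := by
      funext i; rcases i with i | i <;> rfl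
    conv_lhs => rw [hw]
    rw [Matrix.J, Matrix.fromBlocks_mulVec, dotProduct, Fintype.sum_sum_type, ← Finset.sum_add_distrib,
      ← Finset.sum_neg_distrib]
    refine Finset.sum_congr rfl fun i _ => ?_
    simp [Matrix.neg_mulVec]
    ring
  have h1 : Aᵀ * Matrix.J l F * A = Matrix.J l F := (SymplecticGroup.mem_iff').1 hA
  have h2 : (A *ᵥ v) ⬝ᵥ (Matrix.J l F *ᵥ (A *ᵥ w)) = v ⬝ᵥ (Matrix.J l F *ᵥ w) := by
    rw [← Matrix.vecMul_transpose, ← Matrix.dotProduct_mulVec, Matrix.mulVec_mulVec, Matrix.mulVec_mulVec, h1]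
  rw [hJ, hJ] at h2
  exact neg_inj.1 h2

section poly

open Polynomial

variable {F : Type*} [Field F] [Fintype F] {p : ℕ} [Fact p.Prime] [CharP F p]

theorem not_three (hq : Fintype.card F % 3 = 2) : p ≠ 3 := by
  rintro rfl
  obtain ⟨k, _, hk⟩ := FiniteField.card F 3
  have h1 : 3 ∣ Fintype.card F := by
    rw [hk]
    exact dvd_pow_self 3 k.ne_zero
  omega

theorem irreducible_P {p : ℕ} [Fact p.Prime] [CharP F p] (hq : Fintype.card F % 3 = 2) : Irreducible (X ^ 2 + X + 1 : F[X]) := by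
  classical
  have hm : (X ^ 2 + X + 1 : F[X]).Monic := by monicity!
  have hd : (X ^ 2 + X + 1 : F[X]).natDegree = 2 := by compute_degree!
  rw [hm.irreducible_iff_roots_eq_zero_of_degree_le_three (by omega) (by omega)]
  rw [Multiset.eq_zero_iff_forall_notMem]
  intro a ha
  have h1 : a ^ 2 + a + 1 = 0 := by
    have := (Polynomial.mem_roots hm.ne_zero).1 ha
    simpa [IsRoot.def] using this
  have hp3 := not_three (p := p) hq
  have h3 : a ^ 3 = 1 := by linear_combination (a - 1) * h1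
  have ha1 : a ≠ 1 := by
    rintro rfl
    have h4 : ((3 : ℕ) : F) = 0 := by
      push_cast
      linear_combination h1
    rw [CharP.cast_eq_zero_iff F p] at h4
    exact hp3 ((Nat.prime_dvd_prime_iff_eq Fact.out Nat.prime_three).1 h4)
  have ha0 : a ≠ 0 := by
    rintro rfl
    simp at h3
  have hu : (Units.mk0 a ha0) ^ 3 = 1 := Units.ext (by simpa using h3)
  haveI : Fact (Nat.Prime 3) := ⟨Nat.prime_three⟩
  have ho : orderOf (Units.mk0 a ha0) = 3 := orderOf_eq_prime hu (fun h => ha1 (by simpa using congrArg Units.val h))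
  have hc := orderOf_dvd_card (x := Units.mk0 a ha0)
  rw [ho, Fintype.card_units] at hc
  have := Fintype.card_pos (α := F)
  omega

/-- The characteristic polynomial of a fixed point free element of order three. -/
theorem charpoly_fpf {p : ℕ} [Fact p.Prime] [CharP F p] (hq : Fintype.card F % 3 = 2) {m : ℕ} (A : Matrix (Fin m ⊕ Fin m) (Fin m ⊕ Fin m) F) (hA : A ^ 3 = 1)
    (hu : IsUnit (A - 1)) : A.charpoly = (X ^ 2 + X + 1 : F[X]) ^ m := by
  classical
  have hPi := irreducible_P (p := p) hq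
  have hm : (X ^ 2 + X + 1 : F[X]).Monic := by monicity!
  have hd : (X ^ 2 + X + 1 : F[X]).natDegree = 2 := by compute_degree!
  let e : Fin m ⊕ Fin m ≃ Fin (m + m) := finSumFinEquiv
  let ρ := Matrix.reindexAlgEquiv F F e
  have h1 : (ρ A).charpoly = A.charpoly := Matrix.charpoly_reindex e A
  have h2 : (ρ A) ^ 3 = 1 := by rw [← map_pow, hA, map_one]
  have h3 := GLPrimeOrd.charpoly_dvd_pow _ h2
  rw [h1] at h3
  have hf : (X ^ 3 - 1 : F[X]) = (X - 1) * (X ^ 2 + X + 1) := by ring
  rw [hf, mul_pow] at h3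
  -- coprimality with `X - 1`
  have hcop : IsCoprime A.charpoly (X - 1 : F[X]) := by
    have hX : Irreducible (X - 1 : F[X]) := by
      have := irreducible_X_sub_C (1 : F)
      simpa using this
    rw [isCoprime_comm, hX.coprime_iff_not_dvd]
    intro h
    have h4 : eval 1 A.charpoly = 0 := by
      obtain ⟨c, hc⟩ := h
      rw [hc]
      simp
    have h5 : eval 1 A.charpoly = (1 - A).det := by
      have h := RingHom.map_det (evalRingHom (1 : F)) (Matrix.charmatrix A)
      have h8 : (evalRingHom (1 : F)).mapMatrix (Matrix.charmatrix A) = 1 - A := by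
        ext i j
        by_cases hij : i = j
        · subst hij
          simp [Matrix.charmatrix_apply_eq]
        · simp [Matrix.charmatrix_apply_ne _ _ _ hij, Matrix.one_apply, hij]
      rw [h8] at h
      exact h
    have h6 : IsUnit (1 - A) := by
      have : 1 - A = -(A - 1) := by simp
      rw [this]
      exact hu.neg
    have h7 := ((Matrix.isUnit_iff_isUnit_det _).1 h6).ne_zero
    rw [← h5] at h7
    exact h7 h4
  have h4 := (hcop.pow_right (n := m + m)).dvd_of_dvd_mul_left h3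
  obtain ⟨k, _, hk⟩ := (dvd_prime_pow hPi.prime _).1 h4
  have h5 : A.charpoly = (X ^ 2 + X + 1 : F[X]) ^ k :=
    eq_of_monic_of_associated (Matrix.charpoly_monic _) (hm.pow k) hk
  have h6 := congrArg natDegree h5
  rw [Matrix.charpoly_natDegree_eq_dim, hm.natDegree_pow, hd] at h6
  simp only [Fintype.card_sum, Fintype.card_fin] at h6
  have h7 : k = m := by omega
  rw [h5, h7]

end poly

section main

variable {F : Type*} [Field F] [Fintype F]

/-- The product formula in the statement. -/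
theorem formula {q : ℕ} (m : ℕ) (hq : 1 ≤ q) :
    (((q ^ (m * (m - 1) / 2) * ∏ i ∈ Finset.range m, (if Even i then q ^ (i + 1) + 1 else q ^ (i + 1) - 1) : ℕ)) : ℤ) =
      (q : ℤ) ^ (m * (m - 1) / 2) * ∏ i : Fin m, ((q : ℤ) ^ ((i : ℕ) + 1) - (-1) ^ ((i : ℕ) + 1)) := by
  rw [Finset.prod_range]
  push_cast
  congr 1
  apply Finset.prod_congr rfl
  intro i _
  by_cases hi : Even (i : ℕ)
  · rw [if_pos hi, pow_succ (-1 : ℤ), hi.neg_one_pow]
    push_cast
    ring
  · rw [if_neg hi]
    have h1 : 1 ≤ q ^ ((i : ℕ) + 1) := Nat.one_le_pow _ _ (by omega)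
    push_cast [Nat.cast_sub h1]
    have h2 : Even ((i : ℕ) + 1) := by
      rw [Nat.even_add_one]
      exact hi
    rw [h2.neg_one_pow]

/-- The centraliser of one particular element. -/
theorem exists_model {K : Type*} [Field K] [Fintype K] {q : ℕ} (hK : Fintype.card K = q ^ 2) (hF : Fintype.card F = q)
    (hq : q % 3 = 2) (m : ℕ) :
    ∃ x₀ : ↥(Matrix.symplecticGroup (Fin m) F), x₀ ^ 3 = 1 ∧ IsUnit ((x₀ : Matrix (Fin m ⊕ Fin m) (Fin m ⊕ Fin m) F) - 1) ∧
      Nat.card ↥(Subgroup.centralizer ({x₀} : Set ↥(Matrix.symplecticGroup (Fin m) F))) = Nat.card ↥(GU m K q) := by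
  classical
  obtain ⟨φ, ι, δ, s, ζ, f, hφ, h2, hι, hsurj, hδ0, hδ, hs, hζ, hζ1, hf⟩ := GUEmbed.exists_all hK hF
  letI : Algebra F K := ι.toAlgebra
  have hι' : ∀ x : F, φ (algebraMap F K x) = algebraMap F K x := hι
  obtain ⟨ρ, hρ⟩ := GUEmbed.exists_equiv (A := Fin m ⊕ Fin m) hK hF (by simp; ring)
    (GUEmbed.symρ f) (GUEmbed.symρ_injective hι' hf)
  obtain ⟨Φ, hΦ, hΦ2⟩ := GUEmbed.exists_transfer ρ
  have hform : ∀ v w : Fin m ⊕ Fin m → F, algebraMap F K (∑ i, (v (Sum.inl i) * w (Sum.inr i)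
      - v (Sum.inr i) * w (Sum.inl i)))
      = δ * (hermForm m K q (ρ v) (ρ w) - hermForm m K q (ρ w) (ρ v)) := by
    intro v w
    rw [GUEmbed.herm_self hφ, GUEmbed.herm_self hφ, hρ, hρ, map_sum,
      ← Finset.sum_sub_distrib, Finset.mul_sum]
    refine Finset.sum_congr rfl fun i _ => ?_
    exact (GUEmbed.sym_formula hι' hf _ _ _ _).symm
  have hmem : ∀ g : GU m K q, (Φ g.1).1 ∈ Matrix.symplecticGroup (Fin m) F := by
    intro g
    apply Cfsg.Agent.S2639.mem_symplectic
    intro v w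
    apply (algebraMap F K).injective
    rw [hform, hform, hΦ2, hΦ2]
    have e1 : hermForm m K q (g.1.1 *ᵥ ρ v) (g.1.1 *ᵥ ρ w) = hermForm m K q (ρ v) (ρ w) := g.2 (ρ v) (ρ w)
    have e2 : hermForm m K q (g.1.1 *ᵥ ρ w) (g.1.1 *ᵥ ρ v) = hermForm m K q (ρ w) (ρ v) := g.2 (ρ w) (ρ v)
    rw [e1, e2]
  let ψ : ↥(GU m K q) →* ↥(Matrix.symplecticGroup (Fin m) F) :=
    (((Units.coeHom _).comp Φ).comp (GU m K q).subtype).codRestrict _ hmem
  have hψ : ∀ g, ((ψ g : ↥(Matrix.symplecticGroup (Fin m) F)) : Matrix (Fin m ⊕ Fin m) (Fin m ⊕ Fin m) F) = (Φ g.1).1 := fun g => rfl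
  have hψinj : Function.Injective ψ := by
    intro a b hab
    apply Subtype.ext
    apply hΦ
    apply Units.ext
    exact congrArg Subtype.val hab
  -- the cube root of unity
  obtain ⟨t, ht⟩ : ∃ t, q = 3 * t + 2 := ⟨q / 3, by omega⟩
  have h3K : 3 ∣ Nat.card Kˣ := by
    rw [Nat.card_eq_fintype_card, Fintype.card_units, hK, ht]
    have h1 : (3 * t + 2) ^ 2 = 3 * (3 * t ^ 2 + 4 * t + 1) + 1 := by ring
    rw [h1]
    exact ⟨3 * t ^ 2 + 4 * t + 1, by omega⟩
  haveI : Fact (Nat.Prime 3) := ⟨Nat.prime_three⟩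
  obtain ⟨ωu, hωu⟩ := exists_prime_orderOf_dvd_card' 3 h3K
  obtain ⟨ω, hωdef⟩ : ∃ ω : K, ω = ωu := ⟨_, rfl⟩
  have hω3u : ωu ^ 3 = 1 := by
    rw [← hωu]
    exact pow_orderOf_eq_one ωu
  have hω3 : ω ^ 3 = 1 := by
    rw [hωdef, ← Units.val_pow_eq_pow_val, hω3u, Units.val_one]
  have hω0 : ω ≠ 0 := by
    rw [hωdef]
    exact ωu.ne_zero
  have hω1 : ω ≠ 1 := by
    rw [hωdef]
    intro h
    have h1 : ωu = 1 := Units.ext h
    rw [h1, orderOf_one] at hωu
    omega
  have hφω : φ ω = ω ^ 2 := by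
    rw [hφ, ht, pow_add, pow_mul, hω3, one_pow, one_mul]
  have hφne : φ ω ≠ ω := by
    rw [hφω]
    intro h
    apply hω1
    have h1 : ω * ω = ω * 1 := by
      rw [mul_one, ← sq, h]
    exact mul_left_cancel₀ hω0 h1
  have hθ : ω - φ ω ≠ 0 := sub_ne_zero.2 hφne.symm
  have hqp : ωu ^ (q + 1) = 1 := by
    rw [ht, show 3 * t + 2 + 1 = 3 * (t + 1) by ring, pow_mul, hω3u, one_pow]
  let w₀ : PGUPrime.Mu q K := ⟨ωu, (mem_rootsOfUnity _ _).2 hqp⟩
  let g₀ : ↥(GU m K q) := PGUPrime.sM w₀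
  have hg₀ : ∀ v : Fin m → K, (g₀.1).1 *ᵥ v = ω • v := by
    intro v
    have h1 : (g₀.1).1 = Matrix.scalar (Fin m) ω := by
      show ((PGLInv.sc ωu : GL (Fin m) K) : Matrix (Fin m) (Fin m) K) = _
      rw [hωdef]
      exact Matrix.GeneralLinearGroup.coe_scalar _
    rw [h1, Matrix.scalar_apply]
    funext i
    simp [Matrix.mulVec_diagonal]
  let x₀ : ↥(Matrix.symplecticGroup (Fin m) F) := ψ g₀
  have hx₀ : ∀ v, ρ ((x₀ : Matrix (Fin m ⊕ Fin m) (Fin m ⊕ Fin m) F) *ᵥ v) = ω • ρ v := by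
    intro v
    rw [hψ g₀, hΦ2, hg₀]
  have hg₀3 : g₀ ^ 3 = 1 := by
    have h1 : w₀ ^ 3 = 1 := Subtype.ext hω3u
    show (PGUPrime.sM w₀) ^ 3 = 1
    rw [← map_pow, h1, map_one]
  refine ⟨x₀, ?_, ?_, ?_⟩
  · show (ψ g₀) ^ 3 = 1
    rw [← map_pow, hg₀3, map_one]
  · -- fixed point freeness
    rw [← Matrix.mulVec_injective_iff_isUnit]
    intro v' v'' hvv
    obtain ⟨v, hv⟩ : ∃ v, v = v' - v'' := ⟨_, rfl⟩
    have h1 : ((x₀ : Matrix (Fin m ⊕ Fin m) (Fin m ⊕ Fin m) F) - 1) *ᵥ v = 0 := by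
      rw [hv, Matrix.mulVec_sub, hvv, sub_self]
    rw [Matrix.sub_mulVec, Matrix.one_mulVec, sub_eq_zero] at h1
    have h2 := hx₀ v
    rw [h1] at h2
    have h3 : (ω - 1) • ρ v = 0 := by
      rw [sub_smul, one_smul, ← h2, sub_self]
    have h4 := (smul_eq_zero.1 h3).resolve_left (sub_ne_zero.2 hω1)
    have h5 : v = 0 := ρ.injective (by rw [h4, map_zero])
    rw [hv] at h5
    exact sub_eq_zero.1 h5
  · -- the bijection
    symm
    have hcomm0 : ∀ g : ↥(GU m K q), g₀ * g = g * g₀ := fun g => PGUPrime.sM_commute w₀ g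
    let Ψ : ↥(GU m K q) → ↥(Subgroup.centralizer ({x₀} : Set ↥(Matrix.symplecticGroup (Fin m) F))) := fun g =>
      ⟨ψ g, by
        rw [Subgroup.mem_centralizer_iff]
        intro h hh
        rw [Set.mem_singleton_iff] at hh
        rw [hh]
        show ψ g₀ * ψ g = ψ g * ψ g₀
        rw [← map_mul, ← map_mul, hcomm0]⟩
    apply Nat.card_eq_of_bijective Ψ
    constructor
    · intro a b hab
      exact hψinj (congrArg Subtype.val hab)
    · -- surjectivity
      rintro ⟨y, hy⟩
      -- the field is spanned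
      have hspan : ∀ a : K, ∃ u v : F, a = algebraMap F K u + algebraMap F K v * ω := by
        let Ξ : F × F → K := fun z => algebraMap F K z.1 + algebraMap F K z.2 * ω
        have hΞ : Function.Injective Ξ := by
          rintro ⟨u, v⟩ ⟨u', v'⟩ h
          have h1 : algebraMap F K u + algebraMap F K v * ω = algebraMap F K u' + algebraMap F K v' * ω := h
          have h3 := congrArg φ h1
          simp only [map_add, map_mul, hι'] at h3
          have h4 : algebraMap F K (v - v') * (ω - φ ω) = 0 := by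
            rw [map_sub]
            linear_combination h1 - h3
          have h5 : algebraMap F K (v - v') = 0 := (mul_eq_zero.1 h4).resolve_right hθ
          have h6 : v = v' := by
            have := (map_eq_zero_iff _ (algebraMap F K).injective).1 h5
            exact sub_eq_zero.1 this
          subst h6
          have h7 : algebraMap F K u = algebraMap F K u' := add_right_cancel h1
          have h8 : u = u' := (algebraMap F K).injective h7
          subst h8
          rfl
        have hb : Function.Bijective Ξ := by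
          rw [Fintype.bijective_iff_injective_and_card]
          refine ⟨hΞ, ?_⟩
          rw [Fintype.card_prod, hF, hK, sq]
        intro a
        obtain ⟨z, hz⟩ := hb.2 a
        exact ⟨z.1, z.2, hz.symm⟩
      -- matrices commuting with `x₀` are `K`-linear
      have hlin : ∀ Y : Matrix (Fin m ⊕ Fin m) (Fin m ⊕ Fin m) F, Y * (x₀ : Matrix (Fin m ⊕ Fin m) (Fin m ⊕ Fin m) F) =
          (x₀ : Matrix (Fin m ⊕ Fin m) (Fin m ⊕ Fin m) F) * Y → ∃ B : Matrix (Fin m) (Fin m) K, ∀ v, ρ (Y *ᵥ v) = B *ᵥ ρ v := by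
        intro Y hY
        have hωL : ∀ u : Fin m → K, ρ (Y *ᵥ ρ.symm (ω • u)) = ω • ρ (Y *ᵥ ρ.symm u) := by
          intro u
          have h1 : ρ.symm (ω • u) = (x₀ : Matrix (Fin m ⊕ Fin m) (Fin m ⊕ Fin m) F) *ᵥ ρ.symm u := by
            apply ρ.injective
            rw [hx₀]
            simp
          rw [h1, Matrix.mulVec_mulVec, hY, ← Matrix.mulVec_mulVec, hx₀]
        let L : (Fin m → K) →ₗ[K] (Fin m → K) :=
          { toFun := fun u => ρ (Y *ᵥ ρ.symm u)
            map_add' := by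
              intro a b
              rw [map_add, Matrix.mulVec_add, map_add]
            map_smul' := by
              intro a u
              obtain ⟨c, d, rfl⟩ := hspan a
              have hs1 : ∀ (c : F) (u : Fin m → K), (algebraMap F K c) • u = c • u := by
                intro c u
                funext i
                show algebraMap F K c * u i = c • u i
                rw [Algebra.smul_def]
              have h5 : (algebraMap F K c + algebraMap F K d * ω) • u = c • u + d • (ω • u) := by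
                rw [add_smul, mul_smul, hs1, hs1]
              rw [h5, map_add, map_smul, map_smul, Matrix.mulVec_add, Matrix.mulVec_smul, Matrix.mulVec_smul, map_add, map_smul,
                map_smul, hωL, RingHom.id_apply, add_smul, mul_smul, hs1, hs1] }
        refine ⟨LinearMap.toMatrix' L, fun v => ?_⟩
        rw [LinearMap.toMatrix'_mulVec]
        show ρ (Y *ᵥ v) = ρ (Y *ᵥ ρ.symm (ρ v))
        rw [LinearEquiv.symm_apply_apply]
      have hxy : y.1 * (x₀ : Matrix (Fin m ⊕ Fin m) (Fin m ⊕ Fin m) F) = (x₀ : Matrix (Fin m ⊕ Fin m) (Fin m ⊕ Fin m) F) * y.1 := by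
        have h1 := Subgroup.mem_centralizer_iff.1 hy x₀ rfl
        exact (congrArg Subtype.val h1).symm
      have hxyi : (y⁻¹).1 * (x₀ : Matrix (Fin m ⊕ Fin m) (Fin m ⊕ Fin m) F) = (x₀ : Matrix (Fin m ⊕ Fin m) (Fin m ⊕ Fin m) F) * (y⁻¹).1 := by
        have h1 := Subgroup.mem_centralizer_iff.1 ((Subgroup.centralizer _).inv_mem hy) x₀ rfl
        exact (congrArg Subtype.val h1).symm
      obtain ⟨B, hB⟩ := hlin _ hxy
      obtain ⟨Bi, hBi⟩ := hlin _ hxyi
      have hBBi : B * Bi = 1 := by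
        apply Matrix.ext_of_mulVec_single
        intro j
        have h1 := hB ((y⁻¹).1 *ᵥ ρ.symm (Pi.single j 1))
        rw [hBi, LinearEquiv.apply_symm_apply, Matrix.mulVec_mulVec] at h1
        have h3 : y.1 * (y⁻¹).1 = 1 := congrArg Subtype.val (mul_inv_cancel y)
        rw [h3, Matrix.one_mulVec, LinearEquiv.apply_symm_apply] at h1
        rw [← Matrix.mulVec_mulVec, ← h1, Matrix.one_mulVec]
      let g : GL (Fin m) K := ⟨B, Bi, hBBi, mul_eq_one_comm.1 hBBi⟩
      have hgv : ∀ u, g.1 *ᵥ u = ρ (y.1 *ᵥ ρ.symm u) := by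
        intro u
        have := hB (ρ.symm u)
        rw [LinearEquiv.apply_symm_apply] at this
        exact this.symm
      have hherm : ∀ u w : Fin m → K, φ (hermForm m K q u w) = hermForm m K q w u := by
        intro u w
        rw [GUEmbed.herm_self hφ, GUEmbed.herm_self hφ, map_sum]
        refine Finset.sum_congr rfl fun i _ => ?_
        rw [map_mul, h2, mul_comm]
      have hgu : g ∈ GU m K q := by
        show ∀ u w : Fin m → K, hermForm m K q (g.1 *ᵥ u) (g.1 *ᵥ w) = hermForm m K q u w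
        intro u w
        -- the difference is fixed by the involution
        have hfix : ∀ u w : Fin m → K, φ (hermForm m K q (g.1 *ᵥ u) (g.1 *ᵥ w) - hermForm m K q u w) =
            hermForm m K q (g.1 *ᵥ u) (g.1 *ᵥ w) - hermForm m K q u w := by
          intro u w
          have h3 := pres_of_mem y.2 (ρ.symm u) (ρ.symm w)
          have h4 := congrArg (algebraMap F K) h3
          rw [hform, hform, LinearEquiv.apply_symm_apply, LinearEquiv.apply_symm_apply, ← hgv, ← hgv] at h4
          have h5 := mul_left_cancel₀ hδ0 h4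
          rw [map_sub, hherm, hherm]
          linear_combination -h5
        have hsm : ∀ (a : K) (u w : Fin m → K), hermForm m K q (g.1 *ᵥ (a • u)) (g.1 *ᵥ w) - hermForm m K q (a • u) w =
            a * (hermForm m K q (g.1 *ᵥ u) (g.1 *ᵥ w) - hermForm m K q u w) := by
          intro a u w
          rw [Matrix.mulVec_smul]
          simp only [GUEmbed.herm_self hφ, Pi.smul_apply, smul_eq_mul, mul_sub, Finset.mul_sum, mul_assoc]
        obtain ⟨H, hH⟩ : ∃ H, H = hermForm m K q (g.1 *ᵥ u) (g.1 *ᵥ w) - hermForm m K q u w := ⟨_, rfl⟩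
        have h1 := hfix u w
        rw [← hH] at h1
        have h3 := hfix (ω • u) w
        rw [hsm, ← hH, map_mul, h1] at h3
        have h4 : (ω - φ ω) * H = 0 := by
          linear_combination -h3
        have h5 : H = 0 := (mul_eq_zero.1 h4).resolve_left hθ
        rw [hH] at h5
        exact sub_eq_zero.1 h5
      refine ⟨⟨g, hgu⟩, ?_⟩
      apply Subtype.ext
      apply Subtype.ext
      show (Φ g).1 = y.1
      apply Matrix.ext_of_mulVec_single
      intro j
      apply ρ.injective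
      rw [hΦ2, hB]

end main

/-- The order of the centraliser. -/
theorem card_centralizer {F : Type*} [Field F] [Fintype F] {q : ℕ} (hF : Fintype.card F = q) (hq : q % 3 = 2) {m : ℕ}
    (x : Matrix.symplecticGroup (Fin m) F) (hx3 : x ^ 3 = 1)
    (hfpf : IsUnit ((x : Matrix (Fin m ⊕ Fin m) (Fin m ⊕ Fin m) F) - 1)) :
    (Nat.card ↥(Subgroup.centralizer ({x} : Set ↥(Matrix.symplecticGroup (Fin m) F))) : ℤ) =
      (q : ℤ) ^ (m * (m - 1) / 2) * ∏ i : Fin m, ((q : ℤ) ^ ((i : ℕ) + 1) - (-1) ^ ((i : ℕ) + 1)) := by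
  classical
  obtain ⟨p, hp⟩ := CharP.exists F
  haveI : Fact p.Prime := ⟨CharP.char_is_prime F p⟩
  obtain ⟨f, hpp, hf⟩ := FiniteField.card F p
  haveI : Fact p.Prime := ⟨hpp⟩
  have hn : 2 * (f : ℕ) ≠ 0 := by
    have := f.pos
    omega
  have hcardK : Nat.card (GaloisField p (2 * f)) = p ^ (2 * (f : ℕ)) := GaloisField.card p _ hn
  haveI : Finite (GaloisField p (2 * f)) := Nat.finite_of_card_ne_zero (by
    rw [hcardK]
    exact pow_ne_zero _ hpp.ne_zero)
  letI : Fintype (GaloisField p (2 * f)) := Fintype.ofFinite _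
  have hK : Fintype.card (GaloisField p (2 * f)) = q ^ 2 := by
    rw [← Nat.card_eq_fintype_card, hcardK, ← hF, hf]
    ring
  obtain ⟨x₀, h1, h2, h3⟩ := exists_model (F := F) (K := GaloisField p (2 * f)) hK hF hq m
  have hp3 : p ≠ 3 := SpOrder3.not_three (p := p) (F := F) (by rw [hF]; exact hq)
  have hord : ∀ y : ↥(Matrix.symplecticGroup (Fin m) F), y ^ 3 = 1 → (orderOf y).Coprime p := by
    intro y hy
    refine Nat.Coprime.coprime_dvd_left (orderOf_dvd_of_pow_eq_one hy) ?_
    rw [Nat.coprime_primes Nat.prime_three hpp]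
    exact hp3.symm
  have hpow : ∀ y : ↥(Matrix.symplecticGroup (Fin m) F), y ^ 3 = 1 →
      ((y : Matrix (Fin m ⊕ Fin m) (Fin m ⊕ Fin m) F)) ^ 3 = 1 := by
    intro y hy
    exact congrArg Subtype.val hy
  have hcj : IsConj x x₀ := Cfsg.Agent.S2389.result p m x x₀ (hord x hx3) (hord x₀ h1) (by
    rw [charpoly_fpf (p := p) (by rw [hF]; exact hq) _ (hpow x hx3) hfpf,
      charpoly_fpf (p := p) (by rw [hF]; exact hq) _ (hpow x₀ h1) h2])
  obtain ⟨c, hc⟩ := isConj_iff.1 hcj
  have hcard : Nat.card ↥(Subgroup.centralizer ({x} : Set ↥(Matrix.symplecticGroup (Fin m) F))) =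
      Nat.card ↥(Subgroup.centralizer ({x₀} : Set ↥(Matrix.symplecticGroup (Fin m) F))) := by
    refine Nat.card_congr ⟨fun y => ⟨c * y.1 * c⁻¹, ?_⟩, fun y => ⟨c⁻¹ * y.1 * c, ?_⟩, ?_, ?_⟩
    · rw [Subgroup.mem_centralizer_iff]
      intro h hh
      rw [Set.mem_singleton_iff] at hh
      have hy := Subgroup.mem_centralizer_iff.1 y.2 x rfl
      rw [hh, ← hc]
      calc c * x * c⁻¹ * (c * y.1 * c⁻¹) = c * (x * y.1) * c⁻¹ := by group
        _ = c * (y.1 * x) * c⁻¹ := by rw [hy]
        _ = _ := by group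
    · rw [Subgroup.mem_centralizer_iff]
      intro h hh
      rw [Set.mem_singleton_iff] at hh
      have hy := Subgroup.mem_centralizer_iff.1 y.2 x₀ rfl
      have hc' : x = c⁻¹ * x₀ * c := by
        rw [← hc]
        group
      rw [hh, hc']
      calc c⁻¹ * x₀ * c * (c⁻¹ * y.1 * c) = c⁻¹ * (x₀ * y.1) * c := by group
        _ = c⁻¹ * (y.1 * x₀) * c := by rw [hy]
        _ = _ := by group
    · intro y
      apply Subtype.ext
      show c⁻¹ * (c * y.1 * c⁻¹) * c = y.1
      group
    · intro y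
      apply Subtype.ext
      show c * (c⁻¹ * y.1 * c) * c⁻¹ = y.1
      group
  rw [hcard, h3, UnitaryOrder.card_GU hK m]
  have hq1 : 1 ≤ q := by omega
  exact formula m hq1

end Cfsg.Agent.Lib.SpOrder3
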