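import Mathlib
import Cfsg.Prelude
import Cfsg.Agent.Lib.SLn

/-! Transvections of SL_{n+3}(F), F finite of characteristic 2, form a class of root involutions. -/

set_option autoImplicit false
set_option linter.all false

namespace Cfsg.Agent.Lib.TvRoot

open Matrix Polynomial

variable {F : Type*} [Field F] {n : ℕ}

abbrev Vc (n : ℕ) (F : Type*) := Fin (n + 3) → F
abbrev Mt (n : ℕ) (F : Type*) := Matrix (Fin (n + 3)) (Fin (n + 3)) F
abbrev SLt (n : ℕ) (F : Type*) [CommRing F] := Matrix.SpecialLinearGroup (Fin (n + 3)) F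

/-- The rank-one perturbation of the identity. -/
def T (x y : Vc n F) : Mt n F := 1 + vecMulVec x y

theorem det_T (x y : Vc n F) (h : y ⬝ᵥ x = 0) : (T x y).det = 1 := by
  have := Matrix.det_one_add_replicateCol_mul_replicateRow (ι := Unit) x y
  rw [h, add_zero] at this
  rw [T, Matrix.vecMulVec_eq Unit]
  exact this

/-- The element of SL. -/
def tvS (x y : Vc n F) (h : y ⬝ᵥ x = 0) : SLt n F := ⟨T x y, det_T x y h⟩

theorem tvS_val (x y : Vc n F) (h : y ⬝ᵥ x = 0) : (tvS x y h).val = T x y := rfl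

theorem T_mulVec (x y w : Vc n F) : T x y *ᵥ w = w + (y ⬝ᵥ w) • x := by
  rw [T, Matrix.add_mulVec, Matrix.one_mulVec, Matrix.vecMulVec_mulVec]
  simp

theorem vecMul_T (x y w : Vc n F) : w ᵥ* T x y = w + (w ⬝ᵥ x) • y := by
  rw [T, Matrix.vecMul_add, Matrix.vecMul_one, Matrix.vecMul_vecMulVec]

theorem conj_T (g h : Mt n F) (hgh : g * h = 1) (x y : Vc n F) :
    g * T x y * h = T (g *ᵥ x) (y ᵥ* h) := by
  rw [T, T, mul_add, add_mul, mul_one, hgh, Matrix.mul_vecMulVec, Matrix.vecMulVec_mul]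

theorem val_inv_mul (g : SLt n F) : (g⁻¹).val * g.val = 1 := by
  have : ((g⁻¹ * g : SLt n F) : Mt n F) = 1 := by simp
  exact this

theorem val_mul_inv (g : SLt n F) : g.val * (g⁻¹).val = 1 := by
  have : ((g * g⁻¹ : SLt n F) : Mt n F) = 1 := by simp
  exact this

theorem single_dot {i : Fin (n + 3)} (a : F) (w : Vc n F) :
    (Pi.single i a : Vc n F) ⬝ᵥ w = a * w i := by
  simp [dotProduct, Pi.single_apply, Finset.sum_ite_eq]

theorem dot_single {i : Fin (n + 3)} (a : F) (w : Vc n F) :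
    w ⬝ᵥ (Pi.single i a : Vc n F) = w i * a := by
  simp [dotProduct, Pi.single_apply, Finset.sum_ite_eq]

theorem T_single_single (a b : F) :
    T (Pi.single 0 a : Vc n F) (Pi.single 1 b) = Matrix.transvection 0 1 (a * b) := by
  ext i j
  simp only [T, Matrix.transvection, Matrix.add_apply, Matrix.vecMulVec_apply, Pi.single_apply,
    Matrix.single_apply]
  by_cases h0 : i = 0 <;> by_cases h1 : j = 1 <;> simp [h0, h1] <;> grind

/-- The set of transvections. -/
def D (n : ℕ) (F : Type*) [Field F] : Set (SLt n F) :=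
  {t | ∃ c : F, c ≠ 0 ∧ ∃ g : SLt n F, ((g⁻¹ * t * g : SLt n F) : Mt n F) = Matrix.transvection 0 1 c}

theorem single_ne_zero {i : Fin (n + 3)} {a : F} (h : a ≠ 0) : (Pi.single i a : Vc n F) ≠ 0 := by
  intro e
  have := congrFun e i
  simp at this
  exact h this

theorem zero_ne_one' : (0 : Fin (n + 3)) ≠ 1 := by
  intro h
  have := congrArg Fin.val h
  simp at this

/-- A third index. -/
def i2 (n : ℕ) : Fin (n + 3) := ⟨2, by omega⟩

theorem zero_ne_two' : (0 : Fin (n + 3)) ≠ i2 n := by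
  intro h
  have := congrArg Fin.val h
  simp [i2] at this

theorem one_ne_two' : (1 : Fin (n + 3)) ≠ i2 n := by
  intro h
  have := congrArg Fin.val h
  simp [i2] at this

theorem exists_T {t : SLt n F} (ht : t ∈ D n F) :
    ∃ x y : Vc n F, x ≠ 0 ∧ y ≠ 0 ∧ y ⬝ᵥ x = 0 ∧ t.val = T x y := by
  obtain ⟨c, hc, g, hg⟩ := ht
  have h1 : Matrix.transvection (0 : Fin (n + 3)) 1 c = T (Pi.single 0 c) (Pi.single 1 1) := by
    rw [T_single_single, mul_one]
  have h2 : t.val = g.val * ((g⁻¹ * t * g : SLt n F) : Mt n F) * (g⁻¹).val := by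
    have : t = g * (g⁻¹ * t * g) * g⁻¹ := by group
    conv_lhs => rw [this]
    rfl
  rw [hg, h1, conj_T _ _ (val_mul_inv g)] at h2
  refine ⟨_, _, ?_, ?_, ?_, h2⟩
  · intro e
    have h3 : (g⁻¹).val *ᵥ (g.val *ᵥ (Pi.single 0 c : Vc n F)) = Pi.single 0 c := by
      rw [Matrix.mulVec_mulVec, val_inv_mul, Matrix.one_mulVec]
    rw [e, Matrix.mulVec_zero] at h3
    exact single_ne_zero hc h3.symm
  · intro e
    have h3 : ((Pi.single 1 1 : Vc n F) ᵥ* (g⁻¹).val) ᵥ* g.val = Pi.single 1 1 := by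
      rw [Matrix.vecMul_vecMul, val_inv_mul, Matrix.vecMul_one]
    rw [e, Matrix.zero_vecMul] at h3
    exact single_ne_zero one_ne_zero h3.symm
  · rw [← Matrix.dotProduct_mulVec, Matrix.mulVec_mulVec, val_inv_mul, Matrix.one_mulVec, dot_single]
    have : (Pi.single 1 1 : Vc n F) 0 = 0 := by
      simp [Pi.single_apply, zero_ne_one']
    rw [this, zero_mul]

theorem exists_A_nz {x : Vc n F} (h0 : x 0 ≠ 0) :
    ∃ h : SLt n F, ∃ κ : F, κ ≠ 0 ∧ h.val *ᵥ x = Pi.single 0 κ := by
  let w : Vc n F := fun i => if i = 0 then 0 else - x i / x 0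
  have hw : (Pi.single 0 1 : Vc n F) ⬝ᵥ w = 0 := by
    rw [single_dot]
    simp [w]
  refine ⟨tvS w (Pi.single 0 1) hw, x 0, h0, ?_⟩
  rw [tvS_val, T_mulVec, single_dot, one_mul]
  ext i
  by_cases hi : i = 0
  · subst hi
    simp [w]
  · simp [w, hi, Pi.single_apply]
    field_simp
    ring

theorem exists_A {x : Vc n F} (hx : x ≠ 0) :
    ∃ h : SLt n F, ∃ κ : F, κ ≠ 0 ∧ h.val *ᵥ x = Pi.single 0 κ := by
  by_cases h0 : x 0 = 0
  · obtain ⟨j, hj⟩ : ∃ j, x j ≠ 0 := by
      by_contra hcon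
      push Not at hcon
      exact hx (funext hcon)
    have hj0 : j ≠ 0 := by
      rintro rfl
      exact hj h0
    have hw : (Pi.single j 1 : Vc n F) ⬝ᵥ (Pi.single 0 1) = 0 := by
      rw [single_dot]
      simp [Pi.single_apply, hj0, hj0.symm]
    let h₁ := tvS (Pi.single 0 1) (Pi.single j 1 : Vc n F) hw
    have h1x : h₁.val *ᵥ x = x + (x j) • Pi.single 0 1 := by
      rw [tvS_val, T_mulVec, single_dot, one_mul]
    have hx0 : (h₁.val *ᵥ x) 0 ≠ 0 := by
      rw [h1x]
      simp [h0, hj]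
    obtain ⟨h, κ, hκ, he⟩ := exists_A_nz hx0
    refine ⟨h * h₁, κ, hκ, ?_⟩
    rw [Matrix.SpecialLinearGroup.coe_mul, ← Matrix.mulVec_mulVec, he]
  · exact exists_A_nz h0

theorem exists_B_nz {y : Vc n F} (h0 : y 0 = 0) (h1 : y 1 ≠ 0) :
    ∃ h : SLt n F, h.val *ᵥ (Pi.single 0 1) = Pi.single 0 1 ∧ ∃ κ : F, κ ≠ 0 ∧
      y ᵥ* h.val = Pi.single 1 κ := by
  let w : Vc n F := fun i => if i = 1 then 0 else - y i / y 1
  have hw : w ⬝ᵥ (Pi.single 1 1 : Vc n F) = 0 := by
    rw [dot_single]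
    simp [w]
  refine ⟨tvS (Pi.single 1 1) w hw, ?_, y 1, h1, ?_⟩
  · rw [tvS_val, T_mulVec, dot_single]
    have : w 0 = 0 := by
      simp [w, zero_ne_one', h0]
    rw [this]
    simp
  · rw [tvS_val, vecMul_T, dot_single, mul_one]
    ext i
    by_cases hi : i = 1
    · subst hi
      simp [w]
    · simp [w, hi, Pi.single_apply]
      field_simp
      ring

theorem exists_B {y : Vc n F} (hy : y ≠ 0) (h0 : y 0 = 0) :
    ∃ h : SLt n F, h.val *ᵥ (Pi.single 0 1) = Pi.single 0 1 ∧ ∃ κ : F, κ ≠ 0 ∧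
      y ᵥ* h.val = Pi.single 1 κ := by
  by_cases h1 : y 1 = 0
  · obtain ⟨j, hj⟩ : ∃ j, y j ≠ 0 := by
      by_contra hcon
      push Not at hcon
      exact hy (funext hcon)
    have hj0 : j ≠ 0 := by
      rintro rfl
      exact hj h0
    have hj1 : j ≠ 1 := by
      rintro rfl
      exact hj h1
    have hw : (Pi.single 1 1 : Vc n F) ⬝ᵥ (Pi.single j 1) = 0 := by
      rw [single_dot]
      simp [Pi.single_apply, hj1, hj1.symm]
    let h₁ := tvS (Pi.single j 1) (Pi.single 1 1 : Vc n F) hw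
    have h1y : y ᵥ* h₁.val = y + (y j) • Pi.single 1 1 := by
      rw [tvS_val, vecMul_T, dot_single, mul_one]
    have h10 : h₁.val *ᵥ (Pi.single 0 1) = Pi.single 0 1 := by
      rw [tvS_val, T_mulVec, dot_single]
      have : (Pi.single 1 1 : Vc n F) 0 = 0 := by
        simp [Pi.single_apply, zero_ne_one']
      rw [this]
      simp
    have hx0 : (y ᵥ* h₁.val) 0 = 0 := by
      rw [h1y]
      simp [h0, Pi.single_apply, zero_ne_one']
    have hx1 : (y ᵥ* h₁.val) 1 ≠ 0 := by
      rw [h1y]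
      simp [h1, hj]
    obtain ⟨h, he, κ, hκ, he2⟩ := exists_B_nz hx0 hx1
    refine ⟨h₁ * h, ?_, κ, hκ, ?_⟩
    · rw [Matrix.SpecialLinearGroup.coe_mul, ← Matrix.mulVec_mulVec, he, h10]
    · rw [Matrix.SpecialLinearGroup.coe_mul, ← Matrix.vecMul_vecMul, he2]
  · exact exists_B_nz h0 h1

theorem mem_D {t : SLt n F} {x y : Vc n F} (hx : x ≠ 0) (hy : y ≠ 0) (hxy : y ⬝ᵥ x = 0)
    (ht : t.val = T x y) : t ∈ D n F := by
  obtain ⟨h₁, κ, hκ, he⟩ := exists_A hx
  set y' := y ᵥ* (h₁⁻¹).val with hy'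
  have hy'1 : y' ≠ 0 := by
    intro e
    have h3 : y' ᵥ* h₁.val = y := by
      rw [hy', Matrix.vecMul_vecMul, val_inv_mul, Matrix.vecMul_one]
    rw [e, Matrix.zero_vecMul] at h3
    exact hy h3.symm
  have hy'0 : y' 0 = 0 := by
    have h3 : y' ⬝ᵥ (h₁.val *ᵥ x) = 0 := by
      rw [hy', ← Matrix.dotProduct_mulVec, Matrix.mulVec_mulVec, val_inv_mul, Matrix.one_mulVec]
      exact hxy
    rw [he, dot_single] at h3
    exact (mul_eq_zero.mp h3).resolve_right hκ
  obtain ⟨h₂, he2, κ', hκ', he3⟩ := exists_B hy'1 hy'0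
  refine ⟨κ * κ', mul_ne_zero hκ hκ', h₁⁻¹ * h₂, ?_⟩
  have e1 : ((h₁⁻¹ * h₂)⁻¹ * t * (h₁⁻¹ * h₂) : SLt n F) = h₂⁻¹ * (h₁ * t * h₁⁻¹) * h₂ := by
    group
  rw [e1]
  have e2 : ((h₁ * t * h₁⁻¹ : SLt n F) : Mt n F) = T (Pi.single 0 κ) y' := by
    rw [Matrix.SpecialLinearGroup.coe_mul, Matrix.SpecialLinearGroup.coe_mul, ht,
      conj_T _ _ (val_mul_inv h₁), he]
  have e3 : ((h₂⁻¹ * (h₁ * t * h₁⁻¹) * h₂ : SLt n F) : Mt n F)
      = (h₂⁻¹).val * T (Pi.single 0 κ) y' * h₂.val := by
    rw [Matrix.SpecialLinearGroup.coe_mul, Matrix.SpecialLinearGroup.coe_mul, e2]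
  rw [e3, conj_T _ _ (val_inv_mul h₂), he3, ← T_single_single]
  have e4 : (h₂⁻¹).val *ᵥ (Pi.single 0 κ : Vc n F) = Pi.single 0 κ := by
    have h5 : (Pi.single 0 κ : Vc n F) = κ • Pi.single 0 1 := by
      ext i
      simp [Pi.single_apply]
    have h6 : (h₂⁻¹).val *ᵥ (Pi.single 0 1 : Vc n F) = Pi.single 0 1 := by
      conv_lhs => rw [← he2]
      rw [Matrix.mulVec_mulVec, val_inv_mul, Matrix.one_mulVec]
    rw [h5, Matrix.mulVec_smul, h6]
  rw [e4]

theorem conj_mem_D {d : SLt n F} (hd : d ∈ D n F) (g : SLt n F) : g * d * g⁻¹ ∈ D n F := by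
  obtain ⟨c, hc, g₀, hg⟩ := hd
  refine ⟨c, hc, g * g₀, ?_⟩
  have : ((g * g₀)⁻¹ * (g * d * g⁻¹) * (g * g₀) : SLt n F) = g₀⁻¹ * d * g₀ := by
    group
  rw [this]
  exact hg

section CharTwo

variable [CharP F 2]

theorem T_sq (x y : Vc n F) (h : y ⬝ᵥ x = 0) : T x y * T x y = 1 := by
  have h1 : vecMulVec x y * vecMulVec x y = 0 := by
    rw [Matrix.vecMulVec_mul_vecMulVec, h, zero_smul]
    ext i j
    simp [vecMulVec_apply]
  have h2 : T x y * T x y = 1 + (vecMulVec x y + vecMulVec x y) + vecMulVec x y * vecMulVec x y := by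
    rw [T]
    noncomm_ring
  rw [h2, h1, CharTwo.add_self_eq_zero]
  simp

theorem vecMulVec_ne_zero {x y : Vc n F} (hx : x ≠ 0) (hy : y ≠ 0) : vecMulVec x y ≠ 0 := by
  intro e
  obtain ⟨i, hi⟩ : ∃ i, x i ≠ 0 := by
    by_contra hcon
    push Not at hcon
    exact hx (funext hcon)
  obtain ⟨j, hj⟩ : ∃ j, y j ≠ 0 := by
    by_contra hcon
    push Not at hcon
    exact hy (funext hcon)
  have := congrFun (congrFun e i) j
  simp only [vecMulVec_apply, Matrix.zero_apply] at this
  exact (mul_ne_zero hi hj) this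

theorem T_ne_one {x y : Vc n F} (hx : x ≠ 0) (hy : y ≠ 0) : T x y ≠ 1 := by
  intro e
  rw [T] at e
  apply vecMulVec_ne_zero hx hy
  exact add_eq_left.mp e

theorem order_two {t : SLt n F} (ht : t ∈ D n F) : orderOf t = 2 := by
  obtain ⟨x, y, hx, hy, hxy, e⟩ := exists_T ht
  haveI : Fact (Nat.Prime 2) := ⟨Nat.prime_two⟩
  apply orderOf_eq_prime
  · apply Subtype.ext
    rw [pow_two, Matrix.SpecialLinearGroup.coe_mul, e, T_sq x y hxy]
    simp
  · intro h
    have : t.val = 1 := by rw [h]; simp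
    rw [e] at this
    exact T_ne_one hx hy this

theorem sq_one_of_D {t : SLt n F} (ht : t ∈ D n F) : t * t = 1 := by
  rw [← pow_two, ← order_two ht]
  exact pow_orderOf_eq_one t

/-- The algebra identity for the case where both pairings are nonzero. -/
theorem alg_P {R : Type*} [Ring R] [Algebra F R] [CharP R 2] {A B : R} {τ : F}
    (hAA : A * A = 0) (hBB : B * B = 0) (hABA : A * B * A = τ • A) (hBAB : B * A * B = τ • B) :
    ((1 + A) * (1 + B)) ^ 3 + (τ + 1) • ((1 + A) * (1 + B)) ^ 2 + (τ + 1) • ((1 + A) * (1 + B)) + 1 = 0 := by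
  set X := A + B + A * B with hX
  set Y := A * B + B * A with hY
  have hXY : X * Y = τ • X := by
    have h0 : X * Y = A * A * B + A * B * A + B * A * B + B * B * A + A * B * A * B + A * (B * B) * A := by
      rw [hX, hY]
      noncomm_ring
    rw [h0, hAA, hBB, hABA, hBAB, zero_mul, zero_mul, mul_zero, zero_mul, hX, smul_mul_assoc]
    simp only [smul_add, add_zero, zero_add]
  have hX2 : X * X = Y + τ • X := by
    have h0 : X * X = A * A + A * B + A * A * B + B * A + B * B + B * A * B + A * B * A + A * (B * B)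
        + A * B * A * B := by
      rw [hX]
      noncomm_ring
    rw [h0, hAA, hBB, hABA, hBAB, zero_mul, mul_zero, hX, hY, smul_mul_assoc]
    simp only [smul_add]
    abel
  have hX3 : X * (X * X) = τ • X + τ • (X * X) := by
    calc X * (X * X) = X * (Y + τ • X) := by rw [hX2]
      _ = _ := by rw [mul_add, hXY, mul_smul_comm]
  have hM : (1 + A) * (1 + B) = 1 + X := by
    rw [hX]
    noncomm_ring
  rw [hM]
  have hM2 : (1 + X) ^ 2 = 1 + X * X := by
    have : (1 + X) ^ 2 = 1 + (X + X) + X * X := by noncomm_ring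
    rw [this, CharTwo.add_self_eq_zero, add_zero]
  have hM3 : (1 + X) ^ 3 = 1 + X + X * X + X * (X * X) := by
    rw [pow_succ, hM2]
    noncomm_ring
  rw [hM2, hM3, hX3]
  have h2 : (2 : F) = 0 := CharTwo.two_eq_zero
  have : 1 + X + X * X + (τ • X + τ • (X * X)) + (τ + 1) • (1 + X * X) + (τ + 1) • (1 + X) + (1 : R)
      = (2 : F) • ((τ + 2) • (1 : R) + (τ + 1) • X + (τ + 1) • (X * X)) := by
    have h21 : (1 : R) + 1 = (2 : F) • 1 := by rw [two_smul]
    module
  rw [this, h2, zero_smul]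

/-- Odd order from the cubic relation. -/
theorem odd_of_P [Fintype F] {t : SLt n F} {τ : F} (hτ : τ ≠ 0)
    (hP : t.val ^ 3 + (τ + 1) • t.val ^ 2 + (τ + 1) • t.val + 1 = 0) : Odd (orderOf t) := by
  classical
  haveI : Finite (SLt n F) := Finite.of_injective (fun g : SLt n F => g.val) Subtype.val_injective
  have hm : orderOf t ≠ 0 := (orderOf_pos t).ne'
  obtain ⟨k, m', hm', hmm⟩ := Nat.exists_eq_two_pow_mul_odd hm
  -- the polynomial
  let σ : F := τ + 1
  let P : F[X] := X ^ 3 + C σ * X ^ 2 + C σ * X + 1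
  have hPM : aeval t.val P = 0 := by
    simp only [P, map_add, map_mul, map_pow, aeval_X, aeval_C, map_one]
    rw [← hP]
    simp [Algebra.smul_def, σ]
  haveI : CharP F[X] 2 := Polynomial.charP
  have h2 : (2 : F[X]) = 0 := CharTwo.two_eq_zero
  have hd : derivative P = X ^ 2 + C σ := by
    have h3 : (C (3 : F) : F[X]) = 1 + 2 := by
      simp only [map_ofNat]
      norm_num
    simp only [P, derivative_add, derivative_mul, derivative_X_pow, derivative_C, derivative_X,
      derivative_one, zero_mul, zero_add, add_zero, mul_one]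
    simp only [Nat.cast_ofNat, map_ofNat, Nat.add_one_sub_one, pow_one]
    have h4 : ((3 : F[X])) = 1 + 2 := by norm_num
    rw [h4, h2]
    have h5 : ((2 : F[X])) * X = 0 := by rw [h2, zero_mul]
    simp only [add_zero, one_mul, Nat.reduceSub, pow_one]
    simp [h2]
  have hsep : P.Separable := by
    rw [Polynomial.separable_def, hd]
    let c : F := (τ * τ)⁻¹
    refine ⟨C c, C c * (X + C σ), ?_⟩
    have hct : C c * C τ * C τ = (1 : F[X]) := by
      rw [← C_mul, ← C_mul, mul_assoc, inv_mul_cancel₀ (mul_ne_zero hτ hτ)]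
      simp
    have hσ : (C σ : F[X]) = C τ + 1 := by
      simp [σ]
    simp only [P, hσ]
    linear_combination (C c * (X ^ 3 + (C τ + 1) * X ^ 2 + (C τ + 1) * X + (C τ + 1))) * h2 + hct
  have hsq : Squarefree P := hsep.squarefree
  have hint : IsIntegral F t.val := Algebra.IsIntegral.isIntegral _
  have hμ1 : minpoly F t.val ∣ P := minpoly.dvd F _ hPM
  have hμsq : Squarefree (minpoly F t.val) := hsq.squarefree_of_dvd hμ1
  have hQ : aeval t.val ((X ^ m' - 1 : F[X]) ^ (2 ^ k)) = 0 := by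
    have e : (X ^ m' - 1 : F[X]) ^ (2 ^ k) = X ^ (orderOf t) - 1 := by
      rw [sub_pow_char_pow, one_pow, ← pow_mul, hmm, mul_comm]
    rw [e]
    simp only [map_sub, map_pow, aeval_X, map_one]
    have h5 : (t ^ orderOf t).val = 1 := by
      rw [pow_orderOf_eq_one]
      simp
    rw [Matrix.SpecialLinearGroup.coe_pow] at h5
    rw [h5, sub_self]
  have hμ2 : minpoly F t.val ∣ (X ^ m' - 1 : F[X]) ^ (2 ^ k) := minpoly.dvd F _ hQ
  have hμ3 : minpoly F t.val ∣ (X ^ m' - 1 : F[X]) :=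
    (hμsq.dvd_pow_iff_dvd (by positivity)).mp hμ2
  have hev : aeval t.val (X ^ m' - 1 : F[X]) = 0 := by
    obtain ⟨q, hq⟩ := hμ3
    rw [hq, map_mul, minpoly.aeval, zero_mul]
  simp only [map_sub, map_pow, aeval_X, map_one] at hev
  have h1 : t ^ m' = 1 := by
    apply Subtype.ext
    rw [Matrix.SpecialLinearGroup.coe_pow, sub_eq_zero.mp hev]
    simp
  have h6 : orderOf t ∣ m' := orderOf_dvd_of_pow_eq_one h1
  exact Odd.of_dvd_nat hm' h6

/-- The square in the degenerate case. -/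
theorem sq_case {R : Type*} [Ring R] [CharP R 2] {A B : R}
    (hAA : A * A = 0) (hBB : B * B = 0) (hBA : B * A = 0) :
    ((1 + A) * (1 + B)) * ((1 + A) * (1 + B)) = 1 + A * B := by
  have h0 : ((1 + A) * (1 + B)) * ((1 + A) * (1 + B)) = 1 + (A + A) + (B + B) + (A * B + A * B) + A * B
      + A * A + B * A + B * B + A * A * B + B * A * B + A * (B * A) + A * (B * B) + A * (B * A) * B := by
    noncomm_ring
  rw [h0, hAA, hBB, hBA]
  simp [CharTwo.add_self_eq_zero]

theorem sq_case' {R : Type*} [Ring R] [CharP R 2] {A B : R}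
    (hAA : A * A = 0) (hBB : B * B = 0) (hAB : A * B = 0) :
    ((1 + A) * (1 + B)) * ((1 + A) * (1 + B)) = 1 + B * A := by
  have h0 : ((1 + A) * (1 + B)) * ((1 + A) * (1 + B)) = 1 + (A + A) + (B + B) + (A * B + A * B) + A * B
      + A * A + B * A + B * B + (A * A) * B + B * (A * B) + (A * B) * A + A * (B * B) + (A * B) * (A * B) := by
    noncomm_ring
  rw [h0, hAA, hBB, hAB]
  simp [CharTwo.add_self_eq_zero]

/-- Trichotomy for two transvections. -/
theorem pair_cases {a b : SLt n F} (ha : a ∈ D n F) (hb : b ∈ D n F) :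
    a * b = b * a ∨ (orderOf (a * b) = 4 ∧ (a * b) ^ 2 ∈ D n F) ∨
      (∃ τ : F, τ ≠ 0 ∧ (a * b).val ^ 3 + (τ + 1) • (a * b).val ^ 2 + (τ + 1) • (a * b).val + 1 = 0) := by
  obtain ⟨u, φ, hu, hφ, huφ, ea⟩ := exists_T ha
  obtain ⟨v, ψ, hv, hψ, hvψ, eb⟩ := exists_T hb
  set A := vecMulVec u φ with hA
  set B := vecMulVec v ψ with hB
  set α := φ ⬝ᵥ v with hα
  set β := ψ ⬝ᵥ u with hβ
  have hAA : A * A = 0 := by
    rw [hA, Matrix.vecMulVec_mul_vecMulVec, huφ, zero_smul]
    ext i j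
    simp [vecMulVec_apply]
  have hBB : B * B = 0 := by
    rw [hB, Matrix.vecMulVec_mul_vecMulVec, hvψ, zero_smul]
    ext i j
    simp [vecMulVec_apply]
  have hAB : A * B = vecMulVec u (α • ψ) := by
    rw [hA, hB, Matrix.vecMulVec_mul_vecMulVec]
  have hBA : B * A = vecMulVec v (β • φ) := by
    rw [hA, hB, Matrix.vecMulVec_mul_vecMulVec]
  have hval : (a * b).val = (1 + A) * (1 + B) := by
    rw [Matrix.SpecialLinearGroup.coe_mul, ea, eb]
    rfl
  have hzero : ∀ x : Vc n F, vecMulVec x (0 : Vc n F) = 0 := by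
    intro x
    ext i j
    simp [vecMulVec_apply]
  by_cases hα0 : α = 0
  · by_cases hβ0 : β = 0
    · left
      apply Subtype.ext
      rw [hval, Matrix.SpecialLinearGroup.coe_mul, ea, eb]
      have h1 : A * B = 0 := by rw [hAB, hα0, zero_smul, hzero]
      have h2 : B * A = 0 := by rw [hBA, hβ0, zero_smul, hzero]
      show (1 + A) * (1 + B) = (1 + B) * (1 + A)
      have h3 : (1 + A) * (1 + B) = 1 + A + B + A * B := by noncomm_ring
      have h4 : (1 + B) * (1 + A) = 1 + B + A + B * A := by noncomm_ring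
      rw [h3, h4, h1, h2]
      abel
    · -- `(ab)^2 = T (β v) φ`
      right; left
      have h1 : A * B = 0 := by rw [hAB, hα0, zero_smul, hzero]
      have h2 := sq_case' hAA hBB h1
      have h3 : B * A = vecMulVec (β • v) φ := by
        rw [hBA]
        ext i j
        simp [vecMulVec_apply]
        ring
      have hw : φ ⬝ᵥ (β • v) = 0 := by
        rw [dotProduct_smul, ← hα, hα0, smul_zero]
      have hv' : β • v ≠ 0 := smul_ne_zero hβ0 hv
      have hsq : ((a * b) ^ 2).val = T (β • v) φ := by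
        rw [pow_two, Matrix.SpecialLinearGroup.coe_mul, hval, h2, h3]
        rfl
      have hmem : (a * b) ^ 2 ∈ D n F := mem_D hv' hφ hw hsq
      refine ⟨?_, hmem⟩
      have h4 : ¬ (a * b) ^ 2 ^ 1 = 1 := by
        intro e
        have : ((a * b) ^ 2).val = 1 := by
          rw [pow_one] at e
          rw [e]
          simp
        rw [hsq] at this
        exact T_ne_one hv' hφ this
      have h5 : (a * b) ^ 2 ^ (1 + 1) = 1 := by
        have e : (2 : ℕ) ^ (1 + 1) = 2 + 2 := rfl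
        rw [e, pow_add]
        exact sq_one_of_D hmem
      haveI : Fact (Nat.Prime 2) := ⟨Nat.prime_two⟩
      exact orderOf_eq_prime_pow h4 h5
  · by_cases hβ0 : β = 0
    · right; left
      have h1 : B * A = 0 := by rw [hBA, hβ0, zero_smul, hzero]
      have h2 := sq_case hAA hBB h1
      have h3 : A * B = vecMulVec (α • u) ψ := by
        rw [hAB]
        ext i j
        simp [vecMulVec_apply]
        ring
      have hw : ψ ⬝ᵥ (α • u) = 0 := by
        rw [dotProduct_smul, ← hβ, hβ0, smul_zero]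
      have hu' : α • u ≠ 0 := smul_ne_zero hα0 hu
      have hsq : ((a * b) ^ 2).val = T (α • u) ψ := by
        rw [pow_two, Matrix.SpecialLinearGroup.coe_mul, hval, h2, h3]
        rfl
      have hmem : (a * b) ^ 2 ∈ D n F := mem_D hu' hψ hw hsq
      refine ⟨?_, hmem⟩
      have h4 : ¬ (a * b) ^ 2 ^ 1 = 1 := by
        intro e
        have : ((a * b) ^ 2).val = 1 := by
          rw [pow_one] at e
          rw [e]
          simp
        rw [hsq] at this
        exact T_ne_one hu' hψ this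
      have h5 : (a * b) ^ 2 ^ (1 + 1) = 1 := by
        have e : (2 : ℕ) ^ (1 + 1) = 2 + 2 := rfl
        rw [e, pow_add]
        exact sq_one_of_D hmem
      haveI : Fact (Nat.Prime 2) := ⟨Nat.prime_two⟩
      exact orderOf_eq_prime_pow h4 h5
    · right; right
      refine ⟨α * β, mul_ne_zero hα0 hβ0, ?_⟩
      rw [hval]
      apply alg_P hAA hBB
      · rw [hAB, hA, Matrix.vecMulVec_mul_vecMulVec]
        ext i j
        simp [vecMulVec_apply, dotProduct_smul, ← hβ, smul_dotProduct]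
        ring
      · rw [hBA, hB, Matrix.vecMulVec_mul_vecMulVec]
        ext i j
        simp [vecMulVec_apply, dotProduct_smul, ← hα, smul_dotProduct]
        ring

theorem closure_D : Subgroup.closure (D n F) = ⊤ := by
  rw [eq_top_iff]
  intro A _
  refine Cfsg.Agent.Lib.SLn.transvection_induction (· ∈ Subgroup.closure (D n F)) ?_
    (fun _ _ => mul_mem) (one_mem _) A
  intro i j h c
  by_cases hc : c = 0
  · rw [hc, Matrix.SpecialLinearGroup.transvection_coeff_zero]
    exact one_mem _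
  · apply Subgroup.subset_closure
    have hw : (Pi.single j 1 : Vc n F) ⬝ᵥ (Pi.single i c) = 0 := by
      rw [single_dot]
      simp [Pi.single_apply, h, h.symm]
    refine mem_D (x := Pi.single i c) (y := Pi.single j 1) (single_ne_zero hc)
      (single_ne_zero one_ne_zero) hw ?_
    rw [Matrix.SpecialLinearGroup.transvection_coe]
    ext k l
    simp only [T, Matrix.add_apply, Matrix.vecMulVec_apply, Pi.single_apply, Matrix.single_apply]
    congr 1
    by_cases h0 : k = i
    · subst h0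
      by_cases h1 : l = j
      · subst h1
        simp
      · simp [h1, Ne.symm h1]
    · simp [h0, Ne.symm h0]

theorem rootSet [Fintype F] : Cfsg.IsRootInvolutionSet (D n F) where
  orderOf_eq := fun _ h => order_two h
  generates := closure_D
  conj_mem := fun _ h g => conj_mem_D h g
  pair := by
    intro a ha b hb
    rcases pair_cases ha hb with h | ⟨h1, h2⟩ | ⟨τ, hτ, hP⟩
    · exact Or.inl h
    · exact Or.inr (Or.inr ⟨h1, h2⟩)
    · exact Or.inr (Or.inl (odd_of_P hτ hP))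

theorem conj_class {a b : SLt n F} (ha : a ∈ D n F) (hb : b ∈ D n F) : ∃ g : SLt n F, b = g * a * g⁻¹ := by
  obtain ⟨c₁, hc₁, g₁, h₁⟩ := ha
  obtain ⟨c₂, hc₂, g₂, h₂⟩ := hb
  have hl : c₂ / c₁ ≠ 0 := div_ne_zero hc₂ hc₁
  let h : SLt n F := Matrix.SpecialLinearGroup.diag2n (zero_ne_two' (n := n)) (c₂ / c₁) hl
  have hval : h.val = diagonal (fun k => if k = 0 then c₂ / c₁ else if k = i2 n then (c₂ / c₁)⁻¹ else 1) :=
    Matrix.SpecialLinearGroup.diag2n_coe _ _ _
  have key : h * (g₁⁻¹ * a * g₁) * h⁻¹ = g₂⁻¹ * b * g₂ := by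
    apply Subtype.ext
    rw [h₂, Matrix.SpecialLinearGroup.coe_mul, Matrix.SpecialLinearGroup.coe_mul, h₁]
    have e1 : Matrix.transvection (0 : Fin (n + 3)) 1 c₁ = T (Pi.single 0 c₁) (Pi.single 1 1) := by
      rw [T_single_single, mul_one]
    have e2 : Matrix.transvection (0 : Fin (n + 3)) 1 c₂ = T (Pi.single 0 c₂) (Pi.single 1 1) := by
      rw [T_single_single, mul_one]
    rw [e1, e2, conj_T _ _ (val_mul_inv h)]
    have e3 : h.val *ᵥ (Pi.single 0 c₁ : Vc n F) = Pi.single 0 c₂ := by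
      rw [hval]
      ext k
      by_cases hk : k = 0
      · subst hk
        simp [Matrix.mulVec_diagonal, Pi.single_apply]
        field_simp
      · simp [Matrix.mulVec_diagonal, Pi.single_apply, hk]
    have e4 : (Pi.single 1 1 : Vc n F) ᵥ* h.val = Pi.single 1 1 := by
      rw [hval]
      ext k
      by_cases hk : k = 1
      · subst hk
        simp [Matrix.vecMul_diagonal, Pi.single_apply, zero_ne_one'.symm, one_ne_two']
      · simp [Matrix.vecMul_diagonal, Pi.single_apply, hk]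
    have e5 : (Pi.single 1 1 : Vc n F) ᵥ* (h⁻¹).val = Pi.single 1 1 := by
      conv_lhs => rw [← e4]
      rw [Matrix.vecMul_vecMul, val_mul_inv, Matrix.vecMul_one]
    rw [e3, e5]
  refine ⟨g₂ * h * g₁⁻¹, ?_⟩
  have : b = g₂ * (g₂⁻¹ * b * g₂) * g₂⁻¹ := by group
  rw [this, ← key]
  group

theorem nonempty_D : (D n F).Nonempty := by
  have hw : (Pi.single 1 1 : Vc n F) ⬝ᵥ (Pi.single 0 1) = 0 := by
    rw [single_dot]
    simp [Pi.single_apply, zero_ne_one', zero_ne_one'.symm]
  exact ⟨tvS _ _ hw, mem_D (single_ne_zero one_ne_zero) (single_ne_zero one_ne_zero) hw rfl⟩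

theorem main [Fintype F] :
    Cfsg.IsRootInvolutionClass (D n F) ∧
    (Fintype.card F = 2 → Cfsg.IsThreeFourPlusTranspositionSet (D n F)) := by
  refine ⟨⟨rootSet, nonempty_D, fun _ ha _ hb => conj_class ha hb⟩, fun hc => ⟨rootSet, ?_⟩⟩
  intro a ha b hb hodd
  rcases pair_cases ha hb with h | ⟨h1, h2⟩ | ⟨τ, hτ, hP⟩
  · left
    have h1 : (a * b) * (a * b) = 1 := by
      calc (a * b) * (a * b) = a * (b * a) * b := by group
        _ = a * (a * b) * b := by rw [h]
        _ = (a * a) * (b * b) := by group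
        _ = 1 := by rw [sq_one_of_D ha, sq_one_of_D hb, one_mul]
    have h2 : orderOf (a * b) ∣ 2 := orderOf_dvd_of_pow_eq_one (by rw [pow_two]; exact h1)
    have h3 := Nat.le_of_dvd (by norm_num) h2
    obtain ⟨k, hk⟩ := hodd
    omega
  · exfalso
    rw [h1] at hodd
    exact absurd hodd (by decide)
  · have hτ1 : τ = 1 := by
      have h1 : τ ^ (Fintype.card F - 1) = 1 := FiniteField.pow_card_sub_one_eq_one τ hτ
      rw [hc] at h1
      simpa using h1
    have h11 : (1 : F) + 1 = 0 := CharTwo.add_self_eq_zero 1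
    rw [hτ1, h11, zero_smul, zero_smul, add_zero, add_zero] at hP
    have h3 : (a * b).val ^ 3 = 1 := by
      have := eq_neg_of_add_eq_zero_left hP
      rw [CharTwo.neg_eq] at this
      exact this
    have h4 : (a * b) ^ 3 = 1 := by
      apply Subtype.ext
      rw [Matrix.SpecialLinearGroup.coe_pow, h3]
      simp
    have h5 : orderOf (a * b) ∣ 3 := orderOf_dvd_of_pow_eq_one h4
    rcases (Nat.dvd_prime Nat.prime_three).mp h5 with h | h
    · exact Or.inl h
    · exact Or.inr h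

end CharTwo

end Cfsg.Agent.Lib.TvRoot
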