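import Mathlib
import Cfsg.Prelude
import Cfsg.Agent.Lib.SLn
import Cfsg.Agent.Lib.TvRoot
import Cfsg.Agent.Lib.RootBasic
import Cfsg.Agent.Lib.RootImage
import Cfsg.Agent.Lib.RootPSL
import Cfsg.Agent.Lib.RankOne

/-! The root subgroups of transvections in SL_{n+3}(k). -/

set_option autoImplicit false
set_option linter.all false

namespace Cfsg.Agent.Lib.TvRootK

open Matrix Cfsg
open Cfsg.Agent.Lib.TvRoot
open scoped commutatorElement

variable {k : Type*} [Field k] {n : ℕ}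

theorem T_mul_same (x x' y : Vc n k) (h : y ⬝ᵥ x' = 0) : T x y * T x' y = T (x + x') y := by
  have h1 : vecMulVec x y * vecMulVec x' y = 0 := by
    rw [Matrix.vecMulVec_mul_vecMulVec, h, zero_smul]
    ext i j
    simp [vecMulVec_apply]
  have h2 : vecMulVec (x + x') y = vecMulVec x y + vecMulVec x' y := by
    ext i j
    simp [vecMulVec_apply, add_mul]
  have h3 : T x y * T x' y = 1 + vecMulVec x y + vecMulVec x' y + vecMulVec x y * vecMulVec x' y := by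
    rw [T, T]
    noncomm_ring
  rw [h3, h1, T, h2, add_zero, add_assoc]

theorem T_comm {x x' y y' : Vc n k} (h : y ⬝ᵥ x' = 0) (h' : y' ⬝ᵥ x = 0) :
    T x y * T x' y' = T x' y' * T x y := by
  have h1 : vecMulVec x y * vecMulVec x' y' = 0 := by
    rw [Matrix.vecMulVec_mul_vecMulVec, h, zero_smul]
    ext i j
    simp [vecMulVec_apply]
  have h2 : vecMulVec x' y' * vecMulVec x y = 0 := by
    rw [Matrix.vecMulVec_mul_vecMulVec, h', zero_smul]
    ext i j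
    simp [vecMulVec_apply]
  have h3 : T x y * T x' y' = 1 + vecMulVec x y + vecMulVec x' y' + vecMulVec x y * vecMulVec x' y' := by
    rw [T, T]
    noncomm_ring
  have h4 : T x' y' * T x y = 1 + vecMulVec x' y' + vecMulVec x y + vecMulVec x' y' * vecMulVec x y := by
    rw [T, T]
    noncomm_ring
  rw [h3, h4, h1, h2]
  abel

theorem T_zero (y : Vc n k) : T (0 : Vc n k) y = 1 := by
  rw [T]
  ext i j
  simp [vecMulVec_apply]

theorem smul_orth {u φ : Vc n k} (h : φ ⬝ᵥ u = 0) (c : k) : φ ⬝ᵥ (c • u) = 0 := by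
  rw [dotProduct_smul, h, smul_zero]

/-- The one-parameter family of elements. -/
def rS {u φ : Vc n k} (h : φ ⬝ᵥ u = 0) (c : k) : SLt n k := tvS (c • u) φ (smul_orth h c)

theorem rS_val {u φ : Vc n k} (h : φ ⬝ᵥ u = 0) (c : k) : (rS h c).val = T (c • u) φ := rfl

theorem rS_mul {u φ : Vc n k} (h : φ ⬝ᵥ u = 0) (c d : k) : rS h c * rS h d = rS h (c + d) := by
  apply Subtype.ext
  rw [Matrix.SpecialLinearGroup.coe_mul, rS_val, rS_val, rS_val, T_mul_same _ _ _ (smul_orth h d), add_smul]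

theorem rS_zero {u φ : Vc n k} (h : φ ⬝ᵥ u = 0) : rS h 0 = 1 := by
  apply Subtype.ext
  rw [rS_val, zero_smul, T_zero]
  rfl

theorem rS_inv {u φ : Vc n k} (h : φ ⬝ᵥ u = 0) (c : k) : (rS h c)⁻¹ = rS h (-c) := by
  apply inv_eq_of_mul_eq_one_left
  rw [rS_mul, neg_add_cancel, rS_zero]

theorem T_eq_one_iff {x y : Vc n k} (hy : y ≠ 0) : T x y = 1 ↔ x = 0 := by
  constructor
  · intro e
    by_contra hx
    obtain ⟨i, hi⟩ : ∃ i, x i ≠ 0 := by
      by_contra hcon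
      push Not at hcon
      exact hx (funext hcon)
    obtain ⟨j, hj⟩ : ∃ j, y j ≠ 0 := by
      by_contra hcon
      push Not at hcon
      exact hy (funext hcon)
    have e2 : vecMulVec x y = 0 := add_eq_left.mp e
    have := congrFun (congrFun e2 i) j
    simp only [vecMulVec_apply, Matrix.zero_apply] at this
    exact (mul_ne_zero hi hj) this
  · rintro rfl
    exact T_zero y

theorem rS_ne_one {u φ : Vc n k} (h : φ ⬝ᵥ u = 0) (hu : u ≠ 0) (hφ : φ ≠ 0) {c : k} (hc : c ≠ 0) :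
    rS h c ≠ 1 := by
  intro e
  have e2 : (rS h c).val = 1 := by rw [e]; rfl
  rw [rS_val, T_eq_one_iff hφ] at e2
  exact (smul_ne_zero hc hu) e2

/-- The root subgroup. -/
def R {u φ : Vc n k} (h : φ ⬝ᵥ u = 0) : Subgroup (SLt n k) where
  carrier := {t | ∃ c : k, t = rS h c}
  mul_mem' := by
    rintro _ _ ⟨c, rfl⟩ ⟨d, rfl⟩
    exact ⟨c + d, rS_mul h c d⟩
  one_mem' := ⟨0, (rS_zero h).symm⟩
  inv_mem' := by
    rintro _ ⟨c, rfl⟩
    exact ⟨-c, rS_inv h c⟩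

theorem mem_R {u φ : Vc n k} (h : φ ⬝ᵥ u = 0) {t : SLt n k} : t ∈ R h ↔ ∃ c : k, t = rS h c := Iff.rfl

theorem rS_mem {u φ : Vc n k} (h : φ ⬝ᵥ u = 0) (c : k) : rS h c ∈ R h := ⟨c, rfl⟩

theorem R_congr {u φ u' φ' : Vc n k} (h : φ ⬝ᵥ u = 0) (h' : φ' ⬝ᵥ u' = 0) (hu : u = u') (hφ : φ = φ') :
    R h = R h' := by
  subst hu
  subst hφ
  rfl

theorem T_smul_right (x y : Vc n k) (m : k) : T x (m • y) = T (m • x) y := by
  rw [T, T]
  congr 1
  ext i j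
  simp [vecMulVec_apply]
  ring

theorem R_scale {u φ : Vc n k} (h : φ ⬝ᵥ u = 0) {l m : k} (hl : l ≠ 0) (hm : m ≠ 0)
    (h' : (m • φ) ⬝ᵥ (l • u) = 0) : R h' = R h := by
  ext t
  constructor
  · rintro ⟨c, rfl⟩
    refine ⟨m * (c * l), Subtype.ext ?_⟩
    rw [rS_val, rS_val, T_smul_right, smul_smul, smul_smul]
    congr 2
    ring
  · rintro ⟨c, rfl⟩
    refine ⟨c * l⁻¹ * m⁻¹, Subtype.ext ?_⟩
    rw [rS_val, rS_val, T_smul_right, smul_smul, smul_smul]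
    congr 2
    field_simp

theorem conj_orth {u φ : Vc n k} (h : φ ⬝ᵥ u = 0) (g : SLt n k) :
    (φ ᵥ* (g⁻¹).val) ⬝ᵥ (g.val *ᵥ u) = 0 := by
  rw [← Matrix.dotProduct_mulVec, Matrix.mulVec_mulVec, val_inv_mul, Matrix.one_mulVec, h]

theorem conj_rS {u φ : Vc n k} (h : φ ⬝ᵥ u = 0) (g : SLt n k) (c : k) :
    g * rS h c * g⁻¹ = rS (conj_orth h g) c := by
  apply Subtype.ext
  rw [Matrix.SpecialLinearGroup.coe_mul, Matrix.SpecialLinearGroup.coe_mul, rS_val, rS_val,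
    conj_T _ _ (val_mul_inv g), Matrix.mulVec_smul]

theorem conj_R {u φ : Vc n k} (h : φ ⬝ᵥ u = 0) (g : SLt n k) :
    conjBy (R h) g = R (conj_orth h g) := by
  ext t
  constructor
  · rintro ⟨_, ⟨c, rfl⟩, rfl⟩
    exact ⟨c, conj_rS h g c⟩
  · rintro ⟨c, rfl⟩
    exact ⟨_, ⟨c, rfl⟩, conj_rS h g c⟩

/-- Standard vectors. -/
abbrev e0 (n : ℕ) (k : Type*) [Field k] : Vc n k := Pi.single 0 1
abbrev e1 (n : ℕ) (k : Type*) [Field k] : Vc n k := Pi.single 1 1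

theorem e10 : (e1 n k) ⬝ᵥ (e0 n k) = 0 := by
  rw [single_dot]
  simp [Pi.single_apply, Cfsg.Agent.Lib.TvRoot.zero_ne_one', Cfsg.Agent.Lib.TvRoot.zero_ne_one'.symm]

/-- The base root subgroup as in the statement. -/
def A0 (n : ℕ) (k : Type*) [Field k] : Subgroup (SLt n k) :=
  Subgroup.closure {t : SLt n k | ∃ c : k, (t : Mt n k) = Matrix.transvection 0 1 c}

theorem A0_eq : A0 n k = R (e10 (n := n) (k := k)) := by
  apply le_antisymm
  · refine (Subgroup.closure_le _).mpr ?_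
    rintro t ⟨c, hc⟩
    refine ⟨c, Subtype.ext ?_⟩
    rw [rS_val, hc]
    have : c • e0 n k = Pi.single 0 c := by
      ext i
      simp [Pi.single_apply]
    rw [this, T_single_single, mul_one]
  · rintro _ ⟨c, rfl⟩
    apply Subgroup.subset_closure
    refine ⟨c, ?_⟩
    rw [rS_val]
    have : c • e0 n k = Pi.single 0 c := by
      ext i
      simp [Pi.single_apply]
    rw [this, T_single_single, mul_one]

/-- The set of conjugates. -/
def S (n : ℕ) (k : Type*) [Field k] : Set (Subgroup (SLt n k)) := {A | ∃ g : SLt n k, A = conjBy (A0 n k) g}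

theorem exists_move {x y : Vc n k} (hx : x ≠ 0) (hy : y ≠ 0) (hxy : y ⬝ᵥ x = 0) :
    ∃ g : SLt n k, ∃ l m : k, l ≠ 0 ∧ m ≠ 0 ∧ g.val *ᵥ e0 n k = l • x ∧ e1 n k ᵥ* (g⁻¹).val = m • y := by
  obtain ⟨h₁, κ, hκ, he⟩ := exists_A hx
  set y' := y ᵥ* (h₁⁻¹).val with hy'
  have hy'1 : y' ≠ 0 := by
    intro e
    have h3 : y' ᵥ* h₁.val = y := by
      rw [hy', Matrix.vecMul_vecMul, val_inv_mul, Matrix.vecMul_one]
    rw [e, Matrix.zero_vecMul] at h3
    exact hy h3.symm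
  have hy'0 : y' 0 = 0 := by
    have h3 : y' ⬝ᵥ (h₁.val *ᵥ x) = 0 := by
      rw [hy', ← Matrix.dotProduct_mulVec, Matrix.mulVec_mulVec, val_inv_mul, Matrix.one_mulVec]
      exact hxy
    rw [he, dot_single] at h3
    exact (mul_eq_zero.mp h3).resolve_right hκ
  obtain ⟨h₂, he2, κ', hκ', he3⟩ := exists_B hy'1 hy'0
  refine ⟨h₁⁻¹ * h₂, κ⁻¹, κ'⁻¹, inv_ne_zero hκ, inv_ne_zero hκ', ?_, ?_⟩
  · rw [Matrix.SpecialLinearGroup.coe_mul, ← Matrix.mulVec_mulVec, he2]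
    have h5 : (Pi.single 0 κ : Vc n k) = κ • e0 n k := by
      ext i
      simp [Pi.single_apply]
    have h6 : (h₁⁻¹).val *ᵥ (Pi.single 0 κ : Vc n k) = x := by
      rw [← he, Matrix.mulVec_mulVec, val_inv_mul, Matrix.one_mulVec]
    rw [h5, Matrix.mulVec_smul] at h6
    rw [← h6, smul_smul, inv_mul_cancel₀ hκ, one_smul]
  · have h5 : (Pi.single 1 κ' : Vc n k) = κ' • e1 n k := by
      ext i
      simp [Pi.single_apply]
    have h6 : (y' ᵥ* h₂.val) ᵥ* (h₂⁻¹).val = y' := by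
      rw [Matrix.vecMul_vecMul, val_mul_inv, Matrix.vecMul_one]
    rw [he3, h5, Matrix.smul_vecMul] at h6
    have h7 : e1 n k ᵥ* (h₂⁻¹).val = κ'⁻¹ • y' := by
      rw [← h6, smul_smul, inv_mul_cancel₀ hκ', one_smul]
    have h8 : (h₁⁻¹ * h₂ : SLt n k)⁻¹ = h₂⁻¹ * h₁ := by group
    rw [h8, Matrix.SpecialLinearGroup.coe_mul, ← Matrix.vecMul_vecMul, h7, Matrix.smul_vecMul, hy',
      Matrix.vecMul_vecMul, val_inv_mul, Matrix.vecMul_one]

theorem R_mem_S {u φ : Vc n k} (h : φ ⬝ᵥ u = 0) (hu : u ≠ 0) (hφ : φ ≠ 0) : R h ∈ S n k := by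
  obtain ⟨g, l, m, hl, hm, e1', e2'⟩ := exists_move hu hφ h
  refine ⟨g, ?_⟩
  rw [A0_eq, conj_R]
  have h' : (m • φ) ⬝ᵥ (l • u) = 0 := by
    rw [smul_dotProduct, dotProduct_smul, h, smul_zero, smul_zero]
  rw [R_congr (conj_orth e10 g) h' e1' e2', R_scale h hl hm h']

theorem mem_S_iff {A : Subgroup (SLt n k)} :
    A ∈ S n k ↔ ∃ (u φ : Vc n k) (h : φ ⬝ᵥ u = 0), u ≠ 0 ∧ φ ≠ 0 ∧ A = R h := by
  constructor
  · rintro ⟨g, rfl⟩
    have hx : g.val *ᵥ e0 n k ≠ 0 := by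
      intro e
      have h3 : (g⁻¹).val *ᵥ (g.val *ᵥ e0 n k) = e0 n k := by
        rw [Matrix.mulVec_mulVec, val_inv_mul, Matrix.one_mulVec]
      rw [e, Matrix.mulVec_zero] at h3
      exact single_ne_zero one_ne_zero h3.symm
    have hy : e1 n k ᵥ* (g⁻¹).val ≠ 0 := by
      intro e
      have h3 : (e1 n k ᵥ* (g⁻¹).val) ᵥ* g.val = e1 n k := by
        rw [Matrix.vecMul_vecMul, val_inv_mul, Matrix.vecMul_one]
      rw [e, Matrix.zero_vecMul] at h3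
      exact single_ne_zero one_ne_zero h3.symm
    refine ⟨_, _, conj_orth e10 g, hx, hy, ?_⟩
    rw [A0_eq, conj_R]
  · rintro ⟨u, φ, h, hu, hφ, rfl⟩
    exact R_mem_S h hu hφ

/-- The commuting case. -/
theorem R_comm {u φ v ψ : Vc n k} (h₁ : φ ⬝ᵥ u = 0) (h₂ : ψ ⬝ᵥ v = 0) (hα : φ ⬝ᵥ v = 0) (hβ : ψ ⬝ᵥ u = 0)
    {a b : SLt n k} (ha : a ∈ R h₁) (hb : b ∈ R h₂) : a * b = b * a := by
  obtain ⟨c, rfl⟩ := ha
  obtain ⟨d, rfl⟩ := hb
  apply Subtype.ext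
  rw [Matrix.SpecialLinearGroup.coe_mul, Matrix.SpecialLinearGroup.coe_mul, rS_val, rS_val]
  exact T_comm (smul_orth hα d) (smul_orth hβ c)

theorem R_commutator_bot {u φ v ψ : Vc n k} (h₁ : φ ⬝ᵥ u = 0) (h₂ : ψ ⬝ᵥ v = 0) (hα : φ ⬝ᵥ v = 0)
    (hβ : ψ ⬝ᵥ u = 0) : ⁅R h₁, R h₂⁆ = ⊥ := by
  rw [Subgroup.commutator_eq_bot_iff_le_centralizer]
  intro a ha
  rw [Subgroup.mem_centralizer_iff]
  intro b hb
  exact (R_comm h₁ h₂ hα hβ ha hb).symm

theorem R_isComm {u φ : Vc n k} (h : φ ⬝ᵥ u = 0) : IsMulCommutative (R h) := by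
  refine ⟨⟨fun a b => Subtype.ext ?_⟩⟩
  exact R_comm h h h h a.2 b.2

/-- The commutator formula. -/
theorem commutator_formula {u φ v ψ : Vc n k} (h₁ : φ ⬝ᵥ u = 0) (h₂ : ψ ⬝ᵥ v = 0) (hβ : ψ ⬝ᵥ u = 0)
    (c d : k) : rS h₁ c * rS h₂ d * (rS h₁ c)⁻¹ * (rS h₂ d)⁻¹ = rS hβ (c * d * (φ ⬝ᵥ v)) := by
  have h3 : rS h₁ c * rS h₂ d * (rS h₁ c)⁻¹ = rS (conj_orth h₂ (rS h₁ c)) d := conj_rS h₂ _ d
  rw [h3, rS_inv h₂ d]
  apply Subtype.ext
  rw [Matrix.SpecialLinearGroup.coe_mul, rS_val, rS_val, rS_val]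
  have h4 : ψ ᵥ* ((rS h₁ c)⁻¹).val = ψ := by
    rw [rS_inv, rS_val, vecMul_T, dotProduct_smul, hβ, smul_zero, zero_smul, add_zero]
  have h5 : T (c • u) φ *ᵥ v = v + (c * (φ ⬝ᵥ v)) • u := by
    rw [T_mulVec, smul_smul, mul_comm]
  rw [h4, h5, T_mul_same _ _ _ (smul_orth h₂ _), rS_val]
  congr 1
  ext i
  simp
  ring

theorem R_ne_top {u φ : Vc n k} (h : φ ⬝ᵥ u = 0) (hu : u ≠ 0) (hφ : φ ≠ 0) : R h ≠ ⊥ := by
  intro e
  have h1 : rS h 1 ∈ R h := rS_mem h 1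
  rw [e, Subgroup.mem_bot] at h1
  exact rS_ne_one h hu hφ one_ne_zero h1

theorem rS_param {u φ : Vc n k} (h : φ ⬝ᵥ u = 0) (hu : u ≠ 0) (hφ : φ ≠ 0) {a : SLt n k}
    (ha : a ∈ R h) (ha1 : a ≠ 1) : ∃ c : k, c ≠ 0 ∧ a = rS h c := by
  obtain ⟨c, rfl⟩ := ha
  refine ⟨c, ?_, rfl⟩
  rintro rfl
  exact ha1 (rS_zero h)

/-- The commutator case. -/
theorem commCase {u φ v ψ : Vc n k} (h₁ : φ ⬝ᵥ u = 0) (h₂ : ψ ⬝ᵥ v = 0) (hβ : ψ ⬝ᵥ u = 0)
    (hα : φ ⬝ᵥ v ≠ 0) (hu : u ≠ 0) (hφ : φ ≠ 0) (hv : v ≠ 0) (hψ : ψ ≠ 0) :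
    RootCommutatorCase (S n k) (R h₁) (R h₂) := by
  have hcomm : ⁅R h₁, R h₂⁆ = R hβ := by
    apply le_antisymm
    · rw [Subgroup.commutator_le]
      rintro _ ⟨c, rfl⟩ _ ⟨d, rfl⟩
      rw [commutatorElement_def, commutator_formula h₁ h₂ hβ]
      exact rS_mem hβ _
    · rintro _ ⟨e, rfl⟩
      have h0 : rS hβ e = ⁅rS h₁ (e * (φ ⬝ᵥ v)⁻¹), rS h₂ 1⁆ := by
        rw [commutatorElement_def, commutator_formula h₁ h₂ hβ]
        congr 1
        field_simp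
      rw [h0]
      exact Subgroup.commutator_mem_commutator (rS_mem h₁ _) (rS_mem h₂ _)
  rw [RootCommutatorCase, hcomm]
  refine ⟨R_mem_S hβ hu hψ, ?_, ?_, ?_⟩
  · intro c hc x hx
    have h3 : R h₁ ⊔ R h₂ ≤ Subgroup.centralizer (R hβ : Set (SLt n k)) := by
      apply sup_le
      · intro a ha
        rw [Subgroup.mem_centralizer_iff]
        intro b hb
        exact R_comm hβ h₁ hβ h₁ hb ha
      · intro a ha
        rw [Subgroup.mem_centralizer_iff]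
        intro b hb
        exact R_comm hβ h₂ (by rw [h₂]) hβ hb ha
    exact (Subgroup.mem_centralizer_iff.mp (h3 hx) c hc)
  · intro a ha ha1
    obtain ⟨c, hc, rfl⟩ := rS_param h₁ hu hφ ha ha1
    apply le_antisymm
    · rw [Subgroup.closure_le]
      rintro _ ⟨_, ⟨d, rfl⟩, rfl⟩
      show rS h₁ c * rS h₂ d * (rS h₁ c)⁻¹ * (rS h₂ d)⁻¹ ∈ R hβ
      rw [commutator_formula h₁ h₂ hβ]
      exact rS_mem hβ _
    · rintro _ ⟨e, rfl⟩
      apply Subgroup.subset_closure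
      refine ⟨rS h₂ (e * c⁻¹ * (φ ⬝ᵥ v)⁻¹), rS_mem h₂ _, ?_⟩
      show rS h₁ c * rS h₂ _ * (rS h₁ c)⁻¹ * (rS h₂ _)⁻¹ = _
      rw [commutator_formula h₁ h₂ hβ]
      congr 1
      field_simp
  · intro b hb hb1
    obtain ⟨d, hd, rfl⟩ := rS_param h₂ hv hψ hb hb1
    apply le_antisymm
    · rw [Subgroup.closure_le]
      rintro _ ⟨_, ⟨c, rfl⟩, rfl⟩
      show rS h₁ c * rS h₂ d * (rS h₁ c)⁻¹ * (rS h₂ d)⁻¹ ∈ R hβ
      rw [commutator_formula h₁ h₂ hβ]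
      exact rS_mem hβ _
    · rintro _ ⟨e, rfl⟩
      apply Subgroup.subset_closure
      refine ⟨rS h₁ (e * d⁻¹ * (φ ⬝ᵥ v)⁻¹), rS_mem h₁ _, ?_⟩
      show rS h₁ _ * rS h₂ d * (rS h₁ _)⁻¹ * (rS h₂ d)⁻¹ = _
      rw [commutator_formula h₁ h₂ hβ]
      congr 1
      field_simp

/-- Not a rank one pair if `β = 0`. -/
theorem not_rankOne {u φ v ψ : Vc n k} (h₁ : φ ⬝ᵥ u = 0) (h₂ : ψ ⬝ᵥ v = 0) (hβ : ψ ⬝ᵥ u = 0)
    (hu : u ≠ 0) (hφ : φ ≠ 0) : ¬ IsRankOnePair (R h₁) (R h₂) := by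
  intro h
  apply Cfsg.Agent.Lib.RootBasic.no_comm_conj h (rS_mem h₁ 1) (rS_ne_one h₁ hu hφ one_ne_zero)
  rw [conj_R]
  intro x hx d hd
  obtain ⟨c, rfl⟩ := hx
  obtain ⟨e, rfl⟩ := hd
  apply Subtype.ext
  rw [Matrix.SpecialLinearGroup.coe_mul, Matrix.SpecialLinearGroup.coe_mul, rS_val, rS_val]
  have h4 : ψ ᵥ* ((rS h₁ 1)⁻¹).val = ψ := by
    rw [rS_inv, rS_val, vecMul_T, dotProduct_smul, hβ, smul_zero, zero_smul, add_zero]
  rw [h4]
  apply T_comm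
  · exact smul_orth h₂ e
  · apply smul_orth
    rw [T_mulVec]
    simp [dotProduct_add, dotProduct_smul, h₂, hβ]

/-! ### Rank one pairs -/

section Emb

variable {u φ v ψ : Vc n k}

/-- The column matrix. -/
def colU (u v : Vc n k) : Matrix (Fin (n + 3)) (Fin 2) k := Matrix.of fun i j => ![u i, v i] j

/-- The row matrix. -/
def rowY (ψ φ : Vc n k) : Matrix (Fin 2) (Fin (n + 3)) k := Matrix.of fun i j => ![ψ j, φ j] i

theorem rowY_colU (h₁ : φ ⬝ᵥ u = 0) (h₂ : ψ ⬝ᵥ v = 0) (hα : φ ⬝ᵥ v = 1) (hβ : ψ ⬝ᵥ u = 1) :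
    rowY ψ φ * colU u v = 1 := by
  ext i j
  rw [Matrix.mul_apply]
  fin_cases i <;> fin_cases j
  · simpa [rowY, colU, dotProduct] using hβ
  · simpa [rowY, colU, dotProduct] using h₂
  · simpa [rowY, colU, dotProduct] using h₁
  · simpa [rowY, colU, dotProduct] using hα

/-- The embedding matrix. -/
def embM (u v ψ φ : Vc n k) (g : Matrix (Fin 2) (Fin 2) k) : Mt n k :=
  1 + colU u v * (g - 1) * rowY ψ φ

theorem embM_mul (hYU : rowY ψ φ * colU u v = 1) (g g' : Matrix (Fin 2) (Fin 2) k) :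
    embM u v ψ φ g * embM u v ψ φ g' = embM u v ψ φ (g * g') := by
  set U := colU u v
  set Y := rowY ψ φ
  have h1 : U * (g - 1) * Y * (U * (g' - 1) * Y) = U * ((g - 1) * (g' - 1)) * Y := by
    calc U * (g - 1) * Y * (U * (g' - 1) * Y) = U * (g - 1) * (Y * U) * (g' - 1) * Y := by
          simp only [Matrix.mul_assoc]
      _ = _ := by rw [hYU, Matrix.mul_one]; simp only [Matrix.mul_assoc]
  have h2 : g * g' - 1 = (g - 1) + (g' - 1) + (g - 1) * (g' - 1) := by noncomm_ring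
  have h3 : U * (g * g' - 1) * Y = U * (g - 1) * Y + U * (g' - 1) * Y + U * ((g - 1) * (g' - 1)) * Y := by
    rw [h2]
    simp only [Matrix.mul_add, Matrix.add_mul]
  simp only [embM]
  rw [← show U = colU u v from rfl, ← show Y = rowY ψ φ from rfl, h3, ← h1]
  generalize U * (g - 1) * Y = P
  generalize U * (g' - 1) * Y = Q
  noncomm_ring

theorem embM_det (hYU : rowY ψ φ * colU u v = 1) (g : Matrix (Fin 2) (Fin 2) k) :
    (embM u v ψ φ g).det = g.det := by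
  rw [embM, Matrix.mul_assoc, Matrix.det_one_add_mul_comm, Matrix.mul_assoc, hYU, Matrix.mul_one]
  simp

/-- The embedding of SL₂. -/
def emb (hYU : rowY ψ φ * colU u v = 1) :
    Matrix.SpecialLinearGroup (Fin 2) k →* SLt n k where
  toFun g := ⟨embM u v ψ φ g.val, by rw [embM_det hYU]; exact g.2⟩
  map_one' := by
    apply Subtype.ext
    simp [embM]
  map_mul' g g' := by
    apply Subtype.ext
    show embM u v ψ φ (g.val * g'.val) = embM u v ψ φ g.val * embM u v ψ φ g'.val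
    rw [embM_mul hYU]

theorem emb_val (hYU : rowY ψ φ * colU u v = 1) (g : Matrix.SpecialLinearGroup (Fin 2) k) :
    (emb hYU g).val = embM u v ψ φ g.val := rfl

theorem emb_injective (hYU : rowY ψ φ * colU u v = 1) : Function.Injective (emb hYU) := by
  intro g g' e
  have h1 : embM u v ψ φ g.val = embM u v ψ φ g'.val := congrArg Subtype.val e
  have h2 : colU u v * (g.val - 1) * rowY ψ φ = colU u v * (g'.val - 1) * rowY ψ φ :=
    add_left_cancel h1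
  have h3 : rowY ψ φ * (colU u v * (g.val - 1) * rowY ψ φ) * colU u v
      = rowY ψ φ * (colU u v * (g'.val - 1) * rowY ψ φ) * colU u v := by rw [h2]
  have h4 : ∀ X : Matrix (Fin 2) (Fin 2) k, rowY ψ φ * (colU u v * X * rowY ψ φ) * colU u v = X := by
    intro X
    calc rowY ψ φ * (colU u v * X * rowY ψ φ) * colU u v
        = (rowY ψ φ * colU u v) * X * (rowY ψ φ * colU u v) := by simp only [Matrix.mul_assoc]
      _ = X := by rw [hYU, Matrix.one_mul, Matrix.mul_one]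
  rw [h4, h4] at h3
  apply Subtype.ext
  exact sub_left_injective h3

open Cfsg.Agent.Lib.RootPSL

theorem emb_tup (hYU : rowY ψ φ * colU u v = 1) (h₁ : φ ⬝ᵥ u = 0) (c : k) :
    emb hYU (tup c) = rS h₁ c := by
  apply Subtype.ext
  rw [emb_val, rS_val, embM, T]
  congr 1
  ext i j
  simp [tup, Matrix.mul_apply, Fin.sum_univ_two, colU, rowY, vecMulVec_apply, Matrix.one_apply]
  try ring_nf
  try simp

theorem emb_tlo (hYU : rowY ψ φ * colU u v = 1) (h₂ : ψ ⬝ᵥ v = 0) (c : k) :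
    emb hYU (tlo c) = rS h₂ c := by
  apply Subtype.ext
  rw [emb_val, rS_val, embM, T]
  congr 1
  ext i j
  simp [tlo, Matrix.mul_apply, Fin.sum_univ_two, colU, rowY, vecMulVec_apply, Matrix.one_apply]
  try ring_nf
  try simp

theorem eq_tup {g : Matrix.SpecialLinearGroup (Fin 2) k} (h : g.val 1 0 = 0 ∧ g.val 0 0 = 1 ∧ g.val 1 1 = 1) :
    g = tup (g.val 0 1) := by
  apply Subtype.ext
  ext i j
  fin_cases i <;> fin_cases j <;> simp [tup, h.1, h.2.1, h.2.2]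

theorem eq_tlo {g : Matrix.SpecialLinearGroup (Fin 2) k} (h : g.val 0 1 = 0 ∧ g.val 0 0 = 1 ∧ g.val 1 1 = 1) :
    g = tlo (g.val 1 0) := by
  apply Subtype.ext
  ext i j
  fin_cases i <;> fin_cases j <;> simp [tlo, h.1, h.2.1, h.2.2]

theorem map_upper (hYU : rowY ψ φ * colU u v = 1) (h₁ : φ ⬝ᵥ u = 0) :
    (upperUnipotentSL2 k).map (emb hYU) = R h₁ := by
  apply le_antisymm
  · rw [Subgroup.map_le_iff_le_comap]
    refine (Subgroup.closure_le _).mpr ?_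
    intro g hg
    show emb hYU g ∈ R h₁
    rw [eq_tup hg, emb_tup hYU h₁]
    exact rS_mem h₁ _
  · rintro _ ⟨c, rfl⟩
    exact ⟨tup c, tup_mem c, emb_tup hYU h₁ c⟩

theorem map_lower (hYU : rowY ψ φ * colU u v = 1) (h₂ : ψ ⬝ᵥ v = 0) :
    (lowerUnipotentSL2 k).map (emb hYU) = R h₂ := by
  apply le_antisymm
  · rw [Subgroup.map_le_iff_le_comap]
    refine (Subgroup.closure_le _).mpr ?_
    intro g hg
    show emb hYU g ∈ R h₂
    rw [eq_tlo hg, emb_tlo hYU h₂]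
    exact rS_mem h₂ _
  · rintro _ ⟨c, rfl⟩
    exact ⟨tlo c, tlo_mem c, emb_tlo hYU h₂ c⟩

theorem sup_upper_lower : upperUnipotentSL2 k ⊔ lowerUnipotentSL2 k = ⊤ := by
  rw [eq_top_iff]
  intro A _
  refine Cfsg.Agent.Lib.SLn.transvection_induction (· ∈ upperUnipotentSL2 k ⊔ lowerUnipotentSL2 k) ?_
    (fun _ _ => mul_mem) (one_mem _) A
  intro i j h c
  have hij : (i = 0 ∧ j = 1) ∨ (i = 1 ∧ j = 0) := by
    fin_cases i <;> fin_cases j <;> simp at h ⊢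
  rcases hij with ⟨rfl, rfl⟩ | ⟨rfl, rfl⟩
  · apply Subgroup.mem_sup_left
    have : Matrix.SpecialLinearGroup.transvection h c = tup c := by
      apply Subtype.ext
      rw [Matrix.SpecialLinearGroup.transvection_coe]
      ext i j
      fin_cases i <;> fin_cases j <;> simp [tup, Matrix.single_apply]
    rw [this]
    exact tup_mem c
  · apply Subgroup.mem_sup_right
    have : Matrix.SpecialLinearGroup.transvection h c = tlo c := by
      apply Subtype.ext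
      rw [Matrix.SpecialLinearGroup.transvection_coe]
      ext i j
      fin_cases i <;> fin_cases j <;> simp [tlo, Matrix.single_apply]
    rw [this]
    exact tlo_mem c

theorem tup_inv (s : k) : (tup s)⁻¹ = tup (-s) := by
  apply inv_eq_of_mul_eq_one_left
  rw [tup_mul, neg_add_cancel]
  apply Subtype.ext
  ext i j
  fin_cases i <;> fin_cases j <;> simp [tup]

theorem tlo_mul (s t : k) : tlo s * tlo t = tlo (s + t) := by
  apply Subtype.ext
  rw [Matrix.SpecialLinearGroup.coe_mul]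
  simp [tlo, Matrix.mul_fin_two, add_comm]

theorem tlo_inv (s : k) : (tlo s)⁻¹ = tlo (-s) := by
  apply inv_eq_of_mul_eq_one_left
  rw [tlo_mul, neg_add_cancel]
  apply Subtype.ext
  ext i j
  fin_cases i <;> fin_cases j <;> simp [tlo]

theorem sl2_identity {s t : k} (r : k) (hst : s * t = 1) :
    (tlo t)⁻¹ * tup r * tlo t = (tup s)⁻¹ * tlo (-t * t * r) * tup s := by
  rw [tlo_inv, tup_inv]
  apply Subtype.ext
  show (!![1, 0; -t, 1] * !![1, r; 0, 1] * !![1, 0; t, 1] : Matrix (Fin 2) (Fin 2) k)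
    = !![1, -s; 0, 1] * !![1, 0; -t * t * r, 1] * !![1, s; 0, 1]
  simp only [Matrix.mul_fin_two]
  ext i j
  fin_cases i <;> fin_cases j <;> simp
  · linear_combination (-(r * t)) * hst
  · linear_combination (-r * (s * t + 1)) * hst
  · ring
  · linear_combination (-(t * r)) * hst

variable (hYU : rowY ψ φ * colU u v = 1) (h₁ : φ ⬝ᵥ u = 0) (h₂ : ψ ⬝ᵥ v = 0)

include hYU in
theorem elem_identity {s t : k} (r : k) (hst : s * t = 1) :
    (rS h₂ t)⁻¹ * rS h₁ r * rS h₂ t = (rS h₁ s)⁻¹ * rS h₂ (-t * t * r) * rS h₁ s := by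
  rw [← emb_tup hYU h₁, ← emb_tup hYU h₁, ← emb_tlo hYU h₂, ← emb_tlo hYU h₂, ← map_inv, ← map_inv,
    ← map_mul, ← map_mul, ← map_mul, ← map_mul, sl2_identity r hst]

include hYU in
theorem key_conj {s t : k} (hst : s * t = 1) :
    conjBy (R h₁) (rS h₂ t)⁻¹ = conjBy (R h₂) (rS h₁ s)⁻¹ := by
  ext z
  constructor
  · rintro ⟨_, ⟨r, rfl⟩, rfl⟩
    refine ⟨_, rS_mem h₂ (-t * t * r), ?_⟩
    simp only [MulEquiv.coe_toMonoidHom, MulAut.conj_apply, inv_inv]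
    exact (elem_identity hYU h₁ h₂ r hst).symm
  · rintro ⟨_, ⟨r, rfl⟩, rfl⟩
    refine ⟨_, rS_mem h₁ (-s * s * r), ?_⟩
    simp only [MulEquiv.coe_toMonoidHom, MulAut.conj_apply, inv_inv]
    rw [elem_identity hYU h₁ h₂ _ hst]
    congr 3
    have : t * t * (s * s) = 1 := by
      calc t * t * (s * s) = (s * t) * (s * t) := by ring
        _ = 1 := by rw [hst, one_mul]
    linear_combination r * this

include hYU in
theorem rankOne_norm (hu : u ≠ 0) (hφ : φ ≠ 0) (hv : v ≠ 0) (hψ : ψ ≠ 0) : IsRankOnePair (R h₁) (R h₂) := by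
  refine ⟨?_, Cfsg.Agent.Lib.RootImage.isNilpotent_of_comm (R_isComm h₁),
    Cfsg.Agent.Lib.RootImage.isNilpotent_of_comm (R_isComm h₂), ?_, ?_⟩
  · intro e
    have h3 : rS h₁ 1 ∈ R h₂ := e ▸ rS_mem h₁ 1
    obtain ⟨d, hd⟩ := h3
    rw [← emb_tup hYU h₁, ← emb_tlo hYU h₂] at hd
    have h4 := emb_injective hYU hd
    have h5 := congrFun (congrFun (congrArg Subtype.val h4) 0) 1
    simp [tup, tlo] at h5
  · intro a ha ha1
    obtain ⟨s, hs, rfl⟩ := rS_param h₁ hu hφ ha ha1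
    refine ⟨rS h₂ s⁻¹, rS_mem h₂ _, rS_ne_one h₂ hv hψ (inv_ne_zero hs), ?_⟩
    exact key_conj hYU h₁ h₂ (mul_inv_cancel₀ hs)
  · intro b hb hb1
    obtain ⟨t, ht, rfl⟩ := rS_param h₂ hv hψ hb hb1
    refine ⟨rS h₁ t⁻¹, rS_mem h₁ _, rS_ne_one h₁ hu hφ (inv_ne_zero ht), ?_⟩
    exact (key_conj hYU h₁ h₂ (inv_mul_cancel₀ ht)).symm

include hYU in
theorem psl2_norm : IsPSL2PairOver k (R h₁) (R h₂) := by
  refine ⟨emb hYU, ?_, ?_, map_upper hYU h₁, map_lower hYU h₂⟩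
  · rw [MonoidHom.range_eq_map, ← sup_upper_lower, Subgroup.map_sup, map_upper hYU h₁, map_lower hYU h₂]
  · rw [(MonoidHom.ker_eq_bot_iff _).mpr (emb_injective hYU)]
    exact bot_le

end Emb

theorem R_scale_left {u φ : Vc n k} (h : φ ⬝ᵥ u = 0) {l : k} (hl : l ≠ 0)
    (h' : φ ⬝ᵥ (l • u) = 0) : R h' = R h := by
  ext t
  constructor
  · rintro ⟨c, rfl⟩
    refine ⟨c * l, Subtype.ext ?_⟩
    rw [rS_val, rS_val, smul_smul]
  · rintro ⟨c, rfl⟩
    refine ⟨c * l⁻¹, Subtype.ext ?_⟩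
    rw [rS_val, rS_val, smul_smul]
    congr 2
    field_simp

/-- Normalisation: the matrices for the general pair. -/
theorem exists_norm {u φ v ψ : Vc n k} (h₁ : φ ⬝ᵥ u = 0) (h₂ : ψ ⬝ᵥ v = 0) (hα : φ ⬝ᵥ v ≠ 0) (hβ : ψ ⬝ᵥ u ≠ 0) :
    ∃ (h₁' : φ ⬝ᵥ ((ψ ⬝ᵥ u)⁻¹ • u) = 0) (h₂' : ψ ⬝ᵥ ((φ ⬝ᵥ v)⁻¹ • v) = 0)
      (hYU : rowY ψ φ * colU ((ψ ⬝ᵥ u)⁻¹ • u) ((φ ⬝ᵥ v)⁻¹ • v) = 1), R h₁' = R h₁ ∧ R h₂' = R h₂ := by
  have h₁' := smul_orth h₁ (ψ ⬝ᵥ u)⁻¹
  have h₂' := smul_orth h₂ (φ ⬝ᵥ v)⁻¹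
  refine ⟨h₁', h₂', rowY_colU h₁' h₂' ?_ ?_, R_scale_left h₁ (inv_ne_zero hβ) h₁', R_scale_left h₂ (inv_ne_zero hα) h₂'⟩
  · rw [dotProduct_smul, smul_eq_mul, inv_mul_cancel₀ hα]
  · rw [dotProduct_smul, smul_eq_mul, inv_mul_cancel₀ hβ]

theorem rankOne_gen {u φ v ψ : Vc n k} (h₁ : φ ⬝ᵥ u = 0) (h₂ : ψ ⬝ᵥ v = 0) (hα : φ ⬝ᵥ v ≠ 0) (hβ : ψ ⬝ᵥ u ≠ 0)
    (hu : u ≠ 0) (hφ : φ ≠ 0) (hv : v ≠ 0) (hψ : ψ ≠ 0) : IsRankOnePair (R h₁) (R h₂) := by
  obtain ⟨h₁', h₂', hYU, e1', e2'⟩ := exists_norm h₁ h₂ hα hβ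
  rw [← e1', ← e2']
  exact rankOne_norm hYU h₁' h₂' (smul_ne_zero (inv_ne_zero hβ) hu) hφ (smul_ne_zero (inv_ne_zero hα) hv) hψ

theorem psl2_gen {u φ v ψ : Vc n k} (h₁ : φ ⬝ᵥ u = 0) (h₂ : ψ ⬝ᵥ v = 0) (hα : φ ⬝ᵥ v ≠ 0) (hβ : ψ ⬝ᵥ u ≠ 0) :
    IsPSL2PairOver k (R h₁) (R h₂) := by
  obtain ⟨h₁', h₂', hYU, e1', e2'⟩ := exists_norm h₁ h₂ hα hβ
  rw [← e1', ← e2']
  exact psl2_norm hYU h₁' h₂'

theorem iSup_S : (⨆ A ∈ S n k, A) = ⊤ := by
  rw [eq_top_iff]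
  intro A _
  refine Cfsg.Agent.Lib.SLn.transvection_induction (· ∈ (⨆ A ∈ S n k, A)) ?_
    (fun _ _ => mul_mem) (one_mem _) A
  intro i j h c
  have hw : (Pi.single j 1 : Vc n k) ⬝ᵥ (Pi.single i 1) = 0 := by
    rw [single_dot]
    simp [Pi.single_apply, h, h.symm]
  have hmem : R hw ∈ S n k := R_mem_S hw (single_ne_zero one_ne_zero) (single_ne_zero one_ne_zero)
  have hle : R hw ≤ (⨆ A ∈ S n k, A) := le_iSup₂_of_le (R hw) hmem le_rfl
  apply hle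
  refine ⟨c, Subtype.ext ?_⟩
  rw [rS_val, Matrix.SpecialLinearGroup.transvection_coe, T]
  congr 1
  ext a b
  by_cases h0 : a = i
  · subst h0
    by_cases h1 : b = j
    · subst h1
      simp [vecMulVec_apply]
    · simp [vecMulVec_apply, h1, Ne.symm h1]
  · simp [vecMulVec_apply, h0, Ne.symm h0]

theorem conj_mem_S {A : Subgroup (SLt n k)} (hA : A ∈ S n k) (g : SLt n k) : conjBy A g ∈ S n k := by
  obtain ⟨g₀, rfl⟩ := hA
  refine ⟨g * g₀, ?_⟩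
  rw [Cfsg.Agent.Lib.RankOne.conjBy_mul]

theorem pair_S {A B : Subgroup (SLt n k)} (hA : A ∈ S n k) (hB : B ∈ S n k) :
    ⁅A, B⁆ = ⊥ ∨ IsRankOnePair A B ∨ RootCommutatorCase (S n k) A B := by
  obtain ⟨u, φ, h₁, hu, hφ, rfl⟩ := mem_S_iff.mp hA
  obtain ⟨v, ψ, h₂, hv, hψ, rfl⟩ := mem_S_iff.mp hB
  by_cases hα : φ ⬝ᵥ v = 0
  · by_cases hβ : ψ ⬝ᵥ u = 0
    · exact Or.inl (R_commutator_bot h₁ h₂ hα hβ)
    · right; right
      exact Cfsg.Agent.Lib.RootBasic.CommCase.symm (commCase h₂ h₁ hα hβ hv hψ hu hφ)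
  · by_cases hβ : ψ ⬝ᵥ u = 0
    · right; right
      exact commCase h₁ h₂ hβ hα hu hφ hv hψ
    · exact Or.inr (Or.inl (rankOne_gen h₁ h₂ hα hβ hu hφ hv hψ))

theorem rootSet : IsRootSubgroupSet (S n k) where
  commutative := by
    intro A hA
    obtain ⟨u, φ, h₁, hu, hφ, rfl⟩ := mem_S_iff.mp hA
    exact R_isComm h₁
  ne_bot := by
    intro A hA
    obtain ⟨u, φ, h₁, hu, hφ, rfl⟩ := mem_S_iff.mp hA
    exact R_ne_top h₁ hu hφ
  generates := iSup_S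
  conj_mem := fun _ h g => conj_mem_S h g
  pair := fun _ hA _ hB => pair_S hA hB

theorem class_S : IsConjClassOfSubgroups (S n k) := by
  refine ⟨⟨_, 1, rfl⟩, ?_⟩
  rintro _ ⟨g, rfl⟩ _ ⟨g', rfl⟩
  refine ⟨g' * g⁻¹, ?_⟩
  rw [← Cfsg.Agent.Lib.RankOne.conjBy_mul]
  simp

theorem psl2_S {A B : Subgroup (SLt n k)} (hA : A ∈ S n k) (hB : B ∈ S n k) (h : IsRankOnePair A B) :
    IsPSL2PairOver k A B := by
  obtain ⟨u, φ, h₁, hu, hφ, rfl⟩ := mem_S_iff.mp hA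
  obtain ⟨v, ψ, h₂, hv, hψ, rfl⟩ := mem_S_iff.mp hB
  by_cases hα : φ ⬝ᵥ v = 0
  · exact absurd (RankOnePair_symm h) (not_rankOne h₂ h₁ hα hv hψ)
  · by_cases hβ : ψ ⬝ᵥ u = 0
    · exact absurd h (not_rankOne h₁ h₂ hβ hu hφ)
    · exact psl2_gen h₁ h₂ hα hβ

/-! ### Non-degeneracy -/

theorem single_orth {i j : Fin (n + 3)} (h : i ≠ j) :
    (Pi.single j 1 : Vc n k) ⬝ᵥ (Pi.single i 1) = 0 := by
  rw [single_dot]
  simp [Pi.single_apply, h, h.symm]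

theorem nondeg : IsNondegenerateRootSet (S n k) := by
  have h01 : (0 : Fin (n + 3)) ≠ 1 := Cfsg.Agent.Lib.TvRoot.zero_ne_one'
  have h02 : (0 : Fin (n + 3)) ≠ i2 n := zero_ne_two'
  have h12 : (1 : Fin (n + 3)) ≠ i2 n := one_ne_two'
  have hn : ∀ i : Fin (n + 3), (Pi.single i 1 : Vc n k) ≠ 0 := fun i => single_ne_zero one_ne_zero
  have hA : (Pi.single 1 1 : Vc n k) ⬝ᵥ (Pi.single 0 1) = 0 := single_orth h01
  have hB : (Pi.single (i2 n) 1 : Vc n k) ⬝ᵥ (Pi.single 0 1) = 0 := single_orth h02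
  have hC : (Pi.single 0 1 : Vc n k) ⬝ᵥ (Pi.single 1 1) = 0 := single_orth h01.symm
  have hD : (Pi.single (i2 n) 1 : Vc n k) ⬝ᵥ (Pi.single 1 1) = 0 := single_orth h12
  refine ⟨⟨R hA, R_mem_S hA (hn _) (hn _), R hB, R_mem_S hB (hn _) (hn _), ?_, ?_⟩,
    ⟨R hA, R_mem_S hA (hn _) (hn _), R hC, R_mem_S hC (hn _) (hn _), ?_⟩,
    ⟨R hA, R_mem_S hA (hn _) (hn _), R hD, R_mem_S hD (hn _) (hn _), ?_⟩⟩
  · intro e
    have h3 : rS hA 1 ∈ R hB := e ▸ rS_mem hA 1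
    obtain ⟨d, hd⟩ := h3
    have h4 := congrFun (congrFun (congrArg Subtype.val hd) 0) 1
    simp only [rS_val, T, Matrix.add_apply, Matrix.one_apply, vecMulVec_apply] at h4
    simp [Pi.single_apply, h01, h12] at h4
  · apply R_commutator_bot hA hB
    · exact hA
    · exact hB
  · apply rankOne_gen hA hC _ _ (hn _) (hn _) (hn _) (hn _)
    · rw [single_dot]; simp
    · rw [single_dot]; simp
  · apply commCase hA hD
    · exact hB
    · rw [single_dot]; simp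
    · exact hn _
    · exact hn _
    · exact hn _
    · exact hn _

/-! ### Connectivity -/

theorem fadj_conj {X Y : Subgroup (SLt n k)} (h : FAdj (S n k) X Y) (g : SLt n k) :
    FAdj (S n k) (conjBy X g) (conjBy Y g) :=
  ⟨conj_mem_S h.1 g, conj_mem_S h.2.1 g, Cfsg.Agent.Lib.RankOne.isRankOnePair_conj h.2.2 g⟩

theorem reach_conj {X Y : Subgroup (SLt n k)} (h : Relation.ReflTransGen (FAdj (S n k)) X Y) (g : SLt n k) :
    Relation.ReflTransGen (FAdj (S n k)) (conjBy X g) (conjBy Y g) := by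
  induction h with
  | refl => exact Relation.ReflTransGen.refl
  | tail _ h ih => exact ih.tail (fadj_conj h g)

theorem reach_symm {X Y : Subgroup (SLt n k)} (h : Relation.ReflTransGen (FAdj (S n k)) X Y) :
    Relation.ReflTransGen (FAdj (S n k)) Y X := by
  induction h with
  | refl => exact Relation.ReflTransGen.refl
  | tail _ h ih => exact Relation.ReflTransGen.head ⟨h.2.1, h.1, RankOnePair_symm h.2.2⟩ ih

theorem reach_all (g : SLt n k) : Relation.ReflTransGen (FAdj (S n k)) (A0 n k) (conjBy (A0 n k) g) := by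
  have h01 : (0 : Fin (n + 3)) ≠ 1 := Cfsg.Agent.Lib.TvRoot.zero_ne_one'
  have hC : (e0 n k) ⬝ᵥ (e1 n k) = 0 := single_orth h01.symm
  have hn : ∀ i : Fin (n + 3), (Pi.single i 1 : Vc n k) ≠ 0 := fun i => single_ne_zero one_ne_zero
  refine Cfsg.Agent.Lib.SLn.transvection_induction
    (fun g => Relation.ReflTransGen (FAdj (S n k)) (A0 n k) (conjBy (A0 n k) g)) ?_ ?_ ?_ g
  · intro i j hij c
    set t := Matrix.SpecialLinearGroup.transvection hij c with ht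
    -- the middle vertex
    have hX : R hC ∈ S n k := R_mem_S hC (hn _) (hn _)
    have hA0 : A0 n k ∈ S n k := ⟨1, by rw [Cfsg.Agent.Lib.RankOne.conjBy_one]⟩
    have h1 : FAdj (S n k) (A0 n k) (R hC) := by
      refine ⟨hA0, hX, ?_⟩
      rw [A0_eq]
      apply rankOne_gen e10 hC _ _ (hn _) (hn _) (hn _) (hn _)
      · rw [single_dot]; simp
      · rw [single_dot]; simp
    have hx : t.val *ᵥ e0 n k ≠ 0 := by
      intro e
      have h3 : (t⁻¹).val *ᵥ (t.val *ᵥ e0 n k) = e0 n k := by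
        rw [Matrix.mulVec_mulVec, val_inv_mul, Matrix.one_mulVec]
      rw [e, Matrix.mulVec_zero] at h3
      exact hn _ h3.symm
    have hy : e1 n k ᵥ* (t⁻¹).val ≠ 0 := by
      intro e
      have h3 : (e1 n k ᵥ* (t⁻¹).val) ᵥ* t.val = e1 n k := by
        rw [Matrix.vecMul_vecMul, val_inv_mul, Matrix.vecMul_one]
      rw [e, Matrix.zero_vecMul] at h3
      exact hn _ h3.symm
    have h2 : FAdj (S n k) (R hC) (conjBy (A0 n k) t) := by
      refine ⟨hX, conj_mem_S hA0 t, ?_⟩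
      rw [A0_eq, conj_R]
      apply rankOne_gen hC (conj_orth e10 t) _ _ (hn _) (hn _) hx hy
      · rw [single_dot, one_mul]
        have : (t.val *ᵥ e0 n k) 0 = t.val 0 0 := by
          simp [Matrix.mulVec, dotProduct, Pi.single_apply]
        rw [this, ht, Matrix.SpecialLinearGroup.transvection_coe]
        have h5 : ¬ (i = 0 ∧ j = 0) := fun h => hij (h.1.trans h.2.symm)
        simp [Matrix.single_apply, Matrix.one_apply, h5]
      · rw [dot_single, mul_one, ht, Matrix.SpecialLinearGroup.transvection_inv,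
          Matrix.SpecialLinearGroup.transvection_coe]
        have : ((Pi.single 1 1 : Vc n k) ᵥ* (1 + Matrix.single i j (-c) : Mt n k)) 1 =
            (1 + Matrix.single i j (-c) : Mt n k) 1 1 := by
          simp [Matrix.vecMul, dotProduct, Pi.single_apply]
        rw [this]
        have h5 : ¬ (i = 1 ∧ j = 1) := fun h => hij (h.1.trans h.2.symm)
        simp [Matrix.single_apply, Matrix.one_apply, h5]
    exact (Relation.ReflTransGen.single h1).tail h2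
  · intro a b ha hb
    have h3 := reach_conj hb a
    rw [← Cfsg.Agent.Lib.RankOne.conjBy_mul] at h3
    exact ha.trans h3
  · rw [Cfsg.Agent.Lib.RankOne.conjBy_one]

theorem connected : IsConnectedFamily (FAdj (S n k)) (S n k) := by
  rintro _ ⟨g, rfl⟩ _ ⟨g', rfl⟩
  exact (reach_symm (reach_all g)).trans (reach_all g')

/-- The statement. -/
theorem main :
    IsRootSubgroupClass (S n k) ∧ IsNondegenerateRootSet (S n k) ∧ IsKRootSubgroupSet k (S n k) ∧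
      IsConnectedFamily (FAdj (S n k)) (S n k) :=
  ⟨⟨rootSet, class_S⟩, nondeg, ⟨rootSet, fun _ hA _ hB h => psl2_S hA hB h⟩, connected⟩

end Cfsg.Agent.Lib.TvRootK
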