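import Mathlib
import Cfsg.Prelude
import Cfsg.Agent.Lib.SLn
import Cfsg.Agent.Lib.ClassGeom
import Cfsg.Agent.Lib.RootBasic
import Cfsg.Agent.Lib.RootImage
import Cfsg.Agent.Lib.RootPSL
import Cfsg.Agent.Lib.RankOne
import Cfsg.Agent.Lib.TvRootK

/-! The root subgroups of symplectic transvections. -/

set_option autoImplicit false
set_option linter.all false

namespace Cfsg.Agent.Lib.SpRoot

open Matrix Cfsg Cfsg.Geo
open scoped commutatorElement
open Cfsg.Agent.Lib.ClassGeom Cfsg.Agent.Lib.RootPSL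

variable {F : Type*} [Field F] {m : ℕ}

abbrev Ix (m : ℕ) := Fin (m + 1) ⊕ Fin (m + 1)
abbrev Vc (m : ℕ) (F : Type*) := Ix m → F
abbrev Mt (m : ℕ) (F : Type*) := Matrix (Ix m) (Ix m) F
abbrev Sp (m : ℕ) (F : Type*) [Field F] := ↥(Matrix.symplecticGroup (Fin (m + 1)) F)

/-- The form. -/
abbrev f (x y : Vc m F) : F := sympForm (m + 1) F x y

theorem f_add_left (x y z : Vc m F) : f x z + f y z = f (x + y) z := by
  simp [f, sympForm, add_dotProduct]

theorem f_smul_left (a : F) (x z : Vc m F) : f (a • x) z = a * f x z := by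
  simp [f, sympForm, smul_dotProduct]

theorem f_skew (x y : Vc m F) : f x y = - f y x := (hf (m + 1) F).skew x y

theorem f_self (x : Vc m F) : f x x = 0 := (hf (m + 1) F).alternating x

theorem f_add_right (x y z : Vc m F) : f z x + f z y = f z (x + y) := by
  rw [f_skew z x, f_skew z y, f_skew z (x + y), ← f_add_left]
  ring

theorem f_smul_right (a : F) (x z : Vc m F) : f z (a • x) = a * f z x := by
  rw [f_skew, f_smul_left, f_skew z x]
  ring

theorem f_nondeg {p : Vc m F} (hp : p ≠ 0) : ∃ x, f x p ≠ 0 := by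
  by_contra hcon
  push Not at hcon
  apply hp
  have h1 : Matrix.J (Fin (m + 1)) F *ᵥ p = 0 := by
    funext i
    have := hcon (Pi.single i 1)
    simpa [f, sympForm, single_one_dotProduct] using this
  have h2 : Matrix.J (Fin (m + 1)) F *ᵥ (Matrix.J (Fin (m + 1)) F *ᵥ p) = - p := by
    rw [Matrix.mulVec_mulVec, Matrix.J_squared, Matrix.neg_mulVec, Matrix.one_mulVec]
  rw [h1, Matrix.mulVec_zero] at h2
  exact neg_eq_zero.mp h2.symm

/-- The symplectic transvection as an element. -/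
def t (p : Vc m F) (c : F) : Sp m F := ⟨sympTransvection (m + 1) p c, sympTransvection_mem p c⟩

theorem t_val (p : Vc m F) (c : F) : (t p c).val = sympTransvection (m + 1) p c := rfl

theorem t_mulVec (p : Vc m F) (c : F) (x : Vc m F) : (t p c).val *ᵥ x = x + (c * f x p) • p :=
  sympTransvection_mulVec p c x

theorem sp_ext {g h : Sp m F} (H : ∀ x : Vc m F, g.val *ᵥ x = h.val *ᵥ x) : g = h := by
  apply Subtype.ext
  apply Matrix.ext_of_mulVec_single
  intro j
  exact H _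

theorem mul_val_mulVec (g h : Sp m F) (x : Vc m F) : (g * h).val *ᵥ x = g.val *ᵥ (h.val *ᵥ x) := by
  rw [Matrix.mulVec_mulVec]
  rfl

theorem t_mul (p : Vc m F) (c d : F) : t p c * t p d = t p (c + d) := by
  apply sp_ext
  intro x
  rw [mul_val_mulVec, t_mulVec, t_mulVec, t_mulVec, ← f_add_left, f_smul_left, f_self]
  simp only [mul_zero, add_zero]
  rw [add_assoc, ← add_smul]
  congr 2
  ring

theorem t_zero (p : Vc m F) : t p 0 = 1 := by
  apply sp_ext
  intro x
  rw [t_mulVec]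
  simp

theorem t_inv (p : Vc m F) (c : F) : (t p c)⁻¹ = t p (-c) := by
  apply inv_eq_of_mul_eq_one_left
  rw [t_mul, neg_add_cancel, t_zero]

theorem t_smul (l c : F) (p : Vc m F) : t (l • p) c = t p (c * (l * l)) := by
  apply sp_ext
  intro x
  rw [t_mulVec, t_mulVec, f_smul_right, smul_smul]
  congr 2
  ring

theorem t_ne_one {p : Vc m F} (hp : p ≠ 0) {c : F} (hc : c ≠ 0) : t p c ≠ 1 := by
  intro e
  obtain ⟨x, hx⟩ := f_nondeg hp
  have h1 : (t p c).val *ᵥ x = x := by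
    rw [e]
    simp
  rw [t_mulVec] at h1
  have h2 : (c * f x p) • p = 0 := add_eq_left.mp h1
  exact (smul_ne_zero (mul_ne_zero hc hx) hp) h2

theorem t_comm {p q : Vc m F} (h : f q p = 0) (c d : F) : t p c * t q d = t q d * t p c := by
  have h' : f p q = 0 := by rw [f_skew, h, neg_zero]
  apply sp_ext
  intro x
  rw [mul_val_mulVec, mul_val_mulVec, t_mulVec, t_mulVec, t_mulVec, t_mulVec, ← f_add_left, ← f_add_left,
    f_smul_left, f_smul_left, h, h']
  simp only [mul_zero, add_zero]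
  abel

theorem sp_pres (g : Sp m F) (x y : Vc m F) : f (g.val *ᵥ x) (g.val *ᵥ y) = f x y :=
  (mem_sp_iff_pres _).1 g.2 x y

theorem inv_val (g : Sp m F) (x : Vc m F) : (g⁻¹).val *ᵥ (g.val *ᵥ x) = x := by
  rw [← mul_val_mulVec, inv_mul_cancel]
  simp

theorem val_inv (g : Sp m F) (x : Vc m F) : g.val *ᵥ ((g⁻¹).val *ᵥ x) = x := by
  rw [← mul_val_mulVec, mul_inv_cancel]
  simp

theorem conj_t (g : Sp m F) (p : Vc m F) (c : F) : g * t p c * g⁻¹ = t (g.val *ᵥ p) c := by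
  apply sp_ext
  intro x
  rw [mul_val_mulVec, mul_val_mulVec, t_mulVec, t_mulVec, Matrix.mulVec_add, Matrix.mulVec_smul, val_inv]
  congr 3
  have := sp_pres g ((g⁻¹).val *ᵥ x) p
  rw [val_inv] at this
  exact this.symm

/-- The root subgroup of a vector. -/
def Rp (p : Vc m F) : Subgroup (Sp m F) where
  carrier := {g | ∃ c : F, g = t p c}
  mul_mem' := by
    rintro _ _ ⟨c, rfl⟩ ⟨d, rfl⟩
    exact ⟨c + d, t_mul p c d⟩
  one_mem' := ⟨0, (t_zero p).symm⟩
  inv_mem' := by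
    rintro _ ⟨c, rfl⟩
    exact ⟨-c, t_inv p c⟩

theorem t_mem (p : Vc m F) (c : F) : t p c ∈ Rp p := ⟨c, rfl⟩

/-- The generating set in the statement. -/
def tset (p : Vc m F) : Set (Sp m F) :=
  {g | ∃ c : F, ∀ v : Vc m F, g.val *ᵥ v = v + (c * (v ⬝ᵥ (Matrix.J (Fin (m + 1)) F *ᵥ p))) • p}

theorem closure_tset (p : Vc m F) : Subgroup.closure (tset p) = Rp p := by
  apply le_antisymm
  · rw [Subgroup.closure_le]
    rintro g ⟨c, hc⟩
    refine ⟨c, sp_ext fun x => ?_⟩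
    rw [hc, t_mulVec]
    rfl
  · rintro _ ⟨c, rfl⟩
    apply Subgroup.subset_closure
    refine ⟨c, fun v => ?_⟩
    rw [t_mulVec]
    rfl

theorem Rp_scale {l : F} (hl : l ≠ 0) (p : Vc m F) : Rp (l • p) = Rp p := by
  ext g
  constructor
  · rintro ⟨c, rfl⟩
    exact ⟨_, t_smul l c p⟩
  · rintro ⟨c, rfl⟩
    refine ⟨c * (l⁻¹ * l⁻¹), ?_⟩
    rw [t_smul]
    congr 1
    field_simp

theorem conj_Rp (g : Sp m F) (p : Vc m F) : conjBy (Rp p) g = Rp (g.val *ᵥ p) := by
  ext x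
  constructor
  · rintro ⟨_, ⟨c, rfl⟩, rfl⟩
    exact ⟨c, conj_t g p c⟩
  · rintro ⟨c, rfl⟩
    exact ⟨_, ⟨c, rfl⟩, conj_t g p c⟩

theorem Rp_isComm (p : Vc m F) : IsMulCommutative (Rp p) := by
  refine ⟨⟨fun a b => Subtype.ext ?_⟩⟩
  obtain ⟨_, c, hc⟩ := a
  obtain ⟨_, d, hd⟩ := b
  subst hc
  subst hd
  exact t_comm (f_self p) c d

theorem Rp_param {p : Vc m F} {a : Sp m F} (ha : a ∈ Rp p) (ha1 : a ≠ 1) : ∃ c : F, c ≠ 0 ∧ a = t p c := by
  obtain ⟨c, rfl⟩ := ha
  refine ⟨c, ?_, rfl⟩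
  rintro rfl
  exact ha1 (t_zero p)

theorem Rp_ne_bot {p : Vc m F} (hp : p ≠ 0) : Rp p ≠ ⊥ := by
  intro e
  have h1 : t p 1 ∈ Rp p := t_mem p 1
  rw [e, Subgroup.mem_bot] at h1
  exact t_ne_one hp one_ne_zero h1

theorem Rp_commutator_bot {p q : Vc m F} (h : f q p = 0) : ⁅Rp p, Rp q⁆ = ⊥ := by
  rw [Subgroup.commutator_eq_bot_iff_le_centralizer]
  rintro _ ⟨c, rfl⟩
  rw [Subgroup.mem_centralizer_iff]
  rintro _ ⟨d, rfl⟩
  exact (t_comm h c d).symm

/-! ### The embedding of SL₂ -/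

/-- The column matrix. -/
def colU (u v : Vc m F) : Matrix (Ix m) (Fin 2) F := Matrix.of fun i j => ![u i, v i] j

/-- The row matrix. -/
def rowY (ψ φ : Vc m F) : Matrix (Fin 2) (Ix m) F := Matrix.of fun i j => ![ψ j, φ j] i

/-- The embedding matrix. -/
def embM (u v ψ φ : Vc m F) (g : Matrix (Fin 2) (Fin 2) F) : Mt m F :=
  1 + colU u v * (g - 1) * rowY ψ φ

theorem embM_mul {u v ψ φ : Vc m F} (hYU : rowY ψ φ * colU u v = 1) (g g' : Matrix (Fin 2) (Fin 2) F) :
    embM u v ψ φ g * embM u v ψ φ g' = embM u v ψ φ (g * g') := by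
  set U := colU u v
  set Y := rowY ψ φ
  have h1 : U * (g - 1) * Y * (U * (g' - 1) * Y) = U * ((g - 1) * (g' - 1)) * Y := by
    calc U * (g - 1) * Y * (U * (g' - 1) * Y) = U * (g - 1) * (Y * U) * (g' - 1) * Y := by
          simp only [Matrix.mul_assoc]
      _ = _ := by rw [hYU, Matrix.mul_one]; simp only [Matrix.mul_assoc]
  have h2 : g * g' - 1 = (g - 1) + (g' - 1) + (g - 1) * (g' - 1) := by noncomm_ring
  have h3 : U * (g * g' - 1) * Y = U * (g - 1) * Y + U * (g' - 1) * Y + U * ((g - 1) * (g' - 1)) * Y := by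
    rw [h2]
    simp only [Matrix.mul_add, Matrix.add_mul]
  simp only [embM]
  rw [← show U = colU u v from rfl, ← show Y = rowY ψ φ from rfl, h3, ← h1]
  generalize U * (g - 1) * Y = P
  generalize U * (g' - 1) * Y = Q
  noncomm_ring

theorem embM_one (u v ψ φ : Vc m F) : embM u v ψ φ 1 = 1 := by
  simp [embM]

section Emb

variable {p q : Vc m F}

theorem dot_J (x y : Vc m F) : (Matrix.J (Fin (m + 1)) F *ᵥ y) ⬝ᵥ x = f x y := by
  rw [dotProduct_comm]
  rfl

theorem rowY_colU_gen {u v ψ φ : Vc m F} (h₁ : φ ⬝ᵥ u = 0) (h₂ : ψ ⬝ᵥ v = 0) (hα : φ ⬝ᵥ v = 1) (hβ : ψ ⬝ᵥ u = 1) :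
    rowY ψ φ * colU u v = 1 := by
  ext i j
  rw [Matrix.mul_apply]
  fin_cases i <;> fin_cases j
  · simpa [rowY, colU, dotProduct] using hβ
  · simpa [rowY, colU, dotProduct] using h₂
  · simpa [rowY, colU, dotProduct] using h₁
  · simpa [rowY, colU, dotProduct] using hα

theorem rowY_colU (h : f q p = 1) :
    rowY (-(Matrix.J (Fin (m + 1)) F *ᵥ q)) (Matrix.J (Fin (m + 1)) F *ᵥ p) * colU p q = 1 := by
  have h' : f p q = -1 := by rw [f_skew, h]
  apply rowY_colU_gen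
  · rw [dot_J, f_self]
  · rw [neg_dotProduct, dot_J, f_self, neg_zero]
  · rw [dot_J, h]
  · rw [neg_dotProduct, dot_J, h', neg_neg]

/-- The embedding matrix of the pair. -/
def eM (p q : Vc m F) (g : Matrix (Fin 2) (Fin 2) F) : Mt m F :=
  embM p q (-(Matrix.J (Fin (m + 1)) F *ᵥ q)) (Matrix.J (Fin (m + 1)) F *ᵥ p) g

theorem eM_tup (p q : Vc m F) (c : F) : eM p q (tup c).val = sympTransvection (m + 1) p c := by
  rw [eM, embM, sympTransvection]
  congr 1
  ext i j
  simp [tup, Matrix.mul_apply, Fin.sum_univ_two, colU, rowY, vecMulVec_apply, Matrix.one_apply]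
  try ring_nf
  try simp

theorem eM_tlo (p q : Vc m F) (c : F) : eM p q (tlo c).val = sympTransvection (m + 1) q (-c) := by
  rw [eM, embM, sympTransvection]
  congr 1
  ext i j
  simp [tlo, Matrix.mul_apply, Fin.sum_univ_two, colU, rowY, vecMulVec_apply, Matrix.one_apply]
  try ring_nf
  try simp

theorem eM_mem (h : f q p = 1) (g : Matrix.SpecialLinearGroup (Fin 2) F) :
    eM p q g.val ∈ Matrix.symplecticGroup (Fin (m + 1)) F := by
  refine Cfsg.Agent.Lib.SLn.transvection_induction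
    (fun g => eM p q g.val ∈ Matrix.symplecticGroup (Fin (m + 1)) F) ?_ ?_ ?_ g
  · intro i j hij c
    have hij' : (i = 0 ∧ j = 1) ∨ (i = 1 ∧ j = 0) := by
      fin_cases i <;> fin_cases j <;> simp at hij ⊢
    rcases hij' with ⟨rfl, rfl⟩ | ⟨rfl, rfl⟩
    · have : Matrix.SpecialLinearGroup.transvection hij c = tup c := by
        apply Subtype.ext
        rw [Matrix.SpecialLinearGroup.transvection_coe]
        ext i j
        fin_cases i <;> fin_cases j <;> simp [tup, Matrix.single_apply]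
      rw [this, eM_tup]
      exact sympTransvection_mem p c
    · have : Matrix.SpecialLinearGroup.transvection hij c = tlo c := by
        apply Subtype.ext
        rw [Matrix.SpecialLinearGroup.transvection_coe]
        ext i j
        fin_cases i <;> fin_cases j <;> simp [tlo, Matrix.single_apply]
      rw [this, eM_tlo]
      exact sympTransvection_mem q (-c)
  · intro a b ha hb
    have : eM p q (a * b).val = eM p q a.val * eM p q b.val := by
      rw [eM, eM, eM, embM_mul (rowY_colU h)]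
      rfl
    rw [this]
    exact mul_mem ha hb
  · show eM p q (1 : Matrix (Fin 2) (Fin 2) F) ∈ _
    rw [eM, embM_one]
    exact one_mem _

/-- The embedding of SL₂. -/
def E (h : f q p = 1) : Matrix.SpecialLinearGroup (Fin 2) F →* Sp m F where
  toFun g := ⟨eM p q g.val, eM_mem h g⟩
  map_one' := by
    apply Subtype.ext
    show eM p q (1 : Matrix (Fin 2) (Fin 2) F) = 1
    rw [eM, embM_one]
  map_mul' a b := by
    apply Subtype.ext
    show eM p q (a.val * b.val) = eM p q a.val * eM p q b.val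
    rw [eM, eM, eM, embM_mul (rowY_colU h)]

theorem E_val (h : f q p = 1) (g : Matrix.SpecialLinearGroup (Fin 2) F) : (E h g).val = eM p q g.val := rfl

theorem E_tup (h : f q p = 1) (c : F) : E h (tup c) = t p c := by
  apply Subtype.ext
  rw [E_val, eM_tup]
  rfl

theorem E_tlo (h : f q p = 1) (c : F) : E h (tlo c) = t q (-c) := by
  apply Subtype.ext
  rw [E_val, eM_tlo]
  rfl

theorem E_injective (h : f q p = 1) : Function.Injective (E h) := by
  intro g g' e
  have h1 : eM p q g.val = eM p q g'.val := congrArg Subtype.val e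
  have hYU := rowY_colU h
  have h2 : colU p q * (g.val - 1) * rowY (-(Matrix.J (Fin (m + 1)) F *ᵥ q)) (Matrix.J (Fin (m + 1)) F *ᵥ p)
      = colU p q * (g'.val - 1) * rowY (-(Matrix.J (Fin (m + 1)) F *ᵥ q)) (Matrix.J (Fin (m + 1)) F *ᵥ p) :=
    add_left_cancel h1
  set Y := rowY (-(Matrix.J (Fin (m + 1)) F *ᵥ q)) (Matrix.J (Fin (m + 1)) F *ᵥ p)
  set U := colU p q
  have h3 : Y * (U * (g.val - 1) * Y) * U = Y * (U * (g'.val - 1) * Y) * U := by rw [h2]
  have h4 : ∀ X : Matrix (Fin 2) (Fin 2) F, Y * (U * X * Y) * U = X := by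
    intro X
    calc Y * (U * X * Y) * U = (Y * U) * X * (Y * U) := by simp only [Matrix.mul_assoc]
      _ = X := by rw [hYU, Matrix.one_mul, Matrix.mul_one]
  rw [h4, h4] at h3
  apply Subtype.ext
  exact sub_left_injective h3

open Cfsg.Agent.Lib.TvRootK in
theorem map_upper (h : f q p = 1) : (upperUnipotentSL2 F).map (E h) = Rp p := by
  apply le_antisymm
  · rw [Subgroup.map_le_iff_le_comap]
    refine (Subgroup.closure_le _).mpr ?_
    intro g hg
    show E h g ∈ Rp p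
    rw [eq_tup hg, E_tup h]
    exact t_mem p _
  · rintro _ ⟨c, rfl⟩
    exact ⟨tup c, tup_mem c, E_tup h c⟩

open Cfsg.Agent.Lib.TvRootK in
theorem map_lower (h : f q p = 1) : (lowerUnipotentSL2 F).map (E h) = Rp q := by
  apply le_antisymm
  · rw [Subgroup.map_le_iff_le_comap]
    refine (Subgroup.closure_le _).mpr ?_
    intro g hg
    show E h g ∈ Rp q
    rw [eq_tlo hg, E_tlo h]
    exact t_mem q _
  · rintro _ ⟨c, rfl⟩
    exact ⟨tlo (-c), tlo_mem _, by rw [E_tlo h, neg_neg]⟩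

open Cfsg.Agent.Lib.TvRootK in
theorem elem_identity (h : f q p = 1) {s u : F} (r : F) (hst : s * u = 1) :
    (E h (tlo u))⁻¹ * E h (tup r) * E h (tlo u) = (E h (tup s))⁻¹ * E h (tlo (-u * u * r)) * E h (tup s) := by
  rw [← map_inv, ← map_inv, ← map_mul, ← map_mul, ← map_mul, ← map_mul, sl2_identity r hst]

theorem key_conj (h : f q p = 1) {s u : F} (hst : s * u = 1) :
    conjBy (Rp p) (E h (tlo u))⁻¹ = conjBy (Rp q) (E h (tup s))⁻¹ := by
  ext z
  constructor
  · rintro ⟨_, ⟨r, rfl⟩, rfl⟩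
    refine ⟨E h (tlo (-u * u * r)), ?_, ?_⟩
    · rw [E_tlo h]
      exact t_mem q _
    · simp only [MulEquiv.coe_toMonoidHom, MulAut.conj_apply, inv_inv]
      rw [← E_tup h, elem_identity h r hst]
  · rintro ⟨_, ⟨d, rfl⟩, rfl⟩
    refine ⟨E h (tup (-s * s * (-d))), ?_, ?_⟩
    · rw [E_tup h]
      exact t_mem p _
    · simp only [MulEquiv.coe_toMonoidHom, MulAut.conj_apply, inv_inv]
      rw [elem_identity h _ hst]
      have e : t q d = E h (tlo (-d)) := by rw [E_tlo h, neg_neg]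
      rw [e]
      have : u * u * (s * s) = 1 := by
        calc u * u * (s * s) = (s * u) * (s * u) := by ring
          _ = 1 := by rw [hst, one_mul]
      have e2 : -u * u * (-s * s * (-d)) = -d := by
        linear_combination (-d) * this
      rw [e2]

theorem rankOne_norm (h : f q p = 1) (hp : p ≠ 0) (hq : q ≠ 0) : IsRankOnePair (Rp p) (Rp q) := by
  refine ⟨?_, Cfsg.Agent.Lib.RootImage.isNilpotent_of_comm (Rp_isComm p),
    Cfsg.Agent.Lib.RootImage.isNilpotent_of_comm (Rp_isComm q), ?_, ?_⟩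
  · intro e
    have h3 : t p 1 ∈ Rp q := e ▸ t_mem p 1
    obtain ⟨d, hd⟩ := h3
    have hd' : E h (tup 1) = E h (tlo (-d)) := by
      rw [E_tup h, E_tlo h, neg_neg, hd]
    have h4 := E_injective h hd'
    have h5 := congrFun (congrFun (congrArg Subtype.val h4) 0) 1
    simp [tup, tlo] at h5
  · intro a ha ha1
    obtain ⟨s, hs, rfl⟩ := Rp_param ha ha1
    refine ⟨E h (tlo s⁻¹), ?_, ?_, ?_⟩
    · rw [E_tlo h]
      exact t_mem q _
    · rw [E_tlo h]
      exact t_ne_one hq (neg_ne_zero.mpr (inv_ne_zero hs))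
    · rw [← E_tup h]
      exact key_conj h (mul_inv_cancel₀ hs)
  · intro b hb hb1
    obtain ⟨d, hd, rfl⟩ := Rp_param hb hb1
    refine ⟨E h (tup (-d)⁻¹), ?_, ?_, ?_⟩
    · rw [E_tup h]
      exact t_mem p _
    · rw [E_tup h]
      exact t_ne_one hp (inv_ne_zero (neg_ne_zero.mpr hd))
    · have e : t q d = E h (tlo (-d)) := by rw [E_tlo h, neg_neg]
      rw [e]
      exact (key_conj h (inv_mul_cancel₀ (neg_ne_zero.mpr hd))).symm

open Cfsg.Agent.Lib.TvRootK in
theorem psl2_norm (h : f q p = 1) : IsPSL2PairOver F (Rp p) (Rp q) := by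
  refine ⟨E h, ?_, ?_, map_upper h, map_lower h⟩
  · rw [MonoidHom.range_eq_map, ← sup_upper_lower, Subgroup.map_sup, map_upper h, map_lower h]
  · rw [(MonoidHom.ker_eq_bot_iff _).mpr (E_injective h)]
    exact bot_le

theorem rankOne_gen (h : f q p ≠ 0) (hp : p ≠ 0) (hq : q ≠ 0) : IsRankOnePair (Rp p) (Rp q) := by
  have h1 : f ((f q p)⁻¹ • q) p = 1 := by
    rw [f_smul_left, inv_mul_cancel₀ h]
  rw [← Rp_scale (inv_ne_zero h) q]
  exact rankOne_norm h1 hp (smul_ne_zero (inv_ne_zero h) hq)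

theorem psl2_gen (h : f q p ≠ 0) : IsPSL2PairOver F (Rp p) (Rp q) := by
  have h1 : f ((f q p)⁻¹ • q) p = 1 := by
    rw [f_smul_left, inv_mul_cancel₀ h]
  rw [← Rp_scale (inv_ne_zero h) q]
  exact psl2_norm h1

end Emb

/-! ### The family -/

/-- The set of root subgroups in the statement. -/
def S (m : ℕ) (F : Type*) [Field F] : Set (Subgroup (Sp m F)) :=
  {A | ∃ p : Vc m F, p ≠ 0 ∧ A = Subgroup.closure (tset p)}

theorem mem_S {A : Subgroup (Sp m F)} : A ∈ S m F ↔ ∃ p : Vc m F, p ≠ 0 ∧ A = Rp p := by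
  constructor
  · rintro ⟨p, hp, rfl⟩
    exact ⟨p, hp, closure_tset p⟩
  · rintro ⟨p, hp, rfl⟩
    exact ⟨p, hp, (closure_tset p).symm⟩

theorem Rp_mem_S {p : Vc m F} (hp : p ≠ 0) : Rp p ∈ S m F := mem_S.mpr ⟨p, hp, rfl⟩

theorem iSup_S : (⨆ A ∈ S m F, A) = ⊤ := by
  rw [eq_top_iff, ← closure_tvSet_eq_top (m := m + 1) (F := F), Subgroup.closure_le]
  rintro g ⟨w, c, hg⟩
  have hg' : g = t w c := Subtype.ext hg
  by_cases hw : w = 0
  · have : g = 1 := by
      rw [hg']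
      apply sp_ext
      intro x
      rw [t_mulVec, hw]
      simp
    rw [this]
    exact Subgroup.one_mem _
  · have hle : Rp w ≤ (⨆ A ∈ S m F, A) := le_iSup₂_of_le (Rp w) (Rp_mem_S hw) le_rfl
    rw [hg']
    exact hle (t_mem w c)

theorem conj_ne (g : Sp m F) {p : Vc m F} (hp : p ≠ 0) : g.val *ᵥ p ≠ 0 := by
  intro e
  have h1 := inv_val g p
  rw [e, Matrix.mulVec_zero] at h1
  exact hp h1.symm

theorem not_rankOne {p q : Vc m F} (h : f q p = 0) : ¬ IsRankOnePair (Rp p) (Rp q) := by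
  intro hr
  apply Cfsg.Agent.Lib.RootBasic.rankOne_not_comm hr
  rintro _ ⟨c, rfl⟩ _ ⟨d, rfl⟩
  exact t_comm h c d

theorem pair_S {A B : Subgroup (Sp m F)} (hA : A ∈ S m F) (hB : B ∈ S m F) :
    ⁅A, B⁆ = ⊥ ∨ IsRankOnePair A B := by
  obtain ⟨p, hp, rfl⟩ := mem_S.mp hA
  obtain ⟨q, hq, rfl⟩ := mem_S.mp hB
  by_cases h : f q p = 0
  · exact Or.inl (Rp_commutator_bot h)
  · exact Or.inr (rankOne_gen h hp hq)

theorem rootSet : IsRootSubgroupSet (S m F) where
  commutative := by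
    intro A hA
    obtain ⟨p, hp, rfl⟩ := mem_S.mp hA
    exact Rp_isComm p
  ne_bot := by
    intro A hA
    obtain ⟨p, hp, rfl⟩ := mem_S.mp hA
    exact Rp_ne_bot hp
  generates := iSup_S
  conj_mem := by
    intro A hA g
    obtain ⟨p, hp, rfl⟩ := mem_S.mp hA
    rw [conj_Rp]
    exact Rp_mem_S (conj_ne g hp)
  pair := by
    intro A hA B hB
    rcases pair_S hA hB with h | h
    · exact Or.inl h
    · exact Or.inr (Or.inl h)

theorem degenerate : IsDegenerateRootSet (S m F) := by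
  intro A hA B hB hc
  rcases pair_S hA hB with h | h
  · exact rootSet.ne_bot _ (h ▸ hc.1) h
  · obtain ⟨a, ha, ha1⟩ := Cfsg.Agent.Lib.RankOne.exists_ne_one_left h
    exact Cfsg.Agent.Lib.RootBasic.no_comm_conj h ha ha1
      (Cfsg.Agent.Lib.RootBasic.nil_conj_comm (rootSet.commutative B hB) hc.2.1 ha)

theorem psl2_S {A B : Subgroup (Sp m F)} (hA : A ∈ S m F) (hB : B ∈ S m F) (h : IsRankOnePair A B) :
    IsPSL2PairOver F A B := by
  obtain ⟨p, hp, rfl⟩ := mem_S.mp hA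
  obtain ⟨q, hq, rfl⟩ := mem_S.mp hB
  by_cases h0 : f q p = 0
  · exact absurd h (not_rankOne h0)
  · exact psl2_gen h0

theorem exists_common {p q : Vc m F} (hp : p ≠ 0) (hq : q ≠ 0) : ∃ r : Vc m F, f r p ≠ 0 ∧ f r q ≠ 0 := by
  obtain ⟨x, hx⟩ := f_nondeg hp
  obtain ⟨y, hy⟩ := f_nondeg hq
  by_cases h1 : f x q = 0
  · by_cases h2 : f y p = 0
    · refine ⟨x + y, ?_, ?_⟩
      · rw [← f_add_left, h2, add_zero]
        exact hx
      · rw [← f_add_left, h1, zero_add]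
        exact hy
    · exact ⟨y, h2, hy⟩
  · exact ⟨x, hx, h1⟩

theorem ne_of_f {r p : Vc m F} (h : f r p ≠ 0) : r ≠ 0 := by
  rintro rfl
  apply h
  simp [f, sympForm]

theorem connected : IsConnectedFamily (FAdj (S m F)) (S m F) := by
  intro A hA B hB
  obtain ⟨p, hp, rfl⟩ := mem_S.mp hA
  obtain ⟨q, hq, rfl⟩ := mem_S.mp hB
  obtain ⟨r, h1, h2⟩ := exists_common hp hq
  have hr := ne_of_f h1
  have h3 : f q r ≠ 0 := by
    rw [f_skew]
    exact neg_ne_zero.mpr h2
  exact Relation.ReflTransGen.head ⟨Rp_mem_S hp, Rp_mem_S hr, rankOne_gen h1 hp hr⟩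
    (Relation.ReflTransGen.single ⟨Rp_mem_S hr, Rp_mem_S hq, rankOne_gen h3 hr hq⟩)

theorem conj_of_rankOne {A B : Subgroup (Sp m F)} (h : IsRankOnePair A B) : ∃ g : Sp m F, B = conjBy A g := by
  obtain ⟨a, ha, ha1⟩ := Cfsg.Agent.Lib.RankOne.exists_ne_one_left h
  obtain ⟨b, -, -, e⟩ := h.cond_left a ha ha1
  refine ⟨a * b⁻¹, ?_⟩
  rw [Cfsg.Agent.Lib.RankOne.conjBy_mul, e, Cfsg.Agent.Lib.RankOne.conjBy_inv_conjBy]

theorem class_S : IsConjClassOfSubgroups (S m F) := by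
  have hne : ∃ p : Vc m F, p ≠ 0 :=
    ⟨Pi.single (Sum.inl 0) 1, fun e => by
      have := congrFun e (Sum.inl 0)
      simp at this⟩
  obtain ⟨p₀, hp₀⟩ := hne
  refine ⟨⟨_, Rp_mem_S hp₀⟩, ?_⟩
  intro A hA B hB
  have hreach := connected A hA B hB
  induction hreach with
  | refl => exact ⟨1, by rw [Cfsg.Agent.Lib.RankOne.conjBy_one]⟩
  | tail h1 h2 ih =>
    obtain ⟨g, rfl⟩ := ih h2.1
    obtain ⟨g', e⟩ := conj_of_rankOne h2.2.2
    refine ⟨g' * g, ?_⟩
    rw [Cfsg.Agent.Lib.RankOne.conjBy_mul, ← e]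

/-- The statement. -/
theorem main :
    IsRootSubgroupClass (S m F) ∧ IsDegenerateRootSet (S m F) ∧ IsKRootSubgroupSet F (S m F) ∧
      IsConnectedFamily (FAdj (S m F)) (S m F) :=
  ⟨⟨rootSet, class_S⟩, degenerate, ⟨rootSet, fun _ hA _ hB h => psl2_S hA hB h⟩, connected⟩

end Cfsg.Agent.Lib.SpRoot
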