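/-
Sylow subgroups of symplectic groups for large primes.
-/
import Mathlib
import Cfsg.Agent.Lib.GLSylowLarge
import Cfsg.Agent.Lib.SpCount
import Cfsg.Agent.Lib.JordanForm
import Cfsg.Agent.Lib.IsomChain

set_option autoImplicit false
set_option linter.all false

open scoped MatrixGroups Matrix
open Matrix

noncomputable section

namespace Cfsg.Agent.Lib.SpSylowLarge

open Cfsg.Agent.Lib Cfsg.Agent.Lib.JordanForm Cfsg.Agent.Lib.SpRegUnip

variable {F : Type*} [Field F]

section blocks

variable [Fintype F] {l l' l₂ : Type*} [Fintype l] [DecidableEq l] [Fintype l'] [DecidableEq l'] [Fintype l₂] [DecidableEq l₂]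

/-- Change of index set. -/
def εp (l : Type*) (a : ℕ) : (l ⊕ l) × Fin a ≃ (l × Fin a) ⊕ (l × Fin a) := Equiv.sumProdDistrib l l (Fin a)

theorem J_prod (a : ℕ) : J (l × Fin a) F = reindex (εp l a) (εp l a) (blockDiagonal (fun _ : Fin a => J l F)) := by
  ext x y
  rcases x with ⟨i, j⟩ | ⟨i, j⟩ <;> rcases y with ⟨i', j'⟩ | ⟨i', j'⟩ <;>
    simp [J, εp, blockDiagonal_apply, Matrix.one_apply, Prod.ext_iff] <;> split_ifs <;> simp_all

theorem block_mem (a : ℕ) (g : Fin a → Matrix (l ⊕ l) (l ⊕ l) F) (hg : ∀ j, g j ∈ symplecticGroup l F) :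
    reindex (εp l a) (εp l a) (blockDiagonal g) ∈ symplecticGroup (l × Fin a) F := by
  rw [SymplecticGroup.mem_iff, J_prod]
  simp only [reindex_apply]
  rw [transpose_submatrix, submatrix_mul_equiv, submatrix_mul_equiv, blockDiagonal_transpose, ← blockDiagonal_mul,
    ← blockDiagonal_mul]
  congr 2
  funext j
  exact SymplecticGroup.mem_iff.1 (hg j)

theorem submatrix_inj' {α β : Type*} (e : α ≃ β) {M N : Matrix β β F} (h : M.submatrix e e = N.submatrix e e) : M = N := by
  ext i j
  have := congrFun (congrFun h (e.symm i)) (e.symm j)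
  simpa using this

/-- Several symplectic blocks. -/
def blockHom (a : ℕ) : (Fin a → ↥(symplecticGroup l F)) →* ↥(symplecticGroup (l × Fin a) F) where
  toFun g := ⟨reindex (εp l a) (εp l a) (blockDiagonal (fun j => (g j).1)), block_mem a _ (fun j => (g j).2)⟩
  map_one' := by
    apply Subtype.ext
    have h1 : (fun j => ((1 : Fin a → ↥(symplecticGroup l F)) j).1) = 1 := rfl
    show reindex (εp l a) (εp l a) (blockDiagonal (fun j => ((1 : Fin a → ↥(symplecticGroup l F)) j).1)) = 1
    rw [h1, blockDiagonal_one, reindex_apply, submatrix_one_equiv]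
  map_mul' g h := by
    apply Subtype.ext
    show reindex (εp l a) (εp l a) (blockDiagonal (fun j => (g j).1 * (h j).1)) =
      reindex (εp l a) (εp l a) (blockDiagonal (fun j => (g j).1)) * reindex (εp l a) (εp l a) (blockDiagonal (fun j => (h j).1))
    rw [blockDiagonal_mul]
    simp only [reindex_apply]
    rw [submatrix_mul_equiv]

theorem blockHom_injective (a : ℕ) : Function.Injective (blockHom (F := F) (l := l) a) := by
  intro g h hgh
  have h1 : reindex (εp l a) (εp l a) (blockDiagonal (fun j => (g j).1)) = reindex (εp l a) (εp l a) (blockDiagonal (fun j => (h j).1)) :=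
    congrArg Subtype.val hgh
  have h2 := (reindex (εp l a) (εp l a)).injective h1
  have h3 := blockDiagonal_injective h2
  funext j
  exact Subtype.ext (congrFun h3 j)

/-- Adding an identity block. -/
def dsumHom : ↥(symplecticGroup l F) →* ↥(symplecticGroup (l ⊕ l₂) F) where
  toFun x := ⟨(fromBlocks x.1 0 0 1).submatrix (tauS l l₂) (tauS l l₂), dsum_mem x.2 (one_mem (symplecticGroup l₂ F))⟩
  map_one' := by
    apply Subtype.ext
    show (fromBlocks (1 : Matrix (l ⊕ l) (l ⊕ l) F) 0 0 1).submatrix (tauS l l₂) (tauS l l₂) = 1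
    rw [fromBlocks_one, submatrix_one_equiv]
  map_mul' g h := by
    apply Subtype.ext
    show (fromBlocks (g.1 * h.1) 0 0 1).submatrix (tauS l l₂) (tauS l l₂) =
      (fromBlocks g.1 0 0 1).submatrix (tauS l l₂) (tauS l l₂) * (fromBlocks h.1 0 0 1).submatrix (tauS l l₂) (tauS l l₂)
    rw [submatrix_mul_equiv, fromBlocks_multiply]
    simp

theorem dsumHom_injective : Function.Injective (dsumHom (F := F) (l := l) (l₂ := l₂)) := by
  intro g h hgh
  have h1 : (fromBlocks g.1 0 0 1).submatrix (tauS l l₂) (tauS l l₂) = (fromBlocks h.1 0 0 1).submatrix (tauS l l₂) (tauS l l₂) :=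
    congrArg Subtype.val hgh
  have h2 := submatrix_inj' _ h1
  exact Subtype.ext (fromBlocks_inj.1 h2).1

/-- Reindexing. -/
def reindexHom (τ : l ≃ l') : ↥(symplecticGroup l F) →* ↥(symplecticGroup l' F) where
  toFun x := ⟨x.1.submatrix (Equiv.sumCongr τ τ).symm (Equiv.sumCongr τ τ).symm, sp_reindex τ x.2⟩
  map_one' := by
    apply Subtype.ext
    show (1 : Matrix (l ⊕ l) (l ⊕ l) F).submatrix (Equiv.sumCongr τ τ).symm (Equiv.sumCongr τ τ).symm = 1
    rw [submatrix_one_equiv]
  map_mul' g h := by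
    apply Subtype.ext
    show (g.1 * h.1).submatrix (Equiv.sumCongr τ τ).symm (Equiv.sumCongr τ τ).symm =
      g.1.submatrix (Equiv.sumCongr τ τ).symm (Equiv.sumCongr τ τ).symm * h.1.submatrix (Equiv.sumCongr τ τ).symm (Equiv.sumCongr τ τ).symm
    exact (submatrix_mul_equiv g.1 h.1 _ _ _).symm

theorem reindexHom_injective (τ : l ≃ l') : Function.Injective (reindexHom (F := F) τ) := by
  intro g h hgh
  have h1 : g.1.submatrix (Equiv.sumCongr τ τ).symm (Equiv.sumCongr τ τ).symm = h.1.submatrix (Equiv.sumCongr τ τ).symm (Equiv.sumCongr τ τ).symm :=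
    congrArg Subtype.val hgh
  exact Subtype.ext (submatrix_inj' _ h1)

/-- The embedding of a product of copies of a small symplectic group. -/
theorem exists_blocks (a e n : ℕ) (h : a * e ≤ n) :
    ∃ Ψ : (Fin a → ↥(symplecticGroup (Fin e) F)) →* ↥(symplecticGroup (Fin n) F), Function.Injective Ψ := by
  classical
  have hcard : Fintype.card ((Fin e × Fin a) ⊕ Fin (n - a * e)) = n := by
    simp only [Fintype.card_sum, Fintype.card_prod, Fintype.card_fin]
    rw [mul_comm e a]
    omega
  let τ : (Fin e × Fin a) ⊕ Fin (n - a * e) ≃ Fin n := Fintype.equivFinOfCardEq hcard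
  refine ⟨(reindexHom τ).comp ((dsumHom).comp (blockHom a)), ?_⟩
  exact (reindexHom_injective τ).comp (dsumHom_injective.comp (blockHom_injective a))

end blocks

section elem

variable [Fintype F] {K : Type*} [Field K] [Algebra F K] [Finite K]

/-- The hyperbolic embedding of the units of an extension field. -/
def pairHom {d : ℕ} (b : Module.Basis (Fin d) F K) : Kˣ →* ↥(symplecticGroup (Fin d) F) where
  toFun x := ⟨fromBlocks (Algebra.leftMulMatrix b (x : K)) 0 0 (Algebra.leftMulMatrix b ((x⁻¹ : Kˣ) : K))ᵀ, by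
    have h1 : Algebra.leftMulMatrix b (x : K) * Algebra.leftMulMatrix b ((x⁻¹ : Kˣ) : K) = 1 := by
      rw [← map_mul, x.mul_inv, map_one]
    have h2 := pair_mem (Algebra.leftMulMatrix b (x : K)) (isUnit_det_of_right_inverse h1)
    rwa [inv_eq_right_inv h1] at h2⟩
  map_one' := by
    apply Subtype.ext
    show fromBlocks (Algebra.leftMulMatrix b (((1 : Kˣ)) : K)) 0 0 (Algebra.leftMulMatrix b (((1 : Kˣ)⁻¹ : Kˣ) : K))ᵀ = 1
    simp [fromBlocks_one]
  map_mul' x y := by
    apply Subtype.ext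
    show fromBlocks (Algebra.leftMulMatrix b (((x * y : Kˣ)) : K)) 0 0 (Algebra.leftMulMatrix b (((x * y)⁻¹ : Kˣ) : K))ᵀ =
      fromBlocks (Algebra.leftMulMatrix b (x : K)) 0 0 (Algebra.leftMulMatrix b ((x⁻¹ : Kˣ) : K))ᵀ *
        fromBlocks (Algebra.leftMulMatrix b (y : K)) 0 0 (Algebra.leftMulMatrix b ((y⁻¹ : Kˣ) : K))ᵀ
    rw [fromBlocks_multiply]
    have h1 : Algebra.leftMulMatrix b (((x * y)⁻¹ : Kˣ) : K) = Algebra.leftMulMatrix b ((y⁻¹ : Kˣ) : K) * Algebra.leftMulMatrix b ((x⁻¹ : Kˣ) : K) := by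
      rw [← map_mul, ← Units.val_mul, _root_.mul_inv_rev]
    rw [h1, Matrix.transpose_mul, Units.val_mul, map_mul]
    simp

theorem pairHom_injective {d : ℕ} (b : Module.Basis (Fin d) F K) : Function.Injective (pairHom b) := by
  intro x y h
  have h1 : fromBlocks (Algebra.leftMulMatrix b (x : K)) 0 0 (Algebra.leftMulMatrix b ((x⁻¹ : Kˣ) : K))ᵀ =
      fromBlocks (Algebra.leftMulMatrix b (y : K)) 0 0 (Algebra.leftMulMatrix b ((y⁻¹ : Kˣ) : K))ᵀ := congrArg Subtype.val h
  have h2 := (fromBlocks_inj.1 h1).1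
  exact Units.ext (Algebra.leftMulMatrix_injective b h2)

theorem coprime_units {p : ℕ} [Fact p.Prime] [CharP F p] (x : Kˣ) : (orderOf x).Coprime p := by
  classical
  letI : Fintype K := Fintype.ofFinite K
  haveI : CharP K p := charP_of_injective_algebraMap (algebraMap F K).injective p
  have hp : p.Prime := Fact.out
  obtain ⟨k, _, hk⟩ := FiniteField.card K p
  have h0 : x ^ (Fintype.card K - 1) = 1 := by
    apply Units.ext
    rw [Units.val_pow_eq_pow_val, FiniteField.pow_card_sub_one_eq_one _ x.ne_zero, Units.val_one]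
  refine Nat.Coprime.coprime_dvd_left (orderOf_dvd_of_pow_eq_one h0) ?_
  rw [Nat.coprime_comm, hp.coprime_iff_not_dvd]
  intro h
  have h1 : p ∣ Fintype.card K := by
    rw [hk]
    exact dvd_pow_self p k.ne_zero
  have h2 := Nat.dvd_sub h1 h
  have h3 : Fintype.card K - (Fintype.card K - 1) = 1 := by
    have := Fintype.card_pos (α := K)
    omega
  rw [h3] at h2
  exact hp.one_lt.ne' (Nat.dvd_one.1 h2)

open Polynomial in
theorem exists_even {p : ℕ} [Fact p.Prime] [CharP F p] {e : ℕ} (hfr : Module.finrank F K = e + e) (γ : Kˣ)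
    (hγ : (γ : K) ^ (Fintype.card F ^ e) * γ = 1) (hodd : Odd (orderOf γ)) :
    ∃ s : ↥(symplecticGroup (Fin e) F), orderOf s = orderOf γ := by
  classical
  letI : Fintype K := Fintype.ofFinite K
  haveI : Module.Finite F K := Module.Finite.of_finite
  let b : Module.Basis (Ix e) F K := (Module.finBasisOfFinrankEq F K hfr).reindex finSumFinEquiv.symm
  let L := Algebra.leftMulMatrix b
  have hL : Function.Injective L := Algebra.leftMulMatrix_injective b
  obtain ⟨A, hA⟩ : ∃ A, A = L (γ : K) := ⟨_, rfl⟩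
  obtain ⟨Ai, hAi⟩ : ∃ Ai, Ai = L ((γ⁻¹ : Kˣ) : K) := ⟨_, rfl⟩
  have hAAi : A * Ai = 1 := by
    rw [hA, hAi, ← map_mul, γ.mul_inv, map_one]
  have hinv : A⁻¹ = Ai := inv_eq_right_inv hAAi
  have hch : Ai.charpoly = A.charpoly := by
    let φ : K ≃ₐ[F] K := (FiniteField.frobeniusAlgEquivOfAlgebraic F K) ^ e
    have hφ : ∀ x, φ x = x ^ (Fintype.card F ^ e) := by
      intro x
      show ((FiniteField.frobeniusAlgEquivOfAlgebraic F K) ^ e) x = _
      rw [AlgEquiv.coe_pow, FiniteField.coe_frobeniusAlgEquivOfAlgebraic_iterate]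
    have hφγ : φ (γ : K) = ((γ⁻¹ : Kˣ) : K) := by
      rw [hφ, Units.val_inv_eq_inv_val]
      exact eq_inv_of_mul_eq_one_left hγ
    let b' : Module.Basis (Ix e) F K := b.map φ.toLinearEquiv
    have h1 : Algebra.leftMulMatrix b' (φ (γ : K)) = L (γ : K) := by
      ext i j
      rw [Algebra.leftMulMatrix_eq_repr_mul, Algebra.leftMulMatrix_eq_repr_mul]
      have h2 : φ (γ : K) * b' j = φ ((γ : K) * b j) := by
        rw [map_mul]
        rfl
      rw [h2]
      simp [b', Module.Basis.map_repr]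
    have h2 : (Algebra.leftMulMatrix b' (φ (γ : K))).charpoly = (L (φ (γ : K))).charpoly := by
      show (LinearMap.toMatrix b' b' (Algebra.lmul F K (φ (γ : K)))).charpoly =
        (LinearMap.toMatrix b b (Algebra.lmul F K (φ (γ : K)))).charpoly
      rw [LinearMap.charpoly_toMatrix, LinearMap.charpoly_toMatrix]
    rw [hA, hAi, ← h1, h2, hφγ]
  have hApow : ∀ k : ℕ, A ^ k = L ((γ ^ k : Kˣ) : K) := by
    intro k
    rw [hA, ← map_pow, Units.val_pow_eq_pow_val]
  have hAN : A ^ orderOf γ = 1 := by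
    rw [hApow, pow_orderOf_eq_one, Units.val_one, map_one]
  have hdetA : A.det = 1 := by
    have h1 : Ai.det = A.det := by
      rw [det_eq_sign_charpoly_coeff, hch, ← det_eq_sign_charpoly_coeff]
    have h2 : A.det ^ 2 = 1 := by
      have h3 := congrArg det hAAi
      rw [det_mul, h1, det_one] at h3
      rw [sq]
      exact h3
    have h3 : A.det ^ orderOf γ = 1 := by
      rw [← det_pow, hAN, det_one]
    have h4 := pow_gcd_eq_one.2 ⟨h2, h3⟩
    have h5 : Nat.gcd 2 (orderOf γ) = 1 := Nat.coprime_two_left.2 hodd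
    rwa [h5, pow_one] at h4
  have hrev : A.charpoly.reverse = A.charpoly := by
    have hunit : IsUnit A := (isUnit_iff_isUnit_det A).2 (by rw [hdetA]; exact isUnit_one)
    have h2 := Matrix.charpoly_inv A hunit
    rw [hinv, hch, ← Matrix.reverse_charpoly] at h2
    have h3 : Ring.inverse A.det = 1 := by
      rw [hdetA]
      simp
    rw [h3] at h2
    simp only [Fintype.card_sum, Fintype.card_fin, map_one, mul_one] at h2
    have h4 : (-1 : F[X]) ^ (e + e) = 1 := by
      rw [← two_mul, pow_mul]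
      simp
    rw [h4, one_mul] at h2
    exact h2.symm
  have hd : A.charpoly.natDegree = e + e := by
    rw [charpoly_natDegree_eq_dim]
    simp
  obtain ⟨g, hg, hgch, N, hN, hgN⟩ := SpCount.exists_sp (p := p) e A.charpoly (charpoly_monic A) hd hrev
  let s : ↥(symplecticGroup (Fin e) F) := ⟨g, hg⟩
  have hggi : g * (s⁻¹).1 = 1 := congrArg Subtype.val (mul_inv_cancel s)
  obtain ⟨c, ci, hcci, hc⟩ := SpCount.conj_ix (p := p) A Ai g (s⁻¹).1 hAAi hggi (coprime_units (F := F) γ) hN hAN hgN hgch.symm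
  have hcic : ci * c = 1 := mul_eq_one_comm.1 hcci
  refine ⟨s, ?_⟩
  rw [orderOf_eq_orderOf_iff]
  intro k
  have hck : c * A ^ k = g ^ k * c := by
    induction k with
    | zero => simp
    | succ k ih =>
      rw [pow_succ, ← mul_assoc, ih, mul_assoc, hc, ← mul_assoc, ← pow_succ]
  constructor
  · intro h
    have h1 : g ^ k = 1 := by
      have := congrArg Subtype.val h
      simpa using this
    rw [h1, one_mul] at hck
    have h2 : A ^ k = 1 := by
      calc A ^ k = (ci * c) * A ^ k := by rw [hcic, one_mul]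
        _ = ci * (c * A ^ k) := mul_assoc ..
        _ = 1 := by rw [hck, hcic]
    rw [hApow] at h2
    apply Units.ext
    apply hL
    rw [h2, Units.val_one, map_one]
  · intro h
    have h1 : A ^ k = 1 := by
      rw [hApow, h, Units.val_one, map_one]
    rw [h1, mul_one] at hck
    apply Subtype.ext
    show g ^ k = 1
    calc g ^ k = g ^ k * (c * ci) := by rw [hcci, mul_one]
      _ = (g ^ k * c) * ci := (mul_assoc ..).symm
      _ = 1 := by rw [← hck, hcci]

end elem

section numeric

variable {q r : ℕ} [hr : Fact r.Prime]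

theorem val_multiple' (hq : 2 ≤ q) (hrq : ¬ r ∣ q) {j : ℕ} (hj1 : 1 ≤ j) (hjr : ¬ r ∣ j) :
    padicValNat r (q ^ (orderOf (q : ZMod r) * j) - 1) = padicValNat r (q ^ orderOf (q : ZMod r) - 1) := by
  set d := orderOf (q : ZMod r) with hd
  have hdpos : 0 < d := GLSylowLarge.order_pos' hrq
  set Q := q ^ d with hQ
  have hQ2 : 2 ≤ Q := le_trans hq (Nat.le_self_pow hdpos.ne' q)
  have hgeom := geom_sum_mul_add (Q - 1) j
  have hQ1 : Q - 1 + 1 = Q := by omega
  rw [hQ1] at hgeom
  set S := ∑ i ∈ Finset.range j, Q ^ i with hS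
  have h1 : q ^ (d * j) - 1 = S * (Q - 1) := by
    rw [pow_mul, ← hQ, ← hgeom]
    simp
  have hSmod : ((S : ℕ) : ZMod r) = j := by
    have h2 : ((Q : ℕ) : ZMod r) = 1 := by
      rw [hQ, Nat.cast_pow, hd]
      exact pow_orderOf_eq_one _
    rw [hS, Nat.cast_sum]
    simp [h2]
  have hSr : ¬ r ∣ S := by
    rw [← ZMod.natCast_eq_zero_iff, hSmod, ZMod.natCast_eq_zero_iff]
    exact hjr
  have hS0 : S ≠ 0 := by
    intro h
    rw [h] at hSr
    exact hSr (dvd_zero _)
  rw [h1, padicValNat.mul hS0 (by omega), padicValNat.eq_zero_of_not_dvd hSr, zero_add]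

end numeric

section main

variable [Fintype F]

theorem factorization_card_Sp (n r : ℕ) [Fact r.Prime] (hr2 : r ≠ 2) (hrn : n < r) (hrq : ¬ r ∣ Fintype.card F) :
    (Nat.card (symplecticGroup (Fin n) F)).factorization r =
      padicValNat r (Fintype.card F ^ orderOf ((Fintype.card F : ℕ) : ZMod r) - 1) *
        ((Finset.Icc 1 n).filter (fun i => orderOf ((Fintype.card F : ℕ) : ZMod r) ∣ 2 * i)).card := by
  classical
  have hrp : r.Prime := Fact.out
  have hq2 : 2 ≤ Fintype.card F := Fintype.one_lt_card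
  obtain ⟨d, hd⟩ : ∃ d, d = orderOf ((Fintype.card F : ℕ) : ZMod r) := ⟨_, rfl⟩
  have hdpos : 0 < d := by
    rw [hd]
    exact GLSylowLarge.order_pos' hrq
  rw [← hd]
  have hval : ∀ i ∈ Finset.range n, (Fintype.card F ^ (2 * (i + 1)) - 1).factorization r =
      if d ∣ 2 * (i + 1) then padicValNat r (Fintype.card F ^ d - 1) else 0 := by
    intro i hi
    have hi' := Finset.mem_range.1 hi
    rw [Nat.factorization_def _ hrp]
    split_ifs with h
    · obtain ⟨t, ht⟩ := h
      have ht0 : 1 ≤ t := by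
        by_contra h0
        have : t = 0 := by omega
        rw [this] at ht
        omega
      have htr : ¬ r ∣ t := by
        intro h1
        have h2 : r ∣ 2 * (i + 1) := by
          rw [ht]
          exact Dvd.dvd.mul_left h1 d
        have h3 : Nat.Coprime r 2 := by
          rw [hrp.coprime_iff_not_dvd]
          intro h4
          exact hr2 ((Nat.prime_dvd_prime_iff_eq hrp Nat.prime_two).1 h4)
        have h4 := h3.dvd_of_dvd_mul_left h2
        exact Nat.not_dvd_of_pos_of_lt (by omega) (by omega) h4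
      rw [ht, hd]
      exact val_multiple' hq2 hrq ht0 htr
    · apply padicValNat.eq_zero_of_not_dvd
      apply GLSylowLarge.not_dvd_of_not_order hq2
      rw [← hd]
      exact h
  rw [IsomChain.card_symplecticGroup]
  have hne1 : Fintype.card F ^ n ^ 2 ≠ 0 := pow_ne_zero _ (by omega)
  have hne2 : ∏ i ∈ Finset.range n, (Fintype.card F ^ (2 * (i + 1)) - 1) ≠ 0 := by
    rw [Finset.prod_ne_zero_iff]
    intro i _
    have h := Nat.pow_lt_pow_right hq2 (show 1 < 2 * (i + 1) by omega)
    rw [pow_one] at h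
    omega
  rw [Nat.factorization_mul hne1 hne2, Finsupp.add_apply, Nat.factorization_eq_zero_of_not_dvd (fun h => hrq (hrp.dvd_of_dvd_pow h)), zero_add]
  rw [Nat.factorization_prod]
  · rw [Finset.sum_apply', Finset.sum_congr rfl hval]
    have h3 : ∑ i ∈ Finset.range n, (if d ∣ 2 * (i + 1) then padicValNat r (Fintype.card F ^ d - 1) else 0) =
        ∑ i ∈ Finset.Icc 1 n, (if d ∣ 2 * i then padicValNat r (Fintype.card F ^ d - 1) else 0) := by
      rw [Finset.range_eq_Ico, Finset.sum_Ico_add' (fun i => if d ∣ 2 * i then padicValNat r (Fintype.card F ^ d - 1) else 0) 0 n 1]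
      apply Finset.sum_congr _ (fun _ _ => rfl)
      ext x
      simp only [Finset.mem_Ico, Finset.mem_Icc]
      omega
    rw [h3, ← Finset.sum_filter, Finset.sum_const, smul_eq_mul, mul_comm]
  · intro i _
    have h := Nat.pow_lt_pow_right hq2 (show 1 < 2 * (i + 1) by omega)
    rw [pow_one] at h
    omega

/-- The main theorem. -/
theorem sylow_Sp {q : ℕ} (hq : Fintype.card F = q) (n r : ℕ) [Fact r.Prime] (hr2 : r ≠ 2) (hrn : n < r) (hrq : ¬ r ∣ q)
    (P : Sylow r ↥(symplecticGroup (Fin n) F)) :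
    Nonempty (↥(P : Subgroup ↥(symplecticGroup (Fin n) F)) ≃*
      (Fin ((Finset.Icc 1 n).filter (fun i => orderOf (q : ZMod r) ∣ 2 * i)).card →
        Multiplicative (ZMod (r ^ padicValNat r ((Polynomial.cyclotomic (orderOf (q : ZMod r)) ℤ).eval (q : ℤ)).natAbs)))) := by
  classical
  subst hq
  have hrp : r.Prime := Fact.out
  have hq2 : 2 ≤ Fintype.card F := Fintype.one_lt_card
  have hdpos : 0 < orderOf ((Fintype.card F : ℕ) : ZMod r) := GLSylowLarge.order_pos' hrq
  have hν' := GLSylowLarge.val_cyclotomic (q := Fintype.card F) (r := r) hq2 hrq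
  have hfact := factorization_card_Sp (F := F) n r hr2 hrn hrq
  obtain ⟨p, hp⟩ := CharP.exists F
  haveI : Fact p.Prime := ⟨CharP.char_is_prime F p⟩
  have hqr : ((Fintype.card F : ℕ) : ZMod r) ≠ 0 := by
    rwa [Ne, ZMod.natCast_eq_zero_iff]
  have hrF : (r : F) ≠ 0 := by
    intro h
    rw [CharP.cast_eq_zero_iff F p] at h
    obtain ⟨k, hp', hk⟩ := FiniteField.card F p
    have h1 : p = r := (Nat.prime_dvd_prime_iff_eq hp' hrp).1 h
    apply hrq
    rw [hk, h1]
    exact dvd_pow_self r k.ne_zero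
  obtain ⟨P₀, hP₀, hP₀d⟩ := GLSylowLarge.exists_irr hrF hqr
  generalize hd : orderOf ((Fintype.card F : ℕ) : ZMod r) = d at *
  rw [← hν'] at hfact
  generalize hνdef : padicValNat r ((Polynomial.cyclotomic d ℤ).eval ((Fintype.card F : ℕ) : ℤ)).natAbs = ν at *
  haveI hN : NeZero (r ^ ν) := ⟨pow_ne_zero _ hrp.ne_zero⟩
  haveI : Fact (Irreducible P₀) := ⟨hP₀⟩
  haveI : Module.Finite F (AdjoinRoot P₀) := (AdjoinRoot.powerBasis hP₀.ne_zero).finite
  haveI : Finite (AdjoinRoot P₀) := Module.finite_of_finite F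
  letI : Fintype (AdjoinRoot P₀) := Fintype.ofFinite _
  have hfr : Module.finrank F (AdjoinRoot P₀) = d := by
    rw [(AdjoinRoot.powerBasis hP₀.ne_zero).finrank, AdjoinRoot.powerBasis_dim, hP₀d]
  have hcardK : Fintype.card (AdjoinRoot P₀) = Fintype.card F ^ d := by
    rw [Module.card_eq_pow_finrank (K := F), hfr]
  obtain ⟨g, hg⟩ := IsCyclic.exists_ofOrder_eq_natCard (α := (AdjoinRoot P₀)ˣ)
  have hcardU : Nat.card (AdjoinRoot P₀)ˣ = Fintype.card F ^ d - 1 := by
    rw [Nat.card_eq_fintype_card, Fintype.card_units, hcardK]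
  have hdvd : r ^ ν ∣ Fintype.card F ^ d - 1 := by
    rw [hν']
    exact pow_padicValNat_dvd
  obtain ⟨c, hc⟩ := hdvd
  have hQ2 : 2 ≤ Fintype.card F ^ d := le_trans hq2 (Nat.le_self_pow hdpos.ne' _)
  have hc0 : c ≠ 0 := by
    rintro rfl
    omega
  have hζ : orderOf (g ^ c) = r ^ ν := by
    rw [orderOf_pow_of_dvd hc0 ⟨r ^ ν, by rw [hg, hcardU, hc, mul_comm]⟩, hg, hcardU, hc]
    exact Nat.mul_div_cancel _ (Nat.pos_of_ne_zero hc0)
  obtain ⟨e, he0, hcnt, s, hs⟩ : ∃ e, 0 < e ∧ ((Finset.Icc 1 n).filter (fun i => d ∣ 2 * i)).card = n / e ∧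
      ∃ s : ↥(symplecticGroup (Fin e) F), orderOf s = r ^ ν := by
    have hIcc : Finset.Icc 1 n = Finset.Ioc 0 n := by
      ext x
      simp only [Finset.mem_Icc, Finset.mem_Ioc]
      omega
    by_cases hdodd : Odd d
    · refine ⟨d, hdpos, ?_, ?_⟩
      · rw [hIcc, ← Nat.Ioc_filter_dvd_card_eq_div]
        congr 1
        apply Finset.filter_congr
        intro x _
        have h3 : Nat.Coprime d 2 := (Nat.coprime_two_right).2 hdodd
        exact ⟨fun h => h3.dvd_of_dvd_mul_left h, fun h => Dvd.dvd.mul_left h 2⟩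
      · let b : Module.Basis (Fin d) F (AdjoinRoot P₀) := Module.finBasisOfFinrankEq F _ hfr
        refine ⟨pairHom b (g ^ c), ?_⟩
        rw [orderOf_injective _ (pairHom_injective b), hζ]
    · obtain ⟨e, he⟩ : ∃ e, d = e + e := (Nat.not_odd_iff_even.1 hdodd)
      have he0 : 0 < e := by omega
      refine ⟨e, he0, ?_, ?_⟩
      · rw [hIcc, ← Nat.Ioc_filter_dvd_card_eq_div]
        congr 1
        apply Finset.filter_congr
        intro x _
        rw [he, ← two_mul]
        exact Nat.mul_dvd_mul_iff_left (by norm_num)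
      · have hnd : ¬ d ∣ e := fun h => by
          have := Nat.le_of_dvd he0 h
          omega
        have hnr : ¬ r ∣ Fintype.card F ^ e - 1 := by
          apply GLSylowLarge.not_dvd_of_not_order hq2
          rw [hd]
          exact hnd
        have hcop : Nat.Coprime (r ^ ν) (Fintype.card F ^ e - 1) :=
          Nat.Coprime.pow_left ν ((Nat.Prime.coprime_iff_not_dvd hrp).2 hnr)
        have hfac : Fintype.card F ^ d - 1 = (Fintype.card F ^ e - 1) * (Fintype.card F ^ e + 1) := by
          have h1 := Nat.sq_sub_sq (Fintype.card F ^ e) 1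
          rw [one_pow, ← pow_mul, mul_two, ← he, mul_comm] at h1
          exact h1
        have hdv : r ^ ν ∣ Fintype.card F ^ e + 1 := by
          apply hcop.dvd_of_dvd_mul_left
          rw [← hfac, hc]
          exact dvd_mul_right _ _
        have hγ : (((g ^ c : (AdjoinRoot P₀)ˣ)) : AdjoinRoot P₀) ^ (Fintype.card F ^ e) * ((g ^ c : (AdjoinRoot P₀)ˣ) : AdjoinRoot P₀) = 1 := by
          rw [← pow_succ, ← Units.val_pow_eq_pow_val]
          have h1 : (g ^ c) ^ (Fintype.card F ^ e + 1) = 1 := by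
            apply orderOf_dvd_iff_pow_eq_one.1
            rw [hζ]
            exact hdv
          rw [h1, Units.val_one]
        have hoddo : Odd (orderOf (g ^ c)) := by
          rw [hζ]
          exact (hrp.odd_of_ne_two hr2).pow
        obtain ⟨s, hs⟩ := exists_even (p := p) (F := F) (K := AdjoinRoot P₀) (e := e) (by rw [hfr]; exact he) (g ^ c) hγ hoddo
        exact ⟨s, by rw [hs, hζ]⟩
  rw [hcnt] at hfact ⊢
  have hcardC : Nat.card (Subgroup.zpowers s) = r ^ ν := by
    rw [Nat.card_zpowers, hs]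
  let e₁ : Multiplicative (ZMod (r ^ ν)) ≃* Subgroup.zpowers s :=
    (AddEquiv.toMultiplicative (ZMod.ringEquivCongr hcardC.symm).toAddEquiv).trans
      (zmodCyclicMulEquiv inferInstance)
  let f₁ : Multiplicative (ZMod (r ^ ν)) →* ↥(symplecticGroup (Fin e) F) :=
    (Subgroup.zpowers s).subtype.comp e₁.toMonoidHom
  have hf₁ : Function.Injective f₁ := (Subgroup.subtype_injective _).comp e₁.injective
  obtain ⟨Ψ, hΨ⟩ := exists_blocks (F := F) (n / e) e n (Nat.div_mul_le_self n e)
  let Θ := Ψ.comp (f₁.compLeft (Fin (n / e)))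
  have hΘ : Function.Injective Θ := hΨ.comp (Function.Injective.comp_left hf₁)
  have hcardH : Nat.card Θ.range = r ^ (Nat.card ↥(symplecticGroup (Fin n) F)).factorization r := by
    rw [← Nat.card_congr (MonoidHom.ofInjective hΘ).toEquiv, Nat.card_fun, Nat.card_fin]
    have h1 : Nat.card (Multiplicative (ZMod (r ^ ν))) = r ^ ν := by
      rw [Nat.card_congr Multiplicative.toAdd, Nat.card_zmod]
    rw [h1, hfact, pow_mul]
  let S : Sylow r ↥(symplecticGroup (Fin n) F) := Sylow.ofCard Θ.range hcardH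
  have e₂ : ↥(S : Subgroup ↥(symplecticGroup (Fin n) F)) ≃* Θ.range := MulEquiv.refl _
  exact ⟨(P.equiv S).trans (e₂.trans (MonoidHom.ofInjective hΘ).symm)⟩

end main

end Cfsg.Agent.Lib.SpSylowLarge
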