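/-
Centralisers of symplectic transvections in characteristic two.
-/
import Mathlib
import Cfsg.Agent.Lib.SpSimple
import Cfsg.Agent.Lib.SpParab

set_option autoImplicit false
set_option linter.all false

open scoped Matrix
open Cfsg Cfsg.Geo Cfsg.Agent.Lib.SymplecticTv Cfsg.Agent.Lib.ClassGeom Cfsg.Agent.Lib.SpSimple

namespace Cfsg.Agent.Lib.SpTvCent

variable {F : Type*} [Field F] {m : ℕ}

/-- An element of `Sp` with `rank (t - 1) = 1` is a transvection. -/
theorem rank_one_eq_T [Finite F] (t : Sp m F) (ht : ((t : Matrix (Fin m ⊕ Fin m) (Fin m ⊕ Fin m) F) - 1).rank = 1) :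
    ∃ (u : Fin m ⊕ Fin m → F) (c : F), u ≠ 0 ∧ c ≠ 0 ∧ t = T u c := by
  classical
  let N : Matrix (Fin m ⊕ Fin m) (Fin m ⊕ Fin m) F := t.1 - 1
  have hr : Module.finrank F (LinearMap.range N.mulVecLin) = 1 := ht
  obtain ⟨u', hu', hspan⟩ := finrank_eq_one_iff'.1 hr
  let u : Fin m ⊕ Fin m → F := u'.1
  have hu0 : u ≠ 0 := fun h => hu' (Subtype.ext h)
  have hex : ∀ y, ∃ a : F, N *ᵥ y = a • u := by
    intro y
    obtain ⟨a, ha⟩ := hspan ⟨N *ᵥ y, ⟨y, rfl⟩⟩
    exact ⟨a, (congrArg Subtype.val ha).symm⟩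
  choose φ hφ using hex
  have ht' : ∀ y, t.1 *ᵥ y = y + φ y • u := by
    intro y
    rw [← hφ]
    simp [N, Matrix.sub_mulVec]
  have hrel : ∀ x y, φ y * sympForm m F x u = φ x * sympForm m F y u := by
    intro x y
    have h1 := pres t x y
    rw [ht', ht', f_add_left, f_add_right, f_add_right, f_smul_left, f_smul_right, f_smul_right, f_smul_left, f_self,
      f_skew u y] at h1
    linear_combination h1
  obtain ⟨x₀, hx₀⟩ := ((hf m F).nondegenerate u hu0).1
  let c := φ x₀ / sympForm m F x₀ u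
  have hφc : ∀ y, φ y = c * sympForm m F y u := by
    intro y
    have h1 := hrel x₀ y
    show φ y = φ x₀ / sympForm m F x₀ u * sympForm m F y u
    field_simp
    linear_combination h1
  have hT : t = T u c := by
    apply sp_ext
    intro x
    rw [ht', T_mulVec, hφc]
  have hc0 : c ≠ 0 := by
    intro h
    rw [h, T_zero] at hT
    have h1 : N = 0 := by
      show t.1 - 1 = 0
      rw [hT]
      exact sub_self _
    have h2 : N.rank = 1 := ht
    rw [h1, Matrix.rank_zero] at h2
    omega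
  exact ⟨u, c, hu0, hc0, hT⟩

variable [CharP F 2]

theorem T_inj {v w : Fin m ⊕ Fin m → F} (hv : v ≠ 0) (h : T w (1 : F) = T v 1) : w = v := by
  have h2 : (2 : F) = 0 := CharTwo.two_eq_zero
  obtain ⟨x, hx⟩ := ((hf m F).nondegenerate v hv).1
  have h1 : ∀ y, sympForm m F y w • w = sympForm m F y v • v := by
    intro y
    have h3 : (T w (1 : F)).1 *ᵥ y = (T v (1 : F)).1 *ᵥ y := by rw [h]
    rw [T_mulVec, T_mulVec, one_mul, one_mul] at h3
    exact add_left_cancel h3
  have h3 := h1 x
  have hfw : sympForm m F x w ≠ 0 := by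
    intro h0
    rw [h0, zero_smul] at h3
    rcases smul_eq_zero.1 h3.symm with h4 | h4
    · exact hx h4
    · exact hv h4
  let l := sympForm m F x v / sympForm m F x w
  have hw : w = l • v := by
    have : w = (sympForm m F x w)⁻¹ • (sympForm m F x w • w) := by
      rw [smul_smul, inv_mul_cancel₀ hfw, one_smul]
    rw [this, h3, smul_smul]
    congr 1
    show _ = sympForm m F x v / sympForm m F x w
    field_simp
  have h4 : l * l = 1 := by
    have h5 := h1 x
    rw [hw, f_smul_right, smul_smul] at h5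
    have h6 : (l * sympForm m F x v * l - sympForm m F x v) • v = 0 := by
      rw [sub_smul, h5, sub_self]
    rcases smul_eq_zero.1 h6 with h7 | h7
    · have h8 : sympForm m F x v * (l * l - 1) = 0 := by linear_combination h7
      rcases mul_eq_zero.1 h8 with h9 | h9
      · exact absurd h9 hx
      · exact sub_eq_zero.1 h9
    · exact absurd h7 hv
  have h5 : l = 1 := by
    have h6 : (l - 1) * (l - 1) = 0 := by
      linear_combination h4 - l * h2 + (1 : F) * h2 * 1
    have := mul_self_eq_zero.1 h6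
    exact sub_eq_zero.1 this
  rw [hw, h5, one_smul]

variable [Fintype F]

/-- The order of the centraliser of a transvection. -/
theorem card_centralizer_T {k : ℕ} {v : Fin (k + 1) ⊕ Fin (k + 1) → F} (hv : v ≠ 0) :
    Nat.card (Subgroup.centralizer ({T v (1 : F)} : Set (Sp (k + 1) F))) =
      Fintype.card F ^ (2 * (k + 1) - 1) * (Fintype.card F ^ (k ^ 2) * ∏ i : Fin k, (Fintype.card F ^ (2 * ((i : ℕ) + 1)) - 1)) := by
  classical
  let b : Cfsg.Agent.Lib.SpParab.IsoT (k + 1) 1 F :=
    ⟨fun _ => v, linearIndependent_unique_iff.2 hv, fun i j => f_self v⟩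
  have h1 : Nat.card (Subgroup.centralizer ({T v (1 : F)} : Set (Sp (k + 1) F))) = Nat.card (Cfsg.Agent.Lib.SpParab.Fix b) := by
    refine Nat.card_congr ⟨fun A => ⟨A.1, ?_⟩, fun B => ⟨B.1, ?_⟩, fun A => rfl, fun B => rfl⟩
    · intro i
      show A.1.1 *ᵥ v = v
      have h3 : A.1 * T v (1 : F) = T v 1 * A.1 := Subgroup.mem_centralizer_singleton_iff.1 A.2
      apply T_inj hv
      rw [← conj_T, h3, mul_inv_cancel_right]
    · have h3 : B.1.1 *ᵥ v = v := B.2 0
      rw [Subgroup.mem_centralizer_singleton_iff]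
      have h4 := conj_T B.1 v (1 : F)
      rw [h3] at h4
      rw [mul_inv_eq_iff_eq_mul] at h4
      exact h4
  rw [h1]
  have h3 := Cfsg.Agent.Lib.SpParab.card_sp_eq b
  have h4 := Cfsg.Agent.Lib.IsomChain.card_symplecticGroup (F := F) (k + 1)
  have h5 := Cfsg.Agent.Lib.SpParab.card_IsoT (m := k + 1) (F := F) 1 (by omega)
  rw [Finset.prod_range_one] at h5
  unfold Cfsg.Agent.Lib.SpParab.SpG at h3
  rw [h4, h5, Finset.prod_range_succ] at h3
  have hq : 1 < Fintype.card F := Fintype.one_lt_card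
  have hpos : 0 < Fintype.card F ^ (2 * (k + 1) - 0) - Fintype.card F ^ 0 := by
    rw [pow_zero]
    have : 1 < Fintype.card F ^ (2 * (k + 1) - 0) := Nat.one_lt_pow (by omega) hq
    omega
  apply Nat.eq_of_mul_eq_mul_left hpos
  rw [← h3, Fin.prod_univ_eq_prod_range (fun i => Fintype.card F ^ (2 * (i + 1)) - 1) k]
  have h6 : (k + 1) ^ 2 = (2 * (k + 1) - 1) + k ^ 2 := by
    have : 2 * (k + 1) - 1 = 2 * k + 1 := by omega
    rw [this]
    ring
  rw [h6, pow_add]
  simp only [Nat.sub_zero, pow_zero]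
  ring

end Cfsg.Agent.Lib.SpTvCent
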