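/-
The normaliser of the diagonal torus of `Sp_{2m}(q)`.
-/
import Mathlib
import Cfsg.Agent.Lib.SpBorel

set_option autoImplicit false
set_option linter.all false

open scoped Matrix
open Cfsg Cfsg.Geo Cfsg.Agent.Lib.SymplecticTv Cfsg.Agent.Lib.ClassGeom Cfsg.Agent.Lib.SpParab
  Cfsg.Agent.Lib.SpBorel

namespace Cfsg.Agent.Lib.SpWeyl

variable {F : Type*} [Field F] {m : ℕ}

/-- Standard basis vectors. -/
abbrev ee (x : Fin m ⊕ Fin m) : Fin m ⊕ Fin m → F := Pi.single x 1

/-- The diagonal torus. -/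
abbrev TT (m : ℕ) (F : Type*) [Field F] : Subgroup (Matrix.symplecticGroup (Fin m) F) :=
  ⨅ i : Fin m ⊕ Fin m, Cfsg.stabilizing (Cfsg.spToMat m F)
    ((Submodule.span F {(Pi.single i (1 : F) : Fin m ⊕ Fin m → F)} : Submodule F (Fin m ⊕ Fin m → F)) :
      Set (Fin m ⊕ Fin m → F))

/-- The support of a column. -/
def IsMon (g : SpG m F) (π : Equiv.Perm (Fin m ⊕ Fin m)) : Prop := ∀ x y, y ≠ π x → g.1 y x = 0

theorem mem_TT [Finite F] {A : SpG m F} : A ∈ TT m F ↔ IsMon A 1 := by
  rw [Subgroup.mem_iInf]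
  constructor
  · intro h x y hy
    have h1 := (h x (ee x)).1 (Submodule.subset_span rfl)
    obtain ⟨c, hc⟩ := Submodule.mem_span_singleton.1 h1
    have h2 := congrFun hc y
    rw [Matrix.mulVec_single_one] at h2
    simp only [Pi.smul_apply, smul_eq_mul, Matrix.col_apply] at h2
    have h3 : A.1 y x = c * (Pi.single x (1 : F) : Fin m ⊕ Fin m → F) y := h2.symm
    have hy' : y ≠ x := hy
    rw [h3, Pi.single_eq_of_ne hy', mul_zero]
  · intro h x
    apply stab_of_le
    intro v hv
    obtain ⟨c, rfl⟩ := Submodule.mem_span_singleton.1 hv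
    apply Submodule.mem_span_singleton.2
    refine ⟨c * A.1 x x, ?_⟩
    rw [Matrix.mulVec_smul, Matrix.mulVec_single_one, mul_smul]
    congr 1
    funext y
    simp only [Pi.smul_apply, smul_eq_mul, Matrix.col_apply]
    by_cases hy : y = x
    · subst hy
      simp
    · rw [h x y hy, Pi.single_eq_of_ne hy, mul_zero]

theorem IsMon.mul {g h : SpG m F} {π π' : Equiv.Perm (Fin m ⊕ Fin m)} (hg : IsMon g π) (hh : IsMon h π') :
    IsMon (g * h) (π * π') := by
  intro x y hy
  show (g.1 * h.1) y x = 0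
  rw [Matrix.mul_apply]
  apply Finset.sum_eq_zero
  intro z _
  by_cases hz : z = π' x
  · subst hz
    rw [hg _ y hy, zero_mul]
  · rw [hh x z hz, mul_zero]

theorem entry_ne {g : SpG m F} {π : Equiv.Perm (Fin m ⊕ Fin m)} (hg : IsMon g π) (x : Fin m ⊕ Fin m) :
    g.1 (π x) x ≠ 0 := by
  intro h
  have h1 : g.1 *ᵥ ee x = 0 := by
    rw [Matrix.mulVec_single_one]
    funext y
    by_cases hy : y = π x
    · subst hy
      simpa using h
    · simpa using hg x y hy
  have h2 : (ee x : Fin m ⊕ Fin m → F) = 0 := by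
    apply sp_injective g
    simpa using h1
  have := congrFun h2 x
  simp at this

theorem IsMon.inv {g : SpG m F} {π : Equiv.Perm (Fin m ⊕ Fin m)} (hg : IsMon g π) : IsMon g⁻¹ π⁻¹ := by
  intro x y hy
  -- write `x = π z`
  obtain ⟨z, rfl⟩ := π.surjective x
  rw [show π⁻¹ (π z) = z from Equiv.symm_apply_apply π z] at hy
  have h1 : (g⁻¹).1 * g.1 = 1 := congrArg Subtype.val (inv_mul_cancel g)
  have h2 := congrFun (congrFun h1 y) z
  rw [Matrix.mul_apply, Finset.sum_eq_single (π z), Matrix.one_apply_ne hy] at h2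
  · exact (mul_eq_zero.1 h2).resolve_right (entry_ne hg z)
  · intro b _ hb
    rw [hg z b hb, mul_zero]
  · simp

theorem mem_normalizer_of_mon [Finite F] {g : SpG m F} {π : Equiv.Perm (Fin m ⊕ Fin m)} (hg : IsMon g π) :
    g ∈ Subgroup.normalizer ((TT m F : Subgroup (SpG m F)) : Set (SpG m F)) := by
  have key : ∀ (g : SpG m F) (π : Equiv.Perm (Fin m ⊕ Fin m)), IsMon g π → ∀ n, n ∈ TT m F → g * n * g⁻¹ ∈ TT m F := by
    intro g π hg n hn
    rw [mem_TT] at hn ⊢
    have := (hg.mul hn).mul hg.inv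
    simpa using this
  rw [Subgroup.mem_normalizer_iff]
  intro n
  refine ⟨key g π hg n, fun h => ?_⟩
  have := key g⁻¹ π⁻¹ hg.inv _ h
  simpa [mul_assoc] using this

/-- The involution on the index set. -/
def tau : Fin m ⊕ Fin m → Fin m ⊕ Fin m := Sum.elim Sum.inr Sum.inl

@[simp] theorem tau_tau (x : Fin m ⊕ Fin m) : tau (tau x) = x := by
  rcases x with i | i <;> rfl

theorem tau_ne (x : Fin m ⊕ Fin m) : tau x ≠ x := by
  rcases x with i | i <;> simp [tau]

/-- Values of a diagonal element. -/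
def dd (u : Fin m → Fˣ) : Fin m ⊕ Fin m → F := Sum.elim (fun i => (u i : F)) (fun i => ((u i)⁻¹ : Fˣ))

theorem dd_ne (u : Fin m → Fˣ) (x : Fin m ⊕ Fin m) : (dd u x : F) ≠ 0 := by
  rcases x with i | i <;> simp [dd]

theorem dd_mul (u : Fin m → Fˣ) (i : Fin m) : (dd u (Sum.inr i) : F) * dd u (Sum.inl i) = 1 := by
  simp [dd]

/-- The diagonal elements. -/
def DD (u : Fin m → Fˣ) : SpG m F := ⟨Matrix.diagonal (dd u), by
  rw [mem_sp_iff_pres]
  intro a b
  simp only [sympForm_apply, Matrix.mulVec_diagonal]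
  apply Finset.sum_congr rfl
  intro i _
  have h1 := dd_mul u i
  linear_combination (a (Sum.inr i) * b (Sum.inl i) - a (Sum.inl i) * b (Sum.inr i)) * h1⟩

theorem DD_mon (u : Fin m → Fˣ) : IsMon (DD u : SpG m F) 1 := by
  intro x y hy
  exact Matrix.diagonal_apply_ne _ hy

/-- Common eigenvectors of the torus are multiples of basis vectors. -/
theorem common_eigen [Finite F] {a : Fˣ} (ha : (a : F) * a ≠ 1) {v : Fin m ⊕ Fin m → F} {y : Fin m ⊕ Fin m} (hy : v y ≠ 0)
    (h : ∀ t ∈ TT m F, ∃ c : F, t.1 *ᵥ v = c • v) (z : Fin m ⊕ Fin m) (hz : z ≠ y) : v z = 0 := by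
  classical
  have ha1 : (1 : F) ≠ a := by
    intro h1
    apply ha
    rw [← h1, one_mul]
  have ha2 : (a : F)⁻¹ ≠ a := by
    intro h1
    apply ha
    nth_rw 1 [← h1]
    exact inv_mul_cancel₀ a.ne_zero
  -- choose the torus element
  let u : Fin m → Fˣ := fun i => Sum.elim (fun j => if i = j then a else 1) (fun j => if i = j then a⁻¹ else 1) y
  have hdy : dd u y = (a : F) := by
    rcases y with j | j <;> simp [dd, u]
  have hdz : dd u z ≠ (a : F) := by
    rcases y with j | j <;> rcases z with k | k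
    · have hk : k ≠ j := fun h => hz (by rw [h])
      simp [dd, u, hk, ha1]
    · by_cases hk : k = j
      · subst hk
        simp [dd, u, ha2]
      · simp [dd, u, hk, ha1]
    · by_cases hk : k = j
      · subst hk
        simp [dd, u, ha2]
      · simp [dd, u, hk, ha1]
    · have hk : k ≠ j := fun h => hz (by rw [h])
      simp [dd, u, hk, ha1]
  obtain ⟨c, hc⟩ := h (DD u) (mem_TT.2 (DD_mon u))
  have e : ∀ w, dd u w * v w = c * v w := by
    intro w
    have := congrFun hc w
    rw [show (DD u : SpG m F).1 = Matrix.diagonal (dd u) from rfl, Matrix.mulVec_diagonal] at this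
    simpa using this
  have h1 : c = a := by
    have := e y
    rw [hdy] at this
    exact (mul_right_cancel₀ hy this).symm
  have h2 := e z
  rw [h1] at h2
  have h3 : (dd u z - a) * v z = 0 := by linear_combination h2
  exact (mul_eq_zero.1 h3).resolve_left (sub_ne_zero.2 hdz)

theorem exists_mon [Finite F] {a : Fˣ} (ha : (a : F) * a ≠ 1) {g : SpG m F}
    (hg : g ∈ Subgroup.normalizer ((TT m F : Subgroup (SpG m F)) : Set (SpG m F))) :
    ∃ π : Equiv.Perm (Fin m ⊕ Fin m), IsMon g π := by
  classical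
  have hcol : ∀ x, ∃ y, g.1 y x ≠ 0 := by
    intro x
    by_contra hcon
    push Not at hcon
    have h2 : (ee x : Fin m ⊕ Fin m → F) = 0 := by
      apply sp_injective g
      show g.1 *ᵥ ee x = g.1 *ᵥ 0
      rw [Matrix.mulVec_single_one, Matrix.mulVec_zero]
      funext y
      simpa using hcon y
    have := congrFun h2 x
    simp at this
  choose Y hY using hcol
  have hsupp : ∀ x z, z ≠ Y x → g.1 z x = 0 := by
    intro x z hz
    have hv : ∀ w, g.1 w x = (g.1 *ᵥ ee x) w := by
      intro w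
      rw [Matrix.mulVec_single_one]
      simp
    rw [hv]
    apply common_eigen ha (y := Y x) _ _ z hz
    · rw [← hv]
      exact hY x
    · intro t ht
      have h1 : g⁻¹ * t * g ∈ TT m F := by
        have := (Subgroup.mem_normalizer_iff.1 (Subgroup.inv_mem _ hg) t).1 ht
        simpa using this
      have h2 := mem_TT.1 h1
      refine ⟨(g⁻¹ * t * g).1 x x, ?_⟩
      have h3 : (g⁻¹ * t * g).1 *ᵥ ee x = (g⁻¹ * t * g).1 x x • ee x := by
        rw [Matrix.mulVec_single_one]
        funext y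
        simp only [Pi.smul_apply, smul_eq_mul, Matrix.col_apply]
        by_cases hy : y = x
        · subst hy
          simp
        · rw [h2 x y hy]
          simp [ee, hy]
      calc t.1 *ᵥ (g.1 *ᵥ ee x) = g.1 *ᵥ ((g⁻¹ * t * g).1 *ᵥ ee x) := by
            rw [sp_mul_mulVec, sp_mul_mulVec, sp_mul_inv]
        _ = _ := by
            rw [h3, Matrix.mulVec_smul]
  have hinj : Function.Injective Y := by
    intro x x' hxx
    by_contra hne
    have e1 : g.1 *ᵥ ((g.1 (Y x') x') • ee x - (g.1 (Y x) x) • ee x') = 0 := by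
      rw [Matrix.mulVec_sub, Matrix.mulVec_smul, Matrix.mulVec_smul, Matrix.mulVec_single_one, Matrix.mulVec_single_one]
      funext w
      simp only [Pi.sub_apply, Pi.smul_apply, smul_eq_mul, Matrix.col_apply, Pi.zero_apply]
      by_cases hw : w = Y x
      · rw [hw, ← hxx]
        ring
      · rw [hsupp x w hw, hsupp x' w (by rw [← hxx]; exact hw)]
        ring
    have e2 : ((g.1 (Y x') x') • ee x - (g.1 (Y x) x) • ee x' : Fin m ⊕ Fin m → F) = 0 := by
      apply sp_injective g
      show g.1 *ᵥ _ = g.1 *ᵥ 0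
      rw [e1, Matrix.mulVec_zero]
    have e3 := congrFun e2 x
    simp only [Pi.sub_apply, Pi.smul_apply, smul_eq_mul, Pi.zero_apply] at e3
    simp only [ee] at e3
    rw [Pi.single_eq_same, Pi.single_eq_of_ne hne, mul_one, mul_zero, sub_zero] at e3
    exact hY x' e3
  refine ⟨Equiv.ofBijective Y (Finite.injective_iff_bijective.1 hinj), ?_⟩
  intro x y hy
  exact hsupp x y hy

/-- The permutation of a signed permutation. -/
def PP (σ : Equiv.Perm (Fin m)) (s : Fin m → Bool) : Equiv.Perm (Fin m ⊕ Fin m) where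
  toFun := Sum.elim (fun i => if s i then Sum.inr (σ i) else Sum.inl (σ i))
    (fun i => if s i then Sum.inl (σ i) else Sum.inr (σ i))
  invFun := Sum.elim (fun j => if s (σ.symm j) then Sum.inr (σ.symm j) else Sum.inl (σ.symm j))
    (fun j => if s (σ.symm j) then Sum.inl (σ.symm j) else Sum.inr (σ.symm j))
  left_inv := by
    rintro (i | i) <;> by_cases h : s i <;> simp [h]
  right_inv := by
    rintro (j | j) <;> by_cases h : s (σ.symm j) <;> simp [h]

/-- The signs of a signed permutation. -/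
def eps (s : Fin m → Bool) : Fin m ⊕ Fin m → F := Sum.elim (fun _ => 1) (fun i => if s i then -1 else 1)

theorem eps_ne (s : Fin m → Bool) (x : Fin m ⊕ Fin m) : (eps s x : F) ≠ 0 := by
  rcases x with i | i
  · simp [eps]
  · by_cases h : s i <;> simp [eps, h]

/-- The matrix. -/
def Mat (σ : Equiv.Perm (Fin m)) (s : Fin m → Bool) : Matrix (Fin m ⊕ Fin m) (Fin m ⊕ Fin m) F :=
  Matrix.of fun y x => if y = PP σ s x then eps s x else 0

theorem Mat_mulVec (σ : Equiv.Perm (Fin m)) (s : Fin m → Bool) (u : Fin m ⊕ Fin m → F) (x : Fin m ⊕ Fin m) :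
    (Mat σ s *ᵥ u) (PP σ s x) = eps s x * u x := by
  rw [Matrix.mulVec, dotProduct, Finset.sum_eq_single x]
  · simp [Mat]
  · intro b _ hb
    have : PP σ s x ≠ PP σ s b := fun h => hb ((PP σ s).injective h).symm
    simp [Mat, this]
  · simp

theorem Mat_mem (σ : Equiv.Perm (Fin m)) (s : Fin m → Bool) : (Mat σ s : Matrix _ _ F) ∈ SpG m F := by
  rw [mem_sp_iff_pres]
  intro u v
  rw [sympForm_apply, sympForm_apply, ← Equiv.sum_comp σ]
  apply Finset.sum_congr rfl
  intro i _
  by_cases h : s i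
  · have e1 : (Sum.inr (σ i) : Fin m ⊕ Fin m) = PP σ s (Sum.inl i) := by simp [PP, h]
    have e2 : (Sum.inl (σ i) : Fin m ⊕ Fin m) = PP σ s (Sum.inr i) := by simp [PP, h]
    rw [e1, e2]
    simp only [Mat_mulVec]
    simp [eps, h]
    ring
  · have e1 : (Sum.inl (σ i) : Fin m ⊕ Fin m) = PP σ s (Sum.inl i) := by simp [PP, h]
    have e2 : (Sum.inr (σ i) : Fin m ⊕ Fin m) = PP σ s (Sum.inr i) := by simp [PP, h]
    rw [e1, e2]
    simp only [Mat_mulVec]
    simp [eps, h]

/-- The symplectic element of a signed permutation. -/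
def MM (σ : Equiv.Perm (Fin m)) (s : Fin m → Bool) : SpG m F := ⟨Mat σ s, Mat_mem σ s⟩

theorem MM_mon (σ : Equiv.Perm (Fin m)) (s : Fin m → Bool) : IsMon (MM σ s : SpG m F) (PP σ s) := by
  intro x y hy
  show (if y = PP σ s x then eps s x else 0) = (0 : F)
  rw [if_neg hy]

theorem mulVec_ee_of_mon {g : SpG m F} {π : Equiv.Perm (Fin m ⊕ Fin m)} (hg : IsMon g π) (x : Fin m ⊕ Fin m) :
    g.1 *ᵥ ee x = g.1 (π x) x • ee (π x) := by
  rw [Matrix.mulVec_single_one]
  funext y
  simp only [Pi.smul_apply, smul_eq_mul, Matrix.col_apply]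
  by_cases hy : y = π x
  · subst hy
    simp
  · rw [hg x y hy]
    simp [ee, hy]

theorem form_ee_tau (x : Fin m ⊕ Fin m) : sympForm m F (ee x) (ee (tau x)) ≠ 0 := by
  classical
  rw [sympForm_apply]
  rcases x with i | i
  · rw [Finset.sum_eq_single i]
    · simp [tau]
    · intro j _ hj
      simp [tau, hj]
    · simp
  · rw [Finset.sum_eq_single i]
    · simp [tau]
    · intro j _ hj
      simp [tau, hj]
    · simp

theorem form_ee_eq {y z : Fin m ⊕ Fin m} (h : sympForm m F (ee y) (ee z) ≠ 0) : z = tau y := by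
  classical
  by_contra hne
  apply h
  rw [sympForm_apply]
  apply Finset.sum_eq_zero
  intro i _
  have h1 : (ee y (Sum.inr i) : F) * ee z (Sum.inl i) = 0 := by
    by_cases hy : y = Sum.inr i
    · subst hy
      have : z ≠ Sum.inl i := hne
      simp [ee, this]
    · simp [ee, Ne.symm hy]
  have h2 : (ee y (Sum.inl i) : F) * ee z (Sum.inr i) = 0 := by
    by_cases hy : y = Sum.inl i
    · subst hy
      have : z ≠ Sum.inr i := hne
      simp [ee, this]
    · simp [ee, Ne.symm hy]
  rw [h1, h2, sub_zero]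

theorem comm_tau {g : SpG m F} {π : Equiv.Perm (Fin m ⊕ Fin m)} (hg : IsMon g π) (x : Fin m ⊕ Fin m) :
    π (tau x) = tau (π x) := by
  apply form_ee_eq (F := F)
  intro h
  have h1 := sp_pres g (ee x) (ee (tau x))
  rw [mulVec_ee_of_mon hg, mulVec_ee_of_mon hg, form_smul_left, form_smul_right, h, mul_zero, mul_zero] at h1
  exact form_ee_tau x h1.symm

/-- A monomial element is a signed permutation up to the torus. -/
theorem exists_sign {g : SpG m F} {π : Equiv.Perm (Fin m ⊕ Fin m)} (hg : IsMon g π) :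
    ∃ (σ : Equiv.Perm (Fin m)) (s : Fin m → Bool), PP σ s = π := by
  have hc := comm_tau hg
  let σ₀ : Fin m → Fin m := fun i => Sum.elim id id (π (Sum.inl i))
  have hinj : Function.Injective σ₀ := by
    intro i i' h
    have hab : π (Sum.inl i) = π (Sum.inl i') ∨ π (Sum.inl i') = tau (π (Sum.inl i)) := by
      simp only [σ₀] at h
      rcases hi : π (Sum.inl i) with j | j <;> rcases hi' : π (Sum.inl i') with j' | j' <;> simp [hi, hi'] at h <;>
        subst h <;> simp [tau]
    rcases hab with hab | hab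
    · exact Sum.inl.inj (π.injective hab)
    · rw [← hc] at hab
      have := π.injective hab
      simp [tau] at this
  let σ : Equiv.Perm (Fin m) := Equiv.ofBijective σ₀ (Finite.injective_iff_bijective.1 hinj)
  let s : Fin m → Bool := fun i => (π (Sum.inl i)).isRight
  refine ⟨σ, s, ?_⟩
  ext x
  rcases x with i | i
  · show (if s i then Sum.inr (σ₀ i) else Sum.inl (σ₀ i)) = π (Sum.inl i)
    simp only [s, σ₀]
    rcases π (Sum.inl i) with j | j <;> simp
  · show (if s i then Sum.inl (σ₀ i) else Sum.inr (σ₀ i)) = π (Sum.inr i)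
    have : π (Sum.inr i) = tau (π (Sum.inl i)) := hc (Sum.inl i)
    rw [this]
    simp only [s, σ₀]
    rcases π (Sum.inl i) with j | j <;> simp [tau]

/-- The bijection. -/
noncomputable def Psi [Finite F] (p : (Equiv.Perm (Fin m) × (Fin m → Bool)) × TT m F) :
    Subgroup.normalizer ((TT m F : Subgroup (SpG m F)) : Set (SpG m F)) :=
  ⟨MM p.1.1 p.1.2 * p.2.1, mem_normalizer_of_mon ((MM_mon p.1.1 p.1.2).mul (mem_TT.1 p.2.2))⟩

theorem Psi_injective [Finite F] : Function.Injective (Psi (m := m) (F := F)) := by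
  rintro ⟨⟨σ, s⟩, t⟩ ⟨⟨σ', s'⟩, t'⟩ h
  have h1 : (MM σ s : SpG m F) * t.1 = MM σ' s' * t'.1 := congrArg Subtype.val h
  have m1 := (MM_mon (F := F) σ s).mul (mem_TT.1 t.2)
  have m2 := (MM_mon (F := F) σ' s').mul (mem_TT.1 t'.2)
  rw [h1] at m1
  have hP : ∀ x, PP σ s x = PP σ' s' x := by
    intro x
    by_contra hne
    have := entry_ne m1 x
    apply this
    exact m2 x _ hne
  have hi : ∀ i, s i = s' i ∧ σ i = σ' i := by
    intro i
    have := hP (Sum.inl i)
    by_cases h1 : s i <;> by_cases h2 : s' i <;> simp [PP, h1, h2] at this ⊢ <;> exact this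
  have hs : s = s' := funext fun i => (hi i).1
  have hσ : σ = σ' := Equiv.ext fun i => (hi i).2
  subst hs hσ
  have ht : t = t' := Subtype.ext (mul_left_cancel h1)
  rw [ht]

theorem Psi_surjective [Finite F] {a : Fˣ} (ha : (a : F) * a ≠ 1) : Function.Surjective (Psi (m := m) (F := F)) := by
  rintro ⟨g, hg⟩
  obtain ⟨π, hπ⟩ := exists_mon ha hg
  obtain ⟨σ, s, rfl⟩ := exists_sign hπ
  refine ⟨⟨(σ, s), ⟨(MM σ s)⁻¹ * g, ?_⟩⟩, ?_⟩
  · rw [mem_TT]
    have := (MM_mon (F := F) σ s).inv.mul hπ
    simpa using this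
  · apply Subtype.ext
    show MM σ s * ((MM σ s)⁻¹ * g) = g
    group

theorem card_TT [Fintype F] : Nat.card (TT m F) = (Fintype.card F - 1) ^ m := by
  classical
  have hent : ∀ t : TT m F, ∀ i, t.1.1 (Sum.inr i) (Sum.inr i) * t.1.1 (Sum.inl i) (Sum.inl i) = 1 := by
    intro t i
    have hm := mem_TT.1 t.2
    have h1 := sp_pres t.1 (ee (Sum.inr i)) (ee (Sum.inl i))
    have e1 := mulVec_ee_of_mon hm (Sum.inr i)
    have e2 := mulVec_ee_of_mon hm (Sum.inl i)
    simp only [Equiv.Perm.one_apply] at e1 e2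
    rw [e1, e2, form_smul_left, form_smul_right] at h1
    have h2 : sympForm m F (ee (Sum.inr i)) (ee (Sum.inl i)) = 1 := by
      rw [sympForm_apply, Finset.sum_eq_single i]
      · simp
      · intro j _ hj
        simp [hj]
      · simp
    rw [h2, mul_one] at h1
    exact h1
  have e : (Fin m → Fˣ) ≃ TT m F := by
    refine ⟨fun u => ⟨DD u, mem_TT.2 (DD_mon u)⟩, fun t i => ⟨t.1.1 (Sum.inl i) (Sum.inl i),
      t.1.1 (Sum.inr i) (Sum.inr i), by rw [mul_comm]; exact hent t i, hent t i⟩, ?_, ?_⟩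
    · intro u
      funext i
      apply Units.ext
      show Matrix.diagonal (dd u) (Sum.inl i) (Sum.inl i) = u i
      simp [dd]
    · intro t
      apply Subtype.ext
      apply Subtype.ext
      have hm := mem_TT.1 t.2
      show Matrix.diagonal _ = t.1.1
      ext y x
      by_cases hxy : y = x
      · subst hxy
        rw [Matrix.diagonal_apply_eq]
        rcases y with i | i
        · simp [dd]
        · simp only [dd, Sum.elim_inr]
          have := hent t i
          simp
      · rw [Matrix.diagonal_apply_ne _ hxy, hm x y hxy]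
  rw [← Nat.card_congr e]
  simp [Nat.card_eq_fintype_card, Fintype.card_units]

theorem main [Fintype F] (hq : 4 ≤ Fintype.card F) :
    Nat.card (Subgroup.normalizer ((TT m F : Subgroup (SpG m F)) : Set (SpG m F))) =
      2 ^ m * Nat.factorial m * (Fintype.card F - 1) ^ m := by
  classical
  have ha : ∃ a : Fˣ, (a : F) * a ≠ 1 := by
    by_contra hcon
    push Not at hcon
    have h1 : ∀ x : F, x = 0 ∨ x = 1 ∨ x = -1 := by
      intro x
      by_cases hx : x = 0
      · exact Or.inl hx
      · right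
        exact mul_self_eq_one_iff.1 (hcon (Units.mk0 x hx))
    have h2 : (Finset.univ : Finset F) ⊆ {0, 1, -1} := by
      intro x _
      simpa using h1 x
    have h3 := Finset.card_le_card h2
    have h4 : ({0, 1, -1} : Finset F).card ≤ 3 := Finset.card_le_three
    rw [Finset.card_univ] at h3
    omega
  obtain ⟨a, ha⟩ := ha
  rw [← Nat.card_congr (Equiv.ofBijective Psi ⟨Psi_injective, Psi_surjective ha⟩), Nat.card_prod, Nat.card_prod, card_TT]
  have h1 : Nat.card (Equiv.Perm (Fin m)) = Nat.factorial m := by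
    rw [Nat.card_eq_fintype_card, Fintype.card_perm, Fintype.card_fin]
  have h2 : Nat.card (Fin m → Bool) = 2 ^ m := by
    simp
  rw [h1, h2]
  ring

end Cfsg.Agent.Lib.SpWeyl
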