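/-
The stabiliser of a non-degenerate subspace in an isometry group is a product of isometry groups:
an abstract matrix version.
-/
import Mathlib
import Cfsg.Prelude.Def_ClassicalGeometry
import Cfsg.Agent.Lib.FormClass
import Cfsg.Agent.Lib.ClassGeom

set_option autoImplicit false
set_option linter.all false

open scoped Matrix

namespace Cfsg.Agent.Lib.StabProd

open Cfsg

variable {F : Type*} [Field F] {ι ι₁ ι₂ : Type} [Fintype ι] [DecidableEq ι] [Fintype ι₁] [DecidableEq ι₁]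
  [Fintype ι₂] [DecidableEq ι₂]

/-- An invertible matrix preserving a form. -/
def IsIsomM {κ : Type} [Fintype κ] [DecidableEq κ] (f : (κ → F) → (κ → F) → F) (N : Matrix κ κ F) : Prop :=
  IsUnit N ∧ ∀ x y, f (N *ᵥ x) (N *ᵥ y) = f x y

theorem stab_equiv_prod {G G₁ G₂ : Type*} [Group G] [Group G₁] [Group G₂]
    (f : (ι → F) → (ι → F) → F) (f₁ : (ι₁ → F) → (ι₁ → F) → F) (f₂ : (ι₂ → F) → (ι₂ → F) → F)
    (ρ : G →* Matrix ι ι F) (ρ₁ : G₁ →* Matrix ι₁ ι₁ F) (ρ₂ : G₂ →* Matrix ι₂ ι₂ F)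
    (hρ : Function.Injective ρ) (hρ₁ : Function.Injective ρ₁) (hρ₂ : Function.Injective ρ₂)
    (hr : ∀ N, N ∈ Set.range ρ ↔ IsIsomM f N) (hr₁ : ∀ N, N ∈ Set.range ρ₁ ↔ IsIsomM f₁ N)
    (hr₂ : ∀ N, N ∈ Set.range ρ₂ ↔ IsIsomM f₂ N)
    (P : Matrix ι (ι₁ ⊕ ι₂) F) (P' : Matrix (ι₁ ⊕ ι₂) ι F) (hPP' : P * P' = 1) (hP'P : P' * P = 1)
    (H : ∀ x y, f (P *ᵥ x) (P *ᵥ y) = f₁ (x ∘ Sum.inl) (y ∘ Sum.inl) + f₂ (x ∘ Sum.inr) (y ∘ Sum.inr))
    (S : Set (ι → F)) (hS : ∀ v, v ∈ S ↔ ∀ j, (P' *ᵥ v) (Sum.inr j) = 0)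
    (h₁0 : ∀ y, f₁ 0 y = 0) (h₂0 : ∀ x, f₂ x 0 = 0) (h₁n : ∀ x, (∀ y, f₁ x y = 0) → x = 0) :
    Nonempty (↥(stabilizing ρ S) ≃* G₁ × G₂) := by
  classical
  -- the blocks
  let Blk : G₁ × G₂ → Matrix (ι₁ ⊕ ι₂) (ι₁ ⊕ ι₂) F := fun p => Matrix.fromBlocks (ρ₁ p.1) 0 0 (ρ₂ p.2)
  have hBlk1 : Blk 1 = 1 := by
    simp [Blk, Matrix.fromBlocks_one]
  have hBlkm : ∀ p q, Blk (p * q) = Blk p * Blk q := by
    intro p q
    simp [Blk, Matrix.fromBlocks_multiply]
  let Nm : G₁ × G₂ → Matrix ι ι F := fun p => P * Blk p * P'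
  have hNm1 : Nm 1 = 1 := by
    simp [Nm, hBlk1, hPP']
  have hNmm : ∀ p q, Nm (p * q) = Nm p * Nm q := by
    intro p q
    simp only [Nm, hBlkm]
    have e : (P * Blk p * P') * (P * Blk q * P') = P * Blk p * (P' * P) * Blk q * P' := by
      simp only [Matrix.mul_assoc]
    rw [e, hP'P, Matrix.mul_one]
    simp only [Matrix.mul_assoc]
  have hBlkVec : ∀ p (z : ι₁ ⊕ ι₂ → F), Blk p *ᵥ z = Sum.elim (ρ₁ p.1 *ᵥ (z ∘ Sum.inl)) (ρ₂ p.2 *ᵥ (z ∘ Sum.inr)) := by
    intro p z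
    simp only [Blk]
    rw [Matrix.fromBlocks_mulVec]
    simp
  have hP'Pv : ∀ z : ι₁ ⊕ ι₂ → F, P' *ᵥ (P *ᵥ z) = z := fun z => by
    rw [Matrix.mulVec_mulVec, hP'P, Matrix.one_mulVec]
  have hPP'v : ∀ z : ι → F, P *ᵥ (P' *ᵥ z) = z := fun z => by
    rw [Matrix.mulVec_mulVec, hPP', Matrix.one_mulVec]
  have hNmVec : ∀ p (u : ι → F), Nm p *ᵥ u = P *ᵥ (Blk p *ᵥ (P' *ᵥ u)) := by
    intro p u
    simp only [Nm]
    rw [Matrix.mulVec_mulVec, Matrix.mulVec_mulVec, Matrix.mul_assoc]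
  have hiso₁ : ∀ a x y, f₁ (ρ₁ a *ᵥ x) (ρ₁ a *ᵥ y) = f₁ x y := fun a => ((hr₁ _).1 ⟨a, rfl⟩).2
  have hiso₂ : ∀ a x y, f₂ (ρ₂ a *ᵥ x) (ρ₂ a *ᵥ y) = f₂ x y := fun a => ((hr₂ _).1 ⟨a, rfl⟩).2
  have hNiso : ∀ p, IsIsomM f (Nm p) := by
    intro p
    refine ⟨⟨⟨Nm p, Nm p⁻¹, ?_, ?_⟩, rfl⟩, fun u v => ?_⟩
    · rw [← hNmm, mul_inv_cancel, hNm1]
    · rw [← hNmm, inv_mul_cancel, hNm1]
    · rw [hNmVec, hNmVec, H, hBlkVec, hBlkVec]
      have e1 : ∀ (a : ι₁ → F) (b : ι₂ → F), (Sum.elim a b) ∘ Sum.inl = a := fun a b => rfl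
      have e2 : ∀ (a : ι₁ → F) (b : ι₂ → F), (Sum.elim a b) ∘ Sum.inr = b := fun a b => rfl
      rw [e1, e1, e2, e2, hiso₁, hiso₂, ← H, hPP'v, hPP'v]
  have hex : ∀ p, ∃ g, ρ g = Nm p := fun p => (hr _).2 (hNiso p)
  choose φ hφ using hex
  have hmem : ∀ p, φ p ∈ stabilizing ρ S := by
    intro p v
    change v ∈ S ↔ ρ (φ p) *ᵥ v ∈ S
    rw [hφ, hS, hS, hNmVec, hP'Pv, hBlkVec]
    constructor
    · intro h j
      simp only [Sum.elim_inr]
      have : (P' *ᵥ v) ∘ Sum.inr = 0 := by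
        funext j
        exact h j
      rw [this, Matrix.mulVec_zero]
      rfl
    · intro h j
      have h1 : ρ₂ p.2 *ᵥ ((P' *ᵥ v) ∘ Sum.inr) = 0 := by
        funext j
        exact h j
      have h2 := congrArg (fun z => ρ₂ p.2⁻¹ *ᵥ z) h1
      simp only [Matrix.mulVec_mulVec, ← map_mul, inv_mul_cancel, map_one, Matrix.one_mulVec, Matrix.mulVec_zero] at h2
      exact congrFun h2 j
  let Φ : G₁ × G₂ →* ↥(stabilizing ρ S) := MonoidHom.mk' (fun p => ⟨φ p, hmem p⟩) (by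
    intro p q
    apply Subtype.ext
    apply hρ
    show ρ (φ (p * q)) = ρ (φ p * φ q)
    rw [map_mul, hφ, hφ, hφ, hNmm])
  have hinj : Function.Injective Φ := by
    intro p q hpq
    have h1 : ρ (φ p) = ρ (φ q) := by
      have := congrArg Subtype.val hpq
      exact congrArg ρ this
    rw [hφ, hφ] at h1
    have h2 : Blk p = Blk q := by
      have h3 : P' * (P * Blk p * P') * P = P' * (P * Blk q * P') * P := by
        simp only [Nm] at h1
        rw [h1]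
      have h4 : ∀ X : Matrix (ι₁ ⊕ ι₂) (ι₁ ⊕ ι₂) F, P' * (P * X * P') * P = X := by
        intro X
        calc P' * (P * X * P') * P = (P' * P) * X * (P' * P) := by simp [Matrix.mul_assoc]
          _ = X := by simp [hP'P]
      rwa [h4, h4] at h3
    have h5 := Matrix.fromBlocks_inj.1 h2
    exact Prod.ext (hρ₁ h5.1) (hρ₂ h5.2.2.2)
  have hsurj : Function.Surjective Φ := by
    rintro ⟨g, hg⟩
    set N := ρ g with hN
    obtain ⟨hNu, hNf⟩ := (hr N).1 ⟨g, rfl⟩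
    set M := P' * N * P with hM
    have hMv : ∀ z, M *ᵥ z = P' *ᵥ (N *ᵥ (P *ᵥ z)) := by
      intro z
      rw [hM, Matrix.mulVec_mulVec, Matrix.mulVec_mulVec, Matrix.mul_assoc]
    have hNM : N = P * M * P' := by
      rw [hM]
      calc N = (P * P') * N * (P * P') := by simp [hPP']
        _ = _ := by simp [Matrix.mul_assoc]
    have hD : M.toBlocks₂₁ = 0 := by
      apply Matrix.mulVec_injective
      funext x₁ j
      have h1 : P *ᵥ (Sum.elim x₁ 0) ∈ S := by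
        rw [hS]
        intro j
        rw [hP'Pv]
        rfl
      have h2 := (hg _).1 h1
      change N *ᵥ _ ∈ S at h2
      rw [hS, ← hMv] at h2
      have h3 := h2 j
      rw [← Matrix.fromBlocks_toBlocks M] at h3
      rw [Matrix.fromBlocks_mulVec] at h3
      simp at h3
      simpa using h3
    have hMf : ∀ z z', f₁ ((M *ᵥ z) ∘ Sum.inl) ((M *ᵥ z') ∘ Sum.inl) + f₂ ((M *ᵥ z) ∘ Sum.inr) ((M *ᵥ z') ∘ Sum.inr) =
        f₁ (z ∘ Sum.inl) (z' ∘ Sum.inl) + f₂ (z ∘ Sum.inr) (z' ∘ Sum.inr) := by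
      intro z z'
      rw [← H, ← H, hMv, hMv, hPP'v, hPP'v, hNf]
    -- `M` is invertible
    obtain ⟨uN, huN⟩ := hNu
    have hMinv : M * (P' * (↑uN⁻¹ : Matrix ι ι F) * P) = 1 := by
      calc M * (P' * (↑uN⁻¹ : Matrix ι ι F) * P) = P' * N * (P * P') * (↑uN⁻¹ : Matrix ι ι F) * P := by
            simp [hM, Matrix.mul_assoc]
        _ = P' * (N * (↑uN⁻¹ : Matrix ι ι F)) * P := by
            rw [hPP']
            simp [Matrix.mul_assoc]
        _ = 1 := by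
            rw [← huN, Units.mul_inv]
            simp [hP'P]
    have hdetM : M.det ≠ 0 := by
      intro h0
      have := congrArg Matrix.det hMinv
      rw [Matrix.det_mul, h0, zero_mul, Matrix.det_one] at this
      exact zero_ne_one this
    have hMb : M = Matrix.fromBlocks M.toBlocks₁₁ M.toBlocks₁₂ 0 M.toBlocks₂₂ := by
      rw [← hD, Matrix.fromBlocks_toBlocks]
    have hdet2 : M.det = M.toBlocks₁₁.det * M.toBlocks₂₂.det := by
      conv_lhs => rw [hMb]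
      rw [Matrix.det_fromBlocks_zero₂₁]
    have hdA : M.toBlocks₁₁.det ≠ 0 := fun h => hdetM (by rw [hdet2, h, zero_mul])
    have hdB : M.toBlocks₂₂.det ≠ 0 := fun h => hdetM (by rw [hdet2, h, mul_zero])
    have hMvb : ∀ z, M *ᵥ z = Sum.elim (M.toBlocks₁₁ *ᵥ (z ∘ Sum.inl) + M.toBlocks₁₂ *ᵥ (z ∘ Sum.inr)) (M.toBlocks₂₂ *ᵥ (z ∘ Sum.inr)) := by
      intro z
      conv_lhs => rw [hMb]
      rw [Matrix.fromBlocks_mulVec]
      simp
    have hC : M.toBlocks₁₂ = 0 := by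
      apply Matrix.mulVec_injective
      funext x₂
      rw [Matrix.zero_mulVec]
      apply h₁n
      intro w
      obtain ⟨y₁, hy₁⟩ : ∃ y₁, M.toBlocks₁₁ *ᵥ y₁ = w := by
        refine ⟨M.toBlocks₁₁⁻¹ *ᵥ w, ?_⟩
        rw [Matrix.mulVec_mulVec, Matrix.mul_nonsing_inv _ (Ne.isUnit hdA), Matrix.one_mulVec]
      have h1 := hMf (Sum.elim 0 x₂) (Sum.elim y₁ 0)
      rw [hMvb, hMvb] at h1
      have e1 : ∀ (a : ι₁ → F) (b : ι₂ → F), (Sum.elim a b) ∘ Sum.inl = a := fun a b => rfl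
      have e2 : ∀ (a : ι₁ → F) (b : ι₂ → F), (Sum.elim a b) ∘ Sum.inr = b := fun a b => rfl
      simp only [e1, e2, Matrix.mulVec_zero, add_zero, zero_add, h₁0, h₂0] at h1
      rw [hy₁] at h1
      exact h1
    have hMd : M = Matrix.fromBlocks M.toBlocks₁₁ 0 0 M.toBlocks₂₂ := by
      rw [← hC]
      exact hMb
    have hAiso : IsIsomM f₁ M.toBlocks₁₁ := by
      refine ⟨(Matrix.isUnit_iff_isUnit_det _).2 (Ne.isUnit hdA), fun x y => ?_⟩
      have h1 := hMf (Sum.elim x 0) (Sum.elim y 0)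
      rw [hMvb, hMvb] at h1
      have e1 : ∀ (a : ι₁ → F) (b : ι₂ → F), (Sum.elim a b) ∘ Sum.inl = a := fun a b => rfl
      have e2 : ∀ (a : ι₁ → F) (b : ι₂ → F), (Sum.elim a b) ∘ Sum.inr = b := fun a b => rfl
      simp only [e1, e2, Matrix.mulVec_zero, add_zero, h₂0, hC, Matrix.zero_mulVec] at h1
      exact h1
    have hBiso : IsIsomM f₂ M.toBlocks₂₂ := by
      refine ⟨(Matrix.isUnit_iff_isUnit_det _).2 (Ne.isUnit hdB), fun x y => ?_⟩
      have h1 := hMf (Sum.elim 0 x) (Sum.elim 0 y)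
      rw [hMvb, hMvb] at h1
      have e1 : ∀ (a : ι₁ → F) (b : ι₂ → F), (Sum.elim a b) ∘ Sum.inl = a := fun a b => rfl
      have e2 : ∀ (a : ι₁ → F) (b : ι₂ → F), (Sum.elim a b) ∘ Sum.inr = b := fun a b => rfl
      simp only [e1, e2, Matrix.mulVec_zero, zero_add, h₁0, hC, Matrix.zero_mulVec, add_zero] at h1
      exact h1
    obtain ⟨a, ha⟩ := (hr₁ _).2 hAiso
    obtain ⟨b, hb⟩ := (hr₂ _).2 hBiso
    refine ⟨(a, b), ?_⟩
    apply Subtype.ext
    apply hρ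
    show ρ (φ (a, b)) = ρ g
    rw [hφ]
    simp only [Nm, Blk]
    rw [ha, hb, ← hMd, ← hNM]
  exact ⟨(MulEquiv.ofBijective Φ ⟨hinj, hsurj⟩).symm⟩

section Basis

variable (b : Module.Basis (ι₁ ⊕ ι₂) F (ι → F))

/-- The matrix whose columns are the basis vectors. -/
noncomputable def matP : Matrix ι (ι₁ ⊕ ι₂) F := (Pi.basisFun F ι).toMatrix b

/-- The inverse matrix. -/
noncomputable def matP' : Matrix (ι₁ ⊕ ι₂) ι F := b.toMatrix (Pi.basisFun F ι)

theorem matP_mul : matP b * matP' b = 1 := Module.Basis.toMatrix_mul_toMatrix_flip _ _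

theorem matP'_mul : matP' b * matP b = 1 := Module.Basis.toMatrix_mul_toMatrix_flip _ _

theorem matP'_mulVec (v : ι → F) : matP' b *ᵥ v = b.repr v := by
  have h := Module.Basis.toMatrix_mulVec_repr (Pi.basisFun F ι) b v
  have e : ⇑((Pi.basisFun F ι).repr v) = v := by
    ext i
    simp
  rw [e] at h
  exact h

theorem matP_mulVec (x : ι₁ ⊕ ι₂ → F) : matP b *ᵥ x = ∑ s, x s • b s := by
  have h1 := Module.Basis.toMatrix_mulVec_repr b (Pi.basisFun F ι) (∑ s, x s • b s)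
  have h2 : ⇑(b.repr (∑ s, x s • b s)) = x := b.repr_sum_self x
  have e : ⇑((Pi.basisFun F ι).repr (∑ s, x s • b s)) = ∑ s, x s • b s := by
    ext i
    simp
  rw [h2, e] at h1
  exact h1

theorem mem_iff_coord (S : Submodule F (ι → F)) (hle : ∀ i, b (Sum.inl i) ∈ S) (hfin : Module.finrank F S = Fintype.card ι₁)
    (v : ι → F) : v ∈ S ↔ ∀ j, (matP' b *ᵥ v) (Sum.inr j) = 0 := by
  classical
  rw [matP'_mulVec]
  have hli : LinearIndependent F (fun i => b (Sum.inl i) : ι₁ → ι → F) :=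
    b.linearIndependent.comp Sum.inl Sum.inl_injective
  have hspan : Submodule.span F (Set.range (fun i => b (Sum.inl i) : ι₁ → ι → F)) = S := by
    apply Submodule.eq_of_le_of_finrank_eq
    · rw [Submodule.span_le]
      rintro _ ⟨i, rfl⟩
      exact hle i
    · rw [finrank_span_eq_card hli, hfin]
  constructor
  · intro hv j
    rw [← hspan] at hv
    induction hv using Submodule.span_induction with
    | mem x hx =>
      obtain ⟨i, rfl⟩ := hx
      simp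
    | zero => simp
    | add x y _ _ h1 h2 => simp [h1, h2]
    | smul c x _ h1 => simp [h1]
  · intro h
    rw [← b.sum_repr v, Fintype.sum_sum_type]
    simp only [h, zero_smul, Finset.sum_const_zero, add_zero]
    exact S.sum_mem fun i _ => S.smul_mem _ (hle i)

/-- Expansion of a sesquilinear form along a family. -/
theorem gram_expand {κ : Type} [Fintype κ] {V : Type*} [AddCommGroup V] [Module F V] (σ : F →+* F) (B : V →ₗ[F] V →ₛₗ[σ] F)
    (v : κ → V) (x y : κ → F) :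
    B (∑ s, x s • v s) (∑ t, y t • v t) = ∑ s, ∑ t, x s * (B (v s) (v t) * σ (y t)) := by
  simp only [map_sum, LinearMap.sum_apply, map_smul, LinearMap.smul_apply, smul_eq_mul, map_smulₛₗ]
  simp only [Finset.mul_sum]
  refine Eq.trans Finset.sum_comm ?_
  refine Finset.sum_congr rfl fun s _ => ?_
  refine Finset.sum_congr rfl fun t _ => ?_
  ring

end Basis

section Complement

variable {V : Type*} [AddCommGroup V] [Module F V]

open Cfsg.Agent.Lib.FormClass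

/-- The orthogonal complement on the right. -/
def orthR {σ : F →+* F} (B : V →ₛₗ[σ] V →ₗ[F] F) (W : Submodule F V) : Submodule F V where
  carrier := {x | ∀ w ∈ W, B w x = 0}
  add_mem' := fun {a b} ha hb w hw => by rw [map_add, ha w hw, hb w hw, add_zero]
  zero_mem' := fun w _ => map_zero _
  smul_mem' := fun c x hx w hw => by rw [map_smul, hx w hw, smul_zero]

theorem mem_orthR {σ : F →+* F} {B : V →ₛₗ[σ] V →ₗ[F] F} {W : Submodule F V} {x : V} :
    x ∈ orthR B W ↔ ∀ w ∈ W, B w x = 0 := Iff.rfl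

theorem orth_compl [FiniteDimensional F V] {σ : F →+* F} {B : V →ₛₗ[σ] V →ₗ[F] F} (hsym : ∀ x y, B x y = 0 → B y x = 0)
    (hN : ∀ x, (∀ v, B x v = 0) → x = 0) {W : Submodule F V} (hW : NondegOn B W) :
    Module.finrank F (orthR B W) + Module.finrank F W = Module.finrank F V ∧ W ⊓ orthR B W = ⊥ ∧ W ⊔ orthR B W = ⊤ ∧
      NondegOn B (orthR B W) := by
  classical
  have hinf : W ⊓ orthR B W = ⊥ := by
    rw [eq_bot_iff]
    rintro x ⟨hx1, hx2⟩
    exact (Submodule.mem_bot F).2 (hW x hx1 (fun y hy => hsym _ _ (hx2 y hy)))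
  -- the dimension
  set k := Module.finrank F W with hk
  let bW := Module.finBasisOfFinrankEq F W hk.symm
  let L : V →ₗ[F] (Fin k → F) := LinearMap.pi (fun i => B (bW i : V))
  have hker : LinearMap.ker L ≤ orthR B W := by
    intro x hx w hw
    have h1 : ∀ i, B (bW i : V) x = 0 := fun i => congrFun (LinearMap.mem_ker.1 hx) i
    have h2 : w = ∑ i, (bW.repr ⟨w, hw⟩ i) • (bW i : V) := by
      have h3 : ((∑ i, bW.repr ⟨w, hw⟩ i • bW i : W) : V) = w := congrArg Subtype.val (bW.sum_repr ⟨w, hw⟩)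
      rw [AddSubmonoidClass.coe_finset_sum] at h3
      simp only [Submodule.coe_smul] at h3
      exact h3.symm
    rw [h2]
    simp only [map_sum, LinearMap.sum_apply, map_smulₛₗ, LinearMap.smul_apply, h1, smul_zero, Finset.sum_const_zero]
  have h1 := LinearMap.finrank_range_add_finrank_ker L
  have h2 : Module.finrank F (LinearMap.range L) ≤ k := by
    have := Submodule.finrank_le (LinearMap.range L)
    simpa using this
  have h3 := Submodule.finrank_mono hker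
  have h4 := Submodule.finrank_sup_add_finrank_inf_eq W (orthR B W)
  rw [hinf, finrank_bot] at h4
  have h5 := Submodule.finrank_le (W ⊔ orthR B W)
  have hsup : W ⊔ orthR B W = ⊤ := by
    apply Submodule.eq_top_of_finrank_eq
    omega
  refine ⟨by omega, hinf, hsup, ?_⟩
  intro x hx hall
  apply hN
  intro v
  obtain ⟨a, ha, c, hc, rfl⟩ := Submodule.mem_sup.1 (show v ∈ W ⊔ orthR B W by rw [hsup]; trivial)
  rw [map_add, hall c hc, add_zero]
  exact hsym _ _ (hx a ha)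

end Complement

section Sp

open Cfsg.Agent.Lib.ClassGeom Cfsg.Agent.Lib.SymplecticTv

theorem sp_range (m : ℕ) (N : Matrix (Fin m ⊕ Fin m) (Fin m ⊕ Fin m) F) :
    N ∈ Set.range (spToMat m F) ↔ IsIsomM (sympForm m F) N := by
  constructor
  · rintro ⟨A, rfl⟩
    refine ⟨⟨⟨A.1, (A⁻¹).1, ?_, ?_⟩, rfl⟩, (mem_sp_iff_pres A.1).1 A.2⟩
    · exact congrArg Subtype.val (mul_inv_cancel A)
    · exact congrArg Subtype.val (inv_mul_cancel A)
  · intro h
    exact ⟨⟨N, (mem_sp_iff_pres N).2 h.2⟩, rfl⟩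

theorem sp_gram {V : Type*} [AddCommGroup V] [Module F V] {n : ℕ} (B : LinearMap.BilinForm F V)
    (hskew : ∀ x y, B x y = - B y x) (e f : Fin n → V)
    (hef : ∀ i j, B (e i) (f j) = if i = j then 1 else 0) (hee : ∀ i j, B (e i) (e j) = 0)
    (hff : ∀ i j, B (f i) (f j) = 0) (s t : Fin n ⊕ Fin n) :
    B (Sum.elim f e s) (Sum.elim f e t) = Matrix.J (Fin n) F s t := by
  rcases s with i | i <;> rcases t with j | j <;> simp only [Sum.elim_inl, Sum.elim_inr, Matrix.J,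
    Matrix.fromBlocks_apply₁₁, Matrix.fromBlocks_apply₁₂, Matrix.fromBlocks_apply₂₁, Matrix.fromBlocks_apply₂₂]
  · simp [hff]
  · rw [hskew, hef, Matrix.neg_apply, Matrix.one_apply]
    simp [eq_comm]
  · rw [hef, Matrix.one_apply]
  · simp [hee]

theorem sympForm_double (n : ℕ) (a c : Fin n ⊕ Fin n → F) :
    sympForm n F a c = ∑ s, ∑ t, a s * (Matrix.J (Fin n) F s t * c t) := by
  simp only [sympForm, dotProduct, Matrix.mulVec, Finset.mul_sum]

end Sp

theorem block_sum (G₁ : Matrix ι₁ ι₁ F) (G₂ : Matrix ι₂ ι₂ F) (σ : F →+* F) (x y : ι₁ ⊕ ι₂ → F) :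
    ∑ s, ∑ t, x s * ((Matrix.fromBlocks G₁ 0 0 G₂) s t * σ (y t)) =
      (∑ s, ∑ t, x (Sum.inl s) * (G₁ s t * σ (y (Sum.inl t)))) +
        (∑ s, ∑ t, x (Sum.inr s) * (G₂ s t * σ (y (Sum.inr t)))) := by
  rw [Fintype.sum_sum_type]
  congr 1
  · refine Finset.sum_congr rfl fun s _ => ?_
    rw [Fintype.sum_sum_type]
    simp
  · refine Finset.sum_congr rfl fun s _ => ?_
    rw [Fintype.sum_sum_type]
    simp

end Cfsg.Agent.Lib.StabProd
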