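import Mathlib
import Cfsg.Prelude
import Cfsg.Agent.Lib.Comps
import Cfsg.Agent.Lib.Layer
import Cfsg.Agent.Lib.H2Basic

/-!
# Standard subgroups
-/

set_option autoImplicit false
set_option linter.all false

namespace Cfsg.Agent.Lib.Standard

open Subgroup Cfsg Cfsg.Agent.Lib.Layer Cfsg.Agent.Lib.Comps Cfsg.Agent.Lib.H2Basic

section

variable {G : Type*} [Group G]

theorem isComponent_subgroupOf_conj {L H : Subgroup G} (g : G)
    (h : IsComponent (L.subgroupOf H)) (hLH : L ≤ H) :
    IsComponent ((L.map (MulAut.conj g).toMonoidHom).subgroupOf (H.map (MulAut.conj g).toMonoidHom)) := by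
  let e : ↥H ≃* ↥(H.map (MulAut.conj g).toMonoidHom) := H.equivMapOfInjective _ (MulAut.conj g).injective
  have h1 := isComponent_map e h
  have h2 : (L.subgroupOf H).map e.toMonoidHom =
      (L.map (MulAut.conj g).toMonoidHom).subgroupOf (H.map (MulAut.conj g).toMonoidHom) := by
    ext ⟨x, hx⟩
    constructor
    · rintro ⟨u, hu, hue⟩
      have h3 : (MulAut.conj g) (u : G) = x := congrArg Subtype.val hue
      exact ⟨u, hu, h3⟩
    · rintro ⟨u, hu, hue⟩
      refine ⟨⟨u, hLH hu⟩, hu, ?_⟩
      apply Subtype.ext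
      exact hue
  rwa [h2] at h1

theorem centralizer_conj_singleton (g y : G) :
    (centralizer ({y} : Set G)).map (MulAut.conj g).toMonoidHom = centralizer ({g * y * g⁻¹} : Set G) := by
  ext z
  rw [mem_map_conj_iff, Subgroup.mem_centralizer_singleton_iff, Subgroup.mem_centralizer_singleton_iff]
  constructor
  · intro h
    calc z * (g * y * g⁻¹) = g * ((g⁻¹ * z * g) * y) * g⁻¹ := by group
      _ = g * (y * (g⁻¹ * z * g)) * g⁻¹ := by rw [h]
      _ = _ := by group
  · intro h
    calc g⁻¹ * z * g * y = g⁻¹ * (z * (g * y * g⁻¹)) * g := by group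
      _ = g⁻¹ * ((g * y * g⁻¹) * z) * g := by rw [h]
      _ = _ := by group

theorem centralizer_conj (g : G) (L : Subgroup G) :
    (centralizer (L : Set G)).map (MulAut.conj g).toMonoidHom =
      centralizer ((L.map (MulAut.conj g).toMonoidHom : Subgroup G) : Set G) := by
  ext z
  rw [mem_map_conj_iff, Subgroup.mem_centralizer_iff, Subgroup.mem_centralizer_iff]
  constructor
  · rintro h _ ⟨l, hl, rfl⟩
    have h1 := h l hl
    show g * l * g⁻¹ * z = z * (g * l * g⁻¹)
    calc g * l * g⁻¹ * z = g * (l * (g⁻¹ * z * g)) * g⁻¹ := by group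
      _ = g * ((g⁻¹ * z * g) * l) * g⁻¹ := by rw [h1]
      _ = _ := by group
  · intro h l hl
    have h1 := h (g * l * g⁻¹) (conj_mem_map_conj g hl)
    calc l * (g⁻¹ * z * g) = g⁻¹ * ((g * l * g⁻¹) * z) * g := by group
      _ = g⁻¹ * (z * (g * l * g⁻¹)) * g := by rw [h1]
      _ = _ := by group

variable [Finite G]

/-- an involution centralizing `L` and a conjugate forces the conjugate to be `L` -/
theorem conj_eq_of_comm (L : Subgroup G)
    (hne : ∀ y : G, orderOf y = 2 → y ∈ centralizer (L : Set G) → L ≤ centralizer ({y} : Set G) ∧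
      IsComponent (L.subgroupOf (centralizer ({y} : Set G))))
    (hnc : ∀ g : G, L.map (MulAut.conj g).toMonoidHom ≠ L → ⁅L, L.map (MulAut.conj g).toMonoidHom⁆ ≠ ⊥)
    {y : G} (hy : orderOf y = 2) (g : G) (h1 : y ∈ centralizer (L : Set G))
    (h2 : y ∈ centralizer ((L.map (MulAut.conj g).toMonoidHom : Subgroup G) : Set G)) :
    L.map (MulAut.conj g).toMonoidHom = L := by
  classical
  by_contra hcon
  apply hnc g hcon
  set y₁ := g⁻¹ * y * g with hy₁
  have hy₁o : orderOf y₁ = 2 := by
    have : y₁ = (MulAut.conj g⁻¹) y := by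
      simp [hy₁, MulAut.conj_apply]
    rw [this, MulEquiv.orderOf_eq, hy]
  have hy₁C : y₁ ∈ centralizer (L : Set G) := by
    rw [← centralizer_conj] at h2
    exact (mem_map_conj_iff _ _ _).1 h2
  obtain ⟨hL1, hL2⟩ := hne y₁ hy₁o hy₁C
  obtain ⟨hL3, hL4⟩ := hne y hy h1
  have hgy : g * y₁ * g⁻¹ = y := by
    rw [hy₁]
    group
  have h3 := isComponent_subgroupOf_conj g hL2 hL1
  rw [centralizer_conj_singleton, hgy] at h3
  have hL5 : L.map (MulAut.conj g).toMonoidHom ≤ centralizer ({y} : Set G) := by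
    rw [← hgy, ← centralizer_conj_singleton]
    exact Subgroup.map_mono hL1
  rcases comp_comm_comp hL4 h3 with h5 | h5
  · exfalso
    apply hcon
    have h6 := congrArg (fun K : Subgroup ↥(centralizer ({y} : Set G)) => K.map (centralizer ({y} : Set G)).subtype) h5
    simp only [Subgroup.map_subgroupOf_eq_of_le hL3, Subgroup.map_subgroupOf_eq_of_le hL5] at h6
    exact h6.symm
  · rw [eq_bot_iff, Subgroup.commutator_le]
    intro a ha b hb
    have h7 : (⟨a, hL3 ha⟩ : ↥(centralizer ({y} : Set G))) ∈ L.subgroupOf (centralizer ({y} : Set G)) := ha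
    have h8 : (⟨b, hL5 hb⟩ : ↥(centralizer ({y} : Set G))) ∈
        (L.map (MulAut.conj g).toMonoidHom).subgroupOf (centralizer ({y} : Set G)) := hb
    have h9 := Subgroup.commutator_mem_commutator h7 h8
    rw [h5] at h9
    have h10 := congrArg Subtype.val ((Subgroup.mem_bot).1 h9)
    exact (Subgroup.mem_bot).2 h10

/-- S1306 -/
theorem standard_of_components (x : G) (hx : orderOf x = 2) (L : Subgroup G)
    (hLx : L ≤ centralizer ({x} : Set G)) (hL : IsComponent (L.subgroupOf (centralizer ({x} : Set G))))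
    (hne : ∀ y : G, orderOf y = 2 → y ∈ centralizer (L : Set G) → L ≤ centralizer ({y} : Set G) ∧
      IsComponent (L.subgroupOf (centralizer ({y} : Set G))))
    (hnc : ∀ g : G, L.map (MulAut.conj g).toMonoidHom ≠ L → ⁅L, L.map (MulAut.conj g).toMonoidHom⁆ ≠ ⊥) :
    IsStandardSubgroup L := by
  classical
  have hxC : x ∈ centralizer (L : Set G) := by
    apply Subgroup.mem_centralizer_iff.2
    intro l hl
    exact Subgroup.mem_centralizer_singleton_iff.1 (hLx hl)
  have hxg : ∀ g : G, g * x * g⁻¹ ∈ centralizer ((L.map (MulAut.conj g).toMonoidHom : Subgroup G) : Set G) := by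
    intro g
    rw [← centralizer_conj]
    exact conj_mem_map_conj g hxC
  have hxo : ∀ g : G, orderOf (g * x * g⁻¹) = 2 := by
    intro g
    have : g * x * g⁻¹ = (MulAut.conj g) x := by
      simp [MulAut.conj_apply]
    rw [this, MulEquiv.orderOf_eq, hx]
  refine ⟨isQuasisimple_congr (Subgroup.subgroupOfEquivOfLe hLx) hL.2, ⟨?_, ?_⟩, hnc, ?_⟩
  · rw [even_iff_two_dvd, ← hx]
    exact Subgroup.orderOf_dvd_natCard _ hxC
  · intro g hg
    by_contra hodd
    rw [Nat.not_odd_iff_even, even_iff_two_dvd] at hodd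
    haveI : Fact (Nat.Prime 2) := ⟨Nat.prime_two⟩
    obtain ⟨y, hy⟩ := exists_prime_orderOf_dvd_card' 2 hodd
    have hy' : orderOf (y : G) = 2 := by
      rw [← Subgroup.orderOf_coe] at hy
      exact hy
    have h1 : (y : G) ∈ centralizer (L : Set G) := y.2.1
    have h2 : (y : G) ∈ centralizer ((L.map (MulAut.conj g).toMonoidHom : Subgroup G) : Set G) := by
      rw [← centralizer_conj]
      exact y.2.2
    have h3 := conj_eq_of_comm L hne hnc hy' g h1 h2
    apply hg
    apply mem_normalizer_of_map_conj_eq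
    rw [centralizer_conj, h3]
  · apply le_antisymm
    · intro g hg
      apply mem_normalizer_of_map_conj_eq
      rw [centralizer_conj, map_conj_eq_of_mem_normalizer hg]
    · intro g hg
      have h1 : g * x * g⁻¹ ∈ centralizer (L : Set G) := by
        have h2 := map_conj_eq_of_mem_normalizer hg
        rw [← h2]
        exact conj_mem_map_conj g hxC
      have h3 := conj_eq_of_comm L hne hnc (hxo g) g h1 (hxg g)
      exact mem_normalizer_of_map_conj_eq h3

end

end Cfsg.Agent.Lib.Standard
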