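import Cfsg.Agent.Lib.SteinerUnique
import Cfsg.Prelude.Def_Sporadic
import Cfsg.Agent.Lib.GolayOctad
import Cfsg.Agent.Lib.GolayTrans
import Cfsg.Agent.Lib.GolaySimple
import Cfsg.Agent.Lib.GolayM12

/-!
# Automorphism groups of `S(5,8,24)` and `S(4,7,23)`
-/

set_option autoImplicit false
set_option linter.constructorNameAsVariable false

open scoped Pointwise

namespace Cfsg.Agent.Lib.SteinerAut

open Cfsg Cfsg.Agent.Lib.GolayCode Cfsg.Agent.Lib.GolayFacts Cfsg.Agent.Lib.GolayFast
  Cfsg.Agent.Lib.GolayFastData Cfsg.Agent.Lib.GolaySets Cfsg.Agent.Lib.SteinerSearch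
  Cfsg.Agent.Lib.SteinerBasic Cfsg.Agent.Lib.SteinerNums Cfsg.Agent.Lib.SteinerLift
  Cfsg.Agent.Lib.SteinerIso Cfsg.Agent.Lib.SteinerUnique Finset

def bas1Dec : List (List ℕ) :=
  [[1053483, 3277413, 3719203, 4424227, 6053905],
   [924689, 1053483, 4721045, 6053905],
   [924689, 1053483, 3277413, 3719203],
   [1053483, 3277413, 4424227, 4721045],
   [924689, 3277413, 3719203, 4424227, 4721045, 6053905],
   [3277413, 4721045, 6053905],
   [924689, 3277413, 3719203, 4721045],
   [459847, 3277413, 3719203, 4721045, 6053905],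
   [924689, 2269481, 4424227, 6053905],
   [924689, 1053483, 3719203, 4223245],
   [689317, 1053483, 4424227, 4721045, 6053905],
   [1053483, 3277413, 4424227, 6053905, 12717187]]

section transport

variable {X Y : Type*} [DecidableEq X] [DecidableEq Y]

theorem smul_image_permCongr (e : X ≃ Y) (σ : Equiv.Perm X) (s : Finset X) :
    (e.permCongr σ) • (s.image e) = (σ • s).image e := by
  ext y
  simp only [Finset.mem_smul_finset, Finset.mem_image, Equiv.Perm.smul_def]
  constructor
  · rintro ⟨_, ⟨x, hx, rfl⟩, rfl⟩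
    refine ⟨σ x, ⟨x, hx, rfl⟩, ?_⟩
    simp [Equiv.permCongr_apply]
  · rintro ⟨_, ⟨x, hx, rfl⟩, rfl⟩
    refine ⟨e x, ⟨x, hx, rfl⟩, ?_⟩
    simp [Equiv.permCongr_apply]

/-- Transport of the automorphism group. -/
theorem map_aut (e : X ≃ Y) (F : Set (Finset X)) :
    (setSystemAut F).map (e.permCongrHom.toMonoidHom) =
      setSystemAut ((fun s => s.image e) '' F) := by
  have key : ∀ σ : Equiv.Perm X, σ ∈ setSystemAut F ↔
      e.permCongr σ ∈ setSystemAut ((fun s => s.image e) '' F) := by
    intro σ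
    simp only [MulAction.mem_stabilizer_iff]
    constructor
    · intro h
      ext t
      simp only [Set.mem_smul_set, Set.mem_image]
      constructor
      · rintro ⟨_, ⟨s, hs, rfl⟩, rfl⟩
        rw [smul_image_permCongr]
        refine ⟨σ • s, ?_, rfl⟩
        rw [← h]
        exact Set.smul_mem_smul_set hs
      · rintro ⟨s, hs, rfl⟩
        rw [← h] at hs
        obtain ⟨s', hs', rfl⟩ := hs
        exact ⟨_, ⟨s', hs', rfl⟩, smul_image_permCongr e σ s'⟩
    · intro h
      ext s
      have himg : Function.Injective (fun s : Finset X => s.image e) :=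
        Finset.image_injective e.injective
      constructor
      · rintro ⟨s', hs', rfl⟩
        have h1 : (fun s : Finset X => s.image e) (σ • s') ∈ (fun s : Finset X => s.image e) '' F := by
          rw [← h]
          refine ⟨_, ⟨s', hs', rfl⟩, ?_⟩
          exact smul_image_permCongr e σ s'
        obtain ⟨s'', hs'', he⟩ := h1
        rwa [himg he] at hs''
      · intro hs
        have h1 : (fun s : Finset X => s.image e) s ∈ (fun s : Finset X => s.image e) '' F := ⟨s, hs, rfl⟩
        rw [← h] at h1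
        obtain ⟨_, ⟨s', hs', rfl⟩, he⟩ := h1
        refine ⟨s', hs', ?_⟩
        apply himg
        exact (smul_image_permCongr e σ s').symm.trans he
  ext τ
  simp only [Subgroup.mem_map]
  constructor
  · rintro ⟨σ, hσ, rfl⟩
    exact (key σ).mp hσ
  · intro hτ
    refine ⟨e.symm.permCongr τ, ?_, ?_⟩
    · rw [key]
      have : e.permCongr (e.symm.permCongr τ) = τ := by
        ext y
        simp [Equiv.permCongr_apply]
      rw [this]
      exact hτ
    · ext y
      show e.permCongr (e.symm.permCongr τ) y = τ y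
      simp [Equiv.permCongr_apply]

end transport

variable {α : Type*} [Fintype α] [DecidableEq α] {B : Set (Finset α)}

/-- `M24` is equal to the automorphism group of the octads. -/
theorem aut_M24_eq : setSystemAut octads = M24 := Cfsg.Agent.Lib.GolayOctad.M24_eq_setSystemAut.symm

/-- An isomorphism of `α` with the standard points carrying octads to blocks, for an `S(5,8,24)`. -/
theorem exists_equiv0 (hα : Fintype.card α = 24) (hB : IsSteinerSystem 5 8 B) :
    ∃ e : GolayPt ≃ α, (fun s : Finset GolayPt => s.image e) '' octads = B := by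
  obtain ⟨e, h1, _⟩ := label0 hα hB
  let e0 : GolayPt ≃ α := e.trans (Equiv.sumEmpty α (Fin 0))
  have hstd : stdSet 0 = octads := by
    ext o
    simp [stdSet]
  rw [hstd] at h1
  have hrel : ∀ s : Finset GolayPt, s.image e = liftB 0 (s.image e0) := by
    intro s
    ext x
    rcases x with a | j
    · simp only [liftB, Finset.inl_mem_disjSum, Finset.mem_image]
      constructor
      · rintro ⟨p, hp, he⟩
        refine ⟨p, hp, ?_⟩
        show (Equiv.sumEmpty α (Fin 0)) (e p) = a
        rw [he]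
        rfl
      · rintro ⟨p, hp, he⟩
        refine ⟨p, hp, ?_⟩
        have : (Equiv.sumEmpty α (Fin 0)) (e p) = a := he
        rw [← this]
        rcases h : e p with b | j
        · rfl
        · exact j.elim0
    · exact j.elim0
  refine ⟨e0, ?_⟩
  ext b
  constructor
  · rintro ⟨o, ho, rfl⟩
    have h2 : o.image e ∈ liftB 0 '' B := by
      rw [← h1]
      exact ⟨o, ho, rfl⟩
    obtain ⟨c, hc, hce⟩ := h2
    rw [hrel] at hce
    have := liftB_inj hce
    show o.image e0 ∈ B
    rw [← this]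
    exact hc
  · intro hb
    have h2 : liftB 0 b ∈ liftB 0 '' B := ⟨b, hb, rfl⟩
    rw [← h1] at h2
    obtain ⟨o, ho, he⟩ := h2
    refine ⟨o, ho, ?_⟩
    have he' : o.image e = liftB 0 b := he
    rw [hrel] at he'
    exact liftB_inj he'

/-- The automorphism group of an `S(5,8,24)`. -/
theorem aut0 (hα : Fintype.card α = 24) (hB : IsSteinerSystem 5 8 B) :
    IsM24 (setSystemAut B) ∧ MulAction.IsMultiplyPretransitive (setSystemAut B) α 5 := by
  obtain ⟨e, rfl⟩ := exists_equiv0 hα hB
  have hmap := map_aut e octads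
  rw [aut_M24_eq] at hmap
  have hinj : Function.Injective (e.permCongrHom.toMonoidHom) := e.permCongrHom.injective
  let Φ : M24 ≃* M24.map e.permCongrHom.toMonoidHom := M24.equivMapOfInjective _ hinj
  let Ψ : M24 ≃* setSystemAut ((fun s => s.image e) '' octads) :=
    Φ.trans (MulEquiv.subgroupCongr hmap)
  refine ⟨⟨?_, ?_⟩, ?_⟩
  · haveI : IsSimpleGroup M24 := Cfsg.Agent.Lib.GolaySimple.isSimple_G0
    exact Ψ.symm.isSimpleGroup
  · rw [← Nat.card_congr Ψ.toEquiv]
    exact Cfsg.Agent.Lib.GolayChain.card_M24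
  · refine ⟨fun x y => ?_⟩
    haveI := Cfsg.Agent.Lib.GolayTrans.isMultiplyPretransitive_M24
    obtain ⟨g, hg⟩ := MulAction.exists_smul_eq M24 (x.trans e.symm.toEmbedding) (y.trans e.symm.toEmbedding)
    refine ⟨Ψ g, ?_⟩
    ext i
    have h1 := congrArg (fun z : Fin 5 ↪ GolayPt => z i) hg
    have h2 : (g : Equiv.Perm GolayPt) (e.symm (x i)) = e.symm (y i) := h1
    show (Ψ g : Equiv.Perm α) (x i) = y i
    show e.permCongr (g : Equiv.Perm GolayPt) (x i) = y i
    rw [Equiv.permCongr_apply, h2]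
    simp

/-- The symmetric difference of two blocks meeting in four points is a block. -/
theorem symmDiff_block (hα : Fintype.card α = 24) (hB : IsSteinerSystem 5 8 B) {b c : Finset α} (hb : b ∈ B)
    (hc : c ∈ B) (h4 : (b ∩ c).card = 4) : symmDiff b c ∈ B := by
  let Y := sys0 hα hB
  have h1 : liftB 0 b ∈ Y.Code := bl_code (Y := Y) ⟨b, hb, rfl⟩
  have h2 : liftB 0 c ∈ Y.Code := bl_code (Y := Y) ⟨c, hc, rfl⟩
  have h3 := code_add h1 h2
  have hl : symmDiff (liftB 0 b) (liftB 0 c) = liftB 0 (symmDiff b c) := by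
    ext x
    rcases x with a | j
    · simp [liftB, Finset.mem_symmDiff]
    · exact j.elim0
  rw [hl] at h3
  have hcard : (liftB 0 (symmDiff b c)).card = 8 := by
    rw [card_liftB]
    have := card_symmDiff_add b c
    have h5 : (symmDiff b c).card + 2 * (b ∩ c).card = b.card + c.card := this
    rw [h4, hB.1 b hb, hB.1 c hc] at h5
    omega
  have h6 : liftB 0 (symmDiff b c) ∈ Y.Bl := by
    refine wt8_mem h3 hcard ?_ (by show 0 ≤ 5; norm_num)
    intro x hx
    have : x ∈ (∅ : Finset α).disjSum (Finset.univ : Finset (Fin 0)) := hx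
    rcases x with a | j
    · simp at this
    · exact j.elim0
  obtain ⟨d, hd, hde⟩ := h6
  rw [← liftB_inj hde]
  exact hd

/-- Restricting a permutation fixing the extra points. -/
theorem exists_restrict {z : ℕ} (ρ : Equiv.Perm (α ⊕ Fin z)) (hρ : ∀ j, ρ (Sum.inr j) = Sum.inr j) :
    ∃ τ : Equiv.Perm α, ρ = Equiv.sumCongr τ 1 := by
  have hL : ∀ a : α, ∃ b : α, ρ (Sum.inl a) = Sum.inl b := by
    intro a
    rcases h : ρ (Sum.inl a) with b | j
    · exact ⟨b, rfl⟩
    · exfalso
      have := ρ.injective (h.trans (hρ j).symm)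
      exact absurd this (by simp)
  choose φ hφ using hL
  have hφinj : Function.Injective φ := by
    intro a b hab
    have : ρ (Sum.inl a) = ρ (Sum.inl b) := by rw [hφ, hφ, hab]
    exact Sum.inl_injective (ρ.injective this)
  let τ : Equiv.Perm α := Equiv.ofBijective φ (Finite.injective_iff_bijective.mp hφinj)
  refine ⟨τ, ?_⟩
  ext x
  rcases x with a | j
  · rw [hφ]
    rfl
  · rw [hρ]
    rfl

theorem mem_aut_of_forall {τ : Equiv.Perm α} (h : ∀ b ∈ B, τ • b ∈ B) : τ ∈ setSystemAut B := by
  rw [MulAction.mem_stabilizer_iff]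
  apply Set.eq_of_subset_of_ncard_le
  · rintro _ ⟨b, hb, rfl⟩
    exact h b hb
  · rw [Set.ncard_smul_set]
  · exact Set.toFinite _

def xorL (l : List ℕ) : ℕ := l.foldr (· ^^^ ·) 0

theorem bas1Dec_ok : (List.range 12).all (fun j => xorL (bas1Dec.getD j []) == bas j &&
    (bas1Dec.getD j []).all (fun m => octadsL.contains m && m.testBit 0)) = true := by
  decide +kernel

theorem smul_symmDiff_finset (σ : Equiv.Perm GolayPt) (a b : Finset GolayPt) :
    σ • symmDiff a b = symmDiff (σ • a) (σ • b) := by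
  ext x
  simp only [Finset.mem_symmDiff, Finset.mem_smul_finset, Equiv.Perm.smul_def]
  constructor
  · rintro ⟨y, hy | hy, rfl⟩
    · refine Or.inl ⟨⟨y, hy.1, rfl⟩, ?_⟩
      rintro ⟨w, hw, he⟩
      rw [σ.injective he] at hw
      exact hy.2 hw
    · refine Or.inr ⟨⟨y, hy.1, rfl⟩, ?_⟩
      rintro ⟨w, hw, he⟩
      rw [σ.injective he] at hw
      exact hy.2 hw
  · rintro (⟨⟨y, hy, rfl⟩, h2⟩ | ⟨⟨y, hy, rfl⟩, h2⟩)
    · exact ⟨y, Or.inl ⟨hy, fun hh => h2 ⟨y, hh, rfl⟩⟩, rfl⟩
    · exact ⟨y, Or.inr ⟨hy, fun hh => h2 ⟨y, hh, rfl⟩⟩, rfl⟩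

abbrev CSet : Set (Finset GolayPt) := supports (golayCode : Set (GolayPt → ZMod 2))

theorem supFin_zero_mem : supFin 0 ∈ CSet :=
  mem_supports_iff.mpr ⟨0, by norm_num, by rw [show spanMask 0 = 0 by decide +kernel]⟩

/-- Preserving the octads through a point forces membership in the group. -/
theorem mem_M24_of_std1 {σ : Equiv.Perm GolayPt} (h : ∀ o ∈ stdSet 1, σ • o ∈ stdSet 1) : σ ∈ M24 := by
  have Qz : σ • supFin 0 ∈ CSet := by
    have h0 : supFin 0 = ∅ := by
      ext p
      simp
    rw [h0, Finset.smul_finset_empty, ← h0]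
    exact supFin_zero_mem
  have Qx : ∀ a b, σ • supFin a ∈ CSet → σ • supFin b ∈ CSet → σ • supFin (a ^^^ b) ∈ CSet := by
    intro a b ha hb
    rw [supFin_xor, smul_symmDiff_finset]
    exact Cfsg.Agent.Lib.GolayM12.card_symmDiff_code ha hb
  have Qo : ∀ m ∈ octadsL, m.testBit 0 = true → σ • supFin m ∈ CSet := by
    intro m hm hb
    have h1 : supFin m ∈ stdSet 1 := by
      refine ⟨mem_octads_iff_L.mpr ⟨m, hm, rfl⟩, fun i hi => ?_⟩
      have : i = 0 := by omega
      subst this
      rw [mem_supFin, ptIdx_idxPt (by norm_num)]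
      exact hb
    exact (h _ h1).1.1
  have Ql : ∀ l : List ℕ, (∀ m ∈ l, m ∈ octadsL ∧ m.testBit 0 = true) → σ • supFin (xorL l) ∈ CSet := by
    intro l
    induction l with
    | nil =>
      intro _
      exact Qz
    | cons x l ih =>
      intro hl
      exact Qx _ _ (Qo x (hl x List.mem_cons_self).1 (hl x List.mem_cons_self).2)
        (ih fun m hm => hl m (List.mem_cons_of_mem _ hm))
  have Qb : ∀ j < 12, σ • supFin (bas j) ∈ CSet := by
    intro j hj
    have h1 := List.all_eq_true.mp bas1Dec_ok j (List.mem_range.mpr hj)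
    simp only [Bool.and_eq_true, beq_iff_eq, List.all_eq_true, List.contains_iff_mem] at h1
    rw [← h1.1]
    exact Ql _ h1.2
  have Qs : ∀ n ≤ 12, ∀ k, σ • supFin (spanAux n k) ∈ CSet := by
    intro n
    induction n with
    | zero =>
      intro _ k
      exact Qz
    | succ n ih =>
      intro hn k
      rw [spanAux]
      refine Qx _ _ ?_ (ih (by omega) k)
      split_ifs
      · exact Qb n (by omega)
      · exact Qz
  apply Cfsg.Agent.Lib.GolayOctad.mem_M24_of_octads
  intro o ho
  obtain ⟨k, hk, h8, rfl⟩ := mem_octads_iff.mp ho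
  refine ⟨Qs 12 (le_refl _) k, ?_⟩
  rw [Finset.card_smul_finset]
  exact ho.2

section one

variable {z : ℕ}

/-- Extending a permutation by the identity and transporting it. -/
def iota (e : GolayPt ≃ α ⊕ Fin z) : Equiv.Perm α →* Equiv.Perm GolayPt where
  toFun τ := e.symm.permCongr (Equiv.sumCongr τ 1)
  map_one' := by
    ext p
    simp [Equiv.permCongr_apply]
  map_mul' := by
    intro a b
    ext p
    simp only [Equiv.permCongr_apply, Equiv.Perm.coe_mul, Function.comp_apply]
    congr 1
    simp only [Equiv.symm_symm, Equiv.apply_symm_apply]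
    rcases e p with x | j <;> rfl

theorem iota_apply (e : GolayPt ≃ α ⊕ Fin z) (τ : Equiv.Perm α) (p : GolayPt) :
    e (iota e τ p) = Equiv.sumCongr τ 1 (e p) := by
  show e (e.symm.permCongr (Equiv.sumCongr τ 1) p) = _
  simp [Equiv.permCongr_apply]

theorem iota_injective (e : GolayPt ≃ α ⊕ Fin z) : Function.Injective (iota e) := by
  intro a b hab
  ext x
  have h1 := congrArg (fun σ : Equiv.Perm GolayPt => e (σ (e.symm (Sum.inl x)))) hab
  simp only [iota_apply, Equiv.apply_symm_apply] at h1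
  exact congrArg (fun y : α ⊕ Fin z => Sum.elim id (fun _ => x) y) h1

theorem image_iota_liftB (e : GolayPt ≃ α ⊕ Fin z) (τ : Equiv.Perm α) (b : Finset α) (o : Finset GolayPt)
    (ho : o.image e = liftB z b) : (iota e τ • o).image e = liftB z (τ • b) := by
  ext x
  simp only [Finset.mem_image, Finset.mem_smul_finset, Equiv.Perm.smul_def]
  rcases x with a | j
  · simp only [liftB, Finset.inl_mem_disjSum, Finset.mem_smul_finset, Equiv.Perm.smul_def]
    constructor
    · rintro ⟨_, ⟨p, hp, rfl⟩, he⟩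
      rw [iota_apply] at he
      rcases hpe : e p with c | j
      · rw [hpe] at he
        have hc : Sum.inl c ∈ liftB z b := by
          rw [← ho, ← hpe]
          exact Finset.mem_image_of_mem _ hp
        exact ⟨c, Finset.inl_mem_disjSum.mp hc, Sum.inl_injective he⟩
      · rw [hpe] at he
        exact absurd he (by simp)
    · rintro ⟨c, hc, rfl⟩
      have hc' : Sum.inl c ∈ o.image e := by
        rw [ho]
        exact Finset.inl_mem_disjSum.mpr hc
      obtain ⟨p, hp, hpe⟩ := Finset.mem_image.mp hc'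
      refine ⟨_, ⟨p, hp, rfl⟩, ?_⟩
      rw [iota_apply, hpe]
      rfl
  · simp only [liftB, Finset.inr_mem_disjSum, Finset.mem_univ, iff_true]
    have hc' : Sum.inr j ∈ o.image e := by
      rw [ho]
      exact Finset.inr_mem_disjSum.mpr (Finset.mem_univ _)
    obtain ⟨p, hp, hpe⟩ := Finset.mem_image.mp hc'
    refine ⟨_, ⟨p, hp, rfl⟩, ?_⟩
    rw [iota_apply, hpe]
    rfl

end one

theorem smul_mem_octads {σ : Equiv.Perm GolayPt} (hσ : σ ∈ M24) {o : Finset GolayPt} (ho : o ∈ octads) :
    σ • o ∈ octads := by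
  have h : σ ∈ setSystemAut octads := by rw [aut_M24_eq]; exact hσ
  rw [MulAction.mem_stabilizer_iff] at h
  rw [← h]
  exact Set.smul_mem_smul_set ho

/-- Elements of the group fixing the standard points preserve `stdSet z`. -/
theorem smul_mem_std {z : ℕ} {σ : Equiv.Perm GolayPt} (hσ : σ ∈ M24) (hfix : ∀ i < z, σ (idxPt i) = idxPt i)
    {o : Finset GolayPt} (ho : o ∈ stdSet z) : σ • o ∈ stdSet z := by
  refine ⟨smul_mem_octads hσ ho.1, fun i hi => ?_⟩
  rw [Finset.mem_smul_finset]
  exact ⟨_, ho.2 i hi, hfix i hi⟩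

section labeled

variable {z : ℕ} {e : GolayPt ≃ α ⊕ Fin z}

theorem label_fix (h2 : (Finset.range z).image (fun i => e (idxPt i)) = (∅ : Finset α).disjSum Finset.univ)
    {i : ℕ} (hi : i < z) : ∃ j, e (idxPt i) = Sum.inr j := by
  have h3 : e (idxPt i) ∈ (∅ : Finset α).disjSum (Finset.univ : Finset (Fin z)) := by
    rw [← h2]
    exact Finset.mem_image_of_mem _ (Finset.mem_range.mpr hi)
  rcases h : e (idxPt i) with a | j
  · rw [h] at h3
    simp at h3
  · exact ⟨j, rfl⟩

theorem label_cov (h2 : (Finset.range z).image (fun i => e (idxPt i)) = (∅ : Finset α).disjSum Finset.univ)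
    (j : Fin z) : ∃ i < z, e (idxPt i) = Sum.inr j := by
  have h3 : (Sum.inr j : α ⊕ Fin z) ∈ (∅ : Finset α).disjSum (Finset.univ : Finset (Fin z)) :=
    Finset.inr_mem_disjSum.mpr (Finset.mem_univ _)
  rw [← h2] at h3
  obtain ⟨i, hi, he⟩ := Finset.mem_image.mp h3
  exact ⟨i, Finset.mem_range.mp hi, he⟩

/-- Extensions of automorphisms fix the standard points. -/
theorem iota_fix (h2 : (Finset.range z).image (fun i => e (idxPt i)) = (∅ : Finset α).disjSum Finset.univ)
    (τ : Equiv.Perm α) {i : ℕ} (hi : i < z) : iota e τ (idxPt i) = idxPt i := by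
  apply e.injective
  rw [iota_apply]
  obtain ⟨j, hj⟩ := label_fix h2 hi
  rw [hj]
  rfl

/-- Extensions of automorphisms preserve the standard sets. -/
theorem iota_std (h1 : (fun o : Finset GolayPt => o.image e) '' stdSet z = liftB z '' B)
    {τ : Equiv.Perm α} (hτ : τ ∈ setSystemAut B) {o : Finset GolayPt} (ho : o ∈ stdSet z) :
    iota e τ • o ∈ stdSet z := by
  have h3 : o.image e ∈ liftB z '' B := by
    rw [← h1]
    exact ⟨o, ho, rfl⟩
  obtain ⟨b, hb, hbe⟩ := h3
  have h4 := image_iota_liftB e τ b o hbe.symm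
  have h5 : τ • b ∈ B := by
    rw [MulAction.mem_stabilizer_iff] at hτ
    rw [← hτ]
    exact Set.smul_mem_smul_set hb
  have h6 : liftB z (τ • b) ∈ (fun o : Finset GolayPt => o.image e) '' stdSet z := by
    rw [h1]
    exact ⟨_, h5, rfl⟩
  obtain ⟨o', ho', he⟩ := h6
  rw [← h4] at he
  have : o' = iota e τ • o := Finset.image_injective e.injective he
  rwa [← this]

/-- Elements fixing the standard points restrict to automorphisms. -/
theorem exists_aut_of_std (h1 : (fun o : Finset GolayPt => o.image e) '' stdSet z = liftB z '' B)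
    (h2 : (Finset.range z).image (fun i => e (idxPt i)) = (∅ : Finset α).disjSum Finset.univ)
    {σ : Equiv.Perm GolayPt} (hfix : ∀ i < z, σ (idxPt i) = idxPt i)
    (hstd : ∀ o ∈ stdSet z, σ • o ∈ stdSet z) :
    ∃ τ ∈ setSystemAut B, iota e τ = σ := by
  obtain ⟨τ, hτ⟩ := exists_restrict (e.permCongr σ) (fun j => by
    obtain ⟨i, hi, he⟩ := label_cov h2 j
    rw [← he, Equiv.permCongr_apply]
    simp [hfix i hi])
  have hι : iota e τ = σ := by
    ext1 p
    apply e.injective
    rw [iota_apply, ← hτ, Equiv.permCongr_apply]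
    simp
  refine ⟨τ, mem_aut_of_forall fun b hb => ?_, hι⟩
  have h3 : liftB z b ∈ (fun o : Finset GolayPt => o.image e) '' stdSet z := by
    rw [h1]
    exact ⟨_, hb, rfl⟩
  obtain ⟨o, ho, he⟩ := h3
  have h4 := image_iota_liftB e τ b o he
  rw [hι] at h4
  have h5 : (σ • o).image e ∈ liftB z '' B := by
    rw [← h1]
    exact ⟨_, hstd o ho, rfl⟩
  rw [h4] at h5
  obtain ⟨c, hc, hce⟩ := h5
  rwa [← liftB_inj hce]

/-- Multiple transitivity from the 5-transitivity of the big group. -/
theorem exists_iota_map (k : ℕ) (hk : k + z = 5)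
    (h2 : (Finset.range z).image (fun i => e (idxPt i)) = (∅ : Finset α).disjSum Finset.univ)
    (x y : Fin k ↪ α) :
    ∃ σ ∈ M24, (∀ i < z, σ (idxPt i) = idxPt i) ∧
      ∀ i : Fin k, σ (e.symm (Sum.inl (x i))) = e.symm (Sum.inl (y i)) := by
  have hidx : ∀ a < z, ∀ b < z, a ≠ b → idxPt a ≠ idxPt b := by
    intro a ha b hb hab he
    have := congrArg ptIdx he
    rw [ptIdx_idxPt (by omega), ptIdx_idxPt (by omega)] at this
    exact hab this
  have hne : ∀ a < z, ∀ u : α, idxPt a ≠ e.symm (Sum.inl u) := by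
    intro a ha u he
    obtain ⟨j, hj⟩ := label_fix h2 ha
    rw [he] at hj
    simp at hj
  let f : (Fin k ↪ α) → ℕ → GolayPt := fun w i =>
    if h : i < z then idxPt i else if h' : i - z < k then e.symm (Sum.inl (w ⟨i - z, h'⟩)) else none
  have hf : ∀ w : Fin k ↪ α, ∀ a < 5, ∀ b < 5, a ≠ b → f w a ≠ f w b := by
    intro w a ha b hb hab
    simp only [f]
    by_cases h3 : a < z
    · by_cases h4 : b < z
      · rw [dif_pos h3, dif_pos h4]
        exact hidx a h3 b h4 hab
      · rw [dif_pos h3, dif_neg h4, dif_pos (by omega)]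
        exact hne a h3 _
    · by_cases h4 : b < z
      · rw [dif_neg h3, dif_pos h4, dif_pos (by omega)]
        exact (hne b h4 _).symm
      · rw [dif_neg h3, dif_neg h4, dif_pos (show a - z < k by omega), dif_pos (show b - z < k by omega)]
        intro he
        have h5 := Sum.inl_injective (e.symm.injective he)
        have h6 := w.injective h5
        have h7 := congrArg Fin.val h6
        simp only at h7
        omega
  obtain ⟨σ, hσ, h3⟩ := Cfsg.Agent.Lib.GolayTrans.exists_map_tuple 5 le_rfl (f x) (f y) (hf x) (hf y)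
  refine ⟨σ, hσ, fun i hi => ?_, fun i => ?_⟩
  · have := h3 i (by omega)
    simpa [f, hi] using this
  · have hi := i.2
    have := h3 (z + i.1) (by omega)
    simp only [f] at this
    have hz1 : ¬ (z + i.1 < z) := by omega
    have hk1 : z + i.1 - z < k := by omega
    rw [dif_neg hz1, dif_neg hz1, dif_pos hk1, dif_pos hk1] at this
    simp only [Nat.add_sub_cancel_left, Fin.eta] at this
    exact this

end labeled

/-- The automorphism group of an `S(4,7,23)`. -/
theorem aut1 (hα : Fintype.card α = 23) (hB : IsSteinerSystem 4 7 B) :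
    IsM23 (setSystemAut B) ∧ MulAction.IsMultiplyPretransitive (setSystemAut B) α 4 := by
  obtain ⟨e, h1, h2⟩ := label1 hα hB
  have hmap : (setSystemAut B).map (iota e) = M24 ⊓ MulAction.stabilizer (Equiv.Perm GolayPt) (idxPt 0) := by
    ext σ
    simp only [Subgroup.mem_map, Subgroup.mem_inf, MulAction.mem_stabilizer_iff]
    constructor
    · rintro ⟨τ, hτ, rfl⟩
      refine ⟨mem_M24_of_std1 fun o ho => iota_std h1 hτ ho, iota_fix h2 τ (by norm_num)⟩
    · rintro ⟨h3, h4⟩
      have h5 : ∀ i < 1, σ (idxPt i) = idxPt i := by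
        intro i hi
        have : i = 0 := by omega
        subst this
        exact h4
      obtain ⟨τ, hτ, he⟩ := exists_aut_of_std h1 h2 h5 (fun o ho => smul_mem_std h3 h5 ho)
      exact ⟨τ, hτ, he⟩
  let Φ : setSystemAut B ≃* (setSystemAut B).map (iota e) :=
    (setSystemAut B).equivMapOfInjective _ (iota_injective e)
  let Ψ : setSystemAut B ≃* ↥(M24 ⊓ MulAction.stabilizer (Equiv.Perm GolayPt) (idxPt 0)) :=
    Φ.trans (MulEquiv.subgroupCongr hmap)
  refine ⟨⟨?_, ?_⟩, ?_⟩
  · haveI : IsSimpleGroup (MulAction.stabilizer M24 (idxPt 0)) :=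
      Cfsg.Agent.Lib.GolaySimple.isSimple_stab_point _
    haveI : IsSimpleGroup ↥(M24 ⊓ MulAction.stabilizer (Equiv.Perm GolayPt) (idxPt 0)) :=
      (Cfsg.Agent.Lib.GolaySimple.stabEquiv (idxPt 0)).symm.isSimpleGroup
    exact Ψ.isSimpleGroup
  · rw [Nat.card_congr Ψ.toEquiv]
    exact Cfsg.Agent.Lib.GolayTrans.card_stab_one _
  · refine ⟨fun x y => ?_⟩
    obtain ⟨σ, hσ, h3, h4⟩ := exists_iota_map (e := e) 4 (by norm_num) h2 x y
    obtain ⟨τ, hτ, he⟩ := exists_aut_of_std h1 h2 h3 (fun o ho => smul_mem_std hσ h3 ho)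
    refine ⟨⟨τ, hτ⟩, ?_⟩
    ext i
    show τ (x i) = y i
    have h5 := h4 i
    rw [← he] at h5
    have h6 := congrArg e h5
    rw [iota_apply] at h6
    simp only [Equiv.apply_symm_apply, Equiv.sumCongr_apply, Sum.map_inl, Sum.inl.injEq] at h6
    exact h6

end Cfsg.Agent.Lib.SteinerAut
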