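import Cfsg.Agent.Lib.SteinerAut

/-!
# The automorphism group of `S(3,6,22)`
-/

set_option autoImplicit false
set_option linter.constructorNameAsVariable false
set_option linter.unusedSectionVars false

open scoped Pointwise

namespace Cfsg.Agent.Lib.SteinerAut22

open Cfsg Cfsg.Agent.Lib.GolayCode Cfsg.Agent.Lib.GolayFacts Cfsg.Agent.Lib.GolayFast
  Cfsg.Agent.Lib.GolayFastData Cfsg.Agent.Lib.GolaySets Cfsg.Agent.Lib.SteinerSearch
  Cfsg.Agent.Lib.SteinerBasic Cfsg.Agent.Lib.SteinerNums Cfsg.Agent.Lib.SteinerLift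
  Cfsg.Agent.Lib.SteinerIso Cfsg.Agent.Lib.SteinerUnique Cfsg.Agent.Lib.SteinerAut Finset

def npMask : ℕ := 12287
def pivMask : ℕ := 16764928
def o1Mask : ℕ := 3277413
def tList : List ℕ := [13062145, 13062146, 5902340, 14716936, 1413136, 3719200, 15515712, 2019456, 11731200, 8077824, 11654144, 7145472, 0, 9347072, 0, 0, 0, 0, 0, 0, 0, 0, 0, 0]
def hDec : List (List ℕ) :=
  [[], [], [], [], [], [], [], [], [], [], [], [], [459847, 1212619, 1413139], [], [57883, 1188915, 1212619], [1188915, 1212619], [57883, 1053483, 1188915, 4216883, 4424227], [459847, 1053483, 1188915, 1212619, 1413139], [57883, 1212619, 1413139, 4216883, 4424227], [57883, 459847, 1188915, 1212619, 1413139, 1647171, 4216883, 4424227], [459847, 1053483, 1212619, 1413139], [1053483, 1188915, 1647171, 3719203, 4216883, 4424227], [57883, 459847, 1188915, 1413139, 4216883], [57883, 1053483, 1212619, 4216883, 12717187]]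
def bas2Dec : List (List ℕ) :=
  [[459847, 1053483, 1188915], [1188915, 1212619, 3277413, 3719203], [459847, 1053483, 4216883, 4424227], [1212619, 3719203, 4216883, 4424227], [1053483, 1188915, 1212619, 4424227], [459847, 1053483, 1188915, 1212619, 3277413, 4216883, 4424227], [459847, 1053483, 1212619, 3277413, 3719203, 4424227], [1053483, 1188915, 1212619, 3277413, 3719203, 4216883, 4424227], [459847, 1053483, 1413139, 3277413, 4216883, 4424227], [459847, 1647171, 3719203, 4216883], [57883, 459847, 3277413, 3719203, 4216883], [459847, 1053483, 1188915, 3719203, 12717187]]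

/-- Even intersection is additive. -/
theorem even_inter_symmDiff {X : Type*} [DecidableEq X] {a b h : Finset X} (ha : Even (a ∩ h).card)
    (hb : Even (b ∩ h).card) : Even (symmDiff a b ∩ h).card := by
  have h1 : symmDiff a b ∩ h = symmDiff (a ∩ h) (b ∩ h) := by
    ext x
    simp only [Finset.mem_inter, Finset.mem_symmDiff]
    tauto
  rw [h1]
  have h2 := card_symmDiff_add (a ∩ h) (b ∩ h)
  obtain ⟨x, hx⟩ := ha
  obtain ⟨y, hy⟩ := hb
  rw [hx, hy] at h2
  refine ⟨x + y - ((a ∩ h) ∩ (b ∩ h)).card, ?_⟩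
  omega

/-- Code words meet evenly. -/
theorem even_inter_code {a h : Finset GolayPt} (ha : a ∈ CSet) (hh : h ∈ CSet) : Even (a ∩ h).card := by
  have h1 := card_symmDiff_add a h
  have h2 := Cfsg.Agent.Lib.GolayM12.card_of_mem_supports (Cfsg.Agent.Lib.GolayM12.card_symmDiff_code ha hh)
  have h3 := Cfsg.Agent.Lib.GolayM12.card_of_mem_supports ha
  have h4 := Cfsg.Agent.Lib.GolayM12.card_of_mem_supports hh
  rw [Nat.even_iff]
  omega

abbrev VV : Finset GolayPt := supFin 3

/-- `C` together with its translate by `V`. -/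
def PS : Set (Finset GolayPt) := {w | w ∈ CSet ∨ symmDiff w VV ∈ CSet}

theorem PS_symmDiff {a b : Finset GolayPt} (ha : a ∈ PS) (hb : b ∈ PS) : symmDiff a b ∈ PS := by
  have code := @Cfsg.Agent.Lib.GolayM12.card_symmDiff_code
  rcases ha with ha | ha <;> rcases hb with hb | hb
  · exact Or.inl (code ha hb)
  · refine Or.inr ?_
    have := code ha hb
    rwa [← symmDiff_assoc] at this
  · refine Or.inr ?_
    have := code ha hb
    rwa [symmDiff_right_comm] at this
  · refine Or.inl ?_
    have := code ha hb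
    have h1 : symmDiff (symmDiff a VV) (symmDiff b VV) = symmDiff a b := by
      rw [symmDiff_symmDiff_symmDiff_comm, symmDiff_self, symmDiff_bot]
    rwa [h1] at this

theorem even_inter_V {h : Finset GolayPt} (hh : h ∈ stdSet 2) : Even (VV ∩ h).card := by
  have h1 : VV ∩ h = VV := by
    apply Finset.inter_eq_left.mpr
    intro p hp
    have h2 : p = idxPt 0 ∨ p = idxPt 1 := by
      revert p
      decide
    rcases h2 with rfl | rfl
    · exact hh.2 0 (by norm_num)
    · exact hh.2 1 (by norm_num)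
  rw [h1]
  decide

theorem PS_even {a h : Finset GolayPt} (ha : a ∈ PS) (hh : h ∈ stdSet 2) : Even (a ∩ h).card := by
  have h1 : h ∈ CSet := hh.1.1
  rcases ha with ha | ha
  · exact even_inter_code ha h1
  · have h2 := even_inter_symmDiff (even_inter_code ha h1) (even_inter_V hh)
    have h3 : symmDiff (symmDiff a VV) VV = a := by
      rw [symmDiff_assoc, symmDiff_self, symmDiff_bot]
    rwa [h3] at h2

abbrev NP : Finset GolayPt := supFin npMask

/-- The complementary words. -/
def tw (p : GolayPt) : Finset GolayPt := supFin (tList.getD (ptIdx p) 0)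

theorem tw_np : ∀ p : GolayPt, p ∈ NP → tw p ∩ NP = {p} := by
  decide +kernel

def inCode (m : ℕ) : Bool := spanMask (decode m) == m && decide (decode m < 4096)

theorem mem_of_inCode {m : ℕ} (h : inCode m = true) : supFin m ∈ CSet := by
  simp only [inCode, Bool.and_eq_true, beq_iff_eq, decide_eq_true_eq] at h
  exact mem_supports_iff.mpr ⟨decode m, h.2, by rw [h.1]⟩

theorem tw_bool : ∀ i < 24, npMask.testBit i = true → inCode (tList.getD i 0) = true ∨
    inCode (tList.getD i 0 ^^^ 3) = true := by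
  decide +kernel

theorem tw_mem {p : GolayPt} (hp : p ∈ NP) : tw p ∈ PS := by
  rcases tw_bool (ptIdx p) (ptIdx_lt p) (mem_supFin.mp hp) with h | h
  · exact Or.inl (mem_of_inCode h)
  · refine Or.inr ?_
    have := mem_of_inCode h
    rwa [supFin_xor] at this

theorem empty_mem_PS : (∅ : Finset GolayPt) ∈ PS := by
  refine Or.inl ?_
  have h0 : supFin 0 = (∅ : Finset GolayPt) := by
    ext p
    simp
  rw [← h0]
  exact supFin_zero_mem

theorem exists_PS (S : Finset GolayPt) (hS : S ⊆ NP) : ∃ c ∈ PS, c ∩ NP = S := by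
  induction S using Finset.induction_on with
  | empty => exact ⟨∅, empty_mem_PS, by simp⟩
  | insert k S hk ih =>
    obtain ⟨c, hc, hcS⟩ := ih ((Finset.subset_insert _ _).trans hS)
    have hkN : k ∈ NP := hS (Finset.mem_insert_self _ _)
    refine ⟨symmDiff c (tw k), PS_symmDiff hc (tw_mem hkN), ?_⟩
    have h1 : symmDiff c (tw k) ∩ NP = symmDiff (c ∩ NP) (tw k ∩ NP) := by
      ext x
      simp only [Finset.mem_inter, Finset.mem_symmDiff]
      tauto
    rw [h1, hcS, tw_np k hkN]
    ext x
    simp only [Finset.mem_symmDiff, Finset.mem_singleton, Finset.mem_insert]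
    constructor
    · rintro (⟨h2, _⟩ | ⟨h2, _⟩)
      · exact Or.inr h2
      · exact Or.inl h2
    · rintro (rfl | h2)
      · exact Or.inr ⟨rfl, hk⟩
      · refine Or.inl ⟨h2, ?_⟩
        rintro rfl
        exact hk h2

/-- The reduced words. -/
def hw' (p : GolayPt) : Finset GolayPt := supFin (xorL (hDec.getD (ptIdx p) []))

theorem hw_piv : ∀ p : GolayPt, p ∉ NP → hw' p \ NP = {p} := by
  decide +kernel

theorem hDec_std : ∀ i < 24, (hDec.getD i []).all (fun m => octadsL.contains m && m.testBit 0 && m.testBit 1) = true := by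
  decide +kernel

theorem mem_std2_of {m : ℕ} (hm : octadsL.contains m = true) (h0 : m.testBit 0 = true) (h1 : m.testBit 1 = true) :
    supFin m ∈ stdSet 2 := by
  refine ⟨mem_octads_iff_L.mpr ⟨m, by simpa using hm, rfl⟩, fun i hi => ?_⟩
  have : i = 0 ∨ i = 1 := by omega
  rcases this with rfl | rfl
  · rw [mem_supFin, ptIdx_idxPt (by norm_num)]
    exact h0
  · rw [mem_supFin, ptIdx_idxPt (by norm_num)]
    exact h1

/-- A word orthogonal to the standard octads, with no bits on `NP`, is empty. -/
theorem eq_empty_of_perp {u : Finset GolayPt} (hu : ∀ h ∈ stdSet 2, Even (u ∩ h).card) (hNP : u ∩ NP = ∅) :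
    u = ∅ := by
  have hl : ∀ l : List ℕ, (∀ m ∈ l, octadsL.contains m = true ∧ m.testBit 0 = true ∧ m.testBit 1 = true) →
      Even (u ∩ supFin (xorL l)).card := by
    intro l
    induction l with
    | nil =>
      intro _
      have h0 : supFin (xorL []) = (∅ : Finset GolayPt) := by
        ext p
        simp [xorL]
      rw [h0]
      simp
    | cons x l ih =>
      intro hl
      have h1 : supFin (xorL (x :: l)) = symmDiff (supFin x) (supFin (xorL l)) := by
        rw [← supFin_xor]
        rfl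
      rw [h1, Finset.inter_comm]
      apply even_inter_symmDiff
      · rw [Finset.inter_comm]
        obtain ⟨h2, h3, h4⟩ := hl x List.mem_cons_self
        exact hu _ (mem_std2_of h2 h3 h4)
      · rw [Finset.inter_comm]
        exact ih fun m hm => hl m (List.mem_cons_of_mem _ hm)
  apply Finset.eq_empty_of_forall_notMem
  intro p hp
  have hpN : p ∉ NP := by
    intro hN
    have : p ∈ u ∩ NP := Finset.mem_inter.mpr ⟨hp, hN⟩
    rw [hNP] at this
    simp at this
  have h1 := hw_piv p hpN
  have h2 : Even (u ∩ hw' p).card := by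
    apply hl
    intro m hm
    have h3 := List.all_eq_true.mp (hDec_std (ptIdx p) (ptIdx_lt p)) m hm
    simpa only [Bool.and_eq_true, and_assoc] using h3
  have h3 : u ∩ hw' p = {p} := by
    ext x
    simp only [Finset.mem_inter, Finset.mem_singleton]
    constructor
    · rintro ⟨hx1, hx2⟩
      have hx3 : x ∉ NP := by
        intro hN
        have : x ∈ u ∩ NP := Finset.mem_inter.mpr ⟨hx1, hN⟩
        rw [hNP] at this
        simp at this
      have : x ∈ hw' p \ NP := Finset.mem_sdiff.mpr ⟨hx2, hx3⟩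
      rw [h1] at this
      simpa using this
    · rintro rfl
      refine ⟨hp, ?_⟩
      have : x ∈ hw' x \ NP := by
        rw [h1]
        simp
      exact (Finset.mem_sdiff.mp this).1
  rw [h3] at h2
  simp at h2

/-- The orthogonal complement of the standard octads. -/
theorem perp_mem {w : Finset GolayPt} (hw : ∀ h ∈ stdSet 2, Even (w ∩ h).card) : w ∈ PS := by
  obtain ⟨c, hc, hcS⟩ := exists_PS (w ∩ NP) Finset.inter_subset_right
  have h1 : symmDiff w c = ∅ := by
    apply eq_empty_of_perp
    · intro h hh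
      exact even_inter_symmDiff (hw h hh) (PS_even hc hh)
    · have h2 : symmDiff w c ∩ NP = symmDiff (w ∩ NP) (c ∩ NP) := by
        ext x
        simp only [Finset.mem_inter, Finset.mem_symmDiff]
        tauto
      rw [h2, hcS, symmDiff_self]
      rfl
  have h2 : w = c := symmDiff_eq_bot.mp h1
  rwa [h2]

theorem bas2Dec_ok : (List.range 12).all (fun j => xorL (bas2Dec.getD j []) == bas j &&
    (bas2Dec.getD j []).all (fun m => m == o1Mask || (octadsL.contains m && m.testBit 0 && m.testBit 1))) = true := by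
  decide +kernel

theorem o1_mem : supFin o1Mask ∈ octads := mem_octads_iff_L.mpr ⟨o1Mask, by decide +kernel, rfl⟩

/-- Preserving the octads through two points, and one more octad, forces membership in the group. -/
theorem mem_M24_of_std2 {σ : Equiv.Perm GolayPt} (h : ∀ o ∈ stdSet 2, σ • o ∈ stdSet 2)
    (h1 : σ • supFin o1Mask ∈ CSet) : σ ∈ M24 := by
  have Qz : σ • supFin 0 ∈ CSet := by
    have h0 : supFin 0 = ∅ := by
      ext p
      simp
    rw [h0, Finset.smul_finset_empty, ← h0]
    exact supFin_zero_mem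
  have Qx : ∀ a b, σ • supFin a ∈ CSet → σ • supFin b ∈ CSet → σ • supFin (a ^^^ b) ∈ CSet := by
    intro a b ha hb
    rw [supFin_xor, smul_symmDiff_finset]
    exact Cfsg.Agent.Lib.GolayM12.card_symmDiff_code ha hb
  have Ql : ∀ l : List ℕ, (∀ m ∈ l, m = o1Mask ∨ (octadsL.contains m = true ∧ m.testBit 0 = true ∧ m.testBit 1 = true)) →
      σ • supFin (xorL l) ∈ CSet := by
    intro l
    induction l with
    | nil =>
      intro _
      exact Qz
    | cons x l ih =>
      intro hl
      refine Qx _ _ ?_ (ih fun m hm => hl m (List.mem_cons_of_mem _ hm))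
      rcases hl x List.mem_cons_self with rfl | ⟨h2, h3, h4⟩
      · exact h1
      · exact (h _ (mem_std2_of h2 h3 h4)).1.1
  have Qb : ∀ j < 12, σ • supFin (bas j) ∈ CSet := by
    intro j hj
    have h1 := List.all_eq_true.mp bas2Dec_ok j (List.mem_range.mpr hj)
    simp only [Bool.and_eq_true, beq_iff_eq, List.all_eq_true, Bool.or_eq_true] at h1
    rw [← h1.1]
    apply Ql
    intro m hm
    rcases h1.2 m hm with h2 | h2
    · exact Or.inl h2
    · exact Or.inr ⟨h2.1.1, h2.1.2, h2.2⟩
  have Qs : ∀ n ≤ 12, ∀ k, σ • supFin (spanAux n k) ∈ CSet := by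
    intro n
    induction n with
    | zero =>
      intro _ k
      exact Qz
    | succ n ih =>
      intro hn k
      rw [spanAux]
      refine Qx _ _ ?_ (ih (by omega) k)
      split_ifs
      · exact Qb n (by omega)
      · exact Qz
  apply Cfsg.Agent.Lib.GolayOctad.mem_M24_of_octads
  intro o ho
  obtain ⟨k, hk, h8, rfl⟩ := mem_octads_iff.mp ho
  refine ⟨Qs 12 (le_refl _) k, ?_⟩
  rw [Finset.card_smul_finset]
  exact ho.2

abbrev pt0 : GolayPt := idxPt 0
abbrev pt1 : GolayPt := idxPt 1
abbrev swp : Equiv.Perm GolayPt := Equiv.swap pt0 pt1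

theorem swp_smul_std {o : Finset GolayPt} (ho : o ∈ stdSet 2) : swp • o = o := by
  have h0 : pt0 ∈ o := ho.2 0 (by norm_num)
  have h1 : pt1 ∈ o := ho.2 1 (by norm_num)
  ext x
  rw [Finset.mem_smul_finset]
  constructor
  · rintro ⟨y, hy, rfl⟩
    show swp y ∈ o
    by_cases h2 : y = pt0
    · rw [h2, Equiv.swap_apply_left]
      exact h1
    · by_cases h3 : y = pt1
      · rw [h3, Equiv.swap_apply_right]
        exact h0
      · rwa [Equiv.swap_apply_of_ne_of_ne h2 h3]
  · intro hx
    refine ⟨swp x, ?_, Equiv.swap_apply_self _ _ _⟩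
    by_cases h2 : x = pt0
    · rw [h2, Equiv.swap_apply_left]
      exact h1
    · by_cases h3 : x = pt1
      · rw [h3, Equiv.swap_apply_right]
        exact h0
      · rwa [Equiv.swap_apply_of_ne_of_ne h2 h3]

/-- Every permutation preserving the standard octads and fixing the two points lies in the group, up to the swap. -/
theorem mem_or_swap {σ : Equiv.Perm GolayPt} (h0 : σ pt0 = pt0) (h1 : σ pt1 = pt1)
    (h : ∀ o ∈ stdSet 2, σ • o ∈ stdSet 2) (hi : ∀ o ∈ stdSet 2, σ⁻¹ • o ∈ stdSet 2) :
    σ ∈ M24 ∨ swp * σ ∈ M24 := by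
  have hperp : ∀ h' ∈ stdSet 2, Even ((σ • supFin o1Mask) ∩ h').card := by
    intro h' hh'
    have h2 : σ • supFin o1Mask ∩ h' = σ • (supFin o1Mask ∩ σ⁻¹ • h') := by
      rw [Finset.smul_finset_inter, smul_inv_smul]
    rw [h2, Finset.card_smul_finset]
    exact even_inter_code o1_mem.1 (hi _ hh').1.1
  rcases perp_mem hperp with h2 | h2
  · exact Or.inl (mem_M24_of_std2 h h2)
  · refine Or.inr (mem_M24_of_std2 (fun o ho => ?_) ?_)
    · rw [mul_smul, swp_smul_std (h o ho)]
      exact h o ho
    · have h3 : swp • (σ • supFin o1Mask) = symmDiff (σ • supFin o1Mask) VV := by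
        have hz0 : pt0 ∈ σ • supFin o1Mask := by
          rw [Finset.mem_smul_finset]
          exact ⟨pt0, by decide +kernel, h0⟩
        have hz1 : pt1 ∉ σ • supFin o1Mask := by
          rw [Finset.mem_smul_finset]
          rintro ⟨y, hy, he⟩
          have : y = pt1 := σ.injective (he.trans h1.symm)
          rw [this] at hy
          revert hy
          decide +kernel
        have hV : ∀ x, x ∈ VV ↔ x = pt0 ∨ x = pt1 := by decide
        ext x
        simp only [Finset.mem_symmDiff, hV]
        rw [Finset.mem_smul_finset]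
        constructor
        · rintro ⟨y, hy, rfl⟩
          show swp y ∈ _ ∧ _ ∨ _
          by_cases h4 : y = pt0
          · rw [h4] at hy ⊢
            rw [Equiv.swap_apply_left]
            exact Or.inr ⟨Or.inr rfl, hz1⟩
          · by_cases h5 : y = pt1
            · rw [h5] at hy
              exact absurd hy hz1
            · have h6 : swp y = y := Equiv.swap_apply_of_ne_of_ne h4 h5
              refine Or.inl ⟨by rw [h6]; exact hy, ?_⟩
              rintro (h7 | h7)
              · exact h4 (h6.symm.trans h7)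
              · exact h5 (h6.symm.trans h7)
        · rintro (⟨h4, h5⟩ | ⟨h4, h5⟩)
          · refine ⟨x, h4, ?_⟩
            have h6 : x ≠ pt0 := fun h7 => h5 (Or.inl h7)
            have h7 : x ≠ pt1 := fun h7 => h5 (Or.inr h7)
            exact Equiv.swap_apply_of_ne_of_ne h6 h7
          · rcases h4 with rfl | rfl
            · exact absurd hz0 h5
            · exact ⟨pt0, hz0, Equiv.swap_apply_left _ _⟩
      rw [mul_smul, h3]
      exact h2

theorem swp_not_mem : swp ∉ M24 := by
  intro hs
  have h1 : swp • supFin o1Mask ∈ CSet := (smul_mem_octads hs o1_mem).1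
  have h2 := Cfsg.Agent.Lib.GolayM12.card_symmDiff_code h1 o1_mem.1
  have h3 := Cfsg.Agent.Lib.GolayM12.card_of_mem_supports h2
  have h4 : symmDiff (swp • supFin o1Mask) (supFin o1Mask) = VV := by
    decide +kernel
  rw [h4] at h3
  revert h3
  decide

/-- An index two criterion. -/
theorem index_two_abstract {A G : Type*} [Group A] [Group G] (ι : A →* G) (M : Subgroup G) (s g : G) (t0 : A)
    (ht0 : ι t0 = s * g) (hs : s * g ∉ M) (hg : g ∈ M) (hor : ∀ b, ι b ∈ M ∨ s * ι b ∈ M)
    (hcomm : ∀ b, ι b * s = s * ι b) : (M.comap ι).index = 2 := by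
  rw [Subgroup.index_eq_two_iff]
  refine ⟨t0, fun b => ?_⟩
  simp only [Subgroup.mem_comap, map_mul, ht0]
  by_cases hb : ι b ∈ M
  · refine Or.inr ⟨hb, fun hc => hs ?_⟩
    have : s * g = (ι b)⁻¹ * (ι b * (s * g)) := by group
    rw [this]
    exact mul_mem (inv_mem hb) hc
  · refine Or.inl ⟨?_, hb⟩
    have hor' := (hor b).resolve_left hb
    have : ι b * (s * g) = (s * ι b) * g := by
      rw [← mul_assoc, hcomm]
    rw [this]
    exact mul_mem hor' hg

variable {α : Type*} [Fintype α] [DecidableEq α] {B : Set (Finset α)}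

/-- The automorphism group of an `S(3,6,22)`. -/
theorem aut2 (hα : Fintype.card α = 22) (hB : IsSteinerSystem 3 6 B) :
    Nat.card (setSystemAut B) = 887040 ∧ MulAction.IsMultiplyPretransitive (setSystemAut B) α 3 ∧
      ∃ H : Subgroup (setSystemAut B), H.index = 2 ∧ IsM22 H := by
  obtain ⟨e, h1, h2⟩ := label2 hα hB
  have hne : pt0 ≠ pt1 := by decide
  -- fixing the two points
  have hfix2 : ∀ {σ : Equiv.Perm GolayPt}, σ pt0 = pt0 → σ pt1 = pt1 → ∀ i < 2, σ (idxPt i) = idxPt i := by
    intro σ h0 h1 i hi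
    have : i = 0 ∨ i = 1 := by omega
    rcases this with rfl | rfl
    · exact h0
    · exact h1
  let ι : setSystemAut B →* Equiv.Perm GolayPt := (iota e).comp (setSystemAut B).subtype
  have hιinj : Function.Injective ι := (iota_injective e).comp Subtype.val_injective
  have hι0 : ∀ b : setSystemAut B, ι b pt0 = pt0 := fun b => iota_fix h2 b.1 (by norm_num)
  have hι1 : ∀ b : setSystemAut B, ι b pt1 = pt1 := fun b => iota_fix h2 b.1 (by norm_num)
  have hιstd : ∀ (b : setSystemAut B), ∀ o ∈ stdSet 2, ι b • o ∈ stdSet 2 := fun b o ho => iota_std h1 b.2 ho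
  have hιor : ∀ b : setSystemAut B, ι b ∈ M24 ∨ swp * ι b ∈ M24 := by
    intro b
    refine mem_or_swap (hι0 b) (hι1 b) (hιstd b) (fun o ho => ?_)
    have := hιstd b⁻¹ o ho
    rwa [map_inv] at this
  -- the element exchanging the two classes
  obtain ⟨g, hg, hg0, hg1⟩ := Cfsg.Agent.Lib.GolayTrans.exists_map_pair hne hne.symm
  have ha0 : (swp * g) pt0 = pt0 := by
    show swp (g pt0) = pt0
    rw [hg0]
    exact Equiv.swap_apply_right _ _
  have ha1 : (swp * g) pt1 = pt1 := by
    show swp (g pt1) = pt1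
    rw [hg1]
    exact Equiv.swap_apply_left _ _
  have hgstd : ∀ o ∈ stdSet 2, g • o ∈ stdSet 2 := by
    intro o ho
    refine ⟨smul_mem_octads hg ho.1, fun i hi => ?_⟩
    rw [Finset.mem_smul_finset]
    have : i = 0 ∨ i = 1 := by omega
    rcases this with rfl | rfl
    · exact ⟨pt1, ho.2 1 (by norm_num), hg1⟩
    · exact ⟨pt0, ho.2 0 (by norm_num), hg0⟩
  obtain ⟨τ0, hτ0, hτ0e⟩ := exists_aut_of_std h1 h2 (hfix2 ha0 ha1) (fun o ho => by
    rw [mul_smul, swp_smul_std (hgstd o ho)]
    exact hgstd o ho)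
  have hsg : swp * g ∉ M24 := by
    intro h
    apply swp_not_mem
    have : swp = (swp * g) * g⁻¹ := by group
    rw [this]
    exact mul_mem h (inv_mem hg)
  have hindex : (M24.comap ι).index = 2 :=
    index_two_abstract ι M24 swp g ⟨τ0, hτ0⟩ hτ0e hsg hg hιor (fun b => by
      have := Equiv.swap_apply_apply (ι b) pt0 pt1
      rw [hι0, hι1] at this
      exact (eq_mul_inv_iff_mul_eq.mp this).symm)
  have hmapH : (M24.comap ι).map ι =
      M24 ⊓ MulAction.stabilizer (Equiv.Perm GolayPt) pt0 ⊓ MulAction.stabilizer (Equiv.Perm GolayPt) pt1 := by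
    apply le_antisymm
    · rintro _ ⟨b, hb, rfl⟩
      exact ⟨⟨hb, hι0 b⟩, hι1 b⟩
    · rintro σ ⟨⟨h3, h4⟩, h5⟩
      have h4' : σ pt0 = pt0 := h4
      have h5' : σ pt1 = pt1 := h5
      obtain ⟨τ, hτ, he⟩ := exists_aut_of_std h1 h2 (hfix2 h4' h5') (fun o ho => smul_mem_std h3 (hfix2 h4' h5') ho)
      have he' : ι ⟨τ, hτ⟩ = σ := he
      refine ⟨⟨τ, hτ⟩, ?_, he'⟩
      show ι ⟨τ, hτ⟩ ∈ M24
      rw [he']
      exact h3
  let Ψ : M24.comap ι ≃* ↥(M24 ⊓ MulAction.stabilizer (Equiv.Perm GolayPt) pt0 ⊓ MulAction.stabilizer (Equiv.Perm GolayPt) pt1) :=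
    ((M24.comap ι).equivMapOfInjective ι hιinj).trans (MulEquiv.subgroupCongr hmapH)
  have hcardH : Nat.card (M24.comap ι) = 443520 := by
    rw [Nat.card_congr Ψ.toEquiv]
    exact Cfsg.Agent.Lib.GolayTrans.card_stab_two hne
  refine ⟨?_, ?_, M24.comap ι, hindex, ?_, hcardH⟩
  · have := (M24.comap ι).card_mul_index
    rw [hcardH, hindex] at this
    omega
  · refine ⟨fun x y => ?_⟩
    obtain ⟨σ, hσ, h3, h4⟩ := exists_iota_map (e := e) 3 (by norm_num) h2 x y
    obtain ⟨τ, hτ, he⟩ := exists_aut_of_std h1 h2 h3 (fun o ho => smul_mem_std hσ h3 ho)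
    refine ⟨⟨τ, hτ⟩, ?_⟩
    ext i
    show τ (x i) = y i
    have h5 := h4 i
    rw [← he] at h5
    have h6 := congrArg e h5
    rw [iota_apply] at h6
    simp only [Equiv.apply_symm_apply, Equiv.sumCongr_apply, Sum.map_inl, Sum.inl.injEq] at h6
    exact h6
  · haveI : IsSimpleGroup ↥(MulAction.stabilizer M24 pt0 ⊓ MulAction.stabilizer M24 pt1) :=
      Cfsg.Agent.Lib.GolaySimple.isSimple_stab_two hne
    haveI : IsSimpleGroup ↥(M24 ⊓ MulAction.stabilizer (Equiv.Perm GolayPt) pt0 ⊓ MulAction.stabilizer (Equiv.Perm GolayPt) pt1) :=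
      (Cfsg.Agent.Lib.GolaySimple.stabEquiv2 pt0 pt1).symm.isSimpleGroup
    exact Ψ.isSimpleGroup

end Cfsg.Agent.Lib.SteinerAut22
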