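import Mathlib
import Cfsg.Prelude.Def_Sporadic_a

/-!
# Counting in Steiner systems

`lambda_eq`: number of blocks through a `j`-subset. `mendelsohn`: the intersection equations.
-/

set_option autoImplicit false

namespace Cfsg.Agent.Lib.SteinerBasic

open Cfsg Finset

variable {α : Type*} [Fintype α] [DecidableEq α]

/-- Number of `t`-subsets of `X` containing `s`. -/
theorem card_supersets (X s : Finset α) (t : ℕ) (hs : s ⊆ X) (hst : s.card ≤ t) :
    ((powersetCard t X).filter (s ⊆ ·)).card = Nat.choose (X.card - s.card) (t - s.card) := by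
  have h : (X \ s).card = X.card - s.card := Finset.card_sdiff_of_subset hs
  rw [← h, ← Finset.card_powersetCard]
  refine Finset.card_bij (fun T _ => T \ s) ?_ ?_ ?_
  · intro T hT
    obtain ⟨h1, h2⟩ := Finset.mem_filter.mp hT
    obtain ⟨h3, h4⟩ := Finset.mem_powersetCard.mp h1
    refine Finset.mem_powersetCard.mpr ⟨Finset.sdiff_subset_sdiff h3 (le_refl _), ?_⟩
    rw [Finset.card_sdiff_of_subset h2, h4]
  · intro T hT U hU h
    obtain ⟨h1, h2⟩ := Finset.mem_filter.mp hT
    obtain ⟨h3, h4⟩ := Finset.mem_filter.mp hU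
    have e1 : T = (T \ s) ∪ s := (Finset.sdiff_union_of_subset h2).symm
    have e2 : U = (U \ s) ∪ s := (Finset.sdiff_union_of_subset h4).symm
    rw [e1, e2, h]
  · intro U hU
    obtain ⟨h1, h2⟩ := Finset.mem_powersetCard.mp hU
    have hd : Disjoint U s := by
      rw [Finset.disjoint_left]
      intro x hx
      exact (Finset.mem_sdiff.mp (h1 hx)).2
    refine ⟨U ∪ s, ?_, ?_⟩
    · refine Finset.mem_filter.mpr ⟨Finset.mem_powersetCard.mpr ⟨?_, ?_⟩, Finset.subset_union_right⟩
      · exact Finset.union_subset (fun x hx => (Finset.mem_sdiff.mp (h1 hx)).1) hs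
      · rw [Finset.card_union_of_disjoint hd, h2]
        omega
    · exact Finset.union_sdiff_cancel_right hd

variable {t k : ℕ} {B : Set (Finset α)}

open Classical in
/-- The blocks as a finset. -/
noncomputable def blocks (B : Set (Finset α)) : Finset (Finset α) := Finset.univ.filter (· ∈ B)

open Classical in
theorem mem_blocks {b : Finset α} : b ∈ blocks B ↔ b ∈ B := by simp [blocks]

open Classical in
theorem ncard_eq : B.ncard = (blocks B).card := by
  rw [← Set.ncard_coe_finset]
  congr 1
  ext b
  simp [blocks]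

/-- Number of blocks through a subset of size at most `t`, by double counting. -/
theorem lambda_eq (hB : IsSteinerSystem t k B) (s : Finset α) (hst : s.card ≤ t) :
    ((blocks B).filter (s ⊆ ·)).card * Nat.choose (k - s.card) (t - s.card) =
      Nat.choose (Fintype.card α - s.card) (t - s.card) := by
  have key := Finset.sum_card_bipartiteAbove_eq_sum_card_bipartiteBelow
    (s := ((Finset.univ : Finset (Finset α)).powersetCard t |> fun _ => ((powersetCard t (Finset.univ : Finset α)).filter (s ⊆ ·))))
    (t := (blocks B).filter (s ⊆ ·)) (fun (T b : Finset α) => T ⊆ b)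
  have h1 : ∑ T ∈ (powersetCard t (Finset.univ : Finset α)).filter (s ⊆ ·),
      (Finset.bipartiteAbove (fun (T b : Finset α) => T ⊆ b) ((blocks B).filter (s ⊆ ·)) T).card
      = ((powersetCard t (Finset.univ : Finset α)).filter (s ⊆ ·)).card := by
    rw [Finset.card_eq_sum_ones]
    refine Finset.sum_congr rfl fun T hT => ?_
    obtain ⟨h1, h2⟩ := Finset.mem_filter.mp hT
    obtain ⟨_, h4⟩ := Finset.mem_powersetCard.mp h1
    obtain ⟨b, ⟨hb1, hb2⟩, hb3⟩ := hB.2 T h4
    rw [Finset.card_eq_one]
    refine ⟨b, ?_⟩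
    ext c
    simp only [Finset.bipartiteAbove, Finset.mem_filter, Finset.mem_singleton, mem_blocks]
    constructor
    · rintro ⟨⟨hc1, _⟩, hc3⟩
      exact hb3 c ⟨hc1, hc3⟩
    · rintro rfl
      exact ⟨⟨hb1, h2.trans hb2⟩, hb2⟩
  have h2 : ∑ b ∈ (blocks B).filter (s ⊆ ·),
      (Finset.bipartiteBelow (fun (T b : Finset α) => T ⊆ b)
        ((powersetCard t (Finset.univ : Finset α)).filter (s ⊆ ·)) b).card
      = ((blocks B).filter (s ⊆ ·)).card * Nat.choose (k - s.card) (t - s.card) := by
    rw [Finset.card_eq_sum_ones, Finset.sum_mul]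
    refine Finset.sum_congr rfl fun b hb => ?_
    obtain ⟨h1, h2⟩ := Finset.mem_filter.mp hb
    have hbk : b.card = k := hB.1 b (mem_blocks.mp h1)
    rw [one_mul, ← hbk, ← card_supersets b s t h2 hst]
    congr 1
    ext T
    simp only [Finset.bipartiteBelow, Finset.mem_filter, Finset.mem_powersetCard, Finset.subset_univ,
      true_and]
    constructor
    · rintro ⟨⟨h3, h4⟩, h5⟩
      exact ⟨⟨h5, h3⟩, h4⟩
    · rintro ⟨⟨h3, h4⟩, h5⟩
      exact ⟨⟨h4, h5⟩, h3⟩
  have h3 := card_supersets (Finset.univ : Finset α) s t (Finset.subset_univ _) hst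
  rw [Finset.card_univ] at h3
  rw [← h3, ← h2, ← h1]
  exact key.symm

/-- Counting the blocks. -/
theorem ncard_mul_choose (hB : IsSteinerSystem t k B) :
    B.ncard * Nat.choose k t = Nat.choose (Fintype.card α) t := by
  have := lambda_eq hB ∅ (by simp)
  simpa [ncard_eq] using this

/-- The intersection equations: summing over all blocks the number of `j`-subsets of `c ∩ X`. -/
theorem mendelsohn (X : Finset α) (j l : ℕ)
    (hl : ∀ J : Finset α, J.card = j → ((blocks B).filter (J ⊆ ·)).card = l) :
    ∑ c ∈ blocks B, Nat.choose (c ∩ X).card j = Nat.choose X.card j * l := by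
  have key := Finset.sum_card_bipartiteAbove_eq_sum_card_bipartiteBelow
    (s := powersetCard j X) (t := blocks B) (fun (J c : Finset α) => J ⊆ c)
  have h1 : ∑ J ∈ powersetCard j X, (Finset.bipartiteAbove (fun (J c : Finset α) => J ⊆ c) (blocks B) J).card
      = Nat.choose X.card j * l := by
    rw [← Finset.card_powersetCard, ← smul_eq_mul, ← Finset.sum_const]
    refine Finset.sum_congr rfl fun J hJ => ?_
    exact hl J (Finset.mem_powersetCard.mp hJ).2
  have h2 : ∑ c ∈ blocks B, (Finset.bipartiteBelow (fun (J c : Finset α) => J ⊆ c) (powersetCard j X) c).card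
      = ∑ c ∈ blocks B, Nat.choose (c ∩ X).card j := by
    refine Finset.sum_congr rfl fun c _ => ?_
    rw [← Finset.card_powersetCard]
    congr 1
    ext J
    simp only [Finset.bipartiteBelow, Finset.mem_filter, Finset.mem_powersetCard, Finset.subset_inter_iff]
    constructor
    · rintro ⟨⟨h3, h4⟩, h5⟩
      exact ⟨⟨h5, h3⟩, h4⟩
    · rintro ⟨⟨h3, h4⟩, h5⟩
      exact ⟨⟨h4, h5⟩, h3⟩
  rw [← h1, ← h2]
  exact key.symm

/-- Grouping the intersection sum by size. -/
theorem sum_fiber_inter (X : Finset α) (j m : ℕ)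
    (hm : ∀ c ∈ blocks B, (c ∩ X).card < m) :
    ∑ c ∈ blocks B, Nat.choose (c ∩ X).card j =
      ∑ i ∈ Finset.range m, ((blocks B).filter (fun c => (c ∩ X).card = i)).card * Nat.choose i j := by
  rw [← Finset.sum_fiberwise_of_maps_to (g := fun c => (c ∩ X).card) (t := Finset.range m)
    (fun c hc => Finset.mem_range.mpr (hm c hc))]
  refine Finset.sum_congr rfl fun i _ => ?_
  rw [Finset.sum_congr rfl (g := fun _ => Nat.choose i j) (fun c hc => by
    rw [(Finset.mem_filter.mp hc).2])]
  rw [Finset.sum_const, smul_eq_mul]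

/-- Two distinct blocks meet in fewer than `t` points. -/
theorem inter_lt (hB : IsSteinerSystem t k B) {b c : Finset α} (hb : b ∈ B) (hc : c ∈ B) (hbc : b ≠ c)
    (htk : t ≤ k) : (b ∩ c).card < t := by
  by_contra hge
  push Not at hge
  obtain ⟨s, hs1, hs2⟩ := Finset.exists_subset_card_eq hge
  obtain ⟨d, _, hd⟩ := hB.2 s hs2
  have h1 := hd b ⟨hb, hs1.trans Finset.inter_subset_left⟩
  have h2 := hd c ⟨hc, hs1.trans Finset.inter_subset_right⟩
  exact hbc (h1.trans h2.symm)

/-- The number of blocks meeting a fixed block in exactly `k` points is one. -/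
theorem count_self (hB : IsSteinerSystem t k B) {b : Finset α} (hb : b ∈ B) (i : ℕ) (hik : i = k) :
    ((blocks B).filter (fun c => (c ∩ b).card = i)).card = 1 := by
  rw [Finset.card_eq_one]
  refine ⟨b, ?_⟩
  ext c
  simp only [Finset.mem_filter, Finset.mem_singleton, mem_blocks]
  constructor
  · rintro ⟨h1, h2⟩
    have h3 : c.card = k := hB.1 c h1
    have h4 : b.card = k := hB.1 b hb
    have h5 : c ∩ b = c := Finset.eq_of_subset_of_card_le Finset.inter_subset_left (by omega)
    have h6 : c ∩ b = b := Finset.eq_of_subset_of_card_le Finset.inter_subset_right (by omega)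
    exact h5.symm.trans h6
  · rintro rfl
    refine ⟨hb, ?_⟩
    rw [Finset.inter_self, hB.1 c hb, hik]

theorem count_zero_of (hB : IsSteinerSystem t k B) {b : Finset α} (hb : b ∈ B) (htk : t ≤ k) (i : ℕ)
    (h1 : t ≤ i) (h2 : i < k) : ((blocks B).filter (fun c => (c ∩ b).card = i)).card = 0 := by
  rw [Finset.card_eq_zero, Finset.filter_eq_empty_iff]
  intro c hc h3
  have hcB := mem_blocks.mp hc
  by_cases hcb : c = b
  · subst hcb
    rw [Finset.inter_self, hB.1 c hb] at h3
    omega
  · have := inter_lt hB hcB hb hcb htk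
    omega

/-- Inter bounded by block size. -/
theorem inter_lt_succ (hB : IsSteinerSystem t k B) {b : Finset α} (c : Finset α) (hc : c ∈ blocks B)
    (_hb : b ∈ B) : (c ∩ b).card < k + 1 := by
  have h1 := Finset.card_le_card (Finset.inter_subset_left (s₁ := c) (s₂ := b))
  rw [hB.1 c (mem_blocks.mp hc)] at h1
  omega

/-- The derived design. -/
theorem derived (hB : IsSteinerSystem (t + 1) (k + 1) B) (p : α) :
    IsSteinerSystem t k {b' : Finset {a : α // a ≠ p} | ∃ b ∈ B, p ∈ b ∧ b' = Finset.subtype (fun a => a ≠ p) b} := by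
  constructor
  · rintro b' ⟨b, hb, hp, rfl⟩
    have h1 := hB.1 b hb
    have h2 : (Finset.subtype (fun a => a ≠ p) b).card = (b.erase p).card := by
      rw [Finset.card_subtype]
      congr 1
      ext a
      simp [Finset.mem_filter, Finset.mem_erase, and_comm]
    rw [h2, Finset.card_erase_of_mem hp, h1]
    rfl
  · intro s hs
    let s' : Finset α := insert p (s.map (Function.Embedding.subtype _))
    have hp : p ∉ s.map (Function.Embedding.subtype _) := by
      simp
    have hs' : s'.card = t + 1 := by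
      rw [Finset.card_insert_of_notMem hp, Finset.card_map, hs]
    obtain ⟨b, ⟨hb1, hb2⟩, hb3⟩ := hB.2 s' hs'
    have hpb : p ∈ b := hb2 (Finset.mem_insert_self _ _)
    refine ⟨Finset.subtype (fun a => a ≠ p) b, ⟨⟨b, hb1, hpb, rfl⟩, ?_⟩, ?_⟩
    · intro x hx
      rw [Finset.mem_subtype]
      exact hb2 (Finset.mem_insert_of_mem (Finset.mem_map.mpr ⟨x, hx, rfl⟩))
    · rintro b' ⟨⟨c, hc, hpc, rfl⟩, hsub⟩
      have : c = b := by
        apply hb3
        refine ⟨hc, ?_⟩
        intro a ha
        rcases Finset.mem_insert.mp ha with rfl | ha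
        · exact hpc
        · obtain ⟨x, hx, rfl⟩ := Finset.mem_map.mp ha
          exact Finset.mem_subtype.mp (hsub hx)
      rw [this]

end Cfsg.Agent.Lib.SteinerBasic
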