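import Mathlib

/-! Standard lists of blocks of `S(5,6,12)` and `S(4,5,11)`. Generated. -/

set_option autoImplicit false

namespace Cfsg.Agent.Lib.SteinerStd

/-- The coordinates of the standard dodecad. -/
def posL : List ℕ := [0, 1, 2, 3, 4, 6, 8, 9, 12, 13, 16, 18]

/-- The hexads on the standard dodecad, in its coordinates. -/
def Std12 : List ℕ := [119, 175, 221, 250, 287, 366, 377, 435, 444, 459, 470, 485, 573, 606, 619, 667, 694, 711, 748, 753, 807, 826, 845, 851, 884, 910, 917, 937, 984, 994, 1083, 1103, 1148, 1182, 1205, 1235, 1254, 1257, 1325, 1334, 1365, 1370, 1379, 1415, 1433, 1450, 1484, 1520, 1559, 1582, 1625, 1637, 1650, 1677, 1699, 1720, 1738, 1748, 1803, 1820, 1841, 1862, 1896, 1938, 1956, 1985, 2110, 2139, 2157, 2199, 2233, 2254, 2275, 2292, 2347, 2357, 2375, 2396, 2418, 2445, 2458, 2470, 2513, 2536, 2575, 2611, 2645, 2662, 2680, 2716, 2725, 2730, 2761, 2770, 2838, 2841, 2860, 2890, 2913, 2947, 2992, 3012, 3101, 3111, 3158, 3178, 3185, 3211, 3244, 3250,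 3269, 3288, 3342, 3347, 3384, 3401, 3428, 3476, 3489, 3522, 3610, 3625, 3636, 3651, 3660, 3718, 3729, 3808, 3845, 3874, 3920, 3976]

/-- The blocks of the standard `S(4,5,11)`: hexads through the coordinate `0`, shifted. -/
def Std11 : List ℕ := [59, 87, 110, 143, 188, 217, 229, 242, 286, 309, 333, 355, 376, 403, 422, 425, 458, 468, 541, 551, 602, 617, 628, 662, 682, 689, 707, 716, 779, 812, 818, 838, 849, 901, 920, 992, 1069, 1078, 1099, 1116, 1137, 1173, 1178, 1187, 1222, 1256, 1287, 1305, 1322, 1362, 1380, 1420, 1456, 1473, 1550, 1555, 1592, 1605, 1634, 1673, 1700, 1744, 1812, 1825, 1864, 1922]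

end Cfsg.Agent.Lib.SteinerStd
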