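import Cfsg.Agent.Lib.SteinerSmall
import Cfsg.Agent.Lib.SteinerStd

/-! Certificate of the labeling search for `S(4,5,11)`. Generated. -/

set_option autoImplicit false
set_option maxRecDepth 100000

namespace Cfsg.Agent.Lib.SteinerCert11

open Cfsg Cfsg.Agent.Lib.SteinerSearch Cfsg.Agent.Lib.SteinerSmall Cfsg.Agent.Lib.SteinerStd

def K0 : List ℕ := [31]

def K1 : List ℕ := [31]

def K2 : List ℕ := [110, 31]

def K3 : List ℕ := [167, 110, 31]

def K4 : List ℕ := [327, 167, 110, 31]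

def K5 : List ℕ := [115, 327, 167, 110, 31]

def K6 : List ℕ := [613, 115, 327, 167, 110, 31]

def K7 : List ℕ := [301, 613, 115, 327, 167, 110, 31]

def K8 : List ℕ := [1077, 301, 613, 115, 327, 167, 110, 31]

def K9 : List ℕ := [1543, 1077, 301, 613, 115, 327, 167, 110, 31]

def K10 : List ℕ := [653, 1543, 1077, 301, 613, 115, 327, 167, 110, 31]

def K11 : List ℕ := [789, 653, 1543, 1077, 301, 613, 115, 327, 167, 110, 31]

def K12 : List ℕ := [1634, 789, 653, 1543, 1077, 301, 613, 115, 327, 167, 110, 31]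

def K13 : List ℕ := [1101, 1634, 789, 653, 1543, 1077, 301, 613, 115, 327, 167, 110, 31]

def K14 : List ℕ := [1318, 1101, 1634, 789, 653, 1543, 1077, 301, 613, 115, 327, 167, 110, 31]

def K15 : List ℕ := [1860, 1318, 1101, 1634, 789, 653, 1543, 1077, 301, 613, 115, 327, 167, 110, 31]

def K16 : List ℕ := [803, 1860, 1318, 1101, 1634, 789, 653, 1543, 1077, 301, 613, 115, 327, 167, 110, 31]

def K17 : List ℕ := [1617, 803, 1860, 1318, 1101, 1634, 789, 653, 1543, 1077, 301, 613, 115, 327, 167, 110, 31]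

def K18 : List ℕ := [1166, 1617, 803, 1860, 1318, 1101, 1634, 789, 653, 1543, 1077, 301, 613, 115, 327, 167, 110, 31]

def K19 : List ℕ := [1922, 1166, 1617, 803, 1860, 1318, 1101, 1634, 789, 653, 1543, 1077, 301, 613, 115, 327, 167, 110, 31]

def K20 : List ℕ := [433, 1922, 1166, 1617, 803, 1860, 1318, 1101, 1634, 789, 653, 1543, 1077, 301, 613, 115, 327, 167, 110, 31]

def K21 : List ℕ := [782, 433, 1922, 1166, 1617, 803, 1860, 1318, 1101, 1634, 789, 653, 1543, 1077, 301, 613, 115, 327, 167, 110, 31]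

def K22 : List ℕ := [1697, 782, 433, 1922, 1166, 1617, 803, 1860, 1318, 1101, 1634, 789, 653, 1543, 1077, 301, 613, 115, 327, 167, 110, 31]

def K23 : List ℕ := [482, 1697, 782, 433, 1922, 1166, 1617, 803, 1860, 1318, 1101, 1634, 789, 653, 1543, 1077, 301, 613, 115, 327, 167, 110, 31]

def K24 : List ℕ := [188, 482, 1697, 782, 433, 1922, 1166, 1617, 803, 1860, 1318, 1101, 1634, 789, 653, 1543, 1077, 301, 613, 115, 327, 167, 110, 31]

def K25 : List ℕ := [1219, 188, 482, 1697, 782, 433, 1922, 1166, 1617, 803, 1860, 1318, 1101, 1634, 789, 653, 1543, 1077, 301, 613, 115, 327, 167, 110, 31]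

def K26 : List ℕ := [1580, 1219, 188, 482, 1697, 782, 433, 1922, 1166, 1617, 803, 1860, 1318, 1101, 1634, 789, 653, 1543, 1077, 301, 613, 115, 327, 167, 110, 31]

def K27 : List ℕ := [406, 1580, 1219, 188, 482, 1697, 782, 433, 1922, 1166, 1617, 803, 1860, 1318, 1101, 1634, 789, 653, 1543, 1077, 301, 613, 115, 327, 167, 110, 31]

def K28 : List ℕ := [233, 406, 1580, 1219, 188, 482, 1697, 782, 433, 1922, 1166, 1617, 803, 1860, 1318, 1101, 1634, 789, 653, 1543, 1077, 301, 613, 115, 327, 167, 110, 31]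

def K29 : List ℕ := [710, 233, 406, 1580, 1219, 188, 482, 1697, 782, 433, 1922, 1166, 1617, 803, 1860, 1318, 1101, 1634, 789, 653, 1543, 1077, 301, 613, 115, 327, 167, 110, 31]

def K30 : List ℕ := [659, 710, 233, 406, 1580, 1219, 188, 482, 1697, 782, 433, 1922, 1166, 1617, 803, 1860, 1318, 1101, 1634, 789, 653, 1543, 1077, 301, 613, 115, 327, 167, 110, 31]

def K31 : List ℕ := [1177, 659, 710, 233, 406, 1580, 1219, 188, 482, 1697, 782, 433, 1922, 1166, 1617, 803, 1860, 1318, 1101, 1634, 789, 653, 1543, 1077, 301, 613, 115, 327, 167, 110, 31]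

def K32 : List ℕ := [1110, 1177, 659, 710, 233, 406, 1580, 1219, 188, 482, 1697, 782, 433, 1922, 1166, 1617, 803, 1860, 1318, 1101, 1634, 789, 653, 1543, 1077, 301, 613, 115, 327, 167, 110, 31]

def K33 : List ℕ := [961, 1110, 1177, 659, 710, 233, 406, 1580, 1219, 188, 482, 1697, 782, 433, 1922, 1166, 1617, 803, 1860, 1318, 1101, 1634, 789, 653, 1543, 1077, 301, 613, 115, 327, 167, 110, 31]

def K34 : List ℕ := [1562, 961, 1110, 1177, 659, 710, 233, 406, 1580, 1219, 188, 482, 1697, 782, 433, 1922, 1166, 1617, 803, 1860, 1318, 1101, 1634, 789, 653, 1543, 1077, 301, 613, 115, 327, 167, 110, 31]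

def K35 : List ℕ := [1736, 1562, 961, 1110, 1177, 659, 710, 233, 406, 1580, 1219, 188, 482, 1697, 782, 433, 1922, 1166, 1617, 803, 1860, 1318, 1101, 1634, 789, 653, 1543, 1077, 301, 613, 115, 327, 167, 110, 31]

def K36 : List ℕ := [752, 1736, 1562, 961, 1110, 1177, 659, 710, 233, 406, 1580, 1219, 188, 482, 1697, 782, 433, 1922, 1166, 1617, 803, 1860, 1318, 1101, 1634, 789, 653, 1543, 1077, 301, 613, 115, 327, 167, 110, 31]

def K37 : List ℕ := [1377, 752, 1736, 1562, 961, 1110, 1177, 659, 710, 233, 406, 1580, 1219, 188, 482, 1697, 782, 433, 1922, 1166, 1617, 803, 1860, 1318, 1101, 1634, 789, 653, 1543, 1077, 301, 613, 115, 327, 167, 110, 31]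

def K38 : List ℕ := [372, 1377, 752, 1736, 1562, 961, 1110, 1177, 659, 710, 233, 406, 1580, 1219, 188, 482, 1697, 782, 433, 1922, 1166, 1617, 803, 1860, 1318, 1101, 1634, 789, 653, 1543, 1077, 301, 613, 115, 327, 167, 110, 31]

def K39 : List ℕ := [1488, 372, 1377, 752, 1736, 1562, 961, 1110, 1177, 659, 710, 233, 406, 1580, 1219, 188, 482, 1697, 782, 433, 1922, 1166, 1617, 803, 1860, 1318, 1101, 1634, 789, 653, 1543, 1077, 301, 613, 115, 327, 167, 110, 31]

def K40 : List ℕ := [682, 1488, 372, 1377, 752, 1736, 1562, 961, 1110, 1177, 659, 710, 233, 406, 1580, 1219, 188, 482, 1697, 782, 433, 1922, 1166, 1617, 803, 1860, 1318, 1101, 1634, 789, 653, 1543, 1077, 301, 613, 115, 327, 167, 110, 31]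

def K41 : List ℕ := [1308, 682, 1488, 372, 1377, 752, 1736, 1562, 961, 1110, 1177, 659, 710, 233, 406, 1580, 1219, 188, 482, 1697, 782, 433, 1922, 1166, 1617, 803, 1860, 1318, 1101, 1634, 789, 653, 1543, 1077, 301, 613, 115, 327, 167, 110, 31]

def K42 : List ℕ := [1067, 1308, 682, 1488, 372, 1377, 752, 1736, 1562, 961, 1110, 1177, 659, 710, 233, 406, 1580, 1219, 188, 482, 1697, 782, 433, 1922, 1166, 1617, 803, 1860, 1318, 1101, 1634, 789, 653, 1543, 1077, 301, 613, 115, 327, 167, 110, 31]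

def K43 : List ℕ := [1202, 1067, 1308, 682, 1488, 372, 1377, 752, 1736, 1562, 961, 1110, 1177, 659, 710, 233, 406, 1580, 1219, 188, 482, 1697, 782, 433, 1922, 1166, 1617, 803, 1860, 1318, 1101, 1634, 789, 653, 1543, 1077, 301, 613, 115, 327, 167, 110, 31]

def K44 : List ℕ := [850, 1202, 1067, 1308, 682, 1488, 372, 1377, 752, 1736, 1562, 961, 1110, 1177, 659, 710, 233, 406, 1580, 1219, 188, 482, 1697, 782, 433, 1922, 1166, 1617, 803, 1860, 1318, 1101, 1634, 789, 653, 1543, 1077, 301, 613, 115, 327, 167, 110, 31]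

def K45 : List ℕ := [218, 850, 1202, 1067, 1308, 682, 1488, 372, 1377, 752, 1736, 1562, 961, 1110, 1177, 659, 710, 233, 406, 1580, 1219, 188, 482, 1697, 782, 433, 1922, 1166, 1617, 803, 1860, 1318, 1101, 1634, 789, 653, 1543, 1077, 301, 613, 115, 327, 167, 110, 31]

def K46 : List ℕ := [1684, 218, 850, 1202, 1067, 1308, 682, 1488, 372, 1377, 752, 1736, 1562, 961, 1110, 1177, 659, 710, 233, 406, 1580, 1219, 188, 482, 1697, 782, 433, 1922, 1166, 1617, 803, 1860, 1318, 1101, 1634, 789, 653, 1543, 1077, 301, 613, 115, 327, 167, 110, 31]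

def K47 : List ℕ := [460, 1684, 218, 850, 1202, 1067, 1308, 682, 1488, 372, 1377, 752, 1736, 1562, 961, 1110, 1177, 659, 710, 233, 406, 1580, 1219, 188, 482, 1697, 782, 433, 1922, 1166, 1617, 803, 1860, 1318, 1101, 1634, 789, 653, 1543, 1077, 301, 613, 115, 327, 167, 110, 31]

def K48 : List ℕ := [1801, 460, 1684, 218, 850, 1202, 1067, 1308, 682, 1488, 372, 1377, 752, 1736, 1562, 961, 1110, 1177, 659, 710, 233, 406, 1580, 1219, 188, 482, 1697, 782, 433, 1922, 1166, 1617, 803, 1860, 1318, 1101, 1634, 789, 653, 1543, 1077, 301, 613, 115, 327, 167, 110, 31]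

def K49 : List ℕ := [1354, 1801, 460, 1684, 218, 850, 1202, 1067, 1308, 682, 1488, 372, 1377, 752, 1736, 1562, 961, 1110, 1177, 659, 710, 233, 406, 1580, 1219, 188, 482, 1697, 782, 433, 1922, 1166, 1617, 803, 1860, 1318, 1101, 1634, 789, 653, 1543, 1077, 301, 613, 115, 327, 167, 110, 31]

def K50 : List ℕ := [395, 1354, 1801, 460, 1684, 218, 850, 1202, 1067, 1308, 682, 1488, 372, 1377, 752, 1736, 1562, 961, 1110, 1177, 659, 710, 233, 406, 1580, 1219, 188, 482, 1697, 782, 433, 1922, 1166, 1617, 803, 1860, 1318, 1101, 1634, 789, 653, 1543, 1077, 301, 613, 115, 327, 167, 110, 31]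

def K51 : List ℕ := [314, 395, 1354, 1801, 460, 1684, 218, 850, 1202, 1067, 1308, 682, 1488, 372, 1377, 752, 1736, 1562, 961, 1110, 1177, 659, 710, 233, 406, 1580, 1219, 188, 482, 1697, 782, 433, 1922, 1166, 1617, 803, 1860, 1318, 1101, 1634, 789, 653, 1543, 1077, 301, 613, 115, 327, 167, 110, 31]

def K52 : List ℕ := [1299, 314, 395, 1354, 1801, 460, 1684, 218, 850, 1202, 1067, 1308, 682, 1488, 372, 1377, 752, 1736, 1562, 961, 1110, 1177, 659, 710, 233, 406, 1580, 1219, 188, 482, 1697, 782, 433, 1922, 1166, 1617, 803, 1860, 1318, 1101, 1634, 789, 653, 1543, 1077, 301, 613, 115, 327, 167, 110, 31]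

def K53 : List ℕ := [569, 1299, 314, 395, 1354, 1801, 460, 1684, 218, 850, 1202, 1067, 1308, 682, 1488, 372, 1377, 752, 1736, 1562, 961, 1110, 1177, 659, 710, 233, 406, 1580, 1219, 188, 482, 1697, 782, 433, 1922, 1166, 1617, 803, 1860, 1318, 1101, 1634, 789, 653, 1543, 1077, 301, 613, 115, 327, 167, 110, 31]

def K54 : List ℕ := [1840, 569, 1299, 314, 395, 1354, 1801, 460, 1684, 218, 850, 1202, 1067, 1308, 682, 1488, 372, 1377, 752, 1736, 1562, 961, 1110, 1177, 659, 710, 233, 406, 1580, 1219, 188, 482, 1697, 782, 433, 1922, 1166, 1617, 803, 1860, 1318, 1101, 1634, 789, 653, 1543, 1077, 301, 613, 115, 327, 167, 110, 31]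

def K55 : List ℕ := [1448, 1840, 569, 1299, 314, 395, 1354, 1801, 460, 1684, 218, 850, 1202, 1067, 1308, 682, 1488, 372, 1377, 752, 1736, 1562, 961, 1110, 1177, 659, 710, 233, 406, 1580, 1219, 188, 482, 1697, 782, 433, 1922, 1166, 1617, 803, 1860, 1318, 1101, 1634, 789, 653, 1543, 1077, 301, 613, 115, 327, 167, 110, 31]

def K56 : List ℕ := [604, 1448, 1840, 569, 1299, 314, 395, 1354, 1801, 460, 1684, 218, 850, 1202, 1067, 1308, 682, 1488, 372, 1377, 752, 1736, 1562, 961, 1110, 1177, 659, 710, 233, 406, 1580, 1219, 188, 482, 1697, 782, 433, 1922, 1166, 1617, 803, 1860, 1318, 1101, 1634, 789, 653, 1543, 1077, 301, 613, 115, 327, 167, 110, 31]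

def K57 : List ℕ := [1413, 604, 1448, 1840, 569, 1299, 314, 395, 1354, 1801, 460, 1684, 218, 850, 1202, 1067, 1308, 682, 1488, 372, 1377, 752, 1736, 1562, 961, 1110, 1177, 659, 710, 233, 406, 1580, 1219, 188, 482, 1697, 782, 433, 1922, 1166, 1617, 803, 1860, 1318, 1101, 1634, 789, 653, 1543, 1077, 301, 613, 115, 327, 167, 110, 31]

def K58 : List ℕ := [566, 1413, 604, 1448, 1840, 569, 1299, 314, 395, 1354, 1801, 460, 1684, 218, 850, 1202, 1067, 1308, 682, 1488, 372, 1377, 752, 1736, 1562, 961, 1110, 1177, 659, 710, 233, 406, 1580, 1219, 188, 482, 1697, 782, 433, 1922, 1166, 1617, 803, 1860, 1318, 1101, 1634, 789, 653, 1543, 1077, 301, 613, 115, 327, 167, 110, 31]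

def K59 : List ℕ := [920, 566, 1413, 604, 1448, 1840, 569, 1299, 314, 395, 1354, 1801, 460, 1684, 218, 850, 1202, 1067, 1308, 682, 1488, 372, 1377, 752, 1736, 1562, 961, 1110, 1177, 659, 710, 233, 406, 1580, 1219, 188, 482, 1697, 782, 433, 1922, 1166, 1617, 803, 1860, 1318, 1101, 1634, 789, 653, 1543, 1077, 301, 613, 115, 327, 167, 110, 31]

def K60 : List ℕ := [872, 920, 566, 1413, 604, 1448, 1840, 569, 1299, 314, 395, 1354, 1801, 460, 1684, 218, 850, 1202, 1067, 1308, 682, 1488, 372, 1377, 752, 1736, 1562, 961, 1110, 1177, 659, 710, 233, 406, 1580, 1219, 188, 482, 1697, 782, 433, 1922, 1166, 1617, 803, 1860, 1318, 1101, 1634, 789, 653, 1543, 1077, 301, 613, 115, 327, 167, 110, 31]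

def K61 : List ℕ := [1144, 872, 920, 566, 1413, 604, 1448, 1840, 569, 1299, 314, 395, 1354, 1801, 460, 1684, 218, 850, 1202, 1067, 1308, 682, 1488, 372, 1377, 752, 1736, 1562, 961, 1110, 1177, 659, 710, 233, 406, 1580, 1219, 188, 482, 1697, 782, 433, 1922, 1166, 1617, 803, 1860, 1318, 1101, 1634, 789, 653, 1543, 1077, 301, 613, 115, 327, 167, 110, 31]

def K62 : List ℕ := [932, 1144, 872, 920, 566, 1413, 604, 1448, 1840, 569, 1299, 314, 395, 1354, 1801, 460, 1684, 218, 850, 1202, 1067, 1308, 682, 1488, 372, 1377, 752, 1736, 1562, 961, 1110, 1177, 659, 710, 233, 406, 1580, 1219, 188, 482, 1697, 782, 433, 1922, 1166, 1617, 803, 1860, 1318, 1101, 1634, 789, 653, 1543, 1077, 301, 613, 115, 327, 167, 110, 31]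

def K63 : List ℕ := [1252, 932, 1144, 872, 920, 566, 1413, 604, 1448, 1840, 569, 1299, 314, 395, 1354, 1801, 460, 1684, 218, 850, 1202, 1067, 1308, 682, 1488, 372, 1377, 752, 1736, 1562, 961, 1110, 1177, 659, 710, 233, 406, 1580, 1219, 188, 482, 1697, 782, 433, 1922, 1166, 1617, 803, 1860, 1318, 1101, 1634, 789, 653, 1543, 1077, 301, 613, 115, 327, 167, 110, 31]

def K64 : List ℕ := [587, 1252, 932, 1144, 872, 920, 566, 1413, 604, 1448, 1840, 569, 1299, 314, 395, 1354, 1801, 460, 1684, 218, 850, 1202, 1067, 1308, 682, 1488, 372, 1377, 752, 1736, 1562, 961, 1110, 1177, 659, 710, 233, 406, 1580, 1219, 188, 482, 1697, 782, 433, 1922, 1166, 1617, 803, 1860, 1318, 1101, 1634, 789, 653, 1543, 1077, 301, 613, 115, 327, 167, 110, 31]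

def K65 : List ℕ := [213, 587, 1252, 932, 1144, 872, 920, 566, 1413, 604, 1448, 1840, 569, 1299, 314, 395, 1354, 1801, 460, 1684, 218, 850, 1202, 1067, 1308, 682, 1488, 372, 1377, 752, 1736, 1562, 961, 1110, 1177, 659, 710, 233, 406, 1580, 1219, 188, 482, 1697, 782, 433, 1922, 1166, 1617, 803, 1860, 1318, 1101, 1634, 789, 653, 1543, 1077, 301, 613, 115, 327, 167, 110, 31]

def K66 : List ℕ := [345, 213, 587, 1252, 932, 1144, 872, 920, 566, 1413, 604, 1448, 1840, 569, 1299, 314, 395, 1354, 1801, 460, 1684, 218, 850, 1202, 1067, 1308, 682, 1488, 372, 1377, 752, 1736, 1562, 961, 1110, 1177, 659, 710, 233, 406, 1580, 1219, 188, 482, 1697, 782, 433, 1922, 1166, 1617, 803, 1860, 1318, 1101, 1634, 789, 653, 1543, 1077, 301, 613, 115, 327, 167, 110, 31]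

def K67 : List ℕ := [1069, 613, 115, 327, 167, 110, 31]

def K68 : List ℕ := [611, 327, 167, 110, 31]

def K69 : List ℕ := [1125, 611, 327, 167, 110, 31]

def K70 : List ℕ := [211, 1125, 611, 327, 167, 110, 31]

def K71 : List ℕ := [1107, 1125, 611, 327, 167, 110, 31]

theorem chk66 : chkLeaf2 11 Std11 K66 [0, 1, 2, 3, 6, 9, 8, 4, 5, 10, 7] = true := by decide +kernel

theorem cnd65 : cands2 11 4 5 [1, 2, 3] 11 K65 281 = [(345, 11)] := by decide +kernel

theorem chk65 : chkBranch2 11 4 5 11 K65 281 = true := by decide +kernel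

theorem rel65_0 : chkRelabel2 11 K66 11 (345 :: K65) [0, 1, 2, 3, 4, 5, 6, 7, 8, 9, 10] = true := by decide +kernel

theorem cnd64 : cands2 11 4 5 [1, 2, 3] 11 K64 197 = [(213, 11)] := by decide +kernel

theorem chk64 : chkBranch2 11 4 5 11 K64 197 = true := by decide +kernel

theorem rel64_0 : chkRelabel2 11 K65 11 (213 :: K64) [0, 1, 2, 3, 4, 5, 6, 7, 8, 9, 10] = true := by decide +kernel

theorem cnd63 : cands2 11 4 5 [1, 2, 3] 11 K63 579 = [(587, 11)] := by decide +kernel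

theorem chk63 : chkBranch2 11 4 5 11 K63 579 = true := by decide +kernel

theorem rel63_0 : chkRelabel2 11 K64 11 (587 :: K63) [0, 1, 2, 3, 4, 5, 6, 7, 8, 9, 10] = true := by decide +kernel

theorem cnd62 : cands2 11 4 5 [1, 2, 3] 11 K62 1248 = [(1252, 11)] := by decide +kernel

theorem chk62 : chkBranch2 11 4 5 11 K62 1248 = true := by decide +kernel

theorem rel62_0 : chkRelabel2 11 K63 11 (1252 :: K62) [0, 1, 2, 3, 4, 5, 6, 7, 8, 9, 10] = true := by decide +kernel

theorem cnd61 : cands2 11 4 5 [1, 2, 3] 11 K61 928 = [(932, 11)] := by decide +kernel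

theorem chk61 : chkBranch2 11 4 5 11 K61 928 = true := by decide +kernel

theorem rel61_0 : chkRelabel2 11 K62 11 (932 :: K61) [0, 1, 2, 3, 4, 5, 6, 7, 8, 9, 10] = true := by decide +kernel

theorem cnd60 : cands2 11 4 5 [1, 2, 3] 11 K60 120 = [(1144, 11)] := by decide +kernel

theorem chk60 : chkBranch2 11 4 5 11 K60 120 = true := by decide +kernel

theorem rel60_0 : chkRelabel2 11 K61 11 (1144 :: K60) [0, 1, 2, 3, 4, 5, 6, 7, 8, 9, 10] = true := by decide +kernel

theorem cnd59 : cands2 11 4 5 [1, 2, 3] 11 K59 864 = [(872, 11)] := by decide +kernel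

theorem chk59 : chkBranch2 11 4 5 11 K59 864 = true := by decide +kernel

theorem rel59_0 : chkRelabel2 11 K60 11 (872 :: K59) [0, 1, 2, 3, 4, 5, 6, 7, 8, 9, 10] = true := by decide +kernel

theorem cnd58 : cands2 11 4 5 [1, 2, 3] 11 K58 904 = [(920, 11)] := by decide +kernel

theorem chk58 : chkBranch2 11 4 5 11 K58 904 = true := by decide +kernel

theorem rel58_0 : chkRelabel2 11 K59 11 (920 :: K58) [0, 1, 2, 3, 4, 5, 6, 7, 8, 9, 10] = true := by decide +kernel

theorem cnd57 : cands2 11 4 5 [1, 2, 3] 11 K57 54 = [(566, 11)] := by decide +kernel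

theorem chk57 : chkBranch2 11 4 5 11 K57 54 = true := by decide +kernel

theorem rel57_0 : chkRelabel2 11 K58 11 (566 :: K57) [0, 1, 2, 3, 4, 5, 6, 7, 8, 9, 10] = true := by decide +kernel

theorem cnd56 : cands2 11 4 5 [1, 2, 3] 11 K56 1409 = [(1413, 11)] := by decide +kernel

theorem chk56 : chkBranch2 11 4 5 11 K56 1409 = true := by decide +kernel

theorem rel56_0 : chkRelabel2 11 K57 11 (1413 :: K56) [0, 1, 2, 3, 4, 5, 6, 7, 8, 9, 10] = true := by decide +kernel

theorem cnd55 : cands2 11 4 5 [1, 2, 3] 11 K55 588 = [(604, 11)] := by decide +kernel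

theorem chk55 : chkBranch2 11 4 5 11 K55 588 = true := by decide +kernel

theorem rel55_0 : chkRelabel2 11 K56 11 (604 :: K55) [0, 1, 2, 3, 4, 5, 6, 7, 8, 9, 10] = true := by decide +kernel

theorem cnd54 : cands2 11 4 5 [1, 2, 3] 11 K54 1320 = [(1448, 11)] := by decide +kernel

theorem chk54 : chkBranch2 11 4 5 11 K54 1320 = true := by decide +kernel

theorem rel54_0 : chkRelabel2 11 K55 11 (1448 :: K54) [0, 1, 2, 3, 4, 5, 6, 7, 8, 9, 10] = true := by decide +kernel

theorem cnd53 : cands2 11 4 5 [1, 2, 3] 11 K53 1328 = [(1840, 11)] := by decide +kernel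

theorem chk53 : chkBranch2 11 4 5 11 K53 1328 = true := by decide +kernel

theorem rel53_0 : chkRelabel2 11 K54 11 (1840 :: K53) [0, 1, 2, 3, 4, 5, 6, 7, 8, 9, 10] = true := by decide +kernel

theorem cnd52 : cands2 11 4 5 [1, 2, 3] 11 K52 561 = [(569, 11)] := by decide +kernel

theorem chk52 : chkBranch2 11 4 5 11 K52 561 = true := by decide +kernel

theorem rel52_0 : chkRelabel2 11 K53 11 (569 :: K52) [0, 1, 2, 3, 4, 5, 6, 7, 8, 9, 10] = true := by decide +kernel

theorem cnd51 : cands2 11 4 5 [1, 2, 3] 11 K51 275 = [(1299, 11)] := by decide +kernel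

theorem chk51 : chkBranch2 11 4 5 11 K51 275 = true := by decide +kernel

theorem rel51_0 : chkRelabel2 11 K52 11 (1299 :: K51) [0, 1, 2, 3, 4, 5, 6, 7, 8, 9, 10] = true := by decide +kernel

theorem cnd50 : cands2 11 4 5 [1, 2, 3] 11 K50 312 = [(314, 11)] := by decide +kernel

theorem chk50 : chkBranch2 11 4 5 11 K50 312 = true := by decide +kernel

theorem rel50_0 : chkRelabel2 11 K51 11 (314 :: K50) [0, 1, 2, 3, 4, 5, 6, 7, 8, 9, 10] = true := by decide +kernel

theorem cnd49 : cands2 11 4 5 [1, 2, 3] 11 K49 267 = [(395, 11)] := by decide +kernel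

theorem chk49 : chkBranch2 11 4 5 11 K49 267 = true := by decide +kernel

theorem rel49_0 : chkRelabel2 11 K50 11 (395 :: K49) [0, 1, 2, 3, 4, 5, 6, 7, 8, 9, 10] = true := by decide +kernel

theorem cnd48 : cands2 11 4 5 [1, 2, 3] 11 K48 1346 = [(1354, 11)] := by decide +kernel

theorem chk48 : chkBranch2 11 4 5 11 K48 1346 = true := by decide +kernel

theorem rel48_0 : chkRelabel2 11 K49 11 (1354 :: K48) [0, 1, 2, 3, 4, 5, 6, 7, 8, 9, 10] = true := by decide +kernel

theorem cnd47 : cands2 11 4 5 [1, 2, 3] 11 K47 777 = [(1801, 11)] := by decide +kernel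

theorem chk47 : chkBranch2 11 4 5 11 K47 777 = true := by decide +kernel

theorem rel47_0 : chkRelabel2 11 K48 11 (1801 :: K47) [0, 1, 2, 3, 4, 5, 6, 7, 8, 9, 10] = true := by decide +kernel

theorem cnd46 : cands2 11 4 5 [1, 2, 3] 11 K46 456 = [(460, 11)] := by decide +kernel

theorem chk46 : chkBranch2 11 4 5 11 K46 456 = true := by decide +kernel

theorem rel46_0 : chkRelabel2 11 K47 11 (460 :: K46) [0, 1, 2, 3, 4, 5, 6, 7, 8, 9, 10] = true := by decide +kernel

theorem cnd45 : cands2 11 4 5 [1, 2, 3] 11 K45 1680 = [(1684, 11)] := by decide +kernel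

theorem chk45 : chkBranch2 11 4 5 11 K45 1680 = true := by decide +kernel

theorem rel45_0 : chkRelabel2 11 K46 11 (1684 :: K45) [0, 1, 2, 3, 4, 5, 6, 7, 8, 9, 10] = true := by decide +kernel

theorem cnd44 : cands2 11 4 5 [1, 2, 3] 11 K44 216 = [(218, 11)] := by decide +kernel

theorem chk44 : chkBranch2 11 4 5 11 K44 216 = true := by decide +kernel

theorem rel44_0 : chkRelabel2 11 K45 11 (218 :: K44) [0, 1, 2, 3, 4, 5, 6, 7, 8, 9, 10] = true := by decide +kernel

theorem cnd43 : cands2 11 4 5 [1, 2, 3] 11 K43 594 = [(850, 11)] := by decide +kernel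

theorem chk43 : chkBranch2 11 4 5 11 K43 594 = true := by decide +kernel

theorem rel43_0 : chkRelabel2 11 K44 11 (850 :: K43) [0, 1, 2, 3, 4, 5, 6, 7, 8, 9, 10] = true := by decide +kernel

theorem cnd42 : cands2 11 4 5 [1, 2, 3] 11 K42 1074 = [(1202, 11)] := by decide +kernel

theorem chk42 : chkBranch2 11 4 5 11 K42 1074 = true := by decide +kernel

theorem rel42_0 : chkRelabel2 11 K43 11 (1202 :: K42) [0, 1, 2, 3, 4, 5, 6, 7, 8, 9, 10] = true := by decide +kernel

theorem cnd41 : cands2 11 4 5 [1, 2, 3] 11 K41 1059 = [(1067, 11)] := by decide +kernel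

theorem chk41 : chkBranch2 11 4 5 11 K41 1059 = true := by decide +kernel

theorem rel41_0 : chkRelabel2 11 K42 11 (1067 :: K41) [0, 1, 2, 3, 4, 5, 6, 7, 8, 9, 10] = true := by decide +kernel

theorem cnd40 : cands2 11 4 5 [1, 2, 3] 11 K40 1304 = [(1308, 11)] := by decide +kernel

theorem chk40 : chkBranch2 11 4 5 11 K40 1304 = true := by decide +kernel

theorem rel40_0 : chkRelabel2 11 K41 11 (1308 :: K40) [0, 1, 2, 3, 4, 5, 6, 7, 8, 9, 10] = true := by decide +kernel

theorem cnd39 : cands2 11 4 5 [1, 2, 3] 11 K39 170 = [(682, 11)] := by decide +kernel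

theorem chk39 : chkBranch2 11 4 5 11 K39 170 = true := by decide +kernel

theorem rel39_0 : chkRelabel2 11 K40 11 (682 :: K39) [0, 1, 2, 3, 4, 5, 6, 7, 8, 9, 10] = true := by decide +kernel

theorem cnd38 : cands2 11 4 5 [1, 2, 3] 11 K38 464 = [(1488, 11)] := by decide +kernel

theorem chk38 : chkBranch2 11 4 5 11 K38 464 = true := by decide +kernel

theorem rel38_0 : chkRelabel2 11 K39 11 (1488 :: K38) [0, 1, 2, 3, 4, 5, 6, 7, 8, 9, 10] = true := by decide +kernel

theorem cnd37 : cands2 11 4 5 [1, 2, 3] 11 K37 116 = [(372, 11)] := by decide +kernel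

theorem chk37 : chkBranch2 11 4 5 11 K37 116 = true := by decide +kernel

theorem rel37_0 : chkRelabel2 11 K38 11 (372 :: K37) [0, 1, 2, 3, 4, 5, 6, 7, 8, 9, 10] = true := by decide +kernel

theorem cnd36 : cands2 11 4 5 [1, 2, 3] 11 K36 353 = [(1377, 11)] := by decide +kernel

theorem chk36 : chkBranch2 11 4 5 11 K36 353 = true := by decide +kernel

theorem rel36_0 : chkRelabel2 11 K37 11 (1377 :: K36) [0, 1, 2, 3, 4, 5, 6, 7, 8, 9, 10] = true := by decide +kernel

theorem cnd35 : cands2 11 4 5 [1, 2, 3] 11 K35 688 = [(752, 11)] := by decide +kernel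

theorem chk35 : chkBranch2 11 4 5 11 K35 688 = true := by decide +kernel

theorem rel35_0 : chkRelabel2 11 K36 11 (752 :: K35) [0, 1, 2, 3, 4, 5, 6, 7, 8, 9, 10] = true := by decide +kernel

theorem cnd34 : cands2 11 4 5 [1, 2, 3] 11 K34 1672 = [(1736, 11)] := by decide +kernel

theorem chk34 : chkBranch2 11 4 5 11 K34 1672 = true := by decide +kernel

theorem rel34_0 : chkRelabel2 11 K35 11 (1736 :: K34) [0, 1, 2, 3, 4, 5, 6, 7, 8, 9, 10] = true := by decide +kernel

theorem cnd33 : cands2 11 4 5 [1, 2, 3] 11 K33 1050 = [(1562, 11)] := by decide +kernel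

theorem chk33 : chkBranch2 11 4 5 11 K33 1050 = true := by decide +kernel

theorem rel33_0 : chkRelabel2 11 K34 11 (1562 :: K33) [0, 1, 2, 3, 4, 5, 6, 7, 8, 9, 10] = true := by decide +kernel

theorem cnd32 : cands2 11 4 5 [1, 2, 3] 11 K32 449 = [(961, 11)] := by decide +kernel

theorem chk32 : chkBranch2 11 4 5 11 K32 449 = true := by decide +kernel

theorem rel32_0 : chkRelabel2 11 K33 11 (961 :: K32) [0, 1, 2, 3, 4, 5, 6, 7, 8, 9, 10] = true := by decide +kernel

theorem cnd31 : cands2 11 4 5 [1, 2, 3] 11 K31 1046 = [(1110, 11)] := by decide +kernel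

theorem chk31 : chkBranch2 11 4 5 11 K31 1046 = true := by decide +kernel

theorem rel31_0 : chkRelabel2 11 K32 11 (1110 :: K31) [0, 1, 2, 3, 4, 5, 6, 7, 8, 9, 10] = true := by decide +kernel

theorem cnd30 : cands2 11 4 5 [1, 2, 3] 11 K30 1049 = [(1177, 11)] := by decide +kernel

theorem chk30 : chkBranch2 11 4 5 11 K30 1049 = true := by decide +kernel

theorem rel30_0 : chkRelabel2 11 K31 11 (1177 :: K30) [0, 1, 2, 3, 4, 5, 6, 7, 8, 9, 10] = true := by decide +kernel

theorem cnd29 : cands2 11 4 5 [1, 2, 3] 11 K29 643 = [(659, 11)] := by decide +kernel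

theorem chk29 : chkBranch2 11 4 5 11 K29 643 = true := by decide +kernel

theorem rel29_0 : chkRelabel2 11 K30 11 (659 :: K29) [0, 1, 2, 3, 4, 5, 6, 7, 8, 9, 10] = true := by decide +kernel

theorem cnd28 : cands2 11 4 5 [1, 2, 3] 11 K28 198 = [(710, 11)] := by decide +kernel

theorem chk28 : chkBranch2 11 4 5 11 K28 198 = true := by decide +kernel

theorem rel28_0 : chkRelabel2 11 K29 11 (710 :: K28) [0, 1, 2, 3, 4, 5, 6, 7, 8, 9, 10] = true := by decide +kernel

theorem cnd27 : cands2 11 4 5 [1, 2, 3] 11 K27 169 = [(233, 11)] := by decide +kernel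

theorem chk27 : chkBranch2 11 4 5 11 K27 169 = true := by decide +kernel

theorem rel27_0 : chkRelabel2 11 K28 11 (233 :: K27) [0, 1, 2, 3, 4, 5, 6, 7, 8, 9, 10] = true := by decide +kernel

theorem cnd26 : cands2 11 4 5 [1, 2, 3] 11 K26 402 = [(406, 11)] := by decide +kernel

theorem chk26 : chkBranch2 11 4 5 11 K26 402 = true := by decide +kernel

theorem rel26_0 : chkRelabel2 11 K27 11 (406 :: K26) [0, 1, 2, 3, 4, 5, 6, 7, 8, 9, 10] = true := by decide +kernel

theorem cnd25 : cands2 11 4 5 [1, 2, 3] 11 K25 1572 = [(1580, 11)] := by decide +kernel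

theorem chk25 : chkBranch2 11 4 5 11 K25 1572 = true := by decide +kernel

theorem rel25_0 : chkRelabel2 11 K26 11 (1580 :: K25) [0, 1, 2, 3, 4, 5, 6, 7, 8, 9, 10] = true := by decide +kernel

theorem cnd24 : cands2 11 4 5 [1, 2, 3] 11 K24 1218 = [(1219, 11)] := by decide +kernel

theorem chk24 : chkBranch2 11 4 5 11 K24 1218 = true := by decide +kernel

theorem rel24_0 : chkRelabel2 11 K25 11 (1219 :: K24) [0, 1, 2, 3, 4, 5, 6, 7, 8, 9, 10] = true := by decide +kernel

theorem cnd23 : cands2 11 4 5 [1, 2, 3] 11 K23 172 = [(188, 11)] := by decide +kernel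

theorem chk23 : chkBranch2 11 4 5 11 K23 172 = true := by decide +kernel

theorem rel23_0 : chkRelabel2 11 K24 11 (188 :: K23) [0, 1, 2, 3, 4, 5, 6, 7, 8, 9, 10] = true := by decide +kernel

theorem cnd22 : cands2 11 4 5 [1, 2, 3] 11 K22 226 = [(482, 11)] := by decide +kernel

theorem chk22 : chkBranch2 11 4 5 11 K22 226 = true := by decide +kernel

theorem rel22_0 : chkRelabel2 11 K23 11 (482 :: K22) [0, 1, 2, 3, 4, 5, 6, 7, 8, 9, 10] = true := by decide +kernel

theorem cnd21 : cands2 11 4 5 [1, 2, 3] 11 K21 673 = [(1697, 11)] := by decide +kernel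

theorem chk21 : chkBranch2 11 4 5 11 K21 673 = true := by decide +kernel

theorem rel21_0 : chkRelabel2 11 K22 11 (1697 :: K21) [0, 1, 2, 3, 4, 5, 6, 7, 8, 9, 10] = true := by decide +kernel

theorem cnd20 : cands2 11 4 5 [1, 2, 3] 11 K20 780 = [(782, 11)] := by decide +kernel

theorem chk20 : chkBranch2 11 4 5 11 K20 780 = true := by decide +kernel

theorem rel20_0 : chkRelabel2 11 K21 11 (782 :: K20) [0, 1, 2, 3, 4, 5, 6, 7, 8, 9, 10] = true := by decide +kernel

theorem cnd19 : cands2 11 4 5 [1, 2, 3] 11 K19 305 = [(433, 11)] := by decide +kernel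

theorem chk19 : chkBranch2 11 4 5 11 K19 305 = true := by decide +kernel

theorem rel19_0 : chkRelabel2 11 K20 11 (433 :: K19) [0, 1, 2, 3, 4, 5, 6, 7, 8, 9, 10] = true := by decide +kernel

theorem cnd18 : cands2 11 4 5 [1, 2, 3] 11 K18 1666 = [(1922, 11)] := by decide +kernel

theorem chk18 : chkBranch2 11 4 5 11 K18 1666 = true := by decide +kernel

theorem rel18_0 : chkRelabel2 11 K19 11 (1922 :: K18) [0, 1, 2, 3, 4, 5, 6, 7, 8, 9, 10] = true := by decide +kernel

theorem cnd17 : cands2 11 4 5 [1, 2, 3] 11 K17 1038 = [(1166, 11)] := by decide +kernel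

theorem chk17 : chkBranch2 11 4 5 11 K17 1038 = true := by decide +kernel

theorem rel17_0 : chkRelabel2 11 K18 11 (1166 :: K17) [0, 1, 2, 3, 4, 5, 6, 7, 8, 9, 10] = true := by decide +kernel

theorem cnd16 : cands2 11 4 5 [1, 2, 3] 11 K16 1616 = [(1617, 11)] := by decide +kernel

theorem chk16 : chkBranch2 11 4 5 11 K16 1616 = true := by decide +kernel

theorem rel16_0 : chkRelabel2 11 K17 11 (1617 :: K16) [0, 1, 2, 3, 4, 5, 6, 7, 8, 9, 10] = true := by decide +kernel

theorem cnd15 : cands2 11 4 5 [1, 2, 3] 11 K15 291 = [(803, 11)] := by decide +kernel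

theorem chk15 : chkBranch2 11 4 5 11 K15 291 = true := by decide +kernel

theorem rel15_0 : chkRelabel2 11 K16 11 (803 :: K15) [0, 1, 2, 3, 4, 5, 6, 7, 8, 9, 10] = true := by decide +kernel

theorem cnd14 : cands2 11 4 5 [1, 2, 3] 11 K14 1796 = [(1860, 11)] := by decide +kernel

theorem chk14 : chkBranch2 11 4 5 11 K14 1796 = true := by decide +kernel

theorem rel14_0 : chkRelabel2 11 K15 11 (1860 :: K14) [0, 1, 2, 3, 4, 5, 6, 7, 8, 9, 10] = true := by decide +kernel

theorem cnd13 : cands2 11 4 5 [1, 2, 3] 11 K13 1062 = [(1318, 11)] := by decide +kernel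

theorem chk13 : chkBranch2 11 4 5 11 K13 1062 = true := by decide +kernel

theorem rel13_0 : chkRelabel2 11 K14 11 (1318 :: K13) [0, 1, 2, 3, 4, 5, 6, 7, 8, 9, 10] = true := by decide +kernel

theorem cnd12 : cands2 11 4 5 [1, 2, 3] 11 K12 1037 = [(1101, 11)] := by decide +kernel

theorem chk12 : chkBranch2 11 4 5 11 K12 1037 = true := by decide +kernel

theorem rel12_0 : chkRelabel2 11 K13 11 (1101 :: K12) [0, 1, 2, 3, 4, 5, 6, 7, 8, 9, 10] = true := by decide +kernel

theorem cnd11 : cands2 11 4 5 [1, 2, 3] 11 K11 1122 = [(1634, 11)] := by decide +kernel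

theorem chk11 : chkBranch2 11 4 5 11 K11 1122 = true := by decide +kernel

theorem rel11_0 : chkRelabel2 11 K12 11 (1634 :: K11) [0, 1, 2, 3, 4, 5, 6, 7, 8, 9, 10] = true := by decide +kernel

theorem cnd10 : cands2 11 4 5 [1, 2, 3] 11 K10 533 = [(789, 11)] := by decide +kernel

theorem chk10 : chkBranch2 11 4 5 11 K10 533 = true := by decide +kernel

theorem rel10_0 : chkRelabel2 11 K11 11 (789 :: K10) [0, 1, 2, 3, 4, 5, 6, 7, 8, 9, 10] = true := by decide +kernel

theorem cnd9 : cands2 11 4 5 [1, 2, 3] 11 K9 525 = [(653, 11)] := by decide +kernel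

theorem chk9 : chkBranch2 11 4 5 11 K9 525 = true := by decide +kernel

theorem rel9_0 : chkRelabel2 11 K10 11 (653 :: K9) [0, 1, 2, 3, 4, 5, 6, 7, 8, 9, 10] = true := by decide +kernel

theorem cnd8 : cands2 11 4 5 [1, 2, 3] 11 K8 519 = [(1543, 11)] := by decide +kernel

theorem chk8 : chkBranch2 11 4 5 11 K8 519 = true := by decide +kernel

theorem rel8_0 : chkRelabel2 11 K9 11 (1543 :: K8) [0, 1, 2, 3, 4, 5, 6, 7, 8, 9, 10] = true := by decide +kernel

theorem cnd7 : cands2 11 4 5 [1, 2, 3] 10 K7 53 = [(1077, 11)] := by decide +kernel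

theorem chk7 : chkBranch2 11 4 5 10 K7 53 = true := by decide +kernel

theorem rel7_0 : chkRelabel2 11 K8 11 (1077 :: K7) [0, 1, 2, 3, 4, 5, 6, 7, 8, 9, 10] = true := by decide +kernel

theorem cnd67 : cands2 11 4 5 [1, 2, 3] 11 K67 77 = [(205, 11)] := by decide +kernel

theorem chk67 : chkBranch2 11 4 5 11 K67 77 = true := by decide +kernel

theorem rel67_0 : chkRelabel2 10 K7 11 (205 :: K67) [0, 1, 2, 3, 4, 6, 5, 8, 7, 9] = true := by decide +kernel

theorem cnd6 : cands2 11 4 5 [1, 2, 3] 10 K6 45 = [(301, 10), (1069, 11)] := by decide +kernel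

theorem chk6 : chkBranch2 11 4 5 10 K6 45 = true := by decide +kernel

theorem rel6_0 : chkRelabel2 10 K7 10 (301 :: K6) [0, 1, 2, 3, 4, 5, 6, 7, 8, 9] = true := by decide +kernel

theorem rel6_1 : chkRelabel2 11 K67 11 (1069 :: K6) [0, 1, 2, 3, 4, 5, 6, 7, 8, 9, 10] = true := by decide +kernel

theorem cnd5 : cands2 11 4 5 [1, 2, 3] 9 K5 101 = [(613, 10)] := by decide +kernel

theorem chk5 : chkBranch2 11 4 5 9 K5 101 = true := by decide +kernel

theorem rel5_0 : chkRelabel2 10 K6 10 (613 :: K5) [0, 1, 2, 3, 4, 5, 6, 7, 8, 9] = true := by decide +kernel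

theorem cnd70 : cands2 11 4 5 [1, 2, 3] 11 K70 519 = [(1543, 11)] := by decide +kernel

theorem chk70 : chkBranch2 11 4 5 11 K70 519 = true := by decide +kernel

theorem rel70_0 : chkRelabel2 9 K5 11 (1543 :: K70) [2, 0, 1, 9, 10, 5, 6, 7, 8] = true := by decide +kernel

theorem cnd71 : cands2 11 4 5 [1, 2, 3] 11 K71 75 = [(203, 11)] := by decide +kernel

theorem chk71 : chkBranch2 11 4 5 11 K71 75 = true := by decide +kernel

theorem rel71_0 : chkRelabel2 9 K5 11 (203 :: K71) [0, 1, 2, 5, 7, 3, 6, 4, 8] = true := by decide +kernel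

theorem cnd69 : cands2 11 4 5 [1, 2, 3] 11 K69 83 = [(211, 11), (1107, 11)] := by decide +kernel

theorem chk69 : chkBranch2 11 4 5 11 K69 83 = true := by decide +kernel

theorem rel69_0 : chkRelabel2 11 K70 11 (211 :: K69) [0, 1, 2, 3, 4, 5, 6, 7, 8, 9, 10] = true := by decide +kernel

theorem rel69_1 : chkRelabel2 11 K71 11 (1107 :: K69) [0, 1, 2, 3, 4, 5, 6, 7, 8, 9, 10] = true := by decide +kernel

theorem cnd68 : cands2 11 4 5 [1, 2, 3] 10 K68 101 = [(117, 10), (1125, 11)] := by decide +kernel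

theorem chk68 : chkBranch2 11 4 5 10 K68 101 = true := by decide +kernel

theorem rel68_0 : chkRelabel2 9 K5 10 (117 :: K68) [0, 2, 1, 3, 4, 5, 6, 7, 8] = true := by decide +kernel

theorem rel68_1 : chkRelabel2 11 K69 11 (1125 :: K68) [0, 1, 2, 3, 4, 5, 6, 7, 8, 9, 10] = true := by decide +kernel

theorem cnd4 : cands2 11 4 5 [1, 2, 3] 9 K4 99 = [(115, 9), (611, 10)] := by decide +kernel

theorem chk4 : chkBranch2 11 4 5 9 K4 99 = true := by decide +kernel

theorem rel4_0 : chkRelabel2 9 K5 9 (115 :: K4) [0, 1, 2, 3, 4, 5, 6, 7, 8] = true := by decide +kernel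

theorem rel4_1 : chkRelabel2 10 K68 10 (611 :: K4) [0, 1, 2, 3, 4, 5, 6, 7, 8, 9] = true := by decide +kernel

theorem cnd3 : cands2 11 4 5 [1, 2, 3] 8 K3 71 = [(327, 9)] := by decide +kernel

theorem chk3 : chkBranch2 11 4 5 8 K3 71 = true := by decide +kernel

theorem rel3_0 : chkRelabel2 9 K4 9 (327 :: K3) [0, 1, 2, 3, 4, 5, 6, 7, 8] = true := by decide +kernel

theorem cnd2 : cands2 11 4 5 [1, 2, 3] 7 K2 39 = [(167, 8)] := by decide +kernel

theorem chk2 : chkBranch2 11 4 5 7 K2 39 = true := by decide +kernel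

theorem rel2_0 : chkRelabel2 8 K3 8 (167 :: K2) [0, 1, 2, 3, 4, 5, 6, 7] = true := by decide +kernel

theorem cnd1 : cands2 11 4 5 [1, 2, 3] 6 K1 46 = [(110, 7)] := by decide +kernel

theorem chk1 : chkBranch2 11 4 5 6 K1 46 = true := by decide +kernel

theorem rel1_0 : chkRelabel2 7 K2 7 (110 :: K1) [0, 1, 2, 3, 4, 5, 6] = true := by decide +kernel

section
variable {A : Type*} [DecidableEq A] [Fintype A] (Y : Sys2 A 11 4 5 [1, 2, 3])

theorem node66 : Good2 Y (Main2 Y Std11) 11 K66 := leaf2 Y chk66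

theorem node65 : Good2 Y (Main2 Y Std11) 11 K65 := by
  refine branch2' Y (Main2 Y Std11) chk65 ?_
  rw [cnd65]
  intro c hc
  simp only [List.mem_cons, List.not_mem_nil, or_false] at hc
  rcases hc with rfl
  · exact relabel2 Y (Main2 Y Std11) [0, 1, 2, 3, 4, 5, 6, 7, 8, 9, 10] rel65_0 (node66 Y)

theorem node64 : Good2 Y (Main2 Y Std11) 11 K64 := by
  refine branch2' Y (Main2 Y Std11) chk64 ?_
  rw [cnd64]
  intro c hc
  simp only [List.mem_cons, List.not_mem_nil, or_false] at hc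
  rcases hc with rfl
  · exact relabel2 Y (Main2 Y Std11) [0, 1, 2, 3, 4, 5, 6, 7, 8, 9, 10] rel64_0 (node65 Y)

theorem node63 : Good2 Y (Main2 Y Std11) 11 K63 := by
  refine branch2' Y (Main2 Y Std11) chk63 ?_
  rw [cnd63]
  intro c hc
  simp only [List.mem_cons, List.not_mem_nil, or_false] at hc
  rcases hc with rfl
  · exact relabel2 Y (Main2 Y Std11) [0, 1, 2, 3, 4, 5, 6, 7, 8, 9, 10] rel63_0 (node64 Y)

theorem node62 : Good2 Y (Main2 Y Std11) 11 K62 := by
  refine branch2' Y (Main2 Y Std11) chk62 ?_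
  rw [cnd62]
  intro c hc
  simp only [List.mem_cons, List.not_mem_nil, or_false] at hc
  rcases hc with rfl
  · exact relabel2 Y (Main2 Y Std11) [0, 1, 2, 3, 4, 5, 6, 7, 8, 9, 10] rel62_0 (node63 Y)

theorem node61 : Good2 Y (Main2 Y Std11) 11 K61 := by
  refine branch2' Y (Main2 Y Std11) chk61 ?_
  rw [cnd61]
  intro c hc
  simp only [List.mem_cons, List.not_mem_nil, or_false] at hc
  rcases hc with rfl
  · exact relabel2 Y (Main2 Y Std11) [0, 1, 2, 3, 4, 5, 6, 7, 8, 9, 10] rel61_0 (node62 Y)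

theorem node60 : Good2 Y (Main2 Y Std11) 11 K60 := by
  refine branch2' Y (Main2 Y Std11) chk60 ?_
  rw [cnd60]
  intro c hc
  simp only [List.mem_cons, List.not_mem_nil, or_false] at hc
  rcases hc with rfl
  · exact relabel2 Y (Main2 Y Std11) [0, 1, 2, 3, 4, 5, 6, 7, 8, 9, 10] rel60_0 (node61 Y)

theorem node59 : Good2 Y (Main2 Y Std11) 11 K59 := by
  refine branch2' Y (Main2 Y Std11) chk59 ?_
  rw [cnd59]
  intro c hc
  simp only [List.mem_cons, List.not_mem_nil, or_false] at hc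
  rcases hc with rfl
  · exact relabel2 Y (Main2 Y Std11) [0, 1, 2, 3, 4, 5, 6, 7, 8, 9, 10] rel59_0 (node60 Y)

theorem node58 : Good2 Y (Main2 Y Std11) 11 K58 := by
  refine branch2' Y (Main2 Y Std11) chk58 ?_
  rw [cnd58]
  intro c hc
  simp only [List.mem_cons, List.not_mem_nil, or_false] at hc
  rcases hc with rfl
  · exact relabel2 Y (Main2 Y Std11) [0, 1, 2, 3, 4, 5, 6, 7, 8, 9, 10] rel58_0 (node59 Y)

theorem node57 : Good2 Y (Main2 Y Std11) 11 K57 := by
  refine branch2' Y (Main2 Y Std11) chk57 ?_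
  rw [cnd57]
  intro c hc
  simp only [List.mem_cons, List.not_mem_nil, or_false] at hc
  rcases hc with rfl
  · exact relabel2 Y (Main2 Y Std11) [0, 1, 2, 3, 4, 5, 6, 7, 8, 9, 10] rel57_0 (node58 Y)

theorem node56 : Good2 Y (Main2 Y Std11) 11 K56 := by
  refine branch2' Y (Main2 Y Std11) chk56 ?_
  rw [cnd56]
  intro c hc
  simp only [List.mem_cons, List.not_mem_nil, or_false] at hc
  rcases hc with rfl
  · exact relabel2 Y (Main2 Y Std11) [0, 1, 2, 3, 4, 5, 6, 7, 8, 9, 10] rel56_0 (node57 Y)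

theorem node55 : Good2 Y (Main2 Y Std11) 11 K55 := by
  refine branch2' Y (Main2 Y Std11) chk55 ?_
  rw [cnd55]
  intro c hc
  simp only [List.mem_cons, List.not_mem_nil, or_false] at hc
  rcases hc with rfl
  · exact relabel2 Y (Main2 Y Std11) [0, 1, 2, 3, 4, 5, 6, 7, 8, 9, 10] rel55_0 (node56 Y)

theorem node54 : Good2 Y (Main2 Y Std11) 11 K54 := by
  refine branch2' Y (Main2 Y Std11) chk54 ?_
  rw [cnd54]
  intro c hc
  simp only [List.mem_cons, List.not_mem_nil, or_false] at hc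
  rcases hc with rfl
  · exact relabel2 Y (Main2 Y Std11) [0, 1, 2, 3, 4, 5, 6, 7, 8, 9, 10] rel54_0 (node55 Y)

theorem node53 : Good2 Y (Main2 Y Std11) 11 K53 := by
  refine branch2' Y (Main2 Y Std11) chk53 ?_
  rw [cnd53]
  intro c hc
  simp only [List.mem_cons, List.not_mem_nil, or_false] at hc
  rcases hc with rfl
  · exact relabel2 Y (Main2 Y Std11) [0, 1, 2, 3, 4, 5, 6, 7, 8, 9, 10] rel53_0 (node54 Y)

theorem node52 : Good2 Y (Main2 Y Std11) 11 K52 := by
  refine branch2' Y (Main2 Y Std11) chk52 ?_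
  rw [cnd52]
  intro c hc
  simp only [List.mem_cons, List.not_mem_nil, or_false] at hc
  rcases hc with rfl
  · exact relabel2 Y (Main2 Y Std11) [0, 1, 2, 3, 4, 5, 6, 7, 8, 9, 10] rel52_0 (node53 Y)

theorem node51 : Good2 Y (Main2 Y Std11) 11 K51 := by
  refine branch2' Y (Main2 Y Std11) chk51 ?_
  rw [cnd51]
  intro c hc
  simp only [List.mem_cons, List.not_mem_nil, or_false] at hc
  rcases hc with rfl
  · exact relabel2 Y (Main2 Y Std11) [0, 1, 2, 3, 4, 5, 6, 7, 8, 9, 10] rel51_0 (node52 Y)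

theorem node50 : Good2 Y (Main2 Y Std11) 11 K50 := by
  refine branch2' Y (Main2 Y Std11) chk50 ?_
  rw [cnd50]
  intro c hc
  simp only [List.mem_cons, List.not_mem_nil, or_false] at hc
  rcases hc with rfl
  · exact relabel2 Y (Main2 Y Std11) [0, 1, 2, 3, 4, 5, 6, 7, 8, 9, 10] rel50_0 (node51 Y)

theorem node49 : Good2 Y (Main2 Y Std11) 11 K49 := by
  refine branch2' Y (Main2 Y Std11) chk49 ?_
  rw [cnd49]
  intro c hc
  simp only [List.mem_cons, List.not_mem_nil, or_false] at hc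
  rcases hc with rfl
  · exact relabel2 Y (Main2 Y Std11) [0, 1, 2, 3, 4, 5, 6, 7, 8, 9, 10] rel49_0 (node50 Y)

theorem node48 : Good2 Y (Main2 Y Std11) 11 K48 := by
  refine branch2' Y (Main2 Y Std11) chk48 ?_
  rw [cnd48]
  intro c hc
  simp only [List.mem_cons, List.not_mem_nil, or_false] at hc
  rcases hc with rfl
  · exact relabel2 Y (Main2 Y Std11) [0, 1, 2, 3, 4, 5, 6, 7, 8, 9, 10] rel48_0 (node49 Y)

theorem node47 : Good2 Y (Main2 Y Std11) 11 K47 := by
  refine branch2' Y (Main2 Y Std11) chk47 ?_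
  rw [cnd47]
  intro c hc
  simp only [List.mem_cons, List.not_mem_nil, or_false] at hc
  rcases hc with rfl
  · exact relabel2 Y (Main2 Y Std11) [0, 1, 2, 3, 4, 5, 6, 7, 8, 9, 10] rel47_0 (node48 Y)

theorem node46 : Good2 Y (Main2 Y Std11) 11 K46 := by
  refine branch2' Y (Main2 Y Std11) chk46 ?_
  rw [cnd46]
  intro c hc
  simp only [List.mem_cons, List.not_mem_nil, or_false] at hc
  rcases hc with rfl
  · exact relabel2 Y (Main2 Y Std11) [0, 1, 2, 3, 4, 5, 6, 7, 8, 9, 10] rel46_0 (node47 Y)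

theorem node45 : Good2 Y (Main2 Y Std11) 11 K45 := by
  refine branch2' Y (Main2 Y Std11) chk45 ?_
  rw [cnd45]
  intro c hc
  simp only [List.mem_cons, List.not_mem_nil, or_false] at hc
  rcases hc with rfl
  · exact relabel2 Y (Main2 Y Std11) [0, 1, 2, 3, 4, 5, 6, 7, 8, 9, 10] rel45_0 (node46 Y)

theorem node44 : Good2 Y (Main2 Y Std11) 11 K44 := by
  refine branch2' Y (Main2 Y Std11) chk44 ?_
  rw [cnd44]
  intro c hc
  simp only [List.mem_cons, List.not_mem_nil, or_false] at hc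
  rcases hc with rfl
  · exact relabel2 Y (Main2 Y Std11) [0, 1, 2, 3, 4, 5, 6, 7, 8, 9, 10] rel44_0 (node45 Y)

theorem node43 : Good2 Y (Main2 Y Std11) 11 K43 := by
  refine branch2' Y (Main2 Y Std11) chk43 ?_
  rw [cnd43]
  intro c hc
  simp only [List.mem_cons, List.not_mem_nil, or_false] at hc
  rcases hc with rfl
  · exact relabel2 Y (Main2 Y Std11) [0, 1, 2, 3, 4, 5, 6, 7, 8, 9, 10] rel43_0 (node44 Y)

theorem node42 : Good2 Y (Main2 Y Std11) 11 K42 := by
  refine branch2' Y (Main2 Y Std11) chk42 ?_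
  rw [cnd42]
  intro c hc
  simp only [List.mem_cons, List.not_mem_nil, or_false] at hc
  rcases hc with rfl
  · exact relabel2 Y (Main2 Y Std11) [0, 1, 2, 3, 4, 5, 6, 7, 8, 9, 10] rel42_0 (node43 Y)

theorem node41 : Good2 Y (Main2 Y Std11) 11 K41 := by
  refine branch2' Y (Main2 Y Std11) chk41 ?_
  rw [cnd41]
  intro c hc
  simp only [List.mem_cons, List.not_mem_nil, or_false] at hc
  rcases hc with rfl
  · exact relabel2 Y (Main2 Y Std11) [0, 1, 2, 3, 4, 5, 6, 7, 8, 9, 10] rel41_0 (node42 Y)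

theorem node40 : Good2 Y (Main2 Y Std11) 11 K40 := by
  refine branch2' Y (Main2 Y Std11) chk40 ?_
  rw [cnd40]
  intro c hc
  simp only [List.mem_cons, List.not_mem_nil, or_false] at hc
  rcases hc with rfl
  · exact relabel2 Y (Main2 Y Std11) [0, 1, 2, 3, 4, 5, 6, 7, 8, 9, 10] rel40_0 (node41 Y)

theorem node39 : Good2 Y (Main2 Y Std11) 11 K39 := by
  refine branch2' Y (Main2 Y Std11) chk39 ?_
  rw [cnd39]
  intro c hc
  simp only [List.mem_cons, List.not_mem_nil, or_false] at hc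
  rcases hc with rfl
  · exact relabel2 Y (Main2 Y Std11) [0, 1, 2, 3, 4, 5, 6, 7, 8, 9, 10] rel39_0 (node40 Y)

theorem node38 : Good2 Y (Main2 Y Std11) 11 K38 := by
  refine branch2' Y (Main2 Y Std11) chk38 ?_
  rw [cnd38]
  intro c hc
  simp only [List.mem_cons, List.not_mem_nil, or_false] at hc
  rcases hc with rfl
  · exact relabel2 Y (Main2 Y Std11) [0, 1, 2, 3, 4, 5, 6, 7, 8, 9, 10] rel38_0 (node39 Y)

theorem node37 : Good2 Y (Main2 Y Std11) 11 K37 := by
  refine branch2' Y (Main2 Y Std11) chk37 ?_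
  rw [cnd37]
  intro c hc
  simp only [List.mem_cons, List.not_mem_nil, or_false] at hc
  rcases hc with rfl
  · exact relabel2 Y (Main2 Y Std11) [0, 1, 2, 3, 4, 5, 6, 7, 8, 9, 10] rel37_0 (node38 Y)

theorem node36 : Good2 Y (Main2 Y Std11) 11 K36 := by
  refine branch2' Y (Main2 Y Std11) chk36 ?_
  rw [cnd36]
  intro c hc
  simp only [List.mem_cons, List.not_mem_nil, or_false] at hc
  rcases hc with rfl
  · exact relabel2 Y (Main2 Y Std11) [0, 1, 2, 3, 4, 5, 6, 7, 8, 9, 10] rel36_0 (node37 Y)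

theorem node35 : Good2 Y (Main2 Y Std11) 11 K35 := by
  refine branch2' Y (Main2 Y Std11) chk35 ?_
  rw [cnd35]
  intro c hc
  simp only [List.mem_cons, List.not_mem_nil, or_false] at hc
  rcases hc with rfl
  · exact relabel2 Y (Main2 Y Std11) [0, 1, 2, 3, 4, 5, 6, 7, 8, 9, 10] rel35_0 (node36 Y)

theorem node34 : Good2 Y (Main2 Y Std11) 11 K34 := by
  refine branch2' Y (Main2 Y Std11) chk34 ?_
  rw [cnd34]
  intro c hc
  simp only [List.mem_cons, List.not_mem_nil, or_false] at hc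
  rcases hc with rfl
  · exact relabel2 Y (Main2 Y Std11) [0, 1, 2, 3, 4, 5, 6, 7, 8, 9, 10] rel34_0 (node35 Y)

theorem node33 : Good2 Y (Main2 Y Std11) 11 K33 := by
  refine branch2' Y (Main2 Y Std11) chk33 ?_
  rw [cnd33]
  intro c hc
  simp only [List.mem_cons, List.not_mem_nil, or_false] at hc
  rcases hc with rfl
  · exact relabel2 Y (Main2 Y Std11) [0, 1, 2, 3, 4, 5, 6, 7, 8, 9, 10] rel33_0 (node34 Y)

theorem node32 : Good2 Y (Main2 Y Std11) 11 K32 := by
  refine branch2' Y (Main2 Y Std11) chk32 ?_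
  rw [cnd32]
  intro c hc
  simp only [List.mem_cons, List.not_mem_nil, or_false] at hc
  rcases hc with rfl
  · exact relabel2 Y (Main2 Y Std11) [0, 1, 2, 3, 4, 5, 6, 7, 8, 9, 10] rel32_0 (node33 Y)

theorem node31 : Good2 Y (Main2 Y Std11) 11 K31 := by
  refine branch2' Y (Main2 Y Std11) chk31 ?_
  rw [cnd31]
  intro c hc
  simp only [List.mem_cons, List.not_mem_nil, or_false] at hc
  rcases hc with rfl
  · exact relabel2 Y (Main2 Y Std11) [0, 1, 2, 3, 4, 5, 6, 7, 8, 9, 10] rel31_0 (node32 Y)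

theorem node30 : Good2 Y (Main2 Y Std11) 11 K30 := by
  refine branch2' Y (Main2 Y Std11) chk30 ?_
  rw [cnd30]
  intro c hc
  simp only [List.mem_cons, List.not_mem_nil, or_false] at hc
  rcases hc with rfl
  · exact relabel2 Y (Main2 Y Std11) [0, 1, 2, 3, 4, 5, 6, 7, 8, 9, 10] rel30_0 (node31 Y)

theorem node29 : Good2 Y (Main2 Y Std11) 11 K29 := by
  refine branch2' Y (Main2 Y Std11) chk29 ?_
  rw [cnd29]
  intro c hc
  simp only [List.mem_cons, List.not_mem_nil, or_false] at hc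
  rcases hc with rfl
  · exact relabel2 Y (Main2 Y Std11) [0, 1, 2, 3, 4, 5, 6, 7, 8, 9, 10] rel29_0 (node30 Y)

theorem node28 : Good2 Y (Main2 Y Std11) 11 K28 := by
  refine branch2' Y (Main2 Y Std11) chk28 ?_
  rw [cnd28]
  intro c hc
  simp only [List.mem_cons, List.not_mem_nil, or_false] at hc
  rcases hc with rfl
  · exact relabel2 Y (Main2 Y Std11) [0, 1, 2, 3, 4, 5, 6, 7, 8, 9, 10] rel28_0 (node29 Y)

theorem node27 : Good2 Y (Main2 Y Std11) 11 K27 := by
  refine branch2' Y (Main2 Y Std11) chk27 ?_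
  rw [cnd27]
  intro c hc
  simp only [List.mem_cons, List.not_mem_nil, or_false] at hc
  rcases hc with rfl
  · exact relabel2 Y (Main2 Y Std11) [0, 1, 2, 3, 4, 5, 6, 7, 8, 9, 10] rel27_0 (node28 Y)

theorem node26 : Good2 Y (Main2 Y Std11) 11 K26 := by
  refine branch2' Y (Main2 Y Std11) chk26 ?_
  rw [cnd26]
  intro c hc
  simp only [List.mem_cons, List.not_mem_nil, or_false] at hc
  rcases hc with rfl
  · exact relabel2 Y (Main2 Y Std11) [0, 1, 2, 3, 4, 5, 6, 7, 8, 9, 10] rel26_0 (node27 Y)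

theorem node25 : Good2 Y (Main2 Y Std11) 11 K25 := by
  refine branch2' Y (Main2 Y Std11) chk25 ?_
  rw [cnd25]
  intro c hc
  simp only [List.mem_cons, List.not_mem_nil, or_false] at hc
  rcases hc with rfl
  · exact relabel2 Y (Main2 Y Std11) [0, 1, 2, 3, 4, 5, 6, 7, 8, 9, 10] rel25_0 (node26 Y)

theorem node24 : Good2 Y (Main2 Y Std11) 11 K24 := by
  refine branch2' Y (Main2 Y Std11) chk24 ?_
  rw [cnd24]
  intro c hc
  simp only [List.mem_cons, List.not_mem_nil, or_false] at hc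
  rcases hc with rfl
  · exact relabel2 Y (Main2 Y Std11) [0, 1, 2, 3, 4, 5, 6, 7, 8, 9, 10] rel24_0 (node25 Y)

theorem node23 : Good2 Y (Main2 Y Std11) 11 K23 := by
  refine branch2' Y (Main2 Y Std11) chk23 ?_
  rw [cnd23]
  intro c hc
  simp only [List.mem_cons, List.not_mem_nil, or_false] at hc
  rcases hc with rfl
  · exact relabel2 Y (Main2 Y Std11) [0, 1, 2, 3, 4, 5, 6, 7, 8, 9, 10] rel23_0 (node24 Y)

theorem node22 : Good2 Y (Main2 Y Std11) 11 K22 := by
  refine branch2' Y (Main2 Y Std11) chk22 ?_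
  rw [cnd22]
  intro c hc
  simp only [List.mem_cons, List.not_mem_nil, or_false] at hc
  rcases hc with rfl
  · exact relabel2 Y (Main2 Y Std11) [0, 1, 2, 3, 4, 5, 6, 7, 8, 9, 10] rel22_0 (node23 Y)

theorem node21 : Good2 Y (Main2 Y Std11) 11 K21 := by
  refine branch2' Y (Main2 Y Std11) chk21 ?_
  rw [cnd21]
  intro c hc
  simp only [List.mem_cons, List.not_mem_nil, or_false] at hc
  rcases hc with rfl
  · exact relabel2 Y (Main2 Y Std11) [0, 1, 2, 3, 4, 5, 6, 7, 8, 9, 10] rel21_0 (node22 Y)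

theorem node20 : Good2 Y (Main2 Y Std11) 11 K20 := by
  refine branch2' Y (Main2 Y Std11) chk20 ?_
  rw [cnd20]
  intro c hc
  simp only [List.mem_cons, List.not_mem_nil, or_false] at hc
  rcases hc with rfl
  · exact relabel2 Y (Main2 Y Std11) [0, 1, 2, 3, 4, 5, 6, 7, 8, 9, 10] rel20_0 (node21 Y)

theorem node19 : Good2 Y (Main2 Y Std11) 11 K19 := by
  refine branch2' Y (Main2 Y Std11) chk19 ?_
  rw [cnd19]
  intro c hc
  simp only [List.mem_cons, List.not_mem_nil, or_false] at hc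
  rcases hc with rfl
  · exact relabel2 Y (Main2 Y Std11) [0, 1, 2, 3, 4, 5, 6, 7, 8, 9, 10] rel19_0 (node20 Y)

theorem node18 : Good2 Y (Main2 Y Std11) 11 K18 := by
  refine branch2' Y (Main2 Y Std11) chk18 ?_
  rw [cnd18]
  intro c hc
  simp only [List.mem_cons, List.not_mem_nil, or_false] at hc
  rcases hc with rfl
  · exact relabel2 Y (Main2 Y Std11) [0, 1, 2, 3, 4, 5, 6, 7, 8, 9, 10] rel18_0 (node19 Y)

theorem node17 : Good2 Y (Main2 Y Std11) 11 K17 := by
  refine branch2' Y (Main2 Y Std11) chk17 ?_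
  rw [cnd17]
  intro c hc
  simp only [List.mem_cons, List.not_mem_nil, or_false] at hc
  rcases hc with rfl
  · exact relabel2 Y (Main2 Y Std11) [0, 1, 2, 3, 4, 5, 6, 7, 8, 9, 10] rel17_0 (node18 Y)

theorem node16 : Good2 Y (Main2 Y Std11) 11 K16 := by
  refine branch2' Y (Main2 Y Std11) chk16 ?_
  rw [cnd16]
  intro c hc
  simp only [List.mem_cons, List.not_mem_nil, or_false] at hc
  rcases hc with rfl
  · exact relabel2 Y (Main2 Y Std11) [0, 1, 2, 3, 4, 5, 6, 7, 8, 9, 10] rel16_0 (node17 Y)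

theorem node15 : Good2 Y (Main2 Y Std11) 11 K15 := by
  refine branch2' Y (Main2 Y Std11) chk15 ?_
  rw [cnd15]
  intro c hc
  simp only [List.mem_cons, List.not_mem_nil, or_false] at hc
  rcases hc with rfl
  · exact relabel2 Y (Main2 Y Std11) [0, 1, 2, 3, 4, 5, 6, 7, 8, 9, 10] rel15_0 (node16 Y)

theorem node14 : Good2 Y (Main2 Y Std11) 11 K14 := by
  refine branch2' Y (Main2 Y Std11) chk14 ?_
  rw [cnd14]
  intro c hc
  simp only [List.mem_cons, List.not_mem_nil, or_false] at hc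
  rcases hc with rfl
  · exact relabel2 Y (Main2 Y Std11) [0, 1, 2, 3, 4, 5, 6, 7, 8, 9, 10] rel14_0 (node15 Y)

theorem node13 : Good2 Y (Main2 Y Std11) 11 K13 := by
  refine branch2' Y (Main2 Y Std11) chk13 ?_
  rw [cnd13]
  intro c hc
  simp only [List.mem_cons, List.not_mem_nil, or_false] at hc
  rcases hc with rfl
  · exact relabel2 Y (Main2 Y Std11) [0, 1, 2, 3, 4, 5, 6, 7, 8, 9, 10] rel13_0 (node14 Y)

theorem node12 : Good2 Y (Main2 Y Std11) 11 K12 := by
  refine branch2' Y (Main2 Y Std11) chk12 ?_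
  rw [cnd12]
  intro c hc
  simp only [List.mem_cons, List.not_mem_nil, or_false] at hc
  rcases hc with rfl
  · exact relabel2 Y (Main2 Y Std11) [0, 1, 2, 3, 4, 5, 6, 7, 8, 9, 10] rel12_0 (node13 Y)

theorem node11 : Good2 Y (Main2 Y Std11) 11 K11 := by
  refine branch2' Y (Main2 Y Std11) chk11 ?_
  rw [cnd11]
  intro c hc
  simp only [List.mem_cons, List.not_mem_nil, or_false] at hc
  rcases hc with rfl
  · exact relabel2 Y (Main2 Y Std11) [0, 1, 2, 3, 4, 5, 6, 7, 8, 9, 10] rel11_0 (node12 Y)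

theorem node10 : Good2 Y (Main2 Y Std11) 11 K10 := by
  refine branch2' Y (Main2 Y Std11) chk10 ?_
  rw [cnd10]
  intro c hc
  simp only [List.mem_cons, List.not_mem_nil, or_false] at hc
  rcases hc with rfl
  · exact relabel2 Y (Main2 Y Std11) [0, 1, 2, 3, 4, 5, 6, 7, 8, 9, 10] rel10_0 (node11 Y)

theorem node9 : Good2 Y (Main2 Y Std11) 11 K9 := by
  refine branch2' Y (Main2 Y Std11) chk9 ?_
  rw [cnd9]
  intro c hc
  simp only [List.mem_cons, List.not_mem_nil, or_false] at hc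
  rcases hc with rfl
  · exact relabel2 Y (Main2 Y Std11) [0, 1, 2, 3, 4, 5, 6, 7, 8, 9, 10] rel9_0 (node10 Y)

theorem node8 : Good2 Y (Main2 Y Std11) 11 K8 := by
  refine branch2' Y (Main2 Y Std11) chk8 ?_
  rw [cnd8]
  intro c hc
  simp only [List.mem_cons, List.not_mem_nil, or_false] at hc
  rcases hc with rfl
  · exact relabel2 Y (Main2 Y Std11) [0, 1, 2, 3, 4, 5, 6, 7, 8, 9, 10] rel8_0 (node9 Y)

theorem node7 : Good2 Y (Main2 Y Std11) 10 K7 := by
  refine branch2' Y (Main2 Y Std11) chk7 ?_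
  rw [cnd7]
  intro c hc
  simp only [List.mem_cons, List.not_mem_nil, or_false] at hc
  rcases hc with rfl
  · exact relabel2 Y (Main2 Y Std11) [0, 1, 2, 3, 4, 5, 6, 7, 8, 9, 10] rel7_0 (node8 Y)

theorem node67 : Good2 Y (Main2 Y Std11) 11 K67 := by
  refine branch2' Y (Main2 Y Std11) chk67 ?_
  rw [cnd67]
  intro c hc
  simp only [List.mem_cons, List.not_mem_nil, or_false] at hc
  rcases hc with rfl
  · exact relabel2 Y (Main2 Y Std11) [0, 1, 2, 3, 4, 6, 5, 8, 7, 9] rel67_0 (node7 Y)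

theorem node6 : Good2 Y (Main2 Y Std11) 10 K6 := by
  refine branch2' Y (Main2 Y Std11) chk6 ?_
  rw [cnd6]
  intro c hc
  simp only [List.mem_cons, List.not_mem_nil, or_false] at hc
  rcases hc with rfl | rfl
  · exact relabel2 Y (Main2 Y Std11) [0, 1, 2, 3, 4, 5, 6, 7, 8, 9] rel6_0 (node7 Y)
  · exact relabel2 Y (Main2 Y Std11) [0, 1, 2, 3, 4, 5, 6, 7, 8, 9, 10] rel6_1 (node67 Y)

theorem node5 : Good2 Y (Main2 Y Std11) 9 K5 := by
  refine branch2' Y (Main2 Y Std11) chk5 ?_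
  rw [cnd5]
  intro c hc
  simp only [List.mem_cons, List.not_mem_nil, or_false] at hc
  rcases hc with rfl
  · exact relabel2 Y (Main2 Y Std11) [0, 1, 2, 3, 4, 5, 6, 7, 8, 9] rel5_0 (node6 Y)

theorem node70 : Good2 Y (Main2 Y Std11) 11 K70 := by
  refine branch2' Y (Main2 Y Std11) chk70 ?_
  rw [cnd70]
  intro c hc
  simp only [List.mem_cons, List.not_mem_nil, or_false] at hc
  rcases hc with rfl
  · exact relabel2 Y (Main2 Y Std11) [2, 0, 1, 9, 10, 5, 6, 7, 8] rel70_0 (node5 Y)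

theorem node71 : Good2 Y (Main2 Y Std11) 11 K71 := by
  refine branch2' Y (Main2 Y Std11) chk71 ?_
  rw [cnd71]
  intro c hc
  simp only [List.mem_cons, List.not_mem_nil, or_false] at hc
  rcases hc with rfl
  · exact relabel2 Y (Main2 Y Std11) [0, 1, 2, 5, 7, 3, 6, 4, 8] rel71_0 (node5 Y)

theorem node69 : Good2 Y (Main2 Y Std11) 11 K69 := by
  refine branch2' Y (Main2 Y Std11) chk69 ?_
  rw [cnd69]
  intro c hc
  simp only [List.mem_cons, List.not_mem_nil, or_false] at hc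
  rcases hc with rfl | rfl
  · exact relabel2 Y (Main2 Y Std11) [0, 1, 2, 3, 4, 5, 6, 7, 8, 9, 10] rel69_0 (node70 Y)
  · exact relabel2 Y (Main2 Y Std11) [0, 1, 2, 3, 4, 5, 6, 7, 8, 9, 10] rel69_1 (node71 Y)

theorem node68 : Good2 Y (Main2 Y Std11) 10 K68 := by
  refine branch2' Y (Main2 Y Std11) chk68 ?_
  rw [cnd68]
  intro c hc
  simp only [List.mem_cons, List.not_mem_nil, or_false] at hc
  rcases hc with rfl | rfl
  · exact relabel2 Y (Main2 Y Std11) [0, 2, 1, 3, 4, 5, 6, 7, 8] rel68_0 (node5 Y)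
  · exact relabel2 Y (Main2 Y Std11) [0, 1, 2, 3, 4, 5, 6, 7, 8, 9, 10] rel68_1 (node69 Y)

theorem node4 : Good2 Y (Main2 Y Std11) 9 K4 := by
  refine branch2' Y (Main2 Y Std11) chk4 ?_
  rw [cnd4]
  intro c hc
  simp only [List.mem_cons, List.not_mem_nil, or_false] at hc
  rcases hc with rfl | rfl
  · exact relabel2 Y (Main2 Y Std11) [0, 1, 2, 3, 4, 5, 6, 7, 8] rel4_0 (node5 Y)
  · exact relabel2 Y (Main2 Y Std11) [0, 1, 2, 3, 4, 5, 6, 7, 8, 9] rel4_1 (node68 Y)

theorem node3 : Good2 Y (Main2 Y Std11) 8 K3 := by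
  refine branch2' Y (Main2 Y Std11) chk3 ?_
  rw [cnd3]
  intro c hc
  simp only [List.mem_cons, List.not_mem_nil, or_false] at hc
  rcases hc with rfl
  · exact relabel2 Y (Main2 Y Std11) [0, 1, 2, 3, 4, 5, 6, 7, 8] rel3_0 (node4 Y)

theorem node2 : Good2 Y (Main2 Y Std11) 7 K2 := by
  refine branch2' Y (Main2 Y Std11) chk2 ?_
  rw [cnd2]
  intro c hc
  simp only [List.mem_cons, List.not_mem_nil, or_false] at hc
  rcases hc with rfl
  · exact relabel2 Y (Main2 Y Std11) [0, 1, 2, 3, 4, 5, 6, 7] rel2_0 (node3 Y)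

theorem node1 : Good2 Y (Main2 Y Std11) 6 K1 := by
  refine branch2' Y (Main2 Y Std11) chk1 ?_
  rw [cnd1]
  intro c hc
  simp only [List.mem_cons, List.not_mem_nil, or_false] at hc
  rcases hc with rfl
  · exact relabel2 Y (Main2 Y Std11) [0, 1, 2, 3, 4, 5, 6] rel1_0 (node2 Y)

theorem node0 : Good2 Y (Main2 Y Std11) 5 K0 := addpt2 Y (Main2 Y Std11) (K := K0) (by decide +kernel) (node1 Y)

theorem main_thm : Main2 Y Std11 := start2 Y _ (by norm_num) (by norm_num) (by norm_num) (node0 Y)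

end

end Cfsg.Agent.Lib.SteinerCert11
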