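import Cfsg.Agent.Lib.SteinerSmall
import Cfsg.Agent.Lib.SteinerStd

/-! Certificate of the labeling search for `S(5,6,12)`. Generated. -/

set_option autoImplicit false
set_option maxRecDepth 100000

namespace Cfsg.Agent.Lib.SteinerCert12

open Cfsg Cfsg.Agent.Lib.SteinerSearch Cfsg.Agent.Lib.SteinerSmall Cfsg.Agent.Lib.SteinerStd

def K0 : List ℕ := [63]

def K1 : List ℕ := [63]

def K2 : List ℕ := [207, 63]

def K3 : List ℕ := [347, 207, 63]

def K4 : List ℕ := [619, 347, 207, 63]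

def K5 : List ℕ := [249, 619, 347, 207, 63]

def K6 : List ℕ := [1146, 249, 619, 347, 207, 63]

def K7 : List ℕ := [1932, 1146, 249, 619, 347, 207, 63]

def K8 : List ℕ := [3888, 1932, 1146, 249, 619, 347, 207, 63]

def K9 : List ℕ := [4032, 3888, 1932, 1146, 249, 619, 347, 207, 63]

def K10 : List ℕ := [3476, 4032, 3888, 1932, 1146, 249, 619, 347, 207, 63]

def K11 : List ℕ := [2949, 3476, 4032, 3888, 1932, 1146, 249, 619, 347, 207, 63]

def K12 : List ℕ := [246, 3849, 2949, 3476, 4032, 3888, 1932, 1146, 249, 619, 347, 207, 63]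

def K13 : List ℕ := [2163, 246, 3849, 2949, 3476, 4032, 3888, 1932, 1146, 249, 619, 347, 207, 63]

def K14 : List ℕ := [3846, 2163, 246, 3849, 2949, 3476, 4032, 3888, 1932, 1146, 249, 619, 347, 207, 63]

def K15 : List ℕ := [3213, 882, 3846, 2163, 246, 3849, 2949, 3476, 4032, 3888, 1932, 1146, 249, 619, 347, 207, 63]

def K16 : List ℕ := [3748, 3213, 882, 3846, 2163, 246, 3849, 2949, 3476, 4032, 3888, 1932, 1146, 249, 619, 347, 207, 63]

def K17 : List ℕ := [3397, 698, 3748, 3213, 882, 3846, 2163, 246, 3849, 2949, 3476, 4032, 3888, 1932, 1146, 249, 619, 347, 207, 63]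

def K18 : List ℕ := [1393, 2702, 3397, 698, 3748, 3213, 882, 3846, 2163, 246, 3849, 2949, 3476, 4032, 3888, 1932, 1146, 249, 619, 347, 207, 63]

def K19 : List ℕ := [1829, 2266, 1393, 2702, 3397, 698, 3748, 3213, 882, 3846, 2163, 246, 3849, 2949, 3476, 4032, 3888, 1932, 1146, 249, 619, 347, 207, 63]

def K20 : List ℕ := [948, 3147, 1829, 2266, 1393, 2702, 3397, 698, 3748, 3213, 882, 3846, 2163, 246, 3849, 2949, 3476, 4032, 3888, 1932, 1146, 249, 619, 347, 207, 63]

def K21 : List ℕ := [2962, 1133, 948, 3147, 1829, 2266, 1393, 2702, 3397, 698, 3748, 3213, 882, 3846, 2163, 246, 3849, 2949, 3476, 4032, 3888, 1932, 1146, 249, 619, 347, 207, 63]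

def K22 : List ℕ := [1859, 2236, 2962, 1133, 948, 3147, 1829, 2266, 1393, 2702, 3397, 698, 3748, 3213, 882, 3846, 2163, 246, 3849, 2949, 3476, 4032, 3888, 1932, 1146, 249, 619, 347, 207, 63]

def K23 : List ℕ := [1738, 2357, 1859, 2236, 2962, 1133, 948, 3147, 1829, 2266, 1393, 2702, 3397, 698, 3748, 3213, 882, 3846, 2163, 246, 3849, 2949, 3476, 4032, 3888, 1932, 1146, 249, 619, 347, 207, 63]

def K24 : List ℕ := [3304, 791, 1738, 2357, 1859, 2236, 2962, 1133, 948, 3147, 1829, 2266, 1393, 2702, 3397, 698, 3748, 3213, 882, 3846, 2163, 246, 3849, 2949, 3476, 4032, 3888, 1932, 1146, 249, 619, 347, 207, 63]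

def K25 : List ℕ := [1733, 2362, 3304, 791, 1738, 2357, 1859, 2236, 2962, 1133, 948, 3147, 1829, 2266, 1393, 2702, 3397, 698, 3748, 3213, 882, 3846, 2163, 246, 3849, 2949, 3476, 4032, 3888, 1932, 1146, 249, 619, 347, 207, 63]

def K26 : List ℕ := [3281, 814, 1733, 2362, 3304, 791, 1738, 2357, 1859, 2236, 2962, 1133, 948, 3147, 1829, 2266, 1393, 2702, 3397, 698, 3748, 3213, 882, 3846, 2163, 246, 3849, 2949, 3476, 4032, 3888, 1932, 1146, 249, 619, 347, 207, 63]

def K27 : List ℕ := [2737, 1358, 3281, 814, 1733, 2362, 3304, 791, 1738, 2357, 1859, 2236, 2962, 1133, 948, 3147, 1829, 2266, 1393, 2702, 3397, 698, 3748, 3213, 882, 3846, 2163, 246, 3849, 2949, 3476, 4032, 3888, 1932, 1146, 249, 619, 347, 207, 63]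

def K28 : List ℕ := [380, 3715, 2737, 1358, 3281, 814, 1733, 2362, 3304, 791, 1738, 2357, 1859, 2236, 2962, 1133, 948, 3147, 1829, 2266, 1393, 2702, 3397, 698, 3748, 3213, 882, 3846, 2163, 246, 3849, 2949, 3476, 4032, 3888, 1932, 1146, 249, 619, 347, 207, 63]

def K29 : List ℕ := [1587, 2508, 380, 3715, 2737, 1358, 3281, 814, 1733, 2362, 3304, 791, 1738, 2357, 1859, 2236, 2962, 1133, 948, 3147, 1829, 2266, 1393, 2702, 3397, 698, 3748, 3213, 882, 3846, 2163, 246, 3849, 2949, 3476, 4032, 3888, 1932, 1146, 249, 619, 347, 207, 63]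

def K30 : List ℕ := [1309, 2786, 1587, 2508, 380, 3715, 2737, 1358, 3281, 814, 1733, 2362, 3304, 791, 1738, 2357, 1859, 2236, 2962, 1133, 948, 3147, 1829, 2266, 1393, 2702, 3397, 698, 3748, 3213, 882, 3846, 2163, 246, 3849, 2949, 3476, 4032, 3888, 1932, 1146, 249, 619, 347, 207, 63]

def K31 : List ℕ := [2390, 1705, 1309, 2786, 1587, 2508, 380, 3715, 2737, 1358, 3281, 814, 1733, 2362, 3304, 791, 1738, 2357, 1859, 2236, 2962, 1133, 948, 3147, 1829, 2266, 1393, 2702, 3397, 698, 3748, 3213, 882, 3846, 2163, 246, 3849, 2949, 3476, 4032, 3888, 1932, 1146, 249, 619, 347, 207, 63]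

def K32 : List ℕ := [748, 3347, 2390, 1705, 1309, 2786, 1587, 2508, 380, 3715, 2737, 1358, 3281, 814, 1733, 2362, 3304, 791, 1738, 2357, 1859, 2236, 2962, 1133, 948, 3147, 1829, 2266, 1393, 2702, 3397, 698, 3748, 3213, 882, 3846, 2163, 246, 3849, 2949, 3476, 4032, 3888, 1932, 1146, 249, 619, 347, 207, 63]

def K33 : List ℕ := [3270, 825, 748, 3347, 2390, 1705, 1309, 2786, 1587, 2508, 380, 3715, 2737, 1358, 3281, 814, 1733, 2362, 3304, 791, 1738, 2357, 1859, 2236, 2962, 1133, 948, 3147, 1829, 2266, 1393, 2702, 3397, 698, 3748, 3213, 882, 3846, 2163, 246, 3849, 2949, 3476, 4032, 3888, 1932, 1146, 249, 619, 347, 207, 63]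

def K34 : List ℕ := [2605, 1490, 3270, 825, 748, 3347, 2390, 1705, 1309, 2786, 1587, 2508, 380, 3715, 2737, 1358, 3281, 814, 1733, 2362, 3304, 791, 1738, 2357, 1859, 2236, 2962, 1133, 948, 3147, 1829, 2266, 1393, 2702, 3397, 698, 3748, 3213, 882, 3846, 2163, 246, 3849, 2949, 3476, 4032, 3888, 1932, 1146, 249, 619, 347, 207, 63]

def K35 : List ℕ := [2890, 1205, 2605, 1490, 3270, 825, 748, 3347, 2390, 1705, 1309, 2786, 1587, 2508, 380, 3715, 2737, 1358, 3281, 814, 1733, 2362, 3304, 791, 1738, 2357, 1859, 2236, 2962, 1133, 948, 3147, 1829, 2266, 1393, 2702, 3397, 698, 3748, 3213, 882, 3846, 2163, 246, 3849, 2949, 3476, 4032, 3888, 1932, 1146, 249, 619, 347, 207, 63]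

def K36 : List ℕ := [2631, 1464, 2890, 1205, 2605, 1490, 3270, 825, 748, 3347, 2390, 1705, 1309, 2786, 1587, 2508, 380, 3715, 2737, 1358, 3281, 814, 1733, 2362, 3304, 791, 1738, 2357, 1859, 2236, 2962, 1133, 948, 3147, 1829, 2266, 1393, 2702, 3397, 698, 3748, 3213, 882, 3846, 2163, 246, 3849, 2949, 3476, 4032, 3888, 1932, 1146, 249, 619, 347, 207, 63]

def K37 : List ℕ := [1596, 2499, 2631, 1464, 2890, 1205, 2605, 1490, 3270, 825, 748, 3347, 2390, 1705, 1309, 2786, 1587, 2508, 380, 3715, 2737, 1358, 3281, 814, 1733, 2362, 3304, 791, 1738, 2357, 1859, 2236, 2962, 1133, 948, 3147, 1829, 2266, 1393, 2702, 3397, 698, 3748, 3213, 882, 3846, 2163, 246, 3849, 2949, 3476, 4032, 3888, 1932, 1146, 249, 619, 347, 207, 63]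

def K38 : List ℕ := [1111, 2984, 1596, 2499, 2631, 1464, 2890, 1205, 2605, 1490, 3270, 825, 748, 3347, 2390, 1705, 1309, 2786, 1587, 2508, 380, 3715, 2737, 1358, 3281, 814, 1733, 2362, 3304, 791, 1738, 2357, 1859, 2236, 2962, 1133, 948, 3147, 1829, 2266, 1393, 2702, 3397, 698, 3748, 3213, 882, 3846, 2163, 246, 3849, 2949, 3476, 4032, 3888, 1932, 1146, 249, 619, 347, 207, 63]

def K39 : List ℕ := [3426, 669, 1111, 2984, 1596, 2499, 2631, 1464, 2890, 1205, 2605, 1490, 3270, 825, 748, 3347, 2390, 1705, 1309, 2786, 1587, 2508, 380, 3715, 2737, 1358, 3281, 814, 1733, 2362, 3304, 791, 1738, 2357, 1859, 2236, 2962, 1133, 948, 3147, 1829, 2266, 1393, 2702, 3397, 698, 3748, 3213, 882, 3846, 2163, 246, 3849, 2949, 3476, 4032, 3888, 1932, 1146, 249, 619, 347, 207, 63]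

def K40 : List ℕ := [1415, 2680, 3426, 669, 1111, 2984, 1596, 2499, 2631, 1464, 2890, 1205, 2605, 1490, 3270, 825, 748, 3347, 2390, 1705, 1309, 2786, 1587, 2508, 380, 3715, 2737, 1358, 3281, 814, 1733, 2362, 3304, 791, 1738, 2357, 1859, 2236, 2962, 1133, 948, 3147, 1829, 2266, 1393, 2702, 3397, 698, 3748, 3213, 882, 3846, 2163, 246, 3849, 2949, 3476, 4032, 3888, 1932, 1146, 249, 619, 347, 207, 63]

def K41 : List ℕ := [1323, 2772, 1415, 2680, 3426, 669, 1111, 2984, 1596, 2499, 2631, 1464, 2890, 1205, 2605, 1490, 3270, 825, 748, 3347, 2390, 1705, 1309, 2786, 1587, 2508, 380, 3715, 2737, 1358, 3281, 814, 1733, 2362, 3304, 791, 1738, 2357, 1859, 2236, 2962, 1133, 948, 3147, 1829, 2266, 1393, 2702, 3397, 698, 3748, 3213, 882, 3846, 2163, 246, 3849, 2949, 3476, 4032, 3888, 1932, 1146, 249, 619, 347, 207, 63]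

def K42 : List ℕ := [3605, 490, 1323, 2772, 1415, 2680, 3426, 669, 1111, 2984, 1596, 2499, 2631, 1464, 2890, 1205, 2605, 1490, 3270, 825, 748, 3347, 2390, 1705, 1309, 2786, 1587, 2508, 380, 3715, 2737, 1358, 3281, 814, 1733, 2362, 3304, 791, 1738, 2357, 1859, 2236, 2962, 1133, 948, 3147, 1829, 2266, 1393, 2702, 3397, 698, 3748, 3213, 882, 3846, 2163, 246, 3849, 2949, 3476, 4032, 3888, 1932, 1146, 249, 619, 347, 207, 63]

def K43 : List ℕ := [1179, 2916, 3605, 490, 1323, 2772, 1415, 2680, 3426, 669, 1111, 2984, 1596, 2499, 2631, 1464, 2890, 1205, 2605, 1490, 3270, 825, 748, 3347, 2390, 1705, 1309, 2786, 1587, 2508, 380, 3715, 2737, 1358, 3281, 814, 1733, 2362, 3304, 791, 1738, 2357, 1859, 2236, 2962, 1133, 948, 3147, 1829, 2266, 1393, 2702, 3397, 698, 3748, 3213, 882, 3846, 2163, 246, 3849, 2949, 3476, 4032, 3888, 1932, 1146, 249, 619, 347, 207, 63]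

def K44 : List ℕ := [1251, 2844, 1179, 2916, 3605, 490, 1323, 2772, 1415, 2680, 3426, 669, 1111, 2984, 1596, 2499, 2631, 1464, 2890, 1205, 2605, 1490, 3270, 825, 748, 3347, 2390, 1705, 1309, 2786, 1587, 2508, 380, 3715, 2737, 1358, 3281, 814, 1733, 2362, 3304, 791, 1738, 2357, 1859, 2236, 2962, 1133, 948, 3147, 1829, 2266, 1393, 2702, 3397, 698, 3748, 3213, 882, 3846, 2163, 246, 3849, 2949, 3476, 4032, 3888, 1932, 1146, 249, 619, 347, 207, 63]

def K45 : List ℕ := [2219, 1876, 1251, 2844, 1179, 2916, 3605, 490, 1323, 2772, 1415, 2680, 3426, 669, 1111, 2984, 1596, 2499, 2631, 1464, 2890, 1205, 2605, 1490, 3270, 825, 748, 3347, 2390, 1705, 1309, 2786, 1587, 2508, 380, 3715, 2737, 1358, 3281, 814, 1733, 2362, 3304, 791, 1738, 2357, 1859, 2236, 2962, 1133, 948, 3147, 1829, 2266, 1393, 2702, 3397, 698, 3748, 3213, 882, 3846, 2163, 246, 3849, 2949, 3476, 4032, 3888, 1932, 1146, 249, 619, 347, 207, 63]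

def K46 : List ℕ := [1638, 2457, 2219, 1876, 1251, 2844, 1179, 2916, 3605, 490, 1323, 2772, 1415, 2680, 3426, 669, 1111, 2984, 1596, 2499, 2631, 1464, 2890, 1205, 2605, 1490, 3270, 825, 748, 3347, 2390, 1705, 1309, 2786, 1587, 2508, 380, 3715, 2737, 1358, 3281, 814, 1733, 2362, 3304, 791, 1738, 2357, 1859, 2236, 2962, 1133, 948, 3147, 1829, 2266, 1393, 2702, 3397, 698, 3748, 3213, 882, 3846, 2163, 246, 3849, 2949, 3476, 4032, 3888, 1932, 1146, 249, 619, 347, 207, 63]

def K47 : List ℕ := [679, 3416, 1638, 2457, 2219, 1876, 1251, 2844, 1179, 2916, 3605, 490, 1323, 2772, 1415, 2680, 3426, 669, 1111, 2984, 1596, 2499, 2631, 1464, 2890, 1205, 2605, 1490, 3270, 825, 748, 3347, 2390, 1705, 1309, 2786, 1587, 2508, 380, 3715, 2737, 1358, 3281, 814, 1733, 2362, 3304, 791, 1738, 2357, 1859, 2236, 2962, 1133, 948, 3147, 1829, 2266, 1393, 2702, 3397, 698, 3748, 3213, 882, 3846, 2163, 246, 3849, 2949, 3476, 4032, 3888, 1932, 1146, 249, 619, 347, 207, 63]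

def K48 : List ℕ := [3466, 629, 679, 3416, 1638, 2457, 2219, 1876, 1251, 2844, 1179, 2916, 3605, 490, 1323, 2772, 1415, 2680, 3426, 669, 1111, 2984, 1596, 2499, 2631, 1464, 2890, 1205, 2605, 1490, 3270, 825, 748, 3347, 2390, 1705, 1309, 2786, 1587, 2508, 380, 3715, 2737, 1358, 3281, 814, 1733, 2362, 3304, 791, 1738, 2357, 1859, 2236, 2962, 1133, 948, 3147, 1829, 2266, 1393, 2702, 3397, 698, 3748, 3213, 882, 3846, 2163, 246, 3849, 2949, 3476, 4032, 3888, 1932, 1146, 249, 619, 347, 207, 63]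

def K49 : List ℕ := [1818, 2277, 3466, 629, 679, 3416, 1638, 2457, 2219, 1876, 1251, 2844, 1179, 2916, 3605, 490, 1323, 2772, 1415, 2680, 3426, 669, 1111, 2984, 1596, 2499, 2631, 1464, 2890, 1205, 2605, 1490, 3270, 825, 748, 3347, 2390, 1705, 1309, 2786, 1587, 2508, 380, 3715, 2737, 1358, 3281, 814, 1733, 2362, 3304, 791, 1738, 2357, 1859, 2236, 2962, 1133, 948, 3147, 1829, 2266, 1393, 2702, 3397, 698, 3748, 3213, 882, 3846, 2163, 246, 3849, 2949, 3476, 4032, 3888, 1932, 1146, 249, 619, 347, 207, 63]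

def K50 : List ℕ := [2761, 1334, 1818, 2277, 3466, 629, 679, 3416, 1638, 2457, 2219, 1876, 1251, 2844, 1179, 2916, 3605, 490, 1323, 2772, 1415, 2680, 3426, 669, 1111, 2984, 1596, 2499, 2631, 1464, 2890, 1205, 2605, 1490, 3270, 825, 748, 3347, 2390, 1705, 1309, 2786, 1587, 2508, 380, 3715, 2737, 1358, 3281, 814, 1733, 2362, 3304, 791, 1738, 2357, 1859, 2236, 2962, 1133, 948, 3147, 1829, 2266, 1393, 2702, 3397, 698, 3748, 3213, 882, 3846, 2163, 246, 3849, 2949, 3476, 4032, 3888, 1932, 1146, 249, 619, 347, 207, 63]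

def K51 : List ℕ := [1551, 2544, 2761, 1334, 1818, 2277, 3466, 629, 679, 3416, 1638, 2457, 2219, 1876, 1251, 2844, 1179, 2916, 3605, 490, 1323, 2772, 1415, 2680, 3426, 669, 1111, 2984, 1596, 2499, 2631, 1464, 2890, 1205, 2605, 1490, 3270, 825, 748, 3347, 2390, 1705, 1309, 2786, 1587, 2508, 380, 3715, 2737, 1358, 3281, 814, 1733, 2362, 3304, 791, 1738, 2357, 1859, 2236, 2962, 1133, 948, 3147, 1829, 2266, 1393, 2702, 3397, 698, 3748, 3213, 882, 3846, 2163, 246, 3849, 2949, 3476, 4032, 3888, 1932, 1146, 249, 619, 347, 207, 63]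

def K52 : List ℕ := [359, 3736, 1551, 2544, 2761, 1334, 1818, 2277, 3466, 629, 679, 3416, 1638, 2457, 2219, 1876, 1251, 2844, 1179, 2916, 3605, 490, 1323, 2772, 1415, 2680, 3426, 669, 1111, 2984, 1596, 2499, 2631, 1464, 2890, 1205, 2605, 1490, 3270, 825, 748, 3347, 2390, 1705, 1309, 2786, 1587, 2508, 380, 3715, 2737, 1358, 3281, 814, 1733, 2362, 3304, 791, 1738, 2357, 1859, 2236, 2962, 1133, 948, 3147, 1829, 2266, 1393, 2702, 3397, 698, 3748, 3213, 882, 3846, 2163, 246, 3849, 2949, 3476, 4032, 3888, 1932, 1146, 249, 619, 347, 207, 63]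

def K53 : List ℕ := [1954, 2141, 359, 3736, 1551, 2544, 2761, 1334, 1818, 2277, 3466, 629, 679, 3416, 1638, 2457, 2219, 1876, 1251, 2844, 1179, 2916, 3605, 490, 1323, 2772, 1415, 2680, 3426, 669, 1111, 2984, 1596, 2499, 2631, 1464, 2890, 1205, 2605, 1490, 3270, 825, 748, 3347, 2390, 1705, 1309, 2786, 1587, 2508, 380, 3715, 2737, 1358, 3281, 814, 1733, 2362, 3304, 791, 1738, 2357, 1859, 2236, 2962, 1133, 948, 3147, 1829, 2266, 1393, 2702, 3397, 698, 3748, 3213, 882, 3846, 2163, 246, 3849, 2949, 3476, 4032, 3888, 1932, 1146, 249, 619, 347, 207, 63]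

def K54 : List ℕ := [1776, 2319, 1954, 2141, 359, 3736, 1551, 2544, 2761, 1334, 1818, 2277, 3466, 629, 679, 3416, 1638, 2457, 2219, 1876, 1251, 2844, 1179, 2916, 3605, 490, 1323, 2772, 1415, 2680, 3426, 669, 1111, 2984, 1596, 2499, 2631, 1464, 2890, 1205, 2605, 1490, 3270, 825, 748, 3347, 2390, 1705, 1309, 2786, 1587, 2508, 380, 3715, 2737, 1358, 3281, 814, 1733, 2362, 3304, 791, 1738, 2357, 1859, 2236, 2962, 1133, 948, 3147, 1829, 2266, 1393, 2702, 3397, 698, 3748, 3213, 882, 3846, 2163, 246, 3849, 2949, 3476, 4032, 3888, 1932, 1146, 249, 619, 347, 207, 63]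

def K55 : List ℕ := [3250, 845, 1776, 2319, 1954, 2141, 359, 3736, 1551, 2544, 2761, 1334, 1818, 2277, 3466, 629, 679, 3416, 1638, 2457, 2219, 1876, 1251, 2844, 1179, 2916, 3605, 490, 1323, 2772, 1415, 2680, 3426, 669, 1111, 2984, 1596, 2499, 2631, 1464, 2890, 1205, 2605, 1490, 3270, 825, 748, 3347, 2390, 1705, 1309, 2786, 1587, 2508, 380, 3715, 2737, 1358, 3281, 814, 1733, 2362, 3304, 791, 1738, 2357, 1859, 2236, 2962, 1133, 948, 3147, 1829, 2266, 1393, 2702, 3397, 698, 3748, 3213, 882, 3846, 2163, 246, 3849, 2949, 3476, 4032, 3888, 1932, 1146, 249, 619, 347, 207, 63]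

def K56 : List ℕ := [606, 3489, 3250, 845, 1776, 2319, 1954, 2141, 359, 3736, 1551, 2544, 2761, 1334, 1818, 2277, 3466, 629, 679, 3416, 1638, 2457, 2219, 1876, 1251, 2844, 1179, 2916, 3605, 490, 1323, 2772, 1415, 2680, 3426, 669, 1111, 2984, 1596, 2499, 2631, 1464, 2890, 1205, 2605, 1490, 3270, 825, 748, 3347, 2390, 1705, 1309, 2786, 1587, 2508, 380, 3715, 2737, 1358, 3281, 814, 1733, 2362, 3304, 791, 1738, 2357, 1859, 2236, 2962, 1133, 948, 3147, 1829, 2266, 1393, 2702, 3397, 698, 3748, 3213, 882, 3846, 2163, 246, 3849, 2949, 3476, 4032, 3888, 1932, 1146, 249, 619, 347, 207, 63]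

def K57 : List ℕ := [3188, 907, 606, 3489, 3250, 845, 1776, 2319, 1954, 2141, 359, 3736, 1551, 2544, 2761, 1334, 1818, 2277, 3466, 629, 679, 3416, 1638, 2457, 2219, 1876, 1251, 2844, 1179, 2916, 3605, 490, 1323, 2772, 1415, 2680, 3426, 669, 1111, 2984, 1596, 2499, 2631, 1464, 2890, 1205, 2605, 1490, 3270, 825, 748, 3347, 2390, 1705, 1309, 2786, 1587, 2508, 380, 3715, 2737, 1358, 3281, 814, 1733, 2362, 3304, 791, 1738, 2357, 1859, 2236, 2962, 1133, 948, 3147, 1829, 2266, 1393, 2702, 3397, 698, 3748, 3213, 882, 3846, 2163, 246, 3849, 2949, 3476, 4032, 3888, 1932, 1146, 249, 619, 347, 207, 63]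

def K58 : List ℕ := [1508, 2587, 3188, 907, 606, 3489, 3250, 845, 1776, 2319, 1954, 2141, 359, 3736, 1551, 2544, 2761, 1334, 1818, 2277, 3466, 629, 679, 3416, 1638, 2457, 2219, 1876, 1251, 2844, 1179, 2916, 3605, 490, 1323, 2772, 1415, 2680, 3426, 669, 1111, 2984, 1596, 2499, 2631, 1464, 2890, 1205, 2605, 1490, 3270, 825, 748, 3347, 2390, 1705, 1309, 2786, 1587, 2508, 380, 3715, 2737, 1358, 3281, 814, 1733, 2362, 3304, 791, 1738, 2357, 1859, 2236, 2962, 1133, 948, 3147, 1829, 2266, 1393, 2702, 3397, 698, 3748, 3213, 882, 3846, 2163, 246, 3849, 2949, 3476, 4032, 3888, 1932, 1146, 249, 619, 347, 207, 63]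

def K59 : List ℕ := [1896, 2199, 1508, 2587, 3188, 907, 606, 3489, 3250, 845, 1776, 2319, 1954, 2141, 359, 3736, 1551, 2544, 2761, 1334, 1818, 2277, 3466, 629, 679, 3416, 1638, 2457, 2219, 1876, 1251, 2844, 1179, 2916, 3605, 490, 1323, 2772, 1415, 2680, 3426, 669, 1111, 2984, 1596, 2499, 2631, 1464, 2890, 1205, 2605, 1490, 3270, 825, 748, 3347, 2390, 1705, 1309, 2786, 1587, 2508, 380, 3715, 2737, 1358, 3281, 814, 1733, 2362, 3304, 791, 1738, 2357, 1859, 2236, 2962, 1133, 948, 3147, 1829, 2266, 1393, 2702, 3397, 698, 3748, 3213, 882, 3846, 2163, 246, 3849, 2949, 3476, 4032, 3888, 1932, 1146, 249, 619, 347, 207, 63]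

def K60 : List ℕ := [1481, 2614, 1896, 2199, 1508, 2587, 3188, 907, 606, 3489, 3250, 845, 1776, 2319, 1954, 2141, 359, 3736, 1551, 2544, 2761, 1334, 1818, 2277, 3466, 629, 679, 3416, 1638, 2457, 2219, 1876, 1251, 2844, 1179, 2916, 3605, 490, 1323, 2772, 1415, 2680, 3426, 669, 1111, 2984, 1596, 2499, 2631, 1464, 2890, 1205, 2605, 1490, 3270, 825, 748, 3347, 2390, 1705, 1309, 2786, 1587, 2508, 380, 3715, 2737, 1358, 3281, 814, 1733, 2362, 3304, 791, 1738, 2357, 1859, 2236, 2962, 1133, 948, 3147, 1829, 2266, 1393, 2702, 3397, 698, 3748, 3213, 882, 3846, 2163, 246, 3849, 2949, 3476, 4032, 3888, 1932, 1146, 249, 619, 347, 207, 63]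

def K61 : List ℕ := [2851, 1244, 1481, 2614, 1896, 2199, 1508, 2587, 3188, 907, 606, 3489, 3250, 845, 1776, 2319, 1954, 2141, 359, 3736, 1551, 2544, 2761, 1334, 1818, 2277, 3466, 629, 679, 3416, 1638, 2457, 2219, 1876, 1251, 2844, 1179, 2916, 3605, 490, 1323, 2772, 1415, 2680, 3426, 669, 1111, 2984, 1596, 2499, 2631, 1464, 2890, 1205, 2605, 1490, 3270, 825, 748, 3347, 2390, 1705, 1309, 2786, 1587, 2508, 380, 3715, 2737, 1358, 3281, 814, 1733, 2362, 3304, 791, 1738, 2357, 1859, 2236, 2962, 1133, 948, 3147, 1829, 2266, 1393, 2702, 3397, 698, 3748, 3213, 882, 3846, 2163, 246, 3849, 2949, 3476, 4032, 3888, 1932, 1146, 249, 619, 347, 207, 63]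

def K62 : List ℕ := [3372, 723, 2851, 1244, 1481, 2614, 1896, 2199, 1508, 2587, 3188, 907, 606, 3489, 3250, 845, 1776, 2319, 1954, 2141, 359, 3736, 1551, 2544, 2761, 1334, 1818, 2277, 3466, 629, 679, 3416, 1638, 2457, 2219, 1876, 1251, 2844, 1179, 2916, 3605, 490, 1323, 2772, 1415, 2680, 3426, 669, 1111, 2984, 1596, 2499, 2631, 1464, 2890, 1205, 2605, 1490, 3270, 825, 748, 3347, 2390, 1705, 1309, 2786, 1587, 2508, 380, 3715, 2737, 1358, 3281, 814, 1733, 2362, 3304, 791, 1738, 2357, 1859, 2236, 2962, 1133, 948, 3147, 1829, 2266, 1393, 2702, 3397, 698, 3748, 3213, 882, 3846, 2163, 246, 3849, 2949, 3476, 4032, 3888, 1932, 1146, 249, 619, 347, 207, 63]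

def K63 : List ℕ := [429, 3666, 3372, 723, 2851, 1244, 1481, 2614, 1896, 2199, 1508, 2587, 3188, 907, 606, 3489, 3250, 845, 1776, 2319, 1954, 2141, 359, 3736, 1551, 2544, 2761, 1334, 1818, 2277, 3466, 629, 679, 3416, 1638, 2457, 2219, 1876, 1251, 2844, 1179, 2916, 3605, 490, 1323, 2772, 1415, 2680, 3426, 669, 1111, 2984, 1596, 2499, 2631, 1464, 2890, 1205, 2605, 1490, 3270, 825, 748, 3347, 2390, 1705, 1309, 2786, 1587, 2508, 380, 3715, 2737, 1358, 3281, 814, 1733, 2362, 3304, 791, 1738, 2357, 1859, 2236, 2962, 1133, 948, 3147, 1829, 2266, 1393, 2702, 3397, 698, 3748, 3213, 882, 3846, 2163, 246, 3849, 2949, 3476, 4032, 3888, 1932, 1146, 249, 619, 347, 207, 63]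

def K64 : List ℕ := [984, 3111, 429, 3666, 3372, 723, 2851, 1244, 1481, 2614, 1896, 2199, 1508, 2587, 3188, 907, 606, 3489, 3250, 845, 1776, 2319, 1954, 2141, 359, 3736, 1551, 2544, 2761, 1334, 1818, 2277, 3466, 629, 679, 3416, 1638, 2457, 2219, 1876, 1251, 2844, 1179, 2916, 3605, 490, 1323, 2772, 1415, 2680, 3426, 669, 1111, 2984, 1596, 2499, 2631, 1464, 2890, 1205, 2605, 1490, 3270, 825, 748, 3347, 2390, 1705, 1309, 2786, 1587, 2508, 380, 3715, 2737, 1358, 3281, 814, 1733, 2362, 3304, 791, 1738, 2357, 1859, 2236, 2962, 1133, 948, 3147, 1829, 2266, 1393, 2702, 3397, 698, 3748, 3213, 882, 3846, 2163, 246, 3849, 2949, 3476, 4032, 3888, 1932, 1146, 249, 619, 347, 207, 63]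

def K65 : List ℕ := [2409, 1686, 984, 3111, 429, 3666, 3372, 723, 2851, 1244, 1481, 2614, 1896, 2199, 1508, 2587, 3188, 907, 606, 3489, 3250, 845, 1776, 2319, 1954, 2141, 359, 3736, 1551, 2544, 2761, 1334, 1818, 2277, 3466, 629, 679, 3416, 1638, 2457, 2219, 1876, 1251, 2844, 1179, 2916, 3605, 490, 1323, 2772, 1415, 2680, 3426, 669, 1111, 2984, 1596, 2499, 2631, 1464, 2890, 1205, 2605, 1490, 3270, 825, 748, 3347, 2390, 1705, 1309, 2786, 1587, 2508, 380, 3715, 2737, 1358, 3281, 814, 1733, 2362, 3304, 791, 1738, 2357, 1859, 2236, 2962, 1133, 948, 3147, 1829, 2266, 1393, 2702, 3397, 698, 3748, 3213, 882, 3846, 2163, 246, 3849, 2949, 3476, 4032, 3888, 1932, 1146, 249, 619, 347, 207, 63]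

def K66 : List ℕ := [3681, 414, 2409, 1686, 984, 3111, 429, 3666, 3372, 723, 2851, 1244, 1481, 2614, 1896, 2199, 1508, 2587, 3188, 907, 606, 3489, 3250, 845, 1776, 2319, 1954, 2141, 359, 3736, 1551, 2544, 2761, 1334, 1818, 2277, 3466, 629, 679, 3416, 1638, 2457, 2219, 1876, 1251, 2844, 1179, 2916, 3605, 490, 1323, 2772, 1415, 2680, 3426, 669, 1111, 2984, 1596, 2499, 2631, 1464, 2890, 1205, 2605, 1490, 3270, 825, 748, 3347, 2390, 1705, 1309, 2786, 1587, 2508, 380, 3715, 2737, 1358, 3281, 814, 1733, 2362, 3304, 791, 1738, 2357, 1859, 2236, 2962, 1133, 948, 3147, 1829, 2266, 1393, 2702, 3397, 698, 3748, 3213, 882, 3846, 2163, 246, 3849, 2949, 3476, 4032, 3888, 1932, 1146, 249, 619, 347, 207, 63]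

def K67 : List ℕ := [2470, 1625, 3681, 414, 2409, 1686, 984, 3111, 429, 3666, 3372, 723, 2851, 1244, 1481, 2614, 1896, 2199, 1508, 2587, 3188, 907, 606, 3489, 3250, 845, 1776, 2319, 1954, 2141, 359, 3736, 1551, 2544, 2761, 1334, 1818, 2277, 3466, 629, 679, 3416, 1638, 2457, 2219, 1876, 1251, 2844, 1179, 2916, 3605, 490, 1323, 2772, 1415, 2680, 3426, 669, 1111, 2984, 1596, 2499, 2631, 1464, 2890, 1205, 2605, 1490, 3270, 825, 748, 3347, 2390, 1705, 1309, 2786, 1587, 2508, 380, 3715, 2737, 1358, 3281, 814, 1733, 2362, 3304, 791, 1738, 2357, 1859, 2236, 2962, 1133, 948, 3147, 1829, 2266, 1393, 2702, 3397, 698, 3748, 3213, 882, 3846, 2163, 246, 3849, 2949, 3476, 4032, 3888, 1932, 1146, 249, 619, 347, 207, 63]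

def K68 : List ℕ := [435, 3660, 2470, 1625, 3681, 414, 2409, 1686, 984, 3111, 429, 3666, 3372, 723, 2851, 1244, 1481, 2614, 1896, 2199, 1508, 2587, 3188, 907, 606, 3489, 3250, 845, 1776, 2319, 1954, 2141, 359, 3736, 1551, 2544, 2761, 1334, 1818, 2277, 3466, 629, 679, 3416, 1638, 2457, 2219, 1876, 1251, 2844, 1179, 2916, 3605, 490, 1323, 2772, 1415, 2680, 3426, 669, 1111, 2984, 1596, 2499, 2631, 1464, 2890, 1205, 2605, 1490, 3270, 825, 748, 3347, 2390, 1705, 1309, 2786, 1587, 2508, 380, 3715, 2737, 1358, 3281, 814, 1733, 2362, 3304, 791, 1738, 2357, 1859, 2236, 2962, 1133, 948, 3147, 1829, 2266, 1393, 2702, 3397, 698, 3748, 3213, 882, 3846, 2163, 246, 3849, 2949, 3476, 4032, 3888, 1932, 1146, 249, 619, 347, 207, 63]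

def K69 : List ℕ := [966, 3129, 435, 3660, 2470, 1625, 3681, 414, 2409, 1686, 984, 3111, 429, 3666, 3372, 723, 2851, 1244, 1481, 2614, 1896, 2199, 1508, 2587, 3188, 907, 606, 3489, 3250, 845, 1776, 2319, 1954, 2141, 359, 3736, 1551, 2544, 2761, 1334, 1818, 2277, 3466, 629, 679, 3416, 1638, 2457, 2219, 1876, 1251, 2844, 1179, 2916, 3605, 490, 1323, 2772, 1415, 2680, 3426, 669, 1111, 2984, 1596, 2499, 2631, 1464, 2890, 1205, 2605, 1490, 3270, 825, 748, 3347, 2390, 1705, 1309, 2786, 1587, 2508, 380, 3715, 2737, 1358, 3281, 814, 1733, 2362, 3304, 791, 1738, 2357, 1859, 2236, 2962, 1133, 948, 3147, 1829, 2266, 1393, 2702, 3397, 698, 3748, 3213, 882, 3846, 2163, 246, 3849, 2949, 3476, 4032, 3888, 1932, 1146, 249, 619, 347, 207, 63]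

def K70 : List ℕ := [993, 3102, 966, 3129, 435, 3660, 2470, 1625, 3681, 414, 2409, 1686, 984, 3111, 429, 3666, 3372, 723, 2851, 1244, 1481, 2614, 1896, 2199, 1508, 2587, 3188, 907, 606, 3489, 3250, 845, 1776, 2319, 1954, 2141, 359, 3736, 1551, 2544, 2761, 1334, 1818, 2277, 3466, 629, 679, 3416, 1638, 2457, 2219, 1876, 1251, 2844, 1179, 2916, 3605, 490, 1323, 2772, 1415, 2680, 3426, 669, 1111, 2984, 1596, 2499, 2631, 1464, 2890, 1205, 2605, 1490, 3270, 825, 748, 3347, 2390, 1705, 1309, 2786, 1587, 2508, 380, 3715, 2737, 1358, 3281, 814, 1733, 2362, 3304, 791, 1738, 2357, 1859, 2236, 2962, 1133, 948, 3147, 1829, 2266, 1393, 2702, 3397, 698, 3748, 3213, 882, 3846, 2163, 246, 3849, 2949, 3476, 4032, 3888, 1932, 1146, 249, 619, 347, 207, 63]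

def K71 : List ℕ := [2158, 1937, 993, 3102, 966, 3129, 435, 3660, 2470, 1625, 3681, 414, 2409, 1686, 984, 3111, 429, 3666, 3372, 723, 2851, 1244, 1481, 2614, 1896, 2199, 1508, 2587, 3188, 907, 606, 3489, 3250, 845, 1776, 2319, 1954, 2141, 359, 3736, 1551, 2544, 2761, 1334, 1818, 2277, 3466, 629, 679, 3416, 1638, 2457, 2219, 1876, 1251, 2844, 1179, 2916, 3605, 490, 1323, 2772, 1415, 2680, 3426, 669, 1111, 2984, 1596, 2499, 2631, 1464, 2890, 1205, 2605, 1490, 3270, 825, 748, 3347, 2390, 1705, 1309, 2786, 1587, 2508, 380, 3715, 2737, 1358, 3281, 814, 1733, 2362, 3304, 791, 1738, 2357, 1859, 2236, 2962, 1133, 948, 3147, 1829, 2266, 1393, 2702, 3397, 698, 3748, 3213, 882, 3846, 2163, 246, 3849, 2949, 3476, 4032, 3888, 1932, 1146, 249, 619, 347, 207, 63]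

def K72 : List ℕ := [1198, 2897, 2158, 1937, 993, 3102, 966, 3129, 435, 3660, 2470, 1625, 3681, 414, 2409, 1686, 984, 3111, 429, 3666, 3372, 723, 2851, 1244, 1481, 2614, 1896, 2199, 1508, 2587, 3188, 907, 606, 3489, 3250, 845, 1776, 2319, 1954, 2141, 359, 3736, 1551, 2544, 2761, 1334, 1818, 2277, 3466, 629, 679, 3416, 1638, 2457, 2219, 1876, 1251, 2844, 1179, 2916, 3605, 490, 1323, 2772, 1415, 2680, 3426, 669, 1111, 2984, 1596, 2499, 2631, 1464, 2890, 1205, 2605, 1490, 3270, 825, 748, 3347, 2390, 1705, 1309, 2786, 1587, 2508, 380, 3715, 2737, 1358, 3281, 814, 1733, 2362, 3304, 791, 1738, 2357, 1859, 2236, 2962, 1133, 948, 3147, 1829, 2266, 1393, 2702, 3397, 698, 3748, 3213, 882, 3846, 2163, 246, 3849, 2949, 3476, 4032, 3888, 1932, 1146, 249, 619, 347, 207, 63]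

def K73 : List ℕ := [3626, 469, 1198, 2897, 2158, 1937, 993, 3102, 966, 3129, 435, 3660, 2470, 1625, 3681, 414, 2409, 1686, 984, 3111, 429, 3666, 3372, 723, 2851, 1244, 1481, 2614, 1896, 2199, 1508, 2587, 3188, 907, 606, 3489, 3250, 845, 1776, 2319, 1954, 2141, 359, 3736, 1551, 2544, 2761, 1334, 1818, 2277, 3466, 629, 679, 3416, 1638, 2457, 2219, 1876, 1251, 2844, 1179, 2916, 3605, 490, 1323, 2772, 1415, 2680, 3426, 669, 1111, 2984, 1596, 2499, 2631, 1464, 2890, 1205, 2605, 1490, 3270, 825, 748, 3347, 2390, 1705, 1309, 2786, 1587, 2508, 380, 3715, 2737, 1358, 3281, 814, 1733, 2362, 3304, 791, 1738, 2357, 1859, 2236, 2962, 1133, 948, 3147, 1829, 2266, 1393, 2702, 3397, 698, 3748, 3213, 882, 3846, 2163, 246, 3849, 2949, 3476, 4032, 3888, 1932, 1146, 249, 619, 347, 207, 63]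

def K74 : List ℕ := [1477, 2618, 3748, 3213, 882, 3846, 2163, 246, 3849, 2949, 3476, 4032, 3888, 1932, 1146, 249, 619, 347, 207, 63]

def K75 : List ℕ := [407, 3688, 1477, 2618, 3748, 3213, 882, 3846, 2163, 246, 3849, 2949, 3476, 4032, 3888, 1932, 1146, 249, 619, 347, 207, 63]

def K76 : List ℕ := [3459, 636, 407, 3688, 1477, 2618, 3748, 3213, 882, 3846, 2163, 246, 3849, 2949, 3476, 4032, 3888, 1932, 1146, 249, 619, 347, 207, 63]

def K77 : List ℕ := [3095, 1000, 3459, 636, 407, 3688, 1477, 2618, 3748, 3213, 882, 3846, 2163, 246, 3849, 2949, 3476, 4032, 3888, 1932, 1146, 249, 619, 347, 207, 63]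

def K78 : List ℕ := [825, 3270, 3095, 1000, 3459, 636, 407, 3688, 1477, 2618, 3748, 3213, 882, 3846, 2163, 246, 3849, 2949, 3476, 4032, 3888, 1932, 1146, 249, 619, 347, 207, 63]

def K79 : List ℕ := [3365, 730, 825, 3270, 3095, 1000, 3459, 636, 407, 3688, 1477, 2618, 3748, 3213, 882, 3846, 2163, 246, 3849, 2949, 3476, 4032, 3888, 1932, 1146, 249, 619, 347, 207, 63]

def K80 : List ℕ := [907, 3188, 3365, 730, 825, 3270, 3095, 1000, 3459, 636, 407, 3688, 1477, 2618, 3748, 3213, 882, 3846, 2163, 246, 3849, 2949, 3476, 4032, 3888, 1932, 1146, 249, 619, 347, 207, 63]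

def K81 : List ℕ := [977, 3118, 907, 3188, 3365, 730, 825, 3270, 3095, 1000, 3459, 636, 407, 3688, 1477, 2618, 3748, 3213, 882, 3846, 2163, 246, 3849, 2949, 3476, 4032, 3888, 1932, 1146, 249, 619, 347, 207, 63]

def K82 : List ℕ := [691, 3404, 977, 3118, 907, 3188, 3365, 730, 825, 3270, 3095, 1000, 3459, 636, 407, 3688, 1477, 2618, 3748, 3213, 882, 3846, 2163, 246, 3849, 2949, 3476, 4032, 3888, 1932, 1146, 249, 619, 347, 207, 63]

def K83 : List ℕ := [966, 3129, 691, 3404, 977, 3118, 907, 3188, 3365, 730, 825, 3270, 3095, 1000, 3459, 636, 407, 3688, 1477, 2618, 3748, 3213, 882, 3846, 2163, 246, 3849, 2949, 3476, 4032, 3888, 1932, 1146, 249, 619, 347, 207, 63]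

def K84 : List ℕ := [483, 3612, 966, 3129, 691, 3404, 977, 3118, 907, 3188, 3365, 730, 825, 3270, 3095, 1000, 3459, 636, 407, 3688, 1477, 2618, 3748, 3213, 882, 3846, 2163, 246, 3849, 2949, 3476, 4032, 3888, 1932, 1146, 249, 619, 347, 207, 63]

def K85 : List ℕ := [2710, 1385, 483, 3612, 966, 3129, 691, 3404, 977, 3118, 907, 3188, 3365, 730, 825, 3270, 3095, 1000, 3459, 636, 407, 3688, 1477, 2618, 3748, 3213, 882, 3846, 2163, 246, 3849, 2949, 3476, 4032, 3888, 1932, 1146, 249, 619, 347, 207, 63]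

def K86 : List ℕ := [3354, 741, 2710, 1385, 483, 3612, 966, 3129, 691, 3404, 977, 3118, 907, 3188, 3365, 730, 825, 3270, 3095, 1000, 3459, 636, 407, 3688, 1477, 2618, 3748, 3213, 882, 3846, 2163, 246, 3849, 2949, 3476, 4032, 3888, 1932, 1146, 249, 619, 347, 207, 63]

def K87 : List ℕ := [948, 3147, 3354, 741, 2710, 1385, 483, 3612, 966, 3129, 691, 3404, 977, 3118, 907, 3188, 3365, 730, 825, 3270, 3095, 1000, 3459, 636, 407, 3688, 1477, 2618, 3748, 3213, 882, 3846, 2163, 246, 3849, 2949, 3476, 4032, 3888, 1932, 1146, 249, 619, 347, 207, 63]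

def K88 : List ℕ := [476, 3619, 948, 3147, 3354, 741, 2710, 1385, 483, 3612, 966, 3129, 691, 3404, 977, 3118, 907, 3188, 3365, 730, 825, 3270, 3095, 1000, 3459, 636, 407, 3688, 1477, 2618, 3748, 3213, 882, 3846, 2163, 246, 3849, 2949, 3476, 4032, 3888, 1932, 1146, 249, 619, 347, 207, 63]

def K89 : List ℕ := [3297, 798, 476, 3619, 948, 3147, 3354, 741, 2710, 1385, 483, 3612, 966, 3129, 691, 3404, 977, 3118, 907, 3188, 3365, 730, 825, 3270, 3095, 1000, 3459, 636, 407, 3688, 1477, 2618, 3748, 3213, 882, 3846, 2163, 246, 3849, 2949, 3476, 4032, 3888, 1932, 1146, 249, 619, 347, 207, 63]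

def K90 : List ℕ := [845, 3250, 3297, 798, 476, 3619, 948, 3147, 3354, 741, 2710, 1385, 483, 3612, 966, 3129, 691, 3404, 977, 3118, 907, 3188, 3365, 730, 825, 3270, 3095, 1000, 3459, 636, 407, 3688, 1477, 2618, 3748, 3213, 882, 3846, 2163, 246, 3849, 2949, 3476, 4032, 3888, 1932, 1146, 249, 619, 347, 207, 63]

def K91 : List ℕ := [2282, 1813, 845, 3250, 3297, 798, 476, 3619, 948, 3147, 3354, 741, 2710, 1385, 483, 3612, 966, 3129, 691, 3404, 977, 3118, 907, 3188, 3365, 730, 825, 3270, 3095, 1000, 3459, 636, 407, 3688, 1477, 2618, 3748, 3213, 882, 3846, 2163, 246, 3849, 2949, 3476, 4032, 3888, 1932, 1146, 249, 619, 347, 207, 63]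

def K92 : List ℕ := [373, 3722, 2282, 1813, 845, 3250, 3297, 798, 476, 3619, 948, 3147, 3354, 741, 2710, 1385, 483, 3612, 966, 3129, 691, 3404, 977, 3118, 907, 3188, 3365, 730, 825, 3270, 3095, 1000, 3459, 636, 407, 3688, 1477, 2618, 3748, 3213, 882, 3846, 2163, 246, 3849, 2949, 3476, 4032, 3888, 1932, 1146, 249, 619, 347, 207, 63]

def K93 : List ℕ := [3426, 669, 373, 3722, 2282, 1813, 845, 3250, 3297, 798, 476, 3619, 948, 3147, 3354, 741, 2710, 1385, 483, 3612, 966, 3129, 691, 3404, 977, 3118, 907, 3188, 3365, 730, 825, 3270, 3095, 1000, 3459, 636, 407, 3688, 1477, 2618, 3748, 3213, 882, 3846, 2163, 246, 3849, 2949, 3476, 4032, 3888, 1932, 1146, 249, 619, 347, 207, 63]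

def K94 : List ℕ := [3409, 686, 3426, 669, 373, 3722, 2282, 1813, 845, 3250, 3297, 798, 476, 3619, 948, 3147, 3354, 741, 2710, 1385, 483, 3612, 966, 3129, 691, 3404, 977, 3118, 907, 3188, 3365, 730, 825, 3270, 3095, 1000, 3459, 636, 407, 3688, 1477, 2618, 3748, 3213, 882, 3846, 2163, 246, 3849, 2949, 3476, 4032, 3888, 1932, 1146, 249, 619, 347, 207, 63]

def K95 : List ℕ := [1748, 2347, 3409, 686, 3426, 669, 373, 3722, 2282, 1813, 845, 3250, 3297, 798, 476, 3619, 948, 3147, 3354, 741, 2710, 1385, 483, 3612, 966, 3129, 691, 3404, 977, 3118, 907, 3188, 3365, 730, 825, 3270, 3095, 1000, 3459, 636, 407, 3688, 1477, 2618, 3748, 3213, 882, 3846, 2163, 246, 3849, 2949, 3476, 4032, 3888, 1932, 1146, 249, 619, 347, 207, 63]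

def K96 : List ℕ := [2375, 1720, 1748, 2347, 3409, 686, 3426, 669, 373, 3722, 2282, 1813, 845, 3250, 3297, 798, 476, 3619, 948, 3147, 3354, 741, 2710, 1385, 483, 3612, 966, 3129, 691, 3404, 977, 3118, 907, 3188, 3365, 730, 825, 3270, 3095, 1000, 3459, 636, 407, 3688, 1477, 2618, 3748, 3213, 882, 3846, 2163, 246, 3849, 2949, 3476, 4032, 3888, 1932, 1146, 249, 619, 347, 207, 63]

def K97 : List ℕ := [1205, 2890, 2375, 1720, 1748, 2347, 3409, 686, 3426, 669, 373, 3722, 2282, 1813, 845, 3250, 3297, 798, 476, 3619, 948, 3147, 3354, 741, 2710, 1385, 483, 3612, 966, 3129, 691, 3404, 977, 3118, 907, 3188, 3365, 730, 825, 3270, 3095, 1000, 3459, 636, 407, 3688, 1477, 2618, 3748, 3213, 882, 3846, 2163, 246, 3849, 2949, 3476, 4032, 3888, 1932, 1146, 249, 619, 347, 207, 63]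

def K98 : List ℕ := [2968, 1127, 1205, 2890, 2375, 1720, 1748, 2347, 3409, 686, 3426, 669, 373, 3722, 2282, 1813, 845, 3250, 3297, 798, 476, 3619, 948, 3147, 3354, 741, 2710, 1385, 483, 3612, 966, 3129, 691, 3404, 977, 3118, 907, 3188, 3365, 730, 825, 3270, 3095, 1000, 3459, 636, 407, 3688, 1477, 2618, 3748, 3213, 882, 3846, 2163, 246, 3849, 2949, 3476, 4032, 3888, 1932, 1146, 249, 619, 347, 207, 63]

def K99 : List ℕ := [2358, 1737, 2968, 1127, 1205, 2890, 2375, 1720, 1748, 2347, 3409, 686, 3426, 669, 373, 3722, 2282, 1813, 845, 3250, 3297, 798, 476, 3619, 948, 3147, 3354, 741, 2710, 1385, 483, 3612, 966, 3129, 691, 3404, 977, 3118, 907, 3188, 3365, 730, 825, 3270, 3095, 1000, 3459, 636, 407, 3688, 1477, 2618, 3748, 3213, 882, 3846, 2163, 246, 3849, 2949, 3476, 4032, 3888, 1932, 1146, 249, 619, 347, 207, 63]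

def K100 : List ℕ := [1182, 2913, 2358, 1737, 2968, 1127, 1205, 2890, 2375, 1720, 1748, 2347, 3409, 686, 3426, 669, 373, 3722, 2282, 1813, 845, 3250, 3297, 798, 476, 3619, 948, 3147, 3354, 741, 2710, 1385, 483, 3612, 966, 3129, 691, 3404, 977, 3118, 907, 3188, 3365, 730, 825, 3270, 3095, 1000, 3459, 636, 407, 3688, 1477, 2618, 3748, 3213, 882, 3846, 2163, 246, 3849, 2949, 3476, 4032, 3888, 1932, 1146, 249, 619, 347, 207, 63]

def K101 : List ℕ := [2505, 1590, 1182, 2913, 2358, 1737, 2968, 1127, 1205, 2890, 2375, 1720, 1748, 2347, 3409, 686, 3426, 669, 373, 3722, 2282, 1813, 845, 3250, 3297, 798, 476, 3619, 948, 3147, 3354, 741, 2710, 1385, 483, 3612, 966, 3129, 691, 3404, 977, 3118, 907, 3188, 3365, 730, 825, 3270, 3095, 1000, 3459, 636, 407, 3688, 1477, 2618, 3748, 3213, 882, 3846, 2163, 246, 3849, 2949, 3476, 4032, 3888, 1932, 1146, 249, 619, 347, 207, 63]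

def K102 : List ℕ := [429, 3666, 2505, 1590, 1182, 2913, 2358, 1737, 2968, 1127, 1205, 2890, 2375, 1720, 1748, 2347, 3409, 686, 3426, 669, 373, 3722, 2282, 1813, 845, 3250, 3297, 798, 476, 3619, 948, 3147, 3354, 741, 2710, 1385, 483, 3612, 966, 3129, 691, 3404, 977, 3118, 907, 3188, 3365, 730, 825, 3270, 3095, 1000, 3459, 636, 407, 3688, 1477, 2618, 3748, 3213, 882, 3846, 2163, 246, 3849, 2949, 3476, 4032, 3888, 1932, 1146, 249, 619, 347, 207, 63]

def K103 : List ℕ := [2860, 1235, 429, 3666, 2505, 1590, 1182, 2913, 2358, 1737, 2968, 1127, 1205, 2890, 2375, 1720, 1748, 2347, 3409, 686, 3426, 669, 373, 3722, 2282, 1813, 845, 3250, 3297, 798, 476, 3619, 948, 3147, 3354, 741, 2710, 1385, 483, 3612, 966, 3129, 691, 3404, 977, 3118, 907, 3188, 3365, 730, 825, 3270, 3095, 1000, 3459, 636, 407, 3688, 1477, 2618, 3748, 3213, 882, 3846, 2163, 246, 3849, 2949, 3476, 4032, 3888, 1932, 1146, 249, 619, 347, 207, 63]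

def K104 : List ℕ := [1520, 2575, 2860, 1235, 429, 3666, 2505, 1590, 1182, 2913, 2358, 1737, 2968, 1127, 1205, 2890, 2375, 1720, 1748, 2347, 3409, 686, 3426, 669, 373, 3722, 2282, 1813, 845, 3250, 3297, 798, 476, 3619, 948, 3147, 3354, 741, 2710, 1385, 483, 3612, 966, 3129, 691, 3404, 977, 3118, 907, 3188, 3365, 730, 825, 3270, 3095, 1000, 3459, 636, 407, 3688, 1477, 2618, 3748, 3213, 882, 3846, 2163, 246, 3849, 2949, 3476, 4032, 3888, 1932, 1146, 249, 619, 347, 207, 63]

def K105 : List ℕ := [2157, 1938, 1520, 2575, 2860, 1235, 429, 3666, 2505, 1590, 1182, 2913, 2358, 1737, 2968, 1127, 1205, 2890, 2375, 1720, 1748, 2347, 3409, 686, 3426, 669, 373, 3722, 2282, 1813, 845, 3250, 3297, 798, 476, 3619, 948, 3147, 3354, 741, 2710, 1385, 483, 3612, 966, 3129, 691, 3404, 977, 3118, 907, 3188, 3365, 730, 825, 3270, 3095, 1000, 3459, 636, 407, 3688, 1477, 2618, 3748, 3213, 882, 3846, 2163, 246, 3849, 2949, 3476, 4032, 3888, 1932, 1146, 249, 619, 347,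 207, 63]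

def K106 : List ℕ := [2142, 1953, 2157, 1938, 1520, 2575, 2860, 1235, 429, 3666, 2505, 1590, 1182, 2913, 2358, 1737, 2968, 1127, 1205, 2890, 2375, 1720, 1748, 2347, 3409, 686, 3426, 669, 373, 3722, 2282, 1813, 845, 3250, 3297, 798, 476, 3619, 948, 3147, 3354, 741, 2710, 1385, 483, 3612, 966, 3129, 691, 3404, 977, 3118, 907, 3188, 3365, 730, 825, 3270, 3095, 1000, 3459, 636, 407, 3688, 1477, 2618, 3748, 3213, 882, 3846, 2163, 246, 3849, 2949, 3476, 4032, 3888, 1932, 1146, 249, 619, 347, 207, 63]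

def K107 : List ℕ := [2613, 1482, 2142, 1953, 2157, 1938, 1520, 2575, 2860, 1235, 429, 3666, 2505, 1590, 1182, 2913, 2358, 1737, 2968, 1127, 1205, 2890, 2375, 1720, 1748, 2347, 3409, 686, 3426, 669, 373, 3722, 2282, 1813, 845, 3250, 3297, 798, 476, 3619, 948, 3147, 3354, 741, 2710, 1385, 483, 3612, 966, 3129, 691, 3404, 977, 3118, 907, 3188, 3365, 730, 825, 3270, 3095, 1000, 3459, 636, 407, 3688, 1477, 2618, 3748, 3213, 882, 3846, 2163, 246, 3849, 2949, 3476, 4032, 3888, 1932, 1146, 249, 619, 347, 207, 63]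

def K108 : List ℕ := [1834, 2261, 2613, 1482, 2142, 1953, 2157, 1938, 1520, 2575, 2860, 1235, 429, 3666, 2505, 1590, 1182, 2913, 2358, 1737, 2968, 1127, 1205, 2890, 2375, 1720, 1748, 2347, 3409, 686, 3426, 669, 373, 3722, 2282, 1813, 845, 3250, 3297, 798, 476, 3619, 948, 3147, 3354, 741, 2710, 1385, 483, 3612, 966, 3129, 691, 3404, 977, 3118, 907, 3188, 3365, 730, 825, 3270, 3095, 1000, 3459, 636, 407, 3688, 1477, 2618, 3748, 3213, 882, 3846, 2163, 246, 3849, 2949, 3476, 4032, 3888, 1932, 1146, 249, 619, 347, 207, 63]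

def K109 : List ℕ := [2424, 1671, 1834, 2261, 2613, 1482, 2142, 1953, 2157, 1938, 1520, 2575, 2860, 1235, 429, 3666, 2505, 1590, 1182, 2913, 2358, 1737, 2968, 1127, 1205, 2890, 2375, 1720, 1748, 2347, 3409, 686, 3426, 669, 373, 3722, 2282, 1813, 845, 3250, 3297, 798, 476, 3619, 948, 3147, 3354, 741, 2710, 1385, 483, 3612, 966, 3129, 691, 3404, 977, 3118, 907, 3188, 3365, 730, 825, 3270, 3095, 1000, 3459, 636, 407, 3688, 1477, 2618, 3748, 3213, 882, 3846, 2163, 246, 3849, 2949, 3476, 4032, 3888, 1932, 1146, 249, 619, 347, 207, 63]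

def K110 : List ℕ := [2800, 1295, 2424, 1671, 1834, 2261, 2613, 1482, 2142, 1953, 2157, 1938, 1520, 2575, 2860, 1235, 429, 3666, 2505, 1590, 1182, 2913, 2358, 1737, 2968, 1127, 1205, 2890, 2375, 1720, 1748, 2347, 3409, 686, 3426, 669, 373, 3722, 2282, 1813, 845, 3250, 3297, 798, 476, 3619, 948, 3147, 3354, 741, 2710, 1385, 483, 3612, 966, 3129, 691, 3404, 977, 3118, 907, 3188, 3365, 730, 825, 3270, 3095, 1000, 3459, 636, 407, 3688, 1477, 2618, 3748, 3213, 882, 3846, 2163, 246, 3849, 2949, 3476, 4032, 3888, 1932, 1146, 249, 619, 347, 207, 63]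

def K111 : List ℕ := [2333, 1762, 2800, 1295, 2424, 1671, 1834, 2261, 2613, 1482, 2142, 1953, 2157, 1938, 1520, 2575, 2860, 1235, 429, 3666, 2505, 1590, 1182, 2913, 2358, 1737, 2968, 1127, 1205, 2890, 2375, 1720, 1748, 2347, 3409, 686, 3426, 669, 373, 3722, 2282, 1813, 845, 3250, 3297, 798, 476, 3619, 948, 3147, 3354, 741, 2710, 1385, 483, 3612, 966, 3129, 691, 3404, 977, 3118, 907, 3188, 3365, 730, 825, 3270, 3095, 1000, 3459, 636, 407, 3688, 1477, 2618, 3748, 3213, 882, 3846, 2163, 246, 3849, 2949, 3476, 4032, 3888, 1932, 1146, 249, 619, 347, 207, 63]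

def K112 : List ℕ := [2446, 1649, 2333, 1762, 2800, 1295, 2424, 1671, 1834, 2261, 2613, 1482, 2142, 1953, 2157, 1938, 1520, 2575, 2860, 1235, 429, 3666, 2505, 1590, 1182, 2913, 2358, 1737, 2968, 1127, 1205, 2890, 2375, 1720, 1748, 2347, 3409, 686, 3426, 669, 373, 3722, 2282, 1813, 845, 3250, 3297, 798, 476, 3619, 948, 3147, 3354, 741, 2710, 1385, 483, 3612, 966, 3129, 691, 3404, 977, 3118, 907, 3188, 3365, 730, 825, 3270, 3095, 1000, 3459, 636, 407, 3688, 1477, 2618, 3748, 3213, 882, 3846, 2163, 246, 3849, 2949, 3476, 4032, 3888, 1932, 1146, 249, 619, 347, 207, 63]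

def K113 : List ℕ := [1331, 2764, 2446, 1649, 2333, 1762, 2800, 1295, 2424, 1671, 1834, 2261, 2613, 1482, 2142, 1953, 2157, 1938, 1520, 2575, 2860, 1235, 429, 3666, 2505, 1590, 1182, 2913, 2358, 1737, 2968, 1127, 1205, 2890, 2375, 1720, 1748, 2347, 3409, 686, 3426, 669, 373, 3722, 2282, 1813, 845, 3250, 3297, 798, 476, 3619, 948, 3147, 3354, 741, 2710, 1385, 483, 3612, 966, 3129, 691, 3404, 977, 3118, 907, 3188, 3365, 730, 825, 3270, 3095, 1000, 3459, 636, 407, 3688, 1477, 2618, 3748, 3213, 882, 3846, 2163, 246, 3849, 2949, 3476, 4032, 3888, 1932, 1146, 249, 619, 347, 207, 63]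

def K114 : List ℕ := [2203, 1892, 1331, 2764, 2446, 1649, 2333, 1762, 2800, 1295, 2424, 1671, 1834, 2261, 2613, 1482, 2142, 1953, 2157, 1938, 1520, 2575, 2860, 1235, 429, 3666, 2505, 1590, 1182, 2913, 2358, 1737, 2968, 1127, 1205, 2890, 2375, 1720, 1748, 2347, 3409, 686, 3426, 669, 373, 3722, 2282, 1813, 845, 3250, 3297, 798, 476, 3619, 948, 3147, 3354, 741, 2710, 1385, 483, 3612, 966, 3129, 691, 3404, 977, 3118, 907, 3188, 3365, 730, 825, 3270, 3095, 1000, 3459, 636, 407, 3688, 1477, 2618, 3748, 3213, 882, 3846, 2163, 246, 3849, 2949, 3476, 4032, 3888, 1932, 1146, 249, 619, 347, 207, 63]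

def K115 : List ℕ := [1366, 2729, 2203, 1892, 1331, 2764, 2446, 1649, 2333, 1762, 2800, 1295, 2424, 1671, 1834, 2261, 2613, 1482, 2142, 1953, 2157, 1938, 1520, 2575, 2860, 1235, 429, 3666, 2505, 1590, 1182, 2913, 2358, 1737, 2968, 1127, 1205, 2890, 2375, 1720, 1748, 2347, 3409, 686, 3426, 669, 373, 3722, 2282, 1813, 845, 3250, 3297, 798, 476, 3619, 948, 3147, 3354, 741, 2710, 1385, 483, 3612, 966, 3129, 691, 3404, 977, 3118, 907, 3188, 3365, 730, 825, 3270, 3095, 1000, 3459, 636, 407, 3688, 1477, 2618, 3748, 3213, 882, 3846, 2163, 246, 3849, 2949, 3476, 4032, 3888, 1932, 1146, 249, 619, 347, 207, 63]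

def K116 : List ℕ := [1117, 2978, 1366, 2729, 2203, 1892, 1331, 2764, 2446, 1649, 2333, 1762, 2800, 1295, 2424, 1671, 1834, 2261, 2613, 1482, 2142, 1953, 2157, 1938, 1520, 2575, 2860, 1235, 429, 3666, 2505, 1590, 1182, 2913, 2358, 1737, 2968, 1127, 1205, 2890, 2375, 1720, 1748, 2347, 3409, 686, 3426, 669, 373, 3722, 2282, 1813, 845, 3250, 3297, 798, 476, 3619, 948, 3147, 3354, 741, 2710, 1385, 483, 3612, 966, 3129, 691, 3404, 977, 3118, 907, 3188, 3365, 730, 825, 3270, 3095, 1000, 3459, 636, 407, 3688, 1477, 2618, 3748, 3213, 882, 3846, 2163, 246, 3849, 2949, 3476, 4032, 3888, 1932, 1146, 249, 619, 347, 207, 63]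

def K117 : List ℕ := [2236, 1859, 1117, 2978, 1366, 2729, 2203, 1892, 1331, 2764, 2446, 1649, 2333, 1762, 2800, 1295, 2424, 1671, 1834, 2261, 2613, 1482, 2142, 1953, 2157, 1938, 1520, 2575, 2860, 1235, 429, 3666, 2505, 1590, 1182, 2913, 2358, 1737, 2968, 1127, 1205, 2890, 2375, 1720, 1748, 2347, 3409, 686, 3426, 669, 373, 3722, 2282, 1813, 845, 3250, 3297, 798, 476, 3619, 948, 3147, 3354, 741, 2710, 1385, 483, 3612, 966, 3129, 691, 3404, 977, 3118, 907, 3188, 3365, 730, 825, 3270, 3095, 1000, 3459, 636, 407, 3688, 1477, 2618, 3748, 3213, 882, 3846, 2163, 246, 3849, 2949, 3476, 4032, 3888, 1932, 1146, 249, 619, 347, 207, 63]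

def K118 : List ℕ := [2662, 1433, 2236, 1859, 1117, 2978, 1366, 2729, 2203, 1892, 1331, 2764, 2446, 1649, 2333, 1762, 2800, 1295, 2424, 1671, 1834, 2261, 2613, 1482, 2142, 1953, 2157, 1938, 1520, 2575, 2860, 1235, 429, 3666, 2505, 1590, 1182, 2913, 2358, 1737, 2968, 1127, 1205, 2890, 2375, 1720, 1748, 2347, 3409, 686, 3426, 669, 373, 3722, 2282, 1813, 845, 3250, 3297, 798, 476, 3619, 948, 3147, 3354, 741, 2710, 1385, 483, 3612, 966, 3129, 691, 3404, 977, 3118, 907, 3188, 3365, 730, 825, 3270, 3095, 1000, 3459, 636, 407, 3688, 1477, 2618, 3748, 3213, 882, 3846, 2163, 246, 3849, 2949, 3476, 4032, 3888, 1932, 1146, 249, 619, 347, 207, 63]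

def K119 : List ℕ := [1260, 2835, 2662, 1433, 2236, 1859, 1117, 2978, 1366, 2729, 2203, 1892, 1331, 2764, 2446, 1649, 2333, 1762, 2800, 1295, 2424, 1671, 1834, 2261, 2613, 1482, 2142, 1953, 2157, 1938, 1520, 2575, 2860, 1235, 429, 3666, 2505, 1590, 1182, 2913, 2358, 1737, 2968, 1127, 1205, 2890, 2375, 1720, 1748, 2347, 3409, 686, 3426, 669, 373, 3722, 2282, 1813, 845, 3250, 3297, 798, 476, 3619, 948, 3147, 3354, 741, 2710, 1385, 483, 3612, 966, 3129, 691, 3404, 977, 3118, 907, 3188, 3365, 730, 825, 3270, 3095, 1000, 3459, 636, 407, 3688, 1477, 2618, 3748, 3213, 882, 3846, 2163, 246, 3849, 2949, 3476, 4032, 3888, 1932, 1146, 249, 619, 347, 207, 63]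

def K120 : List ℕ := [2649, 1446, 1260, 2835, 2662, 1433, 2236, 1859, 1117, 2978, 1366, 2729, 2203, 1892, 1331, 2764, 2446, 1649, 2333, 1762, 2800, 1295, 2424, 1671, 1834, 2261, 2613, 1482, 2142, 1953, 2157, 1938, 1520, 2575, 2860, 1235, 429, 3666, 2505, 1590, 1182, 2913, 2358, 1737, 2968, 1127, 1205, 2890, 2375, 1720, 1748, 2347, 3409, 686, 3426, 669, 373, 3722, 2282, 1813, 845, 3250, 3297, 798, 476, 3619, 948, 3147, 3354, 741, 2710, 1385, 483, 3612, 966, 3129, 691, 3404, 977, 3118, 907, 3188, 3365, 730, 825, 3270, 3095, 1000, 3459, 636, 407, 3688, 1477, 2618, 3748, 3213, 882, 3846, 2163, 246, 3849, 2949, 3476, 4032, 3888, 1932, 1146, 249, 619, 347, 207, 63]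

def K121 : List ℕ := [2900, 1195, 2649, 1446, 1260, 2835, 2662, 1433, 2236, 1859, 1117, 2978, 1366, 2729, 2203, 1892, 1331, 2764, 2446, 1649, 2333, 1762, 2800, 1295, 2424, 1671, 1834, 2261, 2613, 1482, 2142, 1953, 2157, 1938, 1520, 2575, 2860, 1235, 429, 3666, 2505, 1590, 1182, 2913, 2358, 1737, 2968, 1127, 1205, 2890, 2375, 1720, 1748, 2347, 3409, 686, 3426, 669, 373, 3722, 2282, 1813, 845, 3250, 3297, 798, 476, 3619, 948, 3147, 3354, 741, 2710, 1385, 483, 3612, 966, 3129, 691, 3404, 977, 3118, 907, 3188, 3365, 730, 825, 3270, 3095, 1000, 3459, 636, 407, 3688, 1477, 2618, 3748, 3213, 882, 3846, 2163, 246, 3849, 2949, 3476, 4032, 3888, 1932, 1146, 249, 619, 347, 207, 63]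

def K122 : List ℕ := [1581, 2514, 2900, 1195, 2649, 1446, 1260, 2835, 2662, 1433, 2236, 1859, 1117, 2978, 1366, 2729, 2203, 1892, 1331, 2764, 2446, 1649, 2333, 1762, 2800, 1295, 2424, 1671, 1834, 2261, 2613, 1482, 2142, 1953, 2157, 1938, 1520, 2575, 2860, 1235, 429, 3666, 2505, 1590, 1182, 2913, 2358, 1737, 2968, 1127, 1205, 2890, 2375, 1720, 1748, 2347, 3409, 686, 3426, 669, 373, 3722, 2282, 1813, 845, 3250, 3297, 798, 476, 3619, 948, 3147, 3354, 741, 2710, 1385, 483, 3612, 966, 3129, 691, 3404, 977, 3118, 907, 3188, 3365, 730, 825, 3270, 3095, 1000, 3459, 636, 407, 3688, 1477, 2618, 3748, 3213, 882, 3846, 2163, 246, 3849, 2949, 3476, 4032, 3888, 1932, 1146, 249, 619, 347, 207, 63]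

def K123 : List ℕ := [1614, 2481, 1581, 2514, 2900, 1195, 2649, 1446, 1260, 2835, 2662, 1433, 2236, 1859, 1117, 2978, 1366, 2729, 2203, 1892, 1331, 2764, 2446, 1649, 2333, 1762, 2800, 1295, 2424, 1671, 1834, 2261, 2613, 1482, 2142, 1953, 2157, 1938, 1520, 2575, 2860, 1235, 429, 3666, 2505, 1590, 1182, 2913, 2358, 1737, 2968, 1127, 1205, 2890, 2375, 1720, 1748, 2347, 3409, 686, 3426, 669, 373, 3722, 2282, 1813, 845, 3250, 3297, 798, 476, 3619, 948, 3147, 3354, 741, 2710, 1385, 483, 3612, 966, 3129, 691, 3404, 977, 3118, 907, 3188, 3365, 730, 825, 3270, 3095, 1000, 3459, 636, 407, 3688, 1477, 2618, 3748, 3213, 882, 3846, 2163, 246, 3849, 2949, 3476, 4032, 3888, 1932, 1146, 249, 619, 347, 207, 63]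

def K124 : List ℕ := [1563, 2532, 1614, 2481, 1581, 2514, 2900, 1195, 2649, 1446, 1260, 2835, 2662, 1433, 2236, 1859, 1117, 2978, 1366, 2729, 2203, 1892, 1331, 2764, 2446, 1649, 2333, 1762, 2800, 1295, 2424, 1671, 1834, 2261, 2613, 1482, 2142, 1953, 2157, 1938, 1520, 2575, 2860, 1235, 429, 3666, 2505, 1590, 1182, 2913, 2358, 1737, 2968, 1127, 1205, 2890, 2375, 1720, 1748, 2347, 3409, 686, 3426, 669, 373, 3722, 2282, 1813, 845, 3250, 3297, 798, 476, 3619, 948, 3147, 3354, 741, 2710, 1385, 483, 3612, 966, 3129, 691, 3404, 977, 3118, 907, 3188, 3365, 730, 825, 3270, 3095, 1000, 3459, 636, 407, 3688, 1477, 2618, 3748, 3213, 882, 3846, 2163, 246, 3849, 2949, 3476, 4032, 3888, 1932, 1146, 249, 619, 347, 207, 63]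

def K125 : List ℕ := [366, 3729, 1563, 2532, 1614, 2481, 1581, 2514, 2900, 1195, 2649, 1446, 1260, 2835, 2662, 1433, 2236, 1859, 1117, 2978, 1366, 2729, 2203, 1892, 1331, 2764, 2446, 1649, 2333, 1762, 2800, 1295, 2424, 1671, 1834, 2261, 2613, 1482, 2142, 1953, 2157, 1938, 1520, 2575, 2860, 1235, 429, 3666, 2505, 1590, 1182, 2913, 2358, 1737, 2968, 1127, 1205, 2890, 2375, 1720, 1748, 2347, 3409, 686, 3426, 669, 373, 3722, 2282, 1813, 845, 3250, 3297, 798, 476, 3619, 948, 3147, 3354, 741, 2710, 1385, 483, 3612, 966, 3129, 691, 3404, 977, 3118, 907, 3188, 3365, 730, 825, 3270, 3095, 1000, 3459, 636, 407, 3688, 1477, 2618, 3748, 3213, 882, 3846, 2163, 246, 3849, 2949, 3476, 4032, 3888, 1932, 1146, 249, 619, 347, 207, 63]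

def K126 : List ℕ := [3496, 599, 366, 3729, 1563, 2532, 1614, 2481, 1581, 2514, 2900, 1195, 2649, 1446, 1260, 2835, 2662, 1433, 2236, 1859, 1117, 2978, 1366, 2729, 2203, 1892, 1331, 2764, 2446, 1649, 2333, 1762, 2800, 1295, 2424, 1671, 1834, 2261, 2613, 1482, 2142, 1953, 2157, 1938, 1520, 2575, 2860, 1235, 429, 3666, 2505, 1590, 1182, 2913, 2358, 1737, 2968, 1127, 1205, 2890, 2375, 1720, 1748, 2347, 3409, 686, 3426, 669, 373, 3722, 2282, 1813, 845, 3250, 3297, 798, 476, 3619, 948, 3147, 3354, 741, 2710, 1385, 483, 3612, 966, 3129, 691, 3404, 977, 3118, 907, 3188, 3365, 730, 825, 3270, 3095, 1000, 3459, 636, 407, 3688, 1477, 2618, 3748, 3213, 882, 3846, 2163, 246, 3849, 2949, 3476, 4032, 3888, 1932, 1146, 249, 619, 347, 207, 63]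

def K127 : List ℕ := [2755, 1340, 3496, 599, 366, 3729, 1563, 2532, 1614, 2481, 1581, 2514, 2900, 1195, 2649, 1446, 1260, 2835, 2662, 1433, 2236, 1859, 1117, 2978, 1366, 2729, 2203, 1892, 1331, 2764, 2446, 1649, 2333, 1762, 2800, 1295, 2424, 1671, 1834, 2261, 2613, 1482, 2142, 1953, 2157, 1938, 1520, 2575, 2860, 1235, 429, 3666, 2505, 1590, 1182, 2913, 2358, 1737, 2968, 1127, 1205, 2890, 2375, 1720, 1748, 2347, 3409, 686, 3426, 669, 373, 3722, 2282, 1813, 845, 3250, 3297, 798, 476, 3619, 948, 3147, 3354, 741, 2710, 1385, 483, 3612, 966, 3129, 691, 3404, 977, 3118, 907, 3188, 3365, 730, 825, 3270, 3095, 1000, 3459, 636, 407, 3688, 1477, 2618, 3748, 3213, 882, 3846, 2163, 246, 3849, 2949, 3476, 4032, 3888, 1932, 1146, 249, 619, 347, 207, 63]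

def K128 : List ℕ := [1880, 2215, 2755, 1340, 3496, 599, 366, 3729, 1563, 2532, 1614, 2481, 1581, 2514, 2900, 1195, 2649, 1446, 1260, 2835, 2662, 1433, 2236, 1859, 1117, 2978, 1366, 2729, 2203, 1892, 1331, 2764, 2446, 1649, 2333, 1762, 2800, 1295, 2424, 1671, 1834, 2261, 2613, 1482, 2142, 1953, 2157, 1938, 1520, 2575, 2860, 1235, 429, 3666, 2505, 1590, 1182, 2913, 2358, 1737, 2968, 1127, 1205, 2890, 2375, 1720, 1748, 2347, 3409, 686, 3426, 669, 373, 3722, 2282, 1813, 845, 3250, 3297, 798, 476, 3619, 948, 3147, 3354, 741, 2710, 1385, 483, 3612, 966, 3129, 691, 3404, 977, 3118, 907, 3188, 3365, 730, 825, 3270, 3095, 1000, 3459, 636, 407, 3688, 1477, 2618, 3748, 3213, 882, 3846, 2163, 246, 3849, 2949, 3476, 4032, 3888, 1932, 1146, 249, 619, 347, 207, 63]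

def K129 : List ℕ := [442, 3653, 1880, 2215, 2755, 1340, 3496, 599, 366, 3729, 1563, 2532, 1614, 2481, 1581, 2514, 2900, 1195, 2649, 1446, 1260, 2835, 2662, 1433, 2236, 1859, 1117, 2978, 1366, 2729, 2203, 1892, 1331, 2764, 2446, 1649, 2333, 1762, 2800, 1295, 2424, 1671, 1834, 2261, 2613, 1482, 2142, 1953, 2157, 1938, 1520, 2575, 2860, 1235, 429, 3666, 2505, 1590, 1182, 2913, 2358, 1737, 2968, 1127, 1205, 2890, 2375, 1720, 1748, 2347, 3409, 686, 3426, 669, 373, 3722, 2282, 1813, 845, 3250, 3297, 798, 476, 3619, 948, 3147, 3354, 741, 2710, 1385, 483, 3612, 966, 3129, 691, 3404, 977, 3118, 907, 3188, 3365, 730, 825, 3270, 3095, 1000, 3459, 636, 407, 3688, 1477, 2618, 3748, 3213, 882, 3846, 2163, 246, 3849, 2949, 3476, 4032, 3888, 1932, 1146, 249, 619, 347, 207, 63]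

def K130 : List ℕ := [807, 3288, 442, 3653, 1880, 2215, 2755, 1340, 3496, 599, 366, 3729, 1563, 2532, 1614, 2481, 1581, 2514, 2900, 1195, 2649, 1446, 1260, 2835, 2662, 1433, 2236, 1859, 1117, 2978, 1366, 2729, 2203, 1892, 1331, 2764, 2446, 1649, 2333, 1762, 2800, 1295, 2424, 1671, 1834, 2261, 2613, 1482, 2142, 1953, 2157, 1938, 1520, 2575, 2860, 1235, 429, 3666, 2505, 1590, 1182, 2913, 2358, 1737, 2968, 1127, 1205, 2890, 2375, 1720, 1748, 2347, 3409, 686, 3426, 669, 373, 3722, 2282, 1813, 845, 3250, 3297, 798, 476, 3619, 948, 3147, 3354, 741, 2710, 1385, 483, 3612, 966, 3129, 691, 3404, 977, 3118, 907, 3188, 3365, 730, 825, 3270, 3095, 1000, 3459, 636, 407, 3688, 1477, 2618, 3748, 3213, 882, 3846, 2163, 246, 3849, 2949, 3476, 4032, 3888, 1932, 1146, 249, 619, 347, 207, 63]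

def K131 : List ℕ := [1145, 619, 347, 207, 63]

def K132 : List ℕ := [3476, 1145, 619, 347, 207, 63]

def K133 : List ℕ := [3748, 3476, 1145, 619, 347, 207, 63]

def K134 : List ℕ := [2950, 3748, 3476, 1145, 619, 347, 207, 63]

def K135 : List ℕ := [948, 3147, 2950, 3748, 3476, 1145, 619, 347, 207, 63]

theorem chk73 : chkLeaf2 12 Std12 K73 [0, 1, 2, 3, 4, 9, 8, 10, 5, 7, 11, 6] = true := by decide +kernel

theorem cnd72 : cands2 12 5 6 [0, 2, 3, 4] 12 K72 468 = [(469, 12)] := by decide +kernel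

theorem chk72 : chkBranch2 12 5 6 12 K72 468 = true := by decide +kernel

theorem rel72_0 : chkRelabel2 12 K73 12 (3626 :: 469 :: K72) [0, 1, 2, 3, 4, 5, 6, 7, 8, 9, 10, 11] = true := by decide +kernel

theorem cm72_0 : (decide (12 ≤ 24) && decide (2 * 6 = 12) && decide (469 < 2 ^ 12) && (469 :: K72).contains 469) = true := by decide +kernel

theorem cnd71 : cands2 12 5 6 [0, 2, 3, 4] 12 K71 2881 = [(2897, 12)] := by decide +kernel

theorem chk71 : chkBranch2 12 5 6 12 K71 2881 = true := by decide +kernel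

theorem rel71_0 : chkRelabel2 12 K72 12 (1198 :: 2897 :: K71) [0, 1, 2, 3, 4, 5, 6, 7, 8, 9, 10, 11] = true := by decide +kernel

theorem cm71_0 : (decide (12 ≤ 24) && decide (2 * 6 = 12) && decide (2897 < 2 ^ 12) && (2897 :: K71).contains 2897) = true := by decide +kernel

theorem cnd70 : cands2 12 5 6 [0, 2, 3, 4] 12 K70 1921 = [(1937, 12)] := by decide +kernel

theorem chk70 : chkBranch2 12 5 6 12 K70 1921 = true := by decide +kernel

theorem rel70_0 : chkRelabel2 12 K71 12 (2158 :: 1937 :: K70) [0, 1, 2, 3, 4, 5, 6, 7, 8, 9, 10, 11] = true := by decide +kernel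

theorem cm70_0 : (decide (12 ≤ 24) && decide (2 * 6 = 12) && decide (1937 < 2 ^ 12) && (1937 :: K70).contains 1937) = true := by decide +kernel

theorem cnd69 : cands2 12 5 6 [0, 2, 3, 4] 12 K69 2078 = [(3102, 12)] := by decide +kernel

theorem chk69 : chkBranch2 12 5 6 12 K69 2078 = true := by decide +kernel

theorem rel69_0 : chkRelabel2 12 K70 12 (993 :: 3102 :: K69) [0, 1, 2, 3, 4, 5, 6, 7, 8, 9, 10, 11] = true := by decide +kernel

theorem cm69_0 : (decide (12 ≤ 24) && decide (2 * 6 = 12) && decide (3102 < 2 ^ 12) && (3102 :: K69).contains 3102) = true := by decide +kernel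

theorem cnd68 : cands2 12 5 6 [0, 2, 3, 4] 12 K68 3121 = [(3129, 12)] := by decide +kernel

theorem chk68 : chkBranch2 12 5 6 12 K68 3121 = true := by decide +kernel

theorem rel68_0 : chkRelabel2 12 K69 12 (966 :: 3129 :: K68) [0, 1, 2, 3, 4, 5, 6, 7, 8, 9, 10, 11] = true := by decide +kernel

theorem cm68_0 : (decide (12 ≤ 24) && decide (2 * 6 = 12) && decide (3129 < 2 ^ 12) && (3129 :: K68).contains 3129) = true := by decide +kernel

theorem cnd67 : cands2 12 5 6 [0, 2, 3, 4] 12 K67 1612 = [(3660, 12)] := by decide +kernel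

theorem chk67 : chkBranch2 12 5 6 12 K67 1612 = true := by decide +kernel

theorem rel67_0 : chkRelabel2 12 K68 12 (435 :: 3660 :: K67) [0, 1, 2, 3, 4, 5, 6, 7, 8, 9, 10, 11] = true := by decide +kernel

theorem cm67_0 : (decide (12 ≤ 24) && decide (2 * 6 = 12) && decide (3660 < 2 ^ 12) && (3660 :: K67).contains 3660) = true := by decide +kernel

theorem cnd66 : cands2 12 5 6 [0, 2, 3, 4] 12 K66 1617 = [(1625, 12)] := by decide +kernel

theorem chk66 : chkBranch2 12 5 6 12 K66 1617 = true := by decide +kernel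

theorem rel66_0 : chkRelabel2 12 K67 12 (2470 :: 1625 :: K66) [0, 1, 2, 3, 4, 5, 6, 7, 8, 9, 10, 11] = true := by decide +kernel

theorem cm66_0 : (decide (12 ≤ 24) && decide (2 * 6 = 12) && decide (1625 < 2 ^ 12) && (1625 :: K66).contains 1625) = true := by decide +kernel

theorem cnd65 : cands2 12 5 6 [0, 2, 3, 4] 12 K65 406 = [(414, 12)] := by decide +kernel

theorem chk65 : chkBranch2 12 5 6 12 K65 406 = true := by decide +kernel

theorem rel65_0 : chkRelabel2 12 K66 12 (3681 :: 414 :: K65) [0, 1, 2, 3, 4, 5, 6, 7, 8, 9, 10, 11] = true := by decide +kernel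

theorem cm65_0 : (decide (12 ≤ 24) && decide (2 * 6 = 12) && decide (414 < 2 ^ 12) && (414 :: K65).contains 414) = true := by decide +kernel

theorem cnd64 : cands2 12 5 6 [0, 2, 3, 4] 12 K64 1670 = [(1686, 12)] := by decide +kernel

theorem chk64 : chkBranch2 12 5 6 12 K64 1670 = true := by decide +kernel

theorem rel64_0 : chkRelabel2 12 K65 12 (2409 :: 1686 :: K64) [0, 1, 2, 3, 4, 5, 6, 7, 8, 9, 10, 11] = true := by decide +kernel

theorem cm64_0 : (decide (12 ≤ 24) && decide (2 * 6 = 12) && decide (1686 < 2 ^ 12) && (1686 :: K64).contains 1686) = true := by decide +kernel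

theorem cnd63 : cands2 12 5 6 [0, 2, 3, 4] 12 K63 1063 = [(3111, 12)] := by decide +kernel

theorem chk63 : chkBranch2 12 5 6 12 K63 1063 = true := by decide +kernel

theorem rel63_0 : chkRelabel2 12 K64 12 (984 :: 3111 :: K63) [0, 1, 2, 3, 4, 5, 6, 7, 8, 9, 10, 11] = true := by decide +kernel

theorem cm63_0 : (decide (12 ≤ 24) && decide (2 * 6 = 12) && decide (3111 < 2 ^ 12) && (3111 :: K63).contains 3111) = true := by decide +kernel

theorem cnd62 : cands2 12 5 6 [0, 2, 3, 4] 12 K62 3650 = [(3666, 12)] := by decide +kernel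

theorem chk62 : chkBranch2 12 5 6 12 K62 3650 = true := by decide +kernel

theorem rel62_0 : chkRelabel2 12 K63 12 (429 :: 3666 :: K62) [0, 1, 2, 3, 4, 5, 6, 7, 8, 9, 10, 11] = true := by decide +kernel

theorem cm62_0 : (decide (12 ≤ 24) && decide (2 * 6 = 12) && decide (3666 < 2 ^ 12) && (3666 :: K62).contains 3666) = true := by decide +kernel

theorem cnd61 : cands2 12 5 6 [0, 2, 3, 4] 12 K61 722 = [(723, 12)] := by decide +kernel

theorem chk61 : chkBranch2 12 5 6 12 K61 722 = true := by decide +kernel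

theorem rel61_0 : chkRelabel2 12 K62 12 (3372 :: 723 :: K61) [0, 1, 2, 3, 4, 5, 6, 7, 8, 9, 10, 11] = true := by decide +kernel

theorem cm61_0 : (decide (12 ≤ 24) && decide (2 * 6 = 12) && decide (723 < 2 ^ 12) && (723 :: K61).contains 723) = true := by decide +kernel

theorem cnd60 : cands2 12 5 6 [0, 2, 3, 4] 12 K60 1236 = [(1244, 12)] := by decide +kernel

theorem chk60 : chkBranch2 12 5 6 12 K60 1236 = true := by decide +kernel

theorem rel60_0 : chkRelabel2 12 K61 12 (2851 :: 1244 :: K60) [0, 1, 2, 3, 4, 5, 6, 7, 8, 9, 10, 11] = true := by decide +kernel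

theorem cm60_0 : (decide (12 ≤ 24) && decide (2 * 6 = 12) && decide (1244 < 2 ^ 12) && (1244 :: K60).contains 1244) = true := by decide +kernel

theorem cnd59 : cands2 12 5 6 [0, 2, 3, 4] 12 K59 2102 = [(2614, 12)] := by decide +kernel

theorem chk59 : chkBranch2 12 5 6 12 K59 2102 = true := by decide +kernel

theorem rel59_0 : chkRelabel2 12 K60 12 (1481 :: 2614 :: K59) [0, 1, 2, 3, 4, 5, 6, 7, 8, 9, 10, 11] = true := by decide +kernel

theorem cm59_0 : (decide (12 ≤ 24) && decide (2 * 6 = 12) && decide (2614 < 2 ^ 12) && (2614 :: K59).contains 2614) = true := by decide +kernel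

theorem cnd58 : cands2 12 5 6 [0, 2, 3, 4] 12 K58 2197 = [(2199, 12)] := by decide +kernel

theorem chk58 : chkBranch2 12 5 6 12 K58 2197 = true := by decide +kernel

theorem rel58_0 : chkRelabel2 12 K59 12 (1896 :: 2199 :: K58) [0, 1, 2, 3, 4, 5, 6, 7, 8, 9, 10, 11] = true := by decide +kernel

theorem cm58_0 : (decide (12 ≤ 24) && decide (2 * 6 = 12) && decide (2199 < 2 ^ 12) && (2199 :: K58).contains 2199) = true := by decide +kernel

theorem cnd57 : cands2 12 5 6 [0, 2, 3, 4] 12 K57 2075 = [(2587, 12)] := by decide +kernel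

theorem chk57 : chkBranch2 12 5 6 12 K57 2075 = true := by decide +kernel

theorem rel57_0 : chkRelabel2 12 K58 12 (1508 :: 2587 :: K57) [0, 1, 2, 3, 4, 5, 6, 7, 8, 9, 10, 11] = true := by decide +kernel

theorem cm57_0 : (decide (12 ≤ 24) && decide (2 * 6 = 12) && decide (2587 < 2 ^ 12) && (2587 :: K57).contains 2587) = true := by decide +kernel

theorem cnd56 : cands2 12 5 6 [0, 2, 3, 4] 12 K56 899 = [(907, 12)] := by decide +kernel

theorem chk56 : chkBranch2 12 5 6 12 K56 899 = true := by decide +kernel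

theorem rel56_0 : chkRelabel2 12 K57 12 (3188 :: 907 :: K56) [0, 1, 2, 3, 4, 5, 6, 7, 8, 9, 10, 11] = true := by decide +kernel

theorem cm56_0 : (decide (12 ≤ 24) && decide (2 * 6 = 12) && decide (907 < 2 ^ 12) && (907 :: K56).contains 907) = true := by decide +kernel

theorem cnd55 : cands2 12 5 6 [0, 2, 3, 4] 12 K55 2465 = [(3489, 12)] := by decide +kernel

theorem chk55 : chkBranch2 12 5 6 12 K55 2465 = true := by decide +kernel

theorem rel55_0 : chkRelabel2 12 K56 12 (606 :: 3489 :: K55) [0, 1, 2, 3, 4, 5, 6, 7, 8, 9, 10, 11] = true := by decide +kernel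

theorem cm55_0 : (decide (12 ≤ 24) && decide (2 * 6 = 12) && decide (3489 < 2 ^ 12) && (3489 :: K55).contains 3489) = true := by decide +kernel

theorem cnd54 : cands2 12 5 6 [0, 2, 3, 4] 12 K54 781 = [(845, 12)] := by decide +kernel

theorem chk54 : chkBranch2 12 5 6 12 K54 781 = true := by decide +kernel

theorem rel54_0 : chkRelabel2 12 K55 12 (3250 :: 845 :: K54) [0, 1, 2, 3, 4, 5, 6, 7, 8, 9, 10, 11] = true := by decide +kernel

theorem cm54_0 : (decide (12 ≤ 24) && decide (2 * 6 = 12) && decide (845 < 2 ^ 12) && (845 :: K54).contains 845) = true := by decide +kernel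

theorem cnd53 : cands2 12 5 6 [0, 2, 3, 4] 12 K53 2311 = [(2319, 12)] := by decide +kernel

theorem chk53 : chkBranch2 12 5 6 12 K53 2311 = true := by decide +kernel

theorem rel53_0 : chkRelabel2 12 K54 12 (1776 :: 2319 :: K53) [0, 1, 2, 3, 4, 5, 6, 7, 8, 9, 10, 11] = true := by decide +kernel

theorem cm53_0 : (decide (12 ≤ 24) && decide (2 * 6 = 12) && decide (2319 < 2 ^ 12) && (2319 :: K53).contains 2319) = true := by decide +kernel

theorem cnd52 : cands2 12 5 6 [0, 2, 3, 4] 12 K52 2140 = [(2141, 12)] := by decide +kernel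

theorem chk52 : chkBranch2 12 5 6 12 K52 2140 = true := by decide +kernel

theorem rel52_0 : chkRelabel2 12 K53 12 (1954 :: 2141 :: K52) [0, 1, 2, 3, 4, 5, 6, 7, 8, 9, 10, 11] = true := by decide +kernel

theorem cm52_0 : (decide (12 ≤ 24) && decide (2 * 6 = 12) && decide (2141 < 2 ^ 12) && (2141 :: K52).contains 2141) = true := by decide +kernel

theorem cnd51 : cands2 12 5 6 [0, 2, 3, 4] 12 K51 2712 = [(3736, 12)] := by decide +kernel

theorem chk51 : chkBranch2 12 5 6 12 K51 2712 = true := by decide +kernel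

theorem rel51_0 : chkRelabel2 12 K52 12 (359 :: 3736 :: K51) [0, 1, 2, 3, 4, 5, 6, 7, 8, 9, 10, 11] = true := by decide +kernel

theorem cm51_0 : (decide (12 ≤ 24) && decide (2 * 6 = 12) && decide (3736 < 2 ^ 12) && (3736 :: K51).contains 3736) = true := by decide +kernel

theorem cnd50 : cands2 12 5 6 [0, 2, 3, 4] 12 K50 2528 = [(2544, 12)] := by decide +kernel

theorem chk50 : chkBranch2 12 5 6 12 K50 2528 = true := by decide +kernel

theorem rel50_0 : chkRelabel2 12 K51 12 (1551 :: 2544 :: K50) [0, 1, 2, 3, 4, 5, 6, 7, 8, 9, 10, 11] = true := by decide +kernel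

theorem cm50_0 : (decide (12 ≤ 24) && decide (2 * 6 = 12) && decide (2544 < 2 ^ 12) && (2544 :: K50).contains 2544) = true := by decide +kernel

theorem cnd49 : cands2 12 5 6 [0, 2, 3, 4] 12 K49 310 = [(1334, 12)] := by decide +kernel

theorem chk49 : chkBranch2 12 5 6 12 K49 310 = true := by decide +kernel

theorem rel49_0 : chkRelabel2 12 K50 12 (2761 :: 1334 :: K49) [0, 1, 2, 3, 4, 5, 6, 7, 8, 9, 10, 11] = true := by decide +kernel

theorem cm49_0 : (decide (12 ≤ 24) && decide (2 * 6 = 12) && decide (1334 < 2 ^ 12) && (1334 :: K49).contains 1334) = true := by decide +kernel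

theorem cnd48 : cands2 12 5 6 [0, 2, 3, 4] 12 K48 2245 = [(2277, 12)] := by decide +kernel

theorem chk48 : chkBranch2 12 5 6 12 K48 2245 = true := by decide +kernel

theorem rel48_0 : chkRelabel2 12 K49 12 (1818 :: 2277 :: K48) [0, 1, 2, 3, 4, 5, 6, 7, 8, 9, 10, 11] = true := by decide +kernel

theorem cm48_0 : (decide (12 ≤ 24) && decide (2 * 6 = 12) && decide (2277 < 2 ^ 12) && (2277 :: K48).contains 2277) = true := by decide +kernel

theorem cnd47 : cands2 12 5 6 [0, 2, 3, 4] 12 K47 597 = [(629, 12)] := by decide +kernel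

theorem chk47 : chkBranch2 12 5 6 12 K47 597 = true := by decide +kernel

theorem rel47_0 : chkRelabel2 12 K48 12 (3466 :: 629 :: K47) [0, 1, 2, 3, 4, 5, 6, 7, 8, 9, 10, 11] = true := by decide +kernel

theorem cm47_0 : (decide (12 ≤ 24) && decide (2 * 6 = 12) && decide (629 < 2 ^ 12) && (629 :: K47).contains 629) = true := by decide +kernel

theorem cnd46 : cands2 12 5 6 [0, 2, 3, 4] 12 K46 2392 = [(3416, 12)] := by decide +kernel

theorem chk46 : chkBranch2 12 5 6 12 K46 2392 = true := by decide +kernel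

theorem rel46_0 : chkRelabel2 12 K47 12 (679 :: 3416 :: K46) [0, 1, 2, 3, 4, 5, 6, 7, 8, 9, 10, 11] = true := by decide +kernel

theorem cm46_0 : (decide (12 ≤ 24) && decide (2 * 6 = 12) && decide (3416 < 2 ^ 12) && (3416 :: K46).contains 3416) = true := by decide +kernel

theorem cnd45 : cands2 12 5 6 [0, 2, 3, 4] 12 K45 2456 = [(2457, 12)] := by decide +kernel

theorem chk45 : chkBranch2 12 5 6 12 K45 2456 = true := by decide +kernel

theorem rel45_0 : chkRelabel2 12 K46 12 (1638 :: 2457 :: K45) [0, 1, 2, 3, 4, 5, 6, 7, 8, 9, 10, 11] = true := by decide +kernel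

theorem cm45_0 : (decide (12 ≤ 24) && decide (2 * 6 = 12) && decide (2457 < 2 ^ 12) && (2457 :: K45).contains 2457) = true := by decide +kernel

theorem cnd44 : cands2 12 5 6 [0, 2, 3, 4] 12 K44 1812 = [(1876, 12)] := by decide +kernel

theorem chk44 : chkBranch2 12 5 6 12 K44 1812 = true := by decide +kernel

theorem rel44_0 : chkRelabel2 12 K45 12 (2219 :: 1876 :: K44) [0, 1, 2, 3, 4, 5, 6, 7, 8, 9, 10, 11] = true := by decide +kernel

theorem cm44_0 : (decide (12 ≤ 24) && decide (2 * 6 = 12) && decide (1876 < 2 ^ 12) && (1876 :: K44).contains 1876) = true := by decide +kernel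

theorem cnd43 : cands2 12 5 6 [0, 2, 3, 4] 12 K43 2836 = [(2844, 12)] := by decide +kernel

theorem chk43 : chkBranch2 12 5 6 12 K43 2836 = true := by decide +kernel

theorem rel43_0 : chkRelabel2 12 K44 12 (1251 :: 2844 :: K43) [0, 1, 2, 3, 4, 5, 6, 7, 8, 9, 10, 11] = true := by decide +kernel

theorem cm43_0 : (decide (12 ≤ 24) && decide (2 * 6 = 12) && decide (2844 < 2 ^ 12) && (2844 :: K43).contains 2844) = true := by decide +kernel

theorem cnd42 : cands2 12 5 6 [0, 2, 3, 4] 12 K42 868 = [(2916, 12)] := by decide +kernel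

theorem chk42 : chkBranch2 12 5 6 12 K42 868 = true := by decide +kernel

theorem rel42_0 : chkRelabel2 12 K43 12 (1179 :: 2916 :: K42) [0, 1, 2, 3, 4, 5, 6, 7, 8, 9, 10, 11] = true := by decide +kernel

theorem cm42_0 : (decide (12 ≤ 24) && decide (2 * 6 = 12) && decide (2916 < 2 ^ 12) && (2916 :: K42).contains 2916) = true := by decide +kernel

theorem cnd41 : cands2 12 5 6 [0, 2, 3, 4] 12 K41 234 = [(490, 12)] := by decide +kernel

theorem chk41 : chkBranch2 12 5 6 12 K41 234 = true := by decide +kernel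

theorem rel41_0 : chkRelabel2 12 K42 12 (3605 :: 490 :: K41) [0, 1, 2, 3, 4, 5, 6, 7, 8, 9, 10, 11] = true := by decide +kernel

theorem cm41_0 : (decide (12 ≤ 24) && decide (2 * 6 = 12) && decide (490 < 2 ^ 12) && (490 :: K41).contains 490) = true := by decide +kernel

theorem cnd40 : cands2 12 5 6 [0, 2, 3, 4] 12 K40 2756 = [(2772, 12)] := by decide +kernel

theorem chk40 : chkBranch2 12 5 6 12 K40 2756 = true := by decide +kernel

theorem rel40_0 : chkRelabel2 12 K41 12 (1323 :: 2772 :: K40) [0, 1, 2, 3, 4, 5, 6, 7, 8, 9, 10, 11] = true := by decide +kernel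

theorem cm40_0 : (decide (12 ≤ 24) && decide (2 * 6 = 12) && decide (2772 < 2 ^ 12) && (2772 :: K40).contains 2772) = true := by decide +kernel

theorem cnd39 : cands2 12 5 6 [0, 2, 3, 4] 12 K39 2168 = [(2680, 12)] := by decide +kernel

theorem chk39 : chkBranch2 12 5 6 12 K39 2168 = true := by decide +kernel

theorem rel39_0 : chkRelabel2 12 K40 12 (1415 :: 2680 :: K39) [0, 1, 2, 3, 4, 5, 6, 7, 8, 9, 10, 11] = true := by decide +kernel

theorem cm39_0 : (decide (12 ≤ 24) && decide (2 * 6 = 12) && decide (2680 < 2 ^ 12) && (2680 :: K39).contains 2680) = true := by decide +kernel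

theorem cnd38 : cands2 12 5 6 [0, 2, 3, 4] 12 K38 668 = [(669, 12)] := by decide +kernel

theorem chk38 : chkBranch2 12 5 6 12 K38 668 = true := by decide +kernel

theorem rel38_0 : chkRelabel2 12 K39 12 (3426 :: 669 :: K38) [0, 1, 2, 3, 4, 5, 6, 7, 8, 9, 10, 11] = true := by decide +kernel

theorem cm38_0 : (decide (12 ≤ 24) && decide (2 * 6 = 12) && decide (669 < 2 ^ 12) && (669 :: K38).contains 669) = true := by decide +kernel

theorem cnd37 : cands2 12 5 6 [0, 2, 3, 4] 12 K37 2952 = [(2984, 12)] := by decide +kernel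

theorem chk37 : chkBranch2 12 5 6 12 K37 2952 = true := by decide +kernel

theorem rel37_0 : chkRelabel2 12 K38 12 (1111 :: 2984 :: K37) [0, 1, 2, 3, 4, 5, 6, 7, 8, 9, 10, 11] = true := by decide +kernel

theorem cm37_0 : (decide (12 ≤ 24) && decide (2 * 6 = 12) && decide (2984 < 2 ^ 12) && (2984 :: K37).contains 2984) = true := by decide +kernel

theorem cnd36 : cands2 12 5 6 [0, 2, 3, 4] 12 K36 2371 = [(2499, 12)] := by decide +kernel

theorem chk36 : chkBranch2 12 5 6 12 K36 2371 = true := by decide +kernel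

theorem rel36_0 : chkRelabel2 12 K37 12 (1596 :: 2499 :: K36) [0, 1, 2, 3, 4, 5, 6, 7, 8, 9, 10, 11] = true := by decide +kernel

theorem cm36_0 : (decide (12 ≤ 24) && decide (2 * 6 = 12) && decide (2499 < 2 ^ 12) && (2499 :: K36).contains 2499) = true := by decide +kernel

theorem cnd35 : cands2 12 5 6 [0, 2, 3, 4] 12 K35 440 = [(1464, 12)] := by decide +kernel

theorem chk35 : chkBranch2 12 5 6 12 K35 440 = true := by decide +kernel

theorem rel35_0 : chkRelabel2 12 K36 12 (2631 :: 1464 :: K35) [0, 1, 2, 3, 4, 5, 6, 7, 8, 9, 10, 11] = true := by decide +kernel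

theorem cm35_0 : (decide (12 ≤ 24) && decide (2 * 6 = 12) && decide (1464 < 2 ^ 12) && (1464 :: K35).contains 1464) = true := by decide +kernel

theorem cnd34 : cands2 12 5 6 [0, 2, 3, 4] 12 K34 1204 = [(1205, 12)] := by decide +kernel

theorem chk34 : chkBranch2 12 5 6 12 K34 1204 = true := by decide +kernel

theorem rel34_0 : chkRelabel2 12 K35 12 (2890 :: 1205 :: K34) [0, 1, 2, 3, 4, 5, 6, 7, 8, 9, 10, 11] = true := by decide +kernel

theorem cm34_0 : (decide (12 ≤ 24) && decide (2 * 6 = 12) && decide (1205 < 2 ^ 12) && (1205 :: K34).contains 1205) = true := by decide +kernel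

theorem cnd33 : cands2 12 5 6 [0, 2, 3, 4] 12 K33 1234 = [(1490, 12)] := by decide +kernel

theorem chk33 : chkBranch2 12 5 6 12 K33 1234 = true := by decide +kernel

theorem rel33_0 : chkRelabel2 12 K34 12 (2605 :: 1490 :: K33) [0, 1, 2, 3, 4, 5, 6, 7, 8, 9, 10, 11] = true := by decide +kernel

theorem cm33_0 : (decide (12 ≤ 24) && decide (2 * 6 = 12) && decide (1490 < 2 ^ 12) && (1490 :: K33).contains 1490) = true := by decide +kernel

theorem cnd32 : cands2 12 5 6 [0, 2, 3, 4] 12 K32 824 = [(825, 12)] := by decide +kernel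

theorem chk32 : chkBranch2 12 5 6 12 K32 824 = true := by decide +kernel

theorem rel32_0 : chkRelabel2 12 K33 12 (3270 :: 825 :: K32) [0, 1, 2, 3, 4, 5, 6, 7, 8, 9, 10, 11] = true := by decide +kernel

theorem cm32_0 : (decide (12 ≤ 24) && decide (2 * 6 = 12) && decide (825 < 2 ^ 12) && (825 :: K32).contains 825) = true := by decide +kernel

theorem cnd31 : cands2 12 5 6 [0, 2, 3, 4] 12 K31 3345 = [(3347, 12)] := by decide +kernel

theorem chk31 : chkBranch2 12 5 6 12 K31 3345 = true := by decide +kernel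

theorem rel31_0 : chkRelabel2 12 K32 12 (748 :: 3347 :: K31) [0, 1, 2, 3, 4, 5, 6, 7, 8, 9, 10, 11] = true := by decide +kernel

theorem cm31_0 : (decide (12 ≤ 24) && decide (2 * 6 = 12) && decide (3347 < 2 ^ 12) && (3347 :: K31).contains 3347) = true := by decide +kernel

theorem cnd30 : cands2 12 5 6 [0, 2, 3, 4] 12 K30 1577 = [(1705, 12)] := by decide +kernel

theorem chk30 : chkBranch2 12 5 6 12 K30 1577 = true := by decide +kernel

theorem rel30_0 : chkRelabel2 12 K31 12 (2390 :: 1705 :: K30) [0, 1, 2, 3, 4, 5, 6, 7, 8, 9, 10, 11] = true := by decide +kernel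

theorem cm30_0 : (decide (12 ≤ 24) && decide (2 * 6 = 12) && decide (1705 < 2 ^ 12) && (1705 :: K30).contains 1705) = true := by decide +kernel

theorem cnd29 : cands2 12 5 6 [0, 2, 3, 4] 12 K29 738 = [(2786, 12)] := by decide +kernel

theorem chk29 : chkBranch2 12 5 6 12 K29 738 = true := by decide +kernel

theorem rel29_0 : chkRelabel2 12 K30 12 (1309 :: 2786 :: K29) [0, 1, 2, 3, 4, 5, 6, 7, 8, 9, 10, 11] = true := by decide +kernel

theorem cm29_0 : (decide (12 ≤ 24) && decide (2 * 6 = 12) && decide (2786 < 2 ^ 12) && (2786 :: K29).contains 2786) = true := by decide +kernel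

theorem cnd28 : cands2 12 5 6 [0, 2, 3, 4] 12 K28 460 = [(2508, 12)] := by decide +kernel

theorem chk28 : chkBranch2 12 5 6 12 K28 460 = true := by decide +kernel

theorem rel28_0 : chkRelabel2 12 K29 12 (1587 :: 2508 :: K28) [0, 1, 2, 3, 4, 5, 6, 7, 8, 9, 10, 11] = true := by decide +kernel

theorem cm28_0 : (decide (12 ≤ 24) && decide (2 * 6 = 12) && decide (2508 < 2 ^ 12) && (2508 :: K28).contains 2508) = true := by decide +kernel

theorem cnd27 : cands2 12 5 6 [0, 2, 3, 4] 12 K27 3714 = [(3715, 12)] := by decide +kernel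

theorem chk27 : chkBranch2 12 5 6 12 K27 3714 = true := by decide +kernel

theorem rel27_0 : chkRelabel2 12 K28 12 (380 :: 3715 :: K27) [0, 1, 2, 3, 4, 5, 6, 7, 8, 9, 10, 11] = true := by decide +kernel

theorem cm27_0 : (decide (12 ≤ 24) && decide (2 * 6 = 12) && decide (3715 < 2 ^ 12) && (3715 :: K27).contains 3715) = true := by decide +kernel

theorem cnd26 : cands2 12 5 6 [0, 2, 3, 4] 12 K26 1354 = [(1358, 12)] := by decide +kernel

theorem chk26 : chkBranch2 12 5 6 12 K26 1354 = true := by decide +kernel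

theorem rel26_0 : chkRelabel2 12 K27 12 (2737 :: 1358 :: K26) [0, 1, 2, 3, 4, 5, 6, 7, 8, 9, 10, 11] = true := by decide +kernel

theorem cm26_0 : (decide (12 ≤ 24) && decide (2 * 6 = 12) && decide (1358 < 2 ^ 12) && (1358 :: K26).contains 1358) = true := by decide +kernel

theorem cnd25 : cands2 12 5 6 [0, 2, 3, 4] 12 K25 806 = [(814, 12)] := by decide +kernel

theorem chk25 : chkBranch2 12 5 6 12 K25 806 = true := by decide +kernel

theorem rel25_0 : chkRelabel2 12 K26 12 (3281 :: 814 :: K25) [0, 1, 2, 3, 4, 5, 6, 7, 8, 9, 10, 11] = true := by decide +kernel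

theorem cm25_0 : (decide (12 ≤ 24) && decide (2 * 6 = 12) && decide (814 < 2 ^ 12) && (814 :: K25).contains 814) = true := by decide +kernel

theorem cnd24 : cands2 12 5 6 [0, 2, 3, 4] 12 K24 2106 = [(2362, 12)] := by decide +kernel

theorem chk24 : chkBranch2 12 5 6 12 K24 2106 = true := by decide +kernel

theorem rel24_0 : chkRelabel2 12 K25 12 (1733 :: 2362 :: K24) [0, 1, 2, 3, 4, 5, 6, 7, 8, 9, 10, 11] = true := by decide +kernel

theorem cm24_0 : (decide (12 ≤ 24) && decide (2 * 6 = 12) && decide (2362 < 2 ^ 12) && (2362 :: K24).contains 2362) = true := by decide +kernel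

theorem cnd23 : cands2 12 5 6 [0, 2, 3, 4] 12 K23 787 = [(791, 12)] := by decide +kernel

theorem chk23 : chkBranch2 12 5 6 12 K23 787 = true := by decide +kernel

theorem rel23_0 : chkRelabel2 12 K24 12 (3304 :: 791 :: K23) [0, 1, 2, 3, 4, 5, 6, 7, 8, 9, 10, 11] = true := by decide +kernel

theorem cm23_0 : (decide (12 ≤ 24) && decide (2 * 6 = 12) && decide (791 < 2 ^ 12) && (791 :: K23).contains 791) = true := by decide +kernel

theorem cnd22 : cands2 12 5 6 [0, 2, 3, 4] 12 K22 309 = [(2357, 12)] := by decide +kernel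

theorem chk22 : chkBranch2 12 5 6 12 K22 309 = true := by decide +kernel

theorem rel22_0 : chkRelabel2 12 K23 12 (1738 :: 2357 :: K22) [0, 1, 2, 3, 4, 5, 6, 7, 8, 9, 10, 11] = true := by decide +kernel

theorem cm22_0 : (decide (12 ≤ 24) && decide (2 * 6 = 12) && decide (2357 < 2 ^ 12) && (2357 :: K22).contains 2357) = true := by decide +kernel

theorem cnd21 : cands2 12 5 6 [0, 2, 3, 4] 12 K21 2204 = [(2236, 12)] := by decide +kernel

theorem chk21 : chkBranch2 12 5 6 12 K21 2204 = true := by decide +kernel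

theorem rel21_0 : chkRelabel2 12 K22 12 (1859 :: 2236 :: K21) [0, 1, 2, 3, 4, 5, 6, 7, 8, 9, 10, 11] = true := by decide +kernel

theorem cm21_0 : (decide (12 ≤ 24) && decide (2 * 6 = 12) && decide (2236 < 2 ^ 12) && (2236 :: K21).contains 2236) = true := by decide +kernel

theorem cnd20 : cands2 12 5 6 [0, 2, 3, 4] 12 K20 1069 = [(1133, 12)] := by decide +kernel

theorem chk20 : chkBranch2 12 5 6 12 K20 1069 = true := by decide +kernel

theorem rel20_0 : chkRelabel2 12 K21 12 (2962 :: 1133 :: K20) [0, 1, 2, 3, 4, 5, 6, 7, 8, 9, 10, 11] = true := by decide +kernel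

theorem cm20_0 : (decide (12 ≤ 24) && decide (2 * 6 = 12) && decide (1133 < 2 ^ 12) && (1133 :: K20).contains 1133) = true := by decide +kernel

theorem cnd19 : cands2 12 5 6 [0, 2, 3, 4] 12 K19 1099 = [(3147, 12)] := by decide +kernel

theorem chk19 : chkBranch2 12 5 6 12 K19 1099 = true := by decide +kernel

theorem rel19_0 : chkRelabel2 12 K20 12 (948 :: 3147 :: K19) [0, 1, 2, 3, 4, 5, 6, 7, 8, 9, 10, 11] = true := by decide +kernel

theorem cm19_0 : (decide (12 ≤ 24) && decide (2 * 6 = 12) && decide (3147 < 2 ^ 12) && (3147 :: K19).contains 3147) = true := by decide +kernel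

theorem cnd18 : cands2 12 5 6 [0, 2, 3, 4] 12 K18 218 = [(2266, 12)] := by decide +kernel

theorem chk18 : chkBranch2 12 5 6 12 K18 218 = true := by decide +kernel

theorem rel18_0 : chkRelabel2 12 K19 12 (1829 :: 2266 :: K18) [0, 1, 2, 3, 4, 5, 6, 7, 8, 9, 10, 11] = true := by decide +kernel

theorem cm18_0 : (decide (12 ≤ 24) && decide (2 * 6 = 12) && decide (2266 < 2 ^ 12) && (2266 :: K18).contains 2266) = true := by decide +kernel

theorem cnd17 : cands2 12 5 6 [0, 2, 3, 4] 12 K17 654 = [(2702, 12)] := by decide +kernel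

theorem chk17 : chkBranch2 12 5 6 12 K17 654 = true := by decide +kernel

theorem rel17_0 : chkRelabel2 12 K18 12 (1393 :: 2702 :: K17) [0, 1, 2, 3, 4, 5, 6, 7, 8, 9, 10, 11] = true := by decide +kernel

theorem cm17_0 : (decide (12 ≤ 24) && decide (2 * 6 = 12) && decide (2702 < 2 ^ 12) && (2702 :: K17).contains 2702) = true := by decide +kernel

theorem chk130 : chkLeaf2 12 Std12 K130 [0, 1, 2, 3, 4, 10, 11, 8, 5, 6, 9, 7] = true := by decide +kernel

theorem cnd129 : cands2 12 5 6 [0, 2, 3, 4] 12 K129 1240 = [(3288, 12)] := by decide +kernel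

theorem chk129 : chkBranch2 12 5 6 12 K129 1240 = true := by decide +kernel

theorem rel129_0 : chkRelabel2 12 K130 12 (807 :: 3288 :: K129) [0, 1, 2, 3, 4, 5, 6, 7, 8, 9, 10, 11] = true := by decide +kernel

theorem cm129_0 : (decide (12 ≤ 24) && decide (2 * 6 = 12) && decide (3288 < 2 ^ 12) && (3288 :: K129).contains 3288) = true := by decide +kernel

theorem cnd128 : cands2 12 5 6 [0, 2, 3, 4] 12 K128 1605 = [(3653, 12)] := by decide +kernel

theorem chk128 : chkBranch2 12 5 6 12 K128 1605 = true := by decide +kernel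

theorem rel128_0 : chkRelabel2 12 K129 12 (442 :: 3653 :: K128) [0, 1, 2, 3, 4, 5, 6, 7, 8, 9, 10, 11] = true := by decide +kernel

theorem cm128_0 : (decide (12 ≤ 24) && decide (2 * 6 = 12) && decide (3653 < 2 ^ 12) && (3653 :: K128).contains 3653) = true := by decide +kernel

theorem cnd127 : cands2 12 5 6 [0, 2, 3, 4] 12 K127 2211 = [(2215, 12)] := by decide +kernel

theorem chk127 : chkBranch2 12 5 6 12 K127 2211 = true := by decide +kernel

theorem rel127_0 : chkRelabel2 12 K128 12 (1880 :: 2215 :: K127) [0, 1, 2, 3, 4, 5, 6, 7, 8, 9, 10, 11] = true := by decide +kernel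

theorem cm127_0 : (decide (12 ≤ 24) && decide (2 * 6 = 12) && decide (2215 < 2 ^ 12) && (2215 :: K127).contains 2215) = true := by decide +kernel

theorem cnd126 : cands2 12 5 6 [0, 2, 3, 4] 12 K126 316 = [(1340, 12)] := by decide +kernel

theorem chk126 : chkBranch2 12 5 6 12 K126 316 = true := by decide +kernel

theorem rel126_0 : chkRelabel2 12 K127 12 (2755 :: 1340 :: K126) [0, 1, 2, 3, 4, 5, 6, 7, 8, 9, 10, 11] = true := by decide +kernel

theorem cm126_0 : (decide (12 ≤ 24) && decide (2 * 6 = 12) && decide (1340 < 2 ^ 12) && (1340 :: K126).contains 1340) = true := by decide +kernel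

theorem cnd125 : cands2 12 5 6 [0, 2, 3, 4] 12 K125 597 = [(599, 12)] := by decide +kernel

theorem chk125 : chkBranch2 12 5 6 12 K125 597 = true := by decide +kernel

theorem rel125_0 : chkRelabel2 12 K126 12 (3496 :: 599 :: K125) [0, 1, 2, 3, 4, 5, 6, 7, 8, 9, 10, 11] = true := by decide +kernel

theorem cm125_0 : (decide (12 ≤ 24) && decide (2 * 6 = 12) && decide (599 < 2 ^ 12) && (599 :: K125).contains 599) = true := by decide +kernel

theorem cnd124 : cands2 12 5 6 [0, 2, 3, 4] 12 K124 3601 = [(3729, 12)] := by decide +kernel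

theorem chk124 : chkBranch2 12 5 6 12 K124 3601 = true := by decide +kernel

theorem rel124_0 : chkRelabel2 12 K125 12 (366 :: 3729 :: K124) [0, 1, 2, 3, 4, 5, 6, 7, 8, 9, 10, 11] = true := by decide +kernel

theorem cm124_0 : (decide (12 ≤ 24) && decide (2 * 6 = 12) && decide (3729 < 2 ^ 12) && (3729 :: K124).contains 3729) = true := by decide +kernel

theorem cnd123 : cands2 12 5 6 [0, 2, 3, 4] 12 K123 2276 = [(2532, 12)] := by decide +kernel

theorem chk123 : chkBranch2 12 5 6 12 K123 2276 = true := by decide +kernel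

theorem rel123_0 : chkRelabel2 12 K124 12 (1563 :: 2532 :: K123) [0, 1, 2, 3, 4, 5, 6, 7, 8, 9, 10, 11] = true := by decide +kernel

theorem cm123_0 : (decide (12 ≤ 24) && decide (2 * 6 = 12) && decide (2532 < 2 ^ 12) && (2532 :: K123).contains 2532) = true := by decide +kernel

theorem cnd122 : cands2 12 5 6 [0, 2, 3, 4] 12 K122 2449 = [(2481, 12)] := by decide +kernel

theorem chk122 : chkBranch2 12 5 6 12 K122 2449 = true := by decide +kernel

theorem rel122_0 : chkRelabel2 12 K123 12 (1614 :: 2481 :: K122) [0, 1, 2, 3, 4, 5, 6, 7, 8, 9, 10, 11] = true := by decide +kernel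

theorem cm122_0 : (decide (12 ≤ 24) && decide (2 * 6 = 12) && decide (2481 < 2 ^ 12) && (2481 :: K122).contains 2481) = true := by decide +kernel

theorem cnd121 : cands2 12 5 6 [0, 2, 3, 4] 12 K121 2498 = [(2514, 12)] := by decide +kernel

theorem chk121 : chkBranch2 12 5 6 12 K121 2498 = true := by decide +kernel

theorem rel121_0 : chkRelabel2 12 K122 12 (1581 :: 2514 :: K121) [0, 1, 2, 3, 4, 5, 6, 7, 8, 9, 10, 11] = true := by decide +kernel

theorem cm121_0 : (decide (12 ≤ 24) && decide (2 * 6 = 12) && decide (2514 < 2 ^ 12) && (2514 :: K121).contains 2514) = true := by decide +kernel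

theorem cnd120 : cands2 12 5 6 [0, 2, 3, 4] 12 K120 1067 = [(1195, 12)] := by decide +kernel

theorem chk120 : chkBranch2 12 5 6 12 K120 1067 = true := by decide +kernel

theorem rel120_0 : chkRelabel2 12 K121 12 (2900 :: 1195 :: K120) [0, 1, 2, 3, 4, 5, 6, 7, 8, 9, 10, 11] = true := by decide +kernel

theorem cm120_0 : (decide (12 ≤ 24) && decide (2 * 6 = 12) && decide (1195 < 2 ^ 12) && (1195 :: K120).contains 1195) = true := by decide +kernel

theorem cnd119 : cands2 12 5 6 [0, 2, 3, 4] 12 K119 1414 = [(1446, 12)] := by decide +kernel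

theorem chk119 : chkBranch2 12 5 6 12 K119 1414 = true := by decide +kernel

theorem rel119_0 : chkRelabel2 12 K120 12 (2649 :: 1446 :: K119) [0, 1, 2, 3, 4, 5, 6, 7, 8, 9, 10, 11] = true := by decide +kernel

theorem cm119_0 : (decide (12 ≤ 24) && decide (2 * 6 = 12) && decide (1446 < 2 ^ 12) && (1446 :: K119).contains 1446) = true := by decide +kernel

theorem cnd118 : cands2 12 5 6 [0, 2, 3, 4] 12 K118 2819 = [(2835, 12)] := by decide +kernel

theorem chk118 : chkBranch2 12 5 6 12 K118 2819 = true := by decide +kernel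

theorem rel118_0 : chkRelabel2 12 K119 12 (1260 :: 2835 :: K118) [0, 1, 2, 3, 4, 5, 6, 7, 8, 9, 10, 11] = true := by decide +kernel

theorem cm118_0 : (decide (12 ≤ 24) && decide (2 * 6 = 12) && decide (2835 < 2 ^ 12) && (2835 :: K118).contains 2835) = true := by decide +kernel

theorem cnd117 : cands2 12 5 6 [0, 2, 3, 4] 12 K117 1432 = [(1433, 12)] := by decide +kernel

theorem chk117 : chkBranch2 12 5 6 12 K117 1432 = true := by decide +kernel

theorem rel117_0 : chkRelabel2 12 K118 12 (2662 :: 1433 :: K117) [0, 1, 2, 3, 4, 5, 6, 7, 8, 9, 10, 11] = true := by decide +kernel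

theorem cm117_0 : (decide (12 ≤ 24) && decide (2 * 6 = 12) && decide (1433 < 2 ^ 12) && (1433 :: K117).contains 1433) = true := by decide +kernel

theorem cnd116 : cands2 12 5 6 [0, 2, 3, 4] 12 K116 1795 = [(1859, 12)] := by decide +kernel

theorem chk116 : chkBranch2 12 5 6 12 K116 1795 = true := by decide +kernel

theorem rel116_0 : chkRelabel2 12 K117 12 (2236 :: 1859 :: K116) [0, 1, 2, 3, 4, 5, 6, 7, 8, 9, 10, 11] = true := by decide +kernel

theorem cm116_0 : (decide (12 ≤ 24) && decide (2 * 6 = 12) && decide (1859 < 2 ^ 12) && (1859 :: K116).contains 1859) = true := by decide +kernel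

theorem cnd115 : cands2 12 5 6 [0, 2, 3, 4] 12 K115 2976 = [(2978, 12)] := by decide +kernel

theorem chk115 : chkBranch2 12 5 6 12 K115 2976 = true := by decide +kernel

theorem rel115_0 : chkRelabel2 12 K116 12 (1117 :: 2978 :: K115) [0, 1, 2, 3, 4, 5, 6, 7, 8, 9, 10, 11] = true := by decide +kernel

theorem cm115_0 : (decide (12 ≤ 24) && decide (2 * 6 = 12) && decide (2978 < 2 ^ 12) && (2978 :: K115).contains 2978) = true := by decide +kernel

theorem cnd114 : cands2 12 5 6 [0, 2, 3, 4] 12 K114 2697 = [(2729, 12)] := by decide +kernel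

theorem chk114 : chkBranch2 12 5 6 12 K114 2697 = true := by decide +kernel

theorem rel114_0 : chkRelabel2 12 K115 12 (1366 :: 2729 :: K114) [0, 1, 2, 3, 4, 5, 6, 7, 8, 9, 10, 11] = true := by decide +kernel

theorem cm114_0 : (decide (12 ≤ 24) && decide (2 * 6 = 12) && decide (2729 < 2 ^ 12) && (2729 :: K114).contains 2729) = true := by decide +kernel

theorem cnd113 : cands2 12 5 6 [0, 2, 3, 4] 12 K113 1888 = [(1892, 12)] := by decide +kernel

theorem chk113 : chkBranch2 12 5 6 12 K113 1888 = true := by decide +kernel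

theorem rel113_0 : chkRelabel2 12 K114 12 (2203 :: 1892 :: K113) [0, 1, 2, 3, 4, 5, 6, 7, 8, 9, 10, 11] = true := by decide +kernel

theorem cm113_0 : (decide (12 ≤ 24) && decide (2 * 6 = 12) && decide (1892 < 2 ^ 12) && (1892 :: K113).contains 1892) = true := by decide +kernel

theorem cnd112 : cands2 12 5 6 [0, 2, 3, 4] 12 K112 2252 = [(2764, 12)] := by decide +kernel

theorem chk112 : chkBranch2 12 5 6 12 K112 2252 = true := by decide +kernel

theorem rel112_0 : chkRelabel2 12 K113 12 (1331 :: 2764 :: K112) [0, 1, 2, 3, 4, 5, 6, 7, 8, 9, 10, 11] = true := by decide +kernel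

theorem cm112_0 : (decide (12 ≤ 24) && decide (2 * 6 = 12) && decide (2764 < 2 ^ 12) && (2764 :: K112).contains 2764) = true := by decide +kernel

theorem cnd111 : cands2 12 5 6 [0, 2, 3, 4] 12 K111 1648 = [(1649, 12)] := by decide +kernel

theorem chk111 : chkBranch2 12 5 6 12 K111 1648 = true := by decide +kernel

theorem rel111_0 : chkRelabel2 12 K112 12 (2446 :: 1649 :: K111) [0, 1, 2, 3, 4, 5, 6, 7, 8, 9, 10, 11] = true := by decide +kernel

theorem cm111_0 : (decide (12 ≤ 24) && decide (2 * 6 = 12) && decide (1649 < 2 ^ 12) && (1649 :: K111).contains 1649) = true := by decide +kernel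

theorem cnd110 : cands2 12 5 6 [0, 2, 3, 4] 12 K110 1698 = [(1762, 12)] := by decide +kernel

theorem chk110 : chkBranch2 12 5 6 12 K110 1698 = true := by decide +kernel

theorem rel110_0 : chkRelabel2 12 K111 12 (2333 :: 1762 :: K110) [0, 1, 2, 3, 4, 5, 6, 7, 8, 9, 10, 11] = true := by decide +kernel

theorem cm110_0 : (decide (12 ≤ 24) && decide (2 * 6 = 12) && decide (1762 < 2 ^ 12) && (1762 :: K110).contains 1762) = true := by decide +kernel

theorem cnd109 : cands2 12 5 6 [0, 2, 3, 4] 12 K109 1293 = [(1295, 12)] := by decide +kernel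

theorem chk109 : chkBranch2 12 5 6 12 K109 1293 = true := by decide +kernel

theorem rel109_0 : chkRelabel2 12 K110 12 (2800 :: 1295 :: K109) [0, 1, 2, 3, 4, 5, 6, 7, 8, 9, 10, 11] = true := by decide +kernel

theorem cm109_0 : (decide (12 ≤ 24) && decide (2 * 6 = 12) && decide (1295 < 2 ^ 12) && (1295 :: K109).contains 1295) = true := by decide +kernel

theorem cnd108 : cands2 12 5 6 [0, 2, 3, 4] 12 K108 1669 = [(1671, 12)] := by decide +kernel

theorem chk108 : chkBranch2 12 5 6 12 K108 1669 = true := by decide +kernel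

theorem rel108_0 : chkRelabel2 12 K109 12 (2424 :: 1671 :: K108) [0, 1, 2, 3, 4, 5, 6, 7, 8, 9, 10, 11] = true := by decide +kernel

theorem cm108_0 : (decide (12 ≤ 24) && decide (2 * 6 = 12) && decide (1671 < 2 ^ 12) && (1671 :: K108).contains 1671) = true := by decide +kernel

theorem cnd107 : cands2 12 5 6 [0, 2, 3, 4] 12 K107 2245 = [(2261, 12)] := by decide +kernel

theorem chk107 : chkBranch2 12 5 6 12 K107 2245 = true := by decide +kernel

theorem rel107_0 : chkRelabel2 12 K108 12 (1834 :: 2261 :: K107) [0, 1, 2, 3, 4, 5, 6, 7, 8, 9, 10, 11] = true := by decide +kernel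

theorem cm107_0 : (decide (12 ≤ 24) && decide (2 * 6 = 12) && decide (2261 < 2 ^ 12) && (2261 :: K107).contains 2261) = true := by decide +kernel

theorem cnd106 : cands2 12 5 6 [0, 2, 3, 4] 12 K106 458 = [(1482, 12)] := by decide +kernel

theorem chk106 : chkBranch2 12 5 6 12 K106 458 = true := by decide +kernel

theorem rel106_0 : chkRelabel2 12 K107 12 (2613 :: 1482 :: K106) [0, 1, 2, 3, 4, 5, 6, 7, 8, 9, 10, 11] = true := by decide +kernel

theorem cm106_0 : (decide (12 ≤ 24) && decide (2 * 6 = 12) && decide (1482 < 2 ^ 12) && (1482 :: K106).contains 1482) = true := by decide +kernel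

theorem cnd105 : cands2 12 5 6 [0, 2, 3, 4] 12 K105 1921 = [(1953, 12)] := by decide +kernel

theorem chk105 : chkBranch2 12 5 6 12 K105 1921 = true := by decide +kernel

theorem rel105_0 : chkRelabel2 12 K106 12 (2142 :: 1953 :: K105) [0, 1, 2, 3, 4, 5, 6, 7, 8, 9, 10, 11] = true := by decide +kernel

theorem cm105_0 : (decide (12 ≤ 24) && decide (2 * 6 = 12) && decide (1953 < 2 ^ 12) && (1953 :: K105).contains 1953) = true := by decide +kernel

theorem cnd104 : cands2 12 5 6 [0, 2, 3, 4] 12 K104 1426 = [(1938, 12)] := by decide +kernel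

theorem chk104 : chkBranch2 12 5 6 12 K104 1426 = true := by decide +kernel

theorem rel104_0 : chkRelabel2 12 K105 12 (2157 :: 1938 :: K104) [0, 1, 2, 3, 4, 5, 6, 7, 8, 9, 10, 11] = true := by decide +kernel

theorem cm104_0 : (decide (12 ≤ 24) && decide (2 * 6 = 12) && decide (1938 < 2 ^ 12) && (1938 :: K104).contains 1938) = true := by decide +kernel

theorem cnd103 : cands2 12 5 6 [0, 2, 3, 4] 12 K103 2567 = [(2575, 12)] := by decide +kernel

theorem chk103 : chkBranch2 12 5 6 12 K103 2567 = true := by decide +kernel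

theorem rel103_0 : chkRelabel2 12 K104 12 (1520 :: 2575 :: K103) [0, 1, 2, 3, 4, 5, 6, 7, 8, 9, 10, 11] = true := by decide +kernel

theorem cm103_0 : (decide (12 ≤ 24) && decide (2 * 6 = 12) && decide (2575 < 2 ^ 12) && (2575 :: K103).contains 2575) = true := by decide +kernel

theorem cnd102 : cands2 12 5 6 [0, 2, 3, 4] 12 K102 1171 = [(1235, 12)] := by decide +kernel

theorem chk102 : chkBranch2 12 5 6 12 K102 1171 = true := by decide +kernel

theorem rel102_0 : chkRelabel2 12 K103 12 (2860 :: 1235 :: K102) [0, 1, 2, 3, 4, 5, 6, 7, 8, 9, 10, 11] = true := by decide +kernel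

theorem cm102_0 : (decide (12 ≤ 24) && decide (2 * 6 = 12) && decide (1235 < 2 ^ 12) && (1235 :: K102).contains 1235) = true := by decide +kernel

theorem cnd101 : cands2 12 5 6 [0, 2, 3, 4] 12 K101 3154 = [(3666, 12)] := by decide +kernel

theorem chk101 : chkBranch2 12 5 6 12 K101 3154 = true := by decide +kernel

theorem rel101_0 : chkRelabel2 12 K102 12 (429 :: 3666 :: K101) [0, 1, 2, 3, 4, 5, 6, 7, 8, 9, 10, 11] = true := by decide +kernel

theorem cm101_0 : (decide (12 ≤ 24) && decide (2 * 6 = 12) && decide (3666 < 2 ^ 12) && (3666 :: K101).contains 3666) = true := by decide +kernel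

theorem cnd100 : cands2 12 5 6 [0, 2, 3, 4] 12 K100 1574 = [(1590, 12)] := by decide +kernel

theorem chk100 : chkBranch2 12 5 6 12 K100 1574 = true := by decide +kernel

theorem rel100_0 : chkRelabel2 12 K101 12 (2505 :: 1590 :: K100) [0, 1, 2, 3, 4, 5, 6, 7, 8, 9, 10, 11] = true := by decide +kernel

theorem cm100_0 : (decide (12 ≤ 24) && decide (2 * 6 = 12) && decide (1590 < 2 ^ 12) && (1590 :: K100).contains 1590) = true := by decide +kernel

theorem cnd99 : cands2 12 5 6 [0, 2, 3, 4] 12 K99 2881 = [(2913, 12)] := by decide +kernel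

theorem chk99 : chkBranch2 12 5 6 12 K99 2881 = true := by decide +kernel

theorem rel99_0 : chkRelabel2 12 K100 12 (1182 :: 2913 :: K99) [0, 1, 2, 3, 4, 5, 6, 7, 8, 9, 10, 11] = true := by decide +kernel

theorem cm99_0 : (decide (12 ≤ 24) && decide (2 * 6 = 12) && decide (2913 < 2 ^ 12) && (2913 :: K99).contains 2913) = true := by decide +kernel

theorem cnd98 : cands2 12 5 6 [0, 2, 3, 4] 12 K98 1225 = [(1737, 12)] := by decide +kernel

theorem chk98 : chkBranch2 12 5 6 12 K98 1225 = true := by decide +kernel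

theorem rel98_0 : chkRelabel2 12 K99 12 (2358 :: 1737 :: K98) [0, 1, 2, 3, 4, 5, 6, 7, 8, 9, 10, 11] = true := by decide +kernel

theorem cm98_0 : (decide (12 ≤ 24) && decide (2 * 6 = 12) && decide (1737 < 2 ^ 12) && (1737 :: K98).contains 1737) = true := by decide +kernel

theorem cnd97 : cands2 12 5 6 [0, 2, 3, 4] 12 K97 1063 = [(1127, 12)] := by decide +kernel

theorem chk97 : chkBranch2 12 5 6 12 K97 1063 = true := by decide +kernel

theorem rel97_0 : chkRelabel2 12 K98 12 (2968 :: 1127 :: K97) [0, 1, 2, 3, 4, 5, 6, 7, 8, 9, 10, 11] = true := by decide +kernel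

theorem cm97_0 : (decide (12 ≤ 24) && decide (2 * 6 = 12) && decide (1127 < 2 ^ 12) && (1127 :: K97).contains 1127) = true := by decide +kernel

theorem cnd96 : cands2 12 5 6 [0, 2, 3, 4] 12 K96 2882 = [(2890, 12)] := by decide +kernel

theorem chk96 : chkBranch2 12 5 6 12 K96 2882 = true := by decide +kernel

theorem rel96_0 : chkRelabel2 12 K97 12 (1205 :: 2890 :: K96) [0, 1, 2, 3, 4, 5, 6, 7, 8, 9, 10, 11] = true := by decide +kernel

theorem cm96_0 : (decide (12 ≤ 24) && decide (2 * 6 = 12) && decide (2890 < 2 ^ 12) && (2890 :: K96).contains 2890) = true := by decide +kernel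

theorem cnd95 : cands2 12 5 6 [0, 2, 3, 4] 12 K95 1712 = [(1720, 12)] := by decide +kernel

theorem chk95 : chkBranch2 12 5 6 12 K95 1712 = true := by decide +kernel

theorem rel95_0 : chkRelabel2 12 K96 12 (2375 :: 1720 :: K95) [0, 1, 2, 3, 4, 5, 6, 7, 8, 9, 10, 11] = true := by decide +kernel

theorem cm95_0 : (decide (12 ≤ 24) && decide (2 * 6 = 12) && decide (1720 < 2 ^ 12) && (1720 :: K95).contains 1720) = true := by decide +kernel

theorem cnd94 : cands2 12 5 6 [0, 2, 3, 4] 12 K94 299 = [(2347, 12)] := by decide +kernel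

theorem chk94 : chkBranch2 12 5 6 12 K94 299 = true := by decide +kernel

theorem rel94_0 : chkRelabel2 12 K95 12 (1748 :: 2347 :: K94) [0, 1, 2, 3, 4, 5, 6, 7, 8, 9, 10, 11] = true := by decide +kernel

theorem cm94_0 : (decide (12 ≤ 24) && decide (2 * 6 = 12) && decide (2347 < 2 ^ 12) && (2347 :: K94).contains 2347) = true := by decide +kernel

theorem cnd93 : cands2 12 5 6 [0, 2, 3, 4] 12 K93 654 = [(686, 12)] := by decide +kernel

theorem chk93 : chkBranch2 12 5 6 12 K93 654 = true := by decide +kernel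

theorem rel93_0 : chkRelabel2 12 K94 12 (3409 :: 686 :: K93) [0, 1, 2, 3, 4, 5, 6, 7, 8, 9, 10, 11] = true := by decide +kernel

theorem cm93_0 : (decide (12 ≤ 24) && decide (2 * 6 = 12) && decide (686 < 2 ^ 12) && (686 :: K93).contains 686) = true := by decide +kernel

theorem cnd92 : cands2 12 5 6 [0, 2, 3, 4] 12 K92 661 = [(669, 12)] := by decide +kernel

theorem chk92 : chkBranch2 12 5 6 12 K92 661 = true := by decide +kernel

theorem rel92_0 : chkRelabel2 12 K93 12 (3426 :: 669 :: K92) [0, 1, 2, 3, 4, 5, 6, 7, 8, 9, 10, 11] = true := by decide +kernel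

theorem cm92_0 : (decide (12 ≤ 24) && decide (2 * 6 = 12) && decide (669 < 2 ^ 12) && (669 :: K92).contains 669) = true := by decide +kernel

theorem cnd91 : cands2 12 5 6 [0, 2, 3, 4] 12 K91 3714 = [(3722, 12)] := by decide +kernel

theorem chk91 : chkBranch2 12 5 6 12 K91 3714 = true := by decide +kernel

theorem rel91_0 : chkRelabel2 12 K92 12 (373 :: 3722 :: K91) [0, 1, 2, 3, 4, 5, 6, 7, 8, 9, 10, 11] = true := by decide +kernel

theorem cm91_0 : (decide (12 ≤ 24) && decide (2 * 6 = 12) && decide (3722 < 2 ^ 12) && (3722 :: K91).contains 3722) = true := by decide +kernel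

theorem cnd90 : cands2 12 5 6 [0, 2, 3, 4] 12 K90 1797 = [(1813, 12)] := by decide +kernel

theorem chk90 : chkBranch2 12 5 6 12 K90 1797 = true := by decide +kernel

theorem rel90_0 : chkRelabel2 12 K91 12 (2282 :: 1813 :: K90) [0, 1, 2, 3, 4, 5, 6, 7, 8, 9, 10, 11] = true := by decide +kernel

theorem cm90_0 : (decide (12 ≤ 24) && decide (2 * 6 = 12) && decide (1813 < 2 ^ 12) && (1813 :: K90).contains 1813) = true := by decide +kernel

theorem cnd89 : cands2 12 5 6 [0, 2, 3, 4] 12 K89 3248 = [(3250, 12)] := by decide +kernel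

theorem chk89 : chkBranch2 12 5 6 12 K89 3248 = true := by decide +kernel

theorem rel89_0 : chkRelabel2 12 K90 12 (845 :: 3250 :: K89) [0, 1, 2, 3, 4, 5, 6, 7, 8, 9, 10, 11] = true := by decide +kernel

theorem cm89_0 : (decide (12 ≤ 24) && decide (2 * 6 = 12) && decide (3250 < 2 ^ 12) && (3250 :: K89).contains 3250) = true := by decide +kernel

theorem cnd88 : cands2 12 5 6 [0, 2, 3, 4] 12 K88 790 = [(798, 12)] := by decide +kernel

theorem chk88 : chkBranch2 12 5 6 12 K88 790 = true := by decide +kernel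

theorem rel88_0 : chkRelabel2 12 K89 12 (3297 :: 798 :: K88) [0, 1, 2, 3, 4, 5, 6, 7, 8, 9, 10, 11] = true := by decide +kernel

theorem cm88_0 : (decide (12 ≤ 24) && decide (2 * 6 = 12) && decide (798 < 2 ^ 12) && (798 :: K88).contains 798) = true := by decide +kernel

theorem cnd87 : cands2 12 5 6 [0, 2, 3, 4] 12 K87 3107 = [(3619, 12)] := by decide +kernel

theorem chk87 : chkBranch2 12 5 6 12 K87 3107 = true := by decide +kernel

theorem rel87_0 : chkRelabel2 12 K88 12 (476 :: 3619 :: K87) [0, 1, 2, 3, 4, 5, 6, 7, 8, 9, 10, 11] = true := by decide +kernel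

theorem cm87_0 : (decide (12 ≤ 24) && decide (2 * 6 = 12) && decide (3619 < 2 ^ 12) && (3619 :: K87).contains 3619) = true := by decide +kernel

theorem cnd86 : cands2 12 5 6 [0, 2, 3, 4] 12 K86 3145 = [(3147, 12)] := by decide +kernel

theorem chk86 : chkBranch2 12 5 6 12 K86 3145 = true := by decide +kernel

theorem rel86_0 : chkRelabel2 12 K87 12 (948 :: 3147 :: K86) [0, 1, 2, 3, 4, 5, 6, 7, 8, 9, 10, 11] = true := by decide +kernel

theorem cm86_0 : (decide (12 ≤ 24) && decide (2 * 6 = 12) && decide (3147 < 2 ^ 12) && (3147 :: K86).contains 3147) = true := by decide +kernel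

theorem cnd85 : cands2 12 5 6 [0, 2, 3, 4] 12 K85 740 = [(741, 12)] := by decide +kernel

theorem chk85 : chkBranch2 12 5 6 12 K85 740 = true := by decide +kernel

theorem rel85_0 : chkRelabel2 12 K86 12 (3354 :: 741 :: K85) [0, 1, 2, 3, 4, 5, 6, 7, 8, 9, 10, 11] = true := by decide +kernel

theorem cm85_0 : (decide (12 ≤ 24) && decide (2 * 6 = 12) && decide (741 < 2 ^ 12) && (741 :: K85).contains 741) = true := by decide +kernel

theorem cnd84 : cands2 12 5 6 [0, 2, 3, 4] 12 K84 1353 = [(1385, 12)] := by decide +kernel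

theorem chk84 : chkBranch2 12 5 6 12 K84 1353 = true := by decide +kernel

theorem rel84_0 : chkRelabel2 12 K85 12 (2710 :: 1385 :: K84) [0, 1, 2, 3, 4, 5, 6, 7, 8, 9, 10, 11] = true := by decide +kernel

theorem cm84_0 : (decide (12 ≤ 24) && decide (2 * 6 = 12) && decide (1385 < 2 ^ 12) && (1385 :: K84).contains 1385) = true := by decide +kernel

theorem cnd83 : cands2 12 5 6 [0, 2, 3, 4] 12 K83 3596 = [(3612, 12)] := by decide +kernel

theorem chk83 : chkBranch2 12 5 6 12 K83 3596 = true := by decide +kernel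

theorem rel83_0 : chkRelabel2 12 K84 12 (483 :: 3612 :: K83) [0, 1, 2, 3, 4, 5, 6, 7, 8, 9, 10, 11] = true := by decide +kernel

theorem cm83_0 : (decide (12 ≤ 24) && decide (2 * 6 = 12) && decide (3612 < 2 ^ 12) && (3612 :: K83).contains 3612) = true := by decide +kernel

theorem cnd82 : cands2 12 5 6 [0, 2, 3, 4] 12 K82 2105 = [(3129, 12)] := by decide +kernel

theorem chk82 : chkBranch2 12 5 6 12 K82 2105 = true := by decide +kernel

theorem rel82_0 : chkRelabel2 12 K83 12 (966 :: 3129 :: K82) [0, 1, 2, 3, 4, 5, 6, 7, 8, 9, 10, 11] = true := by decide +kernel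

theorem cm82_0 : (decide (12 ≤ 24) && decide (2 * 6 = 12) && decide (3129 < 2 ^ 12) && (3129 :: K82).contains 3129) = true := by decide +kernel

theorem cnd81 : cands2 12 5 6 [0, 2, 3, 4] 12 K81 3340 = [(3404, 12)] := by decide +kernel

theorem chk81 : chkBranch2 12 5 6 12 K81 3340 = true := by decide +kernel

theorem rel81_0 : chkRelabel2 12 K82 12 (691 :: 3404 :: K81) [0, 1, 2, 3, 4, 5, 6, 7, 8, 9, 10, 11] = true := by decide +kernel

theorem cm81_0 : (decide (12 ≤ 24) && decide (2 * 6 = 12) && decide (3404 < 2 ^ 12) && (3404 :: K81).contains 3404) = true := by decide +kernel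

theorem cnd80 : cands2 12 5 6 [0, 2, 3, 4] 12 K80 3110 = [(3118, 12)] := by decide +kernel

theorem chk80 : chkBranch2 12 5 6 12 K80 3110 = true := by decide +kernel

theorem rel80_0 : chkRelabel2 12 K81 12 (977 :: 3118 :: K80) [0, 1, 2, 3, 4, 5, 6, 7, 8, 9, 10, 11] = true := by decide +kernel

theorem cm80_0 : (decide (12 ≤ 24) && decide (2 * 6 = 12) && decide (3118 < 2 ^ 12) && (3118 :: K80).contains 3118) = true := by decide +kernel

theorem cnd79 : cands2 12 5 6 [0, 2, 3, 4] 12 K79 3172 = [(3188, 12)] := by decide +kernel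

theorem chk79 : chkBranch2 12 5 6 12 K79 3172 = true := by decide +kernel

theorem rel79_0 : chkRelabel2 12 K80 12 (907 :: 3188 :: K79) [0, 1, 2, 3, 4, 5, 6, 7, 8, 9, 10, 11] = true := by decide +kernel

theorem cm79_0 : (decide (12 ≤ 24) && decide (2 * 6 = 12) && decide (3188 < 2 ^ 12) && (3188 :: K79).contains 3188) = true := by decide +kernel

theorem cnd78 : cands2 12 5 6 [0, 2, 3, 4] 12 K78 602 = [(730, 12)] := by decide +kernel

theorem chk78 : chkBranch2 12 5 6 12 K78 602 = true := by decide +kernel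

theorem rel78_0 : chkRelabel2 12 K79 12 (3365 :: 730 :: K78) [0, 1, 2, 3, 4, 5, 6, 7, 8, 9, 10, 11] = true := by decide +kernel

theorem cm78_0 : (decide (12 ≤ 24) && decide (2 * 6 = 12) && decide (730 < 2 ^ 12) && (730 :: K78).contains 730) = true := by decide +kernel

theorem cnd77 : cands2 12 5 6 [0, 2, 3, 4] 12 K77 3268 = [(3270, 12)] := by decide +kernel

theorem chk77 : chkBranch2 12 5 6 12 K77 3268 = true := by decide +kernel

theorem rel77_0 : chkRelabel2 12 K78 12 (825 :: 3270 :: K77) [0, 1, 2, 3, 4, 5, 6, 7, 8, 9, 10, 11] = true := by decide +kernel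

theorem cm77_0 : (decide (12 ≤ 24) && decide (2 * 6 = 12) && decide (3270 < 2 ^ 12) && (3270 :: K77).contains 3270) = true := by decide +kernel

theorem cnd76 : cands2 12 5 6 [0, 2, 3, 4] 12 K76 744 = [(1000, 12)] := by decide +kernel

theorem chk76 : chkBranch2 12 5 6 12 K76 744 = true := by decide +kernel

theorem rel76_0 : chkRelabel2 12 K77 12 (3095 :: 1000 :: K76) [0, 1, 2, 3, 4, 5, 6, 7, 8, 9, 10, 11] = true := by decide +kernel

theorem cm76_0 : (decide (12 ≤ 24) && decide (2 * 6 = 12) && decide (1000 < 2 ^ 12) && (1000 :: K76).contains 1000) = true := by decide +kernel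

theorem cnd75 : cands2 12 5 6 [0, 2, 3, 4] 12 K75 632 = [(636, 12)] := by decide +kernel

theorem chk75 : chkBranch2 12 5 6 12 K75 632 = true := by decide +kernel

theorem rel75_0 : chkRelabel2 12 K76 12 (3459 :: 636 :: K75) [0, 1, 2, 3, 4, 5, 6, 7, 8, 9, 10, 11] = true := by decide +kernel

theorem cm75_0 : (decide (12 ≤ 24) && decide (2 * 6 = 12) && decide (636 < 2 ^ 12) && (636 :: K75).contains 636) = true := by decide +kernel

theorem cnd74 : cands2 12 5 6 [0, 2, 3, 4] 12 K74 3624 = [(3688, 12)] := by decide +kernel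

theorem chk74 : chkBranch2 12 5 6 12 K74 3624 = true := by decide +kernel

theorem rel74_0 : chkRelabel2 12 K75 12 (407 :: 3688 :: K74) [0, 1, 2, 3, 4, 5, 6, 7, 8, 9, 10, 11] = true := by decide +kernel

theorem cm74_0 : (decide (12 ≤ 24) && decide (2 * 6 = 12) && decide (3688 < 2 ^ 12) && (3688 :: K74).contains 3688) = true := by decide +kernel

theorem cnd16 : cands2 12 5 6 [0, 2, 3, 4] 12 K16 570 = [(698, 12), (2618, 12)] := by decide +kernel

theorem chk16 : chkBranch2 12 5 6 12 K16 570 = true := by decide +kernel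

theorem rel16_0 : chkRelabel2 12 K17 12 (3397 :: 698 :: K16) [0, 1, 2, 3, 4, 5, 6, 7, 8, 9, 10, 11] = true := by decide +kernel

theorem cm16_0 : (decide (12 ≤ 24) && decide (2 * 6 = 12) && decide (698 < 2 ^ 12) && (698 :: K16).contains 698) = true := by decide +kernel

theorem rel16_1 : chkRelabel2 12 K74 12 (1477 :: 2618 :: K16) [0, 1, 2, 3, 4, 5, 6, 7, 8, 9, 10, 11] = true := by decide +kernel

theorem cm16_1 : (decide (12 ≤ 24) && decide (2 * 6 = 12) && decide (2618 < 2 ^ 12) && (2618 :: K16).contains 2618) = true := by decide +kernel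

theorem cnd15 : cands2 12 5 6 [0, 2, 3, 4] 12 K15 3716 = [(3748, 12)] := by decide +kernel

theorem chk15 : chkBranch2 12 5 6 12 K15 3716 = true := by decide +kernel

theorem rel15_0 : chkRelabel2 12 K16 12 (3748 :: K15) [0, 1, 2, 3, 4, 5, 6, 7, 8, 9, 10, 11] = true := by decide +kernel

theorem cnd14 : cands2 12 5 6 [0, 2, 3, 4] 12 K14 626 = [(882, 12)] := by decide +kernel

theorem chk14 : chkBranch2 12 5 6 12 K14 626 = true := by decide +kernel

theorem rel14_0 : chkRelabel2 12 K15 12 (3213 :: 882 :: K14) [0, 1, 2, 3, 4, 5, 6, 7, 8, 9, 10, 11] = true := by decide +kernel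

theorem cm14_0 : (decide (12 ≤ 24) && decide (2 * 6 = 12) && decide (882 < 2 ^ 12) && (882 :: K14).contains 882) = true := by decide +kernel

theorem cnd13 : cands2 12 5 6 [0, 2, 3, 4] 12 K13 3842 = [(3846, 12)] := by decide +kernel

theorem chk13 : chkBranch2 12 5 6 12 K13 3842 = true := by decide +kernel

theorem rel13_0 : chkRelabel2 12 K14 12 (3846 :: K13) [0, 1, 2, 3, 4, 5, 6, 7, 8, 9, 10, 11] = true := by decide +kernel

theorem cnd12 : cands2 12 5 6 [0, 2, 3, 4] 12 K12 2131 = [(2163, 12)] := by decide +kernel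

theorem chk12 : chkBranch2 12 5 6 12 K12 2131 = true := by decide +kernel

theorem rel12_0 : chkRelabel2 12 K13 12 (2163 :: K12) [0, 1, 2, 3, 4, 5, 6, 7, 8, 9, 10, 11] = true := by decide +kernel

theorem cnd11 : cands2 12 5 6 [0, 2, 3, 4] 12 K11 3841 = [(3849, 12)] := by decide +kernel

theorem chk11 : chkBranch2 12 5 6 12 K11 3841 = true := by decide +kernel

theorem rel11_0 : chkRelabel2 12 K12 12 (246 :: 3849 :: K11) [0, 1, 2, 3, 4, 5, 6, 7, 8, 9, 10, 11] = true := by decide +kernel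

theorem cm11_0 : (decide (12 ≤ 24) && decide (2 * 6 = 12) && decide (3849 < 2 ^ 12) && (3849 :: K11).contains 3849) = true := by decide +kernel

theorem cnd10 : cands2 12 5 6 [0, 2, 3, 4] 12 K10 2945 = [(2949, 12)] := by decide +kernel

theorem chk10 : chkBranch2 12 5 6 12 K10 2945 = true := by decide +kernel

theorem rel10_0 : chkRelabel2 12 K11 12 (2949 :: K10) [0, 1, 2, 3, 4, 5, 6, 7, 8, 9, 10, 11] = true := by decide +kernel

theorem cnd9 : cands2 12 5 6 [0, 2, 3, 4] 12 K9 1428 = [(3476, 12)] := by decide +kernel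

theorem chk9 : chkBranch2 12 5 6 12 K9 1428 = true := by decide +kernel

theorem rel9_0 : chkRelabel2 12 K10 12 (3476 :: K9) [0, 1, 2, 3, 4, 5, 6, 7, 8, 9, 10, 11] = true := by decide +kernel

theorem cnd8 : cands2 12 5 6 [0, 2, 3, 4] 12 K8 1984 = [(4032, 12)] := by decide +kernel

theorem chk8 : chkBranch2 12 5 6 12 K8 1984 = true := by decide +kernel

theorem rel8_0 : chkRelabel2 12 K9 12 (4032 :: K8) [0, 1, 2, 3, 4, 5, 6, 7, 8, 9, 10, 11] = true := by decide +kernel

theorem cnd7 : cands2 12 5 6 [0, 2, 3, 4] 11 K7 1840 = [(3888, 12)] := by decide +kernel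

theorem chk7 : chkBranch2 12 5 6 11 K7 1840 = true := by decide +kernel

theorem rel7_0 : chkRelabel2 12 K8 12 (3888 :: K7) [0, 1, 2, 3, 4, 5, 6, 7, 8, 9, 10, 11] = true := by decide +kernel

theorem cnd6 : cands2 12 5 6 [0, 2, 3, 4] 11 K6 1924 = [(1932, 11)] := by decide +kernel

theorem chk6 : chkBranch2 12 5 6 11 K6 1924 = true := by decide +kernel

theorem rel6_0 : chkRelabel2 11 K7 11 (1932 :: K6) [0, 1, 2, 3, 4, 5, 6, 7, 8, 9, 10] = true := by decide +kernel

theorem cnd5 : cands2 12 5 6 [0, 2, 3, 4] 10 K5 122 = [(1146, 11)] := by decide +kernel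

theorem chk5 : chkBranch2 12 5 6 10 K5 122 = true := by decide +kernel

theorem rel5_0 : chkRelabel2 11 K6 11 (1146 :: K5) [0, 1, 2, 3, 4, 5, 6, 7, 8, 9, 10] = true := by decide +kernel

theorem cnd135 : cands2 12 5 6 [0, 2, 3, 4] 12 K135 122 = [(250, 12), (2170, 12)] := by decide +kernel

theorem chk135 : chkBranch2 12 5 6 12 K135 122 = true := by decide +kernel

theorem rel135_0 : chkRelabel2 10 K5 12 (3845 :: 250 :: K135) [1, 0, 2, 3, 4, 5, 6, 7, 8, 9] = true := by decide +kernel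

theorem cm135_0 : (decide (12 ≤ 24) && decide (2 * 6 = 12) && decide (250 < 2 ^ 12) && (250 :: K135).contains 250) = true := by decide +kernel

theorem rel135_1 : chkRelabel2 10 K5 12 (1925 :: 2170 :: K135) [3, 0, 10, 6, 4, 5, 1, 11, 8, 9] = true := by decide +kernel

theorem cm135_1 : (decide (12 ≤ 24) && decide (2 * 6 = 12) && decide (2170 < 2 ^ 12) && (2170 :: K135).contains 2170) = true := by decide +kernel

theorem cnd134 : cands2 12 5 6 [0, 2, 3, 4] 12 K134 1099 = [(3147, 12)] := by decide +kernel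

theorem chk134 : chkBranch2 12 5 6 12 K134 1099 = true := by decide +kernel

theorem rel134_0 : chkRelabel2 12 K135 12 (948 :: 3147 :: K134) [0, 1, 2, 3, 4, 5, 6, 7, 8, 9, 10, 11] = true := by decide +kernel

theorem cm134_0 : (decide (12 ≤ 24) && decide (2 * 6 = 12) && decide (3147 < 2 ^ 12) && (3147 :: K134).contains 3147) = true := by decide +kernel

theorem cnd133 : cands2 12 5 6 [0, 2, 3, 4] 12 K133 902 = [(2950, 12)] := by decide +kernel

theorem chk133 : chkBranch2 12 5 6 12 K133 902 = true := by decide +kernel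

theorem rel133_0 : chkRelabel2 12 K134 12 (2950 :: K133) [0, 1, 2, 3, 4, 5, 6, 7, 8, 9, 10, 11] = true := by decide +kernel

theorem cnd132 : cands2 12 5 6 [0, 2, 3, 4] 12 K132 1700 = [(3748, 12)] := by decide +kernel

theorem chk132 : chkBranch2 12 5 6 12 K132 1700 = true := by decide +kernel

theorem rel132_0 : chkRelabel2 12 K133 12 (3748 :: K132) [0, 1, 2, 3, 4, 5, 6, 7, 8, 9, 10, 11] = true := by decide +kernel

theorem cnd131 : cands2 12 5 6 [0, 2, 3, 4] 11 K131 1428 = [(3476, 12)] := by decide +kernel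

theorem chk131 : chkBranch2 12 5 6 11 K131 1428 = true := by decide +kernel

theorem rel131_0 : chkRelabel2 12 K132 12 (3476 :: K131) [0, 1, 2, 3, 4, 5, 6, 7, 8, 9, 10, 11] = true := by decide +kernel

theorem cnd4 : cands2 12 5 6 [0, 2, 3, 4] 10 K4 121 = [(249, 10), (1145, 11)] := by decide +kernel

theorem chk4 : chkBranch2 12 5 6 10 K4 121 = true := by decide +kernel

theorem rel4_0 : chkRelabel2 10 K5 10 (249 :: K4) [0, 1, 2, 3, 4, 5, 6, 7, 8, 9] = true := by decide +kernel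

theorem rel4_1 : chkRelabel2 11 K131 11 (1145 :: K4) [0, 1, 2, 3, 4, 5, 6, 7, 8, 9, 10] = true := by decide +kernel

theorem cnd3 : cands2 12 5 6 [0, 2, 3, 4] 9 K3 107 = [(619, 10)] := by decide +kernel

theorem chk3 : chkBranch2 12 5 6 9 K3 107 = true := by decide +kernel

theorem rel3_0 : chkRelabel2 10 K4 10 (619 :: K3) [0, 1, 2, 3, 4, 5, 6, 7, 8, 9] = true := by decide +kernel

theorem cnd2 : cands2 12 5 6 [0, 2, 3, 4] 8 K2 91 = [(347, 9)] := by decide +kernel

theorem chk2 : chkBranch2 12 5 6 8 K2 91 = true := by decide +kernel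

theorem rel2_0 : chkRelabel2 9 K3 9 (347 :: K2) [0, 1, 2, 3, 4, 5, 6, 7, 8] = true := by decide +kernel

theorem cnd1 : cands2 12 5 6 [0, 2, 3, 4] 7 K1 79 = [(207, 8)] := by decide +kernel

theorem chk1 : chkBranch2 12 5 6 7 K1 79 = true := by decide +kernel

theorem rel1_0 : chkRelabel2 8 K2 8 (207 :: K1) [0, 1, 2, 3, 4, 5, 6, 7] = true := by decide +kernel

section
variable {A : Type*} [DecidableEq A] [Fintype A] (Y : Sys2 A 12 5 6 [0, 2, 3, 4])

theorem node73 : Good2 Y (Main2 Y Std12) 12 K73 := leaf2 Y chk73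

theorem node72 : Good2 Y (Main2 Y Std12) 12 K72 := by
  refine branch2' Y (Main2 Y Std12) chk72 ?_
  rw [cnd72]
  intro c hc
  simp only [List.mem_cons, List.not_mem_nil, or_false] at hc
  rcases hc with rfl
  · exact cmpl2 Y (Main2 Y Std12) (m := 469) cm72_0 (relabel2 Y (Main2 Y Std12) [0, 1, 2, 3, 4, 5, 6, 7, 8, 9, 10, 11] rel72_0 (node73 Y))

theorem node71 : Good2 Y (Main2 Y Std12) 12 K71 := by
  refine branch2' Y (Main2 Y Std12) chk71 ?_
  rw [cnd71]
  intro c hc
  simp only [List.mem_cons, List.not_mem_nil, or_false] at hc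
  rcases hc with rfl
  · exact cmpl2 Y (Main2 Y Std12) (m := 2897) cm71_0 (relabel2 Y (Main2 Y Std12) [0, 1, 2, 3, 4, 5, 6, 7, 8, 9, 10, 11] rel71_0 (node72 Y))

theorem node70 : Good2 Y (Main2 Y Std12) 12 K70 := by
  refine branch2' Y (Main2 Y Std12) chk70 ?_
  rw [cnd70]
  intro c hc
  simp only [List.mem_cons, List.not_mem_nil, or_false] at hc
  rcases hc with rfl
  · exact cmpl2 Y (Main2 Y Std12) (m := 1937) cm70_0 (relabel2 Y (Main2 Y Std12) [0, 1, 2, 3, 4, 5, 6, 7, 8, 9, 10, 11] rel70_0 (node71 Y))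

theorem node69 : Good2 Y (Main2 Y Std12) 12 K69 := by
  refine branch2' Y (Main2 Y Std12) chk69 ?_
  rw [cnd69]
  intro c hc
  simp only [List.mem_cons, List.not_mem_nil, or_false] at hc
  rcases hc with rfl
  · exact cmpl2 Y (Main2 Y Std12) (m := 3102) cm69_0 (relabel2 Y (Main2 Y Std12) [0, 1, 2, 3, 4, 5, 6, 7, 8, 9, 10, 11] rel69_0 (node70 Y))

theorem node68 : Good2 Y (Main2 Y Std12) 12 K68 := by
  refine branch2' Y (Main2 Y Std12) chk68 ?_
  rw [cnd68]
  intro c hc
  simp only [List.mem_cons, List.not_mem_nil, or_false] at hc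
  rcases hc with rfl
  · exact cmpl2 Y (Main2 Y Std12) (m := 3129) cm68_0 (relabel2 Y (Main2 Y Std12) [0, 1, 2, 3, 4, 5, 6, 7, 8, 9, 10, 11] rel68_0 (node69 Y))

theorem node67 : Good2 Y (Main2 Y Std12) 12 K67 := by
  refine branch2' Y (Main2 Y Std12) chk67 ?_
  rw [cnd67]
  intro c hc
  simp only [List.mem_cons, List.not_mem_nil, or_false] at hc
  rcases hc with rfl
  · exact cmpl2 Y (Main2 Y Std12) (m := 3660) cm67_0 (relabel2 Y (Main2 Y Std12) [0, 1, 2, 3, 4, 5, 6, 7, 8, 9, 10, 11] rel67_0 (node68 Y))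

theorem node66 : Good2 Y (Main2 Y Std12) 12 K66 := by
  refine branch2' Y (Main2 Y Std12) chk66 ?_
  rw [cnd66]
  intro c hc
  simp only [List.mem_cons, List.not_mem_nil, or_false] at hc
  rcases hc with rfl
  · exact cmpl2 Y (Main2 Y Std12) (m := 1625) cm66_0 (relabel2 Y (Main2 Y Std12) [0, 1, 2, 3, 4, 5, 6, 7, 8, 9, 10, 11] rel66_0 (node67 Y))

theorem node65 : Good2 Y (Main2 Y Std12) 12 K65 := by
  refine branch2' Y (Main2 Y Std12) chk65 ?_
  rw [cnd65]
  intro c hc
  simp only [List.mem_cons, List.not_mem_nil, or_false] at hc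
  rcases hc with rfl
  · exact cmpl2 Y (Main2 Y Std12) (m := 414) cm65_0 (relabel2 Y (Main2 Y Std12) [0, 1, 2, 3, 4, 5, 6, 7, 8, 9, 10, 11] rel65_0 (node66 Y))

theorem node64 : Good2 Y (Main2 Y Std12) 12 K64 := by
  refine branch2' Y (Main2 Y Std12) chk64 ?_
  rw [cnd64]
  intro c hc
  simp only [List.mem_cons, List.not_mem_nil, or_false] at hc
  rcases hc with rfl
  · exact cmpl2 Y (Main2 Y Std12) (m := 1686) cm64_0 (relabel2 Y (Main2 Y Std12) [0, 1, 2, 3, 4, 5, 6, 7, 8, 9, 10, 11] rel64_0 (node65 Y))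

theorem node63 : Good2 Y (Main2 Y Std12) 12 K63 := by
  refine branch2' Y (Main2 Y Std12) chk63 ?_
  rw [cnd63]
  intro c hc
  simp only [List.mem_cons, List.not_mem_nil, or_false] at hc
  rcases hc with rfl
  · exact cmpl2 Y (Main2 Y Std12) (m := 3111) cm63_0 (relabel2 Y (Main2 Y Std12) [0, 1, 2, 3, 4, 5, 6, 7, 8, 9, 10, 11] rel63_0 (node64 Y))

theorem node62 : Good2 Y (Main2 Y Std12) 12 K62 := by
  refine branch2' Y (Main2 Y Std12) chk62 ?_
  rw [cnd62]
  intro c hc
  simp only [List.mem_cons, List.not_mem_nil, or_false] at hc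
  rcases hc with rfl
  · exact cmpl2 Y (Main2 Y Std12) (m := 3666) cm62_0 (relabel2 Y (Main2 Y Std12) [0, 1, 2, 3, 4, 5, 6, 7, 8, 9, 10, 11] rel62_0 (node63 Y))

theorem node61 : Good2 Y (Main2 Y Std12) 12 K61 := by
  refine branch2' Y (Main2 Y Std12) chk61 ?_
  rw [cnd61]
  intro c hc
  simp only [List.mem_cons, List.not_mem_nil, or_false] at hc
  rcases hc with rfl
  · exact cmpl2 Y (Main2 Y Std12) (m := 723) cm61_0 (relabel2 Y (Main2 Y Std12) [0, 1, 2, 3, 4, 5, 6, 7, 8, 9, 10, 11] rel61_0 (node62 Y))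

theorem node60 : Good2 Y (Main2 Y Std12) 12 K60 := by
  refine branch2' Y (Main2 Y Std12) chk60 ?_
  rw [cnd60]
  intro c hc
  simp only [List.mem_cons, List.not_mem_nil, or_false] at hc
  rcases hc with rfl
  · exact cmpl2 Y (Main2 Y Std12) (m := 1244) cm60_0 (relabel2 Y (Main2 Y Std12) [0, 1, 2, 3, 4, 5, 6, 7, 8, 9, 10, 11] rel60_0 (node61 Y))

theorem node59 : Good2 Y (Main2 Y Std12) 12 K59 := by
  refine branch2' Y (Main2 Y Std12) chk59 ?_
  rw [cnd59]
  intro c hc
  simp only [List.mem_cons, List.not_mem_nil, or_false] at hc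
  rcases hc with rfl
  · exact cmpl2 Y (Main2 Y Std12) (m := 2614) cm59_0 (relabel2 Y (Main2 Y Std12) [0, 1, 2, 3, 4, 5, 6, 7, 8, 9, 10, 11] rel59_0 (node60 Y))

theorem node58 : Good2 Y (Main2 Y Std12) 12 K58 := by
  refine branch2' Y (Main2 Y Std12) chk58 ?_
  rw [cnd58]
  intro c hc
  simp only [List.mem_cons, List.not_mem_nil, or_false] at hc
  rcases hc with rfl
  · exact cmpl2 Y (Main2 Y Std12) (m := 2199) cm58_0 (relabel2 Y (Main2 Y Std12) [0, 1, 2, 3, 4, 5, 6, 7, 8, 9, 10, 11] rel58_0 (node59 Y))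

theorem node57 : Good2 Y (Main2 Y Std12) 12 K57 := by
  refine branch2' Y (Main2 Y Std12) chk57 ?_
  rw [cnd57]
  intro c hc
  simp only [List.mem_cons, List.not_mem_nil, or_false] at hc
  rcases hc with rfl
  · exact cmpl2 Y (Main2 Y Std12) (m := 2587) cm57_0 (relabel2 Y (Main2 Y Std12) [0, 1, 2, 3, 4, 5, 6, 7, 8, 9, 10, 11] rel57_0 (node58 Y))

theorem node56 : Good2 Y (Main2 Y Std12) 12 K56 := by
  refine branch2' Y (Main2 Y Std12) chk56 ?_
  rw [cnd56]
  intro c hc
  simp only [List.mem_cons, List.not_mem_nil, or_false] at hc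
  rcases hc with rfl
  · exact cmpl2 Y (Main2 Y Std12) (m := 907) cm56_0 (relabel2 Y (Main2 Y Std12) [0, 1, 2, 3, 4, 5, 6, 7, 8, 9, 10, 11] rel56_0 (node57 Y))

theorem node55 : Good2 Y (Main2 Y Std12) 12 K55 := by
  refine branch2' Y (Main2 Y Std12) chk55 ?_
  rw [cnd55]
  intro c hc
  simp only [List.mem_cons, List.not_mem_nil, or_false] at hc
  rcases hc with rfl
  · exact cmpl2 Y (Main2 Y Std12) (m := 3489) cm55_0 (relabel2 Y (Main2 Y Std12) [0, 1, 2, 3, 4, 5, 6, 7, 8, 9, 10, 11] rel55_0 (node56 Y))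

theorem node54 : Good2 Y (Main2 Y Std12) 12 K54 := by
  refine branch2' Y (Main2 Y Std12) chk54 ?_
  rw [cnd54]
  intro c hc
  simp only [List.mem_cons, List.not_mem_nil, or_false] at hc
  rcases hc with rfl
  · exact cmpl2 Y (Main2 Y Std12) (m := 845) cm54_0 (relabel2 Y (Main2 Y Std12) [0, 1, 2, 3, 4, 5, 6, 7, 8, 9, 10, 11] rel54_0 (node55 Y))

theorem node53 : Good2 Y (Main2 Y Std12) 12 K53 := by
  refine branch2' Y (Main2 Y Std12) chk53 ?_
  rw [cnd53]
  intro c hc
  simp only [List.mem_cons, List.not_mem_nil, or_false] at hc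
  rcases hc with rfl
  · exact cmpl2 Y (Main2 Y Std12) (m := 2319) cm53_0 (relabel2 Y (Main2 Y Std12) [0, 1, 2, 3, 4, 5, 6, 7, 8, 9, 10, 11] rel53_0 (node54 Y))

theorem node52 : Good2 Y (Main2 Y Std12) 12 K52 := by
  refine branch2' Y (Main2 Y Std12) chk52 ?_
  rw [cnd52]
  intro c hc
  simp only [List.mem_cons, List.not_mem_nil, or_false] at hc
  rcases hc with rfl
  · exact cmpl2 Y (Main2 Y Std12) (m := 2141) cm52_0 (relabel2 Y (Main2 Y Std12) [0, 1, 2, 3, 4, 5, 6, 7, 8, 9, 10, 11] rel52_0 (node53 Y))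

theorem node51 : Good2 Y (Main2 Y Std12) 12 K51 := by
  refine branch2' Y (Main2 Y Std12) chk51 ?_
  rw [cnd51]
  intro c hc
  simp only [List.mem_cons, List.not_mem_nil, or_false] at hc
  rcases hc with rfl
  · exact cmpl2 Y (Main2 Y Std12) (m := 3736) cm51_0 (relabel2 Y (Main2 Y Std12) [0, 1, 2, 3, 4, 5, 6, 7, 8, 9, 10, 11] rel51_0 (node52 Y))

theorem node50 : Good2 Y (Main2 Y Std12) 12 K50 := by
  refine branch2' Y (Main2 Y Std12) chk50 ?_
  rw [cnd50]
  intro c hc
  simp only [List.mem_cons, List.not_mem_nil, or_false] at hc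
  rcases hc with rfl
  · exact cmpl2 Y (Main2 Y Std12) (m := 2544) cm50_0 (relabel2 Y (Main2 Y Std12) [0, 1, 2, 3, 4, 5, 6, 7, 8, 9, 10, 11] rel50_0 (node51 Y))

theorem node49 : Good2 Y (Main2 Y Std12) 12 K49 := by
  refine branch2' Y (Main2 Y Std12) chk49 ?_
  rw [cnd49]
  intro c hc
  simp only [List.mem_cons, List.not_mem_nil, or_false] at hc
  rcases hc with rfl
  · exact cmpl2 Y (Main2 Y Std12) (m := 1334) cm49_0 (relabel2 Y (Main2 Y Std12) [0, 1, 2, 3, 4, 5, 6, 7, 8, 9, 10, 11] rel49_0 (node50 Y))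

theorem node48 : Good2 Y (Main2 Y Std12) 12 K48 := by
  refine branch2' Y (Main2 Y Std12) chk48 ?_
  rw [cnd48]
  intro c hc
  simp only [List.mem_cons, List.not_mem_nil, or_false] at hc
  rcases hc with rfl
  · exact cmpl2 Y (Main2 Y Std12) (m := 2277) cm48_0 (relabel2 Y (Main2 Y Std12) [0, 1, 2, 3, 4, 5, 6, 7, 8, 9, 10, 11] rel48_0 (node49 Y))

theorem node47 : Good2 Y (Main2 Y Std12) 12 K47 := by
  refine branch2' Y (Main2 Y Std12) chk47 ?_
  rw [cnd47]
  intro c hc
  simp only [List.mem_cons, List.not_mem_nil, or_false] at hc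
  rcases hc with rfl
  · exact cmpl2 Y (Main2 Y Std12) (m := 629) cm47_0 (relabel2 Y (Main2 Y Std12) [0, 1, 2, 3, 4, 5, 6, 7, 8, 9, 10, 11] rel47_0 (node48 Y))

theorem node46 : Good2 Y (Main2 Y Std12) 12 K46 := by
  refine branch2' Y (Main2 Y Std12) chk46 ?_
  rw [cnd46]
  intro c hc
  simp only [List.mem_cons, List.not_mem_nil, or_false] at hc
  rcases hc with rfl
  · exact cmpl2 Y (Main2 Y Std12) (m := 3416) cm46_0 (relabel2 Y (Main2 Y Std12) [0, 1, 2, 3, 4, 5, 6, 7, 8, 9, 10, 11] rel46_0 (node47 Y))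

theorem node45 : Good2 Y (Main2 Y Std12) 12 K45 := by
  refine branch2' Y (Main2 Y Std12) chk45 ?_
  rw [cnd45]
  intro c hc
  simp only [List.mem_cons, List.not_mem_nil, or_false] at hc
  rcases hc with rfl
  · exact cmpl2 Y (Main2 Y Std12) (m := 2457) cm45_0 (relabel2 Y (Main2 Y Std12) [0, 1, 2, 3, 4, 5, 6, 7, 8, 9, 10, 11] rel45_0 (node46 Y))

theorem node44 : Good2 Y (Main2 Y Std12) 12 K44 := by
  refine branch2' Y (Main2 Y Std12) chk44 ?_
  rw [cnd44]
  intro c hc
  simp only [List.mem_cons, List.not_mem_nil, or_false] at hc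
  rcases hc with rfl
  · exact cmpl2 Y (Main2 Y Std12) (m := 1876) cm44_0 (relabel2 Y (Main2 Y Std12) [0, 1, 2, 3, 4, 5, 6, 7, 8, 9, 10, 11] rel44_0 (node45 Y))

theorem node43 : Good2 Y (Main2 Y Std12) 12 K43 := by
  refine branch2' Y (Main2 Y Std12) chk43 ?_
  rw [cnd43]
  intro c hc
  simp only [List.mem_cons, List.not_mem_nil, or_false] at hc
  rcases hc with rfl
  · exact cmpl2 Y (Main2 Y Std12) (m := 2844) cm43_0 (relabel2 Y (Main2 Y Std12) [0, 1, 2, 3, 4, 5, 6, 7, 8, 9, 10, 11] rel43_0 (node44 Y))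

theorem node42 : Good2 Y (Main2 Y Std12) 12 K42 := by
  refine branch2' Y (Main2 Y Std12) chk42 ?_
  rw [cnd42]
  intro c hc
  simp only [List.mem_cons, List.not_mem_nil, or_false] at hc
  rcases hc with rfl
  · exact cmpl2 Y (Main2 Y Std12) (m := 2916) cm42_0 (relabel2 Y (Main2 Y Std12) [0, 1, 2, 3, 4, 5, 6, 7, 8, 9, 10, 11] rel42_0 (node43 Y))

theorem node41 : Good2 Y (Main2 Y Std12) 12 K41 := by
  refine branch2' Y (Main2 Y Std12) chk41 ?_
  rw [cnd41]
  intro c hc
  simp only [List.mem_cons, List.not_mem_nil, or_false] at hc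
  rcases hc with rfl
  · exact cmpl2 Y (Main2 Y Std12) (m := 490) cm41_0 (relabel2 Y (Main2 Y Std12) [0, 1, 2, 3, 4, 5, 6, 7, 8, 9, 10, 11] rel41_0 (node42 Y))

theorem node40 : Good2 Y (Main2 Y Std12) 12 K40 := by
  refine branch2' Y (Main2 Y Std12) chk40 ?_
  rw [cnd40]
  intro c hc
  simp only [List.mem_cons, List.not_mem_nil, or_false] at hc
  rcases hc with rfl
  · exact cmpl2 Y (Main2 Y Std12) (m := 2772) cm40_0 (relabel2 Y (Main2 Y Std12) [0, 1, 2, 3, 4, 5, 6, 7, 8, 9, 10, 11] rel40_0 (node41 Y))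

theorem node39 : Good2 Y (Main2 Y Std12) 12 K39 := by
  refine branch2' Y (Main2 Y Std12) chk39 ?_
  rw [cnd39]
  intro c hc
  simp only [List.mem_cons, List.not_mem_nil, or_false] at hc
  rcases hc with rfl
  · exact cmpl2 Y (Main2 Y Std12) (m := 2680) cm39_0 (relabel2 Y (Main2 Y Std12) [0, 1, 2, 3, 4, 5, 6, 7, 8, 9, 10, 11] rel39_0 (node40 Y))

theorem node38 : Good2 Y (Main2 Y Std12) 12 K38 := by
  refine branch2' Y (Main2 Y Std12) chk38 ?_
  rw [cnd38]
  intro c hc
  simp only [List.mem_cons, List.not_mem_nil, or_false] at hc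
  rcases hc with rfl
  · exact cmpl2 Y (Main2 Y Std12) (m := 669) cm38_0 (relabel2 Y (Main2 Y Std12) [0, 1, 2, 3, 4, 5, 6, 7, 8, 9, 10, 11] rel38_0 (node39 Y))

theorem node37 : Good2 Y (Main2 Y Std12) 12 K37 := by
  refine branch2' Y (Main2 Y Std12) chk37 ?_
  rw [cnd37]
  intro c hc
  simp only [List.mem_cons, List.not_mem_nil, or_false] at hc
  rcases hc with rfl
  · exact cmpl2 Y (Main2 Y Std12) (m := 2984) cm37_0 (relabel2 Y (Main2 Y Std12) [0, 1, 2, 3, 4, 5, 6, 7, 8, 9, 10, 11] rel37_0 (node38 Y))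

theorem node36 : Good2 Y (Main2 Y Std12) 12 K36 := by
  refine branch2' Y (Main2 Y Std12) chk36 ?_
  rw [cnd36]
  intro c hc
  simp only [List.mem_cons, List.not_mem_nil, or_false] at hc
  rcases hc with rfl
  · exact cmpl2 Y (Main2 Y Std12) (m := 2499) cm36_0 (relabel2 Y (Main2 Y Std12) [0, 1, 2, 3, 4, 5, 6, 7, 8, 9, 10, 11] rel36_0 (node37 Y))

theorem node35 : Good2 Y (Main2 Y Std12) 12 K35 := by
  refine branch2' Y (Main2 Y Std12) chk35 ?_
  rw [cnd35]
  intro c hc
  simp only [List.mem_cons, List.not_mem_nil, or_false] at hc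
  rcases hc with rfl
  · exact cmpl2 Y (Main2 Y Std12) (m := 1464) cm35_0 (relabel2 Y (Main2 Y Std12) [0, 1, 2, 3, 4, 5, 6, 7, 8, 9, 10, 11] rel35_0 (node36 Y))

theorem node34 : Good2 Y (Main2 Y Std12) 12 K34 := by
  refine branch2' Y (Main2 Y Std12) chk34 ?_
  rw [cnd34]
  intro c hc
  simp only [List.mem_cons, List.not_mem_nil, or_false] at hc
  rcases hc with rfl
  · exact cmpl2 Y (Main2 Y Std12) (m := 1205) cm34_0 (relabel2 Y (Main2 Y Std12) [0, 1, 2, 3, 4, 5, 6, 7, 8, 9, 10, 11] rel34_0 (node35 Y))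

theorem node33 : Good2 Y (Main2 Y Std12) 12 K33 := by
  refine branch2' Y (Main2 Y Std12) chk33 ?_
  rw [cnd33]
  intro c hc
  simp only [List.mem_cons, List.not_mem_nil, or_false] at hc
  rcases hc with rfl
  · exact cmpl2 Y (Main2 Y Std12) (m := 1490) cm33_0 (relabel2 Y (Main2 Y Std12) [0, 1, 2, 3, 4, 5, 6, 7, 8, 9, 10, 11] rel33_0 (node34 Y))

theorem node32 : Good2 Y (Main2 Y Std12) 12 K32 := by
  refine branch2' Y (Main2 Y Std12) chk32 ?_
  rw [cnd32]
  intro c hc
  simp only [List.mem_cons, List.not_mem_nil, or_false] at hc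
  rcases hc with rfl
  · exact cmpl2 Y (Main2 Y Std12) (m := 825) cm32_0 (relabel2 Y (Main2 Y Std12) [0, 1, 2, 3, 4, 5, 6, 7, 8, 9, 10, 11] rel32_0 (node33 Y))

theorem node31 : Good2 Y (Main2 Y Std12) 12 K31 := by
  refine branch2' Y (Main2 Y Std12) chk31 ?_
  rw [cnd31]
  intro c hc
  simp only [List.mem_cons, List.not_mem_nil, or_false] at hc
  rcases hc with rfl
  · exact cmpl2 Y (Main2 Y Std12) (m := 3347) cm31_0 (relabel2 Y (Main2 Y Std12) [0, 1, 2, 3, 4, 5, 6, 7, 8, 9, 10, 11] rel31_0 (node32 Y))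

theorem node30 : Good2 Y (Main2 Y Std12) 12 K30 := by
  refine branch2' Y (Main2 Y Std12) chk30 ?_
  rw [cnd30]
  intro c hc
  simp only [List.mem_cons, List.not_mem_nil, or_false] at hc
  rcases hc with rfl
  · exact cmpl2 Y (Main2 Y Std12) (m := 1705) cm30_0 (relabel2 Y (Main2 Y Std12) [0, 1, 2, 3, 4, 5, 6, 7, 8, 9, 10, 11] rel30_0 (node31 Y))

theorem node29 : Good2 Y (Main2 Y Std12) 12 K29 := by
  refine branch2' Y (Main2 Y Std12) chk29 ?_
  rw [cnd29]
  intro c hc
  simp only [List.mem_cons, List.not_mem_nil, or_false] at hc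
  rcases hc with rfl
  · exact cmpl2 Y (Main2 Y Std12) (m := 2786) cm29_0 (relabel2 Y (Main2 Y Std12) [0, 1, 2, 3, 4, 5, 6, 7, 8, 9, 10, 11] rel29_0 (node30 Y))

theorem node28 : Good2 Y (Main2 Y Std12) 12 K28 := by
  refine branch2' Y (Main2 Y Std12) chk28 ?_
  rw [cnd28]
  intro c hc
  simp only [List.mem_cons, List.not_mem_nil, or_false] at hc
  rcases hc with rfl
  · exact cmpl2 Y (Main2 Y Std12) (m := 2508) cm28_0 (relabel2 Y (Main2 Y Std12) [0, 1, 2, 3, 4, 5, 6, 7, 8, 9, 10, 11] rel28_0 (node29 Y))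

theorem node27 : Good2 Y (Main2 Y Std12) 12 K27 := by
  refine branch2' Y (Main2 Y Std12) chk27 ?_
  rw [cnd27]
  intro c hc
  simp only [List.mem_cons, List.not_mem_nil, or_false] at hc
  rcases hc with rfl
  · exact cmpl2 Y (Main2 Y Std12) (m := 3715) cm27_0 (relabel2 Y (Main2 Y Std12) [0, 1, 2, 3, 4, 5, 6, 7, 8, 9, 10, 11] rel27_0 (node28 Y))

theorem node26 : Good2 Y (Main2 Y Std12) 12 K26 := by
  refine branch2' Y (Main2 Y Std12) chk26 ?_
  rw [cnd26]
  intro c hc
  simp only [List.mem_cons, List.not_mem_nil, or_false] at hc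
  rcases hc with rfl
  · exact cmpl2 Y (Main2 Y Std12) (m := 1358) cm26_0 (relabel2 Y (Main2 Y Std12) [0, 1, 2, 3, 4, 5, 6, 7, 8, 9, 10, 11] rel26_0 (node27 Y))

theorem node25 : Good2 Y (Main2 Y Std12) 12 K25 := by
  refine branch2' Y (Main2 Y Std12) chk25 ?_
  rw [cnd25]
  intro c hc
  simp only [List.mem_cons, List.not_mem_nil, or_false] at hc
  rcases hc with rfl
  · exact cmpl2 Y (Main2 Y Std12) (m := 814) cm25_0 (relabel2 Y (Main2 Y Std12) [0, 1, 2, 3, 4, 5, 6, 7, 8, 9, 10, 11] rel25_0 (node26 Y))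

theorem node24 : Good2 Y (Main2 Y Std12) 12 K24 := by
  refine branch2' Y (Main2 Y Std12) chk24 ?_
  rw [cnd24]
  intro c hc
  simp only [List.mem_cons, List.not_mem_nil, or_false] at hc
  rcases hc with rfl
  · exact cmpl2 Y (Main2 Y Std12) (m := 2362) cm24_0 (relabel2 Y (Main2 Y Std12) [0, 1, 2, 3, 4, 5, 6, 7, 8, 9, 10, 11] rel24_0 (node25 Y))

theorem node23 : Good2 Y (Main2 Y Std12) 12 K23 := by
  refine branch2' Y (Main2 Y Std12) chk23 ?_
  rw [cnd23]
  intro c hc
  simp only [List.mem_cons, List.not_mem_nil, or_false] at hc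
  rcases hc with rfl
  · exact cmpl2 Y (Main2 Y Std12) (m := 791) cm23_0 (relabel2 Y (Main2 Y Std12) [0, 1, 2, 3, 4, 5, 6, 7, 8, 9, 10, 11] rel23_0 (node24 Y))

theorem node22 : Good2 Y (Main2 Y Std12) 12 K22 := by
  refine branch2' Y (Main2 Y Std12) chk22 ?_
  rw [cnd22]
  intro c hc
  simp only [List.mem_cons, List.not_mem_nil, or_false] at hc
  rcases hc with rfl
  · exact cmpl2 Y (Main2 Y Std12) (m := 2357) cm22_0 (relabel2 Y (Main2 Y Std12) [0, 1, 2, 3, 4, 5, 6, 7, 8, 9, 10, 11] rel22_0 (node23 Y))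

theorem node21 : Good2 Y (Main2 Y Std12) 12 K21 := by
  refine branch2' Y (Main2 Y Std12) chk21 ?_
  rw [cnd21]
  intro c hc
  simp only [List.mem_cons, List.not_mem_nil, or_false] at hc
  rcases hc with rfl
  · exact cmpl2 Y (Main2 Y Std12) (m := 2236) cm21_0 (relabel2 Y (Main2 Y Std12) [0, 1, 2, 3, 4, 5, 6, 7, 8, 9, 10, 11] rel21_0 (node22 Y))

theorem node20 : Good2 Y (Main2 Y Std12) 12 K20 := by
  refine branch2' Y (Main2 Y Std12) chk20 ?_
  rw [cnd20]
  intro c hc
  simp only [List.mem_cons, List.not_mem_nil, or_false] at hc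
  rcases hc with rfl
  · exact cmpl2 Y (Main2 Y Std12) (m := 1133) cm20_0 (relabel2 Y (Main2 Y Std12) [0, 1, 2, 3, 4, 5, 6, 7, 8, 9, 10, 11] rel20_0 (node21 Y))

theorem node19 : Good2 Y (Main2 Y Std12) 12 K19 := by
  refine branch2' Y (Main2 Y Std12) chk19 ?_
  rw [cnd19]
  intro c hc
  simp only [List.mem_cons, List.not_mem_nil, or_false] at hc
  rcases hc with rfl
  · exact cmpl2 Y (Main2 Y Std12) (m := 3147) cm19_0 (relabel2 Y (Main2 Y Std12) [0, 1, 2, 3, 4, 5, 6, 7, 8, 9, 10, 11] rel19_0 (node20 Y))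

theorem node18 : Good2 Y (Main2 Y Std12) 12 K18 := by
  refine branch2' Y (Main2 Y Std12) chk18 ?_
  rw [cnd18]
  intro c hc
  simp only [List.mem_cons, List.not_mem_nil, or_false] at hc
  rcases hc with rfl
  · exact cmpl2 Y (Main2 Y Std12) (m := 2266) cm18_0 (relabel2 Y (Main2 Y Std12) [0, 1, 2, 3, 4, 5, 6, 7, 8, 9, 10, 11] rel18_0 (node19 Y))

theorem node17 : Good2 Y (Main2 Y Std12) 12 K17 := by
  refine branch2' Y (Main2 Y Std12) chk17 ?_
  rw [cnd17]
  intro c hc
  simp only [List.mem_cons, List.not_mem_nil, or_false] at hc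
  rcases hc with rfl
  · exact cmpl2 Y (Main2 Y Std12) (m := 2702) cm17_0 (relabel2 Y (Main2 Y Std12) [0, 1, 2, 3, 4, 5, 6, 7, 8, 9, 10, 11] rel17_0 (node18 Y))

theorem node130 : Good2 Y (Main2 Y Std12) 12 K130 := leaf2 Y chk130

theorem node129 : Good2 Y (Main2 Y Std12) 12 K129 := by
  refine branch2' Y (Main2 Y Std12) chk129 ?_
  rw [cnd129]
  intro c hc
  simp only [List.mem_cons, List.not_mem_nil, or_false] at hc
  rcases hc with rfl
  · exact cmpl2 Y (Main2 Y Std12) (m := 3288) cm129_0 (relabel2 Y (Main2 Y Std12) [0, 1, 2, 3, 4, 5, 6, 7, 8, 9, 10, 11] rel129_0 (node130 Y))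

theorem node128 : Good2 Y (Main2 Y Std12) 12 K128 := by
  refine branch2' Y (Main2 Y Std12) chk128 ?_
  rw [cnd128]
  intro c hc
  simp only [List.mem_cons, List.not_mem_nil, or_false] at hc
  rcases hc with rfl
  · exact cmpl2 Y (Main2 Y Std12) (m := 3653) cm128_0 (relabel2 Y (Main2 Y Std12) [0, 1, 2, 3, 4, 5, 6, 7, 8, 9, 10, 11] rel128_0 (node129 Y))

theorem node127 : Good2 Y (Main2 Y Std12) 12 K127 := by
  refine branch2' Y (Main2 Y Std12) chk127 ?_
  rw [cnd127]
  intro c hc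
  simp only [List.mem_cons, List.not_mem_nil, or_false] at hc
  rcases hc with rfl
  · exact cmpl2 Y (Main2 Y Std12) (m := 2215) cm127_0 (relabel2 Y (Main2 Y Std12) [0, 1, 2, 3, 4, 5, 6, 7, 8, 9, 10, 11] rel127_0 (node128 Y))

theorem node126 : Good2 Y (Main2 Y Std12) 12 K126 := by
  refine branch2' Y (Main2 Y Std12) chk126 ?_
  rw [cnd126]
  intro c hc
  simp only [List.mem_cons, List.not_mem_nil, or_false] at hc
  rcases hc with rfl
  · exact cmpl2 Y (Main2 Y Std12) (m := 1340) cm126_0 (relabel2 Y (Main2 Y Std12) [0, 1, 2, 3, 4, 5, 6, 7, 8, 9, 10, 11] rel126_0 (node127 Y))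

theorem node125 : Good2 Y (Main2 Y Std12) 12 K125 := by
  refine branch2' Y (Main2 Y Std12) chk125 ?_
  rw [cnd125]
  intro c hc
  simp only [List.mem_cons, List.not_mem_nil, or_false] at hc
  rcases hc with rfl
  · exact cmpl2 Y (Main2 Y Std12) (m := 599) cm125_0 (relabel2 Y (Main2 Y Std12) [0, 1, 2, 3, 4, 5, 6, 7, 8, 9, 10, 11] rel125_0 (node126 Y))

theorem node124 : Good2 Y (Main2 Y Std12) 12 K124 := by
  refine branch2' Y (Main2 Y Std12) chk124 ?_
  rw [cnd124]
  intro c hc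
  simp only [List.mem_cons, List.not_mem_nil, or_false] at hc
  rcases hc with rfl
  · exact cmpl2 Y (Main2 Y Std12) (m := 3729) cm124_0 (relabel2 Y (Main2 Y Std12) [0, 1, 2, 3, 4, 5, 6, 7, 8, 9, 10, 11] rel124_0 (node125 Y))

theorem node123 : Good2 Y (Main2 Y Std12) 12 K123 := by
  refine branch2' Y (Main2 Y Std12) chk123 ?_
  rw [cnd123]
  intro c hc
  simp only [List.mem_cons, List.not_mem_nil, or_false] at hc
  rcases hc with rfl
  · exact cmpl2 Y (Main2 Y Std12) (m := 2532) cm123_0 (relabel2 Y (Main2 Y Std12) [0, 1, 2, 3, 4, 5, 6, 7, 8, 9, 10, 11] rel123_0 (node124 Y))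

theorem node122 : Good2 Y (Main2 Y Std12) 12 K122 := by
  refine branch2' Y (Main2 Y Std12) chk122 ?_
  rw [cnd122]
  intro c hc
  simp only [List.mem_cons, List.not_mem_nil, or_false] at hc
  rcases hc with rfl
  · exact cmpl2 Y (Main2 Y Std12) (m := 2481) cm122_0 (relabel2 Y (Main2 Y Std12) [0, 1, 2, 3, 4, 5, 6, 7, 8, 9, 10, 11] rel122_0 (node123 Y))

theorem node121 : Good2 Y (Main2 Y Std12) 12 K121 := by
  refine branch2' Y (Main2 Y Std12) chk121 ?_
  rw [cnd121]
  intro c hc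
  simp only [List.mem_cons, List.not_mem_nil, or_false] at hc
  rcases hc with rfl
  · exact cmpl2 Y (Main2 Y Std12) (m := 2514) cm121_0 (relabel2 Y (Main2 Y Std12) [0, 1, 2, 3, 4, 5, 6, 7, 8, 9, 10, 11] rel121_0 (node122 Y))

theorem node120 : Good2 Y (Main2 Y Std12) 12 K120 := by
  refine branch2' Y (Main2 Y Std12) chk120 ?_
  rw [cnd120]
  intro c hc
  simp only [List.mem_cons, List.not_mem_nil, or_false] at hc
  rcases hc with rfl
  · exact cmpl2 Y (Main2 Y Std12) (m := 1195) cm120_0 (relabel2 Y (Main2 Y Std12) [0, 1, 2, 3, 4, 5, 6, 7, 8, 9, 10, 11] rel120_0 (node121 Y))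

theorem node119 : Good2 Y (Main2 Y Std12) 12 K119 := by
  refine branch2' Y (Main2 Y Std12) chk119 ?_
  rw [cnd119]
  intro c hc
  simp only [List.mem_cons, List.not_mem_nil, or_false] at hc
  rcases hc with rfl
  · exact cmpl2 Y (Main2 Y Std12) (m := 1446) cm119_0 (relabel2 Y (Main2 Y Std12) [0, 1, 2, 3, 4, 5, 6, 7, 8, 9, 10, 11] rel119_0 (node120 Y))

theorem node118 : Good2 Y (Main2 Y Std12) 12 K118 := by
  refine branch2' Y (Main2 Y Std12) chk118 ?_
  rw [cnd118]
  intro c hc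
  simp only [List.mem_cons, List.not_mem_nil, or_false] at hc
  rcases hc with rfl
  · exact cmpl2 Y (Main2 Y Std12) (m := 2835) cm118_0 (relabel2 Y (Main2 Y Std12) [0, 1, 2, 3, 4, 5, 6, 7, 8, 9, 10, 11] rel118_0 (node119 Y))

theorem node117 : Good2 Y (Main2 Y Std12) 12 K117 := by
  refine branch2' Y (Main2 Y Std12) chk117 ?_
  rw [cnd117]
  intro c hc
  simp only [List.mem_cons, List.not_mem_nil, or_false] at hc
  rcases hc with rfl
  · exact cmpl2 Y (Main2 Y Std12) (m := 1433) cm117_0 (relabel2 Y (Main2 Y Std12) [0, 1, 2, 3, 4, 5, 6, 7, 8, 9, 10, 11] rel117_0 (node118 Y))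

theorem node116 : Good2 Y (Main2 Y Std12) 12 K116 := by
  refine branch2' Y (Main2 Y Std12) chk116 ?_
  rw [cnd116]
  intro c hc
  simp only [List.mem_cons, List.not_mem_nil, or_false] at hc
  rcases hc with rfl
  · exact cmpl2 Y (Main2 Y Std12) (m := 1859) cm116_0 (relabel2 Y (Main2 Y Std12) [0, 1, 2, 3, 4, 5, 6, 7, 8, 9, 10, 11] rel116_0 (node117 Y))

theorem node115 : Good2 Y (Main2 Y Std12) 12 K115 := by
  refine branch2' Y (Main2 Y Std12) chk115 ?_
  rw [cnd115]
  intro c hc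
  simp only [List.mem_cons, List.not_mem_nil, or_false] at hc
  rcases hc with rfl
  · exact cmpl2 Y (Main2 Y Std12) (m := 2978) cm115_0 (relabel2 Y (Main2 Y Std12) [0, 1, 2, 3, 4, 5, 6, 7, 8, 9, 10, 11] rel115_0 (node116 Y))

theorem node114 : Good2 Y (Main2 Y Std12) 12 K114 := by
  refine branch2' Y (Main2 Y Std12) chk114 ?_
  rw [cnd114]
  intro c hc
  simp only [List.mem_cons, List.not_mem_nil, or_false] at hc
  rcases hc with rfl
  · exact cmpl2 Y (Main2 Y Std12) (m := 2729) cm114_0 (relabel2 Y (Main2 Y Std12) [0, 1, 2, 3, 4, 5, 6, 7, 8, 9, 10, 11] rel114_0 (node115 Y))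

theorem node113 : Good2 Y (Main2 Y Std12) 12 K113 := by
  refine branch2' Y (Main2 Y Std12) chk113 ?_
  rw [cnd113]
  intro c hc
  simp only [List.mem_cons, List.not_mem_nil, or_false] at hc
  rcases hc with rfl
  · exact cmpl2 Y (Main2 Y Std12) (m := 1892) cm113_0 (relabel2 Y (Main2 Y Std12) [0, 1, 2, 3, 4, 5, 6, 7, 8, 9, 10, 11] rel113_0 (node114 Y))

theorem node112 : Good2 Y (Main2 Y Std12) 12 K112 := by
  refine branch2' Y (Main2 Y Std12) chk112 ?_
  rw [cnd112]
  intro c hc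
  simp only [List.mem_cons, List.not_mem_nil, or_false] at hc
  rcases hc with rfl
  · exact cmpl2 Y (Main2 Y Std12) (m := 2764) cm112_0 (relabel2 Y (Main2 Y Std12) [0, 1, 2, 3, 4, 5, 6, 7, 8, 9, 10, 11] rel112_0 (node113 Y))

theorem node111 : Good2 Y (Main2 Y Std12) 12 K111 := by
  refine branch2' Y (Main2 Y Std12) chk111 ?_
  rw [cnd111]
  intro c hc
  simp only [List.mem_cons, List.not_mem_nil, or_false] at hc
  rcases hc with rfl
  · exact cmpl2 Y (Main2 Y Std12) (m := 1649) cm111_0 (relabel2 Y (Main2 Y Std12) [0, 1, 2, 3, 4, 5, 6, 7, 8, 9, 10, 11] rel111_0 (node112 Y))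

theorem node110 : Good2 Y (Main2 Y Std12) 12 K110 := by
  refine branch2' Y (Main2 Y Std12) chk110 ?_
  rw [cnd110]
  intro c hc
  simp only [List.mem_cons, List.not_mem_nil, or_false] at hc
  rcases hc with rfl
  · exact cmpl2 Y (Main2 Y Std12) (m := 1762) cm110_0 (relabel2 Y (Main2 Y Std12) [0, 1, 2, 3, 4, 5, 6, 7, 8, 9, 10, 11] rel110_0 (node111 Y))

theorem node109 : Good2 Y (Main2 Y Std12) 12 K109 := by
  refine branch2' Y (Main2 Y Std12) chk109 ?_
  rw [cnd109]
  intro c hc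
  simp only [List.mem_cons, List.not_mem_nil, or_false] at hc
  rcases hc with rfl
  · exact cmpl2 Y (Main2 Y Std12) (m := 1295) cm109_0 (relabel2 Y (Main2 Y Std12) [0, 1, 2, 3, 4, 5, 6, 7, 8, 9, 10, 11] rel109_0 (node110 Y))

theorem node108 : Good2 Y (Main2 Y Std12) 12 K108 := by
  refine branch2' Y (Main2 Y Std12) chk108 ?_
  rw [cnd108]
  intro c hc
  simp only [List.mem_cons, List.not_mem_nil, or_false] at hc
  rcases hc with rfl
  · exact cmpl2 Y (Main2 Y Std12) (m := 1671) cm108_0 (relabel2 Y (Main2 Y Std12) [0, 1, 2, 3, 4, 5, 6, 7, 8, 9, 10, 11] rel108_0 (node109 Y))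

theorem node107 : Good2 Y (Main2 Y Std12) 12 K107 := by
  refine branch2' Y (Main2 Y Std12) chk107 ?_
  rw [cnd107]
  intro c hc
  simp only [List.mem_cons, List.not_mem_nil, or_false] at hc
  rcases hc with rfl
  · exact cmpl2 Y (Main2 Y Std12) (m := 2261) cm107_0 (relabel2 Y (Main2 Y Std12) [0, 1, 2, 3, 4, 5, 6, 7, 8, 9, 10, 11] rel107_0 (node108 Y))

theorem node106 : Good2 Y (Main2 Y Std12) 12 K106 := by
  refine branch2' Y (Main2 Y Std12) chk106 ?_
  rw [cnd106]
  intro c hc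
  simp only [List.mem_cons, List.not_mem_nil, or_false] at hc
  rcases hc with rfl
  · exact cmpl2 Y (Main2 Y Std12) (m := 1482) cm106_0 (relabel2 Y (Main2 Y Std12) [0, 1, 2, 3, 4, 5, 6, 7, 8, 9, 10, 11] rel106_0 (node107 Y))

theorem node105 : Good2 Y (Main2 Y Std12) 12 K105 := by
  refine branch2' Y (Main2 Y Std12) chk105 ?_
  rw [cnd105]
  intro c hc
  simp only [List.mem_cons, List.not_mem_nil, or_false] at hc
  rcases hc with rfl
  · exact cmpl2 Y (Main2 Y Std12) (m := 1953) cm105_0 (relabel2 Y (Main2 Y Std12) [0, 1, 2, 3, 4, 5, 6, 7, 8, 9, 10, 11] rel105_0 (node106 Y))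

theorem node104 : Good2 Y (Main2 Y Std12) 12 K104 := by
  refine branch2' Y (Main2 Y Std12) chk104 ?_
  rw [cnd104]
  intro c hc
  simp only [List.mem_cons, List.not_mem_nil, or_false] at hc
  rcases hc with rfl
  · exact cmpl2 Y (Main2 Y Std12) (m := 1938) cm104_0 (relabel2 Y (Main2 Y Std12) [0, 1, 2, 3, 4, 5, 6, 7, 8, 9, 10, 11] rel104_0 (node105 Y))

theorem node103 : Good2 Y (Main2 Y Std12) 12 K103 := by
  refine branch2' Y (Main2 Y Std12) chk103 ?_
  rw [cnd103]
  intro c hc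
  simp only [List.mem_cons, List.not_mem_nil, or_false] at hc
  rcases hc with rfl
  · exact cmpl2 Y (Main2 Y Std12) (m := 2575) cm103_0 (relabel2 Y (Main2 Y Std12) [0, 1, 2, 3, 4, 5, 6, 7, 8, 9, 10, 11] rel103_0 (node104 Y))

theorem node102 : Good2 Y (Main2 Y Std12) 12 K102 := by
  refine branch2' Y (Main2 Y Std12) chk102 ?_
  rw [cnd102]
  intro c hc
  simp only [List.mem_cons, List.not_mem_nil, or_false] at hc
  rcases hc with rfl
  · exact cmpl2 Y (Main2 Y Std12) (m := 1235) cm102_0 (relabel2 Y (Main2 Y Std12) [0, 1, 2, 3, 4, 5, 6, 7, 8, 9, 10, 11] rel102_0 (node103 Y))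

theorem node101 : Good2 Y (Main2 Y Std12) 12 K101 := by
  refine branch2' Y (Main2 Y Std12) chk101 ?_
  rw [cnd101]
  intro c hc
  simp only [List.mem_cons, List.not_mem_nil, or_false] at hc
  rcases hc with rfl
  · exact cmpl2 Y (Main2 Y Std12) (m := 3666) cm101_0 (relabel2 Y (Main2 Y Std12) [0, 1, 2, 3, 4, 5, 6, 7, 8, 9, 10, 11] rel101_0 (node102 Y))

theorem node100 : Good2 Y (Main2 Y Std12) 12 K100 := by
  refine branch2' Y (Main2 Y Std12) chk100 ?_
  rw [cnd100]
  intro c hc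
  simp only [List.mem_cons, List.not_mem_nil, or_false] at hc
  rcases hc with rfl
  · exact cmpl2 Y (Main2 Y Std12) (m := 1590) cm100_0 (relabel2 Y (Main2 Y Std12) [0, 1, 2, 3, 4, 5, 6, 7, 8, 9, 10, 11] rel100_0 (node101 Y))

theorem node99 : Good2 Y (Main2 Y Std12) 12 K99 := by
  refine branch2' Y (Main2 Y Std12) chk99 ?_
  rw [cnd99]
  intro c hc
  simp only [List.mem_cons, List.not_mem_nil, or_false] at hc
  rcases hc with rfl
  · exact cmpl2 Y (Main2 Y Std12) (m := 2913) cm99_0 (relabel2 Y (Main2 Y Std12) [0, 1, 2, 3, 4, 5, 6, 7, 8, 9, 10, 11] rel99_0 (node100 Y))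

theorem node98 : Good2 Y (Main2 Y Std12) 12 K98 := by
  refine branch2' Y (Main2 Y Std12) chk98 ?_
  rw [cnd98]
  intro c hc
  simp only [List.mem_cons, List.not_mem_nil, or_false] at hc
  rcases hc with rfl
  · exact cmpl2 Y (Main2 Y Std12) (m := 1737) cm98_0 (relabel2 Y (Main2 Y Std12) [0, 1, 2, 3, 4, 5, 6, 7, 8, 9, 10, 11] rel98_0 (node99 Y))

theorem node97 : Good2 Y (Main2 Y Std12) 12 K97 := by
  refine branch2' Y (Main2 Y Std12) chk97 ?_
  rw [cnd97]
  intro c hc
  simp only [List.mem_cons, List.not_mem_nil, or_false] at hc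
  rcases hc with rfl
  · exact cmpl2 Y (Main2 Y Std12) (m := 1127) cm97_0 (relabel2 Y (Main2 Y Std12) [0, 1, 2, 3, 4, 5, 6, 7, 8, 9, 10, 11] rel97_0 (node98 Y))

theorem node96 : Good2 Y (Main2 Y Std12) 12 K96 := by
  refine branch2' Y (Main2 Y Std12) chk96 ?_
  rw [cnd96]
  intro c hc
  simp only [List.mem_cons, List.not_mem_nil, or_false] at hc
  rcases hc with rfl
  · exact cmpl2 Y (Main2 Y Std12) (m := 2890) cm96_0 (relabel2 Y (Main2 Y Std12) [0, 1, 2, 3, 4, 5, 6, 7, 8, 9, 10, 11] rel96_0 (node97 Y))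

theorem node95 : Good2 Y (Main2 Y Std12) 12 K95 := by
  refine branch2' Y (Main2 Y Std12) chk95 ?_
  rw [cnd95]
  intro c hc
  simp only [List.mem_cons, List.not_mem_nil, or_false] at hc
  rcases hc with rfl
  · exact cmpl2 Y (Main2 Y Std12) (m := 1720) cm95_0 (relabel2 Y (Main2 Y Std12) [0, 1, 2, 3, 4, 5, 6, 7, 8, 9, 10, 11] rel95_0 (node96 Y))

theorem node94 : Good2 Y (Main2 Y Std12) 12 K94 := by
  refine branch2' Y (Main2 Y Std12) chk94 ?_
  rw [cnd94]
  intro c hc
  simp only [List.mem_cons, List.not_mem_nil, or_false] at hc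
  rcases hc with rfl
  · exact cmpl2 Y (Main2 Y Std12) (m := 2347) cm94_0 (relabel2 Y (Main2 Y Std12) [0, 1, 2, 3, 4, 5, 6, 7, 8, 9, 10, 11] rel94_0 (node95 Y))

theorem node93 : Good2 Y (Main2 Y Std12) 12 K93 := by
  refine branch2' Y (Main2 Y Std12) chk93 ?_
  rw [cnd93]
  intro c hc
  simp only [List.mem_cons, List.not_mem_nil, or_false] at hc
  rcases hc with rfl
  · exact cmpl2 Y (Main2 Y Std12) (m := 686) cm93_0 (relabel2 Y (Main2 Y Std12) [0, 1, 2, 3, 4, 5, 6, 7, 8, 9, 10, 11] rel93_0 (node94 Y))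

theorem node92 : Good2 Y (Main2 Y Std12) 12 K92 := by
  refine branch2' Y (Main2 Y Std12) chk92 ?_
  rw [cnd92]
  intro c hc
  simp only [List.mem_cons, List.not_mem_nil, or_false] at hc
  rcases hc with rfl
  · exact cmpl2 Y (Main2 Y Std12) (m := 669) cm92_0 (relabel2 Y (Main2 Y Std12) [0, 1, 2, 3, 4, 5, 6, 7, 8, 9, 10, 11] rel92_0 (node93 Y))

theorem node91 : Good2 Y (Main2 Y Std12) 12 K91 := by
  refine branch2' Y (Main2 Y Std12) chk91 ?_
  rw [cnd91]
  intro c hc
  simp only [List.mem_cons, List.not_mem_nil, or_false] at hc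
  rcases hc with rfl
  · exact cmpl2 Y (Main2 Y Std12) (m := 3722) cm91_0 (relabel2 Y (Main2 Y Std12) [0, 1, 2, 3, 4, 5, 6, 7, 8, 9, 10, 11] rel91_0 (node92 Y))

theorem node90 : Good2 Y (Main2 Y Std12) 12 K90 := by
  refine branch2' Y (Main2 Y Std12) chk90 ?_
  rw [cnd90]
  intro c hc
  simp only [List.mem_cons, List.not_mem_nil, or_false] at hc
  rcases hc with rfl
  · exact cmpl2 Y (Main2 Y Std12) (m := 1813) cm90_0 (relabel2 Y (Main2 Y Std12) [0, 1, 2, 3, 4, 5, 6, 7, 8, 9, 10, 11] rel90_0 (node91 Y))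

theorem node89 : Good2 Y (Main2 Y Std12) 12 K89 := by
  refine branch2' Y (Main2 Y Std12) chk89 ?_
  rw [cnd89]
  intro c hc
  simp only [List.mem_cons, List.not_mem_nil, or_false] at hc
  rcases hc with rfl
  · exact cmpl2 Y (Main2 Y Std12) (m := 3250) cm89_0 (relabel2 Y (Main2 Y Std12) [0, 1, 2, 3, 4, 5, 6, 7, 8, 9, 10, 11] rel89_0 (node90 Y))

theorem node88 : Good2 Y (Main2 Y Std12) 12 K88 := by
  refine branch2' Y (Main2 Y Std12) chk88 ?_
  rw [cnd88]
  intro c hc
  simp only [List.mem_cons, List.not_mem_nil, or_false] at hc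
  rcases hc with rfl
  · exact cmpl2 Y (Main2 Y Std12) (m := 798) cm88_0 (relabel2 Y (Main2 Y Std12) [0, 1, 2, 3, 4, 5, 6, 7, 8, 9, 10, 11] rel88_0 (node89 Y))

theorem node87 : Good2 Y (Main2 Y Std12) 12 K87 := by
  refine branch2' Y (Main2 Y Std12) chk87 ?_
  rw [cnd87]
  intro c hc
  simp only [List.mem_cons, List.not_mem_nil, or_false] at hc
  rcases hc with rfl
  · exact cmpl2 Y (Main2 Y Std12) (m := 3619) cm87_0 (relabel2 Y (Main2 Y Std12) [0, 1, 2, 3, 4, 5, 6, 7, 8, 9, 10, 11] rel87_0 (node88 Y))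

theorem node86 : Good2 Y (Main2 Y Std12) 12 K86 := by
  refine branch2' Y (Main2 Y Std12) chk86 ?_
  rw [cnd86]
  intro c hc
  simp only [List.mem_cons, List.not_mem_nil, or_false] at hc
  rcases hc with rfl
  · exact cmpl2 Y (Main2 Y Std12) (m := 3147) cm86_0 (relabel2 Y (Main2 Y Std12) [0, 1, 2, 3, 4, 5, 6, 7, 8, 9, 10, 11] rel86_0 (node87 Y))

theorem node85 : Good2 Y (Main2 Y Std12) 12 K85 := by
  refine branch2' Y (Main2 Y Std12) chk85 ?_
  rw [cnd85]
  intro c hc
  simp only [List.mem_cons, List.not_mem_nil, or_false] at hc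
  rcases hc with rfl
  · exact cmpl2 Y (Main2 Y Std12) (m := 741) cm85_0 (relabel2 Y (Main2 Y Std12) [0, 1, 2, 3, 4, 5, 6, 7, 8, 9, 10, 11] rel85_0 (node86 Y))

theorem node84 : Good2 Y (Main2 Y Std12) 12 K84 := by
  refine branch2' Y (Main2 Y Std12) chk84 ?_
  rw [cnd84]
  intro c hc
  simp only [List.mem_cons, List.not_mem_nil, or_false] at hc
  rcases hc with rfl
  · exact cmpl2 Y (Main2 Y Std12) (m := 1385) cm84_0 (relabel2 Y (Main2 Y Std12) [0, 1, 2, 3, 4, 5, 6, 7, 8, 9, 10, 11] rel84_0 (node85 Y))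

theorem node83 : Good2 Y (Main2 Y Std12) 12 K83 := by
  refine branch2' Y (Main2 Y Std12) chk83 ?_
  rw [cnd83]
  intro c hc
  simp only [List.mem_cons, List.not_mem_nil, or_false] at hc
  rcases hc with rfl
  · exact cmpl2 Y (Main2 Y Std12) (m := 3612) cm83_0 (relabel2 Y (Main2 Y Std12) [0, 1, 2, 3, 4, 5, 6, 7, 8, 9, 10, 11] rel83_0 (node84 Y))

theorem node82 : Good2 Y (Main2 Y Std12) 12 K82 := by
  refine branch2' Y (Main2 Y Std12) chk82 ?_
  rw [cnd82]
  intro c hc
  simp only [List.mem_cons, List.not_mem_nil, or_false] at hc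
  rcases hc with rfl
  · exact cmpl2 Y (Main2 Y Std12) (m := 3129) cm82_0 (relabel2 Y (Main2 Y Std12) [0, 1, 2, 3, 4, 5, 6, 7, 8, 9, 10, 11] rel82_0 (node83 Y))

theorem node81 : Good2 Y (Main2 Y Std12) 12 K81 := by
  refine branch2' Y (Main2 Y Std12) chk81 ?_
  rw [cnd81]
  intro c hc
  simp only [List.mem_cons, List.not_mem_nil, or_false] at hc
  rcases hc with rfl
  · exact cmpl2 Y (Main2 Y Std12) (m := 3404) cm81_0 (relabel2 Y (Main2 Y Std12) [0, 1, 2, 3, 4, 5, 6, 7, 8, 9, 10, 11] rel81_0 (node82 Y))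

theorem node80 : Good2 Y (Main2 Y Std12) 12 K80 := by
  refine branch2' Y (Main2 Y Std12) chk80 ?_
  rw [cnd80]
  intro c hc
  simp only [List.mem_cons, List.not_mem_nil, or_false] at hc
  rcases hc with rfl
  · exact cmpl2 Y (Main2 Y Std12) (m := 3118) cm80_0 (relabel2 Y (Main2 Y Std12) [0, 1, 2, 3, 4, 5, 6, 7, 8, 9, 10, 11] rel80_0 (node81 Y))

theorem node79 : Good2 Y (Main2 Y Std12) 12 K79 := by
  refine branch2' Y (Main2 Y Std12) chk79 ?_
  rw [cnd79]
  intro c hc
  simp only [List.mem_cons, List.not_mem_nil, or_false] at hc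
  rcases hc with rfl
  · exact cmpl2 Y (Main2 Y Std12) (m := 3188) cm79_0 (relabel2 Y (Main2 Y Std12) [0, 1, 2, 3, 4, 5, 6, 7, 8, 9, 10, 11] rel79_0 (node80 Y))

theorem node78 : Good2 Y (Main2 Y Std12) 12 K78 := by
  refine branch2' Y (Main2 Y Std12) chk78 ?_
  rw [cnd78]
  intro c hc
  simp only [List.mem_cons, List.not_mem_nil, or_false] at hc
  rcases hc with rfl
  · exact cmpl2 Y (Main2 Y Std12) (m := 730) cm78_0 (relabel2 Y (Main2 Y Std12) [0, 1, 2, 3, 4, 5, 6, 7, 8, 9, 10, 11] rel78_0 (node79 Y))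

theorem node77 : Good2 Y (Main2 Y Std12) 12 K77 := by
  refine branch2' Y (Main2 Y Std12) chk77 ?_
  rw [cnd77]
  intro c hc
  simp only [List.mem_cons, List.not_mem_nil, or_false] at hc
  rcases hc with rfl
  · exact cmpl2 Y (Main2 Y Std12) (m := 3270) cm77_0 (relabel2 Y (Main2 Y Std12) [0, 1, 2, 3, 4, 5, 6, 7, 8, 9, 10, 11] rel77_0 (node78 Y))

theorem node76 : Good2 Y (Main2 Y Std12) 12 K76 := by
  refine branch2' Y (Main2 Y Std12) chk76 ?_
  rw [cnd76]
  intro c hc
  simp only [List.mem_cons, List.not_mem_nil, or_false] at hc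
  rcases hc with rfl
  · exact cmpl2 Y (Main2 Y Std12) (m := 1000) cm76_0 (relabel2 Y (Main2 Y Std12) [0, 1, 2, 3, 4, 5, 6, 7, 8, 9, 10, 11] rel76_0 (node77 Y))

theorem node75 : Good2 Y (Main2 Y Std12) 12 K75 := by
  refine branch2' Y (Main2 Y Std12) chk75 ?_
  rw [cnd75]
  intro c hc
  simp only [List.mem_cons, List.not_mem_nil, or_false] at hc
  rcases hc with rfl
  · exact cmpl2 Y (Main2 Y Std12) (m := 636) cm75_0 (relabel2 Y (Main2 Y Std12) [0, 1, 2, 3, 4, 5, 6, 7, 8, 9, 10, 11] rel75_0 (node76 Y))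

theorem node74 : Good2 Y (Main2 Y Std12) 12 K74 := by
  refine branch2' Y (Main2 Y Std12) chk74 ?_
  rw [cnd74]
  intro c hc
  simp only [List.mem_cons, List.not_mem_nil, or_false] at hc
  rcases hc with rfl
  · exact cmpl2 Y (Main2 Y Std12) (m := 3688) cm74_0 (relabel2 Y (Main2 Y Std12) [0, 1, 2, 3, 4, 5, 6, 7, 8, 9, 10, 11] rel74_0 (node75 Y))

theorem node16 : Good2 Y (Main2 Y Std12) 12 K16 := by
  refine branch2' Y (Main2 Y Std12) chk16 ?_
  rw [cnd16]
  intro c hc
  simp only [List.mem_cons, List.not_mem_nil, or_false] at hc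
  rcases hc with rfl | rfl
  · exact cmpl2 Y (Main2 Y Std12) (m := 698) cm16_0 (relabel2 Y (Main2 Y Std12) [0, 1, 2, 3, 4, 5, 6, 7, 8, 9, 10, 11] rel16_0 (node17 Y))
  · exact cmpl2 Y (Main2 Y Std12) (m := 2618) cm16_1 (relabel2 Y (Main2 Y Std12) [0, 1, 2, 3, 4, 5, 6, 7, 8, 9, 10, 11] rel16_1 (node74 Y))

theorem node15 : Good2 Y (Main2 Y Std12) 12 K15 := by
  refine branch2' Y (Main2 Y Std12) chk15 ?_
  rw [cnd15]
  intro c hc
  simp only [List.mem_cons, List.not_mem_nil, or_false] at hc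
  rcases hc with rfl
  · exact relabel2 Y (Main2 Y Std12) [0, 1, 2, 3, 4, 5, 6, 7, 8, 9, 10, 11] rel15_0 (node16 Y)

theorem node14 : Good2 Y (Main2 Y Std12) 12 K14 := by
  refine branch2' Y (Main2 Y Std12) chk14 ?_
  rw [cnd14]
  intro c hc
  simp only [List.mem_cons, List.not_mem_nil, or_false] at hc
  rcases hc with rfl
  · exact cmpl2 Y (Main2 Y Std12) (m := 882) cm14_0 (relabel2 Y (Main2 Y Std12) [0, 1, 2, 3, 4, 5, 6, 7, 8, 9, 10, 11] rel14_0 (node15 Y))

theorem node13 : Good2 Y (Main2 Y Std12) 12 K13 := by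
  refine branch2' Y (Main2 Y Std12) chk13 ?_
  rw [cnd13]
  intro c hc
  simp only [List.mem_cons, List.not_mem_nil, or_false] at hc
  rcases hc with rfl
  · exact relabel2 Y (Main2 Y Std12) [0, 1, 2, 3, 4, 5, 6, 7, 8, 9, 10, 11] rel13_0 (node14 Y)

theorem node12 : Good2 Y (Main2 Y Std12) 12 K12 := by
  refine branch2' Y (Main2 Y Std12) chk12 ?_
  rw [cnd12]
  intro c hc
  simp only [List.mem_cons, List.not_mem_nil, or_false] at hc
  rcases hc with rfl
  · exact relabel2 Y (Main2 Y Std12) [0, 1, 2, 3, 4, 5, 6, 7, 8, 9, 10, 11] rel12_0 (node13 Y)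

theorem node11 : Good2 Y (Main2 Y Std12) 12 K11 := by
  refine branch2' Y (Main2 Y Std12) chk11 ?_
  rw [cnd11]
  intro c hc
  simp only [List.mem_cons, List.not_mem_nil, or_false] at hc
  rcases hc with rfl
  · exact cmpl2 Y (Main2 Y Std12) (m := 3849) cm11_0 (relabel2 Y (Main2 Y Std12) [0, 1, 2, 3, 4, 5, 6, 7, 8, 9, 10, 11] rel11_0 (node12 Y))

theorem node10 : Good2 Y (Main2 Y Std12) 12 K10 := by
  refine branch2' Y (Main2 Y Std12) chk10 ?_
  rw [cnd10]
  intro c hc
  simp only [List.mem_cons, List.not_mem_nil, or_false] at hc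
  rcases hc with rfl
  · exact relabel2 Y (Main2 Y Std12) [0, 1, 2, 3, 4, 5, 6, 7, 8, 9, 10, 11] rel10_0 (node11 Y)

theorem node9 : Good2 Y (Main2 Y Std12) 12 K9 := by
  refine branch2' Y (Main2 Y Std12) chk9 ?_
  rw [cnd9]
  intro c hc
  simp only [List.mem_cons, List.not_mem_nil, or_false] at hc
  rcases hc with rfl
  · exact relabel2 Y (Main2 Y Std12) [0, 1, 2, 3, 4, 5, 6, 7, 8, 9, 10, 11] rel9_0 (node10 Y)

theorem node8 : Good2 Y (Main2 Y Std12) 12 K8 := by
  refine branch2' Y (Main2 Y Std12) chk8 ?_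
  rw [cnd8]
  intro c hc
  simp only [List.mem_cons, List.not_mem_nil, or_false] at hc
  rcases hc with rfl
  · exact relabel2 Y (Main2 Y Std12) [0, 1, 2, 3, 4, 5, 6, 7, 8, 9, 10, 11] rel8_0 (node9 Y)

theorem node7 : Good2 Y (Main2 Y Std12) 11 K7 := by
  refine branch2' Y (Main2 Y Std12) chk7 ?_
  rw [cnd7]
  intro c hc
  simp only [List.mem_cons, List.not_mem_nil, or_false] at hc
  rcases hc with rfl
  · exact relabel2 Y (Main2 Y Std12) [0, 1, 2, 3, 4, 5, 6, 7, 8, 9, 10, 11] rel7_0 (node8 Y)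

theorem node6 : Good2 Y (Main2 Y Std12) 11 K6 := by
  refine branch2' Y (Main2 Y Std12) chk6 ?_
  rw [cnd6]
  intro c hc
  simp only [List.mem_cons, List.not_mem_nil, or_false] at hc
  rcases hc with rfl
  · exact relabel2 Y (Main2 Y Std12) [0, 1, 2, 3, 4, 5, 6, 7, 8, 9, 10] rel6_0 (node7 Y)

theorem node5 : Good2 Y (Main2 Y Std12) 10 K5 := by
  refine branch2' Y (Main2 Y Std12) chk5 ?_
  rw [cnd5]
  intro c hc
  simp only [List.mem_cons, List.not_mem_nil, or_false] at hc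
  rcases hc with rfl
  · exact relabel2 Y (Main2 Y Std12) [0, 1, 2, 3, 4, 5, 6, 7, 8, 9, 10] rel5_0 (node6 Y)

theorem node135 : Good2 Y (Main2 Y Std12) 12 K135 := by
  refine branch2' Y (Main2 Y Std12) chk135 ?_
  rw [cnd135]
  intro c hc
  simp only [List.mem_cons, List.not_mem_nil, or_false] at hc
  rcases hc with rfl | rfl
  · exact cmpl2 Y (Main2 Y Std12) (m := 250) cm135_0 (relabel2 Y (Main2 Y Std12) [1, 0, 2, 3, 4, 5, 6, 7, 8, 9] rel135_0 (node5 Y))
  · exact cmpl2 Y (Main2 Y Std12) (m := 2170) cm135_1 (relabel2 Y (Main2 Y Std12) [3, 0, 10, 6, 4, 5, 1, 11, 8, 9] rel135_1 (node5 Y))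

theorem node134 : Good2 Y (Main2 Y Std12) 12 K134 := by
  refine branch2' Y (Main2 Y Std12) chk134 ?_
  rw [cnd134]
  intro c hc
  simp only [List.mem_cons, List.not_mem_nil, or_false] at hc
  rcases hc with rfl
  · exact cmpl2 Y (Main2 Y Std12) (m := 3147) cm134_0 (relabel2 Y (Main2 Y Std12) [0, 1, 2, 3, 4, 5, 6, 7, 8, 9, 10, 11] rel134_0 (node135 Y))

theorem node133 : Good2 Y (Main2 Y Std12) 12 K133 := by
  refine branch2' Y (Main2 Y Std12) chk133 ?_
  rw [cnd133]
  intro c hc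
  simp only [List.mem_cons, List.not_mem_nil, or_false] at hc
  rcases hc with rfl
  · exact relabel2 Y (Main2 Y Std12) [0, 1, 2, 3, 4, 5, 6, 7, 8, 9, 10, 11] rel133_0 (node134 Y)

theorem node132 : Good2 Y (Main2 Y Std12) 12 K132 := by
  refine branch2' Y (Main2 Y Std12) chk132 ?_
  rw [cnd132]
  intro c hc
  simp only [List.mem_cons, List.not_mem_nil, or_false] at hc
  rcases hc with rfl
  · exact relabel2 Y (Main2 Y Std12) [0, 1, 2, 3, 4, 5, 6, 7, 8, 9, 10, 11] rel132_0 (node133 Y)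

theorem node131 : Good2 Y (Main2 Y Std12) 11 K131 := by
  refine branch2' Y (Main2 Y Std12) chk131 ?_
  rw [cnd131]
  intro c hc
  simp only [List.mem_cons, List.not_mem_nil, or_false] at hc
  rcases hc with rfl
  · exact relabel2 Y (Main2 Y Std12) [0, 1, 2, 3, 4, 5, 6, 7, 8, 9, 10, 11] rel131_0 (node132 Y)

theorem node4 : Good2 Y (Main2 Y Std12) 10 K4 := by
  refine branch2' Y (Main2 Y Std12) chk4 ?_
  rw [cnd4]
  intro c hc
  simp only [List.mem_cons, List.not_mem_nil, or_false] at hc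
  rcases hc with rfl | rfl
  · exact relabel2 Y (Main2 Y Std12) [0, 1, 2, 3, 4, 5, 6, 7, 8, 9] rel4_0 (node5 Y)
  · exact relabel2 Y (Main2 Y Std12) [0, 1, 2, 3, 4, 5, 6, 7, 8, 9, 10] rel4_1 (node131 Y)

theorem node3 : Good2 Y (Main2 Y Std12) 9 K3 := by
  refine branch2' Y (Main2 Y Std12) chk3 ?_
  rw [cnd3]
  intro c hc
  simp only [List.mem_cons, List.not_mem_nil, or_false] at hc
  rcases hc with rfl
  · exact relabel2 Y (Main2 Y Std12) [0, 1, 2, 3, 4, 5, 6, 7, 8, 9] rel3_0 (node4 Y)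

theorem node2 : Good2 Y (Main2 Y Std12) 8 K2 := by
  refine branch2' Y (Main2 Y Std12) chk2 ?_
  rw [cnd2]
  intro c hc
  simp only [List.mem_cons, List.not_mem_nil, or_false] at hc
  rcases hc with rfl
  · exact relabel2 Y (Main2 Y Std12) [0, 1, 2, 3, 4, 5, 6, 7, 8] rel2_0 (node3 Y)

theorem node1 : Good2 Y (Main2 Y Std12) 7 K1 := by
  refine branch2' Y (Main2 Y Std12) chk1 ?_
  rw [cnd1]
  intro c hc
  simp only [List.mem_cons, List.not_mem_nil, or_false] at hc
  rcases hc with rfl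
  · exact relabel2 Y (Main2 Y Std12) [0, 1, 2, 3, 4, 5, 6, 7] rel1_0 (node2 Y)

theorem node0 : Good2 Y (Main2 Y Std12) 6 K0 := addpt2 Y (Main2 Y Std12) (K := K0) (by decide +kernel) (node1 Y)

theorem main_thm : Main2 Y Std12 := start2 Y _ (by norm_num) (by norm_num) (by norm_num) (node0 Y)

end

end Cfsg.Agent.Lib.SteinerCert12
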