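import Cfsg.Agent.Lib.SteinerNums

/-!
# The graphs of `S(3,6,22)`
-/

set_option autoImplicit false
set_option linter.constructorNameAsVariable false
set_option linter.unusedSectionVars false

namespace Cfsg.Agent.Lib.SteinerGraph

open Cfsg Cfsg.Agent.Lib.SteinerBasic Cfsg.Agent.Lib.SteinerNums Finset

variable {α : Type*} [Fintype α] [DecidableEq α] {B : Set (Finset α)}

theorem lam1 (hα : Fintype.card α = 22) (hB : IsSteinerSystem 3 6 B) (p : α) :
    ((blocks B).filter (fun d => p ∈ d)).card = 21 := by
  have h := lam hB 1 21 10 (by norm_num) (by decide) (by rw [hα]; decide) (by norm_num) {p} (by simp)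
  simpa using h

theorem lam2 (hα : Fintype.card α = 22) (hB : IsSteinerSystem 3 6 B) {p q : α} (hpq : p ≠ q) :
    ((blocks B).filter (fun d => p ∈ d ∧ q ∈ d)).card = 5 := by
  have h := lam hB 2 5 4 (by norm_num) (by decide) (by rw [hα]; decide) (by norm_num) {p, q}
    (Finset.card_pair hpq)
  rw [← h]
  congr 1
  ext d
  simp [Finset.insert_subset_iff]

theorem lam0 (hα : Fintype.card α = 22) (hB : IsSteinerSystem 3 6 B) : (blocks B).card = 77 := by
  have h := lam hB 0 77 20 (by norm_num) (by decide) (by rw [hα]; decide) (by norm_num) ∅ (by simp)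
  simpa using h

theorem card_eq_sum (b d : Finset α) : (d ∩ b).card = ∑ p ∈ b, if p ∈ d then 1 else 0 := by
  rw [Finset.sum_boole, Nat.cast_id]
  congr 1
  ext x
  simp [and_comm]

theorem sum_u (hα : Fintype.card α = 22) (hB : IsSteinerSystem 3 6 B) (b : Finset α) :
    ∑ d ∈ blocks B, (d ∩ b).card = 21 * b.card := by
  simp only [card_eq_sum]
  rw [Finset.sum_comm]
  have : ∀ p ∈ b, ∑ d ∈ blocks B, (if p ∈ d then 1 else 0) = 21 := by
    intro p _
    rw [Finset.sum_boole, Nat.cast_id, lam1 hα hB p]
  rw [Finset.sum_congr rfl this, Finset.sum_const, smul_eq_mul, mul_comm]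

theorem sum_uv (hα : Fintype.card α = 22) (hB : IsSteinerSystem 3 6 B) (b c : Finset α) :
    ∑ d ∈ blocks B, (d ∩ b).card * (d ∩ c).card = 5 * (b.card * c.card) + 16 * (b ∩ c).card := by
  have h1 : ∀ d, (d ∩ b).card * (d ∩ c).card = ∑ p ∈ b, ∑ q ∈ c, if p ∈ d ∧ q ∈ d then 1 else 0 := by
    intro d
    rw [card_eq_sum b d, card_eq_sum c d, Finset.sum_mul_sum]
    refine Finset.sum_congr rfl fun p _ => Finset.sum_congr rfl fun q _ => ?_
    by_cases hp : p ∈ d <;> by_cases hq : q ∈ d <;> simp [hp, hq]
  simp only [h1]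
  rw [Finset.sum_comm]
  have h2 : ∀ p ∈ b, ∑ d ∈ blocks B, ∑ q ∈ c, (if p ∈ d ∧ q ∈ d then 1 else 0) =
      5 * c.card + (if p ∈ c then 16 else 0) := by
    intro p _
    rw [Finset.sum_comm]
    have h3 : ∀ q ∈ c, ∑ d ∈ blocks B, (if p ∈ d ∧ q ∈ d then 1 else 0) = 5 + (if p = q then 16 else 0) := by
      intro q _
      rw [Finset.sum_boole, Nat.cast_id]
      by_cases hpq : p = q
      · subst hpq
        simp only [and_self, if_true]
        rw [lam1 hα hB]
      · rw [if_neg hpq, lam2 hα hB hpq]
    rw [Finset.sum_congr rfl h3, Finset.sum_add_distrib, Finset.sum_const, smul_eq_mul, mul_comm]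
    congr 1
    by_cases hp : p ∈ c
    · rw [if_pos hp, Finset.sum_ite_eq c p]
      simp [hp]
    · rw [if_neg hp, Finset.sum_ite_eq c p]
      simp [hp]
  rw [Finset.sum_congr rfl h2, Finset.sum_add_distrib, Finset.sum_const, smul_eq_mul]
  congr 1
  · ring
  · rw [Finset.sum_ite_mem, Finset.sum_const, smul_eq_mul, mul_comm]

theorem inter_zero_or_two (hα : Fintype.card α = 22) (hB : IsSteinerSystem 3 6 B) {b c : Finset α}
    (hb : b ∈ B) (hc : c ∈ B) (hbc : b ≠ c) : (b ∩ c).card = 0 ∨ (b ∩ c).card = 2 :=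
  inter_3_6_22 hα hB hb hc hbc

/-- The number of blocks disjoint from two blocks. -/
theorem count_both (hα : Fintype.card α = 22) (hB : IsSteinerSystem 3 6 B) {b c : Finset α} (hb : b ∈ B)
    (hc : c ∈ B) (hbc : b ≠ c) :
    4 * ((blocks B).filter (fun d => Disjoint d b ∧ Disjoint d c)).card + 472 + 4 * (2 - (b ∩ c).card) =
      300 + (180 + 16 * (b ∩ c).card - 12 * (b ∩ c).card) := by
  have hbm := mem_blocks.mpr hb
  have hcm := mem_blocks.mpr hc
  have hb6 := hB.1 b hb
  have hc6 := hB.1 c hc
  set i := (b ∩ c).card with hi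
  have hi' := inter_zero_or_two hα hB hb hc hbc
  have hci : (c ∩ b).card = i := by rw [Finset.inter_comm]
  set D := ((blocks B).erase b).erase c with hD
  have hcD : c ∈ (blocks B).erase b := Finset.mem_erase.mpr ⟨hbc.symm, hcm⟩
  have hsplit : ∀ f : Finset α → ℕ, ∑ d ∈ blocks B, f d = f b + (f c + ∑ d ∈ D, f d) := by
    intro f
    rw [hD, Finset.add_sum_erase _ _ hcD, Finset.add_sum_erase _ _ hbm]
  have hDcard : D.card = 75 := by
    rw [hD, Finset.card_erase_of_mem hcD, Finset.card_erase_of_mem hbm, lam0 hα hB]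
  have hpt : ∀ d ∈ D, 4 * (if Disjoint d b ∧ Disjoint d c then 1 else 0) + 2 * (d ∩ b).card + 2 * (d ∩ c).card =
      4 + (d ∩ b).card * (d ∩ c).card := by
    intro d hd
    obtain ⟨h1, h2⟩ := Finset.mem_erase.mp hd
    obtain ⟨h3, h4⟩ := Finset.mem_erase.mp h2
    have hdB : d ∈ B := mem_blocks.mp h4
    have hu := inter_zero_or_two hα hB hdB hb h3
    have hv := inter_zero_or_two hα hB hdB hc h1
    have e1 : Disjoint d b ↔ (d ∩ b).card = 0 := by
      rw [Finset.card_eq_zero, Finset.disjoint_iff_inter_eq_empty]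
    have e2 : Disjoint d c ↔ (d ∩ c).card = 0 := by
      rw [Finset.card_eq_zero, Finset.disjoint_iff_inter_eq_empty]
    simp only [e1, e2]
    rcases hu with hu | hu <;> rcases hv with hv | hv <;> rw [hu, hv] <;> simp
  have hsum := Finset.sum_congr rfl hpt
  simp only [Finset.sum_add_distrib, Finset.sum_const, smul_eq_mul, ← Finset.mul_sum] at hsum
  have h1 := sum_u hα hB b
  have h2 := sum_u hα hB c
  have h3 := sum_uv hα hB b c
  rw [hsplit] at h1 h2 h3
  simp only [Finset.inter_self, hb6, hc6, hci, ← hi] at h1 h2 h3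
  have hfil : ((blocks B).filter (fun d => Disjoint d b ∧ Disjoint d c)).card =
      ∑ d ∈ D, (if Disjoint d b ∧ Disjoint d c then 1 else 0) := by
    rw [Finset.sum_boole, Nat.cast_id]
    congr 1
    ext d
    simp only [Finset.mem_filter, hD, Finset.mem_erase]
    constructor
    · rintro ⟨h5, h6, h7⟩
      refine ⟨⟨?_, ?_, h5⟩, h6, h7⟩
      · rintro rfl
        have : (d ∩ d).card = 0 := by
          rw [Finset.card_eq_zero, ← Finset.disjoint_iff_inter_eq_empty]
          exact h7
        simp [hc6] at this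
      · rintro rfl
        have : (d ∩ d).card = 0 := by
          rw [Finset.card_eq_zero, ← Finset.disjoint_iff_inter_eq_empty]
          exact h6
        simp [hb6] at this
    · rintro ⟨⟨_, _, h5⟩, h6, h7⟩
      exact ⟨h5, h6, h7⟩
  rw [hfil]
  rw [hDcard] at hsum
  generalize (∑ d ∈ D, (if Disjoint d b ∧ Disjoint d c then 1 else 0)) = N at hsum ⊢
  generalize (∑ d ∈ D, (d ∩ b).card) = su at hsum h1
  generalize (∑ d ∈ D, (d ∩ c).card) = sv at hsum h2
  generalize (∑ d ∈ D, (d ∩ b).card * (d ∩ c).card) = suv at hsum h3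
  omega

/-- Counting over the block type. -/
theorem card_filter_sub {B : Set (Finset α)} [Fintype B] (P : Finset α → Prop) [DecidablePred P] :
    (Finset.univ.filter (fun x : B => P x.1)).card = ((blocks B).filter P).card := by
  classical
  refine Finset.card_bij (fun x _ => x.1) ?_ ?_ ?_
  · intro x hx
    exact Finset.mem_filter.mpr ⟨mem_blocks.mpr x.2, (Finset.mem_filter.mp hx).2⟩
  · intro x _ y _ h
    exact Subtype.ext h
  · intro d hd
    obtain ⟨h1, h2⟩ := Finset.mem_filter.mp hd
    exact ⟨⟨d, mem_blocks.mp h1⟩, by simp [h2], rfl⟩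

theorem blockAdj (hB : IsSteinerSystem 3 6 B) (b c : B) :
    (blockGraph B).Adj b c ↔ Disjoint (b : Finset α) c := by
  simp only [blockGraph, SimpleGraph.fromRel_adj]
  constructor
  · rintro ⟨_, h | h⟩
    · exact h
    · exact h.symm
  · intro h
    refine ⟨?_, Or.inl h⟩
    rintro rfl
    have h6 := hB.1 _ b.2
    rw [disjoint_self] at h
    rw [show ((b : Finset α)) = ⊥ from h] at h6
    simp at h6

theorem disjoint_iff_card {b c : Finset α} : Disjoint b c ↔ (b ∩ c).card = 0 := by
  rw [Finset.card_eq_zero, Finset.disjoint_iff_inter_eq_empty]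

/-- The block graph. -/
theorem blockGraph_srg (hα : Fintype.card α = 22) (hB : IsSteinerSystem 3 6 B) [Fintype B]
    [DecidableRel (blockGraph B).Adj] : (blockGraph B).IsSRGWith 77 16 0 4 := by
  classical
  have hcommon : ∀ b c : B, ((blocks B).filter (fun d => Disjoint d b.1 ∧ Disjoint d c.1)).card =
      Fintype.card ((blockGraph B).commonNeighbors b c) := by
    intro b c
    rw [← card_filter_sub]
    symm
    apply Fintype.card_of_subtype
    intro x
    simp only [Finset.mem_filter, Finset.mem_univ, true_and, SimpleGraph.mem_commonNeighbors]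
    rw [blockAdj hB, blockAdj hB, disjoint_comm, @disjoint_comm _ _ _ c.1]
  refine ⟨?_, ?_, ?_, ?_⟩
  · rw [← lam0 hα hB]
    apply Fintype.card_of_subtype
    intro x
    exact mem_blocks
  · intro b
    rw [← SimpleGraph.card_neighborFinset_eq_degree, SimpleGraph.neighborFinset_eq_filter]
    have h := (stats_3_6_22 hα hB b.2).1
    rw [nI] at h
    rw [← h, ← card_filter_sub]
    congr 1
    ext x
    simp only [Finset.mem_filter, Finset.mem_univ, true_and]
    rw [blockAdj hB, disjoint_comm, disjoint_iff_card]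
  · intro b c hbc
    rw [← hcommon]
    have hd := (blockAdj hB b c).mp hbc
    have h := count_both hα hB b.2 c.2 (by
      intro h
      exact hbc.ne (Subtype.ext h))
    rw [disjoint_iff_card.mp hd] at h
    omega
  · intro b c hne hnadj
    rw [← hcommon]
    have hd : (b.1 ∩ c.1).card ≠ 0 := by
      intro h
      exact hnadj ((blockAdj hB b c).mpr (disjoint_iff_card.mpr h))
    have hne' : b.1 ≠ c.1 := fun h => hne (Subtype.ext h)
    have h := count_both hα hB b.2 c.2 hne'
    rcases inter_zero_or_two hα hB b.2 c.2 hne' with h0 | h2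
    · exact absurd h0 hd
    · rw [h2] at h
      omega

/-- Counting on `Option (α ⊕ B)`. -/
theorem count_opt [Fintype B] (P : Option (α ⊕ B) → Prop) [DecidablePred P] (A : Finset α)
    (C : Finset (Finset α)) (hC' : C ⊆ blocks B) (hA : ∀ a, P (some (Sum.inl a)) ↔ a ∈ A)
    (hC : ∀ b : B, P (some (Sum.inr b)) ↔ b.1 ∈ C) :
    (Finset.univ.filter P).card = (if P none then 1 else 0) + (A.card + C.card) := by
  classical
  rw [Finset.card_filter, Fintype.sum_option, Fintype.sum_sum_type]
  congr 2
  · rw [← Finset.card_filter]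
    congr 1
    ext a
    simp [hA]
  · rw [← Finset.card_filter]
    refine Finset.card_bij (fun x _ => x.1) ?_ ?_ ?_
    · intro x hx
      exact (hC x).mp (Finset.mem_filter.mp hx).2
    · intro x _ y _ h
      exact Subtype.ext h
    · intro d hd
      exact ⟨⟨d, mem_blocks.mp (hC' hd)⟩, by simp [hC, hd], rfl⟩

theorem pbAdj_none_inl (a : α) : (pointBlockGraph B).Adj none (some (Sum.inl a)) ↔ True := by
  simp [pointBlockGraph, pointBlockRel]

theorem pbAdj_none_none : (pointBlockGraph B).Adj none none ↔ False := by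
  simp [pointBlockGraph]

theorem pbAdj_none_inr (b : B) : (pointBlockGraph B).Adj none (some (Sum.inr b)) ↔ False := by
  simp [pointBlockGraph, pointBlockRel]

theorem pbAdj_inl_none (a : α) : (pointBlockGraph B).Adj (some (Sum.inl a)) none ↔ True := by
  simp [pointBlockGraph, pointBlockRel]

theorem pbAdj_inr_none (b : B) : (pointBlockGraph B).Adj (some (Sum.inr b)) none ↔ False := by
  simp [pointBlockGraph, pointBlockRel]

theorem pbAdj_inl_inl (a c : α) : (pointBlockGraph B).Adj (some (Sum.inl a)) (some (Sum.inl c)) ↔ False := by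
  simp [pointBlockGraph, pointBlockRel]

theorem pbAdj_inl_inr (a : α) (b : B) :
    (pointBlockGraph B).Adj (some (Sum.inl a)) (some (Sum.inr b)) ↔ a ∈ (b : Finset α) := by
  simp [pointBlockGraph, pointBlockRel]

theorem pbAdj_inr_inl (a : α) (b : B) :
    (pointBlockGraph B).Adj (some (Sum.inr b)) (some (Sum.inl a)) ↔ a ∈ (b : Finset α) := by
  simp [pointBlockGraph, pointBlockRel]

theorem pbAdj_inr_inr (hB : IsSteinerSystem 3 6 B) (b c : B) :
    (pointBlockGraph B).Adj (some (Sum.inr b)) (some (Sum.inr c)) ↔ Disjoint (b : Finset α) c := by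
  simp only [pointBlockGraph, SimpleGraph.fromRel_adj, pointBlockRel]
  constructor
  · rintro ⟨_, h | h⟩
    · exact h
    · exact h.symm
  · intro h
    refine ⟨?_, Or.inl h⟩
    intro he
    have hbc : b = c := by simpa using he
    subst hbc
    have h6 := hB.1 _ b.2
    rw [disjoint_self] at h
    rw [show ((b : Finset α)) = ⊥ from h] at h6
    simp at h6

theorem count_through_disjoint (hα : Fintype.card α = 22) (hB : IsSteinerSystem 3 6 B) {a : α} {b : Finset α}
    (hb : b ∈ B) (hab : a ∉ b) :
    ((blocks B).filter (fun c => a ∈ c ∧ Disjoint c b)).card = 6 := by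
  have h21 := lam1 hα hB a
  set T := (blocks B).filter (fun c => a ∈ c) with hT
  have h1 : ∑ c ∈ T, (c ∩ b).card = 30 := by
    simp only [card_eq_sum]
    rw [Finset.sum_comm]
    have : ∀ p ∈ b, ∑ c ∈ T, (if p ∈ c then 1 else 0) = 5 := by
      intro p hp
      rw [Finset.sum_boole, Nat.cast_id, hT, Finset.filter_filter]
      exact lam2 hα hB (fun h => hab (h ▸ hp))
    rw [Finset.sum_congr rfl this, Finset.sum_const, smul_eq_mul, hB.1 b hb]
  have h2 : ∀ c ∈ T, 2 * (if Disjoint c b then 1 else 0) + (c ∩ b).card = 2 := by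
    intro c hc
    obtain ⟨h3, h4⟩ := Finset.mem_filter.mp hc
    have hcb : c ≠ b := fun h => hab (h ▸ h4)
    rcases inter_zero_or_two hα hB (mem_blocks.mp h3) hb hcb with h | h
    · rw [if_pos (disjoint_iff_card.mpr h), h]
    · rw [if_neg (fun hd => by rw [disjoint_iff_card.mp hd] at h; omega), h]
  have h3 := Finset.sum_congr rfl h2
  simp only [Finset.sum_add_distrib, Finset.sum_const, smul_eq_mul, ← Finset.mul_sum] at h3
  rw [h1, h21] at h3
  rw [Finset.sum_boole, Nat.cast_id, hT, Finset.filter_filter] at h3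
  omega

theorem pb_common_card {V : Type*} [Fintype V] (G : SimpleGraph V) (v w : V) [Fintype (G.commonNeighbors v w)]
    [DecidablePred (fun x => G.Adj v x ∧ G.Adj w x)] :
    Fintype.card (G.commonNeighbors v w) = (Finset.univ.filter (fun x => G.Adj v x ∧ G.Adj w x)).card := by
  apply Fintype.card_of_subtype
  intro x
  simp [SimpleGraph.mem_commonNeighbors]

/-- The point-block graph. -/
theorem pointBlockGraph_srg (hα : Fintype.card α = 22) (hB : IsSteinerSystem 3 6 B) [Fintype B]
    [DecidableRel (pointBlockGraph B).Adj] : (pointBlockGraph B).IsSRGWith 100 22 0 6 := by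
  classical
  have hcardB : Fintype.card B = 77 := by
    rw [← lam0 hα hB]
    apply Fintype.card_of_subtype
    intro x
    exact mem_blocks
  have a1 := @pbAdj_none_inl α _ _ B
  have a2 := @pbAdj_none_none α _ _ B
  have a3 := @pbAdj_none_inr α _ _ B
  have a4 := @pbAdj_inl_none α _ _ B
  have a5 := @pbAdj_inr_none α _ _ B
  have a6 := @pbAdj_inl_inl α _ _ B
  have a7 := @pbAdj_inl_inr α _ _ B
  have a8 := @pbAdj_inr_inl α _ _ B
  have a9 := pbAdj_inr_inr hB
  have hfil : ∀ {Q : Finset α → Prop} [DecidablePred Q], (blocks B).filter Q ⊆ blocks B :=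
    fun {_} {_} => Finset.filter_subset _ _
  -- the five key counts
  have N1 : ∀ a : α, (Finset.univ.filter (fun x => (pointBlockGraph B).Adj none x ∧
      (pointBlockGraph B).Adj (some (Sum.inl a)) x)).card = 0 := by
    intro a
    rw [count_opt _ ∅ ∅ (by simp) (by intro p; simp [a1, a6]) (by intro c; simp [a3])]
    simp [a2]
  have N2 : ∀ b : B, (Finset.univ.filter (fun x => (pointBlockGraph B).Adj none x ∧
      (pointBlockGraph B).Adj (some (Sum.inr b)) x)).card = 6 := by
    intro b
    rw [count_opt _ b.1 ∅ (by simp) (by intro p; simp [a1, a8]) (by intro c; simp [a3])]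
    simp [a2, hB.1 _ b.2]
  have N3 : ∀ a a' : α, a ≠ a' → (Finset.univ.filter (fun x => (pointBlockGraph B).Adj (some (Sum.inl a)) x ∧
      (pointBlockGraph B).Adj (some (Sum.inl a')) x)).card = 6 := by
    intro a a' haa
    rw [count_opt _ ∅ ((blocks B).filter (fun d => a ∈ d ∧ a' ∈ d)) hfil (by intro p; simp [a6])
      (by intro c; simp [a7, mem_blocks.mpr c.2])]
    rw [lam2 hα hB haa]
    simp [a4]
  have N4 : ∀ (a : α) (b : B), a ∉ b.1 → (Finset.univ.filter (fun x => (pointBlockGraph B).Adj (some (Sum.inl a)) x ∧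
      (pointBlockGraph B).Adj (some (Sum.inr b)) x)).card = 6 := by
    intro a b hab
    rw [count_opt _ ∅ ((blocks B).filter (fun c => a ∈ c ∧ Disjoint c b.1)) hfil (by intro p; simp [a6])
      (by intro c; simp [a7, a9, mem_blocks.mpr c.2, disjoint_comm])]
    rw [count_through_disjoint hα hB b.2 hab]
    simp [a4, a5]
  have N4' : ∀ (a : α) (b : B), a ∈ b.1 → (Finset.univ.filter (fun x => (pointBlockGraph B).Adj (some (Sum.inl a)) x ∧
      (pointBlockGraph B).Adj (some (Sum.inr b)) x)).card = 0 := by
    intro a b hab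
    rw [count_opt _ ∅ ∅ (by simp) (by intro p; simp [a6]) ?_]
    · simp [a5]
    · intro c
      simp only [a7, a9, Finset.notMem_empty, iff_false, not_and]
      intro h1 h2
      exact (Finset.disjoint_left.mp h2 hab) h1
  have N5 : ∀ b c : B, b ≠ c → (Finset.univ.filter (fun x => (pointBlockGraph B).Adj (some (Sum.inr b)) x ∧
      (pointBlockGraph B).Adj (some (Sum.inr c)) x)).card = if Disjoint b.1 c.1 then 0 else 6 := by
    intro b c hbc
    have hbc' : b.1 ≠ c.1 := fun h => hbc (Subtype.ext h)
    rw [count_opt _ (b.1 ∩ c.1) ((blocks B).filter (fun d => Disjoint d b.1 ∧ Disjoint d c.1)) hfil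
      (by intro p; simp [a8])
      (by intro d; simp [a9, mem_blocks.mpr d.2, disjoint_comm])]
    have h := count_both hα hB b.2 c.2 hbc'
    simp only [a5, and_self, if_false]
    rcases inter_zero_or_two hα hB b.2 c.2 hbc' with h0 | h2
    · rw [if_pos (disjoint_iff_card.mpr h0), h0]
      rw [h0] at h
      omega
    · rw [if_neg (fun hd => by rw [disjoint_iff_card.mp hd] at h2; omega), h2]
      rw [h2] at h
      omega
  have Ncomm : ∀ v w : Option (α ⊕ B), (Finset.univ.filter (fun x => (pointBlockGraph B).Adj v x ∧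
      (pointBlockGraph B).Adj w x)).card = (Finset.univ.filter (fun x => (pointBlockGraph B).Adj w x ∧
      (pointBlockGraph B).Adj v x)).card := by
    intro v w
    congr 1
    ext x
    simp [and_comm]
  refine ⟨?_, ?_, ?_, ?_⟩
  · simp [Fintype.card_option, Fintype.card_sum, hα, hcardB]
  · intro v
    rw [← SimpleGraph.card_neighborFinset_eq_degree, SimpleGraph.neighborFinset_eq_filter]
    rcases v with _ | a | b
    · rw [count_opt _ Finset.univ ∅ (by simp) (by intro p; simp [a1]) (by intro c; simp [a3])]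
      simp [a2, hα]
    · rw [count_opt _ ∅ ((blocks B).filter (fun c => a ∈ c)) hfil (by intro p; simp [a6])
        (by intro c; simp [a7, mem_blocks.mpr c.2])]
      rw [lam1 hα hB a]
      simp [a4]
    · rw [count_opt _ b.1 ((blocks B).filter (fun c => (c ∩ b.1).card = 0)) hfil (by intro p; simp [a8])
        (by
          intro c
          simp only [a9, Finset.mem_filter, mem_blocks.mpr c.2, true_and]
          rw [disjoint_comm, disjoint_iff_card])]
      have h6 := (stats_3_6_22 hα hB b.2).1
      rw [nI] at h6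
      rw [h6, hB.1 _ b.2]
      simp [a5]
  · intro v w hvw
    rw [pb_common_card]
    rcases v with _ | a | b <;> rcases w with _ | a' | b'
    · exact absurd hvw (by simp [a2])
    · exact N1 a'
    · exact absurd hvw (by simp [a3])
    · rw [Ncomm]
      exact N1 a
    · exact absurd hvw (by simp [a6])
    · exact N4' a b' ((a7 a b').mp hvw)
    · exact absurd hvw (by simp [a5])
    · rw [Ncomm]
      exact N4' a' b ((a8 a' b).mp hvw)
    · rw [N5 b b' (by rintro rfl; exact hvw.ne rfl), if_pos ((a9 b b').mp hvw)]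
  · intro v w hne hvw
    rw [pb_common_card]
    rcases v with _ | a | b <;> rcases w with _ | a' | b'
    · exact absurd rfl hne
    · exact absurd (by simp [a1]) hvw
    · exact N2 b'
    · exact absurd (by simp [a4]) hvw
    · exact N3 a a' (by rintro rfl; exact hne rfl)
    · exact N4 a b' (fun h => hvw ((a7 a b').mpr h))
    · rw [Ncomm]
      exact N2 b
    · rw [Ncomm]
      exact N4 a' b (fun h => hvw ((a8 a' b).mpr h))
    · rw [N5 b b' (by rintro rfl; exact hne rfl), if_neg (fun h => hvw ((a9 b b').mpr h))]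

end Cfsg.Agent.Lib.SteinerGraph
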