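import Cfsg.Agent.Lib.SteinerLift

/-!
# Isomorphism of two lifted systems through the standard family
-/

set_option autoImplicit false
set_option linter.constructorNameAsVariable false

namespace Cfsg.Agent.Lib.SteinerIso

open Cfsg Cfsg.Agent.Lib.GolayCode Cfsg.Agent.Lib.GolayFacts Cfsg.Agent.Lib.GolayFast
  Cfsg.Agent.Lib.GolayFastData Cfsg.Agent.Lib.GolaySets Cfsg.Agent.Lib.SteinerSearch
  Cfsg.Agent.Lib.SteinerBasic Cfsg.Agent.Lib.SteinerNums Cfsg.Agent.Lib.SteinerLift Finset

section iso

variable {α β : Type*} [Fintype α] [DecidableEq α] [Fintype β] [DecidableEq β] {z : ℕ}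

/-- A bijection of the lifted point sets preserving the extra part restricts to the original points. -/
theorem iso_of_equiv {B : Set (Finset α)} {B' : Set (Finset β)} (ε : α ⊕ Fin z ≃ β ⊕ Fin z)
    (hε : ∀ j, ∃ j', ε (Sum.inr j) = Sum.inr j')
    (hfam : (fun s : Finset (α ⊕ Fin z) => s.image ε) '' (liftB z '' B) = liftB z '' B') :
    SetSystemIso B B' := by
  -- the extra part maps onto the extra part
  have hfin : ∀ j', ∃ j, ε (Sum.inr j) = Sum.inr j' := by
    choose σ hσ using hε
    have hinj : Function.Injective σ := by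
      intro a b hab
      have : ε (Sum.inr a) = ε (Sum.inr b) := by rw [hσ, hσ, hab]
      exact Sum.inr_injective (ε.injective this)
    have hsurj : Function.Surjective σ := Finite.surjective_of_injective hinj
    intro j'
    obtain ⟨j, rfl⟩ := hsurj j'
    exact ⟨j, hσ j⟩
  have hL : ∀ a : α, ∃ b : β, ε (Sum.inl a) = Sum.inl b := by
    intro a
    rcases h : ε (Sum.inl a) with b | j'
    · exact ⟨b, rfl⟩
    · exfalso
      obtain ⟨j, hj⟩ := hfin j'
      have := ε.injective (h.trans hj.symm)
      exact absurd this (by simp)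
  have hR : ∀ b : β, ∃ a : α, ε (Sum.inl a) = Sum.inl b := by
    intro b
    rcases h : ε.symm (Sum.inl b) with a | j
    · exact ⟨a, by rw [← h]; simp⟩
    · exfalso
      obtain ⟨j', hj'⟩ := hε j
      have h2 : ε (ε.symm (Sum.inl b)) = Sum.inr j' := by rw [h, hj']
      rw [Equiv.apply_symm_apply] at h2
      exact absurd h2 (by simp)
  choose φ hφ using hL
  have hφinj : Function.Injective φ := by
    intro a b hab
    have : ε (Sum.inl a) = ε (Sum.inl b) := by rw [hφ, hφ, hab]
    exact Sum.inl_injective (ε.injective this)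
  have hφsurj : Function.Surjective φ := by
    intro b
    obtain ⟨a, ha⟩ := hR b
    refine ⟨a, ?_⟩
    have := (hφ a).symm.trans ha
    exact Sum.inl_injective this
  let e : α ≃ β := Equiv.ofBijective φ ⟨hφinj, hφsurj⟩
  have hcase : ∀ b : Finset α, (liftB z b).image ε = liftB z (b.image e) := by
    intro b
    ext x
    rcases x with y | j
    · simp only [Finset.mem_image, liftB, Finset.inl_mem_disjSum]
      constructor
      · rintro ⟨u, hu, hy⟩
        rcases u with a | j
        · refine ⟨a, Finset.inl_mem_disjSum.mp hu, ?_⟩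
          rw [hφ a] at hy
          exact Sum.inl_injective hy
        · obtain ⟨j', hj'⟩ := hε j
          rw [hj'] at hy
          exact absurd hy (by simp)
      · rintro ⟨a, ha, rfl⟩
        exact ⟨Sum.inl a, Finset.inl_mem_disjSum.mpr ha, hφ a⟩
    · simp only [Finset.mem_image, liftB, Finset.inr_mem_disjSum, Finset.mem_univ, iff_true]
      obtain ⟨j0, hj0⟩ := hfin j
      exact ⟨Sum.inr j0, Finset.inr_mem_disjSum.mpr (Finset.mem_univ _), hj0⟩
  refine ⟨e, ?_⟩
  ext c
  constructor
  · rintro ⟨b, hb, rfl⟩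
    have h1 : liftB z (b.image e) ∈ liftB z '' B' := by
      rw [← hfam, ← hcase]
      exact ⟨_, ⟨b, hb, rfl⟩, rfl⟩
    obtain ⟨c, hc, hce⟩ := h1
    show b.image e ∈ B'
    rw [← liftB_inj hce]
    exact hc
  · intro hc
    have h1 : liftB z c ∈ liftB z '' B' := ⟨c, hc, rfl⟩
    rw [← hfam] at h1
    obtain ⟨_, ⟨b, hb, rfl⟩, he⟩ := h1
    refine ⟨b, hb, ?_⟩
    have he' : (liftB z b).image ε = liftB z c := he
    rw [hcase] at he'
    exact liftB_inj he'

/-- The two labelings found give an isomorphism. -/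
theorem iso_of_mains (hz : z ≤ 24) {B : Set (Finset α)} {B' : Set (Finset β)}
    (eα : GolayPt ≃ α ⊕ Fin z) (eβ : GolayPt ≃ β ⊕ Fin z)
    (h1 : (fun o : Finset GolayPt => o.image eα) '' stdSet z = liftB z '' B)
    (h2 : (fun o : Finset GolayPt => o.image eβ) '' stdSet z = liftB z '' B')
    (h3 : (Finset.range z).image (fun i => eα (idxPt i)) = (∅ : Finset α).disjSum Finset.univ)
    (h4 : (Finset.range z).image (fun i => eβ (idxPt i)) = (∅ : Finset β).disjSum Finset.univ) :
    SetSystemIso B B' := by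
  refine iso_of_equiv (eα.symm.trans eβ) ?_ ?_
  · intro j
    have hj : Sum.inr j ∈ (∅ : Finset α).disjSum (Finset.univ : Finset (Fin z)) :=
      Finset.inr_mem_disjSum.mpr (Finset.mem_univ _)
    rw [← h3] at hj
    obtain ⟨i, hi, he⟩ := Finset.mem_image.mp hj
    have hi' : eβ (idxPt i) ∈ (Finset.range z).image (fun i => eβ (idxPt i)) :=
      Finset.mem_image.mpr ⟨i, hi, rfl⟩
    rw [h4] at hi'
    rcases h5 : eβ (idxPt i) with b | j'
    · rw [h5] at hi'
      simp at hi'
    · refine ⟨j', ?_⟩
      rw [Equiv.trans_apply, ← he, Equiv.symm_apply_apply, h5]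
  · rw [← h1, ← h2]
    ext s
    simp only [Set.mem_image]
    constructor
    · rintro ⟨_, ⟨o, ho, rfl⟩, rfl⟩
      refine ⟨o, ho, ?_⟩
      ext x
      simp
    · rintro ⟨o, ho, rfl⟩
      refine ⟨_, ⟨o, ho, rfl⟩, ?_⟩
      ext x
      simp

end iso

section counts

variable {α : Type*} [Fintype α] [DecidableEq α] {t k : ℕ} {B : Set (Finset α)}

/-- Counting intersections with a fixed small set. -/
theorem eqnX (X : Finset α) (j l : ℕ)
    (hl : ∀ J : Finset α, J.card = j → ((blocks B).filter (J ⊆ ·)).card = l) :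
    ∑ i ∈ Finset.range (X.card + 1), ((blocks B).filter (fun c => (c ∩ X).card = i)).card * Nat.choose i j
      = Nat.choose X.card j * l := by
  rw [← mendelsohn X j l hl, sum_fiber_inter X j (X.card + 1)]
  intro c _
  exact Nat.lt_succ_of_le (Finset.card_le_card Finset.inter_subset_right)

theorem empty_of_even {X : Finset α} {i : ℕ} (h : ∀ b ∈ B, (X ∩ b).card ≠ i) :
    ((blocks B).filter (fun c => (c ∩ X).card = i)).card = 0 := by
  rw [Finset.card_eq_zero, Finset.filter_eq_empty_iff]
  intro c hc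
  rw [Finset.inter_comm]
  exact h c (mem_blocks.mp hc)

theorem odd4 {w : Finset α} (hw : w.card = 4) (l1 l2 l3 : ℕ)
    (h1 : ∀ J : Finset α, J.card = 1 → ((blocks B).filter (J ⊆ ·)).card = l1)
    (h2 : ∀ J : Finset α, J.card = 2 → ((blocks B).filter (J ⊆ ·)).card = l2)
    (h3 : ∀ J : Finset α, J.card = 3 → ((blocks B).filter (J ⊆ ·)).card = l3)
    (hne : 12 * l2 ≠ 8 * l3 + 4 * l1) : ∃ b ∈ B, ¬ Even ((w ∩ b).card + 0) := by
  by_contra hall
  push Not at hall
  have e1 := eqnX (B := B) w 1 l1 h1
  have e2 := eqnX (B := B) w 2 l2 h2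
  have e3 := eqnX (B := B) w 3 l3 h3
  have a1 := empty_of_even (B := B) (X := w) (i := 1) (fun b hb h => by
    have := hall b hb
    rw [h] at this
    exact absurd this (by decide))
  have a3 := empty_of_even (B := B) (X := w) (i := 3) (fun b hb h => by
    have := hall b hb
    rw [h] at this
    exact absurd this (by decide))
  rw [hw] at e1 e2 e3
  simp only [Finset.sum_range_succ, Finset.sum_range_zero, a1, a3] at e1 e2 e3
  norm_num [Nat.choose] at e1 e2 e3
  omega

theorem odd3 {w : Finset α} (hw : w.card = 3) (l2 l3 : ℕ)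
    (h2 : ∀ J : Finset α, J.card = 2 → ((blocks B).filter (J ⊆ ·)).card = l2)
    (h3 : ∀ J : Finset α, J.card = 3 → ((blocks B).filter (J ⊆ ·)).card = l3)
    (hne : l2 ≠ l3) : ∃ b ∈ B, ¬ Even ((w ∩ b).card + 1) := by
  by_contra hall
  push Not at hall
  have e2 := eqnX (B := B) w 2 l2 h2
  have e3 := eqnX (B := B) w 3 l3 h3
  have a2 := empty_of_even (B := B) (X := w) (i := 2) (fun b hb h => by
    have := hall b hb
    rw [h] at this
    exact absurd this (by decide))
  rw [hw] at e2 e3
  simp only [Finset.sum_range_succ, Finset.sum_range_zero, a2] at e2 e3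
  norm_num [Nat.choose] at e2 e3
  omega

theorem odd2 {w : Finset α} (hw : w.card = 2) (l1 l2 : ℕ)
    (h1 : ∀ J : Finset α, J.card = 1 → ((blocks B).filter (J ⊆ ·)).card = l1)
    (h2 : ∀ J : Finset α, J.card = 2 → ((blocks B).filter (J ⊆ ·)).card = l2)
    (hne : l1 ≠ l2) : ∃ b ∈ B, ¬ Even ((w ∩ b).card + 2) := by
  by_contra hall
  push Not at hall
  have e1 := eqnX (B := B) w 1 l1 h1
  have e2 := eqnX (B := B) w 2 l2 h2
  have a1 := empty_of_even (B := B) (X := w) (i := 1) (fun b hb h => by
    have := hall b hb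
    rw [h] at this
    exact absurd this (by decide))
  rw [hw] at e1 e2
  simp only [Finset.sum_range_succ, Finset.sum_range_zero, a1] at e1 e2
  norm_num [Nat.choose] at e1 e2
  omega

end counts

end Cfsg.Agent.Lib.SteinerIso
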