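import Cfsg.Agent.Lib.SteinerBasic

/-!
# Intersection numbers of the small Steiner systems
-/

set_option autoImplicit false

namespace Cfsg.Agent.Lib.SteinerNums

open Cfsg Finset Cfsg.Agent.Lib.SteinerBasic

variable {α : Type*} [Fintype α] [DecidableEq α] {t k : ℕ} {B : Set (Finset α)}

/-- Number of blocks meeting `b` in `i` points. -/
noncomputable def nI (B : Set (Finset α)) (b : Finset α) (i : ℕ) : ℕ :=
  ((blocks B).filter (fun c => (c ∩ b).card = i)).card

/-- The equation for `j`. -/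
theorem eqn (hB : IsSteinerSystem t k B) {b : Finset α} (hb : b ∈ B) (j l : ℕ)
    (hl : ∀ J : Finset α, J.card = j → ((blocks B).filter (J ⊆ ·)).card = l) :
    ∑ i ∈ Finset.range (k + 1), nI B b i * Nat.choose i j = Nat.choose k j * l := by
  have h1 := mendelsohn (B := B) b j l hl
  rw [sum_fiber_inter b j (k + 1) (fun c hc => inter_lt_succ hB c hc hb), hB.1 b hb] at h1
  exact h1

/-- Lambda for the given numbers. -/
theorem lam (hB : IsSteinerSystem t k B) (j a c : ℕ) (hj : j ≤ t) (hc : Nat.choose (k - j) (t - j) = c)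
    (ha : Nat.choose (Fintype.card α - j) (t - j) = a * c) (hc0 : 0 < c) (J : Finset α) (hJ : J.card = j) :
    ((blocks B).filter (J ⊆ ·)).card = a := by
  have h := lambda_eq hB J (by omega)
  rw [hJ, hc, ha] at h
  exact Nat.eq_of_mul_eq_mul_right hc0 h

/-- Values for S(5,8,24). -/
theorem stats_5_8_24 (hα : Fintype.card α = 24) (hB : IsSteinerSystem 5 8 B) {b : Finset α} (hb : b ∈ B) :
    nI B b 0 = 30 ∧ nI B b 1 = 0 ∧ nI B b 2 = 448 ∧ nI B b 3 = 0 ∧ nI B b 4 = 280 := by
  have l0 := eqn hB hb 0 759 (lam hB 0 759 56 (by norm_num) (by decide) (by rw [hα]; decide) (by norm_num))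
  have l1 := eqn hB hb 1 253 (lam hB 1 253 35 (by norm_num) (by decide) (by rw [hα]; decide) (by norm_num))
  have l2 := eqn hB hb 2 77 (lam hB 2 77 20 (by norm_num) (by decide) (by rw [hα]; decide) (by norm_num))
  have l3 := eqn hB hb 3 21 (lam hB 3 21 10 (by norm_num) (by decide) (by rw [hα]; decide) (by norm_num))
  have l4 := eqn hB hb 4 5 (lam hB 4 5 4 (by norm_num) (by decide) (by rw [hα]; decide) (by norm_num))
  have h5 : nI B b 5 = 0 := count_zero_of hB hb (by norm_num) 5 (by norm_num) (by norm_num)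
  have h6 : nI B b 6 = 0 := count_zero_of hB hb (by norm_num) 6 (by norm_num) (by norm_num)
  have h7 : nI B b 7 = 0 := count_zero_of hB hb (by norm_num) 7 (by norm_num) (by norm_num)
  have h8 : nI B b 8 = 1 := count_self hB hb 8 rfl
  simp only [Finset.sum_range_succ, Finset.sum_range_zero, h5, h6, h7, h8] at l0 l1 l2 l3 l4
  norm_num [Nat.choose] at l0 l1 l2 l3 l4
  omega

/-- Values for S(4,7,23). -/
theorem stats_4_7_23 (hα : Fintype.card α = 23) (hB : IsSteinerSystem 4 7 B) {b : Finset α} (hb : b ∈ B) :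
    nI B b 0 = 0 ∧ nI B b 1 = 112 ∧ nI B b 2 = 0 ∧ nI B b 3 = 140 := by
  have l0 := eqn hB hb 0 253 (lam hB 0 253 35 (by norm_num) (by decide) (by rw [hα]; decide) (by norm_num))
  have l1 := eqn hB hb 1 77 (lam hB 1 77 20 (by norm_num) (by decide) (by rw [hα]; decide) (by norm_num))
  have l2 := eqn hB hb 2 21 (lam hB 2 21 10 (by norm_num) (by decide) (by rw [hα]; decide) (by norm_num))
  have l3 := eqn hB hb 3 5 (lam hB 3 5 4 (by norm_num) (by decide) (by rw [hα]; decide) (by norm_num))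
  have h4 : nI B b 4 = 0 := count_zero_of hB hb (by norm_num) 4 (by norm_num) (by norm_num)
  have h5 : nI B b 5 = 0 := count_zero_of hB hb (by norm_num) 5 (by norm_num) (by norm_num)
  have h6 : nI B b 6 = 0 := count_zero_of hB hb (by norm_num) 6 (by norm_num) (by norm_num)
  have h7 : nI B b 7 = 1 := count_self hB hb 7 rfl
  simp only [Finset.sum_range_succ, Finset.sum_range_zero, h4, h5, h6, h7] at l0 l1 l2 l3
  norm_num [Nat.choose] at l0 l1 l2 l3
  omega

/-- Values for S(3,6,22). -/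
theorem stats_3_6_22 (hα : Fintype.card α = 22) (hB : IsSteinerSystem 3 6 B) {b : Finset α} (hb : b ∈ B) :
    nI B b 0 = 16 ∧ nI B b 1 = 0 ∧ nI B b 2 = 60 := by
  have l0 := eqn hB hb 0 77 (lam hB 0 77 20 (by norm_num) (by decide) (by rw [hα]; decide) (by norm_num))
  have l1 := eqn hB hb 1 21 (lam hB 1 21 10 (by norm_num) (by decide) (by rw [hα]; decide) (by norm_num))
  have l2 := eqn hB hb 2 5 (lam hB 2 5 4 (by norm_num) (by decide) (by rw [hα]; decide) (by norm_num))
  have h3 : nI B b 3 = 0 := count_zero_of hB hb (by norm_num) 3 (by norm_num) (by norm_num)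
  have h4 : nI B b 4 = 0 := count_zero_of hB hb (by norm_num) 4 (by norm_num) (by norm_num)
  have h5 : nI B b 5 = 0 := count_zero_of hB hb (by norm_num) 5 (by norm_num) (by norm_num)
  have h6 : nI B b 6 = 1 := count_self hB hb 6 rfl
  simp only [Finset.sum_range_succ, Finset.sum_range_zero, h3, h4, h5, h6] at l0 l1 l2
  norm_num [Nat.choose] at l0 l1 l2
  omega

/-- Values for S(5,6,12). -/
theorem stats_5_6_12 (hα : Fintype.card α = 12) (hB : IsSteinerSystem 5 6 B) {b : Finset α} (hb : b ∈ B) :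
    nI B b 0 = 1 ∧ nI B b 1 = 0 ∧ nI B b 2 = 45 ∧ nI B b 3 = 40 ∧ nI B b 4 = 45 := by
  have l0 := eqn hB hb 0 132 (lam hB 0 132 6 (by norm_num) (by decide) (by rw [hα]; decide) (by norm_num))
  have l1 := eqn hB hb 1 66 (lam hB 1 66 5 (by norm_num) (by decide) (by rw [hα]; decide) (by norm_num))
  have l2 := eqn hB hb 2 30 (lam hB 2 30 4 (by norm_num) (by decide) (by rw [hα]; decide) (by norm_num))
  have l3 := eqn hB hb 3 12 (lam hB 3 12 3 (by norm_num) (by decide) (by rw [hα]; decide) (by norm_num))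
  have l4 := eqn hB hb 4 4 (lam hB 4 4 2 (by norm_num) (by decide) (by rw [hα]; decide) (by norm_num))
  have h5 : nI B b 5 = 0 := count_zero_of hB hb (by norm_num) 5 (by norm_num) (by norm_num)
  have h6 : nI B b 6 = 1 := count_self hB hb 6 rfl
  simp only [Finset.sum_range_succ, Finset.sum_range_zero, h5, h6] at l0 l1 l2 l3 l4
  norm_num [Nat.choose] at l0 l1 l2 l3 l4
  omega

/-- Values for S(4,5,11). -/
theorem stats_4_5_11 (hα : Fintype.card α = 11) (hB : IsSteinerSystem 4 5 B) {b : Finset α} (hb : b ∈ B) :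
    nI B b 0 = 0 ∧ nI B b 1 = 15 ∧ nI B b 2 = 20 ∧ nI B b 3 = 30 := by
  have l0 := eqn hB hb 0 66 (lam hB 0 66 5 (by norm_num) (by decide) (by rw [hα]; decide) (by norm_num))
  have l1 := eqn hB hb 1 30 (lam hB 1 30 4 (by norm_num) (by decide) (by rw [hα]; decide) (by norm_num))
  have l2 := eqn hB hb 2 12 (lam hB 2 12 3 (by norm_num) (by decide) (by rw [hα]; decide) (by norm_num))
  have l3 := eqn hB hb 3 4 (lam hB 3 4 2 (by norm_num) (by decide) (by rw [hα]; decide) (by norm_num))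
  have h4 : nI B b 4 = 0 := count_zero_of hB hb (by norm_num) 4 (by norm_num) (by norm_num)
  have h5 : nI B b 5 = 1 := count_self hB hb 5 rfl
  simp only [Finset.sum_range_succ, Finset.sum_range_zero, h4, h5] at l0 l1 l2 l3
  norm_num [Nat.choose] at l0 l1 l2 l3
  omega

/-- A block with intersection `i`, in a class that is empty, does not exist. -/
theorem inter_ne {b c : Finset α} (hc : c ∈ B) {i : ℕ} (h : nI B b i = 0) : (c ∩ b).card ≠ i := by
  intro h1
  have h2 : c ∈ (blocks B).filter (fun c => (c ∩ b).card = i) :=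
    Finset.mem_filter.mpr ⟨mem_blocks.mpr hc, h1⟩
  rw [nI, Finset.card_eq_zero] at h
  rw [h] at h2
  simp at h2

theorem inter_5_8_24 (hα : Fintype.card α = 24) (hB : IsSteinerSystem 5 8 B) {b c : Finset α} (hb : b ∈ B)
    (hc : c ∈ B) (hbc : b ≠ c) : (b ∩ c).card = 0 ∨ (b ∩ c).card = 2 ∨ (b ∩ c).card = 4 := by
  obtain ⟨_, h1, _, h3, _⟩ := stats_5_8_24 hα hB hb
  have e1 := inter_ne hc h1
  have e3 := inter_ne hc h3
  rw [Finset.inter_comm] at e1 e3
  have h4 := inter_lt hB hb hc hbc (by norm_num)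
  omega

theorem disjoint_count (hα : Fintype.card α = 24) (hB : IsSteinerSystem 5 8 B) {b : Finset α} (hb : b ∈ B) :
    {c : Finset α | c ∈ B ∧ Disjoint b c}.ncard = 30 := by
  obtain ⟨h0, _⟩ := stats_5_8_24 hα hB hb
  rw [← h0, nI, ← Set.ncard_coe_finset]
  congr 1
  ext c
  simp only [Set.mem_ofPred_eq, Finset.coe_filter, mem_blocks, Finset.card_eq_zero]
  rw [Finset.disjoint_iff_inter_eq_empty, Finset.inter_comm]

theorem inter_4_7_23 (hα : Fintype.card α = 23) (hB : IsSteinerSystem 4 7 B) {b c : Finset α} (hb : b ∈ B)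
    (hc : c ∈ B) (hbc : b ≠ c) : (b ∩ c).card = 1 ∨ (b ∩ c).card = 3 := by
  obtain ⟨h0, _, h2, _⟩ := stats_4_7_23 hα hB hb
  have e0 := inter_ne hc h0
  have e2 := inter_ne hc h2
  rw [Finset.inter_comm] at e0 e2
  have h4 := inter_lt hB hb hc hbc (by norm_num)
  omega

theorem inter_3_6_22 (hα : Fintype.card α = 22) (hB : IsSteinerSystem 3 6 B) {b c : Finset α} (hb : b ∈ B)
    (hc : c ∈ B) (hbc : b ≠ c) : (b ∩ c).card = 0 ∨ (b ∩ c).card = 2 := by
  obtain ⟨_, h1, _⟩ := stats_3_6_22 hα hB hb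
  have e1 := inter_ne hc h1
  rw [Finset.inter_comm] at e1
  have h4 := inter_lt hB hb hc hbc (by norm_num)
  omega

/-- The complement of a block of an S(5,6,12) is a block. -/
theorem compl_5_6_12 (hα : Fintype.card α = 12) (hB : IsSteinerSystem 5 6 B) {b : Finset α} (hb : b ∈ B) :
    bᶜ ∈ B := by
  obtain ⟨_, h1, _⟩ := stats_5_6_12 hα hB hb
  have hbc : bᶜ.card = 6 := by
    rw [Finset.card_compl, hα, hB.1 b hb]
  obtain ⟨s, hs1, hs2⟩ := Finset.exists_subset_card_eq (show 5 ≤ bᶜ.card by omega)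
  obtain ⟨d, ⟨hd1, hd2⟩, _⟩ := hB.2 s hs2
  have hdc : d.card = 6 := hB.1 d hd1
  -- `d` has at most one point in `b`
  have h2 : (d ∩ b).card ≠ 1 := inter_ne hd1 h1
  have h3 : (d ∩ bᶜ).card + (d ∩ b).card = 6 := by
    rw [← hdc, add_comm]
    have := Finset.card_inter_add_card_sdiff d b
    rw [Finset.sdiff_eq_inter_compl] at this
    exact this
  have h4 : 5 ≤ (d ∩ bᶜ).card := by
    rw [← hs2]
    exact Finset.card_le_card (Finset.subset_inter hd2 hs1)
  have h5 : (d ∩ bᶜ).card = 6 := by omega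
  have h6 : d ∩ bᶜ = d := Finset.eq_of_subset_of_card_le Finset.inter_subset_left (by omega)
  have h7 : d ∩ bᶜ = bᶜ := Finset.eq_of_subset_of_card_le Finset.inter_subset_right (by omega)
  rw [← h7, h6]
  exact hd1

end Cfsg.Agent.Lib.SteinerNums
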