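import Cfsg.Agent.Lib.SteinerSearch
import Cfsg.Agent.Lib.SteinerNums

/-!
# Systems `S(5-z, 8-z, 24-z)` as systems on 24 points
-/

set_option autoImplicit false
set_option linter.constructorNameAsVariable false

namespace Cfsg.Agent.Lib.SteinerLift

open Cfsg Cfsg.Agent.Lib.GolayCode Cfsg.Agent.Lib.GolayFacts Cfsg.Agent.Lib.GolayFast
  Cfsg.Agent.Lib.GolayFastData Cfsg.Agent.Lib.GolaySets Cfsg.Agent.Lib.SteinerSearch
  Cfsg.Agent.Lib.SteinerBasic Cfsg.Agent.Lib.SteinerNums Finset

variable {α : Type*} [Fintype α] [DecidableEq α] {z : ℕ}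

/-- The lift of a block. -/
def liftB (z : ℕ) (b : Finset α) : Finset (α ⊕ Fin z) := b.disjSum Finset.univ

theorem liftB_inj {b c : Finset α} (h : liftB z b = liftB z c) : b = c := by
  ext x
  have := congrArg (fun s => Sum.inl x ∈ s) h
  simpa [liftB] using this

theorem card_inter_liftB (w : Finset (α ⊕ Fin z)) (b : Finset α) :
    (w ∩ liftB z b).card = (w.toLeft ∩ b).card + w.toRight.card := by
  rw [← Finset.card_toLeft_add_card_toRight]
  congr 2
  · ext x
    simp [liftB]
  · ext x
    simp [liftB]

theorem card_liftB (z : ℕ) (b : Finset α) : (liftB z b).card = b.card + z := by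
  simp [liftB]

/-- The system on 24 points from a Steiner system. -/
def sysOf (hcard : Fintype.card α + z = 24) (hz5 : z ≤ 5) {B : Set (Finset α)}
    (hB : IsSteinerSystem (5 - z) (8 - z) B)
    (heven : ∀ b ∈ B, ∀ c ∈ B, b ≠ c → Even ((b ∩ c).card + z))
    (hodd : ∀ r ≤ z, ∀ w : Finset α, w.card + r = 4 → ∃ b ∈ B, ¬ Even ((w ∩ b).card + r)) :
    Sys (α ⊕ Fin z) where
  card_A := by simp [hcard]
  Bl := liftB z '' B
  z := z
  Z := (∅ : Finset α).disjSum Finset.univ
  Z_card := by simp
  card_bl := by
    rintro _ ⟨b, hb, rfl⟩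
    rw [card_liftB, hB.1 b hb]
    omega
  even_bl := by
    rintro _ ⟨b, hb, rfl⟩ _ ⟨c, hc, rfl⟩
    rw [card_inter_liftB]
    have h1 : (liftB z b).toLeft = b := by
      ext x
      simp [liftB]
    have h2 : (liftB z b).toRight.card = z := by
      have : (liftB z b).toRight = Finset.univ := by
        ext x
        simp [liftB]
      rw [this]
      simp
    rw [h1, h2]
    by_cases hbc : b = c
    · subst hbc
      rw [Finset.inter_self, hB.1 b hb]
      have : 8 - z + z = 8 := by omega
      rw [this]
      decide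
    · exact heven b hb c hc hbc
  no_four := by
    intro w hw
    have h1 := Finset.card_toLeft_add_card_toRight (u := w)
    have hr : w.toRight.card ≤ z := by
      have := Finset.card_le_univ w.toRight
      simpa using this
    obtain ⟨b, hb, hodd2⟩ := hodd _ hr w.toLeft (by omega)
    refine ⟨liftB z b, ⟨b, hb, rfl⟩, ?_⟩
    rw [card_inter_liftB]
    exact hodd2
  block := by
    intro S hS hZ
    have h1 := Finset.card_toLeft_add_card_toRight (u := S)
    have h2 : S.toRight = Finset.univ := by
      ext x
      simp only [Finset.mem_toRight, Finset.mem_univ, iff_true]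
      apply hZ
      simp
    rw [h2, Finset.card_univ, Fintype.card_fin] at h1
    obtain ⟨b, ⟨hb, hsub⟩, _⟩ := hB.2 S.toLeft (by omega)
    refine ⟨liftB z b, ⟨b, hb, rfl⟩, ?_⟩
    intro x hx
    cases x with
    | inl a =>
      simp only [liftB, Finset.inl_mem_disjSum]
      exact hsub (Finset.mem_toLeft.mpr hx)
    | inr a => simp [liftB]

/-- Counting octads through the first points. -/
def stdSet (z : ℕ) : Set (Finset GolayPt) := {o | o ∈ octads ∧ ∀ i < z, idxPt i ∈ o}

theorem ncard_stdSet (z : ℕ) (hz : z ≤ 24) :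
    (stdSet z).ncard = (octadsL.filter fun m => (List.range z).all (fun i => m.testBit i)).length := by
  apply ncard_octads_filter
  intro m _
  simp only [List.all_eq_true, List.mem_range]
  constructor
  · intro h i hi
    have := h i hi
    rwa [mem_supFin, ptIdx_idxPt (by omega)] at this
  · intro h i hi
    rw [mem_supFin, ptIdx_idxPt (by omega)]
    exact h i hi

theorem ncard_std0 : (stdSet 0).ncard = 759 := by
  rw [ncard_stdSet 0 (by norm_num)]
  decide +kernel

theorem ncard_std1 : (stdSet 1).ncard = 253 := by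
  rw [ncard_stdSet 1 (by norm_num)]
  decide +kernel

theorem ncard_std2 : (stdSet 2).ncard = 77 := by
  rw [ncard_stdSet 2 (by norm_num)]
  decide +kernel

/-- The image of the standard set under the labeling found. -/
theorem image_std {A : Type*} [Fintype A] [DecidableEq A] {e : GolayPt ≃ A} {Bl : Set (Finset A)}
    (h : ∀ o ∈ octads, (∀ i < z, idxPt i ∈ o) → o.image e ∈ Bl) (hc : Bl.ncard = (stdSet z).ncard) :
    (fun o : Finset GolayPt => o.image e) '' stdSet z = Bl := by
  apply Set.eq_of_subset_of_ncard_le
  · rintro _ ⟨o, ⟨h1, h2⟩, rfl⟩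
    exact h o h1 h2
  · rw [Set.ncard_image_of_injective _ (Finset.image_injective e.injective), hc]
  · exact Set.toFinite _

end Cfsg.Agent.Lib.SteinerLift
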