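import Cfsg.Agent.Lib.GolaySets

/-!
# A verified search for labelings of Steiner-type systems on 24 points

A system `Sys A`: blocks of size 8 on 24 points, pairwise even intersections, no word of weight 4 orthogonal
to all blocks, containing a fixed set `Z`, and every 5-set containing `Z` is in a block.
`Good n K`: every labeling of `n` points carrying the masks `K` into the dual code yields the goal.
-/

set_option autoImplicit false
set_option linter.constructorNameAsVariable false

namespace Cfsg.Agent.Lib.SteinerSearch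

open Cfsg Cfsg.Agent.Lib.GolayCode Cfsg.Agent.Lib.GolayFacts Cfsg.Agent.Lib.GolayFast
  Cfsg.Agent.Lib.GolayFastData Cfsg.Agent.Lib.GolaySets Finset

/-- The set of points of a mask under a labeling. -/
def img {A : Type*} [DecidableEq A] (f : ℕ → A) (m : ℕ) : Finset A :=
  ((Finset.range 24).filter fun i => m.testBit i = true).image f

theorem mem_img {A : Type*} [DecidableEq A] {f : ℕ → A} {m : ℕ} {a : A} :
    a ∈ img f m ↔ ∃ i < 24, m.testBit i = true ∧ f i = a := by
  simp only [img, Finset.mem_image, Finset.mem_filter, Finset.mem_range]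
  constructor
  · rintro ⟨i, ⟨h1, h2⟩, h3⟩
    exact ⟨i, h1, h2, h3⟩
  · rintro ⟨i, h1, h2, h3⟩
    exact ⟨i, ⟨h1, h2⟩, h3⟩

/-- Injective on the first `n` labels. -/
def Inj {A : Type*} (f : ℕ → A) (n : ℕ) : Prop := ∀ i < n, ∀ j < n, f i = f j → i = j

theorem testBit_false_of_lt {m n i : ℕ} (hm : m < 2 ^ n) (hi : n ≤ i) : m.testBit i = false :=
  Nat.testBit_eq_false_of_lt (lt_of_lt_of_le hm (Nat.pow_le_pow_right (by norm_num) hi))

section labels

variable {A : Type*} [DecidableEq A]

theorem card_img {f : ℕ → A} {n m : ℕ} (hn : n ≤ 24) (hf : Inj f n) (hm : m < 2 ^ n) :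
    (img f m).card = hw 24 m := by
  rw [img, Finset.card_image_of_injOn, hw_eq_card]
  intro i hi j hj h
  have hi' := (Finset.mem_filter.mp (Finset.mem_coe.mp hi)).2
  have hj' := (Finset.mem_filter.mp (Finset.mem_coe.mp hj)).2
  have h1 : i < n := by
    by_contra hc
    push Not at hc
    rw [testBit_false_of_lt hm hc] at hi'
    exact absurd hi' (by simp)
  have h2 : j < n := by
    by_contra hc
    push Not at hc
    rw [testBit_false_of_lt hm hc] at hj'
    exact absurd hj' (by simp)
  exact hf i h1 j h2 h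

theorem bit_lt {m n i : ℕ} (hm : m < 2 ^ n) (h : m.testBit i = true) : i < n := by
  by_contra hc
  push Not at hc
  rw [testBit_false_of_lt hm hc] at h
  exact absurd h (by simp)

theorem img_and {f : ℕ → A} {n a b : ℕ} (hn : n ≤ 24) (hf : Inj f n) (ha : a < 2 ^ n) (hb : b < 2 ^ n) :
    img f (a &&& b) = img f a ∩ img f b := by
  ext x
  simp only [mem_img, Finset.mem_inter, Nat.testBit_land, Bool.and_eq_true]
  constructor
  · rintro ⟨i, h1, ⟨h2, h3⟩, h4⟩
    exact ⟨⟨i, h1, h2, h4⟩, ⟨i, h1, h3, h4⟩⟩
  · rintro ⟨⟨i, h1, h2, h3⟩, ⟨j, h4, h5, h6⟩⟩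
    have hij : i = j := hf i (bit_lt ha h2) j (bit_lt hb h5) (h3.trans h6.symm)
    subst hij
    exact ⟨i, h1, ⟨h2, h5⟩, h3⟩

theorem img_xor {f : ℕ → A} {n a b : ℕ} (hn : n ≤ 24) (hf : Inj f n) (ha : a < 2 ^ n) (hb : b < 2 ^ n) :
    img f (a ^^^ b) = symmDiff (img f a) (img f b) := by
  ext x
  simp only [mem_img, Finset.mem_symmDiff, Nat.testBit_xor]
  constructor
  · rintro ⟨i, h1, h2, h3⟩
    have hi : i < n := by
      have : (a ^^^ b) < 2 ^ n := Nat.xor_lt_two_pow ha hb
      exact bit_lt this (by rw [Nat.testBit_xor]; exact h2)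
    cases ha' : a.testBit i <;> cases hb' : b.testBit i <;> simp only [ha', hb'] at h2 <;>
      first
      | exact absurd h2 (by decide)
      | skip
    · right
      refine ⟨⟨i, h1, hb', h3⟩, ?_⟩
      rintro ⟨j, h4, h5, h6⟩
      have := hf i hi j (bit_lt ha h5) (h3.trans h6.symm)
      subst this
      rw [ha'] at h5
      exact absurd h5 (by simp)
    · left
      refine ⟨⟨i, h1, ha', h3⟩, ?_⟩
      rintro ⟨j, h4, h5, h6⟩
      have := hf i hi j (bit_lt hb h5) (h3.trans h6.symm)
      subst this
      rw [hb'] at h5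
      exact absurd h5 (by simp)
  · rintro (⟨⟨i, h1, h2, h3⟩, h4⟩ | ⟨⟨i, h1, h2, h3⟩, h4⟩)
    · refine ⟨i, h1, ?_, h3⟩
      rw [h2]
      have : b.testBit i = false := by
        cases hb' : b.testBit i
        · rfl
        · exact absurd ⟨i, h1, hb', h3⟩ h4
      rw [this]
      rfl
    · refine ⟨i, h1, ?_, h3⟩
      rw [h2]
      have : a.testBit i = false := by
        cases ha' : a.testBit i
        · rfl
        · exact absurd ⟨i, h1, ha', h3⟩ h4
      rw [this]
      rfl

theorem img_congr {f g : ℕ → A} {n m : ℕ} (h : ∀ i < n, f i = g i) (hm : m < 2 ^ n) :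
    img f m = img g m := by
  ext x
  simp only [mem_img]
  constructor
  · rintro ⟨i, h1, h2, h3⟩
    exact ⟨i, h1, h2, by rw [← h i (bit_lt hm h2), h3]⟩
  · rintro ⟨i, h1, h2, h3⟩
    exact ⟨i, h1, h2, by rw [h i (bit_lt hm h2), h3]⟩

end labels

/-- A system of octad-like blocks. -/
structure Sys (A : Type*) [DecidableEq A] [Fintype A] where
  card_A : Fintype.card A = 24
  Bl : Set (Finset A)
  z : ℕ
  Z : Finset A
  Z_card : Z.card = z
  card_bl : ∀ b ∈ Bl, b.card = 8
  even_bl : ∀ b ∈ Bl, ∀ c ∈ Bl, Even (b ∩ c).card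
  no_four : ∀ w : Finset A, w.card = 4 → ∃ b ∈ Bl, ¬ Even (w ∩ b).card
  block : ∀ S : Finset A, S.card = 5 → Z ⊆ S → ∃ d ∈ Bl, S ⊆ d

variable {A : Type*} [DecidableEq A] [Fintype A]

/-- The dual code. -/
def Sys.Code (Y : Sys A) : Set (Finset A) := {w | ∀ b ∈ Y.Bl, Even (w ∩ b).card}

theorem even_card_symmDiff (a b : Finset A) :
    Even (symmDiff a b).card ↔ (Even a.card ↔ Even b.card) := by
  have h := card_symmDiff_add a b
  have h2 : (symmDiff a b).card + 2 * (a ∩ b).card = a.card + b.card := h
  rw [Nat.even_iff, Nat.even_iff, Nat.even_iff]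
  omega

theorem code_zero (Y : Sys A) : (∅ : Finset A) ∈ Y.Code := by
  intro b _
  simp

theorem code_add {Y : Sys A} {a b : Finset A} (ha : a ∈ Y.Code) (hb : b ∈ Y.Code) : symmDiff a b ∈ Y.Code := by
  intro c hc
  have h : symmDiff a b ∩ c = symmDiff (a ∩ c) (b ∩ c) := by
    ext x
    simp only [Finset.mem_inter, Finset.mem_symmDiff]
    tauto
  rw [h, even_card_symmDiff]
  exact ⟨fun _ => hb c hc, fun _ => ha c hc⟩

theorem code_no_four {Y : Sys A} {w : Finset A} (hw : w ∈ Y.Code) : w.card ≠ 4 := by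
  intro h
  obtain ⟨b, hb, hodd⟩ := Y.no_four w h
  exact hodd (hw b hb)

theorem bl_code {Y : Sys A} {b : Finset A} (hb : b ∈ Y.Bl) : b ∈ Y.Code :=
  fun c hc => Y.even_bl b hb c hc

/-- Words of weight 8 containing `Z` are blocks. -/
theorem wt8_mem {Y : Sys A} {w : Finset A} (hw : w ∈ Y.Code) (h8 : w.card = 8) (hZ : Y.Z ⊆ w)
    (hz : Y.z ≤ 5) : w ∈ Y.Bl := by
  obtain ⟨S, hS1, hS2, hS3⟩ := Finset.exists_subsuperset_card_eq hZ
    (show Y.Z.card ≤ 5 by rw [Y.Z_card]; exact hz) (show 5 ≤ w.card by omega)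
  obtain ⟨d, hd, hSd⟩ := Y.block S hS3 hS1
  have hdc := Y.card_bl d hd
  have h1 : Even (w ∩ d).card := hw d hd
  have h2 : 5 ≤ (w ∩ d).card := by
    rw [← hS3]
    exact Finset.card_le_card (Finset.subset_inter hS2 hSd)
  have h3 : (w ∩ d).card ≤ 8 := by
    rw [← h8]
    exact Finset.card_le_card Finset.inter_subset_left
  have h4 := card_symmDiff_add w d
  have h5 : (symmDiff w d).card + 2 * (w ∩ d).card = w.card + d.card := h4
  have h6 := code_no_four (code_add hw (bl_code hd))
  rw [h8, hdc] at h5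
  rw [Nat.even_iff] at h1
  have h7 : (w ∩ d).card = 8 := by omega
  have h9 : w ∩ d = w := Finset.eq_of_subset_of_card_le Finset.inter_subset_left (by omega)
  have h10 : w ∩ d = d := Finset.eq_of_subset_of_card_le Finset.inter_subset_right (by omega)
  rw [← h9, h10]
  exact hd

/-- The span of a list of masks. -/
def spanL : List ℕ → List ℕ
  | [] => [0]
  | v :: l => spanL l ++ (spanL l).map (· ^^^ v)

theorem spanL_spec (Y : Sys A) {f : ℕ → A} {n : ℕ} (hn : n ≤ 24) (hf : Inj f n) {K : List ℕ}
    (hK : ∀ k ∈ K, k < 2 ^ n) (hC : ∀ k ∈ K, img f k ∈ Y.Code) :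
    ∀ w ∈ spanL K, w < 2 ^ n ∧ img f w ∈ Y.Code := by
  induction K with
  | nil =>
    intro w hw
    rw [spanL, List.mem_singleton] at hw
    subst hw
    refine ⟨by positivity, ?_⟩
    have : img f 0 = ∅ := by
      ext x
      simp [mem_img]
    rw [this]
    exact code_zero Y
  | cons v l ih =>
    have hl1 : ∀ k ∈ l, k < 2 ^ n := fun k hk => hK k (List.mem_cons_of_mem _ hk)
    have hl2 : ∀ k ∈ l, img f k ∈ Y.Code := fun k hk => hC k (List.mem_cons_of_mem _ hk)
    have IH := ih hl1 hl2
    have hv1 := hK v List.mem_cons_self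
    have hv2 := hC v List.mem_cons_self
    intro w hw
    rw [spanL, List.mem_append, List.mem_map] at hw
    rcases hw with hw | ⟨x, hx, rfl⟩
    · exact IH w hw
    · obtain ⟨h1, h2⟩ := IH x hx
      refine ⟨Nat.xor_lt_two_pow h1 hv1, ?_⟩
      rw [img_xor hn hf h1 hv1]
      exact code_add h2 hv2

/-- The mask of new labels. -/
def newMask (n u : ℕ) : ℕ := 2 ^ n * (2 ^ u - 1)

theorem testBit_newMask (n u i : ℕ) : (newMask n u).testBit i = (decide (n ≤ i) && decide (i < n + u)) := by
  rw [newMask, Nat.testBit_two_pow_mul, Nat.testBit_two_pow_sub_one]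
  by_cases h : n ≤ i
  · simp only [ge_iff_le, h, decide_true, Bool.true_and]
    congr 1
    exact propext (by omega)
  · simp [show ¬ (i ≥ n) by omega, h]

/-- All candidates for the block through `S`. -/
def allC (n S : ℕ) : List (ℕ × ℕ) :=
  ([0, 1, 2, 3].filter fun u => decide (n + u ≤ 24)).flatMap fun u =>
    ((kSub n (3 - u)).filter fun T => T &&& S == 0).map fun T => (S ||| T ||| newMask n u, n + u)

/-- Admissibility. -/
def adm (K : List ℕ) (m : ℕ) : Bool :=
  K.all (fun k => hwF (m &&& k) % 2 == 0) && (spanL K).all (fun w => hwF (m ^^^ w) != 4)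

/-- The candidates. -/
def cands (n : ℕ) (K : List ℕ) (S : ℕ) : List (ℕ × ℕ) := (allC n S).filter fun c => adm K c.1

/-- Induction statement on a labeling. -/
def Good (Y : Sys A) (Goal : Prop) (n : ℕ) (K : List ℕ) : Prop :=
  ∀ f : ℕ → A, Inj f n → (Finset.range Y.z).image f = Y.Z → (∀ k ∈ K, img f k ∈ Y.Code) → Goal

theorem two_pow_mono {n m : ℕ} (h : n ≤ m) : 2 ^ n ≤ 2 ^ m := Nat.pow_le_pow_right (by norm_num) h

/-- The branching lemma. -/
theorem branch (Y : Sys A) (Goal : Prop) (n : ℕ) (K : List ℕ) (S : ℕ) (hn : n ≤ 24) (hzn : Y.z ≤ n)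
    (hS : S < 2 ^ n) (hS5 : hw 24 S = 5) (hSZ : ∀ i < Y.z, S.testBit i = true)
    (hK : ∀ k ∈ K, k < 2 ^ n) (h : ∀ c ∈ cands n K S, Good Y Goal c.2 (c.1 :: K)) : Good Y Goal n K := by
  intro f hf hZ hC
  have hSset : (img f S).card = 5 := by rw [card_img hn hf hS, hS5]
  have hZS : Y.Z ⊆ img f S := by
    rw [← hZ]
    intro x hx
    obtain ⟨i, hi, rfl⟩ := Finset.mem_image.mp hx
    have hi' := Finset.mem_range.mp hi
    exact mem_img.mpr ⟨i, by omega, hSZ i hi', rfl⟩
  obtain ⟨d, hd, hSd⟩ := Y.block _ hSset hZS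
  have hdc := Y.card_bl d hd
  -- the labeled points
  set Im := (Finset.range n).image f with hIm
  have hImc : Im.card = n := by
    rw [hIm, Finset.card_image_of_injOn, Finset.card_range]
    intro i hi j hj hij
    exact hf i (Finset.mem_range.mp hi) j (Finset.mem_range.mp hj) hij
  set D' := d \ Im with hD'
  set u := D'.card with hu
  set T' := (d ∩ Im) \ img f S with hT'
  have hSIm : img f S ⊆ d ∩ Im := by
    intro x hx
    refine Finset.mem_inter.mpr ⟨hSd hx, ?_⟩
    obtain ⟨i, _, h2, rfl⟩ := mem_img.mp hx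
    exact Finset.mem_image_of_mem f (Finset.mem_range.mpr (bit_lt hS h2))
  have hcards : T'.card + u = 3 := by
    have h1 : T'.card = (d ∩ Im).card - 5 := by
      rw [hT', Finset.card_sdiff_of_subset hSIm, hSset]
    have h2 : (d ∩ Im).card + u = 8 := by
      rw [← hdc, hu, hD']
      exact Finset.card_inter_add_card_sdiff d Im
    have h3 : 5 ≤ (d ∩ Im).card := by
      rw [← hSset]
      exact Finset.card_le_card hSIm
    omega
  have hnu : n + u ≤ 24 := by
    have h1 : Disjoint Im D' := Finset.disjoint_sdiff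
    have h2 := Finset.card_le_univ (Im ∪ D')
    rw [Finset.card_union_of_disjoint h1, hImc, Y.card_A] at h2
    exact h2
  -- the mask of old points
  let T : ℕ := Nat.ofBits (n := n) fun i => decide (f i ∈ T')
  have hTlt : T < 2 ^ n := Nat.ofBits_lt_two_pow _
  have hTbit : ∀ i, T.testBit i = true ↔ i < n ∧ f i ∈ T' := by
    intro i
    by_cases hi : i < n
    · have : T.testBit i = decide (f i ∈ T') := by
        exact Nat.testBit_ofBits_lt _ i hi
      rw [this]
      simp [hi]
    · have : T.testBit i = false := testBit_false_of_lt hTlt (by omega)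
      rw [this]
      simp [hi]
  have himgT : img f T = T' := by
    ext x
    rw [mem_img]
    constructor
    · rintro ⟨i, _, h2, rfl⟩
      exact ((hTbit i).mp h2).2
    · intro hx
      have h1 : x ∈ Im := (Finset.mem_inter.mp (Finset.mem_sdiff.mp hx).1).2
      obtain ⟨i, hi, rfl⟩ := Finset.mem_image.mp h1
      have hi' := Finset.mem_range.mp hi
      exact ⟨i, by omega, (hTbit i).mpr ⟨hi', hx⟩, rfl⟩
  have hTc : hw 24 T = T'.card := by
    rw [← himgT, card_img hn hf hTlt]
  have hTS : T &&& S = 0 := by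
    apply Nat.eq_of_testBit_eq
    intro i
    simp only [Nat.testBit_land, Nat.zero_testBit]
    cases h1 : T.testBit i
    · rfl
    · cases h2 : S.testBit i
      · rfl
      · exfalso
        have h3 := ((hTbit i).mp h1).2
        exact (Finset.mem_sdiff.mp h3).2 (mem_img.mpr ⟨i, by have := bit_lt hS h2; omega, h2, rfl⟩)
  -- the extended labeling
  let l := D'.toList
  let f' : ℕ → A := fun i => if i < n then f i else l.getD (i - n) (f 0)
  have hf'1 : ∀ i < n, f' i = f i := fun i hi => by simp [f', hi]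
  have hlen : l.length = u := Finset.length_toList _
  have hf'2 : ∀ i, n ≤ i → i < n + u → f' i ∈ D' := by
    intro i h1 h2
    simp only [f', show ¬ i < n by omega, if_false]
    rw [List.getD_eq_getElem _ _ (by omega)]
    exact Finset.mem_toList.mp (List.getElem_mem _)
  have hf'inj : Inj f' (n + u) := by
    intro i hi j hj hij
    by_cases h1 : i < n
    · by_cases h2 : j < n
      · rw [hf'1 i h1, hf'1 j h2] at hij
        exact hf i h1 j h2 hij
      · exfalso
        have h3 := hf'2 j (by omega) hj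
        rw [← hij, hf'1 i h1] at h3
        exact (Finset.mem_sdiff.mp h3).2 (Finset.mem_image_of_mem f (Finset.mem_range.mpr h1))
    · by_cases h2 : j < n
      · exfalso
        have h3 := hf'2 i (by omega) hi
        rw [hij, hf'1 j h2] at h3
        exact (Finset.mem_sdiff.mp h3).2 (Finset.mem_image_of_mem f (Finset.mem_range.mpr h2))
      · simp only [f', h1, h2, if_false] at hij
        rw [List.getD_eq_getElem _ _ (by omega), List.getD_eq_getElem _ _ (by omega)] at hij
        have := (List.Nodup.getElem_inj_iff (Finset.nodup_toList D')).mp hij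
        omega
  -- the mask of the block
  set m := S ||| T ||| newMask n u with hm
  have hmlt : m < 2 ^ (n + u) := by
    apply Nat.or_lt_two_pow
    · apply Nat.or_lt_two_pow
      · exact lt_of_lt_of_le hS (two_pow_mono (by omega))
      · exact lt_of_lt_of_le hTlt (two_pow_mono (by omega))
    · rw [newMask, pow_add]
      have : 2 ^ u - 1 < 2 ^ u := Nat.sub_lt (by positivity) (by norm_num)
      exact Nat.mul_lt_mul_of_pos_left this (by positivity)
  have hmimg : img f' m = d := by
    ext x
    rw [mem_img]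
    constructor
    · rintro ⟨i, _, h2, rfl⟩
      rw [hm, Nat.testBit_or, Nat.testBit_or, testBit_newMask, Bool.or_eq_true, Bool.or_eq_true] at h2
      rcases h2 with (h2 | h2) | h2
      · have hi := bit_lt hS h2
        rw [hf'1 i hi]
        exact hSd (mem_img.mpr ⟨i, by omega, h2, rfl⟩)
      · obtain ⟨hi, h3⟩ := (hTbit i).mp h2
        rw [hf'1 i hi]
        exact (Finset.mem_inter.mp (Finset.mem_sdiff.mp h3).1).1
      · simp only [Bool.and_eq_true, decide_eq_true_eq] at h2
        exact (Finset.mem_sdiff.mp (hf'2 i h2.1 h2.2)).1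
    · intro hx
      by_cases hxIm : x ∈ Im
      · obtain ⟨i, hi, rfl⟩ := Finset.mem_image.mp hxIm
        have hi' := Finset.mem_range.mp hi
        refine ⟨i, by omega, ?_, hf'1 i hi'⟩
        rw [hm, Nat.testBit_or, Nat.testBit_or, Bool.or_eq_true, Bool.or_eq_true]
        by_cases hxS : f i ∈ img f S
        · obtain ⟨j, _, h3, h4⟩ := mem_img.mp hxS
          have := hf j (bit_lt hS h3) i hi' h4
          subst this
          exact Or.inl (Or.inl h3)
        · exact Or.inl (Or.inr ((hTbit i).mpr ⟨hi', Finset.mem_sdiff.mpr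
            ⟨Finset.mem_inter.mpr ⟨hx, hxIm⟩, hxS⟩⟩))
      · have hxD : x ∈ l := Finset.mem_toList.mpr (Finset.mem_sdiff.mpr ⟨hx, hxIm⟩)
        obtain ⟨k, hk, rfl⟩ := List.mem_iff_getElem.mp hxD
        refine ⟨n + k, by omega, ?_, ?_⟩
        · rw [hm, Nat.testBit_or, testBit_newMask]
          have : (decide (n ≤ n + k) && decide (n + k < n + u)) = true := by
            simp only [Bool.and_eq_true, decide_eq_true_eq]
            omega
          rw [this, Bool.or_true]
        · simp only [f', show ¬ (n + k < n) by omega, if_false, Nat.add_sub_cancel_left]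
          rw [List.getD_eq_getElem _ _ hk]
  have hnu' : n + u ≤ 24 := hnu
  have hKf' : ∀ k ∈ K, img f' k = img f k := fun k hk => img_congr hf'1 (hK k hk)
  have hCf' : ∀ k ∈ K, img f' k ∈ Y.Code := fun k hk => by rw [hKf' k hk]; exact hC k hk
  have hK' : ∀ k ∈ K, k < 2 ^ (n + u) := fun k hk =>
    lt_of_lt_of_le (hK k hk) (two_pow_mono (by omega))
  have hdm : (m, n + u) ∈ cands n K S := by
    rw [cands, List.mem_filter]
    constructor
    · rw [allC, List.mem_flatMap]
      refine ⟨u, ?_, ?_⟩
      · rw [List.mem_filter]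
        constructor
        · have : u ≤ 3 := by omega
          interval_cases u <;> simp
        · simpa using hnu
      · rw [List.mem_map]
        refine ⟨T, ?_, rfl⟩
        rw [List.mem_filter]
        constructor
        · rw [mem_kSub]
          refine ⟨hTlt, ?_⟩
          rw [hw_eq_card]
          rw [hw_eq_card] at hTc
          have : (Finset.range n).filter (fun i => T.testBit i = true)
              = (Finset.range 24).filter (fun i => T.testBit i = true) := by
            ext i
            simp only [Finset.mem_filter, Finset.mem_range]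
            constructor
            · rintro ⟨h1, h2⟩
              exact ⟨by omega, h2⟩
            · rintro ⟨h1, h2⟩
              exact ⟨bit_lt hTlt h2, h2⟩
          rw [this, hTc]
          omega
        · rw [hTS]
          rfl
    · rw [adm, Bool.and_eq_true, List.all_eq_true, List.all_eq_true]
      constructor
      · intro k hk
        have h1 := hCf' k hk d hd
        rw [Finset.inter_comm, ← hmimg, ← img_and (by omega) hf'inj hmlt (hK' k hk),
          card_img (by omega) hf'inj (Nat.and_lt_two_pow _ (hK' k hk)), ← hwF_eq] at h1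
        rw [beq_iff_eq]
        exact Nat.even_iff.mp h1
      · intro w hw
        obtain ⟨h1, h2⟩ := spanL_spec Y (by omega) hf'inj hK' hCf' w hw
        have h3 := code_add (bl_code hd) h2
        rw [← hmimg, ← img_xor (by omega) hf'inj hmlt h1,
          ] at h3
        have h4 := code_no_four h3
        rw [card_img (by omega) hf'inj (Nat.xor_lt_two_pow hmlt h1), ← hwF_eq] at h4
        simpa using h4
  refine h _ hdm f' hf'inj ?_ ?_
  · rw [← hZ]
    apply Finset.image_congr
    intro i hi
    exact hf'1 i (by have := Finset.mem_range.mp hi; omega)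
  · intro k hk
    rcases List.mem_cons.mp hk with rfl | hk
    · show img f' m ∈ Y.Code
      rw [hmimg]
      exact bl_code hd
    · exact hCf' k hk

/-- Reduction by an echelon list. -/
def redE : List (ℕ × ℕ) → ℕ → ℕ
  | [], v => v
  | e :: E, v => redE E (if v.testBit e.1 then v ^^^ e.2 else v)

/-- The lowest set bit. -/
def lowBit (v : ℕ) : ℕ := (List.range 24).foldr (fun i acc => if v.testBit i then i else acc) 0

/-- Add a vector to an echelon list. -/
def addE (E : List (ℕ × ℕ)) (k : ℕ) : List (ℕ × ℕ) :=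
  if redE E k == 0 then E else E ++ [(lowBit (redE E k), redE E k)]

/-- The echelon list of a list of vectors. -/
def echL (K : List ℕ) : List (ℕ × ℕ) := K.foldl addE []

theorem redE_fwd (Y : Sys A) {f : ℕ → A} {n : ℕ} (hn : n ≤ 24) (hf : Inj f n) {E : List (ℕ × ℕ)}
    (hE : ∀ e ∈ E, e.2 < 2 ^ n ∧ img f e.2 ∈ Y.Code) {v : ℕ} (hv : v < 2 ^ n) (hc : img f v ∈ Y.Code) :
    redE E v < 2 ^ n ∧ img f (redE E v) ∈ Y.Code := by
  induction E generalizing v with
  | nil => exact ⟨hv, hc⟩
  | cons e E ih =>
    rw [redE]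
    have hE' : ∀ e ∈ E, e.2 < 2 ^ n ∧ img f e.2 ∈ Y.Code := fun x hx => hE x (List.mem_cons_of_mem _ hx)
    obtain ⟨h1, h2⟩ := hE e List.mem_cons_self
    split_ifs with h
    · refine ih hE' (Nat.xor_lt_two_pow hv h1) ?_
      rw [img_xor hn hf hv h1]
      exact code_add hc h2
    · exact ih hE' hv hc

theorem redE_back (Y : Sys A) {f : ℕ → A} {n : ℕ} (hn : n ≤ 24) (hf : Inj f n) {E : List (ℕ × ℕ)}
    (hE : ∀ e ∈ E, e.2 < 2 ^ n ∧ img f e.2 ∈ Y.Code) {v : ℕ} (hv : v < 2 ^ n)
    (hc : img f (redE E v) ∈ Y.Code) : img f v ∈ Y.Code := by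
  induction E generalizing v with
  | nil => exact hc
  | cons e E ih =>
    rw [redE] at hc
    have hE' : ∀ e ∈ E, e.2 < 2 ^ n ∧ img f e.2 ∈ Y.Code := fun x hx => hE x (List.mem_cons_of_mem _ hx)
    obtain ⟨h1, h2⟩ := hE e List.mem_cons_self
    split_ifs at hc with h
    · have h3 := ih hE' (Nat.xor_lt_two_pow hv h1) hc
      rw [img_xor hn hf hv h1] at h3
      have h4 := code_add h3 h2
      rwa [symmDiff_assoc, symmDiff_self, symmDiff_bot] at h4
    · exact ih hE' hv hc

theorem img_zero {f : ℕ → A} : img f 0 = ∅ := by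
  ext x
  simp [mem_img]

theorem echL_spec (Y : Sys A) {f : ℕ → A} {n : ℕ} (hn : n ≤ 24) (hf : Inj f n) {K : List ℕ}
    (hK : ∀ k ∈ K, k < 2 ^ n) (hC : ∀ k ∈ K, img f k ∈ Y.Code) :
    ∀ e ∈ echL K, e.2 < 2 ^ n ∧ img f e.2 ∈ Y.Code := by
  have key : ∀ (L : List ℕ) (E : List (ℕ × ℕ)), (∀ k ∈ L, k < 2 ^ n ∧ img f k ∈ Y.Code) →
      (∀ e ∈ E, e.2 < 2 ^ n ∧ img f e.2 ∈ Y.Code) →
      ∀ e ∈ L.foldl addE E, e.2 < 2 ^ n ∧ img f e.2 ∈ Y.Code := by
    intro L
    induction L with
    | nil =>
      intro E _ hE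
      exact hE
    | cons k L ih =>
      intro E hL hE
      rw [List.foldl_cons]
      apply ih _ (fun x hx => hL x (List.mem_cons_of_mem _ hx))
      obtain ⟨h1, h2⟩ := hL k List.mem_cons_self
      intro e he
      rw [addE] at he
      split_ifs at he with h0
      · exact hE e he
      · rcases List.mem_append.mp he with he | he
        · exact hE e he
        · rw [List.mem_singleton] at he
          subst he
          exact redE_fwd Y hn hf hE h1 h2
  exact key K [] (fun k hk => ⟨hK k hk, hC k hk⟩) (by simp)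

/-- Membership test in the span. -/
def inSpan (K : List ℕ) (v : ℕ) : Bool := redE (echL K) v == 0

theorem inSpan_spec (Y : Sys A) {f : ℕ → A} {n : ℕ} (hn : n ≤ 24) (hf : Inj f n) {K : List ℕ}
    (hK : ∀ k ∈ K, k < 2 ^ n) (hC : ∀ k ∈ K, img f k ∈ Y.Code) {v : ℕ} (hv : v < 2 ^ n)
    (h : inSpan K v = true) : img f v ∈ Y.Code := by
  have h0 : redE (echL K) v = 0 := by simpa [inSpan] using h
  apply redE_back Y hn hf (echL_spec Y hn hf hK hC) hv
  rw [h0, img_zero]
  exact code_zero Y

/-- Relabeling of a mask. -/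
def apL : List ℕ → ℕ → ℕ
  | [], _ => 0
  | x :: l, k => (if k % 2 = 1 then 2 ^ x else 0) ||| apL l (k / 2)

theorem testBit_apL (π : List ℕ) (k y : ℕ) :
    (apL π k).testBit y = true ↔ ∃ (i : ℕ) (h : i < π.length), π[i] = y ∧ k.testBit i = true := by
  induction π generalizing k with
  | nil => simp [apL]
  | cons x l ih =>
    rw [apL, Nat.testBit_or, Bool.or_eq_true, ih]
    constructor
    · rintro (h | ⟨i, hi, h1, h2⟩)
      · split_ifs at h with hk
        · rw [Nat.testBit_two_pow] at h
          have hxy : x = y := by simpa using h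
          refine ⟨0, by simp, by simpa using hxy, ?_⟩
          rw [Nat.testBit_zero]
          simp [hk]
        · simp at h
      · refine ⟨i + 1, by simpa using hi, by simpa using h1, ?_⟩
        rw [Nat.testBit_succ]
        exact h2
    · rintro ⟨i, hi, h1, h2⟩
      cases i with
      | zero =>
        left
        have hk : k % 2 = 1 := by
          rw [Nat.testBit_zero] at h2
          simpa using h2
        rw [if_pos hk, Nat.testBit_two_pow]
        simpa using h1
      | succ i =>
        right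
        refine ⟨i, by simpa using hi, by simpa using h1, ?_⟩
        rw [Nat.testBit_succ] at h2
        exact h2

theorem img_apL {f : ℕ → A} {π : List ℕ} (hlt : ∀ x ∈ π, x < 24) {k : ℕ} (hk : k < 2 ^ π.length)
    (hl : π.length ≤ 24) :
    img f (apL π k) = img (fun i => f (π.getD i 0)) k := by
  ext x
  simp only [mem_img, testBit_apL]
  constructor
  · rintro ⟨y, _, ⟨i, hi, h1, h2⟩, rfl⟩
    refine ⟨i, by omega, h2, ?_⟩
    rw [List.getD_eq_getElem _ _ hi, h1]
  · rintro ⟨i, _, h2, rfl⟩
    have hi := bit_lt hk h2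
    refine ⟨π[i], hlt _ (List.getElem_mem _), ⟨i, hi, rfl, h2⟩, ?_⟩
    rw [List.getD_eq_getElem _ _ hi]

/-- Checks for the relabeling step. -/
def chkRelabel (z n0 : ℕ) (K0 : List ℕ) (n : ℕ) (K π : List ℕ) : Bool :=
  π.length == n0 && decide π.Nodup && π.all (fun x => decide (x < n)) && decide (n ≤ 24) && decide (z ≤ n0) &&
    decide (n0 ≤ 24) &&
    (List.range z).all (fun i => decide (π.getD i 0 < z)) &&
    K0.all (fun k => decide (k < 2 ^ n0) && decide (apL π k < 2 ^ n) && inSpan K (apL π k)) &&
    K.all (fun k => decide (k < 2 ^ n))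

theorem relabel (Y : Sys A) (Goal : Prop) {z n0 : ℕ} {K0 : List ℕ} {n : ℕ} {K : List ℕ} (π : List ℕ)
    (hz : Y.z = z) (hchk : chkRelabel z n0 K0 n K π = true) (h : Good Y Goal n0 K0) : Good Y Goal n K := by
  simp only [chkRelabel, Bool.and_eq_true, beq_iff_eq, decide_eq_true_eq, List.all_eq_true] at hchk
  obtain ⟨⟨⟨⟨⟨⟨⟨⟨hlen, hnd⟩, hlt⟩, hn⟩, hzn⟩, hn0⟩, hzz⟩, hK0⟩, hK⟩ := hchk
  intro f hf hZ hC
  have hgetD : ∀ i (hi : i < n0), π.getD i 0 = π[i]'(by omega) :=
    fun i hi => List.getD_eq_getElem _ _ (by omega)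
  have hlt' : ∀ i < n0, π.getD i 0 < n := fun i hi => by
    rw [hgetD i hi]
    exact hlt _ (List.getElem_mem _)
  have hf0 : Inj (fun i => f (π.getD i 0)) n0 := by
    intro i hi j hj hij
    have h1 := hf _ (hlt' i hi) _ (hlt' j hj) hij
    rw [hgetD i hi, hgetD j hj] at h1
    exact (List.Nodup.getElem_inj_iff hnd).mp h1
  refine h _ hf0 ?_ ?_
  · rw [← hZ, hz]
    have h1 : (Finset.range z).image (fun i => π.getD i 0) = Finset.range z := by
      apply Finset.eq_of_subset_of_card_le
      · intro x hx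
        obtain ⟨i, hi, rfl⟩ := Finset.mem_image.mp hx
        exact Finset.mem_range.mpr (hzz i (List.mem_range.mpr (Finset.mem_range.mp hi)))
      · rw [Finset.card_image_of_injOn, Finset.card_range]
        · intro i hi j hj hij
          have hi' := Finset.mem_range.mp (Finset.mem_coe.mp hi)
          have hj' := Finset.mem_range.mp (Finset.mem_coe.mp hj)
          have h2 : π.getD i 0 = π.getD j 0 := hij
          rw [hgetD i (by omega), hgetD j (by omega)] at h2
          exact (List.Nodup.getElem_inj_iff hnd).mp h2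
    conv_rhs => rw [← h1]
    rw [Finset.image_image]
    rfl
  · intro k hk
    obtain ⟨⟨h1, h1'⟩, h2⟩ := hK0 k hk
    have h3 := inSpan_spec Y hn hf hK hC h1' h2
    rw [img_apL (fun x hx => by have := hlt x hx; omega) (by rw [hlen]; exact h1) (by omega)] at h3
    exact h3

/-- Checks for the branching step. -/
def chkBranch (z n : ℕ) (K : List ℕ) (S : ℕ) : Bool :=
  decide (n ≤ 24) && decide (z ≤ n) && decide (S < 2 ^ n) && (hwF S == 5) &&
    (List.range z).all (fun i => S.testBit i) && K.all (fun k => decide (k < 2 ^ n))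

theorem branch' (Y : Sys A) (Goal : Prop) {z n : ℕ} {K : List ℕ} {S : ℕ} (hz : Y.z = z)
    (hchk : chkBranch z n K S = true) (h : ∀ c ∈ cands n K S, Good Y Goal c.2 (c.1 :: K)) :
    Good Y Goal n K := by
  simp only [chkBranch, Bool.and_eq_true, beq_iff_eq, decide_eq_true_eq, List.all_eq_true] at hchk
  obtain ⟨⟨⟨⟨⟨h1, h2⟩, h3⟩, h4⟩, h5⟩, h6⟩ := hchk
  refine branch Y Goal n K S h1 (by omega) h3 (by rw [← hwF_eq]; exact h4) ?_ h6 h
  intro i hi
  exact h5 i (List.mem_range.mpr (by omega))

/-- Adding a new point. -/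
theorem addpt (Y : Sys A) (Goal : Prop) {z n : ℕ} {K : List ℕ} (hz : Y.z = z)
    (hchk : decide (n < 24) && decide (z ≤ n) && K.all (fun k => decide (k < 2 ^ n)) = true)
    (h : Good Y Goal (n + 1) K) : Good Y Goal n K := by
  simp only [Bool.and_eq_true, decide_eq_true_eq, List.all_eq_true] at hchk
  obtain ⟨⟨hn, hzn⟩, hK⟩ := hchk
  intro f hf hZ hC
  have hcard : ((Finset.range n).image f).card < Fintype.card A := by
    rw [Y.card_A]
    exact lt_of_le_of_lt Finset.card_image_le (by simpa using hn)
  obtain ⟨x, hx⟩ : ∃ x, x ∉ (Finset.range n).image f := by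
    by_contra hall
    push Not at hall
    have : (Finset.range n).image f = Finset.univ := Finset.eq_univ_iff_forall.mpr hall
    rw [this, Finset.card_univ] at hcard
    omega
  let f' : ℕ → A := fun i => if i < n then f i else x
  have hf' : ∀ i < n, f' i = f i := fun i hi => by simp [f', hi]
  refine h f' ?_ ?_ ?_
  · intro i hi j hj hij
    by_cases h1 : i < n
    · by_cases h2 : j < n
      · rw [hf' i h1, hf' j h2] at hij
        exact hf i h1 j h2 hij
      · exfalso
        apply hx
        simp only [f', h1, h2, if_true, if_false] at hij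
        rw [← hij]
        exact Finset.mem_image_of_mem f (Finset.mem_range.mpr h1)
    · by_cases h2 : j < n
      · exfalso
        apply hx
        simp only [f', h1, h2, if_true, if_false] at hij
        rw [hij]
        exact Finset.mem_image_of_mem f (Finset.mem_range.mpr h2)
      · omega
  · rw [← hZ, hz]
    apply Finset.image_congr
    intro i hi
    exact hf' i (by have := Finset.mem_range.mp hi; omega)
  · intro k hk
    rw [img_congr hf' (hK k hk)]
    exact hC k hk

/-- The conclusion of the search. -/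
def Main (Y : Sys A) : Prop :=
  ∃ e : GolayPt ≃ A, (∀ o ∈ octads, (∀ i < Y.z, idxPt i ∈ o) → o.image e ∈ Y.Bl) ∧
    (Finset.range Y.z).image (fun i => e (idxPt i)) = Y.Z

/-- Checks for the leaf. -/
def chkLeaf (z : ℕ) (K g : List ℕ) : Bool :=
  g.length == 24 && decide g.Nodup && g.all (fun x => decide (x < 24)) && decide (z ≤ 5) &&
    (List.range z).all (fun i => g.getD i 0 == i) && K.all (fun k => decide (k < 2 ^ 24)) &&
    (octadsL.filter fun m => (List.range z).all (fun i => m.testBit i)).all
      (fun m => decide (apL g m < 2 ^ 24) && inSpan K (apL g m))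

theorem leaf (Y : Sys A) {z : ℕ} {K g : List ℕ} (hz : Y.z = z) (hchk : chkLeaf z K g = true) :
    Good Y (Main Y) 24 K := by
  simp only [chkLeaf, Bool.and_eq_true, beq_iff_eq, decide_eq_true_eq, List.all_eq_true, List.mem_filter] at hchk
  obtain ⟨⟨⟨⟨⟨⟨hlen, hnd⟩, hlt⟩, hz5⟩, hzg⟩, hK⟩, hT⟩ := hchk
  intro f hf hZ hC
  have hgetD : ∀ i (hi : i < 24), g.getD i 0 = g[i]'(by omega) :=
    fun i hi => List.getD_eq_getElem _ _ (by omega)
  have hlt' : ∀ i < 24, g.getD i 0 < 24 := fun i hi => by
    rw [hgetD i hi]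
    exact hlt _ (List.getElem_mem _)
  let e0 : GolayPt → A := fun p => f (g.getD (ptIdx p) 0)
  have he0 : Function.Injective e0 := by
    intro p q hpq
    have h1 := hf _ (hlt' _ (ptIdx_lt p)) _ (hlt' _ (ptIdx_lt q)) hpq
    rw [hgetD _ (ptIdx_lt p), hgetD _ (ptIdx_lt q)] at h1
    exact ptIdx_injective ((List.Nodup.getElem_inj_iff hnd).mp h1)
  have hbij : Function.Bijective e0 := by
    rw [Fintype.bijective_iff_injective_and_card]
    refine ⟨he0, ?_⟩
    rw [Y.card_A]
    rfl
  let e : GolayPt ≃ A := Equiv.ofBijective e0 hbij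
  have hey : ∀ i < 24, e (idxPt i) = f (g.getD i 0) := by
    intro i hi
    show f (g.getD (ptIdx (idxPt i)) 0) = _
    rw [ptIdx_idxPt hi]
  refine ⟨e, ?_, ?_⟩
  · intro o ho hPo
    have hoc := ho
    obtain ⟨m, hm, rfl⟩ := mem_octads_iff_L.mp ho
    have hbits : ∀ i < z, m.testBit i = true := by
      intro i hi
      have h1 : idxPt i ∈ supFin m := hPo i (by omega)
      rw [mem_supFin, ptIdx_idxPt (by omega)] at h1
      exact h1
    obtain ⟨h2', h2⟩ := hT m ⟨hm, fun i hi => hbits i (List.mem_range.mp hi)⟩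
    have h3 := inSpan_spec Y (le_refl 24) hf hK hC h2' h2
    have hmlt : m < 2 ^ g.length := by
      rw [hlen]
      simpa using List.all_eq_true.mp octadsL_lt m hm
    rw [img_apL (fun x hx => hlt x hx) hmlt (by omega)] at h3
    have h4 : img (fun i => f (g.getD i 0)) m = (supFin m).image e := by
      ext x
      simp only [mem_img, Finset.mem_image]
      constructor
      · rintro ⟨i, hi, h5, rfl⟩
        refine ⟨idxPt i, ?_, hey i hi⟩
        rw [mem_supFin, ptIdx_idxPt hi]
        exact h5
      · rintro ⟨p, hp, rfl⟩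
        refine ⟨ptIdx p, ptIdx_lt p, ?_, ?_⟩
        · rwa [mem_supFin] at hp
        · show _ = e p
          rw [← hey _ (ptIdx_lt p), idxPt_ptIdx]
    rw [h4] at h3
    have hcard : ((supFin m).image e).card = 8 := by
      rw [Finset.card_image_of_injective _ e.injective]
      exact card_of_mem_octads hoc
    refine wt8_mem h3 hcard ?_ (by omega)
    rw [← hZ]
    intro x hx
    obtain ⟨i, hi, rfl⟩ := Finset.mem_image.mp hx
    have hi' := Finset.mem_range.mp hi
    refine Finset.mem_image.mpr ⟨idxPt i, hPo i (by omega), ?_⟩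
    rw [hey i (by omega), hzg i (List.mem_range.mpr (by omega))]
  · rw [← hZ]
    apply Finset.image_congr
    intro i hi
    have hi' := Finset.mem_range.mp hi
    show e (idxPt i) = f i
    rw [hey i (by omega), hzg i (List.mem_range.mpr (by omega))]

/-- The start of the search. -/
theorem start (Y : Sys A) (Goal : Prop) (hz5 : Y.z ≤ 5) (h : Good Y Goal 8 [255]) : Goal := by
  obtain ⟨S, hS1, _, hS3⟩ := Finset.exists_subsuperset_card_eq (Finset.subset_univ Y.Z)
    (show Y.Z.card ≤ 5 by rw [Y.Z_card]; exact hz5)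
    (show 5 ≤ (Finset.univ : Finset A).card by rw [Finset.card_univ, Y.card_A]; norm_num)
  obtain ⟨d, hd, hSd⟩ := Y.block S hS3 hS1
  have hZd : Y.Z ⊆ d := hS1.trans hSd
  have hdc := Y.card_bl d hd
  let l : List A := Y.Z.toList ++ (d \ Y.Z).toList
  have hlen : l.length = 8 := by
    rw [List.length_append, Finset.length_toList, Finset.length_toList, Finset.card_sdiff_of_subset hZd, hdc,
      Y.Z_card]
    omega
  have hnd : l.Nodup := by
    rw [List.nodup_append]
    refine ⟨Finset.nodup_toList _, Finset.nodup_toList _, ?_⟩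
    intro a ha b hb hab
    subst hab
    have h1 := Finset.mem_toList.mp ha
    have h2 := Finset.mem_toList.mp hb
    exact (Finset.mem_sdiff.mp h2).2 h1
  obtain ⟨x0, _⟩ : d.Nonempty := Finset.card_pos.mp (by omega)
  let f : ℕ → A := fun i => l.getD i x0
  have hget : ∀ i (hi : i < 8), f i = l[i]'(by omega) := fun i hi => List.getD_eq_getElem _ _ (by omega)
  have hZlen : Y.Z.toList.length = Y.z := by rw [Finset.length_toList, Y.Z_card]
  refine h f ?_ ?_ ?_
  · intro i hi j hj hij
    rw [hget i hi, hget j hj] at hij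
    exact (List.Nodup.getElem_inj_iff hnd).mp hij
  · ext y
    simp only [Finset.mem_image, Finset.mem_range]
    constructor
    · rintro ⟨i, hi, rfl⟩
      rw [hget i (by omega)]
      simp only [l]
      rw [List.getElem_append_left (by omega)]
      exact Finset.mem_toList.mp (List.getElem_mem _)
    · intro hy
      obtain ⟨i, hi, rfl⟩ := List.mem_iff_getElem.mp (Finset.mem_toList.mpr hy)
      refine ⟨i, by omega, ?_⟩
      rw [hget i (by omega)]
      simp only [l]
      rw [List.getElem_append_left hi]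
  · intro k hk
    rw [List.mem_singleton] at hk
    subst hk
    have : img f 255 = d := by
      ext y
      rw [mem_img]
      constructor
      · rintro ⟨i, hi, h2, rfl⟩
        have hi8 : i < 8 := bit_lt (n := 8) (by norm_num) h2
        have : l[i]'(by omega) ∈ l := List.getElem_mem _
        rw [hget i hi8]
        simp only [l, List.mem_append, Finset.mem_toList] at this
        rcases this with h3 | h3
        · exact hZd h3
        · exact (Finset.mem_sdiff.mp h3).1
      · intro hy
        have hyl : y ∈ l := by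
          simp only [l, List.mem_append, Finset.mem_toList, Finset.mem_sdiff]
          by_cases hyZ : y ∈ Y.Z
          · exact Or.inl hyZ
          · exact Or.inr ⟨hy, hyZ⟩
        obtain ⟨i, hi, rfl⟩ := List.mem_iff_getElem.mp hyl
        have hi8 : i < 8 := by omega
        refine ⟨i, by omega, ?_, hget i hi8⟩
        interval_cases i <;> decide
    rw [this]
    exact bl_code hd

end Cfsg.Agent.Lib.SteinerSearch
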