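import Cfsg.Agent.Lib.SteinerSearch
import Cfsg.Agent.Lib.SteinerNums

/-!
# A verified search for labelings of the small Steiner systems

A system `Sys2 A v t k allow`: blocks of size `k` on `v` points, intersections of distinct blocks of size in
`allow`, every `t`-set in a block, closed under complements when `2 k = v`.
-/

set_option autoImplicit false
set_option linter.constructorNameAsVariable false
set_option linter.unusedSectionVars false

namespace Cfsg.Agent.Lib.SteinerSmall

open Cfsg Cfsg.Agent.Lib.GolayCode Cfsg.Agent.Lib.GolayFacts Cfsg.Agent.Lib.GolayFast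
  Cfsg.Agent.Lib.GolayFastData Cfsg.Agent.Lib.GolaySets Cfsg.Agent.Lib.SteinerSearch Finset

/-- A system of blocks. -/
structure Sys2 (A : Type*) [DecidableEq A] [Fintype A] (v t k : ℕ) (allow : List ℕ) where
  card_A : Fintype.card A = v
  Bl : Set (Finset A)
  card_bl : ∀ b ∈ Bl, b.card = k
  inter : ∀ b ∈ Bl, ∀ c ∈ Bl, b ≠ c → (b ∩ c).card ∈ allow
  block : ∀ S : Finset A, S.card = t → ∃ d ∈ Bl, S ⊆ d
  cmpl : 2 * k = v → ∀ b ∈ Bl, bᶜ ∈ Bl

variable {A : Type*} [DecidableEq A] [Fintype A] {v t k : ℕ} {allow : List ℕ}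

/-- All candidates for the block through `S`. -/
def allC2 (v t k n S : ℕ) : List (ℕ × ℕ) :=
  ((List.range (k - t + 1)).filter fun u => decide (n + u ≤ v)).flatMap fun u =>
    ((kSub n (k - t - u)).filter fun T => T &&& S == 0).map fun T => (S ||| T ||| newMask n u, n + u)

/-- Admissibility. -/
def adm2 (allow K : List ℕ) (m : ℕ) : Bool :=
  K.all (fun c => m == c || allow.contains (hwF (m &&& c)))

/-- The candidates. -/
def cands2 (v t k : ℕ) (allow : List ℕ) (n : ℕ) (K : List ℕ) (S : ℕ) : List (ℕ × ℕ) :=
  (allC2 v t k n S).filter fun c => adm2 allow K c.1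

/-- Induction statement on a labeling. -/
def Good2 (Y : Sys2 A v t k allow) (Goal : Prop) (n : ℕ) (K : List ℕ) : Prop :=
  ∀ f : ℕ → A, Inj f n → (∀ m ∈ K, img f m ∈ Y.Bl) → Goal

theorem img_inj {f : ℕ → A} {n a b : ℕ} (hn : n ≤ 24) (hf : Inj f n) (ha : a < 2 ^ n) (hb : b < 2 ^ n)
    (h : img f a = img f b) : a = b := by
  have key : ∀ {x y : ℕ}, x < 2 ^ n → y < 2 ^ n → img f x = img f y → ∀ i, x.testBit i = true → y.testBit i = true := by
    intro x y hx hy hxy i hi
    have hin : i < n := bit_lt hx hi
    have h1 : f i ∈ img f x := mem_img.mpr ⟨i, by omega, hi, rfl⟩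
    rw [hxy] at h1
    obtain ⟨j, _, h2, h3⟩ := mem_img.mp h1
    have := hf j (bit_lt hy h2) i hin h3
    subst this
    exact h2
  apply Nat.eq_of_testBit_eq
  intro i
  cases h1 : a.testBit i
  · cases h2 : b.testBit i
    · rfl
    · have := key hb ha h.symm i h2
      rw [h1] at this
      exact absurd this (by simp)
  · exact (key ha hb h i h1).symm

/-- The branching lemma. -/
theorem branch2 (Y : Sys2 A v t k allow) (Goal : Prop) (n : ℕ) (K : List ℕ) (S : ℕ) (hv : v ≤ 24) (hn : n ≤ v)
    (htk : t ≤ k) (hS : S < 2 ^ n) (hS5 : hw 24 S = t)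
    (hK : ∀ c ∈ K, c < 2 ^ n) (h : ∀ c ∈ cands2 v t k allow n K S, Good2 Y Goal c.2 (c.1 :: K)) : Good2 Y Goal n K := by
  intro f hf hC
  have hn24 : n ≤ 24 := by omega
  have hSset : (img f S).card = t := by rw [card_img hn24 hf hS, hS5]
  obtain ⟨d, hd, hSd⟩ := Y.block _ hSset
  have hdc := Y.card_bl d hd
  -- the labeled points
  set Im := (Finset.range n).image f with hIm
  have hImc : Im.card = n := by
    rw [hIm, Finset.card_image_of_injOn, Finset.card_range]
    intro i hi j hj hij
    exact hf i (Finset.mem_range.mp hi) j (Finset.mem_range.mp hj) hij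
  set D' := d \ Im with hD'
  set u := D'.card with hu
  set T' := (d ∩ Im) \ img f S with hT'
  have hSIm : img f S ⊆ d ∩ Im := by
    intro x hx
    refine Finset.mem_inter.mpr ⟨hSd hx, ?_⟩
    obtain ⟨i, _, h2, rfl⟩ := mem_img.mp hx
    exact Finset.mem_image_of_mem f (Finset.mem_range.mpr (bit_lt hS h2))
  have hcards : T'.card + u = k - t := by
    have h1 : T'.card = (d ∩ Im).card - t := by
      rw [hT', Finset.card_sdiff_of_subset hSIm, hSset]
    have h2 : (d ∩ Im).card + u = k := by
      rw [← hdc, hu, hD']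
      exact Finset.card_inter_add_card_sdiff d Im
    have h3 : t ≤ (d ∩ Im).card := by
      rw [← hSset]
      exact Finset.card_le_card hSIm
    omega
  have hnu : n + u ≤ v := by
    have h1 : Disjoint Im D' := Finset.disjoint_sdiff
    have h2 := Finset.card_le_univ (Im ∪ D')
    rw [Finset.card_union_of_disjoint h1, hImc, Y.card_A] at h2
    exact h2
  -- the mask of old points
  let T : ℕ := Nat.ofBits (n := n) fun i => decide (f i ∈ T')
  have hTlt : T < 2 ^ n := Nat.ofBits_lt_two_pow _
  have hTbit : ∀ i, T.testBit i = true ↔ i < n ∧ f i ∈ T' := by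
    intro i
    by_cases hi : i < n
    · have : T.testBit i = decide (f i ∈ T') := by
        exact Nat.testBit_ofBits_lt _ i hi
      rw [this]
      simp [hi]
    · have : T.testBit i = false := testBit_false_of_lt hTlt (by omega)
      rw [this]
      simp [hi]
  have himgT : img f T = T' := by
    ext x
    rw [mem_img]
    constructor
    · rintro ⟨i, _, h2, rfl⟩
      exact ((hTbit i).mp h2).2
    · intro hx
      have h1 : x ∈ Im := (Finset.mem_inter.mp (Finset.mem_sdiff.mp hx).1).2
      obtain ⟨i, hi, rfl⟩ := Finset.mem_image.mp h1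
      have hi' := Finset.mem_range.mp hi
      exact ⟨i, by omega, (hTbit i).mpr ⟨hi', hx⟩, rfl⟩
  have hTc : hw 24 T = T'.card := by
    rw [← himgT, card_img hn24 hf hTlt]
  have hTS : T &&& S = 0 := by
    apply Nat.eq_of_testBit_eq
    intro i
    simp only [Nat.testBit_land, Nat.zero_testBit]
    cases h1 : T.testBit i
    · rfl
    · cases h2 : S.testBit i
      · rfl
      · exfalso
        have h3 := ((hTbit i).mp h1).2
        exact (Finset.mem_sdiff.mp h3).2 (mem_img.mpr ⟨i, by have := bit_lt hS h2; omega, h2, rfl⟩)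
  -- the extended labeling
  let l := D'.toList
  let f' : ℕ → A := fun i => if i < n then f i else l.getD (i - n) (f 0)
  have hf'1 : ∀ i < n, f' i = f i := fun i hi => by simp [f', hi]
  have hlen : l.length = u := Finset.length_toList _
  have hf'2 : ∀ i, n ≤ i → i < n + u → f' i ∈ D' := by
    intro i h1 h2
    simp only [f', show ¬ i < n by omega, if_false]
    rw [List.getD_eq_getElem _ _ (by omega)]
    exact Finset.mem_toList.mp (List.getElem_mem _)
  have hf'inj : Inj f' (n + u) := by
    intro i hi j hj hij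
    by_cases h1 : i < n
    · by_cases h2 : j < n
      · rw [hf'1 i h1, hf'1 j h2] at hij
        exact hf i h1 j h2 hij
      · exfalso
        have h3 := hf'2 j (by omega) hj
        rw [← hij, hf'1 i h1] at h3
        exact (Finset.mem_sdiff.mp h3).2 (Finset.mem_image_of_mem f (Finset.mem_range.mpr h1))
    · by_cases h2 : j < n
      · exfalso
        have h3 := hf'2 i (by omega) hi
        rw [hij, hf'1 j h2] at h3
        exact (Finset.mem_sdiff.mp h3).2 (Finset.mem_image_of_mem f (Finset.mem_range.mpr h2))
      · simp only [f', h1, h2, if_false] at hij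
        rw [List.getD_eq_getElem _ _ (by omega), List.getD_eq_getElem _ _ (by omega)] at hij
        have := (List.Nodup.getElem_inj_iff (Finset.nodup_toList D')).mp hij
        omega
  -- the mask of the block
  set m := S ||| T ||| newMask n u with hm
  have hmlt : m < 2 ^ (n + u) := by
    apply Nat.or_lt_two_pow
    · apply Nat.or_lt_two_pow
      · exact lt_of_lt_of_le hS (two_pow_mono (by omega))
      · exact lt_of_lt_of_le hTlt (two_pow_mono (by omega))
    · rw [newMask, pow_add]
      have : 2 ^ u - 1 < 2 ^ u := Nat.sub_lt (by positivity) (by norm_num)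
      exact Nat.mul_lt_mul_of_pos_left this (by positivity)
  have hmimg : img f' m = d := by
    ext x
    rw [mem_img]
    constructor
    · rintro ⟨i, _, h2, rfl⟩
      rw [hm, Nat.testBit_or, Nat.testBit_or, testBit_newMask, Bool.or_eq_true, Bool.or_eq_true] at h2
      rcases h2 with (h2 | h2) | h2
      · have hi := bit_lt hS h2
        rw [hf'1 i hi]
        exact hSd (mem_img.mpr ⟨i, by omega, h2, rfl⟩)
      · obtain ⟨hi, h3⟩ := (hTbit i).mp h2
        rw [hf'1 i hi]
        exact (Finset.mem_inter.mp (Finset.mem_sdiff.mp h3).1).1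
      · simp only [Bool.and_eq_true, decide_eq_true_eq] at h2
        exact (Finset.mem_sdiff.mp (hf'2 i h2.1 h2.2)).1
    · intro hx
      by_cases hxIm : x ∈ Im
      · obtain ⟨i, hi, rfl⟩ := Finset.mem_image.mp hxIm
        have hi' := Finset.mem_range.mp hi
        refine ⟨i, by omega, ?_, hf'1 i hi'⟩
        rw [hm, Nat.testBit_or, Nat.testBit_or, Bool.or_eq_true, Bool.or_eq_true]
        by_cases hxS : f i ∈ img f S
        · obtain ⟨j, _, h3, h4⟩ := mem_img.mp hxS
          have := hf j (bit_lt hS h3) i hi' h4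
          subst this
          exact Or.inl (Or.inl h3)
        · exact Or.inl (Or.inr ((hTbit i).mpr ⟨hi', Finset.mem_sdiff.mpr
            ⟨Finset.mem_inter.mpr ⟨hx, hxIm⟩, hxS⟩⟩))
      · have hxD : x ∈ l := Finset.mem_toList.mpr (Finset.mem_sdiff.mpr ⟨hx, hxIm⟩)
        obtain ⟨k', hk', rfl⟩ := List.mem_iff_getElem.mp hxD
        refine ⟨n + k', by omega, ?_, ?_⟩
        · rw [hm, Nat.testBit_or, testBit_newMask]
          have : (decide (n ≤ n + k') && decide (n + k' < n + u)) = true := by
            simp only [Bool.and_eq_true, decide_eq_true_eq]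
            omega
          rw [this, Bool.or_true]
        · simp only [f', show ¬ (n + k' < n) by omega, if_false, Nat.add_sub_cancel_left]
          rw [List.getD_eq_getElem _ _ hk']
  have hKf' : ∀ c ∈ K, img f' c = img f c := fun c hc => img_congr hf'1 (hK c hc)
  have hCf' : ∀ c ∈ K, img f' c ∈ Y.Bl := fun c hc => by rw [hKf' c hc]; exact hC c hc
  have hK' : ∀ c ∈ K, c < 2 ^ (n + u) := fun c hc =>
    lt_of_lt_of_le (hK c hc) (two_pow_mono (by omega))
  have hdm : (m, n + u) ∈ cands2 v t k allow n K S := by
    rw [cands2, List.mem_filter]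
    constructor
    · rw [allC2, List.mem_flatMap]
      refine ⟨u, ?_, ?_⟩
      · rw [List.mem_filter]
        constructor
        · rw [List.mem_range]
          omega
        · simpa using hnu
      · rw [List.mem_map]
        refine ⟨T, ?_, rfl⟩
        rw [List.mem_filter]
        constructor
        · rw [mem_kSub]
          refine ⟨hTlt, ?_⟩
          rw [hw_eq_card]
          rw [hw_eq_card] at hTc
          have : (Finset.range n).filter (fun i => T.testBit i = true)
              = (Finset.range 24).filter (fun i => T.testBit i = true) := by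
            ext i
            simp only [Finset.mem_filter, Finset.mem_range]
            constructor
            · rintro ⟨h1, h2⟩
              exact ⟨by omega, h2⟩
            · rintro ⟨h1, h2⟩
              exact ⟨bit_lt hTlt h2, h2⟩
          rw [this, hTc]
          omega
        · rw [hTS]
          rfl
    · rw [adm2, List.all_eq_true]
      intro c hc
      rw [Bool.or_eq_true, beq_iff_eq]
      by_cases hmc : m = c
      · exact Or.inl hmc
      · refine Or.inr ?_
        have hdne : d ≠ img f' c := by
          intro he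
          rw [← hmimg] at he
          exact hmc (img_inj (by omega) hf'inj hmlt (hK' c hc) he)
        have h1 := Y.inter d hd _ (hCf' c hc) hdne
        rw [← hmimg, ← img_and (by omega) hf'inj hmlt (hK' c hc),
          card_img (by omega) hf'inj (Nat.and_lt_two_pow _ (hK' c hc)), ← hwF_eq] at h1
        simpa using h1
  refine h _ hdm f' hf'inj ?_
  intro c hc
  rcases List.mem_cons.mp hc with rfl | hc
  · show img f' m ∈ Y.Bl
    rw [hmimg]
    exact hd
  · exact hCf' c hc

/-- Checks for the branching step. -/
def chkBranch2 (v t k n : ℕ) (K : List ℕ) (S : ℕ) : Bool :=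
  decide (v ≤ 24) && decide (n ≤ v) && decide (t ≤ k) && decide (S < 2 ^ n) && (hwF S == t) &&
    K.all (fun c => decide (c < 2 ^ n))

theorem branch2' (Y : Sys2 A v t k allow) (Goal : Prop) {n : ℕ} {K : List ℕ} {S : ℕ}
    (hchk : chkBranch2 v t k n K S = true) (h : ∀ c ∈ cands2 v t k allow n K S, Good2 Y Goal c.2 (c.1 :: K)) :
    Good2 Y Goal n K := by
  simp only [chkBranch2, Bool.and_eq_true, beq_iff_eq, decide_eq_true_eq, List.all_eq_true] at hchk
  obtain ⟨⟨⟨⟨⟨h1, h2⟩, h3⟩, h4⟩, h5⟩, h6⟩ := hchk
  exact branch2 Y Goal n K S h1 h2 h3 h4 (by rw [← hwF_eq]; exact h5) h6 h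

/-- Checks for the relabeling step. -/
def chkRelabel2 (n0 : ℕ) (K0 : List ℕ) (n : ℕ) (K π : List ℕ) : Bool :=
  π.length == n0 && decide π.Nodup && π.all (fun x => decide (x < n)) && decide (n ≤ 24) && decide (n0 ≤ 24) &&
    K0.all (fun c => decide (c < 2 ^ n0) && K.contains (apL π c))

theorem relabel2 (Y : Sys2 A v t k allow) (Goal : Prop) {n0 : ℕ} {K0 : List ℕ} {n : ℕ} {K : List ℕ} (π : List ℕ)
    (hchk : chkRelabel2 n0 K0 n K π = true) (h : Good2 Y Goal n0 K0) : Good2 Y Goal n K := by
  simp only [chkRelabel2, Bool.and_eq_true, beq_iff_eq, decide_eq_true_eq, List.all_eq_true] at hchk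
  obtain ⟨⟨⟨⟨⟨hlen, hnd⟩, hlt⟩, hn⟩, hn0⟩, hK0⟩ := hchk
  intro f hf hC
  have hgetD : ∀ i (hi : i < n0), π.getD i 0 = π[i]'(by omega) :=
    fun i hi => List.getD_eq_getElem _ _ (by omega)
  have hlt' : ∀ i < n0, π.getD i 0 < n := fun i hi => by
    rw [hgetD i hi]
    exact hlt _ (List.getElem_mem _)
  have hf0 : Inj (fun i => f (π.getD i 0)) n0 := by
    intro i hi j hj hij
    have h1 := hf _ (hlt' i hi) _ (hlt' j hj) hij
    rw [hgetD i hi, hgetD j hj] at h1
    exact (List.Nodup.getElem_inj_iff hnd).mp h1
  refine h _ hf0 ?_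
  intro c hc
  obtain ⟨h1, h2⟩ := hK0 c hc
  have h3 := hC _ (by simpa using h2)
  rw [img_apL (fun x hx => by have := hlt x hx; omega) (by rw [hlen]; exact h1) (by omega)] at h3
  exact h3

/-- Adding a new point. -/
theorem addpt2 (Y : Sys2 A v t k allow) (Goal : Prop) {n : ℕ} {K : List ℕ}
    (hchk : decide (n < v) && K.all (fun c => decide (c < 2 ^ n)) = true)
    (h : Good2 Y Goal (n + 1) K) : Good2 Y Goal n K := by
  simp only [Bool.and_eq_true, decide_eq_true_eq, List.all_eq_true] at hchk
  obtain ⟨hn, hK⟩ := hchk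
  intro f hf hC
  have hcard : ((Finset.range n).image f).card < Fintype.card A := by
    rw [Y.card_A]
    exact lt_of_le_of_lt Finset.card_image_le (by simpa using hn)
  obtain ⟨x, hx⟩ : ∃ x, x ∉ (Finset.range n).image f := by
    by_contra hall
    push Not at hall
    have : (Finset.range n).image f = Finset.univ := Finset.eq_univ_iff_forall.mpr hall
    rw [this, Finset.card_univ] at hcard
    omega
  let f' : ℕ → A := fun i => if i < n then f i else x
  have hf' : ∀ i < n, f' i = f i := fun i hi => by simp [f', hi]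
  refine h f' ?_ ?_
  · intro i hi j hj hij
    by_cases h1 : i < n
    · by_cases h2 : j < n
      · rw [hf' i h1, hf' j h2] at hij
        exact hf i h1 j h2 hij
      · exfalso
        apply hx
        simp only [f', h1, h2, if_true, if_false] at hij
        rw [← hij]
        exact Finset.mem_image_of_mem f (Finset.mem_range.mpr h1)
    · by_cases h2 : j < n
      · exfalso
        apply hx
        simp only [f', h1, h2, if_true, if_false] at hij
        rw [hij]
        exact Finset.mem_image_of_mem f (Finset.mem_range.mpr h2)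
      · omega
  · intro c hc
    rw [img_congr hf' (hK c hc)]
    exact hC c hc

/-- Surjectivity of a full labeling. -/
theorem exists_label (Y : Sys2 A v t k allow) {f : ℕ → A} (hf : Inj f v) (x : A) : ∃ i < v, f i = x := by
  have h1 : ((Finset.range v).image f).card = Fintype.card A := by
    rw [Finset.card_image_of_injOn, Finset.card_range, Y.card_A]
    intro i hi j hj hij
    exact hf i (Finset.mem_range.mp hi) j (Finset.mem_range.mp hj) hij
  have h2 : (Finset.range v).image f = Finset.univ := by
    apply Finset.eq_univ_of_card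
    exact h1
  have h3 : x ∈ (Finset.range v).image f := by
    rw [h2]
    exact Finset.mem_univ _
  obtain ⟨i, hi, he⟩ := Finset.mem_image.mp h3
  exact ⟨i, Finset.mem_range.mp hi, he⟩

/-- The complement of a mask. -/
theorem img_compl (Y : Sys2 A v t k allow) {f : ℕ → A} (hv : v ≤ 24) (hf : Inj f v) {m : ℕ} (hm : m < 2 ^ v) :
    img f ((2 ^ v - 1) ^^^ m) = (img f m)ᶜ := by
  ext x
  obtain ⟨i, hi, rfl⟩ := exists_label Y hf x
  simp only [Finset.mem_compl, mem_img, not_exists, not_and]
  constructor
  · rintro ⟨j, _, h2, h3⟩ l _ h5 h6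
    have hjv : j < v := by
      by_contra hc
      push Not at hc
      have h7 : ((2 ^ v - 1) ^^^ m).testBit j = false := by
        rw [Nat.testBit_xor, Nat.testBit_two_pow_sub_one, testBit_false_of_lt hm hc]
        simp [show ¬ j < v by omega]
      rw [h7] at h2
      exact absurd h2 (by simp)
    have hlv := bit_lt hm h5
    have hji := hf j hjv i hi h3
    have hli := hf l hlv i hi h6
    subst hji
    subst hli
    rw [Nat.testBit_xor, Nat.testBit_two_pow_sub_one, h5] at h2
    simp at h2
    omega
  · intro h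
    refine ⟨i, by omega, ?_, rfl⟩
    rw [Nat.testBit_xor, Nat.testBit_two_pow_sub_one]
    have h1 : m.testBit i = false := by
      cases h2 : m.testBit i
      · rfl
      · exact absurd rfl (h i (by omega) h2)
    rw [h1]
    simp [hi]

/-- Adding the complement of a mask. -/
theorem cmpl2 (Y : Sys2 A v t k allow) (Goal : Prop) {K : List ℕ} {m : ℕ}
    (hchk : decide (v ≤ 24) && decide (2 * k = v) && decide (m < 2 ^ v) && K.contains m = true)
    (h : Good2 Y Goal v (((2 ^ v - 1) ^^^ m) :: K)) : Good2 Y Goal v K := by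
  simp only [Bool.and_eq_true, decide_eq_true_eq] at hchk
  obtain ⟨⟨⟨hv, h2k⟩, hm⟩, hK⟩ := hchk
  intro f hf hC
  refine h f hf ?_
  intro c hc
  rcases List.mem_cons.mp hc with rfl | hc
  · rw [img_compl Y hv hf hm]
    exact Y.cmpl h2k _ (hC m (by simpa using hK))
  · exact hC c hc

/-- The conclusion of the search. -/
def Main2 (Y : Sys2 A v t k allow) (Std : List ℕ) : Prop :=
  ∃ h : ℕ → A, Inj h v ∧ ∀ m ∈ Std, img h m ∈ Y.Bl

/-- Checks for the leaf. -/
def chkLeaf2 (v : ℕ) (Std K g : List ℕ) : Bool :=
  g.length == v && decide g.Nodup && g.all (fun x => decide (x < v)) && decide (v ≤ 24) &&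
    Std.all (fun m => decide (m < 2 ^ v) && K.contains (apL g m))

theorem leaf2 (Y : Sys2 A v t k allow) {Std K g : List ℕ} (hchk : chkLeaf2 v Std K g = true) :
    Good2 Y (Main2 Y Std) v K := by
  simp only [chkLeaf2, Bool.and_eq_true, beq_iff_eq, decide_eq_true_eq, List.all_eq_true] at hchk
  obtain ⟨⟨⟨⟨hlen, hnd⟩, hlt⟩, hv⟩, hS⟩ := hchk
  intro f hf hC
  have hgetD : ∀ i (hi : i < v), g.getD i 0 = g[i]'(by omega) :=
    fun i hi => List.getD_eq_getElem _ _ (by omega)
  have hlt' : ∀ i < v, g.getD i 0 < v := fun i hi => by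
    rw [hgetD i hi]
    exact hlt _ (List.getElem_mem _)
  refine ⟨fun i => f (g.getD i 0), ?_, ?_⟩
  · intro i hi j hj hij
    have h1 := hf _ (hlt' i hi) _ (hlt' j hj) hij
    rw [hgetD i hi, hgetD j hj] at h1
    exact (List.Nodup.getElem_inj_iff hnd).mp h1
  · intro m hm
    obtain ⟨h1, h2⟩ := hS m hm
    have h3 := hC _ (by simpa using h2)
    rw [img_apL (fun x hx => by have := hlt x hx; omega) (by rw [hlen]; exact h1) (by omega)] at h3
    exact h3

/-- The start of the search. -/
theorem start2 (Y : Sys2 A v t k allow) (Goal : Prop) (htv : t ≤ v) (hk0 : 0 < k) (hk : k ≤ 24)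
    (h : Good2 Y Goal k [2 ^ k - 1]) : Goal := by
  obtain ⟨S, _, hS3⟩ := Finset.exists_subset_card_eq (s := (Finset.univ : Finset A)) (n := t)
    (by rw [Finset.card_univ, Y.card_A]; exact htv)
  obtain ⟨d, hd, _⟩ := Y.block S hS3
  have hdc := Y.card_bl d hd
  let l : List A := d.toList
  have hlen : l.length = k := by
    rw [Finset.length_toList, hdc]
  have hnd : l.Nodup := Finset.nodup_toList _
  obtain ⟨x0, _⟩ : d.Nonempty := Finset.card_pos.mp (by omega)
  let f : ℕ → A := fun i => l.getD i x0
  have hget : ∀ i (hi : i < k), f i = l[i]'(by omega) := fun i hi => List.getD_eq_getElem _ _ (by omega)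
  refine h f ?_ ?_
  · intro i hi j hj hij
    rw [hget i hi, hget j hj] at hij
    exact (List.Nodup.getElem_inj_iff hnd).mp hij
  · intro c hc
    rw [List.mem_singleton] at hc
    subst hc
    have : img f (2 ^ k - 1) = d := by
      ext y
      rw [mem_img]
      constructor
      · rintro ⟨i, hi, h2, rfl⟩
        have hik : i < k := by
          rw [Nat.testBit_two_pow_sub_one] at h2
          simpa using h2
        rw [hget i hik]
        exact Finset.mem_toList.mp (List.getElem_mem _)
      · intro hy
        obtain ⟨i, hi, rfl⟩ := List.mem_iff_getElem.mp (Finset.mem_toList.mpr hy)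
        have hik : i < k := by
          have : i < l.length := hi
          omega
        refine ⟨i, by omega, ?_, hget i hik⟩
        rw [Nat.testBit_two_pow_sub_one]
        simpa using hik
    rw [this]
    exact hd

end Cfsg.Agent.Lib.SteinerSmall
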