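import Cfsg.Agent.Lib.SteinerSmallUnique
import Cfsg.Agent.Lib.GolaySimple
import Cfsg.Agent.Lib.GolayOctad
import Cfsg.Prelude.Def_Sporadic

/-!
# Automorphism groups of `S(5,6,12)` and `S(4,5,11)`
-/

set_option autoImplicit false
set_option linter.constructorNameAsVariable false
set_option linter.unusedSectionVars false
set_option linter.style.haveILetI false
set_option maxRecDepth 100000

open scoped Pointwise

namespace Cfsg.Agent.Lib.SteinerSmallAut

open Cfsg Cfsg.Agent.Lib.GolayCode Cfsg.Agent.Lib.GolayFacts Cfsg.Agent.Lib.GolayFast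
  Cfsg.Agent.Lib.GolayFastData Cfsg.Agent.Lib.SteinerSearch Cfsg.Agent.Lib.SteinerStd
  Cfsg.Agent.Lib.SteinerSmallUnique Finset

section transport

variable {X Y : Type*} [DecidableEq X] [DecidableEq Y]

theorem smul_image_permCongr (e : X ≃ Y) (σ : Equiv.Perm X) (s : Finset X) :
    (e.permCongr σ) • (s.image e) = (σ • s).image e := by
  ext y
  simp only [Finset.mem_smul_finset, Finset.mem_image, Equiv.Perm.smul_def]
  constructor
  · rintro ⟨_, ⟨x, hx, rfl⟩, rfl⟩
    refine ⟨σ x, ⟨x, hx, rfl⟩, ?_⟩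
    simp [Equiv.permCongr_apply]
  · rintro ⟨_, ⟨x, hx, rfl⟩, rfl⟩
    refine ⟨e x, ⟨x, hx, rfl⟩, ?_⟩
    simp [Equiv.permCongr_apply]

theorem mem_aut_of_forall {X : Type*} [DecidableEq X] {F : Set (Finset X)} [Finite X] {τ : Equiv.Perm X}
    (h : ∀ b ∈ F, τ • b ∈ F) : τ ∈ setSystemAut F := by
  rw [MulAction.mem_stabilizer_iff]
  apply Set.eq_of_subset_of_ncard_le
  · rintro _ ⟨b, hb, rfl⟩
    exact h b hb
  · rw [Set.ncard_smul_set]
  · exact Set.toFinite _

theorem smul_mem_of_aut {X : Type*} [DecidableEq X] {F : Set (Finset X)} {τ : Equiv.Perm X}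
    (h : τ ∈ setSystemAut F) {b : Finset X} (hb : b ∈ F) : τ • b ∈ F := by
  rw [MulAction.mem_stabilizer_iff] at h
  rw [← h]
  exact Set.smul_mem_smul_set hb

/-- Transport of the automorphism group. -/
theorem permCongr_mem_aut [Finite X] [Finite Y] (e : X ≃ Y) (F : Set (Finset X)) {σ : Equiv.Perm X}
    (hσ : σ ∈ setSystemAut F) : e.permCongr σ ∈ setSystemAut ((fun s => s.image e) '' F) := by
  refine mem_aut_of_forall ?_
  rintro _ ⟨s, hs, rfl⟩
  show e.permCongr σ • s.image e ∈ _
  rw [smul_image_permCongr]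
  exact ⟨_, smul_mem_of_aut hσ hs, rfl⟩

theorem permCongr_mem_aut' [Finite X] [Finite Y] (e : X ≃ Y) (F : Set (Finset X)) {σ : Equiv.Perm X}
    (hσ : e.permCongr σ ∈ setSystemAut ((fun s => s.image e) '' F)) : σ ∈ setSystemAut F := by
  refine mem_aut_of_forall ?_
  intro s hs
  have h1 : s.image e ∈ (fun s => s.image e) '' F := ⟨s, hs, rfl⟩
  have h2 := smul_mem_of_aut hσ h1
  rw [smul_image_permCongr] at h2
  obtain ⟨t, ht, he⟩ := h2
  rwa [← Finset.image_injective e.injective he]

end transport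

section abstract

variable {Γ X Y : Type*} [Group Γ] [Fintype X] [DecidableEq X] [Fintype Y] [DecidableEq Y] {k : ℕ}

/-- The abstract situation: a sharply transitive group of automorphisms of a family, which has no other
automorphisms fixing a base. -/
structure Setup (Φ : Γ →* Equiv.Perm X) (F : Set (Finset X)) (b : Fin k ↪ X) : Prop where
  hinj : Function.Injective Φ
  hmem : ∀ g, Φ g ∈ setSystemAut F
  htrans : ∀ x : Fin k ↪ X, ∃ g, ∀ i, Φ g (b i) = x i
  hbase : ∀ ρ ∈ setSystemAut F, (∀ i, ρ (b i) = b i) → ρ = 1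

variable {Φ : Γ →* Equiv.Perm X} {F : Set (Finset X)} {b : Fin k ↪ X}

theorem Setup.surj (S : Setup Φ F b) {ρ : Equiv.Perm X} (hρ : ρ ∈ setSystemAut F) : ∃ g, Φ g = ρ := by
  obtain ⟨g, hg⟩ := S.htrans (b.trans ρ.toEmbedding)
  refine ⟨g, ?_⟩
  have h1 : (Φ g)⁻¹ * ρ = 1 := by
    refine S.hbase _ (mul_mem (inv_mem (S.hmem g)) hρ) (fun i => ?_)
    show (Φ g)⁻¹ (ρ (b i)) = b i
    rw [Equiv.Perm.inv_eq_iff_eq]
    exact (hg i).symm
  exact (inv_mul_eq_one.mp h1)

/-- The group is the automorphism group. -/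
noncomputable def Setup.equiv (S : Setup Φ F b) : Γ ≃* setSystemAut F :=
  MulEquiv.ofBijective (Φ.codRestrict (setSystemAut F) S.hmem)
    ⟨fun a c h => S.hinj (congrArg Subtype.val h), fun ρ => by
      obtain ⟨g, hg⟩ := S.surj ρ.2
      exact ⟨g, Subtype.ext hg⟩⟩

/-- The automorphisms of the transported family. -/
noncomputable def autEquiv (e : X ≃ Y) (F : Set (Finset X)) :
    setSystemAut F ≃* setSystemAut ((fun s => s.image e) '' F) where
  toFun σ := ⟨e.permCongr σ.1, permCongr_mem_aut e F σ.2⟩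
  invFun τ := ⟨e.symm.permCongr τ.1, by
    apply permCongr_mem_aut' e F
    have : e.permCongr (e.symm.permCongr τ.1) = τ.1 := by
      ext y
      simp [Equiv.permCongr_apply]
    rw [this]
    exact τ.2⟩
  left_inv σ := by
    apply Subtype.ext
    ext x
    simp [Equiv.permCongr_apply]
  right_inv τ := by
    apply Subtype.ext
    ext x
    simp [Equiv.permCongr_apply]
  map_mul' σ τ := by
    apply Subtype.ext
    ext x
    simp [Equiv.permCongr_apply]

theorem Setup.trans' (S : Setup Φ F b) (e : X ≃ Y) :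
    MulAction.IsMultiplyPretransitive (setSystemAut ((fun s => s.image e) '' F)) Y k := by
  refine ⟨fun x y => ?_⟩
  obtain ⟨g1, h1⟩ := S.htrans (x.trans e.symm.toEmbedding)
  obtain ⟨g2, h2⟩ := S.htrans (y.trans e.symm.toEmbedding)
  refine ⟨autEquiv e F ⟨Φ g2 * (Φ g1)⁻¹, mul_mem (S.hmem _) (inv_mem (S.hmem _))⟩, ?_⟩
  ext i
  show e.permCongr (Φ g2 * (Φ g1)⁻¹) (x i) = y i
  rw [Equiv.permCongr_apply]
  have h3 : (Φ g1)⁻¹ (e.symm (x i)) = b i := by
    rw [Equiv.Perm.inv_eq_iff_eq]
    exact (h1 i).symm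
  rw [Equiv.Perm.mul_apply, h3, h2 i]
  simp

theorem Setup.sharp' (S : Setup Φ F b) (e : X ≃ Y) (x : Fin k ↪ Y) :
    MulAction.stabilizer (setSystemAut ((fun s => s.image e) '' F)) x = ⊥ := by
  rw [eq_bot_iff]
  intro τ hτ
  rw [Subgroup.mem_bot]
  rw [MulAction.mem_stabilizer_iff] at hτ
  obtain ⟨g, hg⟩ := S.htrans (x.trans e.symm.toEmbedding)
  have hτ' : e.symm.permCongr τ.1 ∈ setSystemAut F := by
    apply permCongr_mem_aut' e F
    have : e.permCongr (e.symm.permCongr τ.1) = τ.1 := by
      ext y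
      simp [Equiv.permCongr_apply]
    rw [this]
    exact τ.2
  have h1 : (Φ g)⁻¹ * (e.symm.permCongr τ.1) * Φ g = 1 := by
    refine S.hbase _ (mul_mem (mul_mem (inv_mem (S.hmem g)) hτ') (S.hmem g)) (fun i => ?_)
    show (Φ g)⁻¹ ((e.symm.permCongr τ.1) (Φ g (b i))) = b i
    rw [Equiv.Perm.inv_eq_iff_eq, hg i]
    show e.symm.permCongr τ.1 (e.symm (x i)) = e.symm (x i)
    rw [Equiv.permCongr_apply]
    simp only [Equiv.symm_symm, Equiv.apply_symm_apply]
    have h2 := DFunLike.congr_fun hτ i
    show e.symm (τ.1 (x i)) = _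
    exact congrArg e.symm h2
  have h2 : e.symm.permCongr τ.1 = 1 := by
    have : e.symm.permCongr τ.1 = Φ g * ((Φ g)⁻¹ * (e.symm.permCongr τ.1) * Φ g) * (Φ g)⁻¹ := by group
    rw [this, h1]
    simp
  apply Subtype.ext
  ext y
  have h3 := congrArg (fun σ : Equiv.Perm X => e (σ (e.symm y))) h2
  simpa [Equiv.permCongr_apply] using h3

end abstract

/-! ### The base lemma -/

/-- A relabeling list from the images on `rest`. -/
def mkL (v : ℕ) (rest q : List ℕ) : List ℕ :=
  (List.range v).map fun i => if rest.contains i then q.getD (rest.idxOf i) 0 else i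

/-- The check of the base lemma. -/
def chkBase (v : ℕ) (Std base : List ℕ) (m0 c : ℕ) (rest : List ℕ) : Bool :=
  Std.contains m0 && Std.all (fun m => !(base.all m.testBit) || m == m0) && base.all m0.testBit && m0.testBit c &&
    (List.range v).all (fun i => !m0.testBit i || base.contains i || i == c) &&
    (rest == (List.range v).filter (fun i => !m0.testBit i)) && !base.contains c && decide (c < v) &&
    Std.all (fun m => decide (m < 2 ^ v)) && base.all (fun i => decide (i < v)) &&
    (List.permutations' rest).all (fun q => q == rest || !(Std.all (fun m => Std.contains (apL (mkL v rest q) m))))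

theorem mkL_length (v : ℕ) (rest q : List ℕ) : (mkL v rest q).length = v := by simp [mkL]

section base

variable {v : ℕ} {Std base : List ℕ} {m0 c : ℕ} {rest : List ℕ}

/-- The values of a permutation, as a list. -/
def valL (ρ : Equiv.Perm (Fin v)) : List ℕ := List.ofFn fun i => (ρ i).val

theorem valL_length (ρ : Equiv.Perm (Fin v)) : (valL ρ).length = v := by simp [valL]

theorem valL_getD (ρ : Equiv.Perm (Fin v)) (i : Fin v) : (valL ρ).getD i 0 = (ρ i).val := by
  rw [List.getD_eq_getElem _ _ (by rw [valL_length]; exact i.2)]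
  simp [valL]

/-- The action on masks. -/
theorem apL_valL {ρ : Equiv.Perm (Fin v)} (hv : v ≤ 24) (hlt : ∀ m ∈ Std, m < 2 ^ v)
    (hρ : ρ ∈ setSystemAut (fam v Std)) {m : ℕ} (hm : m ∈ Std) :
    ∃ m' ∈ Std, ρ • (supp m : Finset (Fin v)) = supp m' ∧ apL (valL ρ) m = m' := by
  obtain ⟨m', hm', he⟩ := Cfsg.Agent.Lib.SteinerSmallAut.smul_mem_of_aut hρ
    (show (supp m : Finset (Fin v)) ∈ fam v Std from ⟨m, hm, rfl⟩)
  refine ⟨m', hm', he, ?_⟩
  apply Nat.eq_of_testBit_eq
  intro y
  have key : (apL (valL ρ) m).testBit y = true ↔ m'.testBit y = true := by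
    rw [testBit_apL]
    constructor
    · rintro ⟨i, hi, h1, h2⟩
      have hi' : i < v := by rwa [valL_length] at hi
      have h3 : ρ ⟨i, hi'⟩ ∈ ρ • (supp m : Finset (Fin v)) :=
        Finset.mem_smul_finset.mpr ⟨⟨i, hi'⟩, mem_supp.mpr h2, rfl⟩
      rw [he, mem_supp] at h3
      have h4 : (valL ρ)[i] = (ρ ⟨i, hi'⟩).val := by simp [valL]
      rw [← h1, h4]
      exact h3
    · intro h1
      have hy : y < v := by
        by_contra hc
        push Not at hc
        rw [testBit_false_of_lt (hlt m' hm') hc] at h1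
        exact absurd h1 (by simp)
      have h2 : (⟨y, hy⟩ : Fin v) ∈ ρ • (supp m : Finset (Fin v)) := by
        rw [he, mem_supp]
        exact h1
      obtain ⟨i, hi, hie⟩ := Finset.mem_smul_finset.mp h2
      refine ⟨i.val, by rw [valL_length]; exact i.2, ?_, mem_supp.mp hi⟩
      have h4 : (valL ρ)[i.val]'(by rw [valL_length]; exact i.2) = (ρ i).val := by simp [valL]
      rw [h4]
      have : ρ i = ⟨y, hy⟩ := hie
      rw [this]
  cases h1 : (apL (valL ρ) m).testBit y <;> cases h2 : m'.testBit y <;> simp_all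

theorem base_lemma (hv : v ≤ 24) (hchk : chkBase v Std base m0 c rest = true) {ρ : Equiv.Perm (Fin v)}
    (hρ : ρ ∈ setSystemAut (fam v Std)) (hfix : ∀ i (hi : i < v), i ∈ base → ρ ⟨i, hi⟩ = ⟨i, hi⟩) : ρ = 1 := by
  simp only [chkBase, Bool.and_eq_true, List.all_eq_true, beq_iff_eq, decide_eq_true_eq, Bool.or_eq_true,
    Bool.not_eq_true', List.contains_iff_mem, Bool.or_eq_true] at hchk
  obtain ⟨⟨⟨⟨⟨⟨⟨⟨⟨⟨hm0, huniq⟩, hb0⟩, hc0⟩, hcov⟩, hrest⟩, hcb⟩, hcv⟩, hlt⟩, hbv⟩, hperm⟩ := hchk
  -- the fixed block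
  obtain ⟨m', hm', he, -⟩ := apL_valL hv hlt hρ hm0
  have hm'0 : m' = m0 := by
    rcases huniq m' hm' with h1 | h1
    · exfalso
      have h2 : (base.all m'.testBit) = true := by
        rw [List.all_eq_true]
        intro i hi
        have hiv := hbv i hi
        have h3 : (⟨i, hiv⟩ : Fin v) ∈ (supp m' : Finset (Fin v)) := by
          rw [← he, Finset.mem_smul_finset]
          refine ⟨⟨i, hiv⟩, mem_supp.mpr (List.all_eq_true.mp (by simpa using hb0) i hi), hfix i hiv hi⟩
        exact mem_supp.mp h3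
      rw [h2] at h1
      exact absurd h1 (by simp)
    · exact h1
  subst hm'0
  -- all points of the block are fixed
  have hcfix : ρ ⟨c, hcv⟩ = ⟨c, hcv⟩ := by
    have h3 : ρ ⟨c, hcv⟩ ∈ (supp m' : Finset (Fin v)) := by
      rw [← he]
      exact Finset.mem_smul_finset.mpr ⟨⟨c, hcv⟩, mem_supp.mpr hc0, rfl⟩
    have h4 := mem_supp.mp h3
    rcases hcov _ (List.mem_range.mpr (ρ ⟨c, hcv⟩).2) with (h5 | h5) | h5
    · rw [h4] at h5
      exact absurd h5 (by simp)
    · exfalso
      have h6 := hfix _ (ρ ⟨c, hcv⟩).2 h5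
      have h7 : ρ (ρ ⟨c, hcv⟩) = ρ ⟨c, hcv⟩ := h6
      have h8 := ρ.injective h7
      rw [h8] at h5
      exact absurd h5 (by simpa using hcb)
    · exact Fin.ext h5
  have hblock : ∀ i : Fin v, m'.testBit i = true → ρ i = i := by
    intro i hi
    rcases hcov i (List.mem_range.mpr i.2) with (h5 | h5) | h5
    · rw [hi] at h5
      exact absurd h5 (by simp)
    · exact hfix i i.2 h5
    · have : i = ⟨c, hcv⟩ := Fin.ext h5
      rw [this]
      exact hcfix
  -- the rest
  subst hrest
  let rest := (List.range v).filter (fun i => !m'.testBit i)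
  have hmemrest : ∀ i, i ∈ rest ↔ i < v ∧ m'.testBit i = false := by
    intro i
    simp [rest]
  let L := valL ρ
  have hL : ∀ i : Fin v, L.getD i 0 = (ρ i).val := fun i => valL_getD ρ i
  let q := rest.map (fun i => L.getD i 0)
  have hnd : rest.Nodup := (List.nodup_range).filter _
  have hqnd : q.Nodup := by
    refine hnd.map_on ?_
    intro a ha b hb hab
    have ha' := ((hmemrest a).mp ha).1
    have hb' := ((hmemrest b).mp hb).1
    have h1 := hL ⟨a, ha'⟩
    have h2 := hL ⟨b, hb'⟩
    have h3 : (ρ ⟨a, ha'⟩).val = (ρ ⟨b, hb'⟩).val := by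
      rw [← h1, ← h2]
      exact hab
    have h4 := ρ.injective (Fin.ext h3)
    exact congrArg Fin.val h4
  have hqsub : q ⊆ rest := by
    intro y hy
    obtain ⟨a, ha, rfl⟩ := List.mem_map.mp hy
    obtain ⟨ha1, ha2⟩ := (hmemrest a).mp ha
    have h1 := hL ⟨a, ha1⟩
    simp only at h1
    rw [hmemrest]
    rw [h1]
    refine ⟨(ρ ⟨a, ha1⟩).2, ?_⟩
    cases h2 : m'.testBit (ρ ⟨a, ha1⟩).val
    · rfl
    · exfalso
      have h3 := hblock _ h2
      have h4 := ρ.injective h3
      rw [h4] at h2
      simp only at h2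
      rw [ha2] at h2
      exact absurd h2 (by simp)
  have hqp : q.Perm rest := by
    refine (List.subperm_of_subset hqnd hqsub).perm_of_length_le ?_
    simp [q]
  have hqm : q ∈ List.permutations' rest := List.mem_permutations'.mpr hqp
  have hmk : mkL v rest q = L := by
    apply List.ext_getElem
    · rw [mkL_length, valL_length]
    · intro i h1 h2
      have hi : i < v := by rwa [mkL_length] at h1
      simp only [mkL, List.getElem_map, List.getElem_range]
      have h3 := hL ⟨i, hi⟩
      simp only at h3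
      rw [List.getD_eq_getElem _ _ h2] at h3
      rw [h3]
      by_cases h4 : i ∈ rest
      · have h5 : rest.contains i = true := by simpa using h4
        rw [if_pos h5]
        have h6 : rest.idxOf i < rest.length := List.idxOf_lt_length_iff.mpr h4
        rw [List.getD_eq_getElem _ _ (by simpa [q] using h6)]
        simp only [q, List.getElem_map, List.getElem_idxOf]
        have h7 := hL ⟨i, hi⟩
        exact h7
      · have h5 : rest.contains i = false := by simpa using h4
        rw [if_neg (by simpa using h4)]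
        have h6 : m'.testBit i = true := by
          cases h7 : m'.testBit i
          · exact absurd ((hmemrest i).mpr ⟨hi, h7⟩) h4
          · rfl
        have h8 := hblock ⟨i, hi⟩ h6
        rw [h8]
  have hq : q = rest := by
    rcases hperm q hqm with h1 | h1
    · exact h1
    · exfalso
      rw [hmk] at h1
      have h2 : (Std.all fun m => Std.contains (apL L m)) = true := by
        rw [List.all_eq_true]
        intro m hm
        obtain ⟨m2, hm2, -, h3⟩ := apL_valL hv hlt hρ hm
        show Std.contains (apL (valL ρ) m) = true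
        rw [h3]
        simpa using hm2
      rw [h2] at h1
      exact absurd h1 (by simp)
  have hfixrest : ∀ i : Fin v, i.val ∈ rest → ρ i = i := by
    intro i hi
    have h1 : L.getD i 0 = i.val := by
      have h2 := congrArg (fun l => l.getD (rest.idxOf i.val) 0) hq
      have h3 : rest.idxOf i.val < rest.length := List.idxOf_lt_length_iff.mpr hi
      simp only [q] at h2
      rw [List.getD_eq_getElem _ _ (by simpa using h3), List.getD_eq_getElem _ _ h3] at h2
      simpa using h2
    rw [hL i] at h1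
    exact Fin.ext h1
  ext i
  by_cases h : i.val ∈ rest
  · rw [hfixrest i h]
    rfl
  · have h6 : m'.testBit i = true := by
      cases h7 : m'.testBit i
      · exact absurd ((hmemrest i).mpr ⟨i.2, h7⟩) h
      · rfl
    rw [hblock i h6]
    rfl

end base

/-! ### Concrete positions -/

section concrete

variable {v k : ℕ} {π : List ℕ} {mask : ℕ}

/-- Positions in the dodecad. -/
def posF (π : List ℕ) (v : ℕ) (i : Fin v) : GolayPt := idxPt (π.getD i 0)

/-- Conditions on a list of positions. -/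
structure PosOK (v : ℕ) (π : List ℕ) (mask : ℕ) : Prop where
  len : π.length = v
  nd : π.Nodup
  lt : ∀ x ∈ π, x < 24
  hmask : ∀ x < 24, mask.testBit x = true ↔ x ∈ π

theorem PosOK.getD (h : PosOK v π mask) (i : Fin v) : π.getD i 0 = π[i.val]'(by rw [h.len]; exact i.2) :=
  List.getD_eq_getElem _ _ _

theorem PosOK.inj (h : PosOK v π mask) : Function.Injective (posF π v) := by
  intro i j hij
  have h1 : ptIdx (posF π v i) = ptIdx (posF π v j) := congrArg _ hij
  simp only [posF, h.getD] at h1
  rw [ptIdx_idxPt (h.lt _ (List.getElem_mem _)), ptIdx_idxPt (h.lt _ (List.getElem_mem _))] at h1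
  exact Fin.ext ((List.Nodup.getElem_inj_iff h.nd).mp h1)

theorem PosOK.mem (h : PosOK v π mask) (i : Fin v) : posF π v i ∈ supFin mask := by
  rw [mem_supFin, posF, h.getD, ptIdx_idxPt (h.lt _ (List.getElem_mem _))]
  exact (h.hmask _ (h.lt _ (List.getElem_mem _))).mpr (List.getElem_mem _)

theorem PosOK.exists_of_mem (h : PosOK v π mask) {p : GolayPt} (hp : p ∈ supFin mask) : ∃ i, posF π v i = p := by
  rw [mem_supFin] at hp
  have h1 := (h.hmask _ (ptIdx_lt p)).mp hp
  obtain ⟨i, hi, he⟩ := List.mem_iff_getElem.mp h1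
  refine ⟨⟨i, by rw [← h.len]; exact hi⟩, ?_⟩
  rw [posF, h.getD]
  simp only
  rw [he, idxPt_ptIdx]

/-- The labeling of the dodecad by coordinates. -/
noncomputable def PosOK.E (h : PosOK v π mask) : Fin v ≃ {p // p ∈ supFin mask} :=
  Equiv.ofBijective (fun i => ⟨posF π v i, h.mem i⟩)
    ⟨fun i j hij => h.inj (congrArg Subtype.val hij), fun p => by
      obtain ⟨i, hi⟩ := h.exists_of_mem p.2
      exact ⟨i, Subtype.ext hi⟩⟩

theorem PosOK.E_val (h : PosOK v π mask) (i : Fin v) : (h.E i).1 = posF π v i := rfl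

/-- Restriction of a permutation preserving a set. -/
def resPerm (P : Finset GolayPt) (g : Equiv.Perm GolayPt) (hg : g • P = P) : Equiv.Perm {p // p ∈ P} where
  toFun x := ⟨g x.1, by
    have h1 : g x.1 ∈ g • P := Finset.mem_smul_finset.mpr ⟨x.1, x.2, rfl⟩
    rwa [hg] at h1⟩
  invFun x := ⟨g⁻¹ x.1, by
    have h1 : x.1 ∈ g • P := by
      rw [hg]
      exact x.2
    obtain ⟨y, hy, he⟩ := Finset.mem_smul_finset.mp h1
    have : g⁻¹ x.1 = y := by
      rw [Equiv.Perm.inv_eq_iff_eq]
      exact he.symm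
    rw [this]
    exact hy⟩
  left_inv x := by
    apply Subtype.ext
    simp
  right_inv x := by
    apply Subtype.ext
    simp

/-- Restriction as a homomorphism. -/
def resHom (Γ : Subgroup (Equiv.Perm GolayPt)) (P : Finset GolayPt) (hP : ∀ g ∈ Γ, g • P = P) :
    Γ →* Equiv.Perm {p // p ∈ P} where
  toFun g := resPerm P g.1 (hP _ g.2)
  map_one' := by
    ext x
    rfl
  map_mul' a b := by
    ext x
    rfl

/-- The coordinate action. -/
noncomputable def phi (h : PosOK v π mask) (Γ : Subgroup (Equiv.Perm GolayPt)) (hP : ∀ g ∈ Γ, g • supFin mask = supFin mask) :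
    Γ →* Equiv.Perm (Fin v) :=
  (h.E.symm.permCongrHom.toMonoidHom).comp (resHom Γ (supFin mask) hP)

theorem phi_spec (h : PosOK v π mask) {Γ : Subgroup (Equiv.Perm GolayPt)} (hP : ∀ g ∈ Γ, g • supFin mask = supFin mask)
    (g : Γ) (i : Fin v) : posF π v (phi h Γ hP g i) = g.1 (posF π v i) := by
  have h1 : h.E (phi h Γ hP g i) = resHom Γ (supFin mask) hP g (h.E i) := by
    show h.E (h.E.symm.permCongr (resHom Γ (supFin mask) hP g) i) = _
    simp [Equiv.permCongr_apply]
  have h2 := congrArg Subtype.val h1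
  exact h2

theorem image_supp (h : PosOK v π mask) (m : ℕ) :
    (supp m : Finset (Fin v)).image (posF π v) = supFin (apL π m) := by
  ext p
  simp only [Finset.mem_image, mem_supp, mem_supFin]
  rw [testBit_apL]
  constructor
  · rintro ⟨i, hi, rfl⟩
    have hlt := h.lt (π[i.val]'(by rw [h.len]; exact i.2)) (List.getElem_mem _)
    refine ⟨i.val, by rw [h.len]; exact i.2, ?_, hi⟩
    rw [posF, h.getD, ptIdx_idxPt hlt]
  · rintro ⟨i, hi, h1, h2⟩
    refine ⟨⟨i, by rw [← h.len]; exact hi⟩, h2, ?_⟩
    rw [posF, h.getD]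
    simp only
    rw [h1, idxPt_ptIdx]

/-- The check describing the family by octads. -/
def chkChar (v k : ℕ) (π : List ℕ) (mask : ℕ) (qb : ℕ → Bool) (Std : List ℕ) : Bool :=
  Std.all (fun m => decide (m < 2 ^ v) && hwF (apL π m) == k &&
      octadsL.any (fun x => qb x && x &&& mask == apL π m)) &&
    octadsL.all (fun x => !qb x || hwF (x &&& mask) != k || Std.any (fun m => apL π m == x &&& mask))

theorem supFin_and (a b : ℕ) : supFin (a &&& b) = supFin a ∩ supFin b := by
  ext p
  simp [Nat.testBit_land]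

theorem mem_fam_iff (h : PosOK v π mask) {q : Finset GolayPt → Prop} {qb : ℕ → Bool}
    (hq : ∀ x, q (supFin x) ↔ qb x = true) {Std : List ℕ} (hchk : chkChar v k π mask qb Std = true)
    (s : Finset (Fin v)) :
    s ∈ fam v Std ↔ ∃ o ∈ octads, q o ∧ o ∩ supFin mask = s.image (posF π v) ∧ s.card = k := by
  simp only [chkChar, Bool.and_eq_true, List.all_eq_true, decide_eq_true_eq, beq_iff_eq, List.any_eq_true,
    Bool.or_eq_true, Bool.not_eq_true', bne_eq_false_iff_eq] at hchk
  obtain ⟨h1, h2⟩ := hchk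
  have hinj : Function.Injective (fun s : Finset (Fin v) => s.image (posF π v)) :=
    Finset.image_injective h.inj
  constructor
  · rintro ⟨m, hm, rfl⟩
    obtain ⟨⟨_, h4⟩, x, hx, hqx, hxe⟩ := h1 m hm
    refine ⟨supFin x, supFin_mem_octads_of_mem hx, (hq x).mpr hqx, ?_, ?_⟩
    · rw [← supFin_and, hxe, image_supp h]
    · have h5 := image_supp h m (v := v)
      have h6 := congrArg Finset.card h5
      rw [Finset.card_image_of_injective _ h.inj, card_supFin, ← hwF_eq, h4] at h6
      exact h6
  · rintro ⟨o, ho, hqo, hoe, hcard⟩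
    obtain ⟨x, hx, rfl⟩ := mem_octads_iff_L.mp ho
    rw [← supFin_and] at hoe
    have hw : hwF (x &&& mask) = k := by
      rw [hwF_eq, ← card_supFin, hoe, Finset.card_image_of_injective _ h.inj, hcard]
    rcases h2 x hx with (h3 | h3) | h3
    · have := (hq x).mp hqo
      rw [this] at h3
      exact absurd h3 (by simp)
    · exact absurd hw (by simpa using h3)
    · obtain ⟨m, hm, hme⟩ := h3
      refine ⟨m, hm, hinj ?_⟩
      show s.image (posF π v) = (supp m : Finset (Fin v)).image (posF π v)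
      rw [← hoe, image_supp h, hme]

theorem smul_mem_octads' {σ : Equiv.Perm GolayPt} (hσ : σ ∈ M24) {o : Finset GolayPt} (ho : o ∈ octads) :
    σ • o ∈ octads := by
  have h : σ ∈ setSystemAut octads := by
    rw [← Cfsg.Agent.Lib.GolayOctad.M24_eq_setSystemAut]
    exact hσ
  exact smul_mem_of_aut h ho

/-- Elements of the group act by automorphisms of the family. -/
theorem phi_mem (h : PosOK v π mask) {q : Finset GolayPt → Prop} {qb : ℕ → Bool}
    (hq : ∀ x, q (supFin x) ↔ qb x = true) {Std : List ℕ} (hchk : chkChar v k π mask qb Std = true)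
    {Γ : Subgroup (Equiv.Perm GolayPt)} (hP : ∀ g ∈ Γ, g • supFin mask = supFin mask) (hM : Γ ≤ M24)
    (hqΓ : ∀ g ∈ Γ, ∀ o, q o → q (g • o)) (g : Γ) : phi h Γ hP g ∈ setSystemAut (fam v Std) := by
  refine mem_aut_of_forall fun s hs => ?_
  obtain ⟨o, ho, hqo, hoe, hcard⟩ := (mem_fam_iff h hq hchk s).mp hs
  refine (mem_fam_iff h hq hchk _).mpr ⟨g.1 • o, smul_mem_octads' (hM g.2) ho, hqΓ _ g.2 _ hqo, ?_, ?_⟩
  · have h1 : (phi h Γ hP g • s).image (posF π v) = g.1 • s.image (posF π v) := by
      ext p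
      simp only [Finset.mem_image, Finset.mem_smul_finset, Equiv.Perm.smul_def]
      constructor
      · rintro ⟨_, ⟨i, hi, rfl⟩, rfl⟩
        exact ⟨_, ⟨i, hi, rfl⟩, (phi_spec h hP g i).symm⟩
      · rintro ⟨_, ⟨i, hi, rfl⟩, rfl⟩
        exact ⟨_, ⟨i, hi, rfl⟩, phi_spec h hP g i⟩
    rw [h1, ← hoe, Finset.smul_finset_inter, hP _ g.2]
  · rw [Finset.card_smul_finset]
    exact hcard

theorem phi_eq_one (h : PosOK v π mask) {Γ : Subgroup (Equiv.Perm GolayPt)} (hP : ∀ g ∈ Γ, g • supFin mask = supFin mask)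
    {g : Γ} (hg : phi h Γ hP g = 1) {p : GolayPt} (hp : p ∈ supFin mask) : g.1 p = p := by
  obtain ⟨i, rfl⟩ := h.exists_of_mem hp
  rw [← phi_spec h hP g i, hg]
  rfl

end concrete

/-! ### The two cases -/

open Cfsg.Agent.Lib.GolayOrbit Cfsg.Agent.Lib.GolayM12 Cfsg.Agent.Lib.GolaySimple Cfsg.Agent.Lib.GolayKit
  Cfsg.Agent.Lib.GolayM12Data

theorem pos12 : PosOK 12 posL dod0 where
  len := by decide +kernel
  nd := by decide +kernel
  lt := by decide +kernel
  hmask := by decide +kernel

def dod1 : ℕ := 340830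

def posL1 : List ℕ := posL.tail

theorem pos11 : PosOK 11 posL1 dod1 where
  len := by decide +kernel
  nd := by decide +kernel
  lt := by decide +kernel
  hmask := by decide +kernel

theorem chk12 : chkChar 12 6 posL dod0 (fun _ => true) Std12 = true := by decide +kernel

theorem chk11 : chkChar 11 5 posL1 dod1 (fun x => x.testBit 0) Std11 = true := by decide +kernel

theorem base12 : chkBase 12 Std12 [0, 1, 2, 3, 4] 287 8 [5, 6, 7, 9, 10, 11] = true := by decide +kernel

theorem base11 : chkBase 11 Std11 [0, 1, 2, 3] 143 7 [4, 5, 6, 8, 9, 10] = true := by decide +kernel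

abbrev G12 : Subgroup (Equiv.Perm GolayPt) := stabS (supFin dod0)

theorem hP12 : ∀ g ∈ G12, g • supFin dod0 = supFin dod0 := fun _ hg => (mem_stabS.mp hg).2

theorem hd0 : supFin dod0 ∈ dodecads := dod0_mem_dodecads

/-- The base of the 12 point system. -/
def b12 : Fin 5 ↪ Fin 12 := Fin.castLEEmb (by norm_num)

theorem setup12 : Setup (phi pos12 G12 hP12) (fam 12 Std12) b12 := by
  constructor
  · rw [injective_iff_map_eq_one]
    intro g hg
    apply Subtype.ext
    exact eq_one_of_fix_m12Base g.2 (fun i hi => phi_eq_one pos12 hP12 hg (m12Base_mem ⟨i, hi⟩))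
  · intro g
    exact phi_mem pos12 (q := fun _ => True) (qb := fun _ => true) (fun _ => by simp) chk12 hP12
      (fun g hg => hg.1) (fun _ _ _ _ => trivial) g
  · intro x
    have hbad : ∀ w : Fin 5 ↪ Fin 12, ∀ a < 5, ∀ c < 5, a ≠ c →
        (fun a => if h : a < 5 then posF posL 12 (w ⟨a, h⟩) else none) a ≠
        (fun a => if h : a < 5 then posF posL 12 (w ⟨a, h⟩) else none) c := by
      intro w a ha c hc hac he
      simp only [dif_pos ha, dif_pos hc] at he
      have := w.injective (pos12.inj he)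
      exact hac (congrArg Fin.val this)
    have hbm : ∀ w : Fin 5 ↪ Fin 12, ∀ a < 5,
        (fun a => if h : a < 5 then posF posL 12 (w ⟨a, h⟩) else none) a ∈ supFin dod0 := by
      intro w a ha
      simp only [dif_pos ha]
      exact pos12.mem _
    obtain ⟨g, hg, hgx⟩ := exists_tuple_dodecad hd0 5 le_rfl _ _ (hbm b12) (hbm x) (hbad b12) (hbad x)
    refine ⟨⟨g, hg⟩, fun i => ?_⟩
    apply pos12.inj
    rw [phi_spec pos12 hP12]
    have := hgx i i.2
    simp only [i.2, dif_pos, Fin.eta] at this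
    exact this
  · intro ρ hρ hfix
    refine base_lemma (by norm_num) base12 hρ ?_
    intro i hi hm
    have h5 : i < 5 := by
      simp only [List.mem_cons, List.not_mem_nil, or_false] at hm
      omega
    exact hfix ⟨i, h5⟩

abbrev G11 : Subgroup (Equiv.Perm GolayPt) := stabSP (supFin dod0) (idxPt 0)

theorem supFin_dod1 : supFin dod1 = supFin dod0 \ {idxPt 0} := by decide +kernel

theorem hP11 : ∀ g ∈ G11, g • supFin dod1 = supFin dod1 := by
  intro g hg
  obtain ⟨_, h2, h3⟩ := mem_stabSP.mp hg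
  rw [supFin_dod1, Finset.smul_finset_sdiff, h2, Finset.smul_finset_singleton]
  congr 2

/-- The base of the 11 point system. -/
def b11 : Fin 4 ↪ Fin 11 := Fin.castLEEmb (by norm_num)

theorem posF11_ne (i : Fin 11) : posF posL1 11 i ≠ idxPt 0 := by
  have h1 := pos11.mem i
  rw [supFin_dod1] at h1
  intro h
  rw [h] at h1
  simp at h1

theorem setup11 : Setup (phi pos11 G11 hP11) (fam 11 Std11) b11 := by
  constructor
  · rw [injective_iff_map_eq_one]
    intro g hg
    apply Subtype.ext
    refine eq_one_of_fix_m12Base g.2.1 (fun i hi => ?_)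
    by_cases hi0 : i = 0
    · subst hi0
      exact (mem_stabSP.mp g.2).2.2
    · apply phi_eq_one pos11 hP11 hg
      rw [supFin_dod1, Finset.mem_sdiff]
      refine ⟨m12Base_mem ⟨i, hi⟩, ?_⟩
      simp only [Finset.mem_singleton]
      intro he
      have := congrArg ptIdx he
      have h3 : at0 m12Base i < 24 := by
        interval_cases i <;> decide
      rw [ptIdx_idxPt h3, ptIdx_idxPt (by norm_num)] at this
      apply hi0
      interval_cases i <;> first | rfl | exact absurd this (by decide)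
  · intro g
    refine phi_mem pos11 (q := fun o => idxPt 0 ∈ o) (qb := fun x => x.testBit 0) (fun x => ?_) chk11 hP11
      (fun g hg => hg.1.1) (fun g hg o ho => ?_) g
    · rw [mem_supFin, ptIdx_idxPt (by norm_num)]
    · rw [Finset.mem_smul_finset]
      exact ⟨_, ho, (mem_stabSP.mp hg).2.2⟩
  · intro x
    have hbad : ∀ w : Fin 4 ↪ Fin 11, ∀ a < 5, ∀ c < 5, a ≠ c →
        (fun a => if h : a = 0 then idxPt 0 else if h' : a - 1 < 4 then posF posL1 11 (w ⟨a - 1, h'⟩) else none) a ≠
        (fun a => if h : a = 0 then idxPt 0 else if h' : a - 1 < 4 then posF posL1 11 (w ⟨a - 1, h'⟩) else none) c := by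
      intro w a ha c hc hac he
      simp only at he
      by_cases h1 : a = 0
      · by_cases h2 : c = 0
        · omega
        · rw [dif_pos h1, dif_neg h2, dif_pos (show c - 1 < 4 by omega)] at he
          exact posF11_ne _ he.symm
      · by_cases h2 : c = 0
        · rw [dif_neg h1, dif_pos h2, dif_pos (show a - 1 < 4 by omega)] at he
          exact posF11_ne _ he
        · rw [dif_neg h1, dif_neg h2, dif_pos (show a - 1 < 4 by omega), dif_pos (show c - 1 < 4 by omega)] at he
          have := w.injective (pos11.inj he)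
          have h3 := congrArg Fin.val this
          simp only at h3
          omega
    have hbm : ∀ w : Fin 4 ↪ Fin 11, ∀ a < 5,
        (fun a => if h : a = 0 then idxPt 0 else if h' : a - 1 < 4 then posF posL1 11 (w ⟨a - 1, h'⟩) else none) a
          ∈ supFin dod0 := by
      intro w a ha
      simp only
      by_cases h1 : a = 0
      · rw [dif_pos h1]
        exact idxPt0_mem
      · rw [dif_neg h1, dif_pos (show a - 1 < 4 by omega)]
        have := pos11.mem (w ⟨a - 1, by omega⟩)
        rw [supFin_dod1] at this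
        exact (Finset.mem_sdiff.mp this).1
    obtain ⟨g, hg, hgx⟩ := exists_tuple_dodecad hd0 5 le_rfl _ _ (hbm b11) (hbm x) (hbad b11) (hbad x)
    have hg0 : g (idxPt 0) = idxPt 0 := by
      simpa using hgx 0 (by norm_num)
    refine ⟨⟨g, hg, hg0⟩, fun i => ?_⟩
    apply pos11.inj
    rw [phi_spec pos11 hP11]
    have hi := i.2
    have := hgx (i.val + 1) (by omega)
    simp only [Nat.add_eq_zero_iff, one_ne_zero, and_false, dite_false, Nat.add_sub_cancel, i.2, dif_pos,
      Fin.eta] at this
    exact this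
  · intro ρ hρ hfix
    refine base_lemma (by norm_num) base11 hρ ?_
    intro i hi hm
    have h5 : i < 4 := by
      simp only [List.mem_cons, List.not_mem_nil, or_false] at hm
      omega
    exact hfix ⟨i, h5⟩

variable {α : Type*} [Fintype α] [DecidableEq α] {B : Set (Finset α)}

/-- The automorphism group of an `S(5,6,12)`. -/
theorem aut12 (hα : Fintype.card α = 12) (hB : IsSteinerSystem 5 6 B) :
    IsM12 (setSystemAut B) ∧ MulAction.IsMultiplyPretransitive (setSystemAut B) α 5 ∧
      ∀ x : Fin 5 ↪ α, MulAction.stabilizer (setSystemAut B) x = ⊥ := by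
  obtain ⟨e, rfl⟩ := label12 hα hB
  let Ψ : G12 ≃* setSystemAut ((fun s : Finset (Fin 12) => s.image e) '' fam 12 Std12) :=
    setup12.equiv.trans (autEquiv e _)
  refine ⟨⟨?_, ?_⟩, setup12.trans' e, setup12.sharp' e⟩
  · haveI : IsSimpleGroup G12 := isSimple_stabS0
    exact Ψ.symm.isSimpleGroup
  · rw [← Nat.card_congr Ψ.toEquiv, ← Nat.card_congr (stabEquiv (supFin dod0)).toEquiv]
    exact card_stabilizer_dodecad hd0

/-- The automorphism group of an `S(4,5,11)`. -/
theorem aut11 (hα : Fintype.card α = 11) (hB : IsSteinerSystem 4 5 B) :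
    IsM11 (setSystemAut B) ∧ MulAction.IsMultiplyPretransitive (setSystemAut B) α 4 ∧
      ∀ x : Fin 4 ↪ α, MulAction.stabilizer (setSystemAut B) x = ⊥ := by
  obtain ⟨e, rfl⟩ := label11 hα hB
  let Ψ : G11 ≃* setSystemAut ((fun s : Finset (Fin 11) => s.image e) '' fam 11 Std11) :=
    setup11.equiv.trans (autEquiv e _)
  refine ⟨⟨?_, ?_⟩, setup11.trans' e, setup11.sharp' e⟩
  · haveI : IsSimpleGroup G11 := isSimple_stabSP0
    exact Ψ.symm.isSimpleGroup
  · rw [← Nat.card_congr Ψ.toEquiv]
    exact card_stabSP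

end Cfsg.Agent.Lib.SteinerSmallAut
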