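import Cfsg.Agent.Lib.SteinerCert11
import Cfsg.Agent.Lib.SteinerCert12

/-!
# Uniqueness of `S(5,6,12)` and `S(4,5,11)`
-/

set_option autoImplicit false
set_option linter.constructorNameAsVariable false
set_option linter.unusedSectionVars false

namespace Cfsg.Agent.Lib.SteinerSmallUnique

open Cfsg Cfsg.Agent.Lib.SteinerSearch Cfsg.Agent.Lib.SteinerSmall Cfsg.Agent.Lib.SteinerStd
  Cfsg.Agent.Lib.SteinerBasic Cfsg.Agent.Lib.SteinerNums Finset

variable {α : Type*} [Fintype α] [DecidableEq α] {B : Set (Finset α)}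

/-- The system attached to an `S(5,6,12)`. -/
def sys12 (hα : Fintype.card α = 12) (hB : IsSteinerSystem 5 6 B) : Sys2 α 12 5 6 [0, 2, 3, 4] where
  card_A := hα
  Bl := B
  card_bl := hB.1
  inter := fun b hb c hc hbc => by
    obtain ⟨_, h1, _⟩ := stats_5_6_12 hα hB hb
    have e1 := inter_ne hc h1
    rw [Finset.inter_comm] at e1
    have h4 := inter_lt hB hb hc hbc (by norm_num)
    simp only [List.mem_cons, List.not_mem_nil, or_false]
    omega
  block := fun S hS => by
    obtain ⟨d, ⟨hd1, hd2⟩, _⟩ := hB.2 S hS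
    exact ⟨d, hd1, hd2⟩
  cmpl := fun _ b hb => compl_5_6_12 hα hB hb

/-- The system attached to an `S(4,5,11)`. -/
def sys11 (hα : Fintype.card α = 11) (hB : IsSteinerSystem 4 5 B) : Sys2 α 11 4 5 [1, 2, 3] where
  card_A := hα
  Bl := B
  card_bl := hB.1
  inter := fun b hb c hc hbc => by
    obtain ⟨h1, _⟩ := stats_4_5_11 hα hB hb
    have e1 := inter_ne hc h1
    rw [Finset.inter_comm] at e1
    have h4 := inter_lt hB hb hc hbc (by norm_num)
    simp only [List.mem_cons, List.not_mem_nil, or_false]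
    omega
  block := fun S hS => by
    obtain ⟨d, ⟨hd1, hd2⟩, _⟩ := hB.2 S hS
    exact ⟨d, hd1, hd2⟩
  cmpl := fun h => by omega

/-- The support of a mask as a subset of `Fin v`. -/
def supp {v : ℕ} (m : ℕ) : Finset (Fin v) := Finset.univ.filter fun i => m.testBit i = true

theorem mem_supp {v : ℕ} {m : ℕ} {i : Fin v} : i ∈ (supp m : Finset (Fin v)) ↔ m.testBit i = true := by
  simp [supp]

/-- The family of a list of masks. -/
def fam (v : ℕ) (Std : List ℕ) : Set (Finset (Fin v)) := {s | ∃ m ∈ Std, s = supp m}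

theorem supp_inj {v : ℕ} {a b : ℕ} (ha : a < 2 ^ v) (hb : b < 2 ^ v) (h : (supp a : Finset (Fin v)) = supp b) :
    a = b := by
  apply Nat.eq_of_testBit_eq
  intro i
  by_cases hi : i < v
  · have h1 := congrArg (fun s => (⟨i, hi⟩ : Fin v) ∈ s) h
    simp only [mem_supp, eq_iff_iff] at h1
    cases h2 : a.testBit i <;> cases h3 : b.testBit i <;> simp_all
  · rw [testBit_false_of_lt ha (by omega), testBit_false_of_lt hb (by omega)]

theorem ncard_fam {v : ℕ} {Std : List ℕ} (hlt : ∀ m ∈ Std, m < 2 ^ v) (hnd : Std.Nodup) :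
    (fam v Std).ncard = Std.length := by
  have h1 : fam v Std = (fun m => (supp m : Finset (Fin v))) '' (Std.toFinset : Set ℕ) := by
    ext s
    simp only [fam, Set.mem_setOf_eq, Set.mem_image, Finset.mem_coe, List.mem_toFinset]
    constructor
    · rintro ⟨m, hm, rfl⟩
      exact ⟨m, hm, rfl⟩
    · rintro ⟨m, hm, rfl⟩
      exact ⟨m, hm, rfl⟩
  rw [h1, Set.ncard_image_of_injOn, Set.ncard_coe_finset, List.toFinset_card_of_nodup hnd]
  intro a ha b hb hab
  exact supp_inj (hlt a (by simpa using ha)) (hlt b (by simpa using hb)) hab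

/-- From a labeling to an isomorphism. -/
theorem label_of_main {v : ℕ} (hα : Fintype.card α = v) (hv : v ≤ 24) {Std : List ℕ} (hlt : ∀ m ∈ Std, m < 2 ^ v)
    (hnd : Std.Nodup) (hcard : B.ncard = Std.length)
    (h : ∃ h : ℕ → α, Inj h v ∧ ∀ m ∈ Std, img h m ∈ B) :
    ∃ e : Fin v ≃ α, (fun s : Finset (Fin v) => s.image e) '' fam v Std = B := by
  obtain ⟨f, hf, hS⟩ := h
  have hinj : Function.Injective (fun i : Fin v => f i) := by
    intro i j hij
    exact Fin.ext (hf i i.2 j j.2 hij)
  have hbij : Function.Bijective (fun i : Fin v => f i) := by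
    rw [Fintype.bijective_iff_injective_and_card]
    exact ⟨hinj, by simp [hα]⟩
  let e : Fin v ≃ α := Equiv.ofBijective _ hbij
  refine ⟨e, ?_⟩
  apply Set.eq_of_subset_of_ncard_le
  · rintro _ ⟨_, ⟨m, hm, rfl⟩, rfl⟩
    have h1 : (supp m : Finset (Fin v)).image e = img f m := by
      ext x
      simp only [Finset.mem_image, mem_supp, mem_img]
      constructor
      · rintro ⟨i, hi, rfl⟩
        exact ⟨i, by have := i.2; omega, hi, rfl⟩
      · rintro ⟨i, _, h2, rfl⟩
        exact ⟨⟨i, bit_lt (hlt m hm) h2⟩, h2, rfl⟩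
    show (supp m : Finset (Fin v)).image e ∈ B
    rw [h1]
    exact hS m hm
  · rw [Set.ncard_image_of_injective _ (Finset.image_injective e.injective), ncard_fam hlt hnd, hcard]
  · exact Set.toFinite _

theorem std12_lt : ∀ m ∈ Std12, m < 2 ^ 12 := by decide +kernel

theorem std12_nodup : Std12.Nodup := by decide +kernel

theorem std11_lt : ∀ m ∈ Std11, m < 2 ^ 11 := by decide +kernel

theorem std11_nodup : Std11.Nodup := by decide +kernel

theorem label12 (hα : Fintype.card α = 12) (hB : IsSteinerSystem 5 6 B) :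
    ∃ e : Fin 12 ≃ α, (fun s : Finset (Fin 12) => s.image e) '' fam 12 Std12 = B := by
  refine label_of_main hα (by norm_num) std12_lt std12_nodup ?_
    (Cfsg.Agent.Lib.SteinerCert12.main_thm (sys12 hα hB))
  have h3 := ncard_mul_choose hB
  rw [hα] at h3
  have h4 : Nat.choose 6 5 = 6 := by decide
  have h5 : Nat.choose 12 5 = 792 := by decide
  have h6 : Std12.length = 132 := by decide +kernel
  rw [h4, h5] at h3
  omega

theorem label11 (hα : Fintype.card α = 11) (hB : IsSteinerSystem 4 5 B) :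
    ∃ e : Fin 11 ≃ α, (fun s : Finset (Fin 11) => s.image e) '' fam 11 Std11 = B := by
  refine label_of_main hα (by norm_num) std11_lt std11_nodup ?_
    (Cfsg.Agent.Lib.SteinerCert11.main_thm (sys11 hα hB))
  have h3 := ncard_mul_choose hB
  rw [hα] at h3
  have h4 : Nat.choose 5 4 = 5 := by decide
  have h5 : Nat.choose 11 4 = 330 := by decide
  have h6 : Std11.length = 66 := by decide +kernel
  rw [h4, h5] at h3
  omega

theorem iso_of_labels {v : ℕ} {β : Type*} [Fintype β] [DecidableEq β] {B' : Set (Finset β)}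
    {F : Set (Finset (Fin v))} {e1 : Fin v ≃ α} {e2 : Fin v ≃ β}
    (h1 : (fun s : Finset (Fin v) => s.image e1) '' F = B) (h2 : (fun s : Finset (Fin v) => s.image e2) '' F = B') :
    SetSystemIso B B' := by
  refine ⟨e1.symm.trans e2, ?_⟩
  rw [← h1, ← h2, Set.image_image]
  apply Set.image_congr
  intro s _
  rw [Finset.image_image]
  apply Finset.image_congr
  intro i _
  simp

theorem unique12 {β : Type*} [Fintype β] [DecidableEq β] {B' : Set (Finset β)} (hα : Fintype.card α = 12)
    (hβ : Fintype.card β = 12) (hB : IsSteinerSystem 5 6 B) (hB' : IsSteinerSystem 5 6 B') : SetSystemIso B B' := by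
  obtain ⟨e1, h1⟩ := label12 hα hB
  obtain ⟨e2, h2⟩ := label12 hβ hB'
  exact iso_of_labels h1 h2

theorem unique11 {β : Type*} [Fintype β] [DecidableEq β] {B' : Set (Finset β)} (hα : Fintype.card α = 11)
    (hβ : Fintype.card β = 11) (hB : IsSteinerSystem 4 5 B) (hB' : IsSteinerSystem 4 5 B') : SetSystemIso B B' := by
  obtain ⟨e1, h1⟩ := label11 hα hB
  obtain ⟨e2, h2⟩ := label11 hβ hB'
  exact iso_of_labels h1 h2

end Cfsg.Agent.Lib.SteinerSmallUnique
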