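import Mathlib
import Cfsg.Prelude
import Cfsg.Agent.Lib.ConjFamily
import Cfsg.Agent.Lib.FusionSubgroup
import Cfsg.Agent.Lib.SylowCount

/-!
# Abelian strongly closed subgroups control strong fusion
-/

set_option autoImplicit false
set_option linter.all false

namespace Cfsg.Agent.Lib.StrongAb

open Cfsg Cfsg.Agent.Lib Cfsg.Agent.Lib.ConjFamily Cfsg.Agent.Lib.SylowIn

universe u

theorem stab_pow {X : Type*} [Group X] {k u : X} {d : X} (hd : k * u * k⁻¹ * u⁻¹ = d) (hkd : k * d * k⁻¹ = d) (j : ℕ) :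
    k ^ j * u * (k ^ j)⁻¹ = d ^ j * u := by
  have h1 : k * u * k⁻¹ = d * u := by
    rw [← hd]; group
  induction j with
  | zero => simp
  | succ j ih =>
    have hc : k * d ^ j * k⁻¹ = d ^ j := by
      rw [← conj_pow, hkd]
    calc k ^ (j + 1) * u * (k ^ (j + 1))⁻¹ = k * (k ^ j * u * (k ^ j)⁻¹) * k⁻¹ := by
          rw [pow_succ']; group
      _ = k * (d ^ j * u) * k⁻¹ := by rw [ih]
      _ = (k * d ^ j * k⁻¹) * (k * u * k⁻¹) := by group
      _ = d ^ j * (d * u) := by rw [hc, h1]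
      _ = d ^ (j + 1) * u := by rw [pow_succ]; group

theorem stab_action {X : Type*} [Group X] [Finite X] {p : ℕ} [Fact p.Prime] (U B K : Subgroup X)
    [hU : U.Normal] [hK : K.Normal] (hB : IsPGroup p B)
    (h1 : ∀ k ∈ K, ∀ u ∈ U, k * u * k⁻¹ * u⁻¹ ∈ B) (h2 : ∀ k ∈ K, ∀ b ∈ B, k * b * k⁻¹ = b)
    (P : Sylow p X) (n : X) :
    ∃ t ∈ (P : Subgroup X) ⊓ K, ∃ n₀ : X, n₀ ∈ Subgroup.normalizer (((P : Subgroup X) ⊓ K : Subgroup X) : Set X) ∧
      ∀ u ∈ U, n * u * n⁻¹ = t * (n₀ * u * n₀⁻¹) * t⁻¹ := by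
  obtain ⟨R, hR⟩ := FusionSubgroup.isSylowIn_inf P K
  have hRmap : (R : Subgroup K).map K.subtype = (P : Subgroup X) ⊓ K := by
    rw [hR]
    ext x
    constructor
    · rintro ⟨y, hy, rfl⟩
      exact hy
    · intro hx
      exact ⟨⟨x, hx.2⟩, hx, rfl⟩
  have hF := Sylow.normalizer_sup_eq_top R
  have hn : n ∈ Subgroup.normalizer (((R : Subgroup K).map K.subtype : Subgroup X) : Set X) ⊔ K := by
    rw [hF]; trivial
  rw [hRmap] at hn
  obtain ⟨y, hy, k₁, hk₁, rfl⟩ := Subgroup.mem_sup_of_normal_right.1 hn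
  -- the centralizer inside `K`
  let C₀ : Subgroup K := (Subgroup.centralizer (U : Set X)).comap K.subtype
  haveI hC₀ : C₀.Normal := Subgroup.Normal.comap Subgroup.normal_centralizer K.subtype
  have hkp : ∀ k : K, ∃ e : ℕ, k ^ (p ^ e) ∈ C₀ := by
    intro k
    obtain ⟨e, he⟩ := IsPGroup.iff_card.1 hB
    refine ⟨e, ?_⟩
    show ((k ^ (p ^ e) : K) : X) ∈ Subgroup.centralizer (U : Set X)
    rw [Subgroup.mem_centralizer_iff]
    intro u hu
    have hd := h1 k k.2 u hu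
    have hkd := h2 k k.2 _ hd
    have h3 := stab_pow rfl hkd (p ^ e)
    have h4 : (k * u * (k : X)⁻¹ * u⁻¹) ^ (p ^ e) = 1 := by
      have h5 : ((⟨_, hd⟩ : B) : B) ^ (p ^ e) = 1 := by
        rw [← he]
        exact pow_card_eq_one'
      exact congrArg Subtype.val h5
    rw [h4, one_mul] at h3
    have e1 : ((k ^ (p ^ e) : K) : X) = (k : X) ^ (p ^ e) := rfl
    rw [e1]
    calc u * (k : X) ^ (p ^ e) = ((k : X) ^ (p ^ e) * u * ((k : X) ^ (p ^ e))⁻¹) * (k : X) ^ (p ^ e) := by rw [h3]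
      _ = (k : X) ^ (p ^ e) * u := by group
  let φ : K →* K ⧸ C₀ := QuotientGroup.mk' C₀
  have hφ : Function.Surjective φ := QuotientGroup.mk'_surjective C₀
  have hqp : IsPGroup p (K ⧸ C₀) := by
    intro q
    obtain ⟨k, rfl⟩ := hφ q
    obtain ⟨e, he⟩ := hkp k
    exact ⟨e, by rw [← map_pow]; exact (QuotientGroup.eq_one_iff _).2 he⟩
  have htop : (R : Subgroup K).map φ = ⊤ := by
    have h3 := (R.mapSurjective hφ).is_maximal' (hqp.to_subgroup ⊤) (le_top)
    rw [Sylow.coe_mapSurjective] at h3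
    exact h3.symm
  let k₂ : K := ⟨y * k₁ * y⁻¹, hK.conj_mem k₁ hk₁ y⟩
  have hk₂ : φ k₂ ∈ (R : Subgroup K).map φ := by rw [htop]; trivial
  obtain ⟨t, ht, hte⟩ := hk₂
  have htC : t⁻¹ * k₂ ∈ C₀ := QuotientGroup.eq.1 hte
  have ht' : (t : X) ∈ (P : Subgroup X) ⊓ K := by
    rw [← hRmap]
    exact ⟨t, ht, rfl⟩
  refine ⟨t, ht', y, hy, ?_⟩
  intro u hu
  have h3 : (y * u * y⁻¹) ∈ U := hU.conj_mem u hu y
  have h4 : (y * u * y⁻¹) * ((t : X)⁻¹ * (y * k₁ * y⁻¹)) = ((t : X)⁻¹ * (y * k₁ * y⁻¹)) * (y * u * y⁻¹) :=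
    Subgroup.mem_centralizer_iff.1 htC _ h3
  calc y * k₁ * u * (y * k₁)⁻¹ = (y * k₁ * y⁻¹) * (y * u * y⁻¹) * (y * k₁ * y⁻¹)⁻¹ := by group
    _ = t * (((t : X)⁻¹ * (y * k₁ * y⁻¹)) * (y * u * y⁻¹) * ((t : X)⁻¹ * (y * k₁ * y⁻¹))⁻¹) * (t : X)⁻¹ := by group
    _ = t * ((y * u * y⁻¹) * ((t : X)⁻¹ * (y * k₁ * y⁻¹)) * ((t : X)⁻¹ * (y * k₁ * y⁻¹))⁻¹) * (t : X)⁻¹ := by rw [← h4]
    _ = t * (y * u * y⁻¹) * (t : X)⁻¹ := by group

section main

variable {G : Type u} [Group G] [Finite G] {p : ℕ} [hpf : Fact p.Prime]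

/-- Elements of a Sylow subgroup normalize a strongly closed subgroup. -/
theorem sylow_le_normalizer {S : Sylow p G} {A : Subgroup G} (hsc : IsStronglyClosed A (S : Subgroup G)) :
    (S : Subgroup G) ≤ Subgroup.normalizer (A : Set G) := by
  intro s hs
  rw [Subgroup.mem_normalizer_iff]
  intro a
  constructor
  · intro ha
    exact hsc.2 a ha s ((S : Subgroup G).mul_mem ((S : Subgroup G).mul_mem hs (hsc.1 ha)) ((S : Subgroup G).inv_mem hs))
  · intro ha
    have h1 := hsc.2 _ ha s⁻¹ (by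
      have := (S : Subgroup G).mul_mem ((S : Subgroup G).mul_mem ((S : Subgroup G).inv_mem hs) (hsc.1 ha)) hs
      simpa using this)
    have e : s⁻¹ * (s * a * s⁻¹) * s⁻¹⁻¹ = a := by group
    rwa [e] at h1

/-- Local analysis: in `N(U)`, `U` fully normalized. -/
theorem local_step {S : Sylow p G} {A U : Subgroup G} (hA : IsMulCommutative A)
    (hsc : IsStronglyClosed A (S : Subgroup G)) (hUS : U ≤ (S : Subgroup G))
    (hU : ¬ p ∣ ((S : Subgroup G) ⊓ Subgroup.normalizer (U : Set G)).relIndex (Subgroup.normalizer (U : Set G)))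
    (n : G) (hn : n ∈ Subgroup.normalizer (U : Set G)) :
    ∃ t ∈ (S : Subgroup G), ∃ n₀ ∈ Subgroup.normalizer (U : Set G),
      (∀ a ∈ A, a ∈ Subgroup.normalizer (U : Set G) → n₀ * a * n₀⁻¹ ∈ A) ∧
      ∀ u ∈ U, n * u * n⁻¹ = t * (n₀ * u * n₀⁻¹) * t⁻¹ := by
  set N : Subgroup G := Subgroup.normalizer (U : Set G) with hN
  let U' : Subgroup N := U.subgroupOf N
  haveI hU'n : U'.Normal := Subgroup.normal_in_normalizer
  let B : Subgroup N := (A ⊓ U).subgroupOf N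
  have hBn : ∀ (c : N) (b : N), b ∈ B → c * b * c⁻¹ ∈ B := by
    intro c b hb
    have h1 : (b : G) ∈ A := hb.1
    have h2 : (b : G) ∈ U := hb.2
    have h3 : (c : G) * b * (c : G)⁻¹ ∈ U := (Subgroup.mem_normalizer_iff.1 c.2 _).1 h2
    exact ⟨hsc.2 _ h1 _ (hUS h3), h3⟩
  haveI hBN : B.Normal := ⟨fun b hb c => hBn c b hb⟩
  have hBp : IsPGroup p B := by
    have h1 : IsPGroup p (A ⊓ U : Subgroup G) := S.isPGroup'.to_le (inf_le_right.trans hUS)
    have h2 : IsPGroup p (B.map N.subtype) := h1.to_le (by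
      rintro _ ⟨x, hx, rfl⟩
      exact hx)
    exact (h2.comap_of_injective N.subtype N.subtype_injective).to_le (fun x hx => ⟨x, hx, rfl⟩)
  -- the stability group
  let K : Subgroup N :=
    { carrier := {k | (∀ u ∈ U', k * u * k⁻¹ * u⁻¹ ∈ B) ∧ ∀ b ∈ B, k * b * k⁻¹ = b}
      one_mem' := by
        refine ⟨fun u _ => ?_, fun b _ => by group⟩
        have e : (1 : N) * u * 1⁻¹ * u⁻¹ = 1 := by group
        rw [e]
        exact B.one_mem
      mul_mem' := by
        rintro k₁ k₂ ⟨h1, h2⟩ ⟨h3, h4⟩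
        refine ⟨fun u hu => ?_, fun b hb => ?_⟩
        · have h5 := h1 _ (hU'n.conj_mem u hu k₂)
          have h6 := B.mul_mem h5 (h3 u hu)
          have e : k₁ * (k₂ * u * k₂⁻¹) * k₁⁻¹ * (k₂ * u * k₂⁻¹)⁻¹ * (k₂ * u * k₂⁻¹ * u⁻¹)
              = k₁ * k₂ * u * (k₁ * k₂)⁻¹ * u⁻¹ := by group
          rwa [e] at h6
        · calc k₁ * k₂ * b * (k₁ * k₂)⁻¹ = k₁ * (k₂ * b * k₂⁻¹) * k₁⁻¹ := by group
            _ = b := by rw [h4 b hb, h2 b hb]
      inv_mem' := by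
        rintro k ⟨h1, h2⟩
        refine ⟨fun u hu => ?_, fun b hb => ?_⟩
        · have h3 : k⁻¹ * u * k ∈ U' := by
            have := hU'n.conj_mem u hu k⁻¹
            simpa using this
          have h4 := B.inv_mem (h1 _ h3)
          have e : (k * (k⁻¹ * u * k) * k⁻¹ * (k⁻¹ * u * k)⁻¹)⁻¹ = k⁻¹ * u * k⁻¹⁻¹ * u⁻¹ := by group
          rwa [e] at h4
        · have h3 := h2 b hb
          calc k⁻¹ * b * k⁻¹⁻¹ = k⁻¹ * (k * b * k⁻¹) * k⁻¹⁻¹ := by rw [h3]
            _ = b := by group }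
  haveI hKn : K.Normal := by
    refine ⟨fun k hk c => ⟨fun u hu => ?_, fun b hb => ?_⟩⟩
    · have h3 : c⁻¹ * u * c ∈ U' := by
        have := hU'n.conj_mem u hu c⁻¹
        simpa using this
      have h4 := hBn c _ (hk.1 _ h3)
      have e : c * (k * (c⁻¹ * u * c) * k⁻¹ * (c⁻¹ * u * c)⁻¹) * c⁻¹ = c * k * c⁻¹ * u * (c * k * c⁻¹)⁻¹ * u⁻¹ := by group
      rwa [e] at h4
    · have h3 : c⁻¹ * b * c ∈ B := by
        have := hBn c⁻¹ b hb
        simpa using this
      have h4 := hk.2 _ h3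
      calc c * k * c⁻¹ * b * (c * k * c⁻¹)⁻¹ = c * (k * (c⁻¹ * b * c) * k⁻¹) * c⁻¹ := by group
        _ = c * (c⁻¹ * b * c) * c⁻¹ := by rw [h4]
        _ = b := by group
  have hAK : ∀ a : N, (a : G) ∈ A → a ∈ K := by
    intro a ha
    refine ⟨fun u hu => ?_, fun b hb => ?_⟩
    · have hSN := sylow_le_normalizer hsc
      have h1 : (u : G) ∈ U := hu
      have h2 : (a : G) * u * (a : G)⁻¹ ∈ U := (Subgroup.mem_normalizer_iff.1 a.2 _).1 h1
      have h3 : (u : G) * (a : G)⁻¹ * (u : G)⁻¹ ∈ A :=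
        (Subgroup.mem_normalizer_iff.1 (hSN (hUS h1)) _).1 (A.inv_mem ha)
      refine ⟨?_, U.mul_mem h2 (U.inv_mem h1)⟩
      have h4 := A.mul_mem ha h3
      have e : (a : G) * ((u : G) * (a : G)⁻¹ * (u : G)⁻¹) = (a : G) * u * (a : G)⁻¹ * (u : G)⁻¹ := by group
      rw [e] at h4
      exact h4
    · have h1 : (b : G) ∈ A := hb.1
      have h2 : (a : G) * b = b * a := by
        have := mul_comm' (⟨a, ha⟩ : A) ⟨b, h1⟩
        exact congrArg Subtype.val this
      apply Subtype.ext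
      show (a : G) * b * (a : G)⁻¹ = b
      rw [h2]; group
  obtain ⟨R, hR⟩ := isSylowIn_of_relIndex (p := p) (E := (S : Subgroup G) ⊓ N) (K := N) inf_le_right
    (S.isPGroup'.to_le inf_le_left) hU
  have hRS : ∀ r : N, r ∈ (R : Subgroup N) → (r : G) ∈ (S : Subgroup G) := by
    intro r hr
    rw [hR] at hr
    exact hr.1
  obtain ⟨t, ht, n₀, hn₀, hact⟩ := stab_action U' B K hBp (fun k hk u hu => hk.1 u hu) (fun k hk b hb => hk.2 b hb) R ⟨n, hn⟩
  refine ⟨t, hRS t ht.1, n₀, n₀.2, ?_, ?_⟩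
  · intro a ha haN
    have h1 : (⟨a, haN⟩ : N) ∈ (R : Subgroup N) ⊓ K := by
      refine ⟨?_, hAK _ ha⟩
      rw [hR]
      exact ⟨hsc.1 ha, haN⟩
    have h2 := (Subgroup.mem_normalizer_iff.1 hn₀ _).1 h1
    have h3 := hRS _ h2.1
    exact hsc.2 a ha _ h3
  · intro u hu
    have huN : u ∈ N := Subgroup.le_normalizer hu
    have h1 := hact ⟨u, huN⟩ hu
    exact congrArg Subtype.val h1

theorem chain_real {𝓕 : Set (Subgroup G)} (A : Subgroup G) {X : Set G} {g : G} (h : Chain 𝓕 X g) :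
    (∀ T ∈ 𝓕, X.ncard ≤ Nat.card T → ∀ x ∈ Subgroup.normalizer (T : Set G),
      ∃ m ∈ Subgroup.normalizer (A : Set G), ∀ t ∈ T, x⁻¹ * t * x = m⁻¹ * t * m) →
    ∃ m ∈ Subgroup.normalizer (A : Set G), ∀ a ∈ X, g⁻¹ * a * g = m⁻¹ * a * m := by
  induction h with
  | nil X =>
    intro _
    exact ⟨1, Subgroup.one_mem _, fun a _ => by simp⟩
  | @cons T x g X hT hx hX _ ih =>
    intro hreal
    have hcard : (rc x X).ncard = X.ncard := by
      unfold rc
      refine Set.ncard_image_of_injective _ ?_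
      intro a b hab
      have h3 : x⁻¹ * a * x = x⁻¹ * b * x := hab
      simpa [mul_assoc] using h3
    obtain ⟨m₂, hm₂, hm₂a⟩ := ih (by
      intro T' hT' hc
      rw [hcard] at hc
      exact hreal T' hT' hc)
    have hle : X.ncard ≤ Nat.card T := Set.ncard_le_ncard hX (Set.toFinite _)
    obtain ⟨m₁, hm₁, hm₁a⟩ := hreal T hT hle x hx
    refine ⟨m₁ * m₂, Subgroup.mul_mem _ hm₁ hm₂, fun a ha => ?_⟩
    have h3 := hm₂a (x⁻¹ * a * x) ⟨a, ha, rfl⟩
    have h4 := hm₁a a (hX ha)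
    calc (x * g)⁻¹ * a * (x * g) = g⁻¹ * (x⁻¹ * a * x) * g := by group
      _ = m₂⁻¹ * (x⁻¹ * a * x) * m₂ := h3
      _ = m₂⁻¹ * (m₁⁻¹ * a * m₁) * m₂ := by rw [h4]
      _ = (m₁ * m₂)⁻¹ * a * (m₁ * m₂) := by group

/-- The trivial conjugacy functor. -/
theorem id_functor : IsConjugacyFunctor p (fun T : Subgroup G => T) :=
  fun P _ => ⟨le_rfl, id, fun _ => rfl⟩

theorem good_all {S : Sylow p G} {A : Subgroup G} (hA : IsMulCommutative A)
    (hsc : IsStronglyClosed A (S : Subgroup G)) :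
    ∀ (n : ℕ) (Q : Subgroup G), Nat.card G - Nat.card Q = n → Q ≤ (S : Subgroup G) → ∀ g : G,
      cj g⁻¹ Q ≤ (S : Subgroup G) →
      ∃ m ∈ Subgroup.normalizer (A : Set G), ∀ a ∈ Q, g⁻¹ * a * g = m⁻¹ * a * m := by
  intro n
  induction n using Nat.strong_induction_on with
  | _ n IH =>
    intro Q hn hQS g hg
    have hchain := chain_wellPlaced (id_functor (G := G) (p := p)) S Q hQS g hg
    refine chain_real A hchain ?_
    intro T hT hcard x hx
    have hTS : T ≤ (S : Subgroup G) := hT.1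
    have hidx := hT.2 0
    have hSN := sylow_le_normalizer hsc
    by_cases hAT : A ≤ T
    · refine ⟨x, ?_, fun t _ => rfl⟩
      rw [Subgroup.mem_normalizer_iff]
      intro a
      constructor
      · intro ha
        have h1 : x * a * x⁻¹ ∈ T := (Subgroup.mem_normalizer_iff.1 hx _).1 (hAT ha)
        exact hsc.2 a ha x (hTS h1)
      · intro ha
        have h1 : a ∈ T := (Subgroup.mem_normalizer_iff.1 hx _).2 (hAT ha)
        have h2 := hsc.2 _ ha x⁻¹ (by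
          have e : x⁻¹ * (x * a * x⁻¹) * x⁻¹⁻¹ = a := by group
          rw [e]
          exact hTS h1)
        have e : x⁻¹ * (x * a * x⁻¹) * x⁻¹⁻¹ = a := by group
        rwa [e] at h2
    · -- the larger subgroup
      let U₁ : Subgroup G := T ⊔ (A ⊓ Subgroup.normalizer (T : Set G))
      have hU₁S : U₁ ≤ (S : Subgroup G) := sup_le hTS (inf_le_left.trans hsc.1)
      have hlt : Nat.card T < Nat.card U₁ := by
        -- `T·A` is a subgroup
        let L : Subgroup G :=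
          { carrier := {y | ∃ u ∈ T, ∃ a ∈ A, y = u * a}
            one_mem' := ⟨1, T.one_mem, 1, A.one_mem, by simp⟩
            mul_mem' := by
              rintro _ _ ⟨u₁, hu₁, a₁, ha₁, rfl⟩ ⟨u₂, hu₂, a₂, ha₂, rfl⟩
              refine ⟨u₁ * u₂, T.mul_mem hu₁ hu₂, u₂⁻¹ * a₁ * u₂ * a₂, ?_, by group⟩
              refine A.mul_mem ?_ ha₂
              have h1 := (Subgroup.mem_normalizer_iff.1 (hSN (hTS (T.inv_mem hu₂))) a₁).1 ha₁
              simpa using h1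
            inv_mem' := by
              rintro _ ⟨u, hu, a, ha, rfl⟩
              refine ⟨u⁻¹, T.inv_mem hu, u * a⁻¹ * u⁻¹, ?_, by group⟩
              exact (Subgroup.mem_normalizer_iff.1 (hSN (hTS hu)) a⁻¹).1 (A.inv_mem ha) }
        have hLS : L ≤ (S : Subgroup G) := by
          rintro _ ⟨u, hu, a, ha, rfl⟩
          exact (S : Subgroup G).mul_mem (hTS hu) (hsc.1 ha)
        have hTL : T < L := by
          refine lt_of_le_of_ne (fun u hu => ⟨u, hu, 1, A.one_mem, by simp⟩) ?_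
          intro he
          apply hAT
          intro a ha
          have : a ∈ L := ⟨1, T.one_mem, a, ha, by simp⟩
          rwa [← he] at this
        obtain ⟨y, hyL, hyT, hyN⟩ := SylowCount.exists_mem_normalizer_of_lt (S.isPGroup'.to_le hLS) hTL
        obtain ⟨u, hu, a, ha, rfl⟩ := hyL
        have haN : a ∈ Subgroup.normalizer (T : Set G) := by
          have h1 := Subgroup.mul_mem _ (Subgroup.inv_mem _ (Subgroup.le_normalizer hu)) hyN
          simpa using h1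
        have haT : a ∉ T := fun h => hyT (T.mul_mem hu h)
        have haU : a ∈ U₁ := (le_sup_right : A ⊓ Subgroup.normalizer (T : Set G) ≤ U₁) ⟨ha, haN⟩
        refine lt_of_le_of_ne (Subgroup.card_le_of_le le_sup_left) ?_
        intro he
        have h2 := Subgroup.eq_of_le_of_card_ge (le_sup_left : T ≤ U₁) he.ge
        exact haT (h2 ▸ haU)
      obtain ⟨t₁, ht₁, n₀, hn₀, hn₀a, hact⟩ := local_step hA hsc hTS hidx x⁻¹ (Subgroup.inv_mem _ hx)
      have hcU : cj (n₀⁻¹)⁻¹ U₁ ≤ (S : Subgroup G) := by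
        rw [inv_inv]
        refine le_trans ?_ hU₁S
        refine Subgroup.map_le_iff_le_comap.2 (sup_le ?_ ?_)
        · intro t ht
          exact (le_sup_left : T ≤ U₁) ((Subgroup.mem_normalizer_iff.1 hn₀ t).1 ht)
        · intro a ha
          refine (le_sup_right : A ⊓ Subgroup.normalizer (T : Set G) ≤ U₁) ⟨hn₀a a ha.1 ha.2, ?_⟩
          exact Subgroup.mul_mem _ (Subgroup.mul_mem _ hn₀ ha.2) (Subgroup.inv_mem _ hn₀)
      have hQc : Nat.card Q ≤ Nat.card T := by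
        have := hcard
        rwa [show ((Q : Subgroup G) : Set G).ncard = Nat.card Q from rfl] at this
      have hU₁G : Nat.card U₁ ≤ Nat.card G := Subgroup.card_le_card_group _
      have hTG : Nat.card Q ≤ Nat.card G := Subgroup.card_le_card_group _
      obtain ⟨m', hm', hm'a⟩ := IH (Nat.card G - Nat.card U₁) (by omega) U₁ rfl hU₁S n₀⁻¹ hcU
      refine ⟨m' * t₁⁻¹, Subgroup.mul_mem _ hm' (Subgroup.inv_mem _ (hSN ht₁)), fun t ht => ?_⟩
      have h1 := hact t ht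
      have h2 := hm'a t ((le_sup_left : T ≤ U₁) ht)
      rw [inv_inv] at h1 h2
      calc x⁻¹ * t * x = t₁ * (n₀ * t * n₀⁻¹) * t₁⁻¹ := h1
        _ = t₁ * (m'⁻¹ * t * m') * t₁⁻¹ := by rw [h2]
        _ = (m' * t₁⁻¹)⁻¹ * t * (m' * t₁⁻¹) := by group

/-- An abelian strongly closed subgroup controls strong fusion. -/
theorem controls {S : Sylow p G} {A : Subgroup G} (hA : IsMulCommutative A)
    (hsc : IsStronglyClosed A (S : Subgroup G)) : ControlsStrongFusion p A := by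
  refine ⟨S, hsc.1, fun X hX => ⟨hX, fun g hg => ?_⟩⟩
  have hQ : Subgroup.closure X ≤ (S : Subgroup G) := (Subgroup.closure_le _).2 hX
  have hQg : cj g⁻¹⁻¹ (Subgroup.closure X) ≤ (S : Subgroup G) := by
    rw [inv_inv, cj, MonoidHom.map_closure, Subgroup.closure_le]
    rintro _ ⟨a, ha, rfl⟩
    exact hg ⟨a, ha, rfl⟩
  obtain ⟨m, hm, hma⟩ := good_all hA hsc _ _ rfl hQ g⁻¹ hQg
  refine ⟨m⁻¹, Subgroup.inv_mem _ hm, fun a ha => ?_⟩
  have h1 := hma a (Subgroup.subset_closure ha)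
  rw [inv_inv] at h1 ⊢
  exact h1

end main

end Cfsg.Agent.Lib.StrongAb
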