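import Cfsg.Agent.Lib.Transvection
import Cfsg.Agent.Lib.LinAlgAux
import Cfsg.Agent.Lib.SubfieldGroup

/-! Rational structure for an arbitrary subfield: rational functionals, rational transvections, the ring of
scalars of the rational root elements contained in a subgroup, and the fundamental lemma on rational lines. -/

set_option autoImplicit false
set_option linter.unusedSectionVars false
set_option linter.unusedSimpArgs false
set_option linter.unusedVariables false

open scoped MatrixGroups Matrix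
open Cfsg Cfsg.Geo
open Cfsg.Agent.Lib.Transvection Cfsg.Agent.Lib.LinAlgAux Cfsg.Agent.Lib.SubfieldGroup

namespace Cfsg.Agent.Lib.SubfieldBase

section Gen

variable {ι : Type} [Fintype ι] [DecidableEq ι] {k : Type*} [Field k]

theorem exists_dot_zero {m : ℕ} (hm : m < Fintype.card ι) (v : Fin m → ι → k) :
    ∃ c : ι → k, c ≠ 0 ∧ ∀ i, v i ⬝ᵥ c = 0 := by
  let A : Matrix (Fin m) ι k := Matrix.of v
  have h : LinearMap.ker A.mulVecLin ≠ ⊥ := by
    apply LinearMap.ker_ne_bot_of_finrank_lt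
    simpa using hm
  obtain ⟨c, hc, hc0⟩ := (Submodule.ne_bot_iff _).1 h
  refine ⟨c, hc0, fun i => ?_⟩
  have := congrFun (LinearMap.mem_ker.1 hc) i
  simpa [Matrix.mulVec, A] using this

theorem exists_dot_zero1 (hn : 2 ≤ Fintype.card ι) (a : ι → k) :
    ∃ c : ι → k, c ≠ 0 ∧ a ⬝ᵥ c = 0 := by
  obtain ⟨c, h0, h⟩ := exists_dot_zero (m := 1) (by omega) ![a]
  exact ⟨c, h0, by simpa using h 0⟩

theorem exists_dot_zero2 (hn : 3 ≤ Fintype.card ι) (a b : ι → k) :
    ∃ c : ι → k, c ≠ 0 ∧ a ⬝ᵥ c = 0 ∧ b ⬝ᵥ c = 0 := by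
  obtain ⟨c, h0, h⟩ := exists_dot_zero (m := 2) (by omega) ![a, b]
  exact ⟨c, h0, by simpa using h 0, by simpa using h 1⟩

theorem exists_dot_zero3 (hn : 4 ≤ Fintype.card ι) (a b d : ι → k) :
    ∃ c : ι → k, c ≠ 0 ∧ a ⬝ᵥ c = 0 ∧ b ⬝ᵥ c = 0 ∧ d ⬝ᵥ c = 0 := by
  obtain ⟨c, h0, h⟩ := exists_dot_zero (m := 3) (by omega) ![a, b, d]
  exact ⟨c, h0, by simpa using h 0, by simpa using h 1, by simpa using h 2⟩

theorem exists_sep {x y : ι → k} (h : x ∉ Submodule.span k {y}) :
    ∃ b : ι → k, b ⬝ᵥ x = 1 ∧ b ⬝ᵥ y = 0 := by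
  obtain ⟨φ, h1, h2⟩ := exists_functional_of_not_mem_span h
  exact ⟨rowOf φ, by rw [rowOf_dotProduct, h1], by rw [rowOf_dotProduct, h2]⟩

theorem exists_dot_one {z : ι → k} (hz : z ≠ 0) : ∃ c : ι → k, c ⬝ᵥ z = 1 := by
  obtain ⟨b, h, -⟩ := exists_sep (x := z) (y := 0) (by simpa using hz)
  exact ⟨b, h⟩

theorem not_mem_span_of_dot {x y c : ι → k} (h1 : c ⬝ᵥ x ≠ 0) (h2 : c ⬝ᵥ y = 0) :
    x ∉ Submodule.span k {y} := by
  intro h
  obtain ⟨t, rfl⟩ := Submodule.mem_span_singleton.1 h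
  apply h1
  rw [dotProduct_smul, h2, smul_zero]

end Gen

variable {ι : Type} [Fintype ι] [DecidableEq ι] {F : Type*} [Field F] (F₀ : Subfield F)

/-- The functional given by the dot product with a row. -/
def dl (v : ι → F) : (ι → F) →ₗ[F] F where
  toFun x := v ⬝ᵥ x
  map_add' x y := dotProduct_add _ _ _
  map_smul' c x := by simp [dotProduct_smul]

@[simp] theorem dl_apply (v x : ι → F) : dl v x = v ⬝ᵥ x := rfl

/-- The rational functional of a rational row. -/
abbrev dq (a : ι → F₀) : (ι → F) →ₗ[F] F := dl (emb F₀ a)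

theorem dq_emb (a u : ι → F₀) : dq F₀ a (emb F₀ u) = ((a ⬝ᵥ u : F₀) : F) := by
  simp [dotProduct, emb]

theorem dq_zero {a w : ι → F₀} (h : a ⬝ᵥ w = 0) : dq F₀ a (emb F₀ w) = 0 := by
  rw [dq_emb, h]
  rfl

theorem dq_rat (a : ι → F₀) {v : ι → F} (hv : IsRat F₀ v) : dq F₀ a v ∈ F₀ := by
  obtain ⟨u, rfl⟩ := hv.exists_emb
  rw [dq_emb]
  exact Subtype.property _

theorem dq_single (i : ι) (x : ι → F) : dq F₀ (Pi.single i 1) x = x i := by
  have : emb F₀ (Pi.single i (1 : F₀) : ι → F₀) = Pi.single i 1 := by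
    ext k
    by_cases hk : k = i
    · subst hk
      simp
    · simp [Pi.single_eq_of_ne hk]
  simp [this]

theorem emb_single (i : ι) : emb F₀ (Pi.single i (1 : F₀) : ι → F₀) = Pi.single i 1 := by
  ext k
  by_cases hk : k = i
  · subst hk
    simp
  · simp [Pi.single_eq_of_ne hk]

theorem emb_eq_zero {u : ι → F₀} (h : emb F₀ u = 0) : u = 0 :=
  emb_injective F₀ (by simpa using h)

/-- A functional rational on the rational vectors is a rational row. -/
theorem exists_row_of_rat {φ : (ι → F) →ₗ[F] F} (h : ∀ z : ι → F₀, φ (emb F₀ z) ∈ F₀) :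
    ∃ b : ι → F₀, φ = dq F₀ b := by
  have h1 : ∀ i, φ (Pi.single i 1) ∈ F₀ := fun i => by
    have := h (Pi.single i 1)
    rwa [emb_single] at this
  refine ⟨fun i => ⟨_, h1 i⟩, ?_⟩
  apply LinearMap.ext
  intro x
  rw [← rowOf_dotProduct φ x]
  rfl

theorem tv_congr {φ φ' : (ι → F) →ₗ[F] F} {w w' : ι → F} {h : φ w = 0} {h' : φ' w' = 0}
    (e : φ = φ') (e' : w = w') : tv φ w h = tv φ' w' h' := by
  subst e e'
  rfl

/-- Commutators of transvections in a subgroup. -/
theorem comm_mem {M : Subgroup (GL ι F)} {φ ψ : (ι → F) →ₗ[F] F} {w v : ι → F} {h : φ w = 0}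
    {h' : ψ v = 0} (hψw : ψ w = 0) (h1 : tv φ w h ∈ M) (h2 : tv ψ v h' ∈ M) :
    tv ψ (φ v • w) (by simp [hψw]) ∈ M := by
  rw [← tv_commutator φ ψ w v h h' hψw]
  exact M.mul_mem (M.mul_mem (M.mul_mem h1 h2) (M.inv_mem h1)) (M.inv_mem h2)

/-- `M` contains the rational transvections. -/
def RatIn (M : Subgroup (GL ι F)) : Prop :=
  ∀ (b z : ι → F₀) (h : b ⬝ᵥ z = 0), tv (dq F₀ b) (emb F₀ z) (dq_zero F₀ h) ∈ M

theorem smul_dq_zero (l : F) {a w : ι → F₀} (h : a ⬝ᵥ w = 0) :
    (l • dq F₀ a) (emb F₀ w) = 0 := by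
  rw [LinearMap.smul_apply, dq_zero F₀ h, smul_zero]

/-- A rational root element with scalar `l`. -/
def T (l : F) (a w : ι → F₀) (h : a ⬝ᵥ w = 0) : GL ι F :=
  tv (l • dq F₀ a) (emb F₀ w) (smul_dq_zero F₀ l h)

theorem T_mulVec (l : F) (a w : ι → F₀) (h : a ⬝ᵥ w = 0) (x : ι → F) :
    ((T F₀ l a w h : GL ι F) : Matrix ι ι F) *ᵥ x = x + (l * dq F₀ a x) • emb F₀ w := by
  simp [T]

theorem T_eq_center {b w : ι → F₀} {l : F} (h : b ⬝ᵥ w = 0)
    (h' : dq F₀ b (l • emb F₀ w) = 0) :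
    tv (dq F₀ b) (l • emb F₀ w) h' = T F₀ l b w h := by
  apply gl_ext_mulVec
  intro x
  simp only [tv_mulVec, T_mulVec, smul_smul]
  congr 2
  ring

theorem T_zero {a w : ι → F₀} (h : a ⬝ᵥ w = 0) : T F₀ 0 a w h = 1 := by
  apply gl_ext_mulVec
  intro x
  simp [T_mulVec]

theorem T_of_a_zero (l : F) {w : ι → F₀} (h : (0 : ι → F₀) ⬝ᵥ w = 0) : T F₀ l 0 w h = 1 := by
  apply gl_ext_mulVec
  intro x
  simp [T_mulVec, dotProduct]

theorem T_of_w_zero (l : F) {a : ι → F₀} (h : a ⬝ᵥ (0 : ι → F₀) = 0) : T F₀ l a 0 h = 1 := by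
  apply gl_ext_mulVec
  intro x
  simp [T_mulVec]

theorem T_add (l m : F) {a w : ι → F₀} (h : a ⬝ᵥ w = 0) :
    T F₀ l a w h * T F₀ m a w h = T F₀ (l + m) a w h := by
  apply gl_ext_mulVec
  intro x
  simp only [gl_mul_mulVec, T_mulVec, map_add, map_smul, dq_zero F₀ h, smul_eq_mul, mul_zero,
    add_zero, add_mul, add_smul, add_assoc]
  abel

theorem T_inv (l : F) {a w : ι → F₀} (h : a ⬝ᵥ w = 0) :
    (T F₀ l a w h)⁻¹ = T F₀ (-l) a w h := by
  rw [inv_eq_iff_mul_eq_one, T_add, add_neg_cancel, T_zero]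

section Moves

variable {F₀} {M : Subgroup (GL ι F)} (hR : RatIn F₀ M)
include hR

theorem center_move {l : F} {a w z b : ι → F₀} (h : a ⬝ᵥ w = 0) (hz : a ⬝ᵥ z = 0)
    (hbz : b ⬝ᵥ z = 0) (hbw : b ⬝ᵥ w = 1) (hT : T F₀ l a w h ∈ M) : T F₀ l a z hz ∈ M := by
  have h1 := comm_mem (φ := dq F₀ b) (w := emb F₀ z) (ψ := l • dq F₀ a) (v := emb F₀ w)
    (h := dq_zero F₀ hbz) (h' := smul_dq_zero F₀ l h) (smul_dq_zero F₀ l hz) (hR b z hbz) hT
  have e : T F₀ l a z hz = tv (l • dq F₀ a) (dq F₀ b (emb F₀ w) • emb F₀ z)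
      (by simp [smul_dq_zero F₀ l hz]) := by
    apply tv_congr rfl
    rw [dq_emb, hbw]
    simp
  rw [e]
  exact h1

theorem axis_move {l : F} {a b w z : ι → F₀} (h : a ⬝ᵥ w = 0) (hb : b ⬝ᵥ w = 0)
    (hbz : b ⬝ᵥ z = 0) (haz : a ⬝ᵥ z = 1) (hT : T F₀ l a w h ∈ M) : T F₀ l b w hb ∈ M := by
  have h1 := comm_mem (φ := l • dq F₀ a) (w := emb F₀ w) (ψ := dq F₀ b) (v := emb F₀ z)
    (h := smul_dq_zero F₀ l h) (h' := dq_zero F₀ hbz) (dq_zero F₀ hb) hT (hR b z hbz)
  have e : T F₀ l b w hb = tv (dq F₀ b) ((l • dq F₀ a) (emb F₀ z) • emb F₀ w)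
      (by simp [dq_zero F₀ hb]) := by
    rw [← T_eq_center F₀ hb (by simp [dq_zero F₀ hb])]
    apply tv_congr rfl
    rw [LinearMap.smul_apply, dq_emb, haz]
    simp
  rw [e]
  exact h1

theorem center_move' (hn : 3 ≤ Fintype.card ι) {l : F} {a w z : ι → F₀} (h : a ⬝ᵥ w = 0)
    (hz : a ⬝ᵥ z = 0) (hw : w ≠ 0) (hz0 : z ≠ 0) (hT : T F₀ l a w h ∈ M) : T F₀ l a z hz ∈ M := by
  by_cases hc : w ∈ Submodule.span F₀ {z}
  · obtain ⟨t, ht⟩ := Submodule.mem_span_singleton.1 hc
    have ht0 : t ≠ 0 := by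
      rintro rfl
      apply hw
      rw [← ht, zero_smul]
    obtain ⟨c, hc1⟩ := exists_dot_one hz0
    obtain ⟨z', hz'0, h1, h2⟩ := exists_dot_zero2 hn a c
    have hcw : c ⬝ᵥ w = t := by
      rw [← ht, dotProduct_smul, hc1]
      simp
    have step1 : T F₀ l a z' h1 ∈ M := by
      refine center_move hR (b := t⁻¹ • c) h h1 ?_ ?_ hT
      · rw [smul_dotProduct, h2, smul_zero]
      · rw [smul_dotProduct, hcw]
        simpa using inv_mul_cancel₀ ht0
    have hz'n : z' ∉ Submodule.span F₀ {z} := by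
      intro h3
      obtain ⟨s, hs⟩ := Submodule.mem_span_singleton.1 h3
      have : c ⬝ᵥ z' = s := by
        rw [← hs, dotProduct_smul, hc1]
        simp
      rw [h2] at this
      apply hz'0
      rw [← hs, ← this, zero_smul]
    obtain ⟨b, hb1, hb2⟩ := exists_sep hz'n
    exact center_move hR (b := b) h1 hz hb2 hb1 step1
  · obtain ⟨b, hb1, hb2⟩ := exists_sep hc
    exact center_move hR (b := b) h hz hb2 hb1 hT

theorem axis_move' (hn : 3 ≤ Fintype.card ι) {l : F} {a b w : ι → F₀} (h : a ⬝ᵥ w = 0)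
    (hb : b ⬝ᵥ w = 0) (ha : a ≠ 0) (hb0 : b ≠ 0) (hT : T F₀ l a w h ∈ M) : T F₀ l b w hb ∈ M := by
  by_cases hc : a ∈ Submodule.span F₀ {b}
  · obtain ⟨t, ht⟩ := Submodule.mem_span_singleton.1 hc
    have ht0 : t ≠ 0 := by
      rintro rfl
      apply ha
      rw [← ht, zero_smul]
    obtain ⟨c, hc1⟩ := exists_dot_one hb0
    obtain ⟨b', hb'0, h1, h2⟩ := exists_dot_zero2 hn w c
    have hcw : c ⬝ᵥ a = t := by
      rw [← ht, dotProduct_smul, hc1]
      simp
    have h1' : b' ⬝ᵥ w = 0 := by rwa [dotProduct_comm]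
    have step1 : T F₀ l b' w h1' ∈ M := by
      refine axis_move hR (z := t⁻¹ • c) h h1' ?_ ?_ hT
      · rw [dotProduct_smul, dotProduct_comm, h2, smul_zero]
      · rw [dotProduct_smul, dotProduct_comm, hcw]
        simpa using inv_mul_cancel₀ ht0
    have hb'n : b' ∉ Submodule.span F₀ {b} := by
      intro h3
      obtain ⟨s, hs⟩ := Submodule.mem_span_singleton.1 h3
      have : c ⬝ᵥ b' = s := by
        rw [← hs, dotProduct_smul, hc1]
        simp
      rw [h2] at this
      apply hb'0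
      rw [← hs, ← this, zero_smul]
    obtain ⟨z, hz1, hz2⟩ := exists_sep hb'n
    refine axis_move hR (z := z) h1' hb ?_ ?_ step1
    · rwa [dotProduct_comm]
    · rwa [dotProduct_comm]
  · obtain ⟨z, hz1, hz2⟩ := exists_sep hc
    refine axis_move hR (z := z) h hb ?_ ?_ hT
    · rwa [dotProduct_comm]
    · rwa [dotProduct_comm]

theorem T_transit (hn : 3 ≤ Fintype.card ι) {l : F} {a w a' w' : ι → F₀} (h : a ⬝ᵥ w = 0)
    (h' : a' ⬝ᵥ w' = 0) (ha : a ≠ 0) (hw : w ≠ 0) (hT : T F₀ l a w h ∈ M) :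
    T F₀ l a' w' h' ∈ M := by
  by_cases ha' : a' = 0
  · subst ha'
    rw [T_of_a_zero]
    exact M.one_mem
  by_cases hw' : w' = 0
  · subst hw'
    rw [T_of_w_zero]
    exact M.one_mem
  obtain ⟨b, hb0, h1, h2⟩ := exists_dot_zero2 hn w w'
  have h1' : b ⬝ᵥ w = 0 := by rwa [dotProduct_comm]
  have h2' : b ⬝ᵥ w' = 0 := by rwa [dotProduct_comm]
  have s1 := axis_move' hR hn h h1' ha hb0 hT
  have s2 := center_move' hR hn h1' h2' hw hw' s1
  exact axis_move' hR hn h2' h' hb0 ha' s2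

theorem T_rat {c : F} (hc : c ∈ F₀) {a w : ι → F₀} (h : a ⬝ᵥ w = 0) : T F₀ c a w h ∈ M := by
  have h' : ((⟨c, hc⟩ : F₀) • a) ⬝ᵥ w = 0 := by
    rw [smul_dotProduct, h, smul_zero]
  have := hR _ _ h'
  convert this using 1
  apply tv_congr _ rfl
  apply LinearMap.ext
  intro x
  simp [dotProduct, Finset.mul_sum, mul_assoc]

/-- Products of scalars. -/
theorem T_mul (hn : 3 ≤ Fintype.card ι) {l m : F}
    (hl : ∀ a w h, T F₀ l a w h ∈ M) (hm : ∀ a w h, T F₀ m a w h ∈ M)
    (a w : ι → F₀) (h : a ⬝ᵥ w = 0) : T F₀ (l * m) a w h ∈ M := by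
  by_cases ha : a = 0
  · subst ha
    rw [T_of_a_zero]
    exact M.one_mem
  by_cases hw : w = 0
  · subst hw
    rw [T_of_w_zero]
    exact M.one_mem
  obtain ⟨c, hc⟩ := exists_dot_one hw
  obtain ⟨z, hz0, h1, h2⟩ := exists_dot_zero2 hn a c
  have hzn : z ∉ Submodule.span F₀ {w} := by
    intro h3
    obtain ⟨s, hs⟩ := Submodule.mem_span_singleton.1 h3
    have : c ⬝ᵥ z = s := by
      rw [← hs, dotProduct_smul, hc]
      simp
    rw [h2] at this
    apply hz0
    rw [← hs, ← this, zero_smul]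
  obtain ⟨γ, hγ1, hγ2⟩ := exists_sep hzn
  have h3 := comm_mem (φ := l • dq F₀ γ) (w := emb F₀ w) (ψ := m • dq F₀ a) (v := emb F₀ z)
    (h := smul_dq_zero F₀ l hγ2) (h' := smul_dq_zero F₀ m h1) (smul_dq_zero F₀ m h)
    (hl γ w hγ2) (hm a z h1)
  convert h3 using 1
  apply gl_ext_mulVec
  intro x
  simp only [T_mulVec, tv_mulVec, LinearMap.smul_apply, smul_eq_mul, smul_smul, dq_emb, hγ1]
  congr 2
  simp
  ring

end Moves

/-- Membership in the subfield group for `P = 1`. -/
theorem mem_subfield_one_iff {g : GL ι F} :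
    g ∈ subfieldSubgroup F₀ 1 ↔ ∃ c : F, c ≠ 0 ∧ ∀ u : ι → F₀,
      IsRat F₀ (c • ((g : Matrix ι ι F) *ᵥ emb F₀ u)) := by
  rw [mem_subfield_iff]
  simp only [inv_one, one_mul, mul_one]

/-- The fundamental lemma: an element outside the subfield group moves some rational line to a
non-rational line. -/
theorem exists_nonrat_line [Nonempty ι] {g : GL ι F} (hg : g ∉ subfieldSubgroup F₀ 1) :
    ∃ u : ι → F₀, ∀ c : F, c ≠ 0 → ¬ IsRat F₀ (c • ((g : Matrix ι ι F) *ᵥ emb F₀ u)) := by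
  classical
  by_contra hcon
  push Not at hcon
  apply hg
  rw [mem_subfield_one_iff]
  set e : ι → (ι → F₀) := fun j => Pi.single j 1 with he
  have hcol : ∀ j, emb F₀ (e j) = Pi.single j 1 := fun j => emb_single F₀ j
  choose c hc0 hc using fun j => hcon (e j)
  obtain ⟨j₀⟩ := ‹Nonempty ι›
  have hw : ∀ j, ∃ w : ι → F₀, emb F₀ w = c j • ((g : Matrix ι ι F) *ᵥ emb F₀ (e j)) :=
    fun j => (hc j).exists_emb
  choose w hw using hw
  have hratio : ∀ j, c j₀ / c j ∈ F₀ := by
    intro j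
    by_cases hj : j = j₀
    · subst hj
      rw [div_self (hc0 j)]
      exact F₀.one_mem
    obtain ⟨μ, hμ0, hμ⟩ := hcon (e j + e j₀)
    set r := μ / c j with hr
    set s := μ / c j₀ with hs
    have hr0 : r ≠ 0 := div_ne_zero hμ0 (hc0 j)
    have hs0 : s ≠ 0 := div_ne_zero hμ0 (hc0 j₀)
    have e1 : μ • ((g : Matrix ι ι F) *ᵥ emb F₀ (e j + e j₀)) =
        r • emb F₀ (w j) + s • emb F₀ (w j₀) := by
      rw [hw, hw, emb_add, Matrix.mulVec_add, smul_add, smul_smul, smul_smul, hr, hs,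
        div_mul_cancel₀ _ (hc0 j), div_mul_cancel₀ _ (hc0 j₀)]
    rw [e1] at hμ
    -- independence of the columns
    have hind : ∀ (a b : ι → F₀), (∀ t : F₀, a ≠ t • b) → False → False := fun _ _ _ h => h
    have hcolind : ∀ {j j' : ι}, j ≠ j' → w j ∉ Submodule.span F₀ {w j'} := by
      intro j j' hjj' h3
      obtain ⟨t, ht⟩ := Submodule.mem_span_singleton.1 h3
      have h4 : emb F₀ (w j) = (t : F) • emb F₀ (w j') := by
        rw [← ht, emb_smul]
      rw [hw, hw, hcol, hcol, smul_smul, ← Matrix.mulVec_smul, ← Matrix.mulVec_smul] at h4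
      have h5 := congrArg (fun z => ((g⁻¹ : GL ι F) : Matrix ι ι F) *ᵥ z) h4
      simp only [gl_inv_mulVec_mulVec] at h5
      have h6 := congrFun h5 j
      simp only [Pi.smul_apply, smul_eq_mul, Pi.single_eq_same, Pi.single_eq_of_ne hjj', mul_one,
        mul_zero] at h6
      exact hc0 j h6
    obtain ⟨b, hb1, hb2⟩ := exists_sep (hcolind hj)
    obtain ⟨b', hb1', hb2'⟩ := exists_sep (hcolind (Ne.symm hj))
    have hrF : r ∈ F₀ := by
      have h3 := dq_rat F₀ b hμ
      rw [map_add, map_smul, map_smul, dq_emb, dq_emb, hb1, hb2] at h3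
      simpa using h3
    have hsF : s ∈ F₀ := by
      have h3 := dq_rat F₀ b' hμ
      rw [map_add, map_smul, map_smul, dq_emb, dq_emb, hb1', hb2'] at h3
      simpa using h3
    have h9 : c j₀ / c j = r / s := by
      rw [hr, hs]
      have := hc0 j
      have := hc0 j₀
      field_simp
    rw [h9]
    exact F₀.div_mem hrF hsF
  refine ⟨c j₀, hc0 j₀, fun u => ?_⟩
  have hexp : emb F₀ u = ∑ j, (u j : F) • emb F₀ (e j) := by
    ext i
    simp only [hcol]
    rw [Finset.sum_apply, Finset.sum_eq_single i]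
    · simp
    · intro j _ hj
      simp [Pi.single_eq_of_ne (Ne.symm hj)]
    · simp
  rw [hexp, Matrix.mulVec_sum, Finset.smul_sum]
  intro i
  rw [Finset.sum_apply]
  refine F₀.sum_mem fun j _ => ?_
  rw [Matrix.mulVec_smul]
  have h10 : c j₀ • (u j : F) • ((g : Matrix ι ι F) *ᵥ emb F₀ (e j)) =
      ((u j : F) * (c j₀ / c j)) • (c j • ((g : Matrix ι ι F) *ᵥ emb F₀ (e j))) := by
    rw [smul_smul, smul_smul]
    congr 1
    have := hc0 j
    field_simp
  rw [h10, ← hw, Pi.smul_apply, smul_eq_mul]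
  exact F₀.mul_mem (F₀.mul_mem (u j).2 (hratio j)) (w j i).2

/-- Subfields between `F₀` and `F` when the degree is prime. -/
theorem subfield_prime [Fintype F] {r : ℕ} (hr : r.Prime) (hcard : Fintype.card F = Nat.card F₀ ^ r)
    (S : Subfield F) (hS : F₀ ≤ S) : S = F₀ ∨ S = ⊤ := by
  classical
  let W : Submodule F₀ F :=
    { carrier := S
      add_mem' := fun h1 h2 => S.add_mem h1 h2
      zero_mem' := S.zero_mem
      smul_mem' := fun c x hx => S.mul_mem (hS c.2) hx }
  have h1 : Nat.card W = Nat.card F₀ ^ Module.finrank F₀ W := by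
    rw [Nat.card_eq_fintype_card, Nat.card_eq_fintype_card]
    exact Module.card_eq_pow_finrank
  have h2 : Fintype.card F = Nat.card S ^ Module.finrank S F := by
    rw [Nat.card_eq_fintype_card]
    exact Module.card_eq_pow_finrank
  have hWS : Nat.card W = Nat.card S := rfl
  have hq : 1 < Nat.card F₀ := Finite.one_lt_card
  have h2' := h2
  rw [← hWS, h1, ← pow_mul, hcard] at h2'
  have h3 : r = Module.finrank F₀ W * Module.finrank S F :=
    Nat.pow_right_injective hq h2'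
  have h4 := (Nat.prime_mul_iff.1 (h3 ▸ hr))
  rcases h4 with ⟨-, h5⟩ | ⟨-, h5⟩
  · -- `finrank S F = 1`
    right
    rw [h5, pow_one] at h2
    have hinj : Function.Injective (fun x : S => (x : F)) := Subtype.val_injective
    have hbij := hinj.bijective_of_nat_card_le (by
      rw [← h2, Nat.card_eq_fintype_card])
    rw [eq_top_iff]
    intro x _
    obtain ⟨y, rfl⟩ := hbij.2 x
    exact y.2
  · left
    rw [h5, pow_one, hWS] at h1
    let inc : F₀ → S := fun x => ⟨x, hS x.2⟩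
    have hinj : Function.Injective inc := fun x y h => Subtype.ext (congrArg (fun z : S => (z : F)) h)
    have hbij := hinj.bijective_of_nat_card_le (by rw [h1])
    apply le_antisymm _ hS
    intro x hx
    obtain ⟨y, hy⟩ := hbij.2 ⟨x, hx⟩
    have : (y : F) = x := congrArg (fun z : S => (z : F)) hy
    rw [← this]
    exact y.2

/-- A subgroup containing the elementary matrices contains the special linear group. -/
theorem specialLinear_le_of_elem (H : Subgroup (GL ι F))
    (helem : ∀ {i j : ι} (hij : i ≠ j) (c : F), elem hij c ∈ H) :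
    specialLinear ι F ≤ H := by
  intro g hg
  rcases subsingleton_or_nontrivial ι with hs | hn
  · have : g = 1 := by
      apply Units.ext
      have hdet : (g : Matrix ι ι F).det = 1 := (mem_specialLinear_iff g).1 hg
      ext i j
      rw [Subsingleton.elim j i]
      have := Matrix.det_eq_elem_of_subsingleton (g : Matrix ι ι F) i
      rw [this] at hdet
      simpa [hdet] using hdet
    rw [this]
    exact H.one_mem
  · have hdet : (g : Matrix ι ι F).det = 1 := (mem_specialLinear_iff g).1 hg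
    let M : Matrix.SpecialLinearGroup ι F := ⟨g, hdet⟩
    have hM : ((M : Matrix.SpecialLinearGroup ι F) : GL ι F) = g := Units.ext rfl
    rw [← hM]
    refine Matrix.SpecialLinearGroup.diagonal_transvection_induction'
      (fun M : Matrix.SpecialLinearGroup ι F => ((M : Matrix.SpecialLinearGroup ι F) : GL ι F) ∈ H)
      M ?_ ?_ ?_
    · intro i j hij c hc
      change ((Matrix.SpecialLinearGroup.diag2n hij c hc : Matrix.SpecialLinearGroup ι F) : GL ι F) ∈ H
      rw [diag2n_eq_prod]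
      exact H.mul_mem (H.mul_mem (H.mul_mem (helem _ _) (helem _ _)) (helem _ _))
        (H.mul_mem (H.mul_mem (helem _ _) (helem _ _)) (helem _ _))
    · intro i j hij a
      change ((Matrix.SpecialLinearGroup.transvection hij a : Matrix.SpecialLinearGroup ι F) : GL ι F) ∈ H
      rw [← elem_eq_toGL]
      exact helem hij a
    · intro A B hA hB
      change ((A * B : Matrix.SpecialLinearGroup ι F) : GL ι F) ∈ H
      rw [map_mul]
      exact H.mul_mem hA hB

/-- The determinant of the matrix of `x ↦ x + φ x • w`. -/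
theorem tvMat_det_general (φ : (ι → F) →ₗ[F] F) (w : ι → F) : (tvMat φ w).det = 1 + φ w := by
  have h1 : Matrix.toLin' (tvMat φ w) =
      (LinearMap.transvection φ w : (ι → F) →ₗ[F] (ι → F)) := by
    apply LinearMap.ext
    intro x
    rw [Matrix.toLin'_apply, tvMat_mulVec, LinearMap.transvection.apply]
  rw [← LinearMap.det_toLin', h1, LinearMap.transvection.det]

/-- Maximality is preserved under conjugation. -/
theorem isMaximalIn_map_conj {G : Type*} [Group G] (p : G) {K H : Subgroup G} (h : IsMaximalIn K H) :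
    IsMaximalIn (K.map (MulAut.conj p).toMonoidHom) (H.map (MulAut.conj p).toMonoidHom) := by
  have hinj : Function.Injective (MulAut.conj p).toMonoidHom := (MulAut.conj p).injective
  have hback : ∀ A : Subgroup G, (A.map (MulAut.conj p).toMonoidHom).map (MulAut.conj p⁻¹).toMonoidHom = A := by
    intro A
    rw [Subgroup.map_map]
    have : ((MulAut.conj p⁻¹).toMonoidHom.comp (MulAut.conj p).toMonoidHom) = MonoidHom.id G := by
      ext g
      simp [MulAut.conj_apply]
      group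
    rw [this, Subgroup.map_id]
  have hback' : ∀ A : Subgroup G, (A.map (MulAut.conj p⁻¹).toMonoidHom).map (MulAut.conj p).toMonoidHom = A := by
    intro A
    rw [Subgroup.map_map]
    have : ((MulAut.conj p).toMonoidHom.comp (MulAut.conj p⁻¹).toMonoidHom) = MonoidHom.id G := by
      ext g
      simp [MulAut.conj_apply]
      group
    rw [this, Subgroup.map_id]
  refine ⟨(Subgroup.map_lt_map_iff_of_injective hinj).2 h.1, fun M h1 h2 => ?_⟩
  have h3 : H ≤ M.map (MulAut.conj p⁻¹).toMonoidHom := by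
    rw [← hback H]
    exact Subgroup.map_mono h1
  have h4 : M.map (MulAut.conj p⁻¹).toMonoidHom ≤ K := by
    rw [← hback K]
    exact Subgroup.map_mono h2
  rcases h.2 _ h3 h4 with h5 | h5
  · left
    rw [← hback' M, h5]
  · right
    rw [← hback' M, h5]

/-- The subfield group of `P` is the conjugate of the subfield group of `1`. -/
theorem subfield_eq_map (P : GL ι F) :
    subfieldSubgroup F₀ P = (subfieldSubgroup F₀ 1).map (MulAut.conj P).toMonoidHom := by
  have : (MulAut.conj (1 : GL ι F)).toMonoidHom = MonoidHom.id _ := by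
    ext g
    simp [MulAut.conj_apply]
  unfold subfieldSubgroup
  rw [this, Subgroup.map_id]

theorem specialLinear_map_conj (P : GL ι F) :
    (specialLinear ι F).map (MulAut.conj P).toMonoidHom = specialLinear ι F := by
  have hN : (specialLinear ι F).Normal := MonoidHom.normal_ker _
  apply le_antisymm
  · rintro _ ⟨g, hg, rfl⟩
    exact hN.conj_mem g hg P
  · intro g hg
    refine ⟨P⁻¹ * g * P, ?_, ?_⟩
    · have := hN.conj_mem g hg P⁻¹
      simpa using this
    · simp [MulAut.conj_apply]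
      group

end Cfsg.Agent.Lib.SubfieldBase
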