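import Cfsg.Agent.Lib.SubfieldBase
import Cfsg.Agent.Lib.QuadSim

/-! Subfield subgroups of `Ω`: rational structures of a quadratic form; Siegel elements with a
rational singular centre. -/

set_option autoImplicit false
set_option linter.unusedSectionVars false
set_option linter.unusedSimpArgs false
set_option linter.unusedVariables false

open scoped MatrixGroups Matrix
open Cfsg Cfsg.Geo
open Cfsg.Agent.Lib.Transvection Cfsg.Agent.Lib.LinAlgAux Cfsg.Agent.Lib.QuadBase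
  Cfsg.Agent.Lib.QuadSiegel Cfsg.Agent.Lib.SubfieldGroup Cfsg.Agent.Lib.SubfieldBase
  Cfsg.Agent.Lib.QuadSim
open Cfsg.Agent.Lib.SymplecticTv (Ind Ind.ne_zero_left Ind.ne_zero_right)
open QuadraticMap (polar)

namespace Cfsg.Agent.Lib.SubfieldOm

variable {ι : Type} [Fintype ι] [DecidableEq ι] {F : Type*} [Field F] {Q : (ι → F) → F}
  {hQ : IsNondegenerateQuadraticForm Q} {F₀ : Subfield F}

theorem ind_sw {a b : ι → F} (h : Ind a b) : Ind b a := by
  intro s t hst
  have := h t s (by rw [add_comm]; exact hst)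
  exact ⟨this.2, this.1⟩

theorem exists_single_ne (hQ : IsNondegenerateQuadraticForm Q) {x : ι → F} (hx : x ≠ 0) :
    ∃ i, polar Q x (Pi.single i 1) ≠ 0 := by
  obtain ⟨y, hy⟩ := exists_left_ne hQ hx
  by_contra hall
  push Not at hall
  have h1 : formL hQ x = 0 := by
    apply LinearMap.pi_ext'
    intro i
    apply LinearMap.ext_ring
    simp [QuadraticMap.polar_comm Q _ x, hall i]
  exact hy (LinearMap.congr_fun h1 y)

theorem eq_zero_of_forall_rat (hQ : IsNondegenerateQuadraticForm Q) {x : ι → F}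
    (h : ∀ u : ι → F₀, polar Q x (emb F₀ u) = 0) : x = 0 := by
  by_contra hx
  obtain ⟨i, hi⟩ := exists_single_ne hQ hx
  apply hi
  have := h (Pi.single i 1)
  rwa [emb_single] at this

theorem isRat_add {x z : ι → F} (hx : IsRat F₀ x) (hz : IsRat F₀ z) : IsRat F₀ (x + z) := fun i => by
  simp only [Pi.add_apply]
  exact F₀.add_mem (hx i) (hz i)

theorem isRat_sub {x z : ι → F} (hx : IsRat F₀ x) (hz : IsRat F₀ z) : IsRat F₀ (x - z) := fun i => by
  simp only [Pi.sub_apply]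
  exact F₀.sub_mem (hx i) (hz i)

theorem isRat_smul {x : ι → F} {c : F} (hc : c ∈ F₀) (hx : IsRat F₀ x) : IsRat F₀ (c • x) := fun i => by
  simp only [Pi.smul_apply, smul_eq_mul]
  exact F₀.mul_mem hc (hx i)

/-- `Q` is rational on rational vectors. -/
structure RatData (hQ : IsNondegenerateQuadraticForm Q) (F₀ : Subfield F) : Prop where
  hrat : ∀ u : ι → F₀, Q (emb F₀ u) ∈ F₀

section Basics

variable (D : RatData hQ F₀)

/-- The rational form. -/
def Qr (u : ι → F₀) : F₀ := ⟨Q (emb F₀ u), D.hrat u⟩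

@[simp] theorem Qr_coe (u : ι → F₀) : ((Qr D u : F₀) : F) = Q (emb F₀ u) := rfl

theorem pr_coe (u v : ι → F₀) :
    ((polar (Qr D) u v : F₀) : F) = polar Q (emb F₀ u) (emb F₀ v) := by
  simp [polar]

include D in
theorem pol_rat (u v : ι → F₀) : polar Q (emb F₀ u) (emb F₀ v) ∈ F₀ := by
  rw [← pr_coe D]
  exact SetLike.coe_mem _

theorem Qr_nondeg : IsNondegenerateQuadraticForm (Qr D) where
  smul c v := Subtype.ext (by
    simp only [Qr_coe, emb_smul, hQ.smul, MulMemClass.coe_mul, SubmonoidClass.coe_pow])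
  polar_bilinear :=
    { add_left := fun x y v => Subtype.ext (by
        simp only [pr_coe, emb_add, AddMemClass.coe_add]
        exact pol_add_left hQ _ _ _)
      smul_left := fun c x v => Subtype.ext (by
        simp only [pr_coe, emb_smul, MulMemClass.coe_mul]
        exact pol_smul_left hQ _ _ _)
      add_right := fun v x y => Subtype.ext (by
        simp only [pr_coe, emb_add, AddMemClass.coe_add]
        exact pol_add_right hQ _ _ _)
      smul_right := fun c v x => Subtype.ext (by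
        simp only [pr_coe, emb_smul, MulMemClass.coe_mul]
        exact pol_smul_right hQ _ _ _) }
  nondegenerate := by
    intro v hv
    have hv' : emb F₀ v ≠ 0 := fun h => hv (emb_eq_zero F₀ h)
    obtain ⟨i, hi⟩ := exists_single_ne hQ hv'
    have h1 : polar (Qr D) v (Pi.single i 1) ≠ 0 := by
      intro h
      apply hi
      have := congrArg Subtype.val h
      rw [pr_coe, emb_single] at this
      exact this
    exact ⟨⟨Pi.single i 1, by rwa [QuadraticMap.polar_comm]⟩, ⟨Pi.single i 1, h1⟩⟩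

include D

theorem pr_eq_zero {u v : ι → F₀} :
    polar (Qr D) u v = 0 ↔ polar Q (emb F₀ u) (emb F₀ v) = 0 := by
  rw [← pr_coe D, ZeroMemClass.coe_eq_zero]

theorem Qr_eq_zero {u : ι → F₀} : Qr D u = 0 ↔ Q (emb F₀ u) = 0 := by
  rw [← Qr_coe D, ZeroMemClass.coe_eq_zero]

theorem pr_eq_one {u v : ι → F₀} :
    polar (Qr D) u v = 1 ↔ polar Q (emb F₀ u) (emb F₀ v) = 1 := by
  rw [← pr_coe D]
  constructor
  · intro h
    rw [h]
    rfl
  · intro h
    exact Subtype.ext h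

theorem emb_ne_zero {u : ι → F₀} (h : u ≠ 0) : emb F₀ u ≠ 0 := fun h' => h (emb_eq_zero F₀ h')

/-- A hyperbolic pair of rational vectors orthogonal to a list. -/
theorem hyp_list [Fintype F] (l : List (ι → F₀)) (hl : 2 * l.length + 3 ≤ Fintype.card ι) :
    ∃ h h' : ι → F₀, Q (emb F₀ h) = 0 ∧ Q (emb F₀ h') = 0 ∧
      polar Q (emb F₀ h') (emb F₀ h) = 1 ∧
      ∀ a ∈ l, polar Q (emb F₀ h) (emb F₀ a) = 0 ∧ polar Q (emb F₀ h') (emb F₀ a) = 0 := by
  letI : Fintype F₀ := Fintype.ofFinite F₀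
  obtain ⟨h, h', h1, h2, h3, h4⟩ := exists_hyp (Qr_nondeg D) l hl
  refine ⟨h, h', (Qr_eq_zero D).1 h1, (Qr_eq_zero D).1 h2, (pr_eq_one D).1 h3, fun a ha => ?_⟩
  exact ⟨(pr_eq_zero D).1 (h4 a ha).1, (pr_eq_zero D).1 (h4 a ha).2⟩

/-- The orthogonal complement of a list. -/
def perpR (l : List (ι → F₀)) : Submodule F₀ (ι → F₀) where
  carrier := {y | ∀ a ∈ l, polar Q (emb F₀ y) (emb F₀ a) = 0}
  add_mem' := by
    intro x y hx hy a ha
    rw [emb_add, pol_add_left hQ, hx a ha, hy a ha, add_zero]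
  zero_mem' := by
    intro a _
    rw [emb_zero, pol_zero_left hQ]
  smul_mem' := by
    intro c x hx a ha
    rw [emb_smul, pol_smul_left hQ, hx a ha, mul_zero]

/-- Induction on singular rational vectors inside the orthogonal complement of a list. -/
theorem sing_ind [Fintype F] (l : List (ι → F₀)) (hl : 2 * l.length + 3 ≤ Fintype.card ι)
    (P : (ι → F₀) → Prop)
    (hsing : ∀ a, Q (emb F₀ a) = 0 → (∀ c ∈ l, polar Q (emb F₀ a) (emb F₀ c) = 0) → P a)
    (hadd : ∀ a b, (∀ c ∈ l, polar Q (emb F₀ a) (emb F₀ c) = 0) →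
      (∀ c ∈ l, polar Q (emb F₀ b) (emb F₀ c) = 0) → P a → P b → P (a + b))
    {y : ι → F₀} (hy : ∀ c ∈ l, polar Q (emb F₀ y) (emb F₀ c) = 0) : P y := by
  obtain ⟨h, h', h1, h2, h3, h4⟩ := hyp_list D l hl
  exact sing_induction (Qr_nondeg D) (Y := perpR (hQ := hQ) l) (h := h) (h' := h')
    (fun a ha => (h4 a ha).1) (fun a ha => (h4 a ha).2) ((Qr_eq_zero D).2 h1) ((Qr_eq_zero D).2 h2)
    ((pr_eq_one D).2 h3) P (fun a ha hq => hsing a ((Qr_eq_zero D).1 hq) ha)
    (fun a ha b hb => hadd a b ha hb) hy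

theorem dual_of_ind [Finite F] {a b : ι → F₀} (h : Ind (emb F₀ a) (emb F₀ b)) :
    ∃ c : ι → F₀, polar Q (emb F₀ a) (emb F₀ c) = 1 ∧ polar Q (emb F₀ b) (emb F₀ c) = 0 := by
  have hsp : a ∉ Submodule.span F₀ {b} := by
    intro hm
    obtain ⟨t, ht⟩ := Submodule.mem_span_singleton.1 hm
    have := h (-1) (t : F) (by rw [← ht, emb_smul]; simp)
    simp at this
  obtain ⟨φ, hφ1, hφ2⟩ := exists_functional_of_not_mem_span hsp
  obtain ⟨c, hc⟩ := exists_riesz (Qr_nondeg D) φ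
  refine ⟨c, (pr_eq_one D).1 ?_, (pr_eq_zero D).1 ?_⟩
  · rw [hc, hφ1]
  · rw [hc, hφ2]

/-- A rational partner of a non-zero rational vector. -/
theorem partner {a : ι → F₀} (ha : a ≠ 0) : ∃ p : ι → F₀, polar Q (emb F₀ p) (emb F₀ a) = 1 := by
  have hn := Qr_nondeg D
  obtain ⟨x, hx⟩ := (hn.nondegenerate a ha).1
  refine ⟨(polar (Qr D) x a)⁻¹ • x, (pr_eq_one D).1 ?_⟩
  rw [pol_smul_left hn, inv_mul_cancel₀ hx]

/-- A vector orthogonal to all rational vectors orthogonal to `w` is a multiple of `w`. -/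
theorem perp_rat {w : ι → F₀} (hw : w ≠ 0) {y : ι → F}
    (h : ∀ b : ι → F₀, polar Q (emb F₀ b) (emb F₀ w) = 0 → polar Q y (emb F₀ b) = 0) :
    ∃ t : F, y = t • emb F₀ w := by
  obtain ⟨p, hp⟩ := partner D hw
  refine ⟨polar Q y (emb F₀ p), ?_⟩
  rw [← sub_eq_zero]
  apply eq_zero_of_forall_rat hQ (F₀ := F₀)
  intro c
  set l : F₀ := polar (Qr D) c w with hl
  have hlc : (l : F) = polar Q (emb F₀ c) (emb F₀ w) := pr_coe D c w
  have h1 : polar Q (emb F₀ (c - l • p)) (emb F₀ w) = 0 := by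
    rw [emb_sub, emb_smul, pol_sub_left hQ, pol_smul_left hQ, hp, hlc]
    ring
  have h2 := h _ h1
  rw [emb_sub, emb_smul, pol_sub_right hQ, pol_smul_right hQ, hlc] at h2
  rw [pol_sub_left hQ, pol_smul_left hQ, QuadraticMap.polar_comm Q (emb F₀ w)]
  linear_combination h2

/-- A vector orthogonal to all rational vectors orthogonal to `r₁, r₂` lies in their span. -/
theorem perp_rat2 [Finite F] {r₁ r₂ : ι → F₀} (hi : Ind (emb F₀ r₁) (emb F₀ r₂)) {y : ι → F}
    (h : ∀ b : ι → F₀, polar Q (emb F₀ r₁) (emb F₀ b) = 0 → polar Q (emb F₀ r₂) (emb F₀ b) = 0 →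
      polar Q y (emb F₀ b) = 0) :
    ∃ s t : F, y = s • emb F₀ r₁ + t • emb F₀ r₂ := by
  obtain ⟨p₁, h11, h21⟩ := dual_of_ind D hi
  obtain ⟨p₂, h22, h12⟩ := dual_of_ind D (ind_sw hi)
  refine ⟨polar Q y (emb F₀ p₁), polar Q y (emb F₀ p₂), ?_⟩
  rw [← sub_eq_zero]
  apply eq_zero_of_forall_rat hQ (F₀ := F₀)
  intro c
  set l₁ : F₀ := polar (Qr D) r₁ c with hl₁
  set l₂ : F₀ := polar (Qr D) r₂ c with hl₂
  have hlc₁ : (l₁ : F) = polar Q (emb F₀ r₁) (emb F₀ c) := pr_coe D r₁ c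
  have hlc₂ : (l₂ : F) = polar Q (emb F₀ r₂) (emb F₀ c) := pr_coe D r₂ c
  have h2 := h (c - l₁ • p₁ - l₂ • p₂) (by
    simp only [emb_sub, emb_smul, pol_sub_right hQ, pol_smul_right hQ, h11, h12, hlc₁]
    ring) (by
    simp only [emb_sub, emb_smul, pol_sub_right hQ, pol_smul_right hQ, h21, h22, hlc₂]
    ring)
  simp only [emb_sub, emb_smul, pol_sub_right hQ, pol_smul_right hQ, hlc₁, hlc₂] at h2
  simp only [pol_sub_left hQ, pol_add_left hQ, pol_smul_left hQ]
  linear_combination h2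

/-- A vector pairing rationally with the rational vectors is rational. -/
theorem isRat_of_forall [Finite F] {v : ι → F} (h : ∀ u : ι → F₀, polar Q v (emb F₀ u) ∈ F₀) :
    IsRat F₀ v := by
  intro i
  obtain ⟨c, hc⟩ := exists_riesz (Qr_nondeg D) (LinearMap.proj i : (ι → F₀) →ₗ[F₀] F₀)
  have h1 : ∀ u : ι → F₀, polar Q (emb F₀ u) (emb F₀ c) = (u i : F) := by
    intro u
    rw [← pr_coe D, hc]
    rfl
  have h2 : formL hQ (emb F₀ c) = LinearMap.proj i := by
    apply LinearMap.pi_ext'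
    intro j
    apply LinearMap.ext_ring
    have := h1 (Pi.single j 1)
    rw [emb_single] at this
    simp only [LinearMap.comp_apply, LinearMap.single_apply, formL_apply, LinearMap.proj_apply, this]
    by_cases hij : i = j
    · subst hij
      simp
    · simp [Pi.single_eq_of_ne hij]
  have h3 := LinearMap.congr_fun h2 v
  simp only [formL_apply, LinearMap.proj_apply] at h3
  rw [← h3]
  exact h _

/-- Rational coefficients of independent rational vectors. -/
theorem coeff_rat [Finite F] {A B : ι → F₀} (hAB : Ind (emb F₀ A) (emb F₀ B)) {α β : F}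
    (h : IsRat F₀ (α • emb F₀ A + β • emb F₀ B)) : α ∈ F₀ := by
  obtain ⟨c, h1, h2⟩ := dual_of_ind D hAB
  obtain ⟨C, hC⟩ := h.exists_emb
  have h3 : polar Q (emb F₀ C) (emb F₀ c) = α := by
    rw [hC, pol_add_left hQ, pol_smul_left hQ, pol_smul_left hQ, h1, h2]
    ring
  rw [← h3]
  exact pol_rat D _ _

theorem coeff_rat' [Finite F] {A B : ι → F₀} (hAB : Ind (emb F₀ A) (emb F₀ B)) {α β : F}
    (h : IsRat F₀ (α • emb F₀ A + β • emb F₀ B)) : β ∈ F₀ :=
  coeff_rat D (ind_sw hAB) (by rwa [add_comm] at h)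

/-- A rational multiple of a rational vector. -/
theorem coeff_rat1 [Finite F] {A : ι → F₀} (hA : A ≠ 0) {α : F} (h : IsRat F₀ (α • emb F₀ A)) :
    α ∈ F₀ := by
  obtain ⟨p, hp⟩ := partner D hA
  obtain ⟨C, hC⟩ := h.exists_emb
  have h3 : polar Q (emb F₀ C) (emb F₀ p) = α := by
    rw [hC, pol_smul_left hQ, QuadraticMap.polar_comm, hp]
    ring
  rw [← h3]
  exact pol_rat D _ _

end Basics

section Ind

theorem ind_of_dual (hQ : IsNondegenerateQuadraticForm Q) {a b c : ι → F} (h1 : polar Q a c ≠ 0)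
    (h2 : polar Q b c = 0) (hb : b ≠ 0) : Ind a b := by
  intro s t h
  have h3 := congrArg (fun z => polar Q z c) h
  simp only [pol_add_left hQ, pol_smul_left hQ, h2, mul_zero, add_zero, pol_zero_left hQ] at h3
  have hs : s = 0 := (mul_eq_zero.1 h3).resolve_right h1
  refine ⟨hs, ?_⟩
  rw [hs, zero_smul, zero_add] at h
  exact (smul_eq_zero.1 h).resolve_right hb

theorem ind_of_dual' (hQ : IsNondegenerateQuadraticForm Q) {a b c : ι → F} (h1 : polar Q c a ≠ 0)
    (h2 : polar Q c b = 0) (hb : b ≠ 0) : Ind a b :=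
  ind_of_dual hQ (c := c) (by rwa [QuadraticMap.polar_comm]) (by rwa [QuadraticMap.polar_comm]) hb

end Ind

section Groups

/-- `M` contains the rational Siegel elements. -/
def RatM (hQ : IsNondegenerateQuadraticForm Q) (F₀ : Subfield F) (M : Subgroup (GL ι F)) : Prop :=
  ∀ a b : ι → F₀, Q (emb F₀ a) = 0 → polar Q (emb F₀ a) (emb F₀ b) = 0 →
    sg hQ (emb F₀ a) (emb F₀ b) ∈ M

/-- `M` contains no Siegel element over a rational pair with a non-rational coefficient. -/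
def NoS (hQ : IsNondegenerateQuadraticForm Q) (F₀ : Subfield F) (M : Subgroup (GL ι F)) : Prop :=
  ∀ (ρ : F) (a b : ι → F₀), Q (emb F₀ a) = 0 → Q (emb F₀ b) = 0 →
    polar Q (emb F₀ a) (emb F₀ b) = 0 → Ind (emb F₀ a) (emb F₀ b) →
    sg hQ (emb F₀ a) (ρ • emb F₀ b) ∈ M → ρ ∈ F₀

/-- The Siegel element with centre `w` and direction `u` is in `M`. -/
def AA (hQ : IsNondegenerateQuadraticForm Q) (M : Subgroup (GL ι F)) (w u : ι → F) : Prop :=
  polar Q w u = 0 ∧ sg hQ w u ∈ M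

variable {M : Subgroup (GL ι F)}

theorem AA.add {w u u' : ι → F} (hww : Q w = 0) (h : AA hQ M w u) (h' : AA hQ M w u') :
    AA hQ M w (u + u') := by
  refine ⟨by rw [pol_add_right hQ, h.1, h'.1, add_zero], ?_⟩
  rw [← sg_add hQ hww h.1 h'.1]
  exact M.mul_mem h.2 h'.2

theorem AA.neg {w u : ι → F} (hww : Q w = 0) (h : AA hQ M w u) : AA hQ M w (-u) := by
  refine ⟨by rw [pol_neg_right hQ, h.1, neg_zero], ?_⟩
  rw [sg_neg hQ hww h.1]
  exact M.inv_mem h.2

theorem AA.conj {w u : ι → F} (hww : Q w = 0) (h : AA hQ M w u) {G : GL ι F} (hG : G ∈ M)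
    (hi : QIsom Q G) (hw : (G : Matrix ι ι F) *ᵥ w = w) : AA hQ M w ((G : Matrix ι ι F) *ᵥ u) := by
  refine ⟨?_, ?_⟩
  · have := hi.pol w u
    rw [hw] at this
    rw [this, h.1]
  · have h3 := M.mul_mem (M.mul_mem hG h.2) (M.inv_mem hG)
    rw [conj_sg hQ hi hww h.1, hw] at h3
    exact h3

theorem AA.conj_sub {w u : ι → F} (hww : Q w = 0) (h : AA hQ M w u) {G : GL ι F} (hG : G ∈ M)
    (hi : QIsom Q G) (hw : (G : Matrix ι ι F) *ᵥ w = w) :
    AA hQ M w ((G : Matrix ι ι F) *ᵥ u - u) := by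
  rw [sub_eq_add_neg]
  exact (h.conj hww hG hi hw).add hww (h.neg hww)

/-- The shift formula for a totally singular triple. -/
theorem sg_shift (hQ : IsNondegenerateQuadraticForm Q) {x x' W : ι → F} (hxx : Q x = 0)
    (hx'x' : Q x' = 0) (hWW : Q W = 0) (hxx' : polar Q x x' = 0) (hWx : polar Q W x = 0)
    (hWx' : polar Q W x' = 0) (α β : F) :
    sg hQ (x + α • W) (x' + β • W) = sg hQ W (α • x' - β • x) * sg hQ x x' := by
  have hxW : polar Q x W = 0 := by rw [QuadraticMap.polar_comm]; exact hWx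
  have hx'W : polar Q x' W = 0 := by rw [QuadraticMap.polar_comm]; exact hWx'
  have hx'x : polar Q x' x = 0 := by rw [QuadraticMap.polar_comm]; exact hxx'
  have hxs : polar Q x x = 0 := by rw [pol_self hQ, hxx, mul_zero]
  have hx's : polar Q x' x' = 0 := by rw [pol_self hQ, hx'x', mul_zero]
  have hWs : polar Q W W = 0 := by rw [pol_self hQ, hWW, mul_zero]
  have h1 : Q (x + α • W) = 0 := by
    rw [Q_add (Q := Q), hQ.smul, hxx, hWW, pol_smul_right hQ, hxW]
    ring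
  have h2 : polar Q (x + α • W) (x' + β • W) = 0 := by
    simp only [pol_add_left hQ, pol_add_right hQ, pol_smul_left hQ, pol_smul_right hQ, hxx', hxW,
      hWx', hWs]
    ring
  have h3 : Q (x' + β • W) = 0 := by
    rw [Q_add (Q := Q), hQ.smul, hx'x', hWW, pol_smul_right hQ, hx'W]
    ring
  have h4 : polar Q W (α • x' - β • x) = 0 := by
    rw [pol_sub_right hQ, pol_smul_right hQ, pol_smul_right hQ, hWx', hWx]
    ring
  have h5 : Q (α • x' - β • x) = 0 := by
    rw [Q_sub hQ, hQ.smul, hQ.smul, hx'x', hxx, pol_smul_left hQ, pol_smul_right hQ, hx'x]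
    ring
  apply gl_ext_mulVec
  intro y
  rw [gl_mul_mulVec, sg_mulVec hQ h1 h2, sg_mulVec hQ hxx hxx', sg_mulVec hQ hWW h4, h3, h5, hx'x']
  simp only [pol_add_left hQ, pol_add_right hQ, pol_sub_left hQ, pol_sub_right hQ, pol_smul_left hQ,
    pol_smul_right hQ, hxW, hx'W, hx'x, hxs, hx's, hxx', hWx, hWx', hWs]
  simp only [zero_mul, zero_smul, sub_zero, mul_zero, add_zero, zero_add]
  module

/-- Two ways of writing a Siegel element on a plane. -/
theorem sg_plane1 (hQ : IsNondegenerateQuadraticForm Q) {x x' : ι → F} (hxx : Q x = 0)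
    (hx'x' : Q x' = 0) (hxx' : polar Q x x' = 0) {κ₁ : F} (κ₂ : F) (h0 : κ₁ ≠ 0) :
    sg hQ (κ₁ • x + κ₂ • x') (κ₁⁻¹ • x') = sg hQ x x' := by
  have hx's : polar Q x' x' = 0 := by rw [pol_self hQ, hx'x', mul_zero]
  have h1 : Q (κ₁ • x + κ₂ • x') = 0 := by
    rw [Q_add (Q := Q), hQ.smul, hQ.smul, hxx, hx'x', pol_smul_left hQ, pol_smul_right hQ, hxx']
    ring
  have h2 : polar Q (κ₁ • x + κ₂ • x') (κ₁⁻¹ • x') = 0 := by
    simp only [pol_add_left hQ, pol_smul_left hQ, pol_smul_right hQ, hxx', hx's]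
    ring
  apply gl_ext_mulVec
  intro y
  rw [sg_mulVec hQ h1 h2, sg_mulVec hQ hxx hxx', hQ.smul, hx'x']
  simp only [pol_add_right hQ, pol_smul_right hQ, mul_zero, zero_mul, zero_smul, sub_zero, smul_add,
    smul_smul, add_smul, smul_sub]
  have e1 : (κ₁ * polar Q y x + κ₂ * polar Q y x') * κ₁⁻¹ =
      polar Q y x + κ₁⁻¹ * polar Q y x' * κ₂ := by field_simp
  have e3 : κ₁⁻¹ * polar Q y x' * κ₁ = polar Q y x' := by field_simp
  rw [e1, e3]
  module

theorem sg_plane2 (hQ : IsNondegenerateQuadraticForm Q) {x x' : ι → F} (hxx : Q x = 0)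
    (hx'x' : Q x' = 0) (hxx' : polar Q x x' = 0) {κ₂ : F} (h0 : κ₂ ≠ 0) :
    sg hQ (κ₂ • x') ((-κ₂⁻¹) • x) = sg hQ x x' := by
  have hx'x : polar Q x' x = 0 := by rw [QuadraticMap.polar_comm]; exact hxx'
  have h1 : Q (κ₂ • x') = 0 := by rw [hQ.smul, hx'x', mul_zero]
  have h2 : polar Q (κ₂ • x') ((-κ₂⁻¹) • x) = 0 := by
    simp only [pol_smul_left hQ, pol_smul_right hQ, hx'x]
    ring
  apply gl_ext_mulVec
  intro y
  rw [sg_mulVec hQ h1 h2, sg_mulVec hQ hxx hxx', hQ.smul, hxx, hx'x']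
  simp only [pol_smul_right hQ, mul_zero, zero_mul, zero_smul, sub_zero, smul_smul]
  have e1 : (κ₂ * polar Q y x') * (-κ₂⁻¹) = - polar Q y x' := by field_simp
  have e2 : (-κ₂⁻¹ * polar Q y x) * κ₂ = - polar Q y x := by field_simp
  rw [e1, e2]
  module

end Groups

section LemmaA

variable [Fintype F] (D : RatData hQ F₀) {M : Subgroup (GL ι F)}
include D

/-- The pairing of `u` with rational singular vectors in the centre's orthogonal space is rational. -/
theorem lemA_key (hn : 11 ≤ Fintype.card ι) (hS : NoS hQ F₀ M) (hM : RatM hQ F₀ M) {w d : ι → F₀}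
    {u : ι → F} (hww : Q (emb F₀ w) = 0) (hw : w ≠ 0) (hdd : Q (emb F₀ d) = 0)
    (hwd : polar Q (emb F₀ w) (emb F₀ d) = 0) (hA : AA hQ M (emb F₀ w) u) :
    polar Q u (emb F₀ d) ∈ F₀ := by
  obtain ⟨e, c₃, he, hc₃, hc₃e, hl⟩ := hyp_list D [w, d] (by simp; omega)
  obtain ⟨hew, hc₃w⟩ := hl w (by simp)
  obtain ⟨hed, hc₃d⟩ := hl d (by simp)
  have hde : polar Q (emb F₀ d) (emb F₀ e) = 0 := by rw [QuadraticMap.polar_comm]; exact hed
  have hG₂w : ((sg hQ (emb F₀ d) (emb F₀ e) : GL ι F) : Matrix ι ι F) *ᵥ emb F₀ w = emb F₀ w := by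
    rw [sg_mulVec hQ hdd hde, hwd, QuadraticMap.polar_comm Q (emb F₀ w), hew]
    simp
  have hA2 := hA.conj_sub hww (hM d e hdd hde) (sg_isom hQ hdd hde) hG₂w
  have e2 : ((sg hQ (emb F₀ d) (emb F₀ e) : GL ι F) : Matrix ι ι F) *ᵥ u - u =
      polar Q u (emb F₀ d) • emb F₀ e + (-polar Q u (emb F₀ e)) • emb F₀ d := by
    rw [sg_mulVec hQ hdd hde, he]
    simp only [zero_mul, zero_smul, sub_zero]
    module
  rw [e2] at hA2
  obtain ⟨e', c₄, he', hc₄, hc₄e', hl'⟩ := hyp_list D [w, d, e, c₃] (by simp; omega)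
  obtain ⟨he'w, hc₄w⟩ := hl' w (by simp)
  obtain ⟨he'd, hc₄d⟩ := hl' d (by simp)
  obtain ⟨he'e, hc₄e⟩ := hl' e (by simp)
  obtain ⟨he'c, hc₄c⟩ := hl' c₃ (by simp)
  have hce' : polar Q (emb F₀ c₃) (emb F₀ e') = 0 := by rw [QuadraticMap.polar_comm]; exact he'c
  have hG₃w : ((sg hQ (emb F₀ c₃) (emb F₀ e') : GL ι F) : Matrix ι ι F) *ᵥ emb F₀ w = emb F₀ w := by
    rw [sg_mulVec hQ hc₃ hce', QuadraticMap.polar_comm Q (emb F₀ w), hc₃w,
      QuadraticMap.polar_comm Q (emb F₀ w), he'w]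
    simp
  have hG₃e : ((sg hQ (emb F₀ c₃) (emb F₀ e') : GL ι F) : Matrix ι ι F) *ᵥ emb F₀ e =
      emb F₀ e + emb F₀ e' := by
    rw [sg_mulVec hQ hc₃ hce', QuadraticMap.polar_comm Q (emb F₀ e), hc₃e,
      QuadraticMap.polar_comm Q (emb F₀ e), he'e]
    simp [he']
  have hG₃d : ((sg hQ (emb F₀ c₃) (emb F₀ e') : GL ι F) : Matrix ι ι F) *ᵥ emb F₀ d = emb F₀ d := by
    rw [sg_mulVec hQ hc₃ hce', QuadraticMap.polar_comm Q (emb F₀ d), hc₃d,
      QuadraticMap.polar_comm Q (emb F₀ d), he'd]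
    simp
  have hA3 := hA2.conj_sub hww (hM c₃ e' hc₃ hce') (sg_isom hQ hc₃ hce') hG₃w
  have e3 : ((sg hQ (emb F₀ c₃) (emb F₀ e') : GL ι F) : Matrix ι ι F) *ᵥ
      (polar Q u (emb F₀ d) • emb F₀ e + (-polar Q u (emb F₀ e)) • emb F₀ d) -
      (polar Q u (emb F₀ d) • emb F₀ e + (-polar Q u (emb F₀ e)) • emb F₀ d) =
      polar Q u (emb F₀ d) • emb F₀ e' := by
    rw [Matrix.mulVec_add, Matrix.mulVec_smul, Matrix.mulVec_smul, hG₃e, hG₃d]
    module
  rw [e3] at hA3
  have hwe' : polar Q (emb F₀ w) (emb F₀ e') = 0 := by rw [QuadraticMap.polar_comm]; exact he'w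
  have hind : Ind (emb F₀ w) (emb F₀ e') := by
    apply ind_sw
    exact ind_of_dual' hQ (c := emb F₀ c₄) (by rw [hc₄e']; exact one_ne_zero) hc₄w
      (emb_ne_zero D hw)
  exact hS _ w e' hww he' hwe' hind hA3.2

/-- Lemma A: a Siegel element of `M` with a rational singular centre has a rational direction modulo
the centre. -/
theorem lemA (hn : 11 ≤ Fintype.card ι) (hS : NoS hQ F₀ M) (hM : RatM hQ F₀ M) {w : ι → F₀}
    {u : ι → F} (hww : Q (emb F₀ w) = 0) (hw : w ≠ 0) (hA : AA hQ M (emb F₀ w) u) :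
    ∃ t : F, IsRat F₀ (u - t • emb F₀ w) := by
  have huw : polar Q u (emb F₀ w) = 0 := by rw [QuadraticMap.polar_comm]; exact hA.1
  have hperp : ∀ b : ι → F₀, polar Q (emb F₀ b) (emb F₀ w) = 0 → polar Q u (emb F₀ b) ∈ F₀ := by
    intro b hb
    refine sing_ind D [w] (by simp; omega) (fun b => polar Q u (emb F₀ b) ∈ F₀) ?_ ?_
      (y := b) (by simpa using hb)
    · intro a ha hc
      have : polar Q (emb F₀ a) (emb F₀ w) = 0 := hc w (by simp)
      refine lemA_key D hn hS hM hww hw ha ?_ hA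
      rw [QuadraticMap.polar_comm]
      exact this
    · intro a b _ _ h1 h2
      rw [emb_add, pol_add_right hQ]
      exact F₀.add_mem h1 h2
  obtain ⟨p, hp⟩ := partner D hw
  refine ⟨polar Q u (emb F₀ p), isRat_of_forall D fun c => ?_⟩
  set l : F₀ := polar (Qr D) c w with hl
  have hlc : (l : F) = polar Q (emb F₀ c) (emb F₀ w) := pr_coe D c w
  have h1 : polar Q (emb F₀ (c - l • p)) (emb F₀ w) = 0 := by
    rw [emb_sub, emb_smul, pol_sub_left hQ, pol_smul_left hQ, hp, hlc]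
    ring
  have h2 := hperp _ h1
  rw [emb_sub, emb_smul, pol_sub_right hQ, pol_smul_right hQ, hlc] at h2
  have e : polar Q (u - polar Q u (emb F₀ p) • emb F₀ w) (emb F₀ c) =
      polar Q u (emb F₀ c) - polar Q (emb F₀ c) (emb F₀ w) * polar Q u (emb F₀ p) := by
    rw [pol_sub_left hQ, pol_smul_left hQ, QuadraticMap.polar_comm Q (emb F₀ w)]
    ring
  rw [e]
  exact h2

/-- Lemma B: a Siegel element of `M` whose plane is orthogonal to a rational singular vector gives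
Siegel elements at that vector. -/
theorem lemB (hM : RatM hQ F₀ M) {w b : ι → F₀} {x x' : ι → F} (hxx : Q x = 0) (hx'x' : Q x' = 0)
    (hxx' : polar Q x x' = 0) (hT : sg hQ x x' ∈ M) (hww : Q (emb F₀ w) = 0)
    (hwx : polar Q (emb F₀ w) x = 0) (hwx' : polar Q (emb F₀ w) x' = 0)
    (hbw : polar Q (emb F₀ w) (emb F₀ b) = 0) :
    AA hQ M (emb F₀ w) (polar Q x' (emb F₀ b) • x - polar Q x (emb F₀ b) • x') := by
  have hxw : polar Q x (emb F₀ w) = 0 := by rw [QuadraticMap.polar_comm]; exact hwx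
  have hx'w : polar Q x' (emb F₀ w) = 0 := by rw [QuadraticMap.polar_comm]; exact hwx'
  have hG := hM w b hww hbw
  have hGi := sg_isom hQ hww hbw
  have h1 : ((sg hQ (emb F₀ w) (emb F₀ b) : GL ι F) : Matrix ι ι F) *ᵥ x =
      x + (-polar Q x (emb F₀ b)) • emb F₀ w := by
    rw [sg_mulVec hQ hww hbw, hxw]
    simp only [zero_smul, mul_zero, sub_zero, add_zero, neg_smul]
    abel
  have h2 : ((sg hQ (emb F₀ w) (emb F₀ b) : GL ι F) : Matrix ι ι F) *ᵥ x' =
      x' + (-polar Q x' (emb F₀ b)) • emb F₀ w := by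
    rw [sg_mulVec hQ hww hbw, hx'w]
    simp only [zero_smul, mul_zero, sub_zero, add_zero, neg_smul]
    abel
  have h3 := M.mul_mem (M.mul_mem hG hT) (M.inv_mem hG)
  rw [conj_sg hQ hGi hxx hxx', h1, h2, sg_shift hQ hxx hx'x' hww hxx' hwx hwx'] at h3
  have h4 := M.mul_mem h3 (M.inv_mem hT)
  rw [mul_assoc, mul_inv_cancel, mul_one] at h4
  refine ⟨?_, ?_⟩
  · rw [pol_sub_right hQ, pol_smul_right hQ, pol_smul_right hQ, hwx, hwx']
    ring
  · convert h4 using 2
    module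

end LemmaA

end Cfsg.Agent.Lib.SubfieldOm
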