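import Cfsg.Agent.Lib.SubfieldOmA

/-! Subfield subgroups of `Ω`: planes of Siegel elements orthogonal to a rational singular vector. -/

set_option autoImplicit false
set_option linter.unusedSectionVars false
set_option linter.unusedSimpArgs false
set_option linter.unusedVariables false

open scoped MatrixGroups Matrix
open Cfsg Cfsg.Geo
open Cfsg.Agent.Lib.Transvection Cfsg.Agent.Lib.LinAlgAux Cfsg.Agent.Lib.QuadBase
  Cfsg.Agent.Lib.QuadSiegel Cfsg.Agent.Lib.SubfieldGroup Cfsg.Agent.Lib.SubfieldBase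
  Cfsg.Agent.Lib.QuadSim
open Cfsg.Agent.Lib.SymplecticTv (Ind Ind.ne_zero_left Ind.ne_zero_right)
open QuadraticMap (polar)

namespace Cfsg.Agent.Lib.SubfieldOm

variable {ι : Type} [Fintype ι] [DecidableEq ι] {F : Type*} [Field F] {Q : (ι → F) → F}
  {hQ : IsNondegenerateQuadraticForm Q} {F₀ : Subfield F}

/-- The plane spanned by `x, x'` is spanned by rational vectors. -/
def PlaneRat (F₀ : Subfield F) (x x' : ι → F) : Prop :=
  ∃ (r₁ r₂ : ι → F₀) (a b c d : F), emb F₀ r₁ = a • x + b • x' ∧ emb F₀ r₂ = c • x + d • x' ∧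
    a * d - b * c ≠ 0

theorem ind_of_det {x z : ι → F} (hI : Ind x z) {a b c d : F} (hdet : a * d - b * c ≠ 0) :
    Ind (a • x + b • z) (c • x + d • z) := by
  intro s t h
  have h1 := hI (s * a + t * c) (s * b + t * d) (by
    rw [← h]
    module)
  have hs : s = 0 := by
    have : s * (a * d - b * c) = 0 := by linear_combination d * h1.1 - c * h1.2
    exact (mul_eq_zero.1 this).resolve_right hdet
  have ht : t = 0 := by
    have : t * (a * d - b * c) = 0 := by linear_combination a * h1.2 - b * h1.1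
    exact (mul_eq_zero.1 this).resolve_right hdet
  exact ⟨hs, ht⟩

section LemmaE

variable [Fintype F] (D : RatData hQ F₀) {M : Subgroup (GL ι F)}
include D

/-- Lemma E: the plane of a Siegel element of `M` orthogonal to a rational singular vector is
rational. -/
theorem lemE (hn : 13 ≤ Fintype.card ι) (hS : NoS hQ F₀ M) (hM : RatM hQ F₀ M) {x x' : ι → F}
    (hxx : Q x = 0) (hx'x' : Q x' = 0) (hxx' : polar Q x x' = 0) (hind : Ind x x')
    (hT : sg hQ x x' ∈ M) {w : ι → F₀} (hww : Q (emb F₀ w) = 0) (hw : w ≠ 0)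
    (hwx : polar Q (emb F₀ w) x = 0) (hwx' : polar Q (emb F₀ w) x' = 0) : PlaneRat F₀ x x' := by
  by_cases hmem : ∃ κ₁ κ₂ : F, emb F₀ w = κ₁ • x + κ₂ • x'
  · obtain ⟨κ₁, κ₂, hκ⟩ := hmem
    by_cases h1 : κ₁ = 0
    · have hW : emb F₀ w = κ₂ • x' := by
        rw [hκ, h1, zero_smul, zero_add]
      have h2 : κ₂ ≠ 0 := by
        rintro rfl
        apply emb_ne_zero D hw
        rw [hW, zero_smul]
      have hA : AA hQ M (emb F₀ w) ((-κ₂⁻¹) • x) := by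
        refine ⟨by rw [pol_smul_right hQ, hwx, mul_zero], ?_⟩
        rw [hW, sg_plane2 hQ hxx hx'x' hxx' h2]
        exact hT
      obtain ⟨t, ht⟩ := lemA D (by omega) hS hM hww hw hA
      obtain ⟨R, hR⟩ := ht.exists_emb
      refine ⟨w, R, 0, κ₂, -κ₂⁻¹, -t * κ₂, ?_, ?_, ?_⟩
      · rw [hW, zero_smul, zero_add]
      · rw [hR, hW]
        module
      · have : (0 : F) * (-t * κ₂) - κ₂ * -κ₂⁻¹ = 1 := by field_simp; ring
        rw [this]
        exact one_ne_zero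
    · have hA : AA hQ M (emb F₀ w) (κ₁⁻¹ • x') := by
        refine ⟨by rw [pol_smul_right hQ, hwx', mul_zero], ?_⟩
        rw [hκ, sg_plane1 hQ hxx hx'x' hxx' κ₂ h1]
        exact hT
      obtain ⟨t, ht⟩ := lemA D (by omega) hS hM hww hw hA
      obtain ⟨R, hR⟩ := ht.exists_emb
      refine ⟨w, R, κ₁, κ₂, -t * κ₁, κ₁⁻¹ - t * κ₂, hκ, ?_, ?_⟩
      · rw [hR, hκ]
        module
      · have : κ₁ * (κ₁⁻¹ - t * κ₂) - κ₂ * (-t * κ₁) = 1 := by field_simp; ring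
        rw [this]
        exact one_ne_zero
  · push Not at hmem
    obtain ⟨b₁, hb₁, hb₁x⟩ : ∃ b₁ : ι → F₀, polar Q (emb F₀ w) (emb F₀ b₁) = 0 ∧
        polar Q x' (emb F₀ b₁) • x - polar Q x (emb F₀ b₁) • x' ≠ 0 := by
      by_contra hall
      push Not at hall
      have h1 : ∀ b : ι → F₀, polar Q (emb F₀ b) (emb F₀ w) = 0 → polar Q x (emb F₀ b) = 0 := by
        intro b hb
        have h2 := hall b (by rw [QuadraticMap.polar_comm]; exact hb)
        have h3 := hind (polar Q x' (emb F₀ b)) (-polar Q x (emb F₀ b)) (by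
          rw [neg_smul, ← sub_eq_add_neg]
          exact h2)
        simpa using h3.2
      obtain ⟨t, ht⟩ := perp_rat D hw h1
      have ht0 : t ≠ 0 := by
        rintro rfl
        rw [zero_smul] at ht
        exact hind.ne_zero_left ht
      apply hmem t⁻¹ 0
      rw [ht, zero_smul, add_zero, smul_smul, inv_mul_cancel₀ ht0, one_smul]
    obtain ⟨b₂, hb₂, hΔ⟩ : ∃ b₂ : ι → F₀, polar Q (emb F₀ w) (emb F₀ b₂) = 0 ∧
        polar Q (polar Q x' (emb F₀ b₁) • x - polar Q x (emb F₀ b₁) • x') (emb F₀ b₂) ≠ 0 := by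
      by_contra hall
      push Not at hall
      obtain ⟨t, ht⟩ := perp_rat D hw (y := polar Q x' (emb F₀ b₁) • x - polar Q x (emb F₀ b₁) • x')
        (fun b hb => hall b (by rw [QuadraticMap.polar_comm]; exact hb))
      have ht0 : t ≠ 0 := by
        rintro rfl
        rw [zero_smul] at ht
        exact hb₁x ht
      apply hmem (t⁻¹ * polar Q x' (emb F₀ b₁)) (-(t⁻¹ * polar Q x (emb F₀ b₁)))
      have e : emb F₀ w = t⁻¹ • (t • emb F₀ w) := by
        rw [smul_smul, inv_mul_cancel₀ ht0, one_smul]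
      rw [e, ← ht]
      module
    set A := polar Q x (emb F₀ b₁) with hA
    set A' := polar Q x' (emb F₀ b₁) with hA'
    set B := polar Q x (emb F₀ b₂) with hB
    set B' := polar Q x' (emb F₀ b₂) with hB'
    have hΔ' : A' * B - A * B' ≠ 0 := by
      intro h
      apply hΔ
      rw [pol_sub_left hQ, pol_smul_left hQ, pol_smul_left hQ]
      exact h
    have hA₁ := lemB D hM hxx hx'x' hxx' hT hww hwx hwx' hb₁
    have hA₂ := lemB D hM hxx hx'x' hxx' hT hww hwx hwx' hb₂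
    rw [← hA, ← hA'] at hA₁
    rw [← hB, ← hB'] at hA₂
    obtain ⟨t₁, ht₁⟩ := lemA D (by omega) hS hM hww hw hA₁
    obtain ⟨t₂, ht₂⟩ := lemA D (by omega) hS hM hww hw hA₂
    obtain ⟨R₁, hR₁⟩ := ht₁.exists_emb
    obtain ⟨R₂, hR₂⟩ := ht₂.exists_emb
    obtain ⟨w₂, h', hw₂, hh', hh'w₂, hl⟩ := hyp_list D [R₁, R₂, w, b₁, b₂] (by simp; omega)
    obtain ⟨h1, -⟩ := hl R₁ (by simp)
    obtain ⟨h2, -⟩ := hl R₂ (by simp)
    obtain ⟨h3, h3'⟩ := hl w (by simp)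
    obtain ⟨h4, -⟩ := hl b₁ (by simp)
    obtain ⟨h5, -⟩ := hl b₂ (by simp)
    have hxw₂c := QuadraticMap.polar_comm Q x (emb F₀ w₂)
    have hx'w₂c := QuadraticMap.polar_comm Q x' (emb F₀ w₂)
    rw [hR₁, pol_sub_right hQ, pol_sub_right hQ, pol_smul_right hQ, pol_smul_right hQ,
      pol_smul_right hQ, h3, ← hxw₂c, ← hx'w₂c] at h1
    rw [hR₂, pol_sub_right hQ, pol_sub_right hQ, pol_smul_right hQ, pol_smul_right hQ,
      pol_smul_right hQ, h3, ← hxw₂c, ← hx'w₂c] at h2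
    have hp : polar Q x (emb F₀ w₂) = 0 := by
      have : (A' * B - A * B') * polar Q x (emb F₀ w₂) = 0 := by
        linear_combination B * h1 - A * h2
      exact (mul_eq_zero.1 this).resolve_left hΔ'
    have hp' : polar Q x' (emb F₀ w₂) = 0 := by
      have : (A' * B - A * B') * polar Q x' (emb F₀ w₂) = 0 := by
        linear_combination B' * h1 - A' * h2
      exact (mul_eq_zero.1 this).resolve_left hΔ'
    have hw₂0 : w₂ ≠ 0 := by
      rintro rfl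
      rw [emb_zero, pol_zero_right hQ] at hh'w₂
      exact zero_ne_one hh'w₂
    have hw₂x : polar Q (emb F₀ w₂) x = 0 := by rw [← hxw₂c]; exact hp
    have hw₂x' : polar Q (emb F₀ w₂) x' = 0 := by rw [← hx'w₂c]; exact hp'
    have hB₁ := lemB D hM hxx hx'x' hxx' hT hw₂ hw₂x hw₂x' h4
    have hB₂ := lemB D hM hxx hx'x' hxx' hT hw₂ hw₂x hw₂x' h5
    rw [← hA, ← hA'] at hB₁
    rw [← hB, ← hB'] at hB₂
    obtain ⟨s₁, hs₁⟩ := lemA D (by omega) hS hM hw₂ hw₂0 hB₁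
    obtain ⟨s₂, hs₂⟩ := lemA D (by omega) hS hM hw₂ hw₂0 hB₂
    have hI : Ind (emb F₀ w) (emb F₀ w₂) := by
      apply ind_sw
      exact ind_of_dual' hQ (c := emb F₀ h') (by rw [hh'w₂]; exact one_ne_zero) h3'
        (emb_ne_zero D hw)
    have key : ∀ {t s : F} {z : ι → F}, IsRat F₀ (z - t • emb F₀ w) → IsRat F₀ (z - s • emb F₀ w₂) →
        IsRat F₀ z := by
      intro t s z h6 h7
      have h8 : IsRat F₀ (t • emb F₀ w + (-s) • emb F₀ w₂) := by
        have := isRat_sub h6 h7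
        convert isRat_sub h7 h6 using 1
        module
      have h9 := coeff_rat D hI h8
      have h10 := isRat_add h6 (isRat_smul h9 (isRat_emb F₀ w))
      rwa [sub_add_cancel] at h10
    obtain ⟨r₁, hr₁⟩ := (key ht₁ hs₁).exists_emb
    obtain ⟨r₂, hr₂⟩ := (key ht₂ hs₂).exists_emb
    refine ⟨r₁, r₂, A', -A, B', -B, ?_, ?_, ?_⟩
    · rw [hr₁]
      module
    · rw [hr₂]
      module
    · intro h
      apply hΔ'
      linear_combination -h

end LemmaE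

section LemmaF

variable [Fintype F] (D : RatData hQ F₀) {M : Subgroup (GL ι F)}
include D

theorem mulVec_injective (m : GL ι F) {y : ι → F} (hy : (m : Matrix ι ι F) *ᵥ y = 0) : y = 0 := by
  have := congrArg (fun z => ((m⁻¹ : GL ι F) : Matrix ι ι F) *ᵥ z) hy
  simpa using this

/-- The image of a pair of independent vectors is independent. -/
theorem ind_image (m : GL ι F) {x y : ι → F} (h : Ind x y) :
    Ind ((m : Matrix ι ι F) *ᵥ x) ((m : Matrix ι ι F) *ᵥ y) := by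
  intro s t hst
  apply h s t
  apply mulVec_injective D m
  rw [Matrix.mulVec_add, Matrix.mulVec_smul, Matrix.mulVec_smul]
  exact hst

/-- Lemma F: if the image of a rational plane is rational, then the image of a rational singular
point in it is a rational point. -/
theorem lemF (hn : 13 ≤ Fintype.card ι) (hS : NoS hQ F₀ M) (hM : RatM hQ F₀ M)
    (hMi : ∀ m ∈ M, QIsom Q m) {m : GL ι F} (hm : m ∈ M) {u b : ι → F₀} (huu : Q (emb F₀ u) = 0)
    (hbb : Q (emb F₀ b) = 0) (hub : polar Q (emb F₀ u) (emb F₀ b) = 0)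
    (hind : Ind (emb F₀ u) (emb F₀ b))
    (hP : PlaneRat F₀ ((m : Matrix ι ι F) *ᵥ emb F₀ u) ((m : Matrix ι ι F) *ᵥ emb F₀ b)) :
    ∃ c : F, c ≠ 0 ∧ IsRat F₀ (c • ((m : Matrix ι ι F) *ᵥ emb F₀ u)) := by
  obtain ⟨r₁, r₂, a, b', c, d, e1, e2, hdet⟩ := hP
  have hmi := hMi m hm
  set x := (m : Matrix ι ι F) *ᵥ emb F₀ u with hx
  set y := (m : Matrix ι ι F) *ᵥ emb F₀ b with hy
  have hIxy : Ind x y := ind_image D m hind
  have hxx : Q x = 0 := by rw [hx, hmi, huu]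
  have hyy : Q y = 0 := by rw [hy, hmi, hbb]
  have hxy : polar Q x y = 0 := by rw [hx, hy, hmi.pol, hub]
  have hyx : polar Q y x = 0 := by rw [QuadraticMap.polar_comm]; exact hxy
  have hxs : polar Q x x = 0 := by rw [pol_self hQ, hxx, mul_zero]
  have hys : polar Q y y = 0 := by rw [pol_self hQ, hyy, mul_zero]
  have hr₁0 : r₁ ≠ 0 := by
    rintro rfl
    rw [emb_zero] at e1
    have h3 := hIxy a b' e1.symm
    apply hdet
    rw [h3.1, h3.2]
    ring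
  have hr₁r₁ : Q (emb F₀ r₁) = 0 := by
    rw [e1, Q_add (Q := Q), hQ.smul, hQ.smul, hxx, hyy, pol_smul_left hQ, pol_smul_right hQ, hxy]
    ring
  obtain ⟨h, h', hh, hh', hh'h, hl⟩ := hyp_list D [u, b] (by simp; omega)
  obtain ⟨hhu, hh'u⟩ := hl u (by simp)
  obtain ⟨hhb, hh'b⟩ := hl b (by simp)
  have huh : polar Q (emb F₀ u) (emb F₀ h) = 0 := by rw [QuadraticMap.polar_comm]; exact hhu
  have hIuh : Ind (emb F₀ u) (emb F₀ h) := by
    apply ind_sw
    exact ind_of_dual' hQ (c := emb F₀ h') (by rw [hh'h]; exact one_ne_zero) hh'u hind.ne_zero_left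
  set z := (m : Matrix ι ι F) *ᵥ emb F₀ h with hz
  have hzz : Q z = 0 := by rw [hz, hmi, hh]
  have hxz : polar Q x z = 0 := by rw [hx, hz, hmi.pol, huh]
  have hzy : polar Q z y = 0 := by rw [hz, hy, hmi.pol, hhb]
  have hyz : polar Q y z = 0 := by rw [QuadraticMap.polar_comm]; exact hzy
  have hIxz : Ind x z := ind_image D m hIuh
  have hT : sg hQ x z ∈ M := by
    have := M.mul_mem (M.mul_mem hm (hM u h huu huh)) (M.inv_mem hm)
    rwa [conj_sg hQ hmi huu huh] at this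
  have hrx : polar Q (emb F₀ r₁) x = 0 := by
    rw [e1, pol_add_left hQ, pol_smul_left hQ, pol_smul_left hQ, hxs, hyx]
    ring
  have hrz : polar Q (emb F₀ r₁) z = 0 := by
    rw [e1, pol_add_left hQ, pol_smul_left hQ, pol_smul_left hQ, hxz, hyz]
    ring
  obtain ⟨s₁, s₂, a₂, b₂, c₂, d₂, f1, f2, hdet₂⟩ :=
    lemE D hn hS hM hxx hzz hxz hIxz hT hr₁r₁ hr₁0 hrx hrz
  have hIs : Ind (emb F₀ s₁) (emb F₀ s₂) := by
    rw [f1, f2]
    exact ind_of_det hIxz hdet₂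
  obtain ⟨d₀, hd₁, hd₂, hd₃⟩ : ∃ d₀ : ι → F₀, polar Q (emb F₀ s₁) (emb F₀ d₀) = 0 ∧
      polar Q (emb F₀ s₂) (emb F₀ d₀) = 0 ∧ polar Q y (emb F₀ d₀) ≠ 0 := by
    by_contra hall
    push Not at hall
    obtain ⟨p, q, hpq⟩ := perp_rat2 D hIs (y := y) (fun b₀ h1 h2 => hall b₀ h1 h2)
    rw [f1, f2] at hpq
    -- `b` would be a combination of `u` and `h`
    have h3 : (m : Matrix ι ι F) *ᵥ (emb F₀ b - ((p * a₂ + q * c₂) • emb F₀ u +
        (p * b₂ + q * d₂) • emb F₀ h)) = 0 := by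
      rw [Matrix.mulVec_sub, Matrix.mulVec_add, Matrix.mulVec_smul, Matrix.mulVec_smul, ← hx, ← hy,
        ← hz, hpq]
      module
    have h4 := mulVec_injective D m h3
    have h5 := congrArg (fun v => polar Q (emb F₀ h') v) h4
    simp only [pol_sub_right hQ, pol_add_right hQ, pol_smul_right hQ, pol_zero_right hQ,
      QuadraticMap.polar_comm Q (emb F₀ h') (emb F₀ u), QuadraticMap.polar_comm Q (emb F₀ h') (emb F₀ b)]
      at h5
    rw [hh'h, QuadraticMap.polar_comm Q (emb F₀ u), QuadraticMap.polar_comm Q (emb F₀ b), hh'u, hh'b]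
      at h5
    have h6 : p * b₂ + q * d₂ = 0 := by linear_combination -h5
    rw [h6, zero_smul, add_zero] at h4
    have h7 := hind (p * a₂ + q * c₂) (-1) (by
      rw [neg_smul, one_smul, ← sub_eq_add_neg, ← neg_eq_zero, neg_sub]
      exact h4)
    exact one_ne_zero (neg_eq_zero.1 h7.2)
  have hxd₀ : polar Q x (emb F₀ d₀) = 0 := by
    rw [f1, pol_add_left hQ, pol_smul_left hQ, pol_smul_left hQ] at hd₁
    rw [f2, pol_add_left hQ, pol_smul_left hQ, pol_smul_left hQ] at hd₂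
    have : (a₂ * d₂ - b₂ * c₂) * polar Q x (emb F₀ d₀) = 0 := by
      linear_combination d₂ * hd₁ - b₂ * hd₂
    exact (mul_eq_zero.1 this).resolve_left hdet₂
  set κ := polar Q y (emb F₀ d₀) with hκ
  have hA : polar Q (emb F₀ r₁) (emb F₀ d₀) = b' * κ := by
    rw [e1, pol_add_left hQ, pol_smul_left hQ, pol_smul_left hQ, hxd₀]
    ring
  have hB : polar Q (emb F₀ r₂) (emb F₀ d₀) = d * κ := by
    rw [e2, pol_add_left hQ, pol_smul_left hQ, pol_smul_left hQ, hxd₀]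
    ring
  refine ⟨κ * (a * d - b' * c), mul_ne_zero hd₃ hdet, ?_⟩
  have e : (κ * (a * d - b' * c)) • x = polar Q (emb F₀ r₂) (emb F₀ d₀) • emb F₀ r₁ -
      polar Q (emb F₀ r₁) (emb F₀ d₀) • emb F₀ r₂ := by
    rw [hA, hB, e1, e2]
    module
  rw [e]
  exact isRat_sub (isRat_smul (pol_rat D _ _) (isRat_emb F₀ _))
    (isRat_smul (pol_rat D _ _) (isRat_emb F₀ _))

end LemmaF

section Lift

variable [Fintype F] (D : RatData hQ F₀) {M : Subgroup (GL ι F)}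

/-- A rational element of `M`. -/
def RatEl (F₀ : Subfield F) (M : Subgroup (GL ι F)) (Q : (ι → F) → F) (s : GL ι F) : Prop :=
  s ∈ M ∧ QIsom Q s ∧ (∀ x : ι → F₀, IsRat F₀ ((s : Matrix ι ι F) *ᵥ emb F₀ x)) ∧
    ∀ x : ι → F₀, IsRat F₀ (((s⁻¹ : GL ι F) : Matrix ι ι F) *ᵥ emb F₀ x)

theorem sg_emb {a b : ι → F₀} (h1 : Q (emb F₀ a) = 0) (h2 : polar Q (emb F₀ a) (emb F₀ b) = 0)
    (x : ι → F₀) :
    ((sg hQ (emb F₀ a) (emb F₀ b) : GL ι F) : Matrix ι ι F) *ᵥ emb F₀ x =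
      emb F₀ (((sg (Qr_nondeg D) a b : GL ι F₀) : Matrix ι ι F₀) *ᵥ x) := by
  rw [sg_mulVec hQ h1 h2, sg_mulVec (Qr_nondeg D) ((Qr_eq_zero D).2 h1) ((pr_eq_zero D).2 h2)]
  simp only [emb_sub, emb_add, emb_smul, pr_coe, MulMemClass.coe_mul, Qr_coe]

theorem lift_sigma (hM : RatM hQ F₀ M) {s₀ : GL ι F₀} (hs : s₀ ∈ sigmaG (Qr_nondeg D)) :
    ∃ s ∈ M, QIsom Q s ∧ ∀ x : ι → F₀,
      (s : Matrix ι ι F) *ᵥ emb F₀ x = emb F₀ ((s₀ : Matrix ι ι F₀) *ᵥ x) := by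
  induction hs using Subgroup.closure_induction with
  | mem y hy =>
    obtain ⟨a, b, h1, h2, rfl⟩ := hy
    have h1' := (Qr_eq_zero D).1 h1
    have h2' := (pr_eq_zero D).1 h2
    exact ⟨_, hM a b h1' h2', sg_isom hQ h1' h2', sg_emb D h1' h2'⟩
  | one => exact ⟨1, M.one_mem, QIsom.one, fun x => by simp⟩
  | mul y z _ _ hy hz =>
    obtain ⟨s, hs, hi, he⟩ := hy
    obtain ⟨t, ht, hj, hf⟩ := hz
    refine ⟨s * t, M.mul_mem hs ht, hi.mul hj, fun x => ?_⟩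
    rw [gl_mul_mulVec, gl_mul_mulVec, hf, he]
  | inv y _ hy =>
    obtain ⟨s, hs, hi, he⟩ := hy
    refine ⟨s⁻¹, M.inv_mem hs, hi.inv, fun x => ?_⟩
    have h1 := he (((y⁻¹ : GL ι F₀) : Matrix ι ι F₀) *ᵥ x)
    rw [gl_mulVec_inv_mulVec] at h1
    rw [← h1, gl_inv_mulVec_mulVec]

theorem ratEl_of_sigma (hM : RatM hQ F₀ M) {s₀ : GL ι F₀} (hs : s₀ ∈ sigmaG (Qr_nondeg D)) :
    ∃ s, RatEl F₀ M Q s ∧ ∀ x : ι → F₀,
      (s : Matrix ι ι F) *ᵥ emb F₀ x = emb F₀ ((s₀ : Matrix ι ι F₀) *ᵥ x) := by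
  obtain ⟨s, hsM, hi, he⟩ := lift_sigma D hM hs
  refine ⟨s, ⟨hsM, hi, fun x => ?_, fun x => ?_⟩, he⟩
  · rw [he]
    exact isRat_emb F₀ _
  · have h1 := he (((s₀⁻¹ : GL ι F₀) : Matrix ι ι F₀) *ᵥ x)
    rw [gl_mulVec_inv_mulVec] at h1
    rw [← h1, gl_inv_mulVec_mulVec]
    exact isRat_emb F₀ _

include D

/-- Rational moves fixing a vector. -/
theorem rat_move_fix (hM : RatM hQ F₀ M) (hn : 9 ≤ Fintype.card ι) {c e d : ι → F₀}
    (he : Q (emb F₀ e) = 0) (hd : Q (emb F₀ d) = 0) (hec : polar Q (emb F₀ e) (emb F₀ c) = 0)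
    (hdc : polar Q (emb F₀ d) (emb F₀ c) = 0) (he' : e ∉ Submodule.span F₀ {c})
    (hd' : d ∉ Submodule.span F₀ {c}) :
    ∃ s, RatEl F₀ M Q s ∧ (s : Matrix ι ι F) *ᵥ emb F₀ e = emb F₀ d ∧
      (s : Matrix ι ι F) *ᵥ emb F₀ c = emb F₀ c := by
  letI : Fintype F₀ := Fintype.ofFinite F₀
  obtain ⟨s₀, hs₀, h1, h2⟩ := exists_move_fix1 (Qr_nondeg D) hn ((Qr_eq_zero D).2 he)
    ((Qr_eq_zero D).2 hd) ((pr_eq_zero D).2 hec) ((pr_eq_zero D).2 hdc) he' hd'
  obtain ⟨s, hs, hes⟩ := ratEl_of_sigma D hM hs₀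
  exact ⟨s, hs, by rw [hes, h1], by rw [hes, h2]⟩

/-- Rational moves between non-zero rational singular vectors. -/
theorem rat_move (hM : RatM hQ F₀ M) (hn : 9 ≤ Fintype.card ι) {e d : ι → F₀}
    (he : Q (emb F₀ e) = 0) (hd : Q (emb F₀ d) = 0) (he0 : e ≠ 0) (hd0 : d ≠ 0) :
    ∃ s, RatEl F₀ M Q s ∧ (s : Matrix ι ι F) *ᵥ emb F₀ e = emb F₀ d := by
  obtain ⟨s, hs, h1, -⟩ := rat_move_fix D hM hn (c := 0) he hd (by rw [emb_zero, pol_zero_right hQ])
    (by rw [emb_zero, pol_zero_right hQ]) (by simpa using he0) (by simpa using hd0)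
  exact ⟨s, hs, h1⟩

end Lift

section Nonrat

variable [Fintype F] (D : RatData hQ F₀)
include D

/-- An element outside the subfield group moves some rational singular line to a non-rational line. -/
theorem exists_nonrat_sing [Nonempty ι] (hn : 7 ≤ Fintype.card ι) {g : GL ι F}
    (hg : g ∉ subfieldSubgroup F₀ 1) :
    ∃ u : ι → F₀, Q (emb F₀ u) = 0 ∧ u ≠ 0 ∧
      ∀ c : F, c ≠ 0 → ¬ IsRat F₀ (c • ((g : Matrix ι ι F) *ᵥ emb F₀ u)) := by
  classical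
  by_contra hcon
  push Not at hcon
  apply hg
  rw [mem_subfield_one_iff]
  have hinj : ∀ y : ι → F, (g : Matrix ι ι F) *ᵥ y = 0 → y = 0 := fun y hy => mulVec_injective D g hy
  have step : ∀ {u₀ u : ι → F₀} {c₀ : F}, Q (emb F₀ u₀) = 0 → Q (emb F₀ u) = 0 →
      polar Q (emb F₀ u₀) (emb F₀ u) = 0 → Ind (emb F₀ u₀) (emb F₀ u) →
      c₀ ≠ 0 → IsRat F₀ (c₀ • ((g : Matrix ι ι F) *ᵥ emb F₀ u₀)) →
      IsRat F₀ (c₀ • ((g : Matrix ι ι F) *ᵥ emb F₀ u)) := by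
    intro u₀ u c₀ h0 h1 h2 hi hc₀ hA
    have hu0 : u ≠ 0 := by
      rintro rfl
      rw [emb_zero] at hi
      exact hi.ne_zero_right rfl
    obtain ⟨c₁, hc₁, hB⟩ := hcon u h1 hu0
    have hsum : Q (emb F₀ (u₀ + u)) = 0 := by
      rw [emb_add, Q_add (Q := Q), h0, h1, h2]
      ring
    have hsum0 : u₀ + u ≠ 0 := by
      intro h3
      have h4 := congrArg (emb F₀) h3
      rw [emb_add, emb_zero] at h4
      have := hi 1 1 (by simpa using h4)
      exact one_ne_zero this.1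
    obtain ⟨c₂, hc₂, hC⟩ := hcon _ hsum hsum0
    obtain ⟨A, hA'⟩ := hA.exists_emb
    obtain ⟨B, hB'⟩ := hB.exists_emb
    have hAB : Ind (emb F₀ A) (emb F₀ B) := by
      intro s t hst
      have h4 : (g : Matrix ι ι F) *ᵥ ((s * c₀) • emb F₀ u₀ + (t * c₁) • emb F₀ u) = 0 := by
        rw [Matrix.mulVec_add, Matrix.mulVec_smul, Matrix.mulVec_smul, ← hst, hA', hB', smul_smul,
          smul_smul]
      have h5 := hi _ _ (hinj _ h4)
      exact ⟨(mul_eq_zero.1 h5.1).resolve_right hc₀, (mul_eq_zero.1 h5.2).resolve_right hc₁⟩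
    have e : c₂ • ((g : Matrix ι ι F) *ᵥ emb F₀ (u₀ + u)) =
        (c₂ / c₀) • emb F₀ A + (c₂ / c₁) • emb F₀ B := by
      rw [hA', hB', smul_smul, smul_smul, emb_add, Matrix.mulVec_add, smul_add]
      congr 2
      · field_simp
      · field_simp
    rw [e] at hC
    have h6 := coeff_rat D hAB hC
    have h7 := coeff_rat' D hAB hC
    have e2 : c₀ • ((g : Matrix ι ι F) *ᵥ emb F₀ u) = ((c₂ / c₁) / (c₂ / c₀)) • emb F₀ B := by
      rw [hB', smul_smul]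
      congr 1
      field_simp
    rw [e2]
    exact isRat_smul (F₀.div_mem h7 h6) (isRat_emb F₀ B)
  obtain ⟨u₀, z, h0, hz0, h1, -⟩ := hyp_list D [] (by simp; omega)
  have hu₀ : u₀ ≠ 0 := by
    rintro rfl
    rw [emb_zero, pol_zero_right hQ] at h1
    exact zero_ne_one h1
  obtain ⟨c₀, hc₀, hA⟩ := hcon u₀ h0 hu₀
  refine ⟨c₀, hc₀, fun u => ?_⟩
  refine sing_ind D [] (by simp; omega)
    (fun u => IsRat F₀ (c₀ • ((g : Matrix ι ι F) *ᵥ emb F₀ u))) ?_ ?_ (by simp)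
  · intro a haa _
    by_cases ha0 : a = 0
    · subst ha0
      intro i
      simp [F₀.zero_mem]
    obtain ⟨v, v', hvv, hv'v', h3, hl⟩ := hyp_list D [u₀, a] (by simp; omega)
    obtain ⟨h40, h50⟩ := hl u₀ (by simp)
    obtain ⟨h41, h51⟩ := hl a (by simp)
    have i1 : Ind (emb F₀ v) (emb F₀ u₀) :=
      ind_of_dual' hQ (c := emb F₀ v') (by rw [h3]; exact one_ne_zero) h50 (emb_ne_zero D hu₀)
    have i2 : Ind (emb F₀ v) (emb F₀ a) :=
      ind_of_dual' hQ (c := emb F₀ v') (by rw [h3]; exact one_ne_zero) h51 (emb_ne_zero D ha0)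
    have s1 := step h0 hvv (by rw [QuadraticMap.polar_comm]; exact h40) (ind_sw i1) hc₀ hA
    exact step hvv haa h41 i2 hc₀ s1
  · intro a b _ _ h1 h2
    rw [emb_add, Matrix.mulVec_add, smul_add]
    exact isRat_add h1 h2

end Nonrat

section LemmaK

variable [Fintype F] (D : RatData hQ F₀) {M : Subgroup (GL ι F)}
include D

/-- The neighbours of a point with rational image have rational images. -/
theorem ratline_step (hn : 13 ≤ Fintype.card ι) (hS : NoS hQ F₀ M) (hM : RatM hQ F₀ M)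
    (hMi : ∀ m ∈ M, QIsom Q m) {m : GL ι F} (hm : m ∈ M) {u u' : ι → F₀} (huu : Q (emb F₀ u) = 0)
    (hu'u' : Q (emb F₀ u') = 0) (huu' : polar Q (emb F₀ u) (emb F₀ u') = 0)
    (hind : Ind (emb F₀ u) (emb F₀ u'))
    (hc : ∃ c : F, c ≠ 0 ∧ IsRat F₀ (c • ((m : Matrix ι ι F) *ᵥ emb F₀ u))) :
    ∃ c : F, c ≠ 0 ∧ IsRat F₀ (c • ((m : Matrix ι ι F) *ᵥ emb F₀ u')) := by
  obtain ⟨c, hc0, hr⟩ := hc
  obtain ⟨R₀, hR₀⟩ := hr.exists_emb
  have hmi := hMi m hm
  have hu0 : u ≠ 0 := by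
    rintro rfl
    rw [emb_zero] at hind
    exact hind.ne_zero_left rfl
  have hR₀s : Q (emb F₀ R₀) = 0 := by
    rw [hR₀, hQ.smul, hmi, huu, mul_zero]
  have hR₀0 : R₀ ≠ 0 := by
    rintro rfl
    rw [emb_zero] at hR₀
    have h1 := (smul_eq_zero.1 hR₀.symm).resolve_left hc0
    exact emb_ne_zero D hu0 (mulVec_injective D m h1)
  obtain ⟨s, ⟨hsM, hsi, hs1, hs2⟩, hs⟩ := rat_move D hM (by omega) hR₀s huu hR₀0 hu0
  set n := s * m with hn'
  have hnM : n ∈ M := M.mul_mem hsM hm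
  have hni := hMi n hnM
  have hnu : (c : F) • ((n : Matrix ι ι F) *ᵥ emb F₀ u) = emb F₀ u := by
    rw [hn', gl_mul_mulVec, ← Matrix.mulVec_smul, ← hR₀, hs]
  have huu2 : polar Q (emb F₀ u) (emb F₀ u) = 0 := by rw [pol_self hQ, huu, mul_zero]
  have hnu' : (n : Matrix ι ι F) *ᵥ emb F₀ u = c⁻¹ • emb F₀ u := by
    have h9 : c⁻¹ • (c • ((n : Matrix ι ι F) *ᵥ emb F₀ u)) = c⁻¹ • emb F₀ u := by rw [hnu]
    rwa [smul_smul, inv_mul_cancel₀ hc0, one_smul] at h9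
  have hxx : Q ((n : Matrix ι ι F) *ᵥ emb F₀ u') = 0 := by rw [hni, hu'u']
  have hyy : Q ((n : Matrix ι ι F) *ᵥ emb F₀ u) = 0 := by rw [hni, huu]
  have hu'u : polar Q (emb F₀ u') (emb F₀ u) = 0 := by rw [QuadraticMap.polar_comm]; exact huu'
  have hxy : polar Q ((n : Matrix ι ι F) *ᵥ emb F₀ u') ((n : Matrix ι ι F) *ᵥ emb F₀ u) = 0 := by
    rw [hni.pol, hu'u]
  have hT : sg hQ ((n : Matrix ι ι F) *ᵥ emb F₀ u') ((n : Matrix ι ι F) *ᵥ emb F₀ u) ∈ M := by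
    have := M.mul_mem (M.mul_mem hnM (hM u' u hu'u' hu'u)) (M.inv_mem hnM)
    rwa [conj_sg hQ hni hu'u' hu'u] at this
  have hw1 : polar Q (emb F₀ u) ((n : Matrix ι ι F) *ᵥ emb F₀ u') = 0 := by
    have h1 : polar Q (c • ((n : Matrix ι ι F) *ᵥ emb F₀ u)) ((n : Matrix ι ι F) *ᵥ emb F₀ u') = 0 := by
      rw [pol_smul_left hQ, hni.pol, huu', mul_zero]
    rwa [hnu] at h1
  have hw2 : polar Q (emb F₀ u) ((n : Matrix ι ι F) *ᵥ emb F₀ u) = 0 := by
    rw [hnu', pol_smul_right hQ, huu2, mul_zero]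
  have hP := lemE D hn hS hM hxx hyy hxy (ind_image D n (ind_sw hind)) hT huu hu0 hw1 hw2
  obtain ⟨c', hc'0, hr'⟩ := lemF D hn hS hM hMi hnM hu'u' huu hu'u (ind_sw hind) hP
  refine ⟨c', hc'0, ?_⟩
  obtain ⟨R, hR⟩ := hr'.exists_emb
  have e : c' • ((m : Matrix ι ι F) *ᵥ emb F₀ u') = ((s⁻¹ : GL ι F) : Matrix ι ι F) *ᵥ emb F₀ R := by
    rw [hR, Matrix.mulVec_smul, hn', gl_mul_mulVec, gl_inv_mulVec_mulVec]
  rw [e]
  exact hs2 R

/-- Lemma K: an element of `M` moving a rational plane to a plane orthogonal to a rational singular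
vector lies in the subfield group. -/
theorem lemK [Nonempty ι] (hn : 13 ≤ Fintype.card ι) (hS : NoS hQ F₀ M) (hM : RatM hQ F₀ M)
    (hMi : ∀ m ∈ M, QIsom Q m) {m : GL ι F} (hm : m ∈ M) {v v' w : ι → F₀} (hvv : Q (emb F₀ v) = 0)
    (hv'v' : Q (emb F₀ v') = 0) (hvv' : polar Q (emb F₀ v) (emb F₀ v') = 0)
    (hind : Ind (emb F₀ v) (emb F₀ v')) (hww : Q (emb F₀ w) = 0) (hw : w ≠ 0)
    (hw1 : polar Q (emb F₀ w) ((m : Matrix ι ι F) *ᵥ emb F₀ v) = 0)
    (hw2 : polar Q (emb F₀ w) ((m : Matrix ι ι F) *ᵥ emb F₀ v') = 0) :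
    m ∈ subfieldSubgroup F₀ 1 := by
  have hmi := hMi m hm
  have hT : sg hQ ((m : Matrix ι ι F) *ᵥ emb F₀ v) ((m : Matrix ι ι F) *ᵥ emb F₀ v') ∈ M := by
    have := M.mul_mem (M.mul_mem hm (hM v v' hvv hvv')) (M.inv_mem hm)
    rwa [conj_sg hQ hmi hvv hvv'] at this
  have hP := lemE D hn hS hM (by rw [hmi, hvv]) (by rw [hmi, hv'v']) (by rw [hmi.pol, hvv'])
    (ind_image D m hind) hT hww hw hw1 hw2
  have h1 := lemF D hn hS hM hMi hm hvv hv'v' hvv' hind hP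
  have hv0 : v ≠ 0 := by
    rintro rfl
    rw [emb_zero] at hind
    exact hind.ne_zero_left rfl
  by_contra hg
  obtain ⟨a, ha, ha0, hcon⟩ := exists_nonrat_sing D (by omega) hg
  obtain ⟨h, h', hh, hh', hh'h, hl⟩ := hyp_list D [v, a] (by simp; omega)
  obtain ⟨hhv, hh'v⟩ := hl v (by simp)
  obtain ⟨hha, hh'a⟩ := hl a (by simp)
  have i1 : Ind (emb F₀ h) (emb F₀ v) :=
    ind_of_dual' hQ (c := emb F₀ h') (by rw [hh'h]; exact one_ne_zero) hh'v (emb_ne_zero D hv0)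
  have i2 : Ind (emb F₀ h) (emb F₀ a) :=
    ind_of_dual' hQ (c := emb F₀ h') (by rw [hh'h]; exact one_ne_zero) hh'a (emb_ne_zero D ha0)
  have h2 := ratline_step D hn hS hM hMi hm hvv hh (by rw [QuadraticMap.polar_comm]; exact hhv)
    (ind_sw i1) h1
  obtain ⟨c, hc0, hc⟩ := ratline_step D hn hS hM hMi hm hh ha hha i2 h2
  exact hcon c hc0 hc

end LemmaK

end Cfsg.Agent.Lib.SubfieldOm
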