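import Cfsg.Agent.Lib.SubfieldOmB
import Cfsg.Agent.Lib.FixCount

/-! Subfield subgroups of `Ω`: the two-dimensional argument. -/

set_option autoImplicit false
set_option linter.unusedSectionVars false
set_option linter.unusedSimpArgs false
set_option linter.unusedVariables false

open scoped MatrixGroups Matrix
open Cfsg Cfsg.Geo
open Cfsg.Agent.Lib.Transvection Cfsg.Agent.Lib.LinAlgAux Cfsg.Agent.Lib.QuadBase
  Cfsg.Agent.Lib.QuadSiegel Cfsg.Agent.Lib.SubfieldGroup Cfsg.Agent.Lib.SubfieldBase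
  Cfsg.Agent.Lib.QuadSim Cfsg.Agent.Lib.FixCount
open Cfsg.Agent.Lib.SymplecticTv (Ind Ind.ne_zero_left Ind.ne_zero_right)
open QuadraticMap (polar)

namespace Cfsg.Agent.Lib.SubfieldOm

variable {ι : Type} [Fintype ι] [DecidableEq ι] {F : Type*} [Field F] {Q : (ι → F) → F}
  {hQ : IsNondegenerateQuadraticForm Q} {F₀ : Subfield F}

/-- The algebra of the stabiliser of the line `(0, 1)`. -/
theorem stab_alg {a b c δ e₂ e₄ : F} (hc : c ≠ 0) (h1 : c * (δ - e₂ * a) ∈ F₀)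
    (h2 : c * (e₂ * b) ∈ F₀) (h3 : c * e₂ ∈ F₀) (h4 : c * (e₄ * a) ∈ F₀)
    (h5 : c * (δ - e₄ * b) ∈ F₀) (h6 : c * e₄ ∈ F₀)
    (h7 : c * (a * (δ - (1 + a * e₂ + b * e₄))) ∈ F₀)
    (h8 : c * (b * (δ - (1 + a * e₂ + b * e₄))) ∈ F₀) (h9 : c * (1 + a * e₂ + b * e₄) ∈ F₀)
    (hab : a ∉ F₀ ∨ b ∉ F₀) : δ = 1 := by
  have hdiv : ∀ {u z : F}, z ≠ 0 → c * z ∈ F₀ → c * (z * u) ∈ F₀ → u ∈ F₀ := by
    intro u z hz h10 h11
    have e : u = (c * (z * u)) / (c * z) := by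
      field_simp
    rw [e]
    exact F₀.div_mem h11 h10
  rcases hab with ha | hb
  · have he₄ : e₄ = 0 := by
      by_contra h0
      exact ha (hdiv h0 h6 h4)
    subst he₄
    have hcδ : c * δ ∈ F₀ := by simpa using h5
    have he₂ : e₂ = 0 := by
      by_contra h0
      apply ha
      refine hdiv h0 h3 ?_
      have e : c * (e₂ * a) = c * δ - c * (δ - e₂ * a) := by ring
      rw [e]
      exact F₀.sub_mem hcδ h1
    subst he₂
    have hc0 : c ∈ F₀ := by simpa using h9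
    by_contra hδ
    apply ha
    have h10 : c * ((δ - 1) * a) ∈ F₀ := by
      have e : c * ((δ - 1) * a) = c * (a * (δ - (1 + a * 0 + b * 0))) := by ring
      rw [e]
      exact h7
    have h11 : c * (δ - 1) ∈ F₀ := by
      have e : c * (δ - 1) = c * δ - c := by ring
      rw [e]
      exact F₀.sub_mem hcδ hc0
    exact hdiv (sub_ne_zero.2 hδ) h11 h10
  · have he₂ : e₂ = 0 := by
      by_contra h0
      exact hb (hdiv h0 h3 h2)
    subst he₂
    have hcδ : c * δ ∈ F₀ := by simpa using h1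
    have he₄ : e₄ = 0 := by
      by_contra h0
      apply hb
      refine hdiv h0 h6 ?_
      have e : c * (e₄ * b) = c * δ - c * (δ - e₄ * b) := by ring
      rw [e]
      exact F₀.sub_mem hcδ h5
    subst he₄
    have hc0 : c ∈ F₀ := by simpa using h9
    by_contra hδ
    apply hb
    have h10 : c * ((δ - 1) * b) ∈ F₀ := by
      have e : c * ((δ - 1) * b) = c * (b * (δ - (1 + a * 0 + b * 0))) := by ring
      rw [e]
      exact h8
    have h11 : c * (δ - 1) ∈ F₀ := by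
      have e : c * (δ - 1) = c * δ - c := by ring
      rw [e]
      exact F₀.sub_mem hcδ hc0
    exact hdiv (sub_ne_zero.2 hδ) h11 h10

section LG

variable (M : Subgroup (GL ι F)) (x₂ V x₁ V' W : ι → F)

/-- Elements of `M` acting on the pair of planes `⟨x₂, V⟩`, `⟨x₁, V'⟩` dually, modulo `W`. -/
def LGm : Submonoid (GL ι F) where
  carrier := {m | m ∈ M ∧ (m : Matrix ι ι F) *ᵥ W = W ∧ ∃ α β γ δ e₁ e₂ e₃ e₄ : F, α * δ - β * γ = 1 ∧
    (m : Matrix ι ι F) *ᵥ x₂ = α • x₂ + γ • V + e₁ • W ∧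
    (m : Matrix ι ι F) *ᵥ V = β • x₂ + δ • V + e₂ • W ∧
    (m : Matrix ι ι F) *ᵥ x₁ = α • x₁ + (-γ) • V' + e₃ • W ∧
    (m : Matrix ι ι F) *ᵥ V' = (-β) • x₁ + δ • V' + e₄ • W}
  mul_mem' := by
    rintro m m' ⟨h1, h2, α, β, γ, δ, e₁, e₂, e₃, e₄, hd, h3, h4, h5, h6⟩
      ⟨h1', h2', α', β', γ', δ', e₁', e₂', e₃', e₄', hd', h3', h4', h5', h6'⟩
    refine ⟨M.mul_mem h1 h1', by rw [gl_mul_mulVec, h2', h2], α * α' + β * γ', α * β' + β * δ',
      γ * α' + δ * γ', γ * β' + δ * δ', α' * e₁ + γ' * e₂ + e₁', β' * e₁ + δ' * e₂ + e₂',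
      α' * e₃ - γ' * e₄ + e₃', -β' * e₃ + δ' * e₄ + e₄', ?_, ?_, ?_, ?_, ?_⟩
    · have : (α * α' + β * γ') * (γ * β' + δ * δ') - (α * β' + β * δ') * (γ * α' + δ * γ') =
          (α * δ - β * γ) * (α' * δ' - β' * γ') := by ring
      rw [this, hd, hd', one_mul]
    · rw [gl_mul_mulVec, h3']
      simp only [Matrix.mulVec_add, Matrix.mulVec_smul, h3, h4, h2]
      module
    · rw [gl_mul_mulVec, h4']
      simp only [Matrix.mulVec_add, Matrix.mulVec_smul, h3, h4, h2]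
      module
    · rw [gl_mul_mulVec, h5']
      simp only [Matrix.mulVec_add, Matrix.mulVec_smul, h5, h6, h2]
      module
    · rw [gl_mul_mulVec, h6']
      simp only [Matrix.mulVec_add, Matrix.mulVec_smul, h5, h6, h2]
      module
  one_mem' := by
    refine ⟨M.one_mem, by simp, 1, 0, 0, 1, 0, 0, 0, 0, by ring, ?_, ?_, ?_, ?_⟩ <;> simp

theorem inv_mem_of_finite' {G : Type*} [Group G] [Finite G] (S : Submonoid G) {m : G} (hm : m ∈ S) :
    m⁻¹ ∈ S := by
  have h0 : 0 < orderOf m := orderOf_pos m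
  have e : m⁻¹ = m ^ (orderOf m - 1) := by
    apply inv_eq_of_mul_eq_one_left
    rw [← pow_succ, Nat.sub_add_cancel h0, pow_orderOf_eq_one]
  rw [e]
  exact S.pow_mem hm _

/-- The group of `LGm`. -/
def LG [Finite (GL ι F)] : Subgroup (GL ι F) :=
  { LGm M x₂ V x₁ V' W with
    inv_mem' := fun hm => inv_mem_of_finite' (LGm M x₂ V x₁ V' W) hm }

theorem mem_LG [Finite (GL ι F)] {m : GL ι F} :
    m ∈ LG M x₂ V x₁ V' W ↔ m ∈ M ∧ (m : Matrix ι ι F) *ᵥ W = W ∧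
      ∃ α β γ δ e₁ e₂ e₃ e₄ : F, α * δ - β * γ = 1 ∧
    (m : Matrix ι ι F) *ᵥ x₂ = α • x₂ + γ • V + e₁ • W ∧
    (m : Matrix ι ι F) *ᵥ V = β • x₂ + δ • V + e₂ • W ∧
    (m : Matrix ι ι F) *ᵥ x₁ = α • x₁ + (-γ) • V' + e₃ • W ∧
    (m : Matrix ι ι F) *ᵥ V' = (-β) • x₁ + δ • V' + e₄ • W := Iff.rfl

variable {M x₂ V x₁ V' W}

theorem LG_mul [Finite (GL ι F)] (hQ : IsNondegenerateQuadraticForm Q)
    (t1 : polar Q x₂ V' = 1) (t2 : polar Q V V' = 0)
    (t3 : polar Q W V' = 0) (t4 : polar Q x₂ x₁ = 0) (t5 : polar Q V x₁ = 1) (t6 : polar Q W x₁ = 0) :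
    ∀ m ∈ LG M x₂ V x₁ V' W, ∀ m' ∈ LG M x₂ V x₁ V' W, ∀ v₀, (v₀ = x₂ ∨ v₀ = V) →
      ∀ p : (ι → F) →ₗ[F] F, (p = formL hQ V' ∨ p = formL hQ x₁) →
      p (((m * m' : GL ι F) : Matrix ι ι F) *ᵥ v₀) =
        formL hQ V' ((m' : Matrix ι ι F) *ᵥ v₀) * p ((m : Matrix ι ι F) *ᵥ x₂) +
        formL hQ x₁ ((m' : Matrix ι ι F) *ᵥ v₀) * p ((m : Matrix ι ι F) *ᵥ V) := by
  intro m hm m' hm' v₀ hv₀ p hp
  obtain ⟨-, hW, -⟩ := hm
  obtain ⟨-, -, α, β, γ, δ, e₁, e₂, e₃, e₄, -, h3, h4, -, -⟩ := hm'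
  obtain ⟨S, T, e, he⟩ : ∃ S T e : F, (m' : Matrix ι ι F) *ᵥ v₀ = S • x₂ + T • V + e • W := by
    rcases hv₀ with rfl | rfl
    · exact ⟨_, _, _, h3⟩
    · exact ⟨_, _, _, h4⟩
  have h1 : formL hQ V' ((m' : Matrix ι ι F) *ᵥ v₀) = S := by
    rw [he, formL_apply]
    simp only [pol_add_left hQ, pol_smul_left hQ, t1, t2, t3]
    ring
  have h2 : formL hQ x₁ ((m' : Matrix ι ι F) *ᵥ v₀) = T := by
    rw [he, formL_apply]
    simp only [pol_add_left hQ, pol_smul_left hQ, t4, t5, t6]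
    ring
  have hpW : p W = 0 := by
    rcases hp with rfl | rfl
    · rw [formL_apply, t3]
    · rw [formL_apply, t6]
  rw [h1, h2, gl_mul_mulVec, he]
  simp only [Matrix.mulVec_add, Matrix.mulVec_smul, map_add, map_smul, hW, hpW, smul_eq_mul]
  ring

end LG

section Core

variable [Fintype F] (D : RatData hQ F₀) {M : Subgroup (GL ι F)}
include D

set_option maxHeartbeats 1000000 in
theorem plane_core [Nonempty ι] (hn : 13 ≤ Fintype.card ι) (hS : NoS hQ F₀ M) (hM : RatM hQ F₀ M)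
    (hMi : ∀ m ∈ M, QIsom Q m) {x₁ x₂ : ι → F} {v v' v'' q₁ q₂ q₃ : ι → F₀}
    (hv : Q (emb F₀ v) = 0) (hv' : Q (emb F₀ v') = 0) (hv'' : Q (emb F₀ v'') = 0)
    (h12 : polar Q (emb F₀ v) (emb F₀ v') = 0) (h13 : polar Q (emb F₀ v) (emb F₀ v'') = 0)
    (h23 : polar Q (emb F₀ v') (emb F₀ v'') = 0) (hi : Ind (emb F₀ v) (emb F₀ v')) (hv''0 : v'' ≠ 0)
    (d11 : polar Q (emb F₀ v) (emb F₀ q₁) = 1) (d12 : polar Q (emb F₀ v') (emb F₀ q₁) = 0)
    (d13 : polar Q (emb F₀ v'') (emb F₀ q₁) = 0) (d21 : polar Q (emb F₀ v) (emb F₀ q₂) = 0)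
    (d22 : polar Q (emb F₀ v') (emb F₀ q₂) = 1) (d23 : polar Q (emb F₀ v'') (emb F₀ q₂) = 0)
    (d31 : polar Q (emb F₀ v) (emb F₀ q₃) = 0) (d32 : polar Q (emb F₀ v') (emb F₀ q₃) = 0)
    (d33 : polar Q (emb F₀ v'') (emb F₀ q₃) = 1)
    (p1 : polar Q x₁ (emb F₀ v) = 1) (p2 : polar Q x₁ (emb F₀ v') = 0)
    (p3 : polar Q x₂ (emb F₀ v) = 0) (p4 : polar Q x₂ (emb F₀ v') = 1) (p5 : polar Q x₁ x₂ = 0)
    (hab : polar Q x₁ (emb F₀ v'') ∉ F₀ ∨ polar Q x₂ (emb F₀ v'') ∉ F₀)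
    {T : GL ι F} (hT : T ∈ M) {Δ : F} (hΔ : Δ ≠ 0)
    (T1 : (T : Matrix ι ι F) *ᵥ x₂ = x₂) (T2 : (T : Matrix ι ι F) *ᵥ x₁ = x₁)
    (T3 : (T : Matrix ι ι F) *ᵥ emb F₀ v = emb F₀ v + Δ • x₂)
    (T4 : (T : Matrix ι ι F) *ᵥ emb F₀ v' = emb F₀ v' + (-Δ) • x₁)
    (T5 : (T : Matrix ι ι F) *ᵥ (emb F₀ v'' - polar Q x₁ (emb F₀ v'') • emb F₀ v -
      polar Q x₂ (emb F₀ v'') • emb F₀ v') =
      emb F₀ v'' - polar Q x₁ (emb F₀ v'') • emb F₀ v - polar Q x₂ (emb F₀ v'') • emb F₀ v') :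
    False := by
  classical
  haveI : Finite (GL ι F) := by
    haveI : Finite (Matrix ι ι F) := inferInstanceAs (Finite (ι → ι → F))
    infer_instance
  set a := polar Q x₁ (emb F₀ v'') with ha
  set b := polar Q x₂ (emb F₀ v'') with hb
  set V := emb F₀ v with hV
  set V' := emb F₀ v' with hV'
  set V'' := emb F₀ v'' with hV''
  set W := V'' - a • V - b • V' with hW
  have hVV : polar Q V V = 0 := by rw [pol_self hQ, hv, mul_zero]
  have hV'V' : polar Q V' V' = 0 := by rw [pol_self hQ, hv', mul_zero]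
  have hV''V'' : polar Q V'' V'' = 0 := by rw [pol_self hQ, hv'', mul_zero]
  have c12 : polar Q V' V = 0 := by rw [QuadraticMap.polar_comm]; exact h12
  have c13 : polar Q V'' V = 0 := by rw [QuadraticMap.polar_comm]; exact h13
  have c23 : polar Q V'' V' = 0 := by rw [QuadraticMap.polar_comm]; exact h23
  have s1 : polar Q V x₁ = 1 := by rw [QuadraticMap.polar_comm]; exact p1
  have s2 : polar Q V' x₁ = 0 := by rw [QuadraticMap.polar_comm]; exact p2
  have s3 : polar Q V x₂ = 0 := by rw [QuadraticMap.polar_comm]; exact p3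
  have s4 : polar Q V' x₂ = 1 := by rw [QuadraticMap.polar_comm]; exact p4
  have s5 : polar Q x₂ x₁ = 0 := by rw [QuadraticMap.polar_comm]; exact p5
  have s6 : polar Q V'' x₁ = a := by rw [QuadraticMap.polar_comm]
  have s7 : polar Q V'' x₂ = b := by rw [QuadraticMap.polar_comm]
  have W1 : polar Q W x₁ = 0 := by
    simp only [hW, pol_sub_left hQ, pol_smul_left hQ, s1, s2, s6]
    ring
  have W2 : polar Q W x₂ = 0 := by
    simp only [hW, pol_sub_left hQ, pol_smul_left hQ, s3, s4, s7]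
    ring
  have W3 : polar Q W V = 0 := by
    simp only [hW, pol_sub_left hQ, pol_smul_left hQ, hVV, c12, c13]
    ring
  have W4 : polar Q W V' = 0 := by
    simp only [hW, pol_sub_left hQ, pol_smul_left hQ, h12, hV'V', c23]
    ring
  have W5 : polar Q W V'' = 0 := by
    simp only [hW, pol_sub_left hQ, pol_smul_left hQ, h13, h23, hV''V'']
    ring
  let G := LG M x₂ V x₁ V' W
  haveI : Finite G := inferInstance
  let K := AlgebraicClosure F
  let inc : F →+* K := algebraMap F K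
  have hinc : Function.Injective inc := inc.injective
  set P₁ : (ι → F) →ₗ[F] F := formL hQ V' with hP₁
  set P₂ : (ι → F) →ₗ[F] F := formL hQ x₁ with hP₂
  have hP₁' : ∀ z, P₁ z = polar Q z V' := fun z => rfl
  have hP₂' : ∀ z, P₂ z = polar Q z x₁ := fun z => rfl
  obtain ⟨ρ, hρ⟩ := exists_plane_rep (K := K) G P₁ P₂ x₂ V
    (by rw [hP₁']; exact p4) (by rw [hP₁']; exact h12) (by rw [hP₂']; exact s5)
    (by rw [hP₂']; exact s1) (LG_mul hQ p4 h12 W4 s5 s1 W1)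
  -- coordinates
  have hcoord : ∀ {α γ e : F}, P₁ (α • x₂ + γ • V + e • W) = α ∧ P₂ (α • x₂ + γ • V + e • W) = γ := by
    intro α γ e
    rw [hP₁', hP₂']
    simp only [pol_add_left hQ, pol_smul_left hQ, p4, h12, W4, s5, s1, W1]
    constructor <;> ring
  have hcoef : ∀ {α₁ α₂ α₃ : F}, IsRat F₀ (α₁ • V + α₂ • V' + α₃ • V'') →
      α₁ ∈ F₀ ∧ α₂ ∈ F₀ ∧ α₃ ∈ F₀ := by
    intro α₁ α₂ α₃ h
    obtain ⟨C, hC⟩ := h.exists_emb
    have e1 : polar Q (emb F₀ C) (emb F₀ q₁) = α₁ := by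
      rw [hC]
      simp only [pol_add_left hQ, pol_smul_left hQ, d11, d12, d13]
      ring
    have e2 : polar Q (emb F₀ C) (emb F₀ q₂) = α₂ := by
      rw [hC]
      simp only [pol_add_left hQ, pol_smul_left hQ, d21, d22, d23]
      ring
    have e3 : polar Q (emb F₀ C) (emb F₀ q₃) = α₃ := by
      rw [hC]
      simp only [pol_add_left hQ, pol_smul_left hQ, d31, d32, d33]
      ring
    exact ⟨e1 ▸ pol_rat D _ _, e2 ▸ pol_rat D _ _, e3 ▸ pol_rat D _ _⟩
  have hstab : ∀ (g : G) (μ : K), ρ g (0, 1) = μ • ((0, 1) : K × K) →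
      ∃ c b : K, ∀ s t : K, ρ g (s, t) = c • ((s, t + b * s) : K × K) := by
    intro g μ h
    rw [hρ] at h
    have h3 := congrArg Prod.fst h
    simp only [Prod.smul_fst, smul_eq_mul, mul_zero, mul_one, add_zero, zero_add] at h3
    have hC : P₁ (((g : GL ι F) : Matrix ι ι F) *ᵥ V) = 0 := hinc (by rw [h3, map_zero])
    obtain ⟨hgM, hgW, α, β, γ, δ, e₁, e₂, e₃, e₄, hd, g1, g2, g3, g4⟩ := g.2
    rw [g2] at hC
    have hβ : β = 0 := by
      rw [(hcoord).1] at hC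
      exact hC
    subst hβ
    have hw1 : polar Q V'' (((g : GL ι F) : Matrix ι ι F) *ᵥ V) = 0 := by
      rw [g2]
      simp only [pol_add_right hQ, pol_smul_right hQ, c13]
      rw [QuadraticMap.polar_comm Q V'' W, W5]
      ring
    have hw2 : polar Q V'' (((g : GL ι F) : Matrix ι ι F) *ᵥ V') = 0 := by
      rw [g4]
      simp only [pol_add_right hQ, pol_smul_right hQ, c23]
      rw [QuadraticMap.polar_comm Q V'' W, W5]
      ring
    have hsub := lemK D hn hS hM hMi hgM hv hv' h12 hi hv'' hv''0 hw1 hw2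
    rw [mem_subfield_one_iff] at hsub
    obtain ⟨c, hc0, hc⟩ := hsub
    have r1 := hc v
    have r2 := hc v'
    have r3 := hc v''
    rw [← hV, g2] at r1
    rw [← hV', g4] at r2
    have e1 : c • (((0 : F)) • x₂ + δ • V + e₂ • W) =
        (c * (δ - e₂ * a)) • V + (-(c * (e₂ * b))) • V' + (c * e₂) • V'' := by
      rw [hW]
      module
    have e2 : c • ((-(0 : F)) • x₁ + δ • V' + e₄ • W) =
        (-(c * (e₄ * a))) • V + (c * (δ - e₄ * b)) • V' + (c * e₄) • V'' := by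
      rw [hW]
      module
    have e3 : ((g : GL ι F) : Matrix ι ι F) *ᵥ V'' = W + a • ((0 : F) • x₂ + δ • V + e₂ • W) +
        b • ((-(0 : F)) • x₁ + δ • V' + e₄ • W) := by
      have e4 : V'' = W + a • V + b • V' := by
        rw [hW]
        abel
      conv_lhs => rw [e4]
      rw [Matrix.mulVec_add, Matrix.mulVec_add, Matrix.mulVec_smul, Matrix.mulVec_smul, hgW, g2, g4]
    rw [← hV'', e3] at r3
    have e5 : c • (W + a • ((0 : F) • x₂ + δ • V + e₂ • W) + b • ((-(0 : F)) • x₁ + δ • V' + e₄ • W)) =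
        (c * (a * (δ - (1 + a * e₂ + b * e₄)))) • V + (c * (b * (δ - (1 + a * e₂ + b * e₄)))) • V' +
          (c * (1 + a * e₂ + b * e₄)) • V'' := by
      rw [hW]
      module
    rw [e1] at r1
    rw [e2] at r2
    rw [e5] at r3
    obtain ⟨a1, a2, a3⟩ := hcoef r1
    obtain ⟨a4, a5, a6⟩ := hcoef r2
    obtain ⟨a7, a8, a9⟩ := hcoef r3
    have hδ : δ = 1 := stab_alg hc0 a1 (by simpa using F₀.neg_mem a2) a3
      (by simpa using F₀.neg_mem a4) a5 a6 a7 a8 a9 hab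
    subst hδ
    have hα : α = 1 := by
      linear_combination hd
    subst hα
    refine ⟨1, inc γ, fun s t => ?_⟩
    rw [hρ, g1, g2, (hcoord).1, (hcoord).2, (hcoord).1, (hcoord).2]
    simp only [map_one, map_zero, one_mul, zero_mul, add_zero, one_smul]
    apply Prod.ext
    · rfl
    · simp only
      ring
  -- the parabolic elements
  have hpar : ∀ {g : GL ι F} (hg : g ∈ G) (γ e : F), (g : Matrix ι ι F) *ᵥ x₂ = x₂ + γ • V + e • W →
      (g : Matrix ι ι F) *ᵥ V = V → ∀ s t : K,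
      ρ (⟨g, hg⟩ : G) (s, t) = (1 : K) • ((s, t + inc γ * s) : K × K) := by
    intro g hg γ e h1 h2 s t
    rw [hρ]
    have e1 : x₂ + γ • V + e • W = (1 : F) • x₂ + γ • V + e • W := by rw [one_smul]
    have e2 : V = (0 : F) • x₂ + (1 : F) • V + (0 : F) • W := by simp
    change (algebraMap F K (P₁ ((g : Matrix ι ι F) *ᵥ x₂)) * s +
        algebraMap F K (P₁ ((g : Matrix ι ι F) *ᵥ V)) * t,
      algebraMap F K (P₂ ((g : Matrix ι ι F) *ᵥ x₂)) * s +
        algebraMap F K (P₂ ((g : Matrix ι ι F) *ᵥ V)) * t) = _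
    rw [h1, h2, e1]
    conv_lhs =>
      rw [show P₁ V = P₁ ((0 : F) • x₂ + (1 : F) • V + (0 : F) • W) by rw [← e2],
        show P₂ V = P₂ ((0 : F) • x₂ + (1 : F) • V + (0 : F) • W) by rw [← e2]]
    rw [(hcoord).1, (hcoord).2, (hcoord).1, (hcoord).2]
    simp only [map_one, map_zero, one_mul, zero_mul, add_zero, one_smul]
    apply Prod.ext
    · rfl
    · change inc γ * s + t = t + inc γ * s
      ring
  -- membership of Siegel elements
  have hW' : Q W = 0 := by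
    simp only [hW, Q_sub hQ, Q_add (Q := Q), hQ.smul, hv, hv', hv'', pol_sub_left hQ, pol_sub_right hQ,
      pol_smul_left hQ, pol_smul_right hQ, c13, c23, c12, h12]
    ring
  have WV : polar Q V W = 0 := by rw [QuadraticMap.polar_comm]; exact W3
  have WV' : polar Q V' W = 0 := by rw [QuadraticMap.polar_comm]; exact W4
  have WV'' : polar Q V'' W = 0 := by rw [QuadraticMap.polar_comm]; exact W5
  have hE₁ : sg hQ V V' ∈ G := by
    refine ⟨hM v v' hv h12, ?_, 1, 0, -1, 1, 0, 0, 0, 0, by ring, ?_, ?_, ?_, ?_⟩ <;>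
      rw [sg_mulVec hQ hv h12, hv']
    · rw [W3, W4]
      simp
    · rw [p3, p4]
      module
    · rw [hVV, h12]
      simp
    · rw [p1, p2]
      simp
    · rw [c12, hV'V']
      simp
  have hE₁1 := hpar hE₁ (-1) 0 (by
    rw [sg_mulVec hQ hv h12, hv', p3, p4]
    module) (by
    rw [sg_mulVec hQ hv h12, hv', hVV, h12]
    simp)
  have hE₂ : sg hQ V V'' ∈ G := by
    refine ⟨hM v v'' hv h13, ?_, 1, 0, -b, 1, 0, 0, 1, 0, by ring, ?_, ?_, ?_, ?_⟩ <;>
      rw [sg_mulVec hQ hv h13, hv'']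
    · rw [W3, W5]
      simp
    · rw [p3, ← hb]
      module
    · rw [hVV, h13]
      simp
    · rw [p1, ← ha, hW]
      module
    · rw [c12, h23]
      simp
  have hE₂1 := hpar hE₂ (-b) 0 (by
    rw [sg_mulVec hQ hv h13, hv'', p3, ← hb]
    module) (by
    rw [sg_mulVec hQ hv h13, hv'', hVV, h13]
    simp)
  have hE₃ : sg hQ V' V'' ∈ G := by
    refine ⟨hM v' v'' hv' h23, ?_, 1, 0, a, 1, 1, 0, 0, 0, by ring, ?_, ?_, ?_, ?_⟩ <;>
      rw [sg_mulVec hQ hv' h23, hv'']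
    · rw [W4, W5]
      simp
    · rw [p4, ← hb, hW]
      module
    · rw [h12, h13]
      simp
    · rw [p2, ← ha]
      module
    · rw [hV'V', h23]
      simp
  have hE₃1 := hpar hE₃ a 1 (by
    rw [sg_mulVec hQ hv' h23, hv'', p4, ← hb, hW]
    module) (by
    rw [sg_mulVec hQ hv' h23, hv'', h12, h13]
    simp)
  have hTG : T ∈ G := by
    refine ⟨hT, T5, 1, Δ, 0, 1, 0, 0, 0, 0, by ring, ?_, ?_, ?_, ?_⟩
    · rw [T1]
      module
    · rw [T3]
      module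
    · rw [T2]
      module
    · rw [T4]
      module
  have hne : (-1 : F) ≠ 0 := by simp
  -- the two parabolic elements
  obtain ⟨g₂, γ₂, hg₂, h2a, h2b, h2c⟩ : ∃ (g₂ : G) (γ₂ : F),
      (∀ s t : K, ρ g₂ (s, t) = (1 : K) • ((s, t + inc γ₂ * s) : K × K)) ∧ γ₂ ≠ 0 ∧ -1 ≠ γ₂ ∧
        -1 + γ₂ ≠ 0 := by
    rcases hab with h | h
    · refine ⟨⟨_, hE₃⟩, a, hE₃1, ?_, ?_, ?_⟩
      · rintro h0
        exact h (h0 ▸ F₀.zero_mem)
      · intro h0
        exact h (h0 ▸ F₀.neg_mem F₀.one_mem)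
      · intro h0
        apply h
        have : a = 1 := by linear_combination h0
        rw [this]
        exact F₀.one_mem
    · refine ⟨⟨_, hE₂⟩, -b, hE₂1, ?_, ?_, ?_⟩
      · intro h0
        apply h
        have : b = 0 := by linear_combination -h0
        rw [this]
        exact F₀.zero_mem
      · intro h0
        apply h
        have : b = 1 := by linear_combination h0
        rw [this]
        exact F₀.one_mem
      · intro h0
        apply h
        have : b = -1 := by linear_combination -h0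
        rw [this]
        exact F₀.neg_mem F₀.one_mem
  have key := plane_fix ρ hstab hE₁1 hg₂
    (by
      rw [Ne, map_eq_zero]
      exact hne)
    (by
      rw [Ne, map_eq_zero]
      exact h2a)
    (by
      intro h
      exact h2b (hinc h))
    (by
      rw [← map_add, Ne, map_eq_zero]
      exact h2c)
  obtain ⟨μ, hμ⟩ := key ⟨_, hTG⟩
  rw [hρ] at hμ
  have h5 := congrArg Prod.fst hμ
  simp only [Prod.smul_fst, smul_eq_mul, mul_zero, mul_one, add_zero, zero_add] at h5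
  have hC0 : P₁ ((T : Matrix ι ι F) *ᵥ V) = 0 := hinc (by
    rw [map_zero]
    exact h5)
  rw [T3, hP₁', pol_add_left hQ, pol_smul_left hQ, h12, p4] at hC0
  apply hΔ
  linear_combination hC0

end Core

end Cfsg.Agent.Lib.SubfieldOm
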