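import Cfsg.Agent.Lib.SubfieldSpD

/-! The subfield subgroups of `Sp(f)`: the field of scalars of the root elements, and maximality. -/

set_option autoImplicit false
set_option linter.unusedSectionVars false
set_option linter.unusedSimpArgs false
set_option linter.unusedVariables false

open scoped MatrixGroups Matrix
open Cfsg Cfsg.Geo
open Cfsg.Agent.Lib.Transvection Cfsg.Agent.Lib.LinAlgAux Cfsg.Agent.Lib.SubfieldGroup
  Cfsg.Agent.Lib.SubfieldBase Cfsg.Agent.Lib.FixCount Cfsg.Agent.Lib.SymplecticTv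
  Cfsg.Agent.Lib.SymplecticMax Cfsg.Agent.Lib.SymplecticLag Cfsg.Agent.Lib.SymplecticDecomp
  Cfsg.Agent.Lib.SubfieldSp

namespace Cfsg.Agent.Lib.SubfieldSp

section General

variable {F : Type*} [Field F] {F₀ : Subfield F}

/-- A predicate closed under the ring operations and containing the subfield and one more element
holds everywhere, when the degree is prime. -/
theorem top_of_pred [Fintype F] {r : ℕ} (hr : r.Prime) (hcard : Fintype.card F = Nat.card F₀ ^ r)
    (P : F → Prop) (hF₀ : ∀ t ∈ F₀, P t) (hadd : ∀ s t, P s → P t → P (s + t))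
    (hneg : ∀ s, P s → P (-s)) (hmul : ∀ s t, P s → P t → P (s * t)) {ρ : F} (hρ : P ρ)
    (hρ0 : ρ ∉ F₀) (t : F) : P t := by
  let R : Subring F :=
    { carrier := {t | P t}
      mul_mem' := fun hx hy => hmul _ _ hx hy
      one_mem' := hF₀ _ F₀.one_mem
      add_mem' := fun hx hy => hadd _ _ hx hy
      zero_mem' := hF₀ _ F₀.zero_mem
      neg_mem' := fun hx => hneg _ hx }
  let S : Subfield F :=
    { R with
      inv_mem' := by
        intro x hx
        by_cases hx0 : x = 0
        · rw [hx0, inv_zero]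
          exact R.zero_mem
        have h1 : x⁻¹ = x ^ (Fintype.card F - 2) := by
          have h2 := FiniteField.pow_card_sub_one_eq_one x hx0
          have h3 : 2 ≤ Fintype.card F := Fintype.one_lt_card
          have h4 : Fintype.card F - 1 = (Fintype.card F - 2) + 1 := by omega
          rw [h4, pow_succ] at h2
          field_simp
          rw [mul_comm]
          exact h2.symm
        rw [h1]
        exact R.pow_mem hx _ }
  have hS : F₀ ≤ S := fun x hx => hF₀ x hx
  rcases subfield_prime F₀ hr hcard S hS with h1 | h1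
  · exact absurd (h1 ▸ (hρ : ρ ∈ S)) hρ0
  · have : t ∈ S := by
      rw [h1]
      trivial
    exact this

theorem sum_two_squares [Fintype F] (l : F) : ∃ a b : F, a ^ 2 + b ^ 2 = l := by
  classical
  by_cases h : Fintype.card F % 2 = 1
  · obtain ⟨a, b, hab⟩ := FiniteField.exists_root_sum_quadratic
      (f := Polynomial.X ^ 2) (g := Polynomial.X ^ 2 - Polynomial.C l)
      (Polynomial.degree_X_pow 2) (Polynomial.degree_X_pow_sub_C (by decide) _) h
    refine ⟨a, b, ?_⟩
    simp only [Polynomial.eval_pow, Polynomial.eval_X, Polynomial.eval_sub, Polynomial.eval_C] at hab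
    linear_combination hab
  · have h2 : ringChar F = 2 := FiniteField.even_card_iff_char_two.2 (by omega)
    obtain ⟨a, ha⟩ := FiniteField.isSquare_of_char_two h2 l
    exact ⟨a, 0, by rw [ha]; ring⟩

end General

variable {ι : Type} [Fintype ι] [DecidableEq ι] {F : Type*} [Field F]
  {f : (ι → F) → (ι → F) → F} {hf : IsSymplecticForm f} {F₀ : Subfield F}
  {hrat : ∀ u v : ι → F₀, f (emb F₀ u) (emb F₀ v) ∈ F₀} {M : Subgroup (GL ι F)}

/-- Rational isometries lift. -/
theorem isom_lift (hf : IsSymplecticForm f) (hrat : ∀ u v : ι → F₀, f (emb F₀ u) (emb F₀ v) ∈ F₀)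
    {s : GL ι F₀} (hs : IsIsom (fr hrat) s) :
    IsIsom f (Matrix.GeneralLinearGroup.map (F₀.subtype : F₀ →+* F) s) := by
  apply isIsom_of_rat hf (F₀ := F₀)
  intro u v
  rw [map_mulVec_emb, map_mulVec_emb]
  have := hs u v
  have h2 := congrArg Subtype.val this
  simpa [fr_coe] using h2

/-- `M` contains the scalar multiples of all pairs, once it contains one. -/
theorem ee_transit (hM : RatM F₀ f M) {ρ : F} {a₀ b₀ a b : ι → F₀} (h₀ : fr hrat a₀ b₀ = 0)
    (hi₀ : Ind a₀ b₀) (h : fr hrat a b = 0) (hi : Ind a b)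
    (hA : ee hf (ρ • emb F₀ a₀) (emb F₀ b₀) ∈ M) : ee hf (ρ • emb F₀ a) (emb F₀ b) ∈ M := by
  have hfr := fr_symp hf hrat
  have h₀' : fr hrat b₀ a₀ = 0 := by rw [hfr.skew, h₀, neg_zero]
  have h' : fr hrat b a = 0 := by rw [hfr.skew, h, neg_zero]
  obtain ⟨s, hs, e1, e2⟩ := exists_isom_pair hfr hi₀ hi h₀' h'
  have hsi := stvGroup_isIsom hfr hs
  have hli := isom_lift hf hrat hsi
  set ŝ := Matrix.GeneralLinearGroup.map (F₀.subtype : F₀ →+* F) s with hŝ
  have hŝM : ŝ ∈ M := by
    refine hM _ hli fun u => ?_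
    rw [hŝ, map_mulVec_emb]
    exact isRat_emb F₀ _
  have := M.mul_mem (M.mul_mem hŝM hA) (M.inv_mem hŝM)
  rw [conj_ee hf hli, Matrix.mulVec_smul, hŝ, map_mulVec_emb, map_mulVec_emb, e1, e2] at this
  exact this

/-- The scalars of the short root elements in `M`. -/
def RR (hf : IsSymplecticForm f) (hrat : ∀ u v : ι → F₀, f (emb F₀ u) (emb F₀ v) ∈ F₀)
    (M : Subgroup (GL ι F)) (t : F) : Prop :=
  ∀ a b : ι → F₀, fr hrat a b = 0 → Ind a b → ee hf (t • emb F₀ a) (emb F₀ b) ∈ M

theorem RR_rat (hM : RatM F₀ f M) {t : F} (ht : t ∈ F₀) : RR hf hrat M t := by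
  intro a b h hi
  have hfr := fr_symp hf hrat
  have e : t • emb F₀ a = emb F₀ ((⟨t, ht⟩ : F₀) • a) := by
    rw [emb_smul]
  rw [e]
  exact ee_rat hf hrat hM (by rw [hfr.bilinear.smul_left, h, mul_zero])

theorem RR_add {s t : F} (hs : RR hf hrat M s) (ht : RR hf hrat M t) : RR hf hrat M (s + t) := by
  intro a b h hi
  have h0 : f (emb F₀ a) (emb F₀ b) = 0 := f_emb_zero hrat h
  have := M.mul_mem (hs a b h hi) (ht a b h hi)
  rw [ee_add_of_orth hf (by rw [hf.bilinear.smul_left, h0, mul_zero])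
    (by rw [hf.bilinear.smul_left, h0, mul_zero])
    (by rw [hf.bilinear.smul_left, hf.bilinear.smul_right, hf.alternating]; ring), ← add_smul] at this
  exact this

theorem RR_neg {s : F} (hs : RR hf hrat M s) : RR hf hrat M (-s) := by
  intro a b h hi
  have h0 : f (emb F₀ a) (emb F₀ b) = 0 := f_emb_zero hrat h
  have := M.inv_mem (hs a b h hi)
  rw [ee_inv hf (by rw [hf.bilinear.smul_left, h0, mul_zero]), ← neg_smul] at this
  exact this

theorem RR_mul (hn : 7 ≤ Fintype.card ι) {s t : F} (hs : RR hf hrat M s) (ht : RR hf hrat M t) :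
    RR hf hrat M (s * t) := by
  intro a c h hi
  have hfr := fr_symp hf hrat
  obtain ⟨b, b', h1, h2, h3⟩ := exists_hyp_perp hfr (m := 2) (by omega) ![a, c]
  have hba : fr hrat b a = 0 := by simpa using h2 0
  have hbc : fr hrat b c = 0 := by simpa using h2 1
  have hb'a : fr hrat b' a = 0 := by simpa using h3 0
  have hb'c : fr hrat b' c = 0 := by simpa using h3 1
  have hab : fr hrat a b = 0 := by rw [hfr.skew, hba, neg_zero]
  have hcb : fr hrat c b = 0 := by rw [hfr.skew, hbc, neg_zero]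
  have hab' : fr hrat a b' = 0 := by rw [hfr.skew, hb'a, neg_zero]
  have hbb' : fr hrat b' b = -1 := by rw [hfr.skew, h1]
  have hi1 : Ind a b := ind_swap (ind_of_dual hfr (by rw [h1]; exact one_ne_zero) hab' hi.ne_zero_left)
  have hi2 : Ind b' c := ind_of_dual hfr (a := b') (b := c) (c := b) (by rw [hbb']; simp) hcb
    hi.ne_zero_right
  have hA := hs a b hab hi1
  have hB := ht b' c hb'c hi2
  have hcomm := M.mul_mem (M.mul_mem (M.mul_mem hA hB) (M.inv_mem hA)) (M.inv_mem hB)
  set A := ee hf (s • emb F₀ a) (emb F₀ b) with hAd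
  have h0 : f (s • emb F₀ a) (emb F₀ b) = 0 := by
    rw [hf.bilinear.smul_left, f_emb_zero hrat hab, mul_zero]
  have hAb' : (A : Matrix ι ι F) *ᵥ (t • emb F₀ b') = t • emb F₀ b' - (s * t) • emb F₀ a := by
    rw [Matrix.mulVec_smul, hAd, ee_mulVec hf h0, hf.bilinear.smul_right, f_emb_zero hrat hb'a]
    have : f (emb F₀ b') (emb F₀ b) = -1 := by
      rw [← fr_coe hrat, hbb']
      simp
    rw [this]
    module
  have hAc : (A : Matrix ι ι F) *ᵥ emb F₀ c = emb F₀ c := by
    rw [hAd, ee_mulVec hf h0, hf.bilinear.smul_right, f_emb_zero hrat (by rw [hfr.skew, h, neg_zero] :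
      fr hrat c a = 0), f_emb_zero hrat hcb]
    simp
  have hAi : IsIsom f A := ee_isIsom hf _ _
  have e : A * ee hf (t • emb F₀ b') (emb F₀ c) * A⁻¹ * (ee hf (t • emb F₀ b') (emb F₀ c))⁻¹ =
      ee hf ((-(s * t)) • emb F₀ a) (emb F₀ c) := by
    rw [conj_ee hf hAi, hAb', hAc]
    have hb1 : f (t • emb F₀ b') (emb F₀ c) = 0 := by
      rw [hf.bilinear.smul_left, f_emb_zero hrat hb'c, mul_zero]
    have ha1 : f ((s * t) • emb F₀ a) (emb F₀ c) = 0 := by
      rw [hf.bilinear.smul_left, f_emb_zero hrat h, mul_zero]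
    rw [ee_inv hf hb1]
    have e1 : t • emb F₀ b' - (s * t) • emb F₀ a = (-(s * t)) • emb F₀ a + t • emb F₀ b' := by
      module
    rw [e1]
    have h5 : f (-(t • emb F₀ b')) (emb F₀ c) = 0 := by
      have : (-(t • emb F₀ b')) = (-t) • emb F₀ b' := by simp
      rw [this, hf.bilinear.smul_left, f_emb_zero hrat hb'c, mul_zero]
    have h6 : f ((-(s * t)) • emb F₀ a) (emb F₀ c) = 0 := by
      rw [hf.bilinear.smul_left, f_emb_zero hrat h, mul_zero]
    have h7 : f ((-(s * t)) • emb F₀ a + t • emb F₀ b') (emb F₀ c) = 0 := by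
      rw [hf.bilinear.add_left, h6, hb1, add_zero]
    rw [ee_add_of_orth hf h7 h5]
    · congr 1
      abel
    · have : (-(t • emb F₀ b')) = (-t) • emb F₀ b' := by simp
      rw [this, hf.bilinear.smul_left, hf.bilinear.add_right, hf.bilinear.smul_right,
        hf.bilinear.smul_right, f_emb_zero hrat hb'a, hf.alternating]
      ring
  rw [e] at hcomm
  have := M.inv_mem hcomm
  rw [ee_inv hf (by rw [hf.bilinear.smul_left, f_emb_zero hrat h, mul_zero]), ← neg_smul, neg_neg] at this
  exact this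

theorem stv_add' (hf : IsSymplecticForm f) (a : ι → F) (s t : F) :
    stv hf a s * stv hf a t = stv hf a (s + t) := by
  apply gl_ext_mulVec
  intro y
  simp only [gl_mul_mulVec, stv_mulVec, hf.bilinear.add_left, hf.bilinear.smul_left, hf.alternating a]
  module

/-- All rational vectors are full. -/
theorem full_rat [Fintype F] (hn : 5 ≤ Fintype.card ι) (hM : RatM F₀ f M) (hall : ∀ t, RR hf hrat M t)
    {d : ι → F₀} (hd : d ≠ 0) : Full hf M (emb F₀ d) := by
  have hfr := fr_symp hf hrat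
  obtain ⟨c, a, h1, h2, h3⟩ := exists_hyp_perp hfr (m := 1) (by omega) ![d]
  have hcd : fr hrat c d = 0 := by simpa using h2 0
  have had : fr hrat a d = 0 := by simpa using h3 0
  have hdc : fr hrat d c = 0 := by rw [hfr.skew, hcd, neg_zero]
  have hda : fr hrat d a = 0 := by rw [hfr.skew, had, neg_zero]
  have hac : fr hrat a c = -1 := by rw [hfr.skew, h1]
  have hind1 : Ind a d := ind_of_dual hfr (c := c) (by rw [hac]; simp) hdc hd
  have hind2 : Ind c d := ind_of_dual hfr (c := a) (by rw [h1]; exact one_ne_zero) hda hd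
  have hsq : ∀ ρ : F, stv hf (emb F₀ d) (ρ ^ 2) ∈ M := by
    intro ρ
    have hT := hall ρ a d had hind1
    set T := ee hf (ρ • emb F₀ a) (emb F₀ d) with hTd
    have h0 : f (ρ • emb F₀ a) (emb F₀ d) = 0 := by
      rw [hf.bilinear.smul_left, f_emb_zero hrat had, mul_zero]
    have hTc : (T : Matrix ι ι F) *ᵥ emb F₀ c = emb F₀ c + ρ • emb F₀ d := by
      rw [hTd, ee_mulVec hf h0, hf.bilinear.smul_right, f_emb_zero hrat hcd]
      have : f (emb F₀ c) (emb F₀ a) = 1 := by
        rw [← fr_coe hrat, h1]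
        rfl
      rw [this]
      module
    have h4 := M.mul_mem (M.mul_mem hT (stv_rat hf hrat hM c F₀.one_mem)) (M.inv_mem hT)
    rw [isIsom_conj_stv hf (ee_isIsom hf _ _), hTc] at h4
    have h5 := M.mul_mem h4 (M.inv_mem (stv_rat hf hrat hM c F₀.one_mem))
    rw [stv_add_formula hf (f_emb_zero hrat hcd)] at h5
    have h6 := hall (1 * ρ) c d hcd hind2
    have h7 := M.mul_mem (M.inv_mem h6) h5
    rw [inv_mul_cancel_left, one_mul] at h7
    exact h7
  intro l
  obtain ⟨a', b', hab⟩ := sum_two_squares l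
  rw [← hab, ← stv_add']
  exact M.mul_mem (hsq a') (hsq b')

/-- Root elements with a rational second vector. -/
theorem ee_all [Fintype F] (hn : 5 ≤ Fintype.card ι) (hM : RatM F₀ f M) (hall : ∀ t, RR hf hrat M t)
    {Q P : ι → F₀} (hQ : Q ≠ 0) (hPQ : fr hrat P Q = 1) {u : ι → F} (hu : f u (emb F₀ Q) = 0) :
    ee hf u (emb F₀ Q) ∈ M := by
  have hfr := fr_symp hf hrat
  have hfull := full_rat hn hM hall hQ
  set b : ι → ι → F₀ := fun i => Pi.single i 1 - (fr hrat (Pi.single i 1) Q) • P with hb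
  have hbQ : ∀ i, fr hrat (b i) Q = 0 := by
    intro i
    simp only [hb, sub_eq_add_neg, ← neg_smul, hfr.bilinear.add_left, hfr.bilinear.smul_left, hPQ]
    ring
  have hterm : ∀ i, AA hf M (emb F₀ Q) (u i • emb F₀ (b i)) := by
    intro i
    have h0 : f (u i • emb F₀ (b i)) (emb F₀ Q) = 0 := by
      rw [hf.bilinear.smul_left, f_emb_zero hrat (hbQ i), mul_zero]
    by_cases hI : Ind (b i) Q
    · refine ⟨h0, 0, ?_⟩
      rw [stv_zero, mul_one]
      exact hall _ _ _ (hbQ i) hI
    · unfold Ind at hI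
      push Not at hI
      obtain ⟨s, t, hst, hne⟩ := hI
      have hs : s ≠ 0 := by
        intro hs0
        rw [hs0, zero_smul, zero_add] at hst
        exact hne hs0 ((smul_eq_zero.1 hst).resolve_right hQ)
      have e : b i = (-(s⁻¹ * t)) • Q := by
        have h5 : s • b i = (-t) • Q := by
          rw [neg_smul]
          exact eq_neg_of_add_eq_zero_left hst
        have h6 := congrArg (fun v => s⁻¹ • v) h5
        simp only [smul_smul, inv_mul_cancel₀ hs, one_smul] at h6
        rw [h6]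
        congr 1
        ring
      refine ⟨h0, 0, ?_⟩
      rw [stv_zero, mul_one, ee_comm hf h0, e, emb_smul, smul_smul, ee_self_smul]
      exact hfull _
  have hsum : ∀ s : Finset ι, AA hf M (emb F₀ Q) (∑ i ∈ s, u i • emb F₀ (b i)) := by
    intro s
    induction s using Finset.induction_on with
    | empty =>
      refine ⟨by simp [f_zero_left hf], 0, ?_⟩
      simp only [Finset.sum_empty, stv_zero, ee_zero_left, mul_one]
      exact M.one_mem
    | insert i s hi ih =>
      rw [Finset.sum_insert hi]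
      exact (hterm i).add ih
  have hexp : u = ∑ i, u i • emb F₀ (b i) := by
    have h1 : ∀ i, emb F₀ (b i) = Pi.single i 1 - f (Pi.single i 1) (emb F₀ Q) • emb F₀ P := by
      intro i
      simp only [hb, sub_eq_add_neg, ← neg_smul, emb_add, emb_smul, emb_single]
      rw [NegMemClass.coe_neg, fr_coe, emb_single]
    have h2 : ∑ i, u i * f (Pi.single i 1) (emb F₀ Q) = 0 := by
      rw [← hu]
      conv_rhs => rw [show u = ∑ i, u i • (Pi.single i 1 : ι → F) by
        ext j
        simp [Finset.sum_apply, Pi.single_apply]]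
      rw [f_sum_left hf]
      refine Finset.sum_congr rfl fun i _ => ?_
      rw [hf.bilinear.smul_left]
    have h3 : ∑ i, u i • emb F₀ (b i) = ∑ i, u i • (Pi.single i 1 : ι → F) -
        (∑ i, u i * f (Pi.single i 1) (emb F₀ Q)) • emb F₀ P := by
      rw [Finset.sum_smul, ← Finset.sum_sub_distrib]
      refine Finset.sum_congr rfl fun i _ => ?_
      rw [h1, smul_sub, smul_smul]
    rw [h3, h2, zero_smul, sub_zero]
    ext j
    simp [Finset.sum_apply, Pi.single_apply]
  have h5 := hsum Finset.univ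
  rw [← hexp] at h5
  obtain ⟨-, μ, h6⟩ := h5
  have h7 := M.mul_mem h6 (M.inv_mem (hfull μ))
  rwa [mul_inv_cancel_right] at h7

/-- All vectors are full. -/
theorem all_full [Fintype F] (hn : 5 ≤ Fintype.card ι) (hM : RatM F₀ f M) (hall : ∀ t, RR hf hrat M t)
    (v : ι → F) : Full hf M v := by
  have hfr := fr_symp hf hrat
  by_cases hv : v = 0
  · subst hv
    intro c
    have : stv hf (0 : ι → F) c = 1 := by
      apply gl_ext_mulVec
      intro y
      simp
    rw [this]
    exact M.one_mem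
  obtain ⟨i, hi⟩ := exists_single_ne hf hv
  set Q : ι → F₀ := Pi.single i 1 with hQ
  have hQ0 : Q ≠ 0 := by
    intro h
    have := congrFun h i
    simp [hQ] at this
  have hQe : emb F₀ Q = Pi.single i 1 := emb_single F₀ i
  rw [← hQe] at hi
  obtain ⟨P₀, hP₀⟩ := (hfr.nondegenerate Q hQ0).1
  set P : ι → F₀ := (fr hrat P₀ Q)⁻¹ • P₀ with hP
  have hPQ : fr hrat P Q = 1 := by
    rw [hP, hfr.bilinear.smul_left, inv_mul_cancel₀ hP₀]
  have hPQ' : f (emb F₀ P) (emb F₀ Q) = 1 := by
    rw [← fr_coe hrat, hPQ]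
    rfl
  set c := f v (emb F₀ Q) with hc
  set u := c⁻¹ • (v - c • emb F₀ P) with hu
  have huQ : f u (emb F₀ Q) = 0 := by
    rw [hu, hf.bilinear.smul_left, sub_eq_add_neg, ← neg_smul, hf.bilinear.add_left,
      hf.bilinear.smul_left, hPQ', ← hc]
    ring
  have hE := ee_all hn hM hall hQ0 hPQ huQ
  have hP0 : P ≠ 0 := by
    intro h
    rw [h, f_zero_left hfr] at hPQ
    exact zero_ne_one hPQ
  have hfullQ := full_rat hn hM hall hQ0
  have hfullP := full_rat hn hM hall hP0
  set m := stv hf (emb F₀ Q) (- f (emb F₀ P) u) * ee hf u (emb F₀ Q) with hm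
  have hmM : m ∈ M := M.mul_mem (hfullQ _) hE
  have hmi : IsIsom f m := (stv_isIsom hf _ _).mul (ee_isIsom hf _ _)
  have hmP : (m : Matrix ι ι F) *ᵥ (c • emb F₀ P) = v := by
    have hc0 : c ≠ 0 := hi
    have e1 : ((ee hf u (emb F₀ Q) : GL ι F) : Matrix ι ι F) *ᵥ emb F₀ P =
        emb F₀ P + f (emb F₀ P) u • emb F₀ Q + u := by
      rw [ee_mulVec hf huQ, hPQ', one_smul]
    rw [hm, Matrix.mulVec_smul, gl_mul_mulVec, e1, stv_mulVec]
    have e2 : f (emb F₀ P + f (emb F₀ P) u • emb F₀ Q + u) (emb F₀ Q) = 1 := by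
      simp only [hf.bilinear.add_left, hf.bilinear.smul_left, hPQ', huQ, hf.alternating]
      ring
    rw [e2]
    have e3 : c • u = v - c • emb F₀ P := by
      rw [hu, smul_smul, mul_inv_cancel₀ hc0, one_smul]
    have e4 : emb F₀ P + f (emb F₀ P) u • emb F₀ Q + u + (-f (emb F₀ P) u * 1) • emb F₀ Q =
        emb F₀ P + u := by
      module
    rw [e4, smul_add, e3]
    abel
  have := (hfullP.smul c).image hmM hmi
  rwa [hmP] at this

/-- Every isometry is a product of transvections. -/
theorem preserving_le_stvGroup (hf : IsSymplecticForm f) :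
    preserving (glToMat ι F) f ≤ stvGroup hf ⊤ := by
  intro g hg
  have hnd : IsNondegenerateOn f (⊤ : Submodule F (ι → F)) := by
    intro w _ hw
    obtain ⟨h1, h2⟩ := hf.nondegenerate w hw
    exact ⟨⟨h1.choose, trivial, h1.choose_spec⟩, ⟨h2.choose, trivial, h2.choose_spec⟩⟩
  obtain ⟨r, hr, p, q, -, -, pq, pp, qq, hexp'⟩ := exists_sympBasis hf _ ⊤ hnd rfl
  refine mem_stvGroup_of_isIsom hf p q pq pp qq ?_ hg
  intro h hfix
  apply gl_ext_mulVec
  intro x
  have e : glLin h x = x := by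
    conv_lhs => rw [hexp' x trivial]
    rw [map_sum]
    conv_rhs => rw [hexp' x trivial]
    refine Finset.sum_congr rfl fun l _ => ?_
    rw [map_sub, map_smul, map_smul, glLin_apply, glLin_apply, (hfix l).1, (hfix l).2]
  rw [glLin_apply] at e
  rw [e]
  simp

/-- The main theorem for `P = 1`. -/
theorem subfieldSp_one [Fintype F] (hf : IsSymplecticForm f)
    (hrat : ∀ u v : ι → F₀, f (emb F₀ u) (emb F₀ v) ∈ F₀) (hn : 9 ≤ Fintype.card ι) {r : ℕ} (hr : r.Prime)
    (hcard : Fintype.card F = Nat.card F₀ ^ r) :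
    IsMaximalIn (preserving (glToMat ι F) f) (subfieldSubgroup F₀ 1 ⊓ preserving (glToMat ι F) f) := by
  classical
  haveI : Nonempty ι := Fintype.card_pos_iff.1 (by omega)
  have hfr := fr_symp hf hrat
  set H := subfieldSubgroup F₀ 1 ⊓ preserving (glToMat ι F) f with hH
  have hRH : RatM F₀ f H := by
    intro g hi hg
    refine Subgroup.mem_inf.2 ⟨(mem_subfield_one_iff F₀).2 ⟨1, one_ne_zero, fun u => ?_⟩, hi⟩
    rw [one_smul]
    exact hg u
  refine ⟨lt_of_le_of_ne inf_le_right ?_, fun M h1 h2 => ?_⟩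
  · -- properness
    intro heq
    have hF0 : ∃ l : F, l ∉ F₀ := by
      by_contra hall
      push Not at hall
      have h3 : Function.Surjective (fun x : F₀ => (x : F)) := fun x => ⟨⟨x, hall x⟩, rfl⟩
      have h4 : Fintype.card F ≤ Nat.card F₀ := by
        rw [← Nat.card_eq_fintype_card]
        exact Nat.card_le_card_of_surjective _ h3
      rw [hcard] at h4
      have h5 : 1 < Nat.card F₀ := Finite.one_lt_card
      have h6 : Nat.card F₀ ^ 1 < Nat.card F₀ ^ r := Nat.pow_lt_pow_right h5 hr.one_lt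
      rw [pow_one] at h6
      omega
    obtain ⟨l, hl⟩ := hF0
    obtain ⟨i⟩ : Nonempty ι := inferInstance
    set e : ι → F₀ := Pi.single i 1 with he
    have he0 : e ≠ 0 := by
      intro h
      have := congrFun h i
      simp [he] at this
    have hei : ∀ x : ι → F, True := fun _ => trivial
    obtain ⟨u₀, hu₀⟩ := (hfr.nondegenerate e he0).1
    have hmem : stv hf (emb F₀ e) l ∈ H := by
      rw [heq]
      exact stv_isIsom hf _ _
    obtain ⟨c, hc0, hc⟩ := (mem_subfield_one_iff F₀).1 (Subgroup.mem_inf.1 hmem).1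
    have h3 := hc e i
    have h4 := hc u₀ i
    have hee : emb F₀ e i = 1 := by
      rw [he, emb_single]
      simp
    simp only [stv_mulVec, hf.alternating, Pi.smul_apply, Pi.add_apply, smul_eq_mul, mul_zero, zero_smul,
      add_zero, hee, mul_one] at h3 h4
    apply hl
    have hs0 : (fr hrat u₀ e : F) ≠ 0 := by exact_mod_cast hu₀
    rw [← fr_coe hrat] at h4
    have h5 : (fr hrat u₀ e : F) ∈ F₀ := (fr hrat u₀ e).2
    have h6 := F₀.sub_mem h4 (F₀.mul_mem h3 (isRat_emb F₀ u₀ i))
    have e7 : l = c⁻¹ * (c * (emb F₀ u₀ i + l * (fr hrat u₀ e : F)) - c * emb F₀ u₀ i) * (fr hrat u₀ e : F)⁻¹ := by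
      field_simp
      ring
    rw [e7]
    exact F₀.mul_mem (F₀.mul_mem (F₀.inv_mem h3) h6) (F₀.inv_mem h5)
  · have hR : RatM F₀ f M := fun g hi hg => h1 (hRH g hi hg)
    have hMi : ∀ m ∈ M, IsIsom f m := fun m hm => h2 hm
    by_cases hS : NoS hf hrat M
    · left
      apply le_antisymm _ h1
      intro g hg
      refine Subgroup.mem_inf.2 ⟨?_, h2 hg⟩
      by_contra hgn
      obtain ⟨u, hu⟩ := exists_nonrat_line F₀ hgn
      have hu0 : u ≠ 0 := by
        rintro rfl
        apply hu 1 one_ne_zero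
        intro i
        have : emb F₀ (0 : ι → F₀) = 0 := by
          ext j
          simp
        simp [this, F₀.zero_mem]
      set x : ι → F := (g : Matrix ι ι F) *ᵥ emb F₀ u with hx
      have hx0 : x ≠ 0 := by
        intro h
        have h3 := congrArg (fun z => ((g⁻¹ : GL ι F) : Matrix ι ι F) *ᵥ z) h
        simp only [hx, gl_inv_mulVec_mulVec, Matrix.mulVec_zero] at h3
        exact hu0 (emb_eq_zero F₀ h3)
      have hT : stv hf x 1 ∈ M := by
        have := M.mul_mem (M.mul_mem hg (stv_rat hf hrat hR u F₀.one_mem)) (M.inv_mem hg)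
        rwa [isIsom_conj_stv hf (hMi g hg)] at this
      by_cases hD : ∃ w : ι → F₀, w ≠ 0 ∧ f x (emb F₀ w) = 0
      · obtain ⟨w, hw, hxw⟩ := hD
        obtain ⟨c, hc, hc'⟩ := caseD hn hS hR one_ne_zero hT hw hxw hx0
        exact hu c hc hc'
      · push Not at hD
        exact plane_sp hn hS hR hMi hD hT
    · right
      apply le_antisymm h2
      unfold NoS at hS
      push Not at hS
      obtain ⟨ρ, a₀, b₀, h₀, hi₀, hA, hρ⟩ := hS
      have hall : ∀ t, RR hf hrat M t := by
        refine top_of_pred hr hcard (RR hf hrat M) (fun t ht => RR_rat hR ht) (fun s t => RR_add)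
          (fun s => RR_neg) (fun s t => RR_mul (by omega)) (ρ := ρ) ?_ hρ
        intro a b h hi
        exact ee_transit hR h₀ hi₀ h hi hA
      refine (preserving_le_stvGroup hf).trans (stvGroup_le hf fun v _ c => ?_)
      exact all_full (by omega) hR hall v c

/-- Transfer of structure. -/
theorem symp_transfer {g : (ι → F) → (ι → F) → F} (hg : IsSymplecticForm g) {ζ : F} (hζ : ζ ≠ 0) (P : GL ι F) :
    IsSymplecticForm (fun u v => ζ * g ((P : Matrix ι ι F) *ᵥ u) ((P : Matrix ι ι F) *ᵥ v)) where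
  bilinear :=
    { add_left := fun x y v => by
        simp only [Matrix.mulVec_add, hg.bilinear.add_left]
        ring
      smul_left := fun c x v => by
        simp only [Matrix.mulVec_smul, hg.bilinear.smul_left]
        ring
      add_right := fun v x y => by
        simp only [Matrix.mulVec_add, hg.bilinear.add_right]
        ring
      smul_right := fun c v x => by
        simp only [Matrix.mulVec_smul, hg.bilinear.smul_right]
        ring }
  skew := fun v w => by
    rw [hg.skew]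
    ring
  alternating := fun v => by
    rw [hg.alternating, mul_zero]
  nondegenerate := by
    intro v hv
    have hv' : (P : Matrix ι ι F) *ᵥ v ≠ 0 := by
      intro h
      have h3 := congrArg (fun z => ((P⁻¹ : GL ι F) : Matrix ι ι F) *ᵥ z) h
      simp only [gl_inv_mulVec_mulVec, Matrix.mulVec_zero] at h3
      exact hv h3
    obtain ⟨⟨a, ha⟩, ⟨b, hb⟩⟩ := hg.nondegenerate _ hv'
    refine ⟨⟨((P⁻¹ : GL ι F) : Matrix ι ι F) *ᵥ a, ?_⟩, ⟨((P⁻¹ : GL ι F) : Matrix ι ι F) *ᵥ b, ?_⟩⟩
    · simp only [gl_mulVec_inv_mulVec]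
      exact mul_ne_zero hζ ha
    · simp only [gl_mulVec_inv_mulVec]
      exact mul_ne_zero hζ hb

/-- The isometry group of the transferred form is the conjugate. -/
theorem preserving_transfer {g : (ι → F) → (ι → F) → F} {ζ : F} (hζ : ζ ≠ 0) (P : GL ι F) :
    (preserving (glToMat ι F) (fun u v => ζ * g ((P : Matrix ι ι F) *ᵥ u) ((P : Matrix ι ι F) *ᵥ v))).map
      (MulAut.conj P).toMonoidHom = preserving (glToMat ι F) g := by
  apply le_antisymm
  · rintro _ ⟨m, hm, rfl⟩
    intro u v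
    have h := hm (((P⁻¹ : GL ι F) : Matrix ι ι F) *ᵥ u) (((P⁻¹ : GL ι F) : Matrix ι ι F) *ᵥ v)
    simp only [gl_mulVec_inv_mulVec] at h
    have h2 := mul_left_cancel₀ hζ h
    change g (((P * m * P⁻¹ : GL ι F) : Matrix ι ι F) *ᵥ u) (((P * m * P⁻¹ : GL ι F) : Matrix ι ι F) *ᵥ v) = g u v
    rw [gl_mul_mulVec, gl_mul_mulVec, gl_mul_mulVec, gl_mul_mulVec]
    exact h2
  · intro m hm
    refine ⟨P⁻¹ * m * P, ?_, ?_⟩
    · intro u v
      change ζ * g ((P : Matrix ι ι F) *ᵥ (((P⁻¹ * m * P : GL ι F) : Matrix ι ι F) *ᵥ u))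
        ((P : Matrix ι ι F) *ᵥ (((P⁻¹ * m * P : GL ι F) : Matrix ι ι F) *ᵥ v)) = _
      rw [gl_mul_mulVec, gl_mul_mulVec, gl_mul_mulVec, gl_mul_mulVec, gl_mulVec_inv_mulVec, gl_mulVec_inv_mulVec]
      congr 1
      exact hm _ _
    · simp [MulAut.conj_apply]
      group

/-- The main theorem. -/
theorem subfieldSp_isMaximalIn [Fintype F] {g : (ι → F) → (ι → F) → F} (hg : IsSymplecticForm g)
    (hn : 9 ≤ Fintype.card ι) {r : ℕ} (hr : r.Prime) (hcard : Fintype.card F = Nat.card F₀ ^ r)
    (P : GL ι F) {ζ : F} (hζ : ζ ≠ 0) (hP : IsFormRationalStructure g F₀ ζ P) :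
    IsMaximalIn (preserving (glToMat ι F) g) (subfieldSubgroup F₀ P ⊓ preserving (glToMat ι F) g) := by
  have hf' := symp_transfer hg hζ P
  have hrat : ∀ u v : ι → F₀, ζ * g ((P : Matrix ι ι F) *ᵥ emb F₀ u) ((P : Matrix ι ι F) *ᵥ emb F₀ v) ∈ F₀ :=
    fun u v => hP _ _ (isRat_emb F₀ u) (isRat_emb F₀ v)
  have h := isMaximalIn_map_conj P (subfieldSp_one hf' hrat hn hr hcard)
  rw [preserving_transfer hζ, Subgroup.map_inf _ _ _ (MulAut.conj P).injective,
    preserving_transfer hζ, ← subfield_eq_map] at h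
  exact h

end Cfsg.Agent.Lib.SubfieldSp
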