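import Cfsg.Agent.Lib.SubfieldOmC
import Cfsg.Agent.Lib.SubfieldSpR
import Cfsg.Agent.Lib.QuadStab

/-! Subfield subgroups of `Ω`: maximality. -/

set_option autoImplicit false
set_option linter.unusedSectionVars false
set_option linter.unusedSimpArgs false
set_option linter.unusedVariables false

open scoped MatrixGroups Matrix commutatorElement
open Cfsg Cfsg.Geo
open Cfsg.Agent.Lib.Transvection Cfsg.Agent.Lib.LinAlgAux Cfsg.Agent.Lib.QuadBase
  Cfsg.Agent.Lib.QuadSiegel Cfsg.Agent.Lib.SubfieldGroup Cfsg.Agent.Lib.SubfieldBase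
  Cfsg.Agent.Lib.QuadSim
open Cfsg.Agent.Lib.SymplecticTv (Ind Ind.ne_zero_left Ind.ne_zero_right)
open Cfsg.Agent.Lib.SubfieldSp (top_of_pred)
open QuadraticMap (polar)

namespace Cfsg.Agent.Lib.SubfieldOm

variable {ι : Type} [Fintype ι] [DecidableEq ι] {F : Type*} [Field F] {Q : (ι → F) → F}
  {hQ : IsNondegenerateQuadraticForm Q} {F₀ : Subfield F}

section Plane

variable [Fintype F] (D : RatData hQ F₀) {M : Subgroup (GL ι F)}
include D

set_option maxHeartbeats 1000000 in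
/-- Lemma P: a Siegel element of `M` cannot have a plane which is orthogonal to no rational singular
vector. -/
theorem plane_om [Nonempty ι] (hn : 13 ≤ Fintype.card ι) (hS : NoS hQ F₀ M) (hM : RatM hQ F₀ M)
    (hMi : ∀ m ∈ M, QIsom Q m) {x x' : ι → F} (hxx : Q x = 0) (hx'x' : Q x' = 0)
    (hxx' : polar Q x x' = 0) (hind : Ind x x') (hT : sg hQ x x' ∈ M)
    (hgen : ∀ w : ι → F₀, w ≠ 0 → Q (emb F₀ w) = 0 → polar Q (emb F₀ w) x = 0 →
      polar Q (emb F₀ w) x' = 0 → False) : False := by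
  obtain ⟨v, q, hv, hq, hqv, -⟩ := hyp_list D [] (by simp; omega)
  have hv0 : v ≠ 0 := by
    rintro rfl
    rw [emb_zero, pol_zero_right hQ] at hqv
    exact zero_ne_one hqv
  have hxs : polar Q x x = 0 := by rw [pol_self hQ, hxx, mul_zero]
  have hx's : polar Q x' x' = 0 := by rw [pol_self hQ, hx'x', mul_zero]
  have hx'x : polar Q x' x = 0 := by rw [QuadraticMap.polar_comm]; exact hxx'
  set A := polar Q x (emb F₀ v) with hA
  set A' := polar Q x' (emb F₀ v) with hA'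
  have hvx : polar Q (emb F₀ v) x = A := by rw [QuadraticMap.polar_comm]
  have hvx' : polar Q (emb F₀ v) x' = A' := by rw [QuadraticMap.polar_comm]
  obtain ⟨v', hv', hv'v, hΔ⟩ : ∃ v' : ι → F₀, Q (emb F₀ v') = 0 ∧ polar Q (emb F₀ v') (emb F₀ v) = 0 ∧
      A' * polar Q x (emb F₀ v') - A * polar Q x' (emb F₀ v') ≠ 0 := by
    by_contra hall
    push Not at hall
    have h1 : ∀ b : ι → F₀, polar Q (emb F₀ b) (emb F₀ v) = 0 →
        polar Q (A' • x - A • x') (emb F₀ b) = 0 := by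
      intro b hb
      refine sing_ind D [v] (by simp; omega) (fun b => polar Q (A' • x - A • x') (emb F₀ b) = 0) ?_ ?_
        (y := b) (by simpa using hb)
      · intro a ha hc
        rw [pol_sub_left hQ, pol_smul_left hQ, pol_smul_left hQ]
        exact hall a ha (hc v (by simp))
      · intro a b _ _ h2 h3
        rw [emb_add, pol_add_right hQ, h2, h3, add_zero]
    obtain ⟨t, ht⟩ := perp_rat D hv0 h1
    by_cases ht0 : t = 0
    · rw [ht0, zero_smul] at ht
      have h2 := hind A' (-A) (by rw [neg_smul, ← sub_eq_add_neg]; exact ht)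
      have hA0 : A = 0 := neg_eq_zero.1 h2.2
      exact hgen v hv0 hv (by rw [hvx, hA0]) (by rw [hvx', h2.1])
    · have hV : emb F₀ v = t⁻¹ • (A' • x - A • x') := by
        rw [ht, smul_smul, inv_mul_cancel₀ ht0, one_smul]
      apply hgen v hv0 hv
      · rw [hV]
        simp only [pol_smul_left hQ, pol_sub_left hQ, hxs, hx'x]
        ring
      · rw [hV]
        simp only [pol_smul_left hQ, pol_sub_left hQ, hxx', hx's]
        ring
  have h12 : polar Q (emb F₀ v) (emb F₀ v') = 0 := by rw [QuadraticMap.polar_comm]; exact hv'v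
  set B := polar Q x (emb F₀ v') with hB
  set B' := polar Q x' (emb F₀ v') with hB'
  have hv'x : polar Q (emb F₀ v') x = B := by rw [QuadraticMap.polar_comm]
  have hv'x' : polar Q (emb F₀ v') x' = B' := by rw [QuadraticMap.polar_comm]
  set Δ := A * B' - B * A' with hΔd
  have hΔ0 : Δ ≠ 0 := by
    intro h
    apply hΔ
    linear_combination -h
  set x₁ := Δ⁻¹ • (B' • x - B • x') with hx₁
  set x₂ := Δ⁻¹ • (A • x' - A' • x) with hx₂
  have hΔx₁ : Δ • x₁ = B' • x - B • x' := by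
    rw [hx₁, smul_smul, mul_inv_cancel₀ hΔ0, one_smul]
  have hΔx₂ : Δ • x₂ = A • x' - A' • x := by
    rw [hx₂, smul_smul, mul_inv_cancel₀ hΔ0, one_smul]
  have p1 : polar Q x₁ (emb F₀ v) = 1 := by
    rw [hx₁, pol_smul_left hQ, pol_sub_left hQ, pol_smul_left hQ, pol_smul_left hQ, ← hA, ← hA']
    field_simp
    rw [hΔd]
    ring
  have p2 : polar Q x₁ (emb F₀ v') = 0 := by
    rw [hx₁, pol_smul_left hQ, pol_sub_left hQ, pol_smul_left hQ, pol_smul_left hQ, ← hB, ← hB']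
    ring
  have p3 : polar Q x₂ (emb F₀ v) = 0 := by
    rw [hx₂, pol_smul_left hQ, pol_sub_left hQ, pol_smul_left hQ, pol_smul_left hQ, ← hA, ← hA']
    ring
  have p4 : polar Q x₂ (emb F₀ v') = 1 := by
    rw [hx₂, pol_smul_left hQ, pol_sub_left hQ, pol_smul_left hQ, pol_smul_left hQ, ← hB, ← hB']
    field_simp
    rw [hΔd]
    ring
  have p5 : polar Q x₁ x₂ = 0 := by
    rw [hx₁, hx₂]
    simp only [pol_smul_left hQ, pol_smul_right hQ, pol_sub_left hQ, pol_sub_right hQ, hxx', hxs,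
      hx'x, hx's]
    ring
  have hx1x : polar Q x₁ x = 0 := by
    rw [hx₁]
    simp only [pol_smul_left hQ, pol_sub_left hQ, hxs, hx'x]
    ring
  have hx1x' : polar Q x₁ x' = 0 := by
    rw [hx₁]
    simp only [pol_smul_left hQ, pol_sub_left hQ, hxx', hx's]
    ring
  have hx2x : polar Q x₂ x = 0 := by
    rw [hx₂]
    simp only [pol_smul_left hQ, pol_sub_left hQ, hxs, hx'x]
    ring
  have hx2x' : polar Q x₂ x' = 0 := by
    rw [hx₂]
    simp only [pol_smul_left hQ, pol_sub_left hQ, hxx', hx's]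
    ring
  have ex : x = A • x₁ + B • x₂ := by
    have e : x = Δ⁻¹ • ((A * B' - B * A') • x) := by
      rw [← hΔd, smul_smul, inv_mul_cancel₀ hΔ0, one_smul]
    calc x = Δ⁻¹ • ((A * B' - B * A') • x) := e
      _ = A • x₁ + B • x₂ := by
        rw [hx₁, hx₂]
        module
  have ex' : x' = A' • x₁ + B' • x₂ := by
    have e : x' = Δ⁻¹ • ((A * B' - B * A') • x') := by
      rw [← hΔd, smul_smul, inv_mul_cancel₀ hΔ0, one_smul]
    calc x' = Δ⁻¹ • ((A * B' - B * A') • x') := e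
      _ = A' • x₁ + B' • x₂ := by
        rw [hx₁, hx₂]
        module
  clear_value x₁ x₂
  have hi : Ind (emb F₀ v) (emb F₀ v') := by
    intro s t hst
    have h1 := congrArg (fun z => polar Q x₁ z) hst
    have h2 := congrArg (fun z => polar Q x₂ z) hst
    simp only [pol_add_right hQ, pol_smul_right hQ, p1, p2, p3, p4, pol_zero_right hQ] at h1 h2
    constructor
    · linear_combination h1
    · linear_combination h2
  obtain ⟨v'', h', hv'', hh', hh'v'', hl⟩ := hyp_list D [v, v'] (by simp; omega)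
  obtain ⟨h13', hh'1⟩ := hl v (by simp)
  obtain ⟨h23', hh'2⟩ := hl v' (by simp)
  have h13 : polar Q (emb F₀ v) (emb F₀ v'') = 0 := by rw [QuadraticMap.polar_comm]; exact h13'
  have h23 : polar Q (emb F₀ v') (emb F₀ v'') = 0 := by rw [QuadraticMap.polar_comm]; exact h23'
  have hv''0 : v'' ≠ 0 := by
    rintro rfl
    rw [emb_zero, pol_zero_right hQ] at hh'v''
    exact zero_ne_one hh'v''
  have d31 : polar Q (emb F₀ v) (emb F₀ h') = 0 := by rw [QuadraticMap.polar_comm]; exact hh'1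
  have d32 : polar Q (emb F₀ v') (emb F₀ h') = 0 := by rw [QuadraticMap.polar_comm]; exact hh'2
  have d33 : polar Q (emb F₀ v'') (emb F₀ h') = 1 := by rw [QuadraticMap.polar_comm]; exact hh'v''
  have dualfix : ∀ c : ι → F₀, ∃ q₀ : ι → F₀, polar Q (emb F₀ v) (emb F₀ q₀) = polar Q (emb F₀ v) (emb F₀ c) ∧
      polar Q (emb F₀ v') (emb F₀ q₀) = polar Q (emb F₀ v') (emb F₀ c) ∧
      polar Q (emb F₀ v'') (emb F₀ q₀) = 0 := by
    intro c
    refine ⟨c - (polar (Qr D) v'' c) • h', ?_, ?_, ?_⟩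
    · rw [emb_sub, emb_smul, pol_sub_right hQ, pol_smul_right hQ, d31]
      ring
    · rw [emb_sub, emb_smul, pol_sub_right hQ, pol_smul_right hQ, d32]
      ring
    · rw [emb_sub, emb_smul, pol_sub_right hQ, pol_smul_right hQ, d33, pr_coe]
      ring
  obtain ⟨c₁, hc11, hc12⟩ := dual_of_ind D hi
  obtain ⟨c₂, hc22, hc21⟩ := dual_of_ind D (ind_sw hi)
  obtain ⟨q₁, d11, d12, d13⟩ := dualfix c₁
  obtain ⟨q₂, d21, d22, d23⟩ := dualfix c₂
  rw [hc11] at d11
  rw [hc12] at d12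
  rw [hc21] at d21
  rw [hc22] at d22
  set a := polar Q x₁ (emb F₀ v'') with ha
  set b := polar Q x₂ (emb F₀ v'') with hb
  have hv''x1 : polar Q (emb F₀ v'') x₁ = a := by rw [QuadraticMap.polar_comm]
  have hv''x2 : polar Q (emb F₀ v'') x₂ = b := by rw [QuadraticMap.polar_comm]
  have hvx1 : polar Q (emb F₀ v) x₁ = 1 := by rw [QuadraticMap.polar_comm]; exact p1
  have hvx2 : polar Q (emb F₀ v) x₂ = 0 := by rw [QuadraticMap.polar_comm]; exact p3
  have hv'x1 : polar Q (emb F₀ v') x₁ = 0 := by rw [QuadraticMap.polar_comm]; exact p2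
  have hv'x2 : polar Q (emb F₀ v') x₂ = 1 := by rw [QuadraticMap.polar_comm]; exact p4
  have W1 : polar Q (emb F₀ v'' - a • emb F₀ v - b • emb F₀ v') x₁ = 0 := by
    simp only [pol_sub_left hQ, pol_smul_left hQ, hv''x1, hvx1, hv'x1]
    ring
  have W2 : polar Q (emb F₀ v'' - a • emb F₀ v - b • emb F₀ v') x₂ = 0 := by
    simp only [pol_sub_left hQ, pol_smul_left hQ, hv''x2, hvx2, hv'x2]
    ring
  have W3 : polar Q (emb F₀ v'' - a • emb F₀ v - b • emb F₀ v') x = 0 := by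
    rw [ex, pol_add_right hQ, pol_smul_right hQ, pol_smul_right hQ, W1, W2]
    ring
  have W4 : polar Q (emb F₀ v'' - a • emb F₀ v - b • emb F₀ v') x' = 0 := by
    rw [ex', pol_add_right hQ, pol_smul_right hQ, pol_smul_right hQ, W1, W2]
    ring
  have hab : a ∉ F₀ ∨ b ∉ F₀ := by
    by_contra hcon
    push Not at hcon
    obtain ⟨ha0, hb0⟩ := hcon
    set w : ι → F₀ := v'' - (⟨a, ha0⟩ : F₀) • v - (⟨b, hb0⟩ : F₀) • v' with hw
    have hwe : emb F₀ w = emb F₀ v'' - a • emb F₀ v - b • emb F₀ v' := by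
      rw [hw, emb_sub, emb_sub, emb_smul, emb_smul]
    refine hgen w ?_ ?_ ?_ ?_
    · intro h0
      have h1 : polar Q (emb F₀ h') (emb F₀ w) = 0 := by
        rw [h0, emb_zero, pol_zero_right hQ]
      rw [hwe] at h1
      simp only [pol_sub_right hQ, pol_smul_right hQ, hh'v'', hh'1, hh'2] at h1
      simp at h1
    · rw [hwe]
      simp only [Q_sub hQ, Q_add (Q := Q), hQ.smul, hv, hv', hv'', pol_sub_left hQ, pol_sub_right hQ,
        pol_smul_left hQ, pol_smul_right hQ, h12, h13', h23', hv'v]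
      ring
    · rw [hwe]
      exact W3
    · rw [hwe]
      exact W4
  have T1 : ((sg hQ x x' : GL ι F) : Matrix ι ι F) *ᵥ x₂ = x₂ := by
    rw [sg_mulVec hQ hxx hxx', hx2x, hx2x']
    simp
  have T2 : ((sg hQ x x' : GL ι F) : Matrix ι ι F) *ᵥ x₁ = x₁ := by
    rw [sg_mulVec hQ hxx hxx', hx1x, hx1x']
    simp
  have T3 : ((sg hQ x x' : GL ι F) : Matrix ι ι F) *ᵥ emb F₀ v = emb F₀ v + Δ • x₂ := by
    rw [sg_mulVec hQ hxx hxx', hvx, hvx', hΔx₂, hx'x']
    simp only [zero_mul, zero_smul, sub_zero]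
    module
  have T4 : ((sg hQ x x' : GL ι F) : Matrix ι ι F) *ᵥ emb F₀ v' = emb F₀ v' + (-Δ) • x₁ := by
    rw [sg_mulVec hQ hxx hxx', hv'x, hv'x', neg_smul, hΔx₁, hx'x']
    simp only [zero_mul, zero_smul, sub_zero]
    module
  have T5 : ((sg hQ x x' : GL ι F) : Matrix ι ι F) *ᵥ (emb F₀ v'' - a • emb F₀ v - b • emb F₀ v') =
      emb F₀ v'' - a • emb F₀ v - b • emb F₀ v' := by
    rw [sg_mulVec hQ hxx hxx', W3, W4]
    simp
  exact plane_core D hn hS hM hMi hv hv' hv'' h12 h13 h23 hi hv''0 d11 d12 d13 d21 d22 d23 d31 d32 d33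
    p1 p2 p3 p4 p5 hab hT hΔ0 T1 T2 T3 T4 T5

/-- The case without non-rational Siegel elements. -/
theorem noS_main [Nonempty ι] (hn : 13 ≤ Fintype.card ι) (hS : NoS hQ F₀ M) (hM : RatM hQ F₀ M)
    (hMi : ∀ m ∈ M, QIsom Q m) {g : GL ι F} (hg : g ∈ M) : g ∈ subfieldSubgroup F₀ 1 := by
  by_contra hg'
  obtain ⟨u, z, hu, hz, hzu, -⟩ := hyp_list D [] (by simp; omega)
  have hu0 : u ≠ 0 := by
    rintro rfl
    rw [emb_zero, pol_zero_right hQ] at hzu
    exact zero_ne_one hzu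
  obtain ⟨b, h', hb, hh', hh'b, hl⟩ := hyp_list D [u] (by simp; omega)
  obtain ⟨hbu, hh'u⟩ := hl u (by simp)
  have hub : polar Q (emb F₀ u) (emb F₀ b) = 0 := by rw [QuadraticMap.polar_comm]; exact hbu
  have hI : Ind (emb F₀ u) (emb F₀ b) := by
    apply ind_sw
    exact ind_of_dual' hQ (c := emb F₀ h') (by rw [hh'b]; exact one_ne_zero) hh'u (emb_ne_zero D hu0)
  have hgi := hMi g hg
  have hT : sg hQ ((g : Matrix ι ι F) *ᵥ emb F₀ u) ((g : Matrix ι ι F) *ᵥ emb F₀ b) ∈ M := by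
    have := M.mul_mem (M.mul_mem hg (hM u b hu hub)) (M.inv_mem hg)
    rwa [conj_sg hQ hgi hu hub] at this
  refine plane_om D hn hS hM hMi (by rw [hgi, hu]) (by rw [hgi, hb]) (by rw [hgi.pol, hub])
    (ind_image D g hI) hT ?_
  intro w hw0 hww h1 h2
  exact hg' (lemK D hn hS hM hMi hg hu hb hub hI hww hw0 h1 h2)

end Plane

section Ring

variable [Fintype F] (D : RatData hQ F₀) {M : Subgroup (GL ι F)}
include D

theorem not_span_of_ind {e c : ι → F₀} (h : Ind (emb F₀ e) (emb F₀ c)) :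
    e ∉ Submodule.span F₀ {c} := by
  intro hm
  obtain ⟨t, ht⟩ := Submodule.mem_span_singleton.1 hm
  have := h (-1) (t : F) (by rw [← ht, emb_smul]; simp)
  simp at this

/-- The ring of coefficients of Siegel elements over rational pairs. -/
def RR (hQ : IsNondegenerateQuadraticForm Q) (F₀ : Subfield F) (M : Subgroup (GL ι F)) (t : F) : Prop :=
  ∀ a b : ι → F₀, Q (emb F₀ a) = 0 → Q (emb F₀ b) = 0 → polar Q (emb F₀ a) (emb F₀ b) = 0 →
    Ind (emb F₀ a) (emb F₀ b) → sg hQ (emb F₀ a) (t • emb F₀ b) ∈ M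

omit D in
theorem conj_step {s : GL ι F} (hsM : s ∈ M) (hsi : QIsom Q s) {t : F} {a b a' b' : ι → F}
    (ha : Q a = 0) (hab : polar Q a b = 0) (h1 : (s : Matrix ι ι F) *ᵥ a = a')
    (h2 : (s : Matrix ι ι F) *ᵥ b = b') (hm : sg hQ a (t • b) ∈ M) : sg hQ a' (t • b') ∈ M := by
  have h3 : polar Q a (t • b) = 0 := by rw [pol_smul_right hQ, hab, mul_zero]
  have := M.mul_mem (M.mul_mem hsM hm) (M.inv_mem hsM)
  rwa [conj_sg hQ hsi ha h3, Matrix.mulVec_smul, h1, h2] at this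

/-- Witt transitivity on rational pairs. -/
theorem RR_of_one (hn : 13 ≤ Fintype.card ι) (hM : RatM hQ F₀ M) {t : F} {a₀ b₀ : ι → F₀}
    (ha₀ : Q (emb F₀ a₀) = 0) (hb₀ : Q (emb F₀ b₀) = 0) (h0 : polar Q (emb F₀ a₀) (emb F₀ b₀) = 0)
    (hi₀ : Ind (emb F₀ a₀) (emb F₀ b₀)) (hm : sg hQ (emb F₀ a₀) (t • emb F₀ b₀) ∈ M) :
    RR hQ F₀ M t := by
  intro a b ha hb hab hi
  obtain ⟨h, h', hh, hh', hh'h, hl⟩ := hyp_list D [a₀, b₀, a, b] (by simp; omega)
  obtain ⟨h1, h1'⟩ := hl a₀ (by simp)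
  obtain ⟨h2, h2'⟩ := hl b₀ (by simp)
  obtain ⟨h3, h3'⟩ := hl a (by simp)
  obtain ⟨h4, h4'⟩ := hl b (by simp)
  have i1 : Ind (emb F₀ h) (emb F₀ a₀) :=
    ind_of_dual' hQ (c := emb F₀ h') (by rw [hh'h]; exact one_ne_zero) h1' hi₀.ne_zero_left
  have i3 : Ind (emb F₀ h) (emb F₀ a) :=
    ind_of_dual' hQ (c := emb F₀ h') (by rw [hh'h]; exact one_ne_zero) h3' hi.ne_zero_left
  have c0 : polar Q (emb F₀ b₀) (emb F₀ a₀) = 0 := by rw [QuadraticMap.polar_comm]; exact h0
  have cc : polar Q (emb F₀ b) (emb F₀ a) = 0 := by rw [QuadraticMap.polar_comm]; exact hab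
  -- step 1
  obtain ⟨s₁, ⟨hs₁M, hs₁i, -, -⟩, e1, e2⟩ := rat_move_fix D hM (by omega) (c := a₀) hb₀ hh c0 h1
    (not_span_of_ind D (ind_sw hi₀)) (not_span_of_ind D i1)
  have hm1 : sg hQ (emb F₀ a₀) (t • emb F₀ h) ∈ M := conj_step hs₁M hs₁i ha₀ h0 e2 e1 hm
  -- step 2
  have c1 : polar Q (emb F₀ a₀) (emb F₀ h) = 0 := by rw [QuadraticMap.polar_comm]; exact h1
  have c3 : polar Q (emb F₀ a) (emb F₀ h) = 0 := by rw [QuadraticMap.polar_comm]; exact h3
  obtain ⟨s₂, ⟨hs₂M, hs₂i, -, -⟩, e3, e4⟩ := rat_move_fix D hM (by omega) (c := h) ha₀ ha c1 c3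
    (not_span_of_ind D (ind_sw i1)) (not_span_of_ind D (ind_sw i3))
  have hm2 : sg hQ (emb F₀ a) (t • emb F₀ h) ∈ M := conj_step hs₂M hs₂i ha₀ c1 e3 e4 hm1
  -- step 3
  obtain ⟨s₃, ⟨hs₃M, hs₃i, -, -⟩, e5, e6⟩ := rat_move_fix D hM (by omega) (c := a) hh hb h3 cc
    (not_span_of_ind D i3) (not_span_of_ind D (ind_sw hi))
  exact conj_step hs₃M hs₃i ha c3 e6 e5 hm2

theorem RR_rat (hM : RatM hQ F₀ M) {t : F} (ht : t ∈ F₀) : RR hQ F₀ M t := by
  intro a b ha hb hab hi
  have e : t • emb F₀ b = emb F₀ ((⟨t, ht⟩ : F₀) • b) := by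
    rw [emb_smul]
  rw [e]
  refine hM _ _ ha ?_
  rw [← e, pol_smul_right hQ, hab, mul_zero]

omit D in
theorem RR_add {s t : F} (hs : RR hQ F₀ M s) (ht : RR hQ F₀ M t) : RR hQ F₀ M (s + t) := by
  intro a b ha hb hab hi
  have h1 := M.mul_mem (hs a b ha hb hab hi) (ht a b ha hb hab hi)
  rwa [sg_add hQ ha (by rw [pol_smul_right hQ, hab, mul_zero]) (by rw [pol_smul_right hQ, hab, mul_zero]),
    ← add_smul] at h1

omit D in
theorem RR_neg {s : F} (hs : RR hQ F₀ M s) : RR hQ F₀ M (-s) := by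
  intro a b ha hb hab hi
  have h1 := M.inv_mem (hs a b ha hb hab hi)
  rwa [← sg_neg hQ ha (by rw [pol_smul_right hQ, hab, mul_zero]), ← neg_smul] at h1

theorem RR_mul (hn : 13 ≤ Fintype.card ι) {s t : F} (hs : RR hQ F₀ M s) (ht : RR hQ F₀ M t) :
    RR hQ F₀ M (s * t) := by
  intro a c ha hc hac hi
  obtain ⟨b, b', hb, hb', hb'b, hl⟩ := hyp_list D [a, c] (by simp; omega)
  obtain ⟨h1, h1'⟩ := hl a (by simp)
  obtain ⟨h2, h2'⟩ := hl c (by simp)
  have hab : polar Q (emb F₀ a) (emb F₀ b) = 0 := by rw [QuadraticMap.polar_comm]; exact h1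
  have hab' : polar Q (emb F₀ a) (emb F₀ b') = 0 := by rw [QuadraticMap.polar_comm]; exact h1'
  have hbb' : polar Q (emb F₀ b) (emb F₀ b') = 1 := by rw [QuadraticMap.polar_comm]; exact hb'b
  have i1 : Ind (emb F₀ a) (emb F₀ b) := by
    apply ind_sw
    exact ind_of_dual' hQ (c := emb F₀ b') (by rw [hb'b]; exact one_ne_zero) h1' hi.ne_zero_left
  have i2 : Ind (emb F₀ b') (emb F₀ c) :=
    ind_of_dual hQ (c := emb F₀ b) (by rw [hb'b]; exact one_ne_zero) (by
      rw [QuadraticMap.polar_comm]; exact h2) hi.ne_zero_right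
  have hX := hs a b ha hb hab i1
  have hY := ht b' c hb' hc h2' i2
  have h3 : polar Q (emb F₀ b') (t • emb F₀ c) = 0 := by rw [pol_smul_right hQ, h2', mul_zero]
  have hYi := sg_isom hQ hb' h3
  have h4 : polar Q (emb F₀ a) (s • emb F₀ b) = 0 := by rw [pol_smul_right hQ, hab, mul_zero]
  have h5 : Q (t • emb F₀ c) = 0 := by rw [hQ.smul, hc, mul_zero]
  have e1 : ((sg hQ (emb F₀ b') (t • emb F₀ c) : GL ι F) : Matrix ι ι F) *ᵥ emb F₀ a = emb F₀ a := by
    rw [sg_mulVec hQ hb' h3, hab', pol_smul_right hQ, hac, h5]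
    simp
  have e2 : ((sg hQ (emb F₀ b') (t • emb F₀ c) : GL ι F) : Matrix ι ι F) *ᵥ (s • emb F₀ b) =
      s • emb F₀ b + (s * t) • emb F₀ c := by
    rw [Matrix.mulVec_smul, sg_mulVec hQ hb' h3, hbb', pol_smul_right hQ, h5, h2]
    simp only [mul_zero, zero_smul, sub_zero, one_smul, zero_mul, add_zero]
    module
  have h6 := M.mul_mem (M.mul_mem hY hX) (M.inv_mem hY)
  rw [conj_sg hQ hYi ha h4, e1, e2] at h6
  have h7 : polar Q (emb F₀ a) ((s * t) • emb F₀ c) = 0 := by rw [pol_smul_right hQ, hac, mul_zero]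
  rw [← sg_add hQ ha h4 h7] at h6
  have h8 := M.mul_mem (M.inv_mem hX) h6
  rwa [inv_mul_cancel_left] at h8

/-- If all coefficients occur, all Siegel elements with rational singular centre are in `M`. -/
theorem full_rat (hn : 13 ≤ Fintype.card ι) (hR : ∀ t, RR hQ F₀ M t) {a : ι → F₀}
    (ha : Q (emb F₀ a) = 0) (ha0 : a ≠ 0) : Full hQ M (emb F₀ a) := by
  have hc1 : ∀ c : ι → F₀, polar Q (emb F₀ c) (emb F₀ a) = 0 → ∀ t : F,
      sg hQ (emb F₀ a) (t • emb F₀ c) ∈ M := by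
    intro c hc
    refine sing_ind D [a] (by simp; omega) (fun c => ∀ t : F, sg hQ (emb F₀ a) (t • emb F₀ c) ∈ M) ?_ ?_
      (y := c) (by simpa using hc)
    · intro d hd hda t
      have hda' : polar Q (emb F₀ d) (emb F₀ a) = 0 := hda a (by simp)
      have had : polar Q (emb F₀ a) (emb F₀ d) = 0 := by rw [QuadraticMap.polar_comm]; exact hda'
      by_cases hdep : ∀ l : F, emb F₀ d ≠ l • emb F₀ a
      · exact hR t a d ha hd had (ind_sw (ind_of_not_dep (emb_ne_zero D ha0) hdep))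
      · push Not at hdep
        obtain ⟨l, hl⟩ := hdep
        rw [hl, smul_smul, sg_self hQ _ ha]
        exact M.one_mem
    · intro b c hb hc h1 h2 t
      have hb' : polar Q (emb F₀ a) (t • emb F₀ b) = 0 := by
        rw [pol_smul_right hQ, QuadraticMap.polar_comm, hb a (by simp), mul_zero]
      have hc' : polar Q (emb F₀ a) (t • emb F₀ c) = 0 := by
        rw [pol_smul_right hQ, QuadraticMap.polar_comm, hc a (by simp), mul_zero]
      rw [emb_add, smul_add, ← sg_add hQ ha hb' hc']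
      exact M.mul_mem (h1 t) (h2 t)
  obtain ⟨p, hp⟩ := partner D ha0
  intro y hy
  let e : ι → (ι → F₀) := fun j => Pi.single j 1 - (polar (Qr D) (Pi.single j 1) a) • p
  have he : ∀ j, polar Q (emb F₀ (e j)) (emb F₀ a) = 0 := by
    intro j
    simp only [e, emb_sub, emb_smul, pol_sub_left hQ, pol_smul_left hQ, hp, pr_coe]
    ring
  have hsum : ∀ S : Finset ι, polar Q (emb F₀ a) (∑ j ∈ S, y j • emb F₀ (e j)) = 0 ∧
      sg hQ (emb F₀ a) (∑ j ∈ S, y j • emb F₀ (e j)) ∈ M := by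
    intro S
    induction S using Finset.induction_on with
    | empty =>
      simp only [Finset.sum_empty, pol_zero_right hQ, true_and]
      rw [sg_zero_right hQ ha]
      exact M.one_mem
    | insert j S hj ih =>
      rw [Finset.sum_insert hj]
      have h1 : polar Q (emb F₀ a) (y j • emb F₀ (e j)) = 0 := by
        rw [pol_smul_right hQ, QuadraticMap.polar_comm, he j, mul_zero]
      refine ⟨by rw [pol_add_right hQ, h1, ih.1, add_zero], ?_⟩
      rw [← sg_add hQ ha h1 ih.1]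
      exact M.mul_mem (hc1 _ (he j) _) ih.2
  have hexp : y = ∑ j, y j • (Pi.single j 1 : ι → F) := by
    ext i
    rw [Finset.sum_apply, Finset.sum_eq_single i]
    · simp
    · intro j _ hj
      simp [Pi.single_eq_of_ne (Ne.symm hj)]
    · simp
  have hy' : polar Q y (emb F₀ a) = 0 := by rw [QuadraticMap.polar_comm]; exact hy
  have hform : ∑ j, y j * polar Q (Pi.single j 1 : ι → F) (emb F₀ a) = 0 := by
    have h1 := congrArg (formL hQ (emb F₀ a)) hexp
    rw [map_sum, formL_apply, hy'] at h1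
    simp only [map_smul, formL_apply, smul_eq_mul] at h1
    exact h1.symm
  have hy2 : y = ∑ j, y j • emb F₀ (e j) := by
    have h2 : ∀ j, y j • emb F₀ (e j) = y j • (Pi.single j 1 : ι → F) -
        (y j * polar Q (Pi.single j 1 : ι → F) (emb F₀ a)) • emb F₀ p := by
      intro j
      simp only [e, emb_sub, emb_smul, emb_single, pr_coe]
      rw [smul_sub, smul_smul]
    simp only [h2]
    rw [Finset.sum_sub_distrib, ← hexp, ← Finset.sum_smul, hform, zero_smul, sub_zero]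
  rw [hy2]
  exact (hsum Finset.univ).2

/-- If a non-rational coefficient occurs, `M` contains `Ω`. -/
theorem ring_main {r : ℕ} (hr : r.Prime) (hcard : Fintype.card F = Nat.card F₀ ^ r)
    (hn : 13 ≤ Fintype.card ι) (hS : ¬ NoS hQ F₀ M) (hM : RatM hQ F₀ M)
    (hMi : ∀ m ∈ M, QIsom Q m) : omegaGL Q ≤ M := by
  unfold NoS at hS
  push Not at hS
  obtain ⟨ρ, a, b, ha, hb, hab, hi, hm, hρ⟩ := hS
  have hρR : RR hQ F₀ M ρ := RR_of_one D hn hM ha hb hab hi hm
  have hR : ∀ t, RR hQ F₀ M t := fun t =>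
    top_of_pred hr hcard (RR hQ F₀ M) (fun t ht => RR_rat D hM ht) (fun s t h1 h2 => RR_add h1 h2)
      (fun s h1 => RR_neg h1) (fun s t h1 h2 => RR_mul D hn h1 h2) hρR hρ t
  obtain ⟨u, z, hu, hz, hzu, -⟩ := hyp_list D [] (by simp; omega)
  have hu0 : u ≠ 0 := by
    rintro rfl
    rw [emb_zero, pol_zero_right hQ] at hzu
    exact zero_ne_one hzu
  have hz0 : z ≠ 0 := by
    rintro rfl
    rw [emb_zero, pol_zero_left hQ] at hzu
    exact zero_ne_one hzu
  have hFu := full_rat D hn hR hu hu0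
  have hFz := full_rat D hn hR hz hz0
  rw [omegaGL_eq_sigmaG hQ (by omega)]
  refine sigmaG_le hQ fun c hc => ?_
  exact full_all (by omega) hu hz hc hFu hFz (by rw [hzu]; exact one_ne_zero) hMi

/-- A non-rational Siegel element is not in the subfield group. -/
theorem sg_not_subfield {ρ : F} (hρ : ρ ∉ F₀) {a b : ι → F₀} (ha : Q (emb F₀ a) = 0)
    (hb : Q (emb F₀ b) = 0) (hab : polar Q (emb F₀ a) (emb F₀ b) = 0)
    (hi : Ind (emb F₀ a) (emb F₀ b)) : sg hQ (emb F₀ a) (ρ • emb F₀ b) ∉ subfieldSubgroup F₀ 1 := by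
  intro hmem
  rw [mem_subfield_one_iff] at hmem
  obtain ⟨c, hc0, hc⟩ := hmem
  have h1 : polar Q (emb F₀ a) (ρ • emb F₀ b) = 0 := by rw [pol_smul_right hQ, hab, mul_zero]
  have h2 : Q (ρ • emb F₀ b) = 0 := by rw [hQ.smul, hb, mul_zero]
  have haa : polar Q (emb F₀ a) (emb F₀ a) = 0 := by rw [pol_self hQ, ha, mul_zero]
  have ha0 : a ≠ 0 := by
    rintro rfl
    rw [emb_zero] at hi
    exact hi.ne_zero_left rfl
  have hb0 : b ≠ 0 := by
    rintro rfl
    rw [emb_zero] at hi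
    exact hi.ne_zero_right rfl
  have r1 := hc a
  rw [sg_mulVec hQ ha h1, haa, h1, h2] at r1
  simp only [zero_smul, add_zero, sub_zero, zero_mul] at r1
  have hcF : c ∈ F₀ := coeff_rat1 D ha0 r1
  obtain ⟨z, hz1, hz2⟩ := dual_of_ind D hi
  have hz1' : polar Q (emb F₀ z) (emb F₀ a) = 1 := by rw [QuadraticMap.polar_comm]; exact hz1
  have hz2' : polar Q (emb F₀ z) (emb F₀ b) = 0 := by rw [QuadraticMap.polar_comm]; exact hz2
  have r2 := hc z
  rw [sg_mulVec hQ ha h1, hz1', pol_smul_right hQ, hz2', h2] at r2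
  simp only [mul_zero, zero_smul, sub_zero, one_smul, zero_mul] at r2
  have r3 : IsRat F₀ ((c * ρ) • emb F₀ b) := by
    have h3 := isRat_sub r2 (isRat_smul hcF (isRat_emb F₀ z))
    convert h3 using 1
    module
  have h4 := coeff_rat1 D hb0 r3
  apply hρ
  have e : ρ = (c * ρ) / c := by field_simp
  rw [e]
  exact F₀.div_mem h4 hcF

end Ring

section Main

variable [Fintype F]

/-- `F₀` is a proper subfield. -/
theorem exists_not_mem {r : ℕ} (hr : r.Prime) (hcard : Fintype.card F = Nat.card F₀ ^ r) :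
    ∃ ρ : F, ρ ∉ F₀ := by
  by_contra hcon
  push Not at hcon
  have h1 : Nat.card F₀ = Fintype.card F := by
    rw [← Nat.card_eq_fintype_card]
    exact Nat.card_congr ⟨Subtype.val, fun x => ⟨x, hcon x⟩, fun _ => rfl, fun _ => rfl⟩
  rw [← h1] at hcard
  have h2 : 1 < Nat.card F₀ := Finite.one_lt_card
  have h3 : Nat.card F₀ ^ 1 = Nat.card F₀ ^ r := by rw [pow_one]; exact hcard
  have h4 := Nat.pow_right_injective h2 h3
  exact hr.one_lt.ne h4

/-- The main theorem for the standard rational structure. -/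
theorem subfieldOmega_one (hQ : IsNondegenerateQuadraticForm Q)
    (hrat : ∀ u : ι → F₀, Q (emb F₀ u) ∈ F₀) (hn : 13 ≤ Fintype.card ι) {r : ℕ} (hr : r.Prime)
    (hcard : Fintype.card F = Nat.card F₀ ^ r) :
    IsMaximalIn (omegaGL Q) (subfieldSubgroup F₀ 1 ⊓ omegaGL Q) := by
  have D : RatData hQ F₀ := ⟨hrat⟩
  haveI : Nonempty ι := Fintype.card_pos_iff.1 (by omega)
  refine ⟨?_, ?_⟩
  · refine lt_of_le_of_ne inf_le_right ?_
    intro h
    obtain ⟨ρ, hρ⟩ := exists_not_mem hr hcard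
    obtain ⟨a, z, ha, hz, hza, -⟩ := hyp_list D [] (by simp; omega)
    have ha0 : a ≠ 0 := by
      rintro rfl
      rw [emb_zero, pol_zero_right hQ] at hza
      exact zero_ne_one hza
    obtain ⟨b, h', hb, hh', hh'b, hl⟩ := hyp_list D [a] (by simp; omega)
    obtain ⟨hba, hh'a⟩ := hl a (by simp)
    have hab : polar Q (emb F₀ a) (emb F₀ b) = 0 := by rw [QuadraticMap.polar_comm]; exact hba
    have hI : Ind (emb F₀ a) (emb F₀ b) := by
      apply ind_sw
      exact ind_of_dual' hQ (c := emb F₀ h') (by rw [hh'b]; exact one_ne_zero) hh'a (emb_ne_zero D ha0)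
    have h1 : polar Q (emb F₀ a) (ρ • emb F₀ b) = 0 := by rw [pol_smul_right hQ, hab, mul_zero]
    have h2 : sg hQ (emb F₀ a) (ρ • emb F₀ b) ∈ omegaGL Q := sg_mem_omega hQ (by omega) ha h1
    rw [← h] at h2
    exact sg_not_subfield D hρ ha hb hab hI h2.1
  · intro M hHM hMΩ
    have hMi : ∀ m ∈ M, QIsom Q m := fun m hm =>
      sigmaG_isom hQ (omega_le_sigmaG hQ (by omega) (hMΩ hm))
    have hM : RatM hQ F₀ M := by
      intro a b h1 h2
      apply hHM
      refine ⟨?_, sg_mem_omega hQ (by omega) h1 h2⟩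
      change sg hQ (emb F₀ a) (emb F₀ b) ∈ subfieldSubgroup F₀ 1
      rw [mem_subfield_one_iff]
      refine ⟨1, one_ne_zero, fun u => ?_⟩
      rw [one_smul, sg_emb D h1 h2]
      exact isRat_emb F₀ _
    by_cases hS : NoS hQ F₀ M
    · left
      exact le_antisymm (fun g hg => ⟨noS_main D hn hS hM hMi hg, hMΩ hg⟩) hHM
    · right
      exact le_antisymm hMΩ (ring_main D hr hcard hn hS hM hMi)

end Main

section Transfer

variable [Fintype F]

/-- The rational structure by a matrix and a scalar, transported. -/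
def scaledForm (Q : (ι → F) → F) (ζ : F) (P : GL ι F) : (ι → F) → F :=
  fun u => ζ * Q ((P : Matrix ι ι F) *ᵥ u)

theorem polar_scaledForm (ζ : F) (P : GL ι F) (u v : ι → F) :
    polar (scaledForm Q ζ P) u v =
      ζ * polar Q ((P : Matrix ι ι F) *ᵥ u) ((P : Matrix ι ι F) *ᵥ v) := by
  simp only [polar, scaledForm, Matrix.mulVec_add]
  ring

theorem scaledForm_nondeg (hQ : IsNondegenerateQuadraticForm Q) {ζ : F} (hζ : ζ ≠ 0) (P : GL ι F) :
    IsNondegenerateQuadraticForm (scaledForm Q ζ P) where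
  smul c v := by
    simp only [scaledForm, Matrix.mulVec_smul, hQ.smul]
    ring
  polar_bilinear :=
    { add_left := fun x y v => by
        simp only [polar_scaledForm, Matrix.mulVec_add, pol_add_left hQ]
        ring
      smul_left := fun c x v => by
        simp only [polar_scaledForm, Matrix.mulVec_smul, pol_smul_left hQ]
        ring
      add_right := fun x y v => by
        simp only [polar_scaledForm, Matrix.mulVec_add, pol_add_right hQ]
        ring
      smul_right := fun c x v => by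
        simp only [polar_scaledForm, Matrix.mulVec_smul, pol_smul_right hQ]
        ring }
  nondegenerate := by
    intro v hv
    have hPv : (P : Matrix ι ι F) *ᵥ v ≠ 0 := by
      intro h
      apply hv
      have := congrArg (fun z => ((P⁻¹ : GL ι F) : Matrix ι ι F) *ᵥ z) h
      simpa using this
    obtain ⟨⟨x, hx⟩, ⟨y, hy⟩⟩ := hQ.nondegenerate _ hPv
    refine ⟨⟨((P⁻¹ : GL ι F) : Matrix ι ι F) *ᵥ x, ?_⟩, ⟨((P⁻¹ : GL ι F) : Matrix ι ι F) *ᵥ y, ?_⟩⟩
    · rw [polar_scaledForm, gl_mulVec_inv_mulVec]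
      exact mul_ne_zero hζ hx
    · rw [polar_scaledForm, gl_mulVec_inv_mulVec]
      exact mul_ne_zero hζ hy

theorem isometry_scaled {ζ : F} (hζ : ζ ≠ 0) (P : GL ι F) :
    isometryGroup F (scaledForm Q ζ P) =
      (isometryGroup F Q).map (MulAut.conj P⁻¹).toMonoidHom := by
  ext g
  constructor
  · intro hg
    refine ⟨P * g * P⁻¹, ?_, ?_⟩
    · change P * g * P⁻¹ ∈ isometryGroup F Q
      rw [mem_isometryGroup_iff] at hg ⊢
      intro v
      have h1 := hg (((P⁻¹ : GL ι F) : Matrix ι ι F) *ᵥ v)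
      simp only [scaledForm] at h1
      rw [gl_mulVec_inv_mulVec] at h1
      rw [gl_mul_mulVec, gl_mul_mulVec]
      exact mul_left_cancel₀ hζ h1
    · change P⁻¹ * (P * g * P⁻¹) * P⁻¹⁻¹ = g
      group
  · rintro ⟨h, hh, rfl⟩
    have hh' : h ∈ isometryGroup F Q := hh
    rw [mem_isometryGroup_iff] at hh' ⊢
    intro v
    change ζ * Q ((P : Matrix ι ι F) *ᵥ (((P⁻¹ * h * P⁻¹⁻¹ : GL ι F) : Matrix ι ι F) *ᵥ v)) =
      ζ * Q ((P : Matrix ι ι F) *ᵥ v)
    have e : P⁻¹ * h * P⁻¹⁻¹ = P⁻¹ * (h * P) := by group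
    rw [e, gl_mul_mulVec, gl_mulVec_inv_mulVec, gl_mul_mulVec, hh']

theorem omega_scaled {ζ : F} (hζ : ζ ≠ 0) (P : GL ι F) :
    omegaGL (scaledForm Q ζ P) = (omegaGL Q).map (MulAut.conj P⁻¹).toMonoidHom := by
  rw [omegaGL_eq_commutator, omegaGL_eq_commutator, isometry_scaled hζ, Subgroup.map_commutator]

/-- The main theorem for a rational structure up to a scalar. -/
theorem subfieldOmega_isMaximalIn (hQ : IsNondegenerateQuadraticForm Q) {ζ : F} (hζ : ζ ≠ 0)
    (P : GL ι F) (hP : ∀ u : ι → F, (∀ i, u i ∈ F₀) → ζ * Q ((P : Matrix ι ι F) *ᵥ u) ∈ F₀)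
    (hn : 13 ≤ Fintype.card ι) {r : ℕ} (hr : r.Prime) (hcard : Fintype.card F = Nat.card F₀ ^ r) :
    IsMaximalIn (omegaGL Q) (subfieldSubgroup F₀ P ⊓ omegaGL Q) := by
  have h1 := subfieldOmega_one (scaledForm_nondeg hQ hζ P) (F₀ := F₀)
    (fun u => hP _ (fun i => (u i).2)) hn hr hcard
  have h2 := isMaximalIn_map_conj P h1
  have hinj : Function.Injective (MulAut.conj P).toMonoidHom := (MulAut.conj P).injective
  rw [Subgroup.map_inf _ _ _ hinj, ← subfield_eq_map, omega_scaled hζ, Subgroup.map_map] at h2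
  have e : (MulAut.conj P).toMonoidHom.comp (MulAut.conj P⁻¹).toMonoidHom = MonoidHom.id _ := by
    apply MonoidHom.ext
    intro m
    change P * (P⁻¹ * m * P⁻¹⁻¹) * P⁻¹ = m
    group
  rwa [e, Subgroup.map_id] at h2

end Transfer

end Cfsg.Agent.Lib.SubfieldOm
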