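import Cfsg.Agent.Lib.SubfieldBase
import Cfsg.Agent.Lib.FixCount

/-! The subfield subgroups of `SL_n(F)` of prime degree are maximal. -/

set_option autoImplicit false
set_option linter.unusedSectionVars false
set_option linter.unusedSimpArgs false
set_option linter.unusedVariables false

open scoped MatrixGroups Matrix
open Cfsg Cfsg.Geo
open Cfsg.Agent.Lib.Transvection Cfsg.Agent.Lib.LinAlgAux Cfsg.Agent.Lib.SubfieldGroup
  Cfsg.Agent.Lib.SubfieldBase Cfsg.Agent.Lib.FixCount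

namespace Cfsg.Agent.Lib.SubfieldSL

variable {ι : Type} [Fintype ι] [DecidableEq ι] {F : Type*} [Field F] {F₀ : Subfield F}
  {M : Subgroup (GL ι F)}

/-- The rational root elements in `M` have rational scalars. -/
def NoS (F₀ : Subfield F) (M : Subgroup (GL ι F)) : Prop :=
  ∀ (l : F) (a w : ι → F₀) (h : a ⬝ᵥ w = 0), a ≠ 0 → w ≠ 0 → T F₀ l a w h ∈ M → l ∈ F₀

section

variable (hn : 3 ≤ Fintype.card ι) (hS : NoS F₀ M) (hR : RatIn F₀ M)
include hn hS hR

theorem nr {ψ : (ι → F) →ₗ[F] F} {y : ι → F₀} (hψ : ψ (emb F₀ y) = 0) (hy : y ≠ 0)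
    (hT : tv ψ (emb F₀ y) hψ ∈ M) (z : ι → F₀) : ψ (emb F₀ z) ∈ F₀ := by
  obtain ⟨γ, hγ0, h1, h2⟩ := exists_dot_zero2 hn y z
  have h1' : γ ⬝ᵥ y = 0 := by rwa [dotProduct_comm]
  have h2' : γ ⬝ᵥ z = 0 := by rwa [dotProduct_comm]
  have h3 := comm_mem (φ := ψ) (w := emb F₀ y) (ψ := dq F₀ γ) (v := emb F₀ z) (h := hψ)
    (h' := dq_zero F₀ h2') (dq_zero F₀ h1') hT (hR γ z h2')
  rw [T_eq_center F₀ h1'] at h3
  exact hS _ γ y h1' hγ0 hy h3

theorem nrs {a : ι → F₀} (ha : a ≠ 0) {x : ι → F} (hx : dq F₀ a x = 0)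
    (hT : tv (dq F₀ a) x hx ∈ M) : IsRat F₀ x := by
  intro i
  obtain ⟨z, hz0, h1, h2⟩ := exists_dot_zero2 hn a (Pi.single i 1)
  have h3 := comm_mem (φ := dq F₀ (Pi.single i 1)) (w := emb F₀ z) (ψ := dq F₀ a) (v := x)
    (h := dq_zero F₀ h2) (h' := hx) (dq_zero F₀ h1) (hR _ z h2) hT
  rw [T_eq_center F₀ h1] at h3
  have := hS _ a z h1 ha hz0 h3
  rwa [dq_single] at this

/-- An element of `M` fixing a rational line is rational up to a scalar. -/
theorem stab_rat {m : GL ι F} (hm : m ∈ M) {y : ι → F₀} (hy : y ≠ 0) {c : F}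
    (hc : (m : Matrix ι ι F) *ᵥ emb F₀ y = c • emb F₀ y) (u : ι → F₀) :
    c ≠ 0 ∧ IsRat F₀ (c⁻¹ • ((m : Matrix ι ι F) *ᵥ emb F₀ u)) := by
  have hc0 : c ≠ 0 := by
    rintro rfl
    rw [zero_smul] at hc
    have h1 := congrArg (fun z => ((m⁻¹ : GL ι F) : Matrix ι ι F) *ᵥ z) hc
    simp only [gl_inv_mulVec_mulVec, Matrix.mulVec_zero] at h1
    exact hy (emb_eq_zero F₀ h1)
  refine ⟨hc0, ?_⟩
  obtain ⟨α, hα0, h1, h2⟩ := exists_dot_zero2 hn y u
  have h1' : α ⬝ᵥ y = 0 := by rwa [dotProduct_comm]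
  have h2' : α ⬝ᵥ u = 0 := by rwa [dotProduct_comm]
  set φ : (ι → F) →ₗ[F] F := dq F₀ α ∘ₗ glLin m⁻¹ with hφ
  have hconj : ∀ {v : ι → F₀} (hv : α ⬝ᵥ v = 0), φ ((m : Matrix ι ι F) *ᵥ emb F₀ v) = 0 := by
    intro v hv
    simp [hφ, dq_zero F₀ hv]
  have hmem : ∀ {v : ι → F₀} (hv : α ⬝ᵥ v = 0),
      tv φ ((m : Matrix ι ι F) *ᵥ emb F₀ v) (hconj hv) ∈ M := by
    intro v hv
    have := M.mul_mem (M.mul_mem hm (hR α v hv)) (M.inv_mem hm)
    rw [conj_tv] at this
    exact this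
  have h3 : (c • φ) (emb F₀ y) = 0 := by
    have := hconj h1'
    rw [hc, map_smul] at this
    rw [LinearMap.smul_apply]
    have h4 : φ (emb F₀ y) = 0 := by
      simpa [hc0] using this
    rw [h4, smul_zero]
  have h4 : tv (c • φ) (emb F₀ y) h3 ∈ M := by
    have := hmem h1'
    convert this using 1
    apply gl_ext_mulVec
    intro x
    simp only [tv_mulVec, LinearMap.smul_apply, hc, smul_smul, smul_eq_mul]
    rw [mul_comm]
  have h5 := nr hn hS hR h3 hy h4
  obtain ⟨b, hb⟩ := exists_row_of_rat F₀ h5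
  have hb0 : b ≠ 0 := by
    rintro rfl
    have h6 : c • φ = 0 := by
      rw [hb]
      apply LinearMap.ext
      intro x
      simp [dotProduct]
    have h7 : φ = 0 := by
      have := congrArg (fun f => c⁻¹ • f) h6
      simpa [smul_smul, hc0] using this
    apply hα0
    ext i
    have h8 := LinearMap.congr_fun h7 ((m : Matrix ι ι F) *ᵥ Pi.single i 1)
    simp only [hφ, LinearMap.comp_apply, glLin_apply, gl_inv_mulVec_mulVec, LinearMap.zero_apply,
      dl_apply] at h8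
    simpa [dotProduct, Pi.single_apply] using h8
  have hφb : φ = c⁻¹ • dq F₀ b := by
    rw [← hb, smul_smul, inv_mul_cancel₀ hc0, one_smul]
  have h6 : dq F₀ b (c⁻¹ • ((m : Matrix ι ι F) *ᵥ emb F₀ u)) = 0 := by
    rw [map_smul, ← hb, LinearMap.smul_apply, hconj h2']
    simp
  have h7 : tv (dq F₀ b) (c⁻¹ • ((m : Matrix ι ι F) *ᵥ emb F₀ u)) h6 ∈ M := by
    have := hmem h2'
    convert this using 1
    apply gl_ext_mulVec
    intro x
    simp only [tv_mulVec, hφb, LinearMap.smul_apply, smul_smul, smul_eq_mul]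
    congr 2
    ring
  exact nrs hn hS hR hb0 h6 h7

/-- If `x` is killed by a non-zero rational functional, it is rational up to a scalar. -/
theorem caseD {x : ι → F} {ψ : (ι → F) →ₗ[F] F} (hψ : ψ x = 0) (hT : tv ψ x hψ ∈ M) (hψ0 : ψ ≠ 0)
    {a : ι → F₀} (ha : a ≠ 0) (hax : dq F₀ a x = 0)
    (hx : ∀ c : F, c ≠ 0 → ¬ IsRat F₀ (c • x)) : False := by
  have step1 : ∀ w : ι → F₀, a ⬝ᵥ w = 0 → ψ (emb F₀ w) = 0 := by
    intro w hw
    have h1 := comm_mem (φ := ψ) (w := x) (ψ := dq F₀ a) (v := emb F₀ w) (h := hψ)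
      (h' := dq_zero F₀ hw) hax hT (hR a w hw)
    have h2 := nrs hn hS hR ha (by simp [hax]) h1
    by_contra h3
    exact hx _ h3 h2
  -- `ψ` is a multiple of `a`
  obtain ⟨j, hj⟩ : ∃ j, a j ≠ 0 := by
    by_contra h
    push Not at h
    exact ha (funext h)
  set c : F := ψ (Pi.single j 1) / (a j : F) with hc
  have hjF : (a j : F) ≠ 0 := fun h => hj (Subtype.ext h)
  have h1 : ∀ i, ψ (Pi.single i 1) = c * (a i : F) := by
    intro i
    let b : ι → F₀ := Pi.single i 1 - (a i / a j) • Pi.single j 1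
    have hb : a ⬝ᵥ b = 0 := by
      simp only [b, dotProduct_sub, dotProduct_smul, dotProduct_single, mul_one, smul_eq_mul]
      field_simp
      ring
    have h2 := step1 b hb
    simp only [b, emb_sub, emb_smul, emb_single, map_sub, map_smul, smul_eq_mul] at h2
    rw [hc]
    have h3 : ((a i / a j : F₀) : F) = (a i : F) / (a j : F) := by simp
    rw [h3] at h2
    field_simp at h2 ⊢
    linear_combination h2
  have hψc : ψ = c • dq F₀ a := by
    apply LinearMap.ext
    intro v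
    rw [← rowOf_dotProduct ψ v]
    simp only [LinearMap.smul_apply, dl_apply, smul_eq_mul, dotProduct, rowOf, Finset.mul_sum, emb_apply]
    refine Finset.sum_congr rfl fun i _ => ?_
    rw [h1 i]
    ring
  have hc0 : c ≠ 0 := by
    intro h0
    apply hψ0
    rw [hψc, h0, zero_smul]
  have h6 : dq F₀ a (c • x) = 0 := by
    rw [map_smul, hax, smul_zero]
  have h7 : tv (dq F₀ a) (c • x) h6 ∈ M := by
    convert hT using 1
    apply gl_ext_mulVec
    intro v
    simp only [tv_mulVec, hψc, LinearMap.smul_apply, smul_smul, smul_eq_mul]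
    congr 2
    ring
  exact hx c hc0 (nrs hn hS hR ha h6 h7)

end

/-- An element of `M` acting trivially modulo a plane through a rational line and generic `x`, and fixing
the rational line, is a rational transvection. -/
theorem stab_plane (hn : 4 ≤ Fintype.card ι) (hS : NoS F₀ M) (hR : RatIn F₀ M)
    (hdet : ∀ m ∈ M, (m : Matrix ι ι F).det = 1) {x : ι → F}
    (hgen : ∀ a : ι → F₀, a ≠ 0 → dq F₀ a x ≠ 0) {y : ι → F₀} (hy : y ≠ 0) {m : GL ι F} (hm : m ∈ M)
    (hD : ∀ v : ι → F, ∃ s t : F, (m : Matrix ι ι F) *ᵥ v = v + s • x + t • emb F₀ y) {c : F}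
    (hc : (m : Matrix ι ι F) *ᵥ emb F₀ y = c • emb F₀ y) :
    ∃ (b : ι → F₀) (h : b ⬝ᵥ y = 0), m = tv (dq F₀ b) (emb F₀ y) (dq_zero F₀ h) := by
  have hn3 : 3 ≤ Fintype.card ι := by omega
  have step1 : ∀ u : ι → F₀, ∃ t : F, (m : Matrix ι ι F) *ᵥ emb F₀ u = emb F₀ u + t • emb F₀ y := by
    intro u
    obtain ⟨hc0, hr⟩ := stab_rat hn3 hS hR hm hy hc u
    obtain ⟨w, hw⟩ := hr.exists_emb
    have hmu : (m : Matrix ι ι F) *ᵥ emb F₀ u = c • emb F₀ w := by
      rw [hw, smul_smul, mul_inv_cancel₀ hc0, one_smul]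
    obtain ⟨s, t, hst⟩ := hD (emb F₀ u)
    obtain ⟨κ, hκ0, h1, h2, h3⟩ := exists_dot_zero3 hn y w u
    have h1' : κ ⬝ᵥ y = 0 := by rwa [dotProduct_comm]
    have h2' : κ ⬝ᵥ w = 0 := by rwa [dotProduct_comm]
    have h3' : κ ⬝ᵥ u = 0 := by rwa [dotProduct_comm]
    have h4 := congrArg (dq F₀ κ) hst
    rw [hmu, map_smul, dq_zero F₀ h2', map_add, map_add, map_smul, map_smul, dq_zero F₀ h3',
      dq_zero F₀ h1'] at h4
    simp only [smul_zero, zero_add, add_zero, smul_eq_mul, mul_zero] at h4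
    have hs : s = 0 := (mul_eq_zero.1 h4.symm).resolve_right (hgen κ hκ0)
    exact ⟨t, by rw [hst, hs]; simp⟩
  choose t ht using fun i : ι => step1 (Pi.single i 1)
  have hβ : ∀ v : ι → F, (m : Matrix ι ι F) *ᵥ v = v + dl t v • emb F₀ y := by
    intro v
    have h1 : glLin m = LinearMap.id + (dl t).smulRight (emb F₀ y) := by
      apply LinearMap.pi_ext'
      intro i
      apply LinearMap.ext_ring
      have h2 := ht i
      rw [emb_single] at h2
      simp only [LinearMap.comp_apply, LinearMap.single_apply, glLin_apply, h2,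
        LinearMap.add_apply, LinearMap.id_apply, LinearMap.smulRight_apply, dl_apply]
      simp [dotProduct, Pi.single_apply]
    have h3 := LinearMap.congr_fun h1 v
    simpa using h3
  have hmat : (m : Matrix ι ι F) = tvMat (dl t) (emb F₀ y) := by
    apply matrix_ext_mulVec
    intro v
    rw [hβ, tvMat_mulVec]
  have hβy : dl t (emb F₀ y) = 0 := by
    have h1 := hdet m hm
    rw [hmat, tvMat_det_general] at h1
    simpa using h1
  have hmtv : m = tv (dl t) (emb F₀ y) hβy := by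
    apply gl_ext_mulVec
    intro v
    rw [hβ, tv_mulVec]
  have h2 : ∀ z : ι → F₀, dl t (emb F₀ z) ∈ F₀ :=
    nr hn3 hS hR hβy hy (hmtv ▸ hm)
  obtain ⟨b, hb⟩ := exists_row_of_rat F₀ h2
  have hby : b ⬝ᵥ y = 0 := by
    rw [hb, dq_emb] at hβy
    exact Subtype.ext hβy
  refine ⟨b, hby, ?_⟩
  rw [hmtv]
  exact tv_congr hb rfl

/-- The plane argument. -/
theorem plane_contra [Finite F] (hn : 4 ≤ Fintype.card ι) (hS : NoS F₀ M) (hR : RatIn F₀ M)
    (hdet : ∀ m ∈ M, (m : Matrix ι ι F).det = 1) {x : ι → F}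
    (hgen : ∀ a : ι → F₀, a ≠ 0 → dq F₀ a x ≠ 0) {y : ι → F₀} (hy : y ≠ 0)
    {ψ : (ι → F) →ₗ[F] F} (hψ : ψ x = 0) (hT : tv ψ x hψ ∈ M) (hψy : ψ (emb F₀ y) ≠ 0) : False := by
  classical
  have hn2 : 2 ≤ Fintype.card ι := by omega
  have hn3 : 3 ≤ Fintype.card ι := by omega
  set y₀ : ι → F := emb F₀ y with hy₀
  have hy₀0 : y₀ ≠ 0 := fun h => hy (emb_eq_zero F₀ h)
  -- independence
  obtain ⟨κ, hκ0, hκ⟩ := exists_dot_zero1 hn2 y
  have hκ' : κ ⬝ᵥ y = 0 := by rwa [dotProduct_comm]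
  have hκy : dq F₀ κ y₀ = 0 := dq_zero F₀ hκ'
  have hκx := hgen κ hκ0
  have h1 : x ∉ Submodule.span F {y₀} := by
    intro h
    obtain ⟨t, rfl⟩ := Submodule.mem_span_singleton.1 h
    apply hκx
    rw [map_smul, hκy, smul_zero]
  have h2 : y₀ ∉ Submodule.span F {x} := by
    intro h
    obtain ⟨t, ht⟩ := Submodule.mem_span_singleton.1 h
    have h3 := congrArg (dq F₀ κ) ht
    rw [map_smul, hκy, smul_eq_mul] at h3
    have ht0 : t = 0 := (mul_eq_zero.1 h3).resolve_right hκx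
    apply hy₀0
    rw [← ht, ht0, zero_smul]
  obtain ⟨p₁, hp1x, hp1y⟩ := exists_functional_of_not_mem_span h1
  obtain ⟨p₂, hp2y, hp2x⟩ := exists_functional_of_not_mem_span h2
  -- the group
  let G : Subgroup (GL ι F) :=
    { carrier := {m | m ∈ M ∧ ∀ v : ι → F, ∃ s t : F, (m : Matrix ι ι F) *ᵥ v = v + s • x + t • y₀}
      one_mem' := ⟨M.one_mem, fun v => ⟨0, 0, by simp⟩⟩
      mul_mem' := by
        rintro a b ⟨ha, hab⟩ ⟨hb, hbb⟩
        refine ⟨M.mul_mem ha hb, fun v => ?_⟩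
        obtain ⟨s, t, h3⟩ := hbb v
        obtain ⟨s', t', h4⟩ := hab ((b : Matrix ι ι F) *ᵥ v)
        refine ⟨s + s', t + t', ?_⟩
        rw [gl_mul_mulVec, h4, h3]
        module
      inv_mem' := by
        rintro a ⟨ha, hab⟩
        refine ⟨M.inv_mem ha, fun v => ?_⟩
        obtain ⟨s, t, h3⟩ := hab (((a⁻¹ : GL ι F) : Matrix ι ι F) *ᵥ v)
        rw [gl_mulVec_inv_mulVec] at h3
        refine ⟨-s, -t, ?_⟩
        linear_combination (norm := module) -h3 }
  haveI : Finite (GL ι F) := by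
    haveI : Finite (Matrix ι ι F) := inferInstanceAs (Finite (ι → ι → F))
    infer_instance
  haveI : Finite G := inferInstance
  -- the entries
  have hcoord : ∀ m : G, ∀ v : ι → F, (∃ s t : F, v = s • x + t • y₀) → v = p₁ v • x + p₂ v • y₀ := by
    rintro m v ⟨s, t, rfl⟩
    simp [hp1x, hp1y, hp2x, hp2y]
  have hmx : ∀ m : G, ((m : GL ι F) : Matrix ι ι F) *ᵥ x =
      p₁ (((m : GL ι F) : Matrix ι ι F) *ᵥ x) • x + p₂ (((m : GL ι F) : Matrix ι ι F) *ᵥ x) • y₀ := by
    intro m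
    refine hcoord m _ ?_
    obtain ⟨s, t, h3⟩ := m.2.2 x
    exact ⟨1 + s, t, by rw [h3]; module⟩
  have hmy : ∀ m : G, ((m : GL ι F) : Matrix ι ι F) *ᵥ y₀ =
      p₁ (((m : GL ι F) : Matrix ι ι F) *ᵥ y₀) • x + p₂ (((m : GL ι F) : Matrix ι ι F) *ᵥ y₀) • y₀ := by
    intro m
    refine hcoord m _ ?_
    obtain ⟨s, t, h3⟩ := m.2.2 y₀
    exact ⟨s, 1 + t, by rw [h3]; module⟩
  -- the representation
  let K := AlgebraicClosure F
  let inc : F →+* K := algebraMap F K
  have hinc : Function.Injective inc := inc.injective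
  let A : G → F := fun m => p₁ (((m : GL ι F) : Matrix ι ι F) *ᵥ x)
  let B : G → F := fun m => p₂ (((m : GL ι F) : Matrix ι ι F) *ᵥ x)
  let C : G → F := fun m => p₁ (((m : GL ι F) : Matrix ι ι F) *ᵥ y₀)
  let D : G → F := fun m => p₂ (((m : GL ι F) : Matrix ι ι F) *ᵥ y₀)
  have hmulx : ∀ m m' : G, ((m * m' : G) : GL ι F).1 *ᵥ x =
      (A m' * A m + B m' * C m) • x + (A m' * B m + B m' * D m) • y₀ := by
    intro m m'
    have e1 : ((m * m' : G) : GL ι F).1 *ᵥ x =
        ((m : GL ι F) : Matrix ι ι F) *ᵥ (((m' : GL ι F) : Matrix ι ι F) *ᵥ x) :=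
      gl_mul_mulVec _ _ _
    rw [e1, hmx m', Matrix.mulVec_add, Matrix.mulVec_smul, Matrix.mulVec_smul, hmx m, hmy m]
    change A m' • (A m • x + B m • y₀) + B m' • (C m • x + D m • y₀) = _
    module
  have hmuly : ∀ m m' : G, ((m * m' : G) : GL ι F).1 *ᵥ y₀ =
      (C m' * A m + D m' * C m) • x + (C m' * B m + D m' * D m) • y₀ := by
    intro m m'
    have e1 : ((m * m' : G) : GL ι F).1 *ᵥ y₀ =
        ((m : GL ι F) : Matrix ι ι F) *ᵥ (((m' : GL ι F) : Matrix ι ι F) *ᵥ y₀) :=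
      gl_mul_mulVec _ _ _
    rw [e1, hmy m', Matrix.mulVec_add, Matrix.mulVec_smul, Matrix.mulVec_smul, hmx m, hmy m]
    change C m' • (A m • x + B m • y₀) + D m' • (C m • x + D m • y₀) = _
    module
  let mat : G → Module.End K (K × K) := fun m =>
    ((inc (A m) • LinearMap.fst K K K + inc (C m) • LinearMap.snd K K K).prod
      (inc (B m) • LinearMap.fst K K K + inc (D m) • LinearMap.snd K K K))
  have hmat : ∀ m s t, mat m (s, t) = (inc (A m) * s + inc (C m) * t, inc (B m) * s + inc (D m) * t) := by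
    intro m s t
    simp [mat]
  have hA : ∀ m m' : G, A (m * m') = A m' * A m + B m' * C m := by
    intro m m'
    change p₁ (((m * m' : G) : GL ι F).1 *ᵥ x) = _
    rw [hmulx]
    simp [hp1x, hp1y]
  have hB : ∀ m m' : G, B (m * m') = A m' * B m + B m' * D m := by
    intro m m'
    change p₂ (((m * m' : G) : GL ι F).1 *ᵥ x) = _
    rw [hmulx]
    simp [hp2x, hp2y]
  have hC : ∀ m m' : G, C (m * m') = C m' * A m + D m' * C m := by
    intro m m'
    change p₁ (((m * m' : G) : GL ι F).1 *ᵥ y₀) = _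
    rw [hmuly]
    simp [hp1x, hp1y]
  have hD : ∀ m m' : G, D (m * m') = C m' * B m + D m' * D m := by
    intro m m'
    change p₂ (((m * m' : G) : GL ι F).1 *ᵥ y₀) = _
    rw [hmuly]
    simp [hp2x, hp2y]
  let ρ : G →* Module.End K (K × K) :=
    { toFun := mat
      map_one' := by
        apply LinearMap.ext
        rintro ⟨s, t⟩
        rw [hmat]
        have e1 : A 1 = 1 := by
          change p₁ (((1 : GL ι F) : Matrix ι ι F) *ᵥ x) = 1
          simp [hp1x]
        have e2 : B 1 = 0 := by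
          change p₂ (((1 : GL ι F) : Matrix ι ι F) *ᵥ x) = 0
          simp [hp2x]
        have e3 : C 1 = 0 := by
          change p₁ (((1 : GL ι F) : Matrix ι ι F) *ᵥ y₀) = 0
          simp [hp1y]
        have e4 : D 1 = 1 := by
          change p₂ (((1 : GL ι F) : Matrix ι ι F) *ᵥ y₀) = 1
          simp [hp2y]
        rw [e1, e2, e3, e4]
        simp
      map_mul' := by
        intro m m'
        apply LinearMap.ext
        rintro ⟨s, t⟩
        rw [Module.End.mul_apply, hmat, hmat, hmat, hA, hB, hC, hD]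
        simp only [map_add, map_mul]
        apply Prod.ext
        · simp only
          ring
        · simp only
          ring }
  have hρ : ∀ m s t, ρ m (s, t) = (inc (A m) * s + inc (C m) * t, inc (B m) * s + inc (D m) * t) :=
    hmat
  -- elements of the stabiliser
  have hEmem : ∀ (b : ι → F₀) (h : b ⬝ᵥ y = 0),
      tv (dq F₀ b) (emb F₀ y) (dq_zero F₀ h) ∈ G := by
    intro b h
    refine ⟨hR b y h, fun v => ⟨0, dq F₀ b v, ?_⟩⟩
    rw [tv_mulVec]
    simp [hy₀]
  have hE : ∀ (b : ι → F₀) (h : b ⬝ᵥ y = 0) (s t : K),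
      ρ ⟨_, hEmem b h⟩ (s, t) = (1 : K) • ((s, t + inc (dq F₀ b x) * s) : K × K) := by
    intro b h s t
    rw [hρ]
    have e1 : A ⟨_, hEmem b h⟩ = 1 := by
      change p₁ (((tv (dq F₀ b) (emb F₀ y) (dq_zero F₀ h) : GL ι F) : Matrix ι ι F) *ᵥ x) = 1
      rw [tv_mulVec, map_add, map_smul, hp1x, ← hy₀, hp1y]
      simp
    have e2 : B ⟨_, hEmem b h⟩ = dq F₀ b x := by
      change p₂ (((tv (dq F₀ b) (emb F₀ y) (dq_zero F₀ h) : GL ι F) : Matrix ι ι F) *ᵥ x) = _
      rw [tv_mulVec, map_add, map_smul, hp2x, ← hy₀, hp2y]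
      simp
    have e3 : C ⟨_, hEmem b h⟩ = 0 := by
      change p₁ (((tv (dq F₀ b) (emb F₀ y) (dq_zero F₀ h) : GL ι F) : Matrix ι ι F) *ᵥ y₀) = 0
      rw [tv_mulVec, map_add, map_smul, hy₀, dq_zero F₀ h, ← hy₀, hp1y]
      simp
    have e4 : D ⟨_, hEmem b h⟩ = 1 := by
      change p₂ (((tv (dq F₀ b) (emb F₀ y) (dq_zero F₀ h) : GL ι F) : Matrix ι ι F) *ᵥ y₀) = 1
      rw [tv_mulVec, map_add, map_smul, hy₀, dq_zero F₀ h, ← hy₀, hp2y]
      simp
    rw [e1, e2, e3, e4]
    simp only [map_one, map_zero, one_mul, zero_mul, add_zero, one_smul]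
    apply Prod.ext
    · rfl
    · simp only
      ring
  have hstab : ∀ (g : G) (μ : K), ρ g (0, 1) = μ • ((0, 1) : K × K) →
      ∃ c b : K, ∀ s t : K, ρ g (s, t) = c • ((s, t + b * s) : K × K) := by
    intro g μ h
    rw [hρ] at h
    have h3 := congrArg Prod.fst h
    have h4 := congrArg Prod.snd h
    simp only [Prod.smul_fst, Prod.smul_snd, smul_eq_mul, mul_zero, mul_one, add_zero, zero_add] at h3 h4
    have hC0 : C g = 0 := hinc (by rw [h3, map_zero])
    have hgy := hmy g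
    have h5 : ((g : GL ι F) : Matrix ι ι F) *ᵥ emb F₀ y = D g • emb F₀ y := by
      rw [← hy₀, hgy]
      change C g • x + D g • y₀ = _
      rw [hC0]
      simp
    obtain ⟨b, hb, hgb⟩ := stab_plane hn hS hR hdet hgen hy g.2.1 g.2.2 h5
    have hg' : g = ⟨_, hEmem b hb⟩ := Subtype.ext hgb
    rw [hg']
    exact ⟨1, inc (dq F₀ b x), hE b hb⟩
  -- two independent functionals
  obtain ⟨α₁, hα₁0, hα₁⟩ := exists_dot_zero1 hn2 y
  have hα₁' : α₁ ⬝ᵥ y = 0 := by rwa [dotProduct_comm]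
  obtain ⟨u, hu⟩ := exists_dot_one hα₁0
  have hu' : α₁ ⬝ᵥ u = 1 := by rwa [dotProduct_comm]
  obtain ⟨α₂, hα₂0, h3, h4⟩ := exists_dot_zero2 hn3 y u
  have hα₂' : α₂ ⬝ᵥ y = 0 := by rwa [dotProduct_comm]
  have hα₂u : α₂ ⬝ᵥ u = 0 := by rwa [dotProduct_comm]
  have hfun : ∀ a a' : ι → F₀, dq F₀ (a + a') x = dq F₀ a x + dq F₀ a' x := by
    intro a a'
    simp [add_dotProduct]
  have hb₁ : inc (dq F₀ α₁ x) ≠ 0 := by
    rw [Ne, map_eq_zero]
    exact hgen _ hα₁0
  have hb₂ : inc (dq F₀ α₂ x) ≠ 0 := by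
    rw [Ne, map_eq_zero]
    exact hgen _ hα₂0
  have hb₁₂ : inc (dq F₀ α₁ x) ≠ inc (dq F₀ α₂ x) := by
    intro h5
    have h6 := hinc h5
    have h7 : α₁ + (-1 : F₀) • α₂ ≠ 0 := by
      intro h8
      have := congrArg (fun v => v ⬝ᵥ u) h8
      simp [add_dotProduct, smul_dotProduct, hu', hα₂u] at this
    apply hgen _ h7
    rw [hfun]
    have : dq F₀ ((-1 : F₀) • α₂) x = - dq F₀ α₂ x := by
      simp [smul_dotProduct]
    rw [this, h6]
    ring
  have hs : inc (dq F₀ α₁ x) + inc (dq F₀ α₂ x) ≠ 0 := by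
    rw [← map_add, Ne, map_eq_zero, ← hfun]
    apply hgen
    intro h8
    have := congrArg (fun v => v ⬝ᵥ u) h8
    simp [add_dotProduct, hu', hα₂u] at this
  have key := plane_fix ρ hstab (hE α₁ hα₁') (hE α₂ hα₂') hb₁ hb₂ hb₁₂ hs
  -- the element `T`
  have hTG : tv ψ x hψ ∈ G := by
    refine ⟨hT, fun v => ⟨ψ v, 0, ?_⟩⟩
    rw [tv_mulVec]
    simp
  obtain ⟨μ, hμ⟩ := key ⟨_, hTG⟩
  rw [hρ] at hμ
  have h5 := congrArg Prod.fst hμ
  simp only [Prod.smul_fst, smul_eq_mul, mul_zero, mul_one, add_zero, zero_add] at h5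
  have hC0 : C ⟨_, hTG⟩ = 0 := hinc (by rw [h5, map_zero])
  have h6 : C ⟨_, hTG⟩ = ψ (emb F₀ y) := by
    change p₁ (((tv ψ x hψ : GL ι F) : Matrix ι ι F) *ᵥ y₀) = _
    rw [tv_mulVec, map_add, map_smul, hp1y, hp1x]
    simp [hy₀]
  exact hψy (h6 ▸ hC0)

/-- Rational transvections lie in the subfield group. -/
theorem ratIn_subfield : RatIn F₀ (subfieldSubgroup F₀ 1 ⊓ specialLinear ι F) := by
  intro b z h
  refine Subgroup.mem_inf.2 ⟨?_, tv_mem_specialLinear _ _ _⟩
  rw [mem_subfield_one_iff]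
  refine ⟨1, one_ne_zero, fun u => ?_⟩
  rw [tv_mulVec, one_smul, dq_emb]
  intro i
  simp only [Pi.add_apply, Pi.smul_apply, smul_eq_mul, emb_apply]
  exact F₀.add_mem (u i).2 (F₀.mul_mem (Subtype.property _) (z i).2)

/-- The scalars of the rational root elements of a subgroup form a field. -/
theorem top_of_not_noS [Fintype F] (hn : 3 ≤ Fintype.card ι) {r : ℕ} (hr : r.Prime)
    (hcard : Fintype.card F = Nat.card F₀ ^ r) (hR : RatIn F₀ M) (h : ¬ NoS F₀ M) (t : F)
    (a w : ι → F₀) (haw : a ⬝ᵥ w = 0) : T F₀ t a w haw ∈ M := by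
  unfold NoS at h
  push Not at h
  obtain ⟨l, a₀, w₀, h₀, ha₀, hw₀, hT₀, hl⟩ := h
  have hall : ∀ a w h, T F₀ l a w h ∈ M := fun a w h => T_transit hR hn h₀ h ha₀ hw₀ hT₀
  let R : Subring F :=
    { carrier := {t | ∀ a w h, T F₀ t a w h ∈ M}
      mul_mem' := fun hx hy a w h => T_mul hR hn hx hy a w h
      one_mem' := fun a w h => T_rat hR F₀.one_mem h
      add_mem' := by
        intro x y hx hy a w h
        rw [← T_add]
        exact M.mul_mem (hx a w h) (hy a w h)
      zero_mem' := fun a w h => T_rat hR F₀.zero_mem h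
      neg_mem' := by
        intro x hx a w h
        rw [← T_inv]
        exact M.inv_mem (hx a w h) }
  let S : Subfield F :=
    { R with
      inv_mem' := by
        intro x hx
        by_cases hx0 : x = 0
        · rw [hx0, inv_zero]
          exact R.zero_mem
        have h1 : x⁻¹ = x ^ (Fintype.card F - 2) := by
          have h2 := FiniteField.pow_card_sub_one_eq_one x hx0
          have h3 : 2 ≤ Fintype.card F := Fintype.one_lt_card
          have h4 : Fintype.card F - 1 = (Fintype.card F - 2) + 1 := by omega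
          rw [h4, pow_succ] at h2
          field_simp
          rw [mul_comm]
          exact h2.symm
        rw [h1]
        exact R.pow_mem hx _ }
  have hS : F₀ ≤ S := fun x hx a w h => T_rat hR hx h
  have hlS : l ∈ S := hall
  rcases subfield_prime F₀ hr hcard S hS with h1 | h1
  · exact absurd (h1 ▸ hlS) hl
  · have : t ∈ S := by
      rw [h1]
      trivial
    exact this a w haw

/-- The main theorem for `P = 1`. -/
theorem subfieldSL_one [Fintype F] (hn : 4 ≤ Fintype.card ι) {r : ℕ} (hr : r.Prime)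
    (hcard : Fintype.card F = Nat.card F₀ ^ r) :
    IsMaximalIn (specialLinear ι F) (subfieldSubgroup F₀ 1 ⊓ specialLinear ι F) := by
  classical
  have hn3 : 3 ≤ Fintype.card ι := by omega
  haveI : Nonempty ι := Fintype.card_pos_iff.1 (by omega)
  set H := subfieldSubgroup F₀ 1 ⊓ specialLinear ι F with hH
  have hRH : RatIn F₀ H := ratIn_subfield
  refine ⟨lt_of_le_of_ne inf_le_right ?_, fun M h1 h2 => ?_⟩
  · -- properness
    intro heq
    have hF0 : ∃ l : F, l ∉ F₀ := by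
      by_contra hall
      push Not at hall
      have h3 : Function.Surjective (fun x : F₀ => (x : F)) := fun x => ⟨⟨x, hall x⟩, rfl⟩
      have h4 : Fintype.card F ≤ Nat.card F₀ := by
        rw [← Nat.card_eq_fintype_card]
        exact Nat.card_le_card_of_surjective _ h3
      rw [hcard] at h4
      have h5 : 1 < Nat.card F₀ := Finite.one_lt_card
      have h6 : Nat.card F₀ ^ 1 < Nat.card F₀ ^ r := Nat.pow_lt_pow_right h5 hr.one_lt
      rw [pow_one] at h6
      omega
    obtain ⟨l, hl⟩ := hF0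
    obtain ⟨i, j, k, hij, hik, hjk⟩ : ∃ i j k : ι, i ≠ j ∧ i ≠ k ∧ j ≠ k := by
      have := Fintype.two_lt_card_iff.1 (by omega : 2 < Fintype.card ι)
      obtain ⟨a, b, c, h1, h2, h3⟩ := this
      exact ⟨a, b, c, h1, h2, h3⟩
    have hji : (Pi.single j (1 : F₀) : ι → F₀) ⬝ᵥ (Pi.single i (1 : F₀) : ι → F₀) = 0 := by
      simp [hij]
    have hmem : T F₀ l _ _ hji ∈ H := by
      rw [heq]
      exact tv_mem_specialLinear _ _ _
    obtain ⟨c, hc0, hc⟩ := (mem_subfield_one_iff F₀).1 (Subgroup.mem_inf.1 hmem).1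
    have h3 := hc (Pi.single k 1) k
    have h4 := hc (Pi.single j 1) i
    simp only [emb_single, T_mulVec, dq_single, Pi.smul_apply, Pi.add_apply, smul_eq_mul,
      Pi.single_eq_same, Pi.single_eq_of_ne hjk.symm, mul_zero, zero_smul, add_zero, mul_one,
      Pi.single_eq_of_ne hij, zero_add] at h3 h4
    simp only [Pi.single_eq_of_ne hik.symm, mul_zero, add_zero, mul_one] at h3
    apply hl
    have h5 : l = c⁻¹ * (c * l) := by
      field_simp
    rw [h5]
    exact F₀.mul_mem (F₀.inv_mem h3) h4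
  · have hR : RatIn F₀ M := fun b z h => h1 (hRH b z h)
    have hdet : ∀ m ∈ M, (m : Matrix ι ι F).det = 1 := fun m hm => (mem_specialLinear_iff m).1 (h2 hm)
    by_cases hS : NoS F₀ M
    · left
      apply le_antisymm _ h1
      intro g hg
      refine Subgroup.mem_inf.2 ⟨?_, h2 hg⟩
      by_contra hgn
      obtain ⟨u, hu⟩ := exists_nonrat_line F₀ hgn
      have hu0 : u ≠ 0 := by
        rintro rfl
        apply hu 1 one_ne_zero
        intro i
        simp [F₀.zero_mem]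
      obtain ⟨ψ₀, hψ₀0, hψ₀⟩ := exists_dot_zero1 (by omega) u
      have hψ₀' : ψ₀ ⬝ᵥ u = 0 := by rwa [dotProduct_comm]
      set x : ι → F := (g : Matrix ι ι F) *ᵥ emb F₀ u with hx
      set ψ : (ι → F) →ₗ[F] F := dq F₀ ψ₀ ∘ₗ glLin g⁻¹ with hψdef
      have hψx : ψ x = 0 := by
        simp [hψdef, hx, dq_zero F₀ hψ₀']
      have hT : tv ψ x hψx ∈ M := by
        have := M.mul_mem (M.mul_mem hg (hR ψ₀ u hψ₀')) (M.inv_mem hg)
        rw [conj_tv] at this
        exact this
      have hψ0 : ψ ≠ 0 := by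
        intro h3
        apply hψ₀0
        ext i
        have h8 := LinearMap.congr_fun h3 ((g : Matrix ι ι F) *ᵥ Pi.single i 1)
        simp only [hψdef, LinearMap.comp_apply, glLin_apply, gl_inv_mulVec_mulVec, LinearMap.zero_apply,
          dl_apply] at h8
        simpa [dotProduct, Pi.single_apply] using h8
      by_cases hD : ∃ a : ι → F₀, a ≠ 0 ∧ dq F₀ a x = 0
      · obtain ⟨a, ha, hax⟩ := hD
        exact caseD hn3 hS hR hψx hT hψ0 ha hax hu
      · push Not at hD
        obtain ⟨i, hi⟩ : ∃ i, ψ (Pi.single i 1) ≠ 0 := by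
          by_contra hall
          push Not at hall
          apply hψ0
          apply LinearMap.pi_ext'
          intro i
          apply LinearMap.ext_ring
          simpa using hall i
        have hy0 : (Pi.single i 1 : ι → F₀) ≠ 0 := by
          intro h3
          have := congrFun h3 i
          simp at this
        exact plane_contra hn hS hR hdet hD hy0 hψx hT (by rwa [emb_single])
    · right
      apply le_antisymm h2
      apply specialLinear_le_of_elem
      intro i j hij c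
      have hji : (Pi.single j (1 : F₀) : ι → F₀) ⬝ᵥ (Pi.single i (1 : F₀) : ι → F₀) = 0 := by
        simp [hij]
      have := top_of_not_noS hn3 hr hcard hR hS c _ _ hji
      convert this using 1
      apply gl_ext_mulVec
      intro x
      rw [elem_mulVec, T_mulVec, dq_single, emb_single]

/-- The main theorem. -/
theorem subfieldSL_isMaximalIn [Fintype F] (hn : 4 ≤ Fintype.card ι) {r : ℕ} (hr : r.Prime)
    (hcard : Fintype.card F = Nat.card F₀ ^ r) (P : GL ι F) :
    IsMaximalIn (specialLinear ι F) (subfieldSubgroup F₀ P ⊓ specialLinear ι F) := by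
  have h := isMaximalIn_map_conj P (subfieldSL_one (F₀ := F₀) hn hr hcard)
  rw [specialLinear_map_conj, Subgroup.map_inf _ _ _ (MulAut.conj P).injective,
    specialLinear_map_conj, ← subfield_eq_map] at h
  exact h

end Cfsg.Agent.Lib.SubfieldSL
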