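import Cfsg.Agent.Lib.SubfieldBase
import Cfsg.Agent.Lib.FixCount
import Cfsg.Agent.Lib.UnitaryHerm

/-! The subfield subgroups of `SU(f)` of odd prime degree: rational structures, the key lemma. -/

set_option autoImplicit false
set_option linter.unusedSectionVars false
set_option linter.unusedSimpArgs false
set_option linter.unusedVariables false

open scoped MatrixGroups Matrix
open Cfsg Cfsg.Geo
open Cfsg.Agent.Lib.Transvection Cfsg.Agent.Lib.LinAlgAux Cfsg.Agent.Lib.SubfieldGroup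
  Cfsg.Agent.Lib.SubfieldBase Cfsg.Agent.Lib.FixCount Cfsg.Agent.Lib.UnitaryBase
  Cfsg.Agent.Lib.UnitaryGen
open Cfsg.Agent.Lib.SymplecticTv (IsIsom Ind Ind.ne_zero_left Ind.ne_zero_right)

namespace Cfsg.Agent.Lib.SubfieldSU

section Exists

variable {ι : Type} [Fintype ι] [DecidableEq ι] {k : Type*} [Field k] {τ : k ≃+* k}
  {g : (ι → k) → (ι → k) → k}

theorem ind_of_dual (hg : IsUnitaryForm τ g) {a b c : ι → k} (h1 : g a c ≠ 0) (h2 : g b c = 0)
    (hb : b ≠ 0) : Ind a b := by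
  intro s t h
  have h3 := congrArg (fun z => g z c) h
  simp only [hg.add_left, hg.smul_left, h2, mul_zero, add_zero, f_zero_left hg] at h3
  have hs : s = 0 := (mul_eq_zero.1 h3).resolve_right h1
  refine ⟨hs, ?_⟩
  rw [hs, zero_smul, zero_add] at h
  exact (smul_eq_zero.1 h).resolve_right hb

theorem ind_swap {a b : ι → k} (h : Ind a b) : Ind b a := by
  intro s t hst
  have := h t s (by rwa [add_comm])
  exact ⟨this.2, this.1⟩

/-- A hyperbolic pair orthogonal to given vectors. -/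
theorem exists_hyp_perp [Finite k] (hg : IsUnitaryForm τ g) (hN : ∀ c, τ c = c → ∃ l, l * τ l = c)
    {m : ℕ} (hm : 2 * m + 2 ≤ Fintype.card ι) (v : Fin m → ι → k) :
    ∃ e c : ι → k, g e c = 1 ∧ g e e = 0 ∧ g c c = 0 ∧ (∀ i, g e (v i) = 0) ∧ (∀ i, g c (v i) = 0) := by
  classical
  let S : Submodule k (ι → k) := Submodule.span k (Set.range v)
  let A : Matrix (Fin m) ι k := Matrix.of (fun i => rowOf (formL hg (v i)))
  let Kz : Submodule k (ι → k) := LinearMap.ker A.mulVecLin
  have hKz : ∀ z, z ∈ Kz ↔ ∀ i, g z (v i) = 0 := by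
    intro z
    simp only [Kz, LinearMap.mem_ker, Matrix.mulVecLin_apply]
    constructor
    · intro h i
      have := congrFun h i
      simp only [Matrix.mulVec, A, Matrix.of_apply, Pi.zero_apply] at this
      rwa [show (fun j => rowOf (formL hg (v i)) j) = rowOf (formL hg (v i)) from rfl, rowOf_dotProduct,
        formL_apply] at this
    · intro h
      ext i
      simp only [Matrix.mulVec, A, Matrix.of_apply, Pi.zero_apply]
      rw [show (fun j => rowOf (formL hg (v i)) j) = rowOf (formL hg (v i)) from rfl, rowOf_dotProduct,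
        formL_apply]
      exact h i
  have hS : Module.finrank k S ≤ m := by
    have h : Set.finrank k (Set.range v) ≤ m := by
      simpa using finrank_range_le_card (R := k) v
    exact h
  have hK : Fintype.card ι - m ≤ Module.finrank k Kz := by
    have h1 : _ + Module.finrank k Kz = _ := LinearMap.finrank_range_add_finrank_ker A.mulVecLin
    have h2 : Module.finrank k (LinearMap.range A.mulVecLin) ≤ m := by
      have := Submodule.finrank_le (LinearMap.range A.mulVecLin)
      simpa using this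
    have h3 : Module.finrank k (ι → k) = Fintype.card ι := by simp
    omega
  obtain ⟨T, hT⟩ := Submodule.exists_isCompl S
  have hTc : Module.finrank k S + Module.finrank k T = Fintype.card ι := by
    have := Submodule.finrank_add_eq_of_isCompl hT
    simpa using this
  have hY : 2 ≤ Module.finrank k (T ⊓ Kz : Submodule k (ι → k)) := by
    have h1 := Submodule.finrank_sup_add_finrank_inf_eq T Kz
    have h2 := Submodule.finrank_le (T ⊔ Kz)
    rw [Module.finrank_fintype_fun_eq_card] at h2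
    omega
  obtain ⟨e, heY, he0, hee⟩ := exists_iso_of_finrank hg hN hY
  have heS : e ∉ S := by
    intro h
    have : e ∈ S ⊓ T := ⟨h, heY.1⟩
    rw [hT.inf_eq_bot] at this
    exact he0 (by simpa using this)
  obtain ⟨φ, hφ1, hφ2⟩ := exists_functional_of_notMem heS
  obtain ⟨a, ha⟩ := exists_formL_eq hg φ
  have hea : g e a = 1 := by
    rw [← hφ1, ← ha]
    rfl
  have hva : ∀ i, g (v i) a = 0 := by
    intro i
    rw [← hφ2 (v i) (Submodule.subset_span ⟨i, rfl⟩), ← ha]
    rfl
  have hae : g a e = 1 := by rw [hg.herm, hea, map_one]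
  obtain ⟨t, ht⟩ := exists_trace_eq hg (c := - g a a) (by rw [map_neg, f_self_fix hg])
  refine ⟨e, a + t • e, ?_, hee, ?_, (hKz e).1 heY.2, fun i => ?_⟩
  · rw [f_add_right hg, f_smul_right hg, hee, hea]
    ring
  · simp only [hg.add_left, f_add_right hg, hg.smul_left, f_smul_right hg, hee, hae, hea]
    linear_combination ht
  · rw [hg.add_left, hg.smul_left, (hKz e).1 heY.2 i, f_comm_zero hg (hva i)]
    ring

/-- An isotropic partner orthogonal to another vector. -/
theorem exists_partner_perp [Finite k] (hg : IsUnitaryForm τ g) {a b : ι → k} (haa : g a a = 0)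
    (hab : g a b = 0) (hind : Ind a b) : ∃ c : ι → k, g a c = 1 ∧ g b c = 0 ∧ g c c = 0 := by
  classical
  have hsp : a ∉ Submodule.span k {b} := by
    intro h
    obtain ⟨t, ht⟩ := Submodule.mem_span_singleton.1 h
    have := hind (-1) t (by rw [ht]; simp)
    simp at this
  obtain ⟨φ, hφ1, hφ2⟩ := exists_functional_of_not_mem_span hsp
  obtain ⟨c, hc⟩ := exists_formL_eq hg φ
  have h1 : g a c = 1 := by rw [← hφ1, ← hc]; rfl
  have h2 : g b c = 0 := by rw [← hφ2, ← hc]; rfl
  have hca : g c a = 1 := by rw [hg.herm, h1, map_one]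
  obtain ⟨t, ht⟩ := exists_trace_eq hg (c := - g c c) (by rw [map_neg, f_self_fix hg])
  refine ⟨c + t • a, ?_, ?_, ?_⟩
  · rw [f_add_right hg, f_smul_right hg, haa, h1]
    ring
  · rw [f_add_right hg, f_smul_right hg, h2, f_comm_zero hg hab]
    ring
  · simp only [hg.add_left, f_add_right hg, hg.smul_left, f_smul_right hg, haa, hca, h1]
    linear_combination ht

end Exists

variable {ι : Type} [Fintype ι] [DecidableEq ι] {F : Type*} [Field F] {σ : F ≃+* F}
  {f : (ι → F) → (ι → F) → F}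

section Formulas

variable (hf : IsUnitaryForm σ f)

/-- The expansion of a transvection along an isotropic plane. -/
theorem tt_add_formula {x w : ι → F} (hxx : f x x = 0) (hww : f w w = 0) (hxw : f x w = 0) {l : F}
    (hl : l + σ l = 0) (δ : F) :
    tt hf (x + δ • w) l = eich hf w ((l * σ δ) • x) (l * δ * σ δ) * tt hf x l := by
  apply gl_ext_mulVec
  intro y
  have hwx : f w x = 0 := f_comm_zero hf hxw
  have h1 : f (x + δ • w) (x + δ • w) = 0 := by
    simp only [hf.add_left, f_add_right hf, hf.smul_left, f_smul_right hf, hxx, hww, hxw, hwx]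
    ring
  have h2 : f w ((l * σ δ) • x) = 0 := by
    rw [f_smul_right hf, hwx, mul_zero]
  have hsl : σ l = - l := by linear_combination hl
  rw [gl_mul_mulVec, tt_mulVec hf _ h1, tt_mulVec hf _ hxx, eich_mulVec hf _ hww h2]
  simp only [hf.add_left, f_add_right hf, hf.smul_left, f_smul_right hf, f_sub_left hf, f_sub_right hf,
    hxx, hww, hxw, hwx, map_mul, hsl, hf.involutive]
  simp only [mul_zero, zero_add, add_zero, smul_add, smul_smul]
  generalize f y x = A
  generalize f y w = B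
  module

theorem eich_zero_left' {w : ι → F} (hww : f w w = 0) : eich hf w 0 0 = 1 := by
  apply gl_ext_mulVec
  intro y
  rw [eich_mulVec hf _ hww (f_zero_right hf w)]
  simp [f_zero_right hf]

/-- The mixed element `eich w u c`, in `M`. -/
def AA (M : Subgroup (GL ι F)) (w u : ι → F) : Prop :=
  f w u = 0 ∧ ∃ c, c + σ c + f u u = 0 ∧ eich hf w u c ∈ M

variable {hf} {M : Subgroup (GL ι F)}

theorem AA.add {w u u' : ι → F} (hww : f w w = 0) (h : AA hf M w u) (h' : AA hf M w u') :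
    AA hf M w (u + u') := by
  obtain ⟨h1, c, hc, h2⟩ := h
  obtain ⟨h3, c', hc', h4⟩ := h'
  refine ⟨by rw [f_add_right hf, h1, h3, add_zero], c + c' - f u' u, ?_, ?_⟩
  · simp only [hf.add_left, f_add_right hf, map_sub, map_add, sigma_f hf]
    linear_combination hc + hc'
  · rw [← eich_mul hf c c' hww h1 h3]
    exact M.mul_mem h2 h4

theorem AA.neg {w u : ι → F} (hww : f w w = 0) (h : AA hf M w u) : AA hf M w (-u) := by
  obtain ⟨h1, c, hc, h2⟩ := h
  have h' : f w (-u) = 0 := by rw [f_neg_right hf, h1, neg_zero]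
  refine ⟨h', σ c, ?_, ?_⟩
  · rw [hf.involutive, f_neg_left hf, f_neg_right hf]
    linear_combination hc
  · have h3 := eich_mul hf c (σ c) hww h1 h'
    have e : c + σ c - f (-u) u = 0 := by
      rw [f_neg_left hf]
      linear_combination hc
    rw [add_neg_cancel, e, eich_zero_left' hf hww] at h3
    rw [eq_inv_of_mul_eq_one_right h3]
    exact M.inv_mem h2

theorem AA.conj {w u : ι → F} (hww : f w w = 0) (h : AA hf M w u) {G : GL ι F} (hG : G ∈ M)
    (hi : IsIsom f G) (hw : (G : Matrix ι ι F) *ᵥ w = w) : AA hf M w ((G : Matrix ι ι F) *ᵥ u) := by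
  obtain ⟨h1, c, hc, h2⟩ := h
  refine ⟨?_, c, ?_, ?_⟩
  · have := hi w u
    rw [hw] at this
    rw [this, h1]
  · rw [hi]
    exact hc
  · have h3 := M.mul_mem (M.mul_mem hG h2) (M.inv_mem hG)
    rw [conj_eich hf hi c hww h1, hw] at h3
    exact h3

theorem AA.conj_sub {w u : ι → F} (hww : f w w = 0) (h : AA hf M w u) {G : GL ι F} (hG : G ∈ M)
    (hi : IsIsom f G) (hw : (G : Matrix ι ι F) *ᵥ w = w) : AA hf M w ((G : Matrix ι ι F) *ᵥ u - u) := by
  rw [sub_eq_add_neg]
  exact (h.conj hww hG hi hw).add hww (h.neg hww)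

end Formulas

/-- The hypotheses on the subfield. -/
structure RatData (hf : IsUnitaryForm σ f) (F₀ : Subfield F) : Prop where
  hs : ∀ x ∈ F₀, σ x ∈ F₀
  hrat : ∀ u v : ι → F₀, f (emb F₀ u) (emb F₀ v) ∈ F₀
  hne : ∃ x ∈ F₀, σ x ≠ x
  hN₀ : ∀ c ∈ F₀, σ c = c → ∃ l ∈ F₀, l * σ l = c
  hN : ∀ c, σ c = c → ∃ l, l * σ l = c

section Rat

variable {hf : IsUnitaryForm σ f} {F₀ : Subfield F} (D : RatData hf F₀)

/-- The involution on the subfield. -/
def sig0 : F₀ ≃+* F₀ where
  toFun x := ⟨σ x, D.hs x x.2⟩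
  invFun x := ⟨σ x, D.hs x x.2⟩
  left_inv x := Subtype.ext (hf.involutive x)
  right_inv x := Subtype.ext (hf.involutive x)
  map_mul' x y := Subtype.ext (by simp)
  map_add' x y := Subtype.ext (by simp)

@[simp] theorem sig0_coe (x : F₀) : ((sig0 D x : F₀) : F) = σ x := rfl

/-- The rational form. -/
def fr (u v : ι → F₀) : F₀ := ⟨f (emb F₀ u) (emb F₀ v), D.hrat u v⟩

@[simp] theorem fr_coe (u v : ι → F₀) : ((fr D u v : F₀) : F) = f (emb F₀ u) (emb F₀ v) := rfl

include hf in
theorem exists_single_ne {x : ι → F} (hx : x ≠ 0) : ∃ i, f x (Pi.single i 1) ≠ 0 := by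
  obtain ⟨y, hy⟩ := exists_left_ne hf hx
  by_contra hall
  push Not at hall
  have h1 : formL hf x = 0 := by
    apply LinearMap.pi_ext'
    intro i
    apply LinearMap.ext_ring
    simp [f_comm_zero hf (hall i)]
  exact hy (LinearMap.congr_fun h1 y)

include hf in
/-- A vector orthogonal to all rational vectors vanishes. -/
theorem eq_zero_of_forall_rat {x : ι → F} (h : ∀ u : ι → F₀, f x (emb F₀ u) = 0) : x = 0 := by
  by_contra hx
  obtain ⟨i, hi⟩ := exists_single_ne (hf := hf) hx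
  apply hi
  have := h (Pi.single i 1)
  rwa [emb_single] at this

theorem fr_unitary : IsUnitaryForm (sig0 D) (fr D) where
  ne_refl := by
    obtain ⟨x, hx, hne⟩ := D.hne
    intro h
    apply hne
    have := congrArg Subtype.val (RingEquiv.congr_fun h (⟨x, hx⟩ : F₀))
    simpa using this
  involutive a := Subtype.ext (hf.involutive a)
  add_left x y v := Subtype.ext (by
    simp only [fr_coe, emb_add, AddMemClass.coe_add]
    exact hf.add_left _ _ _)
  smul_left c x v := Subtype.ext (by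
    simp only [fr_coe, emb_smul, MulMemClass.coe_mul]
    exact hf.smul_left _ _ _)
  herm v w := Subtype.ext (by
    simp only [fr_coe, sig0_coe]
    exact hf.herm _ _)
  nondegenerate := by
    intro v hv
    have hv' : emb F₀ v ≠ 0 := fun h => hv (emb_eq_zero F₀ h)
    obtain ⟨i, hi⟩ := exists_single_ne (hf := hf) hv'
    have h1 : fr D v (Pi.single i 1) ≠ 0 := by
      intro h
      apply hi
      have := congrArg Subtype.val h
      rwa [fr_coe, emb_single] at this
    refine ⟨⟨Pi.single i 1, ?_⟩, ⟨Pi.single i 1, h1⟩⟩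
    intro h
    apply h1
    apply Subtype.ext
    have := congrArg Subtype.val h
    rw [fr_coe, emb_single, hf.herm] at this
    rw [fr_coe, emb_single]
    simpa using this

theorem hN₀' : ∀ c : F₀, sig0 D c = c → ∃ l, l * sig0 D l = c := by
  intro c hc
  obtain ⟨l, hl, h⟩ := D.hN₀ c c.2 (congrArg Subtype.val hc)
  exact ⟨⟨l, hl⟩, Subtype.ext h⟩

theorem f_emb_zero {u v : ι → F₀} (h : fr D u v = 0) : f (emb F₀ u) (emb F₀ v) = 0 :=
  congrArg Subtype.val h

theorem f_emb_one {u v : ι → F₀} (h : fr D u v = 1) : f (emb F₀ u) (emb F₀ v) = 1 :=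
  congrArg Subtype.val h

theorem fr_comm_zero {u v : ι → F₀} (h : fr D u v = 0) : fr D v u = 0 :=
  f_comm_zero (fr_unitary D) h

theorem f_emb_zero' {u v : ι → F₀} (h : fr D u v = 0) : f (emb F₀ v) (emb F₀ u) = 0 :=
  f_emb_zero D (fr_comm_zero D h)

include D in
/-- `f x (emb _)` is semilinear. -/
theorem f_emb_add_smul (x : ι → F) (a b : F₀) (u v : ι → F₀) :
    f x (emb F₀ (a • u + b • v)) = σ a * f x (emb F₀ u) + σ b * f x (emb F₀ v) := by
  rw [emb_add, emb_smul, emb_smul, f_add_right hf, f_smul_right hf, f_smul_right hf]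

include D in
/-- A vector pairing rationally with the rational vectors is rational. -/
theorem isRat_of_forall [Finite F] {v : ι → F} (h : ∀ u : ι → F₀, f v (emb F₀ u) ∈ F₀) : IsRat F₀ v := by
  intro i
  have hfr := fr_unitary D
  obtain ⟨c, hc⟩ := exists_formL_eq hfr (LinearMap.proj i : (ι → F₀) →ₗ[F₀] F₀)
  have h1 : ∀ u : ι → F₀, f (emb F₀ u) (emb F₀ c) = (u i : F) := by
    intro u
    have := LinearMap.congr_fun hc u
    simp only [formL_apply, LinearMap.proj_apply] at this
    rw [← fr_coe D, this]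
  have h2 : formL hf (emb F₀ c) = LinearMap.proj i := by
    apply LinearMap.pi_ext'
    intro j
    apply LinearMap.ext_ring
    have := h1 (Pi.single j 1)
    rw [emb_single] at this
    simp only [LinearMap.comp_apply, LinearMap.single_apply, formL_apply, LinearMap.proj_apply, this]
    by_cases hij : i = j
    · subst hij
      simp
    · simp [Pi.single_eq_of_ne hij]
  have h3 := LinearMap.congr_fun h2 v
  simp only [formL_apply, LinearMap.proj_apply] at h3
  rw [← h3]
  exact h _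

include hf in
/-- A matrix which is an isometry on rational vectors is an isometry. -/
theorem isIsom_of_rat {g : GL ι F} (h : ∀ u v : ι → F₀,
    f ((g : Matrix ι ι F) *ᵥ emb F₀ u) ((g : Matrix ι ι F) *ᵥ emb F₀ v) = f (emb F₀ u) (emb F₀ v)) :
    IsIsom f g := by
  have h1 : ∀ (v : ι → F₀) (x : ι → F),
      f ((g : Matrix ι ι F) *ᵥ x) ((g : Matrix ι ι F) *ᵥ emb F₀ v) = f x (emb F₀ v) := by
    intro v x
    have h2 : formL hf ((g : Matrix ι ι F) *ᵥ emb F₀ v) ∘ₗ glLin g = formL hf (emb F₀ v) := by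
      apply LinearMap.pi_ext'
      intro i
      apply LinearMap.ext_ring
      have := h (Pi.single i 1) v
      rw [emb_single] at this
      simpa using this
    have h3 := LinearMap.congr_fun h2 x
    simpa using h3
  intro x y
  have h2 : formL hf ((g : Matrix ι ι F) *ᵥ x) ∘ₗ glLin g = formL hf x := by
    apply LinearMap.pi_ext'
    intro i
    apply LinearMap.ext_ring
    have := h1 (Pi.single i 1) x
    rw [emb_single] at this
    have h4 : f ((g : Matrix ι ι F) *ᵥ Pi.single i 1) ((g : Matrix ι ι F) *ᵥ x) =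
        f (Pi.single i 1) x := by
      rw [hf.herm, this, ← hf.herm]
    simpa using h4
  have h3 := LinearMap.congr_fun h2 y
  have h4 : f ((g : Matrix ι ι F) *ᵥ y) ((g : Matrix ι ι F) *ᵥ x) = f y x := by simpa using h3
  rw [hf.herm, h4, ← hf.herm]

/-- `M` contains the rational isometries. -/
def RatM (F₀ : Subfield F) (f : (ι → F) → (ι → F) → F) (M : Subgroup (GL ι F)) : Prop :=
  ∀ g : GL ι F, IsIsom f g → g ∈ specialLinear ι F →
    (∀ u : ι → F₀, IsRat F₀ ((g : Matrix ι ι F) *ᵥ emb F₀ u)) → g ∈ M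

variable {M : Subgroup (GL ι F)}

theorem isRat_add_smul {F₀ : Subfield F} {x z : ι → F} {c : F} (hx : IsRat F₀ x) (hz : IsRat F₀ z)
    (hc : c ∈ F₀) : IsRat F₀ (x + c • z) := fun i => by
  simp only [Pi.add_apply, Pi.smul_apply, smul_eq_mul]
  exact F₀.add_mem (hx i) (F₀.mul_mem hc (hz i))

theorem eich_rat (hM : RatM F₀ f M) {a z : ι → F₀} {c : F} (hc : c ∈ F₀) (haa : fr D a a = 0)
    (haz : fr D a z = 0) (htr : c + σ c + f (emb F₀ z) (emb F₀ z) = 0) :
    eich hf (emb F₀ a) (emb F₀ z) c ∈ M := by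
  have h1 := f_emb_zero D haa
  have h2 := f_emb_zero D haz
  refine hM _ (eich_isIsom hf h1 h2 htr) (eich_mem_specialLinear hf _ _ _) fun u => ?_
  rw [eich_mulVec hf _ h1 h2, sub_eq_add_neg, ← neg_smul]
  exact isRat_add_smul (isRat_add_smul (isRat_add_smul (isRat_emb F₀ u) (isRat_emb F₀ z) (D.hrat u a))
    (isRat_emb F₀ a) (F₀.neg_mem (D.hrat u z))) (isRat_emb F₀ a) (F₀.mul_mem hc (D.hrat u a))

theorem eich_rat0 (hM : RatM F₀ f M) {a z : ι → F₀} (haa : fr D a a = 0) (hzz : fr D z z = 0)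
    (haz : fr D a z = 0) : eich hf (emb F₀ a) (emb F₀ z) 0 ∈ M :=
  eich_rat D hM F₀.zero_mem haa haz (by rw [f_emb_zero D hzz, map_zero]; ring)

theorem tt_rat (hM : RatM F₀ f M) {a : ι → F₀} {c : F} (hc : c ∈ F₀) (haa : fr D a a = 0)
    (htr : c + σ c = 0) : tt hf (emb F₀ a) c ∈ M := by
  have h1 := f_emb_zero D haa
  refine hM _ (tt_isIsom hf h1 htr) (tt_mem_specialLinear hf _ _) fun u => ?_
  rw [tt_mulVec hf _ h1]
  exact isRat_add_smul (isRat_emb F₀ u) (isRat_emb F₀ a) (F₀.mul_mem hc (D.hrat u a))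

/-- No non-rational root elements. -/
def NoS (M : Subgroup (GL ι F)) : Prop :=
  ∀ (ρ : F) (a b : ι → F₀), fr D a a = 0 → fr D b b = 0 → fr D a b = 0 → Ind a b →
    eich hf (emb F₀ a) (ρ • emb F₀ b) 0 ∈ M → ρ ∈ F₀

section Main

variable {D} [Finite F]

theorem AA_rat (hn : 8 ≤ Fintype.card ι) (hS : NoS D M) (hM : RatM F₀ f M) {w e : ι → F₀}
    (hww : fr D w w = 0) (hee : fr D e e = 0) (hew : fr D e w = 0) (hind : Ind e w) {ρ : F}
    (hA : AA hf M (emb F₀ w) (ρ • emb F₀ e)) : ρ ∈ F₀ := by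
  have hfr := fr_unitary D
  have hw0 : w ≠ 0 := hind.ne_zero_right
  obtain ⟨c₄, he1, hw1, h44⟩ := exists_partner_perp hfr hee hew hind
  obtain ⟨e₃, c₅, h1, h33, h55, h2, h3⟩ := exists_hyp_perp hfr (hN₀' D) (m := 3) (by omega) ![w, e, c₄]
  have h20 : fr D e₃ w = 0 := by simpa using h2 0
  have h21 : fr D e₃ e = 0 := by simpa using h2 1
  have h22 : fr D e₃ c₄ = 0 := by simpa using h2 2
  have h30 : fr D c₅ w = 0 := by simpa using h3 0
  have hw₅ : fr D w c₅ = 0 := fr_comm_zero D h30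
  have hind3 : Ind e₃ w := ind_of_dual hfr (by rw [h1]; exact one_ne_zero) hw₅ hw0
  have hW : f (emb F₀ w) (emb F₀ w) = 0 := f_emb_zero D hww
  set G := eich hf (emb F₀ c₄) (emb F₀ e₃) 0 with hG
  have hc₄e₃ : fr D c₄ e₃ = 0 := fr_comm_zero D h22
  have h4 := f_emb_zero D h44
  have hc₄e₃' := f_emb_zero D hc₄e₃
  have hGM : G ∈ M := eich_rat0 D hM h44 h33 hc₄e₃
  have hGi : IsIsom f G := eich_isIsom hf h4 hc₄e₃'
    (by rw [f_emb_zero D h33, map_zero]; ring)
  have hGw : (G : Matrix ι ι F) *ᵥ emb F₀ w = emb F₀ w := by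
    rw [hG, eich_mulVec hf _ h4 hc₄e₃', f_emb_zero D hw1, f_emb_zero' D h20]
    simp
  have hGe : (G : Matrix ι ι F) *ᵥ emb F₀ e = emb F₀ e + emb F₀ e₃ := by
    rw [hG, eich_mulVec hf _ h4 hc₄e₃', f_emb_zero' D h21, f_emb_one D he1]
    simp
  obtain ⟨hA1, c, hc, hA2⟩ := hA
  have h5 := M.mul_mem (M.mul_mem hGM hA2) (M.inv_mem hGM)
  rw [conj_eich hf hGi c hW hA1, hGw, Matrix.mulVec_smul, hGe] at h5
  have hwe₃ : f (emb F₀ w) (ρ • emb F₀ e₃) = 0 := by
    rw [f_smul_right hf, f_emb_zero' D h20, mul_zero]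
  have hmul := eich_mul hf 0 c hW hwe₃ hA1
  have he0 : f (ρ • emb F₀ e) (ρ • emb F₀ e₃) = 0 := by
    rw [hf.smul_left, f_smul_right hf, f_emb_zero' D h21]
    ring
  rw [he0, zero_add, sub_zero, ← smul_add, add_comm (emb F₀ e₃)] at hmul
  have h6 := M.mul_mem h5 (M.inv_mem hA2)
  rw [← hmul, mul_inv_cancel_right] at h6
  exact hS ρ w e₃ hww h33 (fr_comm_zero D h20) (ind_swap hind3) h6

/-- The key lemma on transvections fixing a rational vector. -/
theorem lemQ (hn : 10 ≤ Fintype.card ι) (hS : NoS D M) (hM : RatM F₀ f M) {x : ι → F} {l : F}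
    (hl : l + σ l = 0) (hxx : f x x = 0)
    (hT : tt hf x l ∈ M) {w : ι → F₀} (hw : w ≠ 0) (hww : fr D w w = 0) (hxw : f x (emb F₀ w) = 0) {b d : ι → F₀}
    (hbb : fr D b b = 0) (hdd : fr D d d = 0) (hb : fr D b w = 0) (hd : fr D d w = 0) :
    l * σ (f x (emb F₀ b)) * f x (emb F₀ d) ∈ F₀ := by
  have hfr := fr_unitary D
  set W := emb F₀ w with hW
  set ε := f x (emb F₀ b) with hε
  have hWW : f W W = 0 := f_emb_zero D hww
  have hsl : σ l = - l := by linear_combination hl
  have hwb : fr D w b = 0 := fr_comm_zero D hb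
  have hwd : fr D w d = 0 := fr_comm_zero D hd
  -- first step
  set G₁ := eich hf W (emb F₀ b) 0 with hG₁
  have hG₁M : G₁ ∈ M := eich_rat0 D hM hww hbb hwb
  have hG₁i : IsIsom f G₁ := eich_isIsom hf hWW (f_emb_zero D hwb)
    (by rw [f_emb_zero D hbb, map_zero]; ring)
  have hG₁x : (G₁ : Matrix ι ι F) *ᵥ x = x + (-ε) • W := by
    rw [hG₁, eich_mulVec hf _ hWW (f_emb_zero D hwb), hxw]
    simp only [zero_smul, add_zero, mul_zero, neg_smul, ← hε]
    abel
  have hN := M.mul_mem (M.mul_mem hG₁M hT) (M.inv_mem hG₁M)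
  rw [conj_tt hf hG₁i l hxx, hG₁x, tt_add_formula hf hxx hWW hxw hl] at hN
  have hN2 := M.mul_mem hN (M.inv_mem hT)
  rw [mul_inv_cancel_right] at hN2
  set ρ := l * σ (-ε) with hρ
  have hWx : f W x = 0 := f_comm_zero hf hxw
  have hA1 : AA hf M W (ρ • x) := by
    refine ⟨by rw [f_smul_right hf, hWx, mul_zero], _, ?_, hN2⟩
    rw [hf.smul_left, f_smul_right hf, hxx]
    simp only [map_mul, map_neg, hf.involutive, hsl]
    ring
  -- second step
  obtain ⟨e, c₃, h1, hee, h33, h2, h3⟩ := exists_hyp_perp hfr (hN₀' D) (m := 2) (by omega) ![w, d]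
  have h20 : fr D e w = 0 := by simpa using h2 0
  have h21 : fr D e d = 0 := by simpa using h2 1
  have h30 : fr D c₃ w = 0 := by simpa using h3 0
  have h31 : fr D c₃ d = 0 := by simpa using h3 1
  set G₂ := eich hf (emb F₀ e) (emb F₀ d) 0 with hG₂
  have he' := f_emb_zero D hee
  have hed' := f_emb_zero D h21
  have hG₂M : G₂ ∈ M := eich_rat0 D hM hee hdd h21
  have hG₂i : IsIsom f G₂ := eich_isIsom hf he' hed'
    (by rw [f_emb_zero D hdd, map_zero]; ring)
  have hG₂w : (G₂ : Matrix ι ι F) *ᵥ W = W := by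
    rw [hG₂, eich_mulVec hf _ he' hed', f_emb_zero' D h20, f_emb_zero D hwd]
    simp
  have hA2 := hA1.conj_sub hWW hG₂M hG₂i hG₂w
  have e2 : (G₂ : Matrix ι ι F) *ᵥ (ρ • x) - ρ • x =
      (ρ * f x (emb F₀ e)) • emb F₀ d + (-(ρ * f x (emb F₀ d))) • emb F₀ e := by
    rw [Matrix.mulVec_smul, hG₂, eich_mulVec hf _ he' hed']
    module
  rw [e2] at hA2
  -- third step
  obtain ⟨e', c₄, h1', he'e', h44, h2', h3'⟩ :=
    exists_hyp_perp hfr (hN₀' D) (m := 4) (by omega) ![w, d, e, c₃]
  have h20' : fr D e' w = 0 := by simpa using h2' 0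
  have h21' : fr D e' d = 0 := by simpa using h2' 1
  have h22' : fr D e' e = 0 := by simpa using h2' 2
  have h23' : fr D e' c₃ = 0 := by simpa using h2' 3
  have h30' : fr D c₄ w = 0 := by simpa using h3' 0
  have hc₃e' : fr D c₃ e' = 0 := fr_comm_zero D h23'
  set G₃ := eich hf (emb F₀ c₃) (emb F₀ e') 0 with hG₃
  have hc' := f_emb_zero D h33
  have hce' := f_emb_zero D hc₃e'
  have hG₃M : G₃ ∈ M := eich_rat0 D hM h33 he'e' hc₃e'
  have hG₃i : IsIsom f G₃ := eich_isIsom hf hc' hce'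
    (by rw [f_emb_zero D he'e', map_zero]; ring)
  have hG₃w : (G₃ : Matrix ι ι F) *ᵥ W = W := by
    rw [hG₃, eich_mulVec hf _ hc' hce', f_emb_zero' D h30, f_emb_zero' D h20']
    simp
  have hG₃e : (G₃ : Matrix ι ι F) *ᵥ emb F₀ e = emb F₀ e + emb F₀ e' := by
    rw [hG₃, eich_mulVec hf _ hc' hce', f_emb_zero' D h22', f_emb_one D h1]
    simp
  have hG₃d : (G₃ : Matrix ι ι F) *ᵥ emb F₀ d = emb F₀ d := by
    rw [hG₃, eich_mulVec hf _ hc' hce', f_emb_zero' D h31, f_emb_zero' D h21']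
    simp
  have hA3 := hA2.conj_sub hWW hG₃M hG₃i hG₃w
  have e3 : (G₃ : Matrix ι ι F) *ᵥ ((ρ * f x (emb F₀ e)) • emb F₀ d + (-(ρ * f x (emb F₀ d))) • emb F₀ e) -
      ((ρ * f x (emb F₀ e)) • emb F₀ d + (-(ρ * f x (emb F₀ d))) • emb F₀ e) =
      (-(ρ * f x (emb F₀ d))) • emb F₀ e' := by
    rw [Matrix.mulVec_add, Matrix.mulVec_smul, Matrix.mulVec_smul, hG₃e, hG₃d]
    module
  rw [e3] at hA3
  have hw₄ : fr D w c₄ = 0 := fr_comm_zero D h30'
  have hind : Ind e' w := ind_of_dual hfr (by rw [h1']; exact one_ne_zero) hw₄ hw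
  have := AA_rat (by omega) hS hM hww he'e' h20' hind hA3
  convert this using 1
  rw [hρ]
  simp only [map_neg]
  ring

end Main

end Rat

end Cfsg.Agent.Lib.SubfieldSU
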