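import Cfsg.Agent.Lib.SubfieldSUa

/-! The subfield subgroups of `SU(f)`: transvections fixing a rational isotropic vector; isotropic
lines moved out of the rational ones. -/

set_option autoImplicit false
set_option linter.unusedSectionVars false
set_option linter.unusedSimpArgs false
set_option linter.unusedVariables false

open scoped MatrixGroups Matrix
open Cfsg Cfsg.Geo
open Cfsg.Agent.Lib.Transvection Cfsg.Agent.Lib.LinAlgAux Cfsg.Agent.Lib.SubfieldGroup
  Cfsg.Agent.Lib.SubfieldBase Cfsg.Agent.Lib.FixCount Cfsg.Agent.Lib.UnitaryBase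
  Cfsg.Agent.Lib.UnitaryGen
open Cfsg.Agent.Lib.SymplecticTv (IsIsom Ind Ind.ne_zero_left Ind.ne_zero_right)

namespace Cfsg.Agent.Lib.SubfieldSU

variable {ι : Type} [Fintype ι] [DecidableEq ι] {F : Type*} [Field F] {σ : F ≃+* F}
  {f : (ι → F) → (ι → F) → F} {hf : IsUnitaryForm σ f} {F₀ : Subfield F} {D : RatData hf F₀}
  {M : Subgroup (GL ι F)} [Finite F]

omit [Finite F] in
/-- Properties of rational vectors follow from those of isotropic ones. -/
theorem rat_of_iso [Finite F] (D : RatData hf F₀) (hn : 2 ≤ Fintype.card ι) (P : (ι → F₀) → Prop)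
    (hiso : ∀ a, fr D a a = 0 → P a) (hadd : ∀ a b, P a → P b → P (a + b)) (y : ι → F₀) : P y := by
  have hfr := fr_unitary D
  refine Proj.iso_induction hfr (hN₀' D) (proj_top _) ?_ P (fun a _ h => hiso a h)
    (fun a _ b _ h h' => hadd a b h h') Submodule.mem_top
  simpa using hn

theorem caseD (hn : 10 ≤ Fintype.card ι) (hS : NoS D M) (hM : RatM F₀ f M) {x : ι → F} {l : F}
    (hl : l + σ l = 0) (hl0 : l ≠ 0) (hxx : f x x = 0) (hT : tt hf x l ∈ M) {w : ι → F₀} (hw : w ≠ 0)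
    (hww : fr D w w = 0) (hxw : f x (emb F₀ w) = 0) (hx0 : x ≠ 0) :
    ∃ c : F, c ≠ 0 ∧ IsRat F₀ (c • x) := by
  have hfr := fr_unitary D
  by_cases hb : ∃ b₀, fr D b₀ b₀ = 0 ∧ fr D b₀ w = 0 ∧ f x (emb F₀ b₀) ≠ 0
  swap
  · push Not at hb
    obtain ⟨c₀, -, hc₀, hcc⟩ := (proj_top (fr D)).exists_partner hfr Submodule.mem_top hw hww
    have hwc₀ : fr D w c₀ = 1 := by
      rw [hfr.herm, hc₀, map_one]
    -- the perp of the pair
    have hY := Proj.perp_pair hfr (proj_top (fr D)) Submodule.mem_top Submodule.mem_top hww hcc hc₀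
    set Y := ⊤ ⊓ LinearMap.ker (formL hfr w) ⊓ LinearMap.ker (formL hfr c₀) with hYd
    have hdim : 2 ≤ Module.finrank F₀ Y := by
      have h1 : Module.finrank F₀ (⊤ ⊓ LinearMap.ker (formL hfr w) : Submodule F₀ (ι → F₀)) ≤
          Module.finrank F₀ Y + 1 := Cfsg.Agent.Lib.SymplecticTv.finrank_inf_ker_add_one
        (⊤ ⊓ LinearMap.ker (formL hfr w)) (formL hfr c₀)
      have h2 : Module.finrank F₀ (⊤ : Submodule F₀ (ι → F₀)) ≤
          Module.finrank F₀ (⊤ ⊓ LinearMap.ker (formL hfr w) : Submodule F₀ (ι → F₀)) + 1 :=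
        Cfsg.Agent.Lib.SymplecticTv.finrank_inf_ker_add_one
        (⊤ : Submodule F₀ (ι → F₀)) (formL hfr w)
      have h3 : Module.finrank F₀ (⊤ : Submodule F₀ (ι → F₀)) = Fintype.card ι := by simp
      omega
    have hYz : ∀ y ∈ Y, f x (emb F₀ y) = 0 := by
      intro y hy
      refine Proj.iso_induction hfr (hN₀' D) hY hdim (fun y => f x (emb F₀ y) = 0) ?_ ?_ hy
      · intro a ha haa
        exact hb a haa ha.1.2
      · intro a _ b _ h1 h2
        rw [emb_add, f_add_right hf, h1, h2, add_zero]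
    have hperp : ∀ b, fr D b w = 0 → f x (emb F₀ b) = 0 := by
      intro b hbw
      have h1 : b + (-(fr D b c₀)) • w ∈ Y := by
        refine ⟨⟨Submodule.mem_top, ?_⟩, ?_⟩
        · change fr D _ w = 0
          rw [hfr.add_left, hfr.smul_left, hww, hbw]
          ring
        · change fr D _ c₀ = 0
          rw [hfr.add_left, hfr.smul_left, hwc₀]
          ring
      have h2 := hYz _ h1
      rw [emb_add, f_add_right hf, emb_smul, f_smul_right hf, hxw, mul_zero, add_zero] at h2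
      exact h2
    set t := f x (emb F₀ c₀) with ht
    have key : x - t • emb F₀ w = 0 := by
      apply eq_zero_of_forall_rat (hf := hf) (F₀ := F₀)
      intro u
      have h1 : fr D (u + (-(fr D u w)) • c₀) w = 0 := by
        rw [hfr.add_left, hfr.smul_left, hc₀]
        ring
      have h2 := hperp _ h1
      rw [emb_add, f_add_right hf, emb_smul, f_smul_right hf, ← ht] at h2
      rw [f_sub_left hf, hf.smul_left]
      have h3 : f (emb F₀ w) (emb F₀ u) = σ (fr D u w : F) := by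
        rw [fr_coe, ← hf.herm]
      rw [h3]
      simp only [NegMemClass.coe_neg, map_neg] at h2
      linear_combination h2
    have ht0 : t ≠ 0 := by
      intro h0
      rw [h0, zero_smul, sub_zero] at key
      exact hx0 key
    refine ⟨t⁻¹, inv_ne_zero ht0, ?_⟩
    have e : t⁻¹ • x = emb F₀ w := by
      rw [sub_eq_zero.1 key, smul_smul, inv_mul_cancel₀ ht0, one_smul]
    rw [e]
    exact isRat_emb F₀ w
  obtain ⟨b₀, hb₀b₀, hb₀, hb₀x⟩ := hb
  set κ := l * σ (f x (emb F₀ b₀)) with hκ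
  have hσ0 : σ (f x (emb F₀ b₀)) ≠ 0 := by
    rw [Ne, map_eq_zero]
    exact hb₀x
  have hκ0 : κ ≠ 0 := mul_ne_zero hl0 hσ0
  refine ⟨κ, hκ0, ?_⟩
  apply isRat_of_forall D
  intro c
  rw [hf.smul_left]
  refine rat_of_iso D (by omega) (fun c => κ * f x (emb F₀ c) ∈ F₀) ?_ ?_ c
  swap
  · intro a b h1 h2
    rw [emb_add, f_add_right hf, mul_add]
    exact F₀.add_mem h1 h2
  clear c
  intro c hcc
  -- two hyperbolic pairs
  obtain ⟨u₁, h₁, hu1, hu1i, -, hu2, hu3⟩ := exists_hyp_perp hfr (hN₀' D) (m := 3) (by omega) ![w, c, b₀]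
  obtain ⟨u₂, h₂, hv1, hv1i, -, hv2, hv3⟩ :=
    exists_hyp_perp hfr (hN₀' D) (m := 4) (by omega) ![w, c, b₀, u₁]
  have u1w : fr D u₁ w = 0 := by simpa using hu2 0
  have u1c : fr D u₁ c = 0 := by simpa using hu2 1
  have u1b : fr D u₁ b₀ = 0 := by simpa using hu2 2
  have u2w : fr D u₂ w = 0 := by simpa using hv2 0
  have u2c : fr D u₂ c = 0 := by simpa using hv2 1
  have u2b : fr D u₂ b₀ = 0 := by simpa using hv2 2
  have u2u1 : fr D u₂ u₁ = 0 := by simpa using hv2 3
  have u1u2 : fr D u₁ u₂ = 0 := fr_comm_zero D u2u1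
  have h2u1 : fr D h₂ u₁ = 0 := by simpa using hv3 3
  have hu1h2 : fr D u₁ h₂ = 0 := fr_comm_zero D h2u1
  have a1 := lemQ hn hS hM hl hxx hT hw hww hxw hb₀b₀ hu1i hb₀ u1w
  have a2 := lemQ hn hS hM hl hxx hT hw hww hxw hb₀b₀ hv1i hb₀ u2w
  rw [← hκ] at a1 a2
  obtain ⟨w₁, hw₁, hw₁i, hw₁x, hw₁c, hw₁b⟩ : ∃ w₁ : ι → F₀, w₁ ≠ 0 ∧ fr D w₁ w₁ = 0 ∧
      f x (emb F₀ w₁) = 0 ∧ fr D c w₁ = 0 ∧ fr D b₀ w₁ = 0 := by
    have hcu1 : fr D c u₁ = 0 := fr_comm_zero D u1c
    have hcu2 : fr D c u₂ = 0 := fr_comm_zero D u2c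
    have hbu1 : fr D b₀ u₁ = 0 := fr_comm_zero D u1b
    have hbu2 : fr D b₀ u₂ = 0 := fr_comm_zero D u2b
    by_cases hα : f x (emb F₀ u₁) = 0
    · refine ⟨u₁, ?_, hu1i, hα, hcu1, hbu1⟩
      rintro rfl
      rw [f_zero_left hfr] at hu1
      exact zero_ne_one hu1
    · set α₁ : F₀ := ⟨κ * f x (emb F₀ u₁), a1⟩ with hα₁
      set α₂ : F₀ := ⟨κ * f x (emb F₀ u₂), a2⟩ with hα₂
      have hα₁0 : α₁ ≠ 0 := by
        intro h
        have := congrArg Subtype.val h
        exact mul_ne_zero hκ0 hα this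
      refine ⟨sig0 D α₂ • u₁ + (-sig0 D α₁) • u₂, ?_, ?_, ?_, ?_, ?_⟩
      · intro h
        have h3 := congrArg (fun v => fr D v h₂) h
        simp only [hfr.add_left, hfr.smul_left, hu1h2, hv1, f_zero_left hfr] at h3
        simp only [mul_zero, zero_add, mul_one, neg_eq_zero] at h3
        exact hα₁0 ((map_eq_zero _).1 h3)
      · simp only [hfr.add_left, f_add_right hfr, hfr.smul_left, f_smul_right hfr, hu1i, hv1i, u1u2, u2u1]
        ring
      · rw [f_emb_add_smul D]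
        apply (mul_eq_zero.1 (?_ : κ * _ = 0)).resolve_left hκ0
        simp only [sig0_coe, hα₁, hα₂, NegMemClass.coe_neg, map_neg, hf.involutive]
        ring
      · rw [f_add_right hfr, f_smul_right hfr, f_smul_right hfr, hcu1, hcu2]
        simp
      · rw [f_add_right hfr, f_smul_right hfr, f_smul_right hfr, hbu1, hbu2]
        simp
  have := lemQ hn hS hM hl hxx hT hw₁ hw₁i hw₁x hb₀b₀ hcc hw₁b hw₁c
  rwa [← hκ] at this

/-- Rational coefficients of independent rational vectors. -/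
theorem coeff_rat (D : RatData hf F₀) {A B : ι → F₀} (hAB : Ind A B) {α β : F}
    (h : IsRat F₀ (α • emb F₀ A + β • emb F₀ B)) : α ∈ F₀ := by
  have hfr := fr_unitary D
  have hsp : A ∉ Submodule.span F₀ {B} := by
    intro h
    obtain ⟨t, ht⟩ := Submodule.mem_span_singleton.1 h
    have := hAB (-1) t (by rw [ht]; simp)
    simp at this
  obtain ⟨φ, hφ1, hφ2⟩ := exists_functional_of_not_mem_span hsp
  obtain ⟨c, hc⟩ := exists_formL_eq hfr φ
  have h1 : fr D A c = 1 := by rw [← hφ1, ← hc]; rfl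
  have h2 : fr D B c = 0 := by rw [← hφ2, ← hc]; rfl
  obtain ⟨C, hC⟩ := h.exists_emb
  have h3 : f (emb F₀ C) (emb F₀ c) = α := by
    rw [hC, hf.add_left, hf.smul_left, hf.smul_left, f_emb_one D h1, f_emb_zero D h2]
    ring
  rw [← h3]
  exact D.hrat _ _

/-- An element outside the subfield group moves some rational isotropic line to a non-rational line. -/
theorem exists_nonrat_iso [Nonempty ι] (D : RatData hf F₀) (hn : 6 ≤ Fintype.card ι) {g : GL ι F}
    (hg : g ∉ subfieldSubgroup F₀ 1) :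
    ∃ u : ι → F₀, fr D u u = 0 ∧ u ≠ 0 ∧
      ∀ c : F, c ≠ 0 → ¬ IsRat F₀ (c • ((g : Matrix ι ι F) *ᵥ emb F₀ u)) := by
  classical
  have hfr := fr_unitary D
  by_contra hcon
  push Not at hcon
  apply hg
  rw [mem_subfield_one_iff]
  have hcon' : ∀ u : ι → F₀, fr D u u = 0 → u ≠ 0 →
      ∃ c : F, c ≠ 0 ∧ IsRat F₀ (c • ((g : Matrix ι ι F) *ᵥ emb F₀ u)) := fun u h1 h2 => hcon u h1 h2
  have hinj : ∀ y : ι → F, (g : Matrix ι ι F) *ᵥ y = 0 → y = 0 := by
    intro y hy
    have := congrArg (fun z => ((g⁻¹ : GL ι F) : Matrix ι ι F) *ᵥ z) hy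
    simpa using this
  -- independence over `F` of rational vectors in terms of the form
  have hindF : ∀ {a b : ι → F₀}, Ind a b → ∀ s t : F, s • emb F₀ a + t • emb F₀ b = 0 → s = 0 ∧ t = 0 := by
    intro a b hab s t hst
    have key : ∀ {a b : ι → F₀}, Ind a b → ∀ s t : F, s • emb F₀ a + t • emb F₀ b = 0 → s = 0 := by
      intro a b hab s t hst
      have hsp : a ∉ Submodule.span F₀ {b} := by
        intro h
        obtain ⟨t, ht⟩ := Submodule.mem_span_singleton.1 h
        have := hab (-1) t (by rw [ht]; simp)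
        simp at this
      obtain ⟨φ, hφ1, hφ2⟩ := exists_functional_of_not_mem_span hsp
      obtain ⟨c, hc⟩ := exists_formL_eq hfr φ
      have h1 : fr D a c = 1 := by rw [← hφ1, ← hc]; rfl
      have h2 : fr D b c = 0 := by rw [← hφ2, ← hc]; rfl
      have h3 := congrArg (fun z => f z (emb F₀ c)) hst
      simp only [hf.add_left, hf.smul_left, f_emb_one D h1, f_emb_zero D h2, f_zero_left hf] at h3
      simpa using h3
    refine ⟨key hab s t hst, key (ind_swap hab) t s ?_⟩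
    rwa [add_comm]
  have step : ∀ {u₀ u : ι → F₀} {c₀ : F}, fr D u₀ u₀ = 0 → fr D u u = 0 → fr D u₀ u = 0 → Ind u₀ u →
      c₀ ≠ 0 → IsRat F₀ (c₀ • ((g : Matrix ι ι F) *ᵥ emb F₀ u₀)) →
      IsRat F₀ (c₀ • ((g : Matrix ι ι F) *ᵥ emb F₀ u)) := by
    intro u₀ u c₀ h0 h1 h2 hi hc₀ hA
    obtain ⟨c₁, hc₁, hB⟩ := hcon' u h1 hi.ne_zero_right
    have hsum : fr D (u₀ + u) (u₀ + u) = 0 := by
      simp only [hfr.add_left, f_add_right hfr, h0, h1, h2, fr_comm_zero D h2, add_zero]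
    have hsum0 : u₀ + u ≠ 0 := by
      intro h3
      have := hi 1 1 (by simpa using h3)
      exact one_ne_zero this.1
    obtain ⟨c₂, hc₂, hC⟩ := hcon' _ hsum hsum0
    obtain ⟨A, hA'⟩ := hA.exists_emb
    obtain ⟨B, hB'⟩ := hB.exists_emb
    have hAB : Ind A B := by
      intro s t hst
      have h3 : ((s : F) * c₀) • ((g : Matrix ι ι F) *ᵥ emb F₀ u₀) +
          ((t : F) * c₁) • ((g : Matrix ι ι F) *ᵥ emb F₀ u) = 0 := by
        have := congrArg (emb F₀) hst
        rw [emb_add, emb_smul, emb_smul, hA', hB', emb_zero, smul_smul, smul_smul] at this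
        exact this
      have h4 : (g : Matrix ι ι F) *ᵥ (((s : F) * c₀) • emb F₀ u₀ + ((t : F) * c₁) • emb F₀ u) = 0 := by
        rw [Matrix.mulVec_add, Matrix.mulVec_smul, Matrix.mulVec_smul]
        exact h3
      have h5 := hindF hi _ _ (hinj _ h4)
      constructor
      · have := (mul_eq_zero.1 h5.1).resolve_right hc₀
        exact Subtype.ext this
      · have := (mul_eq_zero.1 h5.2).resolve_right hc₁
        exact Subtype.ext this
    have e : c₂ • ((g : Matrix ι ι F) *ᵥ emb F₀ (u₀ + u)) =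
        (c₂ / c₀) • emb F₀ A + (c₂ / c₁) • emb F₀ B := by
      rw [hA', hB', smul_smul, smul_smul, emb_add, Matrix.mulVec_add, smul_add]
      congr 2
      · field_simp
      · field_simp
    rw [e] at hC
    have h6 := coeff_rat D hAB hC
    have h7 := coeff_rat D (ind_swap hAB) (by rwa [add_comm] at hC)
    have e2 : c₀ • ((g : Matrix ι ι F) *ᵥ emb F₀ u) = ((c₂ / c₁) / (c₂ / c₀)) • emb F₀ B := by
      rw [hB', smul_smul]
      congr 1
      field_simp
    rw [e2]
    exact fun i => F₀.mul_mem (F₀.div_mem h7 h6) (isRat_emb F₀ B i)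
  -- a base point
  obtain ⟨u₀, z, h1, h0, -, -, -⟩ := exists_hyp_perp hfr (hN₀' D) (m := 0) (by omega) ![]
  have hu₀ : u₀ ≠ 0 := by
    rintro rfl
    rw [f_zero_left hfr] at h1
    exact zero_ne_one h1
  obtain ⟨c₀, hc₀, hA⟩ := hcon' u₀ h0 hu₀
  refine ⟨c₀, hc₀, fun u => ?_⟩
  refine rat_of_iso D (by omega) (fun u => IsRat F₀ (c₀ • ((g : Matrix ι ι F) *ᵥ emb F₀ u))) ?_ ?_ u
  · intro a haa
    by_cases ha0 : a = 0
    · subst ha0
      intro i
      simp [F₀.zero_mem]
    obtain ⟨v, v', h3, hvv, -, h4, h5⟩ := exists_hyp_perp hfr (hN₀' D) (m := 2) (by omega) ![u₀, a]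
    have h40 : fr D v u₀ = 0 := by simpa using h4 0
    have h41 : fr D v a = 0 := by simpa using h4 1
    have h50 : fr D v' u₀ = 0 := by simpa using h5 0
    have h51 : fr D v' a = 0 := by simpa using h5 1
    have i1 : Ind v u₀ := ind_of_dual hfr (by rw [h3]; exact one_ne_zero) (fr_comm_zero D h50) hu₀
    have i2 : Ind v a := ind_of_dual hfr (by rw [h3]; exact one_ne_zero) (fr_comm_zero D h51) ha0
    have s1 := step h0 hvv (fr_comm_zero D h40) (ind_swap i1) hc₀ hA
    exact step hvv haa h41 i2 hc₀ s1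
  · intro a b h1 h2
    rw [emb_add, Matrix.mulVec_add, smul_add]
    intro i
    exact F₀.add_mem (h1 i) (h2 i)

end Cfsg.Agent.Lib.SubfieldSU
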