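import Cfsg.Agent.Lib.SubfieldSUb
import Cfsg.Agent.Lib.SubfieldSpR

/-! The subfield subgroups of `SU(f)`: the two-dimensional argument. -/

set_option autoImplicit false
set_option linter.unusedSectionVars false
set_option linter.unusedSimpArgs false
set_option linter.unusedVariables false

open scoped MatrixGroups Matrix
open Cfsg Cfsg.Geo
open Cfsg.Agent.Lib.Transvection Cfsg.Agent.Lib.LinAlgAux Cfsg.Agent.Lib.SubfieldGroup
  Cfsg.Agent.Lib.SubfieldBase Cfsg.Agent.Lib.FixCount Cfsg.Agent.Lib.UnitaryBase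
  Cfsg.Agent.Lib.UnitaryGen
open Cfsg.Agent.Lib.SymplecticTv (IsIsom Ind Ind.ne_zero_left Ind.ne_zero_right)
open Cfsg.Agent.Lib.SubfieldSp (PG top_of_pred)

namespace Cfsg.Agent.Lib.SubfieldSU

variable {ι : Type} [Fintype ι] [DecidableEq ι] {F : Type*} [Field F] {σ : F ≃+* F}
  {f : (ι → F) → (ι → F) → F} {hf : IsUnitaryForm σ f} {F₀ : Subfield F} {D : RatData hf F₀}
  {M : Subgroup (GL ι F)}

section Algebra

variable (hinv : ∀ a : F, σ (σ a) = a)

theorem ratio_norms (hs : ∀ x ∈ F₀, σ x ∈ F₀) {δ : F} (hδ : δ ∈ F₀) (hδ' : σ δ ≠ δ) {α₁ α₂ : F}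
    (h₁ : α₁ * σ α₁ ∈ F₀) (h₂ : α₂ * σ α₂ ∈ F₀) (h₃ : (α₁ + α₂) * σ (α₁ + α₂) ∈ F₀)
    (h₄ : (α₁ + δ * α₂) * σ (α₁ + δ * α₂) ∈ F₀) (h0 : α₂ ≠ 0) : α₁ / α₂ ∈ F₀ := by
  set τ := α₁ * σ α₂ with hτ
  have hsα₂ : σ α₂ ≠ 0 := by
    rwa [Ne, map_eq_zero]
  have hA : τ + α₂ * σ α₁ ∈ F₀ := by
    have e : τ + α₂ * σ α₁ = (α₁ + α₂) * σ (α₁ + α₂) - α₁ * σ α₁ - α₂ * σ α₂ := by
      rw [map_add, hτ]
      ring
    rw [e]
    exact F₀.sub_mem (F₀.sub_mem h₃ h₁) h₂
  have hB : σ δ * τ + δ * (α₂ * σ α₁) ∈ F₀ := by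
    have e : σ δ * τ + δ * (α₂ * σ α₁) =
        (α₁ + δ * α₂) * σ (α₁ + δ * α₂) - α₁ * σ α₁ - δ * σ δ * (α₂ * σ α₂) := by
      rw [map_add, map_mul, hτ]
      ring
    rw [e]
    exact F₀.sub_mem (F₀.sub_mem h₄ h₁) (F₀.mul_mem (F₀.mul_mem hδ (hs δ hδ)) h₂)
  have hτ0 : τ ∈ F₀ := by
    have hd : σ δ - δ ≠ 0 := sub_ne_zero.2 hδ'
    have e : τ = (σ δ * τ + δ * (α₂ * σ α₁) - δ * (τ + α₂ * σ α₁)) / (σ δ - δ) := by
      field_simp
      ring
    rw [e]
    exact F₀.div_mem (F₀.sub_mem hB (F₀.mul_mem hδ hA)) (F₀.sub_mem (hs δ hδ) hδ)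
  have e : α₁ / α₂ = τ / (α₂ * σ α₂) := by
    rw [hτ]
    field_simp
  rw [e]
  exact F₀.div_mem hτ0 h₂

include hinv in
/-- Norms produce enough values. -/
theorem four_values (S : F → Prop) (hadd : ∀ a b, S a → S b → S (a + b)) (hs : ∀ x ∈ F₀, σ x ∈ F₀)
    {δ : F} (hδ : δ ∈ F₀) (hδ' : σ δ ≠ δ) {a₁ a₂ : F}
    (hN1 : ∀ c ∈ F₀, S ((a₁ + c * a₂) * σ (a₁ + c * a₂))) (hN2 : S (a₂ * σ a₂))
    (hE : ∀ c ∈ F₀, σ c = c → S (c * (a₁ * σ a₁)))
    (hind : ∀ c ∈ F₀, a₁ + c * a₂ ≠ 0) (ha₂ : a₂ ≠ 0) :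
    ∃ b₁ b₂, S b₁ ∧ S b₂ ∧ b₁ ≠ 0 ∧ b₂ ≠ 0 ∧ b₁ ≠ b₂ ∧ b₁ + b₂ ≠ 0 := by
  have hN0 : ∀ z : F, z ≠ 0 → z * σ z ≠ 0 := fun z hz =>
    mul_ne_zero hz (by rwa [Ne, map_eq_zero])
  set n₁ := a₁ * σ a₁ with hn₁
  have ha₁ : a₁ ≠ 0 := by
    have := hind 0 F₀.zero_mem
    simpa using this
  have hn₁0 : n₁ ≠ 0 := hN0 _ ha₁
  have hSn₁ : S n₁ := by
    have := hN1 0 F₀.zero_mem
    simpa [hn₁] using this
  have hne2 : a₂ * σ a₂ ≠ 0 := hN0 _ ha₂
  by_contra hcon
  push Not at hcon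
  have hcon' : ∀ b, S b → b ≠ 0 → b = n₁ ∨ b = -n₁ := by
    intro b hb hb0
    by_cases h : n₁ = b
    · exact Or.inl h.symm
    · exact Or.inr (eq_neg_of_add_eq_zero_right (hcon n₁ b hSn₁ hb hn₁0 hb0 h))
  by_cases h3 : (3 : F) = 0
  · -- characteristic three
    have h2 : (2 : F) ≠ 0 := by
      intro h2
      have : (1 : F) = 3 - 2 := by norm_num
      rw [h3, h2, sub_zero] at this
      exact one_ne_zero this
    set ι' := δ - σ δ with hι
    have hι0 : ι' ≠ 0 := sub_ne_zero.2 (Ne.symm hδ')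
    have hι1 : ι' ∈ F₀ := F₀.sub_mem hδ (hs δ hδ)
    have hσι : σ ι' = - ι' := by
      rw [hι, map_sub, hinv]
      ring
    clear_value ι'
    have hc0 : ι' * σ ι' ≠ 0 := hN0 _ hι0
    have hc1 : ι' * σ ι' ∈ F₀ := F₀.mul_mem hι1 (hs _ hι1)
    have hc2 : σ (ι' * σ ι') = ι' * σ ι' := by
      rw [map_mul, hinv]
      ring
    have hi2 : ι' ^ 2 = -1 := by
      have hval := hcon' _ (hE _ hc1 hc2) (mul_ne_zero hc0 hn₁0)
      have h5 : ι' * σ ι' = 1 ∨ ι' * σ ι' = -1 := by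
        rcases hval with h | h
        · left
          exact mul_right_cancel₀ hn₁0 (by rw [h, one_mul])
        · right
          exact mul_right_cancel₀ hn₁0 (by rw [h]; ring)
      rcases h5 with h | h
      · rw [hσι] at h
        linear_combination -h
      · exfalso
        rw [hσι] at h
        have h6 : (ι' - 1) * (ι' + 1) = 0 := by linear_combination -h
        have h7 : σ ι' = ι' := by
          rcases mul_eq_zero.1 h6 with h8 | h8
          · have h9 : ι' = 1 := sub_eq_zero.1 h8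
            rw [h9, map_one]
          · have h9 : ι' = -1 := eq_neg_of_add_eq_zero_left h8
            rw [h9, map_neg, map_one]
        rw [hσι] at h7
        have h8 : 2 * ι' = 0 := by linear_combination -h7
        exact (mul_ne_zero h2 hι0) h8
    set n₂ := a₂ * σ a₂ with hn₂
    have hn₂' := hcon' _ hN2 hne2
    set v₁ := (a₁ + 1 * a₂) * σ (a₁ + 1 * a₂) with hv₁
    set v₂ := (a₁ + ι' * a₂) * σ (a₁ + ι' * a₂) with hv₂
    have hv₁' : v₁ = n₁ ∨ v₁ = -n₁ := hcon' _ (hN1 1 F₀.one_mem) (hN0 _ (hind 1 F₀.one_mem))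
    have hv₂' : v₂ = n₁ ∨ v₂ = -n₁ := hcon' _ (hN1 ι' hι1) (hN0 _ (hind ι' hι1))
    -- the general formula
    have hform : ∀ s t : F, σ s = s → σ t = t →
        (a₁ + (s + t * ι') * a₂) * σ (a₁ + (s + t * ι') * a₂) =
          n₁ + (s ^ 2 + t ^ 2) * n₂ + s * (v₁ - n₁ - n₂) + t * (v₂ - n₁ - n₂) := by
      intro s t hs' ht'
      simp only [hv₁, hv₂, hn₁, hn₂, map_add, map_mul, hs', ht', hσι, map_one]
      linear_combination ((t - t ^ 2) * a₂ * σ a₂) * hi2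
    have hmem : ∀ s t : F, (s = 0 ∨ s = 1 ∨ s = -1) → (t = 0 ∨ t = 1 ∨ t = -1) →
        (σ s = s ∧ σ t = t ∧ s + t * ι' ∈ F₀) := by
      intro s t hs' ht'
      have h5 : ∀ u : F, (u = 0 ∨ u = 1 ∨ u = -1) → σ u = u ∧ u ∈ F₀ := by
        rintro u (rfl | rfl | rfl)
        · simp [F₀.zero_mem]
        · simp [F₀.one_mem]
        · simp [F₀.neg_mem, F₀.one_mem]
      exact ⟨(h5 s hs').1, (h5 t ht').1, F₀.add_mem (h5 s hs').2 (F₀.mul_mem (h5 t ht').2 hι1)⟩
    have hfin : ∀ s t : F, (s = 0 ∨ s = 1 ∨ s = -1) → (t = 0 ∨ t = 1 ∨ t = -1) →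
        n₁ + (s ^ 2 + t ^ 2) * n₂ + s * (v₁ - n₁ - n₂) + t * (v₂ - n₁ - n₂) = 0 → False := by
      intro s t hs' ht' h
      obtain ⟨h5, h6, h7⟩ := hmem s t hs' ht'
      rw [← hform s t h5 h6] at h
      exact hN0 _ (hind _ h7) h
    rcases hn₂' with h₁ | h₁ <;> rcases hv₁' with h₂ | h₂ <;> rcases hv₂' with h₃ | h₃
    · exact hfin 0 (-1) (by simp) (by simp) (by rw [h₁, h₂, h₃]; linear_combination (1 * n₁) * h3)
    · exact hfin (-1) 0 (by simp) (by simp) (by rw [h₁, h₂, h₃]; linear_combination (1 * n₁) * h3)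
    · exact hfin 0 (-1) (by simp) (by simp) (by rw [h₁, h₂, h₃]; linear_combination (1 * n₁) * h3)
    · exact hfin 1 1 (by simp) (by simp) (by rw [h₁, h₂, h₃]; linear_combination (-1 * n₁) * h3)
    · exact hfin (-1) (-1) (by simp) (by simp) (by rw [h₁, h₂, h₃]; linear_combination (-1 * n₁) * h3)
    · exact hfin (-1) 1 (by simp) (by simp) (by rw [h₁, h₂, h₃]; linear_combination (-1 * n₁) * h3)
    · exact hfin 1 (-1) (by simp) (by simp) (by rw [h₁, h₂, h₃]; linear_combination (-1 * n₁) * h3)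
    · exact hfin 1 1 (by simp) (by simp) (by rw [h₁, h₂, h₃]; linear_combination (-1 * n₁) * h3)
  · by_cases h2 : (2 : F) = 0
    · -- characteristic two
      have hall : ∀ b, S b → b ≠ 0 → b = n₁ := by
        intro b hb hb0
        rcases hcon' b hb hb0 with h | h
        · exact h
        · rw [h]
          linear_combination (-n₁) * h2
      have hn₂ := hall _ hN2 hne2
      set τ := a₁ * σ a₂ with hτ
      have hE' : ∀ c ∈ F₀, c * σ c * n₁ + σ c * τ + c * (a₂ * σ a₁) = 0 := by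
        intro c hc
        have h5 := hall _ (hN1 c hc) (hN0 _ (hind c hc))
        simp only [map_add, map_mul] at h5
        rw [hτ]
        have h6 : n₁ = a₁ * σ a₁ := hn₁
        linear_combination h5 + h6 - (c * σ c) * hn₂
      have e1 := hE' 1 F₀.one_mem
      have e2 := hE' δ hδ
      have e3 := hE' (1 + δ) (F₀.add_mem F₀.one_mem hδ)
      simp only [map_add, map_one] at e1 e3
      have h5 : (δ + σ δ) * n₁ = 0 := by
        linear_combination e3 - e1 - e2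
      have h6 : δ + σ δ = 0 := (mul_eq_zero.1 h5).resolve_right hn₁0
      apply hδ'
      linear_combination h6 - δ * h2
    · -- large characteristic
      have h5 := hcon n₁ (n₁ + n₁) hSn₁ (hadd _ _ hSn₁ hSn₁) hn₁0 (by
        have : n₁ + n₁ = 2 * n₁ := by ring
        rw [this]
        exact mul_ne_zero h2 hn₁0) (by
        intro h
        exact hn₁0 (by linear_combination -h))
      apply mul_ne_zero h3 hn₁0
      linear_combination h5

end Algebra

section PGlemmas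

variable {x y : ι → F} {W : Submodule F (ι → F)}

theorem PG_fix (hf : IsUnitaryForm σ f) (hMi : ∀ m ∈ M, IsIsom f m)
    (hiso : ∀ z ∈ W, ∀ z' ∈ W, f z z' = 0) {m : GL ι F} (hm : m ∈ PG M x W) {z : ι → F} (hz : z ∈ W)
    (hxz : f x z = 0) : (m : Matrix ι ι F) *ᵥ z = z := by
  by_contra hne
  have hne' : (m : Matrix ι ι F) *ᵥ z - z ≠ 0 := sub_ne_zero.2 hne
  obtain ⟨v, hv⟩ := exists_right_ne hf hne'
  apply hv
  obtain ⟨s, w', hw', e⟩ := ((PG M x W).inv_mem hm).2 v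
  have h1 := hMi m hm.1 z (((m⁻¹ : GL ι F) : Matrix ι ι F) *ᵥ v)
  rw [gl_mulVec_inv_mulVec] at h1
  have h2 : ((m⁻¹ : GL ι F) : Matrix ι ι F) *ᵥ v = v + (s • x + w') := by
    rw [← e]
    abel
  have hzx : f z x = 0 := f_comm_zero hf hxz
  have h3 : f z (((m⁻¹ : GL ι F) : Matrix ι ι F) *ᵥ v) = f z v := by
    rw [h2, f_add_right hf, f_add_right hf, f_smul_right hf, hzx, hiso z hz w' hw']
    ring
  rw [f_sub_left hf, h1, h3, sub_self]

/-- The multiplication rule of the coordinates. -/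
theorem PG_mul (hf : IsUnitaryForm σ f) (hMi : ∀ m ∈ M, IsIsom f m)
    (hiso : ∀ z ∈ W, ∀ z' ∈ W, f z z' = 0) (hxx : f x x = 0) (hy : y ∈ W) (ha : f x y ≠ 0) :
    ∀ m ∈ PG M x W, ∀ m' ∈ PG M x W, ∀ v, (v = x ∨ v = y) →
    ∀ p : (ι → F) →ₗ[F] F, (p = (f x y)⁻¹ • formL hf y ∨ p = (f y x)⁻¹ • formL hf x) →
      p (((m * m' : GL ι F) : Matrix ι ι F) *ᵥ v) =
        ((f x y)⁻¹ • formL hf y) ((m' : Matrix ι ι F) *ᵥ v) * p ((m : Matrix ι ι F) *ᵥ x) +
        ((f y x)⁻¹ • formL hf x) ((m' : Matrix ι ι F) *ᵥ v) * p ((m : Matrix ι ι F) *ᵥ y) := by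
  intro m hm m' hm' v hv p hp
  set a := f x y with ha'
  set a' := f y x with ha''
  have ha0 : a' ≠ 0 := f_comm_ne hf ha
  have hyy : f y y = 0 := hiso y hy y hy
  obtain ⟨s, w', hw', e⟩ := hm'.2 v
  obtain ⟨S, T, e'⟩ : ∃ S T : F, (m' : Matrix ι ι F) *ᵥ v = S • x + T • y + w' := by
    rcases hv with rfl | rfl
    · refine ⟨1 + s, 0, ?_⟩
      rw [sub_eq_iff_eq_add] at e
      rw [e]
      module
    · refine ⟨s, 1, ?_⟩
      rw [sub_eq_iff_eq_add] at e
      rw [e]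
      module
  have hw'y : f w' y = 0 := hiso _ hw' _ hy
  set t := a'⁻¹ * f w' x with ht
  have hzW : w' - t • y ∈ W := W.sub_mem hw' (W.smul_mem _ hy)
  have hzx : f (w' - t • y) x = 0 := by
    rw [f_sub_left hf, hf.smul_left, ← ha'', ht]
    field_simp
    ring
  have hxz : f x (w' - t • y) = 0 := f_comm_zero hf hzx
  have hfix := PG_fix hf hMi hiso hm hzW hxz
  have e2 : ((m * m' : GL ι F) : Matrix ι ι F) *ᵥ v = S • ((m : Matrix ι ι F) *ᵥ x) +
      (T + t) • ((m : Matrix ι ι F) *ᵥ y) + (w' - t • y) := by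
    rw [gl_mul_mulVec, e']
    have e3 : w' = (w' - t • y) + t • y := by abel
    conv_lhs => rw [e3]
    rw [Matrix.mulVec_add, Matrix.mulVec_add, Matrix.mulVec_add, Matrix.mulVec_smul, Matrix.mulVec_smul,
      Matrix.mulVec_smul, hfix]
    module
  have h1 : ((f x y)⁻¹ • formL hf y) ((m' : Matrix ι ι F) *ᵥ v) = S := by
    rw [e']
    simp only [LinearMap.smul_apply, formL_apply, smul_eq_mul, hf.add_left,
      hf.smul_left, hyy, hw'y, ← ha']
    field_simp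
    ring
  have h2 : ((f y x)⁻¹ • formL hf x) ((m' : Matrix ι ι F) *ᵥ v) = T + t := by
    rw [e']
    simp only [LinearMap.smul_apply, formL_apply, smul_eq_mul, hf.add_left,
      hf.smul_left, hxx, ← ha'', ht]
    field_simp
    ring
  have h3 : p (w' - t • y) = 0 := by
    rcases hp with rfl | rfl
    · simp only [LinearMap.smul_apply, formL_apply, smul_eq_mul]
      rw [hiso _ hzW _ hy, mul_zero]
    · simp only [LinearMap.smul_apply, formL_apply, smul_eq_mul]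
      rw [hzx, mul_zero]
  rw [e2, h1, h2, map_add, map_add, map_smul, map_smul, h3, add_zero, smul_eq_mul, smul_eq_mul]

end PGlemmas

section PlaneMain

variable [Finite F] {p q : Fin 3 → ι → F₀} {W : Submodule F (ι → F)} {x y : ι → F}

theorem plane_stab (hn : 10 ≤ Fintype.card ι) (hS : NoS D M) (hM : RatM F₀ f M)
    (hMi : ∀ m ∈ M, IsIsom f m) (hgen : ∀ w : ι → F₀, w ≠ 0 → fr D w w = 0 → f x (emb F₀ w) ≠ 0)
    (pq : ∀ a b, fr D (p a) (q b) = if a = b then 1 else 0) (pp : ∀ a b, fr D (p a) (p b) = 0)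
    (qq : ∀ a b, fr D (q a) (q b) = 0)
    (hWp : ∀ i, emb F₀ (p i) ∈ W) (hiso : ∀ z ∈ W, ∀ z' ∈ W, f z z' = 0)
    (hcoord : ∀ ξ ∈ W, (∀ j, f ξ (emb F₀ (q j)) = 0) → ξ = 0)
    (hxx : f x x = 0) (hy : y ∈ W) (ha : f x y ≠ 0) {g : GL ι F} (hg : g ∈ PG M x W)
    (hC : f ((g : Matrix ι ι F) *ᵥ y) y = 0) : (g : Matrix ι ι F) *ᵥ y = y := by
  have hfr := fr_unitary D
  obtain ⟨s, ξ, hξ, e⟩ := hg.2 y
  set a := f x y with ha'
  set a' := f y x with ha''
  have ha0 : a' ≠ 0 := f_comm_ne hf ha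
  have hgy0 : (g : Matrix ι ι F) *ᵥ y = y + (s • x + ξ) := by
    rw [← e]
    abel
  have hs : s = 0 := by
    rw [hgy0, hf.add_left, hf.add_left, hf.smul_left, hiso y hy y hy,
      hiso ξ hξ y hy, ← ha'] at hC
    have : s * a = 0 := by linear_combination hC
    exact (mul_eq_zero.1 this).resolve_right ha
  have hgy : (g : Matrix ι ι F) *ᵥ y = y + ξ := by
    rw [hgy0, hs, zero_smul, zero_add]
  by_contra hne
  have hξ0 : ξ ≠ 0 := by
    rintro rfl
    apply hne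
    rw [hgy, add_zero]
  obtain ⟨j, hj⟩ : ∃ j, f ξ (emb F₀ (q j)) ≠ 0 := by
    by_contra hall
    push Not at hall
    exact hξ0 (hcoord ξ hξ hall)
  have hidx : ∀ j : Fin 3, ∃ i₁ i₂ : Fin 3, i₁ ≠ i₂ ∧ i₁ ≠ j ∧ i₂ ≠ j := by decide
  obtain ⟨i₁, i₂, h12, h1j, h2j⟩ := hidx j
  set β := f ξ (emb F₀ (q j)) with hβ
  have hp0 : ∀ i, p i ≠ 0 := by
    intro i h0
    have h3 := pq i i
    rw [h0, f_zero_left hfr, if_pos rfl] at h3
    exact zero_ne_one h3
  -- a rational element of trace zero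
  obtain ⟨δ, hδ, hδ'⟩ := D.hne
  set l₀ := δ - σ δ with hl₀
  have hl₀F : l₀ ∈ F₀ := F₀.sub_mem hδ (D.hs δ hδ)
  have hl₀0 : l₀ ≠ 0 := sub_ne_zero.2 (Ne.symm hδ')
  have hl₀t : l₀ + σ l₀ = 0 := by
    rw [hl₀, map_sub, hf.involutive]
    ring
  have key : ∀ v : ι → F₀, emb F₀ v ∈ W → fr D v (q j) = 0 →
      (f (emb F₀ v) x / a' * β) * σ (f (emb F₀ v) x / a' * β) ∈ F₀ := by
    intro v hv hvq
    set t := f (emb F₀ v) x / a' with ht
    have hz : emb F₀ v - t • y ∈ W := W.sub_mem hv (W.smul_mem _ hy)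
    have hzx : f (emb F₀ v - t • y) x = 0 := by
      rw [f_sub_left hf, hf.smul_left, ← ha'', ht]
      field_simp
      ring
    have hfix := PG_fix hf hMi hiso hg hz (f_comm_zero hf hzx)
    have hgv : (g : Matrix ι ι F) *ᵥ emb F₀ v = emb F₀ v + t • ξ := by
      have e3 : emb F₀ v = (emb F₀ v - t • y) + t • y := by abel
      conv_lhs => rw [e3]
      rw [Matrix.mulVec_add, Matrix.mulVec_smul, hfix, hgy]
      module
    have hvv : fr D v v = 0 := Subtype.ext (hiso _ hv _ hv)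
    have hT' : tt hf (emb F₀ v + t • ξ) l₀ ∈ M := by
      have := M.mul_mem (M.mul_mem hg.1 (tt_rat D hM hl₀F hvv hl₀t)) (M.inv_mem hg.1)
      rwa [conj_tt hf (hMi g hg.1) l₀ (f_emb_zero D hvv), hgv] at this
    have hb : fr D (q j) (p i₁) = 0 := by
      apply fr_comm_zero D
      rw [pq, if_neg h1j]
    have hX : emb F₀ v + t • ξ ∈ W := W.add_mem hv (W.smul_mem _ hξ)
    have h3 := lemQ hn hS hM hl₀t (hiso _ hX _ hX) hT' (hp0 i₁) (pp _ _) (hiso _ hX _ (hWp _))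
      (qq j j) (qq j j) hb hb
    have e4 : f (emb F₀ v + t • ξ) (emb F₀ (q j)) = t * β := by
      rw [hf.add_left, hf.smul_left, f_emb_zero D hvq, zero_add]
    rw [e4] at h3
    have e5 : (t * β) * σ (t * β) = l₀⁻¹ * (l₀ * σ (t * β) * (t * β)) := by
      field_simp
    rw [e5]
    exact F₀.mul_mem (F₀.inv_mem hl₀F) h3
  have hq1 : fr D (p i₁) (q j) = 0 := by rw [pq, if_neg h1j]
  have hq2 : fr D (p i₂) (q j) = 0 := by rw [pq, if_neg h2j]
  have k1 := key (p i₁) (hWp _) hq1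
  have k2 := key (p i₂) (hWp _) hq2
  have k3 := key (p i₁ + p i₂) (by rw [emb_add]; exact W.add_mem (hWp _) (hWp _))
    (by rw [hfr.add_left, hq1, hq2, add_zero])
  have k4 := key (p i₁ + (⟨δ, hδ⟩ : F₀) • p i₂)
    (by rw [emb_add, emb_smul]; exact W.add_mem (hWp _) (W.smul_mem _ (hWp _)))
    (by rw [hfr.add_left, hfr.smul_left, hq1, hq2]; simp)
  rw [emb_add, hf.add_left] at k3
  rw [emb_add, emb_smul, hf.add_left, hf.smul_left] at k4
  have e5 : (f (emb F₀ (p i₁)) x + f (emb F₀ (p i₂)) x) / a' * β =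
      f (emb F₀ (p i₁)) x / a' * β + f (emb F₀ (p i₂)) x / a' * β := by ring
  have e5' : (f (emb F₀ (p i₁)) x + ((⟨δ, hδ⟩ : F₀) : F) * f (emb F₀ (p i₂)) x) / a' * β =
      f (emb F₀ (p i₁)) x / a' * β + δ * (f (emb F₀ (p i₂)) x / a' * β) := by
    simp only
    ring
  rw [e5] at k3
  rw [e5'] at k4
  have hx2 : f (emb F₀ (p i₂)) x ≠ 0 := f_comm_ne hf (hgen _ (hp0 i₂) (pp _ _))
  have h0 : f (emb F₀ (p i₂)) x / a' * β ≠ 0 := mul_ne_zero (div_ne_zero hx2 ha0) hj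
  have hκ := ratio_norms D.hs hδ hδ' k1 k2 k3 k4 h0
  have e6 : f (emb F₀ (p i₁)) x / a' * β / (f (emb F₀ (p i₂)) x / a' * β) =
      f (emb F₀ (p i₁)) x / f (emb F₀ (p i₂)) x := by
    field_simp
  rw [e6] at hκ
  set κ₀ : F₀ := ⟨_, hκ⟩ with hκ₀
  have hv0 : (1 : F₀) • p i₁ + (-κ₀) • p i₂ ≠ 0 := by
    intro h3
    have h4 := congrArg (fun v => fr D v (q i₁)) h3
    simp only [hfr.add_left, hfr.smul_left, pq, if_neg h12.symm, if_pos, mul_zero,
      add_zero, mul_one, f_zero_left hfr] at h4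
    exact one_ne_zero h4
  have hvv : fr D ((1 : F₀) • p i₁ + (-κ₀) • p i₂) ((1 : F₀) • p i₁ + (-κ₀) • p i₂) = 0 := by
    simp only [hfr.add_left, f_add_right hfr, hfr.smul_left, f_smul_right hfr, pp]
    ring
  apply hgen _ hv0 hvv
  apply f_comm_zero hf
  rw [emb_add, emb_smul, emb_smul, hf.add_left, hf.smul_left, hf.smul_left]
  simp only [OneMemClass.coe_one, NegMemClass.coe_neg, hκ₀]
  field_simp
  ring

/-- Three orthogonal rational hyperbolic pairs. -/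
theorem exists_three_hyp (D : RatData hf F₀) (hn : 10 ≤ Fintype.card ι) :
    ∃ p q : Fin 3 → ι → F₀, (∀ a b, fr D (p a) (q b) = if a = b then 1 else 0) ∧
      (∀ a b, fr D (p a) (p b) = 0) ∧ (∀ a b, fr D (q a) (q b) = 0) := by
  have hfr := fr_unitary D
  obtain ⟨p₁, q₁, a1, a2, a3, -, -⟩ := exists_hyp_perp hfr (hN₀' D) (m := 0) (by omega) ![]
  obtain ⟨p₂, q₂, b1, b2, b3, b4, b5⟩ := exists_hyp_perp hfr (hN₀' D) (m := 2) (by omega) ![p₁, q₁]
  obtain ⟨p₃, q₃, c1, c2, c3, c4, c5⟩ :=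
    exists_hyp_perp hfr (hN₀' D) (m := 4) (by omega) ![p₁, q₁, p₂, q₂]
  have b40 : fr D p₂ p₁ = 0 := by simpa using b4 0
  have b41 : fr D p₂ q₁ = 0 := by simpa using b4 1
  have b50 : fr D q₂ p₁ = 0 := by simpa using b5 0
  have b51 : fr D q₂ q₁ = 0 := by simpa using b5 1
  have c40 : fr D p₃ p₁ = 0 := by simpa using c4 0
  have c41 : fr D p₃ q₁ = 0 := by simpa using c4 1
  have c42 : fr D p₃ p₂ = 0 := by simpa using c4 2
  have c43 : fr D p₃ q₂ = 0 := by simpa using c4 3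
  have c50 : fr D q₃ p₁ = 0 := by simpa using c5 0
  have c51 : fr D q₃ q₁ = 0 := by simpa using c5 1
  have c52 : fr D q₃ p₂ = 0 := by simpa using c5 2
  have c53 : fr D q₃ q₂ = 0 := by simpa using c5 3
  refine ⟨![p₁, p₂, p₃], ![q₁, q₂, q₃], ?_, ?_, ?_⟩
  · intro a b
    fin_cases a <;> fin_cases b <;>
      simp [a1, b1, c1, b41, c41, c43, fr_comm_zero D b50, fr_comm_zero D c50, fr_comm_zero D c52]
  · intro a b
    fin_cases a <;> fin_cases b <;>
      simp [a2, b2, c2, b40, c40, c42, fr_comm_zero D b40, fr_comm_zero D c40, fr_comm_zero D c42]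
  · intro a b
    fin_cases a <;> fin_cases b <;>
      simp [a3, b3, c3, b51, c51, c53, fr_comm_zero D b51, fr_comm_zero D c51, fr_comm_zero D c53]

theorem plane_su (hn : 10 ≤ Fintype.card ι) (hS : NoS D M) (hM : RatM F₀ f M)
    (hMi : ∀ m ∈ M, IsIsom f m) (hgen : ∀ w : ι → F₀, w ≠ 0 → fr D w w = 0 → f x (emb F₀ w) ≠ 0)
    (hxx : f x x = 0) {l₀ : F} (hl₀F : l₀ ∈ F₀) (hl₀t : l₀ + σ l₀ = 0) (hl₀0 : l₀ ≠ 0)
    (hT : tt hf x l₀ ∈ M) : False := by
  classical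
  have hfr := fr_unitary D
  obtain ⟨p, q, pq, pp, qq⟩ := exists_three_hyp D hn
  have hp0 : ∀ i, p i ≠ 0 := by
    intro i h0
    have h3 := pq i i
    rw [h0, f_zero_left hfr, if_pos rfl] at h3
    exact zero_ne_one h3
  let W : Submodule F (ι → F) := Submodule.span F (Set.range (fun i => emb F₀ (p i)))
  have hWp : ∀ i, emb F₀ (p i) ∈ W := fun i => Submodule.subset_span ⟨i, rfl⟩
  have hiso0 : ∀ z ∈ W, ∀ i, f z (emb F₀ (p i)) = 0 := by
    intro z hz i
    induction hz using Submodule.span_induction with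
    | mem z hz =>
      obtain ⟨j, rfl⟩ := hz
      exact f_emb_zero D (pp j i)
    | zero => exact f_zero_left hf _
    | add a b _ _ h1 h2 => rw [hf.add_left, h1, h2, add_zero]
    | smul c a _ h1 => rw [hf.smul_left, h1, mul_zero]
  have hiso : ∀ z ∈ W, ∀ z' ∈ W, f z z' = 0 := by
    intro z hz z' hz'
    induction hz' using Submodule.span_induction with
    | mem z' hz' =>
      obtain ⟨j, rfl⟩ := hz'
      exact hiso0 z hz j
    | zero => exact f_zero_right hf _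
    | add a b _ _ h1 h2 => rw [f_add_right hf, h1, h2, add_zero]
    | smul c a _ h1 => rw [f_smul_right hf, h1, mul_zero]
  have hexpand : ∀ ξ ∈ W, ξ = ∑ j, f ξ (emb F₀ (q j)) • emb F₀ (p j) := by
    intro ξ hξ
    induction hξ using Submodule.span_induction with
    | mem z hz =>
      obtain ⟨i, rfl⟩ := hz
      have h1 : ∀ j, f (emb F₀ (p i)) (emb F₀ (q j)) = if i = j then 1 else 0 := by
        intro j
        have := congrArg Subtype.val (pq i j)
        rw [fr_coe] at this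
        rw [this]
        split_ifs <;> rfl
      simp only [h1, ite_smul, one_smul, zero_smul]
      simp
    | zero => simp [f_zero_left hf]
    | add a b _ _ h1 h2 =>
      conv_lhs => rw [h1, h2]
      rw [← Finset.sum_add_distrib]
      refine Finset.sum_congr rfl fun j _ => ?_
      rw [hf.add_left, add_smul]
    | smul c a _ h1 =>
      conv_lhs => rw [h1]
      rw [Finset.smul_sum]
      refine Finset.sum_congr rfl fun j _ => ?_
      rw [hf.smul_left, smul_smul]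
  have hcoord : ∀ ξ ∈ W, (∀ j, f ξ (emb F₀ (q j)) = 0) → ξ = 0 := by
    intro ξ hξ h
    rw [hexpand ξ hξ]
    simp [h]
  set y : ι → F := emb F₀ (p 0) with hy₀
  have hy : y ∈ W := hWp _
  set a : F := f x y with ha'
  have ha : a ≠ 0 := hgen _ (hp0 0) (pp _ _)
  set a' : F := f y x with ha''
  have ha0 : a' ≠ 0 := f_comm_ne hf ha
  have hyy : f y y = 0 := hiso y hy y hy
  set p₁ : (ι → F) →ₗ[F] F := a⁻¹ • formL hf y with hp₁
  set p₂ : (ι → F) →ₗ[F] F := a'⁻¹ • formL hf x with hp₂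
  have hp₁' : ∀ v, p₁ v = a⁻¹ * f v y := fun v => rfl
  have hp₂' : ∀ v, p₂ v = a'⁻¹ * f v x := fun v => rfl
  have h11 : p₁ x = 1 := by
    rw [hp₁', ← ha', inv_mul_cancel₀ ha]
  have h12' : p₁ y = 0 := by
    rw [hp₁', hyy, mul_zero]
  have h21 : p₂ x = 0 := by
    rw [hp₂', hxx, mul_zero]
  have h22 : p₂ y = 1 := by
    rw [hp₂', ← ha'', inv_mul_cancel₀ ha0]
  let G := PG M x W
  haveI : Finite (GL ι F) := by
    haveI : Finite (Matrix ι ι F) := inferInstanceAs (Finite (ι → ι → F))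
    infer_instance
  haveI : Finite G := inferInstance
  let K := AlgebraicClosure F
  let inc : F →+* K := algebraMap F K
  have hinc : Function.Injective inc := inc.injective
  obtain ⟨ρ, hρ⟩ := exists_plane_rep (K := K) G p₁ p₂ x y h11 h12' h21 h22
    (PG_mul hf hMi hiso hxx hy ha)
  have hstab : ∀ (g : G) (μ : K), ρ g (0, 1) = μ • ((0, 1) : K × K) →
      ∃ c b : K, ∀ s t : K, ρ g (s, t) = c • ((s, t + b * s) : K × K) := by
    intro g μ h
    rw [hρ] at h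
    have h3 := congrArg Prod.fst h
    simp only [Prod.smul_fst, smul_eq_mul, mul_zero, mul_one, add_zero, zero_add] at h3
    have hC : p₁ (((g : GL ι F) : Matrix ι ι F) *ᵥ y) = 0 := hinc (by rw [h3, map_zero])
    rw [hp₁'] at hC
    have hC' : f (((g : GL ι F) : Matrix ι ι F) *ᵥ y) y = 0 :=
      (mul_eq_zero.1 hC).resolve_left (inv_ne_zero ha)
    have hgy := plane_stab hn hS hM hMi hgen pq pp qq hWp hiso hcoord hxx hy ha g.2 hC'
    have hA : p₁ (((g : GL ι F) : Matrix ι ι F) *ᵥ x) = 1 := by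
      rw [hp₁']
      have := hMi g g.2.1 x y
      rw [hgy] at this
      rw [this, ← ha', inv_mul_cancel₀ ha]
    refine ⟨1, inc (p₂ (((g : GL ι F) : Matrix ι ι F) *ᵥ x)), fun s t => ?_⟩
    rw [hρ, hA, hgy, h12', h22]
    simp only [map_one, map_zero, one_mul, zero_mul, add_zero, one_smul]
    apply Prod.ext
    · rfl
    · simp only
      ring
  -- the parabolic elements
  let Par : K → Prop := fun b => ∃ g : G, ∀ s t : K, ρ g (s, t) = (1 : K) • ((s, t + b * s) : K × K)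
  have hPadd : ∀ b b', Par b → Par b' → Par (b + b') := by
    rintro b b' ⟨g, hg⟩ ⟨g', hg'⟩
    refine ⟨g * g', fun s t => ?_⟩
    rw [map_mul, Module.End.mul_apply, hg', one_smul, hg, one_smul, one_smul]
    apply Prod.ext
    · rfl
    · simp only
      ring
  have hPar : ∀ (v : ι → F₀) (l : F), emb F₀ v ∈ W → l ∈ F₀ → l + σ l = 0 →
      Par (inc (l * (f x (emb F₀ v) * σ (f x (emb F₀ v))) / a')) := by
    intro v l hv hlF hlt
    have hvv : fr D v v = 0 := Subtype.ext (hiso _ hv _ hv)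
    have hvv' : f (emb F₀ v) (emb F₀ v) = 0 := f_emb_zero D hvv
    have hmem : tt hf (emb F₀ v) l ∈ G := by
      refine ⟨tt_rat D hM hlF hvv hlt, fun u => ⟨0, (l * f u (emb F₀ v)) • emb F₀ v,
        W.smul_mem _ hv, ?_⟩⟩
      rw [tt_mulVec hf _ hvv']
      simp
    refine ⟨⟨_, hmem⟩, fun s t => ?_⟩
    rw [hρ]
    have hyp : f y (emb F₀ v) = 0 := hiso _ hy _ hv
    have hpy : f (emb F₀ v) y = 0 := hiso _ hv _ hy
    have e1 : p₁ (((tt hf (emb F₀ v) l : GL ι F) : Matrix ι ι F) *ᵥ x) = 1 := by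
      rw [tt_mulVec hf _ hvv', map_add, map_smul, h11, hp₁' (emb F₀ v), hpy]
      simp
    have e2 : p₂ (((tt hf (emb F₀ v) l : GL ι F) : Matrix ι ι F) *ᵥ x) =
        l * (f x (emb F₀ v) * σ (f x (emb F₀ v))) / a' := by
      rw [tt_mulVec hf _ hvv', map_add, map_smul, h21, hp₂' (emb F₀ v), sigma_f hf]
      simp only [smul_eq_mul, zero_add]
      field_simp
    have e3 : p₁ (((tt hf (emb F₀ v) l : GL ι F) : Matrix ι ι F) *ᵥ y) = 0 := by
      rw [tt_mulVec hf _ hvv', hyp]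
      simp [h12']
    have e4 : p₂ (((tt hf (emb F₀ v) l : GL ι F) : Matrix ι ι F) *ᵥ y) = 1 := by
      rw [tt_mulVec hf _ hvv', hyp]
      simp [h22]
    rw [e1, e2, e3, e4]
    simp only [map_one, map_zero, one_mul, zero_mul, add_zero, one_smul]
    apply Prod.ext
    · rfl
    · simp only
      ring
  obtain ⟨δ, hδ, hδ'⟩ := D.hne
  -- the two values
  set a₁ := f x (emb F₀ (p 0)) with ha₁
  set a₂ := f x (emb F₀ (p 1)) with ha₂
  have hvec : ∀ c ∈ F₀, ∃ v : ι → F₀, emb F₀ v ∈ W ∧ v ≠ 0 ∧ fr D v v = 0 ∧ f x (emb F₀ v) = a₁ + c * a₂ := by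
    intro c hc
    refine ⟨(1 : F₀) • p 0 + (⟨σ c, D.hs c hc⟩ : F₀) • p 1, ?_, ?_, ?_, ?_⟩
    · rw [emb_add, emb_smul, emb_smul]
      exact W.add_mem (W.smul_mem _ (hWp _)) (W.smul_mem _ (hWp _))
    · intro h3
      have h4 := congrArg (fun v => fr D v (q 0)) h3
      simp only [hfr.add_left, hfr.smul_left, pq, f_zero_left hfr] at h4
      simp at h4
    · simp only [hfr.add_left, f_add_right hfr, hfr.smul_left, f_smul_right hfr, pp]
      ring
    · rw [f_emb_add_smul D]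
      simp only [OneMemClass.coe_one, map_one, one_mul, hf.involutive]
      rfl
  obtain ⟨b₁, b₂, hb₁, hb₂, hb₁0, hb₂0, hb₁₂, hbs⟩ := four_values (F₀ := F₀) hf.involutive
    (fun b => Par (inc (l₀ * b / a'))) (by
      intro b b' h h'
      have := hPadd _ _ h h'
      rw [← map_add] at this
      convert this using 2
      ring) D.hs hδ hδ' (a₁ := a₁) (a₂ := a₂)
    (by
      intro c hc
      obtain ⟨v, hv, -, -, e⟩ := hvec c hc
      have := hPar v l₀ hv hl₀F hl₀t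
      rw [e] at this
      exact this)
    (hPar _ l₀ (hWp 1) hl₀F hl₀t)
    (by
      intro c hc hcc
      have hl : l₀ * c + σ (l₀ * c) = 0 := by
        rw [map_mul, hcc]
        linear_combination c * hl₀t
      have := hPar (p 0) (l₀ * c) (hWp 0) (F₀.mul_mem hl₀F hc) hl
      convert this using 2
      ring)
    (by
      intro c hc
      obtain ⟨v, -, hv0, hvv, e⟩ := hvec c hc
      rw [← e]
      exact hgen v hv0 hvv)
    (hgen _ (hp0 1) (pp _ _))
  obtain ⟨g₁, hg₁⟩ := hb₁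
  obtain ⟨g₂, hg₂⟩ := hb₂
  have hl₀a : l₀ / a' ≠ 0 := div_ne_zero hl₀0 ha0
  have hval : ∀ b : F, l₀ * b / a' = (l₀ / a') * b := fun b => by ring
  have key := plane_fix ρ hstab hg₁ hg₂
    (by
      rw [Ne, map_eq_zero, hval]
      exact mul_ne_zero hl₀a hb₁0)
    (by
      rw [Ne, map_eq_zero, hval]
      exact mul_ne_zero hl₀a hb₂0)
    (by
      intro h
      have h5 := hinc h
      rw [hval, hval] at h5
      exact hb₁₂ (mul_left_cancel₀ hl₀a h5))
    (by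
      rw [← map_add, Ne, map_eq_zero, hval, hval, ← mul_add]
      exact mul_ne_zero hl₀a hbs)
  have hTG : tt hf x l₀ ∈ G := by
    refine ⟨hT, fun v => ⟨l₀ * f v x, 0, W.zero_mem, ?_⟩⟩
    rw [tt_mulVec hf _ hxx]
    simp
  obtain ⟨μ, hμ⟩ := key ⟨_, hTG⟩
  rw [hρ] at hμ
  have h5 := congrArg Prod.fst hμ
  simp only [Prod.smul_fst, smul_eq_mul, mul_zero, mul_one, add_zero, zero_add] at h5
  have hC0 : p₁ (((tt hf x l₀ : GL ι F) : Matrix ι ι F) *ᵥ y) = 0 := hinc (by rw [h5, map_zero])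
  rw [tt_mulVec hf _ hxx, map_add, map_smul, h12', h11, zero_add, smul_eq_mul, mul_one] at hC0
  exact (mul_ne_zero hl₀0 ha0) hC0

end PlaneMain

end Cfsg.Agent.Lib.SubfieldSU
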