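import Cfsg.Agent.Lib.SubfieldSUc

/-! The subfield subgroups of `SU(f)`: the field of scalars of the root elements, and maximality. -/

set_option autoImplicit false
set_option linter.unusedSectionVars false
set_option linter.unusedSimpArgs false
set_option linter.unusedVariables false

open scoped MatrixGroups Matrix
open Cfsg Cfsg.Geo
open Cfsg.Agent.Lib.Transvection Cfsg.Agent.Lib.LinAlgAux Cfsg.Agent.Lib.SubfieldGroup
  Cfsg.Agent.Lib.SubfieldBase Cfsg.Agent.Lib.FixCount Cfsg.Agent.Lib.UnitaryBase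
  Cfsg.Agent.Lib.UnitaryGen
open Cfsg.Agent.Lib.SymplecticTv (IsIsom Ind Ind.ne_zero_left Ind.ne_zero_right)
open Cfsg.Agent.Lib.SubfieldSp (PG top_of_pred)

namespace Cfsg.Agent.Lib.SubfieldSU

section Witt

variable {ι : Type} [Fintype ι] [DecidableEq ι] {k : Type*} [Field k] [Finite k] {τ : k ≃+* k}
  {g : (ι → k) → (ι → k) → k}

/-- Witt's lemma for orthogonal isotropic pairs. -/
theorem exists_isom_pair (hg : IsUnitaryForm τ g) (hN : ∀ c, τ c = c → ∃ l, l * τ l = c)
    (hn : 6 ≤ Fintype.card ι) {a b a' b' : ι → k} (haa : g a a = 0) (hbb : g b b = 0) (hab : g a b = 0)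
    (hi : Ind a b) (haa' : g a' a' = 0) (hbb' : g b' b' = 0) (hab' : g a' b' = 0) (hi' : Ind a' b') :
    ∃ s ∈ uG hg ⊤, (s : Matrix ι ι k) *ᵥ a = a' ∧ (s : Matrix ι ι k) *ᵥ b = b' := by
  classical
  have htop : Module.finrank k (⊤ : Submodule k (ι → k)) = Fintype.card ι := by simp
  obtain ⟨c, hc1, hc2, hcc⟩ := exists_partner_perp hg haa hab hi
  obtain ⟨c', hc1', hc2', hcc'⟩ := exists_partner_perp hg haa' hab' hi'
  have hca : g c a = 1 := by rw [hg.herm, hc1, map_one]
  have hca' : g c' a' = 1 := by rw [hg.herm, hc1', map_one]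
  obtain ⟨s₁, hs₁, e1, e2⟩ := move_pair hg hN (proj_top g) (by omega) (X := ⊤) (e := a) (e' := c)
    (d := a') (d' := c') trivial trivial trivial trivial haa hcc haa' hcc' hca hca'
  have hi₁ : IsIsom g s₁ := uG_isIsom hs₁
  set X : Submodule k (ι → k) := ⊤ ⊓ LinearMap.ker (formL hg a') ⊓ LinearMap.ker (formL hg c') with hX
  have hXP : Proj g X := Proj.perp_pair hg (proj_top g) trivial trivial haa' hcc' hca'
  have hdim : 4 ≤ Module.finrank k X := by
    have h1 : Module.finrank k (⊤ ⊓ LinearMap.ker (formL hg a') : Submodule k (ι → k)) ≤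
        Module.finrank k X + 1 := Cfsg.Agent.Lib.SymplecticTv.finrank_inf_ker_add_one
      (⊤ ⊓ LinearMap.ker (formL hg a')) (formL hg c')
    have h2 : Module.finrank k (⊤ : Submodule k (ι → k)) ≤
        Module.finrank k (⊤ ⊓ LinearMap.ker (formL hg a') : Submodule k (ι → k)) + 1 :=
      Cfsg.Agent.Lib.SymplecticTv.finrank_inf_ker_add_one ⊤ (formL hg a')
    omega
  set b₁ := (s₁ : Matrix ι ι k) *ᵥ b with hb₁
  have hb₁a : g b₁ a' = 0 := by
    rw [← e1, hb₁, hi₁, f_comm_zero hg hab]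
  have hb₁c : g b₁ c' = 0 := by
    rw [← e2, hb₁, hi₁, hc2]
  have hb₁b₁ : g b₁ b₁ = 0 := by
    rw [hb₁, hi₁, hbb]
  have hb₁0 : b₁ ≠ 0 := by
    intro h
    have := congrArg (fun z => ((s₁⁻¹ : GL ι k) : Matrix ι ι k) *ᵥ z) h
    simp only [hb₁, gl_inv_mulVec_mulVec, Matrix.mulVec_zero] at this
    exact hi.ne_zero_right this
  have hb₁X : b₁ ∈ X := ⟨⟨trivial, hb₁a⟩, hb₁c⟩
  have hb'X : b' ∈ X := ⟨⟨trivial, f_comm_zero hg hab'⟩, hc2'⟩
  obtain ⟨s₂, hs₂, e3⟩ := move_any hg hN hXP hdim hb₁X hb'X hb₁0 hi'.ne_zero_right hb₁b₁ hbb'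
  have hfix : (s₂ : Matrix ι ι k) *ᵥ a' = a' := uG_fix hs₂ fun z hz => f_comm_zero hg hz.1.2
  refine ⟨s₂ * s₁, (uG hg ⊤).mul_mem (uG_mono le_top hs₂) hs₁, ?_, ?_⟩
  · rw [gl_mul_mulVec, e1, hfix]
  · rw [gl_mul_mulVec]
    exact e3

end Witt

variable {ι : Type} [Fintype ι] [DecidableEq ι] {F : Type*} [Field F] {σ : F ≃+* F}
  {f : (ι → F) → (ι → F) → F} {hf : IsUnitaryForm σ f} {F₀ : Subfield F} {D : RatData hf F₀}
  {M : Subgroup (GL ι F)}

/-- Rational isometries lift. -/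
theorem isom_lift (D : RatData hf F₀) {s : GL ι F₀} (hs : IsIsom (fr D) s) :
    IsIsom f (Matrix.GeneralLinearGroup.map (F₀.subtype : F₀ →+* F) s) := by
  apply isIsom_of_rat (hf := hf) (F₀ := F₀)
  intro u v
  rw [map_mulVec_emb, map_mulVec_emb]
  have := hs u v
  have h2 := congrArg Subtype.val this
  simpa [fr_coe] using h2

theorem det_lift {s : GL ι F₀} (hs : s ∈ specialLinear ι F₀) :
    Matrix.GeneralLinearGroup.map (F₀.subtype : F₀ →+* F) s ∈ specialLinear ι F := by
  rw [mem_specialLinear_iff] at hs ⊢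
  have h1 := RingHom.map_det (F₀.subtype : F₀ →+* F) (s : Matrix ι ι F₀)
  rw [hs, map_one] at h1
  exact h1.symm

section Ring

variable [Finite F]

/-- `M` contains the scalar multiples of all pairs, once it contains one. -/
theorem ee_transit (hn : 6 ≤ Fintype.card ι) (hM : RatM F₀ f M) {ρ : F} {a₀ b₀ a b : ι → F₀}
    (h1 : fr D a₀ a₀ = 0) (h2 : fr D b₀ b₀ = 0) (h₀ : fr D a₀ b₀ = 0)
    (hi₀ : Ind a₀ b₀) (h3 : fr D a a = 0) (h4 : fr D b b = 0) (h : fr D a b = 0) (hi : Ind a b)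
    (hA : eich hf (emb F₀ a₀) (ρ • emb F₀ b₀) 0 ∈ M) : eich hf (emb F₀ a) (ρ • emb F₀ b) 0 ∈ M := by
  have hfr := fr_unitary D
  obtain ⟨s, hs, e1, e2⟩ := exists_isom_pair hfr (hN₀' D) hn h1 h2 h₀ hi₀ h3 h4 h hi
  have hli := isom_lift D (uG_isIsom hs)
  have hdet := det_lift (F := F) (uG_det hs)
  set ŝ := Matrix.GeneralLinearGroup.map (F₀.subtype : F₀ →+* F) s with hŝ
  have hŝM : ŝ ∈ M := by
    refine hM _ hli hdet fun u => ?_
    rw [hŝ, map_mulVec_emb]
    exact isRat_emb F₀ _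
  have := M.mul_mem (M.mul_mem hŝM hA) (M.inv_mem hŝM)
  rw [conj_eich hf hli 0 (f_emb_zero D h1) (by rw [f_smul_right hf, f_emb_zero D h₀, mul_zero]),
    Matrix.mulVec_smul, hŝ, map_mulVec_emb, map_mulVec_emb, e1, e2] at this
  exact this

/-- The scalars of the short root elements in `M`. -/
def RR (D : RatData hf F₀) (M : Subgroup (GL ι F)) (t : F) : Prop :=
  ∀ a b : ι → F₀, fr D a a = 0 → fr D b b = 0 → fr D a b = 0 → Ind a b →
    eich hf (emb F₀ a) (t • emb F₀ b) 0 ∈ M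

omit [Finite F] in
theorem RR_rat (hM : RatM F₀ f M) {t : F} (ht : t ∈ F₀) : RR D M t := by
  intro a b h1 h2 h hi
  have hfr := fr_unitary D
  have e : t • emb F₀ b = emb F₀ ((⟨t, ht⟩ : F₀) • b) := by
    rw [emb_smul]
  rw [e]
  refine eich_rat0 D hM h1 ?_ ?_
  · simp only [hfr.smul_left, f_smul_right hfr, h2, mul_zero]
  · rw [f_smul_right hfr, h, mul_zero]

omit [Finite F] in
theorem RR_add {s t : F} (hs : RR D M s) (ht : RR D M t) : RR D M (s + t) := by
  intro a b h1 h2 h hi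
  have h0 : f (emb F₀ a) (emb F₀ b) = 0 := f_emb_zero D h
  have hb : f (emb F₀ b) (emb F₀ b) = 0 := f_emb_zero D h2
  have := M.mul_mem (hs a b h1 h2 h hi) (ht a b h1 h2 h hi)
  rw [eich_mul hf 0 0 (f_emb_zero D h1) (by rw [f_smul_right hf, h0, mul_zero])
    (by rw [f_smul_right hf, h0, mul_zero]), ← add_smul] at this
  have e : (0 : F) + 0 - f (t • emb F₀ b) (s • emb F₀ b) = 0 := by
    rw [hf.smul_left, f_smul_right hf, hb]
    ring
  rwa [e] at this

omit [Finite F] in
theorem eich_inv' {a z : ι → F} (haa : f a a = 0) (haz : f a z = 0) (hzz : f z z = 0) :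
    (eich hf a z 0)⁻¹ = eich hf a (-z) 0 := by
  rw [inv_eq_iff_mul_eq_one, eich_mul hf 0 0 haa haz (by rw [f_neg_right hf, haz, neg_zero]),
    add_neg_cancel, f_neg_left hf, hzz]
  simp only [add_zero, neg_zero, sub_zero]
  exact eich_zero_left' hf haa

omit [Finite F] in
theorem RR_neg {s : F} (hs : RR D M s) : RR D M (-s) := by
  intro a b h1 h2 h hi
  have h0 : f (emb F₀ a) (emb F₀ b) = 0 := f_emb_zero D h
  have hb : f (emb F₀ b) (emb F₀ b) = 0 := f_emb_zero D h2
  have := M.inv_mem (hs a b h1 h2 h hi)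
  rw [eich_inv' (f_emb_zero D h1) (by rw [f_smul_right hf, h0, mul_zero])
    (by rw [hf.smul_left, f_smul_right hf, hb]; ring), ← neg_smul] at this
  exact this

theorem RR_mul (hn : 6 ≤ Fintype.card ι) {s t : F} (hs : RR D M s) (ht : RR D M t) :
    RR D M (s * t) := by
  intro a c haa hcc h hi
  have hfr := fr_unitary D
  obtain ⟨b, b', h1, hbb, hb'b', h2, h3⟩ := exists_hyp_perp hfr (hN₀' D) (m := 2) (by omega) ![a, c]
  have hba : fr D b a = 0 := by simpa using h2 0
  have hbc : fr D b c = 0 := by simpa using h2 1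
  have hb'a : fr D b' a = 0 := by simpa using h3 0
  have hb'c : fr D b' c = 0 := by simpa using h3 1
  have hab : fr D a b = 0 := fr_comm_zero D hba
  have hcb : fr D c b = 0 := fr_comm_zero D hbc
  have hab' : fr D a b' = 0 := fr_comm_zero D hb'a
  have hb'b : fr D b' b = 1 := by
    rw [hfr.herm, h1, map_one]
  have hi1 : Ind a b := ind_swap (ind_of_dual hfr (by rw [h1]; exact one_ne_zero) hab' hi.ne_zero_left)
  have hi2 : Ind b' c := ind_of_dual hfr (c := b) (by rw [hb'b]; exact one_ne_zero) hcb hi.ne_zero_right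
  have hA := hs a b haa hbb hab hi1
  have hB := ht b' c hb'b' hcc hb'c hi2
  have hcomm := M.mul_mem (M.mul_mem hA hB) (M.inv_mem hA)
  set A := eich hf (emb F₀ a) (s • emb F₀ b) 0 with hAd
  have haa' := f_emb_zero D haa
  have hbb'' := f_emb_zero D hbb
  have h0 : f (emb F₀ a) (s • emb F₀ b) = 0 := by
    rw [f_smul_right hf, f_emb_zero D hab, mul_zero]
  have hAi : IsIsom f A := eich_isIsom hf haa' h0
    (by rw [hf.smul_left, f_smul_right hf, hbb'']; simp)
  have hAb' : (A : Matrix ι ι F) *ᵥ emb F₀ b' = emb F₀ b' - σ s • emb F₀ a := by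
    rw [hAd, eich_mulVec hf _ haa' h0, f_smul_right hf, f_emb_zero D hb'a, f_emb_one D hb'b]
    simp
  have hAc : (A : Matrix ι ι F) *ᵥ (t • emb F₀ c) = t • emb F₀ c := by
    rw [Matrix.mulVec_smul, hAd, eich_mulVec hf _ haa' h0, f_smul_right hf,
      f_emb_zero D hcb, f_emb_zero' D h]
    simp
  have hb'c' : f (emb F₀ b') (t • emb F₀ c) = 0 := by
    rw [f_smul_right hf, f_emb_zero D hb'c, mul_zero]
  rw [conj_eich hf hAi 0 (f_emb_zero D hb'b') hb'c', hAb', hAc] at hcomm
  -- the commutator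
  have e : eich hf (emb F₀ b' - σ s • emb F₀ a) (t • emb F₀ c) 0 =
      eich hf (emb F₀ a) ((-(s * t)) • emb F₀ c) 0 * eich hf (emb F₀ b') (t • emb F₀ c) 0 := by
    apply gl_ext_mulVec
    intro z
    have hX : f (emb F₀ b' - σ s • emb F₀ a) (emb F₀ b' - σ s • emb F₀ a) = 0 := by
      simp only [f_sub_left hf, f_sub_right hf, hf.smul_left, f_smul_right hf, f_emb_zero D hb'b', haa',
        f_emb_zero D hb'a, f_emb_zero D hab']
      ring
    have hXc : f (emb F₀ b' - σ s • emb F₀ a) (t • emb F₀ c) = 0 := by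
      simp only [f_sub_left hf, f_smul_right hf, hf.smul_left, f_emb_zero D hb'c, f_emb_zero D h]
      ring
    have hac : f (emb F₀ a) ((-(s * t)) • emb F₀ c) = 0 := by
      rw [f_smul_right hf, f_emb_zero D h, mul_zero]
    rw [gl_mul_mulVec, eich_mulVec hf _ hX hXc, eich_mulVec hf _ (f_emb_zero D hb'b') hb'c',
      eich_mulVec hf _ haa' hac]
    simp only [hf.add_left, f_add_right hf, hf.smul_left, f_smul_right hf, f_sub_left hf, f_sub_right hf,
      f_emb_zero D hb'c, f_emb_zero D hb'b', f_emb_zero D h, f_emb_zero' D h, f_emb_zero' D hb'a,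
      f_emb_zero D hb'a, f_emb_zero D hcc, map_neg, map_mul, hf.involutive]
    simp only [mul_zero, zero_mul, add_zero, sub_zero, zero_smul, zero_add, smul_add, smul_sub, add_smul,
      sub_smul, smul_smul, mul_add, mul_sub, neg_smul]
    module
  rw [e] at hcomm
  have h5 := M.mul_mem hcomm (M.inv_mem hB)
  rw [mul_inv_cancel_right] at h5
  have h6 := M.inv_mem h5
  rw [eich_inv' haa' (by rw [f_smul_right hf, f_emb_zero D h, mul_zero])
    (by rw [hf.smul_left, f_smul_right hf, f_emb_zero D hcc]; ring), ← neg_smul, neg_neg] at h6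
  exact h6

/-- All rational isotropic vectors are full. -/
theorem full_rat (hn : 6 ≤ Fintype.card ι) (hM : RatM F₀ f M) (hall : ∀ t, RR D M t) {d : ι → F₀}
    (hd : d ≠ 0) (hdd : fr D d d = 0) : Full hf M (emb F₀ d) := by
  have hfr := fr_unitary D
  obtain ⟨e₁, e₂, h1, h11, h22, h2, h3⟩ := exists_hyp_perp hfr (hN₀' D) (m := 1) (by omega) ![d]
  have h1d : fr D e₁ d = 0 := by simpa using h2 0
  have h2d : fr D e₂ d = 0 := by simpa using h3 0
  have hd1 : fr D d e₁ = 0 := fr_comm_zero D h1d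
  have hd2 : fr D d e₂ = 0 := fr_comm_zero D h2d
  have h21 : fr D e₂ e₁ = 1 := by
    rw [hfr.herm, h1, map_one]
  have hind1 : Ind e₂ d := ind_of_dual hfr (c := e₁) (by rw [h21]; exact one_ne_zero) hd1 hd
  have hind2 : Ind d e₁ := ind_swap (ind_of_dual hfr (c := e₂) (by rw [h1]; exact one_ne_zero) hd2 hd)
  obtain ⟨δ, hδ, hδ'⟩ := D.hne
  set l₀ := δ - σ δ with hl₀
  have hl₀F : l₀ ∈ F₀ := F₀.sub_mem hδ (D.hs δ hδ)
  have hl₀0 : l₀ ≠ 0 := sub_ne_zero.2 (Ne.symm hδ')
  have hl₀t : l₀ + σ l₀ = 0 := by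
    rw [hl₀, map_sub, hf.involutive]
    ring
  clear_value l₀
  have hdd' := f_emb_zero D hdd
  have h11' := f_emb_zero D h11
  have h22' := f_emb_zero D h22
  have hsq : ∀ ρ : F, tt hf (emb F₀ d) (l₀ * ρ * σ ρ) ∈ M := by
    intro ρ
    have hT := hall ρ e₂ d h22 hdd h2d hind1
    have h0 : f (emb F₀ e₂) (ρ • emb F₀ d) = 0 := by
      rw [f_smul_right hf, f_emb_zero D h2d, mul_zero]
    have hTi : IsIsom f (eich hf (emb F₀ e₂) (ρ • emb F₀ d) 0) := eich_isIsom hf h22' h0
      (by rw [hf.smul_left, f_smul_right hf, hdd']; simp)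
    have hTc : ((eich hf (emb F₀ e₂) (ρ • emb F₀ d) 0 : GL ι F) : Matrix ι ι F) *ᵥ emb F₀ e₁ =
        emb F₀ e₁ + ρ • emb F₀ d := by
      rw [eich_mulVec hf _ h22' h0, f_smul_right hf, f_emb_zero D h1d, f_emb_one D h1]
      simp
    have hTt := tt_rat D hM hl₀F h11 hl₀t
    have h4 := M.mul_mem (M.mul_mem hT hTt) (M.inv_mem hT)
    rw [conj_tt hf hTi l₀ h11', hTc, tt_add_formula hf h11' hdd' (f_emb_zero D h1d) hl₀t] at h4
    have h5 := M.mul_mem h4 (M.inv_mem hTt)
    rw [mul_inv_cancel_right] at h5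
    have h6 := hall (l₀ * σ ρ) d e₁ hdd h11 hd1 hind2
    have h7 : f (emb F₀ d) ((l₀ * σ ρ) • emb F₀ e₁) = 0 := by
      rw [f_smul_right hf, f_emb_zero D hd1, mul_zero]
    rw [eich_eq_mul_tt hf (l₀ * ρ * σ ρ) 0 hdd' h7, sub_zero] at h5
    have h8 := M.mul_mem (M.inv_mem h6) h5
    rwa [inv_mul_cancel_left] at h8
  intro c hc
  have hfix : σ (c / l₀) = c / l₀ := by
    have h1' : σ c = - c := by linear_combination hc
    have h2' : σ l₀ = - l₀ := by linear_combination hl₀t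
    rw [map_div₀, h1', h2', neg_div_neg_eq]
  obtain ⟨ρ, hρ⟩ := D.hN _ hfix
  have e : c = l₀ * ρ * σ ρ := by
    rw [mul_assoc, hρ]
    field_simp
  rw [e]
  exact hsq ρ

/-- Root elements with a rational first vector. -/
theorem AA_all (hn : 6 ≤ Fintype.card ι) (hM : RatM F₀ f M) (hall : ∀ t, RR D M t)
    {Q P : ι → F₀} (hQ : Q ≠ 0) (hQQ : fr D Q Q = 0) (hPP : fr D P P = 0) (hPQ : fr D P Q = 1)
    {u : ι → F} (hu : f u (emb F₀ Q) = 0) : AA hf M (emb F₀ Q) u := by
  have hfr := fr_unitary D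
  have hfull := full_rat hn hM hall hQ hQQ
  have hQQ' := f_emb_zero D hQQ
  have hQP : fr D Q P = 1 := by
    rw [hfr.herm, hPQ, map_one]
  -- isotropic vectors
  have hterm : ∀ (t : F) (b : ι → F₀), fr D b Q = 0 → fr D b b = 0 → AA hf M (emb F₀ Q) (t • emb F₀ b) := by
    intro t b hbQ hbb
    have hQb : fr D Q b = 0 := fr_comm_zero D hbQ
    have h0 : f (emb F₀ Q) (t • emb F₀ b) = 0 := by
      rw [f_smul_right hf, f_emb_zero D hQb, mul_zero]
    have hbb' := f_emb_zero D hbb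
    by_cases hI : Ind Q b
    · refine ⟨h0, 0, ?_, hall t Q b hQQ hbb hQb hI⟩
      rw [hf.smul_left, f_smul_right hf, hbb']
      simp
    · unfold Ind at hI
      push Not at hI
      obtain ⟨s, s', hst, hne⟩ := hI
      have hs : s' ≠ 0 := by
        intro hs0
        rw [hs0, zero_smul, add_zero] at hst
        exact hne ((smul_eq_zero.1 hst).resolve_right hQ) hs0
      have e : b = (-(s'⁻¹ * s)) • Q := by
        have h5 : s' • b = (-s) • Q := by
          rw [neg_smul]
          exact eq_neg_of_add_eq_zero_right hst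
        have h6 := congrArg (fun v => s'⁻¹ • v) h5
        simp only [smul_smul, inv_mul_cancel₀ hs, one_smul] at h6
        rw [h6]
        congr 1
        ring
      set lam : F := t * ((-(s'⁻¹ * s) : F₀) : F) with hlam
      have e2 : t • emb F₀ b = lam • emb F₀ Q := by
        rw [e, emb_smul, smul_smul]
      rw [e2]
      have h7 : f (emb F₀ Q) (lam • emb F₀ Q) = 0 := by
        rw [f_smul_right hf, hQQ', mul_zero]
      refine ⟨h7, 0, ?_, ?_⟩
      · rw [hf.smul_left, f_smul_right hf, hQQ']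
        simp
      · have h8 : eich hf (emb F₀ Q) (lam • emb F₀ Q) 0 = tt hf (emb F₀ Q) (lam - σ lam) := by
          apply gl_ext_mulVec
          intro z
          rw [eich_mulVec hf _ hQQ' h7, tt_mulVec hf _ hQQ', f_smul_right hf]
          module
        rw [h8]
        apply hfull
        rw [map_sub, hf.involutive]
        ring
  -- the perp of the pair
  have hY := Proj.perp_pair hfr (proj_top (fr D)) Submodule.mem_top Submodule.mem_top hQQ hPP hPQ
  set Y := ⊤ ⊓ LinearMap.ker (formL hfr Q) ⊓ LinearMap.ker (formL hfr P) with hYd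
  have hdim : 2 ≤ Module.finrank F₀ Y := by
    have h1 : Module.finrank F₀ (⊤ ⊓ LinearMap.ker (formL hfr Q) : Submodule F₀ (ι → F₀)) ≤
        Module.finrank F₀ Y + 1 := Cfsg.Agent.Lib.SymplecticTv.finrank_inf_ker_add_one
      (⊤ ⊓ LinearMap.ker (formL hfr Q)) (formL hfr P)
    have h2 : Module.finrank F₀ (⊤ : Submodule F₀ (ι → F₀)) ≤
        Module.finrank F₀ (⊤ ⊓ LinearMap.ker (formL hfr Q) : Submodule F₀ (ι → F₀)) + 1 :=
      Cfsg.Agent.Lib.SymplecticTv.finrank_inf_ker_add_one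
      (⊤ : Submodule F₀ (ι → F₀)) (formL hfr Q)
    have h3 : Module.finrank F₀ (⊤ : Submodule F₀ (ι → F₀)) = Fintype.card ι := by simp
    omega
  have hQQ0 : f (emb F₀ Q) (emb F₀ Q) = 0 := hQQ'
  have hYt : ∀ y ∈ Y, ∀ t : F, AA hf M (emb F₀ Q) (t • emb F₀ y) := by
    intro y hy
    refine Proj.iso_induction hfr (hN₀' D) hY hdim
      (fun y => ∀ t : F, AA hf M (emb F₀ Q) (t • emb F₀ y)) ?_ ?_ hy
    · intro a ha haa t
      exact hterm t a ha.1.2 haa
    · intro a _ b _ h1 h2 t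
      rw [emb_add, smul_add]
      exact (h1 t).add hQQ0 (h2 t)
  have hperp : ∀ (b : ι → F₀) (t : F), fr D b Q = 0 → AA hf M (emb F₀ Q) (t • emb F₀ b) := by
    intro b t hbQ
    have h1 : b + (-(fr D b P)) • Q ∈ Y := by
      refine ⟨⟨Submodule.mem_top, ?_⟩, ?_⟩
      · change fr D _ Q = 0
        rw [hfr.add_left, hfr.smul_left, hQQ, hbQ]
        ring
      · change fr D _ P = 0
        rw [hfr.add_left, hfr.smul_left, hQP]
        ring
    have h2 := hYt _ h1 t
    have h3 := hterm (t * (fr D b P : F)) Q hQQ hQQ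
    have h4 := h2.add hQQ0 h3
    convert h4 using 1
    rw [emb_add, emb_smul, NegMemClass.coe_neg]
    module
  set b : ι → ι → F₀ := fun i => Pi.single i 1 + (-(fr D (Pi.single i 1) Q)) • P with hb
  have hbQ : ∀ i, fr D (b i) Q = 0 := by
    intro i
    simp only [hb, hfr.add_left, hfr.smul_left, hPQ]
    ring
  have hsum : ∀ s : Finset ι, AA hf M (emb F₀ Q) (∑ i ∈ s, u i • emb F₀ (b i)) := by
    intro s
    induction s using Finset.induction_on with
    | empty =>
      refine ⟨by simp [f_zero_right hf], 0, by simp [f_zero_left hf], ?_⟩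
      simp only [Finset.sum_empty]
      rw [eich_zero_left' hf hQQ0]
      exact M.one_mem
    | insert i s hi ih =>
      rw [Finset.sum_insert hi]
      exact (hperp _ _ (hbQ i)).add hQQ0 ih
  have hexp : u = ∑ i, u i • emb F₀ (b i) := by
    have h1 : ∀ i, emb F₀ (b i) = Pi.single i 1 - f (Pi.single i 1) (emb F₀ Q) • emb F₀ P := by
      intro i
      simp only [hb, emb_add, emb_smul, emb_single]
      rw [NegMemClass.coe_neg, fr_coe, emb_single, neg_smul, sub_eq_add_neg]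
    have h2 : ∑ i, u i * f (Pi.single i 1) (emb F₀ Q) = 0 := by
      rw [← hu]
      conv_rhs => rw [show u = ∑ i, u i • (Pi.single i 1 : ι → F) by
        ext j
        simp [Finset.sum_apply, Pi.single_apply]]
      have := map_sum (formL hf (emb F₀ Q)) (fun i => u i • (Pi.single i 1 : ι → F)) Finset.univ
      simp only [formL_apply] at this
      rw [this]
      refine Finset.sum_congr rfl fun i _ => ?_
      rw [hf.smul_left]
    have h3 : ∑ i, u i • emb F₀ (b i) = ∑ i, u i • (Pi.single i 1 : ι → F) -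
        (∑ i, u i * f (Pi.single i 1) (emb F₀ Q)) • emb F₀ P := by
      rw [Finset.sum_smul, ← Finset.sum_sub_distrib]
      refine Finset.sum_congr rfl fun i _ => ?_
      rw [h1, smul_sub, smul_smul]
    rw [h3, h2, zero_smul, sub_zero]
    ext j
    simp [Finset.sum_apply, Pi.single_apply]
  have h5 := hsum Finset.univ
  rwa [← hexp] at h5

/-- All isotropic vectors are full. -/
theorem all_full (hn : 6 ≤ Fintype.card ι) (hM : RatM F₀ f M) (hall : ∀ t, RR D M t)
    {v : ι → F} (hvv : f v v = 0) : Full hf M v := by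
  have hfr := fr_unitary D
  by_cases hv : v = 0
  · subst hv
    intro c _
    have : tt hf (0 : ι → F) c = 1 := by
      apply gl_ext_mulVec
      intro y
      rw [tt_mulVec hf _ hvv]
      simp
    rw [this]
    exact M.one_mem
  obtain ⟨Q, hQQ, hc⟩ : ∃ Q : ι → F₀, fr D Q Q = 0 ∧ f v (emb F₀ Q) ≠ 0 := by
    by_contra hcon
    push Not at hcon
    apply hv
    apply eq_zero_of_forall_rat (hf := hf) (F₀ := F₀)
    intro u
    refine rat_of_iso D (by omega) (fun u => f v (emb F₀ u) = 0) hcon ?_ u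
    intro a b h1 h2
    rw [emb_add, f_add_right hf, h1, h2, add_zero]
  have hQ0 : Q ≠ 0 := by
    rintro rfl
    apply hc
    rw [emb_zero, f_zero_right hf]
  obtain ⟨P, -, hPQ, hPP⟩ := (proj_top (fr D)).exists_partner hfr Submodule.mem_top hQ0 hQQ
  have hP0 : P ≠ 0 := by
    rintro rfl
    rw [f_zero_left hfr] at hPQ
    exact zero_ne_one hPQ
  have hPQ' : f (emb F₀ P) (emb F₀ Q) = 1 := f_emb_one D hPQ
  set c := f v (emb F₀ Q) with hcd
  set u := c⁻¹ • v - emb F₀ P with hu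
  have huQ : f u (emb F₀ Q) = 0 := by
    rw [hu, f_sub_left hf, hf.smul_left, hPQ', ← hcd, inv_mul_cancel₀ hc, sub_self]
  have hQQ' := f_emb_zero D hQQ
  have hPP' := f_emb_zero D hPP
  obtain ⟨hQu, c₁, hc₁, hE⟩ := AA_all hn hM hall hQ0 hQQ hPP hPQ huQ
  have hfullQ := full_rat hn hM hall hQ0 hQQ
  have hfullP := full_rat hn hM hall hP0 hPP
  have hsum : emb F₀ P + u = c⁻¹ • v := by
    rw [hu]
    abel
  have hiso : f (emb F₀ P + u) (emb F₀ P + u) = 0 := by
    rw [hsum, hf.smul_left, f_smul_right hf, hvv, mul_zero, mul_zero]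
  have htr : (f (emb F₀ P) u - c₁) + σ (f (emb F₀ P) u - c₁) = 0 := by
    simp only [hf.add_left, f_add_right hf, hPP'] at hiso
    rw [map_sub, sigma_f hf]
    linear_combination hiso - hc₁
  set m := tt hf (emb F₀ Q) (f (emb F₀ P) u - c₁) * eich hf (emb F₀ Q) u c₁ with hm
  have hmM : m ∈ M := M.mul_mem (hfullQ _ htr) hE
  have hEi : IsIsom f (eich hf (emb F₀ Q) u c₁) := eich_isIsom hf hQQ' hQu hc₁
  have hmi : IsIsom f m := (tt_isIsom hf hQQ' htr).mul hEi
  have hPu : ((eich hf (emb F₀ Q) u c₁ : GL ι F) : Matrix ι ι F) *ᵥ emb F₀ P =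
      emb F₀ P + u + (c₁ - f (emb F₀ P) u) • emb F₀ Q := by
    rw [eich_mulVec hf _ hQQ' hQu, hPQ']
    module
  have hmP : (m : Matrix ι ι F) *ᵥ (c • emb F₀ P) = v := by
    rw [Matrix.mulVec_smul, hm, gl_mul_mulVec, hPu, tt_mulVec hf _ hQQ']
    have e2 : f (emb F₀ P + u + (c₁ - f (emb F₀ P) u) • emb F₀ Q) (emb F₀ Q) = 1 := by
      simp only [hf.add_left, hf.smul_left, hPQ', huQ, hQQ']
      ring
    rw [e2]
    have e3 : emb F₀ P + u + (c₁ - f (emb F₀ P) u) • emb F₀ Q +
        ((f (emb F₀ P) u - c₁) * 1) • emb F₀ Q = emb F₀ P + u := by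
      module
    rw [e3, hsum, smul_smul, mul_inv_cancel₀ hc, one_smul]
  have := (hfullP.smul hPP' c).image (by rw [hf.smul_left, f_smul_right hf, hPP']; simp) hmM hmi
  rwa [hmP] at this

end Ring

/-- The main theorem for `P = 1`. -/
theorem subfieldSU_one [Fintype F] (D : RatData hf F₀) (hn : 10 ≤ Fintype.card ι) {r : ℕ} (hr : r.Prime)
    (hcard : Fintype.card F = Nat.card F₀ ^ r) {G : Subgroup (GL ι F)}
    (hG : ∀ g, g ∈ G ↔ IsIsom f g ∧ g ∈ specialLinear ι F) :
    IsMaximalIn G (subfieldSubgroup F₀ 1 ⊓ G) := by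
  classical
  haveI : Nonempty ι := Fintype.card_pos_iff.1 (by omega)
  have hfr := fr_unitary D
  obtain ⟨δ, hδ, hδ'⟩ := D.hne
  set l₀ := δ - σ δ with hl₀
  have hl₀F : l₀ ∈ F₀ := F₀.sub_mem hδ (D.hs δ hδ)
  have hl₀0 : l₀ ≠ 0 := sub_ne_zero.2 (Ne.symm hδ')
  have hl₀t : l₀ + σ l₀ = 0 := by
    rw [hl₀, map_sub, hf.involutive]
    ring
  clear_value l₀
  set H := subfieldSubgroup F₀ 1 ⊓ G with hH
  have hRH : RatM F₀ f H := by
    intro g hi hd hg
    refine Subgroup.mem_inf.2 ⟨(mem_subfield_one_iff F₀).2 ⟨1, one_ne_zero, fun u => ?_⟩, (hG g).2 ⟨hi, hd⟩⟩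
    rw [one_smul]
    exact hg u
  refine ⟨lt_of_le_of_ne inf_le_right ?_, fun M h1 h2 => ?_⟩
  · -- properness
    intro heq
    have hF0 : ∃ l : F, l ∉ F₀ := by
      by_contra hall
      push Not at hall
      have h3 : Function.Surjective (fun x : F₀ => (x : F)) := fun x => ⟨⟨x, hall x⟩, rfl⟩
      have h4 : Fintype.card F ≤ Nat.card F₀ := by
        rw [← Nat.card_eq_fintype_card]
        exact Nat.card_le_card_of_surjective _ h3
      rw [hcard] at h4
      have h5 : 1 < Nat.card F₀ := Finite.one_lt_card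
      have h6 : Nat.card F₀ ^ 1 < Nat.card F₀ ^ r := Nat.pow_lt_pow_right h5 hr.one_lt
      rw [pow_one] at h6
      omega
    obtain ⟨l, hl⟩ := hF0
    -- a non-rational element of trace zero
    obtain ⟨lam, hlam, hlam'⟩ : ∃ lam : F, lam + σ lam = 0 ∧ lam ∉ F₀ := by
      by_contra hall
      push Not at hall
      have hfix : ∀ c, σ c = c → c ∈ F₀ := by
        intro c hc
        have h3 : (c * l₀) + σ (c * l₀) = 0 := by
          rw [map_mul, hc]
          linear_combination c * hl₀t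
        have h4 := hall _ h3
        have e : c = (c * l₀) * l₀⁻¹ := by
          field_simp
        rw [e]
        exact F₀.mul_mem h4 (F₀.inv_mem hl₀F)
      obtain ⟨t₀, ht₀⟩ := exists_trace_eq hfr (c := 1) (map_one _)
      have ht₀' : (t₀ : F) + σ t₀ = 1 := congrArg Subtype.val ht₀
      apply hl
      have hc : σ (l + σ l) = l + σ l := by
        rw [map_add, hf.involutive]
        ring
      have hw : (l - t₀ * (l + σ l)) + σ (l - t₀ * (l + σ l)) = 0 := by
        rw [map_sub, map_mul, hc]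
        linear_combination (-(l + σ l)) * ht₀'
      have e : l = t₀ * (l + σ l) + (l - t₀ * (l + σ l)) := by ring
      rw [e]
      exact F₀.add_mem (F₀.mul_mem t₀.2 (hfix _ hc)) (hall _ hw)
    obtain ⟨u₀, e, h₁, -, hee, -, -⟩ := exists_hyp_perp hfr (hN₀' D) (m := 0) (by omega) ![]
    have he0 : e ≠ 0 := by
      rintro rfl
      rw [f_zero_right hfr] at h₁
      exact zero_ne_one h₁
    obtain ⟨i, hi⟩ := Function.ne_iff.1 he0
    have hei : ((e i : F₀) : F) ≠ 0 := by
      intro h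
      exact hi (Subtype.ext h)
    have hee' := f_emb_zero D hee
    have hmem : tt hf (emb F₀ e) lam ∈ H := by
      rw [heq]
      exact (hG _).2 ⟨tt_isIsom hf hee' hlam, tt_mem_specialLinear hf _ _⟩
    obtain ⟨c, hc0, hc⟩ := (mem_subfield_one_iff F₀).1 (Subgroup.mem_inf.1 hmem).1
    have h3 := hc e i
    have h4 := hc u₀ i
    rw [tt_mulVec hf _ hee'] at h3 h4
    simp only [hee', mul_zero, zero_smul, add_zero, f_emb_one D h₁, mul_one, Pi.smul_apply, Pi.add_apply,
      smul_eq_mul, emb_apply] at h3 h4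
    have hcF : c ∈ F₀ := by
      have e1 : c = (c * (e i : F)) * ((e i : F₀) : F)⁻¹ := by
        field_simp
      rw [e1]
      exact F₀.mul_mem h3 (F₀.inv_mem (e i).2)
    apply hlam'
    have e7 : lam = c⁻¹ * (c * ((u₀ i : F) + lam * (e i : F)) - c * (u₀ i : F)) * ((e i : F₀) : F)⁻¹ := by
      field_simp
      ring
    rw [e7]
    exact F₀.mul_mem (F₀.mul_mem (F₀.inv_mem hcF) (F₀.sub_mem h4 (F₀.mul_mem hcF (u₀ i).2)))
      (F₀.inv_mem (e i).2)
  · have hR : RatM F₀ f M := fun g hi hd hg => h1 (hRH g hi hd hg)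
    have hMi : ∀ m ∈ M, IsIsom f m := fun m hm => ((hG m).1 (h2 hm)).1
    by_cases hS : NoS D M
    · left
      apply le_antisymm _ h1
      intro g hg
      refine Subgroup.mem_inf.2 ⟨?_, h2 hg⟩
      by_contra hgn
      obtain ⟨u, huu, hu0, hu⟩ := exists_nonrat_iso D (by omega) hgn
      set x : ι → F := (g : Matrix ι ι F) *ᵥ emb F₀ u with hx
      have hx0 : x ≠ 0 := by
        intro h
        have h3 := congrArg (fun z => ((g⁻¹ : GL ι F) : Matrix ι ι F) *ᵥ z) h
        simp only [hx, gl_inv_mulVec_mulVec, Matrix.mulVec_zero] at h3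
        exact hu0 (emb_eq_zero F₀ h3)
      have hxx : f x x = 0 := by
        rw [hx, hMi g hg]
        exact f_emb_zero D huu
      have hT : tt hf x l₀ ∈ M := by
        have := M.mul_mem (M.mul_mem hg (tt_rat D hR hl₀F huu hl₀t)) (M.inv_mem hg)
        rwa [conj_tt hf (hMi g hg) l₀ (f_emb_zero D huu)] at this
      by_cases hD : ∃ w : ι → F₀, w ≠ 0 ∧ fr D w w = 0 ∧ f x (emb F₀ w) = 0
      · obtain ⟨w, hw, hww, hxw⟩ := hD
        obtain ⟨c, hc, hc'⟩ := caseD hn hS hR hl₀t hl₀0 hxx hT hw hww hxw hx0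
        exact hu c hc hc'
      · push Not at hD
        exact plane_su hn hS hR hMi hD hxx hl₀F hl₀t hl₀0 hT
    · right
      apply le_antisymm h2
      unfold NoS at hS
      push Not at hS
      obtain ⟨ρ, a₀, b₀, h3, h4, h₀, hi₀, hA, hρ⟩ := hS
      have hall : ∀ t, RR D M t := by
        refine top_of_pred hr hcard (RR D M) (fun t ht => RR_rat hR ht) (fun s t => RR_add)
          (fun s => RR_neg) (fun s t => RR_mul (by omega)) (ρ := ρ) ?_ hρ
        intro a b h5 h6 h hi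
        exact ee_transit (by omega) hR h3 h4 h₀ hi₀ h5 h6 h hi hA
      intro g hg
      have hg' := (hG g).1 hg
      have h5 := isom_mem_uG hf D.hN (by omega) hg'.1 hg'.2
      exact (uG_le fun a _ haa => all_full (by omega) hR hall haa) h5

/-- Transfer of structure. -/
theorem unitary_transfer {g : (ι → F) → (ι → F) → F} (hg : IsUnitaryForm σ g) (P : GL ι F) :
    IsUnitaryForm σ (fun u v => g ((P : Matrix ι ι F) *ᵥ u) ((P : Matrix ι ι F) *ᵥ v)) where
  ne_refl := hg.ne_refl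
  involutive := hg.involutive
  add_left x y v := by
    simp only [Matrix.mulVec_add, hg.add_left]
  smul_left c x v := by
    simp only [Matrix.mulVec_smul, hg.smul_left]
  herm v w := hg.herm _ _
  nondegenerate := by
    intro v hv
    have hv' : (P : Matrix ι ι F) *ᵥ v ≠ 0 := by
      intro h
      have h3 := congrArg (fun z => ((P⁻¹ : GL ι F) : Matrix ι ι F) *ᵥ z) h
      simp only [gl_inv_mulVec_mulVec, Matrix.mulVec_zero] at h3
      exact hv h3
    obtain ⟨⟨a, ha⟩, ⟨b, hb⟩⟩ := hg.nondegenerate _ hv'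
    refine ⟨⟨((P⁻¹ : GL ι F) : Matrix ι ι F) *ᵥ a, ?_⟩, ⟨((P⁻¹ : GL ι F) : Matrix ι ι F) *ᵥ b, ?_⟩⟩
    · simp only [gl_mulVec_inv_mulVec]
      exact ha
    · simp only [gl_mulVec_inv_mulVec]
      exact hb

/-- The main theorem for general `P`. -/
theorem subfieldSU_isMaximalIn [Fintype F] {g : (ι → F) → (ι → F) → F} (hg : IsUnitaryForm σ g)
    (P : GL ι F) (D : RatData (unitary_transfer hg P) F₀) (hn : 10 ≤ Fintype.card ι) {r : ℕ} (hr : r.Prime)
    (hcard : Fintype.card F = Nat.card F₀ ^ r) {G : Subgroup (GL ι F)}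
    (hG : ∀ m, m ∈ G ↔ IsIsom g m ∧ m ∈ specialLinear ι F) :
    IsMaximalIn G (subfieldSubgroup F₀ P ⊓ G) := by
  have hconj : ∀ A : Subgroup (GL ι F),
      (A.map (MulAut.conj P⁻¹).toMonoidHom).map (MulAut.conj P).toMonoidHom = A := by
    intro A
    rw [Subgroup.map_map]
    have : ((MulAut.conj P).toMonoidHom.comp (MulAut.conj P⁻¹).toMonoidHom) = MonoidHom.id _ := by
      apply MonoidHom.ext
      intro m
      change P * (P⁻¹ * m * P⁻¹⁻¹) * P⁻¹ = m
      group
    rw [this, Subgroup.map_id]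
  set G' := G.map (MulAut.conj P⁻¹).toMonoidHom with hG'
  have hG'mem : ∀ m, m ∈ G' ↔ IsIsom (fun u v => g ((P : Matrix ι ι F) *ᵥ u) ((P : Matrix ι ι F) *ᵥ v)) m ∧
      m ∈ specialLinear ι F := by
    intro m
    have hN : (specialLinear ι F).Normal := MonoidHom.normal_ker _
    have e1 : m ∈ G' ↔ P * m * P⁻¹ ∈ G := by
      rw [hG']
      constructor
      · rintro ⟨m', hm', rfl⟩
        simpa [MulAut.conj_apply, mul_assoc] using hm'
      · intro h
        refine ⟨_, h, ?_⟩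
        simp [MulAut.conj_apply, mul_assoc]
    rw [e1, hG]
    constructor
    · rintro ⟨h1, h2⟩
      refine ⟨fun u v => ?_, ?_⟩
      · have h3 := h1 ((P : Matrix ι ι F) *ᵥ u) ((P : Matrix ι ι F) *ᵥ v)
        simp only [gl_mul_mulVec, gl_inv_mulVec_mulVec] at h3
        exact h3
      · have := hN.conj_mem _ h2 P⁻¹
        simpa [mul_assoc] using this
    · rintro ⟨h1, h2⟩
      refine ⟨fun u v => ?_, hN.conj_mem _ h2 P⟩
      have h3 := h1 (((P⁻¹ : GL ι F) : Matrix ι ι F) *ᵥ u) (((P⁻¹ : GL ι F) : Matrix ι ι F) *ᵥ v)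
      simp only [gl_mulVec_inv_mulVec] at h3
      simp only [gl_mul_mulVec]
      exact h3
  have h := isMaximalIn_map_conj P (subfieldSU_one D hn hr hcard hG'mem)
  rw [Subgroup.map_inf _ _ _ (MulAut.conj P).injective, ← subfield_eq_map, hG', hconj] at h
  exact h

end Cfsg.Agent.Lib.SubfieldSU
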