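import Cfsg.Agent.Lib.SubfieldSUd

/-! The subfield subgroups of the standard `SU_n(q)` of odd prime degree. -/

set_option autoImplicit false
set_option linter.unusedSectionVars false
set_option linter.unusedSimpArgs false
set_option linter.unusedVariables false

open scoped MatrixGroups Matrix
open Cfsg Cfsg.Geo
open Cfsg.Agent.Lib.SubfieldGroup Cfsg.Agent.Lib.UnitaryBase Cfsg.Agent.Lib.UnitaryHerm

namespace Cfsg.Agent.Lib.SubfieldSU

variable {F : Type*} [Field F] [Fintype F] {F₀ : Subfield F}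

/-- A subfield of odd degree: its order is a square, and `x ↦ x ^ q` restricts to its involution. -/
theorem odd_subfield_data {q r : ℕ} (hF : Fintype.card F = q ^ 2) (hro : Odd r)
    (hcard : Fintype.card F = Nat.card F₀ ^ r) :
    ∃ w : ℕ, Nat.card F₀ = w ^ 2 ∧ ∀ x ∈ F₀, x ^ q = x ^ w := by
  obtain ⟨t, rfl⟩ := hro
  set s := Nat.card F₀ with hs
  have hs0 : 0 < s := Nat.card_pos
  have e : (s ^ t) ^ 2 * s = q ^ 2 := by
    rw [← hF, hcard]
    ring
  have hd : s ^ t ∣ q := by
    rw [← Nat.pow_dvd_pow_iff two_ne_zero, ← e]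
    exact dvd_mul_right _ _
  obtain ⟨w, rfl⟩ := hd
  have hsw : s = w ^ 2 := by
    rw [mul_pow] at e
    exact Nat.eq_of_mul_eq_mul_left (pow_pos (pow_pos hs0 t) 2) e
  refine ⟨w, hsw, fun x hx => ?_⟩
  haveI : Fintype F₀ := Fintype.ofFinite _
  have hxw : x ^ (w ^ 2) = x := by
    have h1 := FiniteField.pow_card (⟨x, hx⟩ : F₀)
    rw [← Nat.card_eq_fintype_card, ← hs, hsw] at h1
    exact congrArg Subtype.val h1
  have key : ∀ n : ℕ, x ^ (w ^ (2 * n + 1)) = x ^ w := by
    intro n
    induction n with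
    | zero => simp
    | succ n ih =>
      have e1 : w ^ (2 * (n + 1) + 1) = w ^ (2 * n + 1) * w ^ 2 := by ring
      rw [e1, pow_mul, ih, ← pow_mul, mul_comm, pow_mul, hxw]
  have e2 : w ^ (2 * t) = s ^ t := by rw [pow_mul, hsw]
  have e3 : s ^ t * w = w ^ (2 * t + 1) := by rw [pow_succ, e2]
  rw [e3, key]

/-- The main theorem for the standard form. -/
theorem subfieldSU_standard {n q r : ℕ} (hF : Fintype.card F = q ^ 2) (hn : 10 ≤ n) (hr : r.Prime)
    (hro : Odd r) (hcard : Fintype.card F = Nat.card F₀ ^ r) (P : GL (Fin n) F)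
    (hP : IsFormRationalStructure (hermForm n F q) F₀ 1 P) :
    IsMaximalIn (GU n F q ⊓ specialLinear (Fin n) F)
      (subfieldSubgroup F₀ P ⊓ (GU n F q ⊓ specialLinear (Fin n) F)) := by
  classical
  obtain ⟨σ, hσ⟩ := exists_sigma hF
  have hf := hermForm_isUnitary (n := n) hF hσ
  have hN := norm_surjective hF hσ
  obtain ⟨w, hw, hxw⟩ := odd_subfield_data hF hro hcard
  haveI : Fintype F₀ := Fintype.ofFinite _
  have hF₀ : Fintype.card F₀ = w ^ 2 := by
    rw [← Nat.card_eq_fintype_card, hw]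
  obtain ⟨τ, hτ⟩ := exists_sigma hF₀
  have hτf := hermForm_isUnitary (n := 1) hF₀ hτ
  have hNτ := norm_surjective hF₀ hτ
  have hσF : ∀ x : F₀, σ x = ((τ x : F₀) : F) := by
    intro x
    rw [hσ, hxw x x.2, hτ]
    rfl
  have D : RatData (unitary_transfer hf P) F₀ :=
    { hs := fun x hx => by
        rw [hσ]
        exact F₀.pow_mem hx _
      hrat := fun u v => by
        have := hP _ _ (isRat_emb F₀ u) (isRat_emb F₀ v)
        rwa [one_mul] at this
      hne := by
        by_contra hcon
        push Not at hcon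
        apply hτf.ne_refl
        ext x
        change ((τ x : F₀) : F) = x
        rw [← hσF]
        exact hcon x x.2
      hN₀ := fun c hc hc' => by
        have h1 : τ ⟨c, hc⟩ = ⟨c, hc⟩ := Subtype.ext (by rw [← hσF]; exact hc')
        obtain ⟨l, hl⟩ := hNτ _ h1
        refine ⟨l, l.2, ?_⟩
        have := congrArg Subtype.val hl
        rwa [MulMemClass.coe_mul, ← hσF] at this
      hN := hN }
  exact subfieldSU_isMaximalIn hf P D (by simp; omega) hr hcard (fun g => Iff.rfl)

end Cfsg.Agent.Lib.SubfieldSU
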