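import Cfsg.Agent.Lib.SymplecticDecomp

/-! The stabiliser of a pair of complementary Lagrangian subspaces in `Sp`, odd characteristic. -/

set_option autoImplicit false
set_option linter.unusedSectionVars false
set_option linter.unusedSimpArgs false

open scoped MatrixGroups Matrix
open Cfsg Cfsg.Geo
open Cfsg.Agent.Lib.Transvection Cfsg.Agent.Lib.SymplecticTv Cfsg.Agent.Lib.SubspaceStab
  Cfsg.Agent.Lib.LinAlgAux Cfsg.Agent.Lib.SymplecticMax Cfsg.Agent.Lib.SymplecticDecomp

namespace Cfsg.Agent.Lib.SymplecticLag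

variable {ι : Type} [Fintype ι] [DecidableEq ι] {F : Type*} [Field F]
  {f : (ι → F) → (ι → F) → F}

section EE

variable (hf : IsSymplecticForm f)

theorem ee_comm {a b : ι → F} (hab : f a b = 0) : ee hf a b = ee hf b a := by
  apply gl_ext_mulVec
  intro x
  have hba : f b a = 0 := by rw [f_swap hf, hab, neg_zero]
  rw [ee_mulVec hf hab, ee_mulVec hf hba]
  abel

theorem conj_ee {s : GL ι F} (hs : IsIsom f s) (a b : ι → F) :
    s * ee hf a b * s⁻¹ = ee hf ((s : Matrix ι ι F) *ᵥ a) ((s : Matrix ι ι F) *ᵥ b) := by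
  have e1 : s * ee hf a b * s⁻¹ = (s * stv hf (a + b) 1 * s⁻¹) * (s * stv hf a (-1) * s⁻¹) *
      (s * stv hf b (-1) * s⁻¹) := by
    simp only [ee]
    group
  rw [e1, isIsom_conj_stv hf hs, isIsom_conj_stv hf hs, isIsom_conj_stv hf hs, Matrix.mulVec_add]
  rfl

theorem ee_mul {c u v : ι → F} (hcu : f c u = 0) (hcv : f c v = 0) (huv : f u v = 0) :
    ee hf c u * ee hf c v = ee hf c (u + v) := by
  apply gl_ext_mulVec
  intro x
  have hcuv : f c (u + v) = 0 := by rw [hf.bilinear.add_right, hcu, hcv, add_zero]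
  have hvc : f v c = 0 := by rw [f_swap hf, hcv, neg_zero]
  have hvu : f v u = 0 := by rw [f_swap hf, huv, neg_zero]
  rw [gl_mul_mulVec, ee_mulVec hf hcv, ee_mulVec hf hcu, ee_mulVec hf hcuv]
  simp only [hf.bilinear.add_left, hf.bilinear.add_right, hf.bilinear.smul_left, hvc, hvu, hcu,
    hf.alternating c, mul_zero, add_zero, smul_add, add_smul]
  abel

theorem ee_self_smul (a : ι → F) (l : F) : ee hf a (l • a) = stv hf a (2 * l) := by
  apply gl_ext_mulVec
  intro x
  have h : f a (l • a) = 0 := by rw [hf.bilinear.smul_right, hf.alternating, mul_zero]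
  rw [ee_mulVec hf h, stv_mulVec, hf.bilinear.smul_right]
  simp only [smul_smul]
  rw [add_assoc, ← add_smul]
  congr 2
  ring

end EE

/-- A pair of complementary Lagrangian subspaces. -/
structure Lag (W W' : Submodule F (ι → F)) (f : (ι → F) → (ι → F) → F) : Prop where
  isoL : ∀ u ∈ W, ∀ v ∈ W, f u v = 0
  isoR : ∀ u ∈ W', ∀ v ∈ W', f u v = 0
  top : W ⊔ W' = ⊤

theorem Lag.symm {W W' : Submodule F (ι → F)} (h : Lag W W' f) : Lag W' W f :=
  ⟨h.isoR, h.isoL, by rw [sup_comm]; exact h.top⟩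

namespace Lag

variable {W W' : Submodule F (ι → F)} (hL : Lag W W' f) (hf : IsSymplecticForm f)

include hL hf

theorem decomp (z : ι → F) : ∃ z₁ ∈ W, ∃ z₂ ∈ W', z₁ + z₂ = z := by
  have : z ∈ W ⊔ W' := by rw [hL.top]; trivial
  exact Submodule.mem_sup.1 this

theorem eq_zero_of {x : ι → F} (hx : x ∈ W) (h : ∀ y ∈ W', f x y = 0) : x = 0 := by
  by_contra hne
  obtain ⟨-, ⟨z, hz⟩⟩ := hf.nondegenerate x hne
  obtain ⟨z₁, h1, z₂, h2, rfl⟩ := hL.decomp hf z
  apply hz
  rw [hf.bilinear.add_right, hL.isoL x hx z₁ h1, h z₂ h2, add_zero]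

theorem mem_of_forall {b : ι → F} (h : ∀ w ∈ W', f w b = 0) : b ∈ W' := by
  obtain ⟨b₁, h1, b₂, h2, rfl⟩ := hL.decomp hf b
  have : b₁ = 0 := by
    apply hL.eq_zero_of hf h1
    intro y hy
    have h3 := h y hy
    rw [hf.bilinear.add_right, hL.isoR y hy b₂ h2, add_zero] at h3
    rw [f_swap hf, h3, neg_zero]
  rw [this, zero_add]
  exact h2

theorem inf_eq_zero {x : ι → F} (h1 : x ∈ W) (h2 : x ∈ W') : x = 0 :=
  hL.eq_zero_of hf h1 (fun y hy => hL.isoR x h2 y hy)

/-- Dual vectors. -/
theorem exists_dual {K : Submodule F (ι → F)} (hK : K ≤ W) {x : ι → F} (hx : x ∈ W) (hxK : x ∉ K) :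
    ∃ b ∈ W', (∀ y ∈ K, f y b = 0) ∧ f x b = 1 := by
  have hs : x ∉ K ⊔ W' := by
    intro hm
    obtain ⟨k, hk, w, hw, hkw⟩ := Submodule.mem_sup.1 hm
    apply hxK
    have h0 : x - k = 0 := by
      apply hL.inf_eq_zero hf (W.sub_mem hx (hK hk))
      rw [← hkw]
      simpa using hw
    rw [sub_eq_zero.1 h0]
    exact hk
  obtain ⟨φ, h1, h2⟩ := exists_functional_of_notMem hs
  obtain ⟨b, hb⟩ := exists_formL_eq hf φ
  have hφ : ∀ y, f y b = φ y := fun y => by rw [← hb]; rfl
  refine ⟨b, hL.mem_of_forall hf (fun w hw => ?_), fun y hy => ?_, ?_⟩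
  · rw [hφ]
    exact h2 w (Submodule.mem_sup_right hw)
  · rw [hφ]
    exact h2 y (Submodule.mem_sup_left hy)
  · rw [hφ, h1]

/-- The core step: from `E(c, d)` with independent `W`-components to a full vector of `W`. -/
theorem core {M : Subgroup (GL ι F)} (hHE : ∀ a ∈ W, ∀ b ∈ W', f a b = 0 → ee hf a b ∈ M)
    {c d : ι → F} (hcd : f c d = 0) (hE : ee hf c d ∈ M) {c₁ c₂ d₁ d₂ : ι → F} (hc₁ : c₁ ∈ W)
    (hc₂ : c₂ ∈ W') (hd₁ : d₁ ∈ W) (hd₂ : d₂ ∈ W') (hc : c = c₁ + c₂) (hd : d = d₁ + d₂)
    (hc0 : c₁ ≠ 0) (hind : d₁ ∉ Submodule.span F {c₁}) (hdim : 5 ≤ Module.finrank F W)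
    (h2 : (2 : F) ≠ 0) : ∃ a ∈ W, a ≠ 0 ∧ Full hf M a := by
  classical
  -- the choice of `a`
  let A : Submodule F (ι → F) := W ⊓ perp hf c₂ ⊓ perp hf d₂
  have hA : 3 ≤ Module.finrank F A := by
    have h3 := finrank_perp_inf hf W c₂
    have h4 := finrank_perp_inf hf (W ⊓ perp hf c₂) d₂
    have h5 : Module.finrank F A = Module.finrank F ↥(W ⊓ perp hf c₂ ⊓ perp hf d₂) := rfl
    omega
  let S : Submodule F (ι → F) := Submodule.span F {c₁, d₁}
  have hS : Module.finrank F S ≤ 2 := by
    have h3 := finrank_span_finset_le_card (R := F) ({c₁, d₁} : Finset (ι → F))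
    have h4 : ({c₁, d₁} : Finset (ι → F)).card ≤ 2 := Finset.card_le_two
    rw [Finset.coe_insert, Finset.coe_singleton] at h3
    exact h3.trans h4
  obtain ⟨a, haA, haS⟩ : ∃ a ∈ A, a ∉ S := by
    by_contra hcon
    push Not at hcon
    have := Submodule.finrank_mono (show A ≤ S from hcon)
    omega
  have haW : a ∈ W := haA.1.1
  have hac₂ : f a c₂ = 0 := by simpa using haA.1.2
  have had₂ : f a d₂ = 0 := by simpa using haA.2
  have hc₂a : f c₂ a = 0 := by rw [f_swap hf, hac₂, neg_zero]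
  have hd₂a : f d₂ a = 0 := by rw [f_swap hf, had₂, neg_zero]
  have ha0 : a ≠ 0 := by
    rintro rfl
    exact haS (Submodule.zero_mem _)
  have hca : f c a = 0 := by
    rw [hc, hf.bilinear.add_left, hL.isoL c₁ hc₁ a haW, hc₂a, add_zero]
  have hda : f d a = 0 := by
    rw [hd, hf.bilinear.add_left, hL.isoL d₁ hd₁ a haW, hd₂a, add_zero]
  have hac : f a c = 0 := by rw [f_swap hf, hca, neg_zero]
  have had : f a d = 0 := by rw [f_swap hf, hda, neg_zero]
  -- step one
  have hK : d₁ ∉ Submodule.span F {a, c₁} := by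
    intro hm
    obtain ⟨s, t, hst⟩ := Submodule.mem_span_pair.1 hm
    by_cases hs : s = 0
    · apply hind
      rw [← hst, hs, zero_smul, zero_add]
      exact Submodule.smul_mem _ _ (Submodule.mem_span_singleton_self c₁)
    · apply haS
      have e : a = s⁻¹ • d₁ + (-(s⁻¹ * t)) • c₁ := by
        rw [← hst, smul_add, smul_smul, smul_smul, inv_mul_cancel₀ hs, one_smul, add_assoc,
          ← add_smul]
        simp
      rw [e]
      exact Submodule.add_mem _ (Submodule.smul_mem _ _ (Submodule.subset_span (by simp)))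
        (Submodule.smul_mem _ _ (Submodule.subset_span (by simp)))
  have hKW : Submodule.span F {a, c₁} ≤ W := by
    rw [Submodule.span_le]
    rintro z (rfl | rfl)
    · exact haW
    · exact hc₁
  obtain ⟨b, hb, hbK, hbd⟩ := hL.exists_dual hf hKW hd₁ hK
  have hab : f a b = 0 := hbK a (Submodule.subset_span (by simp))
  have hc₁b : f c₁ b = 0 := hbK c₁ (Submodule.subset_span (by simp))
  have hcb : f c b = 0 := by
    rw [hc, hf.bilinear.add_left, hc₁b, hL.isoR c₂ hc₂ b hb, add_zero]
  have hdb : f d b = 1 := by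
    rw [hd, hf.bilinear.add_left, hbd, hL.isoR d₂ hd₂ b hb, add_zero]
  have hs1 := hHE a haW b hb hab
  have hsc : ((ee hf a b : GL ι F) : Matrix ι ι F) *ᵥ c = c := by
    rw [ee_mulVec hf hab, hca, hcb]
    simp
  have hsd : ((ee hf a b : GL ι F) : Matrix ι ι F) *ᵥ d = d + a := by
    rw [ee_mulVec hf hab, hda, hdb]
    simp
  have hE2 : ee hf c (d + a) ∈ M := by
    have := M.mul_mem (M.mul_mem hs1 hE) (M.inv_mem hs1)
    rw [conj_ee hf (ee_isIsom hf a b), hsc, hsd] at this
    exact this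
  have hE3 : ee hf c a ∈ M := by
    have h3 := ee_mul hf hca hcd had
    rw [add_comm] at h3
    have h4 : ee hf c a = ee hf c (d + a) * (ee hf c d)⁻¹ := by
      rw [← h3]
      group
    rw [h4]
    exact M.mul_mem hE2 (M.inv_mem hE)
  have hE4 : ee hf a c ∈ M := by
    rw [ee_comm hf hac]
    exact hE3
  -- step two
  have hc₁a : c₁ ∉ Submodule.span F {a} := by
    intro hm
    apply haS
    obtain ⟨s, hs⟩ := Submodule.mem_span_singleton.1 hm
    have hs0 : s ≠ 0 := by
      rintro rfl
      apply hc0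
      rw [← hs, zero_smul]
    have e : a = s⁻¹ • c₁ := by
      rw [← hs, smul_smul, inv_mul_cancel₀ hs0, one_smul]
    rw [e]
    exact Submodule.smul_mem _ _ (Submodule.subset_span (by simp))
  obtain ⟨b₁, hb₁, hb₁K, hb₁c⟩ := hL.exists_dual hf (K := Submodule.span F {a})
    (by
      rw [Submodule.span_le]
      rintro z rfl
      exact haW) hc₁ hc₁a
  have hab₁ : f a b₁ = 0 := hb₁K a (Submodule.subset_span (by simp))
  have hcb₁ : f c b₁ = 1 := by
    rw [hc, hf.bilinear.add_left, hb₁c, hL.isoR c₂ hc₂ b₁ hb₁, add_zero]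
  refine ⟨a, haW, ha0, fun e => ?_⟩
  -- all parameters
  let l : F := e / 2
  have hl : 2 * l = e := by
    simp only [l]
    field_simp
  rw [← hl, ← ee_self_smul]
  have hab2 : f a (l • b₁) = 0 := by rw [hf.bilinear.smul_right, hab₁, mul_zero]
  have hs2 := hHE a haW (l • b₁) (W'.smul_mem _ hb₁) hab2
  have hsa : ((ee hf a (l • b₁) : GL ι F) : Matrix ι ι F) *ᵥ a = a := by
    rw [ee_mulVec hf hab2, hf.alternating a, hab2]
    simp
  have hsc2 : ((ee hf a (l • b₁) : GL ι F) : Matrix ι ι F) *ᵥ c = c + l • a := by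
    rw [ee_mulVec hf hab2, hca, hf.bilinear.smul_right, hcb₁]
    simp
  have hE5 : ee hf a (c + l • a) ∈ M := by
    have := M.mul_mem (M.mul_mem hs2 hE4) (M.inv_mem hs2)
    rw [conj_ee hf (ee_isIsom hf a _), hsa, hsc2] at this
    exact this
  have hal : f a (l • a) = 0 := by rw [hf.bilinear.smul_right, hf.alternating, mul_zero]
  have hla : f (l • a) c = 0 := by rw [hf.bilinear.smul_left, hac, mul_zero]
  have h3 := ee_mul hf hal hac hla
  rw [add_comm] at h3
  have h4 : ee hf a (l • a) = ee hf a (c + l • a) * (ee hf a c)⁻¹ := by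
    rw [← h3]
    group
  rw [h4]
  exact M.mul_mem hE5 (M.inv_mem hE4)

/-- One full vector of `W` makes all of `W` full. -/
theorem full_of_one {M : Subgroup (GL ι F)} (hHE : ∀ a ∈ W, ∀ b ∈ W', f a b = 0 → ee hf a b ∈ M)
    {a : ι → F} (ha : a ∈ W) (ha0 : a ≠ 0) (hfull : Full hf M a) {z : ι → F} (hz : z ∈ W) :
    Full hf M z := by
  classical
  by_cases hs : z ∈ Submodule.span F {a}
  · obtain ⟨s, rfl⟩ := Submodule.mem_span_singleton.1 hs
    exact hfull.smul s
  · let u := z - a
    have huW : u ∈ W := W.sub_mem hz ha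
    have hau : a ∉ Submodule.span F {u} := by
      intro hm
      obtain ⟨s, hs'⟩ := Submodule.mem_span_singleton.1 hm
      apply hs
      have hs1 : s ≠ 0 := by
        rintro rfl
        apply ha0
        rw [← hs', zero_smul]
      have e : z = (1 + s⁻¹) • a := by
        have : u = s⁻¹ • a := by
          rw [← hs', smul_smul, inv_mul_cancel₀ hs1, one_smul]
        have h3 : z = a + u := by simp [u]
        rw [h3, this, add_smul, one_smul]
      rw [e]
      exact Submodule.smul_mem _ _ (Submodule.mem_span_singleton_self a)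
    obtain ⟨v, hv, hv1, hv2⟩ := hL.exists_dual hf (K := Submodule.span F {u})
      (by
        rw [Submodule.span_le]
        rintro z rfl
        exact huW) ha hau
    have huv : f u v = 0 := hv1 u (Submodule.mem_span_singleton_self u)
    have hE := hHE u huW v hv huv
    have h3 := hfull.image hE (ee_isIsom hf u v)
    rw [ee_mulVec hf huv, hL.isoL a ha u huW, hv2] at h3
    have e : a + (0 : F) • v + (1 : F) • u = z := by simp [u]
    rwa [e] at h3

end Lag

/-! ### Dual bases and the swap -/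

section Swap

variable {A : Type} [Fintype A] [DecidableEq A] (hf : IsSymplecticForm f) (P Q : A → ι → F)

/-- The linear map `P ↦ Q`, `Q ↦ -P`. -/
noncomputable def swapLin : (ι → F) →ₗ[F] (ι → F) :=
  ∑ a, ((formL hf (Q a)).smulRight (Q a) + (formL hf (P a)).smulRight (P a))

theorem swapLin_apply (x : ι → F) :
    swapLin hf P Q x = ∑ a, (f x (Q a) • Q a + f x (P a) • P a) := by
  simp [swapLin, LinearMap.sum_apply]

variable {P Q}
variable (hPQ : ∀ a b, f (P a) (Q b) = if a = b then 1 else 0)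
  (hPP : ∀ a b, f (P a) (P b) = 0) (hQQ : ∀ a b, f (Q a) (Q b) = 0)
  (hexp : ∀ x, x = ∑ a, (f x (Q a) • P a - f x (P a) • Q a))

include hPQ hPP in
theorem swapLin_P (c : A) : swapLin hf P Q (P c) = Q c := by
  rw [swapLin_apply]
  simp only [hPQ, hPP, zero_smul, add_zero, ite_smul, one_smul, Finset.sum_ite_eq, Finset.mem_univ,
    if_true]

include hPQ hQQ in
theorem swapLin_Q (c : A) : swapLin hf P Q (Q c) = - P c := by
  rw [swapLin_apply]
  have h : ∀ a, f (Q c) (P a) = - (if a = c then 1 else 0) := fun a => by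
    rw [f_swap hf, hPQ]
  simp only [hQQ, h, zero_smul, zero_add, neg_smul, ite_smul, one_smul]
  rw [Finset.sum_neg_distrib]
  simp

include hPQ hPP hQQ hexp in
theorem swapLin_swapLin (x : ι → F) : swapLin hf P Q (swapLin hf P Q x) = -x := by
  rw [swapLin_apply hf P Q x, map_sum]
  conv_rhs => rw [hexp x, ← Finset.sum_neg_distrib]
  refine Finset.sum_congr rfl fun a _ => ?_
  rw [map_add, map_smul, map_smul, swapLin_P hf hPQ hPP, swapLin_Q hf hPQ hQQ]
  simp only [smul_neg]
  abel

/-- The element of `GL` given by the swap. -/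
noncomputable def glSwap : GL ι F :=
  glOfLin (swapLin hf P Q) (- swapLin hf P Q)
    (LinearMap.ext fun x => by
      simp only [LinearMap.comp_apply, LinearMap.neg_apply, map_neg, LinearMap.id_apply]
      rw [swapLin_swapLin hf hPQ hPP hQQ hexp, neg_neg])
    (LinearMap.ext fun x => by
      simp only [LinearMap.comp_apply, LinearMap.neg_apply, LinearMap.id_apply]
      rw [swapLin_swapLin hf hPQ hPP hQQ hexp, neg_neg])

theorem glSwap_mulVec (x : ι → F) :
    ((glSwap hf hPQ hPP hQQ hexp : GL ι F) : Matrix ι ι F) *ᵥ x = swapLin hf P Q x :=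
  glOfLin_mulVec _ _ _ _ x

include hPQ hPP hQQ hexp in
theorem swapLin_isom (x y : ι → F) : f (swapLin hf P Q x) (swapLin hf P Q y) = f x y := by
  have hL1 : ∀ b, f (swapLin hf P Q x) (P b) = - f x (Q b) := by
    intro b
    rw [swapLin_apply, SymplecticDecomp.f_sum_left hf]
    have h : ∀ a, f (f x (Q a) • Q a + f x (P a) • P a) (P b) =
        if a = b then - f x (Q a) else 0 := by
      intro a
      rw [hf.bilinear.add_left, hf.bilinear.smul_left, hf.bilinear.smul_left, hPP, f_swap hf (Q a), hPQ]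
      by_cases hab : a = b
      · subst hab
        simp
      · have : b ≠ a := fun h => hab h.symm
        simp [hab, this]
    simp only [h, Finset.sum_ite_eq', Finset.mem_univ, if_true]
  have hL2 : ∀ b, f (swapLin hf P Q x) (Q b) = f x (P b) := by
    intro b
    rw [swapLin_apply, SymplecticDecomp.f_sum_left hf]
    have h : ∀ a, f (f x (Q a) • Q a + f x (P a) • P a) (Q b) =
        if a = b then f x (P a) else 0 := by
      intro a
      rw [hf.bilinear.add_left, hf.bilinear.smul_left, hf.bilinear.smul_left, hQQ, hPQ]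
      by_cases hab : a = b
      · subst hab
        simp
      · simp [hab]
    simp only [h, Finset.sum_ite_eq', Finset.mem_univ, if_true]
  conv_rhs => rw [hexp y]
  rw [swapLin_apply hf P Q y, SymplecticDecomp.f_sum_right hf, SymplecticDecomp.f_sum_right hf]
  refine Finset.sum_congr rfl fun a _ => ?_
  rw [hf.bilinear.add_right, f_sub_right hf, hf.bilinear.smul_right, hf.bilinear.smul_right,
    hf.bilinear.smul_right, hf.bilinear.smul_right, hL1, hL2]
  ring

theorem glSwap_isIsom : IsIsom f (glSwap hf hPQ hPP hQQ hexp) := by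
  intro x y
  rw [glSwap_mulVec, glSwap_mulVec]
  exact swapLin_isom hf hPQ hPP hQQ hexp x y

end Swap

/-- Dual bases for a Lagrangian pair. -/
theorem Lag.exists_swap {W W' : Submodule F (ι → F)} (hL : Lag W W' f) (hf : IsSymplecticForm f) :
    ∃ s : GL ι F, IsIsom f s ∧ (∀ x ∈ W, (s : Matrix ι ι F) *ᵥ x ∈ W') ∧
      (∀ x ∈ W', (s : Matrix ι ι F) *ᵥ x ∈ W) := by
  classical
  let n := Module.finrank F W
  let b : Module.Basis (Fin n) F W := Module.finBasis F W
  let p : Fin n → ι → F := fun i => (b i : ι → F)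
  have hp : ∀ i, p i ∈ W := fun i => (b i).2
  -- a dual vector for each index
  have hq : ∀ i, ∃ q ∈ W', ∀ j, f (p j) q = if j = i then 1 else 0 := by
    intro i
    -- the subspace spanned by the other basis vectors
    let K : Submodule F (ι → F) := Submodule.span F (Set.range fun j : {j // j ≠ i} => p j)
    have hKW : K ≤ W := by
      rw [Submodule.span_le]
      rintro _ ⟨j, rfl⟩
      exact hp j
    have hpK : p i ∉ K := by
      intro hm
      have hm' : (b i) ∈ Submodule.span F (Set.range fun j : {j // j ≠ i} => b j) := by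
        have h4 := (Submodule.map_span W.subtype (Set.range fun j : {j // j ≠ i} => b j))
        have h5 : W.subtype '' (Set.range fun j : {j // j ≠ i} => b j) =
            Set.range fun j : {j // j ≠ i} => p j := by
          ext z
          simp [p]
        have h6 : p i ∈ (Submodule.span F (Set.range fun j : {j // j ≠ i} => b j)).map W.subtype := by
          rw [h4, h5]
          exact hm
        obtain ⟨y, hy, hyz⟩ := h6
        have : y = b i := Subtype.ext hyz
        rwa [this] at hy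
      have hli := b.linearIndependent
      have := hli.notMem_span_image (s := {j | j ≠ i}) (x := i) (by simp)
      apply this
      have h7 : b '' {j | j ≠ i} = Set.range fun j : {j // j ≠ i} => b j := by
        ext z
        simp
      rw [h7]
      exact hm'
    obtain ⟨q, hq, hq1, hq2⟩ := hL.exists_dual hf hKW (hp i) hpK
    refine ⟨q, hq, fun j => ?_⟩
    by_cases hji : j = i
    · subst hji
      simpa using hq2
    · simp only [hji, if_false]
      exact hq1 _ (Submodule.subset_span ⟨⟨j, hji⟩, rfl⟩)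
  choose q hqW hpq using hq
  have hPQ : ∀ i j, f (p i) (q j) = if i = j then 1 else 0 := fun i j => hpq j i
  have hPP : ∀ i j, f (p i) (p j) = 0 := fun i j => hL.isoL _ (hp i) _ (hp j)
  have hQQ : ∀ i j, f (q i) (q j) = 0 := fun i j => hL.isoR _ (hqW i) _ (hqW j)
  -- expansions
  have hexpW : ∀ x ∈ W, x = ∑ i, f x (q i) • p i := by
    intro x hx
    have h1 := b.sum_repr ⟨x, hx⟩
    have h2 := congrArg (Subtype.val) h1
    simp only [Submodule.coe_sum, Submodule.coe_smul] at h2
    have h3 : ∀ i, f x (q i) = b.repr ⟨x, hx⟩ i := by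
      intro i
      conv_lhs => rw [← h2]
      rw [SymplecticDecomp.f_sum_left hf, Finset.sum_eq_single i]
      · rw [hf.bilinear.smul_left]
        simp [hPQ, p]
      · intro j _ hj
        rw [hf.bilinear.smul_left]
        have : f (p j) (q i) = 0 := by simp [hPQ, hj]
        change _ * f (p j) (q i) = 0
        rw [this, mul_zero]
      · simp
    calc x = ∑ i, (b.repr ⟨x, hx⟩ i) • p i := h2.symm
      _ = ∑ i, f x (q i) • p i := Finset.sum_congr rfl fun i _ => by rw [h3 i]
  have hexpW' : ∀ x ∈ W', x = ∑ i, f (p i) x • q i := by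
    intro x hx
    rw [← sub_eq_zero]
    apply hL.symm.eq_zero_of hf (W'.sub_mem hx (Submodule.sum_mem _ fun i _ => W'.smul_mem _ (hqW i)))
    intro y hy
    rw [hexpW y hy, SymplecticDecomp.f_sum_right hf]
    apply Finset.sum_eq_zero
    intro i _
    rw [hf.bilinear.smul_right, f_sub_left hf, SymplecticDecomp.f_sum_left hf,
      Finset.sum_eq_single i]
    · rw [hf.bilinear.smul_left, f_swap hf (q i) (p i), hPQ, f_swap hf x (p i)]
      simp
    · intro j _ hj
      rw [hf.bilinear.smul_left, f_swap hf (q j) (p i), hPQ]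
      simp [hj.symm]
    · simp
  have hexp : ∀ x, x = ∑ i, (f x (q i) • p i - f x (p i) • q i) := by
    intro x
    obtain ⟨x₁, h1, x₂, h2, rfl⟩ := hL.decomp hf x
    have e1 : ∀ i, f (x₁ + x₂) (q i) = f x₁ (q i) := fun i => by
      rw [hf.bilinear.add_left, hL.isoR x₂ h2 _ (hqW i), add_zero]
    have e2 : ∀ i, f (x₁ + x₂) (p i) = - f (p i) x₂ := fun i => by
      rw [hf.bilinear.add_left, hL.isoL x₁ h1 _ (hp i), zero_add, f_swap hf]
    simp only [e1, e2, neg_smul, sub_neg_eq_add]
    rw [Finset.sum_add_distrib, ← hexpW x₁ h1, ← hexpW' x₂ h2]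
  refine ⟨glSwap hf hPQ hPP hQQ hexp, glSwap_isIsom hf hPQ hPP hQQ hexp, ?_, ?_⟩
  · intro x hx
    rw [glSwap_mulVec, swapLin_apply]
    refine Submodule.sum_mem _ fun i _ => ?_
    rw [hL.isoL x hx _ (hp i), zero_smul, add_zero]
    exact W'.smul_mem _ (hqW i)
  · intro x hx
    rw [glSwap_mulVec, swapLin_apply]
    refine Submodule.sum_mem _ fun i _ => ?_
    rw [hL.isoR x hx _ (hqW i), zero_smul, zero_add]
    exact W.smul_mem _ (hp i)

namespace Lag

variable {W W' : Submodule F (ι → F)} (hL : Lag W W' f) (hf : IsSymplecticForm f)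

include hL hf

theorem exists_ne {x : ι → F} (hx : x ∈ W) (hx0 : x ≠ 0) : ∃ y ∈ W', f x y ≠ 0 := by
  by_contra hcon
  push Not at hcon
  exact hx0 (hL.eq_zero_of hf hx hcon)

/-- A non-stabilising element produces a full vector in one of the two subspaces. -/
theorem exists_full {M : Subgroup (GL ι F)} (hHE : ∀ a ∈ W, ∀ b ∈ W', f a b = 0 → ee hf a b ∈ M)
    {g : GL ι F} (hgM : g ∈ M) (hgi : IsIsom f g) {a : ι → F} (ha : a ∈ W)
    (hga1 : (g : Matrix ι ι F) *ᵥ a ∉ W) (hga2 : (g : Matrix ι ι F) *ᵥ a ∉ W')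
    (hdim : 5 ≤ Module.finrank F W) (hdim' : 5 ≤ Module.finrank F W') (h2 : (2 : F) ≠ 0) :
    (∃ z ∈ W, z ≠ 0 ∧ Full hf M z) ∨ (∃ z ∈ W', z ≠ 0 ∧ Full hf M z) := by
  classical
  have hHE' : ∀ a ∈ W', ∀ b ∈ W, f a b = 0 → ee hf a b ∈ M := fun a ha b hb hab => by
    have hba : f b a = 0 := by rw [f_swap hf, hab, neg_zero]
    rw [ee_comm hf hab]
    exact hHE b hb a ha hba
  set c := (g : Matrix ι ι F) *ᵥ a with hcdef
  obtain ⟨c₁, hc₁, c₂, hc₂, hc⟩ := hL.decomp hf c
  have hc10 : c₁ ≠ 0 := by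
    rintro rfl
    apply hga2
    rw [← hc, zero_add]
    exact hc₂
  have hc20 : c₂ ≠ 0 := by
    rintro rfl
    apply hga1
    rw [← hc, add_zero]
    exact hc₁
  -- the choice of `b`
  have hex : ∃ b ∈ W', f b a = 0 ∧ ∃ d₁ ∈ W, ∃ d₂ ∈ W', d₁ + d₂ = (g : Matrix ι ι F) *ᵥ b ∧
      (d₁ ∉ Submodule.span F {c₁} ∨ d₂ ∉ Submodule.span F {c₂}) := by
    by_contra hcon
    push Not at hcon
    let T : Submodule F (ι → F) := Submodule.span F {c₁, c₂}
    have hT : Module.finrank F T ≤ 2 := by
      have h3 := finrank_span_finset_le_card (R := F) ({c₁, c₂} : Finset (ι → F))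
      have h4 : ({c₁, c₂} : Finset (ι → F)).card ≤ 2 := Finset.card_le_two
      rw [Finset.coe_insert, Finset.coe_singleton] at h3
      exact h3.trans h4
    have hle : (W' ⊓ perp hf a).map (glLin g) ≤ T := by
      rintro _ ⟨b, hb, rfl⟩
      obtain ⟨d₁, hd₁, d₂, hd₂, hd⟩ := hL.decomp hf ((g : Matrix ι ι F) *ᵥ b)
      obtain ⟨hd1, hd2⟩ := hcon b hb.1 (by simpa using hb.2) d₁ hd₁ d₂ hd₂ hd
      have e : glLin g b = d₁ + d₂ := by simpa using hd.symm
      rw [e]
      refine Submodule.add_mem _ ?_ ?_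
      · exact (Submodule.span_mono (by simp)) hd1
      · exact (Submodule.span_mono (by simp)) hd2
    have hinj : Function.Injective (glLin g) := by
      intro x y hxy
      have h := congrArg (glLin g⁻¹) hxy
      simpa [gl_inv_mulVec_mulVec] using h
    have h5 := Submodule.finrank_mono hle
    rw [← LinearEquiv.finrank_eq (Submodule.equivMapOfInjective (glLin g) hinj _)] at h5
    have h6 := finrank_perp_inf hf W' a
    omega
  obtain ⟨b, hb, hba, d₁, hd₁, d₂, hd₂, hd, hor⟩ := hex
  have hab : f a b = 0 := by rw [f_swap hf, hba, neg_zero]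
  have hE : ee hf c ((g : Matrix ι ι F) *ᵥ b) ∈ M := by
    have := M.mul_mem (M.mul_mem hgM (hHE a ha b hb hab)) (M.inv_mem hgM)
    rwa [conj_ee hf hgi] at this
  have hcd : f c ((g : Matrix ι ι F) *ᵥ b) = 0 := by rw [hcdef, hgi, hab]
  rcases hor with hor | hor
  · exact Or.inl (hL.core hf hHE hcd hE hc₁ hc₂ hd₁ hd₂ hc.symm hd.symm hc10 hor hdim h2)
  · exact Or.inr (hL.symm.core hf hHE' hcd hE hc₂ hc₁ hd₂ hd₁
      (by rw [add_comm]; exact hc.symm) (by rw [add_comm]; exact hd.symm) hc20 hor hdim' h2)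

end Lag

/-- The stabiliser of a pair of complementary Lagrangian subspaces is maximal when `2 ≠ 0`. -/
theorem lag_isMaximalIn (hf : IsSymplecticForm f)
    (hgen : preserving (glToMat ι F) f ≤ stvGroup hf ⊤) {m : ℕ} {D : Fin 2 → Submodule F (ι → F)}
    (hD : IsMDecomposition m D) (hts : ∀ i, IsTotallySingularFor f (D i)) (hm : 5 ≤ m)
    (h2 : (2 : F) ≠ 0) :
    IsMaximalIn (preserving (glToMat ι F) f)
      (decompositionStabilizer D ⊓ preserving (glToMat ι F) f) := by
  classical
  set W := D 0 with hW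
  set W' := D 1 with hW'
  have hL : Lag W W' f := by
    refine ⟨hts 0, hts 1, ?_⟩
    rw [eq_top_iff, ← hD.iSup_eq_top]
    refine iSup_le fun i => ?_
    fin_cases i
    · exact le_sup_left
    · exact le_sup_right
  have hfinW : Module.finrank F W = m := hD.finrank_eq 0
  have hfinW' : Module.finrank F W' = m := hD.finrank_eq 1
  -- membership in `H`
  have hmemE : ∀ a ∈ W, ∀ b ∈ W', f a b = 0 → ee hf a b ∈ decompositionStabilizer D := by
    intro a ha b hb hab
    refine mem_decomp_of_map hD 1 (fun i y hy => ?_)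
    rw [ee_mulVec hf hab]
    fin_cases i
    · have hy' : y ∈ W := hy
      change y + f y a • b + f y b • a ∈ W
      rw [hL.isoL y hy' a ha, zero_smul, add_zero]
      exact W.add_mem hy' (W.smul_mem _ ha)
    · have hy' : y ∈ W' := hy
      change y + f y a • b + f y b • a ∈ W'
      rw [hL.isoR y hy' b hb, zero_smul, add_zero]
      exact W'.add_mem hy' (W'.smul_mem _ hb)
  obtain ⟨s, hsi, hs1, hs2⟩ := hL.exists_swap hf
  have hsmem : s ∈ decompositionStabilizer D := by
    refine mem_decomp_of_map hD (Equiv.swap 0 1) (fun i y hy => ?_)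
    fin_cases i
    · simpa using hs1 y hy
    · simpa using hs2 y hy
  constructor
  · refine lt_of_le_of_ne inf_le_right ?_
    intro heq
    have hW0 : W ≠ ⊥ := by
      intro h
      rw [h] at hfinW
      simp at hfinW
      omega
    obtain ⟨a, ha, ha0⟩ := Submodule.exists_mem_ne_zero_of_ne_bot hW0
    obtain ⟨y, hy, hay⟩ := hL.exists_ne hf ha ha0
    have hya : f y a ≠ 0 := by
      rw [f_swap hf]
      exact neg_ne_zero.2 hay
    have h1 : stv hf a 1 ∈ preserving (glToMat ι F) f := stv_isIsom hf _ 1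
    rw [← heq] at h1
    obtain ⟨⟨σ, hσ⟩, -⟩ := h1
    have hfix : ((stv hf a 1 : GL ι F) : Matrix ι ι F) *ᵥ a = a := by
      rw [stv_mulVec, hf.alternating]
      simp
    have hmem : a ∈ D (σ 0) := by
      rw [← hσ]
      exact ⟨a, ha, by rw [Matrix.toLin'_apply]; exact hfix⟩
    have hσ0 : σ 0 = 0 := by
      by_contra hne
      have h3 : σ 0 = 1 := by omega
      rw [h3] at hmem
      exact ha0 (hL.inf_eq_zero hf ha hmem)
    have hσ1 : σ 1 = 1 := by
      have h3 : σ 1 ≠ σ 0 := fun h => by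
        have := σ.injective h
        simp at this
      rw [hσ0] at h3
      omega
    have hmem2 : ((stv hf a 1 : GL ι F) : Matrix ι ι F) *ᵥ y ∈ W' := by
      have : ((stv hf a 1 : GL ι F) : Matrix ι ι F) *ᵥ y ∈ D (σ 1) := by
        rw [← hσ]
        exact ⟨y, hy, by rw [Matrix.toLin'_apply]⟩
      rwa [hσ1] at this
    rw [stv_mulVec, one_mul] at hmem2
    have h3 := W'.sub_mem hmem2 hy
    simp only [add_sub_cancel_left] at h3
    have h4 := W'.smul_mem (f y a)⁻¹ h3
    rw [smul_smul, inv_mul_cancel₀ hya, one_smul] at h4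
    exact ha0 (hL.inf_eq_zero hf ha h4)
  · intro M hHM hMS
    by_cases hEq : M = decompositionStabilizer D ⊓ preserving (glToMat ι F) f
    · exact Or.inl hEq
    right
    have hex2 : ∃ g ∈ M, g ∉ decompositionStabilizer D := by
      by_contra hcon
      push Not at hcon
      exact hEq (le_antisymm (fun g hg => ⟨hcon g hg, hMS hg⟩) hHM)
    obtain ⟨g, hgM, hg⟩ := hex2
    have hgi : IsIsom f g := hMS hgM
    have hHE : ∀ a ∈ W, ∀ b ∈ W', f a b = 0 → ee hf a b ∈ M := fun a ha b hb hab =>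
      hHM ⟨hmemE a ha b hb hab, ee_isIsom hf a b⟩
    have hHE' : ∀ a ∈ W', ∀ b ∈ W, f a b = 0 → ee hf a b ∈ M := fun a ha b hb hab => by
      have hba : f b a = 0 := by rw [f_swap hf, hab, neg_zero]
      rw [ee_comm hf hab]
      exact hHE b hb a ha hba
    have hsM : s ∈ M := hHM ⟨hsmem, hsi⟩
    -- `s` preimages
    have hsW : ∀ y ∈ W', ((s⁻¹ : GL ι F) : Matrix ι ι F) *ᵥ y ∈ W := by
      intro y hy
      obtain ⟨x₁, h1, x₂, h2, hx⟩ := hL.decomp hf (((s⁻¹ : GL ι F) : Matrix ι ι F) *ᵥ y)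
      have e := congrArg (fun z => (s : Matrix ι ι F) *ᵥ z) hx
      simp only [gl_mulVec_inv_mulVec, Matrix.mulVec_add] at e
      have h3 : (s : Matrix ι ι F) *ᵥ x₂ = 0 := by
        apply hL.inf_eq_zero hf (hs2 x₂ h2)
        have := W'.sub_mem hy (hs1 x₁ h1)
        rwa [← e, add_sub_cancel_left] at this
      have h4 : x₂ = 0 := by
        have := congrArg (fun z => ((s⁻¹ : GL ι F) : Matrix ι ι F) *ᵥ z) h3
        simpa [gl_inv_mulVec_mulVec] using this
      rw [← hx, h4, add_zero]
      exact h1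
    have hsW' : ∀ y ∈ W, ((s⁻¹ : GL ι F) : Matrix ι ι F) *ᵥ y ∈ W' := by
      intro y hy
      obtain ⟨x₁, h1, x₂, h2, hx⟩ := hL.decomp hf (((s⁻¹ : GL ι F) : Matrix ι ι F) *ᵥ y)
      have e := congrArg (fun z => (s : Matrix ι ι F) *ᵥ z) hx
      simp only [gl_mulVec_inv_mulVec, Matrix.mulVec_add] at e
      have h3 : (s : Matrix ι ι F) *ᵥ x₁ = 0 := by
        apply hL.inf_eq_zero hf _ (hs1 x₁ h1)
        have := W.sub_mem hy (hs2 x₂ h2)
        rwa [← e, add_sub_cancel_right] at this
      have h4 : x₁ = 0 := by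
        have := congrArg (fun z => ((s⁻¹ : GL ι F) : Matrix ι ι F) *ᵥ z) h3
        simpa [gl_inv_mulVec_mulVec] using this
      rw [← hx, h4, zero_add]
      exact h2
    -- a mixed vector
    have hmix : ∃ a, (a ∈ W ∨ a ∈ W') ∧ (g : Matrix ι ι F) *ᵥ a ∉ W ∧
        (g : Matrix ι ι F) *ᵥ a ∉ W' := by
      by_contra hcon
      push Not at hcon
      have h1 : ∀ a ∈ W, glLin g a ∈ W ∨ glLin g a ∈ W' := fun a ha => by
        by_cases h : glLin g a ∈ W
        · exact Or.inl h
        · exact Or.inr (hcon a (Or.inl ha) (by simpa using h))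
      have h2' : ∀ a ∈ W', glLin g a ∈ W ∨ glLin g a ∈ W' := fun a ha => by
        by_cases h : glLin g a ∈ W
        · exact Or.inl h
        · exact Or.inr (hcon a (Or.inr ha) (by simpa using h))
      have hW'0 : W' ≠ ⊥ := by
        intro h
        rw [h] at hfinW'
        simp at hfinW'
        omega
      have hW0 : W ≠ ⊥ := by
        intro h
        rw [h] at hfinW
        simp at hfinW
        omega
      rcases map_union_aux _ h1 with h3 | h3 <;> rcases map_union_aux _ h2' with h4 | h4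
      · -- everything in `W`
        exfalso
        obtain ⟨z, hz, hz0⟩ := Submodule.exists_mem_ne_zero_of_ne_bot hW'0
        obtain ⟨y₁, hy₁, y₂, hy₂, hy⟩ := hL.decomp hf (((g⁻¹ : GL ι F) : Matrix ι ι F) *ᵥ z)
        have e := congrArg (fun u => (g : Matrix ι ι F) *ᵥ u) hy
        simp only [gl_mulVec_inv_mulVec, Matrix.mulVec_add] at e
        have h5 := W.add_mem (by simpa using h3 y₁ hy₁) (by simpa using h4 y₂ hy₂)
        rw [e] at h5
        exact hz0 (hL.inf_eq_zero hf h5 hz)
      · apply hg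
        refine mem_decomp_of_map hD 1 (fun i y hy => ?_)
        fin_cases i
        · simpa using h3 y hy
        · simpa using h4 y hy
      · apply hg
        refine mem_decomp_of_map hD (Equiv.swap 0 1) (fun i y hy => ?_)
        fin_cases i
        · simpa using h3 y hy
        · simpa using h4 y hy
      · -- everything in `W'`
        exfalso
        obtain ⟨z, hz, hz0⟩ := Submodule.exists_mem_ne_zero_of_ne_bot hW0
        obtain ⟨y₁, hy₁, y₂, hy₂, hy⟩ := hL.decomp hf (((g⁻¹ : GL ι F) : Matrix ι ι F) *ᵥ z)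
        have e := congrArg (fun u => (g : Matrix ι ι F) *ᵥ u) hy
        simp only [gl_mulVec_inv_mulVec, Matrix.mulVec_add] at e
        have h5 := W'.add_mem (by simpa using h3 y₁ hy₁) (by simpa using h4 y₂ hy₂)
        rw [e] at h5
        exact hz0 (hL.inf_eq_zero hf hz h5)
    obtain ⟨a, ha, hga1, hga2⟩ := hmix
    have hdim1 : 5 ≤ Module.finrank F W := by omega
    have hdim2 : 5 ≤ Module.finrank F W' := by omega
    have hor : (∃ z ∈ W, z ≠ 0 ∧ Full hf M z) ∨ (∃ z ∈ W', z ≠ 0 ∧ Full hf M z) := by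
      rcases ha with ha | ha
      · exact hL.exists_full hf hHE hgM hgi ha hga1 hga2 hdim1 hdim2 h2
      · exact (hL.symm.exists_full hf hHE' hgM hgi ha hga2 hga1 hdim2 hdim1 h2).symm
    have hfull : (∀ z ∈ W, Full hf M z) ∧ (∀ z ∈ W', Full hf M z) := by
      rcases hor with ⟨z, hz, hz0, hzf⟩ | ⟨z, hz, hz0, hzf⟩
      · have h1 : ∀ u ∈ W, Full hf M u := fun u hu => hL.full_of_one hf hHE hz hz0 hzf hu
        refine ⟨h1, fun u hu => ?_⟩
        have := (h1 _ (hsW u hu)).image hsM hsi
        simpa [gl_mulVec_inv_mulVec] using this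
      · have h1 : ∀ u ∈ W', Full hf M u := fun u hu => hL.symm.full_of_one hf hHE' hz hz0 hzf hu
        refine ⟨fun u hu => ?_, h1⟩
        have := (h1 _ (hsW' u hu)).image hsM hsi
        simpa [gl_mulVec_inv_mulVec] using this
    have hall : ∀ z, Full hf M z := by
      intro z
      obtain ⟨z₁, h1, z₂, h2', rfl⟩ := hL.decomp hf z
      by_cases hz0 : z₁ = 0
      · rw [hz0, zero_add]
        exact hfull.2 _ h2'
      · obtain ⟨y, hy, hzy⟩ := hL.exists_ne hf h1 hz0
        refine (hfull.1 _ h1).translate hfull.2 h2' ⟨y, hy, hzy⟩ ⟨y, hy, ?_⟩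
        rw [hf.bilinear.add_left, hL.isoR z₂ h2' y hy, add_zero]
        exact hzy
    apply le_antisymm hMS
    exact hgen.trans (stvGroup_le hf fun u _ c => hall u c)

end Cfsg.Agent.Lib.SymplecticLag
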