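import Cfsg.Agent.Lib.SubfieldBase
import Cfsg.Agent.Lib.FixCount
import Cfsg.Agent.Lib.SymplecticMax
import Cfsg.Agent.Lib.SymplecticLag
import Cfsg.Agent.Lib.SymplecticDecomp

/-! The subfield subgroups of `Sp(f)` of prime degree are maximal. -/

set_option autoImplicit false
set_option linter.unusedSectionVars false
set_option linter.unusedSimpArgs false
set_option linter.unusedVariables false

open scoped MatrixGroups Matrix
open Cfsg Cfsg.Geo
open Cfsg.Agent.Lib.Transvection Cfsg.Agent.Lib.LinAlgAux Cfsg.Agent.Lib.SubfieldGroup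
  Cfsg.Agent.Lib.SubfieldBase Cfsg.Agent.Lib.FixCount Cfsg.Agent.Lib.SymplecticTv
  Cfsg.Agent.Lib.SymplecticMax Cfsg.Agent.Lib.SymplecticLag Cfsg.Agent.Lib.SymplecticDecomp

namespace Cfsg.Agent.Lib.SubfieldSp

section Exists

variable {ι : Type} [Fintype ι] [DecidableEq ι] {k : Type*} [Field k] {g : (ι → k) → (ι → k) → k}

theorem exists_perp (hg : IsSymplecticForm g) {m : ℕ} (hm : m < Fintype.card ι) (v : Fin m → ι → k) :
    ∃ z : ι → k, z ≠ 0 ∧ ∀ i, g z (v i) = 0 := by
  obtain ⟨z, hz, h⟩ := exists_dot_zero hm (fun i => rowOf (formL hg (v i)))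
  refine ⟨z, hz, fun i => ?_⟩
  have := h i
  rwa [rowOf_dotProduct, formL_apply] at this

theorem exists_hyp_perp (hg : IsSymplecticForm g) {m : ℕ} (hm : 2 * m < Fintype.card ι)
    (v : Fin m → ι → k) :
    ∃ e c : ι → k, g e c = 1 ∧ (∀ i, g e (v i) = 0) ∧ (∀ i, g c (v i) = 0) := by
  classical
  let S : Submodule k (ι → k) := Submodule.span k (Set.range v)
  let A : Matrix (Fin m) ι k := Matrix.of (fun i => rowOf (formL hg (v i)))
  let Kz : Submodule k (ι → k) := LinearMap.ker A.mulVecLin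
  have hKz : ∀ z, z ∈ Kz ↔ ∀ i, g z (v i) = 0 := by
    intro z
    simp only [Kz, LinearMap.mem_ker, Matrix.mulVecLin_apply]
    constructor
    · intro h i
      have := congrFun h i
      simp only [Matrix.mulVec, A, Matrix.of_apply, Pi.zero_apply] at this
      rwa [show (fun j => rowOf (formL hg (v i)) j) = rowOf (formL hg (v i)) from rfl, rowOf_dotProduct,
        formL_apply] at this
    · intro h
      ext i
      simp only [Matrix.mulVec, A, Matrix.of_apply, Pi.zero_apply]
      rw [show (fun j => rowOf (formL hg (v i)) j) = rowOf (formL hg (v i)) from rfl, rowOf_dotProduct,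
        formL_apply]
      exact h i
  have hS : Module.finrank k S ≤ m := by
    have h : Set.finrank k (Set.range v) ≤ m := by
      simpa using finrank_range_le_card (R := k) v
    exact h
  have hK : Fintype.card ι - m ≤ Module.finrank k Kz := by
    have h1 : _ + Module.finrank k Kz = _ := LinearMap.finrank_range_add_finrank_ker A.mulVecLin
    have h2 : Module.finrank k (LinearMap.range A.mulVecLin) ≤ m := by
      have := Submodule.finrank_le (LinearMap.range A.mulVecLin)
      simpa using this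
    have h3 : Module.finrank k (ι → k) = Fintype.card ι := by simp
    omega
  have hnot : ¬ Kz ≤ S := by
    intro h
    have := Submodule.finrank_mono h
    omega
  obtain ⟨e, he, heS⟩ := SetLike.not_le_iff_exists.1 hnot
  obtain ⟨b, hb, hb'⟩ := exists_orth_ne_of_notMem hg heS
  refine ⟨e, (g e b)⁻¹ • b, ?_, (hKz e).1 he, fun i => ?_⟩
  · rw [hg.bilinear.smul_right, inv_mul_cancel₀ hb']
  · rw [hg.bilinear.smul_left]
    have h1 : g (v i) b = 0 := hb _ (Submodule.subset_span ⟨i, rfl⟩)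
    have h2 : g b (v i) = 0 := by rw [hg.skew, h1, neg_zero]
    rw [h2, mul_zero]

theorem ind_of_dual (hg : IsSymplecticForm g) {a b c : ι → k} (h1 : g a c ≠ 0) (h2 : g b c = 0)
    (hb : b ≠ 0) : Ind a b := by
  intro s t h
  have h3 := congrArg (fun z => g z c) h
  simp only [hg.bilinear.add_left, hg.bilinear.smul_left, h2, mul_zero, add_zero, f_zero_left hg] at h3
  have hs : s = 0 := (mul_eq_zero.1 h3).resolve_right h1
  refine ⟨hs, ?_⟩
  rw [hs, zero_smul, zero_add] at h
  exact (smul_eq_zero.1 h).resolve_right hb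

theorem ind_swap {a b : ι → k} (h : Ind a b) : Ind b a := by
  intro s t hst
  have := h t s (by rwa [add_comm])
  exact ⟨this.2, this.1⟩

end Exists

variable {ι : Type} [Fintype ι] [DecidableEq ι] {F : Type*} [Field F]
  {f : (ι → F) → (ι → F) → F}

section Formulas

variable (hf : IsSymplecticForm f)

/-- The expansion of a transvection along an isotropic plane. -/
theorem stv_add_formula {x w : ι → F} (hxw : f x w = 0) (ε l : F) :
    stv hf (x + ε • w) l * (stv hf x l)⁻¹ = ee hf ((l * ε) • x) w * stv hf w (l * ε ^ 2) := by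
  rw [mul_inv_eq_iff_eq_mul]
  apply gl_ext_mulVec
  intro y
  have hwx : f w x = 0 := by rw [f_swap hf, hxw, neg_zero]
  have h1 : f ((l * ε) • x) w = 0 := by rw [hf.bilinear.smul_left, hxw, mul_zero]
  simp only [gl_mul_mulVec, stv_mulVec, ee_mulVec hf h1]
  simp only [hf.bilinear.add_left, hf.bilinear.add_right, hf.bilinear.smul_left,
    hf.bilinear.smul_right, hxw, hwx, hf.alternating x, hf.alternating w]
  simp only [mul_zero, zero_add, add_zero, smul_add, smul_smul]
  generalize f y x = A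
  generalize f y w = B
  module

/-- The Heisenberg relation. -/
theorem ee_stv_mul {u u' w : ι → F} (h : f u w = 0) (h' : f u' w = 0) (μ μ' : F) :
    ee hf u w * stv hf w μ * (ee hf u' w * stv hf w μ') =
      ee hf (u + u') w * stv hf w (f u' u + μ + μ') := by
  apply gl_ext_mulVec
  intro y
  have h0 : f (u + u') w = 0 := by rw [hf.bilinear.add_left, h, h', add_zero]
  have hwu : f w u = 0 := by rw [f_swap hf, h, neg_zero]
  have hwu' : f w u' = 0 := by rw [f_swap hf, h', neg_zero]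
  simp only [gl_mul_mulVec, stv_mulVec, ee_mulVec hf h, ee_mulVec hf h', ee_mulVec hf h0]
  simp only [hf.bilinear.add_left, hf.bilinear.add_right, hf.bilinear.smul_left,
    hf.bilinear.smul_right, h, h', hwu, hwu', hf.alternating u, hf.alternating w, hf.alternating u']
  simp only [mul_zero, zero_add, add_zero, smul_add, smul_smul]
  generalize f y u = A
  generalize f y u' = B
  generalize f y w = C
  generalize f u' u = D
  generalize f u u' = E
  module

theorem ee_zero_left (w : ι → F) : ee hf 0 w = 1 := by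
  apply gl_ext_mulVec
  intro y
  have h : f 0 w = 0 := f_zero_left hf w
  rw [ee_mulVec hf h]
  simp [f_zero_right hf]

theorem stv_zero (w : ι → F) : stv hf w 0 = 1 := by
  apply gl_ext_mulVec
  intro y
  simp

theorem ee_add_of_orth {u u' w : ι → F} (h : f u w = 0) (h' : f u' w = 0) (huu : f u' u = 0) :
    ee hf u w * ee hf u' w = ee hf (u + u') w := by
  have := ee_stv_mul hf h h' 0 0
  rw [huu, stv_zero, add_zero, add_zero, stv_zero, mul_one, mul_one, mul_one] at this
  exact this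

/-- The inverse of `ee`. -/
theorem ee_inv {u w : ι → F} (h : f u w = 0) : (ee hf u w)⁻¹ = ee hf (-u) w := by
  rw [inv_eq_iff_mul_eq_one]
  have h' : f (-u) w = 0 := by
    have : (-u) = (-1 : F) • u := by simp
    rw [this, hf.bilinear.smul_left, h, mul_zero]
  have huu : f (-u) u = 0 := by
    have : (-u) = (-1 : F) • u := by simp
    rw [this, hf.bilinear.smul_left, hf.alternating, mul_zero]
  rw [ee_add_of_orth hf h h' huu, add_neg_cancel, ee_zero_left]

/-- The mixed element `ee u w * stv w μ` is in `M` for some `μ`. -/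
def AA (M : Subgroup (GL ι F)) (w u : ι → F) : Prop :=
  f u w = 0 ∧ ∃ μ, ee hf u w * stv hf w μ ∈ M

variable {hf} {M : Subgroup (GL ι F)}

theorem AA.add {w u u' : ι → F} (h : AA hf M w u) (h' : AA hf M w u') : AA hf M w (u + u') := by
  obtain ⟨h1, μ, h2⟩ := h
  obtain ⟨h3, μ', h4⟩ := h'
  refine ⟨by rw [hf.bilinear.add_left, h1, h3, add_zero], f u' u + μ + μ', ?_⟩
  rw [← ee_stv_mul hf h1 h3 μ μ']
  exact M.mul_mem h2 h4

theorem AA.neg {w u : ι → F} (h : AA hf M w u) : AA hf M w (-u) := by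
  obtain ⟨h1, μ, h2⟩ := h
  have h' : f (-u) w = 0 := by
    have : (-u) = (-1 : F) • u := by simp
    rw [this, hf.bilinear.smul_left, h1, mul_zero]
  refine ⟨h', -μ, ?_⟩
  have huu : f (-u) u = 0 := by
    have : (-u) = (-1 : F) • u := by simp
    rw [this, hf.bilinear.smul_left, hf.alternating, mul_zero]
  have h3 := ee_stv_mul hf h1 h' μ (-μ)
  rw [huu, zero_add, add_neg_cancel, add_neg_cancel, stv_zero, ee_zero_left, mul_one] at h3
  rw [eq_inv_of_mul_eq_one_right h3]
  exact M.inv_mem h2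

theorem AA.conj {w u : ι → F} (h : AA hf M w u) {G : GL ι F} (hG : G ∈ M) (hi : IsIsom f G)
    (hw : (G : Matrix ι ι F) *ᵥ w = w) : AA hf M w ((G : Matrix ι ι F) *ᵥ u) := by
  obtain ⟨h1, μ, h2⟩ := h
  refine ⟨?_, μ, ?_⟩
  · have := hi u w
    rw [hw] at this
    rw [this, h1]
  · have e : G * (ee hf u w * stv hf w μ) * G⁻¹ = (G * ee hf u w * G⁻¹) * (G * stv hf w μ * G⁻¹) := by
      group
    have h3 := M.mul_mem (M.mul_mem hG h2) (M.inv_mem hG)
    rw [e, conj_ee hf hi, isIsom_conj_stv hf hi, hw] at h3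
    exact h3

theorem AA.conj_sub {w u : ι → F} (h : AA hf M w u) {G : GL ι F} (hG : G ∈ M) (hi : IsIsom f G)
    (hw : (G : Matrix ι ι F) *ᵥ w = w) : AA hf M w ((G : Matrix ι ι F) *ᵥ u - u) := by
  rw [sub_eq_add_neg]
  exact (h.conj hG hi hw).add h.neg

end Formulas

section Rat

variable (hf : IsSymplecticForm f) {F₀ : Subfield F}
  (hrat : ∀ u v : ι → F₀, f (emb F₀ u) (emb F₀ v) ∈ F₀)

/-- The rational form. -/
def fr (u v : ι → F₀) : F₀ := ⟨f (emb F₀ u) (emb F₀ v), hrat u v⟩

@[simp] theorem fr_coe (u v : ι → F₀) : ((fr hrat u v : F₀) : F) = f (emb F₀ u) (emb F₀ v) := rfl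

include hf in
theorem exists_single_ne {x : ι → F} (hx : x ≠ 0) : ∃ i, f x (Pi.single i 1) ≠ 0 := by
  obtain ⟨y, hy⟩ := (hf.nondegenerate x hx).2
  by_contra hall
  push Not at hall
  have h1 : formR hf x = 0 := by
    apply LinearMap.pi_ext'
    intro i
    apply LinearMap.ext_ring
    simpa using hall i
  exact hy (LinearMap.congr_fun h1 y)

include hf in
theorem fr_symp : IsSymplecticForm (fr hrat) where
  bilinear :=
    { add_left := fun x y v => Subtype.ext (by
        simp only [fr_coe, emb_add, AddMemClass.coe_add]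
        exact hf.bilinear.add_left _ _ _)
      smul_left := fun c x v => Subtype.ext (by
        simp only [fr_coe, emb_smul, MulMemClass.coe_mul]
        exact hf.bilinear.smul_left _ _ _)
      add_right := fun v x y => Subtype.ext (by
        simp only [fr_coe, emb_add, AddMemClass.coe_add]
        exact hf.bilinear.add_right _ _ _)
      smul_right := fun c v x => Subtype.ext (by
        simp only [fr_coe, emb_smul, MulMemClass.coe_mul]
        exact hf.bilinear.smul_right _ _ _) }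
  skew := fun v w => Subtype.ext (by
    simp only [fr_coe, NegMemClass.coe_neg]
    exact hf.skew _ _)
  alternating := fun v => Subtype.ext (by
    simp only [fr_coe, ZeroMemClass.coe_zero]
    exact hf.alternating _)
  nondegenerate := by
    intro v hv
    have hv' : emb F₀ v ≠ 0 := fun h => hv (emb_eq_zero F₀ h)
    obtain ⟨i, hi⟩ := exists_single_ne hf hv'
    have h1 : fr hrat v (Pi.single i 1) ≠ 0 := by
      intro h
      apply hi
      have := congrArg Subtype.val h
      rwa [fr_coe, emb_single] at this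
    refine ⟨⟨Pi.single i 1, ?_⟩, ⟨Pi.single i 1, h1⟩⟩
    intro h
    apply h1
    apply Subtype.ext
    have := congrArg Subtype.val h
    rw [fr_coe, emb_single, hf.skew] at this
    rw [fr_coe, emb_single]
    simpa using this

theorem f_emb_zero {u v : ι → F₀} (h : fr hrat u v = 0) : f (emb F₀ u) (emb F₀ v) = 0 :=
  congrArg Subtype.val h

include hf hrat in
/-- A vector pairing rationally with the rational vectors is rational. -/
theorem isRat_of_forall {v : ι → F} (h : ∀ u : ι → F₀, f v (emb F₀ u) ∈ F₀) : IsRat F₀ v := by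
  intro i
  have hfr := fr_symp hf hrat
  obtain ⟨c, hc⟩ := exists_formL_eq hfr (LinearMap.proj i : (ι → F₀) →ₗ[F₀] F₀)
  have h1 : ∀ u : ι → F₀, f (emb F₀ u) (emb F₀ c) = (u i : F) := by
    intro u
    have := LinearMap.congr_fun hc u
    simp only [formL_apply, LinearMap.proj_apply] at this
    rw [← fr_coe hrat, this]
  have h2 : formL hf (emb F₀ c) = LinearMap.proj i := by
    apply LinearMap.pi_ext'
    intro j
    apply LinearMap.ext_ring
    have := h1 (Pi.single j 1)
    rw [emb_single] at this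
    simp only [LinearMap.comp_apply, LinearMap.single_apply, formL_apply, LinearMap.proj_apply, this]
    by_cases hij : i = j
    · subst hij
      simp
    · simp [Pi.single_eq_of_ne hij]
  have h3 := LinearMap.congr_fun h2 v
  simp only [formL_apply, LinearMap.proj_apply] at h3
  rw [← h3]
  exact h _

include hf in
/-- A matrix which is an isometry on rational vectors is an isometry. -/
theorem isIsom_of_rat {g : GL ι F} (h : ∀ u v : ι → F₀,
    f ((g : Matrix ι ι F) *ᵥ emb F₀ u) ((g : Matrix ι ι F) *ᵥ emb F₀ v) = f (emb F₀ u) (emb F₀ v)) :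
    IsIsom f g := by
  have h1 : ∀ (v : ι → F₀) (x : ι → F),
      f ((g : Matrix ι ι F) *ᵥ x) ((g : Matrix ι ι F) *ᵥ emb F₀ v) = f x (emb F₀ v) := by
    intro v x
    have h2 : formL hf ((g : Matrix ι ι F) *ᵥ emb F₀ v) ∘ₗ glLin g = formL hf (emb F₀ v) := by
      apply LinearMap.pi_ext'
      intro i
      apply LinearMap.ext_ring
      have := h (Pi.single i 1) v
      rw [emb_single] at this
      simpa using this
    have h3 := LinearMap.congr_fun h2 x
    simpa using h3
  intro x y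
  have h2 : formR hf ((g : Matrix ι ι F) *ᵥ x) ∘ₗ glLin g = formR hf x := by
    apply LinearMap.pi_ext'
    intro i
    apply LinearMap.ext_ring
    have := h1 (Pi.single i 1) x
    rw [emb_single] at this
    simpa [formR] using this
  have h3 := LinearMap.congr_fun h2 y
  simpa [formR] using h3

/-- `M` contains the rational isometries. -/
def RatM (F₀ : Subfield F) (f : (ι → F) → (ι → F) → F) (M : Subgroup (GL ι F)) : Prop :=
  ∀ g : GL ι F, IsIsom f g → (∀ u : ι → F₀, IsRat F₀ ((g : Matrix ι ι F) *ᵥ emb F₀ u)) → g ∈ M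

variable {M : Subgroup (GL ι F)}

theorem isRat_add_smul {F₀ : Subfield F} {x z : ι → F} {c : F} (hx : IsRat F₀ x) (hz : IsRat F₀ z)
    (hc : c ∈ F₀) : IsRat F₀ (x + c • z) := fun i => by
  simp only [Pi.add_apply, Pi.smul_apply, smul_eq_mul]
  exact F₀.add_mem (hx i) (F₀.mul_mem hc (hz i))

include hrat in
theorem stv_rat (hM : RatM F₀ f M) (a : ι → F₀) {c : F} (hc : c ∈ F₀) : stv hf (emb F₀ a) c ∈ M := by
  refine hM _ (stv_isIsom hf _ _) fun u => ?_
  rw [stv_mulVec]
  exact isRat_add_smul (isRat_emb F₀ u) (isRat_emb F₀ a) (F₀.mul_mem hc (hrat u a))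

include hrat in
theorem ee_rat (hM : RatM F₀ f M) {a b : ι → F₀} (h : fr hrat a b = 0) :
    ee hf (emb F₀ a) (emb F₀ b) ∈ M := by
  refine hM _ (ee_isIsom hf _ _) fun u => ?_
  rw [ee_mulVec hf (f_emb_zero hrat h)]
  exact isRat_add_smul (isRat_add_smul (isRat_emb F₀ u) (isRat_emb F₀ b) (hrat u a))
    (isRat_emb F₀ a) (hrat u b)

/-- No non-rational root elements. -/
def NoS (M : Subgroup (GL ι F)) : Prop :=
  ∀ (ρ : F) (a b : ι → F₀), fr hrat a b = 0 → Ind a b →
    ee hf (ρ • emb F₀ a) (emb F₀ b) ∈ M → ρ ∈ F₀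

section Main

variable {hf hrat}

theorem AA_rat (hn : 9 ≤ Fintype.card ι) (hS : NoS hf hrat M) (hM : RatM F₀ f M) {w e : ι → F₀}
    (hew : fr hrat e w = 0) (hind : Ind e w) {ρ : F} (hA : AA hf M (emb F₀ w) (ρ • emb F₀ e)) :
    ρ ∈ F₀ := by
  have hfr := fr_symp hf hrat
  have hw0 : w ≠ 0 := hind.ne_zero_right
  -- a dual vector
  have hsp : e ∉ Submodule.span F₀ {w} := by
    intro h
    obtain ⟨t, ht⟩ := Submodule.mem_span_singleton.1 h
    have := hind (-1) t (by rw [ht]; simp)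
    simp at this
  obtain ⟨φ, hφ1, hφ2⟩ := exists_functional_of_not_mem_span hsp
  obtain ⟨c₄, hc₄⟩ := exists_formL_eq hfr φ
  have he1 : fr hrat e c₄ = 1 := by rw [← hφ1, ← hc₄]; rfl
  have hw1 : fr hrat w c₄ = 0 := by rw [← hφ2, ← hc₄]; rfl
  obtain ⟨e₃, c₅, h1, h2, h3⟩ := exists_hyp_perp hfr (m := 3) (by omega) ![w, e, c₄]
  have h20 : fr hrat e₃ w = 0 := by simpa using h2 0
  have h21 : fr hrat e₃ e = 0 := by simpa using h2 1
  have h22 : fr hrat e₃ c₄ = 0 := by simpa using h2 2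
  have h30 : fr hrat c₅ w = 0 := by simpa using h3 0
  have hw₅ : fr hrat w c₅ = 0 := by rw [hfr.skew, h30, neg_zero]
  have he₃ : e₃ ≠ 0 := by
    rintro rfl
    have : fr hrat 0 c₅ = 0 := f_zero_left hfr c₅
    rw [this] at h1
    exact zero_ne_one h1
  have hind3 : Ind e₃ w := ind_of_dual hfr (by rw [h1]; exact one_ne_zero) hw₅ hw0
  -- the move
  have hc₄e₃ : f (emb F₀ c₄) (emb F₀ e₃) = 0 := by
    have : fr hrat c₄ e₃ = 0 := by rw [hfr.skew, h22, neg_zero]
    exact f_emb_zero hrat this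
  set G := ee hf (emb F₀ c₄) (emb F₀ e₃) with hG
  have hGM : G ∈ M := ee_rat hf hrat hM (by rw [hfr.skew, h22, neg_zero])
  have hGi : IsIsom f G := ee_isIsom hf _ _
  have hGw : (G : Matrix ι ι F) *ᵥ emb F₀ w = emb F₀ w := by
    rw [hG, ee_mulVec hf hc₄e₃, f_emb_zero hrat hw1, f_emb_zero hrat (by rw [hfr.skew, h20, neg_zero])]
    simp
  have hGe : (G : Matrix ι ι F) *ᵥ emb F₀ e = emb F₀ e + emb F₀ e₃ := by
    rw [hG, ee_mulVec hf hc₄e₃, f_emb_zero hrat (by rw [hfr.skew, h21, neg_zero] : fr hrat e e₃ = 0)]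
    have : f (emb F₀ e) (emb F₀ c₄) = 1 := by
      rw [← fr_coe hrat, he1]
      rfl
    rw [this]
    simp
  obtain ⟨hA1, μ, hA2⟩ := hA
  have h5 := M.mul_mem (M.mul_mem hGM hA2) (M.inv_mem hGM)
  have e5 : G * (ee hf (ρ • emb F₀ e) (emb F₀ w) * stv hf (emb F₀ w) μ) * G⁻¹ =
      (G * ee hf (ρ • emb F₀ e) (emb F₀ w) * G⁻¹) * (G * stv hf (emb F₀ w) μ * G⁻¹) := by
    group
  rw [e5, conj_ee hf hGi, isIsom_conj_stv hf hGi, hGw, Matrix.mulVec_smul, hGe] at h5
  have hfe : f (emb F₀ e) (emb F₀ w) = 0 := f_emb_zero hrat hew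
  have hfe₃ : f (emb F₀ e₃) (emb F₀ w) = 0 := f_emb_zero hrat h20
  have h6 := M.mul_mem h5 (M.inv_mem hA2)
  have h7 : ee hf (ρ • (emb F₀ e + emb F₀ e₃)) (emb F₀ w) * stv hf (emb F₀ w) μ *
      (ee hf (ρ • emb F₀ e) (emb F₀ w) * stv hf (emb F₀ w) μ)⁻¹ = ee hf (ρ • emb F₀ e₃) (emb F₀ w) := by
    rw [mul_inv_eq_iff_eq_mul]
    have h8 : ee hf (ρ • emb F₀ e₃) (emb F₀ w) * (ee hf (ρ • emb F₀ e) (emb F₀ w) * stv hf (emb F₀ w) μ) =
        ee hf (ρ • (emb F₀ e + emb F₀ e₃)) (emb F₀ w) * stv hf (emb F₀ w) μ := by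
      have h9 := ee_add_of_orth hf (u := ρ • emb F₀ e₃) (u' := ρ • emb F₀ e) (w := emb F₀ w)
        (by rw [hf.bilinear.smul_left, hfe₃, mul_zero]) (by rw [hf.bilinear.smul_left, hfe, mul_zero])
        (by
          rw [hf.bilinear.smul_left, hf.bilinear.smul_right,
            f_emb_zero hrat (by rw [hfr.skew, h21, neg_zero] : fr hrat e e₃ = 0)]
          simp)
      rw [← mul_assoc, h9, add_comm, smul_add]
    exact h8.symm
  rw [h7] at h6
  exact hS ρ e₃ w h20 hind3 h6

/-- The key lemma on transvections fixing a rational vector. -/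
theorem lemQ (hn : 9 ≤ Fintype.card ι) (hS : NoS hf hrat M) (hM : RatM F₀ f M) {x : ι → F} {l : F}
    (hT : stv hf x l ∈ M) {w : ι → F₀} (hw : w ≠ 0) (hxw : f x (emb F₀ w) = 0) {b d : ι → F₀}
    (hb : fr hrat b w = 0) (hd : fr hrat d w = 0) :
    l * f x (emb F₀ b) * f x (emb F₀ d) ∈ F₀ := by
  have hfr := fr_symp hf hrat
  set W := emb F₀ w with hW
  set ε := f x (emb F₀ b) with hε
  have hwb : fr hrat w b = 0 := by rw [hfr.skew, hb, neg_zero]
  have hwd : fr hrat w d = 0 := by rw [hfr.skew, hd, neg_zero]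
  -- first step
  set G₁ := ee hf W (emb F₀ b) with hG₁
  have hG₁M : G₁ ∈ M := ee_rat hf hrat hM hwb
  have hG₁i : IsIsom f G₁ := ee_isIsom hf _ _
  have hG₁x : (G₁ : Matrix ι ι F) *ᵥ x = x + ε • W := by
    rw [hG₁, ee_mulVec hf (f_emb_zero hrat hwb), hxw, zero_smul, add_zero]
  have hN := M.mul_mem (M.mul_mem (M.mul_mem hG₁M hT) (M.inv_mem hG₁M)) (M.inv_mem hT)
  rw [isIsom_conj_stv hf hG₁i, hG₁x, stv_add_formula hf hxw] at hN
  have hA1 : AA hf M W ((l * ε) • x) :=
    ⟨by rw [hf.bilinear.smul_left, hxw, mul_zero], _, hN⟩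
  -- second step
  obtain ⟨e, c₃, h1, h2, h3⟩ := exists_hyp_perp hfr (m := 2) (by omega) ![w, d]
  have h20 : fr hrat e w = 0 := by simpa using h2 0
  have h21 : fr hrat e d = 0 := by simpa using h2 1
  have h30 : fr hrat c₃ w = 0 := by simpa using h3 0
  have h31 : fr hrat c₃ d = 0 := by simpa using h3 1
  have hde : fr hrat d e = 0 := by rw [hfr.skew, h21, neg_zero]
  set G₂ := ee hf (emb F₀ d) (emb F₀ e) with hG₂
  have hG₂M : G₂ ∈ M := ee_rat hf hrat hM hde
  have hG₂i : IsIsom f G₂ := ee_isIsom hf _ _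
  have hG₂w : (G₂ : Matrix ι ι F) *ᵥ W = W := by
    rw [hG₂, ee_mulVec hf (f_emb_zero hrat hde), f_emb_zero hrat hwd,
      f_emb_zero hrat (by rw [hfr.skew, h20, neg_zero] : fr hrat w e = 0)]
    simp
  have hA2 := hA1.conj_sub hG₂M hG₂i hG₂w
  have e2 : (G₂ : Matrix ι ι F) *ᵥ ((l * ε) • x) - (l * ε) • x =
      (l * ε * f x (emb F₀ d)) • emb F₀ e + (l * ε * f x (emb F₀ e)) • emb F₀ d := by
    rw [Matrix.mulVec_smul, hG₂, ee_mulVec hf (f_emb_zero hrat hde)]
    module
  rw [e2] at hA2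
  -- third step
  obtain ⟨e', c₄, h1', h2', h3'⟩ := exists_hyp_perp hfr (m := 4) (by omega) ![w, d, e, c₃]
  have h20' : fr hrat e' w = 0 := by simpa using h2' 0
  have h21' : fr hrat e' d = 0 := by simpa using h2' 1
  have h22' : fr hrat e' e = 0 := by simpa using h2' 2
  have h23' : fr hrat e' c₃ = 0 := by simpa using h2' 3
  have h30' : fr hrat c₄ w = 0 := by simpa using h3' 0
  have hc₃e' : fr hrat c₃ e' = 0 := by rw [hfr.skew, h23', neg_zero]
  set G₃ := ee hf (emb F₀ c₃) (emb F₀ e') with hG₃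
  have hG₃M : G₃ ∈ M := ee_rat hf hrat hM hc₃e'
  have hG₃i : IsIsom f G₃ := ee_isIsom hf _ _
  have hG₃w : (G₃ : Matrix ι ι F) *ᵥ W = W := by
    rw [hG₃, ee_mulVec hf (f_emb_zero hrat hc₃e'),
      f_emb_zero hrat (by rw [hfr.skew, h30, neg_zero] : fr hrat w c₃ = 0),
      f_emb_zero hrat (by rw [hfr.skew, h20', neg_zero] : fr hrat w e' = 0)]
    simp
  have hG₃e : (G₃ : Matrix ι ι F) *ᵥ emb F₀ e = emb F₀ e + emb F₀ e' := by
    rw [hG₃, ee_mulVec hf (f_emb_zero hrat hc₃e'),
      f_emb_zero hrat (by rw [hfr.skew, h22', neg_zero] : fr hrat e e' = 0)]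
    have : f (emb F₀ e) (emb F₀ c₃) = 1 := by
      rw [← fr_coe hrat, h1]
      rfl
    rw [this]
    simp
  have hG₃d : (G₃ : Matrix ι ι F) *ᵥ emb F₀ d = emb F₀ d := by
    rw [hG₃, ee_mulVec hf (f_emb_zero hrat hc₃e'),
      f_emb_zero hrat (by rw [hfr.skew, h31, neg_zero] : fr hrat d c₃ = 0),
      f_emb_zero hrat (by rw [hfr.skew, h21', neg_zero] : fr hrat d e' = 0)]
    simp
  have hA3 := hA2.conj_sub hG₃M hG₃i hG₃w
  have e3 : (G₃ : Matrix ι ι F) *ᵥ ((l * ε * f x (emb F₀ d)) • emb F₀ e + (l * ε * f x (emb F₀ e)) • emb F₀ d) -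
      ((l * ε * f x (emb F₀ d)) • emb F₀ e + (l * ε * f x (emb F₀ e)) • emb F₀ d) =
      (l * ε * f x (emb F₀ d)) • emb F₀ e' := by
    rw [Matrix.mulVec_add, Matrix.mulVec_smul, Matrix.mulVec_smul, hG₃e, hG₃d]
    module
  rw [e3] at hA3
  have hw₄ : fr hrat w c₄ = 0 := by rw [hfr.skew, h30', neg_zero]
  have hind : Ind e' w := ind_of_dual hfr (by rw [h1']; exact one_ne_zero) hw₄ hw
  exact AA_rat hn hS hM h20' hind hA3

end Main

end Rat

end Cfsg.Agent.Lib.SubfieldSp
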