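import Cfsg.Agent.Lib.SubfieldSp

/-! The subfield subgroups of `Sp(f)`: the case of a transvection with a rational vector in its
hyperplane. -/

set_option autoImplicit false
set_option linter.unusedSectionVars false
set_option linter.unusedSimpArgs false
set_option linter.unusedVariables false

open scoped MatrixGroups Matrix
open Cfsg Cfsg.Geo
open Cfsg.Agent.Lib.Transvection Cfsg.Agent.Lib.LinAlgAux Cfsg.Agent.Lib.SubfieldGroup
  Cfsg.Agent.Lib.SubfieldBase Cfsg.Agent.Lib.FixCount Cfsg.Agent.Lib.SymplecticTv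
  Cfsg.Agent.Lib.SymplecticMax Cfsg.Agent.Lib.SymplecticLag Cfsg.Agent.Lib.SymplecticDecomp
  Cfsg.Agent.Lib.SubfieldSp

namespace Cfsg.Agent.Lib.SubfieldSp

variable {ι : Type} [Fintype ι] [DecidableEq ι] {F : Type*} [Field F]
  {f : (ι → F) → (ι → F) → F} {hf : IsSymplecticForm f} {F₀ : Subfield F}
  {hrat : ∀ u v : ι → F₀, f (emb F₀ u) (emb F₀ v) ∈ F₀} {M : Subgroup (GL ι F)}

include hf in
/-- A vector orthogonal to all rational vectors vanishes. -/
theorem eq_zero_of_forall_rat {x : ι → F} (h : ∀ u : ι → F₀, f x (emb F₀ u) = 0) : x = 0 := by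
  by_contra hx
  obtain ⟨i, hi⟩ := exists_single_ne hf hx
  apply hi
  have := h (Pi.single i 1)
  rwa [emb_single] at this

/-- `f x (emb _)` is semilinear. -/
theorem f_emb_add_smul (hf : IsSymplecticForm f) (x : ι → F) (a b : F₀) (u v : ι → F₀) :
    f x (emb F₀ (a • u + b • v)) = (a : F) * f x (emb F₀ u) + (b : F) * f x (emb F₀ v) := by
  rw [emb_add, emb_smul, emb_smul, hf.bilinear.add_right, hf.bilinear.smul_right,
    hf.bilinear.smul_right]

theorem caseD (hn : 9 ≤ Fintype.card ι) (hS : NoS hf hrat M) (hM : RatM F₀ f M) {x : ι → F} {l : F}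
    (hl : l ≠ 0) (hT : stv hf x l ∈ M) {w : ι → F₀} (hw : w ≠ 0) (hxw : f x (emb F₀ w) = 0)
    (hx0 : x ≠ 0) : ∃ c : F, c ≠ 0 ∧ IsRat F₀ (c • x) := by
  have hfr := fr_symp hf hrat
  -- a vector in the hyperplane not orthogonal to `x`
  by_cases hb : ∃ b₀, fr hrat b₀ w = 0 ∧ f x (emb F₀ b₀) ≠ 0
  swap
  · push Not at hb
    obtain ⟨c₀, hc₀⟩ : ∃ c₀, fr hrat c₀ w ≠ 0 := by
      obtain ⟨y, hy⟩ := (hfr.nondegenerate w hw).1
      exact ⟨y, hy⟩
    set t := f x (emb F₀ c₀) with ht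
    set s := (fr hrat c₀ w : F) with hs
    have hs0 : s ≠ 0 := by
      rw [hs]
      exact_mod_cast hc₀
    have key : x + (t / s) • emb F₀ w = 0 := by
      apply eq_zero_of_forall_rat (hf := hf) (F₀ := F₀)
      intro u
      have h1 : fr hrat ((fr hrat c₀ w) • u + (-(fr hrat u w)) • c₀) w = 0 := by
        rw [hfr.bilinear.add_left, hfr.bilinear.smul_left, hfr.bilinear.smul_left]
        ring
      have h2 := hb _ h1
      rw [f_emb_add_smul hf] at h2
      rw [hf.bilinear.add_left, hf.bilinear.smul_left]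
      have h3 : f (emb F₀ w) (emb F₀ u) = - (fr hrat u w : F) := by
        rw [fr_coe, hf.skew]
      rw [h3]
      rw [NegMemClass.coe_neg, ← hs] at h2
      rw [← ht] at h2
      field_simp
      linear_combination h2
    have ht0 : t ≠ 0 := by
      intro h0
      rw [h0, zero_div, zero_smul, add_zero] at key
      exact hx0 key
    have hts : t / s ≠ 0 := div_ne_zero ht0 hs0
    refine ⟨-(t / s)⁻¹, neg_ne_zero.2 (inv_ne_zero hts), ?_⟩
    have e : -(t / s)⁻¹ • x = emb F₀ w := by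
      have h5 : x = -(t / s) • emb F₀ w := by
        rw [neg_smul]
        exact eq_neg_of_add_eq_zero_left key
      rw [h5, smul_smul]
      have : -(t / s)⁻¹ * -(t / s) = 1 := by
        field_simp
      rw [this, one_smul]
    rw [e]
    exact isRat_emb F₀ w
  obtain ⟨b₀, hb₀, hb₀x⟩ := hb
  set κ := l * f x (emb F₀ b₀) with hκ
  have hκ0 : κ ≠ 0 := mul_ne_zero hl hb₀x
  refine ⟨κ, hκ0, ?_⟩
  apply isRat_of_forall hf hrat
  intro c
  rw [hf.bilinear.smul_left]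
  -- two hyperbolic pairs
  obtain ⟨u₁, h₁, hu1, hu2, hu3⟩ := exists_hyp_perp hfr (m := 3) (by omega) ![w, c, b₀]
  obtain ⟨u₂, h₂, hv1, hv2, hv3⟩ := exists_hyp_perp hfr (m := 4) (by omega) ![w, c, b₀, u₁]
  have u1w : fr hrat u₁ w = 0 := by simpa using hu2 0
  have u1c : fr hrat u₁ c = 0 := by simpa using hu2 1
  have u1b : fr hrat u₁ b₀ = 0 := by simpa using hu2 2
  have u2w : fr hrat u₂ w = 0 := by simpa using hv2 0
  have u2c : fr hrat u₂ c = 0 := by simpa using hv2 1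
  have u2b : fr hrat u₂ b₀ = 0 := by simpa using hv2 2
  have h2u1 : fr hrat h₂ u₁ = 0 := by simpa using hv3 3
  have hu1h2 : fr hrat u₁ h₂ = 0 := by rw [hfr.skew, h2u1, neg_zero]
  have a1 := lemQ hn hS hM hT hw hxw hb₀ u1w
  have a2 := lemQ hn hS hM hT hw hxw hb₀ u2w
  rw [← hκ] at a1 a2
  -- a rational vector in the kernel
  obtain ⟨w₁, hw₁, hw₁x, hw₁c, hw₁b⟩ : ∃ w₁ : ι → F₀, w₁ ≠ 0 ∧ f x (emb F₀ w₁) = 0 ∧
      fr hrat c w₁ = 0 ∧ fr hrat b₀ w₁ = 0 := by
    have hcu1 : fr hrat c u₁ = 0 := by rw [hfr.skew, u1c, neg_zero]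
    have hcu2 : fr hrat c u₂ = 0 := by rw [hfr.skew, u2c, neg_zero]
    have hbu1 : fr hrat b₀ u₁ = 0 := by rw [hfr.skew, u1b, neg_zero]
    have hbu2 : fr hrat b₀ u₂ = 0 := by rw [hfr.skew, u2b, neg_zero]
    by_cases hα : f x (emb F₀ u₁) = 0
    · refine ⟨u₁, ?_, hα, hcu1, hbu1⟩
      rintro rfl
      have h4 : fr hrat 0 h₁ = 0 := f_zero_left hfr h₁
      rw [h4] at hu1
      exact zero_ne_one hu1
    · set α₁ : F₀ := ⟨κ * f x (emb F₀ u₁), a1⟩ with hα₁
      set α₂ : F₀ := ⟨κ * f x (emb F₀ u₂), a2⟩ with hα₂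
      have hα₁0 : α₁ ≠ 0 := by
        intro h
        have := congrArg Subtype.val h
        exact mul_ne_zero hκ0 hα this
      refine ⟨α₂ • u₁ + (-α₁) • u₂, ?_, ?_, ?_, ?_⟩
      · intro h
        have h3 := congrArg (fun v => fr hrat v h₂) h
        simp only [hfr.bilinear.add_left, hfr.bilinear.smul_left, hu1h2, hv1] at h3
        have h4 : fr hrat 0 h₂ = 0 := f_zero_left hfr h₂
        rw [h4] at h3
        simp only [mul_zero, zero_add, mul_one, neg_eq_zero] at h3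
        exact hα₁0 h3
      · rw [f_emb_add_smul hf]
        apply (mul_eq_zero.1 (?_ : κ * _ = 0)).resolve_left hκ0
        simp only [hα₁, hα₂, NegMemClass.coe_neg]
        ring
      · rw [hfr.bilinear.add_right, hfr.bilinear.smul_right, hfr.bilinear.smul_right, hcu1, hcu2]
        simp
      · rw [hfr.bilinear.add_right, hfr.bilinear.smul_right, hfr.bilinear.smul_right, hbu1, hbu2]
        simp
  have := lemQ hn hS hM hT hw₁ hw₁x hw₁b hw₁c
  rwa [← hκ] at this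

/-- Squares in a finite subfield. -/
theorem ratio_of_squares [Finite F] {α₁ α₂ : F} (h₁ : α₁ ^ 2 ∈ F₀) (h₂ : α₂ ^ 2 ∈ F₀)
    (h₃ : (α₁ + α₂) ^ 2 ∈ F₀) (h0 : α₂ ≠ 0) : α₁ / α₂ ∈ F₀ := by
  by_cases h2 : (2 : F) = 0
  · have key : ∀ a : F, a ^ 2 ∈ F₀ → a ∈ F₀ := by
      intro a ha
      have hinj : Function.Injective (fun c : F₀ => c ^ 2) := by
        intro c d hcd
        have h6 : (c : F) ^ 2 = (d : F) ^ 2 := by exact_mod_cast hcd
        have h5 : ((c : F) - d) ^ 2 = 0 := by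
          linear_combination h6 + ((d : F) ^ 2 - c * d) * h2
        exact Subtype.ext (sub_eq_zero.1 (pow_eq_zero_iff (two_ne_zero)|>.1 h5))
      obtain ⟨c, hc⟩ := Finite.surjective_of_injective hinj ⟨a ^ 2, ha⟩
      have h6 : (c : F) ^ 2 = a ^ 2 := congrArg Subtype.val hc
      have h5 : ((c : F) - a) ^ 2 = 0 := by
        linear_combination h6 + (a ^ 2 - c * a) * h2
      have h7 : (c : F) = a := sub_eq_zero.1 (pow_eq_zero_iff (two_ne_zero)|>.1 h5)
      rw [← h7]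
      exact c.2
    exact F₀.div_mem (key _ h₁) (key _ h₂)
  · have h3 : α₁ * α₂ ∈ F₀ := by
      have e : α₁ * α₂ = (2 : F)⁻¹ * ((α₁ + α₂) ^ 2 - α₁ ^ 2 - α₂ ^ 2) := by
        field_simp
        ring
      rw [e]
      have h4 : (2 : F) ∈ F₀ := by
        have : (2 : F) = 1 + 1 := by norm_num
        rw [this]
        exact F₀.add_mem F₀.one_mem F₀.one_mem
      exact F₀.mul_mem (F₀.inv_mem h4) (F₀.sub_mem (F₀.sub_mem h₃ h₁) h₂)
    have e : α₁ / α₂ = (α₁ * α₂) * (α₂ ^ 2)⁻¹ := by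
      field_simp
    rw [e]
    exact F₀.mul_mem h3 (F₀.inv_mem h₂)

/-- The group acting trivially modulo `F x + W`. -/
def PG (M : Subgroup (GL ι F)) (x : ι → F) (W : Submodule F (ι → F)) : Subgroup (GL ι F) where
  carrier := {m | m ∈ M ∧ ∀ v, ∃ s : F, ∃ w' ∈ W, (m : Matrix ι ι F) *ᵥ v - v = s • x + w'}
  one_mem' := ⟨M.one_mem, fun v => ⟨0, 0, W.zero_mem, by simp⟩⟩
  mul_mem' := by
    rintro a b ⟨ha, hab⟩ ⟨hb, hbb⟩
    refine ⟨M.mul_mem ha hb, fun v => ?_⟩
    obtain ⟨s, w, hw, h3⟩ := hbb v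
    obtain ⟨s', w', hw', h4⟩ := hab ((b : Matrix ι ι F) *ᵥ v)
    refine ⟨s + s', w + w', W.add_mem hw hw', ?_⟩
    rw [gl_mul_mulVec]
    linear_combination (norm := module) h3 + h4
  inv_mem' := by
    rintro a ⟨ha, hab⟩
    refine ⟨M.inv_mem ha, fun v => ?_⟩
    obtain ⟨s, w, hw, h3⟩ := hab (((a⁻¹ : GL ι F) : Matrix ι ι F) *ᵥ v)
    rw [gl_mulVec_inv_mulVec] at h3
    refine ⟨-s, -w, W.neg_mem hw, ?_⟩
    linear_combination (norm := module) -h3

section PGlemmas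

variable {x y : ι → F} {W : Submodule F (ι → F)}

theorem PG_fix (hf : IsSymplecticForm f) (hMi : ∀ m ∈ M, IsIsom f m)
    (hiso : ∀ z ∈ W, ∀ z' ∈ W, f z z' = 0) {m : GL ι F} (hm : m ∈ PG M x W) {z : ι → F} (hz : z ∈ W)
    (hxz : f x z = 0) : (m : Matrix ι ι F) *ᵥ z = z := by
  by_contra hne
  have hne' : (m : Matrix ι ι F) *ᵥ z - z ≠ 0 := sub_ne_zero.2 hne
  obtain ⟨v, hv⟩ := (hf.nondegenerate _ hne').2
  apply hv
  obtain ⟨s, w', hw', e⟩ := ((PG M x W).inv_mem hm).2 v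
  have h1 := hMi m hm.1 z (((m⁻¹ : GL ι F) : Matrix ι ι F) *ᵥ v)
  rw [gl_mulVec_inv_mulVec] at h1
  have h2 : ((m⁻¹ : GL ι F) : Matrix ι ι F) *ᵥ v = v + (s • x + w') := by
    rw [← e]
    abel
  have hzx : f z x = 0 := by rw [hf.skew, hxz, neg_zero]
  have h3 : f z (((m⁻¹ : GL ι F) : Matrix ι ι F) *ᵥ v) = f z v := by
    rw [h2, hf.bilinear.add_right, hf.bilinear.add_right, hf.bilinear.smul_right, hzx,
      hiso z hz w' hw']
    ring
  rw [sub_eq_add_neg, hf.bilinear.add_left]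
  have h4 : (-z) = (-1 : F) • z := by simp
  rw [h4, hf.bilinear.smul_left, h1, h3]
  ring

/-- The multiplication rule of the coordinates. -/
theorem PG_mul (hf : IsSymplecticForm f) (hMi : ∀ m ∈ M, IsIsom f m)
    (hiso : ∀ z ∈ W, ∀ z' ∈ W, f z z' = 0) (hy : y ∈ W) (ha : f x y ≠ 0) :
    ∀ m ∈ PG M x W, ∀ m' ∈ PG M x W, ∀ v, (v = x ∨ v = y) →
    ∀ p : (ι → F) →ₗ[F] F, (p = (f x y)⁻¹ • formL hf y ∨ p = (f x y)⁻¹ • formR hf x) →
      p (((m * m' : GL ι F) : Matrix ι ι F) *ᵥ v) =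
        ((f x y)⁻¹ • formL hf y) ((m' : Matrix ι ι F) *ᵥ v) * p ((m : Matrix ι ι F) *ᵥ x) +
        ((f x y)⁻¹ • formR hf x) ((m' : Matrix ι ι F) *ᵥ v) * p ((m : Matrix ι ι F) *ᵥ y) := by
  intro m hm m' hm' v hv p hp
  set a := f x y with ha'
  have hyx : f y x = -a := hf.skew y x
  have hyy : f y y = 0 := hf.alternating y
  have hxx : f x x = 0 := hf.alternating x
  obtain ⟨s, w', hw', e⟩ := hm'.2 v
  obtain ⟨S, T, e'⟩ : ∃ S T : F, (m' : Matrix ι ι F) *ᵥ v = S • x + T • y + w' := by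
    rcases hv with rfl | rfl
    · refine ⟨1 + s, 0, ?_⟩
      rw [sub_eq_iff_eq_add] at e
      rw [e]
      module
    · refine ⟨s, 1, ?_⟩
      rw [sub_eq_iff_eq_add] at e
      rw [e]
      module
  have hw'y : f w' y = 0 := hiso _ hw' _ hy
  set t := a⁻¹ * f x w' with ht
  have hzW : w' - t • y ∈ W := W.sub_mem hw' (W.smul_mem _ hy)
  have hzx : f x (w' - t • y) = 0 := by
    rw [sub_eq_add_neg, hf.bilinear.add_right, ← neg_smul, hf.bilinear.smul_right, ← ha', ht]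
    field_simp
    ring
  have hfix := PG_fix hf hMi hiso hm hzW hzx
  have e2 : ((m * m' : GL ι F) : Matrix ι ι F) *ᵥ v = S • ((m : Matrix ι ι F) *ᵥ x) +
      (T + t) • ((m : Matrix ι ι F) *ᵥ y) + (w' - t • y) := by
    rw [gl_mul_mulVec, e']
    have e3 : w' = (w' - t • y) + t • y := by abel
    conv_lhs => rw [e3]
    rw [Matrix.mulVec_add, Matrix.mulVec_add, Matrix.mulVec_add, Matrix.mulVec_smul, Matrix.mulVec_smul,
      Matrix.mulVec_smul, hfix]
    module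
  have h1 : ((f x y)⁻¹ • formL hf y) ((m' : Matrix ι ι F) *ᵥ v) = S := by
    rw [e']
    simp only [LinearMap.smul_apply, formL_apply, smul_eq_mul, hf.bilinear.add_left,
      hf.bilinear.smul_left, hyy, hw'y, ← ha']
    field_simp
    ring
  have h2 : ((f x y)⁻¹ • formR hf x) ((m' : Matrix ι ι F) *ᵥ v) = T + t := by
    rw [e']
    simp only [LinearMap.smul_apply, formR_apply, smul_eq_mul, hf.bilinear.add_right,
      hf.bilinear.smul_right, hxx, ← ha', ht]
    field_simp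
    ring
  have h3 : p (w' - t • y) = 0 := by
    rcases hp with rfl | rfl
    · simp only [LinearMap.smul_apply, formL_apply, smul_eq_mul]
      rw [hiso _ hzW _ hy, mul_zero]
    · simp only [LinearMap.smul_apply, formR_apply, smul_eq_mul]
      rw [hzx, mul_zero]
  rw [e2, h1, h2, map_add, map_add, map_smul, map_smul, h3, add_zero, smul_eq_mul, smul_eq_mul]

end PGlemmas

section PlaneMain

/-- Orthogonal to a rational symplectic basis means zero. -/
theorem eq_zero_of_basis (hf : IsSymplecticForm f) {r : ℕ} {p q : Fin r → ι → F₀}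
    (hexp : ∀ u : ι → F₀, u = ∑ l, (fr hrat u (q l) • p l - fr hrat u (p l) • q l)) {z : ι → F}
    (h1 : ∀ l, f z (emb F₀ (p l)) = 0) (h2 : ∀ l, f z (emb F₀ (q l)) = 0) : z = 0 := by
  apply eq_zero_of_forall_rat (hf := hf) (F₀ := F₀)
  intro u
  let φ : (ι → F₀) →+ F := AddMonoidHom.mk' (fun u => f z (emb F₀ u))
    (fun a b => by rw [emb_add, hf.bilinear.add_right])
  have e : f z (emb F₀ u) = φ u := rfl
  rw [e, hexp u, map_sum]
  apply Finset.sum_eq_zero
  intro l _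
  change f z (emb F₀ _) = 0
  rw [sub_eq_add_neg, ← neg_smul, f_emb_add_smul hf, h1, h2]
  ring

variable {r : ℕ} {p q : Fin r → ι → F₀} {W : Submodule F (ι → F)} {x y : ι → F}

theorem plane_stab [Finite F] (hn : 9 ≤ Fintype.card ι) (hS : NoS hf hrat M) (hM : RatM F₀ f M)
    (hMi : ∀ m ∈ M, IsIsom f m) (hgen : ∀ w : ι → F₀, w ≠ 0 → f x (emb F₀ w) ≠ 0)
    (pq : ∀ a b, fr hrat (p a) (q b) = if a = b then 1 else 0)
    (hexp : ∀ u : ι → F₀, u = ∑ l, (fr hrat u (q l) • p l - fr hrat u (p l) • q l))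
    (hr3 : 3 ≤ r) (hWp : ∀ i, emb F₀ (p i) ∈ W) (hiso : ∀ z ∈ W, ∀ z' ∈ W, f z z' = 0)
    (hy : y ∈ W) (ha : f x y ≠ 0) {g : GL ι F} (hg : g ∈ PG M x W)
    (hC : f ((g : Matrix ι ι F) *ᵥ y) y = 0) : (g : Matrix ι ι F) *ᵥ y = y := by
  have hfr := fr_symp hf hrat
  obtain ⟨s, ξ, hξ, e⟩ := hg.2 y
  set a := f x y with ha'
  have hgy0 : (g : Matrix ι ι F) *ᵥ y = y + (s • x + ξ) := by
    rw [← e]
    abel
  have hs : s = 0 := by
    rw [hgy0, hf.bilinear.add_left, hf.bilinear.add_left, hf.bilinear.smul_left, hf.alternating y,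
      hiso ξ hξ y hy, ← ha'] at hC
    have : s * a = 0 := by linear_combination hC
    exact (mul_eq_zero.1 this).resolve_right ha
  have hgy : (g : Matrix ι ι F) *ᵥ y = y + ξ := by
    rw [hgy0, hs, zero_smul, zero_add]
  by_contra hne
  have hξ0 : ξ ≠ 0 := by
    rintro rfl
    apply hne
    rw [hgy, add_zero]
  obtain ⟨j, hj⟩ : ∃ j, f ξ (emb F₀ (q j)) ≠ 0 := by
    by_contra hall
    push Not at hall
    exact hξ0 (eq_zero_of_basis hf hexp (fun l => hiso _ hξ _ (hWp l)) hall)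
  obtain ⟨i₁, i₂, h12, h1j, h2j⟩ : ∃ i₁ i₂ : Fin r, i₁ ≠ i₂ ∧ i₁ ≠ j ∧ i₂ ≠ j := by
    have h3 : 1 < (({j} : Finset (Fin r))ᶜ).card := by
      rw [Finset.card_compl]
      simp
      omega
    obtain ⟨i₁, h1, i₂, h2, h12⟩ := Finset.one_lt_card.1 h3
    exact ⟨i₁, i₂, h12, by simpa using h1, by simpa using h2⟩
  set β := f ξ (emb F₀ (q j)) with hβ
  have hp0 : ∀ i, p i ≠ 0 := by
    intro i h0
    have h3 := pq i i
    rw [h0, f_zero_left hfr, if_pos rfl] at h3
    exact zero_ne_one h3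
  have key : ∀ v : ι → F₀, emb F₀ v ∈ W → fr hrat v (q j) = 0 →
      (f x (emb F₀ v) / a * β) ^ 2 ∈ F₀ := by
    intro v hv hvq
    set t := f x (emb F₀ v) / a with ht
    have hz : emb F₀ v - t • y ∈ W := W.sub_mem hv (W.smul_mem _ hy)
    have hxz : f x (emb F₀ v - t • y) = 0 := by
      rw [sub_eq_add_neg, hf.bilinear.add_right, ← neg_smul, hf.bilinear.smul_right, ← ha', ht]
      field_simp
      ring
    have hfix := PG_fix hf hMi hiso hg hz hxz
    have hgv : (g : Matrix ι ι F) *ᵥ emb F₀ v = emb F₀ v + t • ξ := by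
      have e3 : emb F₀ v = (emb F₀ v - t • y) + t • y := by abel
      conv_lhs => rw [e3]
      rw [Matrix.mulVec_add, Matrix.mulVec_smul, hfix, hgy]
      module
    have hT' : stv hf (emb F₀ v + t • ξ) 1 ∈ M := by
      have := M.mul_mem (M.mul_mem hg.1 (stv_rat hf hrat hM v F₀.one_mem)) (M.inv_mem hg.1)
      rwa [isIsom_conj_stv hf (hMi g hg.1), hgv] at this
    have hb : fr hrat (q j) (p i₁) = 0 := by
      rw [hfr.skew, pq, if_neg h1j, neg_zero]
    have hxw : f (emb F₀ v + t • ξ) (emb F₀ (p i₁)) = 0 :=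
      hiso _ (W.add_mem hv (W.smul_mem _ hξ)) _ (hWp _)
    have h3 := lemQ hn hS hM hT' (hp0 i₁) hxw hb hb
    have e4 : f (emb F₀ v + t • ξ) (emb F₀ (q j)) = t * β := by
      rw [hf.bilinear.add_left, hf.bilinear.smul_left, f_emb_zero hrat hvq, zero_add]
    rw [e4, one_mul] at h3
    convert h3 using 1
    ring
  have hq1 : fr hrat (p i₁) (q j) = 0 := by rw [pq, if_neg h1j]
  have hq2 : fr hrat (p i₂) (q j) = 0 := by rw [pq, if_neg h2j]
  have k1 := key (p i₁) (hWp _) hq1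
  have k2 := key (p i₂) (hWp _) hq2
  have k3 := key (p i₁ + p i₂) (by rw [emb_add]; exact W.add_mem (hWp _) (hWp _))
    (by rw [hfr.bilinear.add_left, hq1, hq2, add_zero])
  rw [emb_add, hf.bilinear.add_right] at k3
  have e5 : (f x (emb F₀ (p i₁)) + f x (emb F₀ (p i₂))) / a * β =
      f x (emb F₀ (p i₁)) / a * β + f x (emb F₀ (p i₂)) / a * β := by ring
  rw [e5] at k3
  have hx2 := hgen _ (hp0 i₂)
  have h0 : f x (emb F₀ (p i₂)) / a * β ≠ 0 := mul_ne_zero (div_ne_zero hx2 ha) hj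
  have hκ := ratio_of_squares k1 k2 k3 h0
  have e6 : f x (emb F₀ (p i₁)) / a * β / (f x (emb F₀ (p i₂)) / a * β) =
      f x (emb F₀ (p i₁)) / f x (emb F₀ (p i₂)) := by
    field_simp
  rw [e6] at hκ
  set κ₀ : F₀ := ⟨_, hκ⟩ with hκ₀
  apply hgen ((1 : F₀) • p i₁ + (-κ₀) • p i₂)
  · intro h3
    have h4 := congrArg (fun v => fr hrat v (q i₁)) h3
    simp only [hfr.bilinear.add_left, hfr.bilinear.smul_left, pq, if_neg h12.symm, if_pos, mul_zero,
      add_zero, mul_one] at h4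
    rw [f_zero_left hfr] at h4
    exact one_ne_zero h4
  · rw [f_emb_add_smul hf]
    simp only [OneMemClass.coe_one, NegMemClass.coe_neg, hκ₀]
    field_simp
    ring

theorem plane_sp [Finite F] (hn : 9 ≤ Fintype.card ι) (hS : NoS hf hrat M) (hM : RatM F₀ f M)
    (hMi : ∀ m ∈ M, IsIsom f m) (hgen : ∀ w : ι → F₀, w ≠ 0 → f x (emb F₀ w) ≠ 0)
    (hT : stv hf x 1 ∈ M) : False := by
  classical
  have hfr := fr_symp hf hrat
  have hnd : IsNondegenerateOn (fr hrat) (⊤ : Submodule F₀ (ι → F₀)) := by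
    intro w _ hw
    obtain ⟨h1, h2⟩ := hfr.nondegenerate w hw
    exact ⟨⟨h1.choose, trivial, h1.choose_spec⟩, ⟨h2.choose, trivial, h2.choose_spec⟩⟩
  obtain ⟨r, hr, p, q, -, -, pq, pp, qq, hexp'⟩ := exists_sympBasis hfr _ ⊤ hnd rfl
  have hexp : ∀ u : ι → F₀, u = ∑ l, (fr hrat u (q l) • p l - fr hrat u (p l) • q l) :=
    fun u => hexp' u trivial
  have hrc : Fintype.card ι = 2 * r := by
    rw [← hr]
    simp
  have hr3 : 3 ≤ r := by omega
  have hp0 : ∀ i, p i ≠ 0 := by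
    intro i h0
    have h3 := pq i i
    rw [h0, f_zero_left hfr, if_pos rfl] at h3
    exact zero_ne_one h3
  let W : Submodule F (ι → F) := Submodule.span F (Set.range (fun i => emb F₀ (p i)))
  have hWp : ∀ i, emb F₀ (p i) ∈ W := fun i => Submodule.subset_span ⟨i, rfl⟩
  have hiso0 : ∀ z ∈ W, ∀ i, f z (emb F₀ (p i)) = 0 := by
    intro z hz i
    induction hz using Submodule.span_induction with
    | mem z hz =>
      obtain ⟨j, rfl⟩ := hz
      exact f_emb_zero hrat (pp j i)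
    | zero => exact f_zero_left hf _
    | add a b _ _ h1 h2 => rw [hf.bilinear.add_left, h1, h2, add_zero]
    | smul c a _ h1 => rw [hf.bilinear.smul_left, h1, mul_zero]
  have hiso : ∀ z ∈ W, ∀ z' ∈ W, f z z' = 0 := by
    intro z hz z' hz'
    induction hz' using Submodule.span_induction with
    | mem z' hz' =>
      obtain ⟨j, rfl⟩ := hz'
      exact hiso0 z hz j
    | zero => exact f_zero_right hf _
    | add a b _ _ h1 h2 => rw [hf.bilinear.add_right, h1, h2, add_zero]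
    | smul c a _ h1 => rw [hf.bilinear.smul_right, h1, mul_zero]
  -- three indices
  obtain ⟨i₁, i₂, i₃, h12, h13, h23⟩ : ∃ i₁ i₂ i₃ : Fin r, i₁ ≠ i₂ ∧ i₁ ≠ i₃ ∧ i₂ ≠ i₃ := by
    have := Fintype.two_lt_card_iff.1 (by simpa using (by omega : 2 < r) : 2 < Fintype.card (Fin r))
    obtain ⟨a, b, c, h1, h2, h3⟩ := this
    exact ⟨a, b, c, h1, h2, h3⟩
  set y : ι → F := emb F₀ (p i₁) with hy₀
  have hy : y ∈ W := hWp _
  set a : F := f x y with ha'
  have ha : a ≠ 0 := hgen _ (hp0 i₁)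
  set p₁ : (ι → F) →ₗ[F] F := a⁻¹ • formL hf y with hp₁
  set p₂ : (ι → F) →ₗ[F] F := a⁻¹ • formR hf x with hp₂
  have hp₁' : ∀ v, p₁ v = a⁻¹ * f v y := fun v => rfl
  have hp₂' : ∀ v, p₂ v = a⁻¹ * f x v := fun v => rfl
  have h11 : p₁ x = 1 := by
    rw [hp₁', ← ha', inv_mul_cancel₀ ha]
  have h12' : p₁ y = 0 := by
    rw [hp₁', hf.alternating, mul_zero]
  have h21 : p₂ x = 0 := by
    rw [hp₂', hf.alternating, mul_zero]
  have h22 : p₂ y = 1 := by
    rw [hp₂', ← ha', inv_mul_cancel₀ ha]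
  let G := PG M x W
  haveI : Finite (GL ι F) := by
    haveI : Finite (Matrix ι ι F) := inferInstanceAs (Finite (ι → ι → F))
    infer_instance
  haveI : Finite G := inferInstance
  let K := AlgebraicClosure F
  let inc : F →+* K := algebraMap F K
  have hinc : Function.Injective inc := inc.injective
  obtain ⟨ρ, hρ⟩ := exists_plane_rep (K := K) G p₁ p₂ x y h11 h12' h21 h22
    (PG_mul hf hMi hiso hy ha)
  have hstab : ∀ (g : G) (μ : K), ρ g (0, 1) = μ • ((0, 1) : K × K) →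
      ∃ c b : K, ∀ s t : K, ρ g (s, t) = c • ((s, t + b * s) : K × K) := by
    intro g μ h
    rw [hρ] at h
    have h3 := congrArg Prod.fst h
    simp only [Prod.smul_fst, smul_eq_mul, mul_zero, mul_one, add_zero, zero_add] at h3
    have hC : p₁ (((g : GL ι F) : Matrix ι ι F) *ᵥ y) = 0 := hinc (by rw [h3, map_zero])
    rw [hp₁'] at hC
    have hC' : f (((g : GL ι F) : Matrix ι ι F) *ᵥ y) y = 0 :=
      (mul_eq_zero.1 hC).resolve_left (inv_ne_zero ha)
    have hgy := plane_stab hn hS hM hMi hgen pq hexp hr3 hWp hiso hy ha g.2 hC'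
    have hA : p₁ (((g : GL ι F) : Matrix ι ι F) *ᵥ x) = 1 := by
      rw [hp₁']
      have := hMi g g.2.1 x y
      rw [hgy] at this
      rw [this, ← ha', inv_mul_cancel₀ ha]
    refine ⟨1, inc (p₂ (((g : GL ι F) : Matrix ι ι F) *ᵥ x)), fun s t => ?_⟩
    rw [hρ, hA, hgy, h12', h22]
    simp only [map_one, map_zero, one_mul, zero_mul, add_zero, one_smul]
    apply Prod.ext
    · rfl
    · simp only
      ring
  -- the parabolic elements
  set α : Fin r → F := fun i => f x (emb F₀ (p i)) with hα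
  have hαne : ∀ i, α i ≠ 0 := fun i => hgen _ (hp0 i)
  have hEmem : ∀ i, stv hf (emb F₀ (p i)) 1 ∈ G := by
    intro i
    refine ⟨stv_rat hf hrat hM _ F₀.one_mem, fun v => ⟨0, (1 * f v (emb F₀ (p i))) • emb F₀ (p i),
      W.smul_mem _ (hWp i), ?_⟩⟩
    rw [stv_mulVec]
    simp
  have hE : ∀ i (s t : K), ρ ⟨_, hEmem i⟩ (s, t) = (1 : K) • ((s, t + inc (α i ^ 2 / a) * s) : K × K) := by
    intro i s t
    rw [hρ]
    have hyp : f y (emb F₀ (p i)) = 0 := hiso _ hy _ (hWp i)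
    have hpy : f (emb F₀ (p i)) y = 0 := hiso _ (hWp i) _ hy
    have e1 : p₁ (((stv hf (emb F₀ (p i)) 1 : GL ι F) : Matrix ι ι F) *ᵥ x) = 1 := by
      rw [stv_mulVec, map_add, map_smul, h11, hp₁' (emb F₀ (p i)), hpy]
      simp
    have e2 : p₂ (((stv hf (emb F₀ (p i)) 1 : GL ι F) : Matrix ι ι F) *ᵥ x) = α i ^ 2 / a := by
      rw [stv_mulVec, map_add, map_smul, h21, hp₂' (emb F₀ (p i))]
      simp only [hα, smul_eq_mul, one_mul, zero_add]
      field_simp
    have e3 : p₁ (((stv hf (emb F₀ (p i)) 1 : GL ι F) : Matrix ι ι F) *ᵥ y) = 0 := by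
      rw [stv_mulVec, hyp]
      simp [h12']
    have e4 : p₂ (((stv hf (emb F₀ (p i)) 1 : GL ι F) : Matrix ι ι F) *ᵥ y) = 1 := by
      rw [stv_mulVec, hyp]
      simp [h22]
    rw [e1, e2, e3, e4]
    simp only [map_one, map_zero, one_mul, zero_mul, add_zero, one_smul]
    apply Prod.ext
    · rfl
    · simp only
      ring
  have hindep : ∀ i i' (c : F₀), i ≠ i' → (1 : F₀) • p i + c • p i' ≠ 0 := by
    intro i i' c hii h3
    have h4 := congrArg (fun v => fr hrat v (q i)) h3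
    simp only [hfr.bilinear.add_left, hfr.bilinear.smul_left, pq, if_neg hii.symm, if_pos, mul_zero,
      add_zero, mul_one] at h4
    rw [f_zero_left hfr] at h4
    exact one_ne_zero h4
  have hne : ∀ i i', i ≠ i' → α i ^ 2 ≠ α i' ^ 2 := by
    intro i i' hii h3
    have h4 : (α i - α i') * (α i + α i') = 0 := by linear_combination h3
    rcases mul_eq_zero.1 h4 with h5 | h5
    · apply hgen _ (hindep i i' (-1) hii)
      rw [f_emb_add_smul hf]
      simp only [OneMemClass.coe_one, NegMemClass.coe_neg]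
      simp only [hα] at h5
      linear_combination h5
    · apply hgen _ (hindep i i' 1 hii)
      rw [f_emb_add_smul hf]
      simp only [OneMemClass.coe_one]
      simp only [hα] at h5
      linear_combination h5
  obtain ⟨j₁, j₂, hj, hsum⟩ : ∃ j₁ j₂, j₁ ≠ j₂ ∧ α j₁ ^ 2 + α j₂ ^ 2 ≠ 0 := by
    by_cases h5 : α i₁ ^ 2 + α i₂ ^ 2 = 0
    · refine ⟨i₁, i₃, h13, fun h6 => ?_⟩
      exact hne i₂ i₃ h23 (by linear_combination h5 - h6)
    · exact ⟨i₁, i₂, h12, h5⟩
  have hb : ∀ i, inc (α i ^ 2 / a) ≠ 0 := fun i => by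
    rw [Ne, map_eq_zero]
    exact div_ne_zero (pow_ne_zero _ (hαne i)) ha
  have hb12 : inc (α j₁ ^ 2 / a) ≠ inc (α j₂ ^ 2 / a) := by
    intro h5
    have h6 := hinc h5
    apply hne j₁ j₂ hj
    field_simp at h6
    exact h6
  have hs : inc (α j₁ ^ 2 / a) + inc (α j₂ ^ 2 / a) ≠ 0 := by
    rw [← map_add, Ne, map_eq_zero]
    intro h5
    apply hsum
    field_simp at h5
    simpa using h5
  have key := plane_fix ρ hstab (hE j₁) (hE j₂) (hb _) (hb _) hb12 hs
  have hTG : stv hf x 1 ∈ G := by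
    refine ⟨hT, fun v => ⟨1 * f v x, 0, W.zero_mem, ?_⟩⟩
    rw [stv_mulVec]
    simp
  obtain ⟨μ, hμ⟩ := key ⟨_, hTG⟩
  rw [hρ] at hμ
  have h5 := congrArg Prod.fst hμ
  simp only [Prod.smul_fst, smul_eq_mul, mul_zero, mul_one, add_zero, zero_add] at h5
  have hC0 : p₁ (((stv hf x 1 : GL ι F) : Matrix ι ι F) *ᵥ y) = 0 := hinc (by rw [h5, map_zero])
  rw [stv_mulVec, map_add, map_smul, h12', h11, zero_add, smul_eq_mul, mul_one, one_mul,
    hf.skew, ← ha'] at hC0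
  exact ha (neg_eq_zero.1 hC0)

end PlaneMain

end Cfsg.Agent.Lib.SubfieldSp
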