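import Cfsg.Agent.Lib.SuzukiLie

/-! Transfer of the structure of the Suzuki group to isomorphic groups. -/

set_option autoImplicit false
set_option linter.unusedSectionVars false
set_option linter.unusedVariables false
set_option linter.unusedSimpArgs false

namespace Cfsg.Agent.Lib.Suzuki

open Cfsg
open scoped Matrix MatrixGroups LinearAlgebra.Projectivization Pointwise commutatorElement

/-- The action on the cosets of a point stabiliser. -/
theorem quotient_action {G Ω : Type*} [Group G] [MulAction G Ω] (ω : Ω)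
    (htr : ∀ a : Ω, ∃ g : G, g • ω = a) (N : Subgroup G) (hN : N = MulAction.stabilizer G ω) (S : Subgroup G)
    (h2 : MulAction.IsMultiplyPretransitive G Ω 2)
    (hreg : ∀ a b : Ω, a ≠ ω → b ≠ ω → ∃! s : S, (s : G) • a = b) :
    MulAction.IsMultiplyPretransitive G (G ⧸ N) 2 ∧
      ∀ x y : G ⧸ N, x ≠ (QuotientGroup.mk 1) → y ≠ (QuotientGroup.mk 1) → ∃! s : S, (s : G) • x = y := by
  subst hN
  set φ := MulAction.ofQuotientStabilizer G ω with hφ
  have hinj : Function.Injective φ := MulAction.injective_ofQuotientStabilizer G ω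
  have hsmul : ∀ (g : G) (x : G ⧸ MulAction.stabilizer G ω), φ (g • x) = g • φ x :=
    fun g x ↦ MulAction.ofQuotientStabilizer_smul G ω g x
  have hone : φ (QuotientGroup.mk 1) = ω := by
    rw [hφ, MulAction.ofQuotientStabilizer_mk, one_smul]
  constructor
  · rw [MulAction.is_two_pretransitive_iff] at h2 ⊢
    intro a b c d hab hcd
    obtain ⟨g, h3, h4⟩ := h2 (hinj.ne hab) (hinj.ne hcd)
    refine ⟨g, hinj ?_, hinj ?_⟩
    · rw [hsmul, h3]
    · rw [hsmul, h4]
  · intro x y hx hy
    have hx' : φ x ≠ ω := fun h ↦ hx (hinj (by rw [h, hone]))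
    have hy' : φ y ≠ ω := fun h ↦ hy (hinj (by rw [h, hone]))
    obtain ⟨s, hs, hu⟩ := hreg (φ x) (φ y) hx' hy'
    refine ⟨s, hinj (by rw [hsmul, hs]), fun t ht ↦ hu t ?_⟩
    change (t : G) • φ x = φ y
    rw [← hsmul, ht]

variable {F : Type*} [Field F] [Fintype F] {m : ℕ} [CharP F 2]
variable (hs : SqProp F m) (h4 : 4 ≤ 2 ^ (m + 1)) (hq : 2 ^ (m + 1) + 2 < Fintype.card F)
include hs h4 hq

/-- The structure of a group isomorphic to the Suzuki group. -/
theorem structure_of_iso {G : Type*} [Group G] (e : G ≃* Sz F m) (hm : 1 ≤ m)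
    (hF : Fintype.card F = 2 ^ (2 * m + 1)) :
    Nat.card G = (2 ^ (2 * m + 1)) ^ 2 * (2 ^ (2 * m + 1) - 1) * ((2 ^ (2 * m + 1)) ^ 2 + 1) ∧
    ∃ S : Sylow 2 G,
      Nat.card (Subgroup.normalizer ((S : Subgroup G) : Set G)) = (2 ^ (2 * m + 1)) ^ 2 * (2 ^ (2 * m + 1) - 1) ∧
      (Subgroup.normalizer ((S : Subgroup G) : Set G)).index = (2 ^ (2 * m + 1)) ^ 2 + 1 ∧
      MulAction.IsMultiplyPretransitive G (G ⧸ Subgroup.normalizer ((S : Subgroup G) : Set G)) 2 ∧
      ∀ x y : G ⧸ Subgroup.normalizer ((S : Subgroup G) : Set G),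
        x ≠ (QuotientGroup.mk 1) → y ≠ (QuotientGroup.mk 1) →
          ∃! s : (S : Subgroup G), (s : G) • x = y := by
  classical
  have h2' : (2 : F) = 0 := two_eq
  have hG : Nat.card G = Nat.card (Sz F m) := Nat.card_congr e.toEquiv
  haveI : Finite G := Finite.of_equiv _ e.symm.toEquiv
  have hcardG : Nat.card G = (2 ^ (2 * m + 1)) ^ 2 * (2 ^ (2 * m + 1) - 1) * ((2 ^ (2 * m + 1)) ^ 2 + 1) := by
    rw [hG, card_Sz hs h4 hq, hF]
    ring
  refine ⟨hcardG, ?_⟩
  -- the Sylow subgroup
  let T' : Subgroup G := (T hs).comap e.toMonoidHom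
  have hT' : ∀ g, g ∈ T' ↔ e g ∈ T hs := fun g ↦ Iff.rfl
  have hcT' : Nat.card T' = (2 ^ (2 * m + 1)) ^ 2 := by
    rw [← hF, ← card_T hs]
    apply Nat.card_congr
    refine Equiv.ofBijective (fun g : T' ↦ (⟨e g.1, g.2⟩ : T hs)) ⟨?_, ?_⟩
    · intro x y h
      exact Subtype.ext (e.injective (congrArg Subtype.val h))
    · rintro ⟨y, hy⟩
      refine ⟨⟨e.symm y, ?_⟩, Subtype.ext (by simp)⟩
      rw [hT']
      simpa using hy
  obtain ⟨h5, h6⟩ := card_Sz_split (F := F) hm hF
  have hfac : Nat.card T' = 2 ^ (Nat.card G).factorization 2 := by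
    rw [hG, h5, hcT']
    have hne : (((2 ^ (2 * m + 1)) ^ 2 + 1) * (2 ^ (2 * m + 1) - 1)) ≠ 0 := by
      intro h
      rw [h] at h6
      exact h6 (dvd_zero _)
    rw [Nat.factorization_mul (by positivity) hne, Nat.Prime.factorization_pow Nat.prime_two]
    simp [Nat.factorization_eq_zero_of_not_dvd h6, pow_mul']
  obtain ⟨S, hS⟩ : ∃ S : Sylow 2 G, (S : Subgroup G) = T' := ⟨Sylow.ofCard T' hfac, Sylow.coe_ofCard _ _⟩
  -- the action
  letI act : MulAction G (suzukiOvoid F m) := MulAction.compHom _ e.toMonoidHom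
  have hsm : ∀ (g : G) (a : suzukiOvoid F m), g • a = e g • a := fun g a ↦ rfl
  -- the normaliser
  have hnorm : ∀ g : G, g ∈ Subgroup.normalizer ((S : Subgroup G) : Set G) ↔ (e g).1 • suzukiPointInfinity F = suzukiPointInfinity F := by
    intro g
    have h7 := conj_norm (S : Subgroup G) (T' : Subgroup G) 1 (by
      intro x
      rw [hS]
      simp)
    rw [hS]
    rw [Subgroup.mem_normalizer_iff]
    constructor
    · intro H
      apply stab_of_mem_normalizer hs h4 hq
      rw [Subgroup.mem_normalizer_iff]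
      intro x
      have h8 := H (e.symm x)
      rw [hT', hT'] at h8
      simpa using h8
    · intro H
      have h8 := mem_normalizer_of_stab hs h4 hq (e g) H
      rw [Subgroup.mem_normalizer_iff] at h8
      intro x
      have h9 := h8 (e x)
      rw [hT', hT']
      simpa using h9
  have hNstab : Subgroup.normalizer ((S : Subgroup G) : Set G) = MulAction.stabilizer G (ptInf F m) := by
    ext g
    rw [hnorm, MulAction.mem_stabilizer_iff]
    constructor
    · intro h
      exact Subtype.ext h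
    · intro h
      exact congrArg Subtype.val h
  have hcN : Nat.card (Subgroup.normalizer ((S : Subgroup G) : Set G)) = (2 ^ (2 * m + 1)) ^ 2 * (2 ^ (2 * m + 1) - 1) := by
    rw [← hF, ← card_stab_inf hs h4 hq]
    apply Nat.card_congr
    refine Equiv.ofBijective (fun g : Subgroup.normalizer ((S : Subgroup G) : Set G) ↦
      (⟨e g.1, (hnorm g.1).1 g.2⟩ : MulAction.stabilizer (Sz F m) (suzukiPointInfinity F))) ⟨?_, ?_⟩
    · intro x y h
      exact Subtype.ext (e.injective (congrArg Subtype.val h))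
    · rintro ⟨y, hy⟩
      refine ⟨⟨e.symm y, (hnorm _).2 (by rw [MulEquiv.apply_symm_apply]; exact hy)⟩, Subtype.ext (by simp)⟩
  refine ⟨S, hcN, ?_, ?_⟩
  · have h7 := Subgroup.card_mul_index (Subgroup.normalizer ((S : Subgroup G) : Set G))
    rw [hcN, hcardG] at h7
    have h8 : 0 < (2 ^ (2 * m + 1)) ^ 2 * (2 ^ (2 * m + 1) - 1) := by
      have : 2 ≤ 2 ^ (2 * m + 1) := by
        calc 2 = 2 ^ 1 := by norm_num
          _ ≤ 2 ^ (2 * m + 1) := Nat.pow_le_pow_right (by norm_num) (by omega)
      have h9 : 0 < 2 ^ (2 * m + 1) - 1 := by omega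
      positivity
    exact Nat.eq_of_mul_eq_mul_left h8 h7
  · apply quotient_action (ptInf F m) ?_ _ hNstab
    · have h7 := two_trans hs h4 hq
      rw [MulAction.is_two_pretransitive_iff] at h7 ⊢
      intro a b c d hab hcd
      obtain ⟨g, h8, h9⟩ := h7 hab hcd
      refine ⟨e.symm g, ?_, ?_⟩
      · rw [hsm]
        simpa using h8
      · rw [hsm]
        simpa using h9
    · -- regularity
      intro a b ha hb
      have haff : ∀ a : suzukiOvoid F m, a ≠ ptInf F m → ∃ x y, a.1 = P m x y := by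
        intro a ha
        rcases mem_ovoid.1 a.2 with h | ⟨x, y, h⟩
        · exact absurd (Subtype.ext h) ha
        · exact ⟨x, y, h⟩
      obtain ⟨x, y, hxy⟩ := haff a ha
      obtain ⟨x', y', hxy'⟩ := haff b hb
      have hsT : ∀ c d : F, e.symm (trS hs c d) ∈ (S : Subgroup G) := by
        intro c d
        rw [hS, hT']
        simp only [MulEquiv.apply_symm_apply]
        exact ⟨c, d, rfl⟩
      refine ⟨⟨e.symm (trS hs (x + x') (y + y' + (x + x') ^ (2 ^ (m + 1)) * x)), hsT _ _⟩, ?_, ?_⟩
      · apply Subtype.ext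
        change (e (e.symm (trS hs (x + x') (y + y' + (x + x') ^ (2 ^ (m + 1)) * x)))).1 • a.1 = b.1
        rw [MulEquiv.apply_symm_apply, hxy, hxy']
        change tr m (x + x') (y + y' + (x + x') ^ (2 ^ (m + 1)) * x) • P m x y = _
        rw [tr_smul_P hs]
        congr 1
        · linear_combination x * h2'
        · linear_combination y * h2' + ((x + x') ^ (2 ^ (m + 1)) * x) * h2'
      · rintro ⟨t, ht⟩ htb
        rw [hS, hT'] at ht
        obtain ⟨c, d, hcd⟩ := ht
        have h7 : (e t).1 • a.1 = b.1 := congrArg Subtype.val htb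
        rw [hcd, hxy, hxy', tr_smul_P hs] at h7
        obtain ⟨h8, h9⟩ := P_inj h7
        apply Subtype.ext
        change t = _
        apply e.injective
        rw [MulEquiv.apply_symm_apply]
        apply Subtype.ext
        rw [hcd]
        have hc : c = x + x' := by linear_combination h8 - x * h2'
        subst hc
        have hd : d = y + y' + (x + x') ^ (2 ^ (m + 1)) * x := by
          linear_combination h9 - (y + (x + x') ^ (2 ^ (m + 1)) * x) * h2'
        rw [hd]
        rfl
    · intro a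
      obtain ⟨g, hg, hga⟩ := exists_to_inf hs a.2
      refine ⟨e.symm ⟨g, hg⟩⁻¹, ?_⟩
      apply Subtype.ext
      rw [hsm]
      simp only [MulEquiv.apply_symm_apply]
      change g⁻¹ • suzukiPointInfinity F = a.1
      rw [← hga, inv_smul_smul]

end Cfsg.Agent.Lib.Suzuki
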