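import Mathlib
import Cfsg.Agent.Lib.H7Basic

/-!
# A solvable group is a product of arbitrary Sylow subgroups
-/

set_option autoImplicit false
set_option linter.unusedVariables false
set_option linter.style.haveILetI false
set_option linter.unusedSectionVars false

namespace Cfsg.Agent.Lib.SylowProd

universe u

theorem prod_insert {G : Type u} [Group G] (N : Subgroup G) [hN : N.Normal] :
    ∀ (t : ℕ) (T : Fin t → Subgroup G) (s : (i : Fin t) → G) (k : Fin t), N ≤ T k → (∀ i, s i ∈ T i) →
    ∀ n ∈ N, ∃ s' : (i : Fin t) → G, (∀ i, s' i ∈ T i) ∧ (List.ofFn s).prod * n = (List.ofFn s').prod := by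
  intro t
  induction t with
  | zero => intro T s k; exact k.elim0
  | succ t ih =>
    intro T s k hk hs n hn
    by_cases hk0 : k = 0
    · subst hk0
      let rest : G := (List.ofFn fun i : Fin t => s i.succ).prod
      have hn' : rest * n * rest⁻¹ ∈ T 0 := hk (hN.conj_mem n hn rest)
      refine ⟨Fin.cons (s 0 * (rest * n * rest⁻¹)) (fun i => s i.succ), ?_, ?_⟩
      · intro i
        refine Fin.cases ?_ (fun j => ?_) i
        · simpa using mul_mem (hs 0) hn'
        · simpa using hs j.succ
      · simp only [List.ofFn_succ, List.prod_cons, Fin.cons_zero, Fin.cons_succ]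
        show s 0 * rest * n = s 0 * (rest * n * rest⁻¹) * rest
        group
    · obtain ⟨k', rfl⟩ := Fin.exists_succ_eq.2 hk0
      obtain ⟨s', hs', he⟩ := ih (fun i => T i.succ) (fun i => s i.succ) k' hk (fun i => hs i.succ) n hn
      refine ⟨Fin.cons (s 0) s', ?_, ?_⟩
      · intro i
        refine Fin.cases ?_ (fun j => ?_) i
        · simpa using hs 0
        · simpa using hs' j
      · simp only [List.ofFn_succ, List.prod_cons, Fin.cons_zero, Fin.cons_succ]
        rw [mul_assoc, he]

theorem sylow_prod (n : ℕ) : ∀ (G : Type u) [Group G] [Finite G] [Group.IsSolvable G], Nat.card G = n →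
    ∀ (t : ℕ) (p : Fin t → ℕ) (hp : ∀ i, (p i).Prime), (∀ q : ℕ, q.Prime → q ∣ Nat.card G → ∃ i, p i = q) →
    ∀ (S : (i : Fin t) → Sylow (p i) G), ∀ g : G, ∃ s : (i : Fin t) → G, (∀ i, s i ∈ (S i : Subgroup G)) ∧
      g = (List.ofFn s).prod := by
  induction n using Nat.strong_induction_on with
  | _ n ih =>
  intro G _ _ _ hn t p hp hall S g
  classical
  by_cases hnt : Nontrivial G
  · obtain ⟨p₀, N, hp₀, hNn, hN1, hNp, -⟩ := Cfsg.Agent.Lib.H7Basic.exists_normal_pGroup (G := G) (inferInstance : Group.IsSolvable G)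
    haveI := hNn
    haveI : ∀ i, Fact (p i).Prime := fun i => ⟨hp i⟩
    let π := QuotientGroup.mk' N
    have hπ : Function.Surjective π := QuotientGroup.mk'_surjective N
    have hcard : Nat.card (G ⧸ N) * Nat.card N = Nat.card G :=
      (Subgroup.card_eq_card_quotient_mul_card_subgroup N).symm
    have hNc : 1 < Nat.card N := by
      have h0 : Nat.card N ≠ 1 := fun h => hN1 (Subgroup.card_eq_one.1 h)
      have h2 : 0 < Nat.card N := Nat.card_pos
      omega
    have hlt : Nat.card (G ⧸ N) < n := by
      rw [← hn, ← hcard]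
      have hpos : 0 < Nat.card (G ⧸ N) := Nat.card_pos
      nlinarith
    obtain ⟨sb, hsb, hge⟩ := ih _ hlt (G ⧸ N) rfl t p hp
      (fun q hq hd => hall q hq (dvd_trans hd (Dvd.intro _ hcard)))
      (fun i => (S i).mapSurjective hπ) (π g)
    have hlift : ∀ i, ∃ x ∈ (S i : Subgroup G), π x = sb i := fun i => hsb i
    choose s hs hse using hlift
    have hprod : π (List.ofFn s).prod = π g := by
      rw [hge, map_list_prod, List.map_ofFn]
      congr 2
      funext i
      simp [hse]
    have hnmem : (List.ofFn s).prod⁻¹ * g ∈ N := by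
      rw [← QuotientGroup.eq_one_iff]
      have : π ((List.ofFn s).prod⁻¹ * g) = 1 := by
        rw [map_mul, map_inv, hprod]
        simp
      exact this
    haveI : Fact p₀.Prime := ⟨hp₀⟩
    have hd : p₀ ∣ Nat.card G := by
      obtain ⟨m, hm⟩ := IsPGroup.iff_card.1 hNp
      have hm0 : m ≠ 0 := by
        rintro rfl
        rw [pow_zero] at hm
        exact hN1 (Subgroup.card_eq_one.1 hm)
      exact dvd_trans (by rw [hm]; exact dvd_pow_self p₀ hm0) (Subgroup.card_subgroup_dvd_card N)
    obtain ⟨k, hk⟩ := hall p₀ hp₀ hd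
    have hNk : N ≤ (S k : Subgroup G) := by
      have hNp' : IsPGroup (p k) N := hk ▸ hNp
      exact hNp'.le_sylow_of_normal (S k)
    obtain ⟨s', hs', he⟩ := prod_insert N t (fun i => (S i : Subgroup G)) s k hNk hs _ hnmem
    refine ⟨s', hs', ?_⟩
    rw [← he]
    group
  · rw [not_nontrivial_iff_subsingleton] at hnt
    refine ⟨fun _ => 1, fun i => one_mem _, Subsingleton.elim _ _⟩

end Cfsg.Agent.Lib.SylowProd
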