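/-
`S_{2n}` embeds into `Sp_{2n-2}(2)`.
-/
import Mathlib
import Cfsg.Agent.Lib.EvenWeight
import Cfsg.Agent.Lib.ClassGeom

set_option autoImplicit false
set_option linter.all false

open scoped MatrixGroups Matrix
open Cfsg Cfsg.Geo Finset
open Cfsg.Agent.Lib.EvenWeight

namespace Cfsg.Agent.Lib.SymS2n

variable {N : ℕ}

/-- The set of points. -/
abbrev Om (N : ℕ) := (Fin N × Bool) ⊕ Bool

/-- The vectors `p_i`. -/
def pV (i : Fin N) : Om N → ZMod 2
  | .inl (j, _) => if j = i then 1 else 0
  | .inr _ => 0

/-- The vectors `q_i`. -/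
def qV (i : Fin N) : Om N → ZMod 2
  | .inl (j, b) => if j < i then 1 else if j = i ∧ b = true then 1 else 0
  | .inr b => if b = true then 1 else 0

/-- The first family. -/
def A : Fin N ⊕ Fin N → Om N → ZMod 2 := Sum.elim pV qV

/-- The dual family. -/
def D : Fin N ⊕ Fin N → Om N → ZMod 2 := Sum.elim qV pV

theorem dotP_expand (x y : Om N → ZMod 2) :
    dotP x y = (∑ j : Fin N, (x (.inl (j, true)) * y (.inl (j, true)) + x (.inl (j, false)) * y (.inl (j, false))))
      + (x (.inr true) * y (.inr true) + x (.inr false) * y (.inr false)) := by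
  simp only [dotP, Fintype.sum_sum_type, Fintype.sum_prod_type, Fintype.sum_bool]

theorem sum_expand (x : Om N → ZMod 2) :
    ∑ i, x i = (∑ j : Fin N, (x (.inl (j, true)) + x (.inl (j, false))))
      + (x (.inr true) + x (.inr false)) := by
  simp only [Fintype.sum_sum_type, Fintype.sum_prod_type, Fintype.sum_bool]

theorem two0 (x : ZMod 2) : x + x = 0 := CharTwo.add_self_eq_zero x

theorem dotP_comm' (x y : Om N → ZMod 2) : dotP x y = dotP y x := by
  simp only [dotP, mul_comm]

theorem dot_p_left (k : Fin N) (y : Om N → ZMod 2) :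
    dotP (pV k) y = y (.inl (k, true)) + y (.inl (k, false)) := by
  rw [dotP_expand, Finset.sum_eq_single k]
  · simp [pV]
  · intro j _ hj
    simp [pV, hj]
  · simp

theorem dot_pq (k i : Fin N) : dotP (pV k) (qV i) = if i = k then 1 else 0 := by
  rw [dot_p_left]
  rcases lt_trichotomy k i with h | h | h
  · rw [if_neg (ne_of_gt h)]
    simp only [qV, if_pos h]
    exact two0 1
  · subst h
    simp [qV]
  · rw [if_neg (ne_of_lt h)]
    simp [qV, not_lt.2 h.le, ne_of_gt h]

theorem dot_pp (k i : Fin N) : dotP (pV k) (pV i) = 0 := by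
  rw [dot_p_left]
  simp only [pV]
  exact two0 _

theorem qV_true (i j : Fin N) : qV i (.inl (j, true)) = if j ≤ i then 1 else 0 := by
  simp only [qV]
  rcases lt_trichotomy j i with h | h | h
  · simp [h, h.le]
  · simp [h]
  · simp [not_lt.2 h.le, ne_of_gt h, not_le.2 h]

theorem qV_false (i j : Fin N) : qV i (.inl (j, false)) = if j < i then 1 else 0 := by
  simp [qV]

theorem dot_qq (k i : Fin N) : dotP (qV k) (qV i) = 0 := by
  have hterm : ∀ j : Fin N, (qV k (.inl (j, true)) * qV i (.inl (j, true)) +
      qV k (.inl (j, false)) * qV i (.inl (j, false))) = if j = min i k then 1 else 0 := by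
    intro j
    simp only [qV_true, qV_false]
    by_cases h : j = min i k
    · rw [if_pos h, if_pos (h ▸ min_le_right i k), if_pos (h ▸ min_le_left i k)]
      have h1 : ¬ (j < k ∧ j < i) := by
        rintro ⟨h2, h3⟩
        rcases le_total i k with h4 | h4
        · rw [min_eq_left h4] at h
          exact h3.ne h
        · rw [min_eq_right h4] at h
          exact h2.ne h
      by_cases h2 : j < k
      · have h3 : ¬ j < i := fun h3 => h1 ⟨h2, h3⟩
        simp [h3]
      · simp [h2]
    · rw [if_neg h]
      rcases lt_or_gt_of_ne h with h1 | h1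
      · have h2 : j < i := lt_of_lt_of_le h1 (min_le_left i k)
        have h3 : j < k := lt_of_lt_of_le h1 (min_le_right i k)
        rw [if_pos h2.le, if_pos h3.le, if_pos h2, if_pos h3]
        exact two0 _
      · rcases min_lt_iff.1 h1 with h2 | h2
        · rw [if_neg (not_le.2 h2), if_neg (not_lt.2 h2.le)]
          simp
        · rw [if_neg (not_le.2 h2), if_neg (not_lt.2 h2.le)]
          simp
  rw [dotP_expand]
  simp only [hterm]
  simp [qV]
  exact two0 1

theorem sum_p (i : Fin N) : ∑ x, pV i x = 0 := by
  rw [sum_expand, Finset.sum_eq_zero]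
  · simp [pV]
  · intro j _
    simp only [pV]
    exact two0 _

theorem sum_q (i : Fin N) : ∑ x, qV i x = 0 := by
  rw [sum_expand, Finset.sum_eq_single i]
  · simp [qV]
    exact two0 1
  · intro j _ hj
    simp only [qV_true, qV_false]
    rcases lt_or_gt_of_ne hj with h | h
    · rw [if_pos h.le, if_pos h]
      exact two0 _
    · rw [if_neg (not_le.2 h), if_neg (not_lt.2 h.le)]
      simp
  · simp

theorem dot_q_right (i : Fin N) (y : Om N → ZMod 2)
    (hy : ∀ k, y (.inl (k, true)) + y (.inl (k, false)) = 0) :
    dotP y (qV i) = y (.inl (i, true)) + y (.inr true) := by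
  rw [dotP_expand, Finset.sum_eq_single i]
  · simp [qV]
  · intro j _ hj
    simp only [qV_true, qV_false]
    rcases lt_or_gt_of_ne hj with h | h
    · rw [if_pos h.le, if_pos h, mul_one, mul_one]
      exact hy j
    · rw [if_neg (not_le.2 h), if_neg (not_lt.2 h.le)]
      simp
  · simp

theorem frame : Frame (A (N := N)) D where
  dual := by
    rintro (i | i) (k | k)
    · simp only [A, D, Sum.elim_inl, dot_pq, Sum.inl.injEq]
    · simp only [A, D, Sum.elim_inl, Sum.elim_inr, dot_qq, reduceCtorEq, if_false]
    · simp only [A, D, Sum.elim_inl, Sum.elim_inr, dot_pp, reduceCtorEq, if_false]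
    · simp only [A, D, Sum.elim_inr, Sum.inr.injEq]
      rw [dotP_comm', dot_pq]
      simp [eq_comm]
  sumA := by
    rintro (i | i)
    · exact sum_p i
    · exact sum_q i
  sumD := by
    rintro (i | i)
    · exact sum_q i
    · exact sum_p i
  ker := by
    intro y hy hD
    have h1 : ∀ k, y (.inl (k, true)) + y (.inl (k, false)) = 0 := by
      intro k
      have := hD (.inr k)
      simp only [D, Sum.elim_inr] at this
      rw [dotP_comm', dot_p_left] at this
      exact this
    have h2 : ∀ k, y (.inl (k, true)) + y (.inr true) = 0 := by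
      intro k
      have := hD (.inl k)
      simp only [D, Sum.elim_inl] at this
      rwa [dot_q_right k y h1] at this
    have h3 : y (.inr true) + y (.inr false) = 0 := by
      rw [sum_expand, Finset.sum_eq_zero (fun j _ => h1 j), zero_add] at hy
      exact hy
    have heq : ∀ a b : ZMod 2, a + b = 0 → a = b := by decide
    have hall : ∀ x, y x = y (.inr true) := by
      rintro ((⟨k, b⟩) | b)
      · cases b
        · rw [← heq _ _ (h1 k)]
          exact heq _ _ (h2 k)
        · exact heq _ _ (h2 k)
      · cases b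
        · exact (heq _ _ h3).symm
        · rfl
    have hz : ∀ z : ZMod 2, z = 0 ∨ z = 1 := by decide
    rcases hz (y (.inr true)) with h | h
    · left
      funext x
      rw [hall, h]
      rfl
    · right
      funext x
      rw [hall, h]
      rfl

/-- The form on coordinates. -/
theorem symp_tau {x y : Om N → ZMod 2} (hx : ∑ i, x i = 0) (hy : ∑ i, y i = 0) :
    sympForm N (ZMod 2) (tauL D x) (tauL D y) = dotP x y := by
  have h1 : dotP (sigL A (tauL D x)) y = dotP x y := by
    rcases sig_tau frame hx with h | h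
    · rw [h]
    · rw [h, dotP_add_left]
      have : dotP (1 : Om N → ZMod 2) y = 0 := by
        simp only [dotP, Pi.one_apply, one_mul]
        exact hy
      rw [this, add_zero]
  rw [← h1, sigL_apply, dotP_sum_left, Fintype.sum_sum_type, Cfsg.Agent.Lib.SymplecticTv.sympForm_apply,
    ← Finset.sum_add_distrib]
  apply Finset.sum_congr rfl
  intro k _
  simp only [dotP_smul_left, tauL_apply, A, D, Sum.elim_inl, Sum.elim_inr]
  have h3 := dotP_comm' (pV k) y
  have h4 := dotP_comm' (qV k) y
  rw [h3, h4]
  have hneg : ∀ a b : ZMod 2, a - b = b + a := by decide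
  rw [hneg]

theorem homG_symp (π : Equiv.Perm (Om N)) :
    ((homG (frame (N := N)) π : GL (Fin N ⊕ Fin N) (ZMod 2)) : Matrix (Fin N ⊕ Fin N) (Fin N ⊕ Fin N) (ZMod 2)) ∈
      Matrix.symplecticGroup (Fin N) (ZMod 2) := by
  rw [Cfsg.Agent.Lib.ClassGeom.mem_sp_iff_pres]
  intro u v
  rw [homG_mulVec, homG_mulVec, actL_apply, actL_apply,
    symp_tau (by rw [sum_permV, sum_sig frame]) (by rw [sum_permV, sum_sig frame]), dotP_permV,
    ← symp_tau (sum_sig frame u) (sum_sig frame v), tau_sig frame, tau_sig frame]

theorem result_gen (n : ℕ) (hn : 3 ≤ n) : ∃ f : Equiv.Perm (Fin (2 * n)) →* Matrix.symplecticGroup (Fin (n - 1)) (ZMod 2),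
    Function.Injective f := by
  have hcard : Fintype.card (Om (n - 1)) = 2 * n := by
    simp
    omega
  let e : Fin (2 * n) ≃ Om (n - 1) := (Fintype.equivFinOfCardEq hcard).symm
  let f₀ : Equiv.Perm (Om (n - 1)) →* Matrix.symplecticGroup (Fin (n - 1)) (ZMod 2) :=
    { toFun := fun π => ⟨_, homG_symp π⟩
      map_one' := by
        apply Subtype.ext
        simp
      map_mul' := fun π ρ => by
        apply Subtype.ext
        simp }
  refine ⟨f₀.comp (Equiv.permCongrHom e).toMonoidHom, ?_⟩
  intro x y hxy
  apply (Equiv.permCongrHom e).injective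
  apply homG_injective (frame (N := n - 1)) (by omega)
  apply Units.ext
  exact congrArg Subtype.val hxy

end Cfsg.Agent.Lib.SymS2n
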