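import Mathlib
import Cfsg.Prelude.Def_SolvableStructure
import Cfsg.Agent.Lib.Carter
import Cfsg.Agent.Lib.HallSystem
import Cfsg.Agent.Lib.HallSystem3
import Cfsg.Agent.Lib.SchurZ2
import Cfsg.Agent.Lib.H6Hall
import Cfsg.Agent.Lib.FitCore
import Cfsg.Agent.Lib.PComps

/-!
# System normalizers and Carter subgroups

Every system normalizer of a finite solvable group lies in a Carter subgroup.
-/

set_option autoImplicit false
set_option linter.unusedVariables false
set_option linter.style.haveILetI false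
set_option linter.unusedSectionVars false

namespace Cfsg.Agent.Lib.SysNorm

open Cfsg Subgroup
open scoped Pointwise
open Cfsg.Agent.Lib.Carter Cfsg.Agent.Lib.HallSystem

universe u

section basics

variable {G : Type u} [Group G]

theorem sysnorm_conj (K : Nat.Primes → Subgroup G) (g : G) :
    systemNormalizer (fun p => (K p).map (MulAut.conj g).toMonoidHom) = cj g (systemNormalizer K) := by
  ext x
  rw [mem_cj]
  simp only [systemNormalizer, Subgroup.mem_iInf]
  refine forall_congr' (fun p => ?_)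
  show x ∈ Subgroup.normalizer ((cj g (K p) : Subgroup G) : Set G) ↔ _
  rw [normalizer_cj, mem_cj]

variable [Finite G]

/-- If `N` is a normal `p`-group contained in `H` and `(A ⊔ N).relIndex H` is a `p`-power, then
`A.relIndex H` is a `p`-power. -/
theorem relIndex_pow_of_sup {A H N : Subgroup G} [hN : N.Normal] (hNH : N ≤ H) {p k : ℕ} (hp : p.Prime)
    (h1 : (A ⊔ N).relIndex H = p ^ k) (h2 : IsPGroup p N) : ∃ m, A.relIndex H = p ^ m := by
  classical
  haveI : Fact p.Prime := ⟨hp⟩
  let T : Subgroup G := (A ⊔ N) ⊓ H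
  have h3 := Subgroup.relIndex_inf_mul_relIndex A (A ⊔ N) H
  have h4 : A ⊓ (A ⊔ N) = A := inf_eq_left.2 le_sup_left
  rw [h4, h1] at h3
  -- `A ⊓ T` and `N` generate `T`
  let A' : Subgroup G := A ⊓ T
  have hNT : N ≤ T := le_inf le_sup_right hNH
  have hsup : N ⊔ A' = T := by
    refine le_antisymm (sup_le hNT inf_le_right) ?_
    intro t ht
    have ht1 : t ∈ A ⊔ N := ht.1
    rw [Subgroup.mem_sup_of_normal_right] at ht1
    obtain ⟨a, ha, n, hn, rfl⟩ := ht1
    rw [sup_comm]
    refine Subgroup.mul_mem_sup (⟨ha, ?_⟩ : a ∈ A') hn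
    have : a = (a * n) * n⁻¹ := by group
    rw [this]
    exact T.mul_mem ht (T.inv_mem (hNT hn))
  have hnorm : A' ≤ Subgroup.normalizer (N : Set G) := by
    rw [Subgroup.normalizer_eq_top_iff.2 hN]
    exact le_top
  have h5 := Cfsg.Agent.Lib.SchurZ2.card_sup_mul_card_inf N A' hnorm
  rw [hsup] at h5
  have h6 : Nat.card A' * A.relIndex T = Nat.card T := by
    have h7 : A.relIndex T = A'.relIndex T := by
      rw [Subgroup.inf_relIndex_right]
    rw [h7]
    have hA'T : A' ≤ T := inf_le_right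
    have h8 := (A'.subgroupOf T).card_mul_index
    rw [Nat.card_congr (Subgroup.subgroupOfEquivOfLe hA'T).toEquiv] at h8
    exact h8
  obtain ⟨j, hj⟩ := IsPGroup.iff_card.1 h2
  have h9 : A.relIndex T ∣ p ^ j := by
    rw [← hj]
    refine ⟨Nat.card (N ⊓ A' : Subgroup G), ?_⟩
    have hpos : 0 < Nat.card A' := Nat.card_pos
    apply Nat.eq_of_mul_eq_mul_left hpos
    rw [← mul_assoc, h6, h5]
    ring
  obtain ⟨i, -, hi⟩ := (Nat.dvd_prime_pow hp).1 h9
  refine ⟨i + k, ?_⟩
  rw [← h3]
  show A.relIndex T * p ^ k = _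
  rw [hi, pow_add]

/-- If `G = K Q` then the index of `K` is its relative index in `Q`. -/
theorem relIndex_eq_index_of_mul {K Q : Subgroup G} (h : ∀ g : G, ∃ q ∈ Q, q⁻¹ * g ∈ K) :
    K.relIndex Q = K.index := by
  have hbase : ∀ y : G ⧸ K, ∃ q : Q, q • ((1 : G) : G ⧸ K) = y := by
    intro y
    induction y using QuotientGroup.induction_on with
    | H g =>
      obtain ⟨q, hq, hqg⟩ := h g
      refine ⟨⟨q, hq⟩, ?_⟩
      show ((q : G) • ((1 : G) : G ⧸ K)) = _
      rw [MulAction.Quotient.smul_coe, smul_eq_mul, mul_one]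
      exact QuotientGroup.eq.2 hqg
  haveI : MulAction.IsPretransitive Q (G ⧸ K) := by
    refine ⟨fun x y => ?_⟩
    obtain ⟨a, rfl⟩ := hbase x
    obtain ⟨b, rfl⟩ := hbase y
    refine ⟨b * a⁻¹, ?_⟩
    rw [mul_smul, inv_smul_smul]
  have hst : MulAction.stabilizer Q ((1 : G) : G ⧸ K) = K.subgroupOf Q := by
    ext q
    rw [MulAction.mem_stabilizer_iff, Subgroup.mem_subgroupOf]
    show ((q : G) • ((1 : G) : G ⧸ K)) = _ ↔ _
    rw [MulAction.Quotient.smul_coe, smul_eq_mul, mul_one]
    rw [QuotientGroup.eq]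
    simp
  have h2 := MulAction.index_stabilizer_of_transitive Q ((1 : G) : G ⧸ K)
  rw [hst] at h2
  exact h2

/-- The key step: a complement system reduces into a Carter subgroup containing its normalizer. -/
theorem sys_carter (n : ℕ) : ∀ (G : Type u) [Group G] [Finite G] [Group.IsSolvable G], Nat.card G = n →
    ∀ K : Nat.Primes → Subgroup G, IsComplementSystem K →
      ∃ C : Subgroup G, IsCarterSubgroup C ∧ systemNormalizer K ≤ C ∧
        ∀ p : Nat.Primes, ∃ k, (K p).relIndex C = (p : ℕ) ^ k := by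
  induction n using Nat.strong_induction_on with
  | _ n IH =>
    intro G _ _ _ hn K hK
    classical
    by_cases hnil : Group.IsNilpotent G
    · refine ⟨⊤, ⟨?_, ?_⟩, le_top, fun p => ⟨(Nat.card G).factorization p, ?_⟩⟩
      · exact Group.nilpotent_of_mulEquiv (Subgroup.topEquiv (G := G)).symm
      · exact Subgroup.normalizer_eq_top_iff.2 inferInstance
      · rw [Subgroup.relIndex_top_right]
        exact hK p
    have hnt : Nontrivial G := by
      by_contra hc
      rw [not_nontrivial_iff_subsingleton] at hc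
      exact hnil inferInstance
    obtain ⟨p₀, N, hp₀, hNn, hNne, hNp, -⟩ := exists_normal_le (⊤ : Subgroup G) inferInstance top_ne_bot
    haveI : Fact p₀.Prime := ⟨hp₀⟩
    let π : G →* G ⧸ N := QuotientGroup.mk' N
    have hπs : Function.Surjective π := QuotientGroup.mk'_surjective N
    have hπk : π.ker = N := QuotientGroup.ker_mk' N
    have hcardq : Nat.card (G ⧸ N) < n := by
      have h1 := N.card_mul_index
      rw [Subgroup.index_eq_card] at h1
      have h2 : 1 < Nat.card N := by
        by_contra hc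
        have : Nat.card N = 1 := by
          have : 0 < Nat.card N := Nat.card_pos
          omega
        exact hNne (Subgroup.card_eq_one.1 this)
      have h3 : 0 < Nat.card (G ⧸ N) := Nat.card_pos
      rw [← hn, ← h1]
      nlinarith
    obtain ⟨Cb, hCb, hDb, hRb⟩ := IH _ hcardq (G ⧸ N) rfl (fun p => (K p).map π) (system_map hK N)
    let H : Subgroup G := Cb.comap π
    have hNH : N ≤ H := by
      rw [← hπk]
      exact Subgroup.ker_le_comap π Cb
    have hHm : H.map π = Cb := Subgroup.map_comap_eq_self_of_surjective hπs Cb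
    have hDH : systemNormalizer K ≤ H := by
      have h1 := quotient_sysnorm K hK N
      intro d hd
      show π d ∈ Cb
      apply hDb
      show _ ∈ systemNormalizer (fun p => (K p).map (QuotientGroup.mk' N))
      rw [h1]
      exact ⟨d, hd, rfl⟩
    have hnilHm : Group.IsNilpotent (H.map π) := by
      rw [hHm]
      exact hCb.1
    have hker : IsPGroup p₀ π.ker := by
      rw [hπk]
      exact hNp
    by_cases hHtop : H = ⊤
    · have hCbtop : Cb = ⊤ := by
        rw [← hHm, hHtop]
        exact Subgroup.map_top_of_surjective π hπs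
      have hnq : Group.IsNilpotent (G ⧸ N) := by
        have h1 := hCb.1
        rw [hCbtop] at h1
        exact Group.nilpotent_of_mulEquiv (Subgroup.topEquiv (G := G ⧸ N))
      let P₀ : Nat.Primes := ⟨p₀, hp₀⟩
      let K₀ : Subgroup G := K P₀
      have hK₀c : Nat.Coprime p₀ (Nat.card K₀) :=
        (Nat.Prime.coprime_iff_not_dvd hp₀).2 (not_dvd_card hK P₀)
      have hK₀i : K₀.index = p₀ ^ (Nat.card G).factorization p₀ := hK P₀
      have htf := (isNilpotent_of_finite_tfae (G := G ⧸ N)).out 0 3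
      let Pb : Sylow p₀ (G ⧸ N) := default
      haveI hPbn : (Pb : Subgroup (G ⧸ N)).Normal := htf.1 hnq p₀ ⟨hp₀⟩ Pb
      let R : Subgroup G := (Pb : Subgroup (G ⧸ N)).comap π
      haveI hRn : R.Normal := Subgroup.Normal.comap hPbn π
      have hRp : IsPGroup p₀ R := Pb.isPGroup'.comap_of_ker_isPGroup π hker
      have hRi : ¬ p₀ ∣ R.index := by
        have h1 : R.index = (Pb : Subgroup (G ⧸ N)).index := Subgroup.index_comap_of_surjective _ hπs
        rw [h1]
        exact Pb.not_dvd_index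
      have hdec : ∀ g, ∃ r ∈ R, ∃ q ∈ K₀, g = r * q := by
        intro g
        have hcop : K₀.index.Coprime R.index := by
          rw [hK₀i]
          exact Nat.Coprime.pow_left _ ((Nat.Prime.coprime_iff_not_dvd hp₀).2 hRi)
        obtain ⟨s, hs, hsg⟩ := Cfsg.Agent.Lib.H6Hall.exists_mul_of_coprime K₀ R hcop g
        exact ⟨s, hs, _, hsg, by group⟩
      have hK₀n : Group.IsNilpotent K₀ := by
        have hbot : N ⊓ K₀ = ⊥ := inf_eq_bot_of_p hNp hK₀c
        refine nilp_of_injective (π.comp K₀.subtype) ?_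
        rw [injective_iff_map_eq_one]
        intro x hx
        have hxN : (x : G) ∈ N := by
          rw [← hπk]
          exact hx
        have : (x : G) ∈ N ⊓ K₀ := ⟨hxN, x.2⟩
        rw [hbot] at this
        exact Subtype.ext ((Subgroup.mem_bot).1 this)
      have hcart : IsCarter (Subgroup.normalizer (K₀ : Set G)) :=
        carter_normalizer R K₀ hRp hK₀c hdec hK₀n
      let C : Subgroup G := Subgroup.normalizer (K₀ : Set G)
      have hsup : C ⊔ N = ⊤ := by
        have h1 := rel_sup π hker ⊤ le_top (by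
          rw [Subgroup.map_top_of_surjective π hπs]
          exact Group.nilpotent_of_mulEquiv (Subgroup.topEquiv (G := G ⧸ N)).symm) (IsCarter.to_in hcart le_top)
        rwa [hπk] at h1
      refine ⟨C, hcart, iInf_le _ P₀, fun q => ?_⟩
      by_cases hq : (q : ℕ) = p₀
      · have hqP : q = P₀ := Subtype.ext hq
        have hK₀C : K₀ ≤ C := Subgroup.le_normalizer
        have h1 := Subgroup.relIndex_mul_index hK₀C
        have h2 : K₀.relIndex C ∣ p₀ ^ (Nat.card G).factorization p₀ := ⟨C.index, by rw [← hK₀i, h1]⟩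
        obtain ⟨i, -, hi⟩ := (Nat.dvd_prime_pow hp₀).1 h2
        refine ⟨i, ?_⟩
        rw [hqP, hi]
      · have hNq : N ≤ K q := le_of_normal hK N hNn p₀ hNp q hq
        refine ⟨(Nat.card G).factorization q, ?_⟩
        rw [← hK q]
        refine relIndex_eq_index_of_mul (fun g => ?_)
        have hg : g ∈ C ⊔ N := by
          rw [hsup]
          trivial
        rw [Subgroup.mem_sup_of_normal_right] at hg
        obtain ⟨c, hc, m, hm, rfl⟩ := hg
        refine ⟨c, hc, ?_⟩
        rw [inv_mul_cancel_left]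
        exact hNq hm
    · let K' : Nat.Primes → Subgroup H := fun p => (K p).subgroupOf H
      have hpow : ∀ p : Nat.Primes, ∃ m, (K p).relIndex H = (p : ℕ) ^ m := by
        intro p
        obtain ⟨k, hk⟩ := hRb p
        have hc : ((K p).map π).comap π = K p ⊔ N := by
          rw [Subgroup.comap_map_eq, hπk]
        have h1 : (K p ⊔ N).relIndex H = (p : ℕ) ^ k := by
          rw [← hc, Subgroup.relIndex_comap, hHm, hk]
        by_cases hq : (p : ℕ) = p₀
        · refine relIndex_pow_of_sup hNH p.2 h1 ?_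
          rw [hq]
          exact hNp
        · have hNq : N ≤ K p := le_of_normal hK N hNn p₀ hNp p hq
          rw [sup_eq_left.2 hNq] at h1
          exact ⟨k, h1⟩
      have hK' : IsComplementSystem K' := by
        intro p
        obtain ⟨m, hm⟩ := hpow p
        refine index_eq_of_pow (K' p) p.2 hm ?_
        intro hd
        apply not_dvd_card hK p
        refine hd.trans ?_
        have h1 : Nat.card (K' p) = Nat.card ((K' p).map H.subtype) :=
          (Subgroup.card_map_of_injective H.subtype_injective).symm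
        rw [h1]
        refine Subgroup.card_dvd_of_le ?_
        rintro _ ⟨x, hx, rfl⟩
        exact hx
      have hcardH : Nat.card H < n := by
        rw [← hn]
        exact lt_of_le_of_ne (Subgroup.card_le_card_group H) (fun h => hHtop (Subgroup.card_eq_iff_eq_top H |>.1 h))
      obtain ⟨C', hC', hD', hR'⟩ := IH _ hcardH H rfl K' hK'
      let C'' : Subgroup G := C'.map H.subtype
      have hcin : IsCarterIn H C'' := isCarterIn_of_type hC'
      have hsup : C'' ⊔ N = H := by
        have h1 := rel_sup π hker H (by rw [hπk]; exact hNH) hnilHm hcin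
        rwa [hπk] at h1
      refine ⟨C'', ⟨hcin.2.1, ?_⟩, ?_, ?_⟩
      · refine le_antisymm ?_ Subgroup.le_normalizer
        intro x hx
        have h1 : x ∈ Subgroup.normalizer ((C'' ⊔ N : Subgroup G) : Set G) := normalizer_sup_of_normal hx
        rw [hsup] at h1
        have h2 : π x ∈ Subgroup.normalizer ((H.map π : Subgroup (G ⧸ N)) : Set (G ⧸ N)) :=
          Subgroup.le_normalizer_map π ⟨x, h1, rfl⟩
        rw [hHm, hCb.2] at h2
        have h3 : x ∈ H := h2
        rw [← hcin.2.2]
        exact ⟨hx, h3⟩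
      · intro d hd
        have hdH : d ∈ H := hDH hd
        have h1 : (⟨d, hdH⟩ : H) ∈ systemNormalizer K' := by
          refine Subgroup.mem_iInf.2 (fun p => ?_)
          have h2 := Subgroup.mem_iInf.1 hd p
          rw [Subgroup.mem_normalizer_iff] at h2
          rw [Subgroup.mem_normalizer_iff]
          intro h
          exact h2 h
        exact ⟨_, hD' h1, rfl⟩
      · intro p
        obtain ⟨k, hk⟩ := hR' p
        refine ⟨k, ?_⟩
        rw [← hk]
        exact (Subgroup.relIndex_comap (K p) H.subtype C').symm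

theorem sys_le_carter [Group.IsSolvable G] (K : Nat.Primes → Subgroup G) (hK : IsComplementSystem K) :
    ∃ C : Subgroup G, IsCarterSubgroup C ∧ systemNormalizer K ≤ C := by
  obtain ⟨C, h1, h2, -⟩ := sys_carter _ G rfl K hK
  exact ⟨C, h1, h2⟩

theorem carter_contains_sys [Group.IsSolvable G] (C : Subgroup G) (hC : IsCarterSubgroup C) :
    ∃ K : Nat.Primes → Subgroup G, IsComplementSystem K ∧ systemNormalizer K ≤ C := by
  obtain ⟨K₀, hK₀⟩ := Cfsg.Agent.Lib.HallSystem3.exists_system (G := G)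
  obtain ⟨C₀, hC₀, hle⟩ := sys_le_carter K₀ hK₀
  obtain ⟨g, hg⟩ := (carter (G := G)).2 C₀ C hC₀.1 hC₀.2 hC.1 hC.2
  refine ⟨_, system_conj hK₀ g, ?_⟩
  rw [sysnorm_conj, ← hg, cj_eq_smul]
  exact Subgroup.map_mono hle

/-- A Carter subgroup covers any normal subgroup with nilpotent quotient. -/
theorem carter_sup_eq_top [Group.IsSolvable G] (F C : Subgroup G) [hFn : F.Normal] (hGF : Group.IsNilpotent (G ⧸ F))
    (hC : IsCarterSubgroup C) : C ⊔ F = ⊤ := by
  classical
  by_contra hne
  let L : Subgroup G := C ⊔ F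
  have hFL : F ≤ L := le_sup_right
  have hCL : C ≤ L := le_sup_left
  let π : G →* G ⧸ F := QuotientGroup.mk' F
  have hπs : Function.Surjective π := QuotientGroup.mk'_surjective F
  have hπk : π.ker = F := QuotientGroup.ker_mk' F
  have hcl : (L.map π).comap π = L := by
    rw [Subgroup.comap_map_eq, hπk]
    exact sup_eq_left.2 hFL
  have hlt : L.map π < ⊤ := by
    refine lt_top_iff_ne_top.2 (fun h => hne ?_)
    show L = ⊤
    rw [← hcl, h, Subgroup.comap_top]
  obtain ⟨xb, hxb, hxbL⟩ := SetLike.exists_of_lt (normalizerCondition_of_isNilpotent (G := G ⧸ F) _ hlt)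
  obtain ⟨x, rfl⟩ := hπs xb
  have hxL : x ∉ L := fun h => hxbL ⟨x, h, rfl⟩
  have hxN : cj x L = L := by
    refine le_antisymm ?_ ?_
    · rintro _ ⟨y, hy, rfl⟩
      rw [← hcl]
      have h1 := (Subgroup.mem_normalizer_iff.1 hxb (π y)).1 ⟨y, hy, rfl⟩
      show π _ ∈ L.map π
      simpa using h1
    · intro y hy
      rw [mem_cj]
      rw [← hcl]
      have h1 := (Subgroup.mem_normalizer_iff.1 hxb (π (x⁻¹ * y * x))).2 (by
        have : π x * π (x⁻¹ * y * x) * (π x)⁻¹ = π y := by
          simp only [map_mul, map_inv]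
          group
        rw [this]
        exact ⟨y, hy, rfl⟩)
      exact h1
  have hCx : IsCarter (cj x C) := IsCarter.cj hC x
  have hCxL : cj x C ≤ L := by
    rw [← hxN]
    exact Subgroup.map_mono hCL
  have h1 : IsCarter (C.subgroupOf L) := (IsCarter.to_in hC hCL).to_type
  have h2 : IsCarter ((cj x C).subgroupOf L) := (IsCarter.to_in hCx hCxL).to_type
  obtain ⟨l, hl⟩ := (carter (G := L)).2 _ _ h1.1 h1.2 h2.1 h2.2
  have h3 : cj (l : G) C = cj x C := by
    have h4 := congrArg (Subgroup.map L.subtype) hl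
    rw [cj_eq_smul, map_cj_subtype, Subgroup.map_subgroupOf_eq_of_le hCL, Subgroup.map_subgroupOf_eq_of_le hCxL] at h4
    exact h4
  have h5 : cj (x⁻¹ * l) C = C := by
    rw [cj_mul, h3, ← cj_mul, inv_mul_cancel, cj_one]
  have h6 : x⁻¹ * l ∈ C := by
    have := mem_normalizer_of_cj_eq h5
    rwa [hC.2] at this
  apply hxL
  have h7 : x = l * (x⁻¹ * l)⁻¹ := by group
  rw [h7]
  exact L.mul_mem l.2 (L.inv_mem (hCL h6))

/-- The local construction for a group of nilpotent length at most two. -/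
theorem exists_local (F C : Subgroup G) [hFn : F.Normal] (hF : Group.IsNilpotent F) (hC : Group.IsNilpotent C)
    (hsup : C ⊔ F = ⊤) (p : ℕ) [hp : Fact p.Prime] :
    ∃ K : Subgroup G, K.index = p ^ (Nat.card G).factorization p ∧ C ≤ Subgroup.normalizer (K : Set G) := by
  classical
  obtain ⟨Pc, Qc, hPcC, hQcC, hPcp, hQcc, hcommC, hdecC⟩ := nilp_decomp_sub p C hC
  obtain ⟨P₁, Q₁, hP₁, -, hQ₁, -, hdecF, hP₁n, hQ₁n⟩ := nilp_decomp (T := F) p
  let S : Sylow p F := default
  have htf := (isNilpotent_of_finite_tfae (G := F)).out 0 3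
  haveI hSn : (S : Subgroup F).Normal := htf.1 hF p hp S
  haveI h1c : (S : Subgroup F).Characteristic := Sylow.characteristic_of_normal S hSn
  haveI h2c : (Cfsg.pPrimeCore p F).Characteristic := Cfsg.Agent.Lib.PComps.pPrimeCore_characteristic
  let Fp : Subgroup G := (S : Subgroup F).map F.subtype
  let Fq : Subgroup G := (Cfsg.pPrimeCore p F).map F.subtype
  haveI hFpn : Fp.Normal := Cfsg.Agent.Lib.FitCore.map_subtype_normal_of_char F _
  haveI hFqn : Fq.Normal := Cfsg.Agent.Lib.FitCore.map_subtype_normal_of_char F _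
  have hFpp : IsPGroup p Fp := S.isPGroup'.map _
  have hFqc : ¬ p ∣ Nat.card Fq := by
    rw [Subgroup.card_map_of_injective F.subtype_injective]
    exact Cfsg.Agent.Lib.FitCore.not_dvd_card_pPrimeCore p hp.out
  have hQcd : ¬ p ∣ Nat.card Qc := (Nat.Prime.coprime_iff_not_dvd hp.out).1 hQcc
  let K : Subgroup G := Qc ⊔ Fq
  let Q : Subgroup G := Pc ⊔ Fp
  have hKc : ¬ p ∣ Nat.card K := by
    show ¬ p ∣ Nat.card (Qc ⊔ Fq : Subgroup G)
    rw [sup_comm]
    exact Cfsg.Agent.Lib.FitCore.not_dvd_card_sup p hp.out Fq Qc hFqn hFqc hQcd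
  have hQp : IsPGroup p Q := IsPGroup.to_sup_of_normal_right hPcp hFpp
  have hdec : ∀ g : G, ∃ q ∈ Q, q⁻¹ * g ∈ K := by
    intro g
    have hg : g ∈ C ⊔ F := by
      rw [hsup]
      trivial
    rw [Subgroup.mem_sup_of_normal_right] at hg
    obtain ⟨c, hc, f, hf, rfl⟩ := hg
    obtain ⟨u, hu, v, hv, rfl⟩ := hdecC c hc
    obtain ⟨a, ha, b, hb, hab⟩ := hdecF ⟨f, hf⟩
    have hab' : f = (a : G) * (b : G) := congrArg Subtype.val hab
    have haFp : (a : G) ∈ Fp := ⟨a, IsPGroup.le_sylow_of_normal hP₁ S ha, rfl⟩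
    have hbFq : (b : G) ∈ Fq :=
      ⟨b, (le_sSup (show Q₁ ∈ {N : Subgroup F | N.Normal ∧ (Nat.card N).Coprime p} from ⟨hQ₁n, hQ₁.symm⟩) :
        Q₁ ≤ Cfsg.pPrimeCore p F) hb, rfl⟩
    -- write `u * v * (a * b) = (u * (v a v⁻¹)) * (v * b)`
    refine ⟨u * (v * a * v⁻¹), ?_, ?_⟩
    · exact Q.mul_mem (Subgroup.mem_sup_left hu) (Subgroup.mem_sup_right (hFpn.conj_mem _ haFp v))
    · rw [hab']
      have : (u * (v * a * v⁻¹))⁻¹ * (u * v * (a * b)) = v * b := by group
      rw [this]
      exact K.mul_mem (Subgroup.mem_sup_left hv) (Subgroup.mem_sup_right hbFq)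
  have hidx : K.relIndex Q = K.index := relIndex_eq_index_of_mul hdec
  have hd : K.index ∣ Nat.card Q := by
    rw [← hidx]
    exact Subgroup.relIndex_dvd_card K Q
  obtain ⟨n, hn⟩ := IsPGroup.iff_card.1 hQp
  rw [hn] at hd
  obtain ⟨i, -, hi⟩ := (Nat.dvd_prime_pow hp.out).1 hd
  refine ⟨K, index_eq_of_pow K hp.out hi hKc, ?_⟩
  intro c hc
  refine normalizer_sup_of_normal ?_
  obtain ⟨u, hu, v, hv, rfl⟩ := hdecC c hc
  refine Cfsg.Agent.Lib.H5Basic.mem_normalizer_of_map_conj_le ?_
  rintro _ ⟨y, hy, rfl⟩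
  show u * v * y * (u * v)⁻¹ ∈ Qc
  have h2 : u * (v * y * v⁻¹) = (v * y * v⁻¹) * u := hcommC u hu _ (Qc.mul_mem (Qc.mul_mem hv hy) (Qc.inv_mem hv))
  have h3 : u * v * y * (u * v)⁻¹ = v * y * v⁻¹ := by
    calc u * v * y * (u * v)⁻¹ = u * (v * y * v⁻¹) * u⁻¹ := by group
      _ = _ := by rw [h2]; group
  rw [h3]
  exact Qc.mul_mem (Qc.mul_mem hv hy) (Qc.inv_mem hv)

theorem carter_eq_sys [Group.IsSolvable G] (F C : Subgroup G) [hFn : F.Normal] (hF : Group.IsNilpotent F)
    (hGF : Group.IsNilpotent (G ⧸ F)) (hC : IsCarterSubgroup C) :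
    ∃ K : Nat.Primes → Subgroup G, IsComplementSystem K ∧ C = systemNormalizer K := by
  have hsup := carter_sup_eq_top F C hGF hC
  have key : ∀ p : Nat.Primes, ∃ K : Subgroup G, K.index = (p : ℕ) ^ (Nat.card G).factorization p ∧
      C ≤ Subgroup.normalizer (K : Set G) := by
    intro p
    haveI : Fact (p : ℕ).Prime := ⟨p.2⟩
    exact exists_local F C hF hC.1 hsup (p : ℕ)
  choose K hK1 hK2 using key
  have hK : IsComplementSystem K := hK1
  refine ⟨K, hK, ?_⟩
  have hle : C ≤ systemNormalizer K := le_iInf hK2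
  refine eq_of_le_nilpotent hle (sysnorm_nil K hK) ?_
  rw [hC.2]
  exact inf_eq_left.2 hle

theorem s0570 (F : Subgroup G) [hFn : F.Normal] (hF : Group.IsNilpotent F)
    (hGF : Group.IsNilpotent (G ⧸ F)) (C : Subgroup G) :
    IsCarterSubgroup C ↔ ∃ K : Nat.Primes → Subgroup G, IsComplementSystem K ∧ C = systemNormalizer K := by
  haveI : Group.IsSolvable G := by
    haveI := hF
    haveI := hGF
    haveI : Group.IsSolvable F := inferInstance
    haveI : Group.IsSolvable (G ⧸ F) := inferInstance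
    exact solvable_of_ker_le_range F.subtype (QuotientGroup.mk' F) (by
      rw [QuotientGroup.ker_mk', Subgroup.range_subtype])
  constructor
  · exact carter_eq_sys F C hF hGF
  · rintro ⟨K, hK, rfl⟩
    obtain ⟨⟨C₀, h1, h2⟩, -⟩ := carter (G := G)
    obtain ⟨K₀, hK₀, hC₀⟩ := carter_eq_sys F C₀ hF hGF ⟨h1, h2⟩
    obtain ⟨g, hg⟩ := conj_systems K₀ K hK₀ hK
    have hK' : K = fun p => (K₀ p).map (MulAut.conj g).toMonoidHom := funext (fun p => (hg p).symm)
    rw [hK', sysnorm_conj, ← hC₀]
    exact IsCarter.cj (show IsCarter C₀ from ⟨h1, h2⟩) g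

end basics

end Cfsg.Agent.Lib.SysNorm
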