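import Mathlib
import Cfsg.Prelude
import Cfsg.Agent.Lib.ConjFamily
import Cfsg.Agent.Lib.TameInter
import Cfsg.Agent.Lib.CoprimeAct

set_option autoImplicit false
set_option linter.all false

namespace Cfsg.Agent.Lib.TICommute

open Cfsg.Agent.Lib.ConjFamily

variable {S : Type*} [Group S] [Finite S]

theorem exists_sq_mem {N T : Subgroup S} (hT : IsPGroup 2 T) {t : S} (htT : t ∈ T) (htN : t ∉ N) :
    ∃ t' ∈ T, t' ∉ N ∧ t' * t' ∈ N := by
  classical
  obtain ⟨k, hk⟩ := IsPGroup.iff_orderOf.1 hT ⟨t, htT⟩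
  rw [Subgroup.orderOf_mk] at hk
  have hex : ∃ j, t ^ (2 ^ j) ∈ N := ⟨k, by rw [← hk, pow_orderOf_eq_one]; exact N.one_mem⟩
  have hj : t ^ (2 ^ Nat.find hex) ∈ N := Nat.find_spec hex
  have hj0 : Nat.find hex ≠ 0 := by
    intro h
    rw [h] at hj
    simp at hj
    exact htN hj
  obtain ⟨i, hi⟩ := Nat.exists_eq_succ_of_ne_zero hj0
  refine ⟨t ^ (2 ^ i), T.pow_mem htT _, Nat.find_min hex (by omega), ?_⟩
  rw [← pow_add]
  have : 2 ^ i + 2 ^ i = 2 ^ Nat.find hex := by rw [hi, pow_succ]; ring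
  rw [this]
  exact hj

theorem conj_mem' {X : Subgroup S} {g x : S} (hg : g ∈ Subgroup.normalizer (X : Set S)) (hx : x ∈ X) :
    g * x * g⁻¹ ∈ X := (Subgroup.mem_normalizer_iff.mp hg x).mp hx

theorem conj_inv_mem' {X : Subgroup S} {g x : S} (hg : g ∈ Subgroup.normalizer (X : Set S)) (hx : x ∈ X) :
    g⁻¹ * x * g ∈ X := by
  have := conj_mem' (Subgroup.inv_mem _ hg) hx
  simpa using this

theorem mem_norm_of_comm {X : Subgroup S} {g : S} (h : ∀ x ∈ X, g * x = x * g) :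
    g ∈ Subgroup.normalizer (X : Set S) := by
  rw [Subgroup.mem_normalizer_iff]
  intro x
  constructor
  · intro hx
    have : g * x * g⁻¹ = x := by rw [h x hx]; group
    rw [this]; exact hx
  · intro hx
    have h1 := h _ hx
    have : g * x * g⁻¹ = x := by
      have h2 : g * (g * x * g⁻¹) * g⁻¹ = g * x * g⁻¹ := by
        rw [h1]; group
      have h3 : (g * x * g⁻¹) = x := by
        have h4 : g * (g * x * g⁻¹) * g⁻¹ = g * (g * x * g⁻¹ * g⁻¹) := by group
        rw [h4] at h2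
        have h5 := mul_left_cancel (a := g) (b := g * x * g⁻¹ * g⁻¹) (c := x * g⁻¹) (by
          rw [h2]; group)
        exact mul_right_cancel h5
      exact h3
    rwa [this] at hx

theorem core {R T : Subgroup S} (hp : IsPGroup 2 S)
    (tiR : ∀ g : S, cj g R ≠ R → ∀ x ∈ R, x ∈ cj g R → x = 1)
    (tiT : ∀ g : S, cj g T ≠ T → ∀ x ∈ T, x ∈ cj g T → x = 1)
    (hcard : Nat.card R = Nat.card T)
    (hfrat : ∃ r ∈ R, r * r ≠ 1)
    (hR : ∀ g ∈ T, cj g R ≠ R → ∀ r ∈ R, ∀ r' ∈ cj g R, r * r' = r' * r)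
    (hT : ∀ g ∈ R, cj g T ≠ T → ∀ t ∈ T, ∀ t' ∈ cj g T, t * t' = t' * t) :
    T ≤ Subgroup.normalizer (R : Set S) := by
  by_contra hnot
  obtain ⟨t₀, ht₀T, ht₀N⟩ := SetLike.not_le_iff_exists.mp hnot
  obtain ⟨t, htT, htN, ht2⟩ := exists_sq_mem (hp.to_subgroup T) ht₀T ht₀N
  have hne : cj t⁻¹ R ≠ R := by
    intro h
    have := mem_normalizer_of_cj_eq h
    exact htN (by simpa using Subgroup.inv_mem _ this)
  have hc := hR t⁻¹ (T.inv_mem htT) hne
  have hti1 := tiR t⁻¹ hne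
  have hmemR₁ : ∀ r ∈ R, t⁻¹ * r * t ∈ cj t⁻¹ R := by
    intro r hr
    rw [mem_cj, inv_inv]
    have : t * (t⁻¹ * r * t) * t⁻¹ = r := by group
    rw [this]; exact hr
  by_cases hRN : R ≤ Subgroup.normalizer (T : Set S)
  · -- case B: an injection of `R` into `T ⊓ N(R)`
    set T₀ : Subgroup S := T ⊓ Subgroup.normalizer (R : Set S) with hT₀
    have hf : ∀ r : R, (r : S)⁻¹ * (t⁻¹ * r * t) ∈ T₀ := by
      intro r
      constructor
      · have h1 : (r : S)⁻¹ * t⁻¹ * r ∈ T := conj_inv_mem' (hRN r.2) (T.inv_mem htT)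
        have h2 : (r : S)⁻¹ * (t⁻¹ * r * t) = ((r : S)⁻¹ * t⁻¹ * r) * t := by group
        rw [h2]
        exact T.mul_mem h1 htT
      · apply Subgroup.mul_mem
        · exact Subgroup.inv_mem _ (Subgroup.le_normalizer r.2)
        · apply mem_norm_of_comm
          intro x hx
          exact (hc x hx _ (hmemR₁ _ r.2)).symm
    let f : R → T₀ := fun r => ⟨(r : S)⁻¹ * (t⁻¹ * r * t), hf r⟩
    have hinj : Function.Injective f := by
      intro r s hrs
      have h1 : (r : S)⁻¹ * (t⁻¹ * r * t) = (s : S)⁻¹ * (t⁻¹ * s * t) := congrArg Subtype.val hrs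
      have h2 : (s : S) * (r : S)⁻¹ = t⁻¹ * ((s : S) * (r : S)⁻¹) * t := by
        calc (s : S) * (r : S)⁻¹ = (s : S) * ((r : S)⁻¹ * (t⁻¹ * r * t)) * (t⁻¹ * r * t)⁻¹ := by group
          _ = (s : S) * ((s : S)⁻¹ * (t⁻¹ * s * t)) * (t⁻¹ * r * t)⁻¹ := by rw [h1]
          _ = t⁻¹ * ((s : S) * (r : S)⁻¹) * t := by group
      have h5 : (s : S) * (r : S)⁻¹ = 1 := by
        apply hti1 _ (R.mul_mem s.2 (R.inv_mem r.2))
        rw [h2]
        exact hmemR₁ _ (R.mul_mem s.2 (R.inv_mem r.2))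
      apply Subtype.ext
      exact (mul_inv_eq_one.mp h5).symm
    have hle := Nat.card_le_card_of_injective f hinj
    have hlt : Nat.card T₀ < Nat.card T := by
      apply Cfsg.Agent.Lib.TameInter.card_lt_of_le_of_not_le inf_le_left
      intro h
      exact htN (h htT).2
    omega
  · -- case C
    obtain ⟨r₁, hr₁R, hr₁N⟩ := SetLike.not_le_iff_exists.mp hRN
    have C1 : ∀ r ∈ R, r ∉ Subgroup.normalizer (T : Set S) → r * r = 1 := by
      intro r hr hrN
      have hne' : cj r⁻¹ T ≠ T := by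
        intro h
        have := mem_normalizer_of_cj_eq h
        exact hrN (by simpa using Subgroup.inv_mem _ this)
      have hT' := hT r⁻¹ (R.inv_mem hr) hne'
      have hs : r⁻¹ * t * r ∈ cj r⁻¹ T := by
        rw [mem_cj, inv_inv]
        have : r * (r⁻¹ * t * r) * r⁻¹ = t := by group
        rw [this]; exact htT
      have hr' := hmemR₁ r hr
      have c1 := hc r hr _ hr'
      have c2 := hT' t htT _ hs
      set r' := t⁻¹ * r * t with hr'def
      set s := r⁻¹ * t * r with hsdef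
      have e1 : (r⁻¹ * r') * (r⁻¹ * r') = r⁻¹ * r⁻¹ * (r' * r') := by
        have hcm : Commute r⁻¹ r' := (show Commute r r' from c1).inv_left
        calc (r⁻¹ * r') * (r⁻¹ * r') = r⁻¹ * (r' * r⁻¹) * r' := by group
          _ = r⁻¹ * (r⁻¹ * r') * r' := by rw [hcm.eq]
          _ = r⁻¹ * r⁻¹ * (r' * r') := by group
      have e2 : (s⁻¹ * t) * (s⁻¹ * t) = s⁻¹ * s⁻¹ * (t * t) := by
        have hcm : Commute s⁻¹ t := ((show Commute t s from c2).symm).inv_left
        calc (s⁻¹ * t) * (s⁻¹ * t) = s⁻¹ * (t * s⁻¹) * t := by group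
          _ = s⁻¹ * (s⁻¹ * t) * t := by rw [hcm.eq]
          _ = s⁻¹ * s⁻¹ * (t * t) := by group
      have e3 : r⁻¹ * r' = s⁻¹ * t := by rw [hr'def, hsdef]; group
      have e4 : s⁻¹ * s⁻¹ * (t * t) = r⁻¹ * ((t * t)⁻¹ * r * (t * t)) := by
        rw [hsdef]; group
      have e5 : r⁻¹ * r⁻¹ * (r' * r') = r⁻¹ * ((t * t)⁻¹ * r * (t * t)) := by
        rw [← e1, e3, e2, e4]
      have e6 : r' * r' ∈ R := by
        have h1 : (t * t)⁻¹ * r * (t * t) ∈ R := conj_inv_mem' ht2 hr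
        have h2 : r' * r' = r * r * (r⁻¹ * ((t * t)⁻¹ * r * (t * t))) := by
          rw [← e5]; group
        rw [h2]
        exact R.mul_mem (R.mul_mem hr hr) (R.mul_mem (R.inv_mem hr) h1)
      have e7 : r' * r' ∈ cj t⁻¹ R := Subgroup.mul_mem _ hr' hr'
      have e8 := hti1 _ e6 e7
      have e9 : r * r = t * (r' * r') * t⁻¹ := by rw [hr'def]; group
      rw [e9, e8]; group
    -- an element of order four normalizing `T`
    obtain ⟨r₀, hr₀R, hr₀⟩ := hfrat
    have hr₀N : r₀ ∈ Subgroup.normalizer (T : Set S) := by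
      by_contra h
      exact hr₀ (C1 r₀ hr₀R h)
    obtain ⟨k, hk⟩ := IsPGroup.iff_orderOf.1 hp r₀
    have hk2 : 2 ≤ k := by
      by_contra hlt
      apply hr₀
      have : r₀ ^ 2 = 1 := by
        have hd : orderOf r₀ ∣ 2 := by
          rw [hk]
          exact (Nat.pow_dvd_pow_iff_le_right (by norm_num)).mpr (show k ≤ 1 by omega) |>.trans (by norm_num)
        exact orderOf_dvd_iff_pow_eq_one.mp hd
      rwa [pow_two] at this
    obtain ⟨m, rfl⟩ := Nat.exists_eq_add_of_le hk2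
    set h := r₀ ^ (2 ^ m) with hh
    have hhR : h ∈ R := R.pow_mem hr₀R _
    have hhN : h ∈ Subgroup.normalizer (T : Set S) := Subgroup.pow_mem _ hr₀N _
    have hhh : (h * h) * (h * h) = 1 := by
      have : (h * h) * (h * h) = r₀ ^ (2 ^ (2 + m)) := by
        rw [hh, ← pow_add, ← pow_add]
        congr 1
        rw [pow_add]; ring
      rw [this, ← hk, pow_orderOf_eq_one]
    have hh1 : h * h ≠ 1 := by
      intro h0
      have : r₀ ^ (2 ^ (1 + m)) = 1 := by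
        have : h * h = r₀ ^ (2 ^ (1 + m)) := by
          rw [hh, ← pow_add]
          congr 1
          rw [pow_add]; ring
        rw [← this, h0]
      have hd := orderOf_dvd_of_pow_eq_one this
      rw [hk] at hd
      have := (Nat.pow_dvd_pow_iff_le_right (by norm_num : 1 < 2)).mp hd
      omega
    -- the involution outside `N(T)`
    have hr₁r₁ := C1 r₁ hr₁R hr₁N
    have hr₁i : r₁⁻¹ = r₁ := inv_eq_of_mul_eq_one_left hr₁r₁
    have hr₁h : (r₁ * h) * (r₁ * h) = 1 := by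
      apply C1 _ (R.mul_mem hr₁R hhR)
      intro hn
      apply hr₁N
      have : r₁ = (r₁ * h) * h⁻¹ := by group
      rw [this]
      exact Subgroup.mul_mem _ hn (Subgroup.inv_mem _ hhN)
    have hinvert : r₁ * h * r₁ = h⁻¹ := eq_inv_of_mul_eq_one_left (by
      calc r₁ * h * r₁ * h = (r₁ * h) * (r₁ * h) := by group
        _ = 1 := hr₁h)
    set h' := t⁻¹ * h * t with hh'
    have hh'R₁ : h' ∈ cj t⁻¹ R := hmemR₁ h hhR
    have hcomm1 : r₁ * h' = h' * r₁ := hc r₁ hr₁R h' hh'R₁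
    have hcomm2 : h * h' = h' * h := hc h hhR h' hh'R₁
    set y := h⁻¹ * h' with hy
    have hyT : y ∈ T := by
      have h1 : h⁻¹ * t⁻¹ * h ∈ T := conj_inv_mem' hhN (T.inv_mem htT)
      have h2 : y = (h⁻¹ * t⁻¹ * h) * t := by rw [hy, hh']; group
      rw [h2]
      exact T.mul_mem h1 htT
    have hyy : y * y = h⁻¹ * h⁻¹ * (h' * h') := by
      have hcm : Commute h⁻¹ h' := (show Commute h h' from hcomm2).inv_left
      calc y * y = h⁻¹ * (h' * h⁻¹) * h' := by rw [hy]; group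
        _ = h⁻¹ * (h⁻¹ * h') * h' := by rw [hcm.eq]
        _ = h⁻¹ * h⁻¹ * (h' * h') := by group
    have hh2 : h⁻¹ * h⁻¹ = h * h := by
      have : (h * h)⁻¹ = h * h := inv_eq_of_mul_eq_one_left hhh
      calc h⁻¹ * h⁻¹ = (h * h)⁻¹ := by group
        _ = h * h := this
    have hinvert' : r₁ * h⁻¹ * r₁ = h := by
      have : r₁ * h⁻¹ * r₁ = (r₁ * h * r₁)⁻¹ := by
        rw [mul_inv_rev, mul_inv_rev, hr₁i]; group
      rw [this, hinvert, inv_inv]
    have hconj : r₁ * (y * y) * r₁ = y * y := by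
      have h3 : r₁ * h' * r₁ = h' := by rw [hcomm1, mul_assoc, hr₁r₁, mul_one]
      have h4 : r₁ * y * r₁ = h * h' := by
        calc r₁ * y * r₁ = (r₁ * h⁻¹ * r₁) * (r₁ * h' * r₁) * (r₁ * r₁)⁻¹ := by rw [hy]; rw [hr₁r₁]; simp only [inv_one, mul_one]; rw [show r₁ * h⁻¹ * r₁ * (r₁ * h' * r₁) = r₁ * h⁻¹ * (r₁ * r₁) * h' * r₁ by group, hr₁r₁]; group
          _ = h * h' := by rw [hinvert', h3, hr₁r₁]; simp
      calc r₁ * (y * y) * r₁ = (r₁ * y * r₁) * (r₁ * y * r₁) * (r₁ * r₁)⁻¹ := by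
            rw [show r₁ * y * r₁ * (r₁ * y * r₁) = r₁ * y * (r₁ * r₁) * y * r₁ by group, hr₁r₁]; simp only [inv_one, mul_one]; group
        _ = (h * h') * (h * h') := by rw [h4, hr₁r₁]; simp
        _ = h * (h' * h) * h' := by group
        _ = h * (h * h') * h' := by rw [hcomm2]
        _ = (h * h) * (h' * h') := by group
        _ = y * y := by rw [hyy, hh2]
    have hne2 : cj r₁⁻¹ T ≠ T := by
      intro h
      have := mem_normalizer_of_cj_eq h
      exact hr₁N (by simpa using Subgroup.inv_mem _ this)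
    have hyy1 : y * y = 1 := by
      apply tiT _ hne2 _ (T.mul_mem hyT hyT)
      rw [mem_cj, inv_inv, hr₁i, hconj]
      exact T.mul_mem hyT hyT
    rw [hyy, hh2] at hyy1
    -- `h * h` lies in `R ⊓ R₁`
    have h6 : h * h = (h' * h')⁻¹ := eq_inv_of_mul_eq_one_left hyy1
    apply hh1
    apply hti1 _ (R.mul_mem hhR hhR)
    rw [h6]
    exact Subgroup.inv_mem _ (Subgroup.mul_mem _ hh'R₁ hh'R₁)

theorem exists_normal_above {R L : Subgroup S} (hp : IsPGroup 2 S) (hRL : R ≤ L) (hne : R ≠ L) :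
    ∃ M : Subgroup S, R ≤ M ∧ M < L ∧ ∀ g ∈ L, ∀ m ∈ M, g * m * g⁻¹ ∈ M := by
  haveI : Fact (Nat.Prime 2) := ⟨Nat.prime_two⟩
  have hLp : IsPGroup 2 L := hp.to_subgroup L
  haveI : Group.IsNilpotent L := hLp.isNilpotent
  have hR' : R.subgroupOf L ≠ ⊤ := by
    intro h
    apply hne
    apply le_antisymm hRL
    intro x hx
    have : (⟨x, hx⟩ : L) ∈ R.subgroupOf L := by rw [h]; trivial
    exact this
  obtain (h | ⟨M', hM', hle⟩) := eq_top_or_exists_le_coatom (R.subgroupOf L)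
  · exact absurd h hR'
  have hcond := Group.normalizerCondition_of_isNilpotent (G := ↥L)
  have hnorm : M'.Normal := Subgroup.NormalizerCondition.normal_of_coatom M' hcond hM'
  refine ⟨M'.map L.subtype, ?_, ?_, ?_⟩
  · intro x hx
    exact ⟨⟨x, hRL hx⟩, hle (by simpa [Subgroup.mem_subgroupOf] using hx), rfl⟩
  · refine lt_of_le_of_ne (Subgroup.map_subtype_le _) ?_
    intro h
    apply hM'.1
    rw [eq_top_iff]
    intro x _
    have : (x : S) ∈ M'.map L.subtype := by rw [h]; exact x.2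
    obtain ⟨y, hy, hxy⟩ := this
    have : y = x := Subtype.ext hxy
    rwa [← this]
  · rintro g hg m ⟨m', hm', rfl⟩
    have := hnorm.conj_mem m' hm' ⟨g, hg⟩
    exact ⟨_, this, rfl⟩

theorem comm_of_commutator {R T : Subgroup S} (h : ⁅R, T⁆ = ⊥) : ∀ r ∈ R, ∀ t ∈ T, r * t = t * r := by
  intro r hr t ht
  have h1 := Subgroup.commutator_mem_commutator hr ht
  rw [h, Subgroup.mem_bot, commutatorElement_def] at h1
  have : r * t * r⁻¹ * t⁻¹ * t * r = t * r := by rw [h1, one_mul]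
  rw [← this]; group

theorem fam {Δ : Set (Subgroup S)} (hp : IsPGroup 2 S)
    (hinv : ∀ s : S, ∀ R ∈ Δ, cj s R ∈ Δ)
    {R T : Subgroup S} (hR : R ∈ Δ)
    (hLne : R ≠ R ⊔ T)
    (IH : ∀ R' ∈ Δ, ∀ T' ∈ Δ, R' ≠ T' → Nat.card ↥(R' ⊔ T') < Nat.card ↥(R ⊔ T) → ⁅R', T'⁆ = ⊥) :
    ∀ g ∈ T, cj g R ≠ R → ∀ r ∈ R, ∀ r' ∈ cj g R, r * r' = r' * r := by
  intro g hg hne r hr r' hr'
  obtain ⟨M, hRM, hML, hMn⟩ := exists_normal_above hp le_sup_left hLne
  have hgL : g ∈ R ⊔ T := (le_sup_right : T ≤ R ⊔ T) hg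
  have hR'M : cj g R ≤ M := by
    rintro _ ⟨x, hx, rfl⟩
    exact hMn g hgL x (hRM hx)
  have hsup : R ⊔ cj g R ≤ M := sup_le hRM hR'M
  have hlt : Nat.card ↥(R ⊔ cj g R) < Nat.card ↥(R ⊔ T) := by
    apply lt_of_le_of_lt (Subgroup.card_le_of_le hsup)
    apply Cfsg.Agent.Lib.TameInter.card_lt_of_le_of_not_le hML.le
    exact hML.not_ge
  have := IH R hR (cj g R) (hinv g R hR) (Ne.symm hne) hlt
  exact comm_of_commutator this r hr r' hr'

theorem exists_nonsq {R : Subgroup S} (hΦ : frattini ↥R ≠ ⊥) : ∃ r ∈ R, r * r ≠ 1 := by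
  haveI : Fact (Nat.Prime 2) := ⟨Nat.prime_two⟩
  by_contra hno
  push Not at hno
  apply hΦ
  rw [eq_bot_iff]
  have hsq : ∀ a : R, a * a = 1 := fun a => Subtype.ext (hno a a.2)
  have hinv : ∀ a : R, a⁻¹ = a := fun a => inv_eq_of_mul_eq_one_left (hsq a)
  apply Cfsg.Agent.Lib.CoprimeAct.frattini_le_of_elementary (p := 2)
  · intro a b
    rw [Subgroup.mem_bot, hinv a, hinv b]
    have h1 := hsq (a * b)
    calc a * b * a * b = (a * b) * (a * b) := by group
      _ = 1 := h1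
  · intro a
    rw [Subgroup.mem_bot, pow_two, hsq]

theorem main {Δ : Set (Subgroup S)} (hp : IsPGroup 2 S)
    (hinv : ∀ s : S, ∀ R ∈ Δ, cj s R ∈ Δ)
    (hΦ : ∀ R ∈ Δ, frattini ↥R ≠ ⊥) (hord : ∀ R ∈ Δ, ∀ T ∈ Δ, Nat.card ↥R = Nat.card ↥T)
    (hti : ∀ R ∈ Δ, ∀ T ∈ Δ, R = T ∨ R ⊓ T = ⊥) :
    ∀ R ∈ Δ, ∀ T ∈ Δ, R ≠ T → ⁅R, T⁆ = ⊥ := by
  have key : ∀ n : ℕ, ∀ R ∈ Δ, ∀ T ∈ Δ, R ≠ T → Nat.card ↥(R ⊔ T) = n → ⁅R, T⁆ = ⊥ := by
    intro n
    induction n using Nat.strong_induction_on with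
    | _ n IHn =>
      intro R hR T hT hRT hn
      have IH : ∀ R' ∈ Δ, ∀ T' ∈ Δ, R' ≠ T' → Nat.card ↥(R' ⊔ T') < Nat.card ↥(R ⊔ T) → ⁅R', T'⁆ = ⊥ := by
        intro R' hR' T' hT' hne hlt
        exact IHn _ (hn ▸ hlt) R' hR' T' hT' hne rfl
      have IH' : ∀ R' ∈ Δ, ∀ T' ∈ Δ, R' ≠ T' → Nat.card ↥(R' ⊔ T') < Nat.card ↥(T ⊔ R) → ⁅R', T'⁆ = ⊥ := by
        rw [sup_comm T R]; exact IH
      have hinter : R ⊓ T = ⊥ := (hti R hR T hT).resolve_left hRT
      have hne_bot : ∀ X ∈ Δ, X ≠ ⊥ := by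
        intro X hX h
        apply hΦ X hX
        subst h
        exact Subsingleton.elim _ _
      have hL1 : R ≠ R ⊔ T := by
        intro h
        have h1 : T ≤ R := by rw [h]; exact le_sup_right
        apply hne_bot T hT
        rw [← inf_eq_right.mpr h1]; exact hinter
      have hL2 : T ≠ T ⊔ R := by
        intro h
        have h1 : R ≤ T := by rw [h]; exact le_sup_right
        apply hne_bot R hR
        rw [← inf_eq_left.mpr h1]; exact hinter
      have hfamR := fam hp hinv hR hL1 IH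
      have hfamT := fam hp hinv hT hL2 IH'
      have tiX : ∀ X ∈ Δ, ∀ g : S, cj g X ≠ X → ∀ x ∈ X, x ∈ cj g X → x = 1 := by
        intro X hX g hne x hx hx'
        have := (hti X hX _ (hinv g X hX)).resolve_left (Ne.symm hne)
        have h2 : x ∈ X ⊓ cj g X := ⟨hx, hx'⟩
        rw [this] at h2
        exact Subgroup.mem_bot.mp h2
      have h1 : T ≤ Subgroup.normalizer (R : Set S) :=
        core hp (tiX R hR) (tiX T hT) (hord R hR T hT) (exists_nonsq (hΦ R hR)) hfamR hfamT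
      have h2 : R ≤ Subgroup.normalizer (T : Set S) :=
        core hp (tiX T hT) (tiX R hR) (hord T hT R hR) (exists_nonsq (hΦ T hT)) hfamT hfamR
      rw [eq_bot_iff, Subgroup.commutator_le]
      intro r hr t ht
      rw [commutatorElement_def, ← hinter]
      constructor
      · have h3 : t * r⁻¹ * t⁻¹ ∈ R := conj_mem' (h1 ht) (R.inv_mem hr)
        have : r * t * r⁻¹ * t⁻¹ = r * (t * r⁻¹ * t⁻¹) := by group
        rw [this]
        exact R.mul_mem hr h3
      · have h3 : r * t * r⁻¹ ∈ T := conj_mem' (h2 hr) ht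
        exact T.mul_mem h3 (T.inv_mem ht)
  intro R hR T hT hRT
  exact key _ R hR T hT hRT rfl

end Cfsg.Agent.Lib.TICommute
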