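import Cfsg.Agent.Lib.GUQuot
import Cfsg.Agent.Lib.SymplecticTv

/-! Counting totally isotropic lines: double counting, and the number of vectors of given norm in a
non-degenerate hermitian space. -/

set_option autoImplicit false
set_option linter.all false

open scoped MatrixGroups Matrix
open Cfsg Cfsg.Geo Finset
open Cfsg.Agent.Lib.UnitaryBase

namespace Cfsg.Agent.Lib.TICount

section Double

variable {F V : Type*} [Field F] [Fintype F] [AddCommGroup V] [Module F V] [Finite V]

theorem card_sub (W : Submodule F V) : Nat.card W = Fintype.card F ^ Module.finrank F W := by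
  rw [Module.natCard_eq_pow_finrank (K := F) (V := W), Nat.card_eq_fintype_card]

theorem card_diff {S W : Submodule F V} (h : S ≤ W) :
    Nat.card {u : V // u ∈ W ∧ u ∉ S} = Nat.card W - Nat.card S := by
  have e : Nat.card {u : V // u ∈ W ∧ u ∉ S} = Nat.card ↥((W : Set V) \ (S : Set V)) := rfl
  rw [e, Nat.card_coe_set_eq, Set.ncard_diff (fun x hx => h hx)]
  rw [← Nat.card_coe_set_eq, ← Nat.card_coe_set_eq]
  rfl

theorem finrank_span_pair {v u : V} (hv : v ≠ 0) (hu : u ∉ Submodule.span F {v}) :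
    Module.finrank F (Submodule.span F {v, u}) = 2 := by
  have h1 : LinearIndependent F ![v, u] := by
    rw [LinearIndependent.pair_iff' hv]
    intro a ha
    apply hu
    rw [Submodule.mem_span_singleton]
    exact ⟨a, ha⟩
  have h2 := finrank_span_eq_card h1
  have h3 : Set.range ![v, u] = {v, u} := by
    ext x
    simp [Fin.exists_fin_two, eq_comm, or_comm]
  rw [h3] at h2
  simpa using h2

theorem span_pair_eq {v u : V} (hv : v ≠ 0) (hu : u ∉ Submodule.span F {v}) {W : Submodule F V}
    (hW : Module.finrank F W = 2) (hvW : v ∈ W) (huW : u ∈ W) : Submodule.span F {v, u} = W := by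
  haveI : Module.Finite F V := Module.Finite.of_finite
  apply Submodule.eq_of_le_of_finrank_eq
  · rw [Submodule.span_le]
    rintro x (rfl | rfl)
    · exact hvW
    · exact huW
  · rw [finrank_span_pair hv hu, hW]

theorem finite_sub : Finite (Submodule F V) :=
  Finite.of_injective (fun W : Submodule F V => (W : Set V)) SetLike.coe_injective

/-- Through a vector `v`. -/
theorem through (L : Submodule F V → Prop) (hdim : ∀ W, L W → Module.finrank F W = 2) {v : V}
    (hv : v ≠ 0) :
    Nat.card {u : V // u ∉ Submodule.span F {v} ∧ L (Submodule.span F {v, u})} =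
      Nat.card {W : Submodule F V // L W ∧ v ∈ W} *
        (Fintype.card F ^ 2 - Fintype.card F) := by
  classical
  haveI := finite_sub (F := F) (V := V)
  haveI : Fintype (Submodule F V) := Fintype.ofFinite _
  haveI : Fintype V := Fintype.ofFinite _
  rw [Nat.subtype_card (univ.filter fun u : V => u ∉ Submodule.span F {v} ∧ L (Submodule.span F {v, u}))
    (by simp), Nat.subtype_card (univ.filter fun W : Submodule F V => L W ∧ v ∈ W) (by simp)]
  rw [Finset.card_eq_sum_card_fiberwise (f := fun u : V => Submodule.span F {v, u})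
    (t := univ.filter fun W : Submodule F V => L W ∧ v ∈ W)]
  · rw [← smul_eq_mul, ← Finset.sum_const]
    refine Finset.sum_congr rfl fun W hW => ?_
    obtain ⟨hLW, hvW⟩ : L W ∧ v ∈ W := by simpa using hW
    have h2 := hdim W hLW
    have hS : Submodule.span F {v} ≤ W := by
      rw [Submodule.span_singleton_le_iff_mem]
      exact hvW
    have h3 := card_diff hS
    rw [card_sub, card_sub, h2, finrank_span_singleton hv, pow_one] at h3
    rw [← h3, ← Nat.subtype_card]
    intro u
    simp only [mem_filter, mem_univ, true_and]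
    constructor
    · rintro ⟨⟨hu1, -⟩, hu2⟩
      refine ⟨?_, hu1⟩
      rw [← hu2]
      exact Submodule.subset_span (by simp)
    · rintro ⟨hu1, hu2⟩
      have := span_pair_eq hv hu2 h2 hvW hu1
      refine ⟨⟨hu2, ?_⟩, this⟩
      rw [this]
      exact hLW
  · intro u hu
    have hu' : u ∉ Submodule.span F {v} ∧ L (Submodule.span F {v, u}) := by simpa using hu
    simp only [coe_filter, mem_univ, true_and, Set.mem_setOf_eq]
    exact ⟨hu'.2, Submodule.subset_span (by simp)⟩

/-- Double counting of flags. -/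
theorem flags (L : Submodule F V → Prop) (hdim : ∀ W, L W → Module.finrank F W = 2)
    (P : V → Prop) (l : ℕ) (h1 : ∀ v, v ≠ 0 → P v → Nat.card {W : Submodule F V // L W ∧ v ∈ W} = l)
    (h2 : ∀ v, v ≠ 0 → ¬ P v → ∀ W, L W → v ∉ W) :
    Nat.card {v : V // v ≠ 0 ∧ P v} * l =
      Nat.card {W : Submodule F V // L W} * (Fintype.card F ^ 2 - 1) := by
  classical
  haveI := finite_sub (F := F) (V := V)
  haveI : Fintype (Submodule F V) := Fintype.ofFinite _
  haveI : Fintype V := Fintype.ofFinite _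
  rw [Nat.subtype_card (univ.filter fun v : V => v ≠ 0 ∧ P v) (by simp),
    Nat.subtype_card (univ.filter fun W : Submodule F V => L W) (by simp)]
  have key := Finset.sum_card_bipartiteAbove_eq_sum_card_bipartiteBelow
    (s := univ.filter fun v : V => v ≠ 0 ∧ P v) (t := univ.filter fun W : Submodule F V => L W)
    (fun v W => v ∈ W)
  have e1 : ∀ v ∈ univ.filter (fun v : V => v ≠ 0 ∧ P v),
      ((univ.filter fun W : Submodule F V => L W).bipartiteAbove (fun v W => v ∈ W) v).card = l := by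
    intro v hv
    obtain ⟨hv0, hPv⟩ : v ≠ 0 ∧ P v := by simpa using hv
    rw [← h1 v hv0 hPv]
    symm
    apply Nat.subtype_card
    intro W
    simp [Finset.bipartiteAbove]
  have e2 : ∀ W ∈ univ.filter (fun W : Submodule F V => L W),
      ((univ.filter fun v : V => v ≠ 0 ∧ P v).bipartiteBelow (fun v W => v ∈ W) W).card =
        Fintype.card F ^ 2 - 1 := by
    intro W hW
    have hLW : L W := by simpa using hW
    have h3 := card_diff (bot_le : (⊥ : Submodule F V) ≤ W)
    rw [card_sub, hdim W hLW] at h3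
    have h4 : Nat.card (⊥ : Submodule F V) = 1 := by simp
    rw [h4] at h3
    rw [← h3]
    symm
    apply Nat.subtype_card
    intro v
    simp only [Finset.bipartiteBelow, mem_filter, mem_univ, true_and, Submodule.mem_bot]
    constructor
    · rintro ⟨⟨h5, h6⟩, h7⟩
      exact ⟨h7, h5⟩
    · rintro ⟨h5, h6⟩
      by_cases hP : P v
      · exact ⟨⟨h6, hP⟩, h5⟩
      · exact absurd h5 (h2 v h6 hP W hLW)
  rw [Finset.sum_congr rfl e1, Finset.sum_congr rfl e2, Finset.sum_const, Finset.sum_const] at key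
  simpa using key

end Double

section Herm

variable {ι : Type} [Fintype ι] [DecidableEq ι] {F : Type*} [Field F] [Fintype F] {σ : F ≃+* F}
  {f : (ι → F) → (ι → F) → F}

open Classical in
/-- The number of vectors of norm `c`. -/
noncomputable def T (f : (ι → F) → (ι → F) → F) (Y : Submodule F (ι → F)) (c : F) : ℕ :=
  (univ.filter fun y : ι → F => y ∈ Y ∧ f y y = c).card

theorem T_rec (hf : IsUnitaryForm σ f) {Y : Submodule F (ι → F)} {w : ι → F} (hw : w ∈ Y)
    (hww : f w w ≠ 0) (c : F) :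
    T f Y c = ∑ a : F, T f (Y ⊓ LinearMap.ker (formL hf w)) (c - a * σ a * f w w) := by
  classical
  unfold T
  have hg : σ (f w w) = f w w := f_self_fix hf w
  rw [Finset.card_eq_sum_card_fiberwise (f := fun y : ι → F => f y w / f w w) (t := univ)
    (fun _ _ => Finset.mem_coe.2 (Finset.mem_univ _))]
  refine Finset.sum_congr rfl fun a _ => ?_
  rw [Finset.filter_filter]
  refine Finset.card_nbij' (fun y => y - a • w) (fun y => y + a • w) ?_ ?_ ?_ ?_
  · intro y hy
    simp only [mem_coe, mem_filter, mem_univ, true_and] at hy ⊢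
    obtain ⟨⟨h1, h2⟩, h3⟩ := hy
    have h4 : f y w = a * f w w := by
      rw [← h3]
      field_simp
    have h5 : f w y = σ a * f w w := by
      rw [hf.herm, h4, map_mul, hg]
    refine ⟨⟨Y.sub_mem h1 (Y.smul_mem _ hw), ?_⟩, ?_⟩
    · change f _ w = 0
      rw [f_sub_left hf, hf.smul_left, h4, sub_self]
    · simp only [f_sub_left hf, f_sub_right hf, hf.smul_left, f_smul_right hf, h4, h5, h2]
      ring
  · intro y hy
    simp only [mem_coe, mem_filter, mem_univ, true_and] at hy ⊢
    obtain ⟨⟨h1, h2⟩, h3⟩ := hy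
    have h4 : f y w = 0 := h2
    have h5 : f w y = 0 := f_comm_zero hf h4
    refine ⟨⟨Y.add_mem h1 (Y.smul_mem _ hw), ?_⟩, ?_⟩
    · simp only [hf.add_left, f_add_right hf, hf.smul_left, f_smul_right hf, h3, h4, h5]
      ring
    · rw [hf.add_left, hf.smul_left, h4]
      field_simp
      ring
  · intro y _
    simp
  · intro y _
    simp

/-- A non-isotropic vector in a non-zero non-degenerate subspace. -/
theorem exists_noniso (hf : IsUnitaryForm σ f) {Y : Submodule F (ι → F)} (hY : Proj f Y)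
    (hY0 : Y ≠ ⊥) : ∃ w ∈ Y, f w w ≠ 0 := by
  obtain ⟨y₀, hy₀, hy₀0⟩ := Submodule.exists_mem_ne_zero_of_ne_bot hY0
  obtain ⟨x, hx, hxy⟩ := hY.exists_ne hf hy₀ hy₀0
  by_cases h3 : f y₀ y₀ = 0
  swap
  · exact ⟨y₀, hy₀, h3⟩
  by_cases h4 : f x x = 0
  swap
  · exact ⟨x, hx, h4⟩
  obtain ⟨κ, hκ⟩ := exists_trace_ne hf
  set b := f x y₀ with hbdef
  have hsb : σ b ≠ 0 := by simpa using hxy
  have hyx : f y₀ x = σ b := by rw [hbdef, sigma_f hf]
  refine ⟨x + (κ / σ b) • y₀, Y.add_mem hx (Y.smul_mem _ hy₀), ?_⟩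
  simp only [hf.add_left, f_add_right hf, hf.smul_left, f_smul_right hf, h3, h4, ← hbdef, hyx]
  rw [map_div₀, hf.involutive]
  have h5 : κ / σ b * σ b = κ := by field_simp
  have h6 : σ κ / b * b = σ κ := by
    have hb0 : b ≠ 0 := hxy
    field_simp
  intro h7
  apply hκ
  rw [mul_zero, mul_zero, zero_add, add_zero, h5, h6] at h7
  linear_combination h7

/-- The orthogonal of a non-isotropic vector in `Y`. -/
theorem proj_perp (hf : IsUnitaryForm σ f) {Y : Submodule F (ι → F)} (hY : Proj f Y) {w : ι → F}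
    (hw : w ∈ Y) (hww : f w w ≠ 0) : Proj f (Y ⊓ LinearMap.ker (formL hf w)) := by
  intro x
  obtain ⟨x₁, h1, h2⟩ := hY x
  refine ⟨x₁ - (f x₁ w / f w w) • w, ⟨Y.sub_mem h1 (Y.smul_mem _ hw), ?_⟩, ?_⟩
  · change f _ w = 0
    rw [f_sub_left hf, hf.smul_left]
    field_simp
    ring
  · rintro y ⟨hy, hyw⟩
    have hyw' : f y w = 0 := hyw
    rw [h2 y hy, f_sub_right hf, f_smul_right hf, hyw']
    ring

theorem finrank_perp (hf : IsUnitaryForm σ f) {Y : Submodule F (ι → F)} {w : ι → F}
    (hw : w ∈ Y) (hww : f w w ≠ 0) :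
    Module.finrank F (Y ⊓ LinearMap.ker (formL hf w) : Submodule F (ι → F)) + 1 =
      Module.finrank F Y := by
  have h1 := Cfsg.Agent.Lib.SymplecticTv.finrank_inf_ker_add_one Y (formL hf w)
  have h2 : Module.finrank F (Y ⊓ LinearMap.ker (formL hf w) : Submodule F (ι → F)) <
      Module.finrank F Y := by
    apply Submodule.finrank_lt_finrank_of_lt
    refine lt_of_le_of_ne inf_le_left ?_
    intro he
    have : w ∈ Y ⊓ LinearMap.ker (formL hf w) := by rw [he]; exact hw
    exact hww this.2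
  omega

open Classical in
/-- The number of vectors of norm one in the norm map. -/
theorem card_norm {q : ℕ} (hF : Fintype.card F = q ^ 2) (hσ : ∀ x, σ x = x ^ q)
    (hN : ∀ c, σ c = c → ∃ l, l * σ l = c) {c : F} (hc0 : c ≠ 0) (hc : σ c = c) :
    (univ.filter fun a : F => a * σ a = c).card = q + 1 := by
  classical
  obtain ⟨ω, hω1, hω2⟩ := Cfsg.Agent.Lib.GUQuot.exists_normOne (F := F) hF
  obtain ⟨l, hl⟩ := hN c hc
  have hl0 : l ≠ 0 := by
    rintro rfl
    apply hc0
    rw [← hl, zero_mul]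
  have hsl : σ l ≠ 0 := by simpa using hl0
  have hprim : IsPrimitiveRoot (ω : F) (q + 1) := by
    rw [IsPrimitiveRoot.coe_units_iff, ← hω1]
    exact IsPrimitiveRoot.orderOf ω
  rw [← hprim.card_nthRootsFinset]
  refine Finset.card_nbij' (fun a => a / l) (fun a => a * l) ?_ ?_ ?_ ?_
  · intro a ha
    have ha' : a * σ a = c := by simpa using ha
    simp only [mem_coe, Polynomial.mem_nthRootsFinset (Nat.succ_pos q)]
    have h1 : (a / l) ^ q = σ a / σ l := by
      rw [← hσ, map_div₀]
    rw [pow_succ, h1]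
    have h2 : σ a / σ l * (a / l) = (a * σ a) / (l * σ l) := by
      field_simp
    rw [h2, ha', hl, div_self hc0]
  · intro a ha
    have ha' : a ^ (q + 1) = 1 := by
      simpa [Polynomial.mem_nthRootsFinset (Nat.succ_pos q)] using ha
    simp only [mem_coe, mem_filter, mem_univ, true_and]
    rw [map_mul, hσ a]
    have h1 : a ^ q * a = 1 := by rw [← pow_succ]; exact ha'
    calc a * l * (a ^ q * σ l) = (a ^ q * a) * (l * σ l) := by ring
      _ = c := by rw [h1, hl, one_mul]
  · intro a _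
    simp only
    field_simp
  · intro a _
    simp only
    field_simp

/-- The numbers of vectors of norm `0` and of norm `1`. -/
def abC (q : ℕ) : ℕ → ℕ × ℕ
  | 0 => (1, 0)
  | m + 1 => ((abC q m).1 + (q ^ 2 - 1) * (abC q m).2,
      (q + 1) * (abC q m).1 + (q ^ 2 - q - 1) * (abC q m).2)

theorem T_eq {q : ℕ} (hF : Fintype.card F = q ^ 2) (hσ : ∀ x, σ x = x ^ q)
    (hf : IsUnitaryForm σ f) (hN : ∀ c, σ c = c → ∃ l, l * σ l = c) (m : ℕ) :
    ∀ Y : Submodule F (ι → F), Module.finrank F Y = m → Proj f Y →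
      T f Y 0 = (abC q m).1 ∧ ∀ c, c ≠ 0 → σ c = c → T f Y c = (abC q m).2 := by
  classical
  have hq := Cfsg.Agent.Lib.UnitaryHerm.q_two_le hF
  induction m with
  | zero =>
    intro Y hY _
    have hY0 : Y = ⊥ := Submodule.finrank_eq_zero.1 hY
    subst hY0
    constructor
    · unfold T
      have : (univ.filter fun y : ι → F => y ∈ (⊥ : Submodule F (ι → F)) ∧ f y y = 0) = {0} := by
        ext y
        simp only [Submodule.mem_bot, mem_filter, mem_univ, true_and, mem_singleton]
        constructor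
        · exact fun h => h.1
        · rintro rfl
          exact ⟨rfl, f_zero_left hf _⟩
      rw [this]
      simp [abC]
    · intro c hc0 _
      unfold T
      have : (univ.filter fun y : ι → F => y ∈ (⊥ : Submodule F (ι → F)) ∧ f y y = c) = ∅ := by
        ext y
        simp only [Submodule.mem_bot, mem_filter, mem_univ, true_and, notMem_empty, iff_false]
        rintro ⟨rfl, h⟩
        rw [f_zero_left hf] at h
        exact hc0 h.symm
      rw [this]
      simp [abC]
  | succ m ih =>
    intro Y hY hP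
    have hY0 : Y ≠ ⊥ := by
      rintro rfl
      simp at hY
    obtain ⟨w, hw, hww⟩ := exists_noniso hf hP hY0
    have h1 := finrank_perp hf hw hww
    have hP' := proj_perp hf hP hw hww
    obtain ⟨ih0, ih1⟩ := ih (Y ⊓ LinearMap.ker (formL hf w)) (by omega) hP'
    have hg : σ (f w w) = f w w := f_self_fix hf w
    have hval : ∀ c : F, σ c = c → ∀ a : F,
        T f (Y ⊓ LinearMap.ker (formL hf w)) (c - a * σ a * f w w) =
          if c - a * σ a * f w w = 0 then (abC q m).1 else (abC q m).2 := by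
      intro c hc a
      split_ifs with h
      · rw [h, ih0]
      · refine ih1 _ h ?_
        rw [map_sub, hc, map_mul, map_mul, hf.involutive, hg]
        ring
    constructor
    · rw [T_rec hf hw hww, Finset.sum_congr rfl (fun a _ => hval 0 (map_zero σ) a), Finset.sum_ite]
      have h2 : (univ.filter fun a : F => (0 : F) - a * σ a * f w w = 0) = {0} := by
        ext a
        simp only [mem_filter, mem_univ, true_and, mem_singleton, zero_sub, neg_eq_zero]
        constructor
        · intro h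
          rcases mul_eq_zero.1 h with h | h
          · rcases mul_eq_zero.1 h with h | h
            · exact h
            · simpa using h
          · exact absurd h hww
        · rintro rfl
          simp
      have h3 : (univ.filter fun a : F => ¬ ((0 : F) - a * σ a * f w w = 0)) = univ \ {0} := by
        ext a
        simp only [mem_filter, mem_univ, true_and, mem_sdiff, mem_singleton, zero_sub, neg_eq_zero]
        rw [not_iff_not]
        constructor
        · intro h
          rcases mul_eq_zero.1 h with h | h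
          · rcases mul_eq_zero.1 h with h | h
            · exact h
            · simpa using h
          · exact absurd h hww
        · rintro rfl
          simp
      rw [h2, h3]
      simp only [sum_const, smul_eq_mul, card_singleton, one_mul]
      rw [Finset.card_sdiff_of_subset (subset_univ _), card_singleton, card_univ, hF]
      simp [abC]
    · intro c hc0 hc
      rw [T_rec hf hw hww, Finset.sum_congr rfl (fun a _ => hval c hc a), Finset.sum_ite]
      have hfix : σ (c / f w w) = c / f w w := by rw [map_div₀, hc, hg]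
      have hne : c / f w w ≠ 0 := div_ne_zero hc0 hww
      have h2 := card_norm hF hσ hN hne hfix
      have h3 : (univ.filter fun a : F => c - a * σ a * f w w = 0) =
          univ.filter fun a : F => a * σ a = c / f w w := by
        ext a
        simp only [mem_filter, mem_univ, true_and]
        rw [eq_div_iff hww, sub_eq_zero, eq_comm]
      have h4 := Finset.card_filter_add_card_filter_not (s := (univ : Finset F))
        (fun a : F => c - a * σ a * f w w = 0)
      rw [card_univ, hF, h3, h2] at h4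
      simp only [sum_const, smul_eq_mul]
      rw [h3, h2]
      have h5 : (filter (fun a : F => ¬ c - a * σ a * f w w = 0) univ).card = q ^ 2 - q - 1 := by
        omega
      rw [h5]
      simp [abC]

/-- Totally isotropic lines. -/
def TIL (f : (ι → F) → (ι → F) → F) (W : Submodule F (ι → F)) : Prop :=
  Module.finrank F W = 2 ∧ ∀ u ∈ W, ∀ v ∈ W, f u v = 0

theorem TIL_span_iff (hf : IsUnitaryForm σ f) {v u : ι → F} (hv0 : v ≠ 0) (hvv : f v v = 0)
    (hu : u ∉ Submodule.span F {v}) :
    TIL f (Submodule.span F {v, u}) ↔ f u u = 0 ∧ f u v = 0 := by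
  constructor
  · rintro ⟨-, h⟩
    have h1 : v ∈ Submodule.span F {v, u} := Submodule.subset_span (by simp)
    have h2 : u ∈ Submodule.span F {v, u} := Submodule.subset_span (by simp)
    exact ⟨h u h2 u h2, h u h2 v h1⟩
  · rintro ⟨h1, h2⟩
    refine ⟨finrank_span_pair hv0 hu, ?_⟩
    intro x hx y hy
    obtain ⟨a, b, rfl⟩ := Submodule.mem_span_pair.1 hx
    obtain ⟨c, d, rfl⟩ := Submodule.mem_span_pair.1 hy
    have h3 : f v u = 0 := f_comm_zero hf h2
    simp only [hf.add_left, f_add_right hf, hf.smul_left, f_smul_right hf, hvv, h1, h2, h3]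
    ring

open Classical in
theorem card_iso_perp (hf : IsUnitaryForm σ f) {v v' : ι → F} (hvv : f v v = 0) (hv'v : f v' v = 1) :
    (univ.filter fun u : ι → F => f u u = 0 ∧ f u v = 0).card = Fintype.card F *
      T f (⊤ ⊓ LinearMap.ker (formL hf v) ⊓ LinearMap.ker (formL hf v')) 0 := by
  classical
  have hvv' : f v v' = 1 := by rw [hf.herm, hv'v, map_one]
  rw [Finset.card_eq_sum_card_fiberwise (f := fun u : ι → F => f u v') (t := univ)
    (fun _ _ => Finset.mem_coe.2 (Finset.mem_univ _))]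
  rw [← card_univ, ← smul_eq_mul, ← Finset.sum_const]
  refine Finset.sum_congr rfl fun t _ => ?_
  rw [Finset.filter_filter]
  unfold T
  refine Finset.card_nbij' (fun y => y - t • v) (fun y => y + t • v) ?_ ?_ ?_ ?_
  · intro y hy
    simp only [mem_coe, mem_filter, mem_univ, true_and] at hy ⊢
    obtain ⟨⟨h1, h2⟩, h3⟩ := hy
    have h4 : f v y = 0 := f_comm_zero hf h2
    refine ⟨⟨⟨Submodule.mem_top, ?_⟩, ?_⟩, ?_⟩
    · change f _ v = 0
      rw [f_sub_left hf, hf.smul_left, h2, hvv]
      ring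
    · change f _ v' = 0
      rw [f_sub_left hf, hf.smul_left, h3, hvv']
      ring
    · simp only [f_sub_left hf, f_sub_right hf, hf.smul_left, f_smul_right hf, h1, h2, h4, hvv]
      ring
  · intro y hy
    simp only [mem_coe, mem_filter, mem_univ, true_and] at hy ⊢
    obtain ⟨⟨⟨-, h1⟩, h2⟩, h3⟩ := hy
    have h1' : f y v = 0 := h1
    have h2' : f y v' = 0 := h2
    have h4 : f v y = 0 := f_comm_zero hf h1'
    refine ⟨⟨?_, ?_⟩, ?_⟩
    · simp only [hf.add_left, f_add_right hf, hf.smul_left, f_smul_right hf, h3, h1', h4, hvv]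
      ring
    · rw [hf.add_left, hf.smul_left, h1', hvv]
      ring
    · rw [hf.add_left, hf.smul_left, h2', hvv']
      ring
  · intro y _
    simp
  · intro y _
    simp

theorem finrank_perp_pair (hf : IsUnitaryForm σ f) {v v' : ι → F} (hvv : f v v = 0)
    (hv'v : f v' v = 1) :
    Module.finrank F (⊤ ⊓ LinearMap.ker (formL hf v) ⊓ LinearMap.ker (formL hf v') :
      Submodule F (ι → F)) + 2 = Fintype.card ι := by
  have hvv' : f v v' = 1 := by rw [hf.herm, hv'v, map_one]
  have hfinT : Module.finrank F (⊤ : Submodule F (ι → F)) = Fintype.card ι := by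
    rw [finrank_top, Module.finrank_fintype_fun_eq_card]
  have hlt1 : Module.finrank F (⊤ ⊓ LinearMap.ker (formL hf v) : Submodule F (ι → F)) <
      Module.finrank F (⊤ : Submodule F (ι → F)) := by
    apply Submodule.finrank_lt_finrank_of_lt
    refine lt_of_le_of_ne inf_le_left ?_
    intro he
    have : v' ∈ (⊤ ⊓ LinearMap.ker (formL hf v) : Submodule F (ι → F)) := by
      rw [he]
      exact Submodule.mem_top
    have h2 : f v' v = 0 := this.2
    rw [hv'v] at h2
    exact one_ne_zero h2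
  have hlt2 : Module.finrank F (⊤ ⊓ LinearMap.ker (formL hf v) ⊓ LinearMap.ker (formL hf v') :
      Submodule F (ι → F)) < Module.finrank F (⊤ ⊓ LinearMap.ker (formL hf v) :
      Submodule F (ι → F)) := by
    apply Submodule.finrank_lt_finrank_of_lt
    refine lt_of_le_of_ne inf_le_left ?_
    intro he
    have : v ∈ (⊤ ⊓ LinearMap.ker (formL hf v) ⊓ LinearMap.ker (formL hf v') :
        Submodule F (ι → F)) := by
      rw [he]
      exact ⟨Submodule.mem_top, hvv⟩
    have h2 : f v v' = 0 := this.2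
    rw [hvv'] at h2
    exact one_ne_zero h2
  have h1 := Cfsg.Agent.Lib.SymplecticTv.finrank_inf_ker_add_one ⊤ (formL hf v)
  have h2 := Cfsg.Agent.Lib.SymplecticTv.finrank_inf_ker_add_one
    (⊤ ⊓ LinearMap.ker (formL hf v)) (formL hf v')
  omega

/-- The number of lines through an isotropic vector. -/
theorem perp_count {q : ℕ} (hF : Fintype.card F = q ^ 2) (hσ : ∀ x, σ x = x ^ q)
    (hf : IsUnitaryForm σ f) (hN : ∀ c, σ c = c → ∃ l, l * σ l = c) {v : ι → F} (hv0 : v ≠ 0)
    (hvv : f v v = 0) :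
    Nat.card {W : Submodule F (ι → F) // TIL f W ∧ v ∈ W} *
        (Fintype.card F ^ 2 - Fintype.card F) + Fintype.card F =
      Fintype.card F * (abC q (Fintype.card ι - 2)).1 := by
  classical
  obtain ⟨v', -, hv'v, hv'v'⟩ := (proj_top f).exists_partner hf Submodule.mem_top hv0 hvv
  have hfin := finrank_perp_pair hf hvv hv'v
  have hP := (proj_top f).perp_pair hf Submodule.mem_top Submodule.mem_top hvv hv'v' hv'v
  obtain ⟨hT, -⟩ := T_eq hF hσ hf hN (Fintype.card ι - 2) _ (by omega) hP
  rw [← hT, ← card_iso_perp hf hvv hv'v,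
    ← through (TIL f) (fun W h => h.1) hv0]
  rw [Nat.subtype_card ((univ.filter fun u : ι → F => f u u = 0 ∧ f u v = 0) \
    (univ.filter fun u : ι → F => u ∈ Submodule.span F {v}))]
  · have hsub : (univ.filter fun u : ι → F => u ∈ Submodule.span F {v}) ⊆
        (univ.filter fun u : ι → F => f u u = 0 ∧ f u v = 0) := by
      intro u hu
      have hu' : u ∈ Submodule.span F {v} := by simpa using hu
      obtain ⟨a, rfl⟩ := Submodule.mem_span_singleton.1 hu'
      simp only [mem_filter, mem_univ, true_and, hf.smul_left, f_smul_right hf, hvv, mul_zero,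
        and_self]
    have h1 : (univ.filter fun u : ι → F => u ∈ Submodule.span F {v}).card = Fintype.card F := by
      rw [← Nat.subtype_card (p := fun u : ι → F => u ∈ Submodule.span F {v}) _ (by simp),
        show Nat.card {u : ι → F // u ∈ Submodule.span F {v}} =
        Nat.card (Submodule.span F {v}) from rfl, card_sub, finrank_span_singleton hv0, pow_one]
    rw [← h1, Finset.card_sdiff_add_card_eq_card hsub]
  · intro u
    simp only [mem_sdiff, mem_filter, mem_univ, true_and]
    constructor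
    · rintro ⟨h1, h2⟩
      exact ⟨h2, (TIL_span_iff hf hv0 hvv h2).2 h1⟩
    · rintro ⟨h1, h2⟩
      exact ⟨(TIL_span_iff hf hv0 hvv h1).1 h2, h1⟩

/-- The number of non-zero isotropic vectors. -/
theorem iso_count {q : ℕ} (hF : Fintype.card F = q ^ 2) (hσ : ∀ x, σ x = x ^ q)
    (hf : IsUnitaryForm σ f) (hN : ∀ c, σ c = c → ∃ l, l * σ l = c) :
    Nat.card {v : ι → F // v ≠ 0 ∧ f v v = 0} + 1 = (abC q (Fintype.card ι)).1 := by
  classical
  have hfinT : Module.finrank F (⊤ : Submodule F (ι → F)) = Fintype.card ι := by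
    rw [finrank_top, Module.finrank_fintype_fun_eq_card]
  obtain ⟨hT, -⟩ := T_eq hF hσ hf hN (Fintype.card ι) ⊤ hfinT (proj_top f)
  rw [← hT, T, Nat.subtype_card ((univ.filter fun y : ι → F => y ∈ (⊤ : Submodule F (ι → F)) ∧
    f y y = 0) \ {0})]
  · rw [Finset.card_sdiff_of_subset]
    · have : 0 < (univ.filter fun y : ι → F => y ∈ (⊤ : Submodule F (ι → F)) ∧ f y y = 0).card := by
        apply Finset.card_pos.2
        exact ⟨0, by simp [f_zero_left hf]⟩
      simp only [card_singleton]
      omega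
    · intro y hy
      rw [mem_singleton] at hy
      subst hy
      simp [f_zero_left hf]
  · intro v
    simp only [mem_sdiff, mem_filter, mem_univ, true_and, Submodule.mem_top, mem_singleton]
    tauto

/-- The double count for hermitian lines. -/
theorem lines_count {q : ℕ} (hF : Fintype.card F = q ^ 2) (hσ : ∀ x, σ x = x ^ q)
    (hf : IsUnitaryForm σ f) (hN : ∀ c, σ c = c → ∃ l, l * σ l = c) {l : ℕ}
    (hl : ∀ x : ℕ, x * (Fintype.card F ^ 2 - Fintype.card F) + Fintype.card F =
      Fintype.card F * (abC q (Fintype.card ι - 2)).1 → x = l) :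
    ((abC q (Fintype.card ι)).1 - 1) * l =
      Nat.card {W : Submodule F (ι → F) // TIL f W} * (Fintype.card F ^ 2 - 1) := by
  rw [← flags (TIL f) (fun W h => h.1) (fun v => f v v = 0) l ?_ ?_, ← iso_count hF hσ hf hN]
  · simp
  · intro v hv0 hvv
    exact hl _ (perp_count hF hσ hf hN hv0 hvv)
  · intro v _ hvv W hW hv
    exact hvv (hW.2 v hv v hv)

theorem abC_vals (r : ℕ) : (abC (r + 2) 2).1 + (r + 2) = (r + 2) ^ 3 + (r + 2) ^ 2 ∧
    (abC (r + 2) 3).1 + (r + 2) ^ 3 = (r + 2) ^ 5 + (r + 2) ^ 2 ∧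
    (abC (r + 2) 4).1 + (r + 2) ^ 3 = (r + 2) ^ 7 + (r + 2) ^ 4 ∧
    (abC (r + 2) 5).1 + (r + 2) ^ 5 = (r + 2) ^ 9 + (r + 2) ^ 4 := by
  have e1 : (r + 2) ^ 2 - 1 = r ^ 2 + 4 * r + 3 := by
    have : (r + 2) ^ 2 = r ^ 2 + 4 * r + 3 + 1 := by ring
    omega
  have e2 : (r + 2) ^ 2 - (r + 2) - 1 = r ^ 2 + 3 * r + 1 := by
    have : (r + 2) ^ 2 = r ^ 2 + 3 * r + 1 + 1 + (r + 2) := by ring
    omega
  simp only [abC, e1, e2]
  refine ⟨?_, ?_, ?_, ?_⟩ <;> ring

/-- Hermitian lines in dimension four. -/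
theorem lines_four {q : ℕ} (hF : Fintype.card F = q ^ 2) (hσ : ∀ x, σ x = x ^ q)
    (hf : IsUnitaryForm σ f) (hN : ∀ c, σ c = c → ∃ l, l * σ l = c) (hι : Fintype.card ι = 4) :
    Nat.card {W : Submodule F (ι → F) // TIL f W} = (q + 1) * (q ^ 3 + 1) := by
  have hq := Cfsg.Agent.Lib.UnitaryHerm.q_two_le hF
  obtain ⟨r, rfl⟩ : ∃ r, q = r + 2 := ⟨q - 2, by omega⟩
  obtain ⟨h2, -, h4, -⟩ := abC_vals r
  set q := r + 2 with hq'
  obtain ⟨D, hD⟩ : ∃ D, (q ^ 2) ^ 2 = D + q ^ 2 := ⟨(q ^ 2) ^ 2 - q ^ 2, by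
    have : q ^ 2 ≤ (q ^ 2) ^ 2 := Nat.le_self_pow (by norm_num) _
    omega⟩
  have hD0 : 0 < D := by
    have : q ^ 2 * 2 ^ 2 ≤ q ^ 2 * q ^ 2 := Nat.mul_le_mul_left _ (Nat.pow_le_pow_left hq 2)
    have h0 : 0 < q ^ 2 := by positivity
    nlinarith
  have hl : ∀ x : ℕ, x * (Fintype.card F ^ 2 - Fintype.card F) + Fintype.card F =
      Fintype.card F * (abC q (Fintype.card ι - 2)).1 → x = q + 1 := by
    intro x hx
    rw [hF, hι] at hx
    have e : (q ^ 2) ^ 2 - q ^ 2 = D := by omega
    rw [e] at hx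
    apply Nat.eq_of_mul_eq_mul_right hD0
    zify at hx hD h2 ⊢
    have h5 : (4 - 2 : ℕ) = 2 := rfl
    rw [h5] at hx
    linear_combination hx + (q : ℤ) ^ 2 * h2 + ((q : ℤ) + 1) * hD
  have h6 := lines_count hF hσ hf hN hl
  rw [hF, hι] at h6
  obtain ⟨E, hE⟩ : ∃ E, (q ^ 2) ^ 2 = E + 1 := ⟨(q ^ 2) ^ 2 - 1, by
    have : 1 ≤ (q ^ 2) ^ 2 := Nat.one_le_pow _ _ (by positivity)
    omega⟩
  have e : (q ^ 2) ^ 2 - 1 = E := by omega
  rw [e] at h6
  have hE0 : 0 < E := by
    have h0 : 0 < q ^ 2 := by positivity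
    omega
  apply Nat.eq_of_mul_eq_mul_right hE0
  rw [← h6]
  obtain ⟨A, hA⟩ : ∃ A, (abC q 4).1 = A + 1 := ⟨(abC q 4).1 - 1, by
    have : 1 ≤ q ^ 3 := Nat.one_le_pow _ _ (by omega)
    have : q ^ 3 ≤ q ^ 7 := Nat.pow_le_pow_right (by omega) (by norm_num)
    have : 1 ≤ q ^ 4 := Nat.one_le_pow _ _ (by omega)
    omega⟩
  rw [hA, Nat.add_sub_cancel]
  zify at hA hE h4 ⊢
  linear_combination ((q : ℤ) + 1) * h4 - ((q : ℤ) + 1) * hA + ((q : ℤ) + 1) * ((q : ℤ) ^ 3 + 1) * hE

/-- Hermitian lines in dimension five. -/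
theorem lines_five {q : ℕ} (hF : Fintype.card F = q ^ 2) (hσ : ∀ x, σ x = x ^ q)
    (hf : IsUnitaryForm σ f) (hN : ∀ c, σ c = c → ∃ l, l * σ l = c) (hι : Fintype.card ι = 5) :
    Nat.card {W : Submodule F (ι → F) // TIL f W} = (q ^ 3 + 1) * (q ^ 5 + 1) := by
  have hq := Cfsg.Agent.Lib.UnitaryHerm.q_two_le hF
  obtain ⟨r, rfl⟩ : ∃ r, q = r + 2 := ⟨q - 2, by omega⟩
  obtain ⟨-, h3, -, h5⟩ := abC_vals r
  set q := r + 2 with hq'
  obtain ⟨D, hD⟩ : ∃ D, (q ^ 2) ^ 2 = D + q ^ 2 := ⟨(q ^ 2) ^ 2 - q ^ 2, by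
    have : q ^ 2 ≤ (q ^ 2) ^ 2 := Nat.le_self_pow (by norm_num) _
    omega⟩
  have hD0 : 0 < D := by
    have : q ^ 2 * 2 ^ 2 ≤ q ^ 2 * q ^ 2 := Nat.mul_le_mul_left _ (Nat.pow_le_pow_left hq 2)
    have h0 : 0 < q ^ 2 := by positivity
    nlinarith
  have hl : ∀ x : ℕ, x * (Fintype.card F ^ 2 - Fintype.card F) + Fintype.card F =
      Fintype.card F * (abC q (Fintype.card ι - 2)).1 → x = q ^ 3 + 1 := by
    intro x hx
    rw [hF, hι] at hx
    have e : (q ^ 2) ^ 2 - q ^ 2 = D := by omega
    rw [e] at hx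
    apply Nat.eq_of_mul_eq_mul_right hD0
    zify at hx hD h3 ⊢
    have h6 : (5 - 2 : ℕ) = 3 := rfl
    rw [h6] at hx
    linear_combination hx + (q : ℤ) ^ 2 * h3 + ((q : ℤ) ^ 3 + 1) * hD
  have h6 := lines_count hF hσ hf hN hl
  rw [hF, hι] at h6
  obtain ⟨E, hE⟩ : ∃ E, (q ^ 2) ^ 2 = E + 1 := ⟨(q ^ 2) ^ 2 - 1, by
    have : 1 ≤ (q ^ 2) ^ 2 := Nat.one_le_pow _ _ (by positivity)
    omega⟩
  have e : (q ^ 2) ^ 2 - 1 = E := by omega
  rw [e] at h6
  have hE0 : 0 < E := by
    have h0 : 0 < q ^ 2 := by positivity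
    omega
  apply Nat.eq_of_mul_eq_mul_right hE0
  rw [← h6]
  obtain ⟨A, hA⟩ : ∃ A, (abC q 5).1 = A + 1 := ⟨(abC q 5).1 - 1, by
    have : 1 ≤ q ^ 5 := Nat.one_le_pow _ _ (by omega)
    have : q ^ 5 ≤ q ^ 9 := Nat.pow_le_pow_right (by omega) (by norm_num)
    have : 1 ≤ q ^ 4 := Nat.one_le_pow _ _ (by omega)
    omega⟩
  rw [hA, Nat.add_sub_cancel]
  zify at hA hE h5 ⊢
  linear_combination ((q : ℤ) ^ 3 + 1) * h5 - ((q : ℤ) ^ 3 + 1) * hA + ((q : ℤ) ^ 3 + 1) * ((q : ℤ) ^ 5 + 1) * hE

end Herm

end Cfsg.Agent.Lib.TICount
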