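/-
Discriminants of bilinear forms and totally isotropic subspaces; tensor products of forms.
-/
import Mathlib
import Cfsg.Agent.Lib.FormClass

set_option autoImplicit false
set_option linter.all false

open scoped TensorProduct Kronecker

namespace Cfsg.Agent.Lib.TensorForm

open Cfsg.Agent.Lib.FormClass

variable {F V : Type*} [Field F] [AddCommGroup V] [Module F V]

theorem gram_det {ι : Type*} [Fintype ι] [DecidableEq ι] (b c : Module.Basis ι F V) (B : LinearMap.BilinForm F V) :
    (LinearMap.BilinForm.toMatrix c B).det = (b.toMatrix c).det ^ 2 * (LinearMap.BilinForm.toMatrix b B).det := by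
  rw [← LinearMap.BilinForm.toMatrix_mul_basis_toMatrix b c B, Matrix.det_mul, Matrix.det_mul, Matrix.det_transpose]
  ring

theorem gram_reindex {ι κ : Type*} [Fintype ι] [DecidableEq ι] [Fintype κ] [DecidableEq κ] (c : Module.Basis ι F V) (e : ι ≃ κ)
    (B : LinearMap.BilinForm F V) :
    (LinearMap.BilinForm.toMatrix (c.reindex e) B).det = (LinearMap.BilinForm.toMatrix c B).det := by
  have h : LinearMap.BilinForm.toMatrix (c.reindex e) B = (LinearMap.BilinForm.toMatrix c B).submatrix e.symm e.symm := by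
    ext i j
    simp [LinearMap.BilinForm.toMatrix_apply]
  rw [h, Matrix.det_submatrix_equiv_self]

theorem gram_normal {m : ℕ} (b : Module.Basis (Fin (m + 1)) F V) (B : LinearMap.BilinForm F V)
    (ho : ∀ i j, i ≠ j → B (b i) (b j) = 0) (hn : ∀ i, i ≠ Fin.last m → B (b i) (b i) = 1) :
    (LinearMap.BilinForm.toMatrix b B).det = B (b (Fin.last m)) (b (Fin.last m)) := by
  have h : LinearMap.BilinForm.toMatrix b B = Matrix.diagonal (fun i => B (b i) (b i)) := by
    ext i j
    rw [LinearMap.BilinForm.toMatrix_apply]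
    by_cases hij : i = j
    · subst hij
      simp
    · rw [ho i j hij, Matrix.diagonal_apply_ne _ hij]
  rw [h, Matrix.det_diagonal, Fin.prod_univ_castSucc]
  rw [Finset.prod_eq_one, one_mul]
  intro i _
  exact hn _ (Fin.castSucc_lt_last i).ne

theorem det_zero_block {m : ℕ} (C E D : Matrix (Fin m) (Fin m) F) :
    (Matrix.fromBlocks 0 C E D).det = (-1) ^ m * C.det * E.det := by
  have hJ : (Matrix.fromBlocks (0 : Matrix (Fin m) (Fin m) F) (1 : Matrix (Fin m) (Fin m) F) (1 : Matrix (Fin m) (Fin m) F) (0 : Matrix (Fin m) (Fin m) F)).det = (-1) ^ m := by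
    have h1 : Matrix.fromBlocks (1 : Matrix (Fin m) (Fin m) F) (1 : Matrix (Fin m) (Fin m) F) (0 : Matrix (Fin m) (Fin m) F) (1 : Matrix (Fin m) (Fin m) F) * Matrix.fromBlocks (0 : Matrix (Fin m) (Fin m) F) (1 : Matrix (Fin m) (Fin m) F) (1 : Matrix (Fin m) (Fin m) F) (0 : Matrix (Fin m) (Fin m) F)
        = Matrix.fromBlocks (1 : Matrix (Fin m) (Fin m) F) (1 : Matrix (Fin m) (Fin m) F) (1 : Matrix (Fin m) (Fin m) F) (0 : Matrix (Fin m) (Fin m) F) := by
      rw [Matrix.fromBlocks_multiply]
      simp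
    have h2 := congrArg Matrix.det h1
    rw [Matrix.det_mul, Matrix.det_fromBlocks_zero₂₁, Matrix.det_one, one_mul, one_mul, Matrix.det_fromBlocks_one₁₁] at h2
    rw [h2]
    simp [Matrix.det_neg]
  have h : Matrix.fromBlocks 0 C E D = Matrix.fromBlocks (0 : Matrix (Fin m) (Fin m) F) (1 : Matrix (Fin m) (Fin m) F) (1 : Matrix (Fin m) (Fin m) F) (0 : Matrix (Fin m) (Fin m) F) * Matrix.fromBlocks E D 0 C := by
    rw [Matrix.fromBlocks_multiply]
    simp
  rw [h, Matrix.det_mul, hJ, Matrix.det_fromBlocks_zero₂₁]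
  ring

/-- The discriminant of a form with a totally isotropic subspace of half the dimension. -/
theorem disc_of_ti [FiniteDimensional F V] (B : LinearMap.BilinForm F V) (hS : ∀ x y, B x y = B y x) {m : ℕ}
    (X : Submodule F V) (hX : Module.finrank F X = m) (hV : Module.finrank F V = 2 * m) (hiso : ∀ x ∈ X, ∀ y ∈ X, B x y = 0)
    {ι : Type*} [Fintype ι] [DecidableEq ι] (c : Module.Basis ι F V) :
    ∃ s : F, (LinearMap.BilinForm.toMatrix c B).det = (-1) ^ m * s ^ 2 := by
  classical
  obtain ⟨W', hc⟩ := Submodule.exists_isCompl X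
  have hW' : Module.finrank F W' = m := by
    have h1 := Submodule.finrank_add_eq_of_isCompl hc
    omega
  let bW := Module.finBasisOfFinrankEq F X hX
  let bW' := Module.finBasisOfFinrankEq F W' hW'
  let c' : Module.Basis (Fin m ⊕ Fin m) F V := (bW.prod bW').map (Submodule.prodEquivOfIsCompl X W' hc)
  have hc1 : ∀ i, c' (Sum.inl i) ∈ X := by
    intro i
    simp [c', Module.Basis.prod_apply]
  have hcard : Fintype.card ι = Fintype.card (Fin m ⊕ Fin m) := by
    rw [← Module.finrank_eq_card_basis c, hV]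
    simp
    ring
  let e : ι ≃ Fin m ⊕ Fin m := Fintype.equivOfCardEq hcard
  have h1 := gram_det c' (c.reindex e) B
  rw [gram_reindex] at h1
  set G := LinearMap.BilinForm.toMatrix c' B with hG
  have hG1 : G.toBlocks₁₁ = 0 := by
    ext i j
    rw [Matrix.toBlocks₁₁, Matrix.of_apply, hG, LinearMap.BilinForm.toMatrix_apply]
    exact hiso _ (hc1 i) _ (hc1 j)
  have hG2 : G.toBlocks₂₁ = G.toBlocks₁₂.transpose := by
    ext i j
    rw [Matrix.toBlocks₂₁, Matrix.transpose_apply, Matrix.toBlocks₁₂, Matrix.of_apply, Matrix.of_apply, hG,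
      LinearMap.BilinForm.toMatrix_apply, LinearMap.BilinForm.toMatrix_apply]
    exact hS _ _
  have hG3 : G = Matrix.fromBlocks 0 G.toBlocks₁₂ G.toBlocks₁₂.transpose G.toBlocks₂₂ := by
    rw [← hG1, ← hG2, Matrix.fromBlocks_toBlocks]
  have hG4 : G.det = (-1) ^ m * G.toBlocks₁₂.det ^ 2 := by
    conv_lhs => rw [hG3]
    rw [det_zero_block, Matrix.det_transpose]
    ring
  rw [hG4] at h1
  refine ⟨(c'.toMatrix (c.reindex e)).det * G.toBlocks₁₂.det, ?_⟩
  rw [h1]
  ring

/-- A totally isotropic subspace from a graph. -/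
theorem ti_graph [FiniteDimensional F V] (h2 : (2 : F) ≠ 0) (B : LinearMap.BilinForm F V) (hS : ∀ x y, B x y = B y x)
    {ι : Type*} [Fintype ι] [DecidableEq ι] (e : Module.Basis (ι ⊕ ι) F V)
    (horth : ∀ s t, s ≠ t → B (e s) (e t) = 0) (A : (ι → F) →ₗ[F] (ι → F))
    (hA : ∀ x, ∑ i, B (e (Sum.inr i)) (e (Sum.inr i)) * A x i ^ 2 = - ∑ i, B (e (Sum.inl i)) (e (Sum.inl i)) * x i ^ 2) :
    ∃ X : Submodule F V, Module.finrank F X = Fintype.card ι ∧ ∀ x ∈ X, ∀ y ∈ X, B x y = 0 := by
  classical
  let T : (ι → F) →ₗ[F] V :=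
    { toFun := fun x => ∑ s, (Sum.elim x (A x) s) • e s
      map_add' := by
        intro x y
        rw [← Finset.sum_add_distrib]
        refine Finset.sum_congr rfl fun s _ => ?_
        rcases s with i | i <;> simp [add_smul]
      map_smul' := by
        intro a x
        rw [Finset.smul_sum]
        refine Finset.sum_congr rfl fun s _ => ?_
        rcases s with i | i <;> simp [smul_smul] }
  have hT : ∀ x, T x = ∑ s, (Sum.elim x (A x) s) • e s := fun x => rfl
  have hinj : Function.Injective T := by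
    rw [← LinearMap.ker_eq_bot, LinearMap.ker_eq_bot']
    intro x hx
    have h1 := (Fintype.linearIndependent_iff.1 e.linearIndependent) _ ((hT x).symm.trans hx)
    funext i
    exact h1 (Sum.inl i)
  have hself : ∀ x, B (T x) (T x) = 0 := by
    intro x
    rw [hT]
    simp only [map_sum, map_smul, LinearMap.sum_apply, LinearMap.smul_apply, smul_eq_mul]
    have h1 : ∀ t, ∑ s, Sum.elim x (A x) s * B (e s) (e t) = Sum.elim x (A x) t * B (e t) (e t) := by
      intro t
      refine Finset.sum_eq_single t (fun s _ hst => ?_) (by simp)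
      rw [horth s t hst]
      simp
    simp only [h1]
    rw [Fintype.sum_sum_type]
    simp only [Sum.elim_inl, Sum.elim_inr]
    have h4 := hA x
    have e1 : ∀ i, A x i * (A x i * B (e (Sum.inr i)) (e (Sum.inr i))) = B (e (Sum.inr i)) (e (Sum.inr i)) * A x i ^ 2 := fun i => by ring
    have e2 : ∀ i, x i * (x i * B (e (Sum.inl i)) (e (Sum.inl i))) = B (e (Sum.inl i)) (e (Sum.inl i)) * x i ^ 2 := fun i => by ring
    simp only [e1, e2, h4]
    ring
  refine ⟨LinearMap.range T, ?_, ?_⟩
  · rw [LinearMap.finrank_range_of_inj hinj]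
    simp
  · rintro _ ⟨x, rfl⟩ _ ⟨y, rfl⟩
    have h1 := hself (x + y)
    simp only [map_add, LinearMap.add_apply] at h1
    rw [hself x, hself y, hS (T y) (T x)] at h1
    have h3 : (2 : F) * B (T x) (T y) = 0 := by linear_combination h1
    exact (mul_eq_zero.1 h3).resolve_left h2

/-- An anti-isometry of a weighted sum of squares. -/
def HasAnti (F : Type*) [Field F] (ι : Type*) [Fintype ι] : Prop :=
  ∃ A : (ι → F) →ₗ[F] (ι → F), ∀ x, ∑ i, A x i ^ 2 = - ∑ i, x i ^ 2

theorem HasAnti.transport {ι κ : Type*} [Fintype ι] [Fintype κ] (e : ι ≃ κ) (h : HasAnti F ι) : HasAnti F κ := by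
  obtain ⟨A, hA⟩ := h
  let φ : (κ → F) ≃ₗ[F] (ι → F) := LinearEquiv.funCongrLeft F F e
  have hφ : ∀ x i, φ x i = x (e i) := fun x i => rfl
  have hφs : ∀ x : κ → F, ∑ i, φ x i ^ 2 = ∑ k, x k ^ 2 := fun x => by
    simp only [hφ]
    exact Equiv.sum_comp e (fun k => x k ^ 2)
  refine ⟨φ.symm.toLinearMap ∘ₗ A ∘ₗ φ.toLinearMap, fun x => ?_⟩
  rw [← hφs x, ← hA, ← hφs]
  simp

theorem hasAnti_of_sq {ι : Type*} [Fintype ι] {i₀ : F} (h : -1 = i₀ * i₀) : HasAnti F ι := by
  refine ⟨i₀ • LinearMap.id, fun x => ?_⟩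
  rw [← Finset.sum_neg_distrib]
  refine Finset.sum_congr rfl fun i _ => ?_
  simp only [LinearMap.smul_apply, LinearMap.id_apply, Pi.smul_apply, smul_eq_mul]
  linear_combination -(x i) ^ 2 * h

theorem hasAnti_sum {r : ℕ} {a b : F} (h : a ^ 2 + b ^ 2 = -1) : HasAnti F (Fin r ⊕ Fin r) := by
  let A : (Fin r ⊕ Fin r → F) →ₗ[F] (Fin r ⊕ Fin r → F) :=
    { toFun := fun x s => Sum.elim (fun i => a * x (Sum.inl i) + b * x (Sum.inr i))
        (fun i => b * x (Sum.inl i) - a * x (Sum.inr i)) s
      map_add' := by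
        intro x y
        funext s
        rcases s with i | i <;> simp <;> ring
      map_smul' := by
        intro c x
        funext s
        rcases s with i | i <;> simp <;> ring }
  refine ⟨A, fun x => ?_⟩
  have hA1 : ∀ i, A x (Sum.inl i) = a * x (Sum.inl i) + b * x (Sum.inr i) := fun i => rfl
  have hA2 : ∀ i, A x (Sum.inr i) = b * x (Sum.inl i) - a * x (Sum.inr i) := fun i => rfl
  rw [Fintype.sum_sum_type, Fintype.sum_sum_type]
  simp only [hA1, hA2]
  rw [← Finset.sum_add_distrib, neg_add_rev, ← Finset.sum_neg_distrib, ← Finset.sum_neg_distrib, ← Finset.sum_add_distrib]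
  refine Finset.sum_congr rfl fun i _ => ?_
  linear_combination (x (Sum.inl i) ^ 2 + x (Sum.inr i) ^ 2) * h

/-- The odd case: the last coordinate has weight `-1`. -/
theorem anti_odd {ι : Type*} [Fintype ι] (h : HasAnti F ι) :
    ∃ A : (ι ⊕ Unit → F) →ₗ[F] (ι ⊕ Unit → F),
      ∀ x, ∑ i, Sum.elim (fun _ => (1 : F)) (fun _ => -1) i * A x i ^ 2 = - ∑ i, x i ^ 2 := by
  obtain ⟨A₀, hA₀⟩ := h
  let A : (ι ⊕ Unit → F) →ₗ[F] (ι ⊕ Unit → F) :=
    { toFun := fun x s => Sum.elim (fun i => A₀ (fun j => x (Sum.inl j)) i) (fun u => x (Sum.inr u)) s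
      map_add' := by
        intro x y
        funext s
        rcases s with i | i
        · show A₀ ((fun j => x (Sum.inl j)) + (fun j => y (Sum.inl j))) i = _
          rw [map_add]
          rfl
        · rfl
      map_smul' := by
        intro c x
        funext s
        rcases s with i | i
        · show A₀ (c • (fun j => x (Sum.inl j))) i = _
          rw [map_smul]
          rfl
        · rfl }
  refine ⟨A, fun x => ?_⟩
  have hA1 : ∀ i, A x (Sum.inl i) = A₀ (fun j => x (Sum.inl j)) i := fun i => rfl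
  have hA2 : ∀ u, A x (Sum.inr u) = x (Sum.inr u) := fun u => rfl
  rw [Fintype.sum_sum_type, Fintype.sum_sum_type]
  simp only [Sum.elim_inl, Sum.elim_inr, hA1, hA2, one_mul]
  rw [hA₀]
  simp
  ring

/-- A normal basis. -/
theorem normal_basis [Fintype F] [FiniteDimensional F V] (h2 : (2 : F) ≠ 0) (B : LinearMap.BilinForm F V) (hS : ∀ x y, B x y = B y x)
    (hN : B.Nondegenerate) {n : ℕ} (hn : Module.finrank F V = n + 1) (α : F) (hα : ¬ IsSquare α) :
    ∃ b : Module.Basis (Fin (n + 1)) F V, (∀ i j, i ≠ j → B (b i) (b j) = 0) ∧ (∀ i, i ≠ Fin.last n → B (b i) (b i) = 1) ∧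
      (B (b (Fin.last n)) (b (Fin.last n)) = 1 ∨ B (b (Fin.last n)) (b (Fin.last n)) = α) := by
  classical
  obtain ⟨v, -, hvo, hvn, hvl⟩ := symm_normal h2 hS hα n ⊤ (by rw [finrank_top, hn])
    (fun w _ h => hN.1 w (fun y => h y Submodule.mem_top))
  have hne : ∀ i, B (v i) (v i) ≠ 0 := by
    intro i
    by_cases hi : i = Fin.last n
    · subst hi
      have hα0 : α ≠ 0 := by
        rintro rfl
        exact hα IsSquare.zero
      rcases hvl with h | h <;> rw [h]
      · exact one_ne_zero
      · exact hα0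
    · rw [hvn i hi]
      exact one_ne_zero
  obtain ⟨b, hb⟩ := exists_basis_of_orth (B := B) (v := v) hn hvo hne
  refine ⟨b, fun i j hij => by rw [hb, hb]; exact hvo i j hij, fun i hi => by rw [hb]; exact hvn i hi, ?_⟩
  rw [hb]
  exact hvl

/-- Conversely, a form of the right discriminant has a totally isotropic subspace of half the dimension. -/
theorem ti_of_disc [Fintype F] [FiniteDimensional F V] (h2 : (2 : F) ≠ 0) (B : LinearMap.BilinForm F V) (hS : ∀ x y, B x y = B y x)
    (hN : B.Nondegenerate) {k : ℕ} (hV : Module.finrank F V = 2 * k) {ι : Type*} [Fintype ι] [DecidableEq ι]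
    (c : Module.Basis ι F V) {t : F} (ht : (LinearMap.BilinForm.toMatrix c B).det = (-1) ^ k * t ^ 2) :
    ∃ X : Submodule F V, Module.finrank F X = k ∧ ∀ x ∈ X, ∀ y ∈ X, B x y = 0 := by
  classical
  rcases Nat.eq_zero_or_pos k with rfl | hk
  · exact ⟨⊥, by simp, by simp⟩
  have hchar : ringChar F ≠ 2 := by
    intro h
    apply h2
    have := ringChar.Nat.cast_ringChar (R := F)
    rw [h] at this
    exact_mod_cast this
  obtain ⟨n, hn⟩ : ∃ n, 2 * k = n + 1 := ⟨2 * k - 1, by omega⟩
  have hV' : Module.finrank F V = n + 1 := by omega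
  -- the relation between the discriminant and the normal form
  have hrel : ∀ b : Module.Basis (Fin (n + 1)) F V, ∃ p : F, p ≠ 0 ∧ (LinearMap.BilinForm.toMatrix b B).det = p ^ 2 * ((-1) ^ k * t ^ 2) := by
    intro b
    have hcard : Fintype.card ι = Fintype.card (Fin (n + 1)) := by
      rw [← Module.finrank_eq_card_basis c, hV']
      simp
    let e : ι ≃ Fin (n + 1) := Fintype.equivOfCardEq hcard
    have h1 := gram_det (c.reindex e) b B
    rw [gram_reindex, ht] at h1
    refine ⟨((c.reindex e).toMatrix b).det, ?_, h1⟩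
    intro h0
    have := congrArg Matrix.det (Module.Basis.toMatrix_mul_toMatrix_flip (c.reindex e) b)
    rw [Matrix.det_mul, h0, zero_mul, Matrix.det_one] at this
    exact zero_ne_one this
  have hdet0 : (LinearMap.BilinForm.toMatrix c B).det ≠ 0 := (LinearMap.BilinForm.nondegenerate_iff_det_ne_zero c).1 hN
  have ht0 : t ≠ 0 := by
    rintro rfl
    apply hdet0
    rw [ht]
    simp
  have hcardι : ∀ (b : Module.Basis (Fin (n + 1)) F V) (κ : Type) [Fintype κ] [DecidableEq κ], Fintype.card κ = k →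
      ∀ s₀ : κ ⊕ κ, ∃ e : κ ⊕ κ ≃ Fin (n + 1), e s₀ = Fin.last n := by
    intro b κ _ _ hκ s₀
    have hc : Fintype.card (κ ⊕ κ) = Fintype.card (Fin (n + 1)) := by
      simp [hκ]
      omega
    let e₀ : κ ⊕ κ ≃ Fin (n + 1) := Fintype.equivOfCardEq hc
    refine ⟨e₀.trans (Equiv.swap (e₀ s₀) (Fin.last n)), ?_⟩
    simp
  by_cases hsq : IsSquare (-1 : F)
  · obtain ⟨α, hα⟩ := FiniteField.exists_nonsquare hchar
    obtain ⟨b, ho, hn₁, hl⟩ := normal_basis h2 B hS hN hV' α hα
    obtain ⟨p, hp, hrelb⟩ := hrel b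
    rw [gram_normal b B ho hn₁] at hrelb
    obtain ⟨i₀, hi₀⟩ := hsq
    have hd : B (b (Fin.last n)) (b (Fin.last n)) = 1 := by
      rcases hl with h | h
      · exact h
      · exfalso
        apply hα
        rw [← h, hrelb]
        refine ⟨p * i₀ ^ k * t, ?_⟩
        rw [hi₀]
        ring
    have hall : ∀ s, B (b s) (b s) = 1 := by
      intro s
      by_cases hs : s = Fin.last n
      · rw [hs, hd]
      · exact hn₁ s hs
    obtain ⟨e, -⟩ := hcardι b (Fin k) (by simp) (Sum.inl ⟨0, hk⟩)
    obtain ⟨A, hA⟩ := hasAnti_of_sq (F := F) (ι := Fin k) hi₀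
    obtain ⟨X, hX, hX'⟩ := ti_graph h2 B hS (b.reindex e.symm) (fun s t' hst => by
      simp only [Module.Basis.reindex_apply, Equiv.symm_symm]
      exact ho _ _ (fun h => hst (e.injective h))) A (fun x => by
        simp only [Module.Basis.reindex_apply, Equiv.symm_symm, hall, one_mul]
        exact hA x)
    exact ⟨X, by simpa using hX, hX'⟩
  · obtain ⟨b, ho, hn₁, hl⟩ := normal_basis h2 B hS hN hV' (-1) hsq
    obtain ⟨p, hp, hrelb⟩ := hrel b
    rw [gram_normal b B ho hn₁] at hrelb
    obtain ⟨a, c', hab⟩ := FiniteField.exists_root_sum_quadratic (R := F) (f := Polynomial.X ^ 2) (g := Polynomial.X ^ 2 + 1)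
      (by simp) (by
        rw [Polynomial.degree_add_eq_left_of_degree_lt] <;> simp) (FiniteField.odd_card_of_char_ne_two hchar)
    have hab' : a ^ 2 + c' ^ 2 = -1 := by
      simp at hab
      linear_combination hab
    rcases Nat.even_or_odd k with hev | hod
    · -- `k` even
      obtain ⟨r, hr⟩ := hev
      have hd : B (b (Fin.last n)) (b (Fin.last n)) = 1 := by
        rcases hl with h | h
        · exact h
        · exfalso
          apply hsq
          rw [← h, hrelb, hr]
          refine ⟨p * (-1) ^ r * t, ?_⟩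
          have : ((-1 : F) ^ r) * (-1) ^ r = 1 := by
            rw [← mul_pow]
            simp
          rw [pow_add]
          ring
      have hall : ∀ s, B (b s) (b s) = 1 := by
        intro s
        by_cases hs : s = Fin.last n
        · rw [hs, hd]
        · exact hn₁ s hs
      obtain ⟨e, -⟩ := hcardι b (Fin k) (by simp) (Sum.inl ⟨0, hk⟩)
      have hanti : HasAnti F (Fin k) := by
        subst hr
        exact (hasAnti_sum hab').transport finSumFinEquiv
      obtain ⟨A, hA⟩ := hanti
      obtain ⟨X, hX, hX'⟩ := ti_graph h2 B hS (b.reindex e.symm) (fun s t' hst => by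
        simp only [Module.Basis.reindex_apply, Equiv.symm_symm]
        exact ho _ _ (fun h => hst (e.injective h))) A (fun x => by
          simp only [Module.Basis.reindex_apply, Equiv.symm_symm, hall, one_mul]
          exact hA x)
      exact ⟨X, by simpa using hX, hX'⟩
    · -- `k` odd
      obtain ⟨r, hr⟩ := hod
      have hd : B (b (Fin.last n)) (b (Fin.last n)) = -1 := by
        rcases hl with h | h
        · exfalso
          apply hsq
          rw [h, hr, Odd.neg_one_pow ⟨r, rfl⟩] at hrelb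
          exact ⟨p * t, by linear_combination -hrelb⟩
        · exact h
      let κ := (Fin r ⊕ Fin r) ⊕ Unit
      have hκ : Fintype.card κ = k := by
        simp [κ]
        omega
      obtain ⟨e, he⟩ := hcardι b κ hκ (Sum.inr (Sum.inr ()))
      obtain ⟨A, hA⟩ := anti_odd (hasAnti_sum (r := r) hab')
      obtain ⟨X, hX, hX'⟩ := ti_graph h2 B hS (b.reindex e.symm) (fun s t' hst => by
        simp only [Module.Basis.reindex_apply, Equiv.symm_symm]
        exact ho _ _ (fun h => hst (e.injective h))) A (fun x => by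
          simp only [Module.Basis.reindex_apply, Equiv.symm_symm]
          have e1 : ∀ i, B (b (e (Sum.inr i))) (b (e (Sum.inr i))) = Sum.elim (fun _ => (1 : F)) (fun _ => -1) i := by
            rintro (i | u)
            · apply hn₁
              intro h
              rw [← he] at h
              have := e.injective h
              simp at this
            · have : Sum.inr (Sum.inr u) = (Sum.inr (Sum.inr ()) : κ ⊕ κ) := rfl
              rw [show (Sum.inr (Sum.inr u) : κ ⊕ κ) = Sum.inr (Sum.inr ()) from rfl, he, hd]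
              rfl
          have e2 : ∀ i, B (b (e (Sum.inl i))) (b (e (Sum.inl i))) = 1 := by
            intro i
            apply hn₁
            intro h
            rw [← he] at h
            have := e.injective h
            simp at this
          simp only [e1, e2, one_mul]
          exact hA x)
      exact ⟨X, hX.trans hκ, hX'⟩

section Tensor

variable {U W : Type*} [AddCommGroup U] [Module F U] [AddCommGroup W] [Module F W]

theorem tmul_apply (B₁ : LinearMap.BilinForm F U) (B₂ : LinearMap.BilinForm F W) (a b : U) (c d : W) :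
    (B₁.tmul B₂) (a ⊗ₜ c) (b ⊗ₜ d) = B₁ a b * B₂ c d := by
  rw [LinearMap.BilinForm.tensorDistrib_tmul, smul_eq_mul, mul_comm]

theorem gram_tensor {ι κ : Type*} [Fintype ι] [DecidableEq ι] [Fintype κ] [DecidableEq κ] (B₁ : LinearMap.BilinForm F U)
    (B₂ : LinearMap.BilinForm F W) (b₁ : Module.Basis ι F U) (b₂ : Module.Basis κ F W) :
    LinearMap.BilinForm.toMatrix (b₁.tensorProduct b₂) (B₁.tmul B₂) =
      LinearMap.BilinForm.toMatrix b₁ B₁ ⊗ₖ LinearMap.BilinForm.toMatrix b₂ B₂ := by
  ext ⟨i, j⟩ ⟨i', j'⟩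
  rw [LinearMap.BilinForm.toMatrix_apply, Module.Basis.tensorProduct_apply, Module.Basis.tensorProduct_apply, tmul_apply,
    Matrix.kronecker_apply, LinearMap.BilinForm.toMatrix_apply, LinearMap.BilinForm.toMatrix_apply]

theorem tmul_det {ι κ : Type*} [Fintype ι] [DecidableEq ι] [Fintype κ] [DecidableEq κ] (B₁ : LinearMap.BilinForm F U)
    (B₂ : LinearMap.BilinForm F W) (b₁ : Module.Basis ι F U) (b₂ : Module.Basis κ F W) :
    (LinearMap.BilinForm.toMatrix (b₁.tensorProduct b₂) (B₁.tmul B₂)).det =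
      (LinearMap.BilinForm.toMatrix b₁ B₁).det ^ Fintype.card κ * (LinearMap.BilinForm.toMatrix b₂ B₂).det ^ Fintype.card ι := by
  rw [gram_tensor, Matrix.det_kronecker]

theorem tmul_nondeg [FiniteDimensional F U] [FiniteDimensional F W] (B₁ : LinearMap.BilinForm F U) (B₂ : LinearMap.BilinForm F W)
    (h₁ : B₁.Nondegenerate) (h₂ : B₂.Nondegenerate) : LinearMap.BilinForm.Nondegenerate (B₁.tmul B₂) := by
  classical
  let b₁ := Module.finBasis F U
  let b₂ := Module.finBasis F W
  apply LinearMap.BilinForm.nondegenerate_of_det_ne_zero (M₂ := TensorProduct F U W) (A := F) (B₁.tmul B₂) (b₁.tensorProduct b₂)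
  rw [tmul_det]
  have h3 := (LinearMap.BilinForm.nondegenerate_iff_det_ne_zero b₁).1 h₁
  have h4 := (LinearMap.BilinForm.nondegenerate_iff_det_ne_zero b₂).1 h₂
  exact mul_ne_zero (pow_ne_zero _ h3) (pow_ne_zero _ h4)

theorem tmul_symm [FiniteDimensional F U] [FiniteDimensional F W] (B₁ : LinearMap.BilinForm F U) (B₂ : LinearMap.BilinForm F W)
    (h : ∀ a b c d, B₁ a b * B₂ c d = B₁ b a * B₂ d c) (x y : U ⊗[F] W) : (B₁.tmul B₂) x y = (B₁.tmul B₂) y x := by
  classical
  let b₁ := Module.finBasis F U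
  let b₂ := Module.finBasis F W
  have key : (B₁.tmul B₂) = (B₁.tmul B₂).flip := by
    apply LinearMap.ext_basis (b₁.tensorProduct b₂) (b₁.tensorProduct b₂)
    rintro ⟨i, j⟩ ⟨i', j'⟩
    rw [LinearMap.flip_apply]
    simp only [Module.Basis.tensorProduct_apply, tmul_apply]
    exact h _ _ _ _
  have := congrArg (fun f => f x y) key
  simpa using this

theorem ti_span (B : LinearMap.BilinForm F V) (S : Set V) (h : ∀ a ∈ S, ∀ b ∈ S, B a b = 0) :
    ∀ x ∈ Submodule.span F S, ∀ y ∈ Submodule.span F S, B x y = 0 := by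
  intro x hx y hy
  induction hx using Submodule.span_induction with
  | mem a ha =>
    induction hy using Submodule.span_induction with
    | mem b hb => exact h a ha b hb
    | zero => simp
    | add c d _ _ h1 h2 => simp [h1, h2]
    | smul r c _ h1 => simp [h1]
  | zero => simp
  | add c d _ _ h1 h2 => simp [h1, h2]
  | smul r c _ h1 => simp [h1]

end Tensor

end Cfsg.Agent.Lib.TensorForm
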