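import Mathlib
import Cfsg.Prelude.Def_SporadicCombinatorics
import Cfsg.Prelude.Def_Sporadic_a
import Cfsg.Agent.Lib.M12Gens

/-!
# The monomial automorphism group of the ternary code of length 12
-/

set_option autoImplicit false
set_option maxHeartbeats 1000000
set_option maxRecDepth 100000

open scoped Pointwise

namespace Cfsg.Agent.Lib.TernMono

open Cfsg

/-- Position of a point. -/
def ix (p : ArrayPt) : ℕ := 3 * p.1.val + p.2.val

/-- Point of a position. -/
def pt (n : ℕ) : ArrayPt := (⟨n / 3 % 4, Nat.mod_lt _ (by norm_num)⟩, ((n % 3 : ℕ) : ZMod 3))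

theorem pt_ix : ∀ p : ArrayPt, pt (ix p) = p := by decide +kernel

theorem ix_pt : ∀ i : Fin 12, ix (pt i.val) = i.val := by decide +kernel

theorem ix_lt : ∀ p : ArrayPt, ix p < 12 := by decide +kernel

theorem ix_inj {p q : ArrayPt} (h : ix p = ix q) : p = q := by
  rw [← pt_ix p, ← pt_ix q, h]

/-- The bijection with the twelve positions. -/
def eP : ArrayPt ≃ Fin 12 :=
  ⟨fun p => ⟨ix p, ix_lt p⟩, fun i => pt i.val, fun p => pt_ix p, fun i => Fin.ext (ix_pt i)⟩

/-- The basis of the code in systematic form, as a table. -/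
def BT : List (List ℕ) := [[1,0,0,0,0,1,0,0,1,1,1,2],[0,1,0,0,0,1,0,2,2,2,0,2],[0,0,1,0,0,1,0,1,0,2,1,1],[0,0,0,1,0,2,0,2,1,2,1,0],[0,0,0,0,1,2,0,1,2,0,1,2],[0,0,0,0,0,0,1,1,1,2,2,2]]

/-- Basis word. -/
def bt (j : Fin 6) : ArrayPt → ZMod 3 := fun p => (((BT.getD j.val []).getD (ix p) 0 : ℕ) : ZMod 3)

/-- The information set. -/
def Ip : Fin 6 → ArrayPt := fun j => pt ([0,1,2,3,4,6].getD j.val 0)

/-- Hexads with coefficient witnesses. -/
def HmW : List (ℕ × ℕ) := [(63,134),(222,393),(237,289),(243,410),(347,439),(366,318),(373,335),(413,154),(427,32),(438,102),(455,269),(504,459),(591,284),(630,429),(633,379),(667,112),(679,17),(700,117),(725,415),(746,276),(791,97),(813,37),(826,141),(860,369),(867,247),(910,51),(945,83),(969,299),(978,327),(996,252),(1117,479),(1127,259),(1146,354),(1175,95),(1198,39),(1209,137),(1227,301),(1268,342),(1295,49),(1331,85),(1340,144),(1366,417),(1385,272),(1434,114),(1445,10),(1484,279),(1489,325),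(1506,249),(1566,156),(1579,34),(1589,100),(1619,332),(1644,306),(1677,47),(1714,87),(1734,264),(1752,432),(1761,245),(1817,110),(1830,12),(1861,262),(1866,303),(1904,405),(1923,5),(1940,90),(1960,27),(2135,346),(2155,305),(2172,441),(2191,43),(2229,91),(2234,138),(2265,353),(2278,255),(2334,120),(2343,14),(2361,109),(2381,307),(2418,330),(2451,89),(2476,45),(2506,273),(2516,423),(2529,244),(2589,146),(2606,48),(2611,86),(2650,462),(2661,263),(2710,105),(2729,29),(2755,250),(2764,315),(2800,324),(2827,35),(2868,99),(2886,258),(2897,407),(2920,270),(2949,11),(2968,135),(2978,3),(3099,142),(3117,38),(3126,96),(3150,294),(3185,406),(3228,126),(3235,4),(3269,254),(3282,411),(3304,297),(3349,101),(3370,33),(3395,248),(3416,378),(3428,261),(3462,15),(3465,28),(3504,81),(3591,13),(3640,108),(3657,271),(3668,333),(3682,246),(3722,30),(3729,82),(3748,9),(3852,36),(3858,84),(3873,1),(4032,243)]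

/-- Hexads. -/
def Hm : List ℕ := HmW.map Prod.fst

/-- Tables of the generators. -/
def GT : List (List ℕ) := [[2,9,1,4,10,3,11,8,6,7,5,0],[7,11,10,6,3,5,0,9,4,2,1,8],[1,7,0,6,8,2,9,3,4,11,5,10]]

/-- Tables of the inverses of the generators. -/
def GTI : List (List ℕ) := [[11,2,0,5,3,10,8,9,7,1,4,6],[6,10,9,4,8,5,3,0,11,7,2,1],[2,0,5,7,8,10,3,1,4,6,11,9]]

/-- Sign masks of the generators. -/
def GC : List ℕ := [437,1563,867]

/-- Words for the transversals. -/
def WW : List (List (List ℕ)) := [[[],[0],[1],[2],[0,1],[0,2],[1,0],[1,2],[2,1],[0,0,1],[0,1,0],[0,2,1]],[[],[2,0],[0,1,2],[0,2,0,2],[1,2,2,1],[2,1,0,2],[0,0,0,0,1],[0,0,2,2,1],[1,2,2,2,2],[2,2,0,1,0],[0,2,1,1,2,0]],[[],[2,0,2,0],[1,0,0,2,2],[0,0,1,2,2,2],[0,2,0,1,1,0],[0,2,0,2,2,0],[1,0,0,2,0,0],[1,1,0,2,1,0],[0,0,0,0,0,1,1],[1,1,2,2,1,1,0]],[[],[0,2,0,0,1,1,1],[0,0,2,2,2,2,2,0],[0,1,0,2,0,2,1,2],[0,2,2,1,0,2,1,0],[1,2,0,2,0,0,2,1],[0,0,2,1,1,2,2,0,1],[0,1,1,2,1,0,1,1,1],[2,2,2,1,0,0,2,0,2]],[[],[1,1,2,1,1,2,2,1],[1,1,2,2,0,1,1,1],[0,1,1,1,1,1,2,0,0],[1,1,1,1,2,0,0,2,1,0],[1,2,2,2,0,0,0,1,0,0],[0,2,1,2,0,0,2,2,0,1,0],[1,0,1,0,2,1,2,0,0,0,2]]]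


/-- Tetracode generators. -/
def w1 : Fin 4 → ZMod 3 := ![0, 1, 1, 1]
def w2 : Fin 4 → ZMod 3 := ![1, 0, 1, 2]

/-- Decidable form of the code condition. -/
def isW (x : ArrayPt → ZMod 3) : Prop :=
  ∃ s : ZMod 3, (∀ i : Fin 4, ∑ r : ZMod 3, x (i, r) = -s) ∧
    ∀ a b : ZMod 3, ∑ i : Fin 4, x (i, a * w1 i + b * w2 i) = s

instance (x : ArrayPt → ZMod 3) : Decidable (isW x) := by unfold isW; infer_instance

theorem mem_iff_isW (x : ArrayPt → ZMod 3) : x ∈ ternaryGolayCode ↔ isW x := by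
  show IsTernaryGolayWord x ↔ _
  unfold IsTernaryGolayWord isW
  constructor
  · rintro ⟨s, h1, h2⟩
    refine ⟨s, h1, fun a b => ?_⟩
    have h3 : (a • w1 + b • w2) ∈ tetracode := by
      apply Submodule.mem_span_pair.mpr
      exact ⟨a, b, rfl⟩
    exact h2 _ h3
  · rintro ⟨s, h1, h2⟩
    refine ⟨s, h1, fun t ht => ?_⟩
    obtain ⟨a, b, rfl⟩ := Submodule.mem_span_pair.mp ht
    exact h2 a b

theorem bt_isW : ∀ j, isW (bt j) := by decide +kernel

theorem bt_mem (j : Fin 6) : bt j ∈ ternaryGolayCode := (mem_iff_isW _).mpr (bt_isW j)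

theorem bt_delta : ∀ i j : Fin 6, bt j (Ip i) = if i = j then 1 else 0 := by decide +kernel

/-- Words vanishing on the information set. -/
def asm (y0 y1 y2 y3 y4 y5 : ZMod 3) : ArrayPt → ZMod 3 :=
  fun p => ([0, 0, 0, 0, 0, y0, 0, y1, y2, y3, y4, y5] : List (ZMod 3)).getD (ix p) 0

theorem chk0 : ∀ y0 y1 y2 y3 y4 y5 : ZMod 3, isW (asm y0 y1 y2 y3 y4 y5) →
    y0 = 0 ∧ y1 = 0 ∧ y2 = 0 ∧ y3 = 0 ∧ y4 = 0 ∧ y5 = 0 := by decide +kernel

theorem pt_cases : ∀ p : ArrayPt, p = pt 0 ∨ p = pt 1 ∨ p = pt 2 ∨ p = pt 3 ∨ p = pt 4 ∨ p = pt 5 ∨ p = pt 6 ∨ p = pt 7 ∨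
    p = pt 8 ∨ p = pt 9 ∨ p = pt 10 ∨ p = pt 11 := by decide +kernel

theorem eq_zero_of_mem {z : ArrayPt → ZMod 3} (hz : z ∈ ternaryGolayCode) (h : ∀ i, z (Ip i) = 0) : z = 0 := by
  have h0 : z = asm (z (pt 5)) (z (pt 7)) (z (pt 8)) (z (pt 9)) (z (pt 10)) (z (pt 11)) := by
    funext p
    rcases pt_cases p with rfl | rfl | rfl | rfl | rfl | rfl | rfl | rfl | rfl | rfl | rfl | rfl
    · exact h 0
    · exact h 1
    · exact h 2
    · exact h 3
    · exact h 4
    · rfl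
    · exact h 5
    · rfl
    · rfl
    · rfl
    · rfl
    · rfl
  have h1 := (mem_iff_isW _).mp hz
  rw [h0] at h1
  obtain ⟨e0, e1, e2, e3, e4, e5⟩ := chk0 _ _ _ _ _ _ h1
  rw [h0, e0, e1, e2, e3, e4, e5]
  funext p
  rcases pt_cases p with rfl | rfl | rfl | rfl | rfl | rfl | rfl | rfl | rfl | rfl | rfl | rfl <;> rfl

/-- The expansion of a word in the systematic basis. -/
theorem eq_sum_of_mem {x : ArrayPt → ZMod 3} (hx : x ∈ ternaryGolayCode) : x = ∑ j, x (Ip j) • bt j := by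
  have h1 : x - ∑ j, x (Ip j) • bt j ∈ ternaryGolayCode :=
    Submodule.sub_mem _ hx (Submodule.sum_mem _ (fun j _ => Submodule.smul_mem _ _ (bt_mem j)))
  have h2 := eq_zero_of_mem h1 (fun i => by
    simp only [Pi.sub_apply, Finset.sum_apply, Pi.smul_apply, smul_eq_mul, bt_delta, mul_ite, mul_one, mul_zero,
      Finset.sum_ite_eq, Finset.mem_univ, if_true, sub_self])
  exact sub_eq_zero.mp h2

/-- Membership test. -/
def inC (x : ArrayPt → ZMod 3) : Prop := ∀ p, x p = ∑ j, x (Ip j) * bt j p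

instance (x : ArrayPt → ZMod 3) : Decidable (inC x) := by unfold inC; infer_instance

theorem mem_iff_inC (x : ArrayPt → ZMod 3) : x ∈ ternaryGolayCode ↔ inC x := by
  constructor
  · intro hx p
    have h := congrFun (eq_sum_of_mem hx) p
    simpa [Finset.sum_apply] using h
  · intro h
    have h2 : x = ∑ j, x (Ip j) • bt j := by
      funext p
      simpa [Finset.sum_apply] using h p
    rw [h2]
    exact Submodule.sum_mem _ (fun j _ => Submodule.smul_mem _ _ (bt_mem j))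

/-- The good pairs. -/
def Good (σ : Equiv.Perm ArrayPt) (c : ArrayPt → (ZMod 3)ˣ) : Prop :=
  ∀ x ∈ ternaryGolayCode, monomialMap σ c x ∈ ternaryGolayCode

theorem good_iff_basis (σ : Equiv.Perm ArrayPt) (c : ArrayPt → (ZMod 3)ˣ) :
    Good σ c ↔ ∀ j, monomialMap σ c (bt j) ∈ ternaryGolayCode := by
  constructor
  · intro h j
    exact h _ (bt_mem j)
  · intro h x hx
    have h1 : monomialMap σ c x = ∑ j, x (Ip j) • monomialMap σ c (bt j) := by
      funext p
      have h2 := congrFun (eq_sum_of_mem hx) (σ.symm p)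
      simp only [Finset.sum_apply, Pi.smul_apply, smul_eq_mul] at h2
      simp only [monomialMap, Finset.sum_apply, Pi.smul_apply, smul_eq_mul]
      rw [h2, Finset.mul_sum]
      refine Finset.sum_congr rfl (fun j _ => ?_)
      ring
    rw [h1]
    exact Submodule.sum_mem _ (fun j _ => Submodule.smul_mem _ _ (h j))

theorem good_one : Good 1 1 := by
  intro x hx
  have : monomialMap (1 : Equiv.Perm ArrayPt) (1 : ArrayPt → (ZMod 3)ˣ) x = x := by
    funext p
    show (((1 : ArrayPt → (ZMod 3)ˣ) p : (ZMod 3)ˣ) : ZMod 3) * x p = x p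
    simp
  rwa [this]

theorem monomial_comp (σ τ : Equiv.Perm ArrayPt) (c d : ArrayPt → (ZMod 3)ˣ) (x : ArrayPt → ZMod 3) :
    monomialMap (σ * τ) (fun p => c p * d (σ.symm p)) x = monomialMap σ c (monomialMap τ d x) := by
  funext p
  simp only [monomialMap, Units.val_mul]
  have : (σ * τ).symm p = τ.symm (σ.symm p) := rfl
  rw [this, mul_assoc]

theorem good_mul {σ τ : Equiv.Perm ArrayPt} {c d : ArrayPt → (ZMod 3)ˣ} (h1 : Good σ c) (h2 : Good τ d) :
    Good (σ * τ) (fun p => c p * d (σ.symm p)) := by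
  intro x hx
  rw [monomial_comp]
  exact h1 _ (h2 _ hx)

/-- The generators. -/
def gP (k : ℕ) : Equiv.Perm ArrayPt :=
  if k = 0 then ⟨fun p => pt ((GT.getD 0 []).getD (ix p) 0), fun p => pt ((GTI.getD 0 []).getD (ix p) 0),
      by intro p; revert p; decide +kernel, by intro p; revert p; decide +kernel⟩
  else if k = 1 then ⟨fun p => pt ((GT.getD 1 []).getD (ix p) 0), fun p => pt ((GTI.getD 1 []).getD (ix p) 0),
      by intro p; revert p; decide +kernel, by intro p; revert p; decide +kernel⟩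
  else if k = 2 then ⟨fun p => pt ((GT.getD 2 []).getD (ix p) 0), fun p => pt ((GTI.getD 2 []).getD (ix p) 0),
      by intro p; revert p; decide +kernel, by intro p; revert p; decide +kernel⟩
  else 1

/-- Signs of the generators. -/
def gC (k : ℕ) : ArrayPt → (ZMod 3)ˣ := fun p => if (GC.getD k 0).testBit (ix p) = true then -1 else 1

theorem gen_chk : ∀ k : Fin 3, ∀ j : Fin 6, inC (monomialMap (gP k.val) (gC k.val) (bt j)) := by decide +kernel

theorem gen_good (k : ℕ) : ∃ c, Good (gP k) c := by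
  by_cases hk : k < 3
  · refine ⟨gC k, (good_iff_basis _ _).mpr (fun j => (mem_iff_inC _).mpr ?_)⟩
    exact gen_chk ⟨k, hk⟩ j
  · refine ⟨1, ?_⟩
    have : gP k = 1 := by
      unfold gP
      rw [if_neg (by omega), if_neg (by omega), if_neg (by omega)]
    rw [this]
    exact good_one

/-- Evaluation of words. -/
def evalP (w : List ℕ) : Equiv.Perm ArrayPt := w.foldr (fun i acc => gP i * acc) 1

theorem evalP_good (w : List ℕ) : ∃ c, Good (evalP w) c := by
  induction w with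
  | nil => exact ⟨1, good_one⟩
  | cons a w ih =>
    obtain ⟨c, hc⟩ := gen_good a
    obtain ⟨d, hd⟩ := ih
    exact ⟨_, good_mul hc hd⟩

/-- The base point with index `j`. -/
def bb (j : ℕ) : ArrayPt := pt j

theorem chkW : ∀ k : Fin 5, ∀ p : ArrayPt, (∀ j : Fin 5, j.val < k.val → p ≠ bb j.val) →
    ∃ w ∈ WW.getD k.val [], (∀ j : Fin 5, j.val < k.val → evalP w (bb j.val) = bb j.val) ∧ evalP w (bb k.val) = p := by
  decide +kernel

theorem exists_word (y : Fin 5 ↪ ArrayPt) (k : ℕ) (hk : k ≤ 5) :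
    ∃ r : Equiv.Perm ArrayPt, (∃ c, Good r c) ∧ ∀ j : Fin 5, j.val < k → r (bb j.val) = y j := by
  induction k with
  | zero => exact ⟨1, ⟨1, good_one⟩, fun j hj => absurd hj (by omega)⟩
  | succ k ih =>
    obtain ⟨r, ⟨c, hc⟩, hr⟩ := ih (by omega)
    have hk5 : k < 5 := by omega
    obtain ⟨w, -, hw1, hw2⟩ := chkW ⟨k, hk5⟩ (r⁻¹ (y ⟨k, hk5⟩)) (by
      intro j hj he
      have h1 : y ⟨k, hk5⟩ = r (bb j.val) := by
        rw [← he]
        simp
      rw [hr j hj] at h1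
      have h2 := y.injective h1
      have h3 : k = j.val := congrArg Fin.val h2
      simp only at hj
      omega)
    obtain ⟨d, hd⟩ := evalP_good w
    refine ⟨r * evalP w, ⟨_, good_mul hc hd⟩, ?_⟩
    intro j hj
    by_cases hjk : j.val < k
    · rw [Equiv.Perm.mul_apply, hw1 j hjk, hr j hjk]
    · have hj2 : j = ⟨k, hk5⟩ := Fin.ext (by simp only; omega)
      subst hj2
      simp only at hw2 ⊢
      rw [Equiv.Perm.mul_apply, hw2]
      simp

/-- The set with a given mask. -/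
def mkA (m : ℕ) : Finset ArrayPt := Finset.univ.filter (fun p => m.testBit (ix p) = true)

theorem mkA_inj {a b : ℕ} (ha : a < 2 ^ 12) (hb : b < 2 ^ 12) (h : mkA a = mkA b) : a = b := by
  apply Cfsg.Agent.Lib.M12Gens.mk_inj ha hb
  ext i
  have h1 : pt i.val ∈ mkA a ↔ pt i.val ∈ mkA b := by rw [h]
  simp only [mkA, Finset.mem_filter, Finset.mem_univ, true_and, ix_pt] at h1
  simp only [Cfsg.Agent.Lib.M12Gens.mk, Finset.mem_filter, Finset.mem_univ, true_and]
  exact h1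

/-- The conjugate of a permutation on the positions. -/
def fOf (g : Equiv.Perm ArrayPt) : Fin 12 → Fin 12 := fun i => eP (g (eP.symm i))

theorem mkA_img (g : Equiv.Perm ArrayPt) (m : ℕ) : mkA (Cfsg.Agent.Lib.M12Gens.imgMask (fOf g) m) = g • mkA m := by
  ext x
  simp only [mkA, Finset.mem_filter, Finset.mem_univ, true_and, Cfsg.Agent.Lib.M12Gens.imgMask,
    Cfsg.Agent.Lib.M12Gens.fold_testBit, List.mem_finRange]
  rw [Finset.mem_smul_finset]
  constructor
  · rintro ⟨i, h1, h2⟩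
    refine ⟨pt i.val, ?_, ?_⟩
    · simp only [Finset.mem_filter, Finset.mem_univ, true_and, ix_pt]
      exact h1
    · apply ix_inj
      exact h2
  · rintro ⟨p, h1, rfl⟩
    simp only [Finset.mem_filter, Finset.mem_univ, true_and] at h1
    refine ⟨eP p, h1, ?_⟩
    show ix (g (pt (ix p))) = ix (g p)
    rw [pt_ix]

/-- The hexads. -/
def HH : Finset (Finset ArrayPt) := (Hm.map mkA).toFinset

theorem mem_HH {h : Finset ArrayPt} : h ∈ HH ↔ ∃ m ∈ Hm, mkA m = h := by
  simp only [HH, List.mem_toFinset, List.mem_map]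

theorem Hm_lt : Hm.all (fun m => decide (m < 2 ^ 12)) = true := by decide +kernel

/-- Preservation test. -/
def presv (f : Fin 12 → Fin 12) : Bool := Hm.all (fun m => Hm.contains (Cfsg.Agent.Lib.M12Gens.imgMask f m))

set_option synthInstance.maxSize 100000 in
set_option synthInstance.maxHeartbeats 0 in
theorem chk_rigid : ∀ x5 : Fin 12, 5 ≤ x5.val → ∀ x6 : Fin 12, 5 ≤ x6.val → x6 ≠ x5 →
    ∀ x7 : Fin 12, 5 ≤ x7.val → x7 ≠ x5 → x7 ≠ x6 →
    ∀ x8 : Fin 12, 5 ≤ x8.val → x8 ≠ x5 → x8 ≠ x6 → x8 ≠ x7 →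
    ∀ x9 : Fin 12, 5 ≤ x9.val → x9 ≠ x5 → x9 ≠ x6 → x9 ≠ x7 → x9 ≠ x8 →
    ∀ x10 : Fin 12, 5 ≤ x10.val → x10 ≠ x5 → x10 ≠ x6 → x10 ≠ x7 → x10 ≠ x8 → x10 ≠ x9 →
    ∀ x11 : Fin 12, 5 ≤ x11.val → x11 ≠ x5 → x11 ≠ x6 → x11 ≠ x7 → x11 ≠ x8 → x11 ≠ x9 → x11 ≠ x10 →
    presv ![0, 1, 2, 3, 4, x5, x6, x7, x8, x9, x10, x11] = true →
      (x5 = 5 ∧ x6 = 6 ∧ x7 = 7 ∧ x8 = 8 ∧ x9 = 9 ∧ x10 = 10 ∧ x11 = 11) := by
  decide +kernel

theorem rigid {g : Equiv.Perm ArrayPt} (hg : g • HH = HH) (hb : ∀ j : Fin 5, g (bb j.val) = bb j.val) : g = 1 := by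
  classical
  have hf : ∀ i j : Fin 12, i ≠ j → fOf g i ≠ fOf g j := by
    intro i j hij he
    apply hij
    have h1 := eP.injective he
    have h2 := g.injective h1
    exact eP.symm.injective h2
  have h0 : fOf g 0 = 0 := congrArg eP (hb 0) |>.trans (Fin.ext (ix_pt 0))
  have h1 : fOf g 1 = 1 := congrArg eP (hb 1) |>.trans (Fin.ext (ix_pt 1))
  have h2 : fOf g 2 = 2 := congrArg eP (hb 2) |>.trans (Fin.ext (ix_pt 2))
  have h3 : fOf g 3 = 3 := congrArg eP (hb 3) |>.trans (Fin.ext (ix_pt 3))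
  have h4 : fOf g 4 = 4 := congrArg eP (hb 4) |>.trans (Fin.ext (ix_pt 4))
  have hge : ∀ i : Fin 12, 5 ≤ i.val → 5 ≤ (fOf g i).val := by
    intro i hi
    by_contra hc
    have key : ∀ v : Fin 12, v.val < 5 → v = 0 ∨ v = 1 ∨ v = 2 ∨ v = 3 ∨ v = 4 := by decide
    have hne : ∀ j : Fin 12, j.val < 5 → fOf g i ≠ fOf g j := by
      intro j hj
      apply hf
      intro he
      subst he
      omega
    rcases key _ (show (fOf g i).val < 5 by omega) with h | h | h | h | h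
    · exact hne 0 (by decide) (by rw [h, h0])
    · exact hne 1 (by decide) (by rw [h, h1])
    · exact hne 2 (by decide) (by rw [h, h2])
    · exact hne 3 (by decide) (by rw [h, h3])
    · exact hne 4 (by decide) (by rw [h, h4])
  have hform : fOf g = ![0, 1, 2, 3, 4, fOf g 5, fOf g 6, fOf g 7, fOf g 8, fOf g 9, fOf g 10, fOf g 11] := by
    funext i
    fin_cases i
    · exact h0
    · exact h1
    · exact h2
    · exact h3
    · exact h4
    all_goals rfl
  have hp : presv ![0, 1, 2, 3, 4, fOf g 5, fOf g 6, fOf g 7, fOf g 8, fOf g 9, fOf g 10, fOf g 11] = true := by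
    rw [← hform]
    apply List.all_eq_true.mpr
    intro m hm
    have h5 : g • mkA m ∈ HH := by
      rw [← hg]
      apply Finset.smul_mem_smul_finset
      exact mem_HH.mpr ⟨m, hm, rfl⟩
    obtain ⟨m', hm', he⟩ := mem_HH.mp h5
    rw [← mkA_img] at he
    have h6 := mkA_inj (by simpa using List.all_eq_true.mp Hm_lt m' hm') (Cfsg.Agent.Lib.M12Gens.imgMask_lt _ _) he
    rw [← h6]
    exact List.contains_iff_mem.mpr hm'
  obtain ⟨e5, e6, e7, e8, e9, e10, e11⟩ := chk_rigid (fOf g 5) (hge 5 (by decide)) (fOf g 6) (hge 6 (by decide)) (hf _ _ (by decide))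
    (fOf g 7) (hge 7 (by decide)) (hf _ _ (by decide)) (hf _ _ (by decide))
    (fOf g 8) (hge 8 (by decide)) (hf _ _ (by decide)) (hf _ _ (by decide)) (hf _ _ (by decide))
    (fOf g 9) (hge 9 (by decide)) (hf _ _ (by decide)) (hf _ _ (by decide)) (hf _ _ (by decide)) (hf _ _ (by decide))
    (fOf g 10) (hge 10 (by decide)) (hf _ _ (by decide)) (hf _ _ (by decide)) (hf _ _ (by decide)) (hf _ _ (by decide)) (hf _ _ (by decide))
    (fOf g 11) (hge 11 (by decide)) (hf _ _ (by decide)) (hf _ _ (by decide)) (hf _ _ (by decide)) (hf _ _ (by decide)) (hf _ _ (by decide)) (hf _ _ (by decide))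
    hp
  have hall : ∀ i : Fin 12, fOf g i = i := by
    intro i
    fin_cases i
    · exact h0
    · exact h1
    · exact h2
    · exact h3
    · exact h4
    · exact e5
    · exact e6
    · exact e7
    · exact e8
    · exact e9
    · exact e10
    · exact e11
  ext1 p
  have h7 := hall (eP p)
  have h8 : eP (g p) = eP p := by
    have h9 : fOf g (eP p) = eP (g (eP.symm (eP p))) := rfl
    rw [h9, Equiv.symm_apply_apply] at h7
    exact h7
  exact eP.injective h8

/-- Support mask. -/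
def allPts : List ArrayPt := (List.range 12).map pt

theorem mem_allPts : ∀ p : ArrayPt, p ∈ allPts := by decide +kernel

def sMask (x : ArrayPt → ZMod 3) : ℕ :=
  allPts.foldr (fun p acc => (if x p ≠ 0 then 2 ^ ix p else 0) ||| acc) 0

theorem sMask_testBit (x : ArrayPt → ZMod 3) (L : List ArrayPt) (n : ℕ) :
    (L.foldr (fun p acc => (if x p ≠ 0 then 2 ^ ix p else 0) ||| acc) 0).testBit n = true ↔ ∃ p ∈ L, x p ≠ 0 ∧ ix p = n := by
  induction L with
  | nil => simp
  | cons a L ih =>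
    simp only [List.foldr_cons, Nat.testBit_or, Bool.or_eq_true, ih, List.mem_cons, exists_eq_or_imp]
    refine or_congr ?_ Iff.rfl
    split_ifs with h
    · simp only [Nat.testBit_two_pow, decide_eq_true_eq, ne_eq, h, not_false_eq_true, true_and]
    · simp [h]

theorem mkA_sMask (x : ArrayPt → ZMod 3) : mkA (sMask x) = ternarySupport x := by
  ext p
  simp only [mkA, ternarySupport, Finset.mem_filter, Finset.mem_univ, true_and, sMask, sMask_testBit]
  constructor
  · rintro ⟨q, -, h1, h2⟩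
    rw [← ix_inj h2]
    exact h1
  · intro h
    exact ⟨p, mem_allPts p, h, rfl⟩

/-- Combination with given coefficients. -/
def wordA (a0 a1 a2 a3 a4 a5 : ZMod 3) : ArrayPt → ZMod 3 :=
  fun p => a0 * bt 0 p + a1 * bt 1 p + a2 * bt 2 p + a3 * bt 3 p + a4 * bt 4 p + a5 * bt 5 p

theorem chkS1 : ∀ a0 a1 a2 a3 a4 a5 : ZMod 3, (mkA (sMask (wordA a0 a1 a2 a3 a4 a5))).card = 6 →
    Hm.contains (sMask (wordA a0 a1 a2 a3 a4 a5)) = true := by decide +kernel

/-- Word with coded coefficients. -/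
def wordE (e : ℕ) : ArrayPt → ZMod 3 :=
  wordA ((e % 3 : ℕ) : ZMod 3) ((e / 3 % 3 : ℕ) : ZMod 3) ((e / 9 % 3 : ℕ) : ZMod 3) ((e / 27 % 3 : ℕ) : ZMod 3)
    ((e / 81 % 3 : ℕ) : ZMod 3) ((e / 243 % 3 : ℕ) : ZMod 3)

theorem chkS2 : HmW.all (fun q => decide (sMask (wordE q.2) = q.1) && decide ((mkA q.1).card = 6)) = true := by decide +kernel

theorem wordA_mem (a0 a1 a2 a3 a4 a5 : ZMod 3) : wordA a0 a1 a2 a3 a4 a5 ∈ ternaryGolayCode := by
  have : wordA a0 a1 a2 a3 a4 a5 = a0 • bt 0 + a1 • bt 1 + a2 • bt 2 + a3 • bt 3 + a4 • bt 4 + a5 • bt 5 := by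
    funext p
    simp [wordA]
  rw [this]
  exact add_mem (add_mem (add_mem (add_mem (add_mem (Submodule.smul_mem _ _ (bt_mem _)) (Submodule.smul_mem _ _ (bt_mem _)))
    (Submodule.smul_mem _ _ (bt_mem _))) (Submodule.smul_mem _ _ (bt_mem _))) (Submodule.smul_mem _ _ (bt_mem _)))
    (Submodule.smul_mem _ _ (bt_mem _))

/-- The hexad system of the code. -/
def HS : Set (Finset ArrayPt) := {h : Finset ArrayPt | ∃ x ∈ ternaryGolayCode, ternarySupport x = h ∧ h.card = 6}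

theorem HS_eq : HS = (HH : Set (Finset ArrayPt)) := by
  ext h
  simp only [Finset.mem_coe, mem_HH]
  constructor
  · rintro ⟨x, hx, rfl, hc⟩
    have h1 := eq_sum_of_mem hx
    have h2 : x = wordA (x (Ip 0)) (x (Ip 1)) (x (Ip 2)) (x (Ip 3)) (x (Ip 4)) (x (Ip 5)) := by
      conv_lhs => rw [h1]
      funext p
      simp only [Finset.sum_apply, Pi.smul_apply, smul_eq_mul, Fin.sum_univ_six, wordA]
    rw [← mkA_sMask] at hc ⊢
    rw [h2] at hc ⊢
    exact ⟨_, List.contains_iff_mem.mp (chkS1 _ _ _ _ _ _ hc), rfl⟩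
  · rintro ⟨m, hm, rfl⟩
    obtain ⟨⟨m', e⟩, hq, rfl⟩ := List.mem_map.mp hm
    have h3 := List.all_eq_true.mp chkS2 _ hq
    simp only [Bool.and_eq_true, decide_eq_true_eq] at h3
    refine ⟨wordE e, wordA_mem _ _ _ _ _ _, ?_, h3.2⟩
    rw [← mkA_sMask, h3.1]

theorem support_monomial (σ : Equiv.Perm ArrayPt) (c : ArrayPt → (ZMod 3)ˣ) (x : ArrayPt → ZMod 3) :
    ternarySupport (monomialMap σ c x) = σ • ternarySupport x := by
  ext p
  rw [Finset.mem_smul_finset]
  simp only [ternarySupport, Finset.mem_filter, Finset.mem_univ, true_and, monomialMap, ne_eq, Units.mul_right_eq_zero]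
  constructor
  · intro h
    exact ⟨σ.symm p, h, by simp⟩
  · rintro ⟨q, hq, rfl⟩
    have : σ.symm (σ • q) = q := by simp
    rwa [this]

theorem good_smul_HH {σ : Equiv.Perm ArrayPt} {c : ArrayPt → (ZMod 3)ˣ} (h : Good σ c) : σ • HH = HH := by
  classical
  apply Finset.eq_of_subset_of_card_le
  · intro t ht
    obtain ⟨t0, ht0, rfl⟩ := Finset.mem_smul_finset.mp ht
    have h1 : t0 ∈ HS := by
      rw [HS_eq]
      exact ht0
    obtain ⟨x, hx, hs, hc⟩ := h1
    have h2 : σ • t0 ∈ HS :=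
      ⟨monomialMap σ c x, h x hx, by rw [support_monomial, hs], by rw [Finset.card_smul_finset, hc]⟩
    rw [HS_eq] at h2
    exact h2
  · rw [Finset.card_smul_finset]

theorem mem_aut_iff {σ : Equiv.Perm ArrayPt} : σ ∈ setSystemAut HS ↔ σ • HH = HH := by
  rw [MulAction.mem_stabilizer_iff, HS_eq, ← Finset.coe_smul_finset, Finset.coe_inj]

theorem bb_inj : ∀ i j : Fin 5, bb i.val = bb j.val → i = j := by decide +kernel

/-- The image of the base under a permutation. -/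
def bEmb (g : Equiv.Perm ArrayPt) : Fin 5 ↪ ArrayPt :=
  ⟨fun j => g (bb j.val), fun i j h => bb_inj i j (g.injective h)⟩

theorem eq_of_base {g h : Equiv.Perm ArrayPt} (hg : g • HH = HH) (hh : h • HH = HH) (he : ∀ j : Fin 5, g (bb j.val) = h (bb j.val)) :
    g = h := by
  have h1 : (h⁻¹ * g) • HH = HH := by
    rw [mul_smul, hg, inv_smul_eq_iff, hh]
  have h2 := rigid h1 (fun j => by
    rw [Equiv.Perm.mul_apply, he j]
    simp)
  exact (inv_mul_eq_one.mp h2).symm

theorem exists_good_of_aut {g : Equiv.Perm ArrayPt} (hg : g • HH = HH) : ∃ c, Good g c := by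
  obtain ⟨r, ⟨c, hc⟩, hr⟩ := exists_word (bEmb g) 5 le_rfl
  have h1 : r = g := eq_of_base (good_smul_HH hc) hg (fun j => hr j j.isLt)
  exact ⟨c, h1 ▸ hc⟩

theorem card_aut : Nat.card (setSystemAut HS) = 95040 := by
  have hb : Function.Bijective (fun g : setSystemAut HS => bEmb g.1) := by
    constructor
    · intro g h he
      apply Subtype.ext
      apply eq_of_base (mem_aut_iff.mp g.2) (mem_aut_iff.mp h.2)
      intro j
      exact congrArg (fun z : Fin 5 ↪ ArrayPt => z j) he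
    · intro y
      obtain ⟨r, ⟨c, hc⟩, hr⟩ := exists_word y 5 le_rfl
      refine ⟨⟨r, mem_aut_iff.mpr (good_smul_HH hc)⟩, ?_⟩
      apply Function.Embedding.ext
      intro j
      exact hr j j.isLt
  rw [Nat.card_eq_of_bijective _ hb, Nat.card_eq_fintype_card, Fintype.card_embedding_eq]
  have h12 : Fintype.card ArrayPt = 12 := by decide +kernel
  rw [h12, Fintype.card_fin]
  rfl

theorem units_cases : ∀ u : (ZMod 3)ˣ, u = 1 ∨ u = -1 := by decide +kernel

theorem units_ne : ∀ u : (ZMod 3)ˣ, u ≠ -u := by decide +kernel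

theorem link1 : ∀ q : ArrayPt, ∃ k : Fin 6, bt k q ≠ 0 := by decide +kernel

theorem link2 : ∀ k : Fin 6, ∃ q : ArrayPt, bt k q ≠ 0 ∧ bt 0 q ≠ 0 := by decide +kernel

theorem diag_step {d : ArrayPt → (ZMod 3)ˣ} (h : Good 1 d) (k : Fin 6) (q : ArrayPt) (hq : bt k q ≠ 0) : d q = d (Ip k) := by
  have h1 := (mem_iff_inC _).mp (h _ (bt_mem k)) q
  have hone : ∀ (p : ArrayPt) (x : ArrayPt → ZMod 3), monomialMap (1 : Equiv.Perm ArrayPt) d x p = (d p : ZMod 3) * x p := fun p x => rfl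
  simp only [hone, bt_delta] at h1
  have h2 : ∑ j, (d (Ip j) : ZMod 3) * (if j = k then 1 else 0) * bt j q = (d (Ip k) : ZMod 3) * bt k q := by
    rw [Finset.sum_eq_single k]
    · simp
    · intro b _ hb
      simp [hb]
    · simp
  rw [h2] at h1
  exact Units.ext (mul_right_cancel₀ hq h1)

theorem diag_const {d : ArrayPt → (ZMod 3)ˣ} (h : Good 1 d) (q : ArrayPt) : d q = d (Ip 0) := by
  obtain ⟨k, hk⟩ := link1 q
  obtain ⟨q', h1, h2⟩ := link2 k
  rw [diag_step h k q hk, ← diag_step h k q' h1, diag_step h 0 q' h2]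

theorem monomial_inj {σ : Equiv.Perm ArrayPt} {c : ArrayPt → (ZMod 3)ˣ} {x y : ArrayPt → ZMod 3}
    (h : monomialMap σ c x = monomialMap σ c y) : x = y := by
  funext p
  have h1 := congrFun h (σ p)
  simp only [monomialMap, Equiv.symm_apply_apply] at h1
  exact (Units.mul_right_inj (c (σ p))).mp h1

theorem exists_preimage {σ : Equiv.Perm ArrayPt} {c : ArrayPt → (ZMod 3)ˣ} (h : Good σ c) {y : ArrayPt → ZMod 3}
    (hy : y ∈ ternaryGolayCode) : ∃ x ∈ ternaryGolayCode, monomialMap σ c x = y := by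
  let f : ↥ternaryGolayCode → ↥ternaryGolayCode := fun x => ⟨monomialMap σ c x.1, h x.1 x.2⟩
  have hf : Function.Injective f := fun a b hab =>
    Subtype.ext (monomial_inj (congrArg Subtype.val hab))
  obtain ⟨x, hx⟩ := (Finite.injective_iff_surjective.mp hf) ⟨y, hy⟩
  exact ⟨x.1, x.2, congrArg Subtype.val hx⟩

theorem fiber {σ : Equiv.Perm ArrayPt} {c0 c : ArrayPt → (ZMod 3)ˣ} (h0 : Good σ c0) (h : Good σ c) :
    c = c0 ∨ c = fun p => -c0 p := by
  have h1 : Good 1 (fun p => c p * (c0 p)⁻¹) := by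
    intro y hy
    obtain ⟨x, hx, rfl⟩ := exists_preimage h0 hy
    have h2 : monomialMap 1 (fun p => c p * (c0 p)⁻¹) (monomialMap σ c0 x) = monomialMap σ c x := by
      funext p
      show ((c p * (c0 p)⁻¹ : (ZMod 3)ˣ) : ZMod 3) * (((c0 p : (ZMod 3)ˣ) : ZMod 3) * x (σ.symm p)) = ((c p : (ZMod 3)ˣ) : ZMod 3) * x (σ.symm p)
      rw [← mul_assoc, ← Units.val_mul, inv_mul_cancel_right]
    rw [h2]
    exact h x hx
  have h3 := diag_const h1
  rcases units_cases (c (Ip 0) * (c0 (Ip 0))⁻¹) with h4 | h4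
  · left
    funext p
    have h5 : c p * (c0 p)⁻¹ = c (Ip 0) * (c0 (Ip 0))⁻¹ := h3 p
    rw [h4] at h5
    exact mul_inv_eq_one.mp h5
  · right
    funext p
    have h5 : c p * (c0 p)⁻¹ = c (Ip 0) * (c0 (Ip 0))⁻¹ := h3 p
    rw [h4] at h5
    rw [mul_inv_eq_iff_eq_mul.mp h5]
    simp

theorem good_neg {σ : Equiv.Perm ArrayPt} {c0 : ArrayPt → (ZMod 3)ˣ} (h0 : Good σ c0) : Good σ (fun p => -c0 p) := by
  intro x hx
  have h1 : monomialMap σ (fun p => -c0 p) x = -monomialMap σ c0 x := by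
    funext p
    simp [monomialMap]
  rw [h1]
  exact neg_mem (h0 x hx)

theorem card_fiber (σ : Equiv.Perm ArrayPt) :
    Nat.card {c : ArrayPt → (ZMod 3)ˣ // Good σ c} = if σ ∈ setSystemAut HS then 2 else 0 := by
  classical
  split_ifs with hσ
  · obtain ⟨c0, h0⟩ := exists_good_of_aut (mem_aut_iff.mp hσ)
    have h1 : {c : ArrayPt → (ZMod 3)ˣ | Good σ c} = {c0, fun p => -c0 p} := by
      ext c
      simp only [Set.mem_setOf_eq, Set.mem_insert_iff, Set.mem_singleton_iff]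
      constructor
      · exact fiber h0
      · rintro (rfl | rfl)
        · exact h0
        · exact good_neg h0
    have hne : c0 ≠ fun p => -c0 p := by
      intro he
      exact units_ne _ (congrFun he (pt 0))
    rw [← Set.coe_setOf, Nat.card_coe_set_eq, h1, Set.ncard_pair hne]
  · have : IsEmpty {c : ArrayPt → (ZMod 3)ˣ // Good σ c} := ⟨fun c => hσ (mem_aut_iff.mpr (good_smul_HH c.2))⟩
    exact Nat.card_of_isEmpty

theorem main1594 : Nat.card {f : Equiv.Perm Cfsg.ArrayPt × (Cfsg.ArrayPt → (ZMod 3)ˣ) // (∀ x ∈ Cfsg.ternaryGolayCode, Cfsg.monomialMap f.1 f.2 x ∈ Cfsg.ternaryGolayCode)} = 190080 ∧ {σ : Equiv.Perm Cfsg.ArrayPt | ∃ c : Cfsg.ArrayPt → (ZMod 3)ˣ, (∀ x ∈ Cfsg.ternaryGolayCode, Cfsg.monomialMap σ c x ∈ Cfsg.ternaryGolayCode)} = (Cfsg.setSystemAut {h : Finset Cfsg.ArrayPt | ∃ x ∈ Cfsg.ternaryGolayCode, Cfsg.ternarySupport x = h ∧ h.card = 6} : Set (Equiv.Perm Cfsg.ArrayPt)) := by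
  classical
  constructor
  · show Nat.card {f : Equiv.Perm ArrayPt × (ArrayPt → (ZMod 3)ˣ) // Good f.1 f.2} = 190080
    rw [Nat.card_congr (Equiv.subtypeProdEquivSigmaSubtype
      (fun (σ : Equiv.Perm ArrayPt) (c : ArrayPt → (ZMod 3)ˣ) => Good σ c)), Nat.card_sigma]
    simp only [card_fiber]
    rw [Finset.sum_ite, Finset.sum_const, Finset.sum_const_zero, add_zero, smul_eq_mul]
    have h1 : (Finset.univ.filter (fun σ : Equiv.Perm ArrayPt => σ ∈ setSystemAut HS)).card = Nat.card (setSystemAut HS) := by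
      rw [Nat.card_eq_fintype_card]
      exact (Fintype.card_subtype _).symm
    rw [h1, card_aut]
  · ext σ
    show (∃ c, Good σ c) ↔ σ ∈ setSystemAut HS
    constructor
    · rintro ⟨c, hc⟩
      exact mem_aut_iff.mpr (good_smul_HH hc)
    · intro h
      exact exists_good_of_aut (mem_aut_iff.mp h)

end Cfsg.Agent.Lib.TernMono
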