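import Mathlib
import Cfsg.Prelude.Def_SporadicCombinatorics

/-!
# The length-12 ternary code: explicit parametrisation

The code `Cfsg.ternaryGolayCode` is parametrised by six elements of `ZMod 3`.
-/

set_option autoImplicit false
set_option linter.all false

namespace Cfsg.Agent.Lib.Ternary

open Cfsg

/-- The parameter type of the code. -/
abbrev Par : Type := ZMod 3 × ZMod 3 × ZMod 3 × ZMod 3 × ZMod 3 × ZMod 3

/-- The word with given parameters, as a table. -/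
def tab (a b c d e f : ZMod 3) : Fin 4 → Fin 3 → ZMod 3 :=
  ![![2*a + 2*c + 2*e + 1*f, 2*a + 1*b + 1*c + 2*d + 2*f, 2*a + 2*b + 1*d + 1*e + 2*f],
    ![1*a + 1*b + 2*c + 1*d + 2*e + 2*f, 1*a + 2*b + 1*c + 2*d + 1*e, a],
    ![2*b + 2*c + 2*f, b, c],
    ![2*d + 2*e + 2*f, d, e]]

/-- The word with given parameters. -/
def wd (c : Par) : ArrayPt → ZMod 3 := fun p => tab c.1 c.2.1 c.2.2.1 c.2.2.2.1 c.2.2.2.2.1 c.2.2.2.2.2 p.1 p.2

theorem sum3 (f : ZMod 3 → ZMod 3) : ∑ r : ZMod 3, f r = f 0 + f 1 + f 2 := Fin.sum_univ_three f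

theorem mem_tet1 : (![0, 1, 1, 1] : Fin 4 → ZMod 3) ∈ tetracode :=
  Submodule.subset_span (by simp)
theorem mem_tet2 : (![1, 0, 1, 2] : Fin 4 → ZMod 3) ∈ tetracode :=
  Submodule.subset_span (Set.mem_insert_of_mem _ rfl)
theorem mem_tet3 : (![1, 1, 2, 0] : Fin 4 → ZMod 3) ∈ tetracode := by
  have h := tetracode.add_mem mem_tet1 mem_tet2
  convert h using 1
  funext i
  revert i
  decide

theorem mem_tetracode_iff (t : Fin 4 → ZMod 3) :
    t ∈ tetracode ↔ ∃ c d : ZMod 3, c • (![0, 1, 1, 1] : Fin 4 → ZMod 3) + d • (![1, 0, 1, 2] : Fin 4 → ZMod 3) = t := by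
  unfold tetracode
  rw [Submodule.mem_span_pair]

theorem forall_pt {P : ArrayPt → Prop} (h : ∀ (i : Fin 4) (r : Fin 3), P (i, r)) (p : ArrayPt) : P p :=
  h p.1 p.2

/-- every word is of the given form -/
theorem eq_wd_of_mem {x : ArrayPt → ZMod 3} (hx : x ∈ ternaryGolayCode) :
    x = wd (x (1, 2), x (2, 1), x (2, 2), x (3, 1), x (3, 2), -(x (0, 0) + x (0, 1) + x (0, 2))) := by
  obtain ⟨s, hc, ht⟩ := hx
  have h3 : (3 : ZMod 3) = 0 := by decide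
  have E0 : x (0, 0) + x (0, 1) + x (0, 2) = -s := by rw [← hc 0, sum3]
  have hs : -(x (0, 0) + x (0, 1) + x (0, 2)) = s := by rw [E0, neg_neg]
  rw [hs]
  have E1 : x (1, 0) + x (1, 1) + x (1, 2) = -s := by rw [← hc 1, sum3]
  have E2 : x (2, 0) + x (2, 1) + x (2, 2) = -s := by rw [← hc 2, sum3]
  have E3 : x (3, 0) + x (3, 1) + x (3, 2) = -s := by rw [← hc 3, sum3]
  have E4 : x (0, 0) + x (1, 1) + x (2, 1) + x (3, 1) = s := by
    have := ht _ mem_tet1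
    rw [Fin.sum_univ_four] at this
    exact this
  have E5 : x (0, 1) + x (1, 0) + x (2, 1) + x (3, 2) = s := by
    have := ht _ mem_tet2
    rw [Fin.sum_univ_four] at this
    exact this
  have E6 : x (0, 1) + x (1, 1) + x (2, 2) + x (3, 0) = s := by
    have := ht _ mem_tet3
    rw [Fin.sum_univ_four] at this
    exact this
  have c0 : x (0, 0) = 2*x (1, 2) + 2*x (2, 2) + 2*x (3, 2) + 1*s := by
    linear_combination 1*E1 + 2*E3 + 1*E4 + 2*E5 + 1*E6 + ((-1)*x (0, 1) + (-1)*x (1, 0) + (-1)*x (1, 1) + (-1)*x (1, 2) + (-1)*x (2, 1) + (-1)*x (2, 2) + (-1)*x (3, 0) + (-1)*x (3, 1) + (-2)*x (3, 2))*h3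
  have c1 : x (0, 1) = 2*x (1, 2) + 1*x (2, 1) + 1*x (2, 2) + 2*x (3, 1) + 2*s := by
    linear_combination 1*E1 + 1*E3 + 2*E5 + 2*E6 + ((-1)*x (0, 1) + (-1)*x (1, 0) + (-1)*x (1, 1) + (-1)*x (1, 2) + (-1)*x (2, 1) + (-1)*x (2, 2) + (-1)*x (3, 0) + (-1)*x (3, 1) + (-1)*x (3, 2))*h3
  have c2 : x (0, 2) = 2*x (1, 2) + 2*x (2, 1) + 1*x (3, 1) + 1*x (3, 2) + 2*s := by
    linear_combination 1*E0 + 1*E1 + 2*E4 + 2*E5 + ((-1)*x (0, 0) + (-1)*x (0, 1) + (-1)*x (1, 0) + (-1)*x (1, 1) + (-1)*x (1, 2) + (-2)*x (2, 1) + (-1)*x (3, 1) + (-1)*x (3, 2))*h3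
  have c3 : x (1, 0) = 1*x (1, 2) + 1*x (2, 1) + 2*x (2, 2) + 1*x (3, 1) + 2*x (3, 2) + 2*s := by
    linear_combination 2*E1 + 2*E3 + 2*E5 + 1*E6 + ((-1)*x (0, 1) + (-1)*x (1, 0) + (-1)*x (1, 1) + (-1)*x (1, 2) + (-1)*x (2, 1) + (-1)*x (2, 2) + (-1)*x (3, 0) + (-1)*x (3, 1) + (-2)*x (3, 2) + (-1)*s)*h3
  have c4 : x (1, 1) = 1*x (1, 2) + 2*x (2, 1) + 1*x (2, 2) + 2*x (3, 1) + 1*x (3, 2) := by
    linear_combination 2*E1 + 1*E3 + 1*E5 + 2*E6 + ((-1)*x (0, 1) + (-1)*x (1, 0) + (-1)*x (1, 1) + (-1)*x (1, 2) + (-1)*x (2, 1) + (-1)*x (2, 2) + (-1)*x (3, 0) + (-1)*x (3, 1) + (-1)*x (3, 2))*h3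
  have c5 : x (1, 2) = x (1, 2) := rfl
  have c6 : x (2, 0) = 2*x (2, 1) + 2*x (2, 2) + 2*s := by
    linear_combination 1*E2 + ((-1)*x (2, 1) + (-1)*x (2, 2) + (-1)*s)*h3
  have c7 : x (2, 1) = x (2, 1) := rfl
  have c8 : x (2, 2) = x (2, 2) := rfl
  have c9 : x (3, 0) = 2*x (3, 1) + 2*x (3, 2) + 2*s := by
    linear_combination 1*E3 + ((-1)*x (3, 1) + (-1)*x (3, 2) + (-1)*s)*h3
  have c10 : x (3, 1) = x (3, 1) := rfl
  have c11 : x (3, 2) = x (3, 2) := rfl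

  funext p
  revert p
  apply forall_pt
  intro i r
  fin_cases i <;> fin_cases r
  · exact c0
  · exact c1
  · exact c2
  · exact c3
  · exact c4
  · exact c5
  · exact c6
  · exact c7
  · exact c8
  · exact c9
  · exact c10
  · exact c11

theorem wd_col : ∀ (a b c d e f : ZMod 3) (i : Fin 4),
    ∑ r : ZMod 3, wd (a, b, c, d, e, f) (i, r) = -f := by
  decide +kernel

theorem wd_tet : ∀ (a b c d e f u v : ZMod 3),
    ∑ i : Fin 4, wd (a, b, c, d, e, f)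
      (i, (u • (![0, 1, 1, 1] : Fin 4 → ZMod 3) + v • (![1, 0, 1, 2] : Fin 4 → ZMod 3)) i) = f := by
  decide +kernel

theorem wd_mem (c : Par) : wd c ∈ ternaryGolayCode := by
  obtain ⟨a, b, c, d, e, f⟩ := c
  refine ⟨f, wd_col a b c d e f, ?_⟩
  intro t ht
  obtain ⟨u, v, rfl⟩ := (mem_tetracode_iff t).1 ht
  exact wd_tet a b c d e f u v

theorem mem_iff (x : ArrayPt → ZMod 3) : x ∈ ternaryGolayCode ↔ ∃ c : Par, x = wd c := by
  constructor
  · intro h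
    exact ⟨_, eq_wd_of_mem h⟩
  · rintro ⟨c, rfl⟩
    exact wd_mem c

theorem wd_coords : ∀ (a b c d e f : ZMod 3),
    wd (a, b, c, d, e, f) (1, 2) = a ∧ wd (a, b, c, d, e, f) (2, 1) = b ∧ wd (a, b, c, d, e, f) (2, 2) = c ∧
    wd (a, b, c, d, e, f) (3, 1) = d ∧ wd (a, b, c, d, e, f) (3, 2) = e ∧
    -(wd (a, b, c, d, e, f) (0, 0) + wd (a, b, c, d, e, f) (0, 1) + wd (a, b, c, d, e, f) (0, 2)) = f := by
  decide +kernel

theorem wd_injective : Function.Injective wd := by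
  rintro ⟨a, b, c, d, e, f⟩ ⟨a', b', c', d', e', f'⟩ h
  obtain ⟨h1, h2, h3, h4, h5, h6⟩ := wd_coords a b c d e f
  obtain ⟨h1', h2', h3', h4', h5', h6'⟩ := wd_coords a' b' c' d' e' f'
  rw [h] at h1 h2 h3 h4 h5 h6
  have e1 := h1.symm.trans h1'
  have e2 := h2.symm.trans h2'
  have e3 := h3.symm.trans h3'
  have e4 := h4.symm.trans h4'
  have e5 := h5.symm.trans h5'
  have e6 := h6.symm.trans h6'
  subst e1 e2 e3 e4 e5 e6
  rfl

/-- The code is the range of `wd`. -/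
theorem code_eq_range : (ternaryGolayCode : Set (ArrayPt → ZMod 3)) = Set.range wd := by
  ext x
  constructor
  · intro h
    obtain ⟨c, rfl⟩ := (mem_iff x).1 h
    exact ⟨c, rfl⟩
  · rintro ⟨c, rfl⟩
    exact wd_mem c

theorem card_par : Nat.card Par = 729 := by
  simp [Nat.card_prod]
  
theorem card_code : Nat.card ternaryGolayCode = 729 := by
  rw [← card_par]
  symm
  apply Nat.card_congr
  refine Equiv.ofBijective (fun c => ⟨wd c, wd_mem c⟩) ⟨?_, ?_⟩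
  · intro c d h
    exact wd_injective (congrArg Subtype.val h)
  · rintro ⟨x, hx⟩
    obtain ⟨c, rfl⟩ := (mem_iff x).1 hx
    exact ⟨c, rfl⟩

/-- The weight of the word with given parameters. -/
def wt (c : Par) : ℕ := (ternarySupport (wd c)).card

theorem wt_cases : ∀ c : Par, c ≠ 0 → wt c = 6 ∨ wt c = 9 ∨ wt c = 12 := by
  decide +kernel

theorem wd_zero : wd 0 = 0 := by
  funext p
  revert p
  decide +kernel

theorem count6 : (Finset.univ.filter fun c : Par => wt c = 6).card = 264 := by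
  decide +kernel

theorem count9 : (Finset.univ.filter fun c : Par => wt c = 9).card = 440 := by
  decide +kernel

theorem count12 : (Finset.univ.filter fun c : Par => wt c = 12).card = 24 := by
  decide +kernel

theorem ncard_weight (n : ℕ) :
    {x : ArrayPt → ZMod 3 | x ∈ ternaryGolayCode ∧ (ternarySupport x).card = n}.ncard
      = (Finset.univ.filter fun c : Par => wt c = n).card := by
  have h : {x : ArrayPt → ZMod 3 | x ∈ ternaryGolayCode ∧ (ternarySupport x).card = n}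
      = wd '' ((Finset.univ.filter fun c : Par => wt c = n : Finset Par) : Set Par) := by
    ext x
    constructor
    · rintro ⟨hx, hw⟩
      obtain ⟨c, rfl⟩ := (mem_iff x).1 hx
      exact ⟨c, Finset.mem_coe.2 (Finset.mem_filter.2 ⟨Finset.mem_univ _, hw⟩), rfl⟩
    · rintro ⟨c, hc, rfl⟩
      exact ⟨wd_mem c, (Finset.mem_filter.1 (Finset.mem_coe.1 hc)).2⟩
  rw [h, Set.ncard_image_of_injective _ wd_injective, Set.ncard_coe_finset]

/-- any nonzero word has weight at least six -/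
theorem six_le_weight {x : ArrayPt → ZMod 3} (hx : x ∈ ternaryGolayCode) (h0 : x ≠ 0) :
    6 ≤ (ternarySupport x).card := by
  obtain ⟨c, rfl⟩ := (mem_iff x).1 hx
  have hc : c ≠ 0 := by
    rintro rfl
    exact h0 wd_zero
  have := wt_cases c hc
  unfold wt at this
  omega

theorem wd_lin : ∀ (a b c d e f : ZMod 3) (p : ArrayPt), wd (a, b, c, d, e, f) p =
    a * wd (1, 0, 0, 0, 0, 0) p + b * wd (0, 1, 0, 0, 0, 0) p + c * wd (0, 0, 1, 0, 0, 0) p +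
    d * wd (0, 0, 0, 1, 0, 0) p + e * wd (0, 0, 0, 0, 1, 0) p + f * wd (0, 0, 0, 0, 0, 1) p := by
  decide +kernel

theorem dot_basis : ∀ (a b c d e f : ZMod 3),
    ∑ p, wd (a, b, c, d, e, f) p * wd (1, 0, 0, 0, 0, 0) p = 0 ∧
    ∑ p, wd (a, b, c, d, e, f) p * wd (0, 1, 0, 0, 0, 0) p = 0 ∧
    ∑ p, wd (a, b, c, d, e, f) p * wd (0, 0, 1, 0, 0, 0) p = 0 ∧
    ∑ p, wd (a, b, c, d, e, f) p * wd (0, 0, 0, 1, 0, 0) p = 0 ∧
    ∑ p, wd (a, b, c, d, e, f) p * wd (0, 0, 0, 0, 1, 0) p = 0 ∧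
    ∑ p, wd (a, b, c, d, e, f) p * wd (0, 0, 0, 0, 0, 1) p = 0 := by
  decide +kernel

theorem dot_zero {x y : ArrayPt → ZMod 3} (hx : x ∈ ternaryGolayCode) (hy : y ∈ ternaryGolayCode) :
    ∑ p, x p * y p = 0 := by
  obtain ⟨⟨a, b, c, d, e, f⟩, rfl⟩ := (mem_iff x).1 hx
  obtain ⟨⟨a', b', c', d', e', f'⟩, rfl⟩ := (mem_iff y).1 hy
  obtain ⟨h1, h2, h3, h4, h5, h6⟩ := dot_basis a b c d e f
  have : ∀ p, wd (a, b, c, d, e, f) p * wd (a', b', c', d', e', f') p =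
      a' * (wd (a, b, c, d, e, f) p * wd (1, 0, 0, 0, 0, 0) p) +
      b' * (wd (a, b, c, d, e, f) p * wd (0, 1, 0, 0, 0, 0) p) +
      c' * (wd (a, b, c, d, e, f) p * wd (0, 0, 1, 0, 0, 0) p) +
      d' * (wd (a, b, c, d, e, f) p * wd (0, 0, 0, 1, 0, 0) p) +
      e' * (wd (a, b, c, d, e, f) p * wd (0, 0, 0, 0, 1, 0) p) +
      f' * (wd (a, b, c, d, e, f) p * wd (0, 0, 0, 0, 0, 1) p) := by
    intro p
    rw [wd_lin a' b' c' d' e' f' p]
    ring
  simp only [this, Finset.sum_add_distrib, ← Finset.mul_sum, h1, h2, h3, h4, h5, h6]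
  simp

end Cfsg.Agent.Lib.Ternary
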