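import Mathlib
import Cfsg.Agent.Lib.Ternary

/-!
# The length-12 ternary code: the hexad system
-/

set_option autoImplicit false
set_option linter.all false

namespace Cfsg.Agent.Lib.Ternary2

open Cfsg Cfsg.Agent.Lib.Ternary

theorem pt_count : ∀ u v : ZMod 3,
    (if u - v ≠ 0 then 1 else 0) + (if u + v ≠ 0 then 1 else 0) +
      3 * (if u ≠ 0 ∧ v ≠ 0 then 1 else 0) = 2 * (if u ≠ 0 then 1 else 0) + 2 * (if v ≠ 0 then 1 else 0) := by
  decide

theorem supp_count (x y : ArrayPt → ZMod 3) :
    (ternarySupport (x - y)).card + (ternarySupport (x + y)).card +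
      3 * (ternarySupport x ∩ ternarySupport y).card =
    2 * (ternarySupport x).card + 2 * (ternarySupport y).card := by
  have h1 : ternarySupport x ∩ ternarySupport y = Finset.univ.filter fun p => x p ≠ 0 ∧ y p ≠ 0 := by
    ext p
    simp [ternarySupport]
  rw [h1]
  unfold ternarySupport
  simp only [Finset.card_filter, Finset.mul_sum, ← Finset.sum_add_distrib]
  refine Finset.sum_congr rfl fun p _ => ?_
  exact pt_count (x p) (y p)

/-- Two words of weight six not proportional meet in at most four points. -/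
theorem inter_le_four {x y : ArrayPt → ZMod 3} (hx : x ∈ ternaryGolayCode) (hy : y ∈ ternaryGolayCode)
    (hxw : (ternarySupport x).card = 6) (hyw : (ternarySupport y).card = 6) (h1 : y ≠ x) (h2 : y ≠ -x) :
    (ternarySupport x ∩ ternarySupport y).card ≤ 4 := by
  have h3 := supp_count x y
  have h4 : x - y ≠ 0 := by
    intro h
    exact h1 (sub_eq_zero.1 h).symm
  have h5 : x + y ≠ 0 := by
    intro h
    apply h2
    rw [eq_neg_iff_add_eq_zero, add_comm]
    exact h
  have h6 := six_le_weight (ternaryGolayCode.sub_mem hx hy) h4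
  have h7 := six_le_weight (ternaryGolayCode.add_mem hx hy) h5
  omega

/-- Words of weight six sharing five points are proportional. -/
theorem eq_or_neg {x y : ArrayPt → ZMod 3} (hx : x ∈ ternaryGolayCode) (hy : y ∈ ternaryGolayCode)
    (hxw : (ternarySupport x).card = 6) (hyw : (ternarySupport y).card = 6)
    (h : 5 ≤ (ternarySupport x ∩ ternarySupport y).card) : y = x ∨ y = -x := by
  by_contra hcon
  push Not at hcon
  have := inter_le_four hx hy hxw hyw hcon.1 hcon.2
  omega

theorem support_neg (x : ArrayPt → ZMod 3) : ternarySupport (-x) = ternarySupport x := by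
  ext p
  simp [ternarySupport]

/-- The hexad system. -/
def hexads : Set (Finset ArrayPt) :=
  {h : Finset ArrayPt | ∃ x ∈ ternaryGolayCode, ternarySupport x = h ∧ h.card = 6}

open Classical in
/-- The words of weight six. -/
noncomputable def wordsSix : Finset (ArrayPt → ZMod 3) :=
  Finset.univ.filter fun x => x ∈ ternaryGolayCode ∧ (ternarySupport x).card = 6

theorem mem_wordsSix {x : ArrayPt → ZMod 3} : x ∈ wordsSix ↔ x ∈ ternaryGolayCode ∧ (ternarySupport x).card = 6 := by
  simp [wordsSix]

theorem card_wordsSix : wordsSix.card = 264 := by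
  rw [← Set.ncard_coe_finset]
  have : (wordsSix : Set (ArrayPt → ZMod 3)) = {x | x ∈ ternaryGolayCode ∧ (ternarySupport x).card = 6} := by
    ext x
    simp [mem_wordsSix]
  rw [this, ncard_weight, count6]

open Classical in
/-- The hexads, as a finite set. -/
noncomputable def hexadF : Finset (Finset ArrayPt) := wordsSix.image ternarySupport

theorem mem_hexadF {h : Finset ArrayPt} : h ∈ hexadF ↔ h ∈ hexads := by
  classical
  simp only [hexadF, Finset.mem_image, mem_wordsSix, hexads, Set.mem_setOf_eq]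
  constructor
  · rintro ⟨x, ⟨hx, hw⟩, rfl⟩
    exact ⟨x, hx, rfl, hw⟩
  · rintro ⟨x, hx, rfl, hw⟩
    exact ⟨x, ⟨hx, hw⟩, rfl⟩

theorem neg_ne {x : ArrayPt → ZMod 3} (hx : x ≠ 0) : x ≠ -x := by
  intro h
  apply hx
  funext p
  have h1 : x p = - x p := congrFun h p
  have : ∀ u : ZMod 3, u = -u → u = 0 := by decide
  exact this _ h1

theorem card_hexadF : hexadF.card = 132 := by
  classical
  have h1 : wordsSix.card = ∑ b ∈ hexadF, (wordsSix.filter fun x => ternarySupport x = b).card :=
    Finset.card_eq_sum_card_image _ _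
  have h2 : ∀ b ∈ hexadF, (wordsSix.filter fun x => ternarySupport x = b).card = 2 := by
    intro b hb
    obtain ⟨x, hx, rfl⟩ := Finset.mem_image.1 hb
    obtain ⟨hxc, hxw⟩ := mem_wordsSix.1 hx
    have hx0 : x ≠ 0 := by
      rintro rfl
      simp [ternarySupport] at hxw
    rw [Finset.card_eq_two]
    refine ⟨x, -x, neg_ne hx0, ?_⟩
    ext y
    simp only [Finset.mem_filter, mem_wordsSix, Finset.mem_insert, Finset.mem_singleton]
    constructor
    · rintro ⟨⟨hyc, hyw⟩, hy⟩
      refine eq_or_neg hxc hyc hxw hyw ?_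
      rw [hy, Finset.inter_self, hxw]
      norm_num
    · rintro (rfl | rfl)
      · exact ⟨⟨hxc, hxw⟩, rfl⟩
      · exact ⟨⟨ternaryGolayCode.neg_mem hxc, by rw [support_neg]; exact hxw⟩, support_neg _⟩
  rw [Finset.sum_congr rfl h2, card_wordsSix, Finset.sum_const, smul_eq_mul] at h1
  omega

theorem hexad_card {b : Finset ArrayPt} (hb : b ∈ hexads) : b.card = 6 := by
  obtain ⟨x, -, -, h⟩ := hb
  exact h

theorem hexad_unique {b b' s : Finset ArrayPt} (hb : b ∈ hexads) (hb' : b' ∈ hexads) (hs : s.card = 5)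
    (h1 : s ⊆ b) (h2 : s ⊆ b') : b = b' := by
  obtain ⟨x, hx, rfl, hxw⟩ := hb
  obtain ⟨y, hy, rfl, hyw⟩ := hb'
  have h3 : 5 ≤ (ternarySupport x ∩ ternarySupport y).card := by
    rw [← hs]
    exact Finset.card_le_card (Finset.subset_inter h1 h2)
  rcases eq_or_neg hx hy hxw hyw h3 with rfl | rfl
  · rfl
  · exact (support_neg x).symm

theorem hexad_exists (s : Finset ArrayPt) (hs : s.card = 5) : ∃ b ∈ hexads, s ⊆ b := by
  classical
  have hdis : (↑hexadF : Set (Finset ArrayPt)).PairwiseDisjoint (fun b => b.powersetCard 5) := by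
    intro b hb b' hb' hne
    rw [Function.onFun, Finset.disjoint_left]
    intro t ht ht'
    rw [Finset.mem_powersetCard] at ht ht'
    exact hne (hexad_unique (mem_hexadF.1 hb) (mem_hexadF.1 hb') ht.2 ht.1 ht'.1)
  have h1 : (hexadF.biUnion fun b => b.powersetCard 5).card = 792 := by
    rw [Finset.card_biUnion hdis]
    have : ∀ b ∈ hexadF, (b.powersetCard 5).card = 6 := by
      intro b hb
      rw [Finset.card_powersetCard, hexad_card (mem_hexadF.1 hb)]
      rfl
    rw [Finset.sum_congr rfl this, Finset.sum_const, card_hexadF]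
    rfl
  have h2 : (hexadF.biUnion fun b => b.powersetCard 5) ⊆ (Finset.univ : Finset ArrayPt).powersetCard 5 := by
    intro t ht
    obtain ⟨b, -, hb⟩ := Finset.mem_biUnion.1 ht
    rw [Finset.mem_powersetCard] at hb ⊢
    exact ⟨Finset.subset_univ _, hb.2⟩
  have h3 : ((Finset.univ : Finset ArrayPt).powersetCard 5).card = 792 := by
    rw [Finset.card_powersetCard]
    rfl
  have h4 := Finset.eq_of_subset_of_card_le h2 (by rw [h1, h3])
  have h5 : s ∈ (Finset.univ : Finset ArrayPt).powersetCard 5 :=
    Finset.mem_powersetCard.2 ⟨Finset.subset_univ _, hs⟩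
  rw [← h4] at h5
  obtain ⟨b, hb, hsb⟩ := Finset.mem_biUnion.1 h5
  exact ⟨b, mem_hexadF.1 hb, (Finset.mem_powersetCard.1 hsb).1⟩

theorem isSteiner : IsSteinerSystem 5 6 hexads := by
  refine ⟨fun b hb => hexad_card hb, fun s hs => ?_⟩
  obtain ⟨b, hb, hsb⟩ := hexad_exists s hs
  refine ⟨b, ⟨hb, hsb⟩, ?_⟩
  rintro b' ⟨hb', hsb'⟩
  exact hexad_unique hb' hb hs hsb' hsb

theorem ncard_hexads : hexads.ncard = 132 := by
  have : hexads = (hexadF : Set (Finset ArrayPt)) := by
    ext b
    exact mem_hexadF.symm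
  rw [this, Set.ncard_coe_finset, card_hexadF]

/-- The only sign changes preserving the code are `±1`. -/
theorem sign_change (c : ArrayPt → (ZMod 3)ˣ)
    (h : ∀ x ∈ ternaryGolayCode, monomialMap 1 c x ∈ ternaryGolayCode) :
    (∀ p, c p = 1) ∨ (∀ p, c p = -1) := by
  classical
  have hcomp : ∀ p q : ArrayPt, c p = c q := by
    intro p q
    have hcard : ({p, q} : Finset ArrayPt).card ≤ 5 :=
      (Finset.card_le_two).trans (by norm_num)
    obtain ⟨s, hs1, -, hs2⟩ := Finset.exists_subsuperset_card_eq (Finset.subset_univ _) hcard (by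
      simp only [Finset.card_univ]
      decide)
    obtain ⟨b, hb, hsb⟩ := hexad_exists s hs2
    obtain ⟨x, hx, rfl, hw⟩ := hb
    have hy := h x hx
    have hsupp : ternarySupport (monomialMap 1 c x) = ternarySupport x := by
      ext r
      have e1 : (Equiv.symm (1 : Equiv.Perm ArrayPt)) r = r := rfl
      simp [ternarySupport, monomialMap, e1]
    have hpq : p ∈ ternarySupport x ∧ q ∈ ternarySupport x := by
      constructor
      · exact hsb (hs1 (by simp))
      · exact hsb (hs1 (by simp))
    have hp0 : x p ≠ 0 := by simpa [ternarySupport] using hpq.1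
    have hq0 : x q ≠ 0 := by simpa [ternarySupport] using hpq.2
    have key : monomialMap 1 c x = x ∨ monomialMap 1 c x = -x := by
      refine eq_or_neg hx hy hw (by rw [hsupp]; exact hw) ?_
      rw [hsupp, Finset.inter_self, hw]
      norm_num
    have aux : ∀ (e : ZMod 3) (u : (ZMod 3)ˣ), ∀ w : ZMod 3, w ≠ 0 → (u : ZMod 3) * w = e * w → (u : ZMod 3) = e := by
      intro e u w hw he
      exact mul_right_cancel₀ hw he
    apply Units.ext
    rcases key with key | key
    · have h1 : (c p : ZMod 3) * x p = x p := congrFun key p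
      have h2 : (c q : ZMod 3) * x q = x q := congrFun key q
      rw [aux 1 (c p) (x p) hp0 (by rw [h1, one_mul]), aux 1 (c q) (x q) hq0 (by rw [h2, one_mul])]
    · have h1 : (c p : ZMod 3) * x p = - x p := congrFun key p
      have h2 : (c q : ZMod 3) * x q = - x q := congrFun key q
      rw [aux (-1) (c p) (x p) hp0 (by rw [h1]; ring), aux (-1) (c q) (x q) hq0 (by rw [h2]; ring)]
  have hu : ∀ u : (ZMod 3)ˣ, u = 1 ∨ u = -1 := by decide
  rcases hu (c (0, 0)) with h0 | h0
  · left
    intro p
    rw [hcomp p (0, 0), h0]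
  · right
    intro p
    rw [hcomp p (0, 0), h0]

end Cfsg.Agent.Lib.Ternary2
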