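import Mathlib
import Cfsg.Agent.Lib.ZJThompson
import Cfsg.Agent.Lib.ClassTwoJ

/-! Thompson's normal `p`-complement theorem for the Thompson subgroup generated by abelian
subgroups of largest order: `p` odd, or `p = 2` and no section `Sym(4)`. -/

set_option autoImplicit false
set_option linter.all false

universe u

namespace Cfsg.Agent.Lib.ThompsonA

open scoped commutatorElement Pointwise
open Cfsg Cfsg.Agent.Lib.SylowIn Cfsg.Agent.Lib.ConjFamily Cfsg.Agent.Lib.FamilyFusion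
  Cfsg.Agent.Lib.KInfChief Cfsg.Agent.Lib.SecFunctor Cfsg.Agent.Lib.SecTransfer
  Cfsg.Agent.Lib.StrongFusion Cfsg.Agent.Lib.FusionApps Cfsg.Agent.Lib.PNilp Cfsg.Agent.Lib.PNilpB
  Cfsg.Agent.Lib.NpcFunctor Cfsg.Agent.Lib.ZJ Cfsg.Agent.Lib.ZJGood Cfsg.Agent.Lib.ZJControl
  Cfsg.Agent.Lib.ZJQuot Cfsg.Agent.Lib.ZJApps Cfsg.Agent.Lib.StableCoatom
  Cfsg.Agent.Lib.ZJOmega Cfsg.Agent.Lib.ZJNpc Cfsg.Agent.Lib.ZJReplace Cfsg.Agent.Lib.ZJThompson

/-- The hypothesis. -/
def HyA (p : ℕ) {X : Type*} [Group X] (E : Subgroup X) : Prop :=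
  HasNormalPComplement p ↥(Subgroup.normalizer (JJ 0 E : Set X)) ∧
    HasNormalPComplement p ↥(Subgroup.centralizer (ZZ E : Set X))

section basic

variable {X : Type*} [Group X]

theorem normalizer_le_JJ0 [Finite X] (E : Subgroup X) :
    Subgroup.normalizer (E : Set X) ≤ Subgroup.normalizer (JJ 0 E : Set X) := by
  intro g hg
  apply JJ_normalizer
  intro A hA
  rintro _ ⟨a, ha, rfl⟩
  exact (Subgroup.mem_normalizer_iff.1 hg a).1 (hA.1 ha)

theorem JJ0_ne_bot {p : ℕ} [Fact p.Prime] [Finite X] {E : Subgroup X} (hE : IsPGroup p E) (hne : E ≠ ⊥) :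
    JJ 0 E ≠ ⊥ := by
  intro h0
  have hz := ZZ_ne_bot (p := p) hE hne
  obtain ⟨z, hz1⟩ := Subgroup.ne_bot_iff_exists_ne_one.1 hz
  obtain ⟨A, hA⟩ := exists_maxPr (X := X) 0 E
  have hzA : (z : X) ∈ A := hA.mem_of_commute (z.2.1) (pow_zero _) (fun a ha =>
    (Subgroup.mem_centralizer_iff.1 z.2.2 a (hA.1 ha)))
  have h1 : (z : X) ∈ JJ 0 E := le_JJ hA hzA
  rw [h0, Subgroup.mem_bot] at h1
  exact hz1 (Subtype.ext h1)

end basic

section step

variable {p : ℕ} [hp : Fact p.Prime] {Y : Type u} [Group Y] [Finite Y]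

/-- Restriction to a subgroup. -/
theorem sub_hyA (H : Subgroup Y)
    (IH : ∀ T : Sylow p ↥H, HyA p (T : Subgroup ↥H) → HasNormalPComplement p ↥H)
    {E : Subgroup Y} (hE : IsSylowIn p E H) (hEH : E ≤ H)
    (h : HyA p E) : HasNormalPComplement p ↥H := by
  obtain ⟨R, hR⟩ := hE
  have hRm : (R : Subgroup ↥H).map H.subtype = E := by
    rw [hR]
    exact Subgroup.map_subgroupOf_eq_of_le hEH
  have hinj : ∀ a ∈ (R : Subgroup ↥H), ∀ b ∈ (R : Subgroup ↥H), H.subtype a = H.subtype b → a = b :=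
    fun a _ b _ hab => H.subtype_injective hab
  refine IH R ⟨?_, ?_⟩
  · have e : (JJ 0 (R : Subgroup ↥H)).map H.subtype = JJ 0 E := by
      rw [← JJ_map _ hinj, hRm]
    have hle : (Subgroup.normalizer (JJ 0 (R : Subgroup ↥H) : Set ↥H)).map H.subtype ≤
        Subgroup.normalizer (JJ 0 E : Set Y) := by
      rw [← e]
      exact Subgroup.le_normalizer_map _
    have h2 := npc_le hle h.1
    have hinj2 : Function.Injective (H.subtype.subgroupMap (Subgroup.normalizer (JJ 0 (R : Subgroup ↥H) : Set ↥H))) :=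
      fun a b hab => Subtype.ext (Subtype.ext (by simpa using Subtype.ext_iff.1 hab))
    exact npc_of_injective _ hinj2 h2
  · have e : (ZZ (R : Subgroup ↥H)).map H.subtype = ZZ E := by
      have := center_map (J := (R : Subgroup ↥H)) H.subtype hinj
      rw [hRm] at this
      exact this
    have hle : (Subgroup.centralizer (ZZ (R : Subgroup ↥H) : Set ↥H)).map H.subtype ≤
        Subgroup.centralizer (ZZ E : Set Y) := by
      rw [← e]
      rintro _ ⟨c, hc, rfl⟩
      rw [Subgroup.mem_centralizer_iff]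
      rintro _ ⟨z, hz, rfl⟩
      exact congrArg Subtype.val (Subgroup.mem_centralizer_iff.1 hc z hz)
    have h2 := npc_le hle h.2
    have hinj2 : Function.Injective (H.subtype.subgroupMap (Subgroup.centralizer (ZZ (R : Subgroup ↥H) : Set ↥H))) :=
      fun a b hab => Subtype.ext (Subtype.ext (by simpa using Subtype.ext_iff.1 hab))
    exact npc_of_injective _ hinj2 h2

/-- The first step: a nontrivial `p`-core. -/
theorem step_coreA (T : Sylow p Y) (hT : HyA p (T : Subgroup Y))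
    (IHsub : ∀ H : Subgroup Y, H ≠ ⊤ → ∀ E : Subgroup Y, E ≤ H → IsSylowIn p E H → HyA p E →
      HasNormalPComplement p H)
    (hnot : ¬ HasNormalPComplement p Y) : pCore p Y ≠ ⊥ := by
  have key : ∀ (n : ℕ) (P : Subgroup Y), P ≤ T → P ≠ ⊥ →
      IsSylowIn p ((T : Subgroup Y) ⊓ Subgroup.normalizer (P : Set Y)) (Subgroup.normalizer (P : Set Y)) →
      ¬ HasNormalPComplement p ↥(Subgroup.normalizer (P : Set Y)) →
      Nat.card (T : Subgroup Y) - Nat.card ((T : Subgroup Y) ⊓ Subgroup.normalizer (P : Set Y) : Subgroup Y) = n →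
      pCore p Y ≠ ⊥ := by
    intro n
    induction n using Nat.strong_induction_on with
    | _ n IH =>
    intro P hPT hPne hPS hPnpc hn
    have hPp : IsPGroup p P := T.isPGroup'.to_le hPT
    by_cases htop : Subgroup.normalizer (P : Set Y) = ⊤
    · intro hbot
      have hPn : P.Normal := Subgroup.normalizer_eq_top_iff.1 htop
      have h1 : P ≤ pCore p Y := Cfsg.Agent.Lib.PCore.le_pCore hPn hPp
      rw [hbot] at h1
      exact hPne (le_bot_iff.1 h1)
    set E : Subgroup Y := (T : Subgroup Y) ⊓ Subgroup.normalizer (P : Set Y) with hE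
    have hEp : IsPGroup p E := T.isPGroup'.to_le inf_le_left
    have hET : E ≤ T := inf_le_left
    have hPE : P ≤ E := le_inf hPT Subgroup.le_normalizer
    have hEne : E ≠ ⊥ := fun h => hPne (le_bot_iff.1 (h ▸ hPE))
    have h1 : ¬ HyA p E := fun h => hPnpc (IHsub _ htop E inf_le_right hPS h)
    have hEneT : E ≠ (T : Subgroup Y) := by
      intro h
      apply h1
      rw [h]
      exact hT
    -- the next subgroup
    obtain ⟨P', hP'E, hP'ne, hP'n, hP'npc⟩ : ∃ P' : Subgroup Y, P' ≤ E ∧ P' ≠ ⊥ ∧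
        Subgroup.normalizer (E : Set Y) ≤ Subgroup.normalizer (P' : Set Y) ∧
        ¬ HasNormalPComplement p ↥(Subgroup.normalizer (P' : Set Y)) := by
      by_cases h2 : HasNormalPComplement p ↥(Subgroup.normalizer (JJ 0 E : Set Y))
      · have h3 : ¬ HasNormalPComplement p ↥(Subgroup.centralizer (ZZ E : Set Y)) := fun h => h1 ⟨h2, h⟩
        refine ⟨ZZ E, inf_le_left, ZZ_ne_bot hEp hEne, normalizer_center_le E, fun h => h3 ?_⟩
        exact npc_le (centralizer_le_normalizer _) h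
      · exact ⟨JJ 0 E, JJ_le E, JJ0_ne_bot hEp hEne, normalizer_le_JJ0 E, h2⟩
    obtain ⟨x, hxT, hx⟩ := exists_conj_tame T P' (hP'E.trans hET)
    have hnpc' : ¬ HasNormalPComplement p ↥(Subgroup.normalizer ((cj x P' : Subgroup Y) : Set Y)) := by
      intro h
      rw [normalizer_cj] at h
      exact hP'npc (npc_cj x _ h)
    have hne' : cj x P' ≠ ⊥ := cj_ne_bot hP'ne x
    -- larger normalizer
    obtain ⟨hle1, hnle⟩ := Cfsg.Agent.Lib.TameInter.lt_inf_normalizer T.isPGroup' hET hEneT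
    have hlt : Nat.card E < Nat.card ((T : Subgroup Y) ⊓ Subgroup.normalizer (E : Set Y) : Subgroup Y) :=
      Cfsg.Agent.Lib.TameInter.card_lt_of_le_of_not_le hle1 hnle
    have hge : Nat.card ((T : Subgroup Y) ⊓ Subgroup.normalizer (E : Set Y) : Subgroup Y) ≤
        Nat.card ((T : Subgroup Y) ⊓ Subgroup.normalizer ((cj x P' : Subgroup Y) : Set Y) : Subgroup Y) := by
      have h3 : cj x ((T : Subgroup Y) ⊓ Subgroup.normalizer (E : Set Y)) ≤
          Subgroup.normalizer ((cj x P' : Subgroup Y) : Set Y) := by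
        rw [normalizer_cj]
        exact cj_mono _ (inf_le_right.trans hP'n)
      have h4 := hx.card_le inf_le_right h3
        ((T.isPGroup'.to_le inf_le_left).map _)
      rwa [card_cj] at h4
    have hTle : Nat.card ((T : Subgroup Y) ⊓ Subgroup.normalizer ((cj x P' : Subgroup Y) : Set Y) : Subgroup Y) ≤ Nat.card (T : Subgroup Y) :=
      Subgroup.card_le_of_le inf_le_left
    refine IH _ ?_ (cj x P') hxT hne' hx hnpc' rfl
    rw [← hn]
    omega
  intro hbot
  apply hnot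
  rw [Cfsg.Agent.Lib.PNilp.frobenius]
  intro Q hQp hQne
  by_contra hQnpc
  obtain ⟨y, hy⟩ := exists_conj_le_sylow T hQp
  have hy' : cj y Q ≤ T := hy
  obtain ⟨x, hxT, hx⟩ := exists_conj_tame T (cj y Q) hy'
  refine key _ _ hxT ?_ hx ?_ rfl hbot
  · intro h
    apply hQne
    rw [cj_cj] at h
    have h2 : Q.map (MulAut.conj (x * y)).toMonoidHom = ⊥ := h
    exact (Subgroup.map_eq_bot_iff_of_injective _ (MulAut.conj _).injective).1 h2
  · intro h
    rw [cj_cj, normalizer_cj] at h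
    exact hQnpc (npc_cj _ _ h)

/-- The quotient by `O_{p'}`. -/
theorem step_coprimeA (T : Sylow p Y) (hT : HyA p (T : Subgroup Y))
    (IHquot : ∀ (N : Subgroup Y) [N.Normal], N ≠ ⊥ → ∀ T' : Sylow p (Y ⧸ N),
      HyA p (T' : Subgroup (Y ⧸ N)) → HasNormalPComplement p (Y ⧸ N))
    (hnot : ¬ HasNormalPComplement p Y) : pPrimeCore p Y = ⊥ := by
  by_contra hL
  haveI := Cfsg.Agent.Lib.FitCore.pPrimeCore_normal (G := Y) p
  set L : Subgroup Y := pPrimeCore p Y with hLd
  have hLp : ¬ p ∣ Nat.card L := Cfsg.Agent.Lib.FitCore.not_dvd_card_pPrimeCore p Fact.out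
  apply hnot
  apply npc_of_quot_coprime L hLp
  have hsurj : Function.Surjective (QuotientGroup.mk' L) := QuotientGroup.mk'_surjective L
  have hinj : ∀ a ∈ (T : Subgroup Y), ∀ b ∈ (T : Subgroup Y),
      QuotientGroup.mk' L a = QuotientGroup.mk' L b → a = b := mk_inj hLp T.isPGroup'
  have hc : ((T.mapSurjective hsurj : Sylow p (Y ⧸ L)) : Subgroup (Y ⧸ L)) = (T : Subgroup Y).map (QuotientGroup.mk' L) := rfl
  refine IHquot L hL (T.mapSurjective hsurj) ⟨?_, ?_⟩
  · rw [hc, JJ_map _ hinj]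
    exact npc_le (normalizer_map_le_of_coprime L hLp _ (T.isPGroup'.to_le (JJ_le _))) (npc_map _ _ hT.1)
  · rw [hc]
    have e : ZZ ((T : Subgroup Y).map (QuotientGroup.mk' L)) = (ZZ (T : Subgroup Y)).map (QuotientGroup.mk' L) :=
      (center_map (J := (T : Subgroup Y)) (QuotientGroup.mk' L) hinj).symm
    rw [e]
    exact npc_le (centralizer_map_le_of_coprime L hLp _ (T.isPGroup'.to_le inf_le_left)) (npc_map _ _ hT.2)

/-- The quotient by `O_p`. -/
theorem step_quotA (T : Sylow p Y) (hT : HyA p (T : Subgroup Y))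
    (hIH : ∀ H : Subgroup Y, H ≠ ⊤ → (T : Subgroup Y) ≤ H → HasNormalPComplement p H)
    (IHquot : ∀ (N : Subgroup Y) [N.Normal], N ≠ ⊥ → ∀ T' : Sylow p (Y ⧸ N),
      HyA p (T' : Subgroup (Y ⧸ N)) → HasNormalPComplement p (Y ⧸ N))
    (hQ : pCore p Y ≠ ⊥) (hnot : ¬ HasNormalPComplement p Y) :
    HasNormalPComplement p (Y ⧸ pCore p Y) := by
  classical
  set Q : Subgroup Y := pCore p Y with hQd
  haveI hQn : Q.Normal := Cfsg.Agent.Lib.PCore.pCore_normal p Y
  have hQp : IsPGroup p Q := Cfsg.Agent.Lib.PCore.isPGroup_pCore p Y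
  have hQT : Q ≤ (T : Subgroup Y) := Cfsg.Agent.Lib.PCore.pCore_le_sylow T
  have hsurj : Function.Surjective (QuotientGroup.mk' Q) := QuotientGroup.mk'_surjective Q
  set π := QuotientGroup.mk' Q with hπ
  have hkerπ : π.ker = Q := QuotientGroup.ker_mk' Q
  have hTQ : ¬ (T : Subgroup Y) ≤ Q := by
    intro h
    apply hnot
    have h1 : (T : Subgroup Y) = Q := le_antisymm h hQT
    have h2 : Subgroup.normalizer ((T : Subgroup Y) : Set Y) = ⊤ := by
      rw [h1]
      exact Subgroup.normalizer_eq_top _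
    have h3 := normalizer_le_JJ0 (T : Subgroup Y)
    rw [h2, top_le_iff] at h3
    have h4 := hT.1
    rw [h3] at h4
    exact npc_top_iff.1 h4
  have hSbp : IsPGroup p ((T : Subgroup Y).map π) := T.isPGroup'.map π
  have hSbne : (T : Subgroup Y).map π ≠ ⊥ := by
    intro h0
    apply hTQ
    rw [← hkerπ]
    intro s hs
    have : π s ∈ (T : Subgroup Y).map π := ⟨s, hs, rfl⟩
    rw [h0] at this
    exact this
  -- generic: a nontrivial `p`-subgroup of the quotient normalized by the image of `T`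
  have hgen : ∀ V : Subgroup (Y ⧸ Q), IsPGroup p V → V ≠ ⊥ →
      (T : Subgroup Y).map π ≤ Subgroup.normalizer (V : Set (Y ⧸ Q)) →
      HasNormalPComplement p ↥(Subgroup.normalizer (V : Set (Y ⧸ Q))) := by
    intro V hVp hVne hTV
    set LW : Subgroup Y := (Subgroup.normalizer (V : Set (Y ⧸ Q))).comap π with hLW
    have hmap : LW.map π = Subgroup.normalizer (V : Set (Y ⧸ Q)) :=
      Subgroup.map_comap_eq_self_of_surjective hsurj _
    have hLWtop : LW ≠ ⊤ := by
      intro htop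
      have h1 : Subgroup.normalizer (V : Set (Y ⧸ Q)) = ⊤ := by
        rw [← hmap, htop, Subgroup.map_top_of_surjective _ hsurj]
      have hVn : V.Normal := (Subgroup.normalizer_eq_top_iff).1 h1
      have : V ≤ pCore p (Y ⧸ Q) := Cfsg.Agent.Lib.PCore.le_pCore hVn hVp
      rw [pCore_quotient_eq_bot] at this
      exact hVne (le_bot_iff.1 this)
    have hSLW : (T : Subgroup Y) ≤ LW := fun s hs => hTV ⟨s, hs, rfl⟩
    have h2 := npc_map π LW (hIH LW hLWtop hSLW)
    rw [hmap] at h2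
    exact h2
  refine IHquot Q hQ (T.mapSurjective hsurj) ⟨?_, ?_⟩
  · have hc : ((T.mapSurjective hsurj : Sylow p (Y ⧸ Q)) : Subgroup (Y ⧸ Q)) = (T : Subgroup Y).map π := rfl
    rw [hc]
    refine hgen _ (hSbp.to_le (JJ_le _)) (JJ0_ne_bot hSbp hSbne) ?_
    exact (Subgroup.le_normalizer).trans (normalizer_le_JJ0 _)
  · have hc : ((T.mapSurjective hsurj : Sylow p (Y ⧸ Q)) : Subgroup (Y ⧸ Q)) = (T : Subgroup Y).map π := rfl
    rw [hc]
    have h1 := hgen (ZZ ((T : Subgroup Y).map π)) (hSbp.to_le inf_le_left) (ZZ_ne_bot hSbp hSbne)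
      ((Subgroup.le_normalizer).trans (normalizer_center_le _))
    exact npc_le (centralizer_le_normalizer _) h1

/-- The final factorization for odd primes. -/
theorem final_facA (hp2 : p ≠ 2) (T : Sylow p Y) (hT : HyA p (T : Subgroup Y))
    (hc : Subgroup.centralizer (pCore p Y : Set Y) ≤ pCore p Y)
    (hst : ∀ B : Subgroup Y, B.Normal → IsPGroup p B → StabOn p B)
    (hca : IsCoatom (T : Subgroup Y)) : HasNormalPComplement p Y := by
  classical
  have hTJ : (T : Subgroup Y) ≤ Subgroup.normalizer (JJ 0 (T : Subgroup Y) : Set Y) :=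
    (Subgroup.le_normalizer).trans (normalizer_le_JJ0 _)
  by_cases hN : Subgroup.normalizer (JJ 0 (T : Subgroup Y) : Set Y) = ⊤
  · have h4 := hT.1
    rw [hN] at h4
    exact npc_top_iff.1 h4
  have hNT : Subgroup.normalizer (JJ 0 (T : Subgroup Y) : Set Y) = T := by
    by_contra hne
    exact hN (hca.2 _ (lt_of_le_of_ne hTJ (Ne.symm hne)))
  have hsc : IsStronglyClosed (T : Subgroup Y) (T : Subgroup Y) := ⟨le_rfl, fun _ _ _ h => h⟩
  have hZn : (ZZ (T : Subgroup Y)).Normal := by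
    refine zj_normal hp2 (Or.inl rfl) T hsc hc hst _ inf_le_left (fun _ _ => pow_zero _) ?_ ?_
    · intro y hy A hA a ha
      exact (Subgroup.mem_centralizer_iff.1 hy.2 a (hA.1 ha)).symm
    · rw [hNT]
      exact (Subgroup.le_normalizer).trans (normalizer_center_le _)
  have hcomm : ∀ b ∈ ZZ (T : Subgroup Y), ∀ c ∈ ZZ (T : Subgroup Y), ⁅b, c⁆ = 1 := by
    intro b hb c hc
    rw [commutatorElement_eq_one_iff_mul_comm]
    exact Subgroup.mem_centralizer_iff.1 hc.2 b hb.1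
  have hfac := main_B (e := 0) hp2 (Or.inl rfl) T hsc hZn (E := ZZ (T : Subgroup Y))
    (le_antisymm Subgroup.le_normalClosure (Subgroup.normalClosure_le_normal le_rfl))
    inf_le_left inf_le_left (fun _ _ => pow_zero _)
    (fun z hz A hA a ha => (Subgroup.mem_centralizer_iff.1 hz.2 a (hA.1 ha)).symm)
    (fun b hb c hc d _ => by rw [hcomm b hb c hc]; group)
    (fun b hb c hc A hA a _ => by rw [hcomm b hb c hc]; group)
    (hst _ hZn (T.isPGroup'.to_le inf_le_left))
  haveI hCn : (Subgroup.centralizer (ZZ (T : Subgroup Y) : Set Y)).Normal := Subgroup.normal_centralizer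
  refine npc_of_normal_pquot _ (fun g => ?_) hT.2
  obtain ⟨c, hc', n, hn, rfl⟩ := hfac g
  rw [hNT] at hn
  obtain ⟨k, hk⟩ := T.isPGroup' ⟨n, hn⟩
  have hk' : n ^ p ^ k = 1 := by
    have := congrArg Subtype.val hk
    simpa using this
  refine ⟨k, ?_⟩
  rw [← QuotientGroup.eq_one_iff, QuotientGroup.mk_pow, QuotientGroup.mk_mul,
    (QuotientGroup.eq_one_iff c).2 hc', one_mul, ← QuotientGroup.mk_pow, hk']
  rfl

end step

section two

variable {G : Type u} [Group G] [Finite G]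

/-- Thompson's replacement for a maximal abelian subgroup of a `p`-subgroup `D`, any prime. -/
theorem replacement_ab {p : ℕ} [Fact p.Prime] {D A B : Subgroup G} (hD : IsPGroup p D)
    (hA : IsMaxPr 0 D A) (hBD : B ≤ D)
    (hBab : ∀ a ∈ B, ∀ b ∈ B, a * b = b * a)
    (hAB : A ≤ Subgroup.normalizer (B : Set G))
    (hBA : ¬ B ≤ Subgroup.normalizer (A : Set G)) :
    ∃ A' : Subgroup G, IsMaxPr 0 D A' ∧ A ⊓ B < A' ⊓ B ∧ A' ≤ Subgroup.normalizer (A : Set G) := by
  classical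
  let A₀ : Subgroup ↥D := A.subgroupOf D
  let B₀ : Subgroup ↥D := B.subgroupOf D
  have hA₀c : ∀ a ∈ A₀, ∀ b ∈ A₀, a * b = b * a := by
    intro a ha b hb
    exact Subtype.ext (hA.2.1.1 a.1 ha b.1 hb)
  have hB₀c : ∀ a ∈ B₀, ∀ b ∈ B₀, a * b = b * a := by
    intro a ha b hb
    exact Subtype.ext (hBab a.1 ha b.1 hb)
  have hAB₀ : A₀ ≤ Subgroup.normalizer (B₀ : Set ↥D) := by
    intro a ha
    rw [Subgroup.mem_normalizer_iff]
    intro b
    have := (Subgroup.mem_normalizer_iff.1 (hAB ha) b.1)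
    show b.1 ∈ B ↔ a.1 * b.1 * a.1⁻¹ ∈ B
    exact this
  have hBA₀ : ¬ B₀ ≤ Subgroup.normalizer (A₀ : Set ↥D) := by
    intro h
    apply hBA
    intro b hb
    have h1 := h (show (⟨b, hBD hb⟩ : ↥D) ∈ B₀ from hb)
    rw [Subgroup.mem_normalizer_iff]
    intro a
    by_cases ha : a ∈ D
    · exact (Subgroup.mem_normalizer_iff.1 h1 ⟨a, ha⟩)
    · have h2 : a ∉ A := fun h3 => ha (hA.1 h3)
      have h3 : b * a * b⁻¹ ∉ A := by
        intro h3
        apply ha
        have h4 := hA.1 h3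
        have e : a = b⁻¹ * (b * a * b⁻¹) * b := by group
        rw [e]
        exact D.mul_mem (D.mul_mem (D.inv_mem (hBD hb)) h4) (hBD hb)
      simp [h2, h3]
  obtain ⟨A₁, hA₁c, hA₁card, hlt, hA₁n, -⟩ := Cfsg.Agent.Lib.Replacement.replacement hD hA₀c hB₀c hAB₀ hBA₀
  have hcA₀ : Nat.card A₀ = Nat.card A := Nat.card_congr (Subgroup.subgroupOfEquivOfLe hA.1).toEquiv
  refine ⟨A₁.map D.subtype, ⟨Subgroup.map_subtype_le _, ⟨?_, fun _ _ => pow_zero _⟩, ?_⟩, ?_, ?_⟩
  · rintro _ ⟨a, ha, rfl⟩ _ ⟨b, hb, rfl⟩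
    exact congrArg Subtype.val (hA₁c a ha b hb)
  · intro A' h1 h2
    have h3 := hA.2.2 A' h1 h2
    rw [Subgroup.card_map_of_injective D.subtype_injective]
    rw [← hcA₀] at h3
    exact h3.trans hA₁card
  · have hle : A ⊓ B ≤ A₁.map D.subtype ⊓ B := by
      rintro x ⟨hxA, hxB⟩
      have h1 : (⟨x, hA.1 hxA⟩ : ↥D) ∈ A₀ ⊓ B₀ := ⟨hxA, hxB⟩
      have h2 := hlt.le h1
      exact ⟨⟨_, h2.1, rfl⟩, hxB⟩
    refine lt_of_le_of_ne hle ?_
    intro heq
    apply hlt.not_ge
    rintro ⟨x, hxD⟩ ⟨hx1, hx2⟩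
    have h1 : x ∈ A₁.map D.subtype ⊓ B := ⟨⟨_, hx1, rfl⟩, hx2⟩
    rw [← heq] at h1
    exact ⟨h1.1, h1.2⟩
  · rintro _ ⟨a, ha, rfl⟩
    have h1 := hA₁n ha
    rw [Subgroup.mem_normalizer_iff] at h1 ⊢
    intro x
    by_cases hx : x ∈ D
    · exact h1 ⟨x, hx⟩
    · have h2 : x ∉ A := fun h3 => hx (hA.1 h3)
      have h3 : (a : G) * x * (a : G)⁻¹ ∉ A := by
        intro h3
        apply hx
        have h4 := hA.1 h3
        have e : x = (a : G)⁻¹ * ((a : G) * x * (a : G)⁻¹) * (a : G) := by group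
        rw [e]
        exact D.mul_mem (D.mul_mem (D.inv_mem a.2) h4) a.2
      simp [Subgroup.coe_subtype, h2, h3]

/-- The Thompson inequality, abelian version. -/
theorem thompson_ineq_A (S A V : Subgroup G) (hAS : A ≤ S) (hVS : V ≤ S)
    (hA : ∀ a ∈ A, ∀ b ∈ A, a * b = b * a) (hV : ∀ a ∈ V, ∀ b ∈ V, a * b = b * a)
    (hmax : ∀ B : Subgroup G, B ≤ S → (∀ a ∈ B, ∀ b ∈ B, a * b = b * a) → Nat.card B ≤ Nat.card A) :
    Nat.card V * Nat.card (A ⊓ Subgroup.centralizer (V : Set G) : Subgroup G) ≤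
      Nat.card A * Nat.card (V ⊓ Subgroup.centralizer (A : Set G) : Subgroup G) := by
  set A₁ : Subgroup G := A ⊓ Subgroup.centralizer (V : Set G) with hA₁
  set V₁ : Subgroup G := V ⊓ Subgroup.centralizer (A : Set G) with hV₁
  have hN : A₁ ≤ Subgroup.normalizer (V : Set G) := by
    intro x hx
    apply Cfsg.Agent.Lib.S4Sec.mem_normalizer_of_forall
    intro y hy
    have := Subgroup.mem_centralizer_iff.1 hx.2 y hy
    have h1 : x * y * x⁻¹ = y := by
      rw [← this]; group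
    rw [h1]; exact hy
  have hsupab : ∀ a ∈ V ⊔ A₁, ∀ b ∈ V ⊔ A₁, a * b = b * a := by
    intro a ha b hb
    obtain ⟨x, hx, y, hy, rfl⟩ := Cfsg.Agent.Lib.Replacement.mem_sup_of_le_normalizer hN (by rwa [sup_comm] at ha)
    obtain ⟨x', hx', y', hy', rfl⟩ := Cfsg.Agent.Lib.Replacement.mem_sup_of_le_normalizer hN (by rwa [sup_comm] at hb)
    have h1 : ∀ u ∈ A₁, ∀ v ∈ V, u * v = v * u := fun u hu v hv => (Subgroup.mem_centralizer_iff.1 hu.2 v hv).symm
    calc x * y * (x' * y') = x * (y * x') * y' := by group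
      _ = x * (x' * y) * y' := by rw [(h1 x' hx' y hy)]
      _ = (x * x') * (y * y') := by group
      _ = (x' * x) * (y' * y) := by rw [hA x hx.1 x' hx'.1, hV y hy y' hy']
      _ = x' * (x * y') * y := by group
      _ = x' * (y' * x) * y := by rw [h1 x hx y' hy']
      _ = x' * y' * (x * y) := by group
  have hc := Cfsg.Agent.Lib.SchurZ2.card_sup_mul_card_inf V A₁ hN
  have hVA : Nat.card (V ⊓ A₁ : Subgroup G) ≤ Nat.card V₁ := by
    apply Subgroup.card_le_of_le
    rintro x ⟨hxV, hxA, _⟩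
    exact ⟨hxV, Subgroup.mem_centralizer_iff.2 (fun a ha => hA a ha x hxA)⟩
  rw [← hc]
  calc Nat.card (V ⊔ A₁ : Subgroup G) * Nat.card (V ⊓ A₁ : Subgroup G)
      ≤ Nat.card A * Nat.card V₁ := Nat.mul_le_mul (hmax _ (sup_le hVS (inf_le_left.trans hAS)) hsupab) hVA

/-- An element of odd order trivial on the involutions of an abelian normal `2`-subgroup
is trivial on the subgroup. -/
theorem fix_of_fix_involutions {Z : Subgroup G} (hZn : Z.Normal) (hZp : IsPGroup 2 Z)
    (hZcomm : ∀ x ∈ Z, ∀ y ∈ Z, x * y = y * x) {x : G} (hxo : (orderOf x).Coprime 2)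
    (hxV : ∀ v ∈ Z, v * v = 1 → x * v = v * x) : ∀ z ∈ Z, x * z = z * x := by
  have hstep1 : ∀ k : ℕ, ∀ z ∈ Z, z ^ (2 ^ k) = 1 → x * z * x⁻¹ = z := by
    intro k
    induction k with
    | zero =>
      intro z _ hz
      have : z = 1 := by simpa using hz
      rw [this]; group
    | succ k ih =>
      intro z hz hzk
      have hz2 : z * z ∈ Z := Z.mul_mem hz hz
      have h1 : x * (z * z) * x⁻¹ = z * z := by
        apply ih _ hz2
        rw [← pow_two, ← pow_mul, ← pow_succ']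
        exact hzk
      set u := (x * z * x⁻¹) * z⁻¹ with hu
      have hxz : x * z * x⁻¹ ∈ Z := hZn.conj_mem z hz x
      have huZ : u ∈ Z := Z.mul_mem hxz (Z.inv_mem hz)
      have hu2 : u * u = 1 := by
        have e : u * u = ((x * z * x⁻¹) * (x * z * x⁻¹)) * (z⁻¹ * z⁻¹) := by
          rw [hu]
          calc (x * z * x⁻¹) * z⁻¹ * ((x * z * x⁻¹) * z⁻¹)
              = (x * z * x⁻¹) * (z⁻¹ * (x * z * x⁻¹)) * z⁻¹ := by group
            _ = (x * z * x⁻¹) * ((x * z * x⁻¹) * z⁻¹) * z⁻¹ := by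
                rw [hZcomm _ (Z.inv_mem hz) _ hxz]
            _ = _ := by group
        have e2 : (x * z * x⁻¹) * (x * z * x⁻¹) = x * (z * z) * x⁻¹ := by group
        rw [e, e2, h1]
        group
      have h2 : x * z * x⁻¹ = u * z := by rw [hu]; group
      obtain ⟨k', hk'⟩ := (IsPGroup.iff_orderOf.1 hZp) ⟨u, huZ⟩
      rw [Subgroup.orderOf_mk] at hk'
      have h3 := Cfsg.Agent.Lib.CoprimeAct.comm_trivial_of_coprime h2 (hxV u huZ hu2) hxo hk'
      rw [h2, h3, one_mul]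
  intro z hz
  obtain ⟨k', hk'⟩ := (IsPGroup.iff_orderOf.1 hZp) ⟨z, hz⟩
  rw [Subgroup.orderOf_mk] at hk'
  have h := hstep1 k' z hz (by rw [← hk']; exact pow_orderOf_eq_one z)
  rw [mul_inv_eq_iff_eq_mul] at h
  exact h

end two

section s4

variable {Y : Type u} [Group Y] [Finite Y]

set_option maxHeartbeats 4000000 in
/-- The final step for the prime `2`, without sections `Sym(4)`. -/
theorem final_s4 (hS4 : ¬ Cfsg.Involves (Equiv.Perm (Fin 4)) Y) (T : Sylow 2 Y)
    (hT : HyA 2 (T : Subgroup Y))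
    (hCQ : Subgroup.centralizer (pCore 2 Y : Set Y) ≤ pCore 2 Y)
    (hq : HasNormalPComplement 2 (Y ⧸ pCore 2 Y))
    (hca : IsCoatom (T : Subgroup Y)) : HasNormalPComplement 2 Y := by
  classical
  haveI : Fact (Nat.Prime 2) := ⟨Nat.prime_two⟩
  haveI : Fact (Nat.Prime 3) := ⟨Nat.prime_three⟩
  set Q : Subgroup Y := pCore 2 Y with hQdef
  haveI hQn : Q.Normal := Cfsg.Agent.Lib.FitCore.pCore_normal 2
  have hQp : IsPGroup 2 Q := Cfsg.Agent.Lib.FitCore.pCore_isPGroup 2
  have hQS : Q ≤ (T : Subgroup Y) := Cfsg.Agent.Lib.FitCore.pCore_le_sylow 2 T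
  haveI hCn : (Subgroup.centralizer (Q : Set Y)).Normal := Subgroup.normal_centralizer
  -- the centre of `Q`
  let Z : Subgroup Y := Q ⊓ Subgroup.centralizer (Q : Set Y)
  haveI hZn : Z.Normal := Subgroup.normal_inf_normal _ _
  have hZc : ∀ z ∈ Z, ∀ q ∈ Q, q * z = z * q := fun z hz q hq => Subgroup.mem_centralizer_iff.1 hz.2 q hq
  have hZcomm : ∀ x ∈ Z, ∀ y ∈ Z, x * y = y * x := fun x hx y hy => (hZc x hx y hy.1).symm
  have hZp : IsPGroup 2 Z := hQp.to_le inf_le_left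
  -- the normal closure of `Z(T)`
  have hZTZ : ZZ (T : Subgroup Y) ≤ Z := by
    intro z hz
    have hz1 : z ∈ Subgroup.centralizer (Q : Set Y) :=
      Subgroup.mem_centralizer_iff.2 (fun q hq => Subgroup.mem_centralizer_iff.1 hz.2 q (hQS hq))
    exact ⟨hCQ hz1, hz1⟩
  let V : Subgroup Y := Subgroup.normalClosure (ZZ (T : Subgroup Y) : Set Y)
  haveI hVn : V.Normal := Subgroup.normalClosure_normal
  have hVZ : V ≤ Z := Subgroup.normalClosure_le_normal hZTZ
  have hZTV : ZZ (T : Subgroup Y) ≤ V := Subgroup.le_normalClosure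
  have hVcomm : ∀ x ∈ V, ∀ y ∈ V, x * y = y * x := fun x hx y hy => hZcomm x (hVZ hx) y (hVZ hy)
  have hVp : IsPGroup 2 V := hZp.to_le hVZ
  -- its involutions
  let V₀ : Subgroup Y :=
    { carrier := {z | z ∈ V ∧ z * z = 1}
      mul_mem' := by
        rintro x y ⟨hx, hx2⟩ ⟨hy, hy2⟩
        refine ⟨V.mul_mem hx hy, ?_⟩
        calc x * y * (x * y) = x * (y * x) * y := by group
          _ = x * (x * y) * y := by rw [hVcomm y hy x hx]
          _ = (x * x) * (y * y) := by group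
          _ = 1 := by rw [hx2, hy2, one_mul]
      one_mem' := ⟨V.one_mem, one_mul 1⟩
      inv_mem' := by
        rintro x ⟨hx, hx2⟩
        refine ⟨V.inv_mem hx, ?_⟩
        rw [← mul_inv_rev, hx2, inv_one] }
  have hV₀mem : ∀ z, z ∈ V₀ ↔ z ∈ V ∧ z * z = 1 := fun z => Iff.rfl
  haveI hV₀n : V₀.Normal := by
    refine ⟨?_⟩
    rintro x ⟨hx, hx2⟩ g
    refine ⟨hVn.conj_mem x hx g, ?_⟩
    calc g * x * g⁻¹ * (g * x * g⁻¹) = g * (x * x) * g⁻¹ := by group
      _ = 1 := by rw [hx2]; group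
  have hV₀e : IsElementaryAbelian 2 V₀ :=
    Cfsg.Agent.Lib.ClassTwoJ.elem_of (fun a ha b hb => hVcomm a ha.1 b hb.1) (fun a ha => ha.2)
  have hV₀S : V₀ ≤ (T : Subgroup Y) := fun x hx => hQS (hVZ hx.1).1
  have hV₀Z : ∀ v ∈ V₀, ∀ q ∈ Q, q * v = v * q := fun v hv q hq => hZc v (hVZ hv.1) q hq
  -- `K`
  let K : Subgroup Y := Subgroup.centralizer (V₀ : Set Y)
  haveI hKn : K.Normal := Subgroup.normal_centralizer
  have hQK : Q ≤ K := by
    intro q hq
    exact Subgroup.mem_centralizer_iff.2 (fun v hv => (hV₀Z v hv q hq).symm)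
  by_cases hKQ : K ≤ Q
  swap
  · -- `Y / K` is a `2`-group
    have hKT : ¬ K ≤ (T : Subgroup Y) := by
      intro h
      apply hKQ
      exact Cfsg.Agent.Lib.FitCore.le_pCore 2 K hKn (T.isPGroup'.to_le h)
    have hsup : (T : Subgroup Y) ⊔ K = ⊤ := by
      apply hca.2
      refine lt_of_le_of_ne le_sup_left ?_
      intro h
      apply hKT
      rw [h]
      exact le_sup_right
    have hYK : ∀ y : Y, ∃ k : ℕ, y ^ 2 ^ k ∈ K := by
      intro y
      have hy : y ∈ (((T : Subgroup Y) ⊔ K : Subgroup Y) : Set Y) := by rw [hsup]; trivial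
      rw [Subgroup.mul_normal] at hy
      obtain ⟨t, ht, k, hk, rfl⟩ := Set.mem_mul.1 hy
      obtain ⟨j, hj⟩ := T.isPGroup' ⟨t, ht⟩
      refine ⟨j, ?_⟩
      have hj' : t ^ 2 ^ j = 1 := by
        have := congrArg Subtype.val hj
        simpa using this
      rw [← QuotientGroup.eq_one_iff, QuotientGroup.mk_pow, QuotientGroup.mk_mul,
        (QuotientGroup.eq_one_iff k).2 hk, mul_one, ← QuotientGroup.mk_pow, hj']
      rfl
    haveI hCVn : (Subgroup.centralizer (V : Set Y)).Normal := Subgroup.normal_centralizer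
    have hCZ : Subgroup.centralizer (V : Set Y) ≤ Subgroup.centralizer (ZZ (T : Subgroup Y) : Set Y) :=
      Subgroup.centralizer_le hZTV
    refine npc_of_normal_pquot (Subgroup.centralizer (V : Set Y)) (fun y => ?_) (npc_le hCZ hT.2)
    obtain ⟨j, hj⟩ := hYK y
    -- the `2`-part of the order of `y`
    obtain ⟨a, m, hm2, hord⟩ : ∃ a m : ℕ, ¬ 2 ∣ m ∧ orderOf y = 2 ^ a * m := by
      have h0 : orderOf y ≠ 0 := (orderOf_pos y).ne'
      obtain ⟨a, m, hm, he⟩ := Nat.exists_eq_pow_mul_and_not_dvd h0 2 (by norm_num)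
      exact ⟨a, m, hm, he⟩
    refine ⟨max j a, ?_⟩
    set x := y ^ 2 ^ max j a with hx
    have hxK : x ∈ K := by
      have h1 : j ≤ max j a := le_max_left _ _
      obtain ⟨c, hc⟩ := Nat.exists_eq_add_of_le h1
      rw [hx, hc, pow_add, pow_mul]
      exact K.pow_mem hj _
    have hxm : x ^ m = 1 := by
      rw [hx, ← pow_mul]
      apply orderOf_dvd_iff_pow_eq_one.1
      rw [hord]
      exact Nat.mul_dvd_mul_right (pow_dvd_pow 2 (le_max_right _ _)) m
    have hxo : (orderOf x).Coprime 2 := by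
      have h1 : orderOf x ∣ m := orderOf_dvd_of_pow_eq_one hxm
      exact Nat.Coprime.coprime_dvd_left h1 ((Nat.Prime.coprime_iff_not_dvd Nat.prime_two).2 hm2).symm
    refine Subgroup.mem_centralizer_iff.2 (fun v hv => ?_)
    have h2 := fix_of_fix_involutions hVn hVp hVcomm hxo
      (fun v hv hv2 => (Subgroup.mem_centralizer_iff.1 hxK v ⟨hv, hv2⟩).symm) v hv
    exact h2.symm
  -- the case `K = Q`
  have hKeq : K = Q := le_antisymm hKQ hQK
  -- the maximal abelian subgroups lie in `Q`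
  suffices hall : ∀ A, IsMaxPr 0 (T : Subgroup Y) A → A ≤ Q by
    have hN : Subgroup.normalizer (JJ 0 (T : Subgroup Y) : Set Y) = ⊤ := by
      rw [eq_top_iff]
      intro g _
      apply JJ_normalizer
      intro A hA
      rintro _ ⟨a, ha, rfl⟩
      exact hQS (hQn.conj_mem a (hall A hA ha) g)
    have h4 := hT.1
    rw [hN] at h4
    exact npc_top_iff.1 h4
  by_contra hcon
  push Not at hcon
  obtain ⟨A₀, hA₀, hA₀Q⟩ := hcon
  have hne : Set.Nonempty {A : Subgroup Y | IsMaxPr 0 (T : Subgroup Y) A ∧ ¬ A ≤ Q} := ⟨A₀, hA₀, hA₀Q⟩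
  obtain ⟨A, ⟨hA, hAQ⟩, hAmax⟩ := Set.exists_max_image _ (fun A : Subgroup Y => Nat.card ↥(A ⊓ V₀))
    (Set.toFinite _) hne
  have hAT : A ≤ (T : Subgroup Y) := hA.1
  have hAc : ∀ a ∈ A, ∀ b ∈ A, a * b = b * a := hA.2.1.1
  -- `V₀` normalizes `A`
  have hVNA : V₀ ≤ Subgroup.normalizer (A : Set Y) := by
    by_contra hn
    have hANV : A ≤ Subgroup.normalizer (V₀ : Set Y) := by
      rw [Subgroup.normalizer_eq_top_iff.2 hV₀n]
      exact le_top
    obtain ⟨A', hA', hlt, hA'n⟩ := replacement_ab T.isPGroup' hA hV₀S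
      (fun a ha b hb => hVcomm a ha.1 b hb.1) hANV hn
    by_cases hA'Q : A' ≤ Q
    · apply hn
      refine le_trans ?_ hA'n
      intro v hv
      exact hA'.mem_of_commute (hV₀S hv) (pow_zero _) (fun a ha => hV₀Z v hv a (hA'Q ha))
    · have h1 := hAmax A' ⟨hA', hA'Q⟩
      have h2 : Nat.card ↥(A ⊓ V₀) < Nat.card ↥(A' ⊓ V₀) := by
        refine lt_of_le_of_ne (Subgroup.card_le_of_le hlt.le) ?_
        intro h3
        exact hlt.ne (Subgroup.eq_of_le_of_card_ge hlt.le h3.ge)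
      exact absurd h2 (not_lt.2 h1)
  -- the action on `V₀`
  haveI hVc : IsMulCommutative V₀ := hV₀e.1
  letI : CommGroup V₀ := { (inferInstance : Group V₀) with mul_comm := fun a b => mul_comm' a b }
  have hVexp : ∀ v : V₀, v * v = 1 := by
    intro v
    apply Subtype.ext
    exact v.2.2
  let φ : Y →* MulAut V₀ := MulAut.conjNormal
  have hφ : ∀ (g : Y) (v : V₀), ((φ g v : V₀) : Y) = g * v * g⁻¹ := fun g v => MulAut.conjNormal_apply g v
  have hφ1 : ∀ g, φ g = 1 ↔ g ∈ Q := by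
    intro g
    rw [← hKeq]
    constructor
    · intro h
      refine Subgroup.mem_centralizer_iff.2 ?_
      intro v hv
      have h1 : φ g ⟨v, hv⟩ = ⟨v, hv⟩ := by rw [h]; rfl
      have h2 := congrArg Subtype.val h1
      rw [hφ] at h2
      rw [mul_inv_eq_iff_eq_mul] at h2
      exact h2.symm
    · intro h
      apply MulEquiv.ext
      intro v
      apply Subtype.ext
      rw [hφ]
      have h1 := Subgroup.mem_centralizer_iff.1 h v.1 v.2
      show g * v.1 * g⁻¹ = v.1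
      rw [← h1]
      group
  -- quadratic action
  have hquad : ∀ a ∈ A, ∀ v ∈ V₀, a * (a * v * a⁻¹) * a⁻¹ = v := by
    intro a ha v hv
    set u := v * a * v⁻¹ * a⁻¹ with hu
    have huA : u ∈ A := by
      have h1 := (Subgroup.mem_normalizer_iff.1 (hVNA hv) a).1 ha
      exact A.mul_mem h1 (A.inv_mem ha)
    have huV : u ∈ V₀ := by
      have h1 : u = v * (a * v⁻¹ * a⁻¹) := by rw [hu]; group
      rw [h1]
      exact V₀.mul_mem hv (hV₀n.conj_mem _ (V₀.inv_mem hv) a)
    have hu2 : u * u = 1 := huV.2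
    have h1 : a * v * a⁻¹ = u⁻¹ * v := by rw [hu]; group
    have h2 : a * (u⁻¹ * v) * a⁻¹ = u⁻¹ * (a * v * a⁻¹) := by
      have h3 : a * u⁻¹ = u⁻¹ * a := by
        have := hAc a ha _ (A.inv_mem huA)
        exact this
      calc a * (u⁻¹ * v) * a⁻¹ = (a * u⁻¹) * v * a⁻¹ := by group
        _ = (u⁻¹ * a) * v * a⁻¹ := by rw [h3]
        _ = _ := by group
    rw [h1, h2, h1]
    have h3 : u⁻¹ = u := by
      rw [inv_eq_iff_mul_eq_one]
      exact hu2
    rw [h3, ← mul_assoc, hu2, one_mul]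
  have hsq : ∀ a ∈ A, φ (a * a) = 1 := by
    intro a ha
    apply MulEquiv.ext
    intro v
    apply Subtype.ext
    rw [hφ]
    show a * a * v.1 * (a * a)⁻¹ = v.1
    have := hquad a ha v.1 v.2
    have e : a * a * v.1 * (a * a)⁻¹ = a * (a * v.1 * a⁻¹) * a⁻¹ := by group
    rw [e]
    exact this
  -- the group induced on `V₀`
  let Γ : Subgroup (MulAut V₀) := φ.range
  have hAΓ : A.map φ ≤ Γ := Subgroup.map_le_range _ _
  let Â : Subgroup Γ := (A.map φ).subgroupOf Γ
  have hcardÂ : Nat.card Â = Nat.card (A.map φ) := Nat.card_congr (Subgroup.subgroupOfEquivOfLe hAΓ).toEquiv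
  have hÂmem : ∀ a ∈ Â, ∃ a₀ ∈ A, φ a₀ = a.1 := by
    intro a ha
    obtain ⟨a₀, ha₀, h⟩ := ha
    exact ⟨a₀, ha₀, h⟩
  have hÂc : ∀ a ∈ Â, ∀ b ∈ Â, a * b = b * a := by
    intro a ha b hb
    obtain ⟨a₀, ha₀, h1⟩ := hÂmem a ha
    obtain ⟨b₀, hb₀, h2⟩ := hÂmem b hb
    apply Subtype.ext
    show a.1 * b.1 = b.1 * a.1
    rw [← h1, ← h2, ← map_mul, ← map_mul, hAc a₀ ha₀ b₀ hb₀]
  have hÂ2 : ∀ a ∈ Â, a * a = 1 := by
    intro a ha
    obtain ⟨a₀, ha₀, h1⟩ := hÂmem a ha
    apply Subtype.ext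
    show a.1 * a.1 = 1
    rw [← h1, ← map_mul, hsq a₀ ha₀]
  -- the normal complement modulo `Q`
  obtain ⟨Nb, hNb, hNbp, hNbpow⟩ := npc_iff.1 hq
  haveI := hNb
  let π : Y →* Y ⧸ Q := QuotientGroup.mk' Q
  have hπ1 : ∀ x, π x = 1 ↔ x ∈ Q := fun x => QuotientGroup.eq_one_iff x
  let D : Subgroup Y := Nb.comap π
  haveI hDn : D.Normal := hNb.comap π
  have hDm : ∀ r ∈ D, r ^ Nat.card Nb ∈ Q := by
    intro r hr
    rw [← hπ1, map_pow]
    have := pow_card_eq_one' (x := (⟨π r, hr⟩ : Nb))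
    exact congrArg Subtype.val this
  have hYD : ∀ y : Y, ∃ k : ℕ, y ^ 2 ^ k ∈ D := by
    intro y
    obtain ⟨k, hk⟩ := hNbpow (π y)
    refine ⟨k, ?_⟩
    show π (y ^ 2 ^ k) ∈ Nb
    rw [map_pow]
    exact hk
  let R : Subgroup Γ := (D.map φ).subgroupOf Γ
  have hRmem : ∀ r ∈ R, ∃ r₀ ∈ D, φ r₀ = r.1 := by
    intro r hr
    obtain ⟨r₀, hr₀, h⟩ := hr
    exact ⟨r₀, hr₀, h⟩
  have hRodd : Odd (Nat.card R) := by
    rw [Nat.odd_iff, ← Nat.two_dvd_ne_zero]
    intro hdvd
    obtain ⟨r, hr⟩ := exists_prime_orderOf_dvd_card' 2 hdvd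
    obtain ⟨r₀, hr₀, h2⟩ := hRmem r.1 r.2
    have h3 : r ^ Nat.card Nb = 1 := by
      apply Subtype.ext
      apply Subtype.ext
      show (r.1.1) ^ Nat.card Nb = 1
      rw [← h2, ← map_pow]
      exact (hφ1 _).2 (hDm r₀ hr₀)
    have h4 := orderOf_dvd_of_pow_eq_one h3
    rw [hr] at h4
    exact hNbp h4
  have hAR : ∀ a ∈ Â, ∀ r ∈ R, a * r * a⁻¹ ∈ R := by
    intro a ha r hr
    obtain ⟨a₀, ha₀, h1⟩ := hÂmem a ha
    obtain ⟨r₀, hr₀, h2⟩ := hRmem r hr
    refine ⟨a₀ * r₀ * a₀⁻¹, hDn.conj_mem r₀ hr₀ a₀, ?_⟩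
    show φ (a₀ * r₀ * a₀⁻¹) = a.1 * r.1 * a.1⁻¹
    rw [map_mul, map_mul, map_inv, h1, h2]
  have hDT : ¬ D ≤ (T : Subgroup Y) := by
    intro hD
    have hYp : IsPGroup 2 (⊤ : Subgroup Y) := by
      rintro ⟨y, _⟩
      obtain ⟨k, hk⟩ := hYD y
      obtain ⟨j, hj⟩ := T.isPGroup' ⟨_, hD hk⟩
      refine ⟨k + j, Subtype.ext ?_⟩
      have hj' : (y ^ 2 ^ k) ^ 2 ^ j = 1 := by
        have := congrArg Subtype.val hj
        simpa using this
      show y ^ 2 ^ (k + j) = 1
      rw [pow_add, pow_mul, hj']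
    exact hca.1 (T.is_maximal' hYp le_top).symm
  have hfa : ∀ a ∈ Â, (∀ r ∈ R, a * r = r * a) → a = 1 := by
    intro a ha hc
    obtain ⟨a₀, ha₀, h1⟩ := hÂmem a ha
    let S₁ : Subgroup Y := secK D Q hQn
    haveI hS₁n : S₁.Normal := secK_normal hDn hQn
    let W : Subgroup Y := (T : Subgroup Y) ⊓ S₁
    have hTW : (T : Subgroup Y) ≤ Subgroup.normalizer (W : Set Y) := by
      intro t ht
      apply Cfsg.Agent.Lib.S4Sec.mem_normalizer_of_forall
      rintro x ⟨hxT, hxS⟩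
      exact ⟨T.mul_mem (T.mul_mem ht hxT) (T.inv_mem ht), hS₁n.conj_mem x hxS t⟩
    have hDW : D ≤ Subgroup.normalizer (W : Set Y) := by
      intro r hr
      apply Cfsg.Agent.Lib.S4Sec.mem_normalizer_of_forall
      rintro x ⟨hxT, hxS⟩
      refine ⟨?_, hS₁n.conj_mem x hxS r⟩
      have h2 : ⁅x, r⁆ ∈ Q := hxS r hr
      have e : r * x * r⁻¹ = (⁅x, r⁆)⁻¹ * x := by
        rw [commutatorElement_def]; group
      rw [e]
      exact T.mul_mem (T.inv_mem (hQS h2)) hxT
    have hNW : Subgroup.normalizer (W : Set Y) = ⊤ := by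
      apply hca.2
      refine lt_of_le_of_ne hTW ?_
      intro h
      apply hDT
      rw [h]
      exact hDW
    have hWn : W.Normal := Subgroup.normalizer_eq_top_iff.1 hNW
    have hWQ : W ≤ Q := Cfsg.Agent.Lib.FitCore.le_pCore 2 W hWn (T.isPGroup'.to_le inf_le_left)
    have ha₀W : a₀ ∈ W := by
      refine ⟨hAT ha₀, fun r hr => ?_⟩
      apply (hφ1 _).1
      have h2 := hc ⟨φ r, ⟨r, rfl⟩⟩ ⟨r, hr, rfl⟩
      have h3 : φ a₀ * φ r = φ r * φ a₀ := by
        rw [h1]
        exact congrArg Subtype.val h2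
      rw [commutatorElement_def, map_mul, map_mul, map_mul, map_inv, map_inv, h3]
      group
    apply Subtype.ext
    rw [← h1]
    exact (hφ1 _).2 (hWQ ha₀W)
  rcases Cfsg.Agent.Lib.Offender.offender hVexp Γ.subtype Γ.subtype_injective R hRodd _ Â rfl hÂc hÂ2
      hAR hfa with h | h
  · -- a section `Sym(4)`
    exfalso
    apply hS4
    obtain ⟨a, ha, d, hd, had, hd1, hd3⟩ := h
    obtain ⟨a₀, ha₀, hφa⟩ := hÂmem a ha
    obtain ⟨d₀, hd₀, hφd⟩ := hRmem d hd
    set D' : MulAut V₀ := d.1 with hD'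
    set A₁ : MulAut V₀ := a.1 with hA₁
    have hD3 : D' ^ 3 = 1 := by
      have := congrArg Subtype.val hd3
      simpa using this
    have hD1 : D' ≠ 1 := fun h => hd1 (Subtype.ext h)
    have hAD : A₁ * D' * A₁⁻¹ = D'⁻¹ := by
      have := congrArg Subtype.val had
      simpa using this
    have hd3Q : d₀ ^ 3 ∈ Q := (hφ1 _).1 (by rw [map_pow, hφd, hD3])
    obtain ⟨m, hm⟩ := (IsPGroup.iff_orderOf.1 hQp) ⟨d₀ ^ 3, hd3Q⟩
    rw [Subgroup.orderOf_mk] at hm
    set d₁ := d₀ ^ (2 ^ m) with hd₁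
    have hd₁3 : d₁ ^ 3 = 1 := by
      rw [hd₁, pow_right_comm, ← hm, pow_orderOf_eq_one]
    have hφd₁ : φ d₁ = D' ^ (2 ^ m) := by rw [hd₁, map_pow, hφd]
    have hDord : orderOf D' = 3 := orderOf_eq_prime hD3 hD1
    have hDm : D' ^ (2 ^ m) ≠ 1 := by
      intro h
      have h1 : orderOf D' ∣ 2 ^ m := orderOf_dvd_of_pow_eq_one h
      rw [hDord] at h1
      have h2 := Nat.Prime.dvd_of_dvd_pow Nat.prime_three h1
      omega
    have hcomb : a₀ * d₁ * a₀⁻¹ * d₁ ∈ Q := by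
      apply (hφ1 _).1
      rw [map_mul, map_mul, map_mul, map_inv, hφa, hφd₁]
      rw [← conj_pow, hAD, inv_pow, inv_mul_cancel]
    have ha₀2 : a₀ ^ 2 ∈ Q := by
      rw [pow_two]
      exact (hφ1 _).1 (hsq a₀ ha₀)
    have hmove : ∃ q ∈ Q, d₁ * q * d₁⁻¹ ≠ q := by
      by_contra hcon
      push Not at hcon
      have h1 : d₁ ∈ Subgroup.centralizer (Q : Set Y) := by
        refine Subgroup.mem_centralizer_iff.2 ?_
        intro q hq
        have h2 := hcon q hq
        rw [mul_inv_eq_iff_eq_mul] at h2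
        exact h2.symm
      have h3 : d₁ ∈ Q := hCQ h1
      have h4 : orderOf d₁ ∣ 3 := orderOf_dvd_of_pow_eq_one hd₁3
      have h5 : (orderOf d₁).Coprime 2 := by
        apply Nat.Coprime.coprime_dvd_left h4
        norm_num
      have h6 := Cfsg.Agent.Lib.CoprimeAct.eq_one_of_mem_pgroup_of_coprime hQp h3 h5
      apply hDm
      rw [← hφd₁, h6, map_one]
    exact Cfsg.Agent.Lib.S4Sec.s4_of_pair Q hQp a₀ d₁ hd₁3 hcomb ha₀2 hmove
  · -- counting
    have hineq := thompson_ineq_A (T : Subgroup Y) A V₀ hAT hV₀S hAc (fun a ha b hb => hVcomm a ha.1 b hb.1)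
      (fun B hB hBc => hA.2.2 B hB ⟨hBc, fun _ _ => pow_zero _⟩)
    set a₁ := Nat.card (A ⊓ Subgroup.centralizer (V₀ : Set Y) : Subgroup Y) with ha₁
    set f := Nat.card (V₀ ⊓ Subgroup.centralizer (A : Set Y) : Subgroup Y) with hf
    set m := Nat.card (A.map φ) with hm
    have ha₁pos : 0 < a₁ := Nat.card_pos
    have hfpos : 0 < f := Nat.card_pos
    have hmpos : 0 < m := Nat.card_pos
    have hAcard : Nat.card A = a₁ * m := by
      have h1 := Cfsg.Agent.Lib.Offender.card_eq_mul_relIndex (inf_le_left : A ⊓ Subgroup.centralizer (V₀ : Set Y) ≤ A)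
      have h2 : (A ⊓ Subgroup.centralizer (V₀ : Set Y)).relIndex A = m := by
        have h3 : A ⊓ Subgroup.centralizer (V₀ : Set Y) = φ.ker ⊓ A := by
          ext x
          constructor
          · rintro ⟨h4, h5⟩
            refine ⟨(hφ1 x).2 ?_, h4⟩
            rw [← hKeq]
            exact h5
          · rintro ⟨h4, h5⟩
            refine ⟨h5, ?_⟩
            have h6 := (hφ1 x).1 h4
            rw [← hKeq] at h6
            exact h6
        rw [h3, Subgroup.inf_relIndex_right, Subgroup.relIndex_ker]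
      rw [h2] at h1
      exact h1
    have hfix : f ≤ Nat.card (Cfsg.Agent.Lib.Offender.fixA Γ.subtype Â) := by
      let g : (V₀ ⊓ Subgroup.centralizer (A : Set Y) : Subgroup Y) → Cfsg.Agent.Lib.Offender.fixA Γ.subtype Â :=
        fun v => ⟨⟨v.1, v.2.1⟩, by
          intro b hb
          obtain ⟨a₀, ha₀, h1⟩ := hÂmem b hb
          show b.1 ⟨v.1, v.2.1⟩ = ⟨v.1, v.2.1⟩
          rw [← h1]
          apply Subtype.ext
          rw [hφ]
          have h2 := Subgroup.mem_centralizer_iff.1 v.2.2 a₀ ha₀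
          show a₀ * v.1 * a₀⁻¹ = v.1
          rw [h2]
          group⟩
      apply Nat.card_le_card_of_injective g
      intro x y hxy
      have := congrArg (fun z => ((z : V₀) : Y)) (congrArg Subtype.val hxy)
      exact Subtype.ext this
    rw [hcardÂ] at h
    have h1 : m ^ 2 * f ≤ Nat.card V₀ := (Nat.mul_le_mul_left _ hfix).trans h
    have h2 : Nat.card V₀ ≤ m * f := by
      rw [hAcard] at hineq
      have h3 : a₁ * Nat.card V₀ ≤ a₁ * (m * f) := by nlinarith
      exact Nat.le_of_mul_le_mul_left h3 ha₁pos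
    have h3 : m = 1 := by
      have h4 : m * (m * f) ≤ 1 * (m * f) := by nlinarith
      have h5 : m ≤ 1 := Nat.le_of_mul_le_mul_right h4 (Nat.mul_pos hmpos hfpos)
      omega
    apply hAQ
    intro a ha
    have h4 : A.map φ = ⊥ := Subgroup.card_eq_one.1 h3
    have h5 : φ a ∈ A.map φ := ⟨a, ha, rfl⟩
    rw [h4, Subgroup.mem_bot] at h5
    exact (hφ1 a).1 h5

end s4

section final

variable {p : ℕ} [hp : Fact p.Prime]

/-- The inductive step. -/
theorem npc_stepA {Y : Type u} [Group Y] [Finite Y] (hcase : p ≠ 2 ∨ ¬ Cfsg.Involves (Equiv.Perm (Fin 4)) Y)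
    (T : Sylow p Y) (hT : HyA p (T : Subgroup Y))
    (IHsub : ∀ H : Subgroup Y, H ≠ ⊤ → ∀ E : Subgroup Y, E ≤ H → IsSylowIn p E H → HyA p E →
      HasNormalPComplement p H)
    (IHquot : ∀ (N : Subgroup Y) [N.Normal], N ≠ ⊥ → ∀ T' : Sylow p (Y ⧸ N),
      HyA p (T' : Subgroup (Y ⧸ N)) → HasNormalPComplement p (Y ⧸ N)) :
    HasNormalPComplement p Y := by
  by_contra hnot
  have hIH : ∀ H : Subgroup Y, H ≠ ⊤ → (T : Subgroup Y) ≤ H → HasNormalPComplement p H := fun H hH hTH =>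
    IHsub H hH T hTH (SylowIn.IsSylowIn.mono (Cfsg.Agent.Lib.WeakCl.isSylowIn_top T) hTH le_top) hT
  have hQ := step_coreA T hT IHsub hnot
  have hL := step_coprimeA T hT IHquot hnot
  have hq := step_quotA T hT hIH IHquot hQ hnot
  have hc := step_constrained' T hIH hL hq hnot
  have hca := step_coatom' T hIH hc hnot
  by_cases hp2 : p = 2
  · subst hp2
    rcases hcase with h | hS4
    · exact h rfl
    · exact hnot (final_s4 hS4 T hT hc hq hca)
  · have hst := stable_of_hasP hp2 (hasP_of_coatom hq T hca)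
    exact hnot (final_facA hp2 T hT hc (fun B hBn hB => stabOn_of_normalizerStable hst hBn hB) hca)

/-- Thompson's normal `p`-complement theorem. -/
theorem npc_thompsonA (n : ℕ) :
    ∀ (X : Type u) [Group X] [Finite X], Nat.card X = n →
      (p ≠ 2 ∨ ¬ Cfsg.Involves (Equiv.Perm (Fin 4)) X) → ∀ T : Sylow p X,
      HyA p (T : Subgroup X) → HasNormalPComplement p X := by
  induction n using Nat.strong_induction_on with
  | _ n IH =>
    intro X _ _ hn hcase T hT
    refine npc_stepA hcase T hT ?_ ?_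
    · intro H hH E hEH hE hN
      have hlt : Nat.card H < n := by
        rw [← hn]
        refine lt_of_le_of_ne (Subgroup.card_le_card_group H) ?_
        intro hc
        exact hH (Subgroup.eq_top_of_card_eq H hc)
      have hcase' : p ≠ 2 ∨ ¬ Cfsg.Involves (Equiv.Perm (Fin 4)) H := by
        rcases hcase with h | h
        · exact Or.inl h
        · refine Or.inr fun h2 => h ?_
          exact Cfsg.Agent.Lib.QdSection.involves_iff.2
            (Cfsg.Agent.Lib.QdSection.involves_iff.1 h2).of_le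
      exact sub_hyA H (fun T' hT' => IH _ hlt H rfl hcase' T' hT') hE hEH hN
    · intro N _ hN T' hT'
      have hlt : Nat.card (X ⧸ N) < n := by
        rw [← hn, Subgroup.card_eq_card_quotient_mul_card_subgroup N]
        have h1 : 1 < Nat.card N := by
          rw [Finite.one_lt_card_iff_nontrivial]
          exact (Subgroup.nontrivial_iff_ne_bot N).2 hN
        have h2 : 0 < Nat.card (X ⧸ N) := Nat.card_pos
        nlinarith
      have hcase' : p ≠ 2 ∨ ¬ Cfsg.Involves (Equiv.Perm (Fin 4)) (X ⧸ N) := by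
        rcases hcase with h | h
        · exact Or.inl h
        · refine Or.inr fun h2 => h ?_
          exact Cfsg.Agent.Lib.QdSection.involves_iff.2
            (Cfsg.Agent.Lib.QdSection.involves_iff.1 h2).of_quot
      exact IH _ hlt (X ⧸ N) rfl hcase' T' hT'

end final

end Cfsg.Agent.Lib.ThompsonA
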