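import Mathlib
import Cfsg.Agent.Lib.Dickson
import Cfsg.Agent.Lib.OrthChain
import Cfsg.Agent.Lib.OrthMinus
import Cfsg.Agent.Lib.QuadPlus
import Cfsg.Prelude.Def_SporadicB

/-! Orthogonal transvections over the field of two elements form a class of 3-transpositions. -/

set_option autoImplicit false
set_option linter.all false

namespace Cfsg.Agent.Lib.ThreeTrO

open scoped MatrixGroups Matrix
open Cfsg Cfsg.Geo Cfsg.Agent.Lib.Transvection Cfsg.Agent.Lib.QuadBase
open Cfsg.Agent.Lib.QuadSiegel Cfsg.Agent.Lib.QuadRefl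
open QuadraticMap (polar)

variable {ι : Type} [Fintype ι] [DecidableEq ι] {Q : (ι → ZMod 2) → ZMod 2}
  (hQ : IsNondegenerateQuadraticForm Q)

abbrev OO (Q : (ι → ZMod 2) → ZMod 2) := ↥(isometryGroup (ZMod 2) Q)

abbrev mat (g : OO Q) : Matrix ι ι (ZMod 2) := ((g : GL ι (ZMod 2)) : Matrix ι ι (ZMod 2))

theorem two_eq (a : ZMod 2) : a + a = 0 := by
  revert a
  decide

theorem neg_eq' (a : ZMod 2) : -a = a := by
  revert a
  decide

theorem one_of_ne (a : ZMod 2) (h : a ≠ 0) : a = 1 := by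
  revert a
  decide

theorem sub_eq' (a b : ZMod 2) : a - b = a + b := by
  revert a b
  decide

/-- The transvection as an element of the group. -/
noncomputable def T (v : ι → ZMod 2) : OO Q := ⟨rf hQ v, mem_isometryGroup_iff.2 (rf_isom hQ v)⟩

include hQ in
theorem pol_self0 (v : ι → ZMod 2) : polar Q v v = 0 := by
  rw [pol_self hQ]
  have : (2 : ZMod 2) = 0 := by decide
  rw [this, zero_mul]

theorem T_mv {v : ι → ZMod 2} (hv : Q v = 1) (x : ι → ZMod 2) :
    mat (T hQ v) *ᵥ x = x + polar Q x v • v := by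
  have h : Q v ≠ 0 := by
    rw [hv]
    exact one_ne_zero
  show ((rf hQ v : GL ι (ZMod 2)) : Matrix ι ι (ZMod 2)) *ᵥ x = _
  rw [rf_mulVec hQ h, hv, div_one]
  ext i
  simp only [Pi.sub_apply, Pi.add_apply, Pi.smul_apply, smul_eq_mul]
  rw [sub_eq']

theorem oo_ext {a b : OO Q} (h : ∀ x : ι → ZMod 2, mat a *ᵥ x = mat b *ᵥ x) : a = b := by
  apply Subtype.ext
  exact gl_ext_mulVec h

theorem mul_mv (a b : OO Q) (x : ι → ZMod 2) : mat (a * b) *ᵥ x = mat a *ᵥ (mat b *ᵥ x) := by
  rw [Matrix.mulVec_mulVec]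
  rfl

theorem one_mv (x : ι → ZMod 2) : mat (1 : OO Q) *ᵥ x = x := Matrix.one_mulVec x

theorem pres (g : OO Q) (x : ι → ZMod 2) : Q (mat g *ᵥ x) = Q x := mem_isometryGroup_iff.1 g.2 x

theorem pres_pol (g : OO Q) (x y : ι → ZMod 2) : polar Q (mat g *ᵥ x) (mat g *ᵥ y) = polar Q x y :=
  QIsom.pol (mem_isometryGroup_iff.1 g.2) x y

theorem T_sq (v : ι → ZMod 2) : T hQ v * T hQ v = 1 := Subtype.ext (rf_mul_self hQ v)

theorem T_inv (v : ι → ZMod 2) : (T hQ v)⁻¹ = T hQ v := inv_eq_of_mul_eq_one_left (T_sq hQ v)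

theorem conj_T (g : OO Q) (v : ι → ZMod 2) : g * T hQ v * g⁻¹ = T hQ (mat g *ᵥ v) :=
  Subtype.ext (conj_rf hQ (mem_isometryGroup_iff.1 g.2) v)

include hQ in
theorem exists_pol {v : ι → ZMod 2} (hv : v ≠ 0) : ∃ y, polar Q y v = 1 := by
  obtain ⟨y, hy⟩ := (hQ.nondegenerate v hv).1
  exact ⟨y, one_of_ne _ hy⟩

include hQ in
theorem Q_zero : Q 0 = 0 := by
  have := hQ.smul 0 0
  simpa using this

include hQ in
theorem ne_zero_of_Q {v : ι → ZMod 2} (hv : Q v = 1) : v ≠ 0 := by
  rintro rfl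
  rw [Q_zero hQ] at hv
  exact zero_ne_one hv

theorem T_ne_one {v : ι → ZMod 2} (hv : Q v = 1) : T hQ v ≠ 1 := by
  intro h
  obtain ⟨x, hx⟩ := exists_pol hQ (ne_zero_of_Q hQ hv)
  have h1 := T_mv hQ hv x
  rw [h, one_mv, hx, one_smul] at h1
  have h2 : v = 0 := by
    have := congrArg (fun z => z - x) h1
    simpa using this.symm
  exact ne_zero_of_Q hQ hv h2

theorem orderOf_T {v : ι → ZMod 2} (hv : Q v = 1) : orderOf (T hQ v) = 2 := by
  apply orderOf_eq_prime
  · rw [pow_two, T_sq]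
  · exact T_ne_one hQ hv

theorem rank_T {v : ι → ZMod 2} (hv : Q v = 1) : (mat (T hQ v) - 1 : Matrix ι ι (ZMod 2)).rank = 1 := by
  classical
  have hv0 := ne_zero_of_Q hQ hv
  have h1 : LinearMap.range ((mat (T hQ v) - 1 : Matrix ι ι (ZMod 2)).mulVecLin) =
      Submodule.span (ZMod 2) {v} := by
    apply le_antisymm
    · rintro _ ⟨x, rfl⟩
      have : (mat (T hQ v) - 1 : Matrix ι ι (ZMod 2)).mulVecLin x = polar Q x v • v := by
        simp [Matrix.sub_mulVec, T_mv hQ hv]
      rw [this]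
      exact Submodule.smul_mem _ _ (Submodule.mem_span_singleton_self v)
    · rw [Submodule.span_singleton_le_iff_mem]
      obtain ⟨y, hy⟩ := exists_pol hQ hv0
      refine ⟨y, ?_⟩
      simp [Matrix.sub_mulVec, T_mv hQ hv, hy]
  show Module.finrank _ _ = 1
  rw [h1]
  exact finrank_span_singleton hv0

/-- A rank one element is a transvection. -/
theorem eq_T_of_rank (g : OO Q) (h : (mat g - 1 : Matrix ι ι (ZMod 2)).rank = 1) :
    ∃ v : ι → ZMod 2, Q v = 1 ∧ g = T hQ v := by
  classical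
  have h1 : Module.finrank (ZMod 2) (LinearMap.range ((mat g - 1 : Matrix ι ι (ZMod 2)).mulVecLin)) = 1 := h
  obtain ⟨u, hu0, hu⟩ := finrank_eq_one_iff'.1 h1
  obtain ⟨u, hur⟩ := u
  have hu0' : u ≠ 0 := fun e => hu0 (Subtype.ext e)
  have hlam : ∀ x : ι → ZMod 2, ∃ c : ZMod 2, mat g *ᵥ x = x + c • u := by
    intro x
    obtain ⟨c, hc⟩ := hu ⟨_, LinearMap.mem_range_self _ x⟩
    refine ⟨c, ?_⟩
    have h2 := congrArg Subtype.val hc
    simp only [SetLike.val_smul] at h2
    have h3 : (mat g - 1 : Matrix ι ι (ZMod 2)).mulVecLin x = mat g *ᵥ x - x := by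
      simp [Matrix.sub_mulVec]
    rw [h3] at h2
    rw [h2]
    abel
  choose lam hl using hlam
  have hrel : ∀ x y, lam y * polar Q x u = lam x * polar Q y u := by
    intro x y
    have h2 := pres_pol g x y
    rw [hl x, hl y, pol_add_left hQ, pol_add_right hQ, pol_add_right hQ, pol_smul_left hQ, pol_smul_left hQ,
      pol_smul_right hQ, pol_smul_right hQ, pol_self0 hQ u, QuadraticMap.polar_comm Q u y] at h2
    simp only [smul_eq_mul, RingHom.id_apply, mul_zero, add_zero] at h2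
    have h3 : lam y * polar Q x u + lam x * polar Q y u = 0 := by
      linear_combination h2
    have h5 := two_eq (lam x * polar Q y u)
    linear_combination h3 - h5
  obtain ⟨x₀, hx₀⟩ := exists_pol hQ hu0'
  have hy : ∀ y, lam y = lam x₀ * polar Q y u := by
    intro y
    have := hrel x₀ y
    rwa [hx₀, mul_one] at this
  have hne : lam x₀ ≠ 0 := by
    intro h0
    have hg : ∀ x, mat g *ᵥ x = x := by
      intro x
      rw [hl x, hy x, h0, zero_mul, zero_smul, add_zero]
    have : (mat g - 1 : Matrix ι ι (ZMod 2)) = 0 := by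
      apply Matrix.ext_of_mulVec_single
      intro j
      rw [Matrix.sub_mulVec, hg, Matrix.one_mulVec, sub_self, Matrix.zero_mulVec]
    rw [this, Matrix.rank_zero] at h
    omega
  have hx₀2 : lam x₀ = 1 := one_of_ne _ hne
  have hQu : Q u = 1 := by
    have h2 := pres g x₀
    rw [hl x₀, hx₀2, one_smul] at h2
    have h3 : polar Q x₀ u = Q (x₀ + u) - Q x₀ - Q u := rfl
    rw [hx₀, h2] at h3
    have h4 : Q u = -1 := by linear_combination h3
    rw [h4]
    rfl
  refine ⟨u, hQu, ?_⟩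
  apply oo_ext
  intro x
  rw [hl x, T_mv hQ hQu, hy x, hx₀2, one_mul]

include hQ in
theorem main [Nonempty ι] (h4 : Fintype.card ι ≠ 4) :
    IsThreeTranspositionClass {g : OO Q | (mat g - 1 : Matrix ι ι (ZMod 2)).rank = 1} := by
  classical
  have hh' : (QuadraticMap.polarBilin (OrthChain.toQF hQ)).Nondegenerate := by
    constructor
    · intro x hx
      by_contra hne
      obtain ⟨y, hy⟩ := (hQ.nondegenerate x hne).2
      exact hy (hx y)
    · intro x hx
      by_contra hne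
      obtain ⟨y, hy⟩ := (hQ.nondegenerate x hne).1
      exact hy (hx y)
  obtain ⟨v₀, hv₀⟩ : ∃ v : ι → ZMod 2, Q v = 1 := by
    by_contra hcon
    push Not at hcon
    have hall : ∀ v, Q v = 0 := by
      intro v
      by_contra hne
      exact hcon v (one_of_ne _ hne)
    obtain ⟨i⟩ := ‹Nonempty ι›
    have hne : (Pi.single i 1 : ι → ZMod 2) ≠ 0 := by
      intro h
      have := congrFun h i
      simp at this
    obtain ⟨y, hy⟩ := exists_pol hQ hne
    have : polar Q y (Pi.single i 1) = 0 := by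
      simp [polar, hall]
    rw [this] at hy
    exact zero_ne_one hy
  refine ⟨⟨?_, ?_⟩, ⟨T hQ v₀, rank_T hQ hv₀, ?_⟩, ?_⟩
  · intro d hd
    obtain ⟨v, hv, rfl⟩ := eq_T_of_rank hQ d hd
    exact orderOf_T hQ hv
  · intro d hd e he
    obtain ⟨u, hu, rfl⟩ := eq_T_of_rank hQ d hd
    obtain ⟨v, hv, rfl⟩ := eq_T_of_rank hQ e he
    by_cases h0 : polar Q u v = 0
    · left
      have hc : T hQ u * T hQ v = T hQ v * T hQ u := by
        have h1 : T hQ u * T hQ v * (T hQ u)⁻¹ = T hQ v := by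
          rw [conj_T, T_mv hQ hu, QuadraticMap.polar_comm, h0, zero_smul, add_zero]
        exact mul_inv_eq_iff_eq_mul.1 h1
      rw [pow_two]
      calc T hQ u * T hQ v * (T hQ u * T hQ v) = T hQ u * (T hQ v * T hQ u) * T hQ v := by group
        _ = T hQ u * (T hQ u * T hQ v) * T hQ v := by rw [hc]
        _ = (T hQ u * T hQ u) * (T hQ v * T hQ v) := by group
        _ = 1 := by rw [T_sq, T_sq, one_mul]
    · right
      have h1 : polar Q u v = 1 := one_of_ne _ h0
      have h2 : polar Q v u = 1 := by rw [QuadraticMap.polar_comm]; exact h1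
      have e1 : T hQ u * T hQ v * T hQ u = T hQ (v + u) := by
        have := conj_T hQ (T hQ u) v
        rw [T_inv, T_mv hQ hu, h2, one_smul] at this
        exact this
      have e2 : T hQ v * T hQ u * T hQ v = T hQ (u + v) := by
        have := conj_T hQ (T hQ v) u
        rw [T_inv, T_mv hQ hv, h1, one_smul] at this
        exact this
      have e3 : (T hQ u * T hQ v) ^ 3 = (T hQ u * T hQ v * T hQ u) * (T hQ v * T hQ u * T hQ v) := by
        simp only [pow_succ, pow_zero, one_mul, mul_assoc]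
      rw [e3, e1, e2, add_comm, T_sq]
  · ext g
    constructor
    · intro hg
      obtain ⟨v, hv, rfl⟩ := eq_T_of_rank hQ g hg
      obtain ⟨a, ha, hav⟩ := Cfsg.Agent.Lib.Dickson.witt_move (OrthChain.toQF hQ) hh'
        (ne_zero_of_Q hQ hv₀) (ne_zero_of_Q hQ hv) (hv₀.trans hv.symm)
      have ha' : a ∈ isometryGroup (ZMod 2) Q := mem_isometryGroup_iff.2 ha
      exact (isConj_iff.2 ⟨⟨a, ha'⟩, by rw [conj_T]; congr 1⟩ : IsConj (T hQ v₀) (T hQ v))
    · intro hg
      obtain ⟨a, rfl⟩ := isConj_iff.1 (hg : IsConj (T hQ v₀) g)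
      rw [conj_T]
      exact rank_T hQ ((pres a v₀).trans hv₀)
  · rw [eq_top_iff]
    rintro g -
    have h1 : (g : GL ι (ZMod 2)) ∈ rfG hQ :=
      isom_mem_rfG hQ (Or.inr h4) (mem_isometryGroup_iff.1 g.2)
    have h2 : rfG hQ ≤ (Subgroup.closure {g : OO Q | (mat g - 1 : Matrix ι ι (ZMod 2)).rank = 1}).map
        (isometryGroup (ZMod 2) Q).subtype := by
      rw [rfG, Subgroup.closure_le]
      rintro _ ⟨a, ha, rfl⟩
      have ha1 : Q a = 1 := one_of_ne _ ha
      exact ⟨T hQ a, Subgroup.subset_closure (rank_T hQ ha1), rfl⟩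
    obtain ⟨h, hh, he⟩ := h2 h1
    rwa [← Subtype.ext he]

end Cfsg.Agent.Lib.ThreeTrO
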