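import Mathlib
import Cfsg.Agent.Lib.ClassGeom
import Cfsg.Prelude.Def_SporadicB

/-! Symplectic transvections over the field of two elements form a class of 3-transpositions. -/

set_option autoImplicit false
set_option linter.all false

namespace Cfsg.Agent.Lib.ThreeTrSp

open scoped MatrixGroups Matrix
open Cfsg Cfsg.Geo Cfsg.Agent.Lib.Transvection Cfsg.Agent.Lib.SymplecticTv Cfsg.Agent.Lib.ClassGeom

variable {n : ℕ}

abbrev Vec (n : ℕ) := Fin n ⊕ Fin n → ZMod 2
abbrev Sp2 (n : ℕ) := Matrix.symplecticGroup (Fin n) (ZMod 2)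

local notation "ff" => sympForm n (ZMod 2)

theorem two_eq (a : ZMod 2) : a + a = 0 := by
  revert a
  decide

theorem neg_eq' (a : ZMod 2) : -a = a := by
  revert a
  decide

theorem smul_self_add (a : ZMod 2) (v : Vec n) : a • v + a • v = 0 := by
  ext i
  simp only [Pi.add_apply, Pi.smul_apply, smul_eq_mul, Pi.zero_apply]
  exact two_eq _

theorem symm_f (x y : Vec n) : ff x y = ff y x := by
  have := (hf n (ZMod 2)).skew x y
  rw [this, neg_eq']

/-- The transvection as an element of the group. -/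
def T (v : Vec n) : Sp2 n := ⟨sympTransvection n v 1, sympTransvection_mem v 1⟩

theorem T_mv (v x : Vec n) : (T v).1 *ᵥ x = x + ff x v • v := by
  show sympTransvection n v 1 *ᵥ x = _
  rw [sympTransvection_mulVec, one_mul]

theorem sp_ext {a b : Sp2 n} (h : ∀ x : Vec n, a.1 *ᵥ x = b.1 *ᵥ x) : a = b := by
  apply Subtype.ext
  apply Matrix.ext_of_mulVec_single
  intro j
  exact h _

theorem mul_mv (a b : Sp2 n) (x : Vec n) : (a * b).1 *ᵥ x = a.1 *ᵥ (b.1 *ᵥ x) := by
  rw [Matrix.mulVec_mulVec]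
  rfl

theorem one_mv (x : Vec n) : (1 : Sp2 n).1 *ᵥ x = x := Matrix.one_mulVec x

theorem pres (g : Sp2 n) (x y : Vec n) : ff (g.1 *ᵥ x) (g.1 *ᵥ y) = ff x y :=
  (mem_sp_iff_pres _).1 g.2 x y

theorem T_sq (v : Vec n) : T v * T v = 1 := by
  apply sp_ext
  intro x
  rw [mul_mv, one_mv, T_mv, T_mv, f_add_smul_left (hf n _), (hf n _).alternating v, mul_zero, add_zero,
    add_assoc, smul_self_add, add_zero]

theorem T_inv (v : Vec n) : (T v)⁻¹ = T v := inv_eq_of_mul_eq_one_left (T_sq v)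

theorem T_zero : T (0 : Vec n) = 1 := by
  apply sp_ext
  intro x
  rw [T_mv, one_mv]
  simp

theorem T_ne_one {v : Vec n} (hv : v ≠ 0) : T v ≠ 1 := by
  intro h
  obtain ⟨x, hx⟩ : ∃ x, ff x v ≠ 0 := by
    obtain ⟨y, hy⟩ := exists_ne_right (hf n (ZMod 2)) hv
    exact ⟨y, by rwa [symm_f]⟩
  have h1 := T_mv v x
  rw [h, one_mv] at h1
  have h2 : ff x v • v = 0 := by
    have := congrArg (fun z => z - x) h1
    simpa using this.symm
  rcases smul_eq_zero.1 h2 with h3 | h3
  · exact hx h3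
  · exact hv h3

theorem orderOf_T {v : Vec n} (hv : v ≠ 0) : orderOf (T v) = 2 := by
  apply orderOf_eq_prime
  · rw [pow_two, T_sq]
  · exact T_ne_one hv

theorem conj_T (g : Sp2 n) (v : Vec n) : g * T v * g⁻¹ = T (g.1 *ᵥ v) := by
  apply sp_ext
  intro x
  have hgx : g.1 *ᵥ (g⁻¹.1 *ᵥ x) = x := by
    rw [← mul_mv, mul_inv_cancel, one_mv]
  rw [mul_mv, mul_mv, T_mv, T_mv, Matrix.mulVec_add, Matrix.mulVec_smul, hgx]
  congr 2
  rw [← pres g, hgx]

/-- A rank one element is a transvection. -/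
theorem eq_T_of_rank (g : Sp2 n) (h : ((g : Matrix (Fin n ⊕ Fin n) (Fin n ⊕ Fin n) (ZMod 2)) - 1).rank = 1) :
    ∃ v : Vec n, v ≠ 0 ∧ g = T v := by
  classical
  have h1 : Module.finrank (ZMod 2) (LinearMap.range (((g : Matrix (Fin n ⊕ Fin n) (Fin n ⊕ Fin n) (ZMod 2)) - 1).mulVecLin)) = 1 := h
  obtain ⟨u, hu0, hu⟩ := finrank_eq_one_iff'.1 h1
  obtain ⟨u, hur⟩ := u
  have hu0' : u ≠ 0 := fun e => hu0 (Subtype.ext e)
  -- the coefficient
  have hlam : ∀ x : Vec n, ∃ c : ZMod 2, g.1 *ᵥ x = x + c • u := by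
    intro x
    obtain ⟨c, hc⟩ := hu ⟨_, LinearMap.mem_range_self _ x⟩
    refine ⟨c, ?_⟩
    have h2 := congrArg Subtype.val hc
    simp only [SetLike.val_smul] at h2
    have h3 : ((g : Matrix (Fin n ⊕ Fin n) (Fin n ⊕ Fin n) (ZMod 2)) - 1).mulVecLin x = g.1 *ᵥ x - x := by
      simp [Matrix.sub_mulVec]
    rw [h3] at h2
    rw [h2]
    abel
  choose lam hl using hlam
  have hrel : ∀ x y, lam y * ff x u = lam x * ff y u := by
    intro x y
    have h2 := pres g x y
    rw [hl x, hl y, f_add_smul_left (hf n _), f_add_smul_right (hf n _), f_add_smul_right (hf n _),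
      (hf n _).alternating u, mul_zero, add_zero] at h2
    rw [symm_f u y] at h2
    have h3 : lam y * ff x u + lam x * ff y u = 0 := by
      have h4 : ff x y + lam y * ff x u + lam x * ff y u = ff x y := by
        linear_combination h2
      linear_combination h4
    have h5 := two_eq (lam x * ff y u)
    linear_combination h3 - h5
  obtain ⟨x₀, hx₀⟩ : ∃ x, ff x u ≠ 0 := by
    obtain ⟨y, hy⟩ := exists_ne_right (hf n (ZMod 2)) hu0'
    exact ⟨y, by rwa [symm_f]⟩
  have hone : ∀ a : ZMod 2, a ≠ 0 → a = 1 := by decide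
  have hx₀1 : ff x₀ u = 1 := hone _ hx₀
  have hy : ∀ y, lam y = lam x₀ * ff y u := by
    intro y
    have := hrel x₀ y
    rwa [hx₀1, mul_one] at this
  have hne : lam x₀ ≠ 0 := by
    intro h0
    have hg : ∀ x, g.1 *ᵥ x = x := by
      intro x
      rw [hl x, hy x, h0, zero_mul, zero_smul, add_zero]
    -- then the rank is zero
    have : (g : Matrix (Fin n ⊕ Fin n) (Fin n ⊕ Fin n) (ZMod 2)) - 1 = 0 := by
      apply Matrix.ext_of_mulVec_single
      intro j
      rw [Matrix.sub_mulVec, hg, Matrix.one_mulVec, sub_self, Matrix.zero_mulVec]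
    rw [this, Matrix.rank_zero] at h
    omega
  have hx₀2 : lam x₀ = 1 := hone _ hne
  refine ⟨u, hu0', ?_⟩
  apply sp_ext
  intro x
  rw [hl x, T_mv, hy x, hx₀2, one_mul]

theorem rank_T {v : Vec n} (hv : v ≠ 0) :
    ((T v : Sp2 n).1 - 1 : Matrix (Fin n ⊕ Fin n) (Fin n ⊕ Fin n) (ZMod 2)).rank = 1 := by
  classical
  have h1 : LinearMap.range (((T v : Sp2 n).1 - 1 : Matrix (Fin n ⊕ Fin n) (Fin n ⊕ Fin n) (ZMod 2)).mulVecLin) =
      Submodule.span (ZMod 2) {v} := by
    apply le_antisymm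
    · rintro _ ⟨x, rfl⟩
      have : ((T v : Sp2 n).1 - 1 : Matrix (Fin n ⊕ Fin n) (Fin n ⊕ Fin n) (ZMod 2)).mulVecLin x = ff x v • v := by
        simp [Matrix.sub_mulVec, T_mv]
      rw [this]
      exact Submodule.smul_mem _ _ (Submodule.mem_span_singleton_self v)
    · rw [Submodule.span_singleton_le_iff_mem]
      obtain ⟨y, hy⟩ := exists_ne_right (hf n (ZMod 2)) hv
      have hone : ∀ a : ZMod 2, a ≠ 0 → a = 1 := by decide
      have h2 : ff y v = 1 := hone _ (by rwa [symm_f])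
      refine ⟨y, ?_⟩
      simp [Matrix.sub_mulVec, T_mv, h2]
  show Module.finrank _ _ = 1
  rw [h1]
  exact finrank_span_singleton hv

theorem exists_move_vec {u v : Vec n} (hu : u ≠ 0) (hv : v ≠ 0) : ∃ g : Sp2 n, g.1 *ᵥ u = v := by
  obtain ⟨s, hs, hsv⟩ := exists_move (hf n (ZMod 2)) ⊤ (b₁ := u) (b₂ := v) Submodule.mem_top Submodule.mem_top
    (by
      obtain ⟨y, hy⟩ := exists_ne_right (hf n (ZMod 2)) hu
      exact ⟨y, Submodule.mem_top, hy⟩)
    (by
      obtain ⟨y, hy⟩ := exists_ne_right (hf n (ZMod 2)) hv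
      exact ⟨y, Submodule.mem_top, hy⟩)
  obtain ⟨A, _, hA⟩ := exists_closure_of_stvGroup hs
  refine ⟨A, ?_⟩
  rw [← hsv, ← hA]
  rfl

theorem main (hn : 1 ≤ n) :
    IsThreeTranspositionClass {g : Sp2 n | ((g : Matrix (Fin n ⊕ Fin n) (Fin n ⊕ Fin n) (ZMod 2)) - 1).rank = 1} := by
  classical
  obtain ⟨v₀, hv₀⟩ : ∃ v : Vec n, v ≠ 0 := by
    haveI : Nonempty (Fin n) := ⟨⟨0, hn⟩⟩
    exact ⟨fun _ => 1, fun h => by
      have := congrFun h (Sum.inl ⟨0, hn⟩)
      exact one_ne_zero this⟩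
  refine ⟨⟨?_, ?_⟩, ⟨T v₀, rank_T hv₀, ?_⟩, ?_⟩
  · intro d hd
    obtain ⟨v, hv, rfl⟩ := eq_T_of_rank d hd
    exact orderOf_T hv
  · intro d hd e he
    obtain ⟨u, hu, rfl⟩ := eq_T_of_rank d hd
    obtain ⟨v, hv, rfl⟩ := eq_T_of_rank e he
    by_cases h0 : ff u v = 0
    · left
      have hc : T u * T v = T v * T u := by
        have h1 : T u * T v * (T u)⁻¹ = T v := by
          rw [conj_T, T_mv, symm_f, h0, zero_smul, add_zero]
        exact mul_inv_eq_iff_eq_mul.1 h1
      rw [pow_two]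
      calc T u * T v * (T u * T v) = T u * (T v * T u) * T v := by group
        _ = T u * (T u * T v) * T v := by rw [hc]
        _ = (T u * T u) * (T v * T v) := by group
        _ = 1 := by rw [T_sq, T_sq, one_mul]
    · right
      have hone : ∀ a : ZMod 2, a ≠ 0 → a = 1 := by decide
      have h1 : ff u v = 1 := hone _ h0
      have h2 : ff v u = 1 := by rw [symm_f]; exact h1
      have e1 : T u * T v * T u = T (v + u) := by
        have := conj_T (T u) v
        rw [T_inv, T_mv, h2, one_smul] at this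
        exact this
      have e2 : T v * T u * T v = T (u + v) := by
        have := conj_T (T v) u
        rw [T_inv, T_mv, h1, one_smul] at this
        exact this
      have e3 : (T u * T v) ^ 3 = (T u * T v * T u) * (T v * T u * T v) := by
        simp only [pow_succ, pow_zero, one_mul, mul_assoc]
      rw [e3, e1, e2, add_comm, T_sq]
  · ext g
    constructor
    · intro hg
      obtain ⟨v, hv, rfl⟩ := eq_T_of_rank g hg
      obtain ⟨a, ha⟩ := exists_move_vec hv₀ hv
      exact (isConj_iff.2 ⟨a, by rw [conj_T, ha]⟩ : IsConj (T v₀) (T v))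
    · intro hg
      obtain ⟨a, rfl⟩ := isConj_iff.1 (hg : IsConj (T v₀) g)
      rw [conj_T]
      refine rank_T ?_
      intro h0
      apply hv₀
      have : a⁻¹.1 *ᵥ (a.1 *ᵥ v₀) = v₀ := by
        rw [← mul_mv, inv_mul_cancel, one_mv]
      rw [← this, h0, Matrix.mulVec_zero]
  · rw [eq_top_iff, ← closure_tvSet_eq_top (m := n) (F := ZMod 2), Subgroup.closure_le]
    rintro A ⟨w, c, hA⟩
    have hone : ∀ a : ZMod 2, a = 0 ∨ a = 1 := by decide
    have hT : A = 1 ∨ A = T w := by
      rcases hone c with rfl | rfl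
      · left
        apply Subtype.ext
        rw [hA]
        apply Matrix.ext_of_mulVec_single
        intro j
        rw [sympTransvection_mulVec, zero_mul, zero_smul, add_zero]
        exact (Matrix.one_mulVec _).symm
      · right
        exact Subtype.ext hA
    rcases hT with rfl | rfl
    · exact one_mem _
    · by_cases hw : w = 0
      · rw [hw, T_zero]
        exact one_mem _
      · exact Subgroup.subset_closure (rank_T hw)

end Cfsg.Agent.Lib.ThreeTrSp
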