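import Mathlib
import Cfsg.Agent.Lib.Unitary3
import Cfsg.Prelude.Def_SporadicB

/-! Unitary transvections of `SU_n(2)` form a class of 3-transpositions. -/

set_option autoImplicit false
set_option linter.all false

namespace Cfsg.Agent.Lib.ThreeTrU

open scoped MatrixGroups Matrix
open Cfsg Cfsg.Geo Cfsg.Agent.Lib.Transvection Cfsg.Agent.Lib.LinAlgAux Cfsg.Agent.Lib.UnitaryBase
  Cfsg.Agent.Lib.UnitaryGen Cfsg.Agent.Lib.Unitary3
open Cfsg.Agent.Lib.SymplecticTv (IsIsom Ind)

variable {F : Type*} [Field F] {n : ℕ} {σ : F ≃+* F}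

local notation "hh" => hermForm n F 2

abbrev mat (A : SU n F 2) : Matrix (Fin n) (Fin n) F :=
  ((A : Matrix.SpecialLinearGroup (Fin n) F) : Matrix (Fin n) (Fin n) F)

theorem su_ext {a b : SU n F 2} (h : ∀ x : Fin n → F, mat a *ᵥ x = mat b *ᵥ x) : a = b := by
  apply Subtype.ext
  apply Subtype.ext
  exact Matrix.ext_of_mulVec_single fun j => h _

theorem mul_mv (a b : SU n F 2) (x : Fin n → F) : mat (a * b) *ᵥ x = mat a *ᵥ (mat b *ᵥ x) := by
  rw [Matrix.mulVec_mulVec]
  rfl

theorem one_mv (x : Fin n → F) : mat (1 : SU n F 2) *ᵥ x = x := Matrix.one_mulVec x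

theorem pres (g : SU n F 2) (x y : Fin n → F) : hh (mat g *ᵥ x) (mat g *ᵥ y) = hh x y :=
  suHom_isIsom g x y

theorem inv_mv (g : SU n F 2) (x : Fin n → F) : mat g *ᵥ (mat g⁻¹ *ᵥ x) = x := by
  rw [← mul_mv, mul_inv_cancel, one_mv]

variable (hf : IsUnitaryForm σ (hermForm n F 2)) (h2 : (2 : F) = 0)

include h2 in
theorem one_add : (1 : F) + σ 1 = 0 := by
  rw [map_one]
  linear_combination h2

/-- The transvection. -/
noncomputable def T (v : Fin n → F) : SU n F 2 :=
  open Classical in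
  if hv : hh v v = 0 then
    (exists_suHom_eq (n := n) (q := 2) (tt_isIsom hf hv (one_add h2)) (tt_mem_specialLinear hf v 1)).choose
  else 1

theorem T_mv {v : Fin n → F} (hv : hh v v = 0) (x : Fin n → F) : mat (T hf h2 v) *ᵥ x = x + hh x v • v := by
  have h1 := (exists_suHom_eq (n := n) (q := 2) (tt_isIsom hf hv (one_add h2)) (tt_mem_specialLinear hf v 1)).choose_spec
  have h3 : T hf h2 v = (exists_suHom_eq (n := n) (q := 2) (tt_isIsom hf hv (one_add h2)) (tt_mem_specialLinear hf v 1)).choose := by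
    rw [T, dif_pos hv]
  have h4 : mat (T hf h2 v) = ((tt hf v 1 : GL (Fin n) F) : Matrix (Fin n) (Fin n) F) := by
    rw [h3]
    exact congrArg (fun g : GL (Fin n) F => (g : Matrix (Fin n) (Fin n) F)) h1
  rw [h4, tt_mulVec hf 1 hv, one_mul]

include h2 in
theorem smul_self_add (a : F) (v : Fin n → F) : a • v + a • v = 0 := by
  ext i
  simp only [Pi.add_apply, Pi.smul_apply, smul_eq_mul, Pi.zero_apply]
  linear_combination (a * v i) * h2

theorem T_sq {v : Fin n → F} (hv : hh v v = 0) : T hf h2 v * T hf h2 v = 1 := by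
  apply su_ext
  intro x
  rw [mul_mv, one_mv, T_mv hf h2 hv, T_mv hf h2 hv, hf.add_left, hf.smul_left, hv, mul_zero, add_zero,
    add_assoc, smul_self_add h2, add_zero]

theorem T_inv {v : Fin n → F} (hv : hh v v = 0) : (T hf h2 v)⁻¹ = T hf h2 v :=
  inv_eq_of_mul_eq_one_left (T_sq hf h2 hv)

theorem conj_T (g : SU n F 2) {v : Fin n → F} (hv : hh v v = 0) :
    g * T hf h2 v * g⁻¹ = T hf h2 (mat g *ᵥ v) := by
  have hv' : hh (mat g *ᵥ v) (mat g *ᵥ v) = 0 := by rw [pres, hv]
  apply su_ext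
  intro x
  rw [mul_mv, mul_mv, T_mv hf h2 hv, T_mv hf h2 hv', Matrix.mulVec_add, Matrix.mulVec_smul, inv_mv]
  congr 2
  rw [← pres g, inv_mv]

include hf in
theorem exists_one_left {v : Fin n → F} (hv : v ≠ 0) : ∃ y, hh y v = 1 := by
  obtain ⟨y, hy⟩ := exists_left_ne hf hv
  refine ⟨(hh y v)⁻¹ • y, ?_⟩
  rw [hf.smul_left, inv_mul_cancel₀ hy]

theorem T_ne_one {v : Fin n → F} (hv : hh v v = 0) (hv0 : v ≠ 0) : T hf h2 v ≠ 1 := by
  intro h
  obtain ⟨x, hx⟩ := exists_one_left hf hv0
  have h1 := T_mv hf h2 hv x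
  rw [h, one_mv, hx, one_smul] at h1
  apply hv0
  have := congrArg (fun z => z - x) h1
  simpa using this.symm

theorem orderOf_T {v : Fin n → F} (hv : hh v v = 0) (hv0 : v ≠ 0) : orderOf (T hf h2 v) = 2 := by
  apply orderOf_eq_prime
  · rw [pow_two, T_sq hf h2 hv]
  · exact T_ne_one hf h2 hv hv0

theorem rank_T {v : Fin n → F} (hv : hh v v = 0) (hv0 : v ≠ 0) :
    (mat (T hf h2 v) - 1 : Matrix (Fin n) (Fin n) F).rank = 1 := by
  classical
  have h1 : LinearMap.range ((mat (T hf h2 v) - 1 : Matrix (Fin n) (Fin n) F).mulVecLin) =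
      Submodule.span F {v} := by
    apply le_antisymm
    · rintro _ ⟨x, rfl⟩
      have : (mat (T hf h2 v) - 1 : Matrix (Fin n) (Fin n) F).mulVecLin x = hh x v • v := by
        simp [Matrix.sub_mulVec, T_mv hf h2 hv]
      rw [this]
      exact Submodule.smul_mem _ _ (Submodule.mem_span_singleton_self v)
    · rw [Submodule.span_singleton_le_iff_mem]
      obtain ⟨y, hy⟩ := exists_one_left hf hv0
      refine ⟨y, ?_⟩
      simp [Matrix.sub_mulVec, T_mv hf h2 hv, hy]
  show Module.finrank _ _ = 1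
  rw [h1]
  exact finrank_span_singleton hv0

/-- A rank one element is a transvection. -/
theorem eq_T_of_rank (hσ : ∀ x, σ x = x ^ 2) (g : SU n F 2) (h : (mat g - 1 : Matrix (Fin n) (Fin n) F).rank = 1) :
    ∃ v : Fin n → F, hh v v = 0 ∧ v ≠ 0 ∧ g = T hf h2 v := by
  classical
  have h1 : Module.finrank F (LinearMap.range ((mat g - 1 : Matrix (Fin n) (Fin n) F).mulVecLin)) = 1 := h
  obtain ⟨u, hu0, hu⟩ := finrank_eq_one_iff'.1 h1
  obtain ⟨u, hur⟩ := u
  have hu0' : u ≠ 0 := fun e => hu0 (Subtype.ext e)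
  have hlam : ∀ x : Fin n → F, ∃ c : F, mat g *ᵥ x = x + c • u := by
    intro x
    obtain ⟨c, hc⟩ := hu ⟨_, LinearMap.mem_range_self _ x⟩
    refine ⟨c, ?_⟩
    have h2 := congrArg Subtype.val hc
    simp only [SetLike.val_smul] at h2
    have h3 : (mat g - 1 : Matrix (Fin n) (Fin n) F).mulVecLin x = mat g *ᵥ x - x := by
      simp [Matrix.sub_mulVec]
    rw [h3] at h2
    rw [h2]
    abel
  choose lam hl using hlam
  have hR : ∀ x y, lam x * hh u y + σ (lam y) * hh x u + lam x * σ (lam y) * hh u u = 0 := by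
    intro x y
    have h3 := pres g x y
    rw [hl x, hl y, hf.add_left, hf.smul_left, f_add_right hf, f_add_right hf, f_smul_right hf,
      f_smul_right hf] at h3
    linear_combination h3
  obtain ⟨y₀, hy₀⟩ := exists_right_ne hf hu0'
  obtain ⟨x₁, hx₁⟩ := exists_left_ne hf hu0'
  obtain ⟨e, he⟩ : ∃ e, e = hh u y₀ + σ (lam y₀) * hh u u := ⟨_, rfl⟩
  have heq : ∀ x, lam x * e = - (σ (lam y₀) * hh x u) := by
    intro x
    have := hR x y₀
    rw [he]
    linear_combination this
  have he0 : e ≠ 0 := by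
    intro h0
    have h3 := heq x₁
    rw [h0, mul_zero] at h3
    have h4 : σ (lam y₀) = 0 := by
      have h5 : σ (lam y₀) * hh x₁ u = 0 := by linear_combination h3
      exact (mul_eq_zero.1 h5).resolve_right hx₁
    rw [he, h4, zero_mul, add_zero] at h0
    exact hy₀ h0
  obtain ⟨b, hb⟩ : ∃ b, b = -(σ (lam y₀)) / e := ⟨_, rfl⟩
  have hlb : ∀ x, lam x = b * hh x u := by
    intro x
    have := heq x
    rw [hb]
    field_simp
    linear_combination this
  have hb0 : b ≠ 0 := by
    intro h0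
    have hg : ∀ x, mat g *ᵥ x = x := by
      intro x
      rw [hl x, hlb x, h0, zero_mul, zero_smul, add_zero]
    have : (mat g - 1 : Matrix (Fin n) (Fin n) F) = 0 := by
      apply Matrix.ext_of_mulVec_single
      intro j
      rw [Matrix.sub_mulVec, hg, Matrix.one_mulVec, sub_self, Matrix.zero_mulVec]
    rw [this, Matrix.rank_zero] at h
    omega
  let φ : (Fin n → F) →ₗ[F] F :=
    { toFun := fun x => b * hh x u
      map_add' := fun x y => by rw [hf.add_left, mul_add]
      map_smul' := fun c x => by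
        rw [hf.smul_left, RingHom.id_apply, smul_eq_mul]
        ring }
  have hmat : mat g = tvMat φ u := by
    apply Matrix.ext_of_mulVec_single
    intro j
    rw [tvMat_mulVec, hl, hlb]
    rfl
  have hdet : b * hh u u = 0 := by
    have h3 := tvMat_det_general φ u
    rw [← hmat] at h3
    have h4 : (mat g).det = 1 := g.1.2
    rw [h4] at h3
    have h5 : φ u = b * hh u u := rfl
    rw [h5] at h3
    linear_combination -h3
  have huu : hh u u = 0 := (mul_eq_zero.1 hdet).resolve_left hb0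
  have hb1 : b = 1 := by
    have h3 := hR x₁ y₀
    rw [huu, mul_zero, add_zero, hlb x₁, hlb y₀, map_mul, ← hf.herm] at h3
    have h4 : (b + σ b) * (hh x₁ u * hh u y₀) = 0 := by linear_combination h3
    have h5 : b + σ b = 0 := (mul_eq_zero.1 h4).resolve_right (mul_ne_zero hx₁ hy₀)
    rw [hσ] at h5
    have h6 : b * (1 + b) = 0 := by linear_combination h5
    have h7 : 1 + b = 0 := (mul_eq_zero.1 h6).resolve_left hb0
    linear_combination h7 - h2
  refine ⟨u, huu, hu0', ?_⟩
  apply su_ext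
  intro x
  rw [hl x, T_mv hf h2 huu, hlb, hb1, one_mul]

theorem T_smul (hnorm : ∀ e : F, e ≠ 0 → e * σ e = 1) {v : Fin n → F} (hv : hh v v = 0) {e : F} (he : e ≠ 0) :
    T hf h2 (e • v) = T hf h2 v := by
  have hv' : hh (e • v) (e • v) = 0 := by
    rw [hf.smul_left, f_smul_right hf, hv, mul_zero, mul_zero]
  apply su_ext
  intro x
  rw [T_mv hf h2 hv', T_mv hf h2 hv, f_smul_right hf, smul_smul]
  congr 2
  have := hnorm e he
  linear_combination (hh x v) * this

theorem main {F : Type} [Field F] [Fintype F] (hF : Fintype.card F = 4) {n : ℕ} (hn : 4 ≤ n) :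
    IsThreeTranspositionClass {g : ↥(SU n F 2) |
      (((g : Matrix.SpecialLinearGroup (Fin n) F) : Matrix (Fin n) (Fin n) F) - 1).rank = 1} := by
  classical
  have hF' : Fintype.card F = 2 ^ 2 := by rw [hF]; norm_num
  obtain ⟨σ, hσ⟩ := Cfsg.Agent.Lib.UnitaryHerm.exists_sigma hF'
  have hf : IsUnitaryForm σ (hermForm n F 2) := Cfsg.Agent.Lib.UnitaryHerm.hermForm_isUnitary hF' hσ
  have hN := Cfsg.Agent.Lib.UnitaryHerm.norm_surjective hF' hσ
  have h2 : (2 : F) = 0 := by
    have h3 := FiniteField.pow_card (-1 : F)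
    rw [hF] at h3
    have h4 : (-1 : F) ^ 4 = 1 := by norm_num
    rw [h4] at h3
    linear_combination h3
  have hnorm : ∀ e : F, e ≠ 0 → e * σ e = 1 := by
    intro e he
    have h3 := FiniteField.pow_card_sub_one_eq_one e he
    rw [hF] at h3
    rw [hσ]
    linear_combination h3
  have hfinT : Module.finrank F (⊤ : Submodule F (Fin n → F)) = n := by
    rw [finrank_top, Module.finrank_fintype_fun_eq_card, Fintype.card_fin]
  obtain ⟨v₀, -, hv₀0, hv₀⟩ := exists_iso_of_finrank hf hN (Y := ⊤) (by rw [hfinT]; omega)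
  have hmove : ∀ {u v : Fin n → F}, u ≠ 0 → v ≠ 0 → hermForm n F 2 u u = 0 → hermForm n F 2 v v = 0 →
      ∃ g : SU n F 2, mat g *ᵥ u = v := by
    intro u v hu hv huu hvv
    obtain ⟨s, hs, hsv⟩ := move_any hf hN (proj_top _) (by rw [hfinT]; omega) Submodule.mem_top Submodule.mem_top
      hu hv huu hvv
    obtain ⟨A, hA⟩ := exists_suHom_eq (q := 2) (uG_isIsom hs) (uG_det hs)
    refine ⟨A, ?_⟩
    rw [← hsv, ← hA]
    rfl
  refine ⟨⟨?_, ?_⟩, ⟨T hf h2 v₀, rank_T hf h2 hv₀ hv₀0, ?_⟩, ?_⟩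
  · intro d hd
    obtain ⟨v, hv, hv0, rfl⟩ := eq_T_of_rank hf h2 hσ d hd
    exact orderOf_T hf h2 hv hv0
  · intro d hd e he
    obtain ⟨u, hu, hu0, rfl⟩ := eq_T_of_rank hf h2 hσ d hd
    obtain ⟨v, hv, hv0, rfl⟩ := eq_T_of_rank hf h2 hσ e he
    by_cases h0 : hermForm n F 2 u v = 0
    · left
      have hc : T hf h2 u * T hf h2 v = T hf h2 v * T hf h2 u := by
        have h1 : T hf h2 u * T hf h2 v * (T hf h2 u)⁻¹ = T hf h2 v := by
          rw [conj_T hf h2 _ hv, T_mv hf h2 hu]
          have : hermForm n F 2 v u = 0 := by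
            rw [hf.herm, h0, map_zero]
          rw [this, zero_smul, add_zero]
        exact mul_inv_eq_iff_eq_mul.1 h1
      rw [pow_two]
      calc T hf h2 u * T hf h2 v * (T hf h2 u * T hf h2 v) = T hf h2 u * (T hf h2 v * T hf h2 u) * T hf h2 v := by group
        _ = T hf h2 u * (T hf h2 u * T hf h2 v) * T hf h2 v := by rw [hc]
        _ = (T hf h2 u * T hf h2 u) * (T hf h2 v * T hf h2 v) := by group
        _ = 1 := by rw [T_sq hf h2 hu, T_sq hf h2 hv, one_mul]
    · right
      -- normalise `v`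
      obtain ⟨w, hw, hw1, hTw⟩ : ∃ w : Fin n → F, hermForm n F 2 w w = 0 ∧ hermForm n F 2 u w = 1 ∧
          T hf h2 w = T hf h2 v := by
        obtain ⟨e, he⟩ : ∃ e, e = σ (hermForm n F 2 u v)⁻¹ := ⟨_, rfl⟩
        have he0 : e ≠ 0 := by
          rw [he]
          exact (map_ne_zero σ).2 (inv_ne_zero h0)
        refine ⟨e • v, ?_, ?_, T_smul hf h2 hnorm hv he0⟩
        · rw [hf.smul_left, f_smul_right hf, hv, mul_zero, mul_zero]
        · rw [f_smul_right hf, he, hf.involutive, inv_mul_cancel₀ h0]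
      rw [← hTw]
      have h1' : hermForm n F 2 w u = 1 := by
        rw [hf.herm, hw1, map_one]
      have huw : hermForm n F 2 (w + u) (w + u) = 0 := by
        rw [hf.add_left, f_add_right hf, f_add_right hf, hu, hw, hw1, h1']
        linear_combination h2
      have e1 : T hf h2 u * T hf h2 w * T hf h2 u = T hf h2 (w + u) := by
        have := conj_T hf h2 (T hf h2 u) hw
        rw [T_inv hf h2 hu, T_mv hf h2 hu, h1', one_smul] at this
        exact this
      have e2 : T hf h2 w * T hf h2 u * T hf h2 w = T hf h2 (u + w) := by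
        have := conj_T hf h2 (T hf h2 w) hu
        rw [T_inv hf h2 hw, T_mv hf h2 hw, hw1, one_smul] at this
        exact this
      have e3 : (T hf h2 u * T hf h2 w) ^ 3 = (T hf h2 u * T hf h2 w * T hf h2 u) * (T hf h2 w * T hf h2 u * T hf h2 w) := by
        simp only [pow_succ, pow_zero, one_mul, mul_assoc]
      rw [e3, e1, e2, add_comm u w, T_sq hf h2 huw]
  · ext g
    constructor
    · intro hg
      obtain ⟨v, hv, hv0, rfl⟩ := eq_T_of_rank hf h2 hσ g hg
      obtain ⟨a, ha⟩ := hmove hv₀0 hv0 hv₀ hv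
      exact (isConj_iff.2 ⟨a, by rw [conj_T hf h2 _ hv₀, ha]⟩ : IsConj (T hf h2 v₀) (T hf h2 v))
    · intro hg
      obtain ⟨a, rfl⟩ := isConj_iff.1 (hg : IsConj (T hf h2 v₀) g)
      rw [conj_T hf h2 _ hv₀]
      refine rank_T hf h2 (by rw [pres, hv₀]) ?_
      intro h0
      apply hv₀0
      have : mat a⁻¹ *ᵥ (mat a *ᵥ v₀) = v₀ := by
        rw [← mul_mv, inv_mul_cancel, one_mv]
      rw [← this, h0, Matrix.mulVec_zero]
  · rw [eq_top_iff]
    rintro g -
    have h1 : suHom n 2 F g ∈ uG hf ⊤ :=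
      isom_mem_uG hf hN (by simpa using hn) (suHom_isIsom g) (suHom_det g)
    have h3 : uG hf ⊤ ≤ (Subgroup.closure {g : ↥(SU n F 2) |
        (((g : Matrix.SpecialLinearGroup (Fin n) F) : Matrix (Fin n) (Fin n) F) - 1).rank = 1}).map (suHom n 2 F) := by
      rw [uG, Subgroup.closure_le]
      rintro _ ⟨a, -, ha, c, hc, rfl⟩
      have hc01 : c = 0 ∨ c = 1 := by
        by_cases hc0 : c = 0
        · exact Or.inl hc0
        · right
          rw [hσ] at hc
          have h6 : c * (1 + c) = 0 := by linear_combination hc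
          have h7 : 1 + c = 0 := (mul_eq_zero.1 h6).resolve_left hc0
          linear_combination h7 - h2
      have hval : ∀ x, ((T hf h2 a : SU n F 2) : Matrix.SpecialLinearGroup (Fin n) F).1 *ᵥ x = x + hermForm n F 2 x a • a :=
        T_mv hf h2 ha
      rcases hc01 with rfl | rfl
      · refine ⟨1, Subgroup.one_mem _, ?_⟩
        rw [map_one]
        symm
        apply gl_ext_mulVec
        intro x
        rw [tt_mulVec hf 0 ha]
        simp
      · by_cases ha0 : a = 0
        · refine ⟨1, Subgroup.one_mem _, ?_⟩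
          rw [map_one]
          symm
          apply gl_ext_mulVec
          intro x
          rw [tt_mulVec hf 1 ha, ha0]
          simp
        · refine ⟨T hf h2 a, Subgroup.subset_closure (rank_T hf h2 ha ha0), ?_⟩
          apply gl_ext_mulVec
          intro x
          rw [tt_mulVec hf 1 ha, one_mul]
          exact hval x
    obtain ⟨A, hA, hAg⟩ := h3 h1
    rwa [← suHom_injective hAg]

end Cfsg.Agent.Lib.ThreeTrU
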