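import Mathlib
import Cfsg.Prelude
import Cfsg.Agent.Lib.ZStarThree
import Cfsg.Agent.Lib.PCore

set_option autoImplicit false
set_option linter.all false

namespace Cfsg.Agent.Lib.ThreeTransNew

universe u
open Subgroup

variable {G : Type u} [Group G]

/-- A conjugation-invariant set of 3-transpositions. -/
structure TT (D : Set G) : Prop where
  ord : ∀ d ∈ D, orderOf d = 2
  pr : ∀ d ∈ D, ∀ e ∈ D, (d * e) ^ 2 = 1 ∨ (d * e) ^ 3 = 1
  cj : ∀ g : G, ∀ d ∈ D, g * d * g⁻¹ ∈ D

/-- The members of `D` other than `x` commuting with `x`. -/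
def Cm (D : Set G) (x : G) : Set G := {y | y ∈ D ∧ y ≠ x ∧ Commute x y}

/-- Fischer's equivalence relation. -/
def Rel (D : Set G) (a b : G) : Prop := Cm D a = Cm D b

variable {D : Set G}

theorem TT.sq (h : TT D) {a : G} (ha : a ∈ D) : a * a = 1 := by
  rw [← pow_two, ← h.ord a ha]
  exact pow_orderOf_eq_one a

theorem TT.inv (h : TT D) {a : G} (ha : a ∈ D) : a⁻¹ = a := inv_eq_of_mul_eq_one_left (h.sq ha)

theorem TT.ne_one (h : TT D) {a : G} (ha : a ∈ D) : a ≠ 1 := by
  intro e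
  have := h.ord a ha
  rw [e, orderOf_one] at this
  omega

theorem TT.comm_of_sq (h : TT D) {a b : G} (ha : a ∈ D) (hb : b ∈ D) (hs : (a * b) ^ 2 = 1) :
    Commute a b := by
  rw [pow_two] at hs
  have h3 : (a * b)⁻¹ = a * b := inv_eq_of_mul_eq_one_left hs
  rw [mul_inv_rev, h.inv ha, h.inv hb] at h3
  exact h3.symm

theorem TT.cube (h : TT D) {a b : G} (ha : a ∈ D) (hb : b ∈ D) (hnc : ¬ Commute a b) :
    (a * b) ^ 3 = 1 := by
  rcases h.pr a ha b hb with e | e
  · exact absurd (h.comm_of_sq ha hb e) hnc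
  · exact e

theorem TT.order_three (h : TT D) {a b : G} (ha : a ∈ D) (hb : b ∈ D) (hnc : ¬ Commute a b) :
    orderOf (a * b) = 3 := by
  haveI : Fact (Nat.Prime 3) := ⟨Nat.prime_three⟩
  refine orderOf_eq_prime (h.cube ha hb hnc) ?_
  intro e
  apply hnc
  have : a = b := by
    have := eq_inv_of_mul_eq_one_left e
    rwa [h.inv hb] at this
  rw [this]

theorem TT.braid (h : TT D) {a b : G} (ha : a ∈ D) (hb : b ∈ D) (hnc : ¬ Commute a b) :
    a * b * a = b * a * b := by
  have h3 := h.cube ha hb hnc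
  have h4 : (a * b) * (a * b) * (a * b) = 1 := by
    have h6 := h3
    rw [pow_succ, pow_two] at h6
    exact h6
  have h5 : a * b * a = (b * a * b)⁻¹ := by
    apply eq_inv_of_mul_eq_one_left
    calc a * b * a * (b * a * b) = (a * b) * (a * b) * (a * b) := by group
      _ = 1 := h4
  rw [h5, mul_inv_rev, mul_inv_rev, h.inv ha, h.inv hb, mul_assoc]

theorem mem_Cm_conj (h : TT D) (a g y : G) : y ∈ Cm D (g * a * g⁻¹) ↔ g⁻¹ * y * g ∈ Cm D a := by
  constructor
  · rintro ⟨h1, h2, h3⟩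
    refine ⟨?_, ?_, ?_⟩
    · have := h.cj g⁻¹ y h1
      rwa [inv_inv] at this
    · intro e
      apply h2
      rw [← e]
      group
    · have h4 : g * a * g⁻¹ * y = y * (g * a * g⁻¹) := h3
      show a * (g⁻¹ * y * g) = g⁻¹ * y * g * a
      calc a * (g⁻¹ * y * g) = g⁻¹ * (g * a * g⁻¹ * y) * g := by group
        _ = g⁻¹ * (y * (g * a * g⁻¹)) * g := by rw [h4]
        _ = _ := by group
  · rintro ⟨h1, h2, h3⟩
    refine ⟨?_, ?_, ?_⟩
    · have := h.cj g _ h1
      have e : g * (g⁻¹ * y * g) * g⁻¹ = y := by group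
      rwa [e] at this
    · intro e
      apply h2
      rw [e]
      group
    · have h4 : a * (g⁻¹ * y * g) = g⁻¹ * y * g * a := h3
      show g * a * g⁻¹ * y = y * (g * a * g⁻¹)
      calc g * a * g⁻¹ * y = g * (a * (g⁻¹ * y * g)) * g⁻¹ := by group
        _ = g * (g⁻¹ * y * g * a) * g⁻¹ := by rw [h4]
        _ = _ := by group

theorem TT.rel_conj (h : TT D) {a b : G} (hr : Rel D a b) (g : G) :
    Rel D (g * a * g⁻¹) (g * b * g⁻¹) := by
  show Cm D _ = Cm D _
  ext y
  rw [mem_Cm_conj h, mem_Cm_conj h]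
  have : Cm D a = Cm D b := hr
  rw [this]

theorem TT.not_comm_of_rel (h : TT D) {a b : G} (hb : b ∈ D) (hr : Rel D a b) (hne : a ≠ b) :
    ¬ Commute a b := by
  intro hc
  have h1 : b ∈ Cm D a := ⟨hb, hne.symm, hc⟩
  have h2 : Cm D a = Cm D b := hr
  rw [h2] at h1
  exact h1.2.1 rfl

theorem TT.rel_self (h : TT D) {a b : G} (ha : a ∈ D) (hr : Rel D a b) : Rel D a (a * b * a) := by
  have h1 := h.rel_conj hr a
  rw [h.inv ha] at h1
  have e : a * a * a = a := by rw [h.sq ha, one_mul]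
  rwa [e] at h1

theorem rel_trans {a b c : G} (h1 : Rel D a b) (h2 : Rel D b c) : Rel D a c := Eq.trans h1 h2

theorem rel_symm {a b : G} (h1 : Rel D a b) : Rel D b a := Eq.symm h1

theorem TT.rel_aux (h : TT D) {a b y : G} (ha : a ∈ D) (hb : b ∈ D) (hy : y ∈ D) (hr : Rel D a b) :
    Rel D (b * y * b) (a * y * a) := by
  have hcm : Cm D a = Cm D b := hr
  by_cases hya : y = a
  · subst hya
    have e : y * y * y = y := by rw [h.sq ha, one_mul]
    rw [e]
    exact rel_symm (rel_trans hr (h.rel_self hb (rel_symm hr)))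
  by_cases hyb : y = b
  · subst hyb
    have e : y * y * y = y := by rw [h.sq hb, one_mul]
    rw [e]
    exact rel_trans (rel_symm hr) (h.rel_self ha hr)
  by_cases hcomm : Commute a y
  · have h1 : y ∈ Cm D a := ⟨hy, hya, hcomm⟩
    rw [hcm] at h1
    have h2 : Commute b y := h1.2.2
    have e1 : a * y * a = y := by
      rw [hcomm.eq, mul_assoc, h.sq ha, mul_one]
    have e2 : b * y * b = y := by
      rw [h2.eq, mul_assoc, h.sq hb, mul_one]
    rw [e1, e2]
    rfl
  · have h2 : ¬ Commute b y := by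
      intro hc
      have h1 : y ∈ Cm D b := ⟨hy, hyb, hc⟩
      rw [← hcm] at h1
      exact hcomm h1.2.2
    have e1 := h.braid ha hy hcomm
    have e2 := h.braid hb hy h2
    rw [e1, e2]
    have h3 := h.rel_conj (rel_symm hr) y
    rwa [h.inv hy] at h3

theorem TT.rel_move (h : TT D) {a b c : G} (ha : a ∈ D) (hb : b ∈ D) (hc : c ∈ D) (hr : Rel D a b) :
    Rel D c ((a * b) * c * (a * b)⁻¹) := by
  have hyD : b * c * b ∈ D := by
    have := h.cj b c hc
    rwa [h.inv hb] at this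
  have h1 := h.rel_aux ha hb hyD hr
  have e1 : b * (b * c * b) * b = c := by
    calc b * (b * c * b) * b = (b * b) * c * (b * b) := by group
      _ = c := by rw [h.sq hb]; group
  have e2 : a * (b * c * b) * a = (a * b) * c * (a * b)⁻¹ := by
    rw [mul_inv_rev, h.inv ha, h.inv hb]
    group
  rwa [e1, e2] at h1

theorem conj_closure_mem (T A : Set G) (hT : ∀ x ∈ A, ∀ t ∈ T, x * t * x⁻¹ ∈ T)
    (hA : ∀ x ∈ A, x⁻¹ ∈ A) {g : G} (hg : g ∈ closure A) :
    ∀ n ∈ closure T, g * n * g⁻¹ ∈ closure T ∧ g⁻¹ * n * g ∈ closure T := by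
  have key : ∀ x ∈ A, ∀ n ∈ closure T, x * n * x⁻¹ ∈ closure T := by
    intro x hx n hn
    induction hn using Subgroup.closure_induction with
    | mem t ht => exact subset_closure (hT x hx t ht)
    | one => simp
    | mul a b _ _ ih1 ih2 =>
      have e : x * (a * b) * x⁻¹ = (x * a * x⁻¹) * (x * b * x⁻¹) := by group
      rw [e]
      exact Subgroup.mul_mem _ ih1 ih2
    | inv a _ ih =>
      have e : x * a⁻¹ * x⁻¹ = (x * a * x⁻¹)⁻¹ := by group
      rw [e]
      exact Subgroup.inv_mem _ ih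
  induction hg using Subgroup.closure_induction with
  | mem x hx =>
    intro n hn
    refine ⟨key x hx n hn, ?_⟩
    have := key x⁻¹ (hA x hx) n hn
    rwa [inv_inv] at this
  | one =>
    intro n hn
    simpa using hn
  | mul a b _ _ ih1 ih2 =>
    intro n hn
    constructor
    · have h1 := (ih2 n hn).1
      have h2 := (ih1 _ h1).1
      have e : a * b * n * (a * b)⁻¹ = a * (b * n * b⁻¹) * a⁻¹ := by group
      rw [e]
      exact h2
    · have h1 := (ih1 n hn).2
      have h2 := (ih2 _ h1).2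
      have e : (a * b)⁻¹ * n * (a * b) = b⁻¹ * (a⁻¹ * n * a) * b := by group
      rw [e]
      exact h2
  | inv a _ ih =>
    intro n hn
    have h1 := ih n hn
    constructor
    · simpa using h1.2
    · simpa using h1.1

/-- The generators of the normal 3-group attached to the class of `c`. -/
def Wgen (D : Set G) (c : G) : Set G := {w | ∃ a ∈ D, ∃ b ∈ D, Rel D c a ∧ Rel D c b ∧ w = a * b}

/-- All the generators. -/
def Agen (D : Set G) : Set G := {w | ∃ a ∈ D, ∃ b ∈ D, Rel D a b ∧ w = a * b}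

variable [Finite G]

theorem TT.wgen_pgroup (h : TT D) {c : G} (hc : c ∈ D) : IsPGroup 3 (closure (Wgen D c)) := by
  classical
  set W : Set G := {w | w ∈ D ∧ Rel D c w} with hW
  set K := closure W with hK
  have hcW : c ∈ W := ⟨hc, rfl⟩
  have hgen : ∀ x ∈ W, ∀ w ∈ W, x * w * x⁻¹ ∈ W := by
    rintro x ⟨hxD, hxr⟩ w ⟨hwD, hwr⟩
    refine ⟨h.cj x w hwD, ?_⟩
    rw [h.inv hxD]
    exact rel_trans hxr (h.rel_self hxD (rel_trans (rel_symm hxr) hwr))
  have hWinv : ∀ x ∈ W, x⁻¹ ∈ W := by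
    rintro x ⟨hxD, hxr⟩
    rw [h.inv hxD]
    exact ⟨hxD, hxr⟩
  have hKact : ∀ k ∈ closure W, (∀ w ∈ W, k * w * k⁻¹ ∈ W) ∧ (∀ w ∈ W, k⁻¹ * w * k ∈ W) := by
    intro k hk
    induction hk using Subgroup.closure_induction with
    | mem x hx =>
      refine ⟨hgen x hx, ?_⟩
      intro w hw
      have := hgen x⁻¹ (hWinv x hx) w hw
      rwa [inv_inv] at this
    | one =>
      constructor <;>
      · intro w hw
        simpa using hw
    | mul a b _ _ ih1 ih2 =>
      constructor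
      · intro w hw
        have e : a * b * w * (a * b)⁻¹ = a * (b * w * b⁻¹) * a⁻¹ := by group
        rw [e]
        exact ih1.1 _ (ih2.1 w hw)
      · intro w hw
        have e : (a * b)⁻¹ * w * (a * b) = b⁻¹ * (a⁻¹ * w * a) * b := by group
        rw [e]
        exact ih2.2 _ (ih1.2 w hw)
    | inv a _ ih =>
      constructor
      · intro w hw
        simpa using ih.2 w hw
      · intro w hw
        simpa using ih.1 w hw
  set dt : K := ⟨c, subset_closure hcW⟩ with hdt
  have hordt : orderOf dt = 2 := by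
    rw [← Subgroup.orderOf_coe]
    exact h.ord c hc
  have hconjW : ∀ a ∈ conjugatesOf dt, (a : G) ∈ W := by
    intro a ha
    obtain ⟨k, rfl⟩ := isConj_iff.mp ha
    exact (hKact k k.2).1 c hcW
  have hprod : ∀ a ∈ conjugatesOf dt, ∀ b ∈ conjugatesOf dt, ∃ t : ℕ, orderOf (a * b) = 3 ^ t := by
    intro a ha b hb
    obtain ⟨haD, har⟩ := hconjW a ha
    obtain ⟨hbD, hbr⟩ := hconjW b hb
    by_cases hab : (a : G) = b
    · refine ⟨0, ?_⟩
      have : a * b = 1 := Subtype.ext (by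
        show (a : G) * b = 1
        rw [hab]
        exact h.sq hbD)
      rw [this, orderOf_one, pow_zero]
    · refine ⟨1, ?_⟩
      rw [pow_one, ← Subgroup.orderOf_coe]
      exact h.order_three haD hbD (h.not_comm_of_rel hbD (rel_trans (rel_symm har) hbr) hab)
  have hcore := Cfsg.Agent.Lib.ZStarThree.main dt hordt hprod
  have hWconj : ∀ w (hw : w ∈ W), (⟨w, subset_closure hw⟩ : K) ∈ conjugatesOf dt := by
    intro w hw
    by_cases hcw : c = w
    · subst hcw
      exact mem_conjugatesOf_self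
    · have hnc := h.not_comm_of_rel hw.1 hw.2 hcw
      have hodd : Odd (orderOf (dt * ⟨w, subset_closure hw⟩)) := by
        rw [← Subgroup.orderOf_coe]
        show Odd (orderOf (c * w))
        rw [h.order_three hc hw.1 hnc]
        decide
      have hddt : dt * dt = 1 := Subtype.ext (h.sq hc)
      have hww : (⟨w, subset_closure hw⟩ : K) * ⟨w, subset_closure hw⟩ = 1 := Subtype.ext (h.sq hw.1)
      obtain ⟨l, hl⟩ := Cfsg.Agent.Lib.ZStarThree.conj_odd hddt hww hodd
      exact isConj_iff.mpr ⟨_, hl⟩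
  set P : Subgroup G := (Cfsg.pCore 3 K).map K.subtype with hP
  have hPp : IsPGroup 3 P := (Cfsg.Agent.Lib.PCore.isPGroup_pCore 3 K).map K.subtype
  have hle : closure (Wgen D c) ≤ P := by
    rw [closure_le]
    rintro _ ⟨a, ha, b, hb, hra, hrb, rfl⟩
    exact ⟨_, hcore _ (hWconj a ⟨ha, hra⟩) _ (hWconj b ⟨hb, hrb⟩), rfl⟩
  exact hPp.to_le hle

theorem TT.agen_inv (h : TT D) {x : G} (hx : x ∈ Agen D) : x⁻¹ ∈ Agen D := by
  obtain ⟨a, ha, b, hb, hr, rfl⟩ := hx
  exact ⟨b, hb, a, ha, rel_symm hr, by rw [mul_inv_rev, h.inv ha, h.inv hb]⟩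

theorem TT.agen_conj (h : TT D) (g : G) {x : G} (hx : x ∈ Agen D) : g * x * g⁻¹ ∈ Agen D := by
  obtain ⟨a, ha, b, hb, hr, rfl⟩ := hx
  exact ⟨g * a * g⁻¹, h.cj g a ha, g * b * g⁻¹, h.cj g b hb, h.rel_conj hr g, by group⟩

theorem TT.wgen_conj (h : TT D) {c x t : G} (hx : x ∈ Agen D) (ht : t ∈ Wgen D c) :
    x * t * x⁻¹ ∈ Wgen D c := by
  obtain ⟨a', ha', b', hb', hr', rfl⟩ := hx
  obtain ⟨a, ha, b, hb, hra, hrb, rfl⟩ := ht
  refine ⟨(a' * b') * a * (a' * b')⁻¹, h.cj _ a ha, (a' * b') * b * (a' * b')⁻¹, h.cj _ b hb,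
    rel_trans hra (h.rel_move ha' hb' ha hr'), rel_trans hrb (h.rel_move ha' hb' hb hr'), by group⟩

theorem TT.agen_pgroup (h : TT D) : IsPGroup 3 (closure (Agen D)) := by
  classical
  have hcore : ∀ x ∈ Agen D, ∀ hx : x ∈ closure (Agen D),
      (⟨x, hx⟩ : closure (Agen D)) ∈ Cfsg.pCore 3 (closure (Agen D)) := by
    intro x hx' hx
    obtain ⟨a, ha, b, hb, hr, hab⟩ := id hx'
    have hN : ((closure (Wgen D a)).subgroupOf (closure (Agen D))).Normal := by
      constructor
      intro n hn g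
      rw [mem_subgroupOf] at hn ⊢
      exact (conj_closure_mem (Wgen D a) (Agen D) (fun y hy t ht => h.wgen_conj hy ht)
        (fun y hy => h.agen_inv hy) g.2 n.1 hn).1
    have hNp : IsPGroup 3 ↥((closure (Wgen D a)).subgroupOf (closure (Agen D))) :=
      (h.wgen_pgroup ha).comap_subtype
    have h1 := Cfsg.Agent.Lib.PCore.le_pCore hN hNp
    apply h1
    rw [mem_subgroupOf]
    exact subset_closure ⟨a, ha, b, hb, rfl, hr, hab⟩
  have hall : ∀ m (hm : m ∈ closure (Agen D)),
      (⟨m, hm⟩ : closure (Agen D)) ∈ Cfsg.pCore 3 (closure (Agen D)) := by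
    intro m hm
    induction hm using Subgroup.closure_induction with
    | mem x hx => exact hcore x hx _
    | one => exact Subgroup.one_mem _
    | mul a b ha hb ih1 ih2 => exact Subgroup.mul_mem _ ih1 ih2
    | inv a ha ih => exact Subgroup.inv_mem _ ih
  intro m
  obtain ⟨k, hk⟩ := Cfsg.Agent.Lib.PCore.isPGroup_pCore 3 (closure (Agen D)) ⟨m, hall m.1 m.2⟩
  refine ⟨k, ?_⟩
  have := congrArg Subtype.val hk
  exact this

theorem TT.core_of_rel (h : TT D) {a b : G} (ha : a ∈ D) (hb : b ∈ D) (hr : Rel D a b) :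
    a * b ∈ Cfsg.pCore 3 G := by
  have hn : (closure (Agen D)).Normal :=
    ⟨fun n hn g => (conj_closure_mem (Agen D) Set.univ (fun x _ t ht => h.agen_conj x ht)
      (fun _ _ => trivial) (subset_closure trivial) n hn).1⟩
  exact Cfsg.Agent.Lib.PCore.le_pCore hn h.agen_pgroup (subset_closure ⟨a, ha, b, hb, hr, rfl⟩)

theorem core_no_invol {x : G} (hx : x ∈ Cfsg.pCore 3 G) (hxx : x * x = 1) : x = 1 := by
  obtain ⟨k, hk⟩ := IsPGroup.iff_orderOf.mp (Cfsg.Agent.Lib.PCore.isPGroup_pCore 3 G) ⟨x, hx⟩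
  have h1 : orderOf x = 3 ^ k := by
    rw [← hk]
    exact (Subgroup.orderOf_mk x hx).symm
  have h2 : orderOf x ∣ 2 := orderOf_dvd_of_pow_eq_one (by rw [pow_two]; exact hxx)
  rw [h1] at h2
  have h3 : k = 0 := by
    by_contra hk0
    have h4 : 3 ∣ 2 := (dvd_pow_self 3 hk0).trans h2
    omega
  rw [h3, pow_zero, orderOf_eq_one_iff] at h1
  exact h1

theorem TT.cm_sub_of_core (h : TT D) {a w : G} (ha : a ∈ D) (hw : w ∈ D)
    (hc : a * w ∈ Cfsg.pCore 3 G) : Cm D a ⊆ Cm D w := by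
  haveI hPn := Cfsg.Agent.Lib.PCore.pCore_normal 3 G
  rintro y ⟨hy, hya, hcy⟩
  have hyw : y ≠ w := by
    rintro rfl
    have h1 : (a * y) * (a * y) = 1 := by
      calc (a * y) * (a * y) = a * (y * a) * y := by group
        _ = a * (a * y) * y := by rw [hcy.eq]
        _ = (a * a) * (y * y) := by group
        _ = 1 := by rw [h.sq ha, h.sq hy, one_mul]
    have h2 := core_no_invol hc h1
    apply hya
    have := eq_inv_of_mul_eq_one_left h2
    rw [h.inv hy] at this
    exact this.symm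
  refine ⟨hy, hyw, ?_⟩
  by_contra hnc
  have h3 := h.cube hw hy hnc
  have hv : a * (y * w * y) ∈ Cfsg.pCore 3 G := by
    have h1 := hPn.conj_mem _ hc y
    rw [h.inv hy] at h1
    have e : y * (a * w) * y = a * (y * w * y) := by
      have hcy' : y * a = a * y := hcy.eq.symm
      calc y * (a * w) * y = (y * a) * w * y := by group
        _ = (a * y) * w * y := by rw [hcy']
        _ = _ := by group
    rwa [e] at h1
  have hwa : w * a ∈ Cfsg.pCore 3 G := by
    have h1 := (Cfsg.pCore 3 G).inv_mem hc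
    rwa [mul_inv_rev, h.inv ha, h.inv hw] at h1
  have h4 : (w * y) * (w * y) ∈ Cfsg.pCore 3 G := by
    have h1 := (Cfsg.pCore 3 G).mul_mem hwa hv
    have e : w * a * (a * (y * w * y)) = (w * y) * (w * y) := by
      calc w * a * (a * (y * w * y)) = w * (a * a) * (y * w * y) := by group
        _ = w * (y * w * y) := by rw [h.sq ha, mul_one]
        _ = _ := by group
    rwa [e] at h1
  have h5 : w * y ∈ Cfsg.pCore 3 G := by
    have h1 := (Cfsg.pCore 3 G).mul_mem h4 h4
    have e : (w * y) * (w * y) * ((w * y) * (w * y)) = w * y := by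
      have h6 : (w * y) ^ 3 = 1 := h3
      calc (w * y) * (w * y) * ((w * y) * (w * y)) = (w * y) ^ 3 * (w * y) := by
            simp only [pow_succ, pow_zero, one_mul, mul_assoc]
        _ = w * y := by rw [h6, one_mul]
    rwa [e] at h1
  have h6 : a * y ∈ Cfsg.pCore 3 G := by
    have h1 := (Cfsg.pCore 3 G).mul_mem hc h5
    have e : a * w * (w * y) = a * y := by
      calc a * w * (w * y) = a * (w * w) * y := by group
        _ = a * y := by rw [h.sq hw, mul_one]
    rwa [e] at h1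
  have h7 : (a * y) * (a * y) = 1 := by
    calc (a * y) * (a * y) = a * (y * a) * y := by group
      _ = a * (a * y) * y := by rw [hcy.eq]
      _ = (a * a) * (y * y) := by group
      _ = 1 := by rw [h.sq ha, h.sq hy, one_mul]
  have h8 := core_no_invol h6 h7
  apply hya
  have := eq_inv_of_mul_eq_one_left h8
  rw [h.inv hy] at this
  exact this.symm

theorem TT.rel_of_core (h : TT D) {a w : G} (ha : a ∈ D) (hw : w ∈ D)
    (hc : a * w ∈ Cfsg.pCore 3 G) : Rel D a w := by
  apply Set.Subset.antisymm (h.cm_sub_of_core ha hw hc)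
  apply h.cm_sub_of_core hw ha
  have h1 := (Cfsg.pCore 3 G).inv_mem hc
  rwa [mul_inv_rev, h.inv ha, h.inv hw] at h1

theorem TT.main_sets (h : TT D) {d : G} (hd : d ∈ D) :
    {w : G | w ∈ D ∧ {y : G | y ∈ D ∧ y ≠ d ∧ Commute d y} = {y : G | y ∈ D ∧ y ≠ w ∧ Commute w y}}
        = {w : G | w ∈ D ∧ d⁻¹ * w ∈ Cfsg.pCore 3 G} ∧
    {w : G | w ∈ D ∧ {y : G | y ∈ D ∧ y ≠ d ∧ Commute d y} = {y : G | y ∈ D ∧ y ≠ w ∧ Commute w y}}
        = {w : G | ∃ g ∈ Cfsg.pCore 3 G, w = g * d * g⁻¹} := by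
  haveI hPn := Cfsg.Agent.Lib.PCore.pCore_normal 3 G
  constructor
  · ext w
    constructor
    · rintro ⟨hw, hr⟩
      refine ⟨hw, ?_⟩
      rw [h.inv hd]
      exact h.core_of_rel hd hw hr
    · rintro ⟨hw, hc⟩
      rw [h.inv hd] at hc
      exact ⟨hw, h.rel_of_core hd hw hc⟩
  · ext w
    constructor
    · rintro ⟨hw, hr⟩
      by_cases hdw : d = w
      · exact ⟨1, Subgroup.one_mem _, by rw [← hdw]; group⟩
      · have hcr : Rel D d w := hr
        have hnc := h.not_comm_of_rel hw hcr hdw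
        have hodd : Odd (orderOf (d * w)) := by
          rw [h.order_three hd hw hnc]
          decide
        obtain ⟨l, hl⟩ := Cfsg.Agent.Lib.ZStarThree.conj_odd (h.sq hd) (h.sq hw) hodd
        exact ⟨_, Subgroup.pow_mem _ (h.core_of_rel hd hw hcr) l, hl.symm⟩
    · rintro ⟨g, hg, rfl⟩
      have hwD := h.cj g d hd
      refine ⟨hwD, h.rel_of_core hd hwD ?_⟩
      have h1 := hPn.conj_mem g hg d
      have h2 := (Cfsg.pCore 3 G).mul_mem h1 ((Cfsg.pCore 3 G).inv_mem hg)
      have e : d * g * d⁻¹ * g⁻¹ = d * (g * d * g⁻¹) := by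
        rw [h.inv hd]
        group
      rwa [e] at h2

end Cfsg.Agent.Lib.ThreeTransNew
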