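/-
Presented form of the symmetric group of degree four, and the commuting structure of the 3-transposition class.
-/
import Mathlib
import Cfsg.Prelude.Def_SporadicB

set_option autoImplicit false
set_option linter.all false

open Cfsg

namespace Cfsg.Agent.Lib.ThreeTransS4

variable {G : Type*} [Group G]

/-- The Coxeter relations of type `A₃`. -/
structure CoxRel (s u t : G) : Prop where
  ss : s * s = 1
  uu : u * u = 1
  tt : t * t = 1
  ts0 : t * s = s * t
  usu0 : u * (s * u) = s * (u * s)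
  tut0 : t * (u * t) = u * (t * u)

namespace CoxRel

variable {s u t : G} (h : CoxRel s u t)
include h

theorem sinv : s⁻¹ = s := inv_eq_of_mul_eq_one_left h.ss
theorem uinv : u⁻¹ = u := inv_eq_of_mul_eq_one_left h.uu
theorem tinv : t⁻¹ = t := inv_eq_of_mul_eq_one_left h.tt
theorem ss' (w : G) : s * (s * w) = w := by rw [← mul_assoc, h.ss, one_mul]
theorem uu' (w : G) : u * (u * w) = w := by rw [← mul_assoc, h.uu, one_mul]
theorem tt' (w : G) : t * (t * w) = w := by rw [← mul_assoc, h.tt, one_mul]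
theorem ts' (w : G) : t * (s * w) = s * (t * w) := by
  rw [← mul_assoc, h.ts0, mul_assoc]
theorem usu' (w : G) : u * (s * (u * w)) = s * (u * (s * w)) := by
  have := congrArg (· * w) h.usu0
  simpa only [mul_assoc] using this
theorem tut' (w : G) : t * (u * (t * w)) = u * (t * (u * w)) := by
  have := congrArg (· * w) h.tut0
  simpa only [mul_assoc] using this
theorem r5' (w : G) : t * (u * (s * (t * w))) = u * (t * (u * (s * w))) := by
  have e1 : s * (t * w) = t * (s * w) := (h.ts' w).symm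
  rw [e1, h.tut']
theorem r50 : t * (u * (s * t)) = u * (t * (u * s)) := by
  have := h.r5' 1
  simpa only [mul_one] using this

end CoxRel

/-- The image of a set under conjugation. -/
def conjSet (g : G) (S : Set G) : Set G := (fun x => g * x * g⁻¹) '' S

theorem conjSet_one (S : Set G) : conjSet (1 : G) S = S := by simp [conjSet]

theorem conjSet_mul (g k : G) (S : Set G) : conjSet (g * k) S = conjSet g (conjSet k S) := by
  simp only [conjSet, Set.image_image]
  congr 1
  funext x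
  group

theorem conjSet_triple (g x y z : G) :
    conjSet g {x, y, z} = {g * x * g⁻¹, g * y * g⁻¹, g * z * g⁻¹} := by
  simp only [conjSet, Set.image_insert_eq, Set.image_singleton]

theorem fin4_cases : ∀ i : Fin 4, i = 0 ∨ i = 1 ∨ i = 2 ∨ i = 3 := by decide


theorem card_le_of_rel [Finite G] {s u t : G} (h : CoxRel s u t)
    (hgen : Subgroup.closure ({s, u, t} : Set G) = ⊤) : Nat.card G ≤ 24 := by
  classical
  have hN : ∀ g : G, (g = 1 ∨ g = (s * t) ∨ g = (u * (s * (t * u))) ∨ g = (s * (u * (s * (t * (u * s)))))) → (s * g * s = 1 ∨ s * g * s = (s * t) ∨ s * g * s = (u * (s * (t * u))) ∨ s * g * s = (s * (u * (s * (t * (u * s)))))) ∧ (u * g * u = 1 ∨ u * g * u = (s * t) ∨ u * g * u = (u * (s * (t * u))) ∨ u * g * u = (s * (u * (s * (t * (u * s)))))) ∧ (s * (t * g) = 1 ∨ s * (t * g) = (s * t) ∨ s * (t * g) = (u * (s * (t * u))) ∨ s * (t * g) = (s * (u * (s * (t * (u * s)))))) := by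
    rintro g (rfl|rfl|rfl|rfl)
    · exact ⟨Or.inl ((by simp only [mul_assoc, h.ss, h.uu, h.tt, h.ss', h.uu', h.tt', h.ts0, h.ts', h.usu0, h.usu', h.tut0, h.tut', h.r50, h.r5', h.sinv, h.uinv, h.tinv, mul_one, one_mul, inv_one] : s * 1 * s = 1)), Or.inl ((by simp only [mul_assoc, h.ss, h.uu, h.tt, h.ss', h.uu', h.tt', h.ts0, h.ts', h.usu0, h.usu', h.tut0, h.tut', h.r50, h.r5', h.sinv, h.uinv, h.tinv, mul_one, one_mul, inv_one] : u * 1 * u = 1)), Or.inr (Or.inl ((by simp only [mul_assoc, h.ss, h.uu, h.tt, h.ss', h.uu', h.tt', h.ts0, h.ts', h.usu0, h.usu', h.tut0, h.tut', h.r50, h.r5', h.sinv, h.uinv, h.tinv, mul_one, one_mul, inv_one] : s * (t * 1) = (s * t))))⟩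
    · exact ⟨Or.inr (Or.inl ((by simp only [mul_assoc, h.ss, h.uu, h.tt, h.ss', h.uu', h.tt', h.ts0, h.ts', h.usu0, h.usu', h.tut0, h.tut', h.r50, h.r5', h.sinv, h.uinv, h.tinv, mul_one, one_mul, inv_one] : s * (s * t) * s = (s * t)))), Or.inr (Or.inr (Or.inl ((by simp only [mul_assoc, h.ss, h.uu, h.tt, h.ss', h.uu', h.tt', h.ts0, h.ts', h.usu0, h.usu', h.tut0, h.tut', h.r50, h.r5', h.sinv, h.uinv, h.tinv, mul_one, one_mul, inv_one] : u * (s * t) * u = (u * (s * (t * u))))))), Or.inl ((by simp only [mul_assoc, h.ss, h.uu, h.tt, h.ss', h.uu', h.tt', h.ts0, h.ts', h.usu0, h.usu', h.tut0, h.tut', h.r50, h.r5', h.sinv, h.uinv, h.tinv, mul_one, one_mul, inv_one] : s * (t * (s * t)) = 1))⟩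
    · exact ⟨Or.inr (Or.inr (Or.inr ((by simp only [mul_assoc, h.ss, h.uu, h.tt, h.ss', h.uu', h.tt', h.ts0, h.ts', h.usu0, h.usu', h.tut0, h.tut', h.r50, h.r5', h.sinv, h.uinv, h.tinv, mul_one, one_mul, inv_one] : s * (u * (s * (t * u))) * s = (s * (u * (s * (t * (u * s))))))))), Or.inr (Or.inl ((by simp only [mul_assoc, h.ss, h.uu, h.tt, h.ss', h.uu', h.tt', h.ts0, h.ts', h.usu0, h.usu', h.tut0, h.tut', h.r50, h.r5', h.sinv, h.uinv, h.tinv, mul_one, one_mul, inv_one] : u * (u * (s * (t * u))) * u = (s * t)))), Or.inr (Or.inr (Or.inr ((by simp only [mul_assoc, h.ss, h.uu, h.tt, h.ss', h.uu', h.tt', h.ts0, h.ts', h.usu0, h.usu', h.tut0, h.tut', h.r50, h.r5', h.sinv, h.uinv, h.tinv, mul_one, one_mul, inv_one] : s * (t * (u * (s * (t * u)))) = (s * (u * (s * (t * (u * s)))))))))⟩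
    · exact ⟨Or.inr (Or.inr (Or.inl ((by simp only [mul_assoc, h.ss, h.uu, h.tt, h.ss', h.uu', h.tt', h.ts0, h.ts', h.usu0, h.usu', h.tut0, h.tut', h.r50, h.r5', h.sinv, h.uinv, h.tinv, mul_one, one_mul, inv_one] : s * (s * (u * (s * (t * (u * s))))) * s = (u * (s * (t * u))))))), Or.inr (Or.inr (Or.inr ((by simp only [mul_assoc, h.ss, h.uu, h.tt, h.ss', h.uu', h.tt', h.ts0, h.ts', h.usu0, h.usu', h.tut0, h.tut', h.r50, h.r5', h.sinv, h.uinv, h.tinv, mul_one, one_mul, inv_one] : u * (s * (u * (s * (t * (u * s))))) * u = (s * (u * (s * (t * (u * s))))))))), Or.inr (Or.inr (Or.inl ((by simp only [mul_assoc, h.ss, h.uu, h.tt, h.ss', h.uu', h.tt', h.ts0, h.ts', h.usu0, h.usu', h.tut0, h.tut', h.r50, h.r5', h.sinv, h.uinv, h.tinv, mul_one, one_mul, inv_one] : s * (t * (s * (u * (s * (t * (u * s)))))) = (u * (s * (t * u)))))))⟩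
  have hH : ∀ g : G, (g = 1 ∨ g = s ∨ g = u ∨ g = (s * (u * s)) ∨ g = (s * u) ∨ g = (u * s)) → (s * g = 1 ∨ s * g = s ∨ s * g = u ∨ s * g = (s * (u * s)) ∨ s * g = (s * u) ∨ s * g = (u * s)) ∧ (u * g = 1 ∨ u * g = s ∨ u * g = u ∨ u * g = (s * (u * s)) ∨ u * g = (s * u) ∨ u * g = (u * s)) := by
    rintro g (e|e|e|e|e|e) <;> rw [e]
    · exact ⟨Or.inr (Or.inl ((by simp only [mul_assoc, h.ss, h.uu, h.tt, h.ss', h.uu', h.tt', h.ts0, h.ts', h.usu0, h.usu', h.tut0, h.tut', h.r50, h.r5', h.sinv, h.uinv, h.tinv, mul_one, one_mul, inv_one] : s * 1 = s))), Or.inr (Or.inr (Or.inl ((by simp only [mul_assoc, h.ss, h.uu, h.tt, h.ss', h.uu', h.tt', h.ts0, h.ts', h.usu0, h.usu', h.tut0, h.tut', h.r50, h.r5', h.sinv, h.uinv, h.tinv, mul_one, one_mul, inv_one] : u * 1 = u))))⟩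
    · exact ⟨Or.inl ((by simp only [mul_assoc, h.ss, h.uu, h.tt, h.ss', h.uu', h.tt', h.ts0, h.ts', h.usu0, h.usu', h.tut0, h.tut', h.r50, h.r5', h.sinv, h.uinv, h.tinv, mul_one, one_mul, inv_one] : s * s = 1)), Or.inr (Or.inr (Or.inr (Or.inr (Or.inr ((by simp only [mul_assoc, h.ss, h.uu, h.tt, h.ss', h.uu', h.tt', h.ts0, h.ts', h.usu0, h.usu', h.tut0, h.tut', h.r50, h.r5', h.sinv, h.uinv, h.tinv, mul_one, one_mul, inv_one] : u * s = (u * s)))))))⟩
    · exact ⟨Or.inr (Or.inr (Or.inr (Or.inr (Or.inl ((by simp only [mul_assoc, h.ss, h.uu, h.tt, h.ss', h.uu', h.tt', h.ts0, h.ts', h.usu0, h.usu', h.tut0, h.tut', h.r50, h.r5', h.sinv, h.uinv, h.tinv, mul_one, one_mul, inv_one] : s * u = (s * u))))))), Or.inl ((by simp only [mul_assoc, h.ss, h.uu, h.tt, h.ss', h.uu', h.tt', h.ts0, h.ts', h.usu0, h.usu', h.tut0, h.tut', h.r50, h.r5', h.sinv, h.uinv, h.tinv, mul_one, one_mul, inv_one] : u * u = 1))⟩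
    · exact ⟨Or.inr (Or.inr (Or.inr (Or.inr (Or.inr ((by simp only [mul_assoc, h.ss, h.uu, h.tt, h.ss', h.uu', h.tt', h.ts0, h.ts', h.usu0, h.usu', h.tut0, h.tut', h.r50, h.r5', h.sinv, h.uinv, h.tinv, mul_one, one_mul, inv_one] : s * (s * (u * s)) = (u * s))))))), Or.inr (Or.inr (Or.inr (Or.inr (Or.inl ((by simp only [mul_assoc, h.ss, h.uu, h.tt, h.ss', h.uu', h.tt', h.ts0, h.ts', h.usu0, h.usu', h.tut0, h.tut', h.r50, h.r5', h.sinv, h.uinv, h.tinv, mul_one, one_mul, inv_one] : u * (s * (u * s)) = (s * u)))))))⟩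
    · exact ⟨Or.inr (Or.inr (Or.inl ((by simp only [mul_assoc, h.ss, h.uu, h.tt, h.ss', h.uu', h.tt', h.ts0, h.ts', h.usu0, h.usu', h.tut0, h.tut', h.r50, h.r5', h.sinv, h.uinv, h.tinv, mul_one, one_mul, inv_one] : s * (s * u) = u)))), Or.inr (Or.inr (Or.inr (Or.inl ((by simp only [mul_assoc, h.ss, h.uu, h.tt, h.ss', h.uu', h.tt', h.ts0, h.ts', h.usu0, h.usu', h.tut0, h.tut', h.r50, h.r5', h.sinv, h.uinv, h.tinv, mul_one, one_mul, inv_one] : u * (s * u) = (s * (u * s)))))))⟩
    · exact ⟨Or.inr (Or.inr (Or.inr (Or.inl ((by simp only [mul_assoc, h.ss, h.uu, h.tt, h.ss', h.uu', h.tt', h.ts0, h.ts', h.usu0, h.usu', h.tut0, h.tut', h.r50, h.r5', h.sinv, h.uinv, h.tinv, mul_one, one_mul, inv_one] : s * (u * s) = (s * (u * s))))))), Or.inr (Or.inl ((by simp only [mul_assoc, h.ss, h.uu, h.tt, h.ss', h.uu', h.tt', h.ts0, h.ts', h.usu0, h.usu', h.tut0, h.tut', h.r50, h.r5', h.sinv, h.uinv, h.tinv, mul_one, one_mul, inv_one] : u * (u * s) = s)))⟩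
  let P : G → Prop := fun g => ∃ n k, (n = 1 ∨ n = (s * t) ∨ n = (u * (s * (t * u))) ∨ n = (s * (u * (s * (t * (u * s)))))) ∧ (k = 1 ∨ k = s ∨ k = u ∨ k = (s * (u * s)) ∨ k = (s * u) ∨ k = (u * s)) ∧ g = n * k
  have P1 : P 1 := ⟨1, 1, Or.inl rfl, Or.inl rfl, by simp⟩
  have Ps : ∀ y, P y → P (s * y) := by
    rintro y ⟨n, k, hn, hk, rfl⟩
    refine ⟨s * n * s, s * k, (hN n hn).1, (hH k hk).1, ?_⟩
    simp only [mul_assoc, h.ss']
  have Pu : ∀ y, P y → P (u * y) := by
    rintro y ⟨n, k, hn, hk, rfl⟩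
    refine ⟨u * n * u, u * k, (hN n hn).2.1, (hH k hk).2, ?_⟩
    simp only [mul_assoc, h.uu']
  have Pp : ∀ y, P y → P (s * (t * y)) := by
    rintro y ⟨n, k, hn, hk, rfl⟩
    refine ⟨s * (t * n), k, (hN n hn).2.2, hk, ?_⟩
    simp only [mul_assoc]
  have Pt : ∀ y, P y → P (t * y) := by
    intro y hy
    have := Pp _ (Ps y hy)
    have e : s * (t * (s * y)) = t * y := by
      rw [h.ts', h.ss']
    rwa [e] at this
  have Pall : ∀ g : G, (∀ y, P y → P (g * y)) ∧ (∀ y, P y → P (g⁻¹ * y)) := by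
    intro g
    have hg : g ∈ Subgroup.closure ({s, u, t} : Set G) := by rw [hgen]; exact Subgroup.mem_top g
    induction hg using Subgroup.closure_induction with
    | mem x hx =>
      rcases hx with rfl | rfl | rfl
      · rw [h.sinv]; exact ⟨Ps, Ps⟩
      · rw [h.uinv]; exact ⟨Pu, Pu⟩
      · rw [h.tinv]; exact ⟨Pt, Pt⟩
    | one => simp
    | mul x y _ _ hx hy =>
      refine ⟨fun z hz => ?_, fun z hz => ?_⟩
      · rw [mul_assoc]; exact hx.1 _ (hy.1 _ hz)
      · rw [mul_inv_rev, mul_assoc]; exact hy.2 _ (hx.2 _ hz)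
    | inv x _ hx =>
      rw [inv_inv]; exact ⟨hx.2, hx.1⟩
  have Pg : ∀ g, P g := fun g => by
    have := (Pall g).1 1 P1
    rwa [mul_one] at this
  haveI := Fintype.ofFinite G
  let N₀ : Finset G := {1, (s * t), (u * (s * (t * u))), (s * (u * (s * (t * (u * s)))))}
  let H₀ : Finset G := {1, s, u, (s * (u * s)), (s * u), (u * s)}
  let T : Finset G := (N₀ ×ˢ H₀).image (fun x => x.1 * x.2)
  have hT : (Finset.univ : Finset G) ⊆ T := by
    intro g _
    obtain ⟨n, k, hn, hk, rfl⟩ := Pg g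
    refine Finset.mem_image.2 ⟨(n, k), Finset.mem_product.2 ⟨?_, ?_⟩, rfl⟩
    · simp only [N₀, Finset.mem_insert, Finset.mem_singleton]; exact hn
    · simp only [H₀, Finset.mem_insert, Finset.mem_singleton]; exact hk
  have hc : T.card ≤ 24 := by
    calc T.card ≤ (N₀ ×ˢ H₀).card := Finset.card_image_le
      _ = N₀.card * H₀.card := Finset.card_product _ _
      _ ≤ 4 * 6 := Nat.mul_le_mul Finset.card_le_four Finset.card_le_six
  rw [Nat.card_eq_fintype_card, ← Finset.card_univ]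
  exact (Finset.card_le_card hT).trans hc

/-- The four lines. -/
def lineFam (s u t : G) : Fin 4 → Set G :=
  ![{s, u, (s * (u * s))}, {s, (s * (t * (u * (t * s)))), (t * (u * t))}, {t, (s * (t * (u * (t * s)))), (s * (u * s))}, {t, u, (t * (u * t))}]

theorem tab_s {s u t : G} (h : CoxRel s u t) (i : Fin 4) :
    conjSet s (lineFam s u t i) = lineFam s u t ((Equiv.swap 2 3 : Equiv.Perm (Fin 4)) i) := by
  rcases fin4_cases i with rfl | rfl | rfl | rfl
  · rw [show ((Equiv.swap 2 3 : Equiv.Perm (Fin 4)) 0) = 0 by decide]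
    show conjSet s ({s, u, (s * (u * s))} : Set G) = ({s, u, (s * (u * s))} : Set G)
    rw [conjSet_triple, show s * s * s⁻¹ = s by simp only [mul_assoc, h.ss, h.uu, h.tt, h.ss', h.uu', h.tt', h.ts0, h.ts', h.usu0, h.usu', h.tut0, h.tut', h.r50, h.r5', h.sinv, h.uinv, h.tinv, mul_one, one_mul, inv_one], show s * u * s⁻¹ = (s * (u * s)) by simp only [mul_assoc, h.ss, h.uu, h.tt, h.ss', h.uu', h.tt', h.ts0, h.ts', h.usu0, h.usu', h.tut0, h.tut', h.r50, h.r5', h.sinv, h.uinv, h.tinv, mul_one, one_mul, inv_one], show s * (s * (u * s)) * s⁻¹ = u by simp only [mul_assoc, h.ss, h.uu, h.tt, h.ss', h.uu', h.tt', h.ts0, h.ts', h.usu0, h.usu', h.tut0, h.tut', h.r50, h.r5', h.sinv, h.uinv, h.tinv, mul_one, one_mul, inv_one]]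
    ext w
    simp only [Set.mem_insert_iff, Set.mem_singleton_iff]
    tauto
  · rw [show ((Equiv.swap 2 3 : Equiv.Perm (Fin 4)) 1) = 1 by decide]
    show conjSet s ({s, (s * (t * (u * (t * s)))), (t * (u * t))} : Set G) = ({s, (s * (t * (u * (t * s)))), (t * (u * t))} : Set G)
    rw [conjSet_triple, show s * s * s⁻¹ = s by simp only [mul_assoc, h.ss, h.uu, h.tt, h.ss', h.uu', h.tt', h.ts0, h.ts', h.usu0, h.usu', h.tut0, h.tut', h.r50, h.r5', h.sinv, h.uinv, h.tinv, mul_one, one_mul, inv_one], show s * (s * (t * (u * (t * s)))) * s⁻¹ = (t * (u * t)) by simp only [mul_assoc, h.ss, h.uu, h.tt, h.ss', h.uu', h.tt', h.ts0, h.ts', h.usu0, h.usu', h.tut0, h.tut', h.r50, h.r5', h.sinv, h.uinv, h.tinv, mul_one, one_mul, inv_one], show s * (t * (u * t)) * s⁻¹ = (s * (t * (u * (t * s)))) by simp only [mul_assoc, h.ss, h.uu, h.tt, h.ss', h.uu', h.tt', h.ts0, h.ts', h.usu0, h.usu', h.tut0, h.tut', h.r50, h.r5', h.sinv, h.uinv, h.tinv, mul_one, one_mul, inv_one]]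
    ext w
    simp only [Set.mem_insert_iff, Set.mem_singleton_iff]
    tauto
  · rw [show ((Equiv.swap 2 3 : Equiv.Perm (Fin 4)) 2) = 3 by decide]
    show conjSet s ({t, (s * (t * (u * (t * s)))), (s * (u * s))} : Set G) = ({t, u, (t * (u * t))} : Set G)
    rw [conjSet_triple, show s * t * s⁻¹ = t by simp only [mul_assoc, h.ss, h.uu, h.tt, h.ss', h.uu', h.tt', h.ts0, h.ts', h.usu0, h.usu', h.tut0, h.tut', h.r50, h.r5', h.sinv, h.uinv, h.tinv, mul_one, one_mul, inv_one], show s * (s * (t * (u * (t * s)))) * s⁻¹ = (t * (u * t)) by simp only [mul_assoc, h.ss, h.uu, h.tt, h.ss', h.uu', h.tt', h.ts0, h.ts', h.usu0, h.usu', h.tut0, h.tut', h.r50, h.r5', h.sinv, h.uinv, h.tinv, mul_one, one_mul, inv_one], show s * (s * (u * s)) * s⁻¹ = u by simp only [mul_assoc, h.ss, h.uu, h.tt, h.ss', h.uu', h.tt', h.ts0, h.ts', h.usu0, h.usu', h.tut0, h.tut', h.r50, h.r5', h.sinv, h.uinv, h.tinv, mul_one, one_mul, inv_one]]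
    ext w
    simp only [Set.mem_insert_iff, Set.mem_singleton_iff]
    tauto
  · rw [show ((Equiv.swap 2 3 : Equiv.Perm (Fin 4)) 3) = 2 by decide]
    show conjSet s ({t, u, (t * (u * t))} : Set G) = ({t, (s * (t * (u * (t * s)))), (s * (u * s))} : Set G)
    rw [conjSet_triple, show s * t * s⁻¹ = t by simp only [mul_assoc, h.ss, h.uu, h.tt, h.ss', h.uu', h.tt', h.ts0, h.ts', h.usu0, h.usu', h.tut0, h.tut', h.r50, h.r5', h.sinv, h.uinv, h.tinv, mul_one, one_mul, inv_one], show s * u * s⁻¹ = (s * (u * s)) by simp only [mul_assoc, h.ss, h.uu, h.tt, h.ss', h.uu', h.tt', h.ts0, h.ts', h.usu0, h.usu', h.tut0, h.tut', h.r50, h.r5', h.sinv, h.uinv, h.tinv, mul_one, one_mul, inv_one], show s * (t * (u * t)) * s⁻¹ = (s * (t * (u * (t * s)))) by simp only [mul_assoc, h.ss, h.uu, h.tt, h.ss', h.uu', h.tt', h.ts0, h.ts', h.usu0, h.usu', h.tut0, h.tut', h.r50, h.r5', h.sinv, h.uinv, h.tinv, mul_one, one_mul, inv_one]]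
    ext w
    simp only [Set.mem_insert_iff, Set.mem_singleton_iff]
    tauto
theorem tab_t {s u t : G} (h : CoxRel s u t) (i : Fin 4) :
    conjSet t (lineFam s u t i) = lineFam s u t ((Equiv.swap 0 1 : Equiv.Perm (Fin 4)) i) := by
  rcases fin4_cases i with rfl | rfl | rfl | rfl
  · rw [show ((Equiv.swap 0 1 : Equiv.Perm (Fin 4)) 0) = 1 by decide]
    show conjSet t ({s, u, (s * (u * s))} : Set G) = ({s, (s * (t * (u * (t * s)))), (t * (u * t))} : Set G)
    rw [conjSet_triple, show t * s * t⁻¹ = s by simp only [mul_assoc, h.ss, h.uu, h.tt, h.ss', h.uu', h.tt', h.ts0, h.ts', h.usu0, h.usu', h.tut0, h.tut', h.r50, h.r5', h.sinv, h.uinv, h.tinv, mul_one, one_mul, inv_one], show t * u * t⁻¹ = (t * (u * t)) by simp only [mul_assoc, h.ss, h.uu, h.tt, h.ss', h.uu', h.tt', h.ts0, h.ts', h.usu0, h.usu', h.tut0, h.tut', h.r50, h.r5', h.sinv, h.uinv, h.tinv, mul_one, one_mul, inv_one], show t * (s * (u * s)) * t⁻¹ = (s * (t * (u * (t * s)))) by simp only [mul_assoc,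 h.ss, h.uu, h.tt, h.ss', h.uu', h.tt', h.ts0, h.ts', h.usu0, h.usu', h.tut0, h.tut', h.r50, h.r5', h.sinv, h.uinv, h.tinv, mul_one, one_mul, inv_one]]
    ext w
    simp only [Set.mem_insert_iff, Set.mem_singleton_iff]
    tauto
  · rw [show ((Equiv.swap 0 1 : Equiv.Perm (Fin 4)) 1) = 0 by decide]
    show conjSet t ({s, (s * (t * (u * (t * s)))), (t * (u * t))} : Set G) = ({s, u, (s * (u * s))} : Set G)
    rw [conjSet_triple, show t * s * t⁻¹ = s by simp only [mul_assoc, h.ss, h.uu, h.tt, h.ss', h.uu', h.tt', h.ts0, h.ts', h.usu0, h.usu', h.tut0, h.tut', h.r50, h.r5', h.sinv, h.uinv, h.tinv, mul_one, one_mul, inv_one], show t * (s * (t * (u * (t * s)))) * t⁻¹ = (s * (u * s)) by simp only [mul_assoc, h.ss, h.uu, h.tt, h.ss', h.uu', h.tt', h.ts0, h.ts', h.usu0, h.usu', h.tut0, h.tut', h.r50, h.r5', h.sinv, h.uinv, h.tinv, mul_one, one_mul, inv_one], show t * (t * (u * t)) * t⁻¹ = u by simp only [mul_assoc, h.ss, h.uu, h.tt, h.ss', h.uu', h.tt', h.ts0, h.ts',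 h.usu0, h.usu', h.tut0, h.tut', h.r50, h.r5', h.sinv, h.uinv, h.tinv, mul_one, one_mul, inv_one]]
    ext w
    simp only [Set.mem_insert_iff, Set.mem_singleton_iff]
    tauto
  · rw [show ((Equiv.swap 0 1 : Equiv.Perm (Fin 4)) 2) = 2 by decide]
    show conjSet t ({t, (s * (t * (u * (t * s)))), (s * (u * s))} : Set G) = ({t, (s * (t * (u * (t * s)))), (s * (u * s))} : Set G)
    rw [conjSet_triple, show t * t * t⁻¹ = t by simp only [mul_assoc, h.ss, h.uu, h.tt, h.ss', h.uu', h.tt', h.ts0, h.ts', h.usu0, h.usu', h.tut0, h.tut', h.r50, h.r5', h.sinv, h.uinv, h.tinv, mul_one, one_mul, inv_one], show t * (s * (t * (u * (t * s)))) * t⁻¹ = (s * (u * s)) by simp only [mul_assoc, h.ss, h.uu, h.tt, h.ss', h.uu', h.tt', h.ts0, h.ts', h.usu0, h.usu', h.tut0, h.tut', h.r50, h.r5', h.sinv, h.uinv, h.tinv, mul_one, one_mul, inv_one], show t * (s * (u * s)) * t⁻¹ = (s * (t * (u * (t * s)))) by simp only [mul_assoc, h.ss, h.uu, h.tt, h.ss', h.uu', h.tt', h.ts0, h.ts',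 h.usu0, h.usu', h.tut0, h.tut', h.r50, h.r5', h.sinv, h.uinv, h.tinv, mul_one, one_mul, inv_one]]
    ext w
    simp only [Set.mem_insert_iff, Set.mem_singleton_iff]
    tauto
  · rw [show ((Equiv.swap 0 1 : Equiv.Perm (Fin 4)) 3) = 3 by decide]
    show conjSet t ({t, u, (t * (u * t))} : Set G) = ({t, u, (t * (u * t))} : Set G)
    rw [conjSet_triple, show t * t * t⁻¹ = t by simp only [mul_assoc, h.ss, h.uu, h.tt, h.ss', h.uu', h.tt', h.ts0, h.ts', h.usu0, h.usu', h.tut0, h.tut', h.r50, h.r5', h.sinv, h.uinv, h.tinv, mul_one, one_mul, inv_one], show t * u * t⁻¹ = (t * (u * t)) by simp only [mul_assoc, h.ss, h.uu, h.tt, h.ss', h.uu', h.tt', h.ts0, h.ts', h.usu0, h.usu', h.tut0, h.tut', h.r50, h.r5', h.sinv, h.uinv, h.tinv, mul_one, one_mul, inv_one], show t * (t * (u * t)) * t⁻¹ = u by simp only [mul_assoc, h.ss, h.uu, h.tt, h.ss', h.uu', h.tt', h.ts0, h.ts', h.usu0, h.usu', h.tut0, h.tut', h.r50, h.r5', h.sinv, h.uinv, h.tinv, mul_one, one_mul, inv_one]]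
    ext w
    simp only [Set.mem_insert_iff, Set.mem_singleton_iff]
    tauto
theorem tab_u {s u t : G} (h : CoxRel s u t) (i : Fin 4) :
    conjSet u (lineFam s u t i) = lineFam s u t ((Equiv.swap 1 2 : Equiv.Perm (Fin 4)) i) := by
  rcases fin4_cases i with rfl | rfl | rfl | rfl
  · rw [show ((Equiv.swap 1 2 : Equiv.Perm (Fin 4)) 0) = 0 by decide]
    show conjSet u ({s, u, (s * (u * s))} : Set G) = ({s, u, (s * (u * s))} : Set G)
    rw [conjSet_triple, show u * s * u⁻¹ = (s * (u * s)) by simp only [mul_assoc, h.ss, h.uu, h.tt, h.ss', h.uu', h.tt', h.ts0, h.ts', h.usu0, h.usu', h.tut0, h.tut', h.r50, h.r5', h.sinv, h.uinv, h.tinv, mul_one, one_mul, inv_one], show u * u * u⁻¹ = u by simp only [mul_assoc, h.ss, h.uu, h.tt, h.ss', h.uu', h.tt', h.ts0, h.ts', h.usu0, h.usu', h.tut0, h.tut', h.r50, h.r5', h.sinv, h.uinv, h.tinv, mul_one, one_mul, inv_one], show u * (s * (u * s)) * u⁻¹ = s by simp only [mul_assoc, h.ss, h.uu, h.tt, h.ss', h.uu', h.tt', h.ts0,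 h.ts', h.usu0, h.usu', h.tut0, h.tut', h.r50, h.r5', h.sinv, h.uinv, h.tinv, mul_one, one_mul, inv_one]]
    ext w
    simp only [Set.mem_insert_iff, Set.mem_singleton_iff]
    tauto
  · rw [show ((Equiv.swap 1 2 : Equiv.Perm (Fin 4)) 1) = 2 by decide]
    show conjSet u ({s, (s * (t * (u * (t * s)))), (t * (u * t))} : Set G) = ({t, (s * (t * (u * (t * s)))), (s * (u * s))} : Set G)
    rw [conjSet_triple, show u * s * u⁻¹ = (s * (u * s)) by simp only [mul_assoc, h.ss, h.uu, h.tt, h.ss', h.uu', h.tt', h.ts0, h.ts', h.usu0, h.usu', h.tut0, h.tut', h.r50, h.r5', h.sinv, h.uinv, h.tinv, mul_one, one_mul, inv_one], show u * (s * (t * (u * (t * s)))) * u⁻¹ = (s * (t * (u * (t * s)))) by simp only [mul_assoc, h.ss, h.uu, h.tt, h.ss', h.uu', h.tt', h.ts0, h.ts', h.usu0, h.usu', h.tut0, h.tut', h.r50, h.r5', h.sinv, h.uinv, h.tinv, mul_one, one_mul, inv_one], show u * (t * (u * t)) * u⁻¹ = t by simp only [mul_assoc, h.ss, h.uu, h.tt, h.ss', h.uu', h.tt', h.ts0,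 h.ts', h.usu0, h.usu', h.tut0, h.tut', h.r50, h.r5', h.sinv, h.uinv, h.tinv, mul_one, one_mul, inv_one]]
    ext w
    simp only [Set.mem_insert_iff, Set.mem_singleton_iff]
    tauto
  · rw [show ((Equiv.swap 1 2 : Equiv.Perm (Fin 4)) 2) = 1 by decide]
    show conjSet u ({t, (s * (t * (u * (t * s)))), (s * (u * s))} : Set G) = ({s, (s * (t * (u * (t * s)))), (t * (u * t))} : Set G)
    rw [conjSet_triple, show u * t * u⁻¹ = (t * (u * t)) by simp only [mul_assoc, h.ss, h.uu, h.tt, h.ss', h.uu', h.tt', h.ts0, h.ts', h.usu0, h.usu', h.tut0, h.tut', h.r50, h.r5', h.sinv, h.uinv, h.tinv, mul_one, one_mul, inv_one], show u * (s * (t * (u * (t * s)))) * u⁻¹ = (s * (t * (u * (t * s)))) by simp only [mul_assoc, h.ss, h.uu, h.tt, h.ss', h.uu', h.tt', h.ts0, h.ts', h.usu0, h.usu', h.tut0, h.tut', h.r50, h.r5', h.sinv, h.uinv, h.tinv, mul_one, one_mul, inv_one], show u * (s * (u * s)) * u⁻¹ = s by simp only [mul_assoc, h.ss, h.uu, h.tt, h.ss', h.uu', h.tt', h.ts0,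 h.ts', h.usu0, h.usu', h.tut0, h.tut', h.r50, h.r5', h.sinv, h.uinv, h.tinv, mul_one, one_mul, inv_one]]
    ext w
    simp only [Set.mem_insert_iff, Set.mem_singleton_iff]
    tauto
  · rw [show ((Equiv.swap 1 2 : Equiv.Perm (Fin 4)) 3) = 3 by decide]
    show conjSet u ({t, u, (t * (u * t))} : Set G) = ({t, u, (t * (u * t))} : Set G)
    rw [conjSet_triple, show u * t * u⁻¹ = (t * (u * t)) by simp only [mul_assoc, h.ss, h.uu, h.tt, h.ss', h.uu', h.tt', h.ts0, h.ts', h.usu0, h.usu', h.tut0, h.tut', h.r50, h.r5', h.sinv, h.uinv, h.tinv, mul_one, one_mul, inv_one], show u * u * u⁻¹ = u by simp only [mul_assoc, h.ss, h.uu, h.tt, h.ss', h.uu', h.tt', h.ts0, h.ts', h.usu0, h.usu', h.tut0, h.tut', h.r50, h.r5', h.sinv, h.uinv, h.tinv, mul_one, one_mul, inv_one], show u * (t * (u * t)) * u⁻¹ = t by simp only [mul_assoc, h.ss, h.uu, h.tt, h.ss', h.uu', h.tt', h.ts0, h.ts', h.usu0, h.usu', h.tut0, h.tut', h.r50, h.r5', h.sinv, h.uinv, h.tinv, mul_one, one_mul, inv_one]]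
    ext w
    simp only [Set.mem_insert_iff, Set.mem_singleton_iff]
    tauto

namespace CoxRel

theorem symm {s u t : G} (h : CoxRel s u t) : CoxRel t u s where
  ss := h.tt
  uu := h.uu
  tt := h.ss
  ts0 := h.ts0.symm
  usu0 := h.tut0.symm
  tut0 := h.usu0.symm

theorem eq_of_comm {s u t : G} (h : CoxRel s u t) (hc : u * s = s * u) : s = u := by
  have e := h.usu0
  rw [← hc, h.uu', hc, h.ss'] at e
  exact e

end CoxRel

theorem iso_of_rel [Finite G] {s u t : G} (h : CoxRel s u t) (hst : s ≠ t) (hsu : s ≠ u)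
    (hgen : Subgroup.closure ({s, u, t} : Set G) = ⊤) : Nonempty (G ≃* Equiv.Perm (Fin 4)) := by
  classical
  have hus : u ≠ s := hsu.symm
  have hut : u ≠ t := by
    intro e
    apply hsu
    apply h.eq_of_comm
    have h1 := h.ts0
    rw [← e] at h1
    exact h1
  have huc : u ≠ s * (u * s) := by
    intro e
    apply hsu
    apply h.eq_of_comm
    calc u * s = s * (s * (u * s)) := (h.ss' _).symm
      _ = s * u := by rw [← e]
  have hsc : s ≠ s * (u * s) := by
    intro e
    have e1 : u * s = 1 := left_eq_mul.1 e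
    apply hus
    have e2 := eq_inv_of_mul_eq_one_left e1
    rwa [h.sinv] at e2
  have huc' : u ≠ t * (u * t) := by
    intro e
    apply hut.symm
    apply h.symm.eq_of_comm
    calc u * t = t * (t * (u * t)) := (h.tt' _).symm
      _ = t * u := by rw [← e]
  have hsc' : s ≠ t * (u * t) := by
    intro e
    apply hus
    have e1 : t * (s * t) = s := by rw [h.ts', h.tt, mul_one]
    have e2 : t * (s * t) = u := by
      rw [e]
      simp only [mul_assoc, h.tt', h.tt, mul_one]
    exact e2.symm.trans e1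
  have hsb' : s ≠ s * (t * (u * (t * s))) := by
    intro e
    have e1 : t * (u * (t * s)) = 1 := left_eq_mul.1 e
    have e2 : t * (u * t) * s = 1 := by simpa only [mul_assoc] using e1
    have e3 := eq_inv_of_mul_eq_one_left e2
    rw [h.sinv] at e3
    exact hsc' e3.symm
  have hub' : u ≠ s * (t * (u * (t * s))) := by
    intro e
    have e1 : s * (u * s) = t * (u * t) := by
      calc s * (u * s) = s * ((s * (t * (u * (t * s)))) * s) := congrArg (fun w => s * (w * s)) e
        _ = t * (u * t) := by simp only [mul_assoc, h.ss', h.ss, mul_one]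
    rw [← h.usu0, h.tut0] at e1
    have e2 : s * u = t * u := mul_left_cancel e1
    exact hst (mul_right_cancel e2)
  have hsep : ∀ {x : G} {i j : Fin 4}, x ∈ lineFam s u t i → x ∉ lineFam s u t j →
      lineFam s u t i ≠ lineFam s u t j := by
    intro x i j hi hj e
    rw [e] at hi
    exact hj hi
  have h01 : lineFam s u t 0 ≠ lineFam s u t 1 := by
    refine hsep (x := u) ?_ ?_
    · show u ∈ ({s, u, (s * (u * s))} : Set G)
      simp
    · show u ∉ ({s, (s * (t * (u * (t * s)))), (t * (u * t))} : Set G)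
      simp only [Set.mem_insert_iff, Set.mem_singleton_iff, not_or]
      exact ⟨hus, hub', huc'⟩
  have h02 : lineFam s u t 0 ≠ lineFam s u t 2 := by
    refine hsep (x := s) ?_ ?_
    · show s ∈ ({s, u, (s * (u * s))} : Set G)
      simp
    · show s ∉ ({t, (s * (t * (u * (t * s)))), (s * (u * s))} : Set G)
      simp only [Set.mem_insert_iff, Set.mem_singleton_iff, not_or]
      exact ⟨hst, hsb', hsc⟩
  have h03 : lineFam s u t 0 ≠ lineFam s u t 3 := by
    refine hsep (x := s) ?_ ?_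
    · show s ∈ ({s, u, (s * (u * s))} : Set G)
      simp
    · show s ∉ ({t, u, (t * (u * t))} : Set G)
      simp only [Set.mem_insert_iff, Set.mem_singleton_iff, not_or]
      exact ⟨hst, hsu, hsc'⟩
  have h12 : lineFam s u t 1 ≠ lineFam s u t 2 := by
    refine hsep (x := s) ?_ ?_
    · show s ∈ ({s, (s * (t * (u * (t * s)))), (t * (u * t))} : Set G)
      simp
    · show s ∉ ({t, (s * (t * (u * (t * s)))), (s * (u * s))} : Set G)
      simp only [Set.mem_insert_iff, Set.mem_singleton_iff, not_or]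
      exact ⟨hst, hsb', hsc⟩
  have h13 : lineFam s u t 1 ≠ lineFam s u t 3 := by
    refine hsep (x := s) ?_ ?_
    · show s ∈ ({s, (s * (t * (u * (t * s)))), (t * (u * t))} : Set G)
      simp
    · show s ∉ ({t, u, (t * (u * t))} : Set G)
      simp only [Set.mem_insert_iff, Set.mem_singleton_iff, not_or]
      exact ⟨hst, hsu, hsc'⟩
  have h32 : lineFam s u t 3 ≠ lineFam s u t 2 := by
    refine hsep (x := u) ?_ ?_
    · show u ∈ ({t, u, (t * (u * t))} : Set G)
      simp
    · show u ∉ ({t, (s * (t * (u * (t * s)))), (s * (u * s))} : Set G)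
      simp only [Set.mem_insert_iff, Set.mem_singleton_iff, not_or]
      exact ⟨hut, hub', huc⟩
  have Linj : Function.Injective (lineFam s u t) := by
    intro i j hij
    rcases fin4_cases i with rfl | rfl | rfl | rfl <;> rcases fin4_cases j with rfl | rfl | rfl | rfl
    · rfl
    · exact absurd hij h01
    · exact absurd hij h02
    · exact absurd hij h03
    · exact absurd hij.symm h01
    · rfl
    · exact absurd hij h12
    · exact absurd hij h13
    · exact absurd hij.symm h02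
    · exact absurd hij.symm h12
    · rfl
    · exact absurd hij.symm h32
    · exact absurd hij.symm h03
    · exact absurd hij.symm h13
    · exact absurd hij h32
    · rfl
  have hstab : ∀ g : G, (∀ i, ∃ j, conjSet g (lineFam s u t i) = lineFam s u t j) ∧
      (∀ i, ∃ j, conjSet g⁻¹ (lineFam s u t i) = lineFam s u t j) := by
    intro g
    have hg : g ∈ Subgroup.closure ({s, u, t} : Set G) := by rw [hgen]; exact Subgroup.mem_top g
    induction hg using Subgroup.closure_induction with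
    | mem x hx =>
      rcases hx with e | e | e
      · rw [e, h.sinv]
        exact ⟨fun i => ⟨_, tab_s h i⟩, fun i => ⟨_, tab_s h i⟩⟩
      · rw [e, h.uinv]
        exact ⟨fun i => ⟨_, tab_u h i⟩, fun i => ⟨_, tab_u h i⟩⟩
      · rw [e, h.tinv]
        exact ⟨fun i => ⟨_, tab_t h i⟩, fun i => ⟨_, tab_t h i⟩⟩
    | one =>
      rw [inv_one, ]
      exact ⟨fun i => ⟨i, conjSet_one _⟩, fun i => ⟨i, conjSet_one _⟩⟩
    | mul x y _ _ hx hy =>
      refine ⟨fun i => ?_, fun i => ?_⟩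
      · obtain ⟨j, hj⟩ := hy.1 i
        obtain ⟨k, hk⟩ := hx.1 j
        exact ⟨k, by rw [conjSet_mul, hj, hk]⟩
      · obtain ⟨j, hj⟩ := hx.2 i
        obtain ⟨k, hk⟩ := hy.2 j
        exact ⟨k, by rw [mul_inv_rev, conjSet_mul, hj, hk]⟩
    | inv x _ hx =>
      rw [inv_inv]
      exact ⟨hx.2, hx.1⟩
  choose f hf using fun g => (hstab g).1
  have f_mul : ∀ g k i, f (g * k) i = f g (f k i) := by
    intro g k i
    apply Linj
    rw [← hf, conjSet_mul, hf k, hf g]
  have f_one : ∀ i, f 1 i = i := by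
    intro i
    apply Linj
    rw [← hf, conjSet_one]
  let φ : G →* Equiv.Perm (Fin 4) := MonoidHom.mk'
    (fun g => ⟨f g, f g⁻¹, fun i => by rw [← f_mul, inv_mul_cancel, f_one],
      fun i => by rw [← f_mul, mul_inv_cancel, f_one]⟩)
    (fun g k => Equiv.ext fun i => f_mul g k i)
  have φs : φ s = Equiv.swap 2 3 := Equiv.ext fun i => Linj (by
    show lineFam s u t (f s i) = _
    rw [← hf, tab_s h])
  have φt : φ t = Equiv.swap 0 1 := Equiv.ext fun i => Linj (by
    show lineFam s u t (f t i) = _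
    rw [← hf, tab_t h])
  have φu : φ u = Equiv.swap 1 2 := Equiv.ext fun i => Linj (by
    show lineFam s u t (f u i) = _
    rw [← hf, tab_u h])
  have hrange : MonoidHom.mrange φ = ⊤ := by
    rw [eq_top_iff, ← Equiv.Perm.mclosure_swap_castSucc_succ 3, Submonoid.closure_le]
    rintro _ ⟨i, rfl⟩
    have hi : ∀ i : Fin 3, i = 0 ∨ i = 1 ∨ i = 2 := by decide
    rcases hi i with rfl | rfl | rfl
    · exact ⟨t, φt⟩
    · exact ⟨u, φu⟩
    · exact ⟨s, φs⟩
  have hsurj : Function.Surjective φ := MonoidHom.mrange_eq_top.1 hrange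
  have hcard : Nat.card G ≤ Nat.card (Equiv.Perm (Fin 4)) := by
    have h1 := card_le_of_rel h hgen
    have h2 : Nat.card (Equiv.Perm (Fin 4)) = 24 := by
      rw [Nat.card_eq_fintype_card, Fintype.card_perm, Fintype.card_fin]
      rfl
    omega
  exact ⟨MulEquiv.ofBijective φ (hsurj.bijective_of_nat_card_le hcard)⟩

/-! ### The commuting structure of the class -/

/-- The facts about a class of 3-transpositions with partners. -/
structure Setup (D : Set G) : Prop where
  inv : ∀ x ∈ D, x * x = 1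
  conj : ∀ g : G, ∀ x ∈ D, g * x * g⁻¹ ∈ D
  braid : ∀ x ∈ D, ∀ y ∈ D, ¬ Commute x y → x * (y * x) = y * (x * y)
  part : ∀ x ∈ D, ∃ x' ∈ D, x' ≠ x ∧ Commute x x' ∧ (∀ y ∈ D, Commute x y → y = x ∨ y = x') ∧
    (∀ e ∈ D, Commute x' e ↔ Commute x e)

/-- Two different commuting members. -/
def IsPair (D : Set G) (x x' : G) : Prop := x ∈ D ∧ x' ∈ D ∧ x ≠ x' ∧ Commute x x'

section Pairs

variable {D : Set G} (S : Setup D)
include S

theorem pair_same {x x' : G} (hp : IsPair D x x') {e : G} (he : e ∈ D) :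
    Commute x' e ↔ Commute x e := by
  obtain ⟨hx, hx', hne, hc⟩ := hp
  obtain ⟨x'', -, hne', -, hu, hsame⟩ := S.part x hx
  rcases hu x' hx' hc with h1 | h1
  · exact absurd h1.symm hne
  · rw [h1]
    exact hsame e he

theorem pair_uniq {x x' : G} (hp : IsPair D x x') {y : G} (hy : y ∈ D) (hc : Commute x y) :
    y = x ∨ y = x' := by
  obtain ⟨hx, hx', hne, hc'⟩ := hp
  obtain ⟨x'', -, hne', -, hu, hsame⟩ := S.part x hx
  rcases hu x' hx' hc' with h1 | h1
  · exact absurd h1.symm hne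
  · rw [h1]
    exact hu y hy hc

theorem coxRel_of_pair {x x' y : G} (hp : IsPair D x x') (hy : y ∈ D) (hxy : ¬ Commute x y) :
    CoxRel x y x' := by
  have hx'y : ¬ Commute x' y := fun h => hxy ((pair_same S hp hy).1 h)
  refine ⟨S.inv _ hp.1, S.inv _ hy, S.inv _ hp.2.1, hp.2.2.2.eq.symm, ?_, ?_⟩
  · exact (S.braid x hp.1 y hy hxy).symm
  · exact S.braid x' hp.2.1 y hy hx'y

theorem pair_conj {x x' y : G} (hp : IsPair D x x') (hy : y ∈ D) (hxy : ¬ Commute x y) :
    IsPair D y (x * (x' * (y * (x' * x)))) := by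
  have h := coxRel_of_pair S hp hy hxy
  have hne : x ≠ x' := hp.2.2.1
  refine ⟨hy, ?_, ?_, ?_⟩
  · have := S.conj (x * x') y hy
    rw [mul_inv_rev, h.sinv, h.tinv] at this
    simpa only [mul_assoc] using this
  · intro e
    have e1 : x * (y * x) = x' * (y * x') := by
      calc x * (y * x) = x * ((x * (x' * (y * (x' * x)))) * x) :=
            congrArg (fun w => x * (w * x)) e
        _ = x' * (y * x') := by simp only [mul_assoc, h.ss', h.ss, mul_one]
    rw [← h.usu0, h.tut0] at e1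
    have e2 : x * y = x' * y := mul_left_cancel e1
    exact hne (mul_right_cancel e2)
  · show y * (x * (x' * (y * (x' * x)))) = (x * (x' * (y * (x' * x)))) * y
    simp only [mul_assoc, h.ss, h.uu, h.tt, h.ss', h.uu', h.tt', h.ts0, h.ts', h.usu0, h.usu', h.tut0, h.tut', h.r50, h.r5', mul_one, one_mul]

theorem no_double {x x' y : G} (hp : IsPair D x x') (hy : y ∈ D) (hxy : ¬ Commute x y) :
    x * (y * x) ≠ x' * (y * x') := by
  have h := coxRel_of_pair S hp hy hxy
  intro e1
  rw [← h.usu0, h.tut0] at e1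
  have e2 : x * y = x' * y := mul_left_cancel e1
  exact hp.2.2.1 (mul_right_cancel e2)

/-- The key count: at most three pairs. -/
theorem three_pairs {a a' b x : G} (hp : IsPair D a a') (hb : b ∈ D) (hab : ¬ Commute a b)
    (hx : x ∈ D) (h1 : x ≠ a) (h2 : x ≠ a') (h3 : x ≠ b)
    (h4 : x ≠ a * (a' * (b * (a' * a)))) : b * (x * b) = a ∨ b * (x * b) = a' := by
  by_contra hcon
  rw [not_or] at hcon
  obtain ⟨hw1, hw2⟩ := hcon
  set b' := a * (a' * (b * (a' * a))) with hb'
  have hpb : IsPair D b b' := pair_conj S hp hb hab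
  have haa : ∀ w, a * (a * w) = w := fun w => by rw [← mul_assoc, S.inv a hp.1, one_mul]
  have ha'a' : ∀ w, a' * (a' * w) = w := fun w => by rw [← mul_assoc, S.inv a' hp.2.1, one_mul]
  have hbb : ∀ w, b * (b * w) = w := fun w => by rw [← mul_assoc, S.inv b hb, one_mul]
  have hb'b' : ∀ w, b' * (b' * w) = w := fun w => by rw [← mul_assoc, S.inv b' hpb.2.1, one_mul]
  have hbinv : b * b = 1 := S.inv b hb
  have hb'inv : b' * b' = 1 := S.inv b' hpb.2.1
  have hbc : ∀ w, b' * (b * w) = b * (b' * w) := fun w => by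
    rw [← mul_assoc, hpb.2.2.2.eq.symm, mul_assoc]
  have hbc0 : b' * b = b * b' := hpb.2.2.2.eq.symm
  -- every other member: the two partners agree
  have hpart : ∀ y ∈ D, y ≠ a → y ≠ a' → y ≠ b → y ≠ b' →
      a * (a' * (y * (a' * a))) = b * (b' * (y * (b' * b))) := by
    intro y hy y1 y2 y3 y4
    have hay : ¬ Commute a y := fun hc => by
      rcases pair_uniq S hp hy hc with e | e
      · exact y1 e
      · exact y2 e
    have hby : ¬ Commute b y := fun hc => by
      rcases pair_uniq S hpb hy hc with e | e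
      · exact y3 e
      · exact y4 e
    have p1 := pair_conj S hp hy hay
    have p2 := pair_conj S hpb hy hby
    rcases pair_uniq S p1 p2.2.1 p2.2.2.2 with e | e
    · exact absurd e.symm p2.2.2.1
    · exact e.symm
  have hxb : ¬ Commute b x := fun hc => by
    rcases pair_uniq S hpb hx hc with e | e
    · exact h3 e
    · exact h4 e
  have hw : b * (x * b) ∈ D := by
    have := S.conj b x hx
    rw [(inv_eq_of_mul_eq_one_left hbinv : b⁻¹ = b)] at this
    simpa only [mul_assoc] using this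
  have hw3 : b * (x * b) ≠ b := by
    intro e
    apply h3
    calc x = b * (b * (x * (b * b))) := by rw [hbb, hbinv, mul_one]
      _ = b * (b * (x * b) * b) := by simp only [mul_assoc]
      _ = b := by rw [e, hbinv, mul_one]
  have hw4 : b * (x * b) ≠ b' := by
    intro e
    apply h4
    calc x = b * (b * (x * b) * b) := by
          simp only [mul_assoc]
          rw [hbb, hbinv, mul_one]
      _ = b * (b' * b) := by rw [e]
      _ = b' := by rw [← hbc, hbinv, mul_one]
  have e1 := hpart x hx h1 h2 h3 h4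
  have e2 := hpart _ hw hw1 hw2 hw3 hw4
  -- the element `w` is fixed by the first involution
  have e3 : a * (a' * ((b * (x * b)) * (a' * a))) =
      b' * ((a * (a' * (x * (a' * a)))) * b') := by
    rw [hb']
    simp only [mul_assoc, haa, ha'a']
  have e4 : b' * ((a * (a' * (x * (a' * a)))) * b') = b * (x * b) := by
    rw [e1]
    simp only [mul_assoc, hb'b', hbc, hbc0, hbb, hb'inv, mul_one]
  have e5 : b * (b' * ((b * (x * b)) * (b' * b))) = b' * (x * b') := by
    simp only [mul_assoc, hbb, hbc, hbc0, hbinv, mul_one]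
  have e6 : b * (x * b) = b' * (x * b') := by
    calc b * (x * b) = b' * ((a * (a' * (x * (a' * a)))) * b') := e4.symm
      _ = a * (a' * ((b * (x * b)) * (a' * a))) := e3.symm
      _ = b * (b' * ((b * (x * b)) * (b' * b))) := e2
      _ = b' * (x * b') := e5
  exact no_double S hpb hx hxb e6

end Pairs

theorem iso_of_setup [Finite G] {D : Set G} (S : Setup D) (hgen : Subgroup.closure D = ⊤)
    {a : G} (ha : a ∈ D) (hbx : ∃ b ∈ D, ¬ Commute a b) : Nonempty (G ≃* Equiv.Perm (Fin 4)) := by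
  classical
  obtain ⟨b, hb, hab⟩ := hbx
  obtain ⟨a', ha', hne, hc, -, -⟩ := S.part a ha
  have hp : IsPair D a a' := ⟨ha, ha', hne.symm, hc⟩
  have h := coxRel_of_pair S hp hb hab
  refine iso_of_rel h hne.symm ?_ ?_
  · rintro e
    apply hab
    rw [← e]
  · rw [eq_top_iff, ← hgen, Subgroup.closure_le]
    intro x hx
    set K := Subgroup.closure ({a, b, a'} : Set G) with hK
    have haK : a ∈ K := Subgroup.subset_closure (by simp)
    have hbK : b ∈ K := Subgroup.subset_closure (by simp)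
    have ha'K : a' ∈ K := Subgroup.subset_closure (by simp)
    by_cases h1 : x = a
    · rw [h1]; exact haK
    by_cases h2 : x = a'
    · rw [h2]; exact ha'K
    by_cases h3 : x = b
    · rw [h3]; exact hbK
    by_cases h4 : x = a * (a' * (b * (a' * a)))
    · rw [h4]
      exact K.mul_mem haK (K.mul_mem ha'K (K.mul_mem hbK (K.mul_mem ha'K haK)))
    have e : x = b * ((b * (x * b)) * b) := by
      simp only [mul_assoc, h.uu', h.uu, mul_one]
    have hw : b * (x * b) ∈ K := by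
      rcases three_pairs S hp hb hab hx h1 h2 h3 h4 with e' | e' <;> rw [e']
      · exact haK
      · exact ha'K
    show x ∈ K
    rw [e]
    exact K.mul_mem hbK (K.mul_mem hw hbK)

/-- The statement's hypotheses give the set-up. -/
theorem setup_of_class {D : Set G} (hD : IsThreeTranspositionClass D) {d : G} (hd : d ∈ D)
    (hV : {y : G | y ∈ D ∧ Commute d y} = {v : G | v ∈ D ∧ ∀ e ∈ D, Commute v e ↔ Commute d e})
    (hm : {y : G | y ∈ D ∧ Commute d y}.ncard = 2) : Setup D := by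
  obtain ⟨⟨hord, hthree⟩, ⟨d₀, hd₀, hcl⟩, -⟩ := hD
  have hinv : ∀ x ∈ D, x * x = 1 := by
    intro x hx
    have := pow_orderOf_eq_one x
    rw [hord x hx, pow_two] at this
    exact this
  have hconj : ∀ g : G, ∀ x ∈ D, g * x * g⁻¹ ∈ D := by
    intro g x hx
    rw [hcl] at hx ⊢
    exact IsConj.trans hx (isConj_iff.2 ⟨g, rfl⟩)
  have hbraid : ∀ x ∈ D, ∀ y ∈ D, ¬ Commute x y → x * (y * x) = y * (x * y) := by
    intro x hx y hy hxy
    rcases hthree x hx y hy with h | h
    · exfalso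
      apply hxy
      have h1 : x * y * (x * y) = 1 := by rw [← pow_two]; exact h
      have h2 : x * y = (x * y)⁻¹ := eq_inv_of_mul_eq_one_left h1
      rw [mul_inv_rev, inv_eq_of_mul_eq_one_left (hinv x hx), inv_eq_of_mul_eq_one_left (hinv y hy)] at h2
      exact h2
    · have h1 : x * (y * x) * (y * (x * y)) = 1 := by
        have e : (x * y) ^ 3 = x * (y * x) * (y * (x * y)) := by
          rw [pow_succ, pow_two]
          simp only [mul_assoc]
        rw [← e]
        exact h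
      have h2 := eq_inv_of_mul_eq_one_left h1
      rw [h2, mul_inv_rev, mul_inv_rev, inv_eq_of_mul_eq_one_left (hinv x hx),
        inv_eq_of_mul_eq_one_left (hinv y hy), mul_assoc]
  -- the partner of `d`
  obtain ⟨p, q, hpq, hset⟩ := Set.ncard_eq_two.1 hm
  have hdmem : d ∈ ({p, q} : Set G) := by
    rw [← hset]
    exact ⟨hd, Commute.refl d⟩
  obtain ⟨d', hd'set, hne, hall⟩ : ∃ d', d' ∈ {y : G | y ∈ D ∧ Commute d y} ∧ d' ≠ d ∧
      ∀ y ∈ D, Commute d y → y = d ∨ y = d' := by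
    rcases hdmem with e | e
    · refine ⟨q, by rw [hset]; simp, ?_, ?_⟩
      · rw [e]; exact hpq.symm
      · intro y hy hc
        have : y ∈ ({p, q} : Set G) := by rw [← hset]; exact ⟨hy, hc⟩
        rcases this with e' | e'
        · left; rw [e', e]
        · right; exact e'
    · have e'' : d = q := e
      refine ⟨p, by rw [hset]; simp, ?_, ?_⟩
      · rw [e'']; exact hpq
      · intro y hy hc
        have : y ∈ ({p, q} : Set G) := by rw [← hset]; exact ⟨hy, hc⟩
        rcases this with e' | e'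
        · right; exact e'
        · left; rw [e'', show y = q from e']
  have hd'V := hd'set
  rw [hV] at hd'V
  obtain ⟨hd'D, hsame⟩ := hd'V
  obtain ⟨-, hdd'⟩ := hd'set
  refine ⟨hinv, hconj, hbraid, ?_⟩
  intro x hx
  -- transport by conjugation
  have hdx : IsConj d x := by
    have h1 : IsConj d₀ d := by
      rw [hcl] at hd
      exact hd
    have h2 : IsConj d₀ x := by
      rw [hcl] at hx
      exact hx
    exact h1.symm.trans h2
  obtain ⟨g, rfl⟩ := isConj_iff.1 hdx
  have hcomm : ∀ u v : G, Commute (g * u * g⁻¹) (g * v * g⁻¹) ↔ Commute u v := by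
    intro u v
    constructor
    · intro h
      have h1 : g * u * g⁻¹ * (g * v * g⁻¹) = g * (u * v) * g⁻¹ := by group
      have h2 : g * v * g⁻¹ * (g * u * g⁻¹) = g * (v * u) * g⁻¹ := by group
      have h3 := h.eq
      rw [h1, h2] at h3
      have h4 := mul_left_cancel (mul_right_cancel h3)
      exact h4
    · intro h
      have h1 : g * u * g⁻¹ * (g * v * g⁻¹) = g * (u * v) * g⁻¹ := by group
      have h2 : g * v * g⁻¹ * (g * u * g⁻¹) = g * (v * u) * g⁻¹ := by group
      show _ = _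
      rw [h1, h2, h.eq]
  have hback : ∀ y ∈ D, g⁻¹ * y * g ∈ D := by
    intro y hy
    have := hconj g⁻¹ y hy
    rwa [inv_inv] at this
  have hrec : ∀ y, g * (g⁻¹ * y * g) * g⁻¹ = y := by
    intro y
    group
  refine ⟨g * d' * g⁻¹, hconj g d' hd'D, ?_, (hcomm _ _).2 hdd', ?_, ?_⟩
  · intro e
    exact hne (mul_left_cancel (mul_right_cancel e))
  · intro y hy hc
    have hc' : Commute d (g⁻¹ * y * g) := (hcomm d _).1 (by rw [hrec]; exact hc)
    rcases hall _ (hback y hy) hc' with e | e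
    · left
      rw [← hrec y, e]
    · right
      rw [← hrec y, e]
  · intro e he
    have h1 := hsame _ (hback e he)
    have a1 := hcomm d' (g⁻¹ * e * g)
    have a2 := hcomm d (g⁻¹ * e * g)
    rw [hrec] at a1 a2
    rw [a1, a2]
    exact h1

end Cfsg.Agent.Lib.ThreeTransS4
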