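import Mathlib
import Cfsg.Prelude
import Cfsg.Agent.Lib.BestOff
import Cfsg.Agent.Lib.ThompsonBasic
import Cfsg.Agent.Lib.LargeExtra

/-! The Timmesfeld replacement theorem. -/

set_option autoImplicit false
set_option linter.all false

namespace Cfsg.Agent.Lib.Timmesfeld

open Subgroup Cfsg Cfsg.Agent.Lib.BestOff
open scoped commutatorElement

variable {G : Type*} [Group G] [Finite G] {p : ℕ}

/-- Two maximizers of the `dl` function. -/
theorem inter_good {V M₁ M₂ : Subgroup G} {D : ℕ} (hD1 : dl V M₁ = D) (hD2 : dl V M₂ = D)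
    (hle1 : dl V (M₁ ⊓ M₂) ≤ D) (hle2 : dl V (M₁ ⊔ M₂) ≤ D) :
    dl V (M₁ ⊓ M₂) = D ∧ V ⊓ centralizer ((M₁ ⊓ M₂ : Subgroup G) : Set G) =
      (V ⊓ centralizer (M₁ : Set G)) ⊔ (V ⊓ centralizer (M₂ : Set G)) := by
  have hDpos : 0 < D := by
    rw [← hD1]
    exact dl_pos _ _
  have hs := dl_super V M₁ M₂
  rw [hD1, hD2] at hs
  have heq1 : dl V (M₁ ⊓ M₂) = D := by
    apply le_antisymm hle1
    by_contra hlt
    push Not at hlt
    have h3 : dl V (M₁ ⊓ M₂) * dl V (M₁ ⊔ M₂) < D * D := Nat.mul_lt_mul_of_lt_of_le hlt hle2 hDpos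
    omega
  have heq2 : dl V (M₁ ⊔ M₂) = D := by
    apply le_antisymm hle2
    by_contra hlt
    push Not at hlt
    rw [heq1] at hs
    have h3 : D * dl V (M₁ ⊔ M₂) < D * D := Nat.mul_lt_mul_of_pos_left hlt hDpos
    omega
  refine ⟨heq1, ?_⟩
  obtain ⟨C₁, hC₁⟩ : ∃ C₁ : Subgroup G, C₁ = V ⊓ centralizer (M₁ : Set G) := ⟨_, rfl⟩
  obtain ⟨C₂, hC₂⟩ : ∃ C₂ : Subgroup G, C₂ = V ⊓ centralizer (M₂ : Set G) := ⟨_, rfl⟩
  rw [← hC₁, ← hC₂]
  have hle : C₁ ⊔ C₂ ≤ V ⊓ centralizer ((M₁ ⊓ M₂ : Subgroup G) : Set G) := by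
    apply sup_le
    · rw [hC₁]
      exact inf_le_inf_left _ (fun x hx => cent_anti inf_le_left hx)
    · rw [hC₂]
      exact inf_le_inf_left _ (fun x hx => cent_anti inf_le_right hx)
  symm
  apply Subgroup.eq_of_le_of_card_ge hle
  by_contra hlt
  push Not at hlt
  have h1 := card_mul_card_le M₁ M₂
  have h2 := card_mul_card_le C₁ C₂
  have h4 : Nat.card ↥(C₁ ⊓ C₂) ≤ Nat.card ↥(V ⊓ centralizer ((M₁ ⊔ M₂ : Subgroup G) : Set G)) := by
    apply Subgroup.card_le_of_le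
    rw [hC₁, hC₂]
    rintro x ⟨⟨hx1, hx2⟩, ⟨hx3, hx4⟩⟩
    exact ⟨hx1, mem_cent_sup hx2 hx4⟩
  have hc1 : dl V M₁ * dl V M₂ = (Nat.card M₁ * Nat.card M₂) * (Nat.card C₁ * Nat.card C₂) := by
    unfold dl
    rw [← hC₁, ← hC₂]
    ring
  have hc2 : dl V (M₁ ⊓ M₂) * dl V (M₁ ⊔ M₂) = (Nat.card ↥(M₁ ⊓ M₂) * Nat.card ↥(M₁ ⊔ M₂)) *
      (Nat.card ↥(V ⊓ centralizer ((M₁ ⊔ M₂ : Subgroup G) : Set G)) * Nat.card ↥(V ⊓ centralizer ((M₁ ⊓ M₂ : Subgroup G) : Set G))) := by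
    unfold dl
    ring
  have hpos : 0 < (Nat.card ↥(M₁ ⊓ M₂) * Nat.card ↥(M₁ ⊔ M₂)) * Nat.card ↥(V ⊓ centralizer ((M₁ ⊔ M₂ : Subgroup G) : Set G)) :=
    Nat.mul_pos (Nat.mul_pos Nat.card_pos Nat.card_pos) Nat.card_pos
  have : D * D < D * D := by
    calc D * D = dl V M₁ * dl V M₂ := by rw [hD1, hD2]
      _ = (Nat.card M₁ * Nat.card M₂) * (Nat.card C₁ * Nat.card C₂) := hc1
      _ ≤ (Nat.card ↥(M₁ ⊓ M₂) * Nat.card ↥(M₁ ⊔ M₂)) * (Nat.card ↥(C₁ ⊓ C₂) * Nat.card ↥(C₁ ⊔ C₂)) := Nat.mul_le_mul h1 h2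
      _ ≤ (Nat.card ↥(M₁ ⊓ M₂) * Nat.card ↥(M₁ ⊔ M₂)) * (Nat.card ↥(V ⊓ centralizer ((M₁ ⊔ M₂ : Subgroup G) : Set G)) * Nat.card ↥(C₁ ⊔ C₂)) :=
          Nat.mul_le_mul_left _ (Nat.mul_le_mul_right _ h4)
      _ = ((Nat.card ↥(M₁ ⊓ M₂) * Nat.card ↥(M₁ ⊔ M₂)) * Nat.card ↥(V ⊓ centralizer ((M₁ ⊔ M₂ : Subgroup G) : Set G))) * Nat.card ↥(C₁ ⊔ C₂) := by ring
      _ < ((Nat.card ↥(M₁ ⊓ M₂) * Nat.card ↥(M₁ ⊔ M₂)) * Nat.card ↥(V ⊓ centralizer ((M₁ ⊔ M₂ : Subgroup G) : Set G))) * Nat.card ↥(V ⊓ centralizer ((M₁ ⊓ M₂ : Subgroup G) : Set G)) :=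
          Nat.mul_lt_mul_of_pos_left hlt hpos
      _ = dl V (M₁ ⊓ M₂) * dl V (M₁ ⊔ M₂) := by rw [hc2]; ring
      _ = D * D := by rw [heq1, heq2]
  exact lt_irrefl _ this

/-- An index bound through an injective map on cosets. -/
theorem relIndex_le_card {S A : Subgroup G} {Y : Type*} [Finite Y] (f : A → Y)
    (hf : ∀ a b : A, f a = f b → ((a⁻¹ * b : A) : G) ∈ S) : S.relIndex A ≤ Nat.card Y := by
  classical
  unfold Subgroup.relIndex Subgroup.index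
  apply Nat.card_le_card_of_injective (fun q : A ⧸ S.subgroupOf A => f q.out)
  intro q₁ q₂ h
  have h1 := hf _ _ h
  have h2 : (q₁.out : A ⧸ S.subgroupOf A) = q₂.out := by
    rw [QuotientGroup.eq, Subgroup.mem_subgroupOf]
    exact h1
  rwa [QuotientGroup.out_eq', QuotientGroup.out_eq'] at h2

section one
variable {V A : Subgroup G} (hVc : ∀ u ∈ V, ∀ v ∈ V, u * v = v * u)
  (hAV : ∀ a ∈ A, ∀ v ∈ V, a * v * a⁻¹ ∈ V)
  (hAc : ⁅A, A⁆ ≤ centralizer (V : Set G))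

include hVc hAV hAc in
/-- The action of `A` on `V` is commutative. -/
theorem act_comm {g b v : G} (hg : g ∈ A) (hb : b ∈ A) (hv : v ∈ V) :
    g * (b * v * b⁻¹) * g⁻¹ = b * (g * v * g⁻¹) * b⁻¹ := by
  have h1 : ⁅g⁻¹, b⁻¹⁆ ∈ centralizer (V : Set G) :=
    hAc (Subgroup.commutator_mem_commutator (A.inv_mem hg) (A.inv_mem hb))
  have h2 := mem_centralizer_iff.mp h1 v hv
  rw [commutatorElement_def] at h2
  simp only [inv_inv] at h2
  have h3 : g⁻¹ * b⁻¹ * g * b * v = v * (g⁻¹ * b⁻¹ * g * b) := h2.symm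
  calc g * (b * v * b⁻¹) * g⁻¹ = b * g * ((g⁻¹ * b⁻¹ * g * b) * v) * b⁻¹ * g⁻¹ := by group
    _ = b * g * (v * (g⁻¹ * b⁻¹ * g * b)) * b⁻¹ * g⁻¹ := by rw [h3]
    _ = b * (g * v * g⁻¹) * b⁻¹ := by group

include hVc hAV hAc in
/-- One generator. -/
theorem one_good (hdl : ∀ B : Subgroup G, B ≤ A → dl V B ≤ dl V A) {u : G} (hu : u ∈ V) :
    dl V (A ⊓ centralizer ((⁅zpowers u, A⁆ : Subgroup G) : Set G)) = dl V A ∧
      V ⊓ centralizer ((A ⊓ centralizer ((⁅zpowers u, A⁆ : Subgroup G) : Set G) : Subgroup G) : Set G) =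
        ⁅zpowers u, A⁆ ⊔ (V ⊓ centralizer (A : Set G)) := by
  classical
  obtain ⟨W, hW⟩ : ∃ W : Subgroup G, W = ⁅zpowers u, A⁆ := ⟨_, rfl⟩
  obtain ⟨C, hC⟩ : ∃ C : Subgroup G, C = V ⊓ centralizer (A : Set G) := ⟨_, rfl⟩
  obtain ⟨X, hX⟩ : ∃ X : Subgroup G, X = A ⊓ centralizer (W : Set G) := ⟨_, rfl⟩
  rw [← hW, ← hC, ← hX]
  have hXA : X ≤ A := by rw [hX]; exact inf_le_left
  have hzV : zpowers u ≤ V := by
    rw [Subgroup.zpowers_le]
    exact hu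
  have hWV : W ≤ V := by
    rw [hW, Subgroup.commutator_le]
    intro h hh a ha
    rw [commutatorElement_def]
    have h1 := hAV a ha _ (V.inv_mem (hzV hh))
    have h2 : h * a * h⁻¹ * a⁻¹ = h * (a * h⁻¹ * a⁻¹) := by group
    rw [h2]
    exact V.mul_mem (hzV hh) h1
  have hCV : C ≤ V := by rw [hC]; exact inf_le_left
  have hCA : ∀ c ∈ C, ∀ a ∈ A, c * a = a * c := by
    intro c hc a ha
    rw [hC] at hc
    exact (mem_centralizer_iff.mp hc.2 a ha).symm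
  have hsup : W ⊔ C ≤ V ⊓ centralizer (X : Set G) := by
    apply sup_le
    · intro w hw
      refine ⟨hWV hw, mem_centralizer_iff.mpr ?_⟩
      intro x hx
      rw [hX] at hx
      exact (mem_centralizer_iff.mp hx.2 w hw).symm
    · intro c hc
      refine ⟨hCV hc, mem_centralizer_iff.mpr ?_⟩
      intro x hx
      exact (hCA c hc x (hXA hx)).symm
  have he : ∀ a ∈ A, u⁻¹ * a * u * a⁻¹ ∈ W := by
    intro a ha
    have h1 : ⁅u⁻¹, a⁆ ∈ W := by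
      rw [hW]
      exact Subgroup.commutator_mem_commutator (Subgroup.inv_mem _ (Subgroup.mem_zpowers u)) ha
    rw [commutatorElement_def, inv_inv] at h1
    exact h1
  have key : ∀ g ∈ A, u⁻¹ * g * u * g⁻¹ ∈ C → g ∈ X := by
    intro g hg hc₀
    rw [hX]
    refine ⟨hg, mem_centralizer_iff.mpr ?_⟩
    have hWg : W ≤ centralizer ({g} : Set G) := by
      rw [hW, Subgroup.commutator_le]
      intro h hh b hb
      obtain ⟨k, rfl⟩ := Subgroup.mem_zpowers_iff.mp hh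
      obtain ⟨c₀, hc₀d⟩ : ∃ c₀, c₀ = u⁻¹ * g * u * g⁻¹ := ⟨_, rfl⟩
      rw [← hc₀d] at hc₀
      have hu1 : g * u * g⁻¹ = u * c₀ := by
        rw [hc₀d]
        group
      have hcm : Commute u c₀ := hVc u hu c₀ (hCV hc₀)
      have hh1 : g * u ^ k * g⁻¹ = u ^ k * c₀ ^ k := by
        rw [← hcm.mul_zpow, ← hu1, conj_zpow]
      have hcC : c₀ ^ k ∈ C := C.zpow_mem hc₀ k
      have hhV : u ^ k ∈ V := hzV hh
      obtain ⟨h, hhd⟩ : ∃ h, h = u ^ k := ⟨_, rfl⟩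
      obtain ⟨c, hcd⟩ : ∃ c, c = c₀ ^ k := ⟨_, rfl⟩
      rw [← hhd, ← hcd] at hh1
      rw [← hhd] at hhV ⊢
      rw [← hcd] at hcC
      have hh2 : g * h⁻¹ * g⁻¹ = c⁻¹ * h⁻¹ := by
        have : g * h⁻¹ * g⁻¹ = (g * h * g⁻¹)⁻¹ := by group
        rw [this, hh1]
        group
      have hac := act_comm hVc hAV hAc hg hb (V.inv_mem hhV)
      rw [hh2] at hac
      rw [mem_centralizer_singleton_iff]
      have hcb := hCA c hcC b hb
      have hconj : g * ⁅h, b⁆ * g⁻¹ = ⁅h, b⁆ := by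
        rw [commutatorElement_def]
        calc g * (h * b * h⁻¹ * b⁻¹) * g⁻¹ = (g * h * g⁻¹) * (g * (b * h⁻¹ * b⁻¹) * g⁻¹) := by group
          _ = (h * c) * (b * (c⁻¹ * h⁻¹) * b⁻¹) := by rw [hh1, hac]
          _ = h * (c * b) * c⁻¹ * h⁻¹ * b⁻¹ := by group
          _ = h * (b * c) * c⁻¹ * h⁻¹ * b⁻¹ := by rw [hcb]
          _ = h * b * h⁻¹ * b⁻¹ := by group
      calc ⁅h, b⁆ * g = g * ⁅h, b⁆ * g⁻¹ * g := by rw [hconj]
        _ = g * ⁅h, b⁆ := by group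
    intro w hw
    have := hWg hw
    rw [mem_centralizer_singleton_iff] at this
    exact this
  have hi : X.relIndex A ≤ C.relIndex (W ⊔ C) := by
    have hrel := relIndex_le_card (S := X) (A := A) (Y := ↥(W ⊔ C) ⧸ C.subgroupOf (W ⊔ C))
      (fun a => ((⟨u⁻¹ * a.1 * u * a.1⁻¹, mem_sup_left (he a.1 a.2)⟩ : ↥(W ⊔ C)) : ↥(W ⊔ C) ⧸ C.subgroupOf (W ⊔ C))) ?_
    · exact hrel
    intro a b hab
    have h1 := (QuotientGroup.eq).mp hab
    rw [Subgroup.mem_subgroupOf] at h1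
    have h2 : (u⁻¹ * a.1 * u * a.1⁻¹)⁻¹ * (u⁻¹ * b.1 * u * b.1⁻¹) ∈ C := h1
    apply key _ (a⁻¹ * b).2
    have h3 : (u⁻¹ * a.1 * u * a.1⁻¹)⁻¹ * (u⁻¹ * b.1 * u * b.1⁻¹) =
        a.1 * (u⁻¹ * (a.1⁻¹ * b.1) * u * (a.1⁻¹ * b.1)⁻¹) * a.1⁻¹ := by group
    rw [h3] at h2
    have h4 := hCA _ h2 a.1 a.2
    have h5 : u⁻¹ * (a.1⁻¹ * b.1) * u * (a.1⁻¹ * b.1)⁻¹ = a.1 * (u⁻¹ * (a.1⁻¹ * b.1) * u * (a.1⁻¹ * b.1)⁻¹) * a.1⁻¹ := by
      have h6 := mul_left_cancel (a := a.1) (b := u⁻¹ * (a.1⁻¹ * b.1) * u * (a.1⁻¹ * b.1)⁻¹) (c := a.1 * (u⁻¹ * (a.1⁻¹ * b.1) * u * (a.1⁻¹ * b.1)⁻¹) * a.1⁻¹)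
      apply h6
      rw [← h4]
      group
    show u⁻¹ * (a.1⁻¹ * b.1) * u * (a.1⁻¹ * b.1)⁻¹ ∈ C
    rw [h5]
    exact h2
  have hc1 := Subgroup.relIndex_mul_relIndex (⊥ : Subgroup G) X A bot_le hXA
  rw [Subgroup.relIndex_bot_left, Subgroup.relIndex_bot_left] at hc1
  have hc2 := Subgroup.relIndex_mul_relIndex (⊥ : Subgroup G) C (W ⊔ C) bot_le le_sup_right
  rw [Subgroup.relIndex_bot_left, Subgroup.relIndex_bot_left] at hc2
  have hcs : Nat.card ↥(W ⊔ C) ≤ Nat.card ↥(V ⊓ centralizer (X : Set G)) := Subgroup.card_le_of_le hsup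
  have hA1 : dl V A = Nat.card A * Nat.card C := by
    unfold dl
    rw [hC]
  have hX1 : dl V X = Nat.card X * Nat.card ↥(V ⊓ centralizer (X : Set G)) := rfl
  have hlow : dl V A ≤ Nat.card X * Nat.card ↥(W ⊔ C) := by
    rw [hA1, ← hc1, ← hc2]
    calc Nat.card X * X.relIndex A * Nat.card C = Nat.card X * (Nat.card C * X.relIndex A) := by ring
      _ ≤ Nat.card X * (Nat.card C * C.relIndex (W ⊔ C)) := by gcongr
  have hup := hdl X hXA
  have hXpos : 0 < Nat.card X := Nat.card_pos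
  have h1 : dl V X = dl V A := by
    apply le_antisymm hup
    rw [hX1]
    exact hlow.trans (Nat.mul_le_mul_left _ hcs)
  refine ⟨h1, ?_⟩
  symm
  apply Subgroup.eq_of_le_of_card_ge hsup
  rw [← h1, hX1] at hlow
  exact Nat.le_of_mul_le_mul_left hlow hXpos

end one

section main

variable [hp : Fact p.Prime]

/-- Nilpotent action. -/
theorem pgroup_kill {T N : Subgroup G} (hT : IsPGroup p T) (hNT : N ≤ T) (h : N ≤ ⁅N, T⁆) : N = ⊥ := by
  haveI : Group.IsNilpotent ↥T := hT.isNilpotent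
  obtain ⟨n, hn⟩ := _root_.nilpotent_iff_lowerCentralSeries.mp (inferInstance : Group.IsNilpotent ↥T)
  have hN' : N.subgroupOf T ≤ ⁅N.subgroupOf T, (⊤ : Subgroup ↥T)⁆ := by
    intro x hx
    have h1 : (x : G) ∈ ⁅N, T⁆ := h (Subgroup.mem_subgroupOf.mp hx)
    have h2 : ⁅N, T⁆ = (⁅N.subgroupOf T, (⊤ : Subgroup ↥T)⁆).map T.subtype := by
      rw [Subgroup.map_commutator, Subgroup.map_subgroupOf_eq_of_le hNT]
      congr 1
      rw [← MonoidHom.range_eq_map, Subgroup.range_subtype]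
    rw [h2] at h1
    obtain ⟨y, hy, hyx⟩ := h1
    have : y = x := Subtype.ext hyx
    rwa [← this]
  have hall : ∀ k, N.subgroupOf T ≤ (⊤ : Subgroup ↥T).lowerCentralSeries k := by
    intro k
    induction k with
    | zero =>
      intro x _
      exact Subgroup.mem_top x
    | succ k ih =>
      refine hN'.trans ?_
      exact Subgroup.commutator_mono ih le_rfl
  have := hall n
  rw [hn] at this
  rw [eq_bot_iff]
  intro x hx
  have h3 : (⟨x, hNT hx⟩ : T) ∈ N.subgroupOf T := Subgroup.mem_subgroupOf.mpr hx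
  have h4 := this h3
  rw [Subgroup.mem_bot] at h4
  have := congrArg Subtype.val h4
  exact this

/-- `p`-part generation modulo the centralizer. -/
theorem exists_sylow_cover {V A : Subgroup G} (hAV : ∀ a ∈ A, ∀ v ∈ V, a * v * a⁻¹ ∈ V)
    (hAVi : ∀ a ∈ A, ∀ v ∈ V, a⁻¹ * v * a ∈ V)
    (hpow : ∀ a ∈ A, a ^ p ∈ centralizer (V : Set G)) :
    ∃ P : Subgroup G, P ≤ A ∧ IsPGroup p P ∧ ∀ a ∈ A, ∃ x ∈ P, ∃ c ∈ centralizer (V : Set G), a = x * c := by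
  classical
  obtain ⟨B, hB⟩ : ∃ B : Subgroup ↥A, B = (centralizer (V : Set G)).subgroupOf A := ⟨_, rfl⟩
  haveI hBn : B.Normal := by
    constructor
    intro n hn a
    rw [hB, Subgroup.mem_subgroupOf] at hn ⊢
    refine mem_centralizer_iff.mpr ?_
    intro v hv
    have h1 := mem_centralizer_iff.mp hn _ (hAVi a.1 a.2 v hv)
    show v * (a.1 * n.1 * a.1⁻¹) = (a.1 * n.1 * a.1⁻¹) * v
    calc v * (a.1 * n.1 * a.1⁻¹) = a.1 * ((a.1⁻¹ * v * a.1) * n.1) * a.1⁻¹ := by group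
      _ = a.1 * (n.1 * (a.1⁻¹ * v * a.1)) * a.1⁻¹ := by rw [h1]
      _ = _ := by group
  have hQp : IsPGroup p (↥A ⧸ B) := by
    intro q
    obtain ⟨a, rfl⟩ := QuotientGroup.mk'_surjective B q
    refine ⟨1, ?_⟩
    rw [pow_one, ← map_pow, ← MonoidHom.mem_ker, QuotientGroup.ker_mk', hB, Subgroup.mem_subgroupOf]
    exact hpow a.1 a.2
  obtain ⟨P⟩ : Nonempty (Sylow p ↥A) := inferInstance
  have hsurj := QuotientGroup.mk'_surjective B
  have htop : (P : Subgroup ↥A).map (QuotientGroup.mk' B) = ⊤ := by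
    have hmax := (P.mapSurjective hsurj).is_maximal' (Q := ⊤) (hQp.to_subgroup ⊤) le_top
    rw [Sylow.coe_mapSurjective] at hmax
    exact hmax.symm
  refine ⟨(P : Subgroup ↥A).map A.subtype, Subgroup.map_subtype_le _, P.isPGroup'.map _, ?_⟩
  intro a ha
  have h1 : QuotientGroup.mk' B (⟨a, ha⟩ : A) ∈ (P : Subgroup ↥A).map (QuotientGroup.mk' B) := by
    rw [htop]
    exact Subgroup.mem_top _
  obtain ⟨x, hx, hxa⟩ := h1
  have h2 : x⁻¹ * ⟨a, ha⟩ ∈ B := by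
    rw [← QuotientGroup.ker_mk' B, MonoidHom.mem_ker, map_mul, map_inv, hxa, inv_mul_cancel]
  rw [hB, Subgroup.mem_subgroupOf] at h2
  refine ⟨x.1, ⟨x, hx, rfl⟩, _, h2, ?_⟩
  show a = x.1 * (x.1⁻¹ * a)
  group

/-- Statement S0599. -/
theorem s0599 (V A : Subgroup G) (hV : IsElementaryAbelian p V)
    (hAV : A ≤ normalizer (V : Set G)) (hA : IsBestOffenderOn p V A) (U : Subgroup G) (hU : U ≤ V) :
    IsBestOffenderOn p V (A ⊓ centralizer ((⁅U, A⁆ : Subgroup G) : Set G)) ∧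
      V ⊓ centralizer ((A ⊓ centralizer ((⁅U, A⁆ : Subgroup G) : Set G) : Subgroup G) : Set G) =
        ⁅U, A⁆ ⊔ (V ⊓ centralizer (A : Set G)) ∧
      (⁅V, A⁆ ≠ ⊥ → ⁅V, A ⊓ centralizer ((⁅U, A⁆ : Subgroup G) : Set G)⁆ ≠ ⊥) := by
  classical
  have hVc : ∀ u ∈ V, ∀ v ∈ V, u * v = v * u := fun u hu v hv =>
    Cfsg.Agent.Lib.ThompsonBasic.ea_comm hV hu hv
  have hAV1 : ∀ a ∈ A, ∀ v ∈ V, a * v * a⁻¹ ∈ V := fun a ha v hv =>
    (mem_normalizer_iff.1 (hAV ha) v).1 hv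
  have hAV2 : ∀ a ∈ A, ∀ v ∈ V, a⁻¹ * v * a ∈ V := by
    intro a ha v hv
    have := hAV1 a⁻¹ (A.inv_mem ha) v hv
    rwa [inv_inv] at this
  have hAc := hA.2.1
  have hdl : ∀ B : Subgroup G, B ≤ A → dl V B ≤ dl V A := hA.1
  -- the property P
  let P : Subgroup G → Prop := fun Y =>
    dl V (A ⊓ centralizer (Y : Set G)) = dl V A ∧
      V ⊓ centralizer ((A ⊓ centralizer (Y : Set G) : Subgroup G) : Set G) = Y ⊔ (V ⊓ centralizer (A : Set G))
  have hP0 : P ⊥ := by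
    have h : A ⊓ centralizer (((⊥ : Subgroup G) : Subgroup G) : Set G) = A := by
      rw [inf_eq_left, Subgroup.coe_bot, Subgroup.centralizer_eq_top_iff_subset.2]
      · exact le_top
      · simp
    constructor
    · rw [h]
    · rw [h, bot_sup_eq]
  have hPs : ∀ Y₁ Y₂, P Y₁ → P Y₂ → P (Y₁ ⊔ Y₂) := by
    rintro Y₁ Y₂ ⟨h11, h12⟩ ⟨h21, h22⟩
    have hmeet : A ⊓ centralizer ((Y₁ ⊔ Y₂ : Subgroup G) : Set G) =
        (A ⊓ centralizer (Y₁ : Set G)) ⊓ (A ⊓ centralizer (Y₂ : Set G)) := by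
      ext x
      constructor
      · rintro ⟨hx1, hx2⟩
        exact ⟨⟨hx1, cent_anti le_sup_left hx2⟩, ⟨hx1, cent_anti le_sup_right hx2⟩⟩
      · rintro ⟨⟨hx1, hx2⟩, ⟨-, hx3⟩⟩
        exact ⟨hx1, mem_cent_sup hx2 hx3⟩
    have hg := inter_good h11 h21 (hdl _ (inf_le_left.trans inf_le_left))
      (hdl _ (sup_le inf_le_left inf_le_left))
    show (dl V (A ⊓ centralizer ((Y₁ ⊔ Y₂ : Subgroup G) : Set G)) = dl V A ∧ V ⊓ centralizer ((A ⊓ centralizer ((Y₁ ⊔ Y₂ : Subgroup G) : Set G) : Subgroup G) : Set G) = (Y₁ ⊔ Y₂) ⊔ (V ⊓ centralizer (A : Set G)))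
    rw [hmeet]
    refine ⟨hg.1, ?_⟩
    rw [hg.2, h12, h22]
    rw [sup_sup_sup_comm, sup_idem]
  have hPu : ∀ u ∈ V, P ⁅zpowers u, A⁆ := fun u hu => one_good hVc hAV1 hAc hdl hu
  have hfin : ∀ s : Finset G, (∀ u ∈ s, u ∈ V) → P (s.sup fun u => ⁅zpowers u, A⁆) := by
    intro s
    induction s using Finset.induction_on with
    | empty =>
      intro _
      rw [Finset.sup_empty]
      exact hP0
    | insert a s ha ih =>
      intro hs
      rw [Finset.sup_insert]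
      exact hPs _ _ (hPu a (hs a (Finset.mem_insert_self a s))) (ih fun u hu => hs u (Finset.mem_insert_of_mem hu))
  haveI : Fintype G := Fintype.ofFinite G
  have hUeq : ⁅U, A⁆ = (Finset.univ.filter (fun u => u ∈ U)).sup fun u => ⁅zpowers u, A⁆ := by
    apply le_antisymm
    · rw [Subgroup.commutator_le]
      intro u hu a ha
      have h1 : ⁅u, a⁆ ∈ ⁅zpowers u, A⁆ := Subgroup.commutator_mem_commutator (Subgroup.mem_zpowers u) ha
      exact (Finset.le_sup (f := fun u => ⁅zpowers u, A⁆) (Finset.mem_filter.mpr ⟨Finset.mem_univ u, hu⟩)) h1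
    · refine Finset.sup_le fun u hu => ?_
      have hu' : u ∈ U := (Finset.mem_filter.mp hu).2
      exact Subgroup.commutator_mono ((Subgroup.zpowers_le).mpr hu') le_rfl
  have hPU : P ⁅U, A⁆ := by
    rw [hUeq]
    apply hfin
    intro u hu
    exact hU (Finset.mem_filter.mp hu).2
  obtain ⟨h1, h2⟩ := hPU
  refine ⟨⟨?_, ?_, ?_⟩, h2, ?_⟩
  · intro B hB
    have h3 := hdl B (hB.trans inf_le_left)
    rw [← h1] at h3
    exact h3
  · exact (Subgroup.commutator_mono inf_le_left inf_le_left).trans hA.2.1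
  · intro a ha
    exact hA.2.2 a ha.1
  · intro hne hbot
    apply hne
    -- `V` decomposes
    have hVle : V ≤ ⁅U, A⁆ ⊔ (V ⊓ centralizer (A : Set G)) := by
      rw [← h2]
      refine le_inf le_rfl ?_
      rw [Subgroup.commutator_comm, Subgroup.commutator_eq_bot_iff_le_centralizer] at hbot
      intro v hv
      exact mem_centralizer_iff.mpr fun x hx => (mem_centralizer_iff.mp (hbot hx) v hv).symm
    obtain ⟨N, hN⟩ : ∃ N : Subgroup G, N = ⁅V, A⁆ := ⟨_, rfl⟩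
    rw [← hN]
    have hNV : N ≤ V := by
      rw [hN, Subgroup.commutator_le]
      intro h hh a ha
      rw [commutatorElement_def]
      have h1 := hAV1 a ha _ (V.inv_mem hh)
      have h2 : h * a * h⁻¹ * a⁻¹ = h * (a * h⁻¹ * a⁻¹) := by group
      rw [h2]
      exact V.mul_mem hh h1
    obtain ⟨P', hP'A, hP'p, hcover⟩ := exists_sylow_cover (p := p) hAV1 hAV2 hA.2.2
    have hVp : IsPGroup p V := Cfsg.Agent.Lib.ThompsonBasic.ea_isPGroup hV
    have hTp : IsPGroup p (↥(P' ⊔ V)) := by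
      apply IsPGroup.to_sup_of_normal_right' hP'p hVp
      exact fun a ha => hAV (hP'A ha)
    have hNT : N ≤ P' ⊔ V := hNV.trans le_sup_right
    apply pgroup_kill hTp hNT
    -- `N ≤ [N, T]`
    have hstep : N ≤ ⁅N, A⁆ := by
      rw [hN, Subgroup.commutator_le]
      intro v hv a ha
      have hUN : ⁅U, A⁆ ≤ ⁅V, A⁆ := Subgroup.commutator_mono hU le_rfl
      have hcomm : ∀ x ∈ ⁅U, A⁆, ∀ c ∈ V ⊓ centralizer (A : Set G), x * c = c * x := by
        intro x hx c hc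
        exact hVc x (by rw [← hN] at hUN; exact hNV (hUN hx)) c hc.1
      obtain ⟨x, hx, c, hc, rfl⟩ := Cfsg.Agent.Lib.LargeExtra.mem_sup_of_comm hcomm (hVle hv)
      have hca : c * a = a * c := (mem_centralizer_iff.mp hc.2 a ha).symm
      have : ⁅x * c, a⁆ = ⁅x, a⁆ := by
        rw [commutatorElement_def, commutatorElement_def]
        calc x * c * a * (x * c)⁻¹ * a⁻¹ = x * (c * a) * c⁻¹ * x⁻¹ * a⁻¹ := by group
          _ = x * (a * c) * c⁻¹ * x⁻¹ * a⁻¹ := by rw [hca]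
          _ = x * a * x⁻¹ * a⁻¹ := by group
      rw [this]
      exact Subgroup.commutator_mem_commutator (hUN hx) ha
    refine hstep.trans ?_
    rw [Subgroup.commutator_le]
    intro n hn a ha
    obtain ⟨x, hx, c, hc, rfl⟩ := hcover a ha
    have hcn : n * c = c * n := (mem_centralizer_iff.mp hc n (hNV hn))
    have : ⁅n, x * c⁆ = ⁅n, x⁆ := by
      rw [commutatorElement_def, commutatorElement_def]
      calc n * (x * c) * n⁻¹ * (x * c)⁻¹ = n * x * (c * n⁻¹ * c⁻¹) * x⁻¹ := by group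
        _ = n * x * n⁻¹ * x⁻¹ := by
          have h5 : c * n⁻¹ * c⁻¹ = n⁻¹ := by
            have h6 : c * n⁻¹ = n⁻¹ * c := by
              have h7 : n⁻¹ * (n * c) * n⁻¹ = n⁻¹ * (c * n) * n⁻¹ := by rw [hcn]
              calc c * n⁻¹ = n⁻¹ * (n * c) * n⁻¹ := by group
                _ = n⁻¹ * (c * n) * n⁻¹ := h7
                _ = n⁻¹ * c := by group
            rw [h6]
            group
          rw [h5]
    rw [this]
    exact Subgroup.commutator_mem_commutator hn (mem_sup_left hx)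

end main

end Cfsg.Agent.Lib.Timmesfeld
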