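import Mathlib

set_option autoImplicit false
set_option linter.all false

namespace Cfsg.Agent.Lib.TitsFour

variable {Ω : Type*}

/-- Four distinct points. -/
def D (a b c d : Ω) : Prop := a ≠ b ∧ a ≠ c ∧ a ≠ d ∧ b ≠ c ∧ b ≠ d ∧ c ≠ d

theorem D.perm1 {a b c d : Ω} (h : D a b c d) : D c d a b := by
  obtain ⟨h1, h2, h3, h4, h5, h6⟩ := h
  exact ⟨h6, h2.symm, h4.symm, h3.symm, h5.symm, h1⟩

theorem D.swap1 {a b c d : Ω} (h : D a b c d) : D b a c d := by
  obtain ⟨h1, h2, h3, h4, h5, h6⟩ := h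
  exact ⟨h1.symm, h4, h5, h2, h3, h6⟩

theorem D.swap2 {a b c d : Ω} (h : D a b c d) : D a b d c := by
  obtain ⟨h1, h2, h3, h4, h5, h6⟩ := h
  exact ⟨h1, h3, h2, h5, h4, h6.symm⟩

/-- The embedding of four distinct points. -/
def emb {a b c d : Ω} (h : D a b c d) : Fin 4 ↪ Ω :=
  ⟨![a, b, c, d], by
    obtain ⟨h1, h2, h3, h4, h5, h6⟩ := h
    intro i j e
    fin_cases i <;> fin_cases j <;>
      first
        | rfl
        | exact absurd e h1
        | exact absurd e h2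
        | exact absurd e h3
        | exact absurd e h4
        | exact absurd e h5
        | exact absurd e h6
        | exact absurd e.symm h1
        | exact absurd e.symm h2
        | exact absurd e.symm h3
        | exact absurd e.symm h4
        | exact absurd e.symm h5
        | exact absurd e.symm h6⟩

variable {G : Type*} [Group G] [MulAction G Ω]

/-- Sharp four-fold transitivity in point form. -/
structure Sh (G : Type*) [Group G] (Ω : Type*) [MulAction G Ω] : Prop where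
  ex : ∀ a b c d a' b' c' d' : Ω, D a b c d → D a' b' c' d' → ∃ g : G, g • a = a' ∧ g • b = b' ∧ g • c = c' ∧ g • d = d'
  fix : ∀ a b c d : Ω, D a b c d → ∀ g : G, g • a = a → g • b = b → g • c = c → g • d = d → g = 1

theorem sh_of (h4 : MulAction.IsMultiplyPretransitive G Ω 4) (hsharp : ∀ x : Fin 4 ↪ Ω, MulAction.stabilizer G x = ⊥) : Sh G Ω := by
  constructor
  · intro a b c d a' b' c' d' h h'
    obtain ⟨g, hg⟩ := h4.exists_smul_eq (emb h) (emb h')
    refine ⟨g, ?_, ?_, ?_, ?_⟩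
    · exact congrArg (fun x : Fin 4 ↪ Ω => x 0) hg
    · exact congrArg (fun x : Fin 4 ↪ Ω => x 1) hg
    · exact congrArg (fun x : Fin 4 ↪ Ω => x 2) hg
    · exact congrArg (fun x : Fin 4 ↪ Ω => x 3) hg
  · intro a b c d h g h1 h2 h3 h4'
    have hm : g ∈ MulAction.stabilizer G (emb h) := by
      rw [MulAction.mem_stabilizer_iff]
      ext i
      fin_cases i
      · exact h1
      · exact h2
      · exact h3
      · exact h4'
    rw [hsharp] at hm
    exact Subgroup.mem_bot.1 hm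

namespace Sh

variable (S : Sh G Ω)
include S

theorem eq4 {a b c d : Ω} (h : D a b c d) {g g' : G} (h1 : g • a = g' • a) (h2 : g • b = g' • b) (h3 : g • c = g' • c) (h4 : g • d = g' • d) :
    g = g' := by
  have := S.fix a b c d h (g'⁻¹ * g) (by rw [mul_smul, h1, inv_smul_smul]) (by rw [mul_smul, h2, inv_smul_smul])
    (by rw [mul_smul, h3, inv_smul_smul]) (by rw [mul_smul, h4, inv_smul_smul])
  exact (inv_mul_eq_one.1 this).symm

end Sh

/-- A set with no three distinct elements lies in a finite set of at most two. -/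
theorem at_most_two (Y : Set Ω) (h : ∀ x₁ ∈ Y, ∀ x₂ ∈ Y, ∀ x₃ ∈ Y, x₁ ≠ x₂ → x₁ ≠ x₃ → x₂ ≠ x₃ → False) :
    ∃ T : Finset Ω, T.card ≤ 2 ∧ ∀ x ∈ Y, x ∈ T := by
  classical
  by_cases h1 : ∃ x₁, x₁ ∈ Y
  · obtain ⟨x₁, hx₁⟩ := h1
    by_cases h2 : ∃ x₂, x₂ ∈ Y ∧ x₂ ≠ x₁
    · obtain ⟨x₂, hx₂, h12⟩ := h2
      refine ⟨{x₁, x₂}, Finset.card_le_two, fun x hx => ?_⟩
      by_contra hc
      simp only [Finset.mem_insert, Finset.mem_singleton, not_or] at hc
      exact h x₁ hx₁ x₂ hx₂ x hx h12.symm (fun e => hc.1 e.symm) (fun e => hc.2 e.symm)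
    · refine ⟨{x₁}, by simp, fun x hx => ?_⟩
      by_contra hc
      simp only [Finset.mem_singleton] at hc
      exact h2 ⟨x, hx, hc⟩
  · refine ⟨∅, by simp, fun x hx => ?_⟩
    exact absurd ⟨x, hx⟩ h1

theorem finite_of_cover (T : Finset Ω) (hT : ∀ x : Ω, x ∈ T) : Finite Ω ∧ Nat.card Ω ≤ T.card := by
  classical
  have h1 : Function.Surjective (fun x : T => (x : Ω)) := fun x => ⟨⟨x, hT x⟩, rfl⟩
  haveI : Finite Ω := Finite.of_surjective _ h1
  refine ⟨this, ?_⟩
  have h2 := Nat.card_le_card_of_surjective _ h1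
  simpa using h2

/-- The case of two fixed points. -/
theorem even_case (S : Sh G Ω)
    (hP : ∀ (a b c d : Ω) (g : G), D a b c d → g • a = a → g • b = b → g • c = d → g • d = c → ∀ z, g • z = z → z = a ∨ z = b)
    {e f c d : Ω} (h : D e f c d) : Finite Ω ∧ Nat.card Ω ≤ 6 := by
  classical
  obtain ⟨φ, φe, φf, φc, φd⟩ := S.ex e f c d f e c d h h.swap1
  obtain ⟨ι, ιe, ιf, ιc, ιd⟩ := S.ex e f c d e f d c h h.swap2
  have hef : e ≠ f := h.1
  have hφ2 : ∀ z : Ω, φ • (φ • z) = z := by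
    have h1 : φ * φ = 1 := S.fix e f c d h _ (by rw [mul_smul, φe, φf]) (by rw [mul_smul, φf, φe])
      (by rw [mul_smul, φc, φc]) (by rw [mul_smul, φd, φd])
    intro z
    rw [← mul_smul, h1, one_smul]
  have hφfix := hP c d e f φ h.perm1 φc φd φe φf
  have key : ∀ x : Ω, x ≠ e → x ≠ f → x ≠ c → x ≠ d → φ • (ι • x) = x := by
    intro x hxe hxf hxc hxd
    obtain ⟨x', hx'⟩ : ∃ x', x' = φ • x := ⟨_, rfl⟩
    have hφx' : φ • x' = x := by rw [hx', hφ2]
    have hne : x ≠ x' := by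
      intro e1
      rw [hx'] at e1
      rcases hφfix x e1.symm with h2 | h2
      · exact hxc h2
      · exact hxd h2
    have hx'e : e ≠ x' := by
      intro e1
      apply hxf
      rw [← hφx', ← e1, φe]
    have hx'f : f ≠ x' := by
      intro e1
      apply hxe
      rw [← hφx', ← e1, φf]
    have hD : D e f x x' := ⟨hef, hxe.symm, hx'e, hxf.symm, hx'f, hne⟩
    obtain ⟨t, te, tf, tx, tx'⟩ := S.ex e f x x' e f x' x hD hD.swap2
    have hcomm : φ * t * φ = t := by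
      apply S.eq4 hD
      · rw [mul_smul, mul_smul, φe, tf, φf, te]
      · rw [mul_smul, mul_smul, φf, te, φe, tf]
      · rw [mul_smul, mul_smul, ← hx', tx', ← hx', tx]
      · rw [mul_smul, mul_smul, hφx', tx, hφx', tx']
    have hcomm' : ∀ z : Ω, φ • (t • z) = t • (φ • z) := by
      intro z
      conv_rhs => rw [← hcomm]
      rw [mul_smul, mul_smul, hφ2]
    have htfix := hP e f x x' t hD te tf tx tx'
    have hDc : c ≠ e ∧ c ≠ f ∧ d ≠ e ∧ d ≠ f := ⟨h.2.1.symm, h.2.2.2.1.symm, h.2.2.1.symm, h.2.2.2.2.1.symm⟩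
    have htc : t • c = d := by
      rcases hφfix (t • c) (by rw [hcomm', φc]) with h2 | h2
      · rcases htfix c h2 with h3 | h3
        · exact absurd h3 hDc.1
        · exact absurd h3 hDc.2.1
      · exact h2
    have htd : t • d = c := by
      rcases hφfix (t • d) (by rw [hcomm', φd]) with h2 | h2
      · exact h2
      · rcases htfix d h2 with h3 | h3
        · exact absurd h3 hDc.2.2.1
        · exact absurd h3 hDc.2.2.2
    have hti : t = ι := S.eq4 h (by rw [te, ιe]) (by rw [tf, ιf]) (by rw [htc, ιc]) (by rw [htd, ιd])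
    rw [← hti, tx, hφx']
  obtain ⟨T, hT, hT2⟩ := at_most_two {x : Ω | x ≠ e ∧ x ≠ f ∧ x ≠ c ∧ x ≠ d} (by
    rintro x₁ ⟨h11, h12, h13, h14⟩ x₂ ⟨h21, h22, h23, h24⟩ x₃ ⟨h31, h32, h33, h34⟩ h1 h2 h3
    have hρ : D x₁ x₂ e f := ⟨h1, h11, h12, h21, h22, hef⟩
    rcases hP x₁ x₂ e f (φ * ι) hρ (by rw [mul_smul]; exact key x₁ h11 h12 h13 h14)
        (by rw [mul_smul]; exact key x₂ h21 h22 h23 h24) (by rw [mul_smul, ιe, φe]) (by rw [mul_smul, ιf, φf]) x₃
        (by rw [mul_smul]; exact key x₃ h31 h32 h33 h34) with h4 | h4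
    · exact h2 h4.symm
    · exact h3 h4.symm)
  have hcov : ∀ x : Ω, x ∈ ({e, f, c, d} : Finset Ω) ∪ T := by
    intro x
    by_cases h1 : x = e
    · simp [h1]
    by_cases h2 : x = f
    · simp [h2]
    by_cases h3 : x = c
    · simp [h3]
    by_cases h4 : x = d
    · simp [h4]
    exact Finset.mem_union_right _ (hT2 x ⟨h1, h2, h3, h4⟩)
  obtain ⟨h5, h6⟩ := finite_of_cover _ hcov
  refine ⟨h5, h6.trans ?_⟩
  have h7 := Finset.card_union_le ({e, f, c, d} : Finset Ω) T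
  have h8 : ({e, f, c, d} : Finset Ω).card ≤ 4 := Finset.card_le_four
  omega

/-- The third fixed point of an involution is seen by the commuting partner. -/
theorem partner (S : Sh G Ω)
    (hO : ∀ (a b c d : Ω) (g : G), D a b c d → g • a = a → g • b = b → g • c = d → g • d = c → ∃ z, g • z = z ∧ z ≠ a ∧ z ≠ b)
    {a b c x : Ω} (h : D a b c x) {i : G} (hi : ∀ z : Ω, i • (i • z) = z) (ia : i • a = a) (ib : i • b = b) (ic : i • c = c)
    (ix : i • x ≠ x) :
    ∃ w : G, w • a = b ∧ w • b = a ∧ w • c = c ∧ w • x = x ∧ w • (i • x) = i • x ∧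
      ∀ z, w • z = z → z = x ∨ z = i • x ∨ z = c := by
  obtain ⟨h1, h2, h3, h4, h5, h6⟩ := h
  obtain ⟨y, hy⟩ : ∃ y, y = i • x := ⟨_, rfl⟩
  have iy : i • y = x := by rw [hy, hi]
  have hya : a ≠ y := by
    intro e1
    apply h3
    rw [← iy, ← e1, ia]
  have hyb : b ≠ y := by
    intro e1
    apply h5
    rw [← iy, ← e1, ib]
  have hxy : x ≠ y := fun e1 => ix (by rw [← hy]; exact e1.symm)
  have hD : D a b x y := ⟨h1, h3, hya, h5, hyb, hxy⟩
  obtain ⟨r, ra, rb, rx, ry⟩ := S.ex a b x y b a y x hD hD.swap1.swap2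
  have hr : ∀ z : Ω, r • (r • z) = z := by
    have h7 : r * r = 1 := S.fix a b x y hD _ (by rw [mul_smul, ra, rb]) (by rw [mul_smul, rb, ra])
      (by rw [mul_smul, rx, ry]) (by rw [mul_smul, ry, rx])
    intro z
    rw [← mul_smul, h7, one_smul]
  have hcomm : i * r * i = r := by
    apply S.eq4 hD
    · rw [mul_smul, mul_smul, ia, ra, ib]
    · rw [mul_smul, mul_smul, ib, rb, ia]
    · rw [mul_smul, mul_smul, ← hy, ry, ← hy, rx]
    · rw [mul_smul, mul_smul, iy, rx, iy, ry]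
  have hcomm' : ∀ z : Ω, i • (r • z) = r • (i • z) := by
    intro z
    conv_rhs => rw [← hcomm]
    rw [mul_smul, mul_smul, hi]
  have hwa : (i * r) • a = b := by rw [mul_smul, ra, ib]
  have hwb : (i * r) • b = a := by rw [mul_smul, rb, ia]
  have hwx : (i * r) • x = x := by rw [mul_smul, rx, iy]
  have hwy : (i * r) • y = y := by rw [mul_smul, ry, ← hy]
  have hD2 : D x y a b := hD.perm1
  obtain ⟨z₀, hz₀, hz₀x, hz₀y⟩ := hO x y a b (i * r) hD2 hwx hwy hwa hwb
  have hz₀a : z₀ ≠ a := by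
    rintro rfl
    rw [hwa] at hz₀
    exact h1 hz₀.symm
  have hz₀b : z₀ ≠ b := by
    rintro rfl
    rw [hwb] at hz₀
    exact h1 hz₀
  have hne1 : i * r ≠ 1 := by
    intro e1
    rw [e1, one_smul] at hwa
    exact h1 hwa
  have hall : ∀ z, (i * r) • z = z → z = x ∨ z = y ∨ z = z₀ := by
    intro z hz
    by_contra hc
    simp only [not_or] at hc
    exact hne1 (S.fix x y z₀ z ⟨hxy, hz₀x.symm, fun e1 => hc.1 e1.symm, hz₀y.symm, fun e1 => hc.2.1 e1.symm, fun e1 => hc.2.2 e1.symm⟩ _ hwx hwy hz₀ hz)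
  have hiz₀ : i • z₀ = z₀ := by
    have h70 : i • (r • z₀) = z₀ := by
      rw [← mul_smul]
      exact hz₀
    have h71 : r • z₀ = i • z₀ := by rw [← hi (r • z₀), h70]
    have h7 : (i * r) • (i • z₀) = i • z₀ := by
      rw [mul_smul, ← hcomm', hi, h71]
    rcases hall _ h7 with h8 | h8 | h8
    · exfalso
      apply hz₀y
      rw [hy, ← h8, hi]
    · exfalso
      apply hz₀x
      rw [← iy, ← h8, hi]
    · exact h8
  have hz₀c : z₀ = c := by
    by_contra hc
    have h9 := S.fix a b c z₀ ⟨h1, h2, hz₀a.symm, h4, hz₀b.symm, fun e1 => hc e1.symm⟩ i ia ib ic hiz₀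
    rw [h9, one_smul] at ix
    exact ix rfl
  subst hz₀c
  refine ⟨i * r, hwa, hwb, hz₀, hwx, ?_, ?_⟩
  · rw [← hy]
    exact hwy
  · rw [← hy]
    exact hall

theorem uniq3 (S : Sh G Ω)
    (hO : ∀ (a b c d : Ω) (g : G), D a b c d → g • a = a → g • b = b → g • c = d → g • d = c → ∃ z, g • z = z ∧ z ≠ a ∧ z ≠ b)
    {a b c x : Ω} (h : D a b c x) {i i' : G} (hi : ∀ z : Ω, i • (i • z) = z) (hi' : ∀ z : Ω, i' • (i' • z) = z)
    (ia : i • a = a) (ib : i • b = b) (ic : i • c = c) (ix : i • x ≠ x)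
    (ia' : i' • a = a) (ib' : i' • b = b) (ic' : i' • c = c) (ix' : i' • x ≠ x) : i = i' := by
  obtain ⟨w, wa, wb, wc, wx, wy, wall⟩ := partner S hO h hi ia ib ic ix
  obtain ⟨w', wa', wb', wc', wx', wy', wall'⟩ := partner S hO h hi' ia' ib' ic' ix'
  have hww : w = w' := S.eq4 h (by rw [wa, wa']) (by rw [wb, wb']) (by rw [wc, wc']) (by rw [wx, wx'])
  subst hww
  have hy : i' • x = i • x := by
    rcases wall _ wy' with h1 | h1 | h1
    · exact absurd h1 ix'
    · exact h1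
    · exfalso
      apply h.2.2.2.2.2
      rw [← hi' x, h1, ic']
  exact (S.eq4 h (by rw [ia, ia']) (by rw [ib, ib']) (by rw [ic, ic']) hy.symm)

/-- The case of three fixed points. -/
theorem odd_case (S : Sh G Ω)
    (hO : ∀ (a b c d : Ω) (g : G), D a b c d → g • a = a → g • b = b → g • c = d → g • d = c → ∃ z, g • z = z ∧ z ≠ a ∧ z ≠ b)
    {e f c d : Ω} (h : D e f c d) : Finite Ω ∧ Nat.card Ω ≤ 11 ∧ ¬ Even (Nat.card Ω) := by
  classical
  obtain ⟨φ, φe, φf, φc, φd⟩ := S.ex e f c d f e c d h h.swap1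
  have hef : e ≠ f := h.1
  have hφ2 : ∀ z : Ω, φ • (φ • z) = z := by
    have h1 : φ * φ = 1 := S.fix e f c d h _ (by rw [mul_smul, φe, φf]) (by rw [mul_smul, φf, φe])
      (by rw [mul_smul, φc, φc]) (by rw [mul_smul, φd, φd])
    intro z
    rw [← mul_smul, h1, one_smul]
  obtain ⟨w₀, φw, hwc, hwd⟩ := hO c d e f φ h.perm1 φc φd φe φf
  have hwe : w₀ ≠ e := by
    rintro rfl
    rw [φe] at φw
    exact hef φw.symm
  have hwf : w₀ ≠ f := by
    rintro rfl
    rw [φf] at φw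
    exact hef φw
  have hφne : φ ≠ 1 := by
    intro e1
    rw [e1, one_smul] at φe
    exact hef φe
  have hcd : c ≠ d := h.2.2.2.2.2
  have hFix : ∀ z, φ • z = z → z = c ∨ z = d ∨ z = w₀ := by
    intro z hz
    by_contra hc
    simp only [not_or] at hc
    exact hφne (S.fix c d w₀ z ⟨hcd, hwc.symm, fun e1 => hc.1 e1.symm, hwd.symm, fun e1 => hc.2.1 e1.symm, fun e1 => hc.2.2 e1.symm⟩ _ φc φd φw hz)
  -- the Q relation
  have hQ : ∀ x : Ω, x ≠ e → x ≠ f → x ≠ c → x ≠ d → x ≠ w₀ → ∃ m, (m = c ∨ m = d ∨ m = w₀) ∧ ∃ t : G, (∀ z : Ω, t • (t • z) = z) ∧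
      t • e = e ∧ t • f = f ∧ t • m = m ∧ t • x = φ • x := by
    intro x hxe hxf hxc hxd hxw
    obtain ⟨x', hx'⟩ : ∃ x', x' = φ • x := ⟨_, rfl⟩
    have hφx' : φ • x' = x := by rw [hx', hφ2]
    have hne : x ≠ x' := by
      intro e1
      rw [hx'] at e1
      rcases hFix x e1.symm with h2 | h2 | h2
      · exact hxc h2
      · exact hxd h2
      · exact hxw h2
    have hx'e : e ≠ x' := by
      intro e1
      apply hxf
      rw [← hφx', ← e1, φe]
    have hx'f : f ≠ x' := by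
      intro e1
      apply hxe
      rw [← hφx', ← e1, φf]
    have hD : D e f x x' := ⟨hef, hxe.symm, hx'e, hxf.symm, hx'f, hne⟩
    obtain ⟨t, te, tf, tx, tx'⟩ := S.ex e f x x' e f x' x hD hD.swap2
    have ht2 : ∀ z : Ω, t • (t • z) = z := by
      have h1 : t * t = 1 := S.fix e f x x' hD _ (by rw [mul_smul, te, te]) (by rw [mul_smul, tf, tf])
        (by rw [mul_smul, tx, tx']) (by rw [mul_smul, tx', tx])
      intro z
      rw [← mul_smul, h1, one_smul]
    have hcomm : φ * t * φ = t := by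
      apply S.eq4 hD
      · rw [mul_smul, mul_smul, φe, tf, φf, te]
      · rw [mul_smul, mul_smul, φf, te, φe, tf]
      · rw [mul_smul, mul_smul, ← hx', tx', ← hx', tx]
      · rw [mul_smul, mul_smul, hφx', tx, hφx', tx']
    have hcomm' : ∀ z : Ω, φ • (t • z) = t • (φ • z) := by
      intro z
      conv_rhs => rw [← hcomm]
      rw [mul_smul, mul_smul, hφ2]
    obtain ⟨m, hm, hme, hmf⟩ := hO e f x x' t hD te tf tx tx'
    have htne : t ≠ 1 := by
      intro e1
      rw [e1, one_smul] at tx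
      exact hne tx
    have hmx : m ≠ x := by
      rintro rfl
      rw [tx] at hm
      exact hne hm.symm
    have htall : ∀ z, t • z = z → z = e ∨ z = f ∨ z = m := by
      intro z hz
      by_contra hc
      simp only [not_or] at hc
      exact htne (S.fix e f m z ⟨hef, hme.symm, fun e1 => hc.1 e1.symm, hmf.symm, fun e1 => hc.2.1 e1.symm, fun e1 => hc.2.2 e1.symm⟩ _ te tf hm hz)
    have hφm : φ • m = m := by
      rcases htall (φ • m) (by rw [← hcomm', hm]) with h2 | h2 | h2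
      · exfalso
        apply hmf
        rw [← hφ2 m, h2, φe]
      · exfalso
        apply hme
        rw [← hφ2 m, h2, φf]
      · exact h2
    exact ⟨m, hFix m hφm, t, ht2, te, tf, hm, by rw [tx, hx']⟩
  -- at most two points for each `m`
  have hB : ∀ m, φ • m = m → m ≠ e → m ≠ f → ∃ T : Finset Ω, T.card ≤ 2 ∧ ∀ x, (x ≠ e ∧ x ≠ f ∧ x ≠ c ∧ x ≠ d ∧ x ≠ w₀ ∧ ∃ t : G, (∀ z : Ω, t • (t • z) = z) ∧
      t • e = e ∧ t • f = f ∧ t • m = m ∧ t • x = φ • x) → x ∈ T := by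
    intro m hφm hme hmf
    apply at_most_two {x : Ω | x ≠ e ∧ x ≠ f ∧ x ≠ c ∧ x ≠ d ∧ x ≠ w₀ ∧ ∃ t : G, (∀ z : Ω, t • (t • z) = z) ∧
      t • e = e ∧ t • f = f ∧ t • m = m ∧ t • x = φ • x}
    rintro x₁ ⟨h11, h12, h13, h14, h15, t₁, t₁2, t₁e, t₁f, t₁m, t₁x⟩ x₂ ⟨h21, h22, h23, h24, h25, t₂, t₂2, t₂e, t₂f, t₂m, t₂x⟩
      x₃ ⟨h31, h32, h33, h34, h35, t₃, t₃2, t₃e, t₃f, t₃m, t₃x⟩ h1 h2 h3
    have hnf : ∀ x, x ≠ c → x ≠ d → x ≠ w₀ → φ • x ≠ x := by
      intro x h4 h5 h6 h7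
      rcases hFix x h7 with h8 | h8 | h8
      · exact h4 h8
      · exact h5 h8
      · exact h6 h8
    have hmem : m = c ∨ m = d ∨ m = w₀ := hFix m hφm
    have hxm : ∀ x, x ≠ c → x ≠ d → x ≠ w₀ → x ≠ m := by
      intro x h4 h5 h6 h7
      rcases hmem with h8 | h8 | h8
      · exact h4 (h7.trans h8)
      · exact h5 (h7.trans h8)
      · exact h6 (h7.trans h8)
    have hD1 : D e f m x₁ := ⟨hef, hme.symm, h11.symm, hmf.symm, h12.symm, (hxm x₁ h13 h14 h15).symm⟩
    -- a nontrivial involution fixing `e, f, m` moves every other point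
    have hmove : ∀ (t : G) (y y' : Ω), y' ≠ e → y' ≠ f → y' ≠ m → t • e = e → t • f = f → t • m = m → t • y ≠ y → t • y' ≠ y' := by
      intro t y y' h4 h5 h6 h7 h8 h9 h10 h16
      have h17 := S.fix e f m y' ⟨hef, hme.symm, h4.symm, hmf.symm, h5.symm, h6.symm⟩ t h7 h8 h9 h16
      rw [h17, one_smul] at h10
      exact h10 rfl
    have ht₁x₁ : t₁ • x₁ ≠ x₁ := by
      rw [t₁x]
      exact hnf x₁ h13 h14 h15
    have ht₂x₂ : t₂ • x₂ ≠ x₂ := by
      rw [t₂x]
      exact hnf x₂ h23 h24 h25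
    have ht₃x₃ : t₃ • x₃ ≠ x₃ := by
      rw [t₃x]
      exact hnf x₃ h33 h34 h35
    have ht₂x₁ := hmove t₂ x₂ x₁ h11 h12 (hxm x₁ h13 h14 h15) t₂e t₂f t₂m ht₂x₂
    have ht₃x₁ := hmove t₃ x₃ x₁ h11 h12 (hxm x₁ h13 h14 h15) t₃e t₃f t₃m ht₃x₃
    have e12 : t₁ = t₂ := uniq3 S hO hD1 t₁2 t₂2 t₁e t₁f t₁m ht₁x₁ t₂e t₂f t₂m ht₂x₁
    have e13 : t₁ = t₃ := uniq3 S hO hD1 t₁2 t₃2 t₁e t₁f t₁m ht₁x₁ t₃e t₃f t₃m ht₃x₁
    subst e12
    subst e13
    have hρ := S.fix x₁ x₂ x₃ m ⟨h1, h2, hxm x₁ h13 h14 h15, h3, hxm x₂ h23 h24 h25, hxm x₃ h33 h34 h35⟩ (φ * t₁)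
      (by rw [mul_smul, t₁x, hφ2]) (by rw [mul_smul, t₂x, hφ2]) (by rw [mul_smul, t₃x, hφ2]) (by rw [mul_smul, t₁m, hφm])
    have h16 : (φ * t₁) • e = f := by rw [mul_smul, t₁e, φe]
    rw [hρ, one_smul] at h16
    exact hef h16
  have hce : c ≠ e := h.2.1.symm
  have hcf : c ≠ f := h.2.2.2.1.symm
  have hde : d ≠ e := h.2.2.1.symm
  have hdf : d ≠ f := h.2.2.2.2.1.symm
  obtain ⟨T₁, hT₁, hT₁'⟩ := hB c φc hce hcf
  obtain ⟨T₂, hT₂, hT₂'⟩ := hB d φd hde hdf
  obtain ⟨T₃, hT₃, hT₃'⟩ := hB w₀ φw hwe hwf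
  have hcov : ∀ x : Ω, x ∈ ((({e, f, c, d, w₀} : Finset Ω) ∪ T₁) ∪ T₂) ∪ T₃ := by
    intro x
    by_cases h1 : x = e
    · simp [h1]
    by_cases h2 : x = f
    · simp [h2]
    by_cases h3 : x = c
    · simp [h3]
    by_cases h4 : x = d
    · simp [h4]
    by_cases h5 : x = w₀
    · simp [h5]
    obtain ⟨m, hm, ht⟩ := hQ x h1 h2 h3 h4 h5
    rcases hm with rfl | rfl | rfl
    · exact Finset.mem_union_left _ (Finset.mem_union_left _ (Finset.mem_union_right _ (hT₁' x ⟨h1, h2, h3, h4, h5, ht⟩)))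
    · exact Finset.mem_union_left _ (Finset.mem_union_right _ (hT₂' x ⟨h1, h2, h3, h4, h5, ht⟩))
    · exact Finset.mem_union_right _ (hT₃' x ⟨h1, h2, h3, h4, h5, ht⟩)
  obtain ⟨h5, h6⟩ := finite_of_cover _ hcov
  refine ⟨h5, h6.trans ?_, ?_⟩
  · have h7 := Finset.card_union_le (((({e, f, c, d, w₀} : Finset Ω) ∪ T₁) ∪ T₂)) T₃
    have h8 := Finset.card_union_le (({e, f, c, d, w₀} : Finset Ω) ∪ T₁) T₂
    have h9 := Finset.card_union_le (({e, f, c, d, w₀} : Finset Ω)) T₁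
    have h10 : ({e, f, c, d, w₀} : Finset Ω).card ≤ 5 := Finset.card_le_five
    omega
  · -- parity
    intro hev
    haveI := Fintype.ofFinite Ω
    let F : Function.End Ω := fun z => φ • z
    have hF : F ^ 2 ^ 1 = 1 := by
      funext z
      show φ • (φ • z) = z
      exact hφ2 z
    have hmod := Equiv.Perm.card_fixedPoints_modEq (p := 2) (n := 1) hF
    have hcard : Fintype.card (Function.fixedPoints F) = 3 := by
      have h11 : ∀ x : Ω, x ∈ ({c, d, w₀} : Finset Ω) ↔ x ∈ Function.fixedPoints F := by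
        intro x
        simp only [Finset.mem_insert, Finset.mem_singleton]
        constructor
        · rintro (rfl | rfl | rfl)
          · exact φc
          · exact φd
          · exact φw
        · intro hx
          exact hFix x hx
      have h12 := Fintype.card_of_subtype ({c, d, w₀} : Finset Ω) h11
      rw [show Fintype.card (Function.fixedPoints F) = _ from h12]
      rw [Finset.card_insert_of_notMem (by simp [hcd, hwc.symm]), Finset.card_insert_of_notMem (by simp [hwd.symm])]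
      simp
    rw [hcard] at hmod
    rw [Nat.card_eq_fintype_card, Nat.even_iff] at hev
    unfold Nat.ModEq at hmod
    omega

/-- Tits' bound. -/
theorem main (h4 : MulAction.IsMultiplyPretransitive G Ω 4) (hsharp : ∀ x : Fin 4 ↪ Ω, MulAction.stabilizer G x = ⊥)
    (hne : Nonempty (Fin 4 ↪ Ω)) : Finite Ω ∧ Nat.card Ω ≤ 11 ∧ (Even (Nat.card Ω) → Nat.card Ω ≤ 6) := by
  have S := sh_of h4 hsharp
  obtain ⟨x⟩ := hne
  have hinj := x.injective
  have hne' : ∀ i j : Fin 4, i ≠ j → x i ≠ x j := fun i j h e => h (hinj e)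
  have h : D (x 0) (x 1) (x 2) (x 3) := ⟨hne' _ _ (by decide), hne' _ _ (by decide), hne' _ _ (by decide),
    hne' _ _ (by decide), hne' _ _ (by decide), hne' _ _ (by decide)⟩
  by_cases hO : ∀ (a b c d : Ω) (g : G), D a b c d → g • a = a → g • b = b → g • c = d → g • d = c → ∃ z, g • z = z ∧ z ≠ a ∧ z ≠ b
  · obtain ⟨h1, h2, h3⟩ := odd_case S hO h
    exact ⟨h1, h2, fun h5 => absurd h5 h3⟩
  · have hP : ∀ (a b c d : Ω) (g : G), D a b c d → g • a = a → g • b = b → g • c = d → g • d = c → ∀ z, g • z = z → z = a ∨ z = b := by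
      push Not at hO
      obtain ⟨a₀, b₀, c₀, d₀, g₀, hD₀, h01, h02, h03, h04, h05⟩ := hO
      intro a b c d g hD h1 h2 h3 h4' z hz
      obtain ⟨u, ua, ub, uc, ud⟩ := S.ex a₀ b₀ c₀ d₀ a b c d hD₀ hD
      have hg : g = u * g₀ * u⁻¹ := by
        apply S.eq4 hD
        · rw [h1, mul_smul, mul_smul, ← ua, inv_smul_smul, h01]
        · rw [h2, mul_smul, mul_smul, ← ub, inv_smul_smul, h02]
        · rw [h3, mul_smul, mul_smul, ← uc, inv_smul_smul, h03, ud]
        · rw [h4', mul_smul, mul_smul, ← ud, inv_smul_smul, h04, uc]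
      have h6 : g₀ • (u⁻¹ • z) = u⁻¹ • z := by
        rw [hg, mul_smul, mul_smul, smul_eq_iff_eq_inv_smul] at hz
        exact hz
      by_cases h7 : u⁻¹ • z = a₀
      · left
        rw [← ua, ← h7, smul_inv_smul]
      · right
        have h8 := h05 _ h6 h7
        rw [← ub, ← h8, smul_inv_smul]
    obtain ⟨h1, h2⟩ := even_case S hP h
    exact ⟨h1, by omega, fun _ => h2⟩

end Cfsg.Agent.Lib.TitsFour
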