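import Mathlib
import Cfsg.Prelude
import Cfsg.Agent.Lib.PResidual
import Cfsg.Agent.Lib.IndexP
import Cfsg.Agent.Lib.H2Basic

/-! Transfer evaluated on elements whose conjugates into the subgroup are controlled. -/

set_option autoImplicit false
set_option linter.all false

namespace Cfsg.Agent.Lib.TransferCtl

open Cfsg

variable {G : Type*} [Group G]

/-- Transfer of `x` when the conjugates of its powers inside `S` are invisible to `ϕ`. -/
theorem transfer_pow {S : Subgroup G} [S.FiniteIndex] {A : Type*} [CommGroup A]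
    (ϕ : S →* A) (x : S)
    (h : ∀ (n : ℕ) (c : G) (hb : c * (x : G) ^ n * c⁻¹ ∈ S), ϕ ⟨_, hb⟩ = ϕ x ^ n) :
    ϕ.transfer (x : G) = ϕ x ^ S.index := by
  classical
  haveI : Fintype (Quotient (MulAction.orbitRel (Subgroup.zpowers (x : G)) (G ⧸ S))) := Fintype.ofFinite _
  rw [MonoidHom.transfer_eq_prod_quotient_orbitRel_zpowers_quot,
    Subgroup.index_eq_sum_minimalPeriod S (x : G), ← Finset.prod_pow_eq_pow_sum]
  refine Finset.prod_congr rfl fun q _ => ?_
  have hb : (Quotient.out q.out)⁻¹ * (x : G) ^ Function.minimalPeriod ((x : G) • ·) q.out * ((Quotient.out q.out)⁻¹)⁻¹ ∈ S := by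
    rw [inv_inv]
    exact QuotientGroup.out_conj_pow_minimalPeriod_mem S (x : G) q.out
  have := h _ _ hb
  rw [← this]
  congr 1
  apply Subtype.ext
  simp

/-- The main transfer lemma: `g` is not in the commutator subgroup. -/
theorem not_mem_commutator [Finite G] {p : ℕ} [hpp : Fact p.Prime] (H K : Subgroup G) (hHK : K ≤ H)
    (hKn : (K.subgroupOf H).Normal) (hab : ∀ x ∈ H, ∀ y ∈ H, x * y * x⁻¹ * y⁻¹ ∈ K)
    (hidx : Nat.Coprime p H.index) (g : G) (hgH : g ∈ H) (hgK : g ∉ K)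
    (hgp : ∃ k : ℕ, orderOf g = p ^ k)
    (hctrl : ∀ (m : ℤ) (a : G), a * g ^ m * a⁻¹ ∈ H → (a * g ^ m * a⁻¹) * (g ^ m)⁻¹ ∈ K) :
    g ∉ commutator G := by
  classical
  haveI : H.FiniteIndex := inferInstance
  haveI := hKn
  letI : CommGroup (H ⧸ K.subgroupOf H) :=
    { (QuotientGroup.Quotient.group (K.subgroupOf H)) with
      mul_comm := by
        rintro ⟨x⟩ ⟨y⟩
        apply QuotientGroup.eq.2
        show (x * y)⁻¹ * (y * x) ∈ K.subgroupOf H
        rw [Subgroup.mem_subgroupOf]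
        have h1 := hab _ (y⁻¹ : H).2 _ (x⁻¹ : H).2
        simp only [InvMemClass.coe_inv, inv_inv] at h1
        simpa [mul_assoc] using h1 }
  let ϕ : H →* (H ⧸ K.subgroupOf H) := QuotientGroup.mk' _
  intro hg
  have h1 : ϕ.transfer g = 1 := by
    have h2 := Abelianization.commutator_subset_ker ϕ.transfer hg
    exact h2
  have h2 : ϕ.transfer ((⟨g, hgH⟩ : H) : G) = ϕ ⟨g, hgH⟩ ^ H.index := by
    apply transfer_pow
    intro n c hb
    rw [← map_pow]
    apply QuotientGroup.eq.2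
    rw [Subgroup.mem_subgroupOf]
    have h3 := hctrl n c (by simpa using hb)
    have hw : c * g ^ n * c⁻¹ ∈ H := by simpa using hb
    have hz : g ^ n ∈ H := H.pow_mem hgH n
    have h4 : (c * g ^ n * c⁻¹)⁻¹ * g ^ n ∈ K := by
      have h5 : g ^ n * (c * g ^ n * c⁻¹)⁻¹ ∈ K := by
        have := K.inv_mem (by simpa using h3 : (c * g ^ (n : ℤ) * c⁻¹) * (g ^ (n : ℤ))⁻¹ ∈ K)
        simpa using this
      have h6 := hKn.conj_mem ⟨_, hHK h5⟩ (by
        rw [Subgroup.mem_subgroupOf]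
        exact h5) (⟨c * g ^ n * c⁻¹, hw⟩ : H)⁻¹
      rw [Subgroup.mem_subgroupOf] at h6
      have e : (c * g ^ n * c⁻¹)⁻¹ * g ^ n = (c * g ^ n * c⁻¹)⁻¹ * (g ^ n * (c * g ^ n * c⁻¹)⁻¹) * (c * g ^ n * c⁻¹) := by group
      rw [e]
      simpa using h6
    simpa using h4
  have h7 : ϕ ⟨g, hgH⟩ ^ H.index = 1 := by
    rw [← h2]
    exact h1
  obtain ⟨k, hk⟩ := hgp
  have h8 : ϕ ⟨g, hgH⟩ ^ p ^ k = 1 := by
    rw [← map_pow]
    have : (⟨g, hgH⟩ : H) ^ p ^ k = 1 := by
      apply Subtype.ext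
      simp [← hk, pow_orderOf_eq_one]
    rw [this, map_one]
  have h9 : orderOf (ϕ ⟨g, hgH⟩) ∣ Nat.gcd (p ^ k) H.index :=
    Nat.dvd_gcd (orderOf_dvd_of_pow_eq_one h8) (orderOf_dvd_of_pow_eq_one h7)
  have h10 : Nat.gcd (p ^ k) H.index = 1 := Nat.Coprime.pow_left k hidx
  rw [h10, Nat.dvd_one, orderOf_eq_one_iff] at h9
  apply hgK
  have h11 := (QuotientGroup.eq_one_iff _).1 h9
  rw [Subgroup.mem_subgroupOf] at h11
  exact h11

/-- Tate-type statement: control of `p`-fusion computes the `p`-abelian quotient. -/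
theorem residual_inf [Finite G] {p : ℕ} [hpp : Fact p.Prime] (H : Subgroup G) (hidx : Nat.Coprime p H.index)
    (hfus : ∀ g ∈ H, (∃ k : ℕ, orderOf g = p ^ k) → ∀ a : G, a * g * a⁻¹ ∈ H → ∃ h ∈ H, h * g * h⁻¹ = a * g * a⁻¹) :
    (pResidual p G ⊔ commutator G) ⊓ H = (pResidual p ↥H ⊔ commutator ↥H).map H.subtype := by
  classical
  haveI : H.FiniteIndex := inferInstance
  set L : Subgroup ↥H := pResidual p ↥H ⊔ commutator ↥H with hL
  have hcomm : commutator ↥H ≤ L := le_sup_right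
  have hcm : ∀ x y : ↥H, x * y * x⁻¹ * y⁻¹ ∈ L := by
    intro x y
    apply hcomm
    exact Subgroup.commutator_mem_commutator (Subgroup.mem_top x) (Subgroup.mem_top y)
  haveI hLn : L.Normal := by
    constructor
    intro l hl h
    have e : h * l * h⁻¹ = (h * l * h⁻¹ * l⁻¹) * l := by group
    rw [e]
    exact L.mul_mem (hcm h l) hl
  letI : CommGroup (↥H ⧸ L) :=
    { (QuotientGroup.Quotient.group L) with
      mul_comm := by
        rintro ⟨x⟩ ⟨y⟩
        apply QuotientGroup.eq.2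
        show (x * y)⁻¹ * (y * x) ∈ L
        have h1 := hcm y⁻¹ x⁻¹
        simpa [mul_assoc] using h1 }
  let ϕ : ↥H →* (↥H ⧸ L) := QuotientGroup.mk' L
  have hres : ∀ y : ↥H, (orderOf y).Coprime p → y ∈ L := fun y hy =>
    (le_sup_left : pResidual p ↥H ≤ L) (Subgroup.subset_closure hy)
  have hAp : ∀ a : (↥H ⧸ L), ∃ k : ℕ, a ^ p ^ k = 1 := by
    intro a
    obtain ⟨h, rfl⟩ := QuotientGroup.mk'_surjective L a
    obtain ⟨y, z, e, -, hy, ⟨k, hk⟩, -, -⟩ := Cfsg.Agent.Lib.PResidual.exists_decomp (p := p) h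
    refine ⟨k, ?_⟩
    have h1 : (QuotientGroup.mk' L) y = 1 := (QuotientGroup.eq_one_iff y).2 (hres y hy)
    rw [e, map_mul, h1, one_mul, ← map_pow, ← hk, pow_orderOf_eq_one, map_one]
  have hker : pResidual p G ⊔ commutator G ≤ ϕ.transfer.ker := by
    refine sup_le ?_ ?_
    · refine (Subgroup.closure_le _).2 ?_
      intro x hx
      show ϕ.transfer x = 1
      obtain ⟨k, hk⟩ := hAp (ϕ.transfer x)
      have h1 : (ϕ.transfer x) ^ orderOf x = 1 := by
        rw [← map_pow, pow_orderOf_eq_one, map_one]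
      have h2 : orderOf (ϕ.transfer x) ∣ Nat.gcd (p ^ k) (orderOf x) :=
        Nat.dvd_gcd (orderOf_dvd_of_pow_eq_one hk) (orderOf_dvd_of_pow_eq_one h1)
      have h3 : Nat.gcd (p ^ k) (orderOf x) = 1 := Nat.Coprime.pow_left k (Nat.Coprime.symm hx)
      rw [h3, Nat.dvd_one, orderOf_eq_one_iff] at h2
      exact h2
    · exact Abelianization.commutator_subset_ker ϕ.transfer
  apply le_antisymm
  · rintro x ⟨hx1, hx2⟩
    obtain ⟨y, z, e, hc, hy, ⟨k, hk⟩, hyx, hzx⟩ := Cfsg.Agent.Lib.PResidual.exists_decomp (p := p) x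
    have hyH : y ∈ H := (Subgroup.zpowers_le.2 hx2) hyx
    have hzH : z ∈ H := (Subgroup.zpowers_le.2 hx2) hzx
    have hz1 : z ∈ pResidual p G ⊔ commutator G := (Subgroup.zpowers_le.2 hx1) hzx
    have hz2 : ϕ.transfer z = 1 := hker hz1
    have hz3 : ϕ.transfer ((⟨z, hzH⟩ : ↥H) : G) = ϕ ⟨z, hzH⟩ ^ H.index := by
      apply transfer_pow
      intro n c hb
      have hordz : ∃ j : ℕ, orderOf (z ^ n) = p ^ j := by
        have h1 : orderOf (z ^ n) ∣ p ^ k := by
          rw [← hk]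
          exact orderOf_pow_dvd n
        obtain ⟨j, -, hj⟩ := (Nat.dvd_prime_pow hpp.out).1 h1
        exact ⟨j, hj⟩
      obtain ⟨h, hh, hhe⟩ := hfus (z ^ n) (H.pow_mem hzH n) hordz c hb
      have e1 : (⟨c * ((⟨z, hzH⟩ : ↥H) : G) ^ n * c⁻¹, hb⟩ : ↥H) = ⟨h, hh⟩ * (⟨z, hzH⟩ ^ n) * (⟨h, hh⟩ : ↥H)⁻¹ := by
        apply Subtype.ext
        simpa using hhe.symm
      rw [e1, map_mul, map_mul, map_inv, map_pow, mul_comm (ϕ ⟨h, hh⟩), mul_inv_cancel_right]
    have hz4 : ϕ ⟨z, hzH⟩ ^ H.index = 1 := by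
      rw [← hz3]
      exact hz2
    have hz5 : ϕ ⟨z, hzH⟩ ^ p ^ k = 1 := by
      rw [← map_pow]
      have : (⟨z, hzH⟩ : ↥H) ^ p ^ k = 1 := by
        apply Subtype.ext
        simp [← hk, pow_orderOf_eq_one]
      rw [this, map_one]
    have h9 : orderOf (ϕ ⟨z, hzH⟩) ∣ Nat.gcd (p ^ k) H.index :=
      Nat.dvd_gcd (orderOf_dvd_of_pow_eq_one hz5) (orderOf_dvd_of_pow_eq_one hz4)
    have h10 : Nat.gcd (p ^ k) H.index = 1 := Nat.Coprime.pow_left k hidx
    rw [h10, Nat.dvd_one, orderOf_eq_one_iff] at h9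
    have hzL : (⟨z, hzH⟩ : ↥H) ∈ L := (QuotientGroup.eq_one_iff _).1 h9
    have hyL : (⟨y, hyH⟩ : ↥H) ∈ L := by
      apply hres
      rw [Subgroup.orderOf_mk]
      exact hy
    exact ⟨⟨y, hyH⟩ * ⟨z, hzH⟩, L.mul_mem hyL hzL, by simp [e]⟩
  · rw [Subgroup.map_le_iff_le_comap]
    refine sup_le ?_ ?_
    · refine (Subgroup.closure_le _).2 ?_
      intro x hx
      refine ⟨Subgroup.mem_sup_left (Subgroup.subset_closure ?_), x.2⟩
      show (orderOf (x : G)).Coprime p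
      rw [Subgroup.orderOf_coe]
      exact hx
    · intro x hx
      refine ⟨Subgroup.mem_sup_right ?_, x.2⟩
      have h1 : (commutator ↥H).map H.subtype ≤ commutator G := by
        rw [commutator_def, commutator_def, Subgroup.map_commutator]
        exact Subgroup.commutator_mono le_top le_top
      exact h1 ⟨x, hx, rfl⟩

/-- Burnside fusion in an abelian Sylow subgroup. -/
theorem burnside_fusion [Finite G] {p : ℕ} [hpp : Fact p.Prime] (S : Sylow p G)
    (hS : ∀ a ∈ (S : Subgroup G), ∀ b ∈ (S : Subgroup G), a * b = b * a) {x c : G} (hx : x ∈ (S : Subgroup G))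
    (hc : c * x * c⁻¹ ∈ (S : Subgroup G)) :
    ∃ n ∈ Subgroup.normalizer ((S : Subgroup G) : Set G), n * x * n⁻¹ = c * x * c⁻¹ := by
  classical
  set y := c * x * c⁻¹ with hy
  set C := Subgroup.centralizer ({y} : Set G) with hC
  have hSC : (S : Subgroup G) ≤ C := by
    intro a ha
    refine Subgroup.mem_centralizer_iff.2 ?_
    intro z hz
    rw [Set.mem_singleton_iff] at hz
    subst hz
    exact hS _ hc _ ha
  let S₁ : Sylow p ↥C := S.subtype hSC
  have hS₁ : (S₁ : Subgroup ↥C) = (S : Subgroup G).subgroupOf C := Sylow.coe_subtype _ _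
  let T : Subgroup G := (S : Subgroup G).map (MulAut.conj c).toMonoidHom
  have hTp : IsPGroup p T := S.isPGroup'.map _
  have hTC : T ≤ C := by
    rintro _ ⟨a, ha, rfl⟩
    refine Subgroup.mem_centralizer_iff.2 ?_
    intro z hz
    rw [Set.mem_singleton_iff] at hz
    subst hz
    have h1 := hS _ hx _ ha
    show c * x * c⁻¹ * (c * a * c⁻¹) = c * a * c⁻¹ * (c * x * c⁻¹)
    calc c * x * c⁻¹ * (c * a * c⁻¹) = c * (x * a) * c⁻¹ := by group
      _ = c * (a * x) * c⁻¹ := by rw [h1]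
      _ = _ := by group
  have hAp : IsPGroup p (T.subgroupOf C) := hTp.comap_of_injective C.subtype C.subtype_injective
  obtain ⟨d, hd⟩ := Cfsg.Agent.Lib.H2Basic.exists_conj_le_sylow hAp S₁
  refine ⟨(d : G) * c, ?_, ?_⟩
  · apply Cfsg.Agent.Lib.H2Basic.mem_normalizer_of_conj_le
    intro a ha
    have h1 : c * a * c⁻¹ ∈ T := ⟨a, ha, rfl⟩
    have h2 : (⟨c * a * c⁻¹, hTC h1⟩ : ↥C) ∈ T.subgroupOf C := h1
    have h3 := hd ⟨_, h2, rfl⟩
    rw [hS₁, Subgroup.mem_subgroupOf] at h3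
    have e : (d : G) * c * a * ((d : G) * c)⁻¹ = (d : G) * (c * a * c⁻¹) * (d : G)⁻¹ := by group
    rw [e]
    exact h3
  · have h1 := Subgroup.mem_centralizer_iff.1 d.2 y rfl
    have e : (d : G) * c * x * ((d : G) * c)⁻¹ = (d : G) * y * (d : G)⁻¹ := by
      rw [hy]
      group
    rw [e, ← h1]
    group

end Cfsg.Agent.Lib.TransferCtl
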