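import Mathlib

/-! Moving injective tuples one coordinate at a time. -/

set_option autoImplicit false
set_option linter.all false

namespace Cfsg.Agent.Lib.TupleMove

open MulAction

variable {G α : Type*} [Group G] [MulAction G α]

/-- If any one coordinate of an injective tuple can be moved to any point off the tuple (the other
coordinates being fixed), and there is a spare point, then the action is `j`-transitive. -/
theorem tuple_transitive [Finite α] {j : ℕ} (hj : j < Nat.card α)
    (hstep : ∀ (x : Fin j ↪ α) (i : Fin j) (v : α), v ∉ Set.range x →
      ∃ g : G, (∀ i', i' ≠ i → g • x i' = x i') ∧ g • x i = v) :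
    IsMultiplyPretransitive G α j := by
  classical
  haveI := Fintype.ofFinite α
  have key : ∀ (d : ℕ) (x y : Fin j ↪ α), (Finset.univ.filter (fun i => x i ≠ y i)).card = d →
      ∃ g : G, g • x = y := by
    intro d
    induction d using Nat.strong_induction_on with
    | _ d ih =>
      intro x y hd
      by_cases h0 : ∀ i, x i = y i
      · exact ⟨1, by ext i; simpa using h0 i⟩
      · push Not at h0
        obtain ⟨i, hi⟩ := h0
        have hzfn : ∃ z : α, z ∉ Set.range x := by
          by_contra hn
          push Not at hn
          have h1 : Function.Surjective x := fun z => hn z
          have h2 : Nat.card α ≤ Nat.card (Fin j) := Nat.card_le_card_of_surjective x h1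
          rw [Nat.card_fin] at h2
          omega
        obtain ⟨z, hz⟩ := hzfn
        -- the final step: if `y i` is off the range, moving it reduces distance
        have hfin : ∀ x' : Fin j ↪ α, y i ∉ Set.range x' →
            (∀ k, k ≠ i → x' k ≠ y k → x k ≠ y k) → ∃ g : G, g • x' = y := by
          intro x' hx' hk
          obtain ⟨g, hg1, hg2⟩ := hstep x' i (y i) hx'
          have hlt : (Finset.univ.filter (fun k => (g • x') k ≠ y k)).card < d := by
            rw [← hd]
            apply Finset.card_lt_card
            rw [Finset.ssubset_iff_of_subset]
            · refine ⟨i, by simpa using hi, ?_⟩
              simp only [Finset.mem_filter, Finset.mem_univ, true_and, not_not]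
              exact hg2
            · intro k hk'
              simp only [Finset.mem_filter, Finset.mem_univ, true_and] at hk' ⊢
              by_cases hki : k = i
              · rw [hki]; exact hi
              · apply hk k hki
                have : (g • x') k = x' k := hg1 k hki
                rwa [this] at hk'
          obtain ⟨g', hg'⟩ := ih _ hlt (g • x') y rfl
          exact ⟨g' * g, by rw [mul_smul]; exact hg'⟩
        by_cases hy : y i ∈ Set.range x
        · obtain ⟨i', hi'⟩ := hy
          have hii' : i' ≠ i := by
            rintro rfl
            exact hi hi'
          obtain ⟨g, hg1, hg2⟩ := hstep x i' z hz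
          have hrange : y i ∉ Set.range (g • x) := by
            rintro ⟨k, hk⟩
            have hk' : g • x k = y i := hk
            by_cases hki : k = i'
            · subst hki
              rw [hg2] at hk'
              exact hz ⟨k, by rw [hk', hi']⟩
            · rw [hg1 k hki, ← hi'] at hk'
              exact hki (x.injective hk')
          obtain ⟨g', hg'⟩ := hfin (g • x) hrange (by
            intro k hki hne
            by_cases hki' : k = i'
            · subst hki'
              intro he
              apply hki
              apply y.injective
              rw [← he, hi']
            · have : (g • x) k = x k := hg1 k hki'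
              rwa [this] at hne)
          exact ⟨g' * g, by rw [mul_smul]; exact hg'⟩
        · exact hfin x hy (fun k _ h => h)
  exact ⟨fun x y => key _ x y rfl⟩

end Cfsg.Agent.Lib.TupleMove
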