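import Mathlib

/-! A group of order `2520` acting faithfully and linearly on a space of order `16` in
characteristic two is doubly transitive on the nonzero vectors. -/

set_option autoImplicit false
set_option linter.all false

namespace Cfsg.Agent.Lib.TwoTransA7

open MulAction

theorem orb_mul {H X : Type*} [Group H] [MulAction H X] (b : X) :
    Nat.card (orbit H b) * Nat.card (stabilizer H b) = Nat.card H := by
  rw [Nat.card_congr (orbitEquivQuotientStabilizer H b)]
  exact (Subgroup.card_eq_card_quotient_mul_card_subgroup _).symm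

theorem dvd_orbit {H X : Type*} [Group H] [Finite H] [MulAction H X] (p : ℕ) [hp : Fact p.Prime]
    (hd : p ∣ Nat.card H) (b : X) (h : ∀ g : H, orderOf g = p → g • b ≠ b) :
    p ∣ Nat.card (orbit H b) := by
  have h1 := orb_mul (H := H) b
  rw [← h1] at hd
  rcases (Nat.Prime.dvd_mul hp.out).1 hd with h2 | h2
  · exact h2
  · obtain ⟨x, hx⟩ := exists_prime_orderOf_dvd_card' (G := stabilizer H b) p h2
    exfalso
    apply h (x : H)
    · rw [Subgroup.orderOf_coe, hx]
    · exact x.2

theorem two_dvd_of_invol {α : Type*} [Finite α] (t : α → α) (h1 : ∀ x, t (t x) = x) (h2 : ∀ x, t x ≠ x) :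
    2 ∣ Nat.card α := by
  classical
  haveI := Fintype.ofFinite α
  let σ : Equiv.Perm α := Function.Involutive.toPerm t h1
  have h3 := Equiv.Perm.two_dvd_card_support (σ := σ) (by
    ext x
    rw [sq, Equiv.Perm.mul_apply, Equiv.Perm.one_apply]
    exact h1 x)
  have hs : σ.support = Finset.univ := by
    ext x
    simp only [Equiv.Perm.mem_support, Finset.mem_univ, iff_true]
    exact h2 x
  rw [hs, Finset.card_univ, ← Nat.card_eq_fintype_card] at h3
  exact h3

section Main

variable {H V : Type*} [Group H] [AddCommGroup V] [DistribMulAction H V] [FaithfulSMul H V] [Finite V]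

/-- The fixed vectors of `g`. -/
def fixA (g : H) : AddSubgroup V where
  carrier := {v | g • v = v}
  add_mem' := by
    intro a b ha hb
    show g • (a + b) = a + b
    rw [smul_add, show g • a = a from ha, show g • b = b from hb]
  zero_mem' := smul_zero g
  neg_mem' := by
    intro a ha
    show g • (-a) = -a
    rw [smul_neg, show g • a = a from ha]

omit [FaithfulSMul H V] in
theorem fix_modEq (g : H) (r : ℕ) [hr : Fact r.Prime] (hg : orderOf g = r) :
    Nat.card V ≡ Nat.card (fixA (H := H) (V := V) g) [MOD r] := by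
  have hP : IsPGroup r (Subgroup.zpowers g) := IsPGroup.of_card (n := 1) (by
    rw [Nat.card_zpowers, hg, pow_one])
  have h1 := hP.card_modEq_card_fixedPoints V
  have e : Nat.card (fixedPoints (Subgroup.zpowers g) V) = Nat.card (fixA (H := H) (V := V) g) := by
    apply Nat.card_congr
    refine Equiv.subtypeEquivRight (fun v => ?_)
    constructor
    · intro hv
      exact hv ⟨g, Subgroup.mem_zpowers g⟩
    · intro hv x
      have hle : Subgroup.zpowers g ≤ stabilizer H v := by
        rw [Subgroup.zpowers_le]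
        exact hv
      exact hle x.2
  rw [e] at h1
  exact h1

theorem eq_one_of_top (g : H) (hV : Nat.card (fixA (H := H) (V := V) g) = Nat.card V) : g = 1 := by
  have htop := AddSubgroup.eq_top_of_card_eq (fixA (H := H) (V := V) g) hV
  apply FaithfulSMul.eq_of_smul_eq_smul (α := V)
  intro v
  have : v ∈ fixA (H := H) (V := V) g := by
    rw [htop]
    exact AddSubgroup.mem_top v
  rw [one_smul]
  exact this

theorem f5 (hV : Nat.card V = 16) (g : H) (hg : orderOf g = 5) (v : V) (hv : v ≠ 0) : g • v ≠ v := by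
  intro hfix
  haveI : Fact (Nat.Prime 5) := ⟨by norm_num⟩
  have h1 := fix_modEq (V := V) g 5 hg
  have h2 := AddSubgroup.card_addSubgroup_dvd_card (fixA (H := H) (V := V) g)
  rw [hV] at h1 h2
  obtain ⟨c, hc⟩ : ∃ c, c = Nat.card (fixA (H := H) (V := V) g) := ⟨_, rfl⟩
  rw [← hc] at h1 h2
  have hle := Nat.le_of_dvd (by norm_num) h2
  unfold Nat.ModEq at h1
  have hcases : c = 1 ∨ c = 16 := by
    interval_cases c <;> omega
  rcases hcases with h | h
  · rw [h] at hc
    have : Subsingleton (fixA (H := H) (V := V) g) := (Nat.card_eq_one_iff_unique.1 hc.symm).1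
    have h3 : (⟨v, hfix⟩ : fixA (H := H) (V := V) g) = ⟨0, smul_zero g⟩ := Subsingleton.elim _ _
    exact hv (congrArg Subtype.val h3)
  · have : g = 1 := eq_one_of_top g (by rw [← hc, h, hV])
    rw [this, orderOf_one] at hg
    omega

theorem f7 (hV : Nat.card V = 16) (g : H) (hg : orderOf g = 7) (v w : V) (hv : v ≠ 0) (hw : w ≠ 0)
    (hfv : g • v = v) (hfw : g • w = w) : v = w := by
  haveI : Fact (Nat.Prime 7) := ⟨by norm_num⟩
  have h1 := fix_modEq (V := V) g 7 hg
  have h2 := AddSubgroup.card_addSubgroup_dvd_card (fixA (H := H) (V := V) g)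
  rw [hV] at h1 h2
  obtain ⟨c, hc⟩ : ∃ c, c = Nat.card (fixA (H := H) (V := V) g) := ⟨_, rfl⟩
  rw [← hc] at h1 h2
  have hle := Nat.le_of_dvd (by norm_num) h2
  unfold Nat.ModEq at h1
  have hcases : c = 2 ∨ c = 16 := by
    interval_cases c <;> omega
  rcases hcases with h | h
  · rw [h] at hc
    have h4 := (Nat.card_eq_two_iff' (⟨0, smul_zero g⟩ : fixA (H := H) (V := V) g)).1 hc.symm
    obtain ⟨y, -, huniq⟩ := h4
    have e1 := huniq ⟨v, hfv⟩ (fun h' => hv (congrArg Subtype.val h'))
    have e2 := huniq ⟨w, hfw⟩ (fun h' => hw (congrArg Subtype.val h'))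
    exact congrArg Subtype.val (e1.trans e2.symm)
  · have : g = 1 := eq_one_of_top g (by rw [← hc, h, hV])
    rw [this, orderOf_one] at hg
    omega

theorem card_nz (hV : Nat.card V = 16) : Nat.card {v : V // v ≠ 0} = 15 := by
  classical
  haveI := Fintype.ofFinite V
  rw [Nat.card_eq_fintype_card] at hV ⊢
  have h1 := Fintype.card_subtype_compl (fun v : V => v = 0)
  rw [Fintype.card_subtype_eq] at h1
  rw [hV] at h1
  exact h1

omit [FaithfulSMul H V] [Finite V] in
theorem smul_ne_zero' (g : H) {v : V} (hv : v ≠ 0) : g • v ≠ 0 := by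
  intro h
  apply hv
  have := congrArg (fun x => g⁻¹ • x) h
  simpa using this

variable [Finite H]

omit [FaithfulSMul H V] in
theorem orbit_le (hV : Nat.card V = 16) (v : V) (hv : v ≠ 0) : Nat.card (orbit H v) ≤ 15 := by
  rw [← card_nz hV]
  refine Nat.card_le_card_of_injective (fun x => ⟨x.1, ?_⟩) ?_
  · obtain ⟨g, hg⟩ := x.2
    rw [← hg]
    exact smul_ne_zero' g hv
  · intro x y hxy
    exact Subtype.ext (show (x : V) = y from congrArg (fun z : {v : V // v ≠ 0} => z.1) hxy)

theorem dvd5 (hH : Nat.card H = 2520) (hV : Nat.card V = 16) (v : V) (hv : v ≠ 0) :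
    5 ∣ Nat.card (orbit H v) := by
  haveI : Fact (Nat.Prime 5) := ⟨by norm_num⟩
  apply dvd_orbit 5 (by rw [hH]; norm_num) v
  intro g hg
  exact f5 hV g hg v hv

theorem exists_seven (hH : Nat.card H = 2520) (hV : Nat.card V = 16) (v : V) (hv : v ≠ 0) :
    ∃ x : H, orderOf x = 7 ∧ x • v = v := by
  haveI : Fact (Nat.Prime 7) := ⟨by norm_num⟩
  by_contra hcon
  have h7 : 7 ∣ Nat.card (orbit H v) := by
    apply dvd_orbit 7 (by rw [hH]; norm_num) v
    intro g hg hgv
    exact hcon ⟨g, hg, hgv⟩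
  have h5 := dvd5 hH hV v hv
  have hle := orbit_le (H := H) hV v hv
  haveI : Nonempty (orbit H v) := ⟨⟨v, mem_orbit_self v⟩⟩
  have hpos : 0 < Nat.card (orbit H v) := Nat.card_pos
  omega

theorem transitive (hH : Nat.card H = 2520) (hV : Nat.card V = 16) (v v' : V) (hv : v ≠ 0) (hv' : v' ≠ 0) :
    ∃ h : H, h • v' = v := by
  haveI : Fact (Nat.Prime 7) := ⟨by norm_num⟩
  obtain ⟨x, hx, hxv⟩ := exists_seven hH hV v hv
  have hP : IsPGroup 7 (Subgroup.zpowers x) := IsPGroup.of_card (n := 1) (by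
    rw [Nat.card_zpowers, hx, pow_one])
  have h1 := hP.card_modEq_card_fixedPoints (orbit H v')
  have h5 := dvd5 hH hV v' hv'
  have hle := orbit_le (H := H) hV v' hv'
  haveI : Nonempty (orbit H v') := ⟨⟨v', mem_orbit_self v'⟩⟩
  have hpos : 0 < Nat.card (orbit H v') := Nat.card_pos
  have hne : Nonempty (fixedPoints (Subgroup.zpowers x) (orbit H v')) := by
    by_contra hemp
    rw [not_nonempty_iff] at hemp
    have h0 : Nat.card (fixedPoints (Subgroup.zpowers x) (orbit H v')) = 0 := Nat.card_of_isEmpty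
    rw [h0] at h1
    unfold Nat.ModEq at h1
    omega
  obtain ⟨⟨y, hy⟩⟩ := hne
  have hy2 : x • (y : V) = y := by
    have := hy ⟨x, Subgroup.mem_zpowers x⟩
    exact congrArg Subtype.val this
  obtain ⟨h, hh⟩ := y.2
  have hy0 : (y : V) ≠ 0 := by
    rw [← hh]
    exact smul_ne_zero' h hv'
  have := f7 hV x hx v y hv hy0 hxv hy2
  exact ⟨h, by rw [this]; exact hh⟩

/-- Ordered pairs of distinct nonzero vectors. -/
def PP (V : Type*) [AddCommGroup V] := {p : V × V // p.1 ≠ 0 ∧ p.2 ≠ 0 ∧ p.1 ≠ p.2}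

instance : Finite (PP V) := by
  unfold PP
  infer_instance

instance : MulAction H (PP V) where
  smul g p := ⟨(g • p.1.1, g • p.1.2), smul_ne_zero' g p.2.1, smul_ne_zero' g p.2.2.1, by
    intro h
    exact p.2.2.2 (MulAction.injective g h)⟩
  one_smul p := Subtype.ext (by
    show ((1 : H) • p.1.1, (1 : H) • p.1.2) = p.1
    simp)
  mul_smul a b p := Subtype.ext (by
    show ((a * b) • p.1.1, (a * b) • p.1.2) = (a • b • p.1.1, a • b • p.1.2)
    simp [mul_smul])

omit [FaithfulSMul H V] [Finite V] [Finite H] in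
theorem smul_fst (g : H) (p : PP V) : (g • p).1.1 = g • p.1.1 := rfl
omit [FaithfulSMul H V] [Finite V] [Finite H] in
theorem smul_snd (g : H) (p : PP V) : (g • p).1.2 = g • p.1.2 := rfl

omit [FaithfulSMul H V] [Finite H] in
theorem card_PP (hV : Nat.card V = 16) : Nat.card (PP V) ≤ 225 := by
  have h1 : Nat.card (PP V) ≤ Nat.card ({v : V // v ≠ 0} × {v : V // v ≠ 0}) :=
    Nat.card_le_card_of_injective (fun p => (⟨p.1.1, p.2.1⟩, ⟨p.1.2, p.2.2.1⟩)) (by
      intro a b hab
      apply Subtype.ext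
      have e1 := congrArg (fun x => (x.1 : V)) hab
      have e2 := congrArg (fun x => (x.2 : V)) hab
      exact Prod.ext e1 e2)
  rw [Nat.card_prod, card_nz hV] at h1
  exact h1

theorem dvd105 (hH : Nat.card H = 2520) (hV : Nat.card V = 16) (p : PP V) :
    105 ∣ Nat.card (orbit H p) := by
  haveI : Fact (Nat.Prime 5) := ⟨by norm_num⟩
  haveI : Fact (Nat.Prime 7) := ⟨by norm_num⟩
  have h5 : 5 ∣ Nat.card (orbit H p) := by
    apply dvd_orbit 5 (by rw [hH]; norm_num) p
    intro g hg hgp
    have : g • p.1.1 = p.1.1 := congrArg (fun x => x.1.1) hgp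
    exact f5 hV g hg _ p.2.1 this
  have h7 : 7 ∣ Nat.card (orbit H p) := by
    apply dvd_orbit 7 (by rw [hH]; norm_num) p
    intro g hg hgp
    have e1 : g • p.1.1 = p.1.1 := congrArg (fun x => x.1.1) hgp
    have e2 : g • p.1.2 = p.1.2 := congrArg (fun x => x.1.2) hgp
    exact p.2.2.2 (f7 hV g hg _ _ p.2.1 p.2.2.1 e1 e2)
  -- the factor 3 : compare with the stabilizer of the first coordinate
  have h15 : Nat.card (orbit H p.1.1) = 15 := by
    rw [← card_nz hV]
    apply Nat.card_congr
    refine Equiv.subtypeEquivRight (fun v => ?_)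
    constructor
    · rintro ⟨g, rfl⟩
      exact smul_ne_zero' g p.2.1
    · intro hv
      obtain ⟨h, hh⟩ := transitive (H := H) hH hV v p.1.1 hv p.2.1
      exact ⟨h, hh⟩
  have h1 := orb_mul (H := H) p.1.1
  have h2 := orb_mul (H := H) p
  rw [h15, hH] at h1
  rw [hH] at h2
  have hle : stabilizer H p ≤ stabilizer H p.1.1 := by
    intro g hg
    exact congrArg (fun x => x.1.1) hg
  obtain ⟨k, hk⟩ := Subgroup.card_dvd_of_le hle
  have hS : Nat.card (stabilizer H p.1.1) = 168 := by omega
  rw [hS] at hk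
  have hpos : 0 < Nat.card (stabilizer H p) := Nat.card_pos
  have h3 : 15 ∣ Nat.card (orbit H p) := by
    refine ⟨k, ?_⟩
    apply Nat.eq_of_mul_eq_mul_right hpos
    rw [h2]
    calc 2520 = 15 * 168 := by norm_num
      _ = 15 * (Nat.card (stabilizer H p) * k) := by rw [hk]
      _ = 15 * k * Nat.card (stabilizer H p) := by ring
  omega

omit [FaithfulSMul H V] [Finite V] [Finite H] in
theorem orbit_symm {x y : PP V} (h : y ∈ orbit H x) : x ∈ orbit H y := by
  obtain ⟨g, rfl⟩ := h
  exact ⟨g⁻¹, by simp⟩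

omit [FaithfulSMul H V] [Finite V] [Finite H] in
theorem orbit_trans {x y z : PP V} (h : y ∈ orbit H x) (h' : z ∈ orbit H y) : z ∈ orbit H x := by
  obtain ⟨g, rfl⟩ := h
  obtain ⟨k, rfl⟩ := h'
  exact ⟨k * g, by simp [mul_smul]⟩

omit [FaithfulSMul H V] [Finite H] in
theorem sum_two (hV : Nat.card V = 16) (x y : PP V) (hxy : y ∉ orbit H x) :
    Nat.card (orbit H x) + Nat.card (orbit H y) ≤ 225 := by
  have h1 : Nat.card ((orbit H x) ⊕ (orbit H y)) ≤ Nat.card (PP V) := by
    refine Nat.card_le_card_of_injective (Sum.elim Subtype.val Subtype.val) ?_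
    rintro (a | a) (b | b) hab
    · simp only [Sum.elim_inl] at hab
      rw [Subtype.ext hab]
    · exfalso
      simp only [Sum.elim_inl, Sum.elim_inr] at hab
      apply hxy
      have h2 : (b : PP V) ∈ orbit H x := by
        rw [← hab]
        exact a.2
      exact orbit_trans h2 (orbit_symm b.2)
    · exfalso
      simp only [Sum.elim_inl, Sum.elim_inr] at hab
      apply hxy
      have h2 : (a : PP V) ∈ orbit H x := by
        rw [hab]
        exact b.2
      exact orbit_trans h2 (orbit_symm a.2)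
    · simp only [Sum.elim_inr] at hab
      rw [Subtype.ext hab]
  rw [Nat.card_sum] at h1
  exact h1.trans (card_PP hV)

omit [FaithfulSMul H V] [Finite H] in
theorem sum_three (hV : Nat.card V = 16) (x y z : PP V) (hxy : y ∉ orbit H x) (hxz : z ∉ orbit H x)
    (hyz : z ∉ orbit H y) :
    Nat.card (orbit H x) + Nat.card (orbit H y) + Nat.card (orbit H z) ≤ 225 := by
  have h1 : Nat.card (((orbit H x) ⊕ (orbit H y)) ⊕ (orbit H z)) ≤ Nat.card (PP V) := by
    refine Nat.card_le_card_of_injective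
      (Sum.elim (Sum.elim Subtype.val Subtype.val) Subtype.val) ?_
    have hd : ∀ {u w : PP V} (hw : w ∉ orbit H u) (a : orbit H u) (b : orbit H w), (a : PP V) ≠ b := by
      intro u w hw a b hab
      apply hw
      have h2 : (b : PP V) ∈ orbit H u := by
        rw [← hab]
        exact a.2
      exact orbit_trans h2 (orbit_symm b.2)
    rintro ((a | a) | a) ((b | b) | b) hab <;>
      simp only [Sum.elim_inl, Sum.elim_inr] at hab
    · rw [Subtype.ext hab]
    · exact absurd hab (hd hxy a b)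
    · exact absurd hab (hd hxz a b)
    · exact absurd hab.symm (hd hxy b a)
    · rw [Subtype.ext hab]
    · exact absurd hab (hd hyz a b)
    · exact absurd hab.symm (hd hxz b a)
    · exact absurd hab.symm (hd hyz b a)
    · rw [Subtype.ext hab]
  rw [Nat.card_sum, Nat.card_sum] at h1
  exact h1.trans (card_PP hV)

section Comb

variable (h2 : ∀ v : V, v + v = 0)

/-- The pair `(v, w)` goes to `(v, v + w)`. -/
def tau (h2 : ∀ v : V, v + v = 0) (p : PP V) : PP V :=
  ⟨(p.1.1, p.1.1 + p.1.2), p.2.1, by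
    intro h
    have h' : p.1.1 + p.1.2 = 0 := h
    apply p.2.2.2
    have e : p.1.1 + p.1.2 = p.1.1 + p.1.1 := by
      rw [h', h2]
    exact (add_left_cancel e).symm, by
    intro h
    have h' : p.1.1 = p.1.1 + p.1.2 := h
    apply p.2.2.1
    have e : p.1.1 + p.1.2 = p.1.1 + 0 := by
      rw [← h', add_zero]
    exact add_left_cancel e⟩

/-- The pair `(v, w)` goes to `(w, v)`. -/
def sig (p : PP V) : PP V :=
  ⟨(p.1.2, p.1.1), p.2.2.1, p.2.1, fun h => p.2.2.2 h.symm⟩

theorem tau_tau (p : PP V) : tau h2 (tau h2 p) = p := by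
  apply Subtype.ext
  apply Prod.ext
  · rfl
  · show p.1.1 + (p.1.1 + p.1.2) = p.1.2
    rw [← add_assoc, h2, zero_add]

theorem tau_ne (p : PP V) : tau h2 p ≠ p := by
  intro h
  have e : p.1.1 + p.1.2 = p.1.2 := congrArg (fun x => x.1.2) h
  apply p.2.1
  have e2 : p.1.1 + p.1.2 = 0 + p.1.2 := by rw [e, zero_add]
  exact add_right_cancel e2

omit [FaithfulSMul H V] [Finite V] [Finite H] in
theorem tau_smul (g : H) (p : PP V) : tau h2 (g • p) = g • tau h2 p := by
  apply Subtype.ext
  apply Prod.ext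
  · rfl
  · show g • p.1.1 + g • p.1.2 = g • (p.1.1 + p.1.2)
    rw [smul_add]

omit [FaithfulSMul H V] [Finite V] [Finite H] in
theorem sig_smul (g : H) (p : PP V) : sig (g • p) = g • sig p := rfl

theorem sig_sig (p : PP V) : sig (sig p) = p := rfl

omit [FaithfulSMul H V] [Finite H] in
theorem tau_not_mem (p : PP V) (hodd : Nat.card (orbit H p) = 105) : tau h2 p ∉ orbit H p := by
  rintro ⟨g, hg⟩
  have hg' : g • p = tau h2 p := hg
  have hm : ∀ x : orbit H p, tau h2 (x : PP V) ∈ orbit H p := by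
    rintro ⟨x, ⟨k, hk⟩⟩
    have hk' : k • p = x := hk
    show tau h2 x ∈ orbit H p
    rw [← hk', tau_smul, ← hg', ← mul_smul]
    exact mem_orbit p _
  have := two_dvd_of_invol (α := orbit H p) (fun x => ⟨tau h2 x, hm x⟩)
    (fun x => Subtype.ext (tau_tau h2 _)) (fun x h => tau_ne h2 (x : PP V) (congrArg Subtype.val h))
  rw [hodd] at this
  omega

theorem not_two_classes (h2 : ∀ v : V, v + v = 0) (hH : Nat.card H = 2520) (hV : Nat.card V = 16) (a b : PP V) (hab : b ∉ orbit H a) :
    False := by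
  haveI : Fact (Nat.Prime 2) := ⟨Nat.prime_two⟩
  have hpos : ∀ x : PP V, 0 < Nat.card (orbit H x) := by
    intro x
    haveI : Nonempty (orbit H x) := ⟨⟨x, mem_orbit_self x⟩⟩
    exact Nat.card_pos
  have h105 : ∀ x : PP V, Nat.card (orbit H x) = 105 := by
    intro x
    have aux : ∀ y : PP V, y ∉ orbit H x → Nat.card (orbit H x) = 105 := by
      intro y hy
      have h1 := sum_two (H := H) hV x y hy
      have h3 := dvd105 (H := H) hH hV x
      have h4 := dvd105 (H := H) hH hV y
      have h5 := hpos x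
      have h6 := hpos y
      omega
    by_cases hax : a ∈ orbit H x
    · by_cases hbx : b ∈ orbit H x
      · exact absurd (orbit_trans (orbit_symm hax) hbx) hab
      · exact aux b hbx
    · exact aux a hax
  have hthree : ∀ x y z : PP V, y ∈ orbit H x ∨ z ∈ orbit H x ∨ z ∈ orbit H y := by
    intro x y z
    by_contra hcon
    simp only [not_or] at hcon
    obtain ⟨c1, c2, c3⟩ := hcon
    have := sum_three (H := H) hV x y z c1 c2 c3
    rw [h105, h105, h105] at this
    omega
  have hA : ∀ p : PP V, tau h2 p ∉ orbit H p := fun p => tau_not_mem h2 p (h105 p)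
  -- an involution
  obtain ⟨g, hg⟩ := exists_prime_orderOf_dvd_card' (G := H) 2 (by rw [hH]; norm_num)
  have hg1 : g ≠ 1 := by
    rintro rfl
    rw [orderOf_one] at hg
    omega
  have hg2 : g * g = 1 := by
    rw [← sq, ← hg, pow_orderOf_eq_one]
  obtain ⟨v₁, hv₁⟩ : ∃ v : V, g • v ≠ v := by
    by_contra hcon
    push_neg at hcon
    apply hg1
    apply FaithfulSMul.eq_of_smul_eq_smul (α := V)
    intro v
    rw [one_smul]
    exact hcon v
  have hv₁0 : v₁ ≠ 0 := by
    rintro rfl
    exact hv₁ (smul_zero g)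
  let p₁ : PP V := ⟨(v₁, g • v₁), hv₁0, smul_ne_zero' g hv₁0, fun h => hv₁ h.symm⟩
  have hσ₁ : sig p₁ = g • p₁ := by
    apply Subtype.ext
    apply Prod.ext
    · show g • v₁ = g • v₁
      rfl
    · show v₁ = g • g • v₁
      rw [← mul_smul, hg2, one_smul]
  have hσ₁' : ∀ x ∈ orbit H p₁, sig x ∈ orbit H x := by
    rintro x ⟨k, hk⟩
    have hk' : k • p₁ = x := hk
    rw [← hk', sig_smul, hσ₁]
    refine ⟨k * g * k⁻¹, ?_⟩
    show (k * g * k⁻¹) • k • p₁ = k • g • p₁
    simp [mul_smul]
  have hC : ∀ p : PP V, sig p ∈ orbit H p := by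
    intro p
    by_cases hp : p ∈ orbit H p₁
    · exact hσ₁' p hp
    · have hp2 : sig p ∉ orbit H p₁ := by
        intro h
        have h3 := hσ₁' _ h
        rw [sig_sig] at h3
        exact hp (orbit_trans h (orbit_symm (orbit_symm h3)))
      rcases hthree p₁ p (sig p) with h | h | h
      · exact absurd h hp
      · exact absurd h hp2
      · exact h
  -- the contradiction
  have r1 : tau h2 (sig a) ∉ orbit H a := by
    intro h
    exact hA (sig a) (orbit_trans (orbit_symm (hC a)) h)
  have r2 : tau h2 (sig a) ∈ orbit H (tau h2 a) := by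
    rcases hthree a (tau h2 a) (tau h2 (sig a)) with h | h | h
    · exact absurd h (hA a)
    · exact absurd h r1
    · exact h
  have r3 : sig (tau h2 (sig a)) ∈ orbit H (sig (tau h2 a)) :=
    orbit_trans (orbit_symm (hC (tau h2 a))) (orbit_trans r2 (hC _))
  have r4 : tau h2 (sig (tau h2 a)) = sig (tau h2 (sig a)) := by
    apply Subtype.ext
    apply Prod.ext
    · show a.1.1 + a.1.2 = a.1.2 + a.1.1
      rw [add_comm]
    · show (a.1.1 + a.1.2) + a.1.1 = a.1.2
      rw [add_comm a.1.1 a.1.2, add_assoc, h2, add_zero]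
  apply hA (sig (tau h2 a))
  rw [r4]
  exact r3

theorem main_two_trans (h2 : ∀ v : V, v + v = 0) (hH : Nat.card H = 2520) (hV : Nat.card V = 16) (v w v' w' : V)
    (hv : v ≠ 0) (hw : w ≠ 0) (hvw : v ≠ w) (hv' : v' ≠ 0) (hw' : w' ≠ 0) (hvw' : v' ≠ w') :
    ∃ g : H, g • v = v' ∧ g • w = w' := by
  by_contra hcon
  apply not_two_classes h2 hH hV (⟨(v, w), hv, hw, hvw⟩ : PP V) (⟨(v', w'), hv', hw', hvw'⟩ : PP V)
  rintro ⟨g, hg⟩
  apply hcon
  exact ⟨g, congrArg (fun x => x.1.1) hg, congrArg (fun x => x.1.2) hg⟩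

end Comb

end Main

end Cfsg.Agent.Lib.TwoTransA7
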