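import Mathlib
import Cfsg.Agent.Lib.FlagTables
import Cfsg.Agent.Lib.CharOps
import Cfsg.Agent.Lib.CharGen
import Cfsg.Agent.Lib.CharIso

/-! The alternating sums of flag permutation characters of `GL_n` attached to partitions. -/

set_option autoImplicit false
set_option linter.style.haveILetI false
set_option linter.unusedSectionVars false

namespace Cfsg.Agent.Lib.UnipGL

open scoped ComplexConjugate
open Cfsg Cfsg.Agent.Lib.FlagOrbits Cfsg.Agent.Lib.Bialt Cfsg.Agent.Lib.FlagTables
open Cfsg.Agent.Lib.CharOps Cfsg.Agent.Lib.CharGen Cfsg.Agent.Lib.CharIrr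

section perm
variable {G : Type*} [Group G] [Fintype G]

theorem fix_eq_ind (H : Subgroup G) : fixedPointCharacter H = indFun H (fun _ => 1) := by
  classical
  funext g
  rw [indFun_apply]
  have hH : (Nat.card H : ℂ) ≠ 0 := by exact_mod_cast Nat.card_pos.ne'
  rw [eq_inv_mul_iff_mul_eq₀ hH]
  have h1 : ∀ x : G, extendByZero H (fun _ => (1 : ℂ)) (x⁻¹ * g * x) =
      if (x : G ⧸ H) ∈ MulAction.fixedBy (G ⧸ H) g then 1 else 0 := by
    intro x
    have e : (x : G ⧸ H) ∈ MulAction.fixedBy (G ⧸ H) g ↔ x⁻¹ * g * x ∈ H := by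
      rw [MulAction.mem_fixedBy]
      change ((g * x : G) : G ⧸ H) = x ↔ _
      rw [QuotientGroup.eq]
      have e2 : (g * x)⁻¹ * x = (x⁻¹ * g * x)⁻¹ := by group
      rw [e2, Subgroup.inv_mem_iff]
    by_cases h : x⁻¹ * g * x ∈ H
    · rw [extendByZero_of_mem H _ h, if_pos (e.2 h)]
    · rw [extendByZero_of_not_mem H _ h, if_neg (fun h' => h (e.1 h'))]
  simp only [h1]
  have hfib : ∀ c : G ⧸ H, (Finset.univ.filter fun x : G => (x : G ⧸ H) = c).card = Nat.card H := by
    intro c
    obtain ⟨y, rfl⟩ := QuotientGroup.mk_surjective c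
    rw [Nat.card_eq_fintype_card, ← Fintype.card_subtype]
    apply Fintype.card_congr
    exact
      { toFun := fun x => ⟨y⁻¹ * x.1, QuotientGroup.eq.1 x.2.symm⟩
        invFun := fun h => ⟨y * h.1, QuotientGroup.mk_mul_of_mem _ h.2⟩
        left_inv := fun x => by simp
        right_inv := fun h => by simp }
  rw [← Finset.sum_fiberwise Finset.univ (fun x : G => (x : G ⧸ H))]
  have h2 : ∀ c : G ⧸ H, (∑ x ∈ Finset.univ.filter (fun x : G => (x : G ⧸ H) = c),
      if (x : G ⧸ H) ∈ MulAction.fixedBy (G ⧸ H) g then (1 : ℂ) else 0) =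
      (Nat.card H : ℂ) * if c ∈ MulAction.fixedBy (G ⧸ H) g then 1 else 0 := by
    intro c
    rw [← hfib c, Finset.sum_congr rfl (g := fun _ => if c ∈ MulAction.fixedBy (G ⧸ H) g then (1 : ℂ) else 0)]
    · rw [Finset.sum_const, nsmul_eq_mul]
    · intro x hx
      rw [(Finset.mem_filter.1 hx).2]
  simp only [h2]
  rw [← Finset.mul_sum]
  congr 1
  rw [fixedPointCharacter, Nat.card_eq_fintype_card, Fintype.card_subtype, Finset.sum_boole]

theorem isCharacter_fix (H : Subgroup G) : IsCharacter G (fixedPointCharacter H) := by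
  rw [fix_eq_ind]
  exact isCharacter_indFun H isCharacter_one

end perm

theorem conj_fix {G : Type*} [Group G] (H : Subgroup G) (g : G) :
    conj (fixedPointCharacter H g) = fixedPointCharacter H g := by
  rw [fixedPointCharacter, Complex.conj_natCast]

variable {n : ℕ} {F : Type*} [Field F]

theorem comp_sum (ν : Fin n → ℕ) (hsum : ∑ i, ν i = n) (κ : Equiv.Perm (Fin n))
    (hv : ∀ i : Fin n, (κ i).val ≤ ν i + i.val) : ∑ i, (ν i + i.val - (κ i).val) = n := by
  rw [Finset.sum_tsub_distrib _ (fun i _ => hv i), Finset.sum_add_distrib, hsum,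
    Equiv.sum_comp κ (fun i : Fin n => i.val)]
  omega

theorem conj_chi (ν : Fin n → ℕ) (g : GL (Fin n) F) :
    conj (unipotentCharacterGL n F ν g) = unipotentCharacterGL n F ν g := by
  simp only [unipotentCharacterGL, map_sum]
  apply Finset.sum_congr rfl
  intro κ _
  split_ifs
  · rw [map_mul, conj_fix, map_intCast]
  · simp

/-- The inner product of `χ_ν` with a flag permutation character. -/
theorem chi_flag [Fintype (GL (Fin n) F)] (ν b : Fin n → ℕ) (hsum : ∑ i, ν i = n) (hb : ∑ i, b i = n) :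
    (Nat.card (GL (Fin n) F) : ℂ)⁻¹ * ∑ g : GL (Fin n) F,
      unipotentCharacterGL n F ν g * fixedPointCharacter (parabolicGL n F b) g =
    ((∑ κ : Equiv.Perm (Fin n), (Equiv.Perm.sign κ : ℤ) *
        (if ∀ i, (κ i : ℕ) ≤ ν i + i.val then ((tabF (fun i => ν i + i.val - κ i) b).card : ℤ) else 0) : ℤ) : ℂ) := by
  simp only [unipotentCharacterGL]
  simp_rw [Finset.sum_mul]
  rw [Finset.sum_comm, Finset.mul_sum, Int.cast_sum]
  apply Finset.sum_congr rfl
  intro κ _
  by_cases hv : ∀ i : Fin n, (κ i).val ≤ ν i + i.val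
  · simp only [if_pos hv]
    have h := inner_flag (F := F) (fun i => ν i + i.val - (κ i).val) b (comp_sum ν hsum κ hv) hb
    simp_rw [mul_assoc]
    rw [← Finset.mul_sum, mul_left_comm, h]
    push_cast
    rfl
  · simp [if_neg hv]

theorem lam_strict (ν : Fin n → ℕ) (h : Monotone ν) : StrictMono fun i : Fin n => ν i + i.val := by
  intro i j hij
  have h1 := h hij.le
  have h2 : i.val < j.val := hij
  simp only
  omega

theorem inner_chi [Fintype (GL (Fin n) F)] (ν ν' : Fin n → ℕ) (hν : Monotone ν) (hsum : ∑ i, ν i = n)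
    (hν' : Monotone ν') (hsum' : ∑ i, ν' i = n) :
    classInner (unipotentCharacterGL n F ν) (unipotentCharacterGL n F ν') = if ν = ν' then 1 else 0 := by
  classical
  unfold classInner
  simp_rw [conj_chi]
  have e1 : ∑ g : GL (Fin n) F, unipotentCharacterGL n F ν g * unipotentCharacterGL n F ν' g =
      ∑ κ' : Equiv.Perm (Fin n), ∑ g : GL (Fin n) F, unipotentCharacterGL n F ν g *
        (if ∀ i : Fin n, (κ' i).val ≤ ν' i + i.val then
          ((Equiv.Perm.sign κ' : ℤ) : ℂ) * fixedPointCharacter (parabolicGL n F fun i => ν' i + i.val - (κ' i).val) g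
          else 0) := by
    rw [Finset.sum_comm]
    apply Finset.sum_congr rfl
    intro g _
    rw [← Finset.mul_sum]
    rfl
  rw [e1, Finset.mul_sum]
  have e2 : ∀ κ' : Equiv.Perm (Fin n), (Nat.card (GL (Fin n) F) : ℂ)⁻¹ * ∑ g : GL (Fin n) F,
      unipotentCharacterGL n F ν g *
        (if ∀ i : Fin n, (κ' i).val ≤ ν' i + i.val then
          ((Equiv.Perm.sign κ' : ℤ) : ℂ) * fixedPointCharacter (parabolicGL n F fun i => ν' i + i.val - (κ' i).val) g
          else 0) =
      (((Equiv.Perm.sign κ' : ℤ) * (if ∀ i, (κ' i : ℕ) ≤ ν' i + i.val then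
        ∑ κ : Equiv.Perm (Fin n), (Equiv.Perm.sign κ : ℤ) *
          (if ∀ i, (κ i : ℕ) ≤ ν i + i.val then ((tabF (fun i => ν i + i.val - κ i) (fun i => ν' i + i.val - κ' i)).card : ℤ) else 0)
        else 0) : ℤ) : ℂ) := by
    intro κ'
    by_cases hv : ∀ i : Fin n, (κ' i).val ≤ ν' i + i.val
    · simp only [if_pos hv]
      have h := chi_flag (F := F) ν (fun i => ν' i + i.val - (κ' i).val) hsum (comp_sum ν' hsum' κ' hv)
      rw [Int.cast_mul, ← h]
      simp_rw [mul_left_comm _ (((Equiv.Perm.sign κ' : ℤ) : ℂ)) _]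
      rw [← Finset.mul_sum, mul_left_comm]
    · simp [if_neg hv]
  rw [Finset.sum_congr rfl (fun κ' _ => e2 κ'), ← Int.cast_sum]
  have h3 := key_identity (fun i : Fin n => ν i + i.val) (fun i : Fin n => ν' i + i.val)
  rw [sum_sign_eq _ _ (lam_strict ν hν) (lam_strict ν' hν')] at h3
  have h4 : (∑ κ' : Equiv.Perm (Fin n), (Equiv.Perm.sign κ' : ℤ) * (if ∀ i, (κ' i : ℕ) ≤ ν' i + i.val then
        ∑ κ : Equiv.Perm (Fin n), (Equiv.Perm.sign κ : ℤ) *
          (if ∀ i, (κ i : ℕ) ≤ ν i + i.val then ((tabF (fun i => ν i + i.val - κ i) (fun i => ν' i + i.val - κ' i)).card : ℤ) else 0)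
        else 0)) = if (fun i : Fin n => ν i + i.val) = (fun i : Fin n => ν' i + i.val) then 1 else 0 := h3
  rw [h4]
  have h5 : (fun i : Fin n => ν i + i.val) = (fun i : Fin n => ν' i + i.val) ↔ ν = ν' := by
    constructor
    · intro h
      funext i
      have := congrFun h i
      simpa using this
    · rintro rfl
      rfl
  by_cases h6 : ν = ν'
  · rw [if_pos h6, if_pos (h5.2 h6)]
    simp
  · rw [if_neg h6, if_neg (fun h => h6 (h5.1 h))]
    simp

theorem chi_inj [Fintype F] (ν ν' : Fin n → ℕ) (hν : Monotone ν) (hsum : ∑ i, ν i = n)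
    (hν' : Monotone ν') (hsum' : ∑ i, ν' i = n)
    (h : unipotentCharacterGL n F ν = unipotentCharacterGL n F ν') : ν = ν' := by
  classical
  letI : Fintype (GL (Fin n) F) := Fintype.ofFinite _
  by_contra hne
  have h1 := inner_chi (F := F) ν ν' hν hsum hν' hsum'
  rw [if_neg hne, ← h, inner_chi (F := F) ν ν hν hsum hν hsum, if_pos rfl] at h1
  exact one_ne_zero h1

theorem isGen_chi [Fintype F] (ν : Fin n → ℕ) :
    IsGeneralizedCharacter (GL (Fin n) F) (unipotentCharacterGL n F ν) := by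
  classical
  letI : Fintype (GL (Fin n) F) := Fintype.ofFinite _
  have e : unipotentCharacterGL n F ν = ∑ κ : Equiv.Perm (Fin n), (fun g =>
      if ∀ i : Fin n, (κ i).val ≤ ν i + i.val then
        ((Equiv.Perm.sign κ : ℤ) : ℂ) * fixedPointCharacter (parabolicGL n F fun i => ν i + i.val - (κ i).val) g
      else 0) := by
    funext g
    rw [Finset.sum_apply]
    rfl
  rw [e]
  apply isGen_sum
  intro κ _
  by_cases hv : ∀ i : Fin n, (κ i).val ≤ ν i + i.val
  · simp only [if_pos hv]
    exact isGen_zsmul (isGen_of_char (isCharacter_fix _)) _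
  · simp only [if_neg hv]
    exact isGen_zero

theorem chi_irr [Fintype F] (ν : Fin n → ℕ) (hmono : Monotone ν) (hsum : ∑ i, ν i = n) :
    IsIrrCharacter (GL (Fin n) F) (unipotentCharacterGL n F ν) := by
  classical
  letI : Fintype (GL (Fin n) F) := Fintype.ofFinite _
  have hnorm := inner_chi (F := F) ν ν hmono hsum hmono hsum
  rw [if_pos rfl] at hnorm
  obtain ⟨χ, hχ, h | h⟩ := Cfsg.Agent.Lib.CharIso.exists_irr_of_norm_one (isGen_chi (F := F) ν) hnorm
  · rw [h]
    exact hχ
  · exfalso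
    set b : Fin n → ℕ := fun i => ν (Fin.rev i) with hb
    have hbs : ∑ i, b i = n := (Equiv.sum_comp Fin.revPerm ν).trans hsum
    have h1 := chi_flag (F := F) ν b hsum hbs
    have h2 := coeff_Sch (fun i : Fin n => ν i + i.val) b
    have h3 := coeff_Sch_top (lam := fun i : Fin n => ν i + i.val) (nu := ν) (lam_strict ν hmono) (fun _ => rfl)
    have h4 : (∑ κ : Equiv.Perm (Fin n), (Equiv.Perm.sign κ : ℤ) *
        (if ∀ i, (κ i : ℕ) ≤ ν i + i.val then ((tabF (fun i => ν i + i.val - κ i) b).card : ℤ) else 0)) = 1 :=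
      h2.symm.trans h3
    rw [h4] at h1
    obtain ⟨m, hm⟩ := exists_nat_classInner (IsIrrCharacter.isCharacter' hχ) (isCharacter_fix (parabolicGL n F b))
    have h5 : classInner χ (fixedPointCharacter (parabolicGL n F b)) = -1 := by
      unfold classInner
      simp_rw [conj_fix]
      have : ∀ g, χ g = -unipotentCharacterGL n F ν g := by
        intro g
        rw [h]
        simp
      simp_rw [this, neg_mul]
      rw [Finset.sum_neg_distrib, mul_neg, h1]
      simp
    rw [h5] at hm
    have h6 : ((m : ℂ)).re = (-1 : ℂ).re := by rw [hm]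
    simp at h6
    have : (0 : ℝ) ≤ m := Nat.cast_nonneg m
    linarith

end Cfsg.Agent.Lib.UnipGL
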