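import Mathlib
import Cfsg.Prelude.Def_RootSubgroups
import Cfsg.Agent.Lib.RankOne

/-!
A Baer-Suzuki theorem for unipotent linear groups: a conjugation invariant family of subgroups of
`GL(M)`, any two of which generate a unipotent group, generates a unipotent group.  The proof
is by induction on the dimension of a section `V / U` and works with nil subalgebras of `End(M)`.
-/

namespace Cfsg.Agent.Lib.UnipotentBS

open Cfsg
open Cfsg.Agent.Lib.RankOne (mem_conjBy conj_mem_conjBy)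

variable {k : Type*} [Field k] {M : Type*} [AddCommGroup M] [Module k M]

/-- The endomorphism `g - 1`. -/
def e (g : LinearMap.GeneralLinearGroup k M) : Module.End k M := (g : M →ₗ[k] M) - 1

theorem coe_eq (g : LinearMap.GeneralLinearGroup k M) : (g : M →ₗ[k] M) = 1 + e g := by
  simp [e]

theorem e_mul (g h : LinearMap.GeneralLinearGroup k M) : e (g * h) = e g * e h + e g + e h := by
  simp only [e, Units.val_mul]
  noncomm_ring

theorem e_one : e (1 : LinearMap.GeneralLinearGroup k M) = 0 := by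
  simp [e]

theorem e_conj (a b : LinearMap.GeneralLinearGroup k M) :
    e (a * b * a⁻¹) = (1 + e a) * e b * (1 + e a⁻¹) := by
  have h : (a : M →ₗ[k] M) * ((a⁻¹ : LinearMap.GeneralLinearGroup k M) : M →ₗ[k] M) = 1 :=
    Units.mul_inv a
  simp only [e, Units.val_mul, add_sub_cancel]
  rw [mul_sub, sub_mul, mul_one, h]

/-- The elements `g - 1`, `g` in a member of the family. -/
def T (S : Set (Subgroup (LinearMap.GeneralLinearGroup k M))) : Set (Module.End k M) :=
  {x | ∃ A ∈ S, ∃ g ∈ A, x = e g}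

/-- The span of `T S`. -/
def E (S : Set (Subgroup (LinearMap.GeneralLinearGroup k M))) : Submodule k (Module.End k M) :=
  Submodule.span k (T S)

/-- The endomorphisms mapping `V` into `U`. -/
def Ann (U V : Submodule k M) : Submodule k (Module.End k M) where
  carrier := {f | ∀ v ∈ V, f v ∈ U}
  add_mem' := fun ha hb v hv => U.add_mem (ha v hv) (hb v hv)
  zero_mem' := fun v _ => U.zero_mem
  smul_mem' := fun c _ hf v hv => U.smul_mem c (hf v hv)

/-- The endomorphisms stabilizing `U` and `V`. -/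
def Stab (U V : Submodule k M) : Submodule k (Module.End k M) where
  carrier := {f | (∀ v ∈ U, f v ∈ U) ∧ ∀ v ∈ V, f v ∈ V}
  add_mem' := fun ha hb =>
    ⟨fun v hv => U.add_mem (ha.1 v hv) (hb.1 v hv), fun v hv => V.add_mem (ha.2 v hv) (hb.2 v hv)⟩
  zero_mem' := ⟨fun v _ => U.zero_mem, fun v _ => V.zero_mem⟩
  smul_mem' := fun c _ hf =>
    ⟨fun v hv => U.smul_mem c (hf.1 v hv), fun v hv => V.smul_mem c (hf.2 v hv)⟩

section Algebra

variable {U V : Submodule k M}

theorem ann_mul_stab {x y : Module.End k M} (hx : x ∈ Ann U V) (hy : y ∈ Stab U V) :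
    x * y ∈ Ann U V := fun v hv => hx _ (hy.2 v hv)

theorem stab_mul_ann {x y : Module.End k M} (hy : y ∈ Stab U V) (hx : x ∈ Ann U V) :
    y * x ∈ Ann U V := fun v hv => hy.1 _ (hx v hv)

theorem stab_mul {x y : Module.End k M} (hx : x ∈ Stab U V) (hy : y ∈ Stab U V) :
    x * y ∈ Stab U V :=
  ⟨fun v hv => hx.1 _ (hy.1 v hv), fun v hv => hx.2 _ (hy.2 v hv)⟩

theorem one_mem_stab : (1 : Module.End k M) ∈ Stab U V :=
  ⟨fun _ hv => hv, fun _ hv => hv⟩

theorem ann_le_stab (hUV : U ≤ V) : Ann U V ≤ Stab U V := fun _ hf =>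
  ⟨fun v hv => hf v (hUV hv), fun v hv => hUV (hf v hv)⟩

theorem pow_le_stab {P : Submodule k (Module.End k M)} (hP : P ≤ Stab U V) (j : ℕ) :
    P ^ j ≤ Stab U V := by
  induction j with
  | zero =>
    rw [pow_zero, Submodule.one_le]
    exact one_mem_stab
  | succ j ih =>
    rw [pow_succ, Submodule.mul_le]
    intro x hx y hy
    exact stab_mul (ih hx) (hP hy)

theorem mul_ann_le {P : Submodule k (Module.End k M)} (hP : P ≤ Stab U V)
    {Q : Submodule k (Module.End k M)} (hQ : Q ≤ Ann U V) : P * Q ≤ Ann U V := by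
  rw [Submodule.mul_le]
  intro x hx y hy
  exact stab_mul_ann (hP hx) (hQ hy)

theorem ann_mul_le {P : Submodule k (Module.End k M)} (hP : P ≤ Stab U V)
    {Q : Submodule k (Module.End k M)} (hQ : Q ≤ Ann U V) : Q * P ≤ Ann U V := by
  rw [Submodule.mul_le]
  intro x hx y hy
  exact ann_mul_stab (hQ hx) (hP hy)

/-- The non-unital algebra generated by `P`. -/
def gen (P : Submodule k (Module.End k M)) : Submodule k (Module.End k M) := ⨆ j : ℕ, P ^ (j + 1)

/-- A tail of the powers of `P`. -/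
def tail (P : Submodule k (Module.End k M)) (m : ℕ) : Submodule k (Module.End k M) :=
  ⨆ j : ℕ, P ^ (j + m)

theorem tail_mul (P : Submodule k (Module.End k M)) (a b : ℕ) :
    tail P a * tail P b ≤ tail P (a + b) := by
  unfold tail
  rw [Submodule.iSup_mul]
  refine iSup_le fun i => ?_
  rw [Submodule.mul_iSup]
  refine iSup_le fun j => ?_
  rw [← pow_add]
  have e1 : i + a + (j + b) = (i + j) + (a + b) := by ring
  rw [e1]
  exact le_iSup (fun t : ℕ => P ^ (t + (a + b))) (i + j)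

theorem gen_eq_tail (P : Submodule k (Module.End k M)) : gen P = tail P 1 := rfl

theorem le_gen (P : Submodule k (Module.End k M)) : P ≤ gen P := by
  unfold gen
  have := le_iSup (fun t : ℕ => P ^ (t + 1)) 0
  simpa using this

theorem gen_mul_le (P : Submodule k (Module.End k M)) : gen P * gen P ≤ gen P := by
  rw [gen_eq_tail]
  refine (tail_mul P 1 1).trans ?_
  unfold tail
  refine iSup_le fun j => ?_
  have e1 : j + (1 + 1) = (j + 1) + 1 := by ring
  rw [e1]
  exact le_iSup (fun t : ℕ => P ^ (t + 1)) (j + 1)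

theorem gen_pow_le (P : Submodule k (Module.End k M)) (m : ℕ) : gen P ^ m ≤ tail P m := by
  induction m with
  | zero =>
    rw [pow_zero]
    have := le_iSup (fun t : ℕ => P ^ (t + 0)) 0
    simpa [tail] using this
  | succ m ih =>
    rw [pow_succ]
    exact (mul_le_mul' ih (le_of_eq (gen_eq_tail P))).trans (tail_mul P m 1)

theorem tail_le_ann {P : Submodule k (Module.End k M)} (hP : P ≤ Stab U V) {m : ℕ}
    (hm : P ^ m ≤ Ann U V) : tail P m ≤ Ann U V := by
  unfold tail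
  refine iSup_le fun j => ?_
  rw [pow_add]
  exact mul_ann_le (pow_le_stab hP j) hm

theorem gen_pow_le_ann {P : Submodule k (Module.End k M)} (hP : P ≤ Stab U V) {m : ℕ}
    (hm : P ^ m ≤ Ann U V) : gen P ^ m ≤ Ann U V :=
  (gen_pow_le P m).trans (tail_le_ann hP hm)

theorem gen_le_of {P Q : Submodule k (Module.End k M)} (hPQ : P ≤ Q) (hQ : Q * Q ≤ Q) : gen P ≤ Q := by
  unfold gen
  refine iSup_le fun j => ?_
  induction j with
  | zero => simpa using hPQ
  | succ j ih =>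
    rw [pow_succ]
    exact (mul_le_mul' ih hPQ).trans hQ

theorem gen_mono {P Q : Submodule k (Module.End k M)} (hPQ : P ≤ Q) : gen P ≤ gen Q :=
  gen_le_of (hPQ.trans (le_gen Q)) (gen_mul_le Q)

theorem gen_le_stab {P : Submodule k (Module.End k M)} (hP : P ≤ Stab U V) : gen P ≤ Stab U V := by
  refine gen_le_of hP ?_
  rw [Submodule.mul_le]
  intro x hx y hy
  exact stab_mul hx hy

theorem sup_pow_le (hUV : U ≤ V) {Q : Submodule k (Module.End k M)} (hQ : Q ≤ Stab U V) (n : ℕ) :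
    (Ann U V ⊔ Q) ^ (n + 1) ≤ Ann U V ⊔ Q ^ (n + 1) := by
  induction n with
  | zero => simp
  | succ n ih =>
    rw [pow_succ]
    refine (mul_le_mul' ih le_rfl).trans ?_
    rw [Submodule.sup_mul, Submodule.mul_sup, Submodule.mul_sup]
    refine sup_le (sup_le ?_ ?_) (sup_le ?_ ?_)
    · exact le_sup_of_le_left (ann_mul_le (ann_le_stab hUV) le_rfl)
    · exact le_sup_of_le_left (ann_mul_le hQ le_rfl)
    · exact le_sup_of_le_left (mul_ann_le (pow_le_stab hQ _) le_rfl)
    · rw [← pow_succ]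
      exact le_sup_right

theorem pow_succ_le_of_le {Q : Submodule k (Module.End k M)} (hQ : Q ≤ Stab U V) {n : ℕ}
    (hn : Q ^ n ≤ Ann U V) : Q ^ (n + 1) ≤ Ann U V := by
  rw [pow_succ]
  exact ann_mul_le hQ hn

theorem pow_anti {P : Submodule k (Module.End k M)} (hP : P * P ≤ P) (i : ℕ) :
    P ^ (i + 2) ≤ P ^ (i + 1) := by
  induction i with
  | zero =>
    simpa [pow_two] using hP
  | succ i ih =>
    rw [pow_succ P (i + 2), pow_succ P (i + 1)]
    exact mul_le_mul' ih le_rfl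

theorem pow_le_self {P : Submodule k (Module.End k M)} (hP : P * P ≤ P) (i : ℕ) :
    P ^ (i + 1) ≤ P := by
  induction i with
  | zero => simp
  | succ i ih => exact (pow_anti hP i).trans ih

theorem pow_anti' {P : Submodule k (Module.End k M)} (hP : P * P ≤ P) {i j : ℕ} (hij : i ≤ j) :
    P ^ (j + 1) ≤ P ^ (i + 1) := by
  induction j, hij using Nat.le_induction with
  | base => exact le_rfl
  | succ j _ ih => exact (pow_anti hP j).trans ih

end Algebra


section Main

variable {U V : Submodule k M} {W : Set (Subgroup (LinearMap.GeneralLinearGroup k M))}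

/-- Hypotheses on a family relative to a section. -/
structure Ctx (U V : Submodule k M) (W : Set (Subgroup (LinearMap.GeneralLinearGroup k M))) : Prop where
  hUV : U ≤ V
  hstab : ∀ A ∈ W, ∀ g ∈ A, (g : M →ₗ[k] M) ∈ Stab U V
  hpair : ∀ A ∈ W, ∀ B ∈ W, ∃ n, E ({A, B} : Set (Subgroup (LinearMap.GeneralLinearGroup k M))) ^ n ≤ Ann U V
  hconj : ∀ A ∈ W, ∀ B ∈ W, ∀ a ∈ A, conjBy B a ∈ W

/-- The family acts nilpotently on the section. -/
def Good (U V : Submodule k M) (S : Set (Subgroup (LinearMap.GeneralLinearGroup k M))) : Prop :=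
  ∃ n, E S ^ n ≤ Ann U V

/-- The algebra attached to a subfamily. -/
def alg (U V : Submodule k M) (S : Set (Subgroup (LinearMap.GeneralLinearGroup k M))) :
    Submodule k (Module.End k M) := gen (Ann U V ⊔ E S)

theorem e_mem_stab {g : LinearMap.GeneralLinearGroup k M} (h : (g : M →ₗ[k] M) ∈ Stab U V) :
    e g ∈ Stab U V := by
  constructor
  · intro v hv
    simp only [e, LinearMap.sub_apply, Module.End.one_apply]
    exact U.sub_mem (h.1 v hv) hv
  · intro v hv
    simp only [e, LinearMap.sub_apply, Module.End.one_apply]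
    exact V.sub_mem (h.2 v hv) hv

theorem E_le_stab (c : Ctx U V W) {S : Set (Subgroup (LinearMap.GeneralLinearGroup k M))} (hS : S ⊆ W) :
    E S ≤ Stab U V := by
  refine Submodule.span_le.mpr ?_
  rintro _ ⟨A, hA, g, hg, rfl⟩
  exact e_mem_stab (c.hstab A (hS hA) g hg)

theorem mem_E {S : Set (Subgroup (LinearMap.GeneralLinearGroup k M))} {A : Subgroup (LinearMap.GeneralLinearGroup k M)}
    (hA : A ∈ S) {g : LinearMap.GeneralLinearGroup k M} (hg : g ∈ A) : e g ∈ E S :=
  Submodule.subset_span ⟨A, hA, g, hg, rfl⟩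

theorem ann_le_alg (S : Set (Subgroup (LinearMap.GeneralLinearGroup k M))) : Ann U V ≤ alg U V S :=
  le_sup_left.trans (le_gen _)

theorem mem_alg {S : Set (Subgroup (LinearMap.GeneralLinearGroup k M))} {A : Subgroup (LinearMap.GeneralLinearGroup k M)}
    (hA : A ∈ S) {g : LinearMap.GeneralLinearGroup k M} (hg : g ∈ A) : e g ∈ alg U V S :=
  le_gen _ (Submodule.mem_sup_right (mem_E hA hg))

theorem alg_mul (S : Set (Subgroup (LinearMap.GeneralLinearGroup k M))) :
    alg U V S * alg U V S ≤ alg U V S := gen_mul_le _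

theorem alg_le_stab (c : Ctx U V W) {S : Set (Subgroup (LinearMap.GeneralLinearGroup k M))} (hS : S ⊆ W) :
    alg U V S ≤ Stab U V :=
  gen_le_stab (sup_le (ann_le_stab c.hUV) (E_le_stab c hS))

theorem alg_nil (c : Ctx U V W) {S : Set (Subgroup (LinearMap.GeneralLinearGroup k M))} (hS : S ⊆ W)
    (hg : Good U V S) : ∃ n, alg U V S ^ (n + 1) ≤ Ann U V := by
  obtain ⟨n, hn⟩ := hg
  refine ⟨n, gen_pow_le_ann (sup_le (ann_le_stab c.hUV) (E_le_stab c hS)) ?_⟩
  refine (sup_pow_le c.hUV (E_le_stab c hS) n).trans (sup_le le_rfl ?_)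
  exact pow_succ_le_of_le (E_le_stab c hS) hn

theorem alg_min {S : Set (Subgroup (LinearMap.GeneralLinearGroup k M))} {B : Submodule k (Module.End k M)}
    (h1 : Ann U V ≤ B) (h2 : B * B ≤ B) (h3 : ∀ A ∈ S, ∀ g ∈ A, e g ∈ B) : alg U V S ≤ B := by
  refine gen_le_of (sup_le h1 (Submodule.span_le.mpr ?_)) h2
  rintro _ ⟨A, hA, g, hg, rfl⟩
  exact h3 A hA g hg

theorem alg_mono {S S' : Set (Subgroup (LinearMap.GeneralLinearGroup k M))} (h : S ⊆ S') :
    alg U V S ≤ alg U V S' :=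
  alg_min (ann_le_alg S') (alg_mul S') fun A hA _ hg => mem_alg (h hA) hg

/-- The members of the family inside an algebra. -/
def mems (W : Set (Subgroup (LinearMap.GeneralLinearGroup k M))) (a : Submodule k (Module.End k M)) :
    Set (Subgroup (LinearMap.GeneralLinearGroup k M)) := {A | A ∈ W ∧ ∀ g ∈ A, e g ∈ a}

/-- Admissible algebras. -/
def Adm (U V : Submodule k M) (W : Set (Subgroup (LinearMap.GeneralLinearGroup k M)))
    (a : Submodule k (Module.End k M)) : Prop :=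
  ∃ S, S ⊆ W ∧ Good U V S ∧ a = alg U V S

/-- Maximal admissible algebras. -/
def IsMaxAdm (U V : Submodule k M) (W : Set (Subgroup (LinearMap.GeneralLinearGroup k M)))
    (a : Submodule k (Module.End k M)) : Prop :=
  Adm U V W a ∧ ∀ b, Adm U V W b → a ≤ b → b = a

theorem Adm.ann_le {a : Submodule k (Module.End k M)} (h : Adm U V W a) : Ann U V ≤ a := by
  obtain ⟨S, -, -, rfl⟩ := h
  exact ann_le_alg S

theorem Adm.mul_le {a : Submodule k (Module.End k M)} (h : Adm U V W a) : a * a ≤ a := by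
  obtain ⟨S, -, -, rfl⟩ := h
  exact alg_mul S

theorem Adm.nil (c : Ctx U V W) {a : Submodule k (Module.End k M)} (h : Adm U V W a) :
    ∃ n, a ^ (n + 1) ≤ Ann U V := by
  obtain ⟨S, hS, hg, rfl⟩ := h
  exact alg_nil c hS hg

theorem Adm.alg_mems {a : Submodule k (Module.End k M)} (h : Adm U V W a) :
    alg U V (mems W a) = a := by
  apply le_antisymm
  · exact alg_min h.ann_le h.mul_le fun A hA g hg => hA.2 g hg
  · obtain ⟨S, hS, -, rfl⟩ := h
    exact alg_mono fun A hA => ⟨hS hA, fun g hg => mem_alg hA hg⟩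

theorem good_of_le {S : Set (Subgroup (LinearMap.GeneralLinearGroup k M))} {a : Submodule k (Module.End k M)}
    {n : ℕ} (h : a ^ n ≤ Ann U V) (hS : ∀ A ∈ S, ∀ g ∈ A, e g ∈ a) : Good U V S := by
  refine ⟨n, (pow_le_pow_left' ?_ n).trans h⟩
  refine Submodule.span_le.mpr ?_
  rintro _ ⟨A, hA, g, hg, rfl⟩
  exact hS A hA g hg

theorem exists_max [FiniteDimensional k M] {a : Submodule k (Module.End k M)} (h : Adm U V W a) :
    ∃ m, IsMaxAdm U V W m ∧ a ≤ m := by
  haveI : WellFoundedGT (Submodule k (Module.End k M)) := inferInstance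
  obtain ⟨m, hm, hmin⟩ := (wellFounded_gt (α := Submodule k (Module.End k M))).has_min
    {b | Adm U V W b ∧ a ≤ b} ⟨a, h, le_rfl⟩
  refine ⟨m, ⟨hm.1, fun b hb hmb => ?_⟩, hm.2⟩
  by_contra hne
  exact hmin b ⟨hb, hm.2.trans hmb⟩ (lt_of_le_of_ne hmb (Ne.symm hne))

/-- The growth step: a member outside `W₀` normalizing `W₀`. -/
theorem growth (c : Ctx U V W) {a d : Submodule k (Module.End k M)} (hda : d ≤ a) (haa : a * a ≤ a)
    (hdd : d * d ≤ d) {n : ℕ} (hn : a ^ (n + 1) ≤ d) {W₀ : Set (Subgroup (LinearMap.GeneralLinearGroup k M))}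
    (hW₀W : W₀ ⊆ W) (hW₀d : ∀ B ∈ W₀, ∀ g ∈ B, e g ∈ d) (hW₀max : ∀ B ∈ W, (∀ g ∈ B, e g ∈ d) → B ∈ W₀)
    {A₀ : Subgroup (LinearMap.GeneralLinearGroup k M)} (hA₀W : A₀ ∈ W) (hA₀a : ∀ g ∈ A₀, e g ∈ a)
    (hA₀' : A₀ ∉ W₀) :
    ∃ A' ∈ W, (∀ g ∈ A', e g ∈ a) ∧ A' ∉ W₀ ∧ ∀ x ∈ A', ∀ B ∈ W₀, conjBy B x ∈ W₀ := by
  have key : ∀ (m j : ℕ), n ≤ j + m →
      (∃ A ∈ W, (∀ g ∈ A, e g ∈ a) ∧ A ∉ W₀ ∧ ∀ g ∈ A, e g ∈ d ⊔ a ^ (j + 1)) →
      ∃ A' ∈ W, (∀ g ∈ A', e g ∈ a) ∧ A' ∉ W₀ ∧ ∀ x ∈ A', ∀ B ∈ W₀, conjBy B x ∈ W₀ := by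
    intro m
    induction m with
    | zero =>
      rintro j hj ⟨A, hAW, -, hA0, hAF⟩
      exfalso
      apply hA0
      refine hW₀max A hAW fun g hg => ?_
      have h1 : d ⊔ a ^ (j + 1) ≤ d := sup_le le_rfl ((pow_anti' haa (by omega)).trans hn)
      exact h1 (hAF g hg)
    | succ m ih =>
      intro j hj hJ
      by_cases hJ' : ∃ A ∈ W, (∀ g ∈ A, e g ∈ a) ∧ A ∉ W₀ ∧ ∀ g ∈ A, e g ∈ d ⊔ a ^ (j + 1 + 1)
      · exact ih (j + 1) (by omega) hJ'
      · obtain ⟨A, hAW, hAa, hA0, hAF⟩ := hJ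
        refine ⟨A, hAW, hAa, hA0, fun x hx B hB => ?_⟩
        by_contra hcon
        apply hJ'
        have hBW : conjBy B x ∈ W := c.hconj A hAW B (hW₀W hB) x hx
        have est1 : (d ⊔ a ^ (j + 1)) * d ≤ d ⊔ a ^ (j + 1 + 1) := by
          rw [Submodule.sup_mul]
          refine sup_le (hdd.trans le_sup_left) ((mul_le_mul' le_rfl hda).trans ?_)
          rw [← pow_succ]
          exact le_sup_right
        have est2 : d * (d ⊔ a ^ (j + 1)) ≤ d ⊔ a ^ (j + 1 + 1) := by
          rw [Submodule.mul_sup]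
          refine sup_le (hdd.trans le_sup_left) ((mul_le_mul' hda le_rfl).trans ?_)
          rw [← pow_succ']
          exact le_sup_right
        have est3 : (d ⊔ a ^ (j + 1 + 1)) * (d ⊔ a ^ (j + 1)) ≤ d ⊔ a ^ (j + 1 + 1) := by
          rw [Submodule.sup_mul, Submodule.mul_sup, Submodule.mul_sup]
          refine sup_le (sup_le (hdd.trans le_sup_left) ?_) (sup_le ?_ ?_)
          · refine (mul_le_mul' hda le_rfl).trans ?_
            rw [← pow_succ']
            exact le_sup_right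
          · refine (mul_le_mul' le_rfl hda).trans ?_
            rw [← pow_succ]
            exact (pow_anti haa (j + 1)).trans le_sup_right
          · refine (mul_le_mul' le_rfl (pow_le_self haa j)).trans ?_
            rw [← pow_succ]
            exact (pow_anti haa (j + 1)).trans le_sup_right
        have hF : ∀ g ∈ conjBy B x, e g ∈ d ⊔ a ^ (j + 1 + 1) := by
          intro g hg
          rw [mem_conjBy] at hg
          have hg' : g = x * (x⁻¹ * g * x) * x⁻¹ := by group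
          rw [hg', e_conj]
          have hx1 := hAF x hx
          have hx2 := hAF x⁻¹ (A.inv_mem hx)
          have hb := hW₀d B hB _ hg
          set b := x⁻¹ * g * x with hbdef
          have expand : (1 + e x) * e b * (1 + e x⁻¹) =
              e b + e x * e b + e b * e x⁻¹ + (e x * e b) * e x⁻¹ := by noncomm_ring
          rw [expand]
          refine add_mem (add_mem (add_mem ?_ ?_) ?_) ?_
          · exact Submodule.mem_sup_left hb
          · exact est1 (Submodule.mul_mem_mul hx1 hb)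
          · exact est2 (Submodule.mul_mem_mul hb hx2)
          · exact est3 (Submodule.mul_mem_mul (est1 (Submodule.mul_mem_mul hx1 hb)) hx2)
        have hle : d ⊔ a ^ (j + 1 + 1) ≤ a := sup_le hda (pow_le_self haa (j + 1))
        exact ⟨conjBy B x, hBW, fun g hg => hle (hF g hg), hcon, hF⟩
  refine key (n + 1) 0 (by omega) ⟨A₀, hA₀W, hA₀a, hA₀', fun g hg => ?_⟩
  have : a ≤ d ⊔ a ^ (0 + 1) := by simp
  exact this (hA₀a g hg)

/-- The members of the section family stabilizing an intermediate subspace. -/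
def stabFam (W : Set (Subgroup (LinearMap.GeneralLinearGroup k M))) (V' : Submodule k M) :
    Set (Subgroup (LinearMap.GeneralLinearGroup k M)) :=
  {A | A ∈ W ∧ ∀ g ∈ A, ∀ v ∈ V', (g : M →ₗ[k] M) v ∈ V'}

theorem ann_anti_right {V₁ : Submodule k M} (h : V₁ ≤ V) : Ann U V ≤ Ann U V₁ := fun _ hf v hv => hf v (h hv)

theorem ann_mono_left {U₁ : Submodule k M} (h : U ≤ U₁) : Ann U V ≤ Ann U₁ V := fun _ hf v hv => h (hf v hv)

theorem stabFam_conj (c : Ctx U V W) {V' : Submodule k M} {A B : Subgroup (LinearMap.GeneralLinearGroup k M)}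
    (hA : A ∈ stabFam W V') (hB : B ∈ stabFam W V') {a : LinearMap.GeneralLinearGroup k M} (ha : a ∈ A) :
    conjBy B a ∈ stabFam W V' := by
  refine ⟨c.hconj A hA.1 B hB.1 a ha, ?_⟩
  intro g hg v hv
  rw [mem_conjBy] at hg
  have hg' : g = a * (a⁻¹ * g * a) * a⁻¹ := by group
  rw [hg']
  simp only [Units.val_mul, Module.End.mul_apply]
  exact hA.2 a ha _ (hB.2 _ hg _ (hA.2 a⁻¹ (A.inv_mem ha) v hv))

theorem ctx_lower (c : Ctx U V W) {V' : Submodule k M} (hUV' : U ≤ V') (hV' : V' ≤ V) :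
    Ctx U V' (stabFam W V') where
  hUV := hUV'
  hstab := fun A hA g hg => ⟨(c.hstab A hA.1 g hg).1, hA.2 g hg⟩
  hpair := fun A hA B hB => by
    obtain ⟨n, hn⟩ := c.hpair A hA.1 B hB.1
    exact ⟨n, hn.trans (ann_anti_right hV')⟩
  hconj := fun A hA B hB a ha => stabFam_conj c hA hB ha

theorem ctx_upper (c : Ctx U V W) {V' : Submodule k M} (hUV' : U ≤ V') (hV' : V' ≤ V) :
    Ctx V' V (stabFam W V') where
  hUV := hV'
  hstab := fun A hA g hg => ⟨hA.2 g hg, (c.hstab A hA.1 g hg).2⟩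
  hpair := fun A hA B hB => by
    obtain ⟨n, hn⟩ := c.hpair A hA.1 B hB.1
    exact ⟨n, hn.trans (ann_mono_left hUV')⟩
  hconj := fun A hA B hB a ha => stabFam_conj c hA hB ha

theorem good_comb {S : Set (Subgroup (LinearMap.GeneralLinearGroup k M))} {V' : Submodule k M}
    (h1 : Good U V' S) (h2 : Good V' V S) : Good U V S := by
  obtain ⟨n₁, hn₁⟩ := h1
  obtain ⟨n₂, hn₂⟩ := h2
  refine ⟨n₁ + n₂, ?_⟩
  rw [pow_add, Submodule.mul_le]
  intro x hx y hy v hv
  exact hn₁ hx _ (hn₂ hy v hv)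

/-- The fixed space of a subfamily in the section. -/
def fixSec (U V : Submodule k M) (W₀ : Set (Subgroup (LinearMap.GeneralLinearGroup k M))) : Submodule k M where
  carrier := {v | v ∈ V ∧ ∀ t ∈ T W₀, t v ∈ U}
  add_mem' := fun ha hb => ⟨V.add_mem ha.1 hb.1, fun t ht => by
    rw [map_add]
    exact U.add_mem (ha.2 t ht) (hb.2 t ht)⟩
  zero_mem' := ⟨V.zero_mem, fun t _ => by
    rw [map_zero]
    exact U.zero_mem⟩
  smul_mem' := fun r _ h => ⟨V.smul_mem r h.1, fun t ht => by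
    rw [map_smul]
    exact U.smul_mem r (h.2 t ht)⟩

theorem le_fixSec (c : Ctx U V W) {W₀ : Set (Subgroup (LinearMap.GeneralLinearGroup k M))} (hW₀ : W₀ ⊆ W) :
    U ≤ fixSec U V W₀ := by
  intro v hv
  refine ⟨c.hUV hv, ?_⟩
  rintro _ ⟨A, hA, g, hg, rfl⟩
  exact (e_mem_stab (c.hstab A (hW₀ hA) g hg)).1 v hv

theorem fixSec_ne (c : Ctx U V W) {W₀ : Set (Subgroup (LinearMap.GeneralLinearGroup k M))} (hW₀ : W₀ ⊆ W)
    (hg : Good U V W₀) (hV : ¬ V ≤ U) : ¬ fixSec U V W₀ ≤ U := by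
  intro hle
  obtain ⟨n, hn⟩ := hg
  have hdown : ∀ m, E W₀ ^ (m + 1) ≤ Ann U V → E W₀ ^ m ≤ Ann U V := by
    intro m hm x hx v hv
    apply hle
    refine ⟨(pow_le_stab (E_le_stab c hW₀) m hx).2 v hv, fun t ht => ?_⟩
    have h1 : t * x ∈ E W₀ ^ (m + 1) := by
      rw [pow_succ']
      exact Submodule.mul_mem_mul (Submodule.subset_span ht) hx
    exact hm h1 v hv
  have hzero : ∀ m, E W₀ ^ m ≤ Ann U V → E W₀ ^ 0 ≤ Ann U V := by
    intro m
    induction m with
    | zero => exact id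
    | succ m ih => exact fun h => ih (hdown m h)
  have h1 := hzero n hn
  rw [pow_zero, Submodule.one_le] at h1
  exact hV fun v hv => h1 v hv

/-- The contradiction in the case of two maximal admissible algebras. -/
theorem main_step [FiniteDimensional k M] (c : Ctx U V W) (hV : ¬ V ≤ U)
    (IH : ∀ (U' V' : Submodule k M) (W' : Set (Subgroup (LinearMap.GeneralLinearGroup k M))),
      Ctx U' V' W' → Module.finrank k V' - Module.finrank k U' < Module.finrank k V - Module.finrank k U →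
        Good U' V' W')
    {b₁ b₂ : Submodule k (Module.End k M)} (h₁ : IsMaxAdm U V W b₁) (h₂ : IsMaxAdm U V W b₂) (hne : b₁ ≠ b₂)
    (hmax : ∀ b₃ b₄, IsMaxAdm U V W b₃ → IsMaxAdm U V W b₄ → b₃ ≠ b₄ →
      alg U V (mems W b₁ ∩ mems W b₂) ≤ alg U V (mems W b₃ ∩ mems W b₄) →
      alg U V (mems W b₃ ∩ mems W b₄) = alg U V (mems W b₁ ∩ mems W b₂)) : False := by
  set W₀ := mems W b₁ ∩ mems W b₂ with hW₀
  set d := alg U V W₀ with hd
  have hW₀W : W₀ ⊆ W := fun A hA => hA.1.1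
  have hdb₁ : d ≤ b₁ := alg_min h₁.1.ann_le h₁.1.mul_le fun A hA g hg => hA.1.2 g hg
  have hdb₂ : d ≤ b₂ := alg_min h₂.1.ann_le h₂.1.mul_le fun A hA g hg => hA.2.2 g hg
  have hW₀d : ∀ B ∈ W₀, ∀ g ∈ B, e g ∈ d := fun B hB g hg => mem_alg hB hg
  have hW₀max : ∀ B ∈ W, (∀ g ∈ B, e g ∈ d) → B ∈ W₀ := fun B hB h =>
    ⟨⟨hB, fun g hg => hdb₁ (h g hg)⟩, ⟨hB, fun g hg => hdb₂ (h g hg)⟩⟩
  have hsub : ∀ {a b : Submodule k (Module.End k M)}, IsMaxAdm U V W a → IsMaxAdm U V W b → a ≠ b →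
      ∃ A ∈ mems W a, A ∉ mems W b := by
    intro a b ha hb hab
    by_contra hcon
    push Not at hcon
    have h1 : a ≤ b := by
      rw [← ha.1.alg_mems, ← hb.1.alg_mems]
      exact alg_mono hcon
    exact hab (ha.2 b hb.1 h1).symm
  obtain ⟨n₁, hn₁⟩ := h₁.1.nil c
  obtain ⟨n₂, hn₂⟩ := h₂.1.nil c
  have hAd : Ann U V ≤ d := ann_le_alg _
  obtain ⟨A₀, hA₀, hA₀'⟩ := hsub h₁ h₂ hne
  obtain ⟨A₁, hA₁W, hA₁a, hA₁0, hA₁n⟩ := growth c hdb₁ h₁.1.mul_le (alg_mul W₀) (hn₁.trans hAd) hW₀W hW₀d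
    hW₀max hA₀.1 hA₀.2 (fun h => hA₀' h.2)
  obtain ⟨A₂₀, hA₂₀, hA₂₀'⟩ := hsub h₂ h₁ hne.symm
  obtain ⟨A₂, hA₂W, hA₂a, hA₂0, hA₂n⟩ := growth c hdb₂ h₂.1.mul_le (alg_mul W₀) (hn₂.trans hAd) hW₀W hW₀d
    hW₀max hA₂₀.1 hA₂₀.2 (fun h => hA₂₀' h.1)
  have hA₁m : A₁ ∈ mems W b₁ := ⟨hA₁W, hA₁a⟩
  have hA₂m : A₂ ∈ mems W b₂ := ⟨hA₂W, hA₂a⟩
  have hA₁n2 : A₁ ∉ mems W b₂ := fun h => hA₁0 ⟨hA₁m, h⟩
  have hA₂n1 : A₂ ∉ mems W b₁ := fun h => hA₂0 ⟨h, hA₂m⟩
  -- a good family containing `W₀`, `A₁`, `A₂`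
  have hgood : ∃ S, S ⊆ W ∧ Good U V S ∧ W₀ ⊆ S ∧ A₁ ∈ S ∧ A₂ ∈ S := by
    by_cases hfix : V ≤ fixSec U V W₀
    · refine ⟨W₀ ∪ {A₁, A₂}, ?_, ?_, Set.subset_union_left, Or.inr (Or.inl rfl), Or.inr (Or.inr rfl)⟩
      · rintro A (hA | hA | hA)
        · exact hW₀W hA
        · rw [hA]
          exact hA₁W
        · rw [Set.mem_singleton_iff.mp hA]
          exact hA₂W
      · obtain ⟨n, hn⟩ := c.hpair A₁ hA₁W A₂ hA₂W
        refine ⟨n + 1, ?_⟩
        have hle : E (W₀ ∪ {A₁, A₂}) ≤ Ann U V ⊔ E ({A₁, A₂} : Set (Subgroup (LinearMap.GeneralLinearGroup k M))) := by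
          refine Submodule.span_le.mpr ?_
          rintro _ ⟨A, hA | hA, g, hg, rfl⟩
          · refine Submodule.mem_sup_left fun v hv => ?_
            exact (hfix hv).2 _ ⟨A, hA, g, hg, rfl⟩
          · exact Submodule.mem_sup_right (mem_E hA hg)
        have hQ : E ({A₁, A₂} : Set (Subgroup (LinearMap.GeneralLinearGroup k M))) ≤ Stab U V := by
          refine E_le_stab c ?_
          rintro A (hA | hA)
          · rw [hA]
            exact hA₁W
          · rw [Set.mem_singleton_iff.mp hA]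
            exact hA₂W
        refine (pow_le_pow_left' hle (n + 1)).trans ((sup_pow_le c.hUV hQ n).trans (sup_le le_rfl ?_))
        exact pow_succ_le_of_le hQ hn
    · -- the subspace `V'` lies strictly between `U` and `V`
      have hg₀ : Good U V W₀ := good_of_le hn₁ fun A hA g hg => hA.1.2 g hg
      have hUV' : U ≤ fixSec U V W₀ := le_fixSec c hW₀W
      have hV'V : fixSec U V W₀ ≤ V := fun v hv => hv.1
      have hne1 := fixSec_ne c hW₀W hg₀ hV
      have hlt1 : U < fixSec U V W₀ := lt_of_le_not_ge hUV' hne1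
      have hlt2 : fixSec U V W₀ < V := lt_of_le_not_ge hV'V hfix
      have f1 := Submodule.finrank_lt_finrank_of_lt hlt1
      have f2 := Submodule.finrank_lt_finrank_of_lt hlt2
      have g1 := IH U (fixSec U V W₀) _ (ctx_lower c hUV' hV'V) (by omega)
      have g2 := IH (fixSec U V W₀) V _ (ctx_upper c hUV' hV'V) (by omega)
      have hnorm : ∀ {A : Subgroup (LinearMap.GeneralLinearGroup k M)}, A ∈ W →
          (∀ x ∈ A, ∀ B ∈ W₀, conjBy B x ∈ W₀) → A ∈ stabFam W (fixSec U V W₀) := by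
        intro A hA hn
        refine ⟨hA, fun x hx v hv => ⟨(c.hstab A hA x hx).2 v hv.1, ?_⟩⟩
        rintro _ ⟨B, hB, b, hb, rfl⟩
        -- conjugate `b` by `x⁻¹`
        have hB' := hn x⁻¹ (A.inv_mem hx) B hB
        have hc : x⁻¹ * b * x⁻¹⁻¹ ∈ conjBy B x⁻¹ := conj_mem_conjBy hb
        have h3 := hv.2 _ ⟨_, hB', _, hc, rfl⟩
        have h4 : e b ((x : M →ₗ[k] M) v) = (x : M →ₗ[k] M) (e (x⁻¹ * b * x⁻¹⁻¹) v) := by
          have h5 : (x : M →ₗ[k] M) * e (x⁻¹ * b * x⁻¹⁻¹) = e b * (x : M →ₗ[k] M) := by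
            have h6 : (x : M →ₗ[k] M) * ((x⁻¹ : LinearMap.GeneralLinearGroup k M) : M →ₗ[k] M) = 1 :=
              Units.mul_inv x
            simp only [e, inv_inv, Units.val_mul, mul_sub, sub_mul, mul_one, one_mul]
            rw [← mul_assoc, ← mul_assoc, h6, one_mul]
          exact (congrArg (fun f : Module.End k M => f v) h5).symm
        rw [h4]
        exact (c.hstab A hA x hx).1 _ h3
      refine ⟨stabFam W (fixSec U V W₀), fun A hA => hA.1, good_comb g1 g2, ?_, hnorm hA₁W hA₁n, hnorm hA₂W hA₂n⟩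
      intro B hB
      refine ⟨hW₀W hB, fun g hg v hv => ?_⟩
      have h1 : (g : M →ₗ[k] M) v = v + e g v := by
        rw [coe_eq g]
        simp
      rw [h1]
      exact (fixSec U V W₀).add_mem hv (hUV' (hv.2 _ ⟨B, hB, g, hg, rfl⟩))
  obtain ⟨S, hSW, hSg, hW₀S, hA₁S, hA₂S⟩ := hgood
  obtain ⟨b₃, hb₃, hle₃⟩ := exists_max (U := U) (V := V) (W := W) ⟨S, hSW, hSg, rfl⟩
  have hSm : ∀ A ∈ S, A ∈ mems W b₃ := fun A hA => ⟨hSW hA, fun g hg => hle₃ (mem_alg hA hg)⟩
  have e1 : b₃ = b₁ := by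
    by_contra hne3
    have hle : d ≤ alg U V (mems W b₃ ∩ mems W b₁) :=
      alg_mono fun A hA => ⟨hSm A (hW₀S hA), hA.1⟩
    have heq := hmax b₃ b₁ hb₃ h₁ hne3 hle
    apply hA₁n2
    refine ⟨hA₁W, fun g hg => hdb₂ ?_⟩
    have h9 : e g ∈ alg U V (mems W b₃ ∩ mems W b₁) :=
      mem_alg (S := mems W b₃ ∩ mems W b₁) ⟨hSm _ hA₁S, hA₁m⟩ hg
    rw [heq] at h9
    exact h9
  have e2 : b₃ = b₂ := by
    by_contra hne3
    have hle : d ≤ alg U V (mems W b₃ ∩ mems W b₂) :=
      alg_mono fun A hA => ⟨hSm A (hW₀S hA), hA.2⟩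
    have heq := hmax b₃ b₂ hb₃ h₂ hne3 hle
    apply hA₂n1
    refine ⟨hA₂W, fun g hg => hdb₁ ?_⟩
    have h9 : e g ∈ alg U V (mems W b₃ ∩ mems W b₂) :=
      mem_alg (S := mems W b₃ ∩ mems W b₂) ⟨hSm _ hA₂S, hA₂m⟩ hg
    rw [heq] at h9
    exact h9
  exact hne (e1.symm.trans e2)

theorem section_main [FiniteDimensional k M] (d : ℕ) : ∀ (U V : Submodule k M)
    (W : Set (Subgroup (LinearMap.GeneralLinearGroup k M))), Ctx U V W →
    Module.finrank k V - Module.finrank k U = d → Good U V W := by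
  induction d using Nat.strong_induction_on with
  | _ d ih =>
    intro U V W c hd
    by_cases hV : V ≤ U
    · refine ⟨0, ?_⟩
      rw [pow_zero, Submodule.one_le]
      exact fun v hv => hV hv
    have IH : ∀ (U' V' : Submodule k M) (W' : Set (Subgroup (LinearMap.GeneralLinearGroup k M))),
        Ctx U' V' W' → Module.finrank k V' - Module.finrank k U' < Module.finrank k V - Module.finrank k U →
          Good U' V' W' := fun U' V' W' c' h => ih _ (by omega) U' V' W' c' rfl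
    by_cases huniq : ∀ b₁ b₂, IsMaxAdm U V W b₁ → IsMaxAdm U V W b₂ → b₁ = b₂
    · have hgood0 : Adm U V W (alg U V ∅) := by
        refine ⟨∅, Set.empty_subset _, ⟨1, ?_⟩, rfl⟩
        have : E (∅ : Set (Subgroup (LinearMap.GeneralLinearGroup k M))) = ⊥ := by
          simp [E, T]
        rw [this, pow_one]
        exact bot_le
      obtain ⟨m, hm, -⟩ := exists_max hgood0
      obtain ⟨n, hn⟩ := hm.1.nil c
      refine good_of_le hn ?_
      intro A hA g hg
      have hAg : Adm U V W (alg U V {A}) := by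
        refine ⟨{A}, by simpa using hA, ?_, rfl⟩
        obtain ⟨n', hn'⟩ := c.hpair A hA A hA
        refine ⟨n', ?_⟩
        simpa using hn'
      obtain ⟨m', hm', hle⟩ := exists_max hAg
      rw [huniq m m' hm hm']
      exact hle (mem_alg (S := {A}) (Set.mem_singleton A) hg)
    · exfalso
      push Not at huniq
      obtain ⟨a₁, a₂, ha₁, ha₂, hne⟩ := huniq
      haveI : WellFoundedGT (Submodule k (Module.End k M)) := inferInstance
      have hD : ({x | ∃ b₁ b₂, IsMaxAdm U V W b₁ ∧ IsMaxAdm U V W b₂ ∧ b₁ ≠ b₂ ∧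
          x = alg U V (mems W b₁ ∩ mems W b₂)} : Set (Submodule k (Module.End k M))).Nonempty :=
        ⟨_, a₁, a₂, ha₁, ha₂, hne, rfl⟩
      obtain ⟨d₀, hd₀, hmin⟩ := (wellFounded_gt (α := Submodule k (Module.End k M))).has_min _ hD
      obtain ⟨b₁, b₂, hb₁, hb₂, hbne, hdb⟩ := hd₀
      refine main_step c hV IH hb₁ hb₂ hbne ?_
      intro b₃ b₄ hb₃ hb₄ hne' hle
      by_contra hcon
      rw [← hdb] at hle hcon
      exact hmin _ ⟨b₃, b₄, hb₃, hb₄, hne', rfl⟩ (lt_of_le_of_ne hle (Ne.symm hcon))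

end Main

theorem e_mem_gen_of_mem_iSup {W : Set (Subgroup (LinearMap.GeneralLinearGroup k M))}
    {g : LinearMap.GeneralLinearGroup k M} (hg : g ∈ ⨆ A ∈ W, A) : e g ∈ gen (E W) := by
  have e1 : (⨆ A ∈ W, A) = ⨆ A : W, (A : Subgroup (LinearMap.GeneralLinearGroup k M)) := by
    rw [iSup_subtype']
  rw [e1] at hg
  induction hg using Subgroup.iSup_induction' with
  | hp A x hx => exact le_gen _ (mem_E A.2 hx)
  | h1 =>
    rw [e_one]
    exact Submodule.zero_mem _
  | hmul x y _ _ ihx ihy =>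
    rw [e_mul]
    exact add_mem (add_mem (gen_mul_le _ (Submodule.mul_mem_mul ihx ihy)) ihx) ihy

theorem prod_mem_pow {P : Submodule k (Module.End k M)} (l : List (LinearMap.GeneralLinearGroup k M))
    (h : ∀ g ∈ l, e g ∈ P) : (l.map e).prod ∈ P ^ l.length := by
  induction l with
  | nil =>
    simp only [List.map_nil, List.prod_nil, List.length_nil, pow_zero]
    exact Submodule.one_le.mp le_rfl
  | cons a l ih =>
    simp only [List.map_cons, List.prod_cons, List.length_cons]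
    rw [pow_succ']
    exact Submodule.mul_mem_mul (h a (by simp)) (ih fun g hg => h g (by simp [hg]))

theorem map_sub_one (l : List (LinearMap.GeneralLinearGroup k M)) :
    (l.map fun g => (g : M →ₗ[k] M) - 1) = l.map e := by
  induction l with
  | nil => rfl
  | cons a l ih =>
    change ((a : M →ₗ[k] M) - 1) :: (l.map fun g => (g : M →ₗ[k] M) - 1) = e a :: l.map e
    rw [ih]
    rfl

/-- The theorem. -/
theorem main [FiniteDimensional k M] {G : Subgroup (LinearMap.GeneralLinearGroup k M)}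
    {W : Set (Subgroup (LinearMap.GeneralLinearGroup k M))} (hWG : ∀ A ∈ W, A ≤ G)
    (hWW : ∀ A ∈ W, ∀ B ∈ W, IsUnipotentOn (A ⊔ B)) (hWconj : ∀ A ∈ W, ∀ g ∈ G, conjBy A g ∈ W) :
    IsUnipotentOn (⨆ A ∈ W, A) ∧ ∀ g ∈ G, conjBy (⨆ A ∈ W, A) g = ⨆ A ∈ W, A := by
  have hann : ∀ {f : Module.End k M}, f ∈ Ann (⊥ : Submodule k M) (⊤ : Submodule k M) → f = 0 := by
    intro f hf
    ext v
    have := hf v Submodule.mem_top
    simpa using this
  have c : Ctx (⊥ : Submodule k M) (⊤ : Submodule k M) W := by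
    refine ⟨bot_le, ?_, ?_, ?_⟩
    · intro A _ g _
      refine ⟨?_, fun _ _ => Submodule.mem_top⟩
      intro v hv
      rw [Submodule.mem_bot] at hv
      rw [hv, map_zero]
      exact Submodule.zero_mem _
    · intro A hA B hB
      obtain ⟨n, hn⟩ := hWW A hA B hB
      refine ⟨n, ?_⟩
      unfold E
      rw [Submodule.span_pow, Submodule.span_le]
      intro x hx
      rw [Set.mem_pow] at hx
      obtain ⟨f, rfl⟩ := hx
      have hch : ∀ i : Fin n, ∃ g : LinearMap.GeneralLinearGroup k M, g ∈ A ⊔ B ∧ (f i : Module.End k M) = e g := by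
        intro i
        obtain ⟨C, hC, g, hg, hfi⟩ := (f i).2
        refine ⟨g, ?_, hfi⟩
        rcases hC with hC | hC
        · rw [hC] at hg
          exact Subgroup.mem_sup_left hg
        · rw [Set.mem_singleton_iff.mp hC] at hg
          exact Subgroup.mem_sup_right hg
      choose g hg hfg using hch
      have h1 := hn (List.ofFn g) (by
        intro x hx
        rw [List.mem_ofFn] at hx
        obtain ⟨i, rfl⟩ := hx
        exact hg i) (by simp)
      have h2 : (List.ofFn fun i => (f i : Module.End k M)) =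
          (List.ofFn g).map fun g => (g : M →ₗ[k] M) - 1 := by
        rw [map_sub_one, List.map_ofFn]
        congr 1
        funext i
        exact hfg i
      show _ ∈ Ann (⊥ : Submodule k M) (⊤ : Submodule k M)
      rw [h2, h1]
      exact Submodule.zero_mem _
    · intro A hA B hB a ha
      exact hWconj B hB a (hWG A hA ha)
  obtain ⟨n, hn⟩ := section_main _ (⊥ : Submodule k M) (⊤ : Submodule k M) W c rfl
  have hgen := gen_pow_le_ann (E_le_stab c (subset_refl W)) hn
  constructor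
  · refine ⟨n, fun l hl hlen => ?_⟩
    have h1 := prod_mem_pow (P := gen (E W)) l fun g hg => e_mem_gen_of_mem_iSup (hl g hg)
    rw [hlen] at h1
    rw [map_sub_one]
    exact hann (hgen h1)
  · intro g hg
    have hle : ∀ g ∈ G, conjBy (⨆ A ∈ W, A) g ≤ ⨆ A ∈ W, A := by
      intro g hg
      simp only [conjBy, Subgroup.map_iSup]
      refine iSup₂_le fun A hA => ?_
      exact le_iSup₂_of_le (conjBy A g) (hWconj A hA g hg) le_rfl
    refine le_antisymm (hle g hg) ?_
    intro x hx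
    rw [mem_conjBy]
    have := hle g⁻¹ (G.inv_mem hg) (conj_mem_conjBy hx)
    simpa using this

end Cfsg.Agent.Lib.UnipotentBS
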