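import Cfsg.Agent.Lib.UnitaryMax
import Cfsg.Agent.Lib.SymplecticDecomp

/-! The stabiliser of a pair of complementary totally singular subspaces of half dimension in `SU`. -/

set_option autoImplicit false
set_option linter.unusedSectionVars false
set_option linter.unusedSimpArgs false
set_option linter.unusedVariables false

open scoped MatrixGroups Matrix
open Cfsg Cfsg.Geo
open Cfsg.Agent.Lib.Transvection Cfsg.Agent.Lib.LinAlgAux Cfsg.Agent.Lib.UnitaryBase
  Cfsg.Agent.Lib.UnitaryGen Cfsg.Agent.Lib.SubspaceStab Cfsg.Agent.Lib.UnitaryMax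
open Cfsg.Agent.Lib.SymplecticTv (IsIsom Ind)

namespace Cfsg.Agent.Lib.UnitaryLag

variable {ι : Type} [Fintype ι] [DecidableEq ι] {F : Type*} [Field F] {σ : F ≃+* F}
  {f : (ι → F) → (ι → F) → F}

section RR

variable (hf : IsUnitaryForm σ f)

/-- The element `x ↦ x + f x a • b - f x b • a`. -/
noncomputable def rr (a b : ι → F) : GL ι F := eich hf a b 0

theorem rr_mulVec {a b : ι → F} (h1 : f a a = 0) (h2 : f a b = 0) (x : ι → F) :
    ((rr hf a b : GL ι F) : Matrix ι ι F) *ᵥ x = x + f x a • b - f x b • a := by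
  rw [rr, eich_mulVec hf 0 h1 h2]
  simp

theorem rr_isIsom {a b : ι → F} (h1 : f a a = 0) (h2 : f a b = 0) (h3 : f b b = 0) :
    IsIsom f (rr hf a b) :=
  eich_isIsom hf h1 h2 (by simp [h3])

theorem conj_rr {s : GL ι F} (hs : IsIsom f s) {a b : ι → F} (h1 : f a a = 0) (h2 : f a b = 0) :
    s * rr hf a b * s⁻¹ = rr hf ((s : Matrix ι ι F) *ᵥ a) ((s : Matrix ι ι F) *ᵥ b) :=
  conj_eich hf hs 0 h1 h2

theorem rr_add {a u v : ι → F} (h1 : f a a = 0) (h2 : f a u = 0) (h3 : f a v = 0) (h4 : f v u = 0) :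
    rr hf a u * rr hf a v = rr hf a (u + v) := by
  rw [rr, rr, eich_mul hf 0 0 h1 h2 h3, h4, rr]
  simp

theorem rr_zero (a : ι → F) (h1 : f a a = 0) : rr hf a 0 = 1 := by
  apply gl_ext_mulVec
  intro x
  rw [rr_mulVec hf h1 (f_zero_right hf a), f_zero_right hf]
  simp

theorem rr_neg {a b : ι → F} (h1 : f a a = 0) (h2 : f a b = 0) (h3 : f b b = 0) :
    rr hf a (-b) = (rr hf a b)⁻¹ := by
  apply eq_inv_of_mul_eq_one_left
  have h5 : f b (-b) = 0 := by rw [f_neg_right hf, h3, neg_zero]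
  rw [rr_add hf h1 (by rw [f_neg_right hf, h2, neg_zero]) h2 (by rw [f_neg_right hf, h3, neg_zero]),
    neg_add_cancel, rr_zero hf a h1]

theorem rr_self {a : ι → F} (l : F) (h1 : f a a = 0) :
    rr hf a (l • a) = tt hf a (l - σ l) := by
  apply gl_ext_mulVec
  intro x
  have h2 : f a (l • a) = 0 := by rw [f_smul_right hf, h1, mul_zero]
  rw [rr_mulVec hf h1 h2, tt_mulVec hf _ h1, f_smul_right hf]
  module

theorem rr_swap {a b : ι → F} (h1 : f a a = 0) (h2 : f a b = 0) (h3 : f b b = 0) :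
    rr hf b a = (rr hf a b)⁻¹ := by
  apply eq_inv_of_mul_eq_one_left
  apply gl_ext_mulVec
  intro x
  have h4 : f b a = 0 := f_comm_zero hf h2
  rw [gl_mul_mulVec, rr_mulVec hf h1 h2, rr_mulVec hf h3 h4]
  simp only [hf.add_left, f_sub_left hf, hf.smul_left, h1, h2, h3, h4]
  simp

end RR

/-- A pair of complementary totally singular subspaces. -/
structure ULag (W W' : Submodule F (ι → F)) (f : (ι → F) → (ι → F) → F) : Prop where
  isoL : ∀ u ∈ W, ∀ v ∈ W, f u v = 0
  isoR : ∀ u ∈ W', ∀ v ∈ W', f u v = 0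
  top : W ⊔ W' = ⊤

theorem ULag.symm {W W' : Submodule F (ι → F)} (h : ULag W W' f) : ULag W' W f :=
  ⟨h.isoR, h.isoL, by rw [sup_comm]; exact h.top⟩

namespace ULag

variable {W W' : Submodule F (ι → F)} (hL : ULag W W' f) (hf : IsUnitaryForm σ f)

include hL

theorem decomp (z : ι → F) : ∃ z₁ ∈ W, ∃ z₂ ∈ W', z₁ + z₂ = z := by
  have : z ∈ W ⊔ W' := by rw [hL.top]; trivial
  exact Submodule.mem_sup.1 this

include hf

theorem eq_zero_of {x : ι → F} (hx : x ∈ W) (h : ∀ y ∈ W', f x y = 0) : x = 0 := by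
  by_contra hne
  obtain ⟨z, hz⟩ := exists_right_ne hf hne
  obtain ⟨z₁, h1, z₂, h2, rfl⟩ := hL.decomp z
  apply hz
  rw [f_add_right hf, hL.isoL x hx z₁ h1, h z₂ h2, add_zero]

theorem mem_of_forall {b : ι → F} (h : ∀ w ∈ W', f w b = 0) : b ∈ W' := by
  obtain ⟨b₁, h1, b₂, h2, rfl⟩ := hL.decomp b
  have : b₁ = 0 := by
    apply hL.eq_zero_of hf h1
    intro y hy
    have h3 := h y hy
    rw [f_add_right hf, hL.isoR y hy b₂ h2, add_zero] at h3
    exact f_comm_zero hf h3
  rw [this, zero_add]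
  exact h2

theorem inf_eq_zero {x : ι → F} (h1 : x ∈ W) (h2 : x ∈ W') : x = 0 :=
  hL.eq_zero_of hf h1 (fun y hy => hL.isoR x h2 y hy)

/-- Dual vectors. -/
theorem exists_dual [Finite F] {K : Submodule F (ι → F)} (hK : K ≤ W) {x : ι → F} (hx : x ∈ W)
    (hxK : x ∉ K) : ∃ b ∈ W', (∀ y ∈ K, f y b = 0) ∧ f x b = 1 := by
  have hs : x ∉ K ⊔ W' := by
    intro hm
    obtain ⟨k, hk, w, hw, hkw⟩ := Submodule.mem_sup.1 hm
    apply hxK
    have h0 : x - k = 0 := by
      apply hL.inf_eq_zero hf (W.sub_mem hx (hK hk))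
      rw [← hkw]
      simpa using hw
    rw [sub_eq_zero.1 h0]
    exact hk
  obtain ⟨φ, h1, h2⟩ := exists_functional_of_notMem hs
  obtain ⟨b, hb⟩ := exists_formL_eq hf φ
  have hφ : ∀ y, f y b = φ y := fun y => by rw [← hb]; rfl
  refine ⟨b, hL.mem_of_forall hf (fun w hw => ?_), fun y hy => ?_, ?_⟩
  · rw [hφ]
    exact h2 w (Submodule.mem_sup_right hw)
  · rw [hφ]
    exact h2 y (Submodule.mem_sup_left hy)
  · rw [hφ, h1]

/-- The core step: from `R(c, d)` with independent `W`-components to a full vector of `W`. -/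
theorem core [Finite F] {M : Subgroup (GL ι F)} (hHE : ∀ a ∈ W, ∀ b ∈ W', f a b = 0 → rr hf a b ∈ M)
    {c d : ι → F} (hcc : f c c = 0) (hdd : f d d = 0) (hcd : f c d = 0) (hE : rr hf c d ∈ M)
    {c₁ c₂ d₁ d₂ : ι → F} (hc₁ : c₁ ∈ W)
    (hc₂ : c₂ ∈ W') (hd₁ : d₁ ∈ W) (hd₂ : d₂ ∈ W') (hc : c = c₁ + c₂) (hd : d = d₁ + d₂)
    (hc0 : c₁ ≠ 0) (hind : d₁ ∉ Submodule.span F {c₁}) (hdim : 5 ≤ Module.finrank F W) :
    ∃ a ∈ W, a ≠ 0 ∧ Full hf M a := by
  classical
  -- the choice of `a`
  let A : Submodule F (ι → F) := W ⊓ LinearMap.ker (formL hf c₂) ⊓ LinearMap.ker (formL hf d₂)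
  have hA : 3 ≤ Module.finrank F A := by
    have h3 := Cfsg.Agent.Lib.SymplecticTv.finrank_inf_ker_add_one W (formL hf c₂)
    have h4 := Cfsg.Agent.Lib.SymplecticTv.finrank_inf_ker_add_one
      (W ⊓ LinearMap.ker (formL hf c₂)) (formL hf d₂)
    have h5 : Module.finrank F A = Module.finrank F
      ↥(W ⊓ LinearMap.ker (formL hf c₂) ⊓ LinearMap.ker (formL hf d₂)) := rfl
    omega
  let S : Submodule F (ι → F) := Submodule.span F {c₁, d₁}
  have hS : Module.finrank F S ≤ 2 := by
    have h3 := finrank_span_finset_le_card (R := F) ({c₁, d₁} : Finset (ι → F))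
    have h4 : ({c₁, d₁} : Finset (ι → F)).card ≤ 2 := Finset.card_le_two
    rw [Finset.coe_insert, Finset.coe_singleton] at h3
    exact h3.trans h4
  obtain ⟨a, haA, haS⟩ : ∃ a ∈ A, a ∉ S := by
    by_contra hcon
    push Not at hcon
    have := Submodule.finrank_mono (show A ≤ S from hcon)
    omega
  have haW : a ∈ W := haA.1.1
  have hac₂ : f a c₂ = 0 := haA.1.2
  have had₂ : f a d₂ = 0 := haA.2
  have hc₂a : f c₂ a = 0 := f_comm_zero hf hac₂
  have hd₂a : f d₂ a = 0 := f_comm_zero hf had₂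
  have ha0 : a ≠ 0 := by
    rintro rfl
    exact haS (Submodule.zero_mem _)
  have haa : f a a = 0 := hL.isoL a haW a haW
  have hca : f c a = 0 := by
    rw [hc, hf.add_left, hL.isoL c₁ hc₁ a haW, hc₂a, add_zero]
  have hda : f d a = 0 := by
    rw [hd, hf.add_left, hL.isoL d₁ hd₁ a haW, hd₂a, add_zero]
  have hac : f a c = 0 := f_comm_zero hf hca
  have had : f a d = 0 := f_comm_zero hf hda
  -- step one
  have hK : d₁ ∉ Submodule.span F {a, c₁} := by
    intro hm
    obtain ⟨s, t, hst⟩ := Submodule.mem_span_pair.1 hm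
    by_cases hs : s = 0
    · apply hind
      rw [← hst, hs, zero_smul, zero_add]
      exact Submodule.smul_mem _ _ (Submodule.mem_span_singleton_self c₁)
    · apply haS
      have e : a = s⁻¹ • d₁ + (-(s⁻¹ * t)) • c₁ := by
        rw [← hst, smul_add, smul_smul, smul_smul, inv_mul_cancel₀ hs, one_smul, add_assoc,
          ← add_smul]
        simp
      rw [e]
      exact Submodule.add_mem _ (Submodule.smul_mem _ _ (Submodule.subset_span (by simp)))
        (Submodule.smul_mem _ _ (Submodule.subset_span (by simp)))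
  have hKW : Submodule.span F {a, c₁} ≤ W := by
    rw [Submodule.span_le]
    rintro z (rfl | rfl)
    · exact haW
    · exact hc₁
  obtain ⟨b, hb, hbK, hbd⟩ := hL.exists_dual hf hKW hd₁ hK
  have hab : f a b = 0 := hbK a (Submodule.subset_span (by simp))
  have hc₁b : f c₁ b = 0 := hbK c₁ (Submodule.subset_span (by simp))
  have hcb : f c b = 0 := by
    rw [hc, hf.add_left, hc₁b, hL.isoR c₂ hc₂ b hb, add_zero]
  have hdb : f d b = 1 := by
    rw [hd, hf.add_left, hbd, hL.isoR d₂ hd₂ b hb, add_zero]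
  have hbb : f b b = 0 := hL.isoR b hb b hb
  have hs1 := hHE a haW b hb hab
  have hsi : IsIsom f (rr hf a b) := rr_isIsom hf haa hab hbb
  have hsc : ((rr hf a b : GL ι F) : Matrix ι ι F) *ᵥ c = c := by
    rw [rr_mulVec hf haa hab, hca, hcb]
    simp
  have hsd : ((rr hf a b : GL ι F) : Matrix ι ι F) *ᵥ d = d + (-a) := by
    rw [rr_mulVec hf haa hab, hda, hdb]
    simp [sub_eq_add_neg]
  have hE2 : rr hf c (d + (-a)) ∈ M := by
    have := M.mul_mem (M.mul_mem hs1 hE) (M.inv_mem hs1)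
    rw [conj_rr hf hsi hcc hcd, hsc, hsd] at this
    exact this
  have hE3 : rr hf c (-a) ∈ M := by
    have hna : f (-a) d = 0 := by rw [f_neg_left hf, had, neg_zero]
    have h3 := rr_add hf hcc hcd (by rw [f_neg_right hf, hca, neg_zero]) hna
    have h4 : rr hf c (-a) = (rr hf c d)⁻¹ * rr hf c (d + (-a)) := by
      rw [← h3]
      group
    rw [h4]
    exact M.mul_mem (M.inv_mem hE) hE2
  have hE4 : rr hf a c ∈ M := by
    rw [rr_swap hf hcc hca haa, ← rr_neg hf hcc hca haa]
    exact hE3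
  -- step two
  have hc₁a : c₁ ∉ Submodule.span F {a} := by
    intro hm
    apply haS
    obtain ⟨s, hs⟩ := Submodule.mem_span_singleton.1 hm
    have hs0 : s ≠ 0 := by
      rintro rfl
      apply hc0
      rw [← hs, zero_smul]
    have e : a = s⁻¹ • c₁ := by
      rw [← hs, smul_smul, inv_mul_cancel₀ hs0, one_smul]
    rw [e]
    exact Submodule.smul_mem _ _ (Submodule.subset_span (by simp))
  obtain ⟨b₁, hb₁, hb₁K, hb₁c⟩ := hL.exists_dual hf (K := Submodule.span F {a})
    (by
      rw [Submodule.span_le]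
      rintro z rfl
      exact haW) hc₁ hc₁a
  have hab₁ : f a b₁ = 0 := hb₁K a (Submodule.subset_span (by simp))
  have hcb₁ : f c b₁ = 1 := by
    rw [hc, hf.add_left, hb₁c, hL.isoR c₂ hc₂ b₁ hb₁, add_zero]
  have hb₁b₁ : f b₁ b₁ = 0 := hL.isoR b₁ hb₁ b₁ hb₁
  obtain ⟨t, ht⟩ := exists_trace_eq hf (c := 1) (map_one σ)
  refine ⟨a, haW, ha0, fun e he => ?_⟩
  -- all parameters
  set l : F := e * t with hl
  have hle : l - σ l = e := by
    have hse : σ e = - e := by linear_combination he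
    rw [hl, map_mul, hse]
    linear_combination e * ht
  rw [← hle, ← rr_self hf l haa]
  set l' : F := - σ l with hl'
  have hsl' : σ l' = - l := by rw [hl', map_neg, hf.involutive]
  have hab2 : f a (l' • b₁) = 0 := by rw [f_smul_right hf, hab₁, mul_zero]
  have hb2b2 : f (l' • b₁) (l' • b₁) = 0 := hL.isoR _ (W'.smul_mem _ hb₁) _ (W'.smul_mem _ hb₁)
  have hs2 := hHE a haW (l' • b₁) (W'.smul_mem _ hb₁) hab2
  have hsi2 : IsIsom f (rr hf a (l' • b₁)) := rr_isIsom hf haa hab2 hb2b2
  have hsa : ((rr hf a (l' • b₁) : GL ι F) : Matrix ι ι F) *ᵥ a = a := by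
    rw [rr_mulVec hf haa hab2, haa, hab2]
    simp
  have hsc2 : ((rr hf a (l' • b₁) : GL ι F) : Matrix ι ι F) *ᵥ c = c + l • a := by
    rw [rr_mulVec hf haa hab2, hca, f_smul_right hf, hcb₁, hsl']
    simp
  have hE5 : rr hf a (c + l • a) ∈ M := by
    have := M.mul_mem (M.mul_mem hs2 hE4) (M.inv_mem hs2)
    rw [conj_rr hf hsi2 haa hac, hsa, hsc2] at this
    exact this
  have hal : f a (l • a) = 0 := by rw [f_smul_right hf, haa, mul_zero]
  have hla : f (l • a) c = 0 := by rw [hf.smul_left, hac, mul_zero]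
  have h3 := rr_add hf haa hac hal hla
  have h4 : rr hf a (l • a) = (rr hf a c)⁻¹ * rr hf a (c + l • a) := by
    rw [← h3]
    group
  rw [h4]
  exact M.mul_mem (M.inv_mem hE4) hE5

/-- One full vector of `W` makes all of `W` full. -/
theorem full_of_one [Finite F] {M : Subgroup (GL ι F)}
    (hHE : ∀ a ∈ W, ∀ b ∈ W', f a b = 0 → rr hf a b ∈ M)
    {a : ι → F} (ha : a ∈ W) (ha0 : a ≠ 0) (hfull : Full hf M a) {z : ι → F} (hz : z ∈ W) :
    Full hf M z := by
  classical
  have haa : f a a = 0 := hL.isoL a ha a ha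
  by_cases hs : z ∈ Submodule.span F {a}
  · obtain ⟨s, rfl⟩ := Submodule.mem_span_singleton.1 hs
    exact hfull.smul haa s
  · let u := a - z
    have huW : u ∈ W := W.sub_mem ha hz
    have hau : a ∉ Submodule.span F {u} := by
      intro hm
      obtain ⟨s, hs'⟩ := Submodule.mem_span_singleton.1 hm
      apply hs
      have hs1 : s ≠ 0 := by
        rintro rfl
        apply ha0
        rw [← hs', zero_smul]
      have e : z = (1 - s⁻¹) • a := by
        have : u = s⁻¹ • a := by
          rw [← hs', smul_smul, inv_mul_cancel₀ hs1, one_smul]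
        have h3 : z = a - u := by simp [u]
        rw [h3, this, sub_smul, one_smul]
      rw [e]
      exact Submodule.smul_mem _ _ (Submodule.mem_span_singleton_self a)
    obtain ⟨v, hv, hv1, hv2⟩ := hL.exists_dual hf (K := Submodule.span F {u})
      (by
        rw [Submodule.span_le]
        rintro z rfl
        exact huW) ha hau
    have huv : f u v = 0 := hv1 u (Submodule.mem_span_singleton_self u)
    have huu : f u u = 0 := hL.isoL u huW u huW
    have hvv : f v v = 0 := hL.isoR v hv v hv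
    have hE := hHE u huW v hv huv
    have h3 := hfull.image haa hE (rr_isIsom hf huu huv hvv)
    rw [rr_mulVec hf huu huv, hL.isoL a ha u huW, hv2] at h3
    have e : a + (0 : F) • v - (1 : F) • u = z := by simp [u]
    rwa [e] at h3

theorem exists_ne {x : ι → F} (hx : x ∈ W) (hx0 : x ≠ 0) : ∃ y ∈ W', f x y ≠ 0 := by
  by_contra hcon
  push Not at hcon
  exact hx0 (hL.eq_zero_of hf hx hcon)

/-- A non-stabilising element produces a full vector in one of the two subspaces. -/
theorem exists_full [Finite F] {M : Subgroup (GL ι F)}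
    (hHE : ∀ a ∈ W, ∀ b ∈ W', f a b = 0 → rr hf a b ∈ M)
    {g : GL ι F} (hgM : g ∈ M) (hgi : IsIsom f g) {a : ι → F} (ha : a ∈ W)
    (hga1 : (g : Matrix ι ι F) *ᵥ a ∉ W) (hga2 : (g : Matrix ι ι F) *ᵥ a ∉ W')
    (hdim : 5 ≤ Module.finrank F W) (hdim' : 5 ≤ Module.finrank F W') :
    (∃ z ∈ W, z ≠ 0 ∧ Full hf M z) ∨ (∃ z ∈ W', z ≠ 0 ∧ Full hf M z) := by
  classical
  have hHE' : ∀ a ∈ W', ∀ b ∈ W, f a b = 0 → rr hf a b ∈ M := fun a ha b hb hab => by
    rw [rr_swap hf (hL.isoL b hb b hb) (f_comm_zero hf hab) (hL.isoR a ha a ha)]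
    exact M.inv_mem (hHE b hb a ha (f_comm_zero hf hab))
  have haa : f a a = 0 := hL.isoL a ha a ha
  set c := (g : Matrix ι ι F) *ᵥ a with hcdef
  obtain ⟨c₁, hc₁, c₂, hc₂, hc⟩ := hL.decomp c
  have hc10 : c₁ ≠ 0 := by
    rintro rfl
    apply hga2
    rw [← hc, zero_add]
    exact hc₂
  have hc20 : c₂ ≠ 0 := by
    rintro rfl
    apply hga1
    rw [← hc, add_zero]
    exact hc₁
  -- the choice of `b`
  have hex : ∃ b ∈ W', f b a = 0 ∧ ∃ d₁ ∈ W, ∃ d₂ ∈ W', d₁ + d₂ = (g : Matrix ι ι F) *ᵥ b ∧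
      (d₁ ∉ Submodule.span F {c₁} ∨ d₂ ∉ Submodule.span F {c₂}) := by
    by_contra hcon
    push Not at hcon
    let T : Submodule F (ι → F) := Submodule.span F {c₁, c₂}
    have hT : Module.finrank F T ≤ 2 := by
      have h3 := finrank_span_finset_le_card (R := F) ({c₁, c₂} : Finset (ι → F))
      have h4 : ({c₁, c₂} : Finset (ι → F)).card ≤ 2 := Finset.card_le_two
      rw [Finset.coe_insert, Finset.coe_singleton] at h3
      exact h3.trans h4
    have hle : (W' ⊓ LinearMap.ker (formL hf a)).map (glLin g) ≤ T := by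
      rintro _ ⟨b, hb, rfl⟩
      obtain ⟨d₁, hd₁, d₂, hd₂, hd⟩ := hL.decomp ((g : Matrix ι ι F) *ᵥ b)
      obtain ⟨hd1, hd2⟩ := hcon b hb.1 hb.2 d₁ hd₁ d₂ hd₂ hd
      have e : glLin g b = d₁ + d₂ := by simpa using hd.symm
      rw [e]
      refine Submodule.add_mem _ ?_ ?_
      · exact (Submodule.span_mono (by simp)) hd1
      · exact (Submodule.span_mono (by simp)) hd2
    have h5 := Submodule.finrank_mono hle
    rw [finrank_map_gl] at h5
    have h6 := Cfsg.Agent.Lib.SymplecticTv.finrank_inf_ker_add_one W' (formL hf a)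
    omega
  obtain ⟨b, hb, hba, d₁, hd₁, d₂, hd₂, hd, hor⟩ := hex
  have hab : f a b = 0 := f_comm_zero hf hba
  have hbb : f b b = 0 := hL.isoR b hb b hb
  have hE : rr hf c ((g : Matrix ι ι F) *ᵥ b) ∈ M := by
    have := M.mul_mem (M.mul_mem hgM (hHE a ha b hb hab)) (M.inv_mem hgM)
    rwa [conj_rr hf hgi haa hab] at this
  have hcc : f c c = 0 := by rw [hcdef, hgi, haa]
  have hdd : f ((g : Matrix ι ι F) *ᵥ b) ((g : Matrix ι ι F) *ᵥ b) = 0 := by rw [hgi, hbb]
  have hcd : f c ((g : Matrix ι ι F) *ᵥ b) = 0 := by rw [hcdef, hgi, hab]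
  rcases hor with hor | hor
  · exact Or.inl (hL.core hf hHE hcc hdd hcd hE hc₁ hc₂ hd₁ hd₂ hc.symm hd.symm hc10 hor hdim)
  · exact Or.inr (hL.symm.core hf hHE' hcc hdd hcd hE hc₂ hc₁ hd₂ hd₁
      (by rw [add_comm]; exact hc.symm) (by rw [add_comm]; exact hd.symm) hc20 hor hdim')

/-- Dual bases. -/
theorem exists_dual_basis [Finite F] : ∃ (m : ℕ) (p q : Fin m → ι → F), (∀ i, p i ∈ W) ∧
    (∀ i, q i ∈ W') ∧ (∀ i j, f (p i) (q j) = if i = j then 1 else 0) ∧
    (∀ x ∈ W, x = ∑ i, f x (q i) • p i) ∧ (∀ x ∈ W', x = ∑ i, f x (p i) • q i) := by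
  classical
  let n := Module.finrank F W
  let b : Module.Basis (Fin n) F W := Module.finBasis F W
  let p : Fin n → ι → F := fun i => (b i : ι → F)
  have hp : ∀ i, p i ∈ W := fun i => (b i).2
  -- a dual vector for each index
  have hq : ∀ i, ∃ q ∈ W', ∀ j, f (p j) q = if j = i then 1 else 0 := by
    intro i
    -- the subspace spanned by the other basis vectors
    let K : Submodule F (ι → F) := Submodule.span F (Set.range fun j : {j // j ≠ i} => p j)
    have hKW : K ≤ W := by
      rw [Submodule.span_le]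
      rintro _ ⟨j, rfl⟩
      exact hp j
    have hpK : p i ∉ K := by
      intro hm
      have hm' : (b i) ∈ Submodule.span F (Set.range fun j : {j // j ≠ i} => b j) := by
        have h4 := (Submodule.map_span W.subtype (Set.range fun j : {j // j ≠ i} => b j))
        have h5 : W.subtype '' (Set.range fun j : {j // j ≠ i} => b j) =
            Set.range fun j : {j // j ≠ i} => p j := by
          ext z
          simp [p]
        have h6 : p i ∈ (Submodule.span F (Set.range fun j : {j // j ≠ i} => b j)).map W.subtype := by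
          rw [h4, h5]
          exact hm
        obtain ⟨y, hy, hyz⟩ := h6
        have : y = b i := Subtype.ext hyz
        rwa [this] at hy
      have hli := b.linearIndependent
      have := hli.notMem_span_image (s := {j | j ≠ i}) (x := i) (by simp)
      apply this
      have h7 : b '' {j | j ≠ i} = Set.range fun j : {j // j ≠ i} => b j := by
        ext z
        simp
      rw [h7]
      exact hm'
    obtain ⟨q, hq, hq1, hq2⟩ := hL.exists_dual hf hKW (hp i) hpK
    refine ⟨q, hq, fun j => ?_⟩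
    by_cases hji : j = i
    · subst hji
      simpa using hq2
    · simp only [hji, if_false]
      exact hq1 _ (Submodule.subset_span ⟨⟨j, hji⟩, rfl⟩)
  choose q hqW hpq using hq
  have hPQ : ∀ i j, f (p i) (q j) = if i = j then 1 else 0 := fun i j => hpq j i
  have hQP : ∀ i j, f (q i) (p j) = if i = j then 1 else 0 := by
    intro i j
    rw [hf.herm, hPQ j i]
    by_cases h : i = j
    · subst h
      simp
    · have h' : j ≠ i := fun h2 => h h2.symm
      simp [h, h']
  have hPP : ∀ i j, f (p i) (p j) = 0 := fun i j => hL.isoL _ (hp i) _ (hp j)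
  have hQQ : ∀ i j, f (q i) (q j) = 0 := fun i j => hL.isoR _ (hqW i) _ (hqW j)
  have hsumL : ∀ (s : Finset (Fin n)) (c : Fin n → ι → F) (y : ι → F),
      f (∑ i ∈ s, c i) y = ∑ i ∈ s, f (c i) y := by
    intro s c y
    induction s using Finset.induction_on with
    | empty => simp [f_zero_left hf]
    | insert a s ha ih => rw [Finset.sum_insert ha, Finset.sum_insert ha, hf.add_left, ih]
  have hexpW : ∀ x ∈ W, x = ∑ i, f x (q i) • p i := by
    intro x hx
    have h1 := b.sum_repr ⟨x, hx⟩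
    have h2 := congrArg (Subtype.val) h1
    simp only [Submodule.coe_sum, Submodule.coe_smul] at h2
    have h3 : ∀ i, f x (q i) = b.repr ⟨x, hx⟩ i := by
      intro i
      conv_lhs => rw [← h2]
      rw [hsumL, Finset.sum_eq_single i]
      · rw [hf.smul_left]
        simp [hPQ, p]
      · intro j _ hj
        rw [hf.smul_left]
        have : f (p j) (q i) = 0 := by simp [hPQ, hj]
        change _ * f (p j) (q i) = 0
        rw [this, mul_zero]
      · simp
    calc x = ∑ i, (b.repr ⟨x, hx⟩ i) • p i := h2.symm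
      _ = ∑ i, f x (q i) • p i := Finset.sum_congr rfl fun i _ => by rw [h3 i]
  have hexpW' : ∀ x ∈ W', x = ∑ i, f x (p i) • q i := by
    intro x hx
    rw [← sub_eq_zero]
    apply hL.symm.eq_zero_of hf (W'.sub_mem hx (Submodule.sum_mem _ fun i _ => W'.smul_mem _ (hqW i)))
    intro y hy
    rw [hexpW y hy]
    -- right additivity through a sum
    have hsumR : ∀ (s : Finset (Fin n)) (c : Fin n → ι → F) (z : ι → F),
        f z (∑ i ∈ s, c i) = ∑ i ∈ s, f z (c i) := by
      intro s c z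
      induction s using Finset.induction_on with
      | empty => simp [f_zero_right hf]
      | insert a s ha ih => rw [Finset.sum_insert ha, Finset.sum_insert ha, f_add_right hf, ih]
    rw [hsumR]
    apply Finset.sum_eq_zero
    intro i _
    rw [f_smul_right hf, f_sub_left hf, hsumL, Finset.sum_eq_single i]
    · rw [hf.smul_left, hQP]
      simp
    · intro j _ hj
      rw [hf.smul_left, hQP]
      simp [hj]
    · simp
  exact ⟨n, p, q, hp, hqW, hPQ, hexpW, hexpW'⟩

/-- A swap of the two subspaces, in the group generated by transvections. -/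
theorem exists_swap [Finite F] : ∃ s ∈ uG hf (⊤ : Submodule F (ι → F)),
    (∀ x ∈ W, (s : Matrix ι ι F) *ᵥ x ∈ W') ∧ (∀ x ∈ W', (s : Matrix ι ι F) *ᵥ x ∈ W) := by
  classical
  obtain ⟨m, p, q, hp, hq, hPQ, hexpW, hexpW'⟩ := hL.exists_dual_basis hf
  obtain ⟨δ, hδ0, hδ⟩ := exists_tr0 hf
  have hQP : ∀ i j, f (q i) (p j) = if i = j then 1 else 0 := by
    intro i j
    rw [hf.herm, hPQ j i]
    by_cases h : i = j
    · subst h
      simp
    · have h' : j ≠ i := fun h2 => h h2.symm
      simp [h, h']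
  have hPP : ∀ i j, f (p i) (p j) = 0 := fun i j => hL.isoL _ (hp i) _ (hp j)
  have hQQ : ∀ i j, f (q i) (q j) = 0 := fun i j => hL.isoR _ (hq i) _ (hq j)
  have hwE : ∀ i, wE hf (p i) (q i) δ ∈ uG hf (⊤ : Submodule F (ι → F)) := by
    intro i
    have h1 : Full hf (uG hf (⊤ : Submodule F (ι → F))) (p i) := full_uG Submodule.mem_top (hPP i i)
    have h2 : Full hf (uG hf (⊤ : Submodule F (ι → F))) (q i) := full_uG Submodule.mem_top (hQQ i i)
    exact (uG hf ⊤).mul_mem ((uG hf ⊤).mul_mem (h1 _ hδ) (h2 _ (tr0_neg hf (tr0_inv hf hδ))))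
      (h1 _ hδ)
  have hfixE : ∀ i y, f y (p i) = 0 → f y (q i) = 0 →
      ((wE hf (p i) (q i) δ : GL ι F) : Matrix ι ι F) *ᵥ y = y := by
    intro i y h1 h2
    have e1 : ((tt hf (p i) δ : GL ι F) : Matrix ι ι F) *ᵥ y = y := by
      rw [tt_mulVec hf _ (hPP i i), h1]
      simp
    have e2 : ((tt hf (q i) (-δ⁻¹) : GL ι F) : Matrix ι ι F) *ᵥ y = y := by
      rw [tt_mulVec hf _ (hQQ i i), h2]
      simp
    simp only [wE, gl_mul_mulVec]
    rw [e1, e2, e1]
  have key : ∀ k : ℕ, k ≤ m → ∃ s ∈ uG hf (⊤ : Submodule F (ι → F)), ∀ i : Fin m,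
      (i.val < k → (s : Matrix ι ι F) *ᵥ p i = (-δ⁻¹) • q i ∧ (s : Matrix ι ι F) *ᵥ q i = δ • p i) ∧
      (k ≤ i.val → (s : Matrix ι ι F) *ᵥ p i = p i ∧ (s : Matrix ι ι F) *ᵥ q i = q i) := by
    intro k
    induction k with
    | zero =>
      intro _
      exact ⟨1, (uG hf ⊤).one_mem, fun i => ⟨fun h => absurd h (Nat.not_lt_zero _), fun _ => by simp⟩⟩
    | succ k ih =>
      intro hk
      obtain ⟨s, hs, hs'⟩ := ih (by omega)
      let kk : Fin m := ⟨k, by omega⟩
      refine ⟨wE hf (p kk) (q kk) δ * s, (uG hf ⊤).mul_mem (hwE kk) hs, fun i => ⟨fun hi => ?_, fun hi => ?_⟩⟩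
      · by_cases hik : i.val < k
        · have hne : i ≠ kk := fun h => by
            rw [h] at hik
            simp [kk] at hik
          have hne' : kk ≠ i := fun h => hne h.symm
          obtain ⟨h1, h2⟩ := (hs' i).1 hik
          rw [gl_mul_mulVec, gl_mul_mulVec, h1, h2]
          rw [hfixE kk _ (by rw [hf.smul_left, hQP, if_neg hne]; simp)
            (by rw [hf.smul_left, hQQ]; simp),
            hfixE kk _ (by rw [hf.smul_left, hPP]; simp)
            (by rw [hf.smul_left, hPQ, if_neg hne]; simp)]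
          exact ⟨rfl, rfl⟩
        · have hie : i = kk := Fin.ext (by simp [kk]; omega)
          subst hie
          obtain ⟨h1, h2⟩ := (hs' kk).2 (by simp [kk])
          rw [gl_mul_mulVec, gl_mul_mulVec, h1, h2]
          have h3 : f (q kk) (p kk) = 1 := by rw [hQP]; simp
          exact ⟨wE_p hf hδ0 (hPP _ _) (hQQ _ _) h3, wE_q hf hδ0 (hPP _ _) (hQQ _ _) h3⟩
      · have hne : i ≠ kk := fun h => by
          rw [h] at hi
          simp [kk] at hi
        obtain ⟨h1, h2⟩ := (hs' i).2 (by omega)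
        rw [gl_mul_mulVec, gl_mul_mulVec, h1, h2]
        exact ⟨hfixE kk _ (hPP _ _) (by rw [hPQ, if_neg hne]),
          hfixE kk _ (by rw [hQP, if_neg hne]) (hQQ _ _)⟩
  obtain ⟨s, hs, hs'⟩ := key m le_rfl
  refine ⟨s, hs, ?_, ?_⟩
  · intro x hx
    rw [hexpW x hx, Matrix.mulVec_sum]
    refine Submodule.sum_mem _ fun i _ => ?_
    rw [Matrix.mulVec_smul, ((hs' i).1 i.2).1]
    exact W'.smul_mem _ (W'.smul_mem _ (hq i))
  · intro x hx
    rw [hexpW' x hx, Matrix.mulVec_sum]
    refine Submodule.sum_mem _ fun i _ => ?_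
    rw [Matrix.mulVec_smul, ((hs' i).1 i.2).2]
    exact W.smul_mem _ (W.smul_mem _ (hp i))

end ULag

open Cfsg.Agent.Lib.SymplecticDecomp (mem_decomp_of_map)
open Cfsg.Agent.Lib.SymplecticMax (map_union_aux)

/-- The stabiliser of a pair of complementary totally singular subspaces is maximal. -/
theorem ulag_isMaximalIn [Finite F] (hf : IsUnitaryForm σ f) (hN : ∀ c, σ c = c → ∃ l, l * σ l = c)
    {G : Subgroup (GL ι F)} (hG : ∀ g, g ∈ G ↔ IsIsom f g ∧ g ∈ specialLinear ι F) {m : ℕ}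
    {D : Fin 2 → Submodule F (ι → F)} (hD : IsMDecomposition m D)
    (hts : ∀ i, IsTotallySingularFor f (D i)) (hm : 5 ≤ m) (hcard : 4 ≤ Fintype.card ι) :
    IsMaximalIn G (decompositionStabilizer D ⊓ G) := by
  classical
  set W := D 0 with hW
  set W' := D 1 with hW'
  have hL : ULag W W' f := by
    refine ⟨hts 0, hts 1, ?_⟩
    rw [eq_top_iff, ← hD.iSup_eq_top]
    refine iSup_le fun i => ?_
    fin_cases i
    · exact le_sup_left
    · exact le_sup_right
  have hfinW : Module.finrank F W = m := hD.finrank_eq 0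
  have hfinW' : Module.finrank F W' = m := hD.finrank_eq 1
  obtain ⟨δ, hδ0, hδ⟩ := exists_tr0 hf
  -- membership in `H`
  have hmemE : ∀ a ∈ W, ∀ b ∈ W', f a b = 0 → rr hf a b ∈ decompositionStabilizer D ⊓ G := by
    intro a ha b hb hab
    have haa := hL.isoL a ha a ha
    have hbb := hL.isoR b hb b hb
    refine ⟨mem_decomp_of_map hD 1 (fun i y hy => ?_),
      (hG _).2 ⟨rr_isIsom hf haa hab hbb, eich_mem_specialLinear hf _ _ _⟩⟩
    rw [rr_mulVec hf haa hab]
    fin_cases i
    · have hy' : y ∈ W := hy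
      change y + f y a • b - f y b • a ∈ W
      rw [hL.isoL y hy' a ha, zero_smul, add_zero]
      exact W.sub_mem hy' (W.smul_mem _ ha)
    · have hy' : y ∈ W' := hy
      change y + f y a • b - f y b • a ∈ W'
      rw [hL.isoR y hy' b hb, zero_smul, sub_zero]
      exact W'.add_mem hy' (W'.smul_mem _ hb)
  obtain ⟨s, hs, hs1, hs2⟩ := hL.exists_swap hf
  have hsi : IsIsom f s := uG_isIsom hs
  have hsdet : s ∈ specialLinear ι F := uG_det hs
  have hsmem : s ∈ decompositionStabilizer D := by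
    refine mem_decomp_of_map hD (Equiv.swap 0 1) (fun i y hy => ?_)
    fin_cases i
    · simpa using hs1 y hy
    · simpa using hs2 y hy
  constructor
  · refine lt_of_le_of_ne inf_le_right ?_
    intro heq
    have hW0 : W ≠ ⊥ := by
      intro h
      rw [h] at hfinW
      simp at hfinW
      omega
    obtain ⟨a, ha, ha0⟩ := Submodule.exists_mem_ne_zero_of_ne_bot hW0
    obtain ⟨y, hy, hay⟩ := hL.exists_ne hf ha ha0
    have hya : f y a ≠ 0 := f_comm_ne hf hay
    have haa := hL.isoL a ha a ha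
    have h1 : tt hf a δ ∈ G := tt_mem_G hf hG haa hδ
    rw [← heq] at h1
    obtain ⟨⟨τ, hτ⟩, -⟩ := h1
    have hfix : ((tt hf a δ : GL ι F) : Matrix ι ι F) *ᵥ a = a := by
      rw [tt_mulVec hf _ haa, haa]
      simp
    have hmem : a ∈ D (τ 0) := by
      rw [← hτ]
      exact ⟨a, ha, by rw [Matrix.toLin'_apply]; exact hfix⟩
    have hτ0 : τ 0 = 0 := by
      by_contra hne
      have h3 : τ 0 = 1 := by omega
      rw [h3] at hmem
      exact ha0 (hL.inf_eq_zero hf ha hmem)
    have hτ1 : τ 1 = 1 := by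
      have h3 : τ 1 ≠ τ 0 := fun h => by
        have := τ.injective h
        simp at this
      rw [hτ0] at h3
      omega
    have hmem2 : ((tt hf a δ : GL ι F) : Matrix ι ι F) *ᵥ y ∈ W' := by
      have : ((tt hf a δ : GL ι F) : Matrix ι ι F) *ᵥ y ∈ D (τ 1) := by
        rw [← hτ]
        exact ⟨y, hy, by rw [Matrix.toLin'_apply]⟩
      rwa [hτ1] at this
    rw [tt_mulVec hf _ haa] at hmem2
    have h3 := W'.sub_mem hmem2 hy
    simp only [add_sub_cancel_left] at h3
    have h4 := W'.smul_mem (δ * f y a)⁻¹ h3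
    rw [smul_smul, inv_mul_cancel₀ (mul_ne_zero hδ0 hya), one_smul] at h4
    exact ha0 (hL.inf_eq_zero hf ha h4)
  · intro M hHM hMG
    by_cases hEq : M = decompositionStabilizer D ⊓ G
    · exact Or.inl hEq
    right
    have hex2 : ∃ g ∈ M, g ∉ decompositionStabilizer D := by
      by_contra hcon
      push Not at hcon
      exact hEq (le_antisymm (fun g hg => ⟨hcon g hg, hMG hg⟩) hHM)
    obtain ⟨g, hgM, hg⟩ := hex2
    have hgi : IsIsom f g := ((hG g).1 (hMG hgM)).1
    have hHE : ∀ a ∈ W, ∀ b ∈ W', f a b = 0 → rr hf a b ∈ M := fun a ha b hb hab =>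
      hHM (hmemE a ha b hb hab)
    have hHE' : ∀ a ∈ W', ∀ b ∈ W, f a b = 0 → rr hf a b ∈ M := fun a ha b hb hab => by
      rw [rr_swap hf (hL.isoL b hb b hb) (f_comm_zero hf hab) (hL.isoR a ha a ha)]
      exact M.inv_mem (hHE b hb a ha (f_comm_zero hf hab))
    have hsM : s ∈ M := hHM ⟨hsmem, (hG s).2 ⟨hsi, hsdet⟩⟩
    -- a mixed vector
    have hmix : ∃ a, (a ∈ W ∨ a ∈ W') ∧ (g : Matrix ι ι F) *ᵥ a ∉ W ∧
        (g : Matrix ι ι F) *ᵥ a ∉ W' := by
      by_contra hcon
      push Not at hcon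
      have h1 : ∀ a ∈ W, glLin g a ∈ W ∨ glLin g a ∈ W' := fun a ha => by
        by_cases h : glLin g a ∈ W
        · exact Or.inl h
        · exact Or.inr (hcon a (Or.inl ha) (by simpa using h))
      have h2' : ∀ a ∈ W', glLin g a ∈ W ∨ glLin g a ∈ W' := fun a ha => by
        by_cases h : glLin g a ∈ W
        · exact Or.inl h
        · exact Or.inr (hcon a (Or.inr ha) (by simpa using h))
      have hW'0 : W' ≠ ⊥ := by
        intro h
        rw [h] at hfinW'
        simp at hfinW'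
        omega
      have hW0 : W ≠ ⊥ := by
        intro h
        rw [h] at hfinW
        simp at hfinW
        omega
      rcases map_union_aux _ h1 with h3 | h3 <;> rcases map_union_aux _ h2' with h4 | h4
      · -- everything in `W`
        exfalso
        obtain ⟨z, hz, hz0⟩ := Submodule.exists_mem_ne_zero_of_ne_bot hW'0
        obtain ⟨y₁, hy₁, y₂, hy₂, hy⟩ := hL.decomp (((g⁻¹ : GL ι F) : Matrix ι ι F) *ᵥ z)
        have e := congrArg (fun u => (g : Matrix ι ι F) *ᵥ u) hy
        simp only [gl_mulVec_inv_mulVec, Matrix.mulVec_add] at e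
        have h5 := W.add_mem (by simpa using h3 y₁ hy₁) (by simpa using h4 y₂ hy₂)
        rw [e] at h5
        exact hz0 (hL.inf_eq_zero hf h5 hz)
      · apply hg
        refine mem_decomp_of_map hD 1 (fun i y hy => ?_)
        fin_cases i
        · simpa using h3 y hy
        · simpa using h4 y hy
      · apply hg
        refine mem_decomp_of_map hD (Equiv.swap 0 1) (fun i y hy => ?_)
        fin_cases i
        · simpa using h3 y hy
        · simpa using h4 y hy
      · -- everything in `W'`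
        exfalso
        obtain ⟨z, hz, hz0⟩ := Submodule.exists_mem_ne_zero_of_ne_bot hW0
        obtain ⟨y₁, hy₁, y₂, hy₂, hy⟩ := hL.decomp (((g⁻¹ : GL ι F) : Matrix ι ι F) *ᵥ z)
        have e := congrArg (fun u => (g : Matrix ι ι F) *ᵥ u) hy
        simp only [gl_mulVec_inv_mulVec, Matrix.mulVec_add] at e
        have h5 := W'.add_mem (by simpa using h3 y₁ hy₁) (by simpa using h4 y₂ hy₂)
        rw [e] at h5
        exact hz0 (hL.inf_eq_zero hf hz h5)
    obtain ⟨a, ha, hga1, hga2⟩ := hmix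
    have hdim1 : 5 ≤ Module.finrank F W := by omega
    have hdim2 : 5 ≤ Module.finrank F W' := by omega
    have hor : (∃ z ∈ W, z ≠ 0 ∧ Full hf M z) ∨ (∃ z ∈ W', z ≠ 0 ∧ Full hf M z) := by
      rcases ha with ha | ha
      · exact hL.exists_full hf hHE hgM hgi ha hga1 hga2 hdim1 hdim2
      · exact (hL.symm.exists_full hf hHE' hgM hgi ha hga2 hga1 hdim2 hdim1).symm
    have hfull : (∀ z ∈ W, Full hf M z) ∧ (∀ z ∈ W', Full hf M z) := by
      rcases hor with ⟨z, hz, hz0, hzf⟩ | ⟨z, hz, hz0, hzf⟩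
      · have h1 : ∀ u ∈ W, Full hf M u := fun u hu => hL.full_of_one hf hHE hz hz0 hzf hu
        refine ⟨h1, fun u hu => ?_⟩
        have h5 := hL.isoR u hu u hu
        have h6 : f ((s : Matrix ι ι F) *ᵥ u) ((s : Matrix ι ι F) *ᵥ u) = 0 := by rw [hsi, h5]
        have := (h1 _ (hs2 u hu)).image h6 (M.inv_mem hsM) hsi.inv
        simpa [gl_inv_mulVec_mulVec] using this
      · have h1 : ∀ u ∈ W', Full hf M u := fun u hu => hL.symm.full_of_one hf hHE' hz hz0 hzf hu
        refine ⟨fun u hu => ?_, h1⟩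
        have h5 := hL.isoL u hu u hu
        have h6 : f ((s : Matrix ι ι F) *ᵥ u) ((s : Matrix ι ι F) *ᵥ u) = 0 := by rw [hsi, h5]
        have := (h1 _ (hs1 u hu)).image h6 (M.inv_mem hsM) hsi.inv
        simpa [gl_inv_mulVec_mulVec] using this
    -- the radical at vectors of `W`
    have hQ : ∀ d ∈ W, AllQ hf M d := by
      intro d hd z c hz hc
      have hdd := hL.isoL d hd d hd
      obtain ⟨z₁, hz₁, z₂, hz₂, rfl⟩ := hL.decomp z
      have hdz₁ : f d z₁ = 0 := hL.isoL d hd z₁ hz₁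
      have hdz₂ : f d z₂ = 0 := by
        rw [f_add_right hf, hdz₁, zero_add] at hz
        exact hz
      have h1 : QS hf M d z₁ := by
        refine QS.of_iso hdd (hL.isoL _ hz₁ _ hz₁) hdz₁ (hfull.1 d hd) (hfull.1 _ hz₁) ?_
        intro l _
        exact hfull.1 _ (W.add_mem hd (W.smul_mem _ hz₁))
      have h2 : QS hf M d z₂ := ⟨0, by simp [hL.isoR _ hz₂ _ hz₂], hHE d hd z₂ hz₂ hdz₂⟩
      exact (h1.add h2 hdd hdz₁ hdz₂).mem (hfull.1 d hd) hdd hz hc
    -- a full vector outside of `W`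
    obtain ⟨u, hFu, huu, d, hd, hud⟩ : ∃ u, Full hf M u ∧ f u u = 0 ∧ ∃ d ∈ W, f u d ≠ 0 := by
      have haa : f a a = 0 := by
        rcases ha with ha | ha
        · exact hL.isoL a ha a ha
        · exact hL.isoR a ha a ha
      have hFa : Full hf M a := by
        rcases ha with ha | ha
        · exact hfull.1 a ha
        · exact hfull.2 a ha
      refine ⟨_, hFa.image haa hgM hgi, by rw [hgi, haa], ?_⟩
      obtain ⟨u₁, hu₁, u₂, hu₂, hu⟩ := hL.decomp ((g : Matrix ι ι F) *ᵥ a)
      have hu₂0 : u₂ ≠ 0 := by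
        rintro rfl
        apply hga1
        rw [← hu, add_zero]
        exact hu₁
      obtain ⟨d, hd, hd'⟩ := hL.symm.exists_ne hf hu₂ hu₂0
      refine ⟨d, hd, ?_⟩
      rw [← hu, hf.add_left, hL.isoL u₁ hu₁ d hd, zero_add]
      exact hd'
    exact le_antisymm hMG (le_of_full hf hN hcard hG fun b hb =>
      full_all_of_allQ (hL.isoL d hd d hd) (hQ d hd) huu hFu hud hb)

end Cfsg.Agent.Lib.UnitaryLag
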