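import Cfsg.Agent.Lib.UnitaryMax
import Cfsg.Agent.Lib.UnitaryLag
import Cfsg.Agent.Lib.SubfieldGroup
import Cfsg.Agent.Lib.QuadBase

/-! The orthogonal subfield subgroup `SO_n(q)` in `SU_n(q)`, `q` odd. -/

set_option autoImplicit false
set_option linter.unusedSectionVars false
set_option linter.unusedSimpArgs false
set_option linter.unusedVariables false

open scoped MatrixGroups Matrix
open Cfsg Cfsg.Geo
open Cfsg.Agent.Lib.Transvection Cfsg.Agent.Lib.LinAlgAux Cfsg.Agent.Lib.UnitaryBase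
  Cfsg.Agent.Lib.UnitaryGen Cfsg.Agent.Lib.UnitaryMax Cfsg.Agent.Lib.SubfieldGroup
  Cfsg.Agent.Lib.UnitaryLag
open Cfsg.Agent.Lib.SymplecticTv (IsIsom Ind)
open QuadraticMap (polar)

namespace Cfsg.Agent.Lib.UnitaryOrth

variable {ι : Type} [Fintype ι] [DecidableEq ι] {F : Type*} [Field F] {σ : F ≃+* F}
  {f : (ι → F) → (ι → F) → F} {F₀ : Subfield F} {P : GL ι F}

/-- A rational vector. -/
def rv (F₀ : Subfield F) (P : GL ι F) (u : ι → F₀) : ι → F := (P : Matrix ι ι F) *ᵥ emb F₀ u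

@[simp] theorem rv_add (u v : ι → F₀) : rv F₀ P (u + v) = rv F₀ P u + rv F₀ P v := by
  simp [rv, Matrix.mulVec_add]

@[simp] theorem rv_zero : rv F₀ P (0 : ι → F₀) = 0 := by
  simp [rv]

@[simp] theorem rv_smul (c : F₀) (u : ι → F₀) : rv F₀ P (c • u) = (c : F) • rv F₀ P u := by
  simp [rv, Matrix.mulVec_smul]

@[simp] theorem rv_neg (u : ι → F₀) : rv F₀ P (-u) = - rv F₀ P u := by
  simp [rv, Matrix.mulVec_neg]

@[simp] theorem rv_sub (u v : ι → F₀) : rv F₀ P (u - v) = rv F₀ P u - rv F₀ P v := by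
  simp [rv, Matrix.mulVec_sub]

theorem inv_rv (u : ι → F₀) : ((P⁻¹ : GL ι F) : Matrix ι ι F) *ᵥ rv F₀ P u = emb F₀ u :=
  gl_inv_mulVec_mulVec _ _

theorem rv_eq_zero {u : ι → F₀} (h : rv F₀ P u = 0) : u = 0 := by
  apply emb_injective F₀
  rw [← inv_rv (P := P) u, h, Matrix.mulVec_zero, emb_zero]

section Decomp

variable {ξ : F} (hfix : ∀ x, x ∈ F₀ ↔ σ x = x) (hinv : ∀ x, σ (σ x) = x) (hξ : σ ξ ≠ ξ)
include hfix hinv hξ

theorem rv_decomp (w : ι → F) : ∃ x y : ι → F₀, w = rv F₀ P x + ξ • rv F₀ P y := by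
  obtain ⟨x, y, h⟩ := exists_decomp_vec F₀ hfix hinv hξ (((P⁻¹ : GL ι F) : Matrix ι ι F) *ᵥ w)
  refine ⟨x, y, ?_⟩
  rw [rv, rv, ← Matrix.mulVec_smul, ← Matrix.mulVec_add, ← h, gl_mulVec_inv_mulVec]

theorem rv_unique {x y : ι → F₀} (h : rv F₀ P x + ξ • rv F₀ P y = 0) : x = 0 ∧ y = 0 := by
  apply decomp_unique_vec F₀ hfix hinv hξ
  have h1 := congrArg (fun z => ((P⁻¹ : GL ι F) : Matrix ι ι F) *ᵥ z) h
  simpa [rv, Matrix.mulVec_add, Matrix.mulVec_smul] using h1

/-- Independent rational vectors stay independent over the big field. -/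
theorem rv_ind {x y : ι → F₀} (h : Ind x y) (s t : F)
    (hst : s • rv F₀ P x + t • rv F₀ P y = 0) : s = 0 ∧ t = 0 := by
  apply ind_emb F₀ hfix hinv hξ h
  have h1 := congrArg (fun z => ((P⁻¹ : GL ι F) : Matrix ι ι F) *ᵥ z) hst
  simpa [rv, Matrix.mulVec_add, Matrix.mulVec_smul] using h1

/-- A dependent pair yields a projectively rational vector. -/
theorem exists_of_not_ind {x y : ι → F₀} (h : ¬ Ind x y) :
    ∃ (l : F) (a : ι → F₀), rv F₀ P x + ξ • rv F₀ P y = l • rv F₀ P a := by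
  unfold Ind at h
  push Not at h
  obtain ⟨s, t, hst, hne⟩ := h
  by_cases ht : t = 0
  · subst ht
    rw [zero_smul, add_zero] at hst
    have hs : s ≠ 0 := fun h0 => hne h0 rfl
    have hx0 : x = 0 := (smul_eq_zero.1 hst).resolve_left hs
    exact ⟨ξ, y, by rw [hx0, rv_zero, zero_add]⟩
  · have hy : y = (-(s / t)) • x := by
      have h1 : t • y = (-s) • x := by
        rw [neg_smul]
        exact eq_neg_of_add_eq_zero_right hst
      have h2 := congrArg (fun z => t⁻¹ • z) h1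
      simp only [smul_smul, inv_mul_cancel₀ ht, one_smul] at h2
      rw [h2]
      congr 1
      field_simp
    refine ⟨1 + ξ * ((-(s / t) : F₀) : F), x, ?_⟩
    rw [hy, rv_smul, smul_smul, add_smul, one_smul]

end Decomp

/-- The rational form. -/
theorem exists_rational_form (hf : IsUnitaryForm σ f) (hfix : ∀ x, x ∈ F₀ ↔ σ x = x)
    (h2 : (2 : F) ≠ 0) {P : GL ι F} (hP : IsFormRationalStructure f F₀ 1 P) :
    ∃ Q₀ : (ι → F₀) → F₀, IsNondegenerateQuadraticForm Q₀ ∧
      ∀ u v, f (rv F₀ P u) (rv F₀ P v) = ((polar Q₀ u v : F₀) : F) := by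
  classical
  obtain ⟨ξ, hξ⟩ : ∃ ξ, σ ξ ≠ ξ := by
    by_contra hcon
    push Not at hcon
    exact hf.ne_refl (RingEquiv.ext fun x => hcon x)
  have hmem : ∀ u v : ι → F₀, f (rv F₀ P u) (rv F₀ P v) ∈ F₀ := by
    intro u v
    have := hP _ _ (isRat_emb F₀ u) (isRat_emb F₀ v)
    rwa [one_mul] at this
  let B : (ι → F₀) → (ι → F₀) → F₀ := fun u v => ⟨f (rv F₀ P u) (rv F₀ P v), hmem u v⟩
  have hB : ∀ u v, ((B u v : F₀) : F) = f (rv F₀ P u) (rv F₀ P v) := fun u v => rfl
  have hsig : ∀ c : F₀, σ (c : F) = c := fun c => (hfix _).1 c.2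
  have hsymm : ∀ u v, B u v = B v u := by
    intro u v
    apply Subtype.ext
    rw [hB, hB, hf.herm, hsig ⟨_, hmem v u⟩]
  have h20 : (2 : F₀) ≠ 0 := by
    intro h
    apply h2
    have h3 : F₀.subtype (2 : F₀) = 0 := by rw [h, map_zero]
    rwa [map_ofNat] at h3
  have hBadd : ∀ x y v, B (x + y) v = B x v + B y v := by
    intro x y v
    apply Subtype.ext
    simp only [hB, rv_add, hf.add_left, Subfield.coe_add]
  have hBsmul : ∀ (c : F₀) x v, B (c • x) v = c * B x v := by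
    intro c x v
    apply Subtype.ext
    simp only [hB, rv_smul, hf.smul_left, Subfield.coe_mul]
  have hpolar : ∀ u v, polar (fun u => B u u / 2) u v = B u v := by
    intro u v
    simp only [polar]
    rw [hBadd, hsymm u (u + v), hsymm v (u + v), hBadd, hBadd, hsymm v u]
    field_simp
    ring
  refine ⟨fun u => B u u / 2, ⟨?_, ?_, ?_⟩, ?_⟩
  · intro c v
    rw [hBsmul, hsymm v (c • v), hBsmul]
    ring
  · refine ⟨?_, ?_, ?_, ?_⟩
    · intro x y v
      rw [hpolar, hpolar, hpolar, hBadd]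
    · intro c x v
      rw [hpolar, hpolar, hBsmul]
    · intro v x y
      rw [hpolar, hpolar, hpolar, hsymm, hBadd, hsymm x v, hsymm y v]
    · intro c v x
      rw [hpolar, hpolar, hsymm, hBsmul, hsymm x v]
  · intro v hv
    have hPv : rv F₀ P v ≠ 0 := fun h0 => hv (rv_eq_zero h0)
    obtain ⟨z, hz⟩ := exists_left_ne hf hPv
    obtain ⟨x, y, hxy⟩ := rv_decomp (P := P) hfix hf.involutive hξ z
    have hex : ∃ x', B x' v ≠ 0 := by
      by_contra hcon
      push Not at hcon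
      apply hz
      have h1 : ∀ x', f (rv F₀ P x') (rv F₀ P v) = 0 := by
        intro x'
        rw [← hB, hcon x']
        rfl
      rw [hxy, hf.add_left, hf.smul_left, h1, h1]
      simp
    obtain ⟨x', hx'⟩ := hex
    refine ⟨⟨x', ?_⟩, ⟨x', ?_⟩⟩
    · rwa [hpolar]
    · rw [hpolar, hsymm]
      exact hx'
  · intro u v
    rw [hpolar, hB]

section Main

variable [Finite F] (hf : IsUnitaryForm σ f) (hfix : ∀ x, x ∈ F₀ ↔ σ x = x) {Q₀ : (ι → F₀) → F₀}
  (hQ₀ : IsNondegenerateQuadraticForm Q₀)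
  (hpol : ∀ u v, f (rv F₀ P u) (rv F₀ P v) = ((polar Q₀ u v : F₀) : F))

include hf hfix hQ₀ hpol

/-- If every singular rational vector is mapped to a rational point then `g` is in the subfield
group. -/
theorem exists_nonrat (hcard : 7 ≤ Fintype.card ι) {g : GL ι F} (hg : g ∉ subfieldSubgroup F₀ P) :
    ∃ a : ι → F₀, Q₀ a = 0 ∧ ¬ ∃ (l : F) (a' : ι → F₀),
      (g : Matrix ι ι F) *ᵥ rv F₀ P a = l • rv F₀ P a' := by
  classical
  letI : Fintype F := Fintype.ofFinite F
  letI : Fintype F₀ := Fintype.ofFinite F₀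
  obtain ⟨ξ, hξ⟩ : ∃ ξ, σ ξ ≠ ξ := by
    by_contra hcon
    push Not at hcon
    exact hf.ne_refl (RingEquiv.ext fun x => hcon x)
  have hinv := hf.involutive
  by_contra hcon
  push Not at hcon
  apply hg
  choose! L A hLA using hcon
  have hgne : ∀ a : ι → F₀, a ≠ 0 → (g : Matrix ι ι F) *ᵥ rv F₀ P a ≠ 0 := by
    intro a ha h0
    have h1 := congrArg (fun z => ((g⁻¹ : GL ι F) : Matrix ι ι F) *ᵥ z) h0
    simp only [gl_inv_mulVec_mulVec, Matrix.mulVec_zero] at h1
    exact ha (rv_eq_zero h1)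
  have hL0 : ∀ a : ι → F₀, Q₀ a = 0 → a ≠ 0 → L a ≠ 0 := by
    intro a ha ha0 h0
    apply hgne a ha0
    rw [hLA a ha, h0, zero_smul]
  -- orthogonal independent singular vectors have proportional scales
  have hprop : ∀ a b : ι → F₀, Q₀ a = 0 → Q₀ b = 0 → polar Q₀ a b = 0 → Ind a b →
      L a / L b ∈ F₀ := by
    intro a b ha hb hab hi
    have ha0 : a ≠ 0 := hi.ne_zero_left
    have hb0 : b ≠ 0 := hi.ne_zero_right
    have hab0 : a + b ≠ 0 := by
      intro h
      have := hi 1 1 (by rw [one_smul, one_smul, h])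
      exact one_ne_zero this.1
    have hQab : Q₀ (a + b) = 0 := by rw [QuadBase.Q_add (Q := Q₀), ha, hb, hab]; simp
    have e := hLA (a + b) hQab
    rw [rv_add, Matrix.mulVec_add, hLA a ha, hLA b hb] at e
    set n := L (a + b) with hn
    have hn0 : n ≠ 0 := hL0 _ hQab hab0
    set r := L a / n with hr
    set t := L b / n with ht
    have ht0 : t ≠ 0 := div_ne_zero (hL0 b hb hb0) hn0
    have e2 : r • rv F₀ P (A a) + t • rv F₀ P (A b) = rv F₀ P (A (a + b)) := by
      have h3 := congrArg (fun z => n⁻¹ • z) e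
      simp only [smul_add, smul_smul, inv_mul_cancel₀ hn0, one_smul] at h3
      rw [← h3, hr, ht, div_eq_inv_mul, div_eq_inv_mul]
    have hiA : Ind (A a) (A b) := by
      intro s u hsu
      have h4 : (s / L a : F) • ((g : Matrix ι ι F) *ᵥ rv F₀ P a) +
          (u / L b : F) • ((g : Matrix ι ι F) *ᵥ rv F₀ P b) = 0 := by
        rw [hLA a ha, hLA b hb, smul_smul, smul_smul, div_mul_cancel₀ _ (hL0 a ha ha0),
          div_mul_cancel₀ _ (hL0 b hb hb0), ← rv_smul, ← rv_smul, ← rv_add, hsu, rv_zero]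
      rw [← Matrix.mulVec_smul, ← Matrix.mulVec_smul, ← Matrix.mulVec_add] at h4
      have h5 := congrArg (fun z => ((g⁻¹ : GL ι F) : Matrix ι ι F) *ᵥ z) h4
      simp only [gl_inv_mulVec_mulVec, Matrix.mulVec_zero] at h5
      obtain ⟨h6, h7⟩ := rv_ind (P := P) hfix hinv hξ hi _ _ h5
      constructor
      · have := (div_eq_zero_iff.1 h6).resolve_right (hL0 a ha ha0)
        simpa using this
      · have := (div_eq_zero_iff.1 h7).resolve_right (hL0 b hb hb0)
        simpa using this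
    obtain ⟨r₁, r₂, hrd⟩ := exists_decomp_scalar F₀ hfix hinv hξ r
    obtain ⟨t₁, t₂, htd⟩ := exists_decomp_scalar F₀ hfix hinv hξ t
    have e3 : rv F₀ P (r₁ • A a + t₁ • A b - A (a + b)) + ξ • rv F₀ P (r₂ • A a + t₂ • A b) = 0 := by
      simp only [rv_sub, rv_add, rv_smul]
      rw [← e2, hrd, htd]
      module
    obtain ⟨-, h8⟩ := rv_unique (P := P) hfix hinv hξ e3
    obtain ⟨h9, h10⟩ := hiA _ _ h8
    have hr' : r = r₁ := by rw [hrd, h9]; simp
    have ht' : t = t₁ := by rw [htd, h10]; simp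
    have e4 : L a / L b = r / t := by
      rw [hr, ht]
      field_simp
    rw [e4, hr', ht']
    have ht₁ : (t₁ : F) ≠ 0 := by rwa [← ht']
    exact F₀.div_mem r₁.2 t₁.2
  -- general singular vectors
  have hprop2 : ∀ a b : ι → F₀, Q₀ a = 0 → Q₀ b = 0 → a ≠ 0 → b ≠ 0 → L a / L b ∈ F₀ := by
    intro a b ha hb ha0 hb0
    obtain ⟨h, h', hh, hh', hh'h, hl⟩ := QuadBase.exists_hyp hQ₀ [a, b] (by simp; omega)
    have hh0 : h ≠ 0 := by
      rintro rfl
      rw [QuadBase.pol_zero_right hQ₀] at hh'h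
      exact zero_ne_one hh'h
    have hia : ∀ a : ι → F₀, a ≠ 0 → polar Q₀ h' a = 0 → Ind a h := by
      intro a ha0 hh'a s t hst
      have h5 : polar Q₀ h' (s • a + t • h) = 0 := by
        rw [hst, QuadBase.pol_zero_right hQ₀]
      simp only [QuadBase.pol_add_right hQ₀, QuadBase.pol_smul_right hQ₀, hh'a, hh'h, mul_zero,
        zero_add, mul_one] at h5
      refine ⟨?_, h5⟩
      rw [h5, zero_smul, add_zero] at hst
      exact (smul_eq_zero.1 hst).resolve_right ha0
    have h1 := hprop a h ha hh (by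
      rw [QuadraticMap.polar_comm]; exact (hl a (by simp)).1) (hia a ha0 (hl a (by simp)).2)
    have h2 := hprop b h hb hh (by
      rw [QuadraticMap.polar_comm]; exact (hl b (by simp)).1) (hia b hb0 (hl b (by simp)).2)
    have e : L a / L b = (L a / L h) / (L b / L h) := by
      have := hL0 h hh hh0
      have := hL0 b hb hb0
      field_simp
    rw [e]
    exact F₀.div_mem h1 h2
  -- base vector
  obtain ⟨a₀, a₀', ha₀, ha₀', ha₀'a₀, -⟩ := QuadBase.exists_hyp hQ₀ [] (by simp; omega)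
  have ha₀0 : a₀ ≠ 0 := by
    rintro rfl
    rw [QuadBase.pol_zero_right hQ₀] at ha₀'a₀
    exact zero_ne_one ha₀'a₀
  have hl₀ := hL0 a₀ ha₀ ha₀0
  have hsing : ∀ a : ι → F₀, Q₀ a = 0 → ∃ a' : ι → F₀,
      (g : Matrix ι ι F) *ᵥ rv F₀ P a = L a₀ • rv F₀ P a' := by
    intro a ha
    by_cases ha0 : a = 0
    · subst ha0
      exact ⟨0, by simp⟩
    refine ⟨(⟨_, hprop2 a a₀ ha ha₀ ha0 ha₀0⟩ : F₀) • A a, ?_⟩
    rw [hLA a ha, rv_smul, smul_smul]
    congr 1
    simp only
    field_simp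
  have hall : ∀ u : ι → F₀, ∃ a' : ι → F₀,
      (g : Matrix ι ι F) *ᵥ rv F₀ P u = L a₀ • rv F₀ P a' := by
    intro u
    refine QuadBase.sing_induction hQ₀ (Y := ⊤) (h := a₀) (h' := a₀') Submodule.mem_top
      Submodule.mem_top ha₀ ha₀' ha₀'a₀ (fun u => ∃ a' : ι → F₀,
        (g : Matrix ι ι F) *ᵥ rv F₀ P u = L a₀ • rv F₀ P a') ?_ ?_ Submodule.mem_top
    · intro a _ ha
      exact hsing a ha
    · rintro a _ b _ ⟨a', ha'⟩ ⟨b', hb'⟩
      exact ⟨a' + b', by rw [rv_add, Matrix.mulVec_add, ha', hb', rv_add, smul_add]⟩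
  rw [mem_subfield_iff F₀]
  refine ⟨(L a₀)⁻¹, inv_ne_zero hl₀, fun u => ?_⟩
  obtain ⟨a', ha'⟩ := hall u
  have e : ((P⁻¹ * g * P : GL ι F) : Matrix ι ι F) *ᵥ emb F₀ u = L a₀ • emb F₀ a' := by
    rw [gl_mul_mulVec, gl_mul_mulVec]
    change ((P⁻¹ : GL ι F) : Matrix ι ι F) *ᵥ ((g : Matrix ι ι F) *ᵥ rv F₀ P u) = _
    rw [ha', Matrix.mulVec_smul, inv_rv]
  rw [e, smul_smul, inv_mul_cancel₀ hl₀, one_smul]
  exact isRat_emb F₀ a'

end Main

theorem rr_smul_left (hf : IsUnitaryForm σ f) {a b : ι → F} (l : F) (h1 : f a a = 0)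
    (h2 : f a b = 0) : rr hf (l • a) b = rr hf a (σ l • b) := by
  apply gl_ext_mulVec
  intro x
  have h3 : f (l • a) (l • a) = 0 := by
    simp only [hf.smul_left, f_smul_right hf, h1, mul_zero]
  have h4 : f (l • a) b = 0 := by rw [hf.smul_left, h2, mul_zero]
  have h5 : f a (σ l • b) = 0 := by rw [f_smul_right hf, h2, mul_zero]
  rw [rr_mulVec hf h3 h4, rr_mulVec hf h1 h5, f_smul_right hf, f_smul_right hf, hf.involutive]
  module

theorem QS_neg (hf : IsUnitaryForm σ f) {M : Subgroup (GL ι F)} {d z : ι → F} (h : QS hf M d z)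
    (hd : f d d = 0) (hz : f d z = 0) : QS hf M d (-z) := by
  obtain ⟨c, hc, hE⟩ := h
  have hz' : f d (-z) = 0 := by rw [f_neg_right hf, hz, neg_zero]
  have hzz : f (-z) (-z) = f z z := by rw [f_neg_left hf, f_neg_right hf, neg_neg]
  refine ⟨σ c, ?_, ?_⟩
  · rw [hzz, hf.involutive]
    linear_combination hc
  · have e : eich hf d z c * eich hf d (-z) (σ c) = 1 := by
      rw [eich_mul hf _ _ hd hz hz', add_neg_cancel]
      apply gl_ext_mulVec
      intro x
      rw [eich_mulVec hf _ hd (f_zero_right hf d)]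
      simp only [f_zero_right hf, f_neg_left hf]
      have : c + σ c - - f z z = 0 := by linear_combination hc
      rw [this]
      simp
    have e2 : eich hf d (-z) (σ c) = (eich hf d z c)⁻¹ := eq_inv_of_mul_eq_one_right e
    rw [e2]
    exact M.inv_mem hE

/-- The subfield subgroup of an orthogonal rational structure is maximal. -/
theorem subfieldO_isMaximalIn [Finite F] (hf : IsUnitaryForm σ f)
    (hN : ∀ c, σ c = c → ∃ l, l * σ l = c) (hcard : 13 ≤ Fintype.card ι) {G : Subgroup (GL ι F)}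
    (hG : ∀ g, g ∈ G ↔ IsIsom f g ∧ g ∈ specialLinear ι F) (hfix : ∀ x, x ∈ F₀ ↔ σ x = x)
    (h2 : (2 : F) ≠ 0) {P : GL ι F} (hP : IsFormRationalStructure f F₀ 1 P) :
    IsMaximalIn G (subfieldSubgroup F₀ P ⊓ G) := by
  classical
  obtain ⟨Q₀, hQ₀, hpol⟩ := exists_rational_form hf hfix h2 hP
  letI : Fintype F := Fintype.ofFinite F
  letI : Fintype F₀ := Fintype.ofFinite F₀
  obtain ⟨ξ, hξ⟩ : ∃ ξ, σ ξ ≠ ξ := by
    by_contra hcon
    push Not at hcon
    exact hf.ne_refl (RingEquiv.ext fun x => hcon x)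
  have hinv := hf.involutive
  have hsig : ∀ c : F₀, σ (c : F) = c := fun c => (hfix _).1 c.2
  have hself : ∀ u, f (rv F₀ P u) (rv F₀ P u) = 2 * ((Q₀ u : F₀) : F) := by
    intro u
    rw [hpol, QuadBase.pol_self hQ₀, Subfield.coe_mul]
    congr 1
  have hiso : ∀ u, Q₀ u = 0 → f (rv F₀ P u) (rv F₀ P u) = 0 := by
    intro u hu
    rw [hself, hu]
    simp
  have horth : ∀ u v, polar Q₀ u v = 0 → f (rv F₀ P u) (rv F₀ P v) = 0 := by
    intro u v h
    rw [hpol, h]
    rfl
  have hpairL : ∀ x y u, f (rv F₀ P x + ξ • rv F₀ P y) (rv F₀ P u) =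
      ((polar Q₀ x u : F₀) : F) + ξ * ((polar Q₀ y u : F₀) : F) := by
    intro x y u
    rw [hf.add_left, hf.smul_left, hpol, hpol]
  have hpairR : ∀ u x y, f (rv F₀ P u) (rv F₀ P x + ξ • rv F₀ P y) =
      ((polar Q₀ u x : F₀) : F) + σ ξ * ((polar Q₀ u y : F₀) : F) := by
    intro u x y
    rw [f_add_right hf, f_smul_right hf, hpol, hpol]
  have hsq : ∀ x y : F₀, (x : F) + ξ * (y : F) = 0 → x = 0 ∧ y = 0 := by
    intro x y h
    obtain ⟨h1, h2⟩ := decomp_unique_scalar F₀ hfix hinv hξ x.2 y.2 h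
    exact ⟨Subtype.ext h1, Subtype.ext h2⟩
  -- rational elements are in the subfield group
  have hrat : ∀ E : GL ι F, (∀ u, ∃ u', (E : Matrix ι ι F) *ᵥ rv F₀ P u = rv F₀ P u') →
      IsIsom f E → E ∈ specialLinear ι F → E ∈ subfieldSubgroup F₀ P ⊓ G := by
    intro E hE hi hd
    refine Subgroup.mem_inf.2 ⟨?_, (hG E).2 ⟨hi, hd⟩⟩
    rw [mem_subfield_iff F₀]
    refine ⟨1, one_ne_zero, fun u => ?_⟩
    obtain ⟨u', hu'⟩ := hE u
    have e : ((P⁻¹ * E * P : GL ι F) : Matrix ι ι F) *ᵥ emb F₀ u = emb F₀ u' := by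
      rw [gl_mul_mulVec, gl_mul_mulVec]
      change ((P⁻¹ : GL ι F) : Matrix ι ι F) *ᵥ ((E : Matrix ι ι F) *ᵥ rv F₀ P u) = _
      rw [hu', inv_rv]
    rw [e, one_smul]
    exact isRat_emb F₀ u'
  have hsum : ∀ z, (-((Q₀ z : F₀) : F)) + σ (-((Q₀ z : F₀) : F)) + f (rv F₀ P z) (rv F₀ P z) = 0 := by
    intro z
    rw [hself, map_neg, hsig]
    ring
  have hE : ∀ a z, Q₀ a = 0 → polar Q₀ a z = 0 →
      eich hf (rv F₀ P a) (rv F₀ P z) (-((Q₀ z : F₀) : F)) ∈ subfieldSubgroup F₀ P ⊓ G := by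
    intro a z ha haz
    have h1 := hiso a ha
    have h3 := horth a z haz
    refine hrat _ (fun u => ⟨u + polar Q₀ u a • z - polar Q₀ u z • a -
      (Q₀ z * polar Q₀ u a) • a, ?_⟩) (eich_isIsom hf h1 h3 (hsum z))
      (eich_mem_specialLinear hf _ _ _)
    rw [eich_mulVec hf _ h1 h3, hpol, hpol]
    simp only [rv_add, rv_sub, rv_smul, Subfield.coe_mul]
    module
  have hR : ∀ a b, Q₀ a = 0 → Q₀ b = 0 → polar Q₀ a b = 0 →
      rr hf (rv F₀ P a) (rv F₀ P b) ∈ subfieldSubgroup F₀ P ⊓ G := by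
    intro a b ha hb hab
    have := hE a b ha hab
    rw [hb] at this
    simpa [rr] using this
  constructor
  · refine lt_of_le_of_ne inf_le_right ?_
    intro heq
    obtain ⟨a, a', ha, ha', ha'a, -⟩ := QuadBase.exists_hyp hQ₀ [] (by simp; omega)
    obtain ⟨h₁, h₁', hh₁, hh₁', hh₁'h₁, hh₁l⟩ := QuadBase.exists_hyp hQ₀ [a] (by simp; omega)
    have ha0 : a ≠ 0 := by
      rintro rfl
      rw [QuadBase.pol_zero_right hQ₀] at ha'a
      exact zero_ne_one ha'a
    have hh₁0 : h₁ ≠ 0 := by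
      rintro rfl
      rw [QuadBase.pol_zero_right hQ₀] at hh₁'h₁
      exact zero_ne_one hh₁'h₁
    obtain ⟨δ, hδ0, hδ⟩ := exists_tr0 hf
    have hσδ : σ δ ≠ δ := by
      intro h
      have h3 : 2 * δ = 0 := by rw [two_mul]; nth_rewrite 2 [← h]; exact hδ
      exact (mul_ne_zero h2 hδ0) h3
    have haa := hiso a ha
    have hT : tt hf (rv F₀ P a) δ ∈ G := tt_mem_G hf hG haa hδ
    rw [← heq] at hT
    obtain ⟨c, hc0, hc⟩ := (mem_subfield_iff F₀).1 hT.1
    have hB : ∀ u : ι → F₀, ((P⁻¹ * tt hf (rv F₀ P a) δ * P : GL ι F) : Matrix ι ι F) *ᵥ emb F₀ u =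
        emb F₀ u + (δ * ((polar Q₀ u a : F₀) : F)) • emb F₀ a := by
      intro u
      rw [gl_mul_mulVec, gl_mul_mulVec]
      change ((P⁻¹ : GL ι F) : Matrix ι ι F) *ᵥ (((tt hf (rv F₀ P a) δ : GL ι F) : Matrix ι ι F) *ᵥ
        rv F₀ P u) = _
      rw [tt_mulVec hf _ haa, hpol, Matrix.mulVec_add, Matrix.mulVec_smul, inv_rv, inv_rv]
    have hcF : c ∈ F₀ := by
      have h3 := hc h₁
      rw [hB, (hh₁l a (by simp)).1] at h3
      simp only [Subfield.coe_zero, mul_zero, zero_smul, add_zero] at h3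
      obtain ⟨i, hi⟩ := Function.ne_iff.1 hh₁0
      have h4 := h3 i
      simp only [Pi.smul_apply, smul_eq_mul, emb_apply] at h4
      have h5 : ((h₁ i : F₀) : F) ≠ 0 := by simpa using hi
      have h6 := F₀.mul_mem h4 (F₀.inv_mem (h₁ i).2)
      rwa [mul_assoc, mul_inv_cancel₀ h5, mul_one] at h6
    have h3 := hc a'
    rw [hB, ha'a] at h3
    simp only [Subfield.coe_one, mul_one] at h3
    obtain ⟨i, hi⟩ := Function.ne_iff.1 ha0
    have h4 := h3 i
    simp only [Pi.smul_apply, Pi.add_apply, smul_eq_mul, emb_apply] at h4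
    have h5 : ((a i : F₀) : F) ≠ 0 := by simpa using hi
    have h6 : c * (δ * (a i : F)) ∈ F₀ := by
      have h7 := F₀.sub_mem h4 (F₀.mul_mem hcF (a' i).2)
      convert h7 using 1
      ring
    have h7 := F₀.mul_mem (F₀.mul_mem h6 (F₀.inv_mem hcF)) (F₀.inv_mem (a i).2)
    have e : c * (δ * (a i : F)) * c⁻¹ * ((a i : F))⁻¹ = δ := by
      field_simp
    rw [e] at h7
    exact hσδ ((hfix δ).1 h7)
  · intro M hHM hMG
    by_cases hEq : M = subfieldSubgroup F₀ P ⊓ G
    · exact Or.inl hEq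
    right
    obtain ⟨g, hgM, hg⟩ : ∃ g ∈ M, g ∉ subfieldSubgroup F₀ P := by
      by_contra hcon
      push Not at hcon
      exact hEq (le_antisymm (fun g hg => ⟨hcon g hg, hMG hg⟩) hHM)
    have hgi : IsIsom f g := ((hG g).1 (hMG hgM)).1
    have hMi : ∀ s ∈ M, IsIsom f s := fun s hs => ((hG s).1 (hMG hs)).1
    obtain ⟨a, ha, hnr⟩ := exists_nonrat hf hfix hQ₀ hpol (by omega) hg
    obtain ⟨x, y, hxy⟩ := rv_decomp (P := P) hfix hinv hξ ((g : Matrix ι ι F) *ᵥ rv F₀ P a)
    have hind : Ind x y := by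
      by_contra h
      obtain ⟨l, a', hl⟩ := exists_of_not_ind (P := P) hfix hinv hξ h
      exact hnr ⟨l, a', by rw [hxy, hl]⟩
    set at' := (g : Matrix ι ι F) *ᵥ rv F₀ P a with hat'
    clear_value at'
    have hatat : f at' at' = 0 := by rw [hat', hgi, hiso a ha]
    -- the vector `c`
    obtain ⟨c, c', hc, hc', hc'c, hcl⟩ := QuadBase.exists_hyp hQ₀ [x, y] (by simp; omega)
    have hcx : polar Q₀ c x = 0 := (hcl x (by simp)).1
    have hcy : polar Q₀ c y = 0 := (hcl y (by simp)).1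
    have hc0 : c ≠ 0 := by
      rintro rfl
      rw [QuadBase.pol_zero_right hQ₀] at hc'c
      exact zero_ne_one hc'c
    set v := ((g⁻¹ : GL ι F) : Matrix ι ι F) *ᵥ rv F₀ P c with hv
    have hgv : (g : Matrix ι ι F) *ᵥ v = rv F₀ P c := gl_mulVec_inv_mulVec _ _
    clear_value v
    obtain ⟨v₁, v₂, hv₁₂⟩ := rv_decomp (P := P) hfix hinv hξ v
    have hva : f v (rv F₀ P a) = 0 := by
      rw [← hgi v (rv F₀ P a), hgv, ← hat', hxy, hpairR, hcx, hcy]
      simp
    have hv₁a : polar Q₀ v₁ a = 0 ∧ polar Q₀ v₂ a = 0 := by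
      apply hsq
      rw [← hpairL, ← hv₁₂, hva]
    have hspan : v₁ ∉ Submodule.span F₀ {a} ∨ v₂ ∉ Submodule.span F₀ {a} := by
      by_contra h
      push Not at h
      obtain ⟨h3, h4⟩ := h
      obtain ⟨α, hα⟩ := Submodule.mem_span_singleton.1 h3
      obtain ⟨β, hβ⟩ := Submodule.mem_span_singleton.1 h4
      have e : v = ((α : F) + ξ * (β : F)) • rv F₀ P a := by
        rw [hv₁₂, ← hα, ← hβ]
        simp only [rv_smul]
        module
      have e2 : rv F₀ P c = ((α : F) + ξ * (β : F)) • at' := by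
        rw [← hgv, e, Matrix.mulVec_smul, hat']
      set l := (α : F) + ξ * (β : F) with hl
      have hl0 : l ≠ 0 := by
        intro h0
        rw [h0, zero_smul] at e2
        exact hc0 (rv_eq_zero e2)
      exact hnr ⟨l⁻¹, c, by rw [e2, smul_smul, inv_mul_cancel₀ hl0, one_smul, hat']⟩
    obtain ⟨z, hz⟩ : ∃ z, polar Q₀ a z = 0 ∧ (polar Q₀ v₁ z ≠ 0 ∨ polar Q₀ v₂ z ≠ 0) := by
      rcases hspan with h | h
      · obtain ⟨φ, h3, h4⟩ := exists_functional_of_not_mem_span h
        obtain ⟨z, hz⟩ := QuadBase.exists_riesz hQ₀ φ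
        exact ⟨z, by rw [hz, h4], Or.inl (by rw [hz, h3]; exact one_ne_zero)⟩
      · obtain ⟨φ, h3, h4⟩ := exists_functional_of_not_mem_span h
        obtain ⟨z, hz⟩ := QuadBase.exists_riesz hQ₀ φ
        exact ⟨z, by rw [hz, h4], Or.inr (by rw [hz, h3]; exact one_ne_zero)⟩
    obtain ⟨b, hb, hb0, hbl⟩ := QuadBase.exists_singular_adjust hQ₀ [a, v₁, v₂] (by simp; omega) z
    have hab : polar Q₀ a b = 0 := by
      rw [hbl a (by simp)]
      exact hz.1
    have hκ' : f v (rv F₀ P b) ≠ 0 := by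
      rw [hv₁₂, hpairL]
      intro h0
      obtain ⟨h3, h4⟩ := hsq _ _ h0
      rw [hbl v₁ (by simp)] at h3
      rw [hbl v₂ (by simp)] at h4
      rcases hz.2 with h5 | h5
      · exact h5 h3
      · exact h5 h4
    set bt := (g : Matrix ι ι F) *ᵥ rv F₀ P b with hbt
    clear_value bt
    obtain ⟨x', y', hxy'⟩ := rv_decomp (P := P) hfix hinv hξ bt
    have hκ : f bt (rv F₀ P c) ≠ 0 := by
      rw [← hgv, hbt, hgi]
      exact f_comm_ne hf hκ'
    have hatbt : f at' bt = 0 := by rw [hat', hbt, hgi, horth a b hab]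
    have hbtbt : f bt bt = 0 := by rw [hbt, hgi, hiso b hb]
    set κ := f bt (rv F₀ P c) with hκd
    clear_value κ
    -- the vector `d`
    obtain ⟨d, d', hd, hd', hd'd, hdl⟩ := QuadBase.exists_hyp hQ₀ [x, y, x', y', c] (by simp; omega)
    have hdx : polar Q₀ x d = 0 := by rw [QuadraticMap.polar_comm]; exact (hdl x (by simp)).1
    have hdy : polar Q₀ y d = 0 := by rw [QuadraticMap.polar_comm]; exact (hdl y (by simp)).1
    have hdx' : polar Q₀ x' d = 0 := by rw [QuadraticMap.polar_comm]; exact (hdl x' (by simp)).1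
    have hdy' : polar Q₀ y' d = 0 := by rw [QuadraticMap.polar_comm]; exact (hdl y' (by simp)).1
    have hcd : polar Q₀ c d = 0 := by rw [QuadraticMap.polar_comm]; exact (hdl c (by simp)).1
    have hxc : polar Q₀ x c = 0 := by rw [QuadraticMap.polar_comm]; exact hcx
    have hyc : polar Q₀ y c = 0 := by rw [QuadraticMap.polar_comm]; exact hcy
    have hd'x : polar Q₀ d' x = 0 := (hdl x (by simp)).2
    have hd'y : polar Q₀ d' y = 0 := (hdl y (by simp)).2
    have hd0 : d ≠ 0 := by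
      rintro rfl
      rw [QuadBase.pol_zero_right hQ₀] at hd'd
      exact zero_ne_one hd'd
    have hatd : f at' (rv F₀ P d) = 0 := by rw [hxy, hpairL, hdx, hdy]; simp
    have hatc : f at' (rv F₀ P c) = 0 := by rw [hxy, hpairL, hxc, hyc]; simp
    have hbtd : f bt (rv F₀ P d) = 0 := by rw [hxy', hpairL, hdx', hdy']; simp
    have hdat : f (rv F₀ P d) at' = 0 := f_comm_zero hf hatd
    have hdbt : f (rv F₀ P d) bt = 0 := f_comm_zero hf hbtd
    have hdd := hiso d hd
    -- first commutator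
    have hE₁ : rr hf at' (κ • rv F₀ P d) ∈ M := by
      have hti : IsIsom f (rr hf (rv F₀ P c) (rv F₀ P d)) :=
        rr_isIsom hf (hiso c hc) (horth c d hcd) hdd
      have htM : rr hf (rv F₀ P c) (rv F₀ P d) ∈ M := hHM (hR c d hc hd hcd)
      have hs₁ : rr hf at' bt ∈ M := by
        have h3 := M.mul_mem (M.mul_mem hgM (hHM (hR a b ha hb hab))) (M.inv_mem hgM)
        rw [conj_rr hf hgi (hiso a ha) (horth a b hab), ← hat', ← hbt] at h3
        exact h3
      have h3 := M.mul_mem (M.mul_mem htM hs₁) (M.inv_mem htM)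
      rw [conj_rr hf hti hatat hatbt, rr_mulVec hf (hiso c hc) (horth c d hcd),
        rr_mulVec hf (hiso c hc) (horth c d hcd), hatc, hatd, ← hκd, hbtd] at h3
      simp only [zero_smul, add_zero, sub_zero] at h3
      have h4 := M.mul_mem (M.inv_mem hs₁) h3
      rw [← rr_neg hf hatat hatbt hbtbt, rr_add hf hatat (by rw [f_neg_right hf, hatbt, neg_zero])
        (by rw [f_add_right hf, f_smul_right hf, hatbt, hatd]; simp)
        (by simp only [f_neg_right hf, hf.add_left, hf.smul_left, hbtbt, hdbt]; simp),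
        neg_add_cancel_left] at h4
      exact h4
    -- the scalar
    have hκ0 : σ κ ≠ 0 := fun h => hκ (by simpa using h)
    have hE₂ : rr hf (rv F₀ P d) (σ κ • at') ∈ M := by
      have hiso2 : f (κ • rv F₀ P d) (κ • rv F₀ P d) = 0 := by
        simp only [hf.smul_left, f_smul_right hf, hdd, mul_zero]
      have h3 : rr hf (κ • rv F₀ P d) at' ∈ M := by
        rw [rr_swap hf hatat (by rw [f_smul_right hf, hatd, mul_zero]) hiso2]
        exact M.inv_mem hE₁
      rwa [rr_smul_left hf κ hdd hdat] at h3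
    set ρ := σ κ with hρ
    clear_value ρ
    -- `x`, `y`, `d` are independent
    have hinxyd : ∀ s t r : F₀, s • x + t • y + r • d = 0 → s = 0 ∧ t = 0 ∧ r = 0 := by
      intro s t r h
      have h3 : polar Q₀ d' (s • x + t • y + r • d) = 0 := by
        rw [h, QuadBase.pol_zero_right hQ₀]
      simp only [QuadBase.pol_add_right hQ₀, QuadBase.pol_smul_right hQ₀, hd'x, hd'y, hd'd, mul_zero,
        zero_add, mul_one] at h3
      rw [h3, zero_smul, add_zero] at h
      obtain ⟨h4, h5⟩ := hind s t h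
      exact ⟨h4, h5, h3⟩
    have hx1 : x ∉ Submodule.span F₀ {y, d} := by
      intro h
      obtain ⟨s, t, hst⟩ := Submodule.mem_span_pair.1 h
      have := (hinxyd 1 (-s) (-t) (by rw [← hst]; module)).1
      exact one_ne_zero this
    have hy1 : y ∉ Submodule.span F₀ {x, d} := by
      intro h
      obtain ⟨s, t, hst⟩ := Submodule.mem_span_pair.1 h
      have := (hinxyd (-s) 1 (-t) (by rw [← hst]; module)).2.1
      exact one_ne_zero this
    obtain ⟨φ₁, h11, h12⟩ := exists_functional_of_notMem hx1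
    obtain ⟨φ₂, h21, h22⟩ := exists_functional_of_notMem hy1
    have hφ₁y : φ₁ y = 0 := h12 y (Submodule.subset_span (by simp))
    have hφ₁d : φ₁ d = 0 := h12 d (Submodule.subset_span (by simp))
    have hφ₂x : φ₂ x = 0 := h22 x (Submodule.subset_span (by simp))
    have hφ₂d : φ₂ d = 0 := h22 d (Submodule.subset_span (by simp))
    have hρ0 : ρ ≠ 0 := hκ0
    obtain ⟨s₀, t₀, hst⟩ := exists_decomp_scalar F₀ hfix hinv hξ (ρ⁻¹ * ξ)
    obtain ⟨z₂, hz₂⟩ := QuadBase.exists_riesz hQ₀ (s₀ • φ₁ + t₀ • φ₂)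
    obtain ⟨c₂, hc₂, hc₂0, hc₂l⟩ := QuadBase.exists_singular_adjust hQ₀ [x, y, d] (by simp; omega) z₂
    have hxc₂ : polar Q₀ x c₂ = s₀ := by
      rw [hc₂l x (by simp), hz₂]
      simp [h11, hφ₂x]
    have hyc₂ : polar Q₀ y c₂ = t₀ := by
      rw [hc₂l y (by simp), hz₂]
      simp [hφ₁y, h21]
    have hdc₂ : polar Q₀ d c₂ = 0 := by
      rw [hc₂l d (by simp), hz₂]
      simp [hφ₁d, hφ₂d]
    obtain ⟨d₂, d₂', hd₂, hd₂', hd₂'d₂, hd₂l⟩ :=
      QuadBase.exists_hyp hQ₀ [d, c₂, x, y] (by simp; omega)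
    have hdd₂ : polar Q₀ d d₂ = 0 := by rw [QuadraticMap.polar_comm]; exact (hd₂l d (by simp)).1
    have hc₂d₂ : polar Q₀ c₂ d₂ = 0 := by rw [QuadraticMap.polar_comm]; exact (hd₂l c₂ (by simp)).1
    have hxd₂ : polar Q₀ x d₂ = 0 := by rw [QuadraticMap.polar_comm]; exact (hd₂l x (by simp)).1
    have hyd₂ : polar Q₀ y d₂ = 0 := by rw [QuadraticMap.polar_comm]; exact (hd₂l y (by simp)).1
    have hd₂'d : polar Q₀ d₂' d = 0 := (hd₂l d (by simp)).2
    have hatc₂ : f at' (rv F₀ P c₂) = ρ⁻¹ * ξ := by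
      rw [hxy, hpairL, hxc₂, hyc₂, hst]
    have hatd₂ : f at' (rv F₀ P d₂) = 0 := by
      rw [hxy, hpairL, hxd₂, hyd₂]
      simp
    have hd₂dd : f (rv F₀ P d) (rv F₀ P d₂) = 0 := horth d d₂ hdd₂
    have hd₂d : f (rv F₀ P d₂) (rv F₀ P d) = 0 := f_comm_zero hf hd₂dd
    have hdc₂' : f (rv F₀ P d) (rv F₀ P c₂) = 0 := horth d c₂ hdc₂
    have hd₂d₂ := hiso d₂ hd₂
    have hdz₀ : f (rv F₀ P d) (ρ • at') = 0 := by rw [f_smul_right hf, hdat, mul_zero]
    -- second commutator
    have hE₃ : rr hf (rv F₀ P d) (ξ • rv F₀ P d₂) ∈ M := by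
      have hti : IsIsom f (rr hf (rv F₀ P c₂) (rv F₀ P d₂)) :=
        rr_isIsom hf (hiso c₂ hc₂) (horth c₂ d₂ hc₂d₂) hd₂d₂
      have htM : rr hf (rv F₀ P c₂) (rv F₀ P d₂) ∈ M := hHM (hR c₂ d₂ hc₂ hd₂ hc₂d₂)
      have h3 := M.mul_mem (M.mul_mem htM hE₂) (M.inv_mem htM)
      rw [conj_rr hf hti hdd hdz₀, rr_mulVec hf (hiso c₂ hc₂) (horth c₂ d₂ hc₂d₂),
        rr_mulVec hf (hiso c₂ hc₂) (horth c₂ d₂ hc₂d₂), hdc₂', hd₂dd, hf.smul_left, hf.smul_left,
        hatc₂, hatd₂] at h3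
      simp only [zero_smul, add_zero, sub_zero, mul_zero] at h3
      have e : ρ • at' + (ρ * (ρ⁻¹ * ξ)) • rv F₀ P d₂ = ρ • at' + ξ • rv F₀ P d₂ := by
        rw [mul_inv_cancel_left₀ hρ0]
      rw [e] at h3
      have h4 := M.mul_mem (M.inv_mem hE₂) h3
      have hzz : f (ρ • at') (ρ • at') = 0 := by
        simp only [hf.smul_left, f_smul_right hf, hatat, mul_zero]
      have hd₂at : f (rv F₀ P d₂) at' = 0 := f_comm_zero hf hatd₂
      rw [← rr_neg hf hdd hdz₀ hzz, rr_add hf hdd (by rw [f_neg_right hf, hdz₀, neg_zero])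
        (by simp only [f_add_right hf, f_smul_right hf, hdat, hd₂dd, mul_zero, add_zero])
        (by simp only [f_neg_right hf, f_smul_right hf, hf.add_left, hf.smul_left, hatat, hd₂at,
          mul_zero, add_zero, neg_zero]),
        neg_add_cancel_left] at h4
      exact h4
    -- fullness of `rv d`
    have hd₂span : d₂ ∉ Submodule.span F₀ {d} := by
      intro h
      obtain ⟨l, hl⟩ := Submodule.mem_span_singleton.1 h
      have h3 : polar Q₀ d₂' d₂ = 0 := by
        rw [← hl, QuadBase.pol_smul_right hQ₀, hd₂'d, mul_zero]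
      rw [hd₂'d₂] at h3
      exact one_ne_zero h3
    obtain ⟨φ, hφ1, hφ2⟩ := exists_functional_of_not_mem_span hd₂span
    obtain ⟨z₀, hz₀⟩ := QuadBase.exists_riesz hQ₀ φ
    have hdd₂' : polar Q₀ d₂ d = 0 := by rw [QuadraticMap.polar_comm]; exact hdd₂
    have hξd : ξ - σ ξ ≠ 0 := sub_ne_zero.2 (Ne.symm hξ)
    have hFd : Full hf M (rv F₀ P d) := by
      intro c hc
      have hsc : σ c = - c := by linear_combination hc
      have hβ : -(c / (ξ - σ ξ)) ∈ F₀ := by
        rw [hfix, map_neg, map_div₀, map_sub, hinv, hsc]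
        have hξd' : σ ξ - ξ ≠ 0 := sub_ne_zero.2 hξ
        field_simp
        ring
      set β : F₀ := ⟨_, hβ⟩ with hβd
      have hβ' : ((β : F₀) : F) = -(c / (ξ - σ ξ)) := rfl
      have hdz : polar Q₀ d (β • z₀) = 0 := by
        rw [QuadBase.pol_smul_right hQ₀, hz₀, hφ2, mul_zero]
      have hd₂z : polar Q₀ d₂ (β • z₀) = β := by
        rw [QuadBase.pol_smul_right hQ₀, hz₀, hφ1, mul_one]
      have hdz' := horth d _ hdz
      have hti := eich_isIsom hf hdd hdz' (hsum (β • z₀))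
      have htM := hHM (hE d _ hd hdz)
      have h3 := M.mul_mem (M.mul_mem htM hE₃) (M.inv_mem htM)
      have hdξ : f (rv F₀ P d) (ξ • rv F₀ P d₂) = 0 := by
        rw [f_smul_right hf, hd₂dd, mul_zero]
      rw [conj_rr hf hti hdd hdξ, Matrix.mulVec_smul, eich_mulVec hf _ hdd hdz',
        eich_mulVec hf _ hdd hdz', hdd, hd₂d, hdz', hpol d₂ (β • z₀), hd₂z] at h3
      simp only [zero_smul, add_zero, mul_zero, sub_zero] at h3
      have h4 := M.mul_mem (M.inv_mem hE₃) h3
      have hzz : f (ξ • rv F₀ P d₂) (ξ • rv F₀ P d₂) = 0 := by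
        simp only [hf.smul_left, f_smul_right hf, hd₂d₂, mul_zero]
      rw [← rr_neg hf hdd hdξ hzz, rr_add hf hdd (by rw [f_neg_right hf, hdξ, neg_zero])
        (by simp only [f_smul_right hf, f_sub_right hf, hd₂dd, hdd, mul_zero, sub_zero])
        (by simp only [f_neg_right hf, f_smul_right hf, hf.smul_left, f_sub_left hf, hf.smul_left,
          hd₂d₂, hdd, hdd₂', horth d₂ d hdd₂', mul_zero, sub_zero, neg_zero, hd₂dd])] at h4
      have e : -(ξ • rv F₀ P d₂) + ξ • (rv F₀ P d₂ - (β : F) • rv F₀ P d) =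
          (-(ξ * (β : F))) • rv F₀ P d := by
        module
      rw [e, rr_self hf _ hdd] at h4
      have e2 : -(ξ * (β : F)) - σ (-(ξ * (β : F))) = c := by
        rw [map_neg, map_mul, hsig, hβ']
        field_simp
      rwa [e2] at h4
    -- all rational singular vectors are full
    have hd₀ : rv F₀ P d ≠ 0 := fun h => hd0 (rv_eq_zero h)
    have hFr : ∀ e, Q₀ e = 0 → Full hf M (rv F₀ P e) := by
      intro e he
      by_cases hi : Ind d e
      · have h3 : d ∉ Submodule.span F₀ {e} := by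
          intro h
          obtain ⟨l, hl⟩ := Submodule.mem_span_singleton.1 h
          have := hi 1 (-l) (by rw [one_smul, neg_smul, ← hl]; abel)
          exact one_ne_zero this.1
        have h4 : e ∉ Submodule.span F₀ {d} := by
          intro h
          obtain ⟨l, hl⟩ := Submodule.mem_span_singleton.1 h
          have := hi (-l) 1 (by rw [one_smul, neg_smul, ← hl]; abel)
          exact one_ne_zero this.2
        obtain ⟨ψ₁, h5, h6⟩ := exists_functional_of_not_mem_span h3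
        obtain ⟨ψ₂, h7, h8⟩ := exists_functional_of_not_mem_span h4
        obtain ⟨z, hz⟩ := QuadBase.exists_riesz hQ₀ (ψ₁ + ψ₂)
        obtain ⟨w, hw, -, hwl⟩ := QuadBase.exists_singular_adjust hQ₀ [d, e] (by simp; omega) z
        have hdw : polar Q₀ d w = 1 := by
          rw [hwl d (by simp), hz]
          simp [h5, h8]
        have hew : polar Q₀ e w = 1 := by
          rw [hwl e (by simp), hz]
          simp [h6, h7]
        have hwz : polar Q₀ w (e - d) = 0 := by
          rw [QuadBase.pol_sub_right hQ₀, QuadraticMap.polar_comm Q₀ w e,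
            QuadraticMap.polar_comm Q₀ w d, hdw, hew, sub_self]
        have hww := hiso w hw
        have hwz' := horth w _ hwz
        have hs := hHM (hE w _ hw hwz)
        have hs' := eich_isIsom hf hww hwz' (hsum (e - d))
        have h9 := (hFd).image hdd hs hs'
        have e3 : ((eich hf (rv F₀ P w) (rv F₀ P (e - d)) (-((Q₀ (e - d) : F₀) : F)) : GL ι F) :
            Matrix ι ι F) *ᵥ rv F₀ P d = rv F₀ P e := by
          rw [eich_mulVec hf _ hww hwz', hpol d w, hdw, hpol d (e - d),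
            QuadBase.Q_sub hQ₀, hd, he, QuadBase.pol_sub_right hQ₀, QuadBase.pol_self hQ₀, hd,
            QuadraticMap.polar_comm Q₀ e d]
          simp only [rv_sub, Subfield.coe_one, one_smul, mul_one, mul_zero, Subfield.coe_sub,
            Subfield.coe_add, zero_add, Subfield.coe_zero, Subfield.coe_neg, sub_zero]
          module
        rwa [e3] at h9
      · unfold Ind at hi
        push Not at hi
        obtain ⟨s, t, hst, hne⟩ := hi
        have ht : t ≠ 0 := by
          rintro rfl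
          rw [zero_smul, add_zero] at hst
          have hs0 : s = 0 := (smul_eq_zero.1 hst).resolve_right hd0
          exact hne hs0 rfl
        have e3 : rv F₀ P e = ((-(s / t) : F₀) : F) • rv F₀ P d := by
          rw [← rv_smul]
          congr 1
          have h3 : t • e = (-s) • d := by
            rw [neg_smul]
            exact eq_neg_of_add_eq_zero_right hst
          have h4 := congrArg (fun z => t⁻¹ • z) h3
          simp only [smul_smul, inv_mul_cancel₀ ht, one_smul] at h4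
          rw [h4]
          congr 1
          field_simp
        rw [e3]
        exact hFd.smul hdd _
    -- the radical
    have hQSr : ∀ z, polar Q₀ d z = 0 → QS hf M (rv F₀ P d) (rv F₀ P z) := fun z h =>
      ⟨_, hsum z, hHM (hE d z hd h)⟩
    have hQSξ₂ : QS hf M (rv F₀ P d) (ξ • rv F₀ P d₂) := by
      refine ⟨0, ?_, hE₃⟩
      simp only [hf.smul_left, f_smul_right hf, hd₂d₂, mul_zero, map_zero, add_zero]
    have hstep : ∀ e e', Q₀ e' = 0 → polar Q₀ d e = 0 → polar Q₀ d e' = 0 → polar Q₀ e e' = 0 →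
        e ∉ Submodule.span F₀ {d, e'} → QS hf M (rv F₀ P d) (ξ • rv F₀ P e) →
        QS hf M (rv F₀ P d) (ξ • rv F₀ P e') := by
      intro e e' he' hde hde' hee' hmem hq
      obtain ⟨ψ, h3, h4⟩ := exists_functional_of_notMem hmem
      obtain ⟨z, hz⟩ := QuadBase.exists_riesz hQ₀ ψ
      obtain ⟨c', hc'', -, hc'l⟩ := QuadBase.exists_singular_adjust hQ₀ [e, d, e'] (by simp; omega) z
      have h5 : polar Q₀ e c' = 1 := by rw [hc'l e (by simp), hz, h3]
      have h6 : polar Q₀ d c' = 0 := by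
        rw [hc'l d (by simp), hz, h4 d (Submodule.subset_span (by simp))]
      have h7 : polar Q₀ e' c' = 0 := by
        rw [hc'l e' (by simp), hz, h4 e' (Submodule.subset_span (by simp))]
      have h8 : polar Q₀ c' e' = 0 := by rw [QuadraticMap.polar_comm]; exact h7
      have hti := rr_isIsom hf (hiso c' hc'') (horth c' e' h8) (hiso e' he')
      have htM := hHM (hR c' e' hc'' he' h8)
      have hde₁ : f (rv F₀ P d) (ξ • rv F₀ P e) = 0 := by
        rw [f_smul_right hf, horth d e hde, mul_zero]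
      have h9 := hq.image htM hti hdd hde₁
      rw [Matrix.mulVec_smul, rr_mulVec hf (hiso c' hc'') (horth c' e' h8),
        rr_mulVec hf (hiso c' hc'') (horth c' e' h8), horth d c' h6, horth d e' hde', hpol e c', h5,
        horth e e' hee'] at h9
      simp only [zero_smul, add_zero, sub_zero, Subfield.coe_one, one_smul] at h9
      have h10 := (QS_neg hf hq hdd hde₁).add h9 hdd (by rw [f_neg_right hf, hde₁, neg_zero])
        (by simp only [f_smul_right hf, f_add_right hf, horth d e hde, horth d e' hde', mul_zero,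
          add_zero])
      have e3 : -(ξ • rv F₀ P e) + ξ • (rv F₀ P e + rv F₀ P e') = ξ • rv F₀ P e' := by
        module
      rwa [e3] at h10
    obtain ⟨h₀, h₀', hh₀, hh₀', hh₀'h₀, hh₀l⟩ := QuadBase.exists_hyp hQ₀ [d] (by simp; omega)
    have hQSξ : ∀ e, polar Q₀ e d = 0 → QS hf M (rv F₀ P d) (ξ • rv F₀ P e) := by
      intro e hed
      have hmem : e ∈ LinearMap.ker (QuadBase.formL hQ₀ d) := hed
      refine QuadBase.sing_induction hQ₀ (Y := LinearMap.ker (QuadBase.formL hQ₀ d)) (h := h₀)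
        (h' := h₀') (hh₀l d (by simp)).1 (hh₀l d (by simp)).2 hh₀ hh₀' hh₀'h₀
        (fun e => QS hf M (rv F₀ P d) (ξ • rv F₀ P e)) ?_ ?_ hmem
      · intro a₁ ha₁ ha₁s
        have had : polar Q₀ a₁ d = 0 := ha₁
        have hda : polar Q₀ d a₁ = 0 := by rw [QuadraticMap.polar_comm]; exact had
        obtain ⟨e₁, e₁', he₁, he₁', he₁'e₁, he₁l⟩ :=
          QuadBase.exists_hyp hQ₀ [d, d₂, a₁] (by simp; omega)
        have h3 : polar Q₀ d e₁ = 0 := by
          rw [QuadraticMap.polar_comm]; exact (he₁l d (by simp)).1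
        have h4 : polar Q₀ d₂ e₁ = 0 := by
          rw [QuadraticMap.polar_comm]; exact (he₁l d₂ (by simp)).1
        have h5 : polar Q₀ e₁ a₁ = 0 := (he₁l a₁ (by simp)).1
        have h6 : polar Q₀ e₁' d = 0 := (he₁l d (by simp)).2
        have h7 : polar Q₀ e₁' d₂ = 0 := (he₁l d₂ (by simp)).2
        have h8 : polar Q₀ e₁' a₁ = 0 := (he₁l a₁ (by simp)).2
        have h9 : d₂ ∉ Submodule.span F₀ {d, e₁} := by
          intro h
          obtain ⟨s, t, hst⟩ := Submodule.mem_span_pair.1 h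
          have h10 : polar Q₀ e₁' d₂ = t := by
            rw [← hst]
            simp only [QuadBase.pol_add_right hQ₀, QuadBase.pol_smul_right hQ₀, h6, he₁'e₁, mul_zero,
              zero_add, mul_one]
          rw [h7] at h10
          rw [← h10, zero_smul, add_zero] at hst
          exact hd₂span (Submodule.mem_span_singleton.2 ⟨s, hst⟩)
        have h10 : e₁ ∉ Submodule.span F₀ {d, a₁} := by
          intro h
          obtain ⟨s, t, hst⟩ := Submodule.mem_span_pair.1 h
          have h11 : polar Q₀ e₁' e₁ = 0 := by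
            rw [← hst]
            simp only [QuadBase.pol_add_right hQ₀, QuadBase.pol_smul_right hQ₀, h6, h8, mul_zero,
              zero_add]
          rw [he₁'e₁] at h11
          exact one_ne_zero h11
        exact hstep e₁ a₁ ha₁s h3 hda h5 h10 (hstep d₂ e₁ he₁ hdd₂ h3 h4 h9 hQSξ₂)
      · intro a₁ ha₁ b₁ hb₁ h3 h4
        have had : polar Q₀ d a₁ = 0 := by rw [QuadraticMap.polar_comm]; exact ha₁
        have hbd : polar Q₀ d b₁ = 0 := by rw [QuadraticMap.polar_comm]; exact hb₁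
        rw [rv_add, smul_add]
        exact h3.add h4 hdd (by rw [f_smul_right hf, horth d a₁ had, mul_zero])
          (by rw [f_smul_right hf, horth d b₁ hbd, mul_zero])
    have hAll : AllQ hf M (rv F₀ P d) := by
      intro z c hz hc
      obtain ⟨z₁, z₂, hz₁₂⟩ := rv_decomp (P := P) hfix hinv hξ z
      have hzd : f z (rv F₀ P d) = 0 := f_comm_zero hf hz
      rw [hz₁₂, hpairL] at hzd
      obtain ⟨h3, h4⟩ := hsq _ _ hzd
      have h5 : polar Q₀ d z₁ = 0 := by rw [QuadraticMap.polar_comm]; exact h3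
      have h6 := (hQSr z₁ h5).add (hQSξ z₂ h4) hdd (horth d z₁ h5)
        (by rw [f_smul_right hf, horth d z₂ (by rw [QuadraticMap.polar_comm]; exact h4), mul_zero])
      rw [← hz₁₂] at h6
      exact h6.mem hFd hdd hz hc
    have hud : f (rv F₀ P d') (rv F₀ P d) ≠ 0 := by
      rw [hpol, hd'd]
      exact one_ne_zero
    have hall : ∀ b, f b b = 0 → Full hf M b := fun b hb =>
      full_all_of_allQ hdd hAll (hiso d' hd') (hFr d' hd') hud hb
    exact le_antisymm hMG (le_of_full hf hN (by omega) hG hall)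

end Cfsg.Agent.Lib.UnitaryOrth
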