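import Cfsg.Agent.Lib.UnitaryMax
import Cfsg.Agent.Lib.SubfieldGroup

/-! The symplectic subfield subgroup `Sp_n(q)` in `SU_n(q)`. -/

set_option autoImplicit false
set_option linter.unusedSectionVars false
set_option linter.unusedSimpArgs false
set_option linter.unusedVariables false

open scoped MatrixGroups Matrix
open Cfsg Cfsg.Geo
open Cfsg.Agent.Lib.Transvection Cfsg.Agent.Lib.LinAlgAux Cfsg.Agent.Lib.UnitaryBase
  Cfsg.Agent.Lib.UnitaryGen Cfsg.Agent.Lib.UnitaryMax Cfsg.Agent.Lib.SubfieldGroup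
open Cfsg.Agent.Lib.SymplecticTv (IsIsom Ind stv stvGroup stv_mulVec stvGroup_le exists_isom_pair
  exists_ind_pair)

namespace Cfsg.Agent.Lib.UnitarySp

variable {ι : Type} [Fintype ι] [DecidableEq ι] {F : Type*} [Field F] {σ : F ≃+* F}
  {f : (ι → F) → (ι → F) → F} {F₀ : Subfield F}

section Form

variable (hf : IsUnitaryForm σ f) (hfix : ∀ x, x ∈ F₀ ↔ σ x = x) {ζ : F} (hζ0 : ζ ≠ 0)
  (hζ : ζ + σ ζ = 0) {P : GL ι F} (hP : IsFormRationalStructure f F₀ ζ P)
  (halt : ∀ u : ι → F, (∀ i, u i ∈ F₀) → f ((P : Matrix ι ι F) *ᵥ u) ((P : Matrix ι ι F) *ᵥ u) = 0)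

/-- The rational form. -/
def omg (u v : ι → F₀) : F₀ :=
  ⟨ζ * f ((P : Matrix ι ι F) *ᵥ emb F₀ u) ((P : Matrix ι ι F) *ᵥ emb F₀ v),
    hP _ _ (isRat_emb F₀ u) (isRat_emb F₀ v)⟩

theorem omg_coe (u v : ι → F₀) : ((omg hP u v : F₀) : F) =
    ζ * f ((P : Matrix ι ι F) *ᵥ emb F₀ u) ((P : Matrix ι ι F) *ᵥ emb F₀ v) := rfl

include hf hfix hζ0 hζ halt

theorem omg_isSymplectic (hξ : ∃ ξ, σ ξ ≠ ξ) : IsSymplecticForm (omg hP) := by
  obtain ⟨ξ, hξ⟩ := hξ
  have hsig : ∀ c : F₀, σ (c : F) = c := fun c => (hfix _).1 c.2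
  have hsζ : σ ζ = - ζ := by linear_combination hζ
  have hskew : ∀ v w : ι → F₀, omg hP v w = - omg hP w v := by
    intro v w
    apply Subtype.ext
    have h1 := hsig (omg hP v w)
    rw [omg_coe, map_mul, hsζ, sigma_f hf] at h1
    rw [Subfield.coe_neg, omg_coe, omg_coe, ← h1]
    ring
  refine ⟨⟨?_, ?_, ?_, ?_⟩, hskew, ?_, ?_⟩
  · intro x y v
    apply Subtype.ext
    simp only [omg_coe, emb_add, Matrix.mulVec_add, hf.add_left, Subfield.coe_add]
    ring
  · intro c x v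
    apply Subtype.ext
    simp only [omg_coe, emb_smul, Matrix.mulVec_smul, hf.smul_left, Subfield.coe_mul]
    ring
  · intro v x y
    apply Subtype.ext
    simp only [omg_coe, emb_add, Matrix.mulVec_add, f_add_right hf, Subfield.coe_add]
    ring
  · intro c v x
    apply Subtype.ext
    simp only [omg_coe, emb_smul, Matrix.mulVec_smul, f_smul_right hf, Subfield.coe_mul, hsig]
    ring
  · intro v
    apply Subtype.ext
    rw [omg_coe, halt _ (isRat_emb F₀ v)]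
    simp
  · intro v hv
    have hPv : (P : Matrix ι ι F) *ᵥ emb F₀ v ≠ 0 := by
      intro h0
      have h1 := congrArg (fun z => ((P⁻¹ : GL ι F) : Matrix ι ι F) *ᵥ z) h0
      simp only [gl_inv_mulVec_mulVec, Matrix.mulVec_zero] at h1
      exact hv (emb_injective F₀ (by rw [h1, emb_zero]))
    obtain ⟨z, hz⟩ := exists_left_ne hf hPv
    obtain ⟨x, y, hxy⟩ := exists_decomp_vec F₀ hfix hf.involutive hξ
      (((P⁻¹ : GL ι F) : Matrix ι ι F) *ᵥ z)
    have e : z = (P : Matrix ι ι F) *ᵥ emb F₀ x + ξ • (P : Matrix ι ι F) *ᵥ emb F₀ y := by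
      rw [← Matrix.mulVec_smul, ← Matrix.mulVec_add, ← hxy, gl_mulVec_inv_mulVec]
    have hex : ∃ x', omg hP x' v ≠ 0 := by
      by_contra hcon
      push Not at hcon
      apply hz
      have h1 : ∀ x', f ((P : Matrix ι ι F) *ᵥ emb F₀ x') ((P : Matrix ι ι F) *ᵥ emb F₀ v) = 0 := by
        intro x'
        have := congrArg (Subtype.val) (hcon x')
        rw [omg_coe] at this
        exact (mul_eq_zero.1 this).resolve_left hζ0
      rw [e, hf.add_left, hf.smul_left, h1, h1]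
      simp
    obtain ⟨x', hx'⟩ := hex
    refine ⟨⟨x', hx'⟩, ⟨x', ?_⟩⟩
    rw [hskew]
    exact neg_ne_zero.2 hx'

end Form

/-- The subfield subgroup of a symplectic rational structure is maximal. -/
theorem subfieldSp_isMaximalIn [Finite F] (hf : IsUnitaryForm σ f)
    (hN : ∀ c, σ c = c → ∃ l, l * σ l = c) (hcard : 4 ≤ Fintype.card ι) {G : Subgroup (GL ι F)}
    (hG : ∀ g, g ∈ G ↔ IsIsom f g ∧ g ∈ specialLinear ι F) (hfix : ∀ x, x ∈ F₀ ↔ σ x = x)
    {ζ : F} (hζ0 : ζ ≠ 0) (hζ : ζ + σ ζ = 0) {P : GL ι F} (hP : IsFormRationalStructure f F₀ ζ P)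
    (halt : ∀ u : ι → F, (∀ i, u i ∈ F₀) →
      f ((P : Matrix ι ι F) *ᵥ u) ((P : Matrix ι ι F) *ᵥ u) = 0) :
    IsMaximalIn G (subfieldSubgroup F₀ P ⊓ G) := by
  classical
  have hne : Nonempty ι := Fintype.card_pos_iff.1 (by omega)
  obtain ⟨ξ, hξ⟩ : ∃ ξ, σ ξ ≠ ξ := by
    by_contra hcon
    push Not at hcon
    exact hf.ne_refl (RingEquiv.ext fun x => hcon x)
  have hω := omg_isSymplectic hf hfix hζ0 hζ hP halt ⟨ξ, hξ⟩
  have hsig : ∀ c : F₀, σ (c : F) = c := fun c => (hfix _).1 c.2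
  have hsζ : σ ζ = - ζ := by linear_combination hζ
  have hinv := hf.involutive
  have hiso : ∀ a : ι → F₀, f ((P : Matrix ι ι F) *ᵥ emb F₀ a) ((P : Matrix ι ι F) *ᵥ emb F₀ a) = 0 :=
    fun a => halt _ (isRat_emb F₀ a)
  -- the rational transvections
  have hphi : ∀ (a : ι → F₀) (c : F₀), phi F₀ P (stv hω a c) =
      tt hf ((P : Matrix ι ι F) *ᵥ emb F₀ a) ((c : F) * ζ) := by
    intro a c
    apply gl_ext_rat F₀ (P := P)
    intro u
    rw [phi_mulVec, stv_mulVec, tt_mulVec hf _ (hiso a), emb_add, Matrix.mulVec_add, emb_smul,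
      Matrix.mulVec_smul]
    congr 2
    simp only [Subfield.coe_mul, omg_coe]
    ring
  have htr : ∀ c : F₀, (c : F) * ζ + σ ((c : F) * ζ) = 0 := by
    intro c
    rw [map_mul, hsig]
    linear_combination (c : F) * hζ
  have hTr : ∀ c : F, c + σ c = 0 → ∃ t : F₀, (t : F) * ζ = c := by
    intro c hc
    have hsc : σ c = - c := by linear_combination hc
    have h1 : c / ζ ∈ F₀ := by
      rw [hfix, map_div₀, hsc, hsζ, neg_div_neg_eq]
    exact ⟨⟨_, h1⟩, by simp [hζ0]⟩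
  have hphiG : ∀ A ∈ stvGroup hω ⊤, phi F₀ P A ∈ subfieldSubgroup F₀ P ⊓ G := by
    intro A hA
    refine ⟨phi_mem_subfield F₀ P A, ?_⟩
    have : stvGroup hω ⊤ ≤ G.comap (phi F₀ P) := by
      refine stvGroup_le hω fun a _ c => ?_
      rw [Subgroup.mem_comap, hphi]
      exact tt_mem_G hf hG (hiso a) (htr c)
    exact this hA
  -- pairings
  have hfP : ∀ x y : ι → F₀, f ((P : Matrix ι ι F) *ᵥ emb F₀ y) ((P : Matrix ι ι F) *ᵥ emb F₀ x) =
      - f ((P : Matrix ι ι F) *ᵥ emb F₀ x) ((P : Matrix ι ι F) *ᵥ emb F₀ y) := by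
    intro x y
    have h1 := hsig (omg hP x y)
    rw [omg_coe, map_mul, hsζ, sigma_f hf] at h1
    have h2 : ζ * (f ((P : Matrix ι ι F) *ᵥ emb F₀ y) ((P : Matrix ι ι F) *ᵥ emb F₀ x) +
        f ((P : Matrix ι ι F) *ᵥ emb F₀ x) ((P : Matrix ι ι F) *ᵥ emb F₀ y)) = 0 := by
      linear_combination -h1
    have h3 := (mul_eq_zero.1 h2).resolve_left hζ0
    linear_combination h3
  have hnorm : ∀ x y : ι → F₀, f (((P : Matrix ι ι F) *ᵥ emb F₀ x) + ξ • ((P : Matrix ι ι F) *ᵥ emb F₀ y))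
      (((P : Matrix ι ι F) *ᵥ emb F₀ x) + ξ • ((P : Matrix ι ι F) *ᵥ emb F₀ y)) =
      (σ ξ - ξ) * f ((P : Matrix ι ι F) *ᵥ emb F₀ x) ((P : Matrix ι ι F) *ᵥ emb F₀ y) := by
    intro x y
    simp only [hf.add_left, f_add_right hf, hf.smul_left, f_smul_right hf, hiso, hfP x y]
    ring
  -- dependent pairs
  have hdep : ∀ x y : ι → F₀, ¬ Ind x y → ∃ (l : F) (a : ι → F₀),
      emb F₀ x + ξ • emb F₀ y = l • emb F₀ a := by
    intro x y h
    unfold Ind at h
    push Not at h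
    obtain ⟨s, t, hst, hne⟩ := h
    by_cases ht : t = 0
    · subst ht
      rw [zero_smul, add_zero] at hst
      have hs : s ≠ 0 := fun h0 => hne h0 rfl
      have hx0 : x = 0 := (smul_eq_zero.1 hst).resolve_left hs
      exact ⟨ξ, y, by rw [hx0, emb_zero, zero_add]⟩
    · have hy : y = (-(s / t)) • x := by
        have h1 : t • y = (-s) • x := by
          rw [neg_smul]
          exact eq_neg_of_add_eq_zero_right hst
        have h2 := congrArg (fun z => t⁻¹ • z) h1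
        simp only [smul_smul, inv_mul_cancel₀ ht, one_smul] at h2
        rw [h2]
        congr 1
        field_simp
      refine ⟨1 + ξ * ((-(s / t) : F₀) : F), x, ?_⟩
      rw [hy, emb_smul, smul_smul, add_smul, one_smul]
  -- the rational vectors are full in any overgroup
  have hFullP : ∀ M : Subgroup (GL ι F), subfieldSubgroup F₀ P ⊓ G ≤ M → ∀ a : ι → F₀,
      Full hf M ((P : Matrix ι ι F) *ᵥ emb F₀ a) := by
    intro M hM a c hc
    obtain ⟨t, rfl⟩ := hTr c hc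
    rw [← hphi]
    exact hM (hphiG _ (Cfsg.Agent.Lib.SymplecticTv.stv_mem_stvGroup hω Submodule.mem_top t))
  constructor
  · refine lt_of_le_of_ne inf_le_right ?_
    intro heq
    obtain ⟨x₁, y₁, hind, hy₁⟩ := exists_ind_pair hω (by omega)
    obtain ⟨δ, hδ0, hδ⟩ := exists_tr0 hf
    set v := ((P : Matrix ι ι F) *ᵥ emb F₀ x₁) + ξ • ((P : Matrix ι ι F) *ᵥ emb F₀ y₁) with hv
    have hy₁' : f ((P : Matrix ι ι F) *ᵥ emb F₀ y₁) ((P : Matrix ι ι F) *ᵥ emb F₀ x₁) = 0 := by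
      have := congrArg Subtype.val hy₁
      rw [omg_coe] at this
      exact (mul_eq_zero.1 this).resolve_left hζ0
    have hvv : f v v = 0 := by
      rw [hv, hnorm, ← neg_eq_zero, ← hfP] at *
      simp [hy₁']
    have hT : tt hf v δ ∈ G := tt_mem_G hf hG hvv hδ
    rw [← heq] at hT
    obtain ⟨c, hc0, hc⟩ := (mem_subfield_iff F₀).1 hT.1
    have hPv : ((P⁻¹ : GL ι F) : Matrix ι ι F) *ᵥ v = emb F₀ x₁ + ξ • emb F₀ y₁ := by
      rw [hv, ← Matrix.mulVec_smul, ← Matrix.mulVec_add, gl_inv_mulVec_mulVec]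
    have hB : ∀ u : ι → F₀, ((P⁻¹ * tt hf v δ * P : GL ι F) : Matrix ι ι F) *ᵥ emb F₀ u =
        emb F₀ u + (δ * f ((P : Matrix ι ι F) *ᵥ emb F₀ u) v) • (emb F₀ x₁ + ξ • emb F₀ y₁) := by
      intro u
      rw [gl_mul_mulVec, gl_mul_mulVec, tt_mulVec hf _ hvv, Matrix.mulVec_add, gl_inv_mulVec_mulVec,
        Matrix.mulVec_smul, hPv]
    -- a rational vector orthogonal to `v`
    have h1 := Cfsg.Agent.Lib.SymplecticTv.finrank_perp_inf hω ⊤ x₁
    have h2 := Cfsg.Agent.Lib.SymplecticTv.finrank_perp_inf hω (⊤ ⊓ Cfsg.Agent.Lib.SymplecticTv.perp hω x₁) y₁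
    rw [finrank_top, Module.finrank_fintype_fun_eq_card] at h1
    have hne0 : (⊤ ⊓ Cfsg.Agent.Lib.SymplecticTv.perp hω x₁ ⊓
        Cfsg.Agent.Lib.SymplecticTv.perp hω y₁ : Submodule F₀ (ι → F₀)) ≠ ⊥ := by
      intro h0
      rw [h0] at h2
      simp at h2
      omega
    obtain ⟨u₁, hu₁, hu₁0⟩ := Submodule.exists_mem_ne_zero_of_ne_bot hne0
    have hu₁x : f ((P : Matrix ι ι F) *ᵥ emb F₀ u₁) ((P : Matrix ι ι F) *ᵥ emb F₀ x₁) = 0 := by
      have h3 : omg hP u₁ x₁ = 0 := (Cfsg.Agent.Lib.SymplecticTv.mem_perp hω _ _).1 hu₁.1.2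
      have := congrArg Subtype.val h3
      rw [omg_coe] at this
      exact (mul_eq_zero.1 this).resolve_left hζ0
    have hu₁y : f ((P : Matrix ι ι F) *ᵥ emb F₀ u₁) ((P : Matrix ι ι F) *ᵥ emb F₀ y₁) = 0 := by
      have h3 : omg hP u₁ y₁ = 0 := (Cfsg.Agent.Lib.SymplecticTv.mem_perp hω _ _).1 hu₁.2
      have := congrArg Subtype.val h3
      rw [omg_coe] at this
      exact (mul_eq_zero.1 this).resolve_left hζ0
    have hu₁v : f ((P : Matrix ι ι F) *ᵥ emb F₀ u₁) v = 0 := by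
      rw [hv, f_add_right hf, f_smul_right hf, hu₁x, hu₁y]
      simp
    have hcF : c ∈ F₀ := by
      have h3 := hc u₁
      rw [hB, hu₁v] at h3
      simp only [mul_zero, zero_smul, add_zero] at h3
      obtain ⟨i, hi⟩ := Function.ne_iff.1 hu₁0
      have h4 := h3 i
      simp only [Pi.smul_apply, smul_eq_mul, emb_apply] at h4
      have h5 : ((u₁ i : F₀) : F) ≠ 0 := by simpa using hi
      have h6 := F₀.mul_mem h4 (F₀.inv_mem (u₁ i).2)
      rwa [mul_assoc, mul_inv_cancel₀ h5, mul_one] at h6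
    -- a rational vector not orthogonal to `v`
    have hv0 : v ≠ 0 := by
      rw [hv, ← Matrix.mulVec_smul, ← Matrix.mulVec_add]
      intro h0
      have h3 := congrArg (fun z => ((P⁻¹ : GL ι F) : Matrix ι ι F) *ᵥ z) h0
      simp only [gl_inv_mulVec_mulVec, Matrix.mulVec_zero] at h3
      obtain ⟨h4, -⟩ := decomp_unique_vec F₀ hfix hinv hξ h3
      exact hind.ne_zero_left h4
    obtain ⟨z, hz⟩ := exists_left_ne hf hv0
    obtain ⟨p, q, hpq⟩ := exists_decomp_vec F₀ hfix hinv hξ (((P⁻¹ : GL ι F) : Matrix ι ι F) *ᵥ z)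
    have hze : z = (P : Matrix ι ι F) *ᵥ emb F₀ p + ξ • (P : Matrix ι ι F) *ᵥ emb F₀ q := by
      rw [← Matrix.mulVec_smul, ← Matrix.mulVec_add, ← hpq, gl_mulVec_inv_mulVec]
    obtain ⟨u₂, hu₂⟩ : ∃ u₂ : ι → F₀, f ((P : Matrix ι ι F) *ᵥ emb F₀ u₂) v ≠ 0 := by
      by_contra hcon
      push Not at hcon
      apply hz
      rw [hze, hf.add_left, hf.smul_left, hcon, hcon]
      simp
    set κ := δ * f ((P : Matrix ι ι F) *ᵥ emb F₀ u₂) v with hκ
    have hκ0 : κ ≠ 0 := mul_ne_zero hδ0 hu₂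
    have h3 := hc u₂
    rw [hB, ← hκ] at h3
    -- apply `σ`
    set A := c * κ with hA
    have hA0 : A ≠ 0 := mul_ne_zero hc0 hκ0
    have h4 : (A - σ A) • emb F₀ x₁ + (A * ξ - σ (A * ξ)) • emb F₀ y₁ = 0 := by
      ext i
      have h5 := (hfix _).1 (h3 i)
      have h7 : σ c = c := (hfix c).1 hcF
      simp only [Pi.smul_apply, Pi.add_apply, smul_eq_mul, emb_apply, map_add, map_mul] at h5
      rw [hsig, hsig, hsig, h7] at h5
      simp only [Pi.smul_apply, Pi.add_apply, smul_eq_mul, emb_apply, Pi.zero_apply, hA, map_mul,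
        sub_mul]
      rw [h7]
      linear_combination -h5
    obtain ⟨h5, h6⟩ := ind_emb F₀ hfix hinv hξ hind _ _ h4
    have h7 : σ A = A := (sub_eq_zero.1 h5).symm
    rw [sub_eq_zero, map_mul, h7] at h6
    exact hξ (mul_left_cancel₀ hA0 h6).symm
  · intro M hHM hMG
    by_cases hEq : M = subfieldSubgroup F₀ P ⊓ G
    · exact Or.inl hEq
    right
    have hex : ∃ g ∈ M, g ∉ subfieldSubgroup F₀ P := by
      by_contra hcon
      push Not at hcon
      exact hEq (le_antisymm (fun g hg => ⟨hcon g hg, hMG hg⟩) hHM)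
    obtain ⟨g, hgM, hg⟩ := hex
    have hgi : IsIsom f g := ((hG g).1 (hMG hgM)).1
    -- a rational vector not mapped to a rational point
    have hmoved : ∃ u : ι → F₀, ∀ c : F, c ≠ 0 →
        ¬ IsRat F₀ (c • (((P⁻¹ * g * P : GL ι F) : Matrix ι ι F) *ᵥ emb F₀ u)) := by
      by_contra hcon
      push Not at hcon
      exact hg (mem_subfield_of_lines F₀ hfix hinv hξ hcon)
    obtain ⟨u, hu⟩ := hmoved
    obtain ⟨x₀, y₀, hxy⟩ := exists_decomp_vec F₀ hfix hinv hξ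
      (((P⁻¹ * g * P : GL ι F) : Matrix ι ι F) *ᵥ emb F₀ u)
    set u₀ := ((P : Matrix ι ι F) *ᵥ emb F₀ x₀) + ξ • ((P : Matrix ι ι F) *ᵥ emb F₀ y₀) with hu₀
    have hu₀e : u₀ = (g : Matrix ι ι F) *ᵥ ((P : Matrix ι ι F) *ᵥ emb F₀ u) := by
      have h1 : u₀ = (P : Matrix ι ι F) *ᵥ (emb F₀ x₀ + ξ • emb F₀ y₀) := by
        rw [hu₀, Matrix.mulVec_add, Matrix.mulVec_smul]
      rw [h1, ← hxy, gl_mul_mulVec, gl_mul_mulVec, gl_mulVec_inv_mulVec]
    have hu₀u₀ : f u₀ u₀ = 0 := by rw [hu₀e, hgi, hiso]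
    have hFu₀ : Full hf M u₀ := by
      rw [hu₀e]
      exact (hFullP M hHM u).image (hiso u) hgM hgi
    have hξ' : σ ξ - ξ ≠ 0 := sub_ne_zero.2 hξ
    have hxy0 : f ((P : Matrix ι ι F) *ᵥ emb F₀ x₀) ((P : Matrix ι ι F) *ᵥ emb F₀ y₀) = 0 := by
      rw [hu₀, hnorm] at hu₀u₀
      exact (mul_eq_zero.1 hu₀u₀).resolve_left hξ'
    have hind₀ : Ind x₀ y₀ := by
      by_contra hcon
      obtain ⟨l, a, hl⟩ := hdep _ _ hcon
      have hl0 : l ≠ 0 := by
        rintro rfl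
        rw [zero_smul] at hl
        obtain ⟨h3, h4⟩ := decomp_unique_vec F₀ hfix hinv hξ hl
        -- then the image is zero
        have h5 : ((P⁻¹ * g * P : GL ι F) : Matrix ι ι F) *ᵥ emb F₀ u = 0 := by
          rw [hxy, h3, h4]
          simp
        apply hu 1 one_ne_zero
        rw [h5]
        intro i
        simp
      apply hu l⁻¹ (inv_ne_zero hl0)
      rw [hxy, hl, smul_smul, inv_mul_cancel₀ hl0, one_smul]
      exact isRat_emb F₀ a
    have hall : ∀ b, f b b = 0 → Full hf M b := by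
      intro v hvv
      obtain ⟨x', y', hxy'⟩ := exists_decomp_vec F₀ hfix hinv hξ (((P⁻¹ : GL ι F) : Matrix ι ι F) *ᵥ v)
      have hve : v = ((P : Matrix ι ι F) *ᵥ emb F₀ x') + ξ • ((P : Matrix ι ι F) *ᵥ emb F₀ y') := by
        rw [← Matrix.mulVec_smul, ← Matrix.mulVec_add, ← hxy', gl_mulVec_inv_mulVec]
      by_cases hind : Ind x' y'
      · have h1 : f ((P : Matrix ι ι F) *ᵥ emb F₀ x') ((P : Matrix ι ι F) *ᵥ emb F₀ y') = 0 := by
          rw [hve, hnorm] at hvv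
          exact (mul_eq_zero.1 hvv).resolve_left hξ'
        have hω0 : omg hP y₀ x₀ = 0 := by
          apply Subtype.ext
          rw [omg_coe, hfP, hxy0]
          simp
        have hω1 : omg hP y' x' = 0 := by
          apply Subtype.ext
          rw [omg_coe, hfP, h1]
          simp
        obtain ⟨s, hs, hs1, hs2⟩ := exists_isom_pair hω hind₀ hind hω0 hω1
        have hsM : phi F₀ P s ∈ M := hHM (hphiG s hs)
        have hsi : IsIsom f (phi F₀ P s) := ((hG _).1 (hMG hsM)).1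
        have h2 := hFu₀.image hu₀u₀ hsM hsi
        have e : ((phi F₀ P s : GL ι F) : Matrix ι ι F) *ᵥ u₀ = v := by
          rw [hu₀, Matrix.mulVec_add, Matrix.mulVec_smul, phi_mulVec, phi_mulVec, hs1, hs2, ← hve]
        rwa [e] at h2
      · obtain ⟨l, a, hl⟩ := hdep _ _ hind
        have e : v = l • ((P : Matrix ι ι F) *ᵥ emb F₀ a) := by
          rw [hve, ← Matrix.mulVec_smul, ← Matrix.mulVec_smul, ← Matrix.mulVec_add, hl]
        rw [e]
        exact (hFullP M hHM a).smul (hiso a) l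
    exact le_antisymm hMG (le_of_full hf hN hcard hG hall)

end Cfsg.Agent.Lib.UnitarySp
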