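import Mathlib
import Cfsg.Prelude
import Cfsg.Agent.S0622
import Cfsg.Agent.S0623
import Cfsg.Agent.S0607
import Cfsg.Agent.Lib.FitCore
import Cfsg.Agent.Lib.H6PGroup
import Cfsg.Agent.Lib.ThompsonBasic
import Cfsg.Agent.Lib.PIrreducible

/-! The stable normal closure `W(S)` is normal in an action-`p`-stable group with `C(O_p) ≤ O_p`. -/

set_option autoImplicit false
set_option linter.all false

namespace Cfsg.Agent.Lib.WNormal

open Cfsg Cfsg.Agent.Lib.ThompsonBasic
open scoped commutatorElement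

universe u

variable {G : Type u} [Group G] [Finite G] {p : ℕ} [hpF : Fact p.Prime]

/-- `W(S)` viewed inside `G`. -/
abbrev WW (S : Sylow p G) : Subgroup G :=
  (stableNormalClosure p ↥(S : Subgroup G)).map (S : Subgroup G).subtype

theorem omega_facts {P : Type*} [Group P] (J : Subgroup P) :
    ∀ x ∈ omegaOne p (J ⊓ Subgroup.centralizer (J : Set P)),
      x ∈ J ⊓ Subgroup.centralizer (J : Set P) ∧ x ^ p = 1 := by
  intro x hx
  induction hx using Subgroup.closure_induction with
  | mem y hy => exact hy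
  | one => exact ⟨Subgroup.one_mem _, one_pow _⟩
  | mul y z _ _ hy hz =>
    refine ⟨Subgroup.mul_mem _ hy.1 hz.1, ?_⟩
    have hcomm : Commute y z := by
      have := Subgroup.mem_centralizer_iff.1 (Subgroup.mem_inf.1 hz.1).2 y (Subgroup.mem_inf.1 hy.1).1
      exact this
    rw [hcomm.mul_pow, hy.2, hz.2, one_mul]
  | inv y _ hy =>
    refine ⟨Subgroup.inv_mem _ hy.1, ?_⟩
    rw [inv_pow, hy.2, inv_one]

theorem ws_ea (S : Sylow p G) : IsElementaryAbelian p (stableNormalClosure p ↥(S : Subgroup G)) := by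
  have hle : stableNormalClosure p ↥(S : Subgroup G) ≤ omegaCenterThompson p ↥(S : Subgroup G) :=
    sInf_le Cfsg.Agent.S0622.omegaCT_mem
  refine ea_of_comm ?_ ?_
  · intro x hx y hy
    have h1 := omega_facts (p := p) _ x (hle hx)
    have h2 := omega_facts (p := p) _ y (hle hy)
    exact (Subgroup.mem_centralizer_iff.1 (Subgroup.mem_inf.1 h2.1).2 x (Subgroup.mem_inf.1 h1.1).1)
  · intro x hx
    exact (omega_facts (p := p) _ x (hle hx)).2

theorem WW_ea (S : Sylow p G) : IsElementaryAbelian p (WW S) := ea_map _ (ws_ea S)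

theorem WW_le_S (S : Sylow p G) : WW S ≤ (S : Subgroup G) := Subgroup.map_subtype_le _

theorem WW_norm (S : Sylow p G) {s : G} (hs : s ∈ (S : Subgroup G)) {w : G} (hw : w ∈ WW S) :
    s * w * s⁻¹ ∈ WW S := by
  obtain ⟨w₀, hw₀, rfl⟩ := hw
  have hc := (Cfsg.Agent.S0622.result (p := p) (S := ↥(S : Subgroup G)) S.isPGroup').1
  haveI : (stableNormalClosure p ↥(S : Subgroup G)).Normal := Subgroup.normal_of_characteristic _
  exact ⟨⟨s, hs⟩ * w₀ * ⟨s, hs⟩⁻¹, this.conj_mem _ hw₀ _, rfl⟩

theorem map_quad {K : Subgroup G} (X : Subgroup K) (t : K) :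
    (⁅⁅X, Subgroup.zpowers t⁆, Subgroup.zpowers t⁆).map K.subtype =
      ⁅⁅X.map K.subtype, Subgroup.zpowers (t : G)⁆, Subgroup.zpowers (t : G)⁆ := by
  rw [Subgroup.map_commutator, Subgroup.map_commutator, MonoidHom.map_zpowers]
  rfl

theorem map_comm' {K : Subgroup G} (X : Subgroup K) (t : K) :
    (⁅X, Subgroup.zpowers t⁆).map K.subtype = ⁅X.map K.subtype, Subgroup.zpowers (t : G)⁆ := by
  rw [Subgroup.map_commutator, MonoidHom.map_zpowers]
  rfl

theorem WW_no_quad (S : Sylow p G) {t : G} (ht : t ∈ (S : Subgroup G))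
    (hq : ⁅⁅WW S, Subgroup.zpowers t⁆, Subgroup.zpowers t⁆ = ⊥) : ⁅WW S, Subgroup.zpowers t⁆ = ⊥ := by
  have h1 := map_quad (stableNormalClosure p ↥(S : Subgroup G)) (⟨t, ht⟩ : (S : Subgroup G))
  have h2 : (⁅⁅stableNormalClosure p ↥(S : Subgroup G), Subgroup.zpowers (⟨t, ht⟩ : (S : Subgroup G))⁆,
      Subgroup.zpowers (⟨t, ht⟩ : (S : Subgroup G))⁆) = ⊥ :=
    (Subgroup.map_eq_bot_iff_of_injective _ (Subgroup.subtype_injective _)).1 (h1.trans hq)
  have h3 := Cfsg.Agent.S0623.result S.isPGroup' (⟨t, ht⟩ : (S : Subgroup G)) h2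
  have h4 := map_comm' (stableNormalClosure p ↥(S : Subgroup G)) (⟨t, ht⟩ : (S : Subgroup G))
  rw [h3, Subgroup.map_bot] at h4
  exact h4.symm

/-- The kernel of the action on `Q/Φ(Q)` is a `p`-group. -/
theorem kernel_isP (hc : Subgroup.centralizer (pCore p G : Set G) ≤ pCore p G) :
    IsPGroup p (sectionKernel (pCore p G) ((frattini ↥(pCore p G)).map (pCore p G).subtype)) := by
  have hpp : p.Prime := hpF.out
  haveI hQn : (pCore p G).Normal := Cfsg.Agent.Lib.FitCore.pCore_normal p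
  have hQ : IsPGroup p (pCore p G) := Cfsg.Agent.Lib.FitCore.pCore_isPGroup p
  obtain ⟨n, hn⟩ := IsPGroup.iff_card.1 hQ
  obtain ⟨r, -, hr⟩ := (Nat.dvd_prime_pow hpp).1 ((frattini ↥(pCore p G)).index_dvd_card.trans hn.dvd)
  let A : Subgroup (MulAut (pCore p G)) :=
    (sectionKernel (pCore p G) ((frattini ↥(pCore p G)).map (pCore p G).subtype)).map
      (MulAut.conjNormal (H := pCore p G))
  have hA : ∀ α ∈ A, ∀ x : pCore p G, α x * x⁻¹ ∈ frattini ↥(pCore p G) := by
    rintro _ ⟨g, hg, rfl⟩ x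
    have h1 : QuotientGroup.mk' ((frattini ↥(pCore p G)).map (pCore p G).subtype) g ∈
        Subgroup.centralizer (((pCore p G).map (QuotientGroup.mk' ((frattini ↥(pCore p G)).map (pCore p G).subtype)) :
          Subgroup (G ⧸ ((frattini ↥(pCore p G)).map (pCore p G).subtype))) : Set (G ⧸ ((frattini ↥(pCore p G)).map (pCore p G).subtype))) := hg
    have h2 := Subgroup.mem_centralizer_iff.1 h1 _ ⟨x.1, x.2, rfl⟩
    have h3 : (QuotientGroup.mk' ((frattini ↥(pCore p G)).map (pCore p G).subtype)) (g * x.1 * g⁻¹ * x.1⁻¹) = 1 := by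
      rw [map_mul, map_mul, map_mul, map_inv, map_inv, ← h2]
      group
    have h4 : g * x.1 * g⁻¹ * x.1⁻¹ ∈ (frattini ↥(pCore p G)).map (pCore p G).subtype :=
      (QuotientGroup.eq_one_iff _).1 h3
    obtain ⟨y, hy, hye⟩ := h4
    have h5 : (MulAut.conjNormal (H := pCore p G) g) x * x⁻¹ = y := by
      apply Subtype.ext
      exact hye.symm
    rw [h5]
    exact hy
  have hdvd := Cfsg.Agent.Lib.H6PGroup.card_dvd_main hn hr A hA
  obtain ⟨m, -, hm⟩ := (Nat.dvd_prime_pow hpp).1 hdvd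
  have hAp : IsPGroup p A := IsPGroup.of_card hm
  rintro ⟨x, hx⟩
  obtain ⟨k, hk⟩ := hAp ⟨MulAut.conjNormal x, x, hx, rfl⟩
  have hk' : (MulAut.conjNormal (H := pCore p G) x) ^ p ^ k = 1 := congrArg Subtype.val hk
  rw [← map_pow] at hk'
  have h1 : x ^ p ^ k ∈ Subgroup.centralizer (pCore p G : Set G) := by
    rw [Subgroup.mem_centralizer_iff]
    intro q hq
    have h2 := congrArg (fun f : MulAut (pCore p G) => ((f ⟨q, hq⟩ : pCore p G) : G)) hk'
    have h3 : x ^ p ^ k * q * (x ^ p ^ k)⁻¹ = q := h2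
    calc q * x ^ p ^ k = (x ^ p ^ k * q * (x ^ p ^ k)⁻¹) * x ^ p ^ k := by rw [h3]
      _ = x ^ p ^ k * q := by group
  obtain ⟨l, hl⟩ := hQ ⟨_, hc h1⟩
  refine ⟨k + l, Subtype.ext ?_⟩
  have h2 : (x ^ p ^ k) ^ p ^ l = 1 := congrArg Subtype.val hl
  show x ^ p ^ (k + l) = 1
  rw [pow_add, pow_mul, h2]

theorem D_isP {K D : Subgroup G} (hK : IsPGroup p K) (hKD : K ≤ D) (hr : ∃ k, K.relIndex D = p ^ k) :
    IsPGroup p D := by
  obtain ⟨k, hk⟩ := hr
  obtain ⟨m, hm⟩ := IsPGroup.iff_card.1 hK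
  have h1 := Subgroup.card_mul_index (K.subgroupOf D)
  rw [card_subgroupOf_of_le hKD, hm] at h1
  have h2 : (K.subgroupOf D).index = p ^ k := hk
  rw [h2, ← pow_add] at h1
  exact IsPGroup.of_card h1.symm

theorem WW_le (hc : Subgroup.centralizer (pCore p G : Set G) ≤ pCore p G)
    (h2 : IsPStableOnSection p (pCore p G) ((frattini ↥(pCore p G)).map (pCore p G).subtype))
    (S : Sylow p G) : WW S ≤ pCore p G := by
  intro a ha
  have hcab : ⁅WW S, WW S⁆ = ⊥ := by
    rw [eq_bot_iff, Subgroup.commutator_le]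
    intro x hx y hy
    rw [Subgroup.mem_bot, commutatorElement_eq_one_iff_mul_comm]
    exact ea_comm (WW_ea S) hx hy
  have h : ⁅⁅pCore p G, Subgroup.zpowers a⁆, Subgroup.zpowers a⁆ ≤ (frattini ↥(pCore p G)).map (pCore p G).subtype := by
    have h1 : ⁅pCore p G, Subgroup.zpowers a⁆ ≤ WW S := by
      rw [Subgroup.commutator_le]
      rintro q hq _ ⟨k, rfl⟩
      have hk : a ^ k ∈ WW S := zpow_mem ha k
      have hqS : q ∈ (S : Subgroup G) := Cfsg.Agent.Lib.FitCore.pCore_le_sylow p S hq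
      exact mul_mem (WW_norm S hqS hk) (inv_mem hk)
    have h2' : Subgroup.zpowers a ≤ WW S := by rwa [Subgroup.zpowers_le]
    have h3 := Subgroup.commutator_mono h1 h2'
    rw [hcab] at h3
    exact h3.trans bot_le
  obtain ⟨D, hDn, hKD, hr, haD⟩ := h2 a h
  exact Cfsg.Agent.Lib.FitCore.le_pCore p D hDn (D_isP (kernel_isP hc) hKD hr) haD

/-- Distinct conjugates of `W` commute. -/
theorem WW_comm_conj (S : Sylow p G) (hle : WW S ≤ pCore p G) (g : G) {w' w : G} (hw' : w' ∈ WW S)
    (hw : w ∈ WW S) : w * (g * w' * g⁻¹) = (g * w' * g⁻¹) * w := by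
  haveI hQn : (pCore p G).Normal := Cfsg.Agent.Lib.FitCore.pCore_normal p
  have hQS : pCore p G ≤ (S : Subgroup G) := Cfsg.Agent.Lib.FitCore.pCore_le_sylow p S
  set y := g * w' * g⁻¹ with hy
  have hyS : y ∈ (S : Subgroup G) := hQS (hQn.conj_mem _ (hle hw') g)
  let L : Subgroup G := (WW S).map (MulAut.conj g).toMonoidHom
  have hyL : y ∈ L := ⟨w', hw', rfl⟩
  have hLc : ⁅L, L⁆ = ⊥ := by
    rw [eq_bot_iff, Subgroup.commutator_le]
    intro x hx z hz
    rw [Subgroup.mem_bot, commutatorElement_eq_one_iff_mul_comm]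
    exact ea_comm (ea_map _ (WW_ea S)) hx hz
  have h1 : ⁅WW S, Subgroup.zpowers y⁆ ≤ L := by
    rw [Subgroup.commutator_le]
    rintro u hu _ ⟨k, rfl⟩
    have hk : y ^ k ∈ L := zpow_mem hyL k
    refine mul_mem ?_ (inv_mem hk)
    obtain ⟨z, hz, hze⟩ := hk
    have hze' : g * z * g⁻¹ = y ^ k := hze
    have hu' : g⁻¹ * u * g ∈ (S : Subgroup G) := by
      have := hQn.conj_mem _ (hle hu) g⁻¹
      rw [inv_inv] at this
      exact hQS this
    refine ⟨(g⁻¹ * u * g) * z * (g⁻¹ * u * g)⁻¹, WW_norm S hu' hz, ?_⟩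
    show g * ((g⁻¹ * u * g) * z * (g⁻¹ * u * g)⁻¹) * g⁻¹ = u * (fun x => y ^ k) 1 * u⁻¹
    show g * ((g⁻¹ * u * g) * z * (g⁻¹ * u * g)⁻¹) * g⁻¹ = u * y ^ k * u⁻¹
    rw [← hze']
    group
  have h2 : Subgroup.zpowers y ≤ L := by rwa [Subgroup.zpowers_le]
  have h3 := Subgroup.commutator_mono h1 h2
  rw [hLc, le_bot_iff] at h3
  have h4 := WW_no_quad S hyS h3
  have h5 : ⁅w, y⁆ ∈ ⁅WW S, Subgroup.zpowers y⁆ :=
    Subgroup.commutator_mem_commutator hw (Subgroup.mem_zpowers y)
  rw [h4, Subgroup.mem_bot, commutatorElement_eq_one_iff_mul_comm] at h5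
  exact h5

theorem ea_closure {X : Set G} (hc : ∀ x ∈ X, ∀ y ∈ X, x * y = y * x) (he : ∀ x ∈ X, x ^ p = 1) :
    IsElementaryAbelian p (Subgroup.closure X) := by
  have h1 : ∀ x ∈ X, Subgroup.closure X ≤ Subgroup.centralizer ({x} : Set G) := by
    intro x hx
    rw [Subgroup.closure_le]
    intro y hy
    rw [SetLike.mem_coe, Subgroup.mem_centralizer_singleton_iff]
    exact hc y hy x hx
  have h2 : ∀ y ∈ Subgroup.closure X, Subgroup.closure X ≤ Subgroup.centralizer ({y} : Set G) := by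
    intro y hy
    rw [Subgroup.closure_le]
    intro x hx
    rw [SetLike.mem_coe, Subgroup.mem_centralizer_singleton_iff]
    have := h1 x hx hy
    rw [Subgroup.mem_centralizer_singleton_iff] at this
    exact this.symm
  have h3 : ∀ x ∈ Subgroup.closure X, ∀ y ∈ Subgroup.closure X, x * y = y * x := by
    intro x hx y hy
    have := h2 y hy hx
    rwa [Subgroup.mem_centralizer_singleton_iff] at this
  refine ea_of_comm h3 ?_
  intro x hx
  induction hx using Subgroup.closure_induction with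
  | mem y hy => exact he y hy
  | one => exact one_pow _
  | mul y z hy hz h4 h5 =>
    have : Commute y z := h3 y hy z hz
    rw [this.mul_pow, h4, h5, one_mul]
  | inv y _ h4 => rw [inv_pow, h4, inv_one]

/-- The normal closure is elementary abelian. -/
theorem V_ea (S : Sylow p G) (hle : WW S ≤ pCore p G) :
    IsElementaryAbelian p (Subgroup.normalClosure (WW S : Set G)) := by
  apply ea_closure
  · intro x hx y hy
    obtain ⟨a, ha, hax⟩ := Group.mem_conjugatesOfSet_iff.1 hx
    obtain ⟨b, hb, hby⟩ := Group.mem_conjugatesOfSet_iff.1 hy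
    obtain ⟨c, rfl⟩ := isConj_iff.1 hax
    obtain ⟨d, rfl⟩ := isConj_iff.1 hby
    have h := WW_comm_conj S hle (c⁻¹ * d) hb ha
    calc c * a * c⁻¹ * (d * b * d⁻¹) = c * (a * ((c⁻¹ * d) * b * (c⁻¹ * d)⁻¹)) * c⁻¹ := by group
      _ = c * (((c⁻¹ * d) * b * (c⁻¹ * d)⁻¹) * a) * c⁻¹ := by rw [h]
      _ = _ := by group
  · intro x hx
    obtain ⟨a, ha, hax⟩ := Group.mem_conjugatesOfSet_iff.1 hx
    obtain ⟨c, rfl⟩ := isConj_iff.1 hax
    rw [conj_pow, (WW_ea S).2 a ha]
    group

/-- A quadratic element acts trivially on the normal closure. -/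
theorem quad_central (S : Sylow p G)
    (hst : IsPStableOn p (Subgroup.normalClosure (WW S : Set G))) (a : G)
    (ha : ⁅⁅Subgroup.normalClosure (WW S : Set G), Subgroup.zpowers a⁆, Subgroup.zpowers a⁆ = ⊥) :
    a ∈ Subgroup.centralizer (Subgroup.normalClosure (WW S : Set G) : Set G) := by
  set V := Subgroup.normalClosure (WW S : Set G) with hVdef
  haveI hVn : V.Normal := Subgroup.normalClosure_normal
  set C := Subgroup.centralizer (V : Set G) with hC
  haveI hCn : C.Normal := Subgroup.normal_centralizer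
  have hWV : WW S ≤ V := Subgroup.le_normalClosure
  have key : ∀ h : G, ∀ w ∈ WW S, (h⁻¹ * a * h) * w = w * (h⁻¹ * a * h) := by
    intro h w hw
    have hp1 := hst a ha
    haveI hcoreN : (pCore p (G ⧸ C)).Normal := Cfsg.Agent.Lib.FitCore.pCore_normal p
    set a' := h⁻¹ * a * h with ha'
    have hamem : (QuotientGroup.mk a' : G ⧸ C) ∈ pCore p (G ⧸ C) := by
      have h1 := hcoreN.conj_mem _ hp1 (QuotientGroup.mk h⁻¹)
      have h2 : (QuotientGroup.mk a' : G ⧸ C) = QuotientGroup.mk h⁻¹ * QuotientGroup.mk a * (QuotientGroup.mk h⁻¹)⁻¹ := by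
        have h3 : (QuotientGroup.mk' C) a' = (QuotientGroup.mk' C) h⁻¹ * (QuotientGroup.mk' C) a * ((QuotientGroup.mk' C) h⁻¹)⁻¹ := by
          rw [ha', map_mul, map_mul, map_inv, inv_inv]
        exact h3
      rw [h2]
      exact h1
    let P' := S.mapSurjective (QuotientGroup.mk'_surjective C)
    have hmem2 := Cfsg.Agent.Lib.FitCore.pCore_le_sylow p P' hamem
    have hP' : (P' : Subgroup _) = (S : Subgroup G).map (QuotientGroup.mk' C) := rfl
    rw [hP'] at hmem2
    obtain ⟨t, ht, htc⟩ := hmem2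
    have hcC : t⁻¹ * a' ∈ C := by
      rw [← QuotientGroup.eq]
      exact htc
    set c := t⁻¹ * a' with hcdef
    have hac : a' = t * c := by
      rw [hcdef]
      group
    have hcV : ∀ v ∈ V, c * v = v * c := by
      intro v hv
      rw [hC, Subgroup.mem_centralizer_iff] at hcC
      exact (hcC v hv).symm
    have haq : ⁅⁅V, Subgroup.zpowers a'⁆, Subgroup.zpowers a'⁆ = ⊥ := by
      have h1 := congrArg (Subgroup.map (MulAut.conj h⁻¹).toMonoidHom) ha
      have hVmap : V.map (MulAut.conj h⁻¹).toMonoidHom = V := by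
        apply le_antisymm
        · rintro _ ⟨v, hv, rfl⟩
          exact hVn.conj_mem _ hv h⁻¹
        · intro v hv
          refine ⟨h * v * h⁻¹, hVn.conj_mem _ hv h, ?_⟩
          show h⁻¹ * (h * v * h⁻¹) * h⁻¹⁻¹ = v
          group
      have hzp : (Subgroup.zpowers a).map (MulAut.conj h⁻¹).toMonoidHom = Subgroup.zpowers a' := by
        rw [MonoidHom.map_zpowers]
        congr 1
        show h⁻¹ * a * h⁻¹⁻¹ = a'
        rw [ha', inv_inv]
      rw [Subgroup.map_commutator, Subgroup.map_commutator, hVmap, hzp, Subgroup.map_bot] at h1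
      exact h1
    have hact : ∀ v ∈ V, t * v * t⁻¹ = a' * v * a'⁻¹ := by
      intro v hv
      rw [hac]
      calc t * v * t⁻¹ = t * (v * c) * c⁻¹ * t⁻¹ := by group
        _ = t * (c * v) * c⁻¹ * t⁻¹ := by rw [hcV v hv]
        _ = _ := by group
    have hXV : ⁅V, Subgroup.zpowers a'⁆ ≤ V := Subgroup.commutator_le_left _ _
    have htq : ⁅⁅V, Subgroup.zpowers t⁆, Subgroup.zpowers t⁆ = ⊥ := by
      rw [eq_bot_iff, ← haq]
      refine le_trans (Subgroup.commutator_mono (Cfsg.Agent.S0623.comm_eq V hact le_rfl) le_rfl) ?_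
      exact Cfsg.Agent.S0623.comm_eq V hact hXV
    have hWq : ⁅⁅WW S, Subgroup.zpowers t⁆, Subgroup.zpowers t⁆ = ⊥ := by
      rw [eq_bot_iff, ← htq]
      exact Subgroup.commutator_mono (Subgroup.commutator_mono hWV le_rfl) le_rfl
    have h3 := WW_no_quad S ht hWq
    have h5 : ⁅w, t⁆ ∈ ⁅WW S, Subgroup.zpowers t⁆ :=
      Subgroup.commutator_mem_commutator hw (Subgroup.mem_zpowers t)
    rw [h3, Subgroup.mem_bot, commutatorElement_eq_one_iff_mul_comm] at h5
    rw [hac]
    calc t * c * w = t * (c * w) := by group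
      _ = t * (w * c) := by rw [hcV w (hWV hw)]
      _ = (t * w) * c := by group
      _ = (w * t) * c := by rw [← h5]
      _ = _ := by group
  rw [Subgroup.mem_centralizer_iff]
  intro v hv
  have hle : V ≤ Subgroup.centralizer ({a} : Set G) := by
    rw [hVdef, Subgroup.normalClosure, Subgroup.closure_le]
    intro x hx
    obtain ⟨b, hb, hbx⟩ := Group.mem_conjugatesOfSet_iff.1 hx
    obtain ⟨d, rfl⟩ := isConj_iff.1 hbx
    rw [SetLike.mem_coe, Subgroup.mem_centralizer_singleton_iff]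
    have := key d b hb
    calc d * b * d⁻¹ * a = d * (b * (d⁻¹ * a * d)) * d⁻¹ := by group
      _ = d * ((d⁻¹ * a * d) * b) * d⁻¹ := by rw [this]
      _ = _ := by group
  have := hle hv
  rwa [Subgroup.mem_centralizer_singleton_iff] at this

/-- `J(S)` centralizes the normal closure. -/
theorem thompson_le (S : Sylow p G) (hle : WW S ≤ pCore p G)
    (hst : IsPStableOn p (Subgroup.normalClosure (WW S : Set G))) :
    thompsonSubgroup p ↥(S : Subgroup G) ≤
      (Subgroup.centralizer (Subgroup.normalClosure (WW S : Set G) : Set G)).subgroupOf (S : Subgroup G) := by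
  have hE := V_ea S hle
  set V := Subgroup.normalClosure (WW S : Set G) with hVdef
  haveI hVn : V.Normal := Subgroup.normalClosure_normal
  haveI hQn : (pCore p G).Normal := Cfsg.Agent.Lib.FitCore.pCore_normal p
  have hVS : V ≤ (S : Subgroup G) :=
    (Subgroup.normalClosure_le_normal hle).trans (Cfsg.Agent.Lib.FitCore.pCore_le_sylow p S)
  let VS : Subgroup ↥(S : Subgroup G) := V.subgroupOf (S : Subgroup G)
  haveI : VS.Normal := hVn.subgroupOf _
  have hES : IsElementaryAbelian p VS := ea_comap _ (Subgroup.subtype_injective _) hE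
  refine sSup_le fun A hA => ?_
  obtain ⟨-, h2, h3⟩ := Cfsg.Agent.S0607.result VS hES A hA
  have h4 : ⁅VS, ⁅VS, A⁆ ⊔ (A ⊓ Subgroup.centralizer ((⁅VS, A⁆ : Subgroup _) : Set _))⁆ = ⊥ := by
    rw [eq_bot_iff, Subgroup.commutator_le]
    intro v hv a₀ ha₀
    have hq : ⁅⁅VS, Subgroup.zpowers a₀⁆, Subgroup.zpowers a₀⁆ = ⊥ := by
      rw [eq_bot_iff, ← h2]
      have hz : Subgroup.zpowers a₀ ≤ ⁅VS, A⁆ ⊔ (A ⊓ Subgroup.centralizer ((⁅VS, A⁆ : Subgroup _) : Set _)) := by
        rwa [Subgroup.zpowers_le]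
      exact Subgroup.commutator_mono (Subgroup.commutator_mono le_rfl hz) hz
    have hq' : ⁅⁅V, Subgroup.zpowers a₀.1⁆, Subgroup.zpowers a₀.1⁆ = ⊥ := by
      have := map_quad VS a₀
      rw [hq, Subgroup.map_bot, show VS.map (S : Subgroup G).subtype = V from Subgroup.map_subgroupOf_eq_of_le hVS] at this
      exact this.symm
    have hcen := quad_central S hst a₀.1 hq'
    have h5 := Subgroup.mem_centralizer_iff.1 hcen v.1 hv
    rw [Subgroup.mem_bot, commutatorElement_eq_one_iff_mul_comm]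
    exact Subtype.ext h5
  have h5 : ⁅VS, A⁆ = ⊥ := by
    by_contra hne
    exact h3 hne h4
  intro a ha
  show a.1 ∈ Subgroup.centralizer (V : Set G)
  rw [Subgroup.mem_centralizer_iff]
  intro v hv
  have h6 : ⁅(⟨v, hVS hv⟩ : ↥(S : Subgroup G)), a⁆ ∈ ⁅VS, A⁆ :=
    Subgroup.commutator_mem_commutator hv ha
  rw [h5, Subgroup.mem_bot, commutatorElement_eq_one_iff_mul_comm] at h6
  exact congrArg Subtype.val h6

theorem thompsonOf_map_subtype {K : Subgroup G} (U : Subgroup K) :
    (thompsonSubgroupOf p U).map K.subtype = thompsonSubgroupOf p (U.map K.subtype) := by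
  unfold thompsonSubgroupOf
  let e : U ≃* U.map K.subtype := U.equivMapOfInjective K.subtype K.subtype_injective
  rw [← thompson_map_equiv (p := p) e, Subgroup.map_map, Subgroup.map_map]
  rfl

theorem normalizer_thompson {T : Subgroup G} {n : G} (hn : n ∈ Subgroup.normalizer (T : Set G)) :
    n ∈ Subgroup.normalizer (thompsonSubgroupOf p T : Set G) := by
  have hmap : T.map (MulAut.conj n).toMonoidHom = T := by
    ext x
    constructor
    · rintro ⟨y, hy, rfl⟩
      exact (Subgroup.mem_normalizer_iff.1 hn y).1 hy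
    · intro hx
      refine ⟨n⁻¹ * x * n, ?_, ?_⟩
      · have h0 : n * (n⁻¹ * x * n) * n⁻¹ = x := by group
        have h00 : n * (n⁻¹ * x * n) * n⁻¹ ∈ T := by rwa [h0]
        exact (Subgroup.mem_normalizer_iff.1 hn _).2 h00
      · show n * (n⁻¹ * x * n) * n⁻¹ = x
        group
  have h3 := thompsonOf_map (p := p) (MulAut.conj n) T
  rw [hmap] at h3
  rw [Subgroup.mem_normalizer_iff]
  intro x
  constructor
  · intro hx
    rw [← h3]
    exact ⟨x, hx, rfl⟩
  · intro hx
    rw [← h3] at hx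
    obtain ⟨y, hy, hye⟩ := hx
    have hye' : n * y * n⁻¹ = n * x * n⁻¹ := hye
    have : y = x := by
      have := mul_right_cancel hye'
      exact mul_left_cancel this
    rwa [← this]

theorem normalizer_le (S : Sylow p G) {C : Subgroup G}
    (hJ : thompsonSubgroup p ↥(S : Subgroup G) ≤ C.subgroupOf (S : Subgroup G)) :
    Subgroup.normalizer (((S : Subgroup G) ⊓ C : Subgroup G) : Set G) ≤
      Subgroup.normalizer (thompsonSubgroupOf p (S : Subgroup G) : Set G) := by
  have h1 : thompsonSubgroupOf p (C.subgroupOf (S : Subgroup G)) = thompsonSubgroup p ↥(S : Subgroup G) :=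
    thompsonOf_eq _ hJ
  have h2 : thompsonSubgroupOf p ((S : Subgroup G) ⊓ C) = thompsonSubgroupOf p (S : Subgroup G) := by
    rw [inf_comm, ← Subgroup.subgroupOf_map_subtype, ← thompsonOf_map_subtype, h1]
    rfl
  intro n hn
  rw [← h2]
  exact normalizer_thompson hn

theorem S_le (S : Sylow p G) : (S : Subgroup G) ≤ Subgroup.normalizer (thompsonSubgroupOf p (S : Subgroup G) : Set G) :=
  fun _ hs => normalizer_thompson (Subgroup.le_normalizer hs)

theorem stable_emb (hc : Subgroup.centralizer (pCore p G : Set G) ≤ pCore p G) (S : Sylow p G)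
    (h3 : ∀ (V : Subgroup ↥(Subgroup.normalizer (thompsonSubgroupOf p (S : Subgroup G) : Set G)))
      [V.Normal], V.map (Subgroup.normalizer (thompsonSubgroupOf p (S : Subgroup G) : Set G)).subtype ≤
        (omegaCenterThompson p ↥(S : Subgroup G)).map (S : Subgroup G).subtype → IsPStableOn p V) :
    IsStableEmbedding p (Subgroup.inclusion (S_le S)) := by
  set N := Subgroup.normalizer (thompsonSubgroupOf p (S : Subgroup G) : Set G) with hN
  haveI hQn : (pCore p G).Normal := Cfsg.Agent.Lib.FitCore.pCore_normal p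
  have hQ : IsPGroup p (pCore p G) := Cfsg.Agent.Lib.FitCore.pCore_isPGroup p
  have hQS : pCore p G ≤ (S : Subgroup G) := Cfsg.Agent.Lib.FitCore.pCore_le_sylow p S
  have hrange : (Subgroup.inclusion (S_le S)).range = (S : Subgroup G).subgroupOf N := by
    ext x
    constructor
    · rintro ⟨s, rfl⟩
      exact s.2
    · intro hx
      exact ⟨⟨x.1, hx⟩, rfl⟩
  refine ⟨Subgroup.inclusion_injective _, inferInstance, ⟨S.subtype (S_le S), ?_⟩, ?_, ?_, ?_⟩
  · rw [hrange]
    rfl
  · intro c hcc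
    have hQN : (pCore p G).subgroupOf N ≤ pCore p ↥N :=
      Cfsg.Agent.Lib.FitCore.le_pCore p _ (hQn.subgroupOf N) (hQ.comap_subtype)
    have h1 : c.1 ∈ Subgroup.centralizer (pCore p G : Set G) := by
      rw [Subgroup.mem_centralizer_iff]
      intro q hq
      have hqN : q ∈ N := S_le S (hQS hq)
      have h2 := Subgroup.mem_centralizer_iff.1 hcc ⟨q, hqN⟩ (hQN hq)
      exact congrArg Subtype.val h2
    exact hQN (hc h1)
  · have : (thompsonSubgroup p ↥(S : Subgroup G)).map (Subgroup.inclusion (S_le S)) =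
        (thompsonSubgroupOf p (S : Subgroup G)).subgroupOf N := by
      ext x
      constructor
      · rintro ⟨s, hs, rfl⟩
        exact ⟨s, hs, rfl⟩
      · rintro ⟨s, hs, hse⟩
        refine ⟨s, hs, Subtype.ext ?_⟩
        exact hse
    rw [this]
    exact Subgroup.normal_in_normalizer
  · intro V _ hV
    apply h3 V
    rintro _ ⟨v, hv, rfl⟩
    obtain ⟨s, hs, rfl⟩ := hV hv
    exact ⟨s, hs, rfl⟩

theorem main (hst : IsActionPStable p G) (hc : Subgroup.centralizer (pCore p G : Set G) ≤ pCore p G)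
    (S : Sylow p G) : (WW S).Normal := by
  obtain ⟨h1, h2, h3⟩ := hst
  have hle := WW_le hc h2 S
  have hE := V_ea S hle
  haveI hVn : (Subgroup.normalClosure (WW S : Set G)).Normal := Subgroup.normalClosure_normal
  have hstV := h1 (Subgroup.normalClosure (WW S : Set G)) hE
  have hJ := thompson_le S hle hstV
  haveI hCn : (Subgroup.centralizer (Subgroup.normalClosure (WW S : Set G) : Set G)).Normal :=
    Subgroup.normal_centralizer
  obtain ⟨R, hR⟩ := Cfsg.Agent.Lib.PIrreducible.exists_sylow_inf_normal S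
    (N := Subgroup.centralizer (Subgroup.normalClosure (WW S : Set G) : Set G))
  have hFrat := Sylow.normalizer_sup_eq_top R
  rw [hR] at hFrat
  have hemb := stable_emb hc S (h3 S)
  have hWN := Cfsg.Agent.S0622.closure_normal hemb
  have hWn : ∀ n ∈ Subgroup.normalizer (thompsonSubgroupOf p (S : Subgroup G) : Set G),
      ∀ w ∈ WW S, n * w * n⁻¹ ∈ WW S := by
    intro n hn w hw
    obtain ⟨w₀, hw₀, rfl⟩ := hw
    have h4 := hWN.conj_mem (Subgroup.inclusion (S_le S) w₀) ⟨w₀, hw₀, rfl⟩ ⟨n, hn⟩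
    obtain ⟨w₁, hw₁, he⟩ := h4
    exact ⟨w₁, hw₁, congrArg Subtype.val he⟩
  have htop : Subgroup.normalizer (WW S : Set G) = ⊤ := by
    rw [eq_top_iff, ← hFrat, sup_le_iff]
    constructor
    · intro n hn
      have hn' := normalizer_le S hJ hn
      rw [Subgroup.mem_normalizer_iff]
      intro x
      refine ⟨fun hx => hWn n hn' x hx, fun hx => ?_⟩
      have h7 := hWn n⁻¹ (inv_mem hn') _ hx
      have h8 : n⁻¹ * (n * x * n⁻¹) * n⁻¹⁻¹ = x := by group
      rwa [h8] at h7
    · intro c hcc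
      rw [Subgroup.mem_normalizer_iff]
      intro x
      by_cases hx : x ∈ WW S
      · have hxV : x ∈ Subgroup.normalClosure (WW S : Set G) := Subgroup.le_normalClosure hx
        have h5 := Subgroup.mem_centralizer_iff.1 hcc x hxV
        have h6 : c * x * c⁻¹ = x := by
          rw [← h5]
          group
        rw [h6]
      · have hx' : c * x * c⁻¹ ∉ WW S := by
          intro hh
          have hxV : c * x * c⁻¹ ∈ Subgroup.normalClosure (WW S : Set G) := Subgroup.le_normalClosure hh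
          have h5 := Subgroup.mem_centralizer_iff.1 hcc _ hxV
          have h6 : c * (c * x * c⁻¹) * c⁻¹ = c * x * c⁻¹ := by
            rw [← h5]
            group
          have h7 : c * x * c⁻¹ = x := by
            have h8 : c * (c * x * c⁻¹) * c⁻¹ = c * x * c⁻¹ := h6
            have h9 := mul_right_cancel h8
            have h10 := mul_left_cancel h9
            exact h10
          rw [h7] at hh
          exact hx hh
        exact ⟨fun h => absurd h hx, fun h => absurd h hx'⟩
  exact Subgroup.normalizer_eq_top_iff.1 htop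

end Cfsg.Agent.Lib.WNormal
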