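import Mathlib
import Cfsg.Prelude.Def_SolvableStructure
import Cfsg.Agent.Lib.Schmidt
import Cfsg.Agent.Lib.TypeP
import Cfsg.Agent.Lib.H5Basic

/-!
# Wielandt's theorem on nilpotent Hall subgroups
-/

set_option autoImplicit false
set_option linter.unusedVariables false
set_option linter.style.haveILetI false
set_option linter.unusedSectionVars false

namespace Cfsg.Agent.Lib.WielandtHall

open Cfsg Subgroup
open scoped Pointwise

universe u

theorem nil_of_inj {A B : Type*} [Group A] [Group B] (f : A →* B) (hf : Function.Injective f)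
    [Group.IsNilpotent B] : Group.IsNilpotent A :=
  nilpotent_of_mulEquiv (MonoidHom.ofInjective hf).symm

theorem nil_of_le {G : Type*} [Group G] {L H : Subgroup G} (hLH : L ≤ H) [Group.IsNilpotent H] :
    Group.IsNilpotent L :=
  nil_of_inj (Subgroup.inclusion hLH) (Subgroup.inclusion_injective hLH)

/-- A nontrivial group all of whose proper subgroups are nilpotent has a nontrivial normal Sylow
subgroup. -/
theorem exists_normal_sylow {K : Type u} [Group K] [Finite K] [Nontrivial K]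
    (hall : ∀ L : Subgroup K, L ≠ ⊤ → Group.IsNilpotent L) :
    ∃ q : ℕ, q.Prime ∧ ∃ Q : Subgroup K, Q.Normal ∧ Q ≠ ⊥ ∧ IsPGroup q Q := by
  by_cases hnil : Group.IsNilpotent K
  · have h1 : Nat.card K ≠ 1 := Finite.one_lt_card.ne'
    obtain ⟨q, hq, hqd⟩ := Nat.exists_prime_and_dvd h1
    haveI : Fact q.Prime := ⟨hq⟩
    let Q : Sylow q K := default
    have htf : ∀ (p : ℕ) (_ : Fact p.Prime) (P : Sylow p K), (P : Subgroup K).Normal :=
      ((isNilpotent_of_finite_tfae (G := K)).out 0 3).1 hnil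
    exact ⟨q, hq, Q, htf q ⟨hq⟩ Q, Q.ne_bot_of_dvd_card hqd, Q.isPGroup'⟩
  · obtain ⟨p, q, hp, hq, hpq, P, Q, -, hQ, hsup⟩ := Cfsg.Agent.Lib.Schmidt.schmidt (G := K) ⟨hnil, hall⟩
    refine ⟨q, hq, Q, hQ, ?_, Q.isPGroup'⟩
    intro h0
    rw [h0, sup_bot_eq] at hsup
    apply hnil
    haveI : Fact p.Prime := ⟨hp⟩
    have hpg : IsPGroup p K := by
      intro x
      obtain ⟨k, hk⟩ := P.isPGroup' ⟨x, by rw [hsup]; trivial⟩
      exact ⟨k, by simpa using congrArg Subtype.val hk⟩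
    exact hpg.isNilpotent

theorem wielandt (n : ℕ) : ∀ (G : Type u) [Group G] [Finite G], Nat.card G = n →
    ∀ H K : Subgroup G, Group.IsNilpotent H → (Nat.card H).Coprime H.index →
    (∀ p : ℕ, p.Prime → p ∣ Nat.card K → p ∣ Nat.card H) →
    ∃ x : G, K ≤ H.map (MulAut.conj x).toMonoidHom := by
  induction n using Nat.strong_induction_on with
  | _ n ih =>
  intro G _ _ hn H K hH hHall hK
  by_contra hno0
  push_neg at hno0
  -- minimal counterexample
  let C : Set (Subgroup G) := {L | (∀ p : ℕ, p.Prime → p ∣ Nat.card L → p ∣ Nat.card H) ∧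
    ∀ x : G, ¬ L ≤ H.map (MulAut.conj x).toMonoidHom}
  obtain ⟨K₀, hK₀⟩ := (Set.toFinite C).exists_minimal ⟨K, hK, hno0⟩
  clear hK hno0 K
  obtain ⟨hKp, hKno⟩ := hK₀.1
  have hKmin : ∀ L : Subgroup G, L ≤ K₀ → L ≠ K₀ → ∃ x : G, L ≤ H.map (MulAut.conj x).toMonoidHom := by
    intro L hL hne
    by_contra hno
    push_neg at hno
    have hin : L ∈ C := ⟨fun p hp hd => hKp p hp (dvd_trans hd (Subgroup.card_dvd_of_le hL)), hno⟩
    exact hne (le_antisymm hL (hK₀.2 hin hL))
  have hK1 : K₀ ≠ ⊥ := by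
    intro h0
    apply hKno 1
    rw [h0]
    exact bot_le
  haveI hKnt : Nontrivial K₀ := (Subgroup.nontrivial_iff_ne_bot _).2 hK1
  -- a normal Sylow subgroup of `K₀`
  have hall : ∀ L : Subgroup K₀, L ≠ ⊤ → Group.IsNilpotent L := by
    intro L hL
    have hne : L.map K₀.subtype ≠ K₀ := by
      intro h
      apply hL
      rw [eq_top_iff]
      intro y _
      have hy : (y : G) ∈ L.map K₀.subtype := by rw [h]; exact y.2
      obtain ⟨z, hz, hze⟩ := hy
      have : z = y := Subtype.ext hze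
      rwa [← this]
    obtain ⟨x, hx⟩ := hKmin (L.map K₀.subtype) (Subgroup.map_subtype_le _) hne
    haveI : Group.IsNilpotent (H.map (MulAut.conj x).toMonoidHom) :=
      nilpotent_of_surjective ((MulAut.conj x).toMonoidHom.subgroupMap H)
        ((MulAut.conj x).toMonoidHom.subgroupMap_surjective H)
    refine nil_of_inj (MonoidHom.codRestrict (K₀.subtype.comp L.subtype) _ (fun y => hx ⟨y, y.2, rfl⟩)) ?_
    intro a b hab
    have := congrArg Subtype.val hab
    exact Subtype.ext (Subtype.ext this)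
  obtain ⟨q, hq, Q₀, hQ₀n, hQ₀1, hQ₀p⟩ := exists_normal_sylow hall
  haveI hqf : Fact q.Prime := ⟨hq⟩
  let Q : Subgroup G := Q₀.map K₀.subtype
  have hQ1 : Q ≠ ⊥ := fun h0 => hQ₀1 ((Subgroup.map_eq_bot_iff_of_injective _ K₀.subtype_injective).1 h0)
  have hQp : IsPGroup q Q := hQ₀p.map _
  have hQK : Q ≤ K₀ := Subgroup.map_subtype_le _
  have hKQ : K₀ ≤ Subgroup.normalizer (Q : Set G) := by
    intro k hk
    apply Cfsg.Agent.Lib.H5Basic.mem_normalizer_of_map_conj_le
    rintro _ ⟨_, ⟨z, hz, rfl⟩, rfl⟩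
    exact ⟨(⟨k, hk⟩ : K₀) * z * (⟨k, hk⟩ : K₀)⁻¹, hQ₀n.conj_mem z hz _, rfl⟩
  have hdvdcard : ∀ L : Subgroup G, L ≠ ⊥ → IsPGroup q L → q ∣ Nat.card L := by
    intro L hL hLp
    obtain ⟨k, hk⟩ := IsPGroup.iff_card.1 hLp
    rw [hk]
    refine dvd_pow_self q ?_
    rintro rfl
    rw [pow_zero] at hk
    exact hL (Subgroup.card_eq_one.1 hk)
  have hqH : q ∣ Nat.card H :=
    hKp q hq (dvd_trans (hdvdcard Q hQ1 hQp) (Subgroup.card_dvd_of_le hQK))
  have hindex : ∀ r : ℕ, r.Prime → r ∣ Nat.card H → ¬ r ∣ H.index := fun r hr hd h =>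
    (Nat.Prime.coprime_iff_not_dvd hr).1 (Nat.Coprime.coprime_dvd_left hd hHall) h
  have hsylH : ∀ (r : ℕ) (hr : r.Prime), r ∣ Nat.card H → ∀ U : Sylow r H, ∃ U' : Sylow r G,
      (U' : Subgroup G) = (U : Subgroup H).map H.subtype := by
    intro r hr hd U
    haveI : Fact r.Prime := ⟨hr⟩
    have h1 : ¬ r ∣ ((U : Subgroup H).map H.subtype).index := by
      rw [Subgroup.index_map_subtype, hr.dvd_mul]
      rintro (h | h)
      · exact U.not_dvd_index h
      · exact hindex r hr hd h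
    exact ⟨(U.isPGroup'.map H.subtype).toSylow h1, IsPGroup.toSylow_coe _ _⟩
  have hcommH : ∀ a ∈ H, ∀ b ∈ H, (orderOf a).Coprime (orderOf b) → a * b = b * a := by
    intro a ha b hb hab
    have h1 := Cfsg.Agent.Lib.TypeP.nilp_comm_coprime (N := H) _ ⟨a, ha⟩ rfl ⟨b, hb⟩ (by
      simpa [Subgroup.orderOf_mk] using hab)
    exact congrArg Subtype.val h1
  have hord : ∀ (r : ℕ) (hr : r.Prime) (L : Subgroup G), IsPGroup r L → ∀ x ∈ L, ∃ k, orderOf x = r ^ k := by
    intro r hr L hL x hx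
    haveI : Fact r.Prime := ⟨hr⟩
    obtain ⟨m, hm⟩ := IsPGroup.iff_card.1 hL
    have h1 : orderOf (⟨x, hx⟩ : L) ∣ r ^ m := hm ▸ orderOf_dvd_natCard _
    rw [Subgroup.orderOf_mk] at h1
    obtain ⟨k, -, hk⟩ := (Nat.dvd_prime_pow hr).1 h1
    exact ⟨k, hk⟩
  let T₀ : Sylow q H := default
  obtain ⟨T, hT⟩ := hsylH q hq hqH T₀
  have hTH : (T : Subgroup G) ≤ H := by
    rw [hT]; exact Subgroup.map_subtype_le _
  -- choice of the conjugate of `Q`
  let SS : Set (Subgroup G) := {Q₁ | (∃ g : G, Q₁ = Q.map (MulAut.conj g).toMonoidHom) ∧ Q₁ ≤ T}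
  have hSS : SS.Nonempty := by
    obtain ⟨S, hS⟩ := hQp.exists_le_sylow
    obtain ⟨g, hg⟩ := MulAction.exists_smul_eq G S T
    refine ⟨Q.map (MulAut.conj g).toMonoidHom, ⟨g, rfl⟩, ?_⟩
    rintro _ ⟨z, hz, rfl⟩
    have := Cfsg.Agent.Lib.H5Basic.conj_mem_smul_sylow S g z (hS hz)
    rwa [hg] at this
  obtain ⟨Q₁, hQ₁S, hQ₁max⟩ := Set.exists_max_image SS
    (fun L => Nat.card ((T : Subgroup G) ⊓ Subgroup.normalizer (L : Set G) : Subgroup G))
    (Set.toFinite _) hSS
  obtain ⟨⟨g₀, hg₀⟩, hQ₁T⟩ := hQ₁S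
  let N : Subgroup G := Subgroup.normalizer (Q₁ : Set G)
  have hQ₁N : Q₁ ≤ N := Subgroup.le_normalizer
  have hQ₁1 : Q₁ ≠ ⊥ := by
    rw [hg₀]
    intro h0
    exact hQ1 ((Subgroup.map_eq_bot_iff_of_injective _ (MulAut.conj g₀).injective).1 h0)
  have hQ₁p : IsPGroup q Q₁ := hg₀ ▸ hQp.map _
  have hK₁ : ∀ k ∈ K₀, g₀ * k * g₀⁻¹ ∈ N := by
    intro k hk
    apply Cfsg.Agent.Lib.H5Basic.mem_normalizer_of_map_conj_le
    rw [hg₀]
    rintro _ ⟨_, ⟨z, hz, rfl⟩, rfl⟩
    refine ⟨k * z * k⁻¹, (Subgroup.mem_normalizer_iff.1 (hKQ hk) z).1 hz, ?_⟩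
    simp [MulAut.conj_apply, mul_assoc]
  have hfinal : ∀ x : G, (∀ k ∈ K₀, g₀ * k * g₀⁻¹ ∈ H.map (MulAut.conj x).toMonoidHom) → False := by
    intro x hx
    apply hKno (g₀⁻¹ * x)
    intro k hk
    obtain ⟨h, hh, he⟩ := hx k hk
    refine ⟨h, hh, ?_⟩
    have he' : x * h * x⁻¹ = g₀ * k * g₀⁻¹ := he
    have : k = g₀⁻¹ * (x * h * x⁻¹) * g₀ := by rw [he']; group
    rw [this]
    simp [MulAut.conj_apply, mul_assoc]
  -- the Sylow property
  have hRmax : ∀ R : Subgroup G, IsPGroup q R → R ≤ N → (T : Subgroup G) ⊓ N ≤ R → R ≤ (T : Subgroup G) ⊓ N := by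
    intro R hRp hRN hTR
    obtain ⟨S, hS⟩ := hRp.exists_le_sylow
    obtain ⟨y, hy⟩ := MulAction.exists_smul_eq G S T
    have hRy : R.map (MulAut.conj y).toMonoidHom ≤ (T : Subgroup G) := by
      rintro _ ⟨z, hz, rfl⟩
      have := Cfsg.Agent.Lib.H5Basic.conj_mem_smul_sylow S y z (hS hz)
      rwa [hy] at this
    have hQ₁R : Q₁ ≤ R := le_trans (le_inf hQ₁T hQ₁N) hTR
    have hmem : Q₁.map (MulAut.conj y).toMonoidHom ∈ SS := by
      refine ⟨⟨y * g₀, ?_⟩, le_trans (Subgroup.map_mono hQ₁R) hRy⟩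
      rw [hg₀, Subgroup.map_map]
      congr 1
      ext a
      simp [MulAut.conj_apply, mul_assoc]
    have hmax := hQ₁max _ hmem
    have hle : R.map (MulAut.conj y).toMonoidHom ≤ (T : Subgroup G) ⊓
        Subgroup.normalizer ((Q₁.map (MulAut.conj y).toMonoidHom : Subgroup G) : Set G) := by
      refine le_inf hRy ?_
      rintro _ ⟨r, hr, rfl⟩
      apply Cfsg.Agent.Lib.H5Basic.mem_normalizer_of_map_conj_le
      rintro _ ⟨_, ⟨z, hz, rfl⟩, rfl⟩
      refine ⟨r * z * r⁻¹, (Subgroup.mem_normalizer_iff.1 (hRN hr) z).1 hz, ?_⟩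
      simp [MulAut.conj_apply, mul_assoc]
    have hc1 : Nat.card R ≤ Nat.card ((T : Subgroup G) ⊓ N : Subgroup G) := by
      calc Nat.card R = Nat.card (R.map (MulAut.conj y).toMonoidHom) :=
            (Cfsg.Agent.Lib.H5Basic.card_map_conj R y).symm
        _ ≤ _ := Subgroup.card_le_of_le hle
        _ ≤ _ := hmax
    exact (Subgroup.eq_of_le_of_card_ge hTR hc1).symm.le
  -- Hall property in `N`
  have hqidx : ¬ q ∣ (H.subgroupOf N).index := by
    let X : Subgroup N := ((T : Subgroup G) ⊓ N).subgroupOf N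
    have hX : IsPGroup q X := by
      intro x
      have hx1 : ((x : N) : G) ∈ (T : Subgroup G) := (Subgroup.mem_subgroupOf.1 x.2).1
      obtain ⟨k, hk⟩ := T.isPGroup' ⟨_, hx1⟩
      refine ⟨k, ?_⟩
      apply Subtype.ext
      apply Subtype.ext
      simpa using congrArg Subtype.val hk
    obtain ⟨S₀, hS₀⟩ := hX.exists_le_sylow
    have hR := hRmax (S₀.map N.subtype) (S₀.isPGroup'.map _) (Subgroup.map_subtype_le _) (by
      intro y hy
      exact ⟨⟨y, hy.2⟩, hS₀ (Subgroup.mem_subgroupOf.2 hy), rfl⟩)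
    have hS₀X : (S₀ : Subgroup N) ≤ X := by
      intro y hy
      exact Subgroup.mem_subgroupOf.2 (hR ⟨y, hy, rfl⟩)
    have hXH : X ≤ H.subgroupOf N := by
      intro y hy
      exact Subgroup.mem_subgroupOf.2 (hTH (Subgroup.mem_subgroupOf.1 hy).1)
    intro hd
    exact S₀.not_dvd_index (dvd_trans hd (Subgroup.index_dvd_of_le (le_trans hS₀X hXH)))
  have hQ₁H : Q₁ ≤ H := le_trans hQ₁T hTH
  have hrfacts : ∀ r : ℕ, r.Prime → r ≠ q → r ∣ Nat.card H →
      ¬ r ∣ (H.subgroupOf N).index ∧ r ∣ Nat.card (H.subgroupOf N) := by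
    intro r hr hrq hd
    haveI : Fact r.Prime := ⟨hr⟩
    let U : Sylow r H := default
    obtain ⟨U', hU'⟩ := hsylH r hr hd U
    have hU'H : (U' : Subgroup G) ≤ H := by
      rw [hU']; exact Subgroup.map_subtype_le _
    have hU'N : (U' : Subgroup G) ≤ N := by
      intro u hu
      refine Subgroup.centralizer_le_normalizer _ (Subgroup.mem_centralizer_iff.2 ?_)
      intro z hz
      refine hcommH z (hQ₁H hz) u (hU'H hu) ?_
      obtain ⟨k, hk⟩ := hord q hq Q₁ hQ₁p z hz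
      obtain ⟨l, hl⟩ := hord r hr U' U'.isPGroup' u hu
      rw [hk, hl]
      exact Nat.Coprime.pow _ _ ((Nat.coprime_primes hq hr).2 hrq.symm)
    have hXH : (U' : Subgroup G).subgroupOf N ≤ H.subgroupOf N := by
      intro y hy
      exact Subgroup.mem_subgroupOf.2 (hU'H (Subgroup.mem_subgroupOf.1 hy))
    constructor
    · intro hd2
      have h1 : ((U' : Subgroup G).subgroupOf N).index ∣ (U' : Subgroup G).index :=
        Dvd.intro _ (Subgroup.relIndex_mul_index hU'N)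
      exact U'.not_dvd_index (dvd_trans hd2 (dvd_trans (Subgroup.index_dvd_of_le hXH) h1))
    · have h1 : r ∣ Nat.card (U : Subgroup H) := by
        have := U.pow_dvd_card_of_pow_dvd_card (n := 1) (by rwa [pow_one])
        rwa [pow_one] at this
      have h2 : Nat.card (U : Subgroup H) = Nat.card (U' : Subgroup G) := by
        rw [hU', Subgroup.card_map_of_injective H.subtype_injective]
      have h3 : Nat.card ((U' : Subgroup G).subgroupOf N) = Nat.card (U' : Subgroup G) :=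
        Nat.card_congr (Subgroup.subgroupOfEquivOfLe hU'N).toEquiv
      rw [h2, ← h3] at h1
      exact dvd_trans h1 (Subgroup.card_dvd_of_le hXH)
  have hqd2 : q ∣ Nat.card (H.subgroupOf N) := by
    have h1 := hdvdcard Q₁ hQ₁1 hQ₁p
    have h3 : Nat.card (Q₁.subgroupOf N) = Nat.card Q₁ :=
      Nat.card_congr (Subgroup.subgroupOfEquivOfLe hQ₁N).toEquiv
    rw [← h3] at h1
    refine dvd_trans h1 (Subgroup.card_dvd_of_le ?_)
    intro y hy
    exact Subgroup.mem_subgroupOf.2 (hQ₁H (Subgroup.mem_subgroupOf.1 hy))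
  let φ : H.subgroupOf N →* H := MonoidHom.codRestrict (N.subtype.comp (H.subgroupOf N).subtype) H
    (fun x => Subgroup.mem_subgroupOf.1 x.2)
  have hφ : Function.Injective φ := by
    intro a b hab
    have := congrArg Subtype.val hab
    exact Subtype.ext (Subtype.ext this)
  have hcardφ : Nat.card (H.subgroupOf N) ∣ Nat.card H := Subgroup.card_dvd_of_injective φ hφ
  have hcopN : (Nat.card (H.subgroupOf N)).Coprime (H.subgroupOf N).index := by
    by_contra hnc
    obtain ⟨r, hr, hr1, hr2⟩ := Nat.Prime.not_coprime_iff_dvd.1 hnc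
    by_cases hrq : r = q
    · subst hrq; exact hqidx hr2
    · exact (hrfacts r hr hrq (dvd_trans hr1 hcardφ)).1 hr2
  by_cases hNtop : N = ⊤
  · -- normal case
    haveI hQn : Q₁.Normal := Subgroup.normalizer_eq_top_iff.1 hNtop
    let π := QuotientGroup.mk' Q₁
    have hπ : Function.Surjective π := QuotientGroup.mk'_surjective Q₁
    have hker : π.ker = Q₁ := QuotientGroup.ker_mk' Q₁
    have hcard' : Nat.card (G ⧸ Q₁) * Nat.card Q₁ = Nat.card G :=
      (Subgroup.card_eq_card_quotient_mul_card_subgroup Q₁).symm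
    have hQc : 1 < Nat.card Q₁ := by
      have h0 : Nat.card Q₁ ≠ 1 := fun h => hQ₁1 (Subgroup.card_eq_one.1 h)
      have h2 : 0 < Nat.card Q₁ := Nat.card_pos
      omega
    have hlt : Nat.card (G ⧸ Q₁) < n := by
      rw [← hn, ← hcard']
      have hpos : 0 < Nat.card (G ⧸ Q₁) := Nat.card_pos
      nlinarith
    have hcomH : (H.map π).comap π = H := by
      rw [Subgroup.comap_map_eq, hker]; exact sup_eq_left.2 hQ₁H
    have hiH : (H.map π).index = H.index := by
      conv_rhs => rw [← hcomH]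
      exact (Subgroup.index_comap_of_surjective _ hπ).symm
    have hcop3 : (Nat.card (H.map π)).Coprime (H.map π).index := by
      rw [hiH]
      refine Nat.Coprime.coprime_dvd_left ?_ hHall
      exact Subgroup.card_dvd_of_surjective (π.subgroupMap H) (π.subgroupMap_surjective H)
    haveI hH3 : Group.IsNilpotent (H.map π) :=
      nilpotent_of_surjective (π.subgroupMap H) (π.subgroupMap_surjective H)
    obtain ⟨y, hy⟩ := ih _ hlt (G ⧸ Q₁) rfl (H.map π) ((K₀.map (MulAut.conj g₀).toMonoidHom).map π) hH3 hcop3 (by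
      intro r hr hd
      have h1 : r ∣ Nat.card (K₀.map (MulAut.conj g₀).toMonoidHom) :=
        dvd_trans hd (Subgroup.card_dvd_of_surjective (π.subgroupMap _) (π.subgroupMap_surjective _))
      rw [Cfsg.Agent.Lib.H5Basic.card_map_conj] at h1
      have h2 := hKp r hr h1
      have h3 : r ∣ Nat.card (G ⧸ Q₁) := dvd_trans hd (Subgroup.card_subgroup_dvd_card _)
      have h4 := (H.map π).card_mul_index
      rw [← h4, hr.dvd_mul, hiH] at h3
      exact h3.resolve_right (hindex r hr h2))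
    obtain ⟨x, rfl⟩ := hπ y
    refine hfinal x ?_
    intro k hk
    have h1 : π (g₀ * k * g₀⁻¹) ∈ (H.map π).map (MulAut.conj (π x)).toMonoidHom :=
      hy ⟨g₀ * k * g₀⁻¹, ⟨k, hk, rfl⟩, rfl⟩
    obtain ⟨_, ⟨h, hh, rfl⟩, he⟩ := h1
    have he' : π x * π h * (π x)⁻¹ = π (g₀ * k * g₀⁻¹) := he
    have h2 : x⁻¹ * (g₀ * k * g₀⁻¹) * x ∈ (H.map π).comap π := by
      rw [Subgroup.mem_comap, map_mul, map_mul, map_inv, ← he']
      refine ⟨h, hh, ?_⟩
      group
    rw [hcomH] at h2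
    refine ⟨_, h2, ?_⟩
    simp [MulAut.conj_apply, mul_assoc]
  · -- the normaliser is proper
    have hlt : Nat.card N < n := by
      rw [← hn]
      refine lt_of_le_of_ne (Subgroup.card_le_card_group N) ?_
      intro h
      exact hNtop ((Subgroup.card_eq_iff_eq_top N).1 h)
    have hK₂le : K₀.map (MulAut.conj g₀).toMonoidHom ≤ N := by
      rintro _ ⟨k, hk, rfl⟩
      exact hK₁ k hk
    have hK₂c : Nat.card ((K₀.map (MulAut.conj g₀).toMonoidHom).subgroupOf N) = Nat.card K₀ := by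
      rw [Nat.card_congr (Subgroup.subgroupOfEquivOfLe hK₂le).toEquiv, Cfsg.Agent.Lib.H5Basic.card_map_conj]
    haveI hH2 : Group.IsNilpotent (H.subgroupOf N) := nil_of_inj φ hφ
    obtain ⟨x, hx⟩ := ih _ hlt N rfl (H.subgroupOf N) ((K₀.map (MulAut.conj g₀).toMonoidHom).subgroupOf N) hH2 hcopN (by
      intro r hr hd
      rw [hK₂c] at hd
      have h2 := hKp r hr hd
      by_cases hrq : r = q
      · subst hrq; exact hqd2
      · exact (hrfacts r hr hrq h2).2)
    refine hfinal x ?_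
    intro k hk
    have h1 : (⟨g₀ * k * g₀⁻¹, hK₁ k hk⟩ : N) ∈ (K₀.map (MulAut.conj g₀).toMonoidHom).subgroupOf N :=
      Subgroup.mem_subgroupOf.2 ⟨k, hk, rfl⟩
    obtain ⟨h, hh, he⟩ := hx h1
    refine ⟨h, Subgroup.mem_subgroupOf.1 hh, ?_⟩
    have := congrArg Subtype.val he
    simpa [MulAut.conj_apply] using this

end Cfsg.Agent.Lib.WielandtHall
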