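import Mathlib
import Cfsg.Agent.Lib.H5Basic

/-!
# A lemma of Wielandt on `p`-closures of conjugates
-/

set_option autoImplicit false
set_option linter.unusedVariables false
set_option linter.style.haveILetI false
set_option linter.unusedSectionVars false

namespace Cfsg.Agent.Lib.WielandtZ

open Subgroup

universe u

variable {G : Type u} [Group G] [Finite G]

/-- The subgroup generated by the conjugates of `Z` inside `X`. -/
def WW (Z X : Subgroup G) : Subgroup G :=
  ⨆ g ∈ {g : G | Z.map (MulAut.conj g).toMonoidHom ≤ X}, Z.map (MulAut.conj g).toMonoidHom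

theorem WW_le (Z X : Subgroup G) : WW Z X ≤ X := iSup₂_le fun g hg => hg

theorem le_WW {Z X : Subgroup G} {g : G} (h : Z.map (MulAut.conj g).toMonoidHom ≤ X) :
    Z.map (MulAut.conj g).toMonoidHom ≤ WW Z X :=
  le_iSup₂_of_le g h le_rfl

theorem WW_mono (Z : Subgroup G) {X X' : Subgroup G} (h : X ≤ X') : WW Z X ≤ WW Z X' :=
  iSup₂_le fun g hg => le_WW (le_trans hg h)

theorem normalizes_WW (Z L : Subgroup G) {u : G} (hu : u ∈ Subgroup.normalizer (L : Set G)) :
    u ∈ Subgroup.normalizer ((WW Z L : Subgroup G) : Set G) := by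
  apply Cfsg.Agent.Lib.H5Basic.mem_normalizer_of_map_conj_le
  rw [Subgroup.map_le_iff_le_comap]
  refine iSup₂_le fun g hg => ?_
  rw [← Subgroup.map_le_iff_le_comap, Subgroup.map_map]
  have he : (MulAut.conj u).toMonoidHom.comp (MulAut.conj g).toMonoidHom = (MulAut.conj (u * g)).toMonoidHom := by
    ext a
    simp [MulAut.conj_apply, mul_assoc]
  rw [he]
  refine le_WW ?_
  rw [← he, ← Subgroup.map_map]
  rintro _ ⟨_, ⟨z, hz, rfl⟩, rfl⟩
  exact (Subgroup.mem_normalizer_iff.1 hu _).1 (hg ⟨z, hz, rfl⟩)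

theorem wielandt_closure (p : ℕ) [hp : Fact p.Prime] (Z Y : Subgroup G)
    (h : ∀ g : G, IsPGroup p ↥(⨆ y ∈ Y, Z.map (MulAut.conj (y * g)).toMonoidHom)) :
    ∃ P : Sylow p G, Y ≤ Subgroup.normalizer ((WW Z (P : Subgroup G) : Subgroup G) : Set G) := by
  let C : Set (Subgroup G) := {X | IsPGroup p X ∧ Y ≤ Subgroup.normalizer (X : Set G) ∧ WW Z X = X}
  have hC : C.Nonempty := by
    refine ⟨⊥, IsPGroup.of_bot, ?_, le_antisymm (WW_le _ _) bot_le⟩
    intro y _
    rw [Subgroup.mem_normalizer_iff]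
    intro x
    simp only [SetLike.mem_coe, Subgroup.mem_bot]
    constructor
    · rintro rfl; simp
    · intro hx
      have : x = y⁻¹ * (y * x * y⁻¹) * y := by group
      rw [this, hx]; simp
  obtain ⟨X, hX⟩ := (Set.toFinite C).exists_maximal hC
  obtain ⟨hXp, hXY, hXW⟩ := hX.1
  have ha : ∀ h₀ : G, Z.map (MulAut.conj h₀).toMonoidHom ≤ Subgroup.normalizer (X : Set G) →
      Z.map (MulAut.conj h₀).toMonoidHom ≤ X := by
    intro h₀ hh₀
    let T : Subgroup G := ⨆ y ∈ Y, Z.map (MulAut.conj (y * h₀)).toMonoidHom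
    have hgen : ∀ y ∈ Y, Z.map (MulAut.conj (y * h₀)).toMonoidHom ≤ T := fun y hy =>
      le_iSup₂_of_le y hy le_rfl
    have hTN : T ≤ Subgroup.normalizer (X : Set G) := by
      refine iSup₂_le fun y hy => ?_
      rintro _ ⟨z, hz, rfl⟩
      have h1 : h₀ * z * h₀⁻¹ ∈ Subgroup.normalizer (X : Set G) := hh₀ ⟨z, hz, rfl⟩
      have h2 : (MulAut.conj (y * h₀)).toMonoidHom z = y * (h₀ * z * h₀⁻¹) * y⁻¹ := by
        simp [MulAut.conj_apply, mul_assoc]
      rw [h2]
      exact mul_mem (mul_mem (hXY hy) h1) (inv_mem (hXY hy))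
    have hX'p : IsPGroup p (T ⊔ X : Subgroup G) := (h h₀).to_sup_of_normal_right' hXp hTN
    have hTY : ∀ y' ∈ Y, y' ∈ Subgroup.normalizer (T : Set G) := by
      intro y' hy'
      apply Cfsg.Agent.Lib.H5Basic.mem_normalizer_of_map_conj_le
      rw [Subgroup.map_le_iff_le_comap]
      refine iSup₂_le fun y hy => ?_
      rw [← Subgroup.map_le_iff_le_comap, Subgroup.map_map]
      have he : (MulAut.conj y').toMonoidHom.comp (MulAut.conj (y * h₀)).toMonoidHom =
          (MulAut.conj (y' * y * h₀)).toMonoidHom := by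
        ext a
        simp [MulAut.conj_apply, mul_assoc]
      rw [he]
      exact hgen _ (mul_mem hy' hy)
    have hX'Y : Y ≤ Subgroup.normalizer ((T ⊔ X : Subgroup G) : Set G) := by
      intro y hy
      apply Cfsg.Agent.Lib.H5Basic.mem_normalizer_of_map_conj_le
      rw [Subgroup.map_sup]
      refine sup_le_sup ?_ ?_
      · rintro _ ⟨t, ht, rfl⟩
        exact (Subgroup.mem_normalizer_iff.1 (hTY y hy) t).1 ht
      · rintro _ ⟨t, ht, rfl⟩
        exact (Subgroup.mem_normalizer_iff.1 (hXY hy) t).1 ht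
    have hX'W : WW Z (T ⊔ X) = T ⊔ X := by
      refine le_antisymm (WW_le _ _) (sup_le ?_ ?_)
      · refine iSup₂_le fun y hy => ?_
        exact le_WW (le_trans (hgen y hy) le_sup_left)
      · calc X = WW Z X := hXW.symm
          _ ≤ _ := WW_mono Z le_sup_right
    have hmax := hX.2 (y := T ⊔ X) ⟨hX'p, hX'Y, hX'W⟩ le_sup_right
    refine le_trans ?_ (le_trans le_sup_left hmax)
    have := hgen 1 (one_mem _)
    rwa [one_mul] at this
  obtain ⟨P, hP⟩ := hXp.exists_le_sylow
  refine ⟨P, ?_⟩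
  let Q₁ : Subgroup G := (P : Subgroup G) ⊓ Subgroup.normalizer (X : Set G)
  have hXQ : X ≤ Q₁ := le_inf hP Subgroup.le_normalizer
  have hWQ : WW Z Q₁ = X := by
    refine le_antisymm ?_ ?_
    · refine iSup₂_le fun g hg => ?_
      exact ha g (le_trans hg inf_le_right)
    · calc X = WW Z X := hXW.symm
        _ ≤ _ := WW_mono Z hXQ
  have hQP : (P : Subgroup G) ≤ Q₁ := by
    by_contra hn
    have hlt : Q₁.subgroupOf (P : Subgroup G) < ⊤ := by
      refine lt_top_iff_ne_top.2 ?_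
      intro htop
      exact hn (Subgroup.subgroupOf_eq_top.1 htop)
    haveI : Group.IsNilpotent (P : Subgroup G) := P.isPGroup'.isNilpotent
    have hnc := normalizerCondition_of_isNilpotent (G := (P : Subgroup G)) _ hlt
    obtain ⟨u, hu, hun⟩ := SetLike.exists_of_lt hnc
    have huN : (u : G) ∈ Subgroup.normalizer (Q₁ : Set G) := by
      apply Cfsg.Agent.Lib.H5Basic.mem_normalizer_of_map_conj_le
      rintro _ ⟨y, hy, rfl⟩
      have hy' : (⟨y, hy.1⟩ : (P : Subgroup G)) ∈ Q₁.subgroupOf (P : Subgroup G) := Subgroup.mem_subgroupOf.2 hy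
      have := (Subgroup.mem_normalizer_iff.1 hu _).1 hy'
      exact Subgroup.mem_subgroupOf.1 this
    have h1 := normalizes_WW Z Q₁ huN
    rw [hWQ] at h1
    exact hun (Subgroup.mem_subgroupOf.2 ⟨u.2, h1⟩)
  have hWP : WW Z (P : Subgroup G) = X := by
    refine le_antisymm ?_ ?_
    · rw [← hWQ]
      exact WW_mono Z hQP
    · calc X = WW Z X := hXW.symm
        _ ≤ _ := WW_mono Z hP
  rw [hWP]
  exact hXY

end Cfsg.Agent.Lib.WielandtZ
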