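import Mathlib
import Cfsg.Prelude.Def_Classical

/-! Maximal totally singular subspaces of the standard forms. -/

namespace Cfsg.Agent.Lib.WittBound

open Matrix

variable {F : Type*} [Field F]

/-- The dimension bound from a pairing. -/
theorem finrank_le_of_pairing {V : Type*} [AddCommGroup V] [Module F V] [FiniteDimensional F V] {k : ℕ}
    (U : Submodule F V) (ψ ρ : V →ₗ[F] (Fin k → F))
    (h₁ : ∀ u ∈ U, ∀ w ∈ U, ψ w = 0 → ψ u ⬝ᵥ ρ w = 0)
    (h₂ : ∀ w ∈ U, ψ w = 0 → ρ w = 0 → w = 0) : Module.finrank F U ≤ k := by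
  classical
  set f : U →ₗ[F] (Fin k → F) := ψ ∘ₗ U.subtype with hf
  set K := LinearMap.ker f with hK
  set r : K →ₗ[F] (Fin k → F) := ρ ∘ₗ U.subtype ∘ₗ K.subtype with hr
  have hrinj : Function.Injective r := by
    rw [← LinearMap.ker_eq_bot, LinearMap.ker_eq_bot']
    rintro ⟨⟨w, hwU⟩, hwK⟩ hw
    have h1 : ψ w = 0 := hwK
    have h2 : ρ w = 0 := hw
    have := h₂ w hwU h1 h2
    subst this
    rfl
  have h3 := LinearMap.finrank_range_of_inj hrinj
  set B : LinearMap.BilinForm F (Fin k → F) := Matrix.toBilin' (1 : Matrix (Fin k) (Fin k) F) with hB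
  have hBnd : B.Nondegenerate := by
    rw [hB, Matrix.nondegenerate_toBilin'_iff, Matrix.nondegenerate_iff_det_ne_zero, Matrix.det_one]
    exact one_ne_zero
  have hle : LinearMap.range f ≤ B.orthogonal (LinearMap.range r) := by
    rintro _ ⟨u, rfl⟩
    rw [LinearMap.BilinForm.mem_orthogonal_iff]
    rintro _ ⟨⟨⟨w, hwU⟩, hwK⟩, rfl⟩
    rw [hB, Matrix.toBilin'_apply', Matrix.one_mulVec, dotProduct_comm]
    exact h₁ u.1 u.2 w hwU hwK
  have h4 := Submodule.finrank_mono hle
  rw [LinearMap.BilinForm.finrank_orthogonal hBnd, h3, Module.finrank_fin_fun] at h4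
  have h5 := LinearMap.finrank_range_add_finrank_ker f
  rw [← hK] at h5
  have h6 : Module.finrank F K ≤ k := by
    rw [← h3]
    have := Submodule.finrank_le (LinearMap.range r)
    rwa [Module.finrank_fin_fun] at this
  omega

/-- Bound for the plus form. -/
theorem finrank_le_plus {m : ℕ} (U : Submodule F (Fin m ⊕ Fin m → F))
    (hU : ∀ u ∈ U, Cfsg.quadFormPlus m F u = 0) : Module.finrank F U ≤ m := by
  let π₁ : (Fin m ⊕ Fin m → F) →ₗ[F] (Fin m → F) :=
    { toFun := fun v i => v (Sum.inl i), map_add' := fun _ _ => rfl, map_smul' := fun _ _ => rfl }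
  let π₂ : (Fin m ⊕ Fin m → F) →ₗ[F] (Fin m → F) :=
    { toFun := fun v i => v (Sum.inr i), map_add' := fun _ _ => rfl, map_smul' := fun _ _ => rfl }
  refine finrank_le_of_pairing U π₂ π₁ ?_ ?_
  · intro u hu w hw hψ
    have h0 : ∀ i, w (Sum.inr i) = 0 := fun i => congrFun hψ i
    have h1 := hU _ (U.add_mem hu hw)
    have h2 := hU u hu
    simp only [Cfsg.quadFormPlus, Pi.add_apply, h0, add_zero] at h1 h2
    simp only [dotProduct, π₁, π₂, LinearMap.coe_mk, AddHom.coe_mk]
    have : ∑ i, (u (Sum.inl i) + w (Sum.inl i)) * u (Sum.inr i) = ∑ i, u (Sum.inl i) * u (Sum.inr i) + ∑ i, u (Sum.inr i) * w (Sum.inl i) := by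
      rw [← Finset.sum_add_distrib]
      refine Finset.sum_congr rfl fun i _ => ?_
      ring
    rw [this, h2, zero_add] at h1
    exact h1
  · intro w _ h1 h2
    ext x
    rcases x with i | i
    · exact congrFun h2 i
    · exact congrFun h1 i

/-- Bound for the elliptic form. -/
theorem finrank_le_minus {k : ℕ} (a c : F)
    (hac : ∀ z₁ z₂ : F, z₁ ^ 2 + a * z₁ * z₂ + c * z₂ ^ 2 = 0 → z₁ = 0 ∧ z₂ = 0)
    (U : Submodule F ((Fin k ⊕ Fin k) ⊕ Fin 2 → F))
    (hU : ∀ u ∈ U, Cfsg.quadFormMinus k F a c u = 0) : Module.finrank F U ≤ k := by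
  let π₁ : ((Fin k ⊕ Fin k) ⊕ Fin 2 → F) →ₗ[F] (Fin k → F) :=
    { toFun := fun v i => v (Sum.inl (Sum.inl i)), map_add' := fun _ _ => rfl, map_smul' := fun _ _ => rfl }
  let π₂ : ((Fin k ⊕ Fin k) ⊕ Fin 2 → F) →ₗ[F] (Fin k → F) :=
    { toFun := fun v i => v (Sum.inl (Sum.inr i)), map_add' := fun _ _ => rfl, map_smul' := fun _ _ => rfl }
  have hz : ∀ w ∈ U, π₂ w = 0 → w (Sum.inr 0) = 0 ∧ w (Sum.inr 1) = 0 := by
    intro w hw h
    have h0 : ∀ i, w (Sum.inl (Sum.inr i)) = 0 := fun i => congrFun h i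
    have := hU w hw
    simp only [Cfsg.quadFormMinus, h0, mul_zero, Finset.sum_const_zero, zero_add] at this
    exact hac _ _ this
  refine finrank_le_of_pairing U π₂ π₁ ?_ ?_
  · intro u hu w hw hψ
    have h0 : ∀ i, w (Sum.inl (Sum.inr i)) = 0 := fun i => congrFun hψ i
    obtain ⟨z0, z1⟩ := hz w hw hψ
    have h1 := hU _ (U.add_mem hu hw)
    have h2 := hU u hu
    simp only [Cfsg.quadFormMinus, Pi.add_apply, h0, add_zero, z0, z1] at h1 h2
    simp only [dotProduct, π₁, π₂, LinearMap.coe_mk, AddHom.coe_mk]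
    have : ∑ i, (u (Sum.inl (Sum.inl i)) + w (Sum.inl (Sum.inl i))) * u (Sum.inl (Sum.inr i)) = ∑ i, u (Sum.inl (Sum.inl i)) * u (Sum.inl (Sum.inr i)) + ∑ i, u (Sum.inl (Sum.inr i)) * w (Sum.inl (Sum.inl i)) := by
      rw [← Finset.sum_add_distrib]
      refine Finset.sum_congr rfl fun i _ => ?_
      ring
    rw [this] at h1
    linear_combination h1 - h2
  · intro w hw h1 h2
    obtain ⟨z0, z1⟩ := hz w hw h1
    ext x
    rcases x with (i | i) | i
    · exact congrFun h2 i
    · exact congrFun h1 i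
    · fin_cases i
      · exact z0
      · exact z1

/-- The totally singular subspace of the plus form of dimension `m`. -/
theorem exists_plus (m : ℕ) : ∃ U : Submodule F (Fin m ⊕ Fin m → F),
    (∀ u ∈ U, Cfsg.quadFormPlus m F u = 0) ∧ Module.finrank F U = m := by
  let L : (Fin m → F) →ₗ[F] (Fin m ⊕ Fin m → F) :=
    { toFun := fun x => Sum.elim x 0
      map_add' := by
        intro x y; ext i; rcases i with i | i <;> simp
      map_smul' := by
        intro c x; ext i; rcases i with i | i <;> simp }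
  have hL : Function.Injective L := by
    intro x y h
    ext i
    exact congrFun h (Sum.inl i)
  refine ⟨LinearMap.range L, ?_, ?_⟩
  · rintro _ ⟨x, rfl⟩
    simp [Cfsg.quadFormPlus, L]
  · rw [LinearMap.finrank_range_of_inj hL, Module.finrank_fin_fun]

/-- The totally singular subspace of the elliptic form of dimension `k`. -/
theorem exists_minus (k : ℕ) (a c : F) : ∃ U : Submodule F ((Fin k ⊕ Fin k) ⊕ Fin 2 → F),
    (∀ u ∈ U, Cfsg.quadFormMinus k F a c u = 0) ∧ Module.finrank F U = k := by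
  let L : (Fin k → F) →ₗ[F] ((Fin k ⊕ Fin k) ⊕ Fin 2 → F) :=
    { toFun := fun x => Sum.elim (Sum.elim x 0) 0
      map_add' := by
        intro x y; ext i; rcases i with (i | i) | i <;> simp
      map_smul' := by
        intro c x; ext i; rcases i with (i | i) | i <;> simp }
  have hL : Function.Injective L := by
    intro x y h
    ext i
    exact congrFun h (Sum.inl (Sum.inl i))
  refine ⟨LinearMap.range L, ?_, ?_⟩
  · rintro _ ⟨x, rfl⟩
    simp [Cfsg.quadFormMinus, L]
  · rw [LinearMap.finrank_range_of_inj hL, Module.finrank_fin_fun]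

end Cfsg.Agent.Lib.WittBound
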