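import Mathlib

set_option autoImplicit false
set_option linter.all false

namespace Cfsg.Agent.Lib.WittExt

/-- The abstract double coset step. -/
theorem step {Γ : Type*} [Group Γ] (U W : Subgroup Γ) (s s' : Γ) (hUW : U ≤ W) (hs'W : s' ∈ W)
    (hdec : ∀ k ∈ W, k ∈ U ∨ ∃ u₁ ∈ U, ∃ u₂ ∈ U, k = u₁ * s' * u₂) (hs2 : s ^ 2 ∈ U)
    (hnorm : ∀ u ∈ U, s * u * s⁻¹ ∈ U) (hbr : (s' * s) ^ 3 ∈ U) :
    ∀ x ∈ Subgroup.closure ((W : Set Γ) ∪ {s}), x ∈ W ∨ ∃ k₁ ∈ W, ∃ k₂ ∈ W, x = k₁ * s * k₂ := by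
  have key1 : ∀ u ∈ U, s * u * s ∈ U := by
    intro u hu
    have h : s * u * s = (s * u * s⁻¹) * s ^ 2 := by group
    rw [h]
    exact U.mul_mem (hnorm u hu) hs2
  have key2 : ∀ u ∈ U, s⁻¹ * u * s ∈ U := by
    intro u hu
    have h : s⁻¹ * u * s = (s ^ 2)⁻¹ * (s * u * s⁻¹) * s ^ 2 := by group
    rw [h]
    exact U.mul_mem (U.mul_mem (U.inv_mem hs2) (hnorm u hu)) hs2
  have hs2W : s ^ 2 ∈ W := hUW hs2
  have key3 : ∀ k ∈ W, s * k * s ∈ W ∨ ∃ k₁ ∈ W, ∃ k₂ ∈ W, s * k * s = k₁ * s * k₂ := by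
    intro k hk
    rcases hdec k hk with h | ⟨u₁, hu₁, u₂, hu₂, rfl⟩
    · left
      exact hUW (key1 k h)
    · right
      refine ⟨(s * u₁ * s⁻¹) * s'⁻¹ * (s' * s) ^ 3 * (s ^ 2)⁻¹, ?_, s'⁻¹ * (s⁻¹ * u₂ * s), ?_, ?_⟩
      · exact W.mul_mem (W.mul_mem (W.mul_mem (hUW (hnorm u₁ hu₁)) (W.inv_mem hs'W)) (hUW hbr)) (W.inv_mem hs2W)
      · exact W.mul_mem (W.inv_mem hs'W) (hUW (key2 u₂ hu₂))
      · simp only [pow_succ, pow_zero, one_mul]
        group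
  intro x hx
  induction hx using Subgroup.closure_induction with
  | mem x hx =>
    rcases hx with hx | hx
    · left
      exact hx
    · right
      rw [Set.mem_singleton_iff] at hx
      exact ⟨1, W.one_mem, 1, W.one_mem, by rw [hx]; group⟩
  | one =>
    left
    exact W.one_mem
  | mul x y _ _ ihx ihy =>
    rcases ihx with hx | ⟨k₁, hk₁, k₂, hk₂, rfl⟩
    · rcases ihy with hy | ⟨k₃, hk₃, k₄, hk₄, rfl⟩
      · left
        exact W.mul_mem hx hy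
      · right
        exact ⟨x * k₃, W.mul_mem hx hk₃, k₄, hk₄, by group⟩
    · rcases ihy with hy | ⟨k₃, hk₃, k₄, hk₄, rfl⟩
      · right
        exact ⟨k₁, hk₁, k₂ * y, W.mul_mem hk₂ hy, by group⟩
      · rcases key3 (k₂ * k₃) (W.mul_mem hk₂ hk₃) with h | ⟨k₅, hk₅, k₆, hk₆, h⟩
        · left
          have e : k₁ * s * k₂ * (k₃ * s * k₄) = k₁ * (s * (k₂ * k₃) * s) * k₄ := by group
          rw [e]
          exact W.mul_mem (W.mul_mem hk₁ h) hk₄
        · right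
          refine ⟨k₁ * k₅, W.mul_mem hk₁ hk₅, k₆ * k₄, W.mul_mem hk₆ hk₄, ?_⟩
          have e : k₁ * s * k₂ * (k₃ * s * k₄) = k₁ * (s * (k₂ * k₃) * s) * k₄ := by group
          rw [e, h]
          group
  | inv x _ ih =>
    rcases ih with hx | ⟨k₁, hk₁, k₂, hk₂, rfl⟩
    · left
      exact W.inv_mem hx
    · right
      refine ⟨k₂⁻¹ * (s ^ 2)⁻¹, W.mul_mem (W.inv_mem hk₂) (W.inv_mem hs2W), k₁⁻¹, W.inv_mem hk₁, ?_⟩
      group

variable {α : Type*} [Fintype α] [DecidableEq α]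

open Equiv in
/-- The hypotheses of Witt's lemma. -/
structure Hyp (t : ℕ) (q : ℕ → α) (G : Subgroup (Perm α)) (s : ℕ → Perm α) (H : Subgroup (Perm α)) : Prop where
  ht : 2 ≤ t
  hq : ∀ i j : ℕ, 1 ≤ i → i ≤ t → 1 ≤ j → j ≤ t → q i = q j → i = j
  hfix : ∀ g ∈ G, ∀ i : ℕ, 3 ≤ i → i ≤ t → g (q i) = q i
  h2 : ∀ a b c d : α, (∀ i, 3 ≤ i → i ≤ t → a ≠ q i ∧ b ≠ q i ∧ c ≠ q i ∧ d ≠ q i) → a ≠ b → c ≠ d → ∃ g ∈ G, g a = c ∧ g b = d
  hs1 : s 1 ∈ G
  hs1q : s 1 (q 1) = q 2 ∧ s 1 (q 2) = q 1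
  hsq : ∀ i : ℕ, 2 ≤ i → i + 1 ≤ t → s i (q i) = q (i + 1) ∧ s i (q (i + 1)) = q i ∧ ∀ j : ℕ, 1 ≤ j → j ≤ t → j ≠ i → j ≠ i + 1 → s i (q j) = q j
  hH : H = G ⊓ MulAction.stabilizer (Perm α) (q 1) ⊓ MulAction.stabilizer (Perm α) (q 2)
  hsq2 : ∀ i : ℕ, 1 ≤ i → i + 1 ≤ t → s i ^ 2 ∈ H
  hbraid : ∀ i : ℕ, 1 ≤ i → i + 2 ≤ t → (s i * s (i + 1)) ^ 3 ∈ H
  hcomm : ∀ i j : ℕ, 1 ≤ i → i + 2 ≤ j → j + 1 ≤ t → (s i * s j) ^ 2 ∈ H ∧ (s j * s i) ^ 2 ∈ H
  hnorm : ∀ i : ℕ, 2 ≤ i → i + 1 ≤ t → ∀ g ∈ G ⊓ MulAction.stabilizer (Perm α) (q 2), s i * g * (s i)⁻¹ ∈ G ⊓ MulAction.stabilizer (Perm α) (q 2)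

open Equiv

/-- The groups of the tower. -/
def K (G : Subgroup (Perm α)) (s : ℕ → Perm α) (m : ℕ) : Subgroup (Perm α) :=
  Subgroup.closure ((G : Set (Perm α)) ∪ {x | ∃ i : ℕ, 2 ≤ i ∧ i + 1 ≤ m ∧ x = s i})

variable {t : ℕ} {q : ℕ → α} {G : Subgroup (Perm α)} {s : ℕ → Perm α} {H : Subgroup (Perm α)}

theorem G_le (m : ℕ) : G ≤ K G s m := fun _ hg => Subgroup.subset_closure (Or.inl hg)

theorem s_mem {i m : ℕ} (h1 : 2 ≤ i) (h2 : i + 1 ≤ m) : s i ∈ K G s m :=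
  Subgroup.subset_closure (Or.inr ⟨i, h1, h2, rfl⟩)

theorem K_mono {m m' : ℕ} (h : m ≤ m') : K G s m ≤ K G s m' := by
  apply (Subgroup.closure_le _).2
  rintro x (hx | ⟨i, h1, h2, rfl⟩)
  · exact G_le m' hx
  · exact s_mem h1 (h2.trans h)

theorem K_two : K G s 2 = G := by
  apply le_antisymm
  · apply (Subgroup.closure_le _).2
    rintro x (hx | ⟨i, h1, h2, rfl⟩)
    · exact hx
    · omega
  · exact G_le 2

theorem K_succ_le {m : ℕ} (hm : 2 ≤ m) : K G s (m + 1) ≤ Subgroup.closure (((K G s m : Subgroup (Perm α)) : Set (Perm α)) ∪ {s m}) := by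
  apply (Subgroup.closure_le _).2
  rintro x (hx | ⟨i, h1, h2, rfl⟩)
  · exact Subgroup.subset_closure (Or.inl (G_le m hx))
  · by_cases h : i + 1 ≤ m
    · exact Subgroup.subset_closure (Or.inl (s_mem h1 h))
    · have : i = m := by omega
      subst this
      exact Subgroup.subset_closure (Or.inr rfl)

namespace Hyp

variable (W : Hyp t q G s H)
include W

theorem H_le : H ≤ G := by
  rw [W.hH]
  intro x hx
  exact hx.1.1

theorem H_le_U : H ≤ G ⊓ MulAction.stabilizer (Perm α) (q 2) := by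
  rw [W.hH]
  intro x hx
  exact ⟨hx.1.1, hx.2⟩

theorem q_ne {i j : ℕ} (h1 : 1 ≤ i) (h2 : i ≤ t) (h3 : 1 ≤ j) (h4 : j ≤ t) (h : i ≠ j) : q i ≠ q j :=
  fun e => h (W.hq i j h1 h2 h3 h4 e)

theorem K_fix {m j : ℕ} (hm : 2 ≤ m) (hj : m < j) (hjt : j ≤ t) : ∀ k ∈ K G s m, k (q j) = q j := by
  have hle : K G s m ≤ MulAction.stabilizer (Perm α) (q j) := by
    apply (Subgroup.closure_le _).2
    rintro x (hx | ⟨i, h1, h2, rfl⟩)
    · exact W.hfix x hx j (by omega) hjt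
    · exact (W.hsq i h1 (by omega)).2.2 j (by omega) hjt (by omega) (by omega)
  intro k hk
  exact hle hk

/-- Decomposition of `G` over the stabiliser of `q 2`. -/
theorem dec_G : ∀ k ∈ G, k ∈ G ⊓ MulAction.stabilizer (Perm α) (q 2) ∨
    ∃ u₁ ∈ G ⊓ MulAction.stabilizer (Perm α) (q 2), ∃ u₂ ∈ G ⊓ MulAction.stabilizer (Perm α) (q 2), k = u₁ * s 1 * u₂ := by
  intro g hg
  have ht := W.ht
  by_cases hx : g (q 2) = q 2
  · left
    exact ⟨hg, hx⟩
  · right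
    have h12 : q 1 ≠ q 2 := W.q_ne (by omega) (by omega) (by omega) (by omega) (by omega)
    obtain ⟨u₁, hu₁, hu₁1, hu₁2⟩ := W.h2 (q 2) (q 1) (q 2) (g (q 2)) (by
      intro i h3 h4
      refine ⟨W.q_ne (by omega) (by omega) (by omega) (by omega) (by omega), W.q_ne (by omega) (by omega) (by omega) (by omega) (by omega),
        W.q_ne (by omega) (by omega) (by omega) (by omega) (by omega), ?_⟩
      intro e
      have h5 := W.hfix g hg i h3 h4
      rw [← h5] at e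
      have h6 := g.injective e
      exact W.q_ne (i := 2) (j := i) (by omega) (by omega) (by omega) (by omega) (by omega) h6) h12.symm (fun e => hx e.symm)
    refine ⟨u₁, ⟨hu₁, hu₁1⟩, (s 1)⁻¹ * u₁⁻¹ * g, ⟨G.mul_mem (G.mul_mem (G.inv_mem W.hs1) (G.inv_mem hu₁)) hg, ?_⟩, by group⟩
    show ((s 1)⁻¹ * u₁⁻¹ * g) (q 2) = q 2
    rw [Perm.mul_apply, Perm.mul_apply, ← hu₁2]
    have h7 : u₁⁻¹ (u₁ (q 1)) = q 1 := by simp
    rw [h7, Equiv.Perm.inv_eq_iff_eq]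
    exact W.hs1q.2.symm

/-- The base of the tower. -/
theorem dec_base (h3 : 3 ≤ t) : ∀ x ∈ K G s 3, x ∈ K G s 2 ∨ ∃ k₁ ∈ K G s 2, ∃ k₂ ∈ K G s 2, x = k₁ * s 2 * k₂ := by
  intro x hx
  apply step (G ⊓ MulAction.stabilizer (Perm α) (q 2)) (K G s 2) (s 2) (s 1)
  · rw [K_two]
    exact inf_le_left
  · rw [K_two]
    exact W.hs1
  · rw [K_two]
    exact W.dec_G
  · exact W.H_le_U (W.hsq2 2 (by omega) (by omega))
  · exact W.hnorm 2 (by omega) (by omega)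
  · exact W.H_le_U (W.hbraid 1 (by omega) (by omega))
  · exact K_succ_le (le_refl 2) hx

/-- Conjugation by the later generators preserves `G`. -/
theorem norm_G {i : ℕ} (hi : 3 ≤ i) (hit : i + 1 ≤ t) : ∀ g ∈ G, s i * g * (s i)⁻¹ ∈ G := by
  have hn := W.hnorm i (by omega) hit
  have h1 : s i * s 1 * (s i)⁻¹ ∈ G := by
    have hh := (W.hcomm 1 i (by omega) (by omega) hit).1
    have hs := W.hsq2 i (by omega) hit
    have e : s i * s 1 * (s i)⁻¹ = (s 1)⁻¹ * (s 1 * s i) ^ 2 * (s i ^ 2)⁻¹ := by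
      simp only [pow_succ, pow_zero, one_mul]
      group
    rw [e]
    exact G.mul_mem (G.mul_mem (G.inv_mem W.hs1) (W.H_le hh)) (G.inv_mem (W.H_le hs))
  intro g hg
  rcases W.dec_G g hg with h | ⟨u₁, hu₁, u₂, hu₂, rfl⟩
  · exact (hn g h).1
  · have e : s i * (u₁ * s 1 * u₂) * (s i)⁻¹ = (s i * u₁ * (s i)⁻¹) * (s i * s 1 * (s i)⁻¹) * (s i * u₂ * (s i)⁻¹) := by group
    rw [e]
    exact G.mul_mem (G.mul_mem (hn u₁ hu₁).1 h1) (hn u₂ hu₂).1

/-- Conjugation by `s m` preserves the group before the last one. -/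
theorem norm_K {m : ℕ} (hm : 3 ≤ m) (hmt : m + 1 ≤ t) : ∀ u ∈ K G s (m - 1), s m * u * (s m)⁻¹ ∈ K G s (m - 1) := by
  have hle : K G s (m - 1) ≤ (K G s (m - 1)).comap (MulAut.conj (s m)).toMonoidHom := by
    apply (Subgroup.closure_le _).2
    rintro x (hx | ⟨i, h1, h2, rfl⟩)
    · exact G_le _ (W.norm_G hm hmt x hx)
    · show s m * s i * (s m)⁻¹ ∈ K G s (m - 1)
      have hh := (W.hcomm i m (by omega) (by omega) hmt).1
      have hs := W.hsq2 m (by omega) hmt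
      have e : s m * s i * (s m)⁻¹ = (s i)⁻¹ * (s i * s m) ^ 2 * (s m ^ 2)⁻¹ := by
        simp only [pow_succ, pow_zero, one_mul]
        group
      rw [e]
      have hsi : s i ∈ K G s (m - 1) := s_mem h1 h2
      exact Subgroup.mul_mem _ (Subgroup.mul_mem _ (Subgroup.inv_mem _ hsi) (G_le _ (W.H_le hh))) (Subgroup.inv_mem _ (G_le _ (W.H_le hs)))
  intro u hu
  exact hle hu

/-- The tower. -/
theorem dec : ∀ m : ℕ, 2 ≤ m → m + 1 ≤ t → ∀ x ∈ K G s (m + 1), x ∈ K G s m ∨ ∃ k₁ ∈ K G s m, ∃ k₂ ∈ K G s m, x = k₁ * s m * k₂ := by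
  intro m hm
  induction m, hm using Nat.le_induction with
  | base =>
    intro h3
    exact W.dec_base (by omega)
  | succ m hm ih =>
    intro h3 x hx
    have ih' := ih (by omega)
    have hle : K G s (m + 1 - 1) = K G s m := by simp
    apply step (K G s m) (K G s (m + 1)) (s (m + 1)) (s m)
    · exact K_mono (by omega)
    · exact s_mem hm (le_refl _)
    · exact ih'
    · exact G_le _ (W.H_le (W.hsq2 (m + 1) (by omega) h3))
    · have := W.norm_K (m := m + 1) (by omega) h3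
      rw [hle] at this
      exact this
    · exact G_le _ (W.H_le (W.hbraid m (by omega) (by omega)))
    · exact K_succ_le (by omega) hx

theorem stab {m : ℕ} (hm : 2 ≤ m) (hmt : m + 1 ≤ t) {x : Perm α} (hx : x ∈ K G s (m + 1)) (hf : x (q (m + 1)) = q (m + 1)) :
    x ∈ K G s m := by
  rcases W.dec m hm hmt x hx with h | ⟨k₁, hk₁, k₂, hk₂, rfl⟩
  · exact h
  · exfalso
    have h1 := W.K_fix hm (Nat.lt_succ_self m) hmt k₂ hk₂
    have h2 := (W.hsq m hm hmt).2.1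
    have h3 := W.K_fix hm (Nat.lt_succ_self m) hmt k₁ hk₁
    rw [Perm.mul_apply, Perm.mul_apply, h1, h2] at hf
    rw [← h3] at hf
    have h4 := k₁.injective hf
    exact W.q_ne (by omega) (by omega) (by omega) hmt (by omega) h4

theorem down : ∀ m : ℕ, 2 ≤ m → m ≤ t → ∀ x ∈ K G s m, (∀ i, 3 ≤ i → i ≤ t → x (q i) = q i) → x ∈ G := by
  intro m hm
  induction m, hm using Nat.le_induction with
  | base =>
    intro _ x hx _
    rwa [K_two] at hx
  | succ m hm ih =>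
    intro h3 x hx hf
    exact ih (by omega) x (W.stab hm h3 hx (hf _ (by omega) h3)) hf

theorem trans_K : ∀ m : ℕ, 2 ≤ m → m ≤ t → ∀ y : α, (∀ j, m < j → j ≤ t → y ≠ q j) → ∃ k ∈ K G s m, k y = q m := by
  intro m hm
  induction m, hm using Nat.le_induction with
  | base =>
    intro ht y hy
    have hn : ∀ {a : ℕ}, 1 ≤ a → a ≤ 2 → ∀ i, 3 ≤ i → i ≤ t → q a ≠ q i := fun h1 h2 i h3 h4 =>
      W.q_ne h1 (by omega) (by omega) h4 (by omega)
    by_cases h : y = q 1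
    · exact ⟨s 1, G_le _ W.hs1, by rw [h]; exact W.hs1q.1⟩
    · obtain ⟨g, hg, hg1, -⟩ := W.h2 y (q 1) (q 2) (q 1) (by
        intro i h3 h4
        exact ⟨hy i (by omega) h4, hn (by omega) (by omega) i h3 h4, hn (by omega) (by omega) i h3 h4, hn (by omega) (by omega) i h3 h4⟩) h
        (W.q_ne (by omega) (by omega) (by omega) (by omega) (by omega))
      exact ⟨g, G_le _ hg, hg1⟩
  | succ m hm ih =>
    intro h3 y hy
    by_cases h : y = q (m + 1)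
    · exact ⟨1, Subgroup.one_mem _, by rw [h]; rfl⟩
    · obtain ⟨k, hk, hky⟩ := ih (by omega) y (by
        intro j h1 h2
        by_cases h4 : j = m + 1
        · rw [h4]
          exact h
        · exact hy j (by omega) h2)
      refine ⟨s m * k, Subgroup.mul_mem _ (s_mem hm (le_refl _)) (K_mono (by omega) hk), ?_⟩
      rw [Perm.mul_apply, hky]
      exact (W.hsq m hm h3).1

theorem tuple : ∀ m : ℕ, 2 ≤ m → m ≤ t → ∀ x : ℕ → α, (∀ i j, 1 ≤ i → i ≤ m → 1 ≤ j → j ≤ m → x i = x j → i = j) →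
    (∀ i, 1 ≤ i → i ≤ m → ∀ j, m < j → j ≤ t → x i ≠ q j) → ∃ k ∈ K G s m, ∀ i, 1 ≤ i → i ≤ m → k (x i) = q i := by
  intro m hm
  induction m, hm using Nat.le_induction with
  | base =>
    intro ht x hx hy
    have hn : ∀ {a : ℕ}, 1 ≤ a → a ≤ 2 → ∀ i, 3 ≤ i → i ≤ t → q a ≠ q i := fun h1 h2 i h3 h4 =>
      W.q_ne h1 (by omega) (by omega) h4 (by omega)
    obtain ⟨g, hg, hg1, hg2⟩ := W.h2 (x 1) (x 2) (q 1) (q 2) (by
      intro i h3 h4
      exact ⟨hy 1 (by omega) (by omega) i (by omega) h4, hy 2 (by omega) (by omega) i (by omega) h4,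
        hn (by omega) (by omega) i h3 h4, hn (by omega) (by omega) i h3 h4⟩)
      (fun e => absurd (hx 1 2 (by omega) (by omega) (by omega) (by omega) e) (by omega))
      (W.q_ne (by omega) (by omega) (by omega) (by omega) (by omega))
    refine ⟨g, G_le _ hg, ?_⟩
    intro i h1 h2
    have : i = 1 ∨ i = 2 := by omega
    rcases this with rfl | rfl
    · exact hg1
    · exact hg2
  | succ m hm ih =>
    intro h3 x hx hy
    obtain ⟨k₀, hk₀, hk₀x⟩ := W.trans_K (m + 1) (by omega) h3 (x (m + 1)) (fun j h1 h2 => hy _ (by omega) (le_refl _) j h1 h2)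
    obtain ⟨k₁, hk₁, hk₁x⟩ := ih (by omega) (fun i => k₀ (x i)) (by
      intro i j h1 h2 h4 h5 e
      exact hx i j h1 (by omega) h4 (by omega) (k₀.injective e)) (by
      intro i h1 h2 j h4 h5
      by_cases h6 : j = m + 1
      · subst h6
        intro e
        rw [← hk₀x] at e
        have := hx i (m + 1) h1 (by omega) (by omega) (le_refl _) (k₀.injective e)
        omega
      · intro e
        have h7 := W.K_fix (m := m + 1) (by omega) (j := j) (by omega) h5 k₀ hk₀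
        rw [← h7] at e
        exact hy i h1 (by omega) j (by omega) h5 (k₀.injective e))
    refine ⟨k₁ * k₀, Subgroup.mul_mem _ (K_mono (by omega) hk₁) hk₀, ?_⟩
    intro i h1 h2
    rw [Perm.mul_apply]
    by_cases h4 : i = m + 1
    · subst h4
      rw [hk₀x]
      exact W.K_fix hm (Nat.lt_succ_self m) h3 k₁ hk₁
    · exact hk₁x i h1 (by omega)

end Hyp

end Cfsg.Agent.Lib.WittExt
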