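import Mathlib

set_option autoImplicit false
set_option linter.all false

namespace Cfsg.Agent.Lib.ZassReg

variable {G : Type*} [Group G] [Finite G]

/-- Congruence for the conjugation action of an element of order dividing `p`. -/
theorem cong_conj {p : ℕ} [Fact p.Prime] (x₀ : G) (hx : x₀ ^ p = 1) (A : Set G) (hA : ∀ w ∈ A, x₀ * w * x₀⁻¹ ∈ A) :
    A.ncard ≡ ({w | w ∈ A ∧ x₀ * w * x₀⁻¹ = w} : Set G).ncard [MOD p] := by
  classical
  haveI : Fintype A := Fintype.ofFinite _
  let f : Function.End A := fun w => ⟨x₀ * w.1 * x₀⁻¹, hA w.1 w.2⟩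
  have hpow : ∀ (n : ℕ) (w : A), ((f ^ n) w).1 = x₀ ^ n * w.1 * (x₀ ^ n)⁻¹ := by
    intro n
    induction n with
    | zero =>
      intro w
      rw [pow_zero, pow_zero, one_mul, inv_one, mul_one]
      rfl
    | succ n ih =>
      intro w
      rw [pow_succ']
      show x₀ * ((f ^ n) w).1 * x₀⁻¹ = _
      rw [ih]
      group
  have hf : f ^ p ^ 1 = 1 := by
    funext w
    apply Subtype.ext
    rw [pow_one, hpow, hx, inv_one, one_mul, mul_one]
    rfl
  have h1 := Equiv.Perm.card_fixedPoints_modEq (p := p) (n := 1) hf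
  have h2 : A.ncard = Fintype.card A := by
    rw [← Nat.card_eq_fintype_card, Nat.card_coe_set_eq]
  have h3 : ({w | w ∈ A ∧ x₀ * w * x₀⁻¹ = w} : Set G).ncard = Fintype.card (Function.fixedPoints f) := by
    rw [← Nat.card_eq_fintype_card, ← Nat.card_coe_set_eq]
    apply Nat.card_congr
    refine ⟨fun w => ⟨⟨w.1, w.2.1⟩, Subtype.ext w.2.2⟩, fun w => ⟨w.1.1, w.1.2, congrArg Subtype.val w.2⟩, ?_, ?_⟩
    · intro w
      rfl
    · intro w
      rfl
  rw [h2, h3]
  exact h1

theorem orderOf_conj' (h u : G) : orderOf (h * u * h⁻¹) = orderOf u := by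
  simpa [MulAut.conj_apply] using MulEquiv.orderOf_eq (MulAut.conj h) u

variable {Ω : Type*} [MulAction G Ω] [Fintype Ω]

theorem main (h3 : ∀ g : G, ∀ a b c : Ω, a ≠ b → b ≠ c → a ≠ c → g • a = a → g • b = b → g • c = c → g = 1)
    {a b : Ω} (hab : a ≠ b)
    (hd : Fintype.card Ω - 2 ≤ 2 * Nat.card ↥(MulAction.stabilizer G a ⊓ MulAction.stabilizer G b)) (F : Subgroup G)
    (hFle : F ≤ MulAction.stabilizer G a) (hFn : (F.subgroupOf (MulAction.stabilizer G a)).Normal)
    (hreg : ∀ y z : Ω, y ≠ a → z ≠ a → ∃! u : F, (u : G) • y = z) :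
    IsMulCommutative F ∧ ∃ p f : ℕ, p.Prime ∧ (∀ u ∈ F, u ^ p = 1) ∧ Fintype.card Ω = p ^ f + 1 := by
  classical
  obtain ⟨H, hH⟩ : ∃ H : Subgroup G, H = MulAction.stabilizer G a ⊓ MulAction.stabilizer G b := ⟨_, rfl⟩
  rw [← hH] at hd
  have hmemH : ∀ g : G, g ∈ H ↔ g • a = a ∧ g • b = b := by
    intro g
    rw [hH, Subgroup.mem_inf, MulAction.mem_stabilizer_iff, MulAction.mem_stabilizer_iff]
  have hb : b ≠ a := hab.symm
  have hFa : ∀ u ∈ F, u • a = a := fun u hu => hFle hu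
  have hconjF : ∀ h ∈ H, ∀ u ∈ F, h * u * h⁻¹ ∈ F := by
    intro h hh u hu
    have h1 : h ∈ MulAction.stabilizer G a := ((hmemH h).1 hh).1
    have h2 : (⟨u, hFle hu⟩ : MulAction.stabilizer G a) ∈ F.subgroupOf (MulAction.stabilizer G a) := by
      rw [Subgroup.mem_subgroupOf]
      exact hu
    have h4 := hFn.conj_mem _ h2 ⟨h, h1⟩
    rw [Subgroup.mem_subgroupOf] at h4
    exact h4
  -- the order of `F`
  have hcardF : Nat.card F + 1 = Fintype.card Ω := by
    have hmemE : ∀ u : F, (u : G) • b ∈ (Finset.univ : Finset Ω).erase a := by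
      intro u
      rw [Finset.mem_erase]
      refine ⟨?_, Finset.mem_univ _⟩
      intro e
      apply hb
      have h4 := hFa u.1 u.2
      exact smul_left_cancel u.1 (e.trans h4.symm)
    have h1 : Nat.card F = Nat.card {y : Ω // y ∈ (Finset.univ : Finset Ω).erase a} := by
      apply Nat.card_eq_of_bijective (fun u : F => (⟨(u : G) • b, hmemE u⟩ : {y : Ω // y ∈ (Finset.univ : Finset Ω).erase a}))
      constructor
      · intro u v huv
        have h2 : (u : G) • b = (v : G) • b := congrArg Subtype.val huv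
        exact (hreg b ((u : G) • b) hb ((Finset.mem_erase.1 (hmemE u)).1)).unique rfl h2.symm
      · rintro ⟨y, hy⟩
        have hy' : y ≠ a := (Finset.mem_erase.1 hy).1
        obtain ⟨u, hu, -⟩ := hreg b y hb hy'
        exact ⟨u, Subtype.ext hu⟩
    rw [h1, Nat.card_eq_fintype_card, Fintype.card_coe, Finset.card_erase_of_mem (Finset.mem_univ a), Finset.card_univ]
    have : 0 < Fintype.card Ω := Fintype.card_pos_iff.2 ⟨a⟩
    omega
  have hfree : ∀ h ∈ H, ∀ u ∈ F, u ≠ 1 → h * u * h⁻¹ = u → h = 1 := by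
    intro h hh u hu hu1 he
    have h1 := (hmemH h).1 hh
    have hc : u • b ≠ b := by
      intro e
      apply hu1
      have := (hreg b b hb hb).unique (y₁ := ⟨u, hu⟩) (y₂ := 1) e (one_smul _ _)
      exact congrArg Subtype.val this
    have hca : u • b ≠ a := by
      intro e
      apply hb
      exact smul_left_cancel u (e.trans (hFa u hu).symm)
    have hfix : h • (u • b) = u • b := by
      have h4 : h * u = u * h := by
        calc h * u = (h * u * h⁻¹) * h := by group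
          _ = u * h := by rw [he]
      rw [← mul_smul, h4, mul_smul, h1.2]
    exact h3 h a b (u • b) hab hc.symm hca.symm h1.1 h1.2 hfix
  obtain ⟨O, hO⟩ : ∃ O : G → Set G, O = fun u => Set.range (fun h : H => h.1 * u * h.1⁻¹) := ⟨_, rfl⟩
  have hmemO : ∀ u w : G, w ∈ O u ↔ ∃ h ∈ H, h * u * h⁻¹ = w := by
    intro u w
    rw [hO]
    constructor
    · rintro ⟨h, rfl⟩
      exact ⟨h.1, h.2, rfl⟩
    · rintro ⟨h, hh, rfl⟩
      exact ⟨⟨h, hh⟩, rfl⟩
  have hOself : ∀ u : G, u ∈ O u := fun u => (hmemO u u).2 ⟨1, H.one_mem, by group⟩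
  have hOsymm : ∀ u w : G, w ∈ O u → u ∈ O w := by
    intro u w hw
    obtain ⟨h, hh, rfl⟩ := (hmemO u w).1 hw
    exact (hmemO _ _).2 ⟨h⁻¹, H.inv_mem hh, by group⟩
  have hOtrans : ∀ u v w : G, v ∈ O u → w ∈ O v → w ∈ O u := by
    intro u v w hv hw
    obtain ⟨h, hh, rfl⟩ := (hmemO _ _).1 hv
    obtain ⟨h', hh', rfl⟩ := (hmemO _ _).1 hw
    exact (hmemO _ _).2 ⟨h' * h, H.mul_mem hh' hh, by group⟩
  have hOF : ∀ u ∈ F, O u ⊆ F := by
    intro u hu w hw
    obtain ⟨h, hh, rfl⟩ := (hmemO _ _).1 hw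
    exact hconjF h hh u hu
  have hO1 : ∀ u, u ≠ 1 → (1 : G) ∉ O u := by
    intro u hu hw
    obtain ⟨h, hh, e⟩ := (hmemO _ _).1 hw
    apply hu
    have h4 : u = h⁻¹ * (h * u * h⁻¹) * h := by group
    rw [h4, e]
    group
  have hOcard : ∀ u ∈ F, u ≠ 1 → (O u).ncard = Nat.card H := by
    intro u hu hu1
    have hinj : Function.Injective (fun h : H => h.1 * u * h.1⁻¹) := by
      intro h h' e
      have e' : h.1 * u * h.1⁻¹ = h'.1 * u * h'.1⁻¹ := e
      have h4 : (h'.1⁻¹ * h.1) * u * (h'.1⁻¹ * h.1)⁻¹ = u := by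
        calc (h'.1⁻¹ * h.1) * u * (h'.1⁻¹ * h.1)⁻¹ = h'.1⁻¹ * (h.1 * u * h.1⁻¹) * h'.1 := by group
          _ = u := by rw [e']; group
      have h5 := hfree _ (H.mul_mem (H.inv_mem h'.2) h.2) u hu hu1 h4
      apply Subtype.ext
      rw [inv_mul_eq_one] at h5
      exact h5.symm
    have h6 : O u = (fun h : H => h.1 * u * h.1⁻¹) '' Set.univ := by
      rw [hO, Set.image_univ]
    rw [h6, Set.ncard_image_of_injective _ hinj, Set.ncard_univ]
  have hOdisj : ∀ u v : G, v ∉ O u → Disjoint (O u) (O v) := by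
    intro u v hv
    rw [Set.disjoint_left]
    intro w h1 h2
    exact hv (hOtrans _ _ _ h1 (hOsymm _ _ h2))
  have hdpos : 0 < Nat.card H := Nat.card_pos
  have hFcard : Nat.card F = (F : Set G).ncard := (Nat.card_coe_set_eq _).symm
  -- no three orbits
  have h3orb : ∀ u₁ ∈ F, ∀ u₂ ∈ F, ∀ u₃ ∈ F, u₁ ≠ 1 → u₂ ≠ 1 → u₃ ≠ 1 → u₂ ∉ O u₁ → u₃ ∉ O u₁ → u₃ ∉ O u₂ → False := by
    intro u₁ h1 u₂ h2 u₃ h4 h11 h21 h31 h12 h13 h23
    have hd13 : Disjoint (O u₁) (O u₃) := hOdisj _ _ h13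
    have hd23 : Disjoint (O u₂) (O u₃) := hOdisj _ _ h23
    have hd12 : Disjoint (O u₁) (O u₂) := hOdisj _ _ h12
    have hsub : O u₁ ∪ O u₂ ∪ O u₃ ⊆ (F : Set G) \ {1} := by
      rintro w ((hw | hw) | hw)
      · exact ⟨hOF _ h1 hw, fun e => hO1 _ h11 (e ▸ hw)⟩
      · exact ⟨hOF _ h2 hw, fun e => hO1 _ h21 (e ▸ hw)⟩
      · exact ⟨hOF _ h4 hw, fun e => hO1 _ h31 (e ▸ hw)⟩
    have hc1 := Set.ncard_le_ncard hsub (Set.toFinite _)
    rw [Set.ncard_union_eq (Set.disjoint_union_left.2 ⟨hd13, hd23⟩) (Set.toFinite _) (Set.toFinite _),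
      Set.ncard_union_eq hd12 (Set.toFinite _) (Set.toFinite _), hOcard _ h1 h11, hOcard _ h2 h21, hOcard _ h4 h31] at hc1
    have hc2 : ((F : Set G) \ {1}).ncard = (F : Set G).ncard - 1 := by
      rw [Set.ncard_diff_singleton_of_mem F.one_mem]
    rw [hc2, ← hFcard] at hc1
    omega
  have hcover : ∀ z ∈ F, ∀ u ∈ F, z ≠ 1 → u ≠ 1 → u ∉ O z → ∀ w ∈ F, w ≠ 1 → w ∈ O z ∨ w ∈ O u := by
    intro z hz u hu hz1 hu1 huz w hw hw1
    by_contra hc
    simp only [not_or] at hc
    exact h3orb z hz u hu w hw hz1 hu1 hw1 huz hc.1 hc.2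
  -- invariant subgroups
  have hL : ∀ E : Subgroup G, E ≤ F → (∀ h ∈ H, ∀ u ∈ E, h * u * h⁻¹ ∈ E) → E ≠ ⊥ → E = F := by
    intro E hEF hEinv hE
    by_contra hne
    obtain ⟨z, hz, hz1⟩ := E.bot_or_exists_ne_one.resolve_left hE
    obtain ⟨u, hu, huE⟩ := SetLike.exists_of_lt (lt_of_le_of_ne hEF hne)
    have hu1 : u ≠ 1 := fun e => huE (e ▸ E.one_mem)
    have hOzE : O z ⊆ E := by
      intro w hw
      obtain ⟨h, hh, rfl⟩ := (hmemO _ _).1 hw
      exact hEinv h hh z hz
    have huO : u ∉ O z := fun h => huE (hOzE h)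
    have hcov := hcover z (hEF hz) u hu hz1 hu1 huO
    have hOuE : ∀ w ∈ O u, w ∉ E := by
      intro w hw hwE
      obtain ⟨h, hh, e⟩ := (hmemO _ _).1 (hOsymm _ _ hw)
      exact huE (e ▸ hEinv h hh w hwE)
    have hEset : (E : Set G) = insert 1 (O z) := by
      ext w
      constructor
      · intro hw
        by_cases hw1 : w = 1
        · exact Or.inl hw1
        · rcases hcov w (hEF hw) hw1 with h | h
          · exact Or.inr h
          · exact absurd hw (hOuE w h)
      · rintro (rfl | hw)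
        · exact E.one_mem
        · exact hOzE hw
    have hFset : (F : Set G) = (E : Set G) ∪ O u := by
      ext w
      constructor
      · intro hw
        by_cases hwE : w ∈ E
        · exact Or.inl hwE
        · have hw1 : w ≠ 1 := fun e => hwE (e ▸ E.one_mem)
          rcases hcov w hw hw1 with h | h
          · exact absurd (hOzE h) hwE
          · exact Or.inr h
      · rintro (hw | hw)
        · exact hEF hw
        · exact hOF u hu hw
    have hcE : (E : Set G).ncard = Nat.card H + 1 := by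
      rw [hEset, Set.ncard_insert_of_notMem (hO1 z hz1) (Set.toFinite _), hOcard z (hEF hz) hz1]
    have hcF : (F : Set G).ncard = Nat.card H + 1 + Nat.card H := by
      rw [hFset, Set.ncard_union_eq (Set.disjoint_left.2 fun w h1 h2 => hOuE w h2 h1) (Set.toFinite _) (Set.toFinite _), hcE, hOcard u hu hu1]
    have hdvd := Subgroup.card_dvd_of_le hEF
    have hcE' : Nat.card E = Nat.card H + 1 := by
      rw [← hcE]
      exact Nat.card_coe_set_eq _
    have hcF' : Nat.card F = Nat.card H + 1 + Nat.card H := by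
      rw [← hcF]
      exact Nat.card_coe_set_eq _
    rw [hcE', hcF'] at hdvd
    have h7 := (Nat.dvd_add_right (dvd_refl _)).1 hdvd
    have h8 := Nat.le_of_dvd hdpos h7
    omega
  by_cases htriv : Nat.card F = 1
  · have hFbot := Subgroup.eq_bot_of_card_eq F htriv
    have hall : ∀ u ∈ F, u = 1 := by
      intro u hu
      rw [hFbot] at hu
      exact Subgroup.mem_bot.1 hu
    refine ⟨⟨⟨fun x y => Subtype.ext ?_⟩⟩, 2, 0, Nat.prime_two, ?_, ?_⟩
    · rw [Subgroup.coe_mul, Subgroup.coe_mul, hall x.1 x.2, hall y.1 y.2]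
    · intro u hu
      rw [hall u hu, one_pow]
    · rw [← hcardF, htriv]
      rfl
  obtain ⟨p, hpp, hpF⟩ := Nat.exists_prime_and_dvd htriv
  haveI : Fact p.Prime := ⟨hpp⟩
  obtain ⟨x₁, hx₁⟩ := exists_prime_orderOf_dvd_card' (G := F) p hpF
  obtain ⟨x₀, hx₀⟩ : ∃ x₀ : G, x₀ = (x₁ : G) := ⟨_, rfl⟩
  have hx₀F : x₀ ∈ F := by
    rw [hx₀]
    exact x₁.2
  have hx₀o : orderOf x₀ = p := by
    rw [hx₀, Subgroup.orderOf_coe]
    exact hx₁
  have hx₀1 : x₀ ≠ 1 := by
    rintro rfl
    rw [orderOf_one] at hx₀o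
    exact hpp.one_lt.ne hx₀o
  have hx₀p : x₀ ^ p = 1 := by
    rw [← hx₀o]
    exact pow_orderOf_eq_one x₀
  have hpg : ∀ w ∈ F, ∃ k : ℕ, orderOf w = p ^ k := by
    by_contra hcon
    push Not at hcon
    obtain ⟨w, hw, hwk⟩ := hcon
    have hex : ∃ q : ℕ, q.Prime ∧ q ∣ orderOf w ∧ q ≠ p := by
      by_contra hc
      push Not at hc
      have h1 := Nat.eq_prime_pow_of_unique_prime_dvd (orderOf_pos w).ne' (fun {d} hd hdw => hc d hd hdw)
      exact hwk _ h1
    obtain ⟨q, hq, hqw, hqp⟩ := hex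
    obtain ⟨y, hy⟩ : ∃ y : G, y = w ^ (orderOf w / q) := ⟨_, rfl⟩
    have hyo : orderOf y = q := by
      rw [hy]
      exact orderOf_pow_orderOf_div (orderOf_pos w).ne' hqw
    have hyF : y ∈ F := by
      rw [hy]
      exact F.pow_mem hw _
    have hy1 : y ≠ 1 := by
      rintro rfl
      rw [orderOf_one] at hyo
      exact hq.one_lt.ne hyo
    have hOord : ∀ u v : G, v ∈ O u → orderOf v = orderOf u := by
      intro u v hv
      obtain ⟨h, hh, rfl⟩ := (hmemO _ _).1 hv
      exact orderOf_conj' h u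
    have hyO : y ∉ O x₀ := by
      intro h
      have h1 := hOord _ _ h
      rw [hyo, hx₀o] at h1
      exact hqp h1
    have hcov := hcover x₀ hx₀F y hyF hx₀1 hy1 hyO
    have hord : ∀ w' ∈ F, w' ≠ 1 → orderOf w' = p ∨ orderOf w' = q := by
      intro w' hw' hw1
      rcases hcov w' hw' hw1 with h | h
      · left
        rw [hOord _ _ h, hx₀o]
      · right
        rw [hOord _ _ h, hyo]
    obtain ⟨A, hA⟩ : ∃ A : Set G, A = {w | w ∈ F ∧ orderOf w = p} := ⟨_, rfl⟩
    obtain ⟨B, hB⟩ : ∃ B : Set G, B = {w | w ∈ F ∧ orderOf w = q} := ⟨_, rfl⟩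
    have hmemA : ∀ w, w ∈ A ↔ w ∈ F ∧ orderOf w = p := by
      intro w
      rw [hA]
      rfl
    have hmemB : ∀ w, w ∈ B ↔ w ∈ F ∧ orderOf w = q := by
      intro w
      rw [hB]
      rfl
    have hA1 : ∀ w : G, orderOf w = p → w ≠ 1 := by
      rintro w h rfl
      rw [orderOf_one] at h
      exact hpp.one_lt.ne h
    have hB1 : ∀ w : G, orderOf w = q → w ≠ 1 := by
      rintro w h rfl
      rw [orderOf_one] at h
      exact hq.one_lt.ne h
    have hAO : A = O x₀ := by
      ext w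
      rw [hmemA]
      constructor
      · rintro ⟨h1, h2⟩
        rcases hcov w h1 (hA1 w h2) with h | h
        · exact h
        · rw [hOord _ _ h, hyo] at h2
          exact absurd h2 hqp
      · intro h
        exact ⟨hOF _ hx₀F h, by rw [hOord _ _ h, hx₀o]⟩
    have hBO : B = O y := by
      ext w
      rw [hmemB]
      constructor
      · rintro ⟨h1, h2⟩
        rcases hcov w h1 (hB1 w h2) with h | h
        · rw [hOord _ _ h, hx₀o] at h2
          exact absurd h2.symm hqp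
        · exact h
      · intro h
        exact ⟨hOF _ hyF h, by rw [hOord _ _ h, hyo]⟩
    have hAc : A.ncard = Nat.card H := by
      rw [hAO]
      exact hOcard _ hx₀F hx₀1
    have hBc : B.ncard = Nat.card H := by
      rw [hBO]
      exact hOcard _ hyF hy1
    have hcontra : ∀ w ∈ F, orderOf w = q → x₀ * w * x₀⁻¹ = w → False := by
      intro w hw hwq he
      have hc : Commute x₀ w := by
        show x₀ * w = w * x₀
        calc x₀ * w = (x₀ * w * x₀⁻¹) * x₀ := by group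
          _ = w * x₀ := by rw [he]
      have hcop : Nat.Coprime (orderOf x₀) (orderOf w) := by
        rw [hx₀o, hwq]
        exact (Nat.coprime_primes hpp hq).2 (Ne.symm hqp)
      have h1 := hc.orderOf_mul_eq_mul_orderOf_of_coprime hcop
      rw [hx₀o, hwq] at h1
      have hp2 := hpp.two_le
      have hq2 := hq.two_le
      have hne1 : x₀ * w ≠ 1 := by
        intro e
        rw [e, orderOf_one] at h1
        nlinarith
      rcases hord _ (F.mul_mem hx₀F hw) hne1 with h2 | h2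
      · rw [h1] at h2
        nlinarith
      · rw [h1] at h2
        nlinarith
    have hAinv : ∀ w ∈ A, x₀ * w * x₀⁻¹ ∈ A := by
      intro w hw
      rw [hmemA] at hw ⊢
      exact ⟨F.mul_mem (F.mul_mem hx₀F hw.1) (F.inv_mem hx₀F), by rw [orderOf_conj']; exact hw.2⟩
    have hBinv : ∀ w ∈ B, x₀ * w * x₀⁻¹ ∈ B := by
      intro w hw
      rw [hmemB] at hw ⊢
      exact ⟨F.mul_mem (F.mul_mem hx₀F hw.1) (F.inv_mem hx₀F), by rw [orderOf_conj']; exact hw.2⟩
    have c1 := cong_conj x₀ hx₀p A hAinv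
    have c2 := cong_conj x₀ hx₀p B hBinv
    have hfB : ({w | w ∈ B ∧ x₀ * w * x₀⁻¹ = w} : Set G) = ∅ := by
      ext w
      simp only [Set.mem_setOf_eq, Set.mem_empty_iff_false, iff_false, not_and]
      intro hw he
      rw [hmemB] at hw
      exact hcontra w hw.1 hw.2 he
    rw [hfB, Set.ncard_empty, hBc] at c2
    obtain ⟨C, hC⟩ : ∃ C : Subgroup G, C = F ⊓ Subgroup.centralizer ({x₀} : Set G) := ⟨_, rfl⟩
    have hmemC : ∀ w, w ∈ C ↔ w ∈ F ∧ w * x₀ = x₀ * w := by
      intro w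
      rw [hC, Subgroup.mem_inf, Subgroup.mem_centralizer_singleton_iff]
    have hfA : ({w | w ∈ A ∧ x₀ * w * x₀⁻¹ = w} : Set G) = (C : Set G) \ {1} := by
      ext w
      simp only [Set.mem_setOf_eq, Set.mem_diff, SetLike.mem_coe, Set.mem_singleton_iff]
      rw [hmemC, hmemA]
      constructor
      · rintro ⟨⟨h1, h2⟩, h4⟩
        refine ⟨⟨h1, ?_⟩, hA1 w h2⟩
        calc w * x₀ = (x₀ * w * x₀⁻¹) * x₀ := by rw [h4]
          _ = x₀ * w := by group
      · rintro ⟨⟨h1, h2⟩, h4⟩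
        have he : x₀ * w * x₀⁻¹ = w := by
          rw [← h2]
          group
        refine ⟨⟨h1, ?_⟩, he⟩
        rcases hord w h1 h4 with h5 | h5
        · exact h5
        · exact (hcontra w h1 h5 he).elim
    rw [hfA, Set.ncard_diff_singleton_of_mem C.one_mem, hAc, ← Nat.card_coe_set_eq (C : Set G)] at c1
    have c1' : Nat.card H ≡ Nat.card C - 1 [MOD p] := c1
    have hpC : p ∣ Nat.card C := by
      rw [← hx₀o]
      exact Subgroup.orderOf_dvd_natCard C ((hmemC _).2 ⟨hx₀F, rfl⟩)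
    have hpd : p ∣ Nat.card H := (Nat.modEq_zero_iff_dvd).1 c2
    have hpC1 : p ∣ Nat.card C - 1 := (Nat.ModEq.dvd_iff c1' (dvd_refl p)).1 hpd
    have hCpos : 0 < Nat.card C := Nat.card_pos
    have h10 : p ∣ 1 := by
      have h11 := Nat.dvd_sub hpC hpC1
      have h12 : Nat.card C - (Nat.card C - 1) = 1 := by omega
      rwa [h12] at h11
    exact hpp.one_lt.ne' (Nat.dvd_one.1 h10)
  have hFp : IsPGroup p F := by
    intro u
    obtain ⟨k, hk⟩ := hpg u.1 u.2
    refine ⟨k, Subtype.ext ?_⟩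
    rw [Subgroup.coe_pow, ← hk]
    exact pow_orderOf_eq_one _
  -- commutativity
  have hE₁ : F ⊓ Subgroup.centralizer (F : Set G) = F := by
    apply hL
    · exact inf_le_left
    · rintro h hh u ⟨hu1, hu2⟩
      refine ⟨hconjF h hh u hu1, ?_⟩
      show h * u * h⁻¹ ∈ Subgroup.centralizer (F : Set G)
      have hu2 : u ∈ Subgroup.centralizer (F : Set G) := hu2
      rw [Subgroup.mem_centralizer_iff] at hu2 ⊢
      intro v hv
      have hv' : h⁻¹ * v * h⁻¹⁻¹ ∈ F := hconjF h⁻¹ (H.inv_mem hh) v hv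
      have h4 := hu2 _ hv'
      rw [inv_inv] at h4
      calc v * (h * u * h⁻¹) = h * ((h⁻¹ * v * h) * u) * h⁻¹ := by group
        _ = h * (u * (h⁻¹ * v * h)) * h⁻¹ := by rw [h4]
        _ = h * u * h⁻¹ * v := by group
    · haveI : Nontrivial F := by
        refine ⟨⟨x₁, 1, ?_⟩⟩
        intro e
        apply hx₀1
        rw [hx₀, e]
        rfl
      haveI := hFp.center_nontrivial
      obtain ⟨c, hc⟩ := exists_ne (1 : Subgroup.center F)
      intro hbot
      have hmem : (c : F).1 ∈ F ⊓ Subgroup.centralizer (F : Set G) := by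
        refine ⟨(c : F).2, ?_⟩
        show (c : F).1 ∈ Subgroup.centralizer (F : Set G)
        rw [Subgroup.mem_centralizer_iff]
        intro v hv
        have h4 := (Subgroup.mem_center_iff.1 c.2) ⟨v, hv⟩
        exact congrArg Subtype.val h4
      rw [hbot] at hmem
      apply hc
      apply Subtype.ext
      apply Subtype.ext
      exact Subgroup.mem_bot.1 hmem
  have hcomm : ∀ x ∈ F, ∀ y ∈ F, x * y = y * x := by
    intro x hx y hy
    have h1 : x ∈ F ⊓ Subgroup.centralizer (F : Set G) := by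
      rw [hE₁]
      exact hx
    have h2 := (Subgroup.mem_centralizer_iff.1 h1.2) y hy
    exact h2.symm
  refine ⟨⟨⟨fun x y => Subtype.ext (hcomm x.1 x.2 y.1 y.2)⟩⟩, ?_⟩
  -- exponent
  let E₂ : Subgroup G :=
    { carrier := {u | u ∈ F ∧ u ^ p = 1}
      mul_mem' := by
        rintro x y ⟨h1, h2⟩ ⟨h4, h5⟩
        refine ⟨F.mul_mem h1 h4, ?_⟩
        have hc : Commute x y := hcomm x h1 y h4
        rw [hc.mul_pow, h2, h5, one_mul]
      one_mem' := ⟨F.one_mem, one_pow _⟩
      inv_mem' := by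
        rintro x ⟨h1, h2⟩
        exact ⟨F.inv_mem h1, by rw [inv_pow, h2, inv_one]⟩ }
  have hE₂ : E₂ = F := by
    apply hL
    · intro u hu
      exact hu.1
    · rintro h hh u ⟨h1, h2⟩
      refine ⟨hconjF h hh u h1, ?_⟩
      rw [conj_pow, h2]
      group
    · intro hbot
      have hmem : x₀ ∈ E₂ := ⟨hx₀F, hx₀p⟩
      rw [hbot] at hmem
      exact hx₀1 (Subgroup.mem_bot.1 hmem)
  obtain ⟨f, hf⟩ := IsPGroup.iff_card.1 hFp
  refine ⟨p, f, hpp, ?_, ?_⟩
  · intro u hu
    have h1 : u ∈ E₂ := by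
      rw [hE₂]
      exact hu
    exact h1.2
  · rw [← hcardF, hf]

end Cfsg.Agent.Lib.ZassReg
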