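import Mathlib
import Cfsg.Prelude
import Cfsg.Agent.Lib.ZsMain
import Cfsg.Agent.Lib.H2Basic
import Cfsg.Agent.Lib.SigFunc

/-!
# Corollaries of the `Z*`-theorem for unique involutions
-/

set_option autoImplicit false
set_option linter.all false

namespace Cfsg.Agent.Lib.ZsCor

open Cfsg Cfsg.Agent.Lib.ZsCore Cfsg.Agent.Lib.ZsMain Cfsg.Agent.Lib.CharOps Cfsg.Agent.Lib.CharIrr Cfsg.Agent.Lib.CharIso

universe u

variable {G : Type u} [Group G] [Finite G]

theorem exists_central_involution (S : Sylow 2 G) [Nontrivial (S : Subgroup G)] :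
    ∃ z ∈ (S : Subgroup G), orderOf z = 2 ∧ ∀ s ∈ (S : Subgroup G), s * z = z * s := by
  haveI : Fact (Nat.Prime 2) := ⟨Nat.prime_two⟩
  have hp : IsPGroup 2 (S : Subgroup G) := S.isPGroup'
  haveI := hp.center_nontrivial
  obtain ⟨t, ht⟩ := exists_prime_orderOf_dvd_card' (G := Subgroup.center (S : Subgroup G)) 2 (by
    obtain ⟨e, he⟩ := IsPGroup.iff_card.1 (hp.to_subgroup (Subgroup.center (S : Subgroup G)))
    rw [he]
    apply dvd_pow_self
    intro h0
    subst h0
    have h1 := Finite.one_lt_card (α := Subgroup.center (S : Subgroup G))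
    omega)
  refine ⟨((t : (S : Subgroup G)) : G), (t : (S : Subgroup G)).2, ?_, ?_⟩
  · rw [Subgroup.orderOf_coe, Subgroup.orderOf_coe]
    exact ht
  · intro s hs
    have := (Subgroup.mem_center_iff.1 t.2) ⟨s, hs⟩
    exact congrArg Subtype.val this

/-- Groups without Klein four subgroups. -/
theorem zstar_of_rank_one (heven : Even (Nat.card G)) (hrank : ∀ E : Subgroup G, ¬ IsKleinFour E) :
    ∃ z : G, orderOf z = 2 ∧ ∃ N : Subgroup G, N.Normal ∧ Odd (Nat.card N) ∧ ∀ g : G, z * g * z⁻¹ * g⁻¹ ∈ N := by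
  classical
  haveI : Fact (Nat.Prime 2) := ⟨Nat.prime_two⟩
  obtain ⟨S⟩ : Nonempty (Sylow 2 G) := inferInstance
  haveI : Nontrivial (S : Subgroup G) := by
    apply Finite.one_lt_card_iff_nontrivial.1
    rw [Sylow.card_eq_multiplicity S]
    have h1 : 2 ∣ Nat.card G := even_iff_two_dvd.1 heven
    have h2 : 1 ≤ (Nat.card G).factorization 2 :=
      (Nat.Prime.dvd_iff_one_le_factorization Nat.prime_two Nat.card_pos.ne').1 h1
    calc 1 < 2 ^ 1 := by norm_num
      _ ≤ _ := Nat.pow_le_pow_right (by norm_num) h2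
  obtain ⟨z, hzS, hz, hzc⟩ := exists_central_involution S
  have hzz : z * z = 1 := by
    have := pow_orderOf_eq_one z
    rwa [hz, pow_two] at this
  have hz1 : z ≠ 1 := by
    intro e
    rw [e, orderOf_one] at hz
    omega
  have hu : ∀ x ∈ (S : Subgroup G), orderOf x = 2 → x = z := by
    intro x hx hxo
    by_contra hne
    have hxx : x * x = 1 := by
      have := pow_orderOf_eq_one x
      rwa [hxo, pow_two] at this
    have hx1 : x ≠ 1 := by
      intro e
      rw [e, orderOf_one] at hxo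
      omega
    apply hrank (Cfsg.Agent.Lib.H2Basic.kleinOf x z hxx hzz (hzc x hx))
    apply Cfsg.Agent.Lib.H2Basic.isKleinFour_of
    · exact Cfsg.Agent.Lib.H2Basic.card_kleinOf hx1 hz1 hne
    · intro a ha
      rcases Cfsg.Agent.Lib.H2Basic.mem_kleinOf.1 ha with h | h | h | h
      · rw [h]; simp
      · rw [h]; exact hxx
      · rw [h]; exact hzz
      · rw [h]
        have e : x * z = z * x := hzc x hx
        calc x * z * (x * z) = x * (z * x) * z := by group
          _ = x * (x * z) * z := by rw [e]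
          _ = (x * x) * (z * z) := by group
          _ = 1 := by rw [hxx, hzz, one_mul]
  exact ⟨z, hz, zstar_uinv (Cfsg.Agent.Lib.ZsQ8Group.uinv_of_sylow S hzS hz hu)⟩

/-- The unique involution of a quaternion Sylow subgroup. -/
theorem exists_uinv_quat (S : Sylow 2 G) (H : ℕ) [NeZero H] (e : (S : Subgroup G) ≃* QuaternionGroup H) :
    ∃ z ∈ (S : Subgroup G), UInv z ∧ (∀ x ∈ (S : Subgroup G), orderOf x = 2 → x = z) ∧
      (2 ≤ H → ∀ x ∈ (S : Subgroup G), (∀ y ∈ (S : Subgroup G), x * y = y * x) → x = 1 ∨ x = z) := by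
  set q : QuaternionGroup H := QuaternionGroup.a (H : ZMod (2 * H)) with hq
  have hqq : q * q = 1 := by
    rw [hq, QuaternionGroup.a_mul_a, QuaternionGroup.one_def, QuaternionGroup.a.injEq]
    have := ZMod.natCast_self (2 * H)
    push_cast at this
    linear_combination this
  have hq1 : q ≠ 1 := by
    rw [hq, QuaternionGroup.one_def]
    intro e1
    have e2 : (H : ZMod (2 * H)) = 0 := QuaternionGroup.a.inj e1
    rw [ZMod.natCast_eq_zero_iff] at e2
    have h0 : 0 < H := Nat.pos_of_ne_zero (NeZero.ne H)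
    have := Nat.le_of_dvd h0 e2
    omega
  set z : G := ((e.symm q : (S : Subgroup G)) : G) with hz
  have hzS : z ∈ (S : Subgroup G) := (e.symm q).2
  have hzz : z * z = 1 := by
    have h1 : (e.symm q : (S : Subgroup G)) * e.symm q = 1 := by
      apply e.injective
      rw [map_mul, e.apply_symm_apply, map_one]
      exact hqq
    exact congrArg Subtype.val h1
  have hz1 : z ≠ 1 := by
    intro h1
    apply hq1
    have h2 : (e.symm q : (S : Subgroup G)) = 1 := Subtype.ext h1
    have h3 := congrArg e h2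
    rwa [e.apply_symm_apply, map_one] at h3
  have hzo : orderOf z = 2 := orderOf_eq_prime (by rw [pow_two]; exact hzz) hz1
  have hval : ∀ x (hx : x ∈ (S : Subgroup G)), e ⟨x, hx⟩ = q → x = z := by
    intro x hx h1
    have h2 : (⟨x, hx⟩ : (S : Subgroup G)) = e.symm q := by
      apply e.injective
      rw [h1, e.apply_symm_apply]
    exact congrArg Subtype.val h2
  have hval1 : ∀ x (hx : x ∈ (S : Subgroup G)), e ⟨x, hx⟩ = 1 → x = 1 := by
    intro x hx h1
    have h2 : (⟨x, hx⟩ : (S : Subgroup G)) = 1 := by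
      apply e.injective
      rw [h1, map_one]
    exact congrArg Subtype.val h2
  have hUS : ∀ x ∈ (S : Subgroup G), orderOf x = 2 → x = z := by
    intro x hx hxo
    have hxx : x * x = 1 := by
      have := pow_orderOf_eq_one x
      rwa [hxo, pow_two] at this
    apply hval x hx
    apply Cfsg.Agent.Lib.Quaternion.q_invol H
    · rw [← map_mul]
      have : (⟨x, hx⟩ : (S : Subgroup G)) * ⟨x, hx⟩ = 1 := Subtype.ext hxx
      rw [this, map_one]
    · intro h1
      have := hval1 x hx h1
      rw [this, orderOf_one] at hxo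
      omega
  refine ⟨z, hzS, Cfsg.Agent.Lib.ZsQ8Group.uinv_of_sylow S hzS hzo hUS, hUS, ?_⟩
  intro hH x hx hc
  have hc' : ∀ k, e ⟨x, hx⟩ * k = k * e ⟨x, hx⟩ := by
    intro k
    have h1 : (⟨x, hx⟩ : (S : Subgroup G)) * e.symm k = e.symm k * ⟨x, hx⟩ :=
      Subtype.ext (hc _ (e.symm k).2)
    have h2 := congrArg e h1
    rwa [map_mul, map_mul, e.apply_symm_apply] at h2
  rcases Cfsg.Agent.Lib.Quaternion.q_center H hH _ hc' with h1 | h1
  · exact Or.inl (hval1 x hx h1)
  · exact Or.inr (hval x hx h1)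

/-- Central elements of a group without normal subgroups of odd order are `2`-elements in every Sylow subgroup. -/
theorem center_mem_sylow (S : Sylow 2 G) (hO : ∀ N : Subgroup G, N.Normal → Odd (Nat.card N) → N = ⊥) {c : G}
    (hc : c ∈ Subgroup.center G) : c ∈ (S : Subgroup G) := by
  classical
  haveI : Fact (Nat.Prime 2) := ⟨Nat.prime_two⟩
  have ho0 : orderOf c ≠ 0 := (orderOf_pos c).ne'
  obtain ⟨s, r, hr, hsr⟩ := Nat.exists_eq_two_pow_mul_odd ho0
  have hzn : ∀ x ∈ Subgroup.center G, (Subgroup.zpowers x).Normal := by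
    intro x hx
    refine ⟨fun n hn g => ?_⟩
    have h1 : n ∈ Subgroup.center G := (Subgroup.zpowers_le.2 hx) hn
    rw [Subgroup.mem_center_iff.1 h1 g, mul_inv_cancel_right]
    exact hn
  have hc2 : c ^ 2 ^ s ∈ Subgroup.center G := Subgroup.pow_mem _ hc _
  have hd : 2 ^ s ∣ orderOf c := ⟨r, hsr⟩
  have hor : orderOf (c ^ 2 ^ s) = r := by
    rw [orderOf_pow_of_dvd (by positivity) hd, hsr]
    exact Nat.mul_div_cancel_left _ (by positivity)
  have h1 := hO _ (hzn _ hc2) (by rw [Nat.card_zpowers, hor]; exact hr)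
  have h2 : c ^ 2 ^ s = 1 := by
    have := Subgroup.mem_zpowers (c ^ 2 ^ s)
    rw [h1] at this
    exact Subgroup.mem_bot.1 this
  have h3 : IsPGroup 2 (Subgroup.zpowers c) := by
    obtain ⟨j, -, hj⟩ := (Nat.dvd_prime_pow Nat.prime_two).1 (orderOf_dvd_of_pow_eq_one h2)
    exact IsPGroup.of_card (n := j) (by rw [Nat.card_zpowers, hj])
  obtain ⟨T, hT⟩ := h3.exists_le_sylow
  obtain ⟨g, rfl⟩ := MulAction.exists_smul_eq G S T
  have h4 := (Cfsg.Agent.Lib.SylowCount.mem_smul_sylow g c S).1 (hT (Subgroup.mem_zpowers c))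
  have h5 : g⁻¹ * c * g = c := by
    rw [mul_assoc, ← Subgroup.mem_center_iff.1 hc g]
    group
  rwa [h5] at h4

/-- **Brauer--Suzuki**. -/
theorem center_quat (S : Sylow 2 G) (n : ℕ) (e : (S : Subgroup G) ≃* QuaternionGroup (2 ^ (n + 1)))
    (hO : ∀ N : Subgroup G, N.Normal → Odd (Nat.card N) → N = ⊥) : Nat.card (Subgroup.center G) = 2 := by
  classical
  haveI : NeZero (2 ^ (n + 1)) := ⟨by positivity⟩
  obtain ⟨z, hzS, h, hUS, hcen⟩ := exists_uinv_quat S (2 ^ (n + 1)) e
  obtain ⟨N, hNn, hNo, hN⟩ := zstar_uinv h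
  have hNb := hO N hNn hNo
  have hzz : z * z = 1 := by
    have := pow_orderOf_eq_one z
    rwa [h.1, pow_two] at this
  have hzi : z⁻¹ = z := inv_eq_of_mul_eq_one_left hzz
  have hzc : z ∈ Subgroup.center G := by
    rw [Subgroup.mem_center_iff]
    intro g
    have h1 := hN g
    rw [hNb, Subgroup.mem_bot] at h1
    have h2 : z * g * z⁻¹ = g := by
      have := mul_eq_one_iff_eq_inv.1 h1
      rw [this, inv_inv]
    calc g * z = z * g * z⁻¹ * z := by rw [h2]
      _ = z * g := by group
  have heq : Subgroup.center G = Subgroup.zpowers z := by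
    apply le_antisymm
    · intro c hc
      have hcS := center_mem_sylow S hO hc
      have hH : 2 ≤ 2 ^ (n + 1) := by
        calc 2 = 2 ^ 1 := by norm_num
          _ ≤ _ := Nat.pow_le_pow_right (by norm_num) (by omega)
      rcases hcen hH c hcS (fun y _ => ((Subgroup.mem_center_iff.1 hc y).symm)) with rfl | rfl
      · exact one_mem _
      · exact Subgroup.mem_zpowers _
    · exact Subgroup.zpowers_le.2 hzc
  rw [heq, Nat.card_zpowers, h.1]

/-- Involutions are conjugate to `z`. -/
theorem exists_conj_of_invol (S : Sylow 2 G) {z : G} (hUS : ∀ x ∈ (S : Subgroup G), orderOf x = 2 → x = z) {t : G}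
    (ht : orderOf t = 2) : ∃ g : G, t = g * z * g⁻¹ := by
  obtain ⟨w, hw⟩ := Cfsg.Agent.Lib.ZsQ8Group.exists_conj_mem S ht
  have h1 := hUS _ hw (by rw [orderOf_cj]; exact ht)
  refine ⟨w⁻¹, ?_⟩
  rw [← h1]
  group

/-- The subgroup generated by the involutions has a cyclic Sylow `2`-subgroup. -/
theorem cyclic_closure (S : Sylow 2 G) {z : G} (h : UInv z) (hUS : ∀ x ∈ (S : Subgroup G), orderOf x = 2 → x = z)
    (Q : Sylow 2 ↥(Subgroup.closure {g : G | orderOf g = 2})) : IsCyclic Q := by
  classical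
  haveI : Fact (Nat.Prime 2) := ⟨Nat.prime_two⟩
  obtain ⟨N, hNn, hNo, hN⟩ := zstar_uinv h
  have hzz : z * z = 1 := by
    have := pow_orderOf_eq_one z
    rwa [h.1, pow_two] at this
  have hzi : z⁻¹ = z := inv_eq_of_mul_eq_one_left hzz
  set H : Subgroup G := N ⊔ Subgroup.zpowers z with hH
  have hle : Subgroup.closure {g : G | orderOf g = 2} ≤ H := by
    rw [Subgroup.closure_le]
    intro t ht
    obtain ⟨g, rfl⟩ := exists_conj_of_invol S hUS ht
    have h1 := hN g
    show g * z * g⁻¹ ∈ H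
    have e : g * z * g⁻¹ = z * (z * g * z⁻¹ * g⁻¹) := by
      rw [hzi]
      calc g * z * g⁻¹ = (z * z) * (g * z * g⁻¹) := by rw [hzz, one_mul]
        _ = _ := by group
    rw [e]
    exact H.mul_mem (Subgroup.mem_sup_right (Subgroup.mem_zpowers z)) (Subgroup.mem_sup_left h1)
  have hcard : Nat.card H ∣ Nat.card N * 2 := by
    have h1 := (Cfsg.Agent.Lib.SigFunc.card_sup_dvd_and_solvable N (Subgroup.zpowers z) (by
      rw [Subgroup.normalizer_eq_top_iff.2 hNn]
      exact le_top)).1
    rwa [Nat.card_zpowers, h.1] at h1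
  -- the image of `Q` in `H`
  have hQ : IsPGroup 2 (Q : Subgroup (Subgroup.closure {g : G | orderOf g = 2})) := Q.isPGroup'
  obtain ⟨e, he⟩ := IsPGroup.iff_card.1 hQ
  have hmap : Nat.card (Q : Subgroup (Subgroup.closure {g : G | orderOf g = 2})) = Nat.card ((Q : Subgroup (Subgroup.closure {g : G | orderOf g = 2})).map (Subgroup.closure {g : G | orderOf g = 2}).subtype) :=
    (Subgroup.card_map_of_injective (Subgroup.closure {g : G | orderOf g = 2}).subtype_injective).symm
  have hle2 : (Q : Subgroup (Subgroup.closure {g : G | orderOf g = 2})).map (Subgroup.closure {g : G | orderOf g = 2}).subtype ≤ H :=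
    (Subgroup.map_subtype_le _).trans hle
  have hdvd : Nat.card (Q : Subgroup (Subgroup.closure {g : G | orderOf g = 2})) ∣ Nat.card N * 2 := by
    rw [hmap]
    exact (Subgroup.card_dvd_of_le hle2).trans hcard
  have he2 : 2 ^ e ∣ 2 := by
    rw [he] at hdvd
    rw [mul_comm] at hdvd
    exact (Nat.Coprime.pow_left e (Nat.coprime_two_left.2 hNo)).dvd_of_dvd_mul_right hdvd
  have hple : e ≤ 1 := (Nat.pow_dvd_pow_iff_le_right (by norm_num : 1 < 2)).1 (by rw [pow_one]; exact he2)
  interval_cases e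
  · haveI : Subsingleton (Q : Subgroup (Subgroup.closure {g : G | orderOf g = 2})) := by
      apply (Nat.card_eq_one_iff_unique.1 (by simpa using he)).1
    exact isCyclic_of_subsingleton
  · haveI : Fact (Nat.Prime (Nat.card (Q : Subgroup (Subgroup.closure {g : G | orderOf g = 2})))) := ⟨by rw [he]; norm_num⟩
    exact isCyclic_of_prime_card rfl

end Cfsg.Agent.Lib.ZsCor
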